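import Cfsg.Statements.S0743
import Mathlib.Tactic
import Cfsg.Agent.Lib.AltGroups.MultiTrans

set_option autoImplicit false
open Cfsg

namespace Cfsg.Agent.S0743

/-- Gleason's Lemma: let `p` be a prime and `1 ≤ k < n`; if every `k`-subset of the `n` points is exactly the fixed-point set of some `p`-subgroup of `G`, then `G` is `k`-transitive. -/
theorem result {α : Type*} [Fintype α] [DecidableEq α] (G : Subgroup (Equiv.Perm α)) {p k : ℕ} (hp : p.Prime) (hk : 1 ≤ k) (hkn : k < Fintype.card α) (h : ∀ s : Finset α, s.card = k → ∃ P : Subgroup G, IsPGroup p P ∧ MulAction.fixedPoints P α = (s : Set α)) : MulAction.IsMultiplyPretransitive G α k := by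
  classical
  haveI := Fact.mk hp
  apply CfsgLib.AltGroups.isMultiplyPretransitive_of_fixingSubgroup
  intro s hs x y hx hy
  by_contra hne
  push Not at hne
  set K := fixingSubgroup G (s : Set α) with hK
  set O : Set α := MulAction.orbit K x with hO
  have hxO : x ∈ O := MulAction.mem_orbit_self x
  have hyO : y ∉ O := fun ⟨g, hg⟩ => hne g g.2 hg
  have hOs : ∀ z ∈ O, z ∉ s := by
    rintro _ ⟨g, rfl⟩ hz
    have := (mem_fixingSubgroup_iff G).mp (K.inv_mem g.2) _ hz
    change (g : G)⁻¹ • ((g : G) • x) = (g : G) • x at this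
    rw [inv_smul_smul] at this
    change (g : G) • x ∈ s at hz
    rw [← this] at hz
    exact hx hz
  have key : ∀ u : Finset α, u.card = k → s ⊆ u → Nat.card O ≡ (u.filter (· ∈ O)).card [MOD p] := by
    intro u hu hsu
    obtain ⟨P, hP, hfix⟩ := h u hu
    have hPK : P ≤ K := fun g hg => (mem_fixingSubgroup_iff G).mpr fun z hz => by
      have : z ∈ MulAction.fixedPoints P α := by rw [hfix]; exact hsu hz
      exact this ⟨g, hg⟩
    let A : SubMulAction P α :=
      { carrier := O
        smul_mem' := fun g z hz => by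
          obtain ⟨f, rfl⟩ := hz
          exact ⟨⟨g, hPK g.2⟩ * f, mul_smul _ _ _⟩ }
    have := hP.card_modEq_card_fixedPoints (α := A)
    have hc : Nat.card (MulAction.fixedPoints P A) = (u.filter (· ∈ O)).card := by
      rw [← Nat.card_eq_finsetCard]
      refine Nat.card_congr
        { toFun := fun z => ⟨z.1.1, Finset.mem_filter.mpr ⟨?_, z.1.2⟩⟩
          invFun := fun z => ⟨⟨z.1, (Finset.mem_filter.mp z.2).2⟩, fun g => Subtype.ext ?_⟩
          left_inv := fun z => rfl
          right_inv := fun z => rfl }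
      · have : z.1.1 ∈ MulAction.fixedPoints P α := fun g => congrArg Subtype.val (z.2 g)
        rw [hfix] at this
        exact this
      · have : z.1 ∈ MulAction.fixedPoints P α := by rw [hfix]; exact (Finset.mem_filter.mp z.2).1
        exact this g
    rwa [hc] at this
  have hxy : x ≠ y := fun h => hyO (h ▸ hxO)
  obtain ⟨R, hR, hRc⟩ : ∃ R ⊆ (Finset.univ \ (insert x (insert y s))), R.card = k - s.card - 1 := by
    apply Finset.exists_subset_card_eq
    rw [Finset.card_sdiff_of_subset (Finset.subset_univ _), Finset.card_univ,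
      Finset.card_insert_of_notMem (by simp [hxy, hx]), Finset.card_insert_of_notMem hy]
    omega
  have hR' : ∀ z ∈ R, z ≠ x ∧ z ≠ y ∧ z ∉ s := by
    intro z hz
    simpa using hR hz
  have hdis : Disjoint s R := Finset.disjoint_right.mpr fun z hz => (hR' z hz).2.2
  have hcard : ∀ z, (z = x ∨ z = y) → (insert z (s ∪ R)).card = k := by
    intro z hz
    rw [Finset.card_insert_of_notMem, Finset.card_union_of_disjoint hdis, hRc]
    · omega
    · rcases hz with rfl | rfl <;> simp only [Finset.mem_union, not_or]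
      · exact ⟨hx, fun h => (hR' _ h).1 rfl⟩
      · exact ⟨hy, fun h => (hR' _ h).2.1 rfl⟩
  have hsub : ∀ z, s ⊆ insert z (s ∪ R) := fun z w hw => by simp [hw]
  have h1 := key _ (hcard x (Or.inl rfl)) (hsub x)
  have h2 := key _ (hcard y (Or.inr rfl)) (hsub y)
  rw [Finset.filter_insert, if_pos hxO] at h1
  rw [Finset.filter_insert, if_neg hyO] at h2
  rw [Finset.card_insert_of_notMem (by
    simp only [Finset.mem_filter, Finset.mem_union, not_and, not_or]
    rintro (h | h)
    · exact absurd h hx
    · exact absurd rfl (hR' _ h).1)] at h1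
  have h3 : (Finset.filter (· ∈ O) (s ∪ R)).card + 1 ≡ (Finset.filter (· ∈ O) (s ∪ R)).card + 0 [MOD p] := by
    simpa using h1.symm.trans h2
  have h4 := Nat.ModEq.add_left_cancel' _ h3
  have h5 := (Nat.modEq_zero_iff_dvd).mp h4
  exact hp.one_lt.ne' (Nat.dvd_one.mp h5)

end Cfsg.Agent.S0743
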