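import Cfsg.Statements.S0736
import Mathlib.Data.Nat.Choose.Lucas
import Mathlib.Data.Nat.Factorization.Basic
import Mathlib.Tactic

set_option autoImplicit false
open Cfsg

namespace Cfsg.Agent.S0736
open scoped Pointwise

/-- Lucas: `C(q m + (q - 1), q - 1) ≡ 1` modulo `p` for a power `q` of `p`. -/
theorem choose_pow_modEq_one {p : ℕ} (hp : p.Prime) : ∀ (e m : ℕ),
    (p ^ e * m + (p ^ e - 1)).choose (p ^ e - 1) ≡ 1 [MOD p] := by
  intro e
  induction e with
  | zero => intro m; simp [Nat.ModEq.refl]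
  | succ e ih =>
    intro m
    haveI := Fact.mk hp
    have hq : 0 < p ^ e := pow_pos hp.pos e
    have e1 : p ^ (e + 1) * m + (p ^ (e + 1) - 1) = (p - 1) + p * (p ^ e * m + (p ^ e - 1)) := by
      obtain ⟨q, hq'⟩ : ∃ q, p ^ e = q + 1 := ⟨p ^ e - 1, by omega⟩
      obtain ⟨r, hr⟩ : ∃ r, p = r + 1 := ⟨p - 1, by have := hp.pos; omega⟩
      have h1 : p ^ (e + 1) = (q * r + q + r) + 1 := by rw [pow_succ, hq', hr]; ring
      rw [h1, Nat.add_sub_cancel, hq', Nat.add_sub_cancel, hr, Nat.add_sub_cancel]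
      ring
    have e2 : p ^ (e + 1) - 1 = (p - 1) + p * (p ^ e - 1) := by
      rw [Nat.mul_sub_one, ← pow_succ', ]
      have : p ≤ p ^ (e + 1) := Nat.le_self_pow (by omega) p
      have := hp.pos
      omega
    have h := Choose.choose_modEq_choose_mod_mul_choose_div_nat (p := p)
      (n := p ^ (e + 1) * m + (p ^ (e + 1) - 1)) (k := p ^ (e + 1) - 1)
    have hlt : p - 1 < p := Nat.sub_lt hp.pos one_pos
    have hmod : ∀ a, ((p - 1) + p * a) % p = p - 1 := fun a => by
      rw [Nat.add_mul_mod_self_left, Nat.mod_eq_of_lt hlt]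
    have hdiv : ∀ a, ((p - 1) + p * a) / p = a := fun a => by
      rw [Nat.add_mul_div_left _ _ hp.pos, Nat.div_eq_of_lt hlt, zero_add]
    rw [e1, e2, hmod, hmod, hdiv, hdiv, Nat.choose_self, one_mul] at h
    rw [e1, e2]
    exact h.trans (ih m)

/-- Double counting of the members of a family of `r`-sets below the `r+1`-subsets of a set. -/
theorem double_count {α : Type*} [DecidableEq α] (O : Finset (Finset α)) {k c : ℕ} (hk : 1 ≤ k)
    (hO : ∀ A ∈ O, A.card = k - 1)
    (hc : ∀ T : Finset α, T.card = k → (O.filter (· ⊆ T)).card = c) (S : Finset α) :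
    (O.filter (· ⊆ S)).card * (S.card - (k - 1)) = S.card.choose k * c := by
  have h1 : ∀ A ∈ O.filter (· ⊆ S),
      ((S.powersetCard k).filter (A ⊆ ·)).card = S.card - (k - 1) := by
    intro A hA
    simp only [Finset.mem_filter] at hA
    rw [show S.card - (k - 1) = (S \ A).card by rw [Finset.card_sdiff_of_subset hA.2, hO A hA.1]]
    refine (Finset.card_bij (fun z _ => insert z A) ?_ ?_ ?_).symm
    · intro z hz
      simp only [Finset.mem_sdiff] at hz
      simp only [Finset.mem_filter, Finset.mem_powersetCard]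
      exact ⟨⟨Finset.insert_subset hz.1 hA.2, by rw [Finset.card_insert_of_notMem hz.2, hO A hA.1]; omega⟩,
        Finset.subset_insert z A⟩
    · intro z hz w hw h
      simp only [Finset.mem_sdiff] at hz hw
      have : z ∈ insert w A := h ▸ Finset.mem_insert_self z A
      rcases Finset.mem_insert.mp this with h' | h'
      · exact h'
      · exact absurd h' hz.2
    · intro T hT
      simp only [Finset.mem_filter, Finset.mem_powersetCard] at hT
      have hlt : (T \ A).card = 1 := by rw [Finset.card_sdiff_of_subset hT.2, hT.1.2, hO A hA.1]; omega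
      obtain ⟨z, hz⟩ := Finset.card_eq_one.mp hlt
      have hzm : z ∈ T \ A := hz ▸ Finset.mem_singleton_self z
      simp only [Finset.mem_sdiff] at hzm
      refine ⟨z, Finset.mem_sdiff.mpr ⟨hT.1.1 hzm.1, hzm.2⟩, ?_⟩
      rw [Finset.insert_eq, ← hz, Finset.sdiff_union_of_subset hT.2]
  calc (O.filter (· ⊆ S)).card * (S.card - (k - 1))
      = ∑ A ∈ O.filter (· ⊆ S), ((S.powersetCard k).filter (A ⊆ ·)).card := by
        rw [Finset.sum_congr rfl h1, Finset.sum_const, smul_eq_mul]
    _ = ∑ T ∈ S.powersetCard k, ((O.filter (· ⊆ S)).filter (· ⊆ T)).card := by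
        simp only [Finset.card_filter, Finset.sum_filter]
        rw [Finset.sum_comm]
        refine Finset.sum_congr rfl fun A _ => ?_
        by_cases h : A ⊆ S <;> simp [h]
    _ = ∑ T ∈ S.powersetCard k, c := by
        refine Finset.sum_congr rfl fun T hT => ?_
        simp only [Finset.mem_powersetCard] at hT
        rw [← hc T hT.2, Finset.filter_filter]
        refine congrArg Finset.card (Finset.filter_congr fun A _ => ?_)
        exact ⟨fun h => h.2, fun h => ⟨h.trans hT.1, h⟩⟩
    _ = S.card.choose k * c := by rw [Finset.sum_const, Finset.card_powersetCard, smul_eq_mul]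

/-- A `k`-homogeneous permutation group of degree `n`, `k ≥ 2`, with `k + q - 1 ≤ n` for every prime power `q` dividing `k`, is `(k-1)`-homogeneous. -/
theorem result {α : Type*} [Fintype α] [DecidableEq α] (G : Subgroup (Equiv.Perm α)) {k : ℕ} (hk : 2 ≤ k) (hG : MulAction.IsPretransitive G (Set.powersetCard α k)) (hq : ∀ q : ℕ, IsPrimePow q → q ∣ k → k + q - 1 ≤ Fintype.card α) : MulAction.IsPretransitive G (Set.powersetCard α (k - 1)) := by
  classical
  obtain ⟨p₀, hp₀, hp₀k⟩ := Nat.exists_prime_and_dvd (n := k) (by omega)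
  have hkn : k ≤ Fintype.card α := by
    have := hq p₀ hp₀.isPrimePow hp₀k
    have := hp₀.two_le
    omega
  refine ⟨fun A₀ B₀ => ?_⟩
  set O : Finset (Finset α) := Finset.univ.image (fun g : G => g • (A₀ : Finset α)) with hOdef
  have hA₀ : (A₀ : Finset α).card = k - 1 := Set.powersetCard.mem_iff.mp A₀.2
  have hB₀ : (B₀ : Finset α).card = k - 1 := Set.powersetCard.mem_iff.mp B₀.2
  have hO : ∀ A ∈ O, A.card = k - 1 := by
    intro A hA
    obtain ⟨g, -, rfl⟩ := Finset.mem_image.mp hA
    rw [Finset.card_smul_finset, hA₀]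
  have hGO : ∀ (g : G), ∀ A ∈ O, g • A ∈ O := by
    intro g A hA
    obtain ⟨f, -, rfl⟩ := Finset.mem_image.mp hA
    exact Finset.mem_image.mpr ⟨g * f, Finset.mem_univ _, mul_smul g f _⟩
  obtain ⟨T₀, hT₀, hT₀c⟩ := Finset.exists_superset_card_eq (s := (A₀ : Finset α)) (n := k)
    (by omega) hkn
  set c := (O.filter (· ⊆ T₀)).card with hc
  have hconst : ∀ T : Finset α, T.card = k → (O.filter (· ⊆ T)).card = c := by
    intro T hT
    obtain ⟨g, hg⟩ := MulAction.exists_smul_eq G
      (⟨T₀, Set.powersetCard.mem_iff.mpr hT₀c⟩ : Set.powersetCard α k) ⟨T, Set.powersetCard.mem_iff.mpr hT⟩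
    have hg' : g • T₀ = T := congrArg Subtype.val hg
    rw [hc, ← hg']
    refine (Finset.card_bij (fun A _ => g • A) ?_ ?_ ?_).symm
    · intro A hA
      simp only [Finset.mem_filter] at hA ⊢
      exact ⟨hGO g A hA.1, Finset.smul_finset_subset_smul_finset hA.2⟩
    · intro A _ B _ h
      exact smul_left_cancel g h
    · intro B hB
      simp only [Finset.mem_filter] at hB
      refine ⟨g⁻¹ • B, Finset.mem_filter.mpr ⟨hGO _ B hB.1, ?_⟩, smul_inv_smul g B⟩
      rw [← inv_smul_smul g T₀]
      exact Finset.smul_finset_subset_smul_finset hB.2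
  have hcpos : 0 < c := Finset.card_pos.mpr
    ⟨A₀, Finset.mem_filter.mpr ⟨Finset.mem_image.mpr ⟨1, Finset.mem_univ _, one_smul _ _⟩, hT₀⟩⟩
  have hck : c ≤ k := by
    calc c ≤ (T₀.powersetCard (k - 1)).card := Finset.card_le_card fun A hA => by
          simp only [Finset.mem_filter] at hA
          exact Finset.mem_powersetCard.mpr ⟨hA.2, hO A hA.1⟩
      _ = k := by
          rw [Finset.card_powersetCard, hT₀c]
          obtain ⟨j, rfl⟩ : ∃ j, k = j + 1 := ⟨k - 1, by omega⟩
          simp
  have hdvd : k ∣ c := by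
    rw [Nat.dvd_iff_prime_pow_dvd_dvd]
    intro p e hp hpe
    rcases Nat.eq_zero_or_pos e with rfl | he
    · simp
    have hqn := hq (p ^ e) (hp.isPrimePow.pow he.ne') hpe
    obtain ⟨S, -, hS⟩ := Finset.exists_subset_card_eq (s := (Finset.univ : Finset α)) (n := k + p ^ e - 1)
      (by rw [Finset.card_univ]; exact hqn)
    have hd := double_count O (by omega) hO hconst S
    have hq0 : 0 < p ^ e := pow_pos hp.pos e
    rw [hS, show k + p ^ e - 1 - (k - 1) = p ^ e by omega] at hd
    obtain ⟨m, hm⟩ := hpe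
    have hmod := choose_pow_modEq_one hp e m
    rw [← hm, show k + (p ^ e - 1) = k + p ^ e - 1 by omega] at hmod
    have hsymm : (k + p ^ e - 1).choose k = (k + p ^ e - 1).choose (p ^ e - 1) :=
      Nat.choose_symm_of_eq_add (by omega)
    rw [hsymm] at hd
    have hnd : ¬ p ∣ (k + p ^ e - 1).choose (p ^ e - 1) := by
      intro h
      have := (Nat.modEq_zero_iff_dvd.mpr h).symm.trans hmod
      have h1 : p ∣ 1 := Nat.modEq_zero_iff_dvd.mp this.symm
      exact hp.one_lt.ne' (Nat.dvd_one.mp h1)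
    exact ((hp.coprime_iff_not_dvd.mpr hnd).pow_left e).dvd_of_dvd_mul_left ⟨_, by rw [← hd, mul_comm]⟩
  have hck' : c = k := le_antisymm hck (Nat.le_of_dvd hcpos hdvd)
  obtain ⟨T, hT, hTc⟩ := Finset.exists_superset_card_eq (s := (B₀ : Finset α)) (n := k) (by omega) hkn
  have heq : O.filter (· ⊆ T) = T.powersetCard (k - 1) := by
    refine Finset.eq_of_subset_of_card_le (fun A hA => ?_) ?_
    · simp only [Finset.mem_filter] at hA
      exact Finset.mem_powersetCard.mpr ⟨hA.2, hO A hA.1⟩
    · rw [hconst T hTc, Finset.card_powersetCard, hTc, hck']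
      obtain ⟨j, rfl⟩ : ∃ j, k = j + 1 := ⟨k - 1, by omega⟩
      simp
  have hmem : (B₀ : Finset α) ∈ O.filter (· ⊆ T) := by
    rw [heq]; exact Finset.mem_powersetCard.mpr ⟨hT, hB₀⟩
  obtain ⟨g, -, hg⟩ := Finset.mem_image.mp (Finset.mem_filter.mp hmem).1
  exact ⟨g, Subtype.ext hg⟩

end Cfsg.Agent.S0736
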