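import Mathlib.GroupTheory.Focal
import Cfsg.Statements.S0950
-- no library imports needed

set_option autoImplicit false
open Cfsg

namespace Cfsg.Agent.S0950

theorem q8_sq : ∀ g : QuaternionGroup 2, g ^ 2 = 1 → g = 1 ∨ g = QuaternionGroup.a 2 := by decide

theorem q8_four : ∀ g h : QuaternionGroup 2, g ^ 2 ≠ 1 →
    g ^ 2 = QuaternionGroup.a 2 ∧ g ^ 4 = 1 ∧ (h * g * h⁻¹ = g ∨ h * g * h⁻¹ = g ^ 3) ∧
    ((g = QuaternionGroup.a 1 ∨ g = QuaternionGroup.a 1 ^ 3) ∨
     (g = QuaternionGroup.xa 0 ∨ g = QuaternionGroup.xa 0 ^ 3) ∨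
     (g = QuaternionGroup.xa 1 ∨ g = QuaternionGroup.xa 1 ^ 3)) := by decide

variable {G : Type*} [Group G] [Finite G]

theorem exists_gen {S : Subgroup G} (e : S ≃* QuaternionGroup 2) {A : Subgroup G} (hA : A ≤ S)
    (hA4 : Nat.card A = 4) :
    ∃ g : S, (e g) ^ 2 ≠ 1 ∧ A = Subgroup.zpowers (g : G) := by
  classical
  by_contra hcon
  push Not at hcon
  have hall : ∀ a : A, e ⟨a, hA a.2⟩ = 1 ∨ e ⟨a, hA a.2⟩ = QuaternionGroup.a 2 := by
    intro a
    apply q8_sq
    by_contra h2
    refine hcon ⟨a, hA a.2⟩ h2 ?_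
    have ho : orderOf (a : G) = 4 := by
      rw [show (a : G) = ((⟨a, hA a.2⟩ : S) : G) from rfl, Subgroup.orderOf_coe, ← e.orderOf_eq]
      apply orderOf_eq_prime_pow (p := 2) (n := 1)
      · simpa using h2
      · exact (q8_four _ 1 h2).2.1
    refine (Subgroup.eq_of_le_of_card_ge (Subgroup.zpowers_le.2 a.2) ?_).symm
    rw [hA4, Nat.card_zpowers, ho]
  have : Nat.card A ≤ 2 := by
    have hinj : Function.Injective (fun a : A => decide (e ⟨a, hA a.2⟩ = 1)) := by
      intro a b hab
      simp only [decide_eq_decide] at hab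
      apply Subtype.ext
      have : e ⟨a, hA a.2⟩ = e ⟨b, hA b.2⟩ := by
        rcases hall a with ha | ha <;> rcases hall b with hb | hb
        · rw [ha, hb]
        · rw [ha]; exact (hab.1 ha).symm
        · rw [hb]; exact hab.2 hb
        · rw [ha, hb]
      have h' : (⟨(a : G), hA a.2⟩ : S) = ⟨(b : G), hA b.2⟩ := e.injective this
      exact congrArg (fun s : S => (s : G)) h'
    have := Nat.card_le_card_of_injective _ hinj
    simpa using this
  omega

theorem zpowers_pow_three {g : G} (h4 : g ^ 4 = 1) : Subgroup.zpowers (g ^ 3) = Subgroup.zpowers g := by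
  refine le_antisymm (Subgroup.zpowers_le.2 (pow_mem (Subgroup.mem_zpowers g) 3)) ?_
  refine Subgroup.zpowers_le.2 ?_
  have h3 : (g ^ 3) ^ 3 = g := by
    rw [← pow_mul, show 3 * 3 = 4 + 4 + 1 by norm_num, pow_add, pow_add, h4]; simp
  have h9 : (g ^ 3) ^ 3 ∈ Subgroup.zpowers (g ^ 3) := pow_mem (Subgroup.mem_zpowers _) 3
  rwa [h3] at h9

/-- The three cyclic subgroups of order four, indexed by their standard generators. -/
def gen (i : Fin 3) : QuaternionGroup 2 :=
  ![QuaternionGroup.a 1, QuaternionGroup.xa 0, QuaternionGroup.xa 1] i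

theorem exists_index {S : Subgroup G} (e : S ≃* QuaternionGroup 2) {A : Subgroup G} (hA : A ≤ S)
    (hA4 : Nat.card A = 4) : ∃ i : Fin 3, A = Subgroup.zpowers ((e.symm (gen i) : S) : G) := by
  obtain ⟨g, hg2, rfl⟩ := exists_gen e hA hA4
  have h4 : ∀ i : Fin 3, gen i ^ 4 = 1 := by decide
  have hcase : ∃ i : Fin 3, e g = gen i ∨ e g = gen i ^ 3 := by
    rcases (q8_four _ 1 hg2).2.2.2 with h | h | h
    · exact ⟨0, h⟩
    · exact ⟨1, h⟩
    · exact ⟨2, h⟩
  obtain ⟨i, h | h⟩ := hcase
  · exact ⟨i, by rw [← h, e.symm_apply_apply]⟩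
  · refine ⟨i, ?_⟩
    have hg : g = e.symm (gen i) ^ 3 := by rw [← map_pow, ← h, e.symm_apply_apply]
    rw [hg, Subgroup.coe_pow, zpowers_pow_three]
    rw [← Subgroup.coe_pow, ← map_pow, h4 i, map_one, Subgroup.coe_one]

theorem transitive_of_fusion (S : Sylow 2 G) (e : (S : Subgroup G) ≃* QuaternionGroup 2) {x y : G}
    (hx : x ∈ (S : Subgroup G)) (hy : y ∈ (S : Subgroup G)) (hxy : IsConj x y)
    (h2 : (x⁻¹ * y) ^ 2 ≠ 1) (A B : Subgroup G) (hA : A ≤ S) (hB : B ≤ S)
    (hA4 : Nat.card A = 4) (hB4 : Nat.card B = 4) :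
    ∃ n ∈ Subgroup.normalizer ((S : Subgroup G) : Set G),
      B = A.map (MulAut.conj n).toMonoidHom := by
  classical
  obtain ⟨u, hu⟩ := isConj_iff.1 hxy
  set x' : (S : Subgroup G) := ⟨x, hx⟩
  set y' : (S : Subgroup G) := ⟨y, hy⟩
  have hxy2 : (e x')⁻¹ * e y' ≠ 1 ∧ ((e x')⁻¹ * e y') ^ 2 ≠ 1 := by
    rw [← map_inv, ← map_mul, ← map_pow]
    refine ⟨fun h => h2 ?_, fun h => h2 (congrArg Subtype.val (e.injective (h.trans e.map_one.symm)))⟩
    have : x⁻¹ * y = 1 := congrArg Subtype.val (e.injective (h.trans e.map_one.symm))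
    rw [this, one_pow]
  have hox : orderOf x = orderOf y := by
    rw [← hu]; exact ((MulAut.conj u).orderOf_eq x).symm
  have hx4 : (e x') ^ 2 ≠ 1 := by
    intro h
    have hy' : (e y') ^ 2 = 1 := by
      apply orderOf_dvd_iff_pow_eq_one.1
      rw [e.orderOf_eq, ← Subgroup.orderOf_coe, ← hox, show x = (x' : G) from rfl,
        Subgroup.orderOf_coe, ← e.orderOf_eq]
      exact orderOf_dvd_of_pow_eq_one h
    rcases q8_sq _ h with h' | h' <;> rcases q8_sq _ hy' with h'' | h'' <;> rw [h', h''] at hxy2 <;>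
      revert hxy2 <;> decide
  -- the cyclic group generated by y is normal in S and is moved by u
  set A0 := Subgroup.zpowers x
  set B0 := Subgroup.zpowers y
  have hnorm : ∀ z : G, z ∈ (S : Subgroup G) → (z : G) ^ 2 ≠ 1 →
      (S : Subgroup G) ≤ Subgroup.normalizer ((Subgroup.zpowers z : Subgroup G) : Set G) := by
    intro z hz hz2 s hs
    have hq := q8_four (e ⟨z, hz⟩) (e ⟨s, hs⟩) (fun h => hz2 (congrArg Subtype.val
      (e.injective ((map_pow e _ 2).trans (h.trans e.map_one.symm)))))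
    have hcase : s * z * s⁻¹ ∈ Subgroup.zpowers z := by
      rcases hq.2.2.1 with h | h
      · rw [← map_inv, ← map_mul, ← map_mul] at h
        rw [show s * z * s⁻¹ = z from congrArg Subtype.val (e.injective h)]
        exact Subgroup.mem_zpowers z
      · rw [← map_inv, ← map_mul, ← map_mul, ← map_pow] at h
        rw [show s * z * s⁻¹ = z ^ 3 from congrArg Subtype.val (e.injective h)]
        exact pow_mem (Subgroup.mem_zpowers z) 3
    have hmap : (Subgroup.zpowers z).map (MulAut.conj s).toMonoidHom = Subgroup.zpowers z := by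
      refine Subgroup.eq_of_le_of_card_ge ?_ ?_
      · rw [MonoidHom.map_zpowers]; exact Subgroup.zpowers_le.2 hcase
      · rw [Subgroup.card_map_of_injective (MulAut.conj s).injective]
    rw [Subgroup.mem_normalizer_iff]
    intro w
    conv_rhs => rw [← hmap, Subgroup.mem_map]
    exact ⟨fun hw => ⟨w, hw, rfl⟩, fun ⟨w', hw', h⟩ => by
      rwa [← (MulAut.conj s).injective (h : MulAut.conj s w' = MulAut.conj s w)]⟩
  have hx2 : x ^ 2 ≠ 1 := fun h => hx4 (by rw [← map_pow, ← map_one e]; congr 1; exact Subtype.ext h)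
  have hy2 : y ^ 2 ≠ 1 := fun h => hx2 (orderOf_dvd_iff_pow_eq_one.1 (hox ▸ orderOf_dvd_of_pow_eq_one h))
  set K := Subgroup.normalizer ((B0 : Subgroup G) : Set G)
  have hSK : (S : Subgroup G) ≤ K := hnorm y hy hy2
  have hSK' : ((u • S : Sylow 2 G) : Subgroup G) ≤ K := by
    intro w hw
    rw [Sylow.coe_subgroup_smul, Subgroup.mem_pointwise_smul_iff_inv_smul_mem] at hw
    have hn := hnorm x hx hx2 hw
    rw [Subgroup.mem_normalizer_iff] at hn ⊢
    intro v
    have hB0 : B0 = A0.map (MulAut.conj u).toMonoidHom := by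
      rw [MonoidHom.map_zpowers]; exact congrArg Subgroup.zpowers hu.symm
    have hmem : ∀ v, v ∈ B0 ↔ u⁻¹ * v * u ∈ A0 := fun v => by
      rw [hB0, Subgroup.mem_map_equiv, MulAut.conj_symm_apply]
    rw [hmem, hmem, hn (u⁻¹ * v * u)]
    simp [MulAut.smul_def, mul_assoc, A0]
  obtain ⟨m, hm⟩ := MulAction.exists_smul_eq K ((u • S).subtype hSK') (S.subtype hSK)
  set n0 : G := (m : G) * u with hn0def
  have hn0 : n0 ∈ Subgroup.normalizer ((S : Subgroup G) : Set G) := by
    show n0 ∈ Subgroup.normalizer (S : Set G)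
    simp_rw [Sylow.smul_subtype, Subgroup.smul_def, smul_smul] at hm
    exact Sylow.smul_eq_iff_mem_normalizer.mp (Sylow.subtype_injective hm)
  have hn0A : A0.map (MulAut.conj n0).toMonoidHom = B0 := by
    rw [MonoidHom.map_zpowers]
    show Subgroup.zpowers (n0 * x * n0⁻¹) = Subgroup.zpowers y
    have hmy : (m : G) * y * (m : G)⁻¹ ∈ B0 := (Subgroup.mem_normalizer_iff.1 m.2 y).1 (Subgroup.mem_zpowers y)
    rw [show n0 * x * n0⁻¹ = (m : G) * y * (m : G)⁻¹ by rw [hn0def, ← hu]; group]
    refine Subgroup.eq_of_le_of_card_ge (Subgroup.zpowers_le.2 hmy) ?_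
    rw [Nat.card_zpowers, Nat.card_zpowers]
    exact le_of_eq ((MulAut.conj (m : G)).orderOf_eq y).symm
  -- the action on the three subgroups
  set D : Fin 3 → Subgroup G := fun i => Subgroup.zpowers ((e.symm (gen i) : (S : Subgroup G)) : G) with hD
  have hDinj : Function.Injective D := by
    intro i j hij
    have hmem : ((e.symm (gen i) : (S : Subgroup G)) : G) ∈ D j := hij ▸ Subgroup.mem_zpowers _
    obtain ⟨k, hk⟩ := Subgroup.mem_zpowers_iff.1 hmem
    have hk' : gen j ^ k = gen i := by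
      have := congrArg e (Subtype.ext (hk) : (e.symm (gen j)) ^ k = e.symm (gen i))
      simpa using this
    have hmod : ∀ i j : Fin 3, ∀ r : Fin 4, gen j ^ (r : ℕ) = gen i → i = j := by decide
    have h4 : ∀ i : Fin 3, gen i ^ 4 = 1 := by decide
    refine hmod i j ⟨(k % 4).toNat, by omega⟩ ?_
    rw [← zpow_natCast, Int.toNat_of_nonneg (Int.emod_nonneg _ (by norm_num))]
    rw [← hk']
    conv_rhs => rw [← Int.emod_add_mul_ediv k 4, zpow_add, zpow_mul]
    rw [show gen j ^ (4 : ℤ) = 1 by exact_mod_cast h4 j]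
    simp
  have hDle : ∀ i, D i ≤ (S : Subgroup G) := fun i => Subgroup.zpowers_le.2 (e.symm (gen i)).2
  have hDcard : ∀ i, Nat.card (D i) = 4 := by
    intro i
    have : ∀ i : Fin 3, gen i ^ 4 = 1 ∧ gen i ^ 2 ≠ 1 := by decide
    rw [Nat.card_zpowers, Subgroup.orderOf_coe, e.symm.orderOf_eq]
    exact orderOf_eq_prime_pow (p := 2) (n := 1) (by simpa using (this i).2) (this i).1
  have hmove : ∀ n ∈ Subgroup.normalizer ((S : Subgroup G) : Set G), ∀ i,
      ∃ j, (D i).map (MulAut.conj n).toMonoidHom = D j := by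
    intro n hn i
    apply exists_index e
    · intro w hw
      obtain ⟨w', hw', rfl⟩ := Subgroup.mem_map.1 hw
      exact (Subgroup.mem_normalizer_iff.1 hn w').1 (hDle i hw')
    · rw [Subgroup.card_map_of_injective (MulAut.conj n).injective, hDcard]
  choose π hπ using fun i => hmove n0 hn0 i
  have hiter : ∀ (k : ℕ) i, (D i).map (MulAut.conj (n0 ^ k)).toMonoidHom = D (π^[k] i) := by
    intro k
    induction k with
    | zero =>
      intro i
      ext w
      simp
    | succ k ih =>
      intro i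
      rw [Function.iterate_succ_apply', ← hπ, ← ih, Subgroup.map_map]
      congr 1
      ext w
      simp [pow_succ', mul_assoc]
  obtain ⟨a, b, hb, hab⟩ : ∃ a b, Odd b ∧ orderOf n0 = 2 ^ a * b := by
    obtain ⟨a, b, hb, hab⟩ := Nat.exists_eq_two_pow_mul_odd (n := orderOf n0)
      (IsOfFinOrder.orderOf_pos (isOfFinOrder_of_finite n0)).ne'
    exact ⟨a, b, hb, hab⟩
  have hnS : n0 ^ b ∈ (S : Subgroup G) := by
    set N := Subgroup.normalizer ((S : Subgroup G) : Set G)
    have hSN : (S : Subgroup G) ≤ N := Subgroup.le_normalizer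
    haveI : ((S.subtype hSN : Sylow 2 N) : Subgroup N).Normal := by
      rw [Sylow.coe_subtype]; exact Subgroup.normal_in_normalizer
    have hz : IsPGroup 2 (Subgroup.zpowers (⟨n0, hn0⟩ ^ b : N)) := by
      intro w
      obtain ⟨k, hk⟩ := Subgroup.mem_zpowers_iff.1 w.2
      refine ⟨a, Subtype.ext (Subtype.ext ?_)⟩
      have hw : ((w : N) : G) = (n0 ^ b) ^ k := by rw [← hk]; simp
      push_cast
      rw [hw, ← zpow_natCast, ← zpow_mul, ← zpow_natCast, ← zpow_mul,
        show (b : ℤ) * (k * ((2 ^ a : ℕ) : ℤ)) = ((orderOf n0 : ℕ) : ℤ) * k by rw [hab]; push_cast; ring,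
        zpow_mul, zpow_natCast, pow_orderOf_eq_one, one_zpow]
    obtain ⟨T, hT⟩ := hz.exists_le_sylow
    letI := Sylow.unique_of_normal (S.subtype hSN) inferInstance
    rw [Subsingleton.elim T (S.subtype hSN), Sylow.coe_subtype] at hT
    exact Subgroup.mem_subgroupOf.1 (hT (Subgroup.mem_zpowers _))
  have hfixS : ∀ i, π^[b] i = i := by
    intro i
    apply hDinj
    rw [← hiter b i]
    have hz2 : ((e.symm (gen i) : (S : Subgroup G)) : G) ^ 2 ≠ 1 := by
      intro h
      have h' := congrArg e (Subtype.ext h : (e.symm (gen i)) ^ 2 = 1)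
      rw [map_pow, e.apply_symm_apply, map_one] at h'
      exact (by decide : ∀ i : Fin 3, gen i ^ 2 ≠ 1) i h'
    have hn := hnorm _ (e.symm (gen i)).2 hz2 hnS
    refine Subgroup.eq_of_le_of_card_ge ?_ ?_
    · intro w hw
      obtain ⟨w', hw', rfl⟩ := Subgroup.mem_map.1 hw
      exact (Subgroup.mem_normalizer_iff.1 hn w').1 hw'
    · rw [Subgroup.card_map_of_injective (MulAut.conj _).injective]
  obtain ⟨i0, hi0⟩ := exists_index e (Subgroup.zpowers_le.2 hx : A0 ≤ S) (by
    rw [Nat.card_zpowers, show x = (x' : G) from rfl, Subgroup.orderOf_coe, ← e.orderOf_eq]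
    exact orderOf_eq_prime_pow (p := 2) (n := 1) (by simpa using hx4) (q8_four _ 1 hx4).2.1)
  obtain ⟨j0, hj0⟩ := exists_index e (Subgroup.zpowers_le.2 hy : B0 ≤ S) (by
    rw [Nat.card_zpowers, ← hox, show x = (x' : G) from rfl, Subgroup.orderOf_coe, ← e.orderOf_eq]
    exact orderOf_eq_prime_pow (p := 2) (n := 1) (by simpa using hx4) (q8_four _ 1 hx4).2.1)
  have hne : π i0 ≠ i0 := by
    intro h
    have hAB : A0 = B0 := by
      rw [← hn0A]
      conv_rhs => rw [show A0 = D i0 from hi0, hπ, h]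
      exact hi0
    have hyx : y ∈ Subgroup.zpowers x := by
      show y ∈ A0
      rw [hAB]; exact Subgroup.mem_zpowers y
    obtain ⟨k, hk⟩ := Subgroup.mem_zpowers_iff.1 hyx
    obtain ⟨k, rfl⟩ | ⟨k, rfl⟩ := Int.even_or_odd k
    · apply hy2
      rw [← hk, ← zpow_natCast, ← zpow_mul, show (k + k) * ((2 : ℕ) : ℤ) = 4 * k by push_cast; ring, zpow_mul]
      have h4 : x ^ 4 = 1 := congrArg Subtype.val (e.injective
        ((map_pow e x' 4).trans ((q8_four _ 1 hx4).2.1.trans e.map_one.symm)))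
      rw [show x ^ (4 : ℤ) = 1 by exact_mod_cast h4, one_zpow]
    · apply h2
      have h4 : x ^ 4 = 1 := congrArg Subtype.val (e.injective
        ((map_pow e x' 4).trans ((q8_four _ 1 hx4).2.1.trans e.map_one.symm)))
      rw [← hk, ← zpow_natCast, ← zpow_neg_one, ← zpow_add, ← zpow_mul,
        show (-1 + (2 * k + 1)) * ((2 : ℕ) : ℤ) = 4 * k by push_cast; ring, zpow_mul,
        show x ^ (4 : ℤ) = 1 by exact_mod_cast h4, one_zpow]
  have hperm : ∀ π : Fin 3 → Fin 3, ∀ i0 i j : Fin 3, π i0 ≠ i0 → Function.Bijective π →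
      (∀ k, π (π (π k)) = k) → i ≠ j → π i = j ∨ π (π i) = j := by decide
  have hinj : Function.Injective π := fun i j h => by
    apply hDinj
    apply Subgroup.map_injective (f := (MulAut.conj n0).toMonoidHom) (MulAut.conj n0).injective
    rw [hπ, hπ, h]
  have hbij : Function.Bijective π := ⟨hinj, Finite.injective_iff_surjective.1 hinj⟩
  have hcube : ∀ i, π (π (π i)) = i := by
    have hsix : ∀ π : Fin 3 → Fin 3, Function.Bijective π → ∀ i, π^[6] i = i := by decide
    intro i
    obtain ⟨c, hc⟩ := hb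
    have h6 : ∀ q i, π^[6 * q] i = i := by
      intro q
      induction q with
      | zero => simp
      | succ q ih => intro i; rw [Nat.mul_succ, Function.iterate_add_apply, hsix π hbij, ih]
    obtain ⟨q, r, hr, hbqr⟩ : ∃ q r, (r = 1 ∨ r = 3 ∨ r = 5) ∧ b = 6 * q + r :=
      ⟨b / 6, b % 6, by omega, by omega⟩
    have hri := fun i => hfixS i
    simp only [hbqr, Function.iterate_add_apply, h6] at hri
    rcases hr with rfl | rfl | rfl
    · simp only [Function.iterate_one] at hri; simp [hri]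
    · exact hri i
    · have hid : ∀ j, π j = j := fun j => by
        have h := hsix π hbij j
        rw [show 6 = 1 + 5 from rfl, Function.iterate_add_apply, hri, Function.iterate_one] at h
        exact h
      simp [hid]
  obtain ⟨i, hi⟩ := exists_index e hA hA4
  obtain ⟨j, hj⟩ := exists_index e hB hB4
  subst hi hj
  by_cases hij : i = j
  · refine ⟨1, one_mem _, ?_⟩
    subst hij
    ext w; simp
  rcases hperm π i0 i j hne hbij hcube hij with h | h
  · exact ⟨n0, hn0, by rw [← h]; exact (hπ i).symm⟩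
  · refine ⟨n0 ^ 2, pow_mem hn0 2, ?_⟩
    rw [← h]; exact (hiter 2 i).symm

theorem complement_of_small_focal (S : Sylow 2 G) (e : (S : Subgroup G) ≃* QuaternionGroup 2)
    (h : ∀ x ∈ (S : Subgroup G), ∀ y ∈ (S : Subgroup G), IsConj x y → (x⁻¹ * y) ^ 2 = 1) :
    ∃ N : Subgroup G, N.Normal ∧ Subgroup.IsComplement' N (S : Subgroup G) := by
  classical
  set z : (S : Subgroup G) := e.symm (QuaternionGroup.a 2) with hz
  have hz2 : z ^ 2 = 1 := by
    rw [hz, ← map_pow, show (QuaternionGroup.a 2 : QuaternionGroup 2) ^ 2 = 1 by decide, map_one]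
  have hfoc : Subgroup.focalSubgroup (S : Subgroup G) ≤ Subgroup.zpowers (z : G) := by
    rw [Subgroup.focalSubgroup_def, Subgroup.closure_le]
    rintro g ⟨hgS, x, hx, u, rfl⟩
    open scoped commutatorElement in
    have hy : u * x⁻¹ * u⁻¹ ∈ (S : Subgroup G) := by
      have := mul_mem (inv_mem hx) hgS
      rwa [show x⁻¹ * ⁅x, u⁆ = u * x⁻¹ * u⁻¹ by rw [commutatorElement_def]; group] at this
    have h2 := h x⁻¹ (inv_mem hx) _ hy (isConj_iff.2 ⟨u, rfl⟩)
    rw [inv_inv, ← mul_assoc, ← mul_assoc, ← commutatorElement_def] at h2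
    set w : (S : Subgroup G) := ⟨_, hgS⟩ with hw
    show (w : G) ∈ Subgroup.zpowers (z : G)
    have hew : e w ^ 2 = 1 := by
      rw [← map_pow, ← map_one e]; congr 1; exact Subtype.ext h2
    rcases q8_sq _ hew with h' | h'
    · rw [← e.map_one] at h'
      rw [e.injective h']; exact one_mem _
    · rw [show w = z by rw [hz, ← h', e.symm_apply_apply]]
      exact Subgroup.mem_zpowers _
  set K := (Subgroup.transferFocal (S : Subgroup G)).ker with hK
  have hKS : K ⊓ (S : Subgroup G) ≤ Subgroup.zpowers (z : G) :=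
    (Subgroup.ker_transferFocal_inf_eq_focalSubgroup S).le.trans hfoc
  have hKindex : ∃ c, K.index = 2 ^ c := by
    haveI : IsPGroup 2 ((S : Subgroup G) ⧸ (S : Subgroup G).focalSubgroupOf) := S.2.to_quotient _
    obtain ⟨c, hc⟩ := (S.2.to_quotient (S : Subgroup G).focalSubgroupOf).exists_card_eq
    refine ⟨c, ?_⟩
    rw [← hc, Subgroup.index_eq_card]
    exact Nat.card_congr (Subgroup.transferFocal.quotientKerMulEquivQuotientFocalSubroupOf S).toEquiv
  obtain ⟨c, hc⟩ := hKindex
  let Q : Sylow 2 K := Classical.arbitrary _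
  -- a Sylow 2-subgroup of K has order at most two
  have hQcard : Nat.card Q ∣ 2 := by
    obtain ⟨T, hT⟩ := (Q.2.map K.subtype).exists_le_sylow
    obtain ⟨v, hv⟩ := MulAction.exists_smul_eq G T S
    have hle : ((Q : Subgroup K).map K.subtype).map (MulAut.conj v).toMonoidHom ≤
        K ⊓ (S : Subgroup G) := by
      rintro _ ⟨w, hw, rfl⟩
      refine ⟨?_, ?_⟩
      · obtain ⟨w', -, rfl⟩ := hw
        exact (MonoidHom.normal_ker _).conj_mem _ w'.2 v
      · rw [← hv, SetLike.mem_coe]
        exact Subgroup.smul_mem_pointwise_smul _ (MulAut.conj v) _ (hT hw)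
    have := Subgroup.card_dvd_of_le (hle.trans hKS)
    rw [Subgroup.card_map_of_injective (MulAut.conj v).injective,
      Subgroup.card_map_of_injective K.subtype_injective, Nat.card_zpowers,
      Subgroup.orderOf_coe] at this
    exact this.trans (orderOf_dvd_of_pow_eq_one hz2)
  have hQle : Subgroup.normalizer ((Q : Subgroup K) : Set K) ≤
      Subgroup.centralizer ((Q : Subgroup K) : Set K) := by
    intro n hn q hq
    have hq' := (Subgroup.mem_normalizer_iff.1 hn q).1 hq
    have h2 : Nat.card Q ≤ 2 := Nat.le_of_dvd (by norm_num) hQcard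
    have : n * q * n⁻¹ = q := by
      by_contra hne
      have hq1 : q ≠ 1 := fun h => hne (by simp [h])
      have hn1 : n * q * n⁻¹ ≠ 1 := fun h => hq1 (by simpa using h)
      have h3 : 2 < Nat.card Q := by
        haveI := Fintype.ofFinite Q
        rw [Nat.card_eq_fintype_card, Fintype.two_lt_card_iff]
        exact ⟨⟨1, one_mem _⟩, ⟨q, hq⟩, ⟨_, hq'⟩, fun h => hq1 (congrArg Subtype.val h).symm,
          fun h => hn1 (congrArg Subtype.val h).symm, fun h => hne (congrArg Subtype.val h).symm⟩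
      omega
    calc q * n = n * q * n⁻¹ * n := by rw [this]
      _ = n * q := inv_mul_cancel_right _ _
  set N0 := (MonoidHom.transferSylow Q hQle).ker with hN0
  have hcomp := MonoidHom.ker_transferSylow_isComplement' Q hQle
  have hN0odd : ¬ 2 ∣ Nat.card N0 := MonoidHom.not_dvd_card_ker_transferSylow Q hQle
  -- N0 consists of all elements of odd order of K
  have hmem : ∀ k : K, Odd (orderOf k) → k ∈ N0 := by
    intro k hk
    have h1 : orderOf (MonoidHom.transferSylow Q hQle k) ∣ orderOf k := orderOf_map_dvd _ _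
    have h2 : orderOf (MonoidHom.transferSylow Q hQle k) ∣ 2 := (orderOf_dvd_natCard _).trans hQcard
    exact orderOf_eq_one_iff.1 (Nat.eq_one_of_dvd_coprimes (Nat.coprime_two_right.2 hk) h1 h2)
  refine ⟨N0.map K.subtype, ?_, ?_⟩
  · constructor
    rintro n ⟨k, hk, rfl⟩ g
    refine ⟨⟨g * k * g⁻¹, (MonoidHom.normal_ker _).conj_mem _ k.2 g⟩, hmem _ ?_, rfl⟩
    rw [← Subgroup.orderOf_coe]
    show Odd (orderOf (MulAut.conj g (k : G)))
    rw [MulEquiv.orderOf_eq, Subgroup.orderOf_coe]
    refine Nat.not_even_iff_odd.1 (fun he => hN0odd ?_)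
    have : orderOf (⟨k, hk⟩ : N0) = orderOf k := by rw [← Subgroup.orderOf_coe]
    exact (even_iff_two_dvd.1 he).trans (this ▸ orderOf_dvd_natCard _)
  · apply Subgroup.isComplement'_of_coprime
    · have hcard : Nat.card (N0.map K.subtype) = Nat.card N0 :=
        Subgroup.card_map_of_injective K.subtype_injective
      rw [hcard]
      have h1 := hcomp.card_mul
      have h2 := K.card_mul_index
      rw [← h1, hc] at h2
      obtain ⟨d, hd⟩ := Q.2.exists_card_eq
      obtain ⟨s, hs⟩ := S.2.exists_card_eq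
      have hS := S.card_mul_index
      have hnd : ¬ 2 ∣ (S : Subgroup G).index := S.not_dvd_index
      rw [hs, ← h2, hd] at hS
      rw [hs, ← h2, hd]
      have key : ∀ {u v : ℕ} {i j : ℕ}, ¬ 2 ∣ u → ¬ 2 ∣ v → 2 ^ i * u = 2 ^ j * v → i = j := by
        intro u v i j hu hv huv
        have hi : 2 ^ i ∣ 2 ^ j := (Nat.Coprime.dvd_of_dvd_mul_right
          ((Nat.prime_two.coprime_iff_not_dvd.2 hv).pow_left i) (huv ▸ dvd_mul_right _ _))
        have hj : 2 ^ j ∣ 2 ^ i := (Nat.Coprime.dvd_of_dvd_mul_right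
          ((Nat.prime_two.coprime_iff_not_dvd.2 hu).pow_left j) (huv ▸ dvd_mul_right _ _))
        exact le_antisymm ((Nat.pow_dvd_pow_iff_le_right (by norm_num)).1 hi)
          ((Nat.pow_dvd_pow_iff_le_right (by norm_num)).1 hj)
      have := key hnd hN0odd (j := d + c) (i := s) (by rw [hS, pow_add]; ring)
      rw [this, pow_add]; ring
    · rw [Subgroup.card_map_of_injective K.subtype_injective]
      obtain ⟨s, hs⟩ := S.2.exists_card_eq
      rw [hs]
      exact ((Nat.prime_two.coprime_iff_not_dvd).2 hN0odd).symm.pow_right s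

/-- Let S be a Sylow 2-subgroup of the finite group G that is isomorphic to the quaternion group of order 8, and suppose S has no normal complement in G. Then any two subgroups of order 4 of S are conjugate by an element of the normalizer of S. -/
theorem result {G : Type*} [Group G] [Finite G] (S : Sylow 2 G) (e : (S : Subgroup G) ≃* QuaternionGroup 2) (hnc : ∀ N : Subgroup G, N.Normal → ¬ Subgroup.IsComplement' N (S : Subgroup G)) (A B : Subgroup G) (hA : A ≤ S) (hB : B ≤ S) (hA4 : Nat.card A = 4) (hB4 : Nat.card B = 4) : ∃ n ∈ Subgroup.normalizer ((S : Subgroup G) : Set G), B = A.map (MulAut.conj n).toMonoidHom := by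
  classical
  by_cases hfus : ∃ x ∈ (S : Subgroup G), ∃ y ∈ (S : Subgroup G), IsConj x y ∧ x⁻¹ * y ≠ 1 ∧ (x⁻¹ * y) ^ 2 ≠ 1
  · obtain ⟨x, hx, y, hy, hxy, -, h2⟩ := hfus
    exact transitive_of_fusion S e hx hy hxy h2 A B hA hB hA4 hB4
  · push Not at hfus
    obtain ⟨N, hN, hc⟩ := complement_of_small_focal S e (fun x hx y hy hxy => by
      by_cases h1 : x⁻¹ * y = 1
      · rw [h1, one_pow]
      · exact hfus x hx y hy hxy h1)
    exact absurd hc (hnc N hN)

end Cfsg.Agent.S0950
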