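import Cfsg.Statements.S2437
import Cfsg.Agent.Lib.CharDegrees.SL2Borel

set_option autoImplicit false
open Cfsg Matrix
open scoped MatrixGroups

namespace Cfsg.Agent.S2437

open CfsgLib.CharDegrees CfsgLib.SL2
open CfsgLib.ClassicalLinear (upS upS_coe upS_injective)

/-- Over a finite field F with q elements, q odd, the upper triangular subgroup of SL₂ (a Borel subgroup, of order q(q − 1)) has exactly q + 3 conjugacy classes. -/
theorem result {F : Type*} [Field F] [Fintype F] (hodd : Odd (Fintype.card F)) :
    Nat.card (ConjClasses ((Cfsg.upperTriangularGL 2 F).comap Matrix.SpecialLinearGroup.toGL)) = Fintype.card F + 3 := by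
  classical
  show Nat.card (ConjClasses (borelU F)) = _
  rw [borelU_eq_borel]
  set q := Fintype.card F with hq
  have h2 : (2 : F) ≠ 0 := two_ne_zero_of_odd hodd
  let e : Fˣ × F → borel F := fun w => ⟨diag w.1 * upS w.2, mul_mem (diag_mem_borel _) (upS_mem_borel _)⟩
  have he : Function.Bijective e := by
    refine ⟨?_, ?_⟩
    · rintro ⟨a, x⟩ ⟨a', x'⟩ h
      have h' := congrArg (fun y : borel F => ((y : SL(2, F)) : Matrix (Fin 2) (Fin 2) F)) h
      have e0 := congrFun (congrFun h' 0) 0
      have e1 := congrFun (congrFun h' 0) 1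
      simp [e, diag_coe, upS_coe, Matrix.mul_apply] at e0 e1
      obtain rfl : a = a' := Units.ext e0
      exact Prod.ext rfl (by simpa using e1)
    · rintro ⟨g, hg⟩
      obtain ⟨a, x, hax, -⟩ := borel_exists hg
      exact ⟨(a, x), Subtype.ext hax.symm⟩
  have hcomm : ∀ v w : Fˣ × F, Commute (e v) (e w) ↔
      (v.1 : F) ^ 2 * (w.1 : F) ^ 2 * w.2 + (v.1 : F) ^ 2 * v.2 =
        (v.1 : F) ^ 2 * (w.1 : F) ^ 2 * v.2 + (w.1 : F) ^ 2 * w.2 := by
    intro v w
    obtain ⟨a, x⟩ := v
    obtain ⟨b, y⟩ := w
    rw [Commute, SemiconjBy, Subtype.ext_iff]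
    refine Subtype.ext_iff.trans ?_
    simp only [e, Subgroup.coe_mul, Matrix.SpecialLinearGroup.coe_mul, diag_coe, upS_coe]
    constructor
    · intro h
      have := congrFun (congrFun h 0) 1
      simp [Matrix.mul_apply] at this
      field_simp at this
      linear_combination this
    · intro h
      ext i j
      fin_cases i <;> fin_cases j <;> simp [Matrix.mul_apply] <;> first | ring1 | (field_simp; linear_combination h)
  have key := card_comm_eq_card_conjClasses_mul_card (borel F)
  have hsplit : Nat.card {p : borel F × borel F // Commute p.1 p.2} =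
      ∑ v : Fˣ × F, (Finset.univ.filter fun w : Fˣ × F => Commute (e v) (e w)).card := by
    let E := Equiv.ofBijective e he
    rw [Nat.card_congr ((E.prodCongr E).subtypeEquiv (p := fun p => Commute (e p.1) (e p.2))
      (fun p => Iff.rfl)).symm, Nat.card_congr (Equiv.subtypeProdEquivSigmaSubtype fun v w => Commute (e v) (e w)),
      Nat.card_sigma]
    exact Finset.sum_congr rfl fun v _ => by rw [Nat.card_eq_fintype_card, Fintype.card_subtype]
  have hcent : ∀ v : Fˣ × F, (Finset.univ.filter fun w : Fˣ × F => Commute (e v) (e w)).card =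
      if (v.1 : F) * v.1 = 1 then (if v.2 = 0 then q * (q - 1) else 2 * q) else q - 1 := by
    rintro ⟨a, x⟩
    have hcard : (Finset.univ : Finset Fˣ).card = q - 1 := by rw [Finset.card_univ, Fintype.card_units]
    simp only [hcomm]
    by_cases ha : (a : F) * a = 1
    · rw [if_pos ha]
      by_cases hx : x = 0
      · rw [if_pos hx]
        rw [Finset.filter_true_of_mem fun w _ => by rw [hx]; linear_combination (w.2 * (w.1 : F) ^ 2) * ha,
          Finset.card_univ, Fintype.card_prod, Fintype.card_units, mul_comm]
      · rw [if_neg hx]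
        have : (Finset.univ.filter fun w : Fˣ × F =>
            (a : F) ^ 2 * (w.1 : F) ^ 2 * w.2 + (a : F) ^ 2 * x =
              (a : F) ^ 2 * (w.1 : F) ^ 2 * x + (w.1 : F) ^ 2 * w.2) =
            ({1, -1} : Finset Fˣ) ×ˢ (Finset.univ : Finset F) := by
          ext ⟨b, y⟩
          simp only [Finset.mem_filter, Finset.mem_univ, true_and, Finset.mem_product, Finset.mem_insert,
            Finset.mem_singleton, and_true]
          constructor
          · intro h
            have h1 : x * (1 - (b : F) * b) = 0 := by
              linear_combination h - (y * (b : F) ^ 2 + x * (1 - (b : F) * b)) * ha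
            have h3 := (mul_eq_zero.1 h1).resolve_left hx
            rcases mul_self_eq_one_iff.1 (sub_eq_zero.1 h3).symm with h' | h'
            · exact Or.inl (Units.ext h')
            · exact Or.inr (Units.ext h')
          · intro h
            have hb : (b : F) * b = 1 := by rcases h with rfl | rfl <;> simp
            linear_combination (y * (b : F) ^ 2) * ha - ((a : F) ^ 2 * x) * hb
        rw [this, Finset.card_product, Finset.card_univ, Finset.card_pair]
        intro h
        have h' := congrArg Units.val h
        simp only [Units.val_neg, Units.val_one] at h'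
        exact h2 (by linear_combination h')
    · rw [if_neg ha, ← hcard]
      have hne : (a : F) * a - 1 ≠ 0 := sub_ne_zero.2 ha
      refine Finset.card_bij (fun w _ => w.1) (fun _ _ => Finset.mem_univ _) ?_ ?_
      · rintro ⟨b, y⟩ hy ⟨b', y'⟩ hy' (rfl : b = b')
        simp only [Finset.mem_filter, Finset.mem_univ, true_and] at hy hy'
        have : (y - y') * ((b : F) ^ 2 * ((a : F) * a - 1)) = 0 := by linear_combination hy - hy'
        rw [sub_eq_zero.1 ((mul_eq_zero.1 this).resolve_right (mul_ne_zero (pow_ne_zero 2 b.ne_zero) hne))]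
      · intro b _
        refine ⟨(b, x * (a : F) ^ 2 * ((b : F) * b - 1) / ((b : F) ^ 2 * ((a : F) * a - 1))), ?_, rfl⟩
        simp only [Finset.mem_filter, Finset.mem_univ, true_and]
        have hne' := mul_ne_zero (pow_ne_zero 2 b.ne_zero) hne
        have e1 : (x * (a : F) ^ 2 * ((b : F) * b - 1) / ((b : F) ^ 2 * ((a : F) * a - 1))) * ((b : F) ^ 2 * ((a : F) * a - 1)) =
            x * (a : F) ^ 2 * ((b : F) * b - 1) := div_mul_cancel₀ _ hne'
        linear_combination e1
  rw [hsplit, Finset.sum_congr rfl fun v _ => hcent v, card_borel, Nat.card_eq_fintype_card (α := F), ← hq,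
    Fintype.sum_prod_type] at key
  have hin : ∀ a : Fˣ, ∑ x : F, (if (a : F) * a = 1 then (if x = 0 then q * (q - 1) else 2 * q) else q - 1) =
      if (a : F) * a = 1 then q * (q - 1) + (q - 1) * (2 * q) else q * (q - 1) := by
    intro a
    by_cases ha : (a : F) * a = 1
    · simp only [if_pos ha]
      rw [Finset.sum_ite, Finset.sum_const, Finset.sum_const, Finset.filter_ne',
        Finset.card_erase_of_mem (Finset.mem_univ _),
        show (Finset.univ.filter fun x : F => x = 0).card = 1 from Finset.card_eq_one.2 ⟨0, by ext; simp⟩,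
        Finset.card_univ, smul_eq_mul, smul_eq_mul, one_mul]
    · simp only [if_neg ha]
      rw [Finset.sum_const, Finset.card_univ, smul_eq_mul]
  rw [Finset.sum_congr rfl fun a _ => hin a, Finset.sum_ite, Finset.sum_const, Finset.sum_const,
    Finset.filter_not, Finset.card_univ_diff,
    show (Finset.univ.filter fun a : Fˣ => (a : F) * a = 1) = {1, -1} by
      ext b
      simp only [Finset.mem_filter, Finset.mem_univ, true_and, Finset.mem_insert, Finset.mem_singleton,
        mul_self_eq_one_iff]
      exact ⟨fun h => h.imp (fun h' => Units.ext h') (fun h' => Units.ext h'),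
        fun h => h.imp (fun h' => by simp [h']) (fun h' => by simp [h'])⟩,
    Finset.card_pair (show (1 : Fˣ) ≠ -1 from fun h => by
      have h' := congrArg Units.val h
      simp only [Units.val_neg, Units.val_one] at h'
      exact h2 (by linear_combination h')),
    Fintype.card_units, ← hq, smul_eq_mul, smul_eq_mul] at key
  have hq3 : 3 ≤ q := by
    obtain ⟨k, hk⟩ := hodd
    have := Fintype.one_lt_card (α := F)
    omega
  obtain ⟨r, hr⟩ : ∃ r, q = r + 3 := ⟨q - 3, by omega⟩
  rw [hr] at key ⊢
  simp only [show r + 3 - 1 = r + 2 by omega, show r + 2 - 2 = r by omega] at key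
  apply Nat.eq_of_mul_eq_mul_right (show 0 < (r + 3) * (r + 2) by positivity)
  linarith [key]

end Cfsg.Agent.S2437
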