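import Cfsg.Statements.S2420
import Cfsg.Agent.Lib.KnownSimple.Parabolic

set_option autoImplicit false
open scoped MatrixGroups
open Cfsg

namespace Cfsg.Agent.S2420

/-- The number of partial flags of a given type: for a composition `μ` of `n` (with `n` parts, zeros allowed) and a field with `q` elements, the index of the standard parabolic subgroup `P_μ` in `GL_n(q)` times `∏_i {μ_i}` equals `{n}`, where `{r}` denotes the product over `k = 1, …, r` of the q-integers `1 + q + ⋯ + q^(k−1)`. -/
theorem result {F : Type*} [Field F] [Fintype F] {q : ℕ} (hq : Fintype.card F = q) {n : ℕ} (μ : Fin n → ℕ) (hμ : ∑ i, μ i = n) :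
    Nat.card (GL (Fin n) F ⧸ Cfsg.parabolicGL n F μ) * ∏ i : Fin n, ∏ j ∈ Finset.range (μ i), ∑ l ∈ Finset.range (j + 1), q ^ l =
      ∏ j ∈ Finset.range n, ∑ l ∈ Finset.range (j + 1), q ^ l := by
  classical
  have hlab : ∀ i k : Fin n, Cfsg.compLabel μ i = k.val ↔
      (∑ x ∈ Finset.univ.filter (fun x : Fin n => x < k), μ x) ≤ i.val ∧
        i.val < (∑ x ∈ Finset.univ.filter (fun x : Fin n => x < k), μ x) + μ k := by
    intro i k
    set S : Fin n → ℕ := fun j => ∑ x ∈ Finset.univ.filter (fun x : Fin n => x ≤ j), μ x with hS
    have hmono : ∀ a b : Fin n, a ≤ b → S a ≤ S b := fun a b hab =>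
      Finset.sum_le_sum_of_subset fun x hx => by
        simp only [Finset.mem_filter, Finset.mem_univ, true_and] at hx ⊢
        exact hx.trans hab
    set A := Finset.univ.filter fun j : Fin n => S j ≤ i.val with hA
    have hlabA : Cfsg.compLabel μ i = A.card := rfl
    have hcl : ∀ a b : Fin n, a ≤ b → b ∈ A → a ∈ A := fun a b hab hb => by
      simp only [hA, Finset.mem_filter, Finset.mem_univ, true_and] at hb ⊢
      exact (hmono a b hab).trans hb
    have hiff : ∀ j : Fin n, S j ≤ i.val ↔ j.val < A.card := by
      intro j
      constructor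
      · intro hj
        have hsub : Finset.Iic j ⊆ A := fun x hx => hcl x j (Finset.mem_Iic.1 hx) (by simp [hA, hj])
        have := Finset.card_le_card hsub
        rw [Fin.card_Iic] at this
        omega
      · intro hj
        by_contra hn
        have hsub : A ⊆ Finset.Iio j := fun x hx => Finset.mem_Iio.2 (by
          by_contra hx'
          exact hn ((hmono j x (not_lt.1 hx')).trans (Finset.mem_filter.1 hx).2))
        have := Finset.card_le_card hsub
        rw [Fin.card_Iio] at this
        omega
    have hstep : S k = (∑ x ∈ Finset.univ.filter (fun x : Fin n => x < k), μ x) + μ k := by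
      simp only [hS]
      rw [← Finset.sum_erase_add _ _ (show k ∈ Finset.univ.filter (fun x : Fin n => x ≤ k) by simp)]
      congr 1
      refine Finset.sum_congr ?_ fun _ _ => rfl
      ext x
      simp [lt_iff_le_and_ne, and_comm]
    rw [hlabA, ← hstep]
    constructor
    · intro hk
      refine ⟨?_, ?_⟩
      · rcases Nat.eq_zero_or_pos k.val with h0 | h0
        · rw [Finset.filter_false_of_mem (fun x _ => by
            simp only [Fin.lt_def, h0]; exact Nat.not_lt_zero _)]
          simp
        · have h1 : S ⟨k.val - 1, by omega⟩ ≤ i.val := (hiff _).2 (by rw [hk]; simp; omega)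
          refine le_trans (le_of_eq ?_) h1
          refine Finset.sum_congr ?_ fun _ _ => rfl
          ext x
          simp only [Finset.mem_filter, Finset.mem_univ, true_and, Fin.lt_def, Fin.le_def]
          omega
      · by_contra hc
        have := (hiff k).1 (not_lt.1 hc)
        omega
    · rintro ⟨h1, h2⟩
      have hk1 : ¬ k.val < A.card := fun h => by have := (hiff k).2 h; omega
      rcases Nat.eq_zero_or_pos k.val with h0 | h0
      · omega
      · have h3 : (⟨k.val - 1, by omega⟩ : Fin n).val < A.card := (hiff _).1 (by
          refine le_trans (le_of_eq ?_) h1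
          refine Finset.sum_congr ?_ fun _ _ => rfl
          ext x
          simp only [Finset.mem_filter, Finset.mem_univ, true_and, Fin.lt_def, Fin.le_def]
          omega)
        simp only at h3
        omega
  have hlt : ∀ i : Fin n, Cfsg.compLabel μ i < n := by
    intro i
    have hn : 0 < n := i.pos
    have hcard : (Finset.univ.filter fun j : Fin n =>
        (∑ k ∈ Finset.univ.filter (fun k : Fin n => k ≤ j), μ k) ≤ i.val).card <
        (Finset.univ : Finset (Fin n)).card := by
      refine Finset.card_lt_card (Finset.ssubset_iff_of_subset (Finset.filter_subset _ _) |>.2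
        ⟨⟨n - 1, by omega⟩, Finset.mem_univ _, ?_⟩)
      simp only [Finset.mem_filter, Finset.mem_univ, true_and, not_le]
      rw [Finset.filter_true_of_mem (fun x _ => by rw [Fin.le_def]; have := x.isLt; simp only; omega), hμ]
      exact i.isLt
    simpa [Cfsg.compLabel] using hcard
  have hfib : ∀ k : Fin n, (Finset.univ.filter fun i : Fin n => Cfsg.compLabel μ i = k.val).card = μ k := by
    intro k
    set a := ∑ x ∈ Finset.univ.filter (fun x : Fin n => x < k), μ x with ha
    have hak : a + μ k ≤ n := by
      have hnot : k ∉ Finset.univ.filter (fun x : Fin n => x < k) := by simp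
      calc a + μ k = ∑ x ∈ insert k (Finset.univ.filter (fun x : Fin n => x < k)), μ x := by
            rw [Finset.sum_insert hnot, add_comm]
        _ ≤ ∑ x, μ x := Finset.sum_le_sum_of_subset (Finset.subset_univ _)
        _ = n := hμ
    rw [← Fintype.card_fin (μ k), ← Fintype.card_subtype]
    refine Fintype.card_congr
      { toFun := fun i => ⟨i.1.val - a, by have := (hlab i.1 k).1 i.2; omega⟩
        invFun := fun j => ⟨⟨a + j.val, by omega⟩, (hlab _ k).2 ⟨by simp; omega, by simp; omega⟩⟩
        left_inv := fun i => by
          have := (hlab i.1 k).1 i.2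
          exact Subtype.ext (Fin.ext (show a + (i.1.val - a) = i.1.val by omega))
        right_inv := fun j => Fin.ext (by simp) }
  have hP : Nat.card (Cfsg.parabolicGL n F μ) = q ^ (n.choose 2) * (q - 1) ^ n *
      ∏ i : Fin n, CfsgLib.KnownSimple.qFact q (μ i) := by
    have h := CfsgLib.KnownSimple.card_blockTriangular (F := F) n (Fin n) (Cfsg.compLabel μ) hlt
    rw [Fintype.card_fin, Nat.card_eq_fintype_card (α := F), hq] at h
    rw [← Fin.prod_univ_eq_prod_range
      (fun k => CfsgLib.KnownSimple.qFact q (Finset.univ.filter fun i => Cfsg.compLabel μ i = k).card)] at h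
    rw [Finset.prod_congr rfl (fun k _ => by rw [hfib k])] at h
    rw [← h]
    exact Nat.card_congr
      { toFun := fun g => ⟨((g.1 : GL (Fin n) F) : Matrix (Fin n) (Fin n) F), g.2,
          (g.1.isUnit.map Matrix.detMonoidHom).ne_zero⟩
        invFun := fun M => ⟨Matrix.GeneralLinearGroup.mkOfDetNeZero M.1 M.2.2, M.2.1⟩
        left_inv := fun g => Subtype.ext (Units.ext rfl)
        right_inv := fun M => rfl }
  have hG : Nat.card (GL (Fin n) F) =
      q ^ (n.choose 2) * (q - 1) ^ n * CfsgLib.KnownSimple.qFact q n := by
    rw [Matrix.card_GL_field, hq, Fin.prod_univ_eq_prod_range (fun i => q ^ n - q ^ i),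
      CfsgLib.KnownSimple.prod_pow_sub_eq (by rw [← hq]; exact Fintype.card_pos)]
    rfl
  have hmul := Subgroup.card_eq_card_quotient_mul_card_subgroup (Cfsg.parabolicGL n F μ)
  rw [hP, hG] at hmul
  have hq2 : 2 ≤ q := by rw [← hq]; exact Fintype.one_lt_card
  refine Nat.eq_of_mul_eq_mul_left (n := q ^ (n.choose 2) * (q - 1) ^ n)
    (Nat.mul_pos (pow_pos (by omega) _) (pow_pos (by omega) _)) ?_
  exact Eq.trans (by simp only [CfsgLib.KnownSimple.qFact]; ring) hmul.symm

end Cfsg.Agent.S2420
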