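import Cfsg.Statements.S2588
import Cfsg.Agent.Lib.Generators.GU

set_option autoImplicit false
open Cfsg

namespace Cfsg.Agent.S2588

/-- An invertible matrix A over the field with q² elements is conjugate in GL_n(q²) to an element of the general unitary group GU_n(q) (isometries of the Hermitian form Σ u_i v_i^q) if and only if A is similar to the inverse transpose of its entrywise q-th power (A ~ A^(−qT), the image of A under the map sending a matrix to the inverse transpose of its entrywise q-th power — inverse transpose composed with the field automorphism — whose fixed points form GU_n(q)). -/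
theorem result {K : Type*} [Field K] [Fintype K] {q n : ℕ} (hK : Fintype.card K = q ^ 2) (A : GL (Fin n) K) : (∃ B : ↥(Cfsg.GU n K q), IsConj A (B : GL (Fin n) K)) ↔ IsConj (A : Matrix (Fin n) (Fin n) K) (((A : Matrix (Fin n) (Fin n) K).map (fun x : K => x ^ q)).transpose)⁻¹ := by
  classical
  have hτ := fun X Y => CfsgLib.Generators.qAdjoint_mul hK (q := q) (n := Fin n) X Y
  have hτu : ∀ X : Matrix (Fin n) (Fin n) K, IsUnit X → IsUnit (CfsgLib.Generators.qAdjoint q X) := by
    rintro _ ⟨u, rfl⟩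
    refine IsUnit.of_mul_eq_one (CfsgLib.Generators.qAdjoint q ((u⁻¹ : (Matrix (Fin n) (Fin n) K)ˣ) : Matrix (Fin n) (Fin n) K)) ?_
    rw [← hτ, Units.inv_mul, CfsgLib.Generators.qAdjoint_one hK]
  set Am := (A : Matrix (Fin n) (Fin n) K) with hAm
  show _ ↔ IsConj Am ((CfsgLib.Generators.qAdjoint q Am)⁻¹)
  have hdet : IsUnit (CfsgLib.Generators.qAdjoint q Am).det :=
    (Matrix.isUnit_iff_isUnit_det _).mp (hτu _ A.isUnit)
  constructor
  · rintro ⟨B, hB⟩
    obtain ⟨g, hg⟩ := isConj_iff.mp hB
    have hB' := (CfsgLib.Generators.mem_GU_iff_qAdjoint hK _).mp B.2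
    set gm := (g : Matrix (Fin n) (Fin n) K) with hgm
    have hgA : gm * Am = ((B : GL (Fin n) K) : Matrix (Fin n) (Fin n) K) * gm := by
      have e : g * A = (B : GL (Fin n) K) * g := by rw [← hg]; group
      exact congrArg Units.val e
    set H := CfsgLib.Generators.qAdjoint q gm * gm with hH
    have hu : IsUnit H := (hτu _ g.isUnit).mul g.isUnit
    have e1 : CfsgLib.Generators.qAdjoint q Am * (H * Am) = H := by
      have : CfsgLib.Generators.qAdjoint q (gm * Am) * (gm * Am) = H := by
        rw [hgA, hτ, mul_assoc, ← mul_assoc (CfsgLib.Generators.qAdjoint q ((B : GL (Fin n) K) : Matrix (Fin n) (Fin n) K)), hB', one_mul]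
      rw [hτ] at this
      simpa [hH, mul_assoc] using this
    refine ⟨hu.unit, ?_⟩
    show H * Am = (CfsgLib.Generators.qAdjoint q Am)⁻¹ * H
    conv_rhs => rw [← e1, ← mul_assoc, Matrix.nonsing_inv_mul _ hdet, one_mul]
  · rintro ⟨P, hP⟩
    have hP' : (P : Matrix (Fin n) (Fin n) K) * Am = (CfsgLib.Generators.qAdjoint q Am)⁻¹ * P := hP
    have hinv : CfsgLib.Generators.qAdjoint q Am * (P : Matrix (Fin n) (Fin n) K) * Am = P := by
      rw [mul_assoc, hP', ← mul_assoc, Matrix.mul_nonsing_inv _ hdet, one_mul]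
    obtain ⟨H, hHu, hHfix, hHinv⟩ := CfsgLib.Generators.exists_hermitian_invariant hK A.isUnit P.isUnit hinv
    obtain ⟨x, ⟨xu, rfl⟩, hxe, -⟩ := CfsgLib.Generators.exists_qAdjoint_mul_eq hK hHu hHfix
    have hmem : xu * A * xu⁻¹ ∈ Cfsg.GU n K q := by
      rw [CfsgLib.Generators.mem_GU_iff_qAdjoint hK, Units.val_mul, Units.val_mul, hτ, hτ]
      calc _ = CfsgLib.Generators.qAdjoint q ((xu⁻¹ : GL (Fin n) K) : Matrix (Fin n) (Fin n) K) *
            (CfsgLib.Generators.qAdjoint q Am * (CfsgLib.Generators.qAdjoint q (xu : Matrix (Fin n) (Fin n) K) * xu) * Am) *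
              ((xu⁻¹ : GL (Fin n) K) : Matrix (Fin n) (Fin n) K) := by simp only [mul_assoc]; rfl
        _ = _ := by
          rw [hxe, hHinv, ← hxe, mul_assoc, mul_assoc, Units.mul_inv, mul_one, ← hτ, Units.mul_inv,
            CfsgLib.Generators.qAdjoint_one hK]
    exact ⟨⟨_, hmem⟩, isConj_iff.mpr ⟨xu, rfl⟩⟩

end Cfsg.Agent.S2588
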