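import Cfsg.Statements.S2600
import Cfsg.Agent.Lib.Parabolic.SpFourGraph
import Cfsg.Agent.Lib.Parabolic.PSpAutCount
import Cfsg.Agent.S0813

set_option autoImplicit false
open Cfsg

namespace Cfsg.Agent.S2600

open CfsgLib.ReflectionsSpinor.PSpAut CfsgLib.Parabolic.SpFour

theorem orderOf_frob {F : Type*} [Field F] [Fintype F] [CharP F 2] {f : ℕ} (hf : 1 ≤ f)
    (hF : Fintype.card F = 2 ^ f) : orderOf (frobeniusEquiv F 2) = f := by
  have hpow : ∀ (j : ℕ) (x : F), (frobeniusEquiv F 2 ^ j) x = x ^ 2 ^ j := by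
    intro j
    induction j with
    | zero => intro x; simp
    | succ j ih =>
      intro x
      rw [pow_succ, RingAut.mul_apply, ih, frobeniusEquiv_apply, frobenius_def, ← pow_mul, ← pow_succ']
  refine (orderOf_eq_iff (by omega)).2 ⟨RingEquiv.ext fun x => ?_, fun j hj hj0 h => ?_⟩
  · rw [hpow, ← hF, FiniteField.pow_card]; rfl
  · have hroot : ∀ x : F, (Polynomial.X ^ 2 ^ j - Polynomial.X : Polynomial F).eval x = 0 := fun x => by
      have := hpow j x
      rw [h, RingAut.one_apply] at this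
      simp [← this]
    have h1 : 1 < 2 ^ j := Nat.one_lt_two_pow (by omega)
    have hne := FiniteField.X_pow_card_sub_X_ne_zero F h1
    have hle : Fintype.card F ≤ 2 ^ j := by
      classical
      have h2 : (Finset.univ : Finset F) ⊆
          (Polynomial.X ^ 2 ^ j - Polynomial.X : Polynomial F).roots.toFinset := fun x _ =>
        Multiset.mem_toFinset.2 ((Polynomial.mem_roots hne).2 (hroot x))
      refine (Finset.card_le_card h2).trans ((Multiset.toFinset_card_le _).trans
        ((Polynomial.card_roots' _).trans ?_))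
      rw [FiniteField.X_pow_card_sub_X_natDegree_eq F h1]
    rw [hF] at hle
    have := (Nat.pow_le_pow_iff_right (by norm_num : 1 < 2)).1 hle
    omega

/-- Outer automorphism group of PSp_4(q) for q = 2^f even: it is cyclic of order 2f, generated by the class of the exceptional (graph-field) automorphism whose square is the Frobenius field automorphism. -/
theorem result {F : Type*} [Field F] [Fintype F] {f : ℕ} (hf : 1 ≤ f) (hF : Fintype.card F = 2 ^ f) : IsCyclic (Cfsg.Out (Cfsg.PSp 2 F)) ∧ Nat.card (Cfsg.Out (Cfsg.PSp 2 F)) = 2 * f := by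
  haveI : CharP F 2 := by
    obtain ⟨r, hr⟩ := CharP.exists F
    obtain ⟨k, hrp, hk⟩ := FiniteField.card F r
    have : r = 2 := by
      have hdvd : r ∣ 2 ^ f := by rw [← hF, hk]; exact dvd_pow_self r k.pos.ne'
      exact (Nat.prime_dvd_prime_iff_eq hrp Nat.prime_two).mp (hrp.dvd_of_dvd_pow hdvd)
    exact this ▸ hr
  haveI : Fact (Nat.Prime 2) := ⟨Nat.prime_two⟩
  set Φ : F ≃+* F := frobeniusEquiv F 2 with hΦ
  have hord : orderOf Φ = f := orderOf_frob hf hF
  haveI : Finite (F ≃+* F) := Finite.of_injective _ DFunLike.coe_injective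
  have htop : ∀ σ : F ≃+* F, ∃ j : ℕ, Φ ^ j = σ := fun σ => by
    have hz : Subgroup.zpowers Φ = ⊤ := Subgroup.eq_top_of_card_eq _ (by
      rw [Nat.card_zpowers, hord, S0813.card_field_aut 2 f (by rw [Nat.card_eq_fintype_card, hF])])
    exact Submonoid.mem_powers_iff _ _ |>.1 (mem_powers_iff_mem_zpowers.2 (hz ▸ Subgroup.mem_top σ))
  have hsq : ∀ j : ℕ, starAut F ^ (2 * j) = semiAut (1 : Cfsg.GSp 2 F) (Φ ^ j) := fun j => by
    induction j with
    | zero => rw [mul_zero, pow_zero, pow_zero, semiAut_one]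
    | succ j ih =>
      rw [show 2 * (j + 1) = 2 * j + 2 by ring, pow_add, ih, sq, starAut_sq, semiAut_mul, map_one, mul_one,
        pow_succ]
  have hinn : Cfsg.Inn (Cfsg.PSp 2 F) = Cfsg.inndiagPSp 2 F :=
    le_antisymm inn_le_inndiag (inndiag_le_inn CharTwo.two_eq_zero)
  set t : Cfsg.Out (Cfsg.PSp 2 F) := QuotientGroup.mk (starAut F) with ht
  have hgen : ∀ z : Cfsg.Out (Cfsg.PSp 2 F), z ∈ Subgroup.zpowers t := by
    intro z
    obtain ⟨φ, rfl⟩ := QuotientGroup.mk_surjective z
    have key : ∀ (g : Cfsg.GSp 2 F) (σ : F ≃+* F),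
        (QuotientGroup.mk (semiAut g σ) : Cfsg.Out (Cfsg.PSp 2 F)) ∈ Subgroup.zpowers t := by
      intro g σ
      obtain ⟨j, rfl⟩ := htop σ
      have e : semiAut g (Φ ^ j) = semiAut g 1 * starAut F ^ (2 * j) := by
        rw [hsq, semiAut_mul, map_one, mul_one, one_mul]
      have h0 : (QuotientGroup.mk (semiAut g (1 : F ≃+* F)) : Cfsg.Out (Cfsg.PSp 2 F)) = 1 :=
        (QuotientGroup.eq_one_iff _).2 (by rw [hinn]; exact semiAut_mem_inndiag g)
      rw [e, QuotientGroup.mk_mul, h0, one_mul, QuotientGroup.mk_pow]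
      exact Subgroup.npow_mem_zpowers _ _
    obtain ⟨g, σ, h | h⟩ := exists_semiAut_or_star φ
    · rw [h]; exact key g σ
    · rw [h, QuotientGroup.mk_mul]; exact mul_mem (Subgroup.mem_zpowers _) (key g σ)
  have hto : orderOf t = 2 * f := by
    refine (orderOf_eq_iff (by omega)).2 ⟨?_, fun k hk hk0 h => ?_⟩
    · rw [ht, ← QuotientGroup.mk_pow, hsq, ← hord, pow_orderOf_eq_one, semiAut_one, QuotientGroup.mk_one]
    · rw [ht, ← QuotientGroup.mk_pow, QuotientGroup.eq_one_iff, hinn] at h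
      obtain ⟨g, hg⟩ := mem_inndiag_iff.1 h
      rcases Nat.even_or_odd' k with ⟨j, rfl | rfl⟩
      · rw [hsq] at hg
        have h1 : (semiAut g (1 : F ≃+* F))⁻¹ * semiAut (1 : Cfsg.GSp 2 F) (Φ ^ j) = 1 :=
          inv_mul_eq_one.2 hg.symm
        rw [semiAut_inv, semiAut_mul, semiAut_eq_one_iff le_rfl, inv_one, one_mul] at h1
        exact pow_ne_one_of_lt_orderOf (by omega) (by omega) h1.1
      · rw [pow_succ', hsq] at hg
        exact semiAut_ne_starAut_mul g 1 1 (Φ ^ j) hg.symm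
  refine ⟨⟨⟨t, hgen⟩⟩, ?_⟩
  rw [← hto, ← Nat.card_zpowers, (Subgroup.eq_top_iff' _).2 hgen, Subgroup.card_top]

end Cfsg.Agent.S2600
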