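import Cfsg.Statements.S4956
import Mathlib

set_option autoImplicit false
open Cfsg

namespace Cfsg.Agent.S4956

theorem card_cocycle_pairs {A : Type*} [CommGroup A] [Finite A] {Γ : Type*} [Group Γ] [Finite Γ]
    (φ : Γ →* MulAut A) (hcop : (Nat.card A).Coprime (Nat.card Γ)) (g h : Γ) :
    Nat.card {p : A × A // p.1 * φ g p.2 = p.2 * φ h p.1} =
      Nat.card A * Nat.card {a : A // φ g a = a ∧ φ h a = a} := by
  classical
  let H : Subgroup Γ := Subgroup.closure {g, h}
  have : Fintype H := Fintype.ofFinite _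
  let E : A →* A := ∏ k : H, (φ (k : Γ)).toMonoidHom
  have hE : ∀ a, E a = ∏ k : H, φ (k : Γ) a := fun a => by
    simp [E, MonoidHom.finsetProd_apply]
  let f : A × A →* A :=
    { toFun := fun p => (φ g p.2 / p.2) / (φ h p.1 / p.1)
      map_one' := by simp
      map_mul' := fun p q => by
        simp only [Prod.fst_mul, Prod.snd_mul, map_mul]
        rw [← div_mul_div_comm, ← div_mul_div_comm, ← div_mul_div_comm] }
  have hker : ∀ p : A × A, p ∈ f.ker ↔ p.1 * φ g p.2 = p.2 * φ h p.1 := by
    intro p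
    show (φ g p.2 / p.2) / (φ h p.1 / p.1) = 1 ↔ _
    rw [div_eq_one, div_eq_div_iff_mul_eq_mul, mul_comm (φ g p.2), mul_comm (φ h p.1)]
  have hgH : g ∈ H := Subgroup.subset_closure (by simp)
  have hhH : h ∈ H := Subgroup.subset_closure (by simp)
  have hEinv : ∀ (k : H) a, E (φ (k : Γ) a) = E a := by
    intro k a
    rw [hE, hE]
    exact Fintype.prod_equiv (Equiv.mulRight k) _ _ (fun x => by simp [map_mul])
  have hEfix : ∀ (k : H) a, φ (k : Γ) (E a) = E a := by
    intro k a
    rw [hE, map_prod]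
    exact Fintype.prod_equiv (Equiv.mulLeft k) _ _ (fun x => by simp [map_mul])
  have hn : (Nat.card A).Coprime (Fintype.card H) := by
    rw [← Nat.card_eq_fintype_card]
    exact hcop.coprime_dvd_right (Subgroup.card_subgroup_dvd_card H)
  have hmove : ∀ k : Γ, k ∈ H → ∀ a, φ k a / a ∈ f.range := by
    intro k hk
    induction hk using Subgroup.closure_induction with
    | mem x hx =>
      intro a
      rcases hx with rfl | rfl
      · exact ⟨(1, a), by simp [f]⟩
      · exact (Subgroup.inv_mem_iff _).mp ⟨(a, 1), by simp [f]⟩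
    | one => intro a; simp
    | mul x y _ _ hx hy =>
      intro a
      have := mul_mem (hx (φ y a)) (hy a)
      rwa [div_mul_div_cancel, ← MulAut.mul_apply, ← map_mul] at this
    | inv x _ hx =>
      intro a
      have := inv_mem (hx (φ x⁻¹ a))
      rwa [inv_div, ← MulAut.mul_apply, ← map_mul, mul_inv_cancel, map_one, MulAut.one_apply] at this
  have hrange : f.range = E.ker := by
    refine le_antisymm ?_ ?_
    · rintro _ ⟨p, rfl⟩
      rw [MonoidHom.mem_ker]
      show E ((φ g p.2 / p.2) / (φ h p.1 / p.1)) = 1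
      rw [map_div, map_div, map_div]
      have h1 := hEinv ⟨g, hgH⟩ p.2
      have h2 := hEinv ⟨h, hhH⟩ p.1
      simp only at h1 h2
      simp [h1, h2]
    · intro a ha
      rw [MonoidHom.mem_ker, hE] at ha
      have h1 : (∏ k : H, (φ (k : Γ) a / a)) ∈ f.range := prod_mem (fun k _ => hmove k k.2 a)
      rw [Finset.prod_div_distrib, ha, one_div, Subgroup.inv_mem_iff, Finset.prod_const,
        Finset.card_univ] at h1
      have hn' : (Nat.card f.range).Coprime (Fintype.card H) :=
        hn.coprime_dvd_left (Subgroup.card_subgroup_dvd_card _)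
      obtain ⟨b, hb⟩ := (powCoprime hn').surjective ⟨_, h1⟩
      have hb' : (b : A) ^ Fintype.card H = a ^ Fintype.card H := congrArg Subtype.val hb
      have : (b : A) = a := (powCoprime hn).injective hb'
      exact this ▸ b.2
  have hC : (E.range : Set A) = {a : A | φ g a = a ∧ φ h a = a} := by
    ext a
    constructor
    · rintro ⟨b, rfl⟩
      exact ⟨hEfix ⟨g, hgH⟩ b, hEfix ⟨h, hhH⟩ b⟩
    · rintro ⟨ha, hb⟩
      have hfix : ∀ k : Γ, k ∈ H → φ k a = a := by
        intro k hk
        induction hk using Subgroup.closure_induction with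
        | mem x hx => rcases hx with rfl | rfl <;> assumption
        | one => simp
        | mul x y _ _ hx hy => rw [map_mul, MulAut.mul_apply, hy, hx]
        | inv x _ hx =>
          have h2 := congrArg (φ x⁻¹) hx
          rw [← MulAut.mul_apply, ← map_mul, inv_mul_cancel, map_one, MulAut.one_apply] at h2
          exact h2.symm
      obtain ⟨b, hb'⟩ := (powCoprime hn).surjective a
      refine ⟨b, ?_⟩
      have h3 : ∀ k : H, φ (k : Γ) b = b := by
        intro k
        apply (powCoprime hn).injective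
        show (φ (k : Γ) b) ^ _ = b ^ _
        rw [← map_pow]
        have : b ^ Fintype.card H = a := hb'
        rw [this, hfix k k.2]
      rw [hE]
      simp only [h3, Finset.prod_const, Finset.card_univ]
      exact hb'
  have h4 : Nat.card {a : A // φ g a = a ∧ φ h a = a} = Nat.card E.range :=
    Nat.card_congr (Equiv.setCongr hC.symm)
  have h5 : Nat.card {p : A × A // p.1 * φ g p.2 = p.2 * φ h p.1} = Nat.card f.ker :=
    Nat.card_congr (Equiv.subtypeEquivRight fun p => (hker p).symm)
  have h6 : ∀ {M : Type _} [Group M] (ψ : M →* A), Nat.card M = Nat.card ψ.range * Nat.card ψ.ker := by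
    intro M _ ψ
    rw [Subgroup.card_eq_card_quotient_mul_card_subgroup ψ.ker,
      Nat.card_congr (QuotientGroup.quotientKerEquivRange ψ).toEquiv]
  rw [h4, h5]
  have h7 := h6 f
  have h8 := h6 E
  rw [Nat.card_prod, hrange] at h7
  have hpos : 0 < Nat.card E.ker := Nat.card_pos
  apply Nat.eq_of_mul_eq_mul_left hpos
  rw [← h7]
  nth_rw 2 [h8]
  ring

theorem isComplement'_mul_inj {X : Type*} [Group X] {V G : Subgroup X}
    (hGV : Subgroup.IsComplement' V G) {a b : V} {c d : G} :
    (a : X) * c = b * d ↔ a = b ∧ c = d :=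
  ⟨fun h => Prod.ext_iff.mp (hGV.1 (a₁ := (a, c)) (a₂ := (b, d)) h), fun ⟨h1, h2⟩ => by rw [h1, h2]⟩

/-- Let X be a finite group, V an abelian normal subgroup of X (any two elements of V commute) and G a complement to V in X whose order is coprime to that of V. Let S be a set of representatives of the orbits of G on V under conjugation: S lies in V and every element of V is conjugate under G to exactly one member of S. Then the number of conjugacy classes of X equals the sum, over s in S, of the number of conjugacy classes of the centralizer of s in G. -/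
theorem result {X : Type*} [Group X] [Finite X] (V : Subgroup X) [V.Normal] (hab : ∀ a ∈ V, ∀ b ∈ V, a * b = b * a) (G : Subgroup X) (hGV : Subgroup.IsComplement' V G) (hcop : (Nat.card V).Coprime (Nat.card G)) (S : Finset X) (hSV : ∀ s ∈ S, s ∈ V) (hrep : ∀ v ∈ V, ∃! s, s ∈ S ∧ ∃ g ∈ G, g * v * g⁻¹ = s) : Nat.card (ConjClasses X) = ∑ s ∈ S, Nat.card (ConjClasses ↥(G ⊓ Subgroup.centralizer ({s} : Set X))) := by
  classical
  letI : CommGroup ↥V := { (inferInstance : Group ↥V) with
    mul_comm := fun a b => Subtype.ext (hab a a.2 b b.2) }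
  let φ : ↥G →* MulAut ↥V := (MulAut.conjNormal : X →* MulAut ↥V).comp G.subtype
  have hφ : ∀ (g : G) (v : V), ((φ g v : V) : X) = g * v * (g : X)⁻¹ := fun g v => rfl
  let C : V → Subgroup X := fun v => G ⊓ Subgroup.centralizer ({(v : X)} : Set X)
  have hmemC : ∀ (g : G) (v : V), (g : X) ∈ C v ↔ φ g v = v := by
    intro g v
    simp only [C, Subgroup.mem_inf, SetLike.coe_mem, true_and, Subgroup.mem_centralizer_singleton_iff,
      Subtype.ext_iff, hφ, mul_inv_eq_iff_eq_mul]
  -- commuting pairs in `X`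
  have e1 : {p : X × X // Commute p.1 p.2} ≃
      Σ q : {q : G × G // Commute q.1 q.2},
        {r : V × V // r.1 * φ q.1.1 r.2 = r.2 * φ q.1.2 r.1} := by
    let e0 : (G × G) × (V × V) ≃ X × X :=
      ((Equiv.prodComm _ _).trans (Equiv.prodProdProdComm _ _ _ _)).trans
        ((Equiv.ofBijective _ hGV).prodCongr (Equiv.ofBijective _ hGV))
    have hcomm : ∀ p : (G × G) × (V × V),
        (Commute p.1.1 p.1.2 ∧ p.2.1 * φ p.1.1 p.2.2 = p.2.2 * φ p.1.2 p.2.1) ↔
          Commute (e0 p).1 (e0 p).2 := by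
      rintro ⟨⟨g, h⟩, ⟨u, w⟩⟩
      show Commute g h ∧ _ ↔ (u : X) * g * (w * h) = w * h * (u * g)
      have e : ∀ (u w : V) (g h : G), (u : X) * g * (w * h) = ((u * φ g w : V) : X) * ((g * h : G) : X) := by
        intro u w g h
        simp [hφ, mul_assoc]
      rw [e, e, isComplement'_mul_inj hGV]
      exact and_comm
    exact (Equiv.subtypeEquiv e0 hcomm).symm.trans
      { toFun := fun p => ⟨⟨p.1.1, p.2.1⟩, ⟨p.1.2, p.2.2⟩⟩
        invFun := fun s => ⟨(s.1.1, s.2.1), s.1.2, s.2.2⟩
        left_inv := fun _ => rfl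
        right_inv := fun _ => rfl }
  have hcop' : (Nat.card ↥V).Coprime (Nat.card ↥G) := hcop
  have e2 : (Σ q : {q : G × G // Commute q.1 q.2}, {a : V // φ q.1.1 a = a ∧ φ q.1.2 a = a}) ≃
      Σ a : V, {p : ↥(C a) × ↥(C a) // Commute p.1 p.2} :=
    { toFun := fun s => ⟨s.2.1, ⟨(⟨s.1.1.1, (hmemC _ _).2 s.2.2.1⟩, ⟨s.1.1.2, (hmemC _ _).2 s.2.2.2⟩),
        Subtype.ext (congrArg Subtype.val s.1.2.eq :)⟩⟩
      invFun := fun s => ⟨⟨(⟨s.2.1.1, s.2.1.1.2.1⟩, ⟨s.2.1.2, s.2.1.2.2.1⟩),
        Subtype.ext (congrArg Subtype.val s.2.2.eq :)⟩, s.1, (hmemC _ _).1 s.2.1.1.2, (hmemC _ _).1 s.2.1.2.2⟩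
      left_inv := fun _ => rfl
      right_inv := fun _ => rfl }
  have : Fintype ↥V := Fintype.ofFinite _
  have hcount : Nat.card (ConjClasses X) * Nat.card X =
      Nat.card ↥V * ∑ a : V, Nat.card (ConjClasses ↥(C a)) * Nat.card ↥(C a) := by
    have : Fintype {q : G × G // Commute q.1 q.2} := Fintype.ofFinite _
    rw [← card_comm_eq_card_conjClasses_mul_card, Nat.card_congr e1, Nat.card_sigma]
    rw [Finset.sum_congr rfl fun q _ => card_cocycle_pairs φ hcop' q.1.1 q.1.2, ← Finset.mul_sum,
      ← Nat.card_sigma, Nat.card_congr e2, Nat.card_sigma]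
    simp only [card_comm_eq_card_conjClasses_mul_card]
  -- orbit representatives
  have hrep' : ∀ a : V, ∃ s : X, s ∈ S ∧ ∃ g ∈ G, g * (a : X) * g⁻¹ = s := fun a => (hrep a a.2).exists
  choose r hrS hr using hrep'
  have hfib : ∀ s ∈ S, ∑ a ∈ Finset.univ.filter (fun a : V => r a = s),
      Nat.card (ConjClasses ↥(C a)) * Nat.card ↥(C a) =
      Nat.card (ConjClasses ↥(G ⊓ Subgroup.centralizer ({s} : Set X))) * Nat.card ↥G := by
    intro s hs
    letI : MulAction ↥G ↥V := MulAction.compHom _ φ
    let sv : V := ⟨s, hSV s hs⟩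
    have horb : ∀ a : V, r a = s ↔ a ∈ MulAction.orbit ↥G sv := by
      intro a
      constructor
      · intro h
        obtain ⟨g, hg, hga⟩ := hr a
        refine ⟨⟨g, hg⟩⁻¹, Subtype.ext ?_⟩
        show ((φ (⟨g, hg⟩ : G)⁻¹ sv : V) : X) = a
        rw [hφ]
        simp [sv, ← h, ← hga, mul_assoc]
      · rintro ⟨g, rfl⟩
        refine (hrep _ (SetLike.coe_mem _)).unique ⟨hrS _, hr _⟩ ⟨hs, (g : X)⁻¹, inv_mem g.2, ?_⟩
        show (g : X)⁻¹ * ((φ g sv : V) : X) * (g : X)⁻¹⁻¹ = s
        rw [hφ]
        simp [sv, mul_assoc]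
    have hiso : ∀ a : V, r a = s → Nonempty (↥(C a) ≃* ↥(C sv)) := by
      intro a h
      obtain ⟨g, hg, hga⟩ := hr a
      rw [h] at hga
      have hmap : (C a).map (MulAut.conj g).toMonoidHom = C sv := by
        ext x
        rw [Subgroup.mem_map_equiv]
        simp only [C, sv, Subgroup.mem_inf, Subgroup.mem_centralizer_singleton_iff,
          MulAut.conj_symm_apply, ← hga]
        constructor
        · rintro ⟨h1, h2⟩
          have h1' := mul_mem (mul_mem hg h1) (inv_mem hg)
          simp only [mul_assoc, mul_inv_cancel_left, mul_inv_cancel, mul_one] at h1'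
          refine ⟨h1', ?_⟩
          have h2' := congrArg (fun y => g * y * g⁻¹) h2
          simpa [mul_assoc] using h2'
        · rintro ⟨h1, h2⟩
          refine ⟨mul_mem (mul_mem (inv_mem hg) h1) hg, ?_⟩
          have h2' := congrArg (fun y => g⁻¹ * y * g) h2
          simpa [mul_assoc] using h2'
      exact ⟨((MulAut.conj g).subgroupMap (C a)).trans (MulEquiv.subgroupCongr hmap)⟩
    have hconst : ∀ a ∈ Finset.univ.filter (fun a : V => r a = s),
        Nat.card (ConjClasses ↥(C a)) * Nat.card ↥(C a) =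
        Nat.card (ConjClasses ↥(C sv)) * Nat.card ↥(C sv) := by
      intro a ha
      obtain ⟨e⟩ := hiso a (Finset.mem_filter.mp ha).2
      have h1 : Nat.card ↥(C a) = Nat.card ↥(C sv) := Nat.card_congr e.toEquiv
      have h2 : Nat.card {p : ↥(C a) × ↥(C a) // Commute p.1 p.2} =
          Nat.card {p : ↥(C sv) × ↥(C sv) // Commute p.1 p.2} :=
        Nat.card_congr (Equiv.subtypeEquiv (e.toEquiv.prodCongr e.toEquiv)
          (fun p => (commute_map_iff (f := e) e.injective).symm))
      rwa [card_comm_eq_card_conjClasses_mul_card, card_comm_eq_card_conjClasses_mul_card] at h2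
    have hstab : Nat.card ↥(MulAction.stabilizer ↥G sv) = Nat.card ↥(C sv) :=
      Nat.card_congr
        { toFun := fun g => ⟨g.1, (hmemC g.1 sv).2 g.2⟩
          invFun := fun x => ⟨⟨x.1, x.2.1⟩, (hmemC ⟨x.1, x.2.1⟩ sv).1 x.2⟩
          left_inv := fun _ => rfl
          right_inv := fun _ => rfl }
    have hn : (Finset.univ.filter (fun a : V => r a = s)).card = Nat.card (MulAction.orbit ↥G sv) := by
      rw [Nat.card_coe_set_eq, ← Set.ncard_coe_finset]
      congr 1
      ext a
      simp [horb a]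
    rw [Finset.sum_const_nat hconst, hn, Nat.card_coe_set_eq, ← MulAction.index_stabilizer,
      mul_left_comm, ← hstab, Subgroup.index_mul_card]
  have hsum : ∑ a : V, Nat.card (ConjClasses ↥(C a)) * Nat.card ↥(C a) =
      (∑ s ∈ S, Nat.card (ConjClasses ↥(G ⊓ Subgroup.centralizer ({s} : Set X)))) * Nat.card ↥G := by
    rw [← Finset.sum_fiberwise_of_maps_to (t := S) (g := r) (fun a _ => hrS a), Finset.sum_mul]
    exact Finset.sum_congr rfl hfib
  rw [hsum, ← hGV.card_mul] at hcount
  have hpos : 0 < Nat.card ↥V * Nat.card ↥G := Nat.mul_pos Nat.card_pos Nat.card_pos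
  apply Nat.eq_of_mul_eq_mul_right hpos
  rw [hcount]
  ring

end Cfsg.Agent.S4956
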