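import Cfsg.Statements.S3359
import Mathlib
import Cfsg.Agent.Lib.PermGroups.Zassenhaus.Main
import Cfsg.Agent.Lib.Frobenius.Kernel
-- import your own Cfsg.Agent.* helpers here

set_option autoImplicit false
open Cfsg

namespace Cfsg.Agent.S3359

open CfsgLib.PermGroups
open scoped MatrixGroups commutatorElement

/-- A perfect non-trivial normal subgroup of a finite insoluble group. -/
theorem exists_perfect_normal {G : Type*} [Group G] [Finite G] (hns : ¬ Group.IsSolvable G) :
    ∃ D : Subgroup G, D.Normal ∧ D ≠ ⊥ ∧ ⁅D, D⁆ = D := by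
  have hne : ∀ n, derivedSeries G n ≠ ⊥ := fun n h => hns ⟨⟨n, h⟩⟩
  by_contra hcon
  push_neg at hcon
  have hlt : ∀ n, derivedSeries G (n + 1) < derivedSeries G n := fun n => by
    have h1 : ⁅derivedSeries G n, derivedSeries G n⁆ ≠ derivedSeries G n :=
      hcon _ (derivedSeries_normal G n) (hne n)
    exact lt_of_le_of_ne (derivedSeries_antitone G (Nat.le_succ n))
      (by rw [derivedSeries_succ]; exact h1)
  have hb : ∀ n, Nat.card (derivedSeries G n) + n ≤ Nat.card (derivedSeries G 0) := by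
    intro n
    induction n with
    | zero => simp
    | succ n ih =>
      have : Nat.card (derivedSeries G (n + 1)) < Nat.card (derivedSeries G n) := by
        by_contra h
        exact (hlt n).ne (Subgroup.eq_of_le_of_card_ge (hlt n).le (not_lt.mp h))
      omega
  have h := hb (Nat.card (derivedSeries G 0))
  have : 0 < Nat.card (derivedSeries G (Nat.card (derivedSeries G 0))) := Nat.card_pos
  omega

theorem main {K : Type*} [Group K] [Finite K] [Nontrivial K] {G : Type*} [Group G] [Finite G]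
    (φ : G →* MulAut K) (hfpf : ∀ g : G, g ≠ 1 → ∀ k : K, φ g k = k → k = 1)
    (hns : ¬ Group.IsSolvable G) :
    ∃ G₀ : Subgroup G, G₀.Normal ∧ (G₀.index = 1 ∨ G₀.index = 2) ∧
      ∃ S M : Subgroup G, S ⊔ M = G₀ ∧ S ⊓ M = ⊥ ∧ (∀ s ∈ S, ∀ x ∈ M, s * x = x * s) ∧
        Nonempty (S ≃* Matrix.SpecialLinearGroup (Fin 2) (ZMod 5)) ∧
        (∀ (p : ℕ) [Fact p.Prime] (P : Sylow p M), IsCyclic P) ∧ (Nat.card M).Coprime 30 := by
  classical
  obtain ⟨r, n, hr, ρ, hn, hρ, hcard⟩ := exists_fpf_rep φ hfpf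
  haveI : Nonempty (Fin n) := ⟨⟨0, hn⟩⟩
  -- the representation of a subgroup
  have hsub : ∀ L : Subgroup G, (Nat.card L : AlgebraicClosure (ZMod r)) ≠ 0 := by
    intro L h0
    obtain ⟨d, hd⟩ := L.card_subgroup_dvd_card
    exact hcard (by rw [hd, Nat.cast_mul, h0, zero_mul])
  have hρsub : ∀ L : Subgroup G, ∀ g : L, g ≠ 1 → ∀ v, ρ.comp L.subtype g v = v → v = 0 :=
    fun L g hg v hv => hρ g (fun h => hg (Subtype.ext h)) v hv
  have huniq : ∀ a b : G, a * a = 1 → a ≠ 1 → b * b = 1 → b ≠ 1 → a = b :=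
    fun a b h1 h2 h3 h4 => fpf_involution_unique ρ hρ h1 h2 h3 h4
  obtain ⟨D, hDn, hD1, hDD⟩ := exists_perfect_normal hns
  haveI := hDn
  haveI : Nontrivial D := D.nontrivial_iff_ne_bot.2 hD1
  have hperf : commutator D = ⊤ := by
    apply Subgroup.map_injective D.subtype_injective
    rw [commutator_def, Subgroup.map_commutator, ← MonoidHom.range_eq_map, Subgroup.range_subtype,
      hDD]
  have hfpfD : ∀ d : D, d ≠ 1 → ∀ k : K, φ.comp D.subtype d k = k → k = 1 :=
    fun d hd => hfpf d (fun h => hd (Subtype.ext h))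
  obtain ⟨z, π, hz1, hz, hzc, hπ, hr'⟩ := exists_five_hom_of_fpf_perfect (φ.comp D.subtype) hfpfD hperf
  obtain ⟨eD⟩ := equiv_sl_two_five hperf hz hz1 hzc π hπ hr'
  have hz2 : (z : G) * z = 1 := congrArg Subtype.val hz
  have hzne : (z : G) ≠ 1 := fun h => hz1 (Subtype.ext h)
  have hzG : ∀ g : G, g * z = z * g := by
    intro g
    have h := huniq (g * z * g⁻¹) z (by
      rw [show g * z * g⁻¹ * (g * z * g⁻¹) = g * (z * z) * g⁻¹ by group, hz2]; group)
      (fun h => hzne (by simpa using h)) hz2 hzne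
    exact mul_inv_eq_iff_eq_mul.mp h
  -- the action on five points
  have hkerπ : ∀ (g : G) (d : D), π d = 1 → π (MulAut.conjNormal g d) = 1 := by
    intro g d hd
    rcases (hπ d).1 hd with rfl | rfl
    · rw [map_one, map_one]
    · refine (hπ _).2 (Or.inr (Subtype.ext ?_))
      rw [MulAut.conjNormal_apply, hzG, mul_inv_cancel_right]
  have hz3 : ∀ a : D, a ^ 3 = 1 → (a * z) ^ 3 = z := by
    intro a ha
    rw [(Commute.mul_pow (show Commute a z from hzc a)), ha, one_mul, pow_succ, pow_two, hz, one_mul]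
  have hinjπ : ∀ a b : D, a ^ 3 = 1 → b ^ 3 = 1 → π a = π b → a = b := by
    intro a b ha hb h
    rcases (hπ (a⁻¹ * b)).1 (by rw [map_mul, map_inv, h, inv_mul_cancel]) with e | e
    · exact inv_mul_eq_one.mp e
    · exfalso
      rw [inv_mul_eq_iff_eq_mul] at e
      rw [e, hz3 a ha] at hb
      exact hz1 hb
  have hsurjπ : ∀ x ∈ Perm5.L5, ∃ a : D, a ^ 3 = 1 ∧ π a = x := by
    intro x hx
    have hx3 := Perm5.L5_isThreeCycle x hx
    have hxA : x ∈ alternatingGroup (Fin 5) := by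
      rw [Equiv.Perm.mem_alternatingGroup]
      have h := congrArg Equiv.Perm.sign hx3.2
      rw [map_pow, map_one] at h
      rcases Int.units_eq_one_or (Equiv.Perm.sign x) with e | e
      · exact e
      · rw [e] at h; exact absurd h (by decide)
    rw [← hr'] at hxA
    obtain ⟨d, rfl⟩ := hxA
    rcases (hπ (d ^ 3)).1 (by rw [map_pow]; exact hx3.2) with e | e
    · exact ⟨d, e, rfl⟩
    · refine ⟨d * z, ?_, ?_⟩
      · rw [Commute.mul_pow (show Commute d z from hzc d), e, pow_succ z 2, pow_two, hz, one_mul, hz]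
      · rw [map_mul, (hπ z).2 (Or.inr rfl), mul_one]
  have hgen : Subgroup.closure {a : D | a ^ 3 = 1} = ⊤ := by
    set N := Subgroup.closure {a : D | a ^ 3 = 1} with hN
    have himg : alternatingGroup (Fin 5) ≤ N.map π := Perm5.alternating_le fun x hx => by
      obtain ⟨a, ha, rfl⟩ := hsurjπ x hx
      exact ⟨a, Subgroup.subset_closure ha, rfl⟩
    have hdec : ∀ d : D, ∃ d' ∈ N, ∃ c, (∀ u, u * c = c * u) ∧ d = d' * c := by
      intro d
      obtain ⟨d', hd', e⟩ := himg (hr'.le (⟨d, rfl⟩ : π d ∈ π.range))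
      refine ⟨d', hd', d'⁻¹ * d, ?_, (mul_inv_cancel_left d' d).symm⟩
      rcases (hπ (d'⁻¹ * d)).1 (by rw [map_mul, map_inv, e, inv_mul_cancel]) with e' | e' <;> rw [e']
      · simp
      · exact hzc
    rw [eq_top_iff, ← hperf, commutator_def, Subgroup.commutator_le]
    intro a _ b _
    obtain ⟨a', ha, c, hc, rfl⟩ := hdec a
    obtain ⟨b', hb, c', hc', rfl⟩ := hdec b
    have : ⁅a' * c, b' * c'⁆ = ⁅a', b'⁆ := by
      rw [commutatorElement_def, commutatorElement_def, mul_inv_rev, mul_inv_rev]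
      calc a' * c * (b' * c') * (c⁻¹ * a'⁻¹) * (c'⁻¹ * b'⁻¹)
          = a' * (c * (b' * c') * c⁻¹) * a'⁻¹ * c'⁻¹ * b'⁻¹ := by group
        _ = a' * b' * (c' * a'⁻¹ * c'⁻¹) * b'⁻¹ := by rw [← hc]; group
        _ = _ := by rw [← hc']; group
    rw [this, commutatorElement_def]
    exact N.mul_mem (N.mul_mem (N.mul_mem ha hb) (N.inv_mem ha)) (N.inv_mem hb)
  obtain ⟨θ, hθD, hθk⟩ := exists_five_action π hkerπ hinjπ hsurjπ hgen
  set C := Subgroup.centralizer (D : Set G) with hC
  haveI hCn : C.Normal := by rw [← hθk]; infer_instance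
  have hDC : ∀ d ∈ D, ∀ c ∈ C, d * c = c * d := fun d hd c hc => Subgroup.mem_centralizer_iff.1 hc d hd
  have hzC : (z : G) ∈ C := Subgroup.mem_centralizer_iff.2 fun x _ => hzG x
  have hCD : ∀ x, x ∈ C → x ∈ D → x = 1 ∨ x = z := by
    intro x hxC hxD
    have h : π ⟨x, hxD⟩ = 1 := by
      rw [← hθD]
      exact MonoidHom.mem_ker.1 (hθk.symm ▸ hxC)
    rcases (hπ _).1 h with e | e
    · exact Or.inl (congrArg Subtype.val e)
    · exact Or.inr (congrArg Subtype.val e)
  -- no elements of order three, four or five in the centraliser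
  have hSL : Nat.card D = 120 := by
    haveI : Fact (Nat.Prime 5) := ⟨Nat.prime_five⟩
    rw [Nat.card_congr eD.toEquiv, CfsgLib.SL2.card_SL, Nat.card_eq_fintype_card, ZMod.card]
    norm_num
  have hprime : ∀ p : ℕ, p.Prime → p ∣ 15 → ¬ p ∣ Nat.card C := by
    intro p hp h15 hdC
    haveI : Fact p.Prime := ⟨hp⟩
    have hpD : p ∣ Nat.card D := hSL ▸ h15.trans (by norm_num)
    obtain ⟨a, ha⟩ := exists_prime_orderOf_dvd_card' p hpD
    obtain ⟨b, hb⟩ := exists_prime_orderOf_dvd_card' p hdC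
    have ha' : orderOf (a : G) = p := by rw [Subgroup.orderOf_coe, ha]
    have hb' : orderOf (b : G) = p := by rw [Subgroup.orderOf_coe, hb]
    have hpk : (p : AlgebraicClosure (ZMod r)) ≠ 0 := by
      intro h0
      obtain ⟨d, hd⟩ := hpD.trans D.card_subgroup_dvd_card
      exact hcard (by rw [hd, Nat.cast_mul, h0, zero_mul])
    have hbD : (b : G) ∈ D := by
      have := fpf_comm_prime ρ hρ hpk ha' hb' (hDC a a.2 b b.2)
      exact Subgroup.zpowers_le.2 a.2 this
    rcases hCD b b.2 hbD with e | e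
    · rw [e, orderOf_one] at hb'; exact hp.one_lt.ne hb'
    · have h2 : orderOf (b : G) ∣ 2 := orderOf_dvd_of_pow_eq_one (by rw [e, pow_two, hz2])
      rw [hb', Nat.prime_dvd_prime_iff_eq hp Nat.prime_two] at h2
      subst h2
      norm_num at h15
  obtain ⟨y, hy⟩ : ∃ y : D, y * y = z := by
    have hA : ∃ x ∈ alternatingGroup (Fin 5), x * x = 1 ∧ x ≠ 1 :=
      ⟨Equiv.swap 0 1 * Equiv.swap 2 3, Equiv.Perm.mem_alternatingGroup.2 (by simp [Equiv.Perm.sign_swap]),
        by decide, by decide⟩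
    obtain ⟨x, hx, hx2, hx1⟩ := hA
    rw [← hr'] at hx
    obtain ⟨d, rfl⟩ := hx
    refine ⟨d, ?_⟩
    rcases (hπ (d * d)).1 (by rw [map_mul]; exact hx2) with e | e
    · exfalso
      rcases eq_or_ne d 1 with rfl | hd1
      · exact hx1 (map_one π)
      · have := huniq (d : G) z (congrArg Subtype.val e) (fun h => hd1 (Subtype.ext h)) hz2 hzne
        exact hx1 ((hπ d).2 (Or.inr (Subtype.ext this)))
    · exact e
  have hno4 : ∀ x : G, x ∈ C → x * x = z → False := by
    intro x hx hxz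
    have hy' : (y : G) * y = z := congrArg Subtype.val hy
    have h1 : (x * y) * (x * y) = 1 := by
      calc (x * y) * (x * y) = x * (y * x) * y := by group
        _ = (x * x) * (y * y) := by rw [hDC y y.2 x hx]; group
        _ = 1 := by rw [hxz, hy', hz2]
    have hxD : x ∈ D := by
      by_cases he : x * (y : G) = 1
      · rw [eq_inv_of_mul_eq_one_left he]; exact D.inv_mem y.2
      · rw [show x = (x * y) * (y : G)⁻¹ by group, huniq _ _ h1 he hz2 hzne]
        exact D.mul_mem z.2 (D.inv_mem y.2)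
    rcases hCD x hx hxD with e | e
    · rw [e, one_mul] at hxz; exact hzne hxz.symm
    · rw [e, hz2] at hxz; exact hzne hxz.symm
  -- the odd part
  haveI : Fact (Nat.Prime 2) := ⟨Nat.prime_two⟩
  set Z : Subgroup C := Subgroup.zpowers ⟨z, hzC⟩ with hZ
  have hZcard : Nat.card Z = 2 := by
    rw [hZ, Nat.card_zpowers, ← Subgroup.orderOf_coe]
    exact orderOf_eq_prime (by rw [pow_two]; exact hz2) hzne
  haveI : Z.Normal := ⟨fun u hu g => by
    obtain ⟨i, rfl⟩ := Subgroup.mem_zpowers_iff.1 hu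
    have hcz : Commute g (⟨z, hzC⟩ : C) := Subtype.ext (hzG g)
    rw [(hcz.zpow_right i).eq, mul_inv_cancel_right]
    exact hu⟩
  have hcop : (Nat.card Z).Coprime Z.index := by
    rw [hZcard, Nat.prime_two.coprime_iff_not_dvd]
    intro h2
    rw [Subgroup.index_eq_card] at h2
    obtain ⟨q, hq⟩ := exists_prime_orderOf_dvd_card' 2 h2
    obtain ⟨c, rfl⟩ := QuotientGroup.mk_surjective q
    have hc2 : c * c ∈ Z := by
      rw [← QuotientGroup.eq_one_iff, QuotientGroup.mk_mul, ← pow_two, ← hq, pow_orderOf_eq_one]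
    have hc1 : c ∉ Z := fun h => by
      rw [(QuotientGroup.eq_one_iff c).2 h, orderOf_one] at hq; norm_num at hq
    have hzz : ∀ u : C, u ∈ Z → (u : G) = 1 ∨ (u : G) = z := by
      intro u hu
      obtain ⟨i, rfl⟩ := Subgroup.mem_zpowers_iff.1 hu
      rw [Subgroup.coe_zpow, Subgroup.coe_mk]
      rcases Int.even_or_odd i with ⟨j, rfl⟩ | ⟨j, rfl⟩
      · left; rw [← two_mul, zpow_mul, show (z : G) ^ (2 : ℤ) = 1 by
          rw [zpow_two]; exact hz2, one_zpow]
      · right; rw [zpow_add, zpow_mul, show (z : G) ^ (2 : ℤ) = 1 by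
          rw [zpow_two]; exact hz2, one_zpow, one_mul, zpow_one]
    rcases hzz _ hc2 with e | e
    · by_cases hc : (c : G) = 1
      · exact hc1 (by rw [show c = 1 from Subtype.ext hc]; exact one_mem Z)
      · refine hc1 ?_
        rw [show c = ⟨z, hzC⟩ from Subtype.ext (huniq _ _ e hc hz2 hzne)]
        exact Subgroup.mem_zpowers _
    · exact hno4 c c.2 e
  obtain ⟨M', hM'⟩ := Subgroup.exists_right_complement'_of_coprime hcop
  set M : Subgroup G := M'.map C.subtype with hM
  have hMC : M ≤ C := Subgroup.map_subtype_le M'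
  have hMcard : Nat.card M = Nat.card M' :=
    (Nat.card_congr (M'.equivMapOfInjective _ C.subtype_injective).toEquiv).symm
  have hMC' : Nat.card M' = Z.index := by
    rw [← hM'.symm.index_eq_card]
  have hMdvd : Nat.card M ∣ Nat.card C := Subgroup.card_dvd_of_le hMC
  have hM2 : ¬ 2 ∣ Nat.card M := by
    rw [hMcard, hMC']
    rw [hZcard, Nat.prime_two.coprime_iff_not_dvd] at hcop
    exact hcop
  have hMZ : ∀ p : ℕ, [Fact p.Prime] → ∀ P : Sylow p M, IsCyclic P := by
    intro p hp P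
    haveI := fpf_isZGroup_of_odd (ρ.comp M.subtype) (hρsub M) (hsub M) hM2
    exact IsZGroup.isZGroup p hp.out P
  have hcop30 : (Nat.card M).Coprime 30 := by
    rw [show (30 : ℕ) = 2 * 3 * 5 by norm_num]
    refine Nat.Coprime.mul_right (Nat.Coprime.mul_right ?_ ?_) ?_
    · exact (Nat.prime_two.coprime_iff_not_dvd.2 hM2).symm
    · exact (Nat.prime_three.coprime_iff_not_dvd.2
        fun h => hprime 3 Nat.prime_three (by norm_num) (h.trans hMdvd)).symm
    · exact (Nat.prime_five.coprime_iff_not_dvd.2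
        fun h => hprime 5 Nat.prime_five (by norm_num) (h.trans hMdvd)).symm
  refine ⟨D ⊔ C, inferInstance, ?_, D, M, ?_, ?_, fun s hs x hx => hDC s hs x (hMC hx), ⟨eD⟩, hMZ,
    hcop30⟩
  · set R := θ.range with hR
    have hA : alternatingGroup (Fin 5) = (D ⊔ C).map θ := by
      rw [Subgroup.map_sup, (Subgroup.map_eq_bot_iff C).2 hθk.ge, sup_bot_eq, ← hr']
      ext x
      constructor
      · rintro ⟨d, rfl⟩; exact ⟨d, d.2, hθD d⟩
      · rintro ⟨d, hd, rfl⟩; exact ⟨⟨d, hd⟩, (hθD ⟨d, hd⟩).symm⟩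
    have hidx : (D ⊔ C).index ∣ 2 := by
      have h1 : ((D ⊔ C).map θ).index = (D ⊔ C).index * θ.range.index := by
        rw [Subgroup.index_map, sup_eq_left.2 (hθk.le.trans le_sup_right)]
      rw [← hA, alternatingGroup.index_eq_two] at h1
      exact ⟨_, h1⟩
    exact (Nat.dvd_prime Nat.prime_two).1 hidx
  · refine le_antisymm (sup_le le_sup_left (hMC.trans le_sup_right)) (sup_le le_sup_left ?_)
    intro c hc
    obtain ⟨⟨⟨u, hu⟩, ⟨m, hm⟩⟩, e⟩ := (hM'.existsUnique (⟨c, hc⟩ : C)).exists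
    have e' : ((u : C) : G) * (m : C) = c := congrArg Subtype.val e
    rw [← e']
    refine Subgroup.mul_mem _ (Subgroup.mem_sup_left ?_) (Subgroup.mem_sup_right ⟨m, hm, rfl⟩)
    obtain ⟨i, rfl⟩ := Subgroup.mem_zpowers_iff.1 hu
    rw [Subgroup.coe_zpow]
    exact D.zpow_mem z.2 i
  · rw [eq_bot_iff]
    rintro x ⟨hxD, hxM⟩
    rcases hCD x (hMC hxM) hxD with e | e
    · exact e
    · exfalso
      refine hM2 ?_
      have := orderOf_dvd_natCard (⟨x, hxM⟩ : M)
      rwa [Subgroup.orderOf_mk, e, orderOf_eq_prime (by rw [pow_two]; exact hz2) hzne] at this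


/-- Structure of non-solvable Frobenius complements. Let G be a finite non-solvable group that occurs as a Frobenius complement. Then G has a normal subgroup G₀ of index 1 or 2 which is the direct product of a subgroup isomorphic to SL(2,5) and a subgroup M of order prime to 30 all of whose Sylow subgroups are cyclic. -/
theorem result {G : Type*} [Group G] [Finite G] (hns : ¬ Group.IsSolvable G)
    (hFC : ∃ (L : Type) (_ : Group L) (_ : Finite L) (H : Subgroup L), Cfsg.IsFrobeniusComplement H ∧ Nonempty (G ≃* H)) :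
    ∃ G₀ : Subgroup G, G₀.Normal ∧ (G₀.index = 1 ∨ G₀.index = 2) ∧
      ∃ S M : Subgroup G, S ⊔ M = G₀ ∧ S ⊓ M = ⊥ ∧ (∀ s ∈ S, ∀ x ∈ M, s * x = x * s) ∧
        Nonempty (S ≃* Matrix.SpecialLinearGroup (Fin 2) (ZMod 5)) ∧
        (∀ (p : ℕ) [Fact p.Prime] (P : Sylow p M), IsCyclic P) ∧ (Nat.card M).Coprime 30 := by
  obtain ⟨L, iL, iLf, H, hH, ⟨e⟩⟩ := hFC
  obtain ⟨N, -, hNn, hc⟩ := CfsgLib.Frobenius.exists_kernel hH
  haveI := hNn
  have hN1 : N ≠ ⊥ := by
    intro h
    have := hc.index_eq_card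
    rw [h, Subgroup.card_bot] at this
    exact hH.2.1 (Subgroup.index_eq_one.1 this)
  haveI : Nontrivial N := N.nontrivial_iff_ne_bot.2 hN1
  refine main ((MulAut.conjNormal (H := N)).comp (H.subtype.comp e.toMonoidHom)) ?_ hns
  intro g hg k hk
  have hfp := (CfsgLib.Frobenius.isFrobeniusComplement_iff_fpf N H hc hN1 hH.1).1 hH
  refine Subtype.ext (hfp _ (e g).2 (fun h => hg (e.map_eq_one_iff.1 (Subtype.ext h))) k k.2 ?_)
  have h' := congrArg Subtype.val hk
  simp only [MonoidHom.comp_apply, MulAut.conjNormal_apply] at h'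
  exact mul_inv_eq_iff_eq_mul.1 h'

end Cfsg.Agent.S3359
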