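import Cfsg.Statements.S1497
import Mathlib.Tactic

set_option autoImplicit false
open Cfsg

namespace Cfsg.Agent.S1497

/-- Let A be a nonempty subset of the finite group G not containing 1 and L a subgroup. Then A is a TI-subset whose normaliser is L if and only if the Dade hypothesis holds for A, L and the constant choice H(a) = ⊥. -/
theorem result {G : Type*} [Group G] [Finite G] (A : Set G) (hA : A.Nonempty) (h1 : (1 : G) ∉ A) (L : Subgroup G) : (Cfsg.IsTISubset A ∧ Subgroup.normalizer A = L) ↔ Cfsg.DadeHypothesis A L (fun _ => ⊥) := by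
  constructor
  · rintro ⟨hTI, rfl⟩
    have hne : ∀ a ∈ A, a ≠ 1 := fun a ha h => h1 (h ▸ ha)
    have hmem : ∀ g : G, ∀ a ∈ A, g * a * g⁻¹ ∈ A → g ∈ Subgroup.normalizer A := by
      intro g a ha h; by_contra hg; exact hne a ha (hTI g hg a ha h)
    refine ⟨h1, fun a ha => hmem a a ha (by simpa using ha),
      fun x hx a ha => (Subgroup.mem_set_normalizer_iff.1 hx a).1 ha,
      fun a ha g h => ⟨g, hmem g a ha h, rfl⟩, fun a _ => bot_le, ?_, fun a _ => bot_inf_eq _, ?_, ?_⟩
    · intro a _ c _ u hu
      rw [Subgroup.mem_bot] at hu ⊢; simp [hu]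
    · intro a ha
      rw [bot_sup_eq, inf_eq_right]
      intro c hc
      have := Subgroup.mem_centralizer_singleton_iff.1 hc
      exact hmem c a ha (by rw [this, mul_inv_cancel_right]; exact ha)
    · intro a _ b _; simp
  · intro h
    have hLN : L ≤ Subgroup.normalizer A := by
      intro x hx
      refine Subgroup.mem_set_normalizer_iff.2 fun a => ⟨h.conj_mem x hx a, fun hy => ?_⟩
      have := h.conj_mem x⁻¹ (L.inv_mem hx) _ hy
      simpa [mul_assoc] using this
    have hmem : ∀ g : G, ∀ a ∈ A, g * a * g⁻¹ ∈ A → g ∈ L := by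
      intro g a ha hg
      obtain ⟨x, hx, hxa⟩ := h.fusion a ha g hg
      have hc : x⁻¹ * g ∈ Subgroup.centralizer ({a} : Set G) := by
        rw [Subgroup.mem_centralizer_singleton_iff]
        calc x⁻¹ * g * a = x⁻¹ * (g * a * g⁻¹) * g := by group
          _ = a * (x⁻¹ * g) := by rw [← hxa]; group
      rw [← h.sup_eq a ha, bot_sup_eq] at hc
      simpa using L.mul_mem hx hc.1
    refine ⟨fun g hg a ha hga => absurd (hLN (hmem g a ha hga)) hg, le_antisymm ?_ hLN⟩
    intro g hg
    obtain ⟨a, ha⟩ := hA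
    exact hmem g a ha ((Subgroup.mem_set_normalizer_iff.1 hg a).1 ha)

end Cfsg.Agent.S1497
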