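import Cfsg.Statements.S3779
import Cfsg.Agent.Lib.Kreknin.Eigen
import Cfsg.Agent.Lib.FixedPointFree.Splitting

set_option autoImplicit false
open Cfsg

namespace Cfsg.Agent.S3779

open CfsgLib.Kreknin in
theorem lcs_eq_bot_of_fpf {G : Type*} [Group G] [Finite G] {p : ℕ} [hp : Fact p.Prime]
    (α : MulAut G) (hpow : ∀ g, α^[p] g = g) (hfpf : ∀ g : G, α g = g → g = 1)
    (hnil : Group.IsNilpotent G) (hco : (Nat.card G).Coprime p) {k : ℕ}
    (hk : ∀ C : ZMod p → AddSubgroup (TensorProduct ℤ (Cyc p) (LCS G)), IsGraded C → ∀ a, lcs C k a = ⊥) :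
    (⊤ : Subgroup G).lowerCentralSeries k = ⊥ := by
  have hfp : CfsgLib.FixedPointFree.IsFPF α p := ⟨hfpf, hpow⟩
  have hstep : lc G k ≤ lc G (k + 1) := by
    refine lc_le_succ_of_lcs hco α.toMonoidHom hpow (fun i g _ hg => ?_) hk
    have hinv : CfsgLib.FixedPointFree.Invariant α (lc G (i + 1)) :=
      fun x hx => map_mem_lc α.toMonoidHom hx
    have hq := (CfsgLib.FixedPointFree.isFPF_quot hfp hinv).1 (g : G ⧸ lc G (i + 1))
    rw [CfsgLib.FixedPointFree.quot_mk, QuotientGroup.eq] at hq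
    refine (QuotientGroup.eq_one_iff g).1 (hq ?_)
    have h2 : (α g)⁻¹ * g = (g⁻¹ * α.toMonoidHom g)⁻¹ := by simp
    rw [h2]
    exact inv_mem hg
  obtain ⟨n, hn⟩ := Subgroup.nilpotent_iff_lowerCentralSeries.1 hnil
  have hall : ∀ m, lc G k ≤ lc G (k + m) := by
    intro m
    induction m with
    | zero => exact le_rfl
    | succ m ih =>
      exact hstep.trans ((Subgroup.commutator_mono ih le_rfl).trans_eq (by rfl))
  refine le_bot_iff.1 ((hall n).trans ?_)
  rw [← hn]
  exact Subgroup.lowerCentralSeries_antitone (⊤ : Subgroup G) (Nat.le_add_left n k)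

/-- Let G be a finite group with an automorphism of prime order p fixing only the identity. Then G is nilpotent; if p = 2 then G is abelian, if p = 3 then G has class at most 2, and in general the class of G is at most ξ = 1 + (p−1) + (p−1)² + ⋯ + (p−1)^(n−1) with n = 2^(p−1) − 1 (the Higman–Kreknin–Kostrikin bound). -/
theorem result {G : Type*} [Group G] [Finite G] {p : ℕ} (hp : p.Prime) (α : MulAut G) (hα : orderOf α = p) (hfpf : ∀ g : G, α g = g → g = 1) : (p = 2 → (⊤ : Subgroup G).lowerCentralSeries 1 = ⊥) ∧ (p = 3 → (⊤ : Subgroup G).lowerCentralSeries 2 = ⊥) ∧ (⊤ : Subgroup G).lowerCentralSeries (Finset.sum (Finset.range (2 ^ (p - 1) - 1)) (fun i => (p - 1) ^ i)) = ⊥ := by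
  haveI : Fact p.Prime := ⟨hp⟩
  have hiter : ∀ (n : ℕ) (g : G), (α ^ n) g = α^[n] g := by
    intro n
    induction n with
    | zero => intro g; rfl
    | succ n ih => intro g; rw [pow_succ, MulAut.mul_apply, ih, Function.iterate_succ_apply]
  have hpow : ∀ g, α^[p] g = g := fun g => by
    rw [← hiter, ← hα, pow_orderOf_eq_one, MulAut.one_apply]
  have hfp : CfsgLib.FixedPointFree.IsFPF α p := ⟨hfpf, hpow⟩
  have hnil : Group.IsNilpotent G := by
    refine CfsgLib.FixedPointFree.isNilpotent_of_isSplitting hp α ⟨hpow, fun g => ?_⟩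
    obtain ⟨y, hy⟩ := CfsgLib.FixedPointFree.commutatorMap_surjective hfp g
    rw [← hy, CfsgLib.FixedPointFree.part_mul_inv_apply, hpow, mul_inv_cancel]
  have hco : (Nat.card G).Coprime p := by
    have hG : IsPGroup p (Subgroup.zpowers α) := IsPGroup.of_card (n := 1)
      (by rw [pow_one, Nat.card_zpowers, hα])
    have h := hG.card_modEq_card_fixedPoints G
    have h1 : Nat.card (MulAction.fixedPoints (Subgroup.zpowers α) G) = 1 := by
      refine Nat.card_eq_one_iff_unique.2 ⟨⟨fun a b => Subtype.ext ?_⟩, ⟨⟨1, fun x => ?_⟩⟩⟩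
      · rw [hfpf a (a.2 ⟨α, Subgroup.mem_zpowers α⟩), hfpf b (b.2 ⟨α, Subgroup.mem_zpowers α⟩)]
      · exact map_one (x : MulAut G)
    rw [h1] at h
    refine (Nat.coprime_comm.1 ((Nat.Prime.coprime_iff_not_dvd hp).2 fun hdvd => ?_))
    have h2 : (1 : ℕ) ≡ 0 [MOD p] := h.symm.trans (Nat.modEq_zero_iff_dvd.2 hdvd)
    exact hp.one_lt.ne' (Nat.dvd_one.1 (Nat.modEq_zero_iff_dvd.1 h2))
  refine ⟨fun h2 => ?_, fun h3 => ?_, ?_⟩
  · subst h2
    exact lcs_eq_bot_of_fpf α hpow hfpf hnil hco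
      (fun C hC a => by simpa using CfsgLib.Kreknin.lcs_eq_bot hC a)
  · subst h3
    exact lcs_eq_bot_of_fpf α hpow hfpf hnil hco (fun C hC a => CfsgLib.Kreknin.lcs_two_eq_bot hC a)
  · exact lcs_eq_bot_of_fpf α hpow hfpf hnil hco (fun C hC a => CfsgLib.Kreknin.lcs_eq_bot hC a)

end Cfsg.Agent.S3779
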