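import Cfsg.Statements.S3780

set_option autoImplicit false
open Cfsg

namespace Cfsg.Agent.S3780

theorem card_ker_comp_le {M N P : Type*} [Group M] [Group N] [Group P] [Finite M] [Finite N]
    (f : N →* P) (g : M →* N) :
    Nat.card (f.comp g).ker ≤ Nat.card f.ker * Nat.card g.ker := by
  let h : (f.comp g).ker →* f.ker :=
    { toFun := fun x => ⟨g x, x.2⟩
      map_one' := Subtype.ext (by simp)
      map_mul' := fun x y => Subtype.ext (by simp) }
  have h1 : Nat.card h.ker ≤ Nat.card g.ker :=
    Nat.card_le_card_of_injective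
      (fun x : h.ker => (⟨((x : (f.comp g).ker) : M), congrArg Subtype.val x.2⟩ : g.ker))
      (fun x y hxy => by
        apply Subtype.ext; apply Subtype.ext
        exact congrArg (fun z : g.ker => (z : M)) hxy)
  have h2 := h.ker.card_mul_index
  rw [Subgroup.index_ker] at h2
  have h3 : Nat.card h.range ≤ Nat.card f.ker := Nat.card_le_card_of_injective _ Subtype.val_injective
  rw [← h2, mul_comm (Nat.card f.ker)]
  exact Nat.mul_le_mul h1 h3

/-- Let V be a finite abelian p-group and α an automorphism of V of order p whose fixed-point subgroup has order p^n. Then V can be generated by pn elements: some subset of V with at most pn elements generates V. -/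
theorem result {V : Type*} [CommGroup V] [Finite V] {p : ℕ} [Fact p.Prime] (hV : IsPGroup p V) (α : MulAut V) (hα : orderOf α = p) (n : ℕ) (hfix : Nat.card {v : V // α v = v} = p ^ n) : ∃ S : Finset V, S.card ≤ p * n ∧ Subgroup.closure (S : Set V) = ⊤ := by
  classical
  have hp : p.Prime := Fact.out
  let a : V →* V := α.toMonoidHom
  let D : V →* V :=
    { toFun := fun v => α v / v
      map_one' := by simp
      map_mul' := fun x y => by rw [map_mul]; exact mul_div_mul_comm _ _ _ _ }
  have hD : Nat.card D.ker = p ^ n := by
    rw [← hfix]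
    exact Nat.card_congr (Equiv.subtypeEquivRight fun v => by simp [D, MonoidHom.mem_ker, div_eq_one])
  -- iterates of `D`
  let It : ℕ → (V →* V) := fun j => Nat.rec (MonoidHom.id V) (fun _ f => f.comp D) j
  have hIt : ∀ j, Nat.card (It j).ker ≤ p ^ (n * j) := by
    intro j
    induction j with
    | zero =>
      have : (It 0).ker = ⊥ := MonoidHom.ker_id
      simp [this]
    | succ j ih =>
      refine (card_ker_comp_le (It j) D).trans ?_
      rw [hD, Nat.mul_succ, pow_add]
      exact Nat.mul_le_mul_right _ ih
  -- the endomorphism ring of `Additive V`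
  let aE : (AddMonoid.End (Additive V)) := MonoidHom.toAdditive a
  let dE : (AddMonoid.End (Additive V)) := MonoidHom.toAdditive D
  have hpow : ∀ j, (dE ^ j : (AddMonoid.End (Additive V))) = MonoidHom.toAdditive (It j) := by
    intro j
    induction j with
    | zero => rfl
    | succ j ih => rw [pow_succ, ih]; rfl
  have hd : dE = aE + (-1) := by
    ext v
    show α (Additive.toMul v) / Additive.toMul v = α (Additive.toMul v) * (Additive.toMul v)⁻¹
    rw [div_eq_mul_inv]
  have haE : aE ^ p = 1 := by
    have hk : ∀ j (v : Additive V), (aE ^ j : (AddMonoid.End (Additive V))) v = Additive.ofMul ((α ^ j) (Additive.toMul v)) := by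
      intro j
      induction j with
      | zero => intro v; rfl
      | succ j ih => intro v; rw [pow_succ, pow_succ]; exact ih (aE v)
    ext v
    rw [hk, ← hα, pow_orderOf_eq_one]
    rfl
  have hW : ∀ v : V, v ^ p = 1 → v ∈ (It p).ker := by
    intro v hv
    obtain ⟨r, hr⟩ := Commute.exists_add_pow_prime_eq hp (Commute.neg_one_right aE)
    rw [← hd, haE] at hr
    have hneg : ∃ t : (AddMonoid.End (Additive V)), (1 + (-1 : (AddMonoid.End (Additive V))) ^ p) = t * (p : (AddMonoid.End (Additive V))) := by
      rcases hp.eq_two_or_odd' with h2 | hodd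
      · subst h2; exact ⟨1, by norm_num⟩
      · exact ⟨0, by
          obtain ⟨k, hk⟩ := hodd
          have hsq : (-1 : (AddMonoid.End (Additive V))) ^ 2 = 1 := by
            rw [pow_two]; ext x; exact neg_neg x
          rw [hk, pow_succ, pow_mul, hsq, one_pow, one_mul, zero_mul]
          ext x
          exact add_neg_cancel x⟩
    obtain ⟨t, ht⟩ := hneg
    have hc : (p : (AddMonoid.End (Additive V))) * aE * (-1) * r = (aE * (-1) * r) * (p : (AddMonoid.End (Additive V))) := by
      rw [mul_assoc, mul_assoc, ← (Nat.cast_commute p _).eq]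
      simp only [mul_assoc]
    rw [ht, hc, ← add_mul] at hr
    have hv0 : (dE ^ p : (AddMonoid.End (Additive V))) (Additive.ofMul v) = 0 := by
      rw [hr]
      show (t + aE * (-1) * r : (AddMonoid.End (Additive V))) ((p : (AddMonoid.End (Additive V))) (Additive.ofMul v)) = 0
      have : (p : (AddMonoid.End (Additive V))) (Additive.ofMul v) = 0 := by
        rw [AddMonoid.End.natCast_apply]
        show Additive.ofMul (v ^ p) = 0
        rw [hv]; rfl
      rw [this, map_zero]
    rw [hpow] at hv0
    exact hv0
  let P : Subgroup V := (powMonoidHom p : V →* V).range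
  have hidx : P.index ≤ p ^ (p * n) := by
    have h := (powMonoidHom p : V →* V).ker.card_mul_index
    rw [Subgroup.index_ker] at h
    have h' := P.card_mul_index
    have hP0 : 0 < Nat.card P := Nat.card_pos
    have hker : P.index = Nat.card (powMonoidHom p : V →* V).ker := by
      apply Nat.eq_of_mul_eq_mul_left hP0
      rw [h', ← h, mul_comm]
    rw [hker, mul_comm p n]
    refine le_trans ?_ (hIt p)
    exact Subgroup.card_le_of_le fun v hv => hW v hv
  have hgen : ∀ j, ∃ S : Finset V, S.card ≤ j ∧ (Subgroup.closure (S : Set V) ⊔ P = ⊤ ∨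
      p ^ j * (Subgroup.closure (S : Set V) ⊔ P).index ≤ P.index) := by
    intro j
    induction j with
    | zero => exact ⟨∅, by simp, Or.inr (by simp)⟩
    | succ j ih =>
      obtain ⟨S, hS, h⟩ := ih
      rcases h with h | h
      · exact ⟨S, by omega, Or.inl h⟩
      by_cases htop : Subgroup.closure (S : Set V) ⊔ P = ⊤
      · exact ⟨S, by omega, Or.inl htop⟩
      obtain ⟨v, -, hv⟩ := SetLike.exists_of_lt (lt_top_iff_ne_top.mpr htop)
      refine ⟨insert v S, (Finset.card_insert_le _ _).trans (by omega), Or.inr ?_⟩
      set H := Subgroup.closure (S : Set V) ⊔ P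
      set H' := Subgroup.closure ((insert v S : Finset V) : Set V) ⊔ P
      have hle : H ≤ H' := sup_le_sup_right (Subgroup.closure_mono (by simp)) _
      have hne : H ≠ H' := fun he => hv (he ▸ Subgroup.mem_sup_left
        (Subgroup.subset_closure (by simp)))
      obtain ⟨m, hm⟩ := IsPGroup.index (hV.to_subgroup H') (H.subgroupOf H')
      have hm' : H.relIndex H' = p ^ m := hm
      have hm1 : 1 ≤ m := by
        rcases m with _ | m
        · exact absurd (Subgroup.relIndex_eq_one.mp (by simpa using hm')) fun hh =>
            hne (le_antisymm hle hh)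
        · omega
      have := Subgroup.relIndex_mul_index hle
      rw [← this, hm'] at h
      refine le_trans ?_ h
      rw [pow_succ, mul_assoc]
      exact Nat.mul_le_mul_left _ (Nat.mul_le_mul_right _ (Nat.le_self_pow (by omega) p))
  obtain ⟨S, hS, h⟩ := hgen (p * n)
  have htop : Subgroup.closure (S : Set V) ⊔ P = ⊤ := by
    rcases h with h | h
    · exact h
    · rw [← Subgroup.index_eq_one]
      have h0 : 0 < (Subgroup.closure (S : Set V) ⊔ P).index :=
        Nat.pos_of_ne_zero Subgroup.index_ne_zero_of_finite
      have := h.trans hidx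
      have hpp : 0 < p ^ (p * n) := pow_pos hp.pos _
      exact le_antisymm (Nat.le_of_mul_le_mul_left (by simpa using this) hpp) h0
  refine ⟨S, hS, ?_⟩
  set H := Subgroup.closure (S : Set V)
  have hsurj : Function.Surjective (powMonoidHom p : V ⧸ H →* V ⧸ H) := by
    intro q
    obtain ⟨v, rfl⟩ := QuotientGroup.mk_surjective q
    have hv : v ∈ H ⊔ P := by rw [htop]; trivial
    obtain ⟨x, hx, y, ⟨z, rfl⟩, rfl⟩ := Subgroup.mem_sup.mp hv
    refine ⟨(z : V ⧸ H), ?_⟩
    rw [powMonoidHom_apply, powMonoidHom_apply, QuotientGroup.mk_mul,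
      (QuotientGroup.eq_one_iff x).mpr hx, one_mul]
    rfl
  have hinj := Finite.injective_iff_surjective.mpr hsurj
  obtain ⟨k, hk⟩ := IsPGroup.iff_card.mp (hV.to_quotient H)
  rw [← Subgroup.index_eq_one, Subgroup.index_eq_card]
  rcases k with _ | k
  · simpa using hk
  · exfalso
    have : Fact p.Prime := ⟨hp⟩
    obtain ⟨q, hq⟩ := exists_prime_orderOf_dvd_card' p (hk ▸ dvd_pow_self p (by omega : k + 1 ≠ 0))
    have h1 : q = 1 := hinj (by rw [powMonoidHom_apply, map_one, ← hq, pow_orderOf_eq_one])
    rw [h1, orderOf_one] at hq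
    exact hp.ne_one hq.symm

end Cfsg.Agent.S3780
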