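import Cfsg.Statements.S3781

set_option autoImplicit false
open Cfsg

namespace Cfsg.Agent.S3781

/-- The three subgroup lemma modulo a normal subgroup. -/
theorem rotate_le {G : Type*} [Group G] {A B C M : Subgroup G} [M.Normal]
    (h1 : ⁅⁅B, C⁆, A⁆ ≤ M) (h2 : ⁅⁅C, A⁆, B⁆ ≤ M) : ⁅⁅A, B⁆, C⁆ ≤ M := by
  have key : ∀ S : Subgroup G, S ≤ M ↔ S.map (QuotientGroup.mk' M) = ⊥ := fun S => by
    rw [Subgroup.map_eq_bot_iff, QuotientGroup.ker_mk']
  rw [key, Subgroup.map_commutator, Subgroup.map_commutator] at h1 h2 ⊢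
  exact Subgroup.commutator_commutator_eq_bot_of_rotate h1 h2

/-- The iterated commutator of `X` with the whole group. -/
def iter {G : Type*} [Group G] (X : Subgroup G) : ℕ → Subgroup G
  | 0 => X
  | j + 1 => ⁅iter X j, ⊤⁆

theorem normal_iter {G : Type*} [Group G] {X : Subgroup G} (hX : X.Normal) :
    ∀ j, (iter X j).Normal
  | 0 => hX
  | j + 1 => by
    have := normal_iter hX j
    exact Subgroup.commutator_normal _ _

theorem commutator_iter_le {G : Type*} [Group G] {X : Subgroup G} (hX : X.Normal) :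
    ∀ l j, ⁅iter X j, (⊤ : Subgroup G).lowerCentralSeries l⁆ ≤ iter X (j + l + 1) := by
  intro l
  induction l with
  | zero => intro j; exact le_rfl
  | succ l ih =>
    intro j
    have := normal_iter hX (j + (l + 1) + 1)
    rw [Subgroup.lowerCentralSeries_succ, Subgroup.commutator_comm]
    refine rotate_le ?_ ?_
    · rw [Subgroup.commutator_comm ⊤ (iter X j)]
      refine (ih (j + 1)).trans ?_
      rw [show j + 1 + l + 1 = j + (l + 1) + 1 by omega]
    · exact Subgroup.commutator_mono (ih j) le_rfl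

theorem eq_bot_of_le_commutator {G : Type*} [Group G] [Group.IsNilpotent G] {S : Subgroup G}
    (h : S ≤ ⁅S, ⊤⁆) : S = ⊥ := by
  obtain ⟨m, hm⟩ := Subgroup.nilpotent_iff_lowerCentralSeries.mp (inferInstance : Group.IsNilpotent G)
  have hle : ∀ k, S ≤ (⊤ : Subgroup G).lowerCentralSeries k := by
    intro k
    induction k with
    | zero => exact le_top
    | succ k ih => exact h.trans (Subgroup.commutator_mono ih le_rfl)
  exact le_bot_iff.mp (hm ▸ hle m)

/-- Let G be a finite p-group and n ≥ 1, and write γ_1(G) = G, γ_{k+1}(G) = [γ_k(G), G], and likewise γ_k(N) for a subgroup N. Let N be a normal subgroup of G contained in γ_n(G). If i > 1 and γ_{i+1}(N) ≠ 1, then |γ_i(N) : γ_{i+1}(N)| ≥ p^n. -/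
theorem result {G : Type*} [Group G] [Finite G] {p : ℕ} [Fact p.Prime] (hG : IsPGroup p G) (n : ℕ) (hn : 1 ≤ n) (N : Subgroup G) [N.Normal] (hN : N ≤ (⊤ : Subgroup G).lowerCentralSeries (n - 1)) (i : ℕ) (hi : 1 < i) (hne : N.lowerCentralSeries i ≠ ⊥) : p ^ n ≤ (N.lowerCentralSeries i).relIndex (N.lowerCentralSeries (i - 1)) := by
  by_contra hlt
  rw [not_le] at hlt
  have : Group.IsNilpotent G := hG.isNilpotent
  set X := N.lowerCentralSeries (i - 1) with hX
  set Y := N.lowerCentralSeries i with hY
  have hYX : Y = ⁅X, N⁆ := by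
    rw [hY, hX, ← Subgroup.lowerCentralSeries_succ]; congr; omega
  have hnorm : ∀ k, (N.lowerCentralSeries k).Normal := by
    intro k
    induction k with
    | zero => assumption
    | succ k ih => exact Subgroup.commutator_normal _ _
  have hXn : X.Normal := hnorm _
  have hYn : Y.Normal := hnorm _
  -- the chain between `X` and `Y`
  have hle : ∀ k, iter X k ≤ Y ∨ p ^ k * Y.relIndex (iter X k ⊔ Y) ≤ Y.relIndex X := by
    intro k
    induction k with
    | zero =>
      right
      rw [pow_zero, one_mul, iter, sup_eq_left.mpr (hYX ▸ Subgroup.commutator_le_left X N)]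
    | succ k ih =>
      have hknorm := normal_iter hXn k
      have hsucc : iter X (k + 1) ≤ iter X k := Subgroup.commutator_le_left _ _
      rcases ih with h | h
      · exact Or.inl (hsucc.trans h)
      by_cases hk1 : iter X k ≤ Y
      · exact Or.inl (hsucc.trans hk1)
      right
      have hsub : iter X (k + 1) ⊔ Y ≤ iter X k ⊔ Y := sup_le_sup_right hsucc _
      have hne : iter X (k + 1) ⊔ Y ≠ iter X k ⊔ Y := by
        intro he
        apply hk1
        have hmap : (iter X k).map (QuotientGroup.mk' Y) ≤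
            ⁅(iter X k).map (QuotientGroup.mk' Y), ⊤⁆ := by
          have h2 : (iter X (k + 1) ⊔ Y).map (QuotientGroup.mk' Y) =
              (iter X k ⊔ Y).map (QuotientGroup.mk' Y) := by rw [he]
          rw [Subgroup.map_sup, Subgroup.map_sup, QuotientGroup.map_mk'_self, sup_bot_eq,
            sup_bot_eq, iter, Subgroup.map_commutator, Subgroup.map_top_of_surjective _
            (QuotientGroup.mk'_surjective Y)] at h2
          exact h2.ge
        have := eq_bot_of_le_commutator hmap
        rwa [Subgroup.map_eq_bot_iff, QuotientGroup.ker_mk'] at this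
      have hmul := Subgroup.relIndex_mul_relIndex Y (iter X (k + 1) ⊔ Y) (iter X k ⊔ Y)
        le_sup_right hsub
      obtain ⟨m, hm⟩ := IsPGroup.index (hG.to_subgroup (iter X k ⊔ Y))
        ((iter X (k + 1) ⊔ Y).subgroupOf (iter X k ⊔ Y))
      have hm' : (iter X (k + 1) ⊔ Y).relIndex (iter X k ⊔ Y) = p ^ m := hm
      have hm1 : 1 ≤ m := by
        rcases m with _ | m
        · exact absurd (Subgroup.relIndex_eq_one.mp (by simpa using hm')) fun hh =>
            hne (le_antisymm hsub hh)
        · omega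
      rw [← hmul, hm'] at h
      refine le_trans ?_ h
      rw [pow_succ, mul_assoc]
      refine Nat.mul_le_mul_left _ ?_
      rw [mul_comm p]
      exact Nat.mul_le_mul_left _ (Nat.le_self_pow (by omega) p)
  have hmem : iter X (n - 1) ≤ Y := by
    rcases hle n with h | h
    · by_contra hnot
      rcases hle (n - 1) with h' | h'
      · exact hnot h'
      · have hne2 : Y.relIndex (iter X (n - 1) ⊔ Y) ≠ 1 := fun h1 =>
          hnot (le_sup_left.trans (Subgroup.relIndex_eq_one.mp h1))
        obtain ⟨m, hm⟩ := IsPGroup.index (hG.to_subgroup (iter X (n - 1) ⊔ Y))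
          (Y.subgroupOf (iter X (n - 1) ⊔ Y))
        have hm' : Y.relIndex (iter X (n - 1) ⊔ Y) = p ^ m := hm
        rw [hm'] at h' hne2
        have hm1 : m ≠ 0 := fun h0 => hne2 (by simp [h0])
        have : p ^ n ≤ p ^ (n - 1) * p ^ m := by
          rw [← pow_add]
          exact Nat.pow_le_pow_right (Fact.out : p.Prime).pos (by omega)
        omega
    · have : 0 < Y.relIndex (iter X n ⊔ Y) := Nat.pos_of_ne_zero Subgroup.index_ne_zero_of_finite
      have : p ^ n ≤ p ^ n * Y.relIndex (iter X n ⊔ Y) := Nat.le_mul_of_pos_right _ this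
      omega
  have h1 : ⁅X, (⊤ : Subgroup G).lowerCentralSeries (n - 1)⁆ ≤ iter X n := by
    refine (commutator_iter_le hXn (n - 1) 0).trans ?_
    rw [show 0 + (n - 1) + 1 = n by omega]
  apply hne
  apply eq_bot_of_le_commutator
  calc Y = ⁅X, N⁆ := hYX
    _ ≤ iter X n := (Subgroup.commutator_mono le_rfl hN).trans h1
    _ = ⁅iter X (n - 1), ⊤⁆ := by
      conv_lhs => rw [show n = n - 1 + 1 by omega]
      rfl
    _ ≤ ⁅Y, ⊤⁆ := Subgroup.commutator_mono hmem le_rfl

end Cfsg.Agent.S3781
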