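import Cfsg.Statements.S5548
import Cfsg.Agent.Lib.Golay.Stab

set_option autoImplicit false
open Cfsg
open scoped Pointwise

namespace Cfsg.Agent.S5548

open CfsgLib.Golay

local notation "F24" => Cfsg.GolayPt → ZMod 2

/-- Invariance under `M24`. -/
def Inv (W : Submodule (ZMod 2) F24) : Prop :=
  ∀ σ ∈ Cfsg.M24, ∀ w ∈ W, (fun p => w (σ.symm p)) ∈ W

/-- The dot product. -/
noncomputable def dot : LinearMap.BilinForm (ZMod 2) F24 := Matrix.toBilin' 1

theorem dot_apply (v w : F24) : dot v w = ∑ i, v i * w i := by
  simp [dot, Matrix.toBilin'_apply', dotProduct]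

theorem dot_refl : dot.IsRefl := fun v w h => by
  rw [dot_apply] at h ⊢
  rwa [Finset.sum_congr rfl fun i _ => mul_comm (w i) (v i)]

theorem dot_nondegenerate : dot.Nondegenerate :=
  LinearMap.BilinForm.nondegenerate_toBilin'_of_det_ne_zero' 1 (by simp)

theorem finrank_F24 : Module.finrank (ZMod 2) F24 = 24 := by
  rw [Module.finrank_fintype_fun_eq_card, ← Nat.card_eq_fintype_card, card_golayPt]

theorem orth_code : dot.orthogonal golayCode = golayCode := by
  refine (Submodule.eq_of_le_of_finrank_eq (fun w hw => ?_) ?_).symm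
  · rw [LinearMap.BilinForm.mem_orthogonal_iff]
    intro v hv
    show dot v w = 0
    rw [dot_apply]; exact dot_eq_zero hv hw
  · rw [LinearMap.BilinForm.finrank_orthogonal dot_nondegenerate, finrank_F24,
      finrank_golayCode]

theorem inv_orth {W : Submodule (ZMod 2) F24} (hW : Inv W) : Inv (dot.orthogonal W) := by
  intro σ hσ w hw
  rw [LinearMap.BilinForm.mem_orthogonal_iff] at hw ⊢
  intro v hv
  show dot v _ = 0
  have hv' : (fun p => v (σ p)) ∈ W := by simpa [Equiv.Perm.inv_def] using hW σ⁻¹ (inv_mem hσ) v hv
  have h : dot (fun p => v (σ p)) w = 0 := hw _ hv'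
  rw [dot_apply] at h ⊢
  rw [← h, ← Equiv.sum_comp σ (fun i => v i * w (σ.symm i))]
  simp

theorem word_mem_of_smul {W : Submodule (ZMod 2) F24} (hW : Inv W) {w : F24} (hw : w ∈ W)
    {n : ℕ} {g : Equiv.Perm GolayPt} (hg : g ∈ M24) (h : g • support₂ w = unmask n) :
    wordOf n ∈ W := by
  have e : wordOf n = fun p => w (g.symm p) := by
    refine support₂_injective ?_
    rw [support₂_wordOf, ← h]
    ext p
    rw [Finset.mem_smul_finset]
    simp only [support₂, Finset.mem_filter, Finset.mem_univ, true_and, Equiv.Perm.smul_def]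
    exact ⟨fun ⟨q, hq, e⟩ => by subst e; simpa using hq, fun hp => ⟨g.symm p, hp, by simp⟩⟩
  rw [e]; exact hW g hg w hw

/-- An invariant subspace with the word of an octad contains the code. -/
theorem code_le_of_octad {W : Submodule (ZMod 2) F24} (hW : Inv W) {w : F24} (hw : w ∈ W)
    (ho : support₂ w ∈ octads) : golayCode ≤ W := by
  have hrow : ∀ b ∈ basisMasks, inCode b = true ∧ popc b = 8 := by decide +kernel
  intro x hx
  obtain ⟨n, hn, rfl⟩ := mem_golayCode_iff.1 hx
  refine spanMasks_induction (P := (· ∈ W)) (zero_mem _) (fun v u => add_mem) (fun b hb => ?_) hn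
  obtain ⟨⟨g, hg⟩, hgo⟩ := octad_transitive ho
    (mem_octads_iff.2 ⟨b, inCode_iff.1 (hrow b hb).1, (hrow b hb).2, rfl⟩)
  exact word_mem_of_smul hW hw hg hgo

theorem code_le_of_word {W : Submodule (ZMod 2) F24} (hW : Inv W) {w : F24} (hw : w ∈ W)
    (hc : w ∈ golayCode) (h0 : w ≠ 0) (h1 : w ≠ 1) : golayCode ≤ W := by
  obtain ⟨n, hn, rfl⟩ := mem_golayCode_iff.1 hc
  have hs : support₂ (wordOf n) = unmask n := support₂_wordOf n
  rcases popc_mem_weights hn with h | h | h | h | h
  · exact absurd (support₂_injective (by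
      rw [hs, Finset.card_eq_zero.1 ((card_unmask n).trans h)]
      ext p; simp [support₂])) h0
  · exact code_le_of_octad hW hw (hs ▸ mem_octads_iff.2 ⟨n, hn, h, rfl⟩)
  · have key : ∀ m, inCode m = true ∧ popc m = 12 → wordOf m ∈ W := by
      intro m hm
      obtain ⟨⟨g, hg⟩, hgm⟩ := dodecad_transitive (d := unmask n) (d' := unmask m)
        (mem_dodecads_iff.2 ⟨n, hn, h, rfl⟩) (mem_dodecads_iff.2 ⟨m, inCode_iff.1 hm.1, hm.2, rfl⟩)
      exact word_mem_of_smul hW hw hg (hs ▸ hgm)
    have k1 := key 12500032 (by decide +kernel)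
    have k2 := key (12500032 ^^^ 8391797) (by decide +kernel)
    have k := add_mem k1 k2
    rw [← wordOf_xor, show 12500032 ^^^ (12500032 ^^^ 8391797) = 8391797 by decide +kernel] at k
    refine code_le_of_octad hW k ?_
    rw [support₂_wordOf]
    exact mem_octads_iff.2 ⟨8391797, inCode_iff.1 (by decide +kernel), by decide +kernel, rfl⟩
  · have hfull : ∀ m : ℕ, unmask (fullMask ^^^ m) = (unmask m)ᶜ := by
      intro m
      rw [unmask_xor, unmask_fullMask]
      ext p; simp [Finset.mem_symmDiff]
    have hoct : (unmask n)ᶜ ∈ octads := by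
      rw [← hfull]
      refine mem_octads_iff.2 ⟨fullMask ^^^ n, ?_, ?_, rfl⟩
      · exact xor_mem_spanMasks (inCode_iff.1 (by decide +kernel)) hn
      · rw [← card_unmask, hfull, Finset.card_compl, card_unmask, h,
          ← Nat.card_eq_fintype_card, card_golayPt]
    have key : ∀ m, inCode m = true ∧ popc m = 8 → wordOf (fullMask ^^^ m) ∈ W := by
      intro m hm
      obtain ⟨⟨g, hg⟩, hgm⟩ := octad_transitive hoct
        (mem_octads_iff.2 ⟨m, inCode_iff.1 hm.1, hm.2, rfl⟩)
      refine word_mem_of_smul hW hw hg ?_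
      rw [hs, hfull, ← hgm]
      ext p
      simp [Finset.mem_compl, ← Finset.inv_smul_mem_iff]
    have k := add_mem (key 8391797 (by decide +kernel)) (key 8592704 (by decide +kernel))
    rw [← wordOf_xor, show (fullMask ^^^ 8391797) ^^^ (fullMask ^^^ 8592704) = 8391797 ^^^ 8592704
      by decide +kernel] at k
    refine code_le_of_octad hW k ?_
    rw [support₂_wordOf]
    exact mem_octads_iff.2
      ⟨8391797 ^^^ 8592704, inCode_iff.1 (by decide +kernel), by decide +kernel, rfl⟩
  · exact absurd (support₂_injective (by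
      rw [hs, (Finset.card_eq_iff_eq_univ (unmask n)).1 (by
        rw [card_unmask, h, ← Nat.card_eq_fintype_card, card_golayPt])]
      ext p; simp [support₂])) h1

/-- Eight translations of the affine space outside an octad, forming a hyperplane. -/
def trans : List ℕ := [984818244535754528103549039458486304, 967739223789245171407146504132003936,
  978241746458226444833005867658250464, 983553042649537266979977019204733184,
  974394222122509349096603230276913536, 976539006901119804582877792120867232,
  980747918883362939279568022996060640, 981940260449521198767676458684353088]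

theorem trans_checks : trans.all inM24 = true ∧
    (∀ i < 24, (8391797 : ℕ).testBit i = true → trans.all (fun t => tblAt t i == i) = true) ∧
    (∀ o ∈ [307594, 8077824], inCode o = true ∧
      ∀ i < 24, o.testBit i = true → ∀ j < 24, o.testBit j = true →
        trans.countP (fun t => tblAt t i == j) = 1) ∧
    (∀ o ∈ [307594, 8077824], ∀ i < 24, o.testBit i = true →
      trans.all (fun t => o.testBit (tblAt t i)) = true) ∧
    (∀ i < 24, ((8391797 : ℕ).testBit i || (307594 : ℕ).testBit i || (8077824 : ℕ).testBit i) = true) ∧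
    popc 307594 = 8 := by
  decide +kernel

theorem sum_eight {o : ℕ} (ho : o ∈ [307594, 8077824]) (p : GolayPt)
    (hp : o.testBit (idx p) = true) (w : F24) :
    (trans.map fun t => w (pt (tblAt t (idx p)))).sum = ∑ q ∈ unmask o, w q := by
  obtain ⟨-, -, h3, h4, -, -⟩ := trans_checks
  have e1 : ∀ t ∈ trans, w (pt (tblAt t (idx p))) =
      ∑ q ∈ unmask o, if pt (tblAt t (idx p)) = q then w q else 0 := by
    intro t ht
    rw [Finset.sum_ite_eq (unmask o) (pt (tblAt t (idx p))) w, if_pos]
    have hb := List.all_eq_true.1 (h4 o ho _ (idx_lt p) hp) t ht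
    have hlt : tblAt t (idx p) < 24 := by
      by_contra hge
      have h24 : o < 2 ^ 24 := by
        simp only [List.mem_cons, List.not_mem_nil, or_false] at ho
        rcases ho with rfl | rfl <;> norm_num
      rw [Nat.testBit_lt_two_pow (lt_of_lt_of_le h24
        (Nat.pow_le_pow_right two_pos (not_lt.1 hge)))] at hb
      exact absurd hb (by simp)
    rw [pt_mem_unmask hlt]; exact hb
  rw [List.map_congr_left e1]
  have swap : ∀ l : List ℕ, (l.map fun t => ∑ q ∈ unmask o,
      if pt (tblAt t (idx p)) = q then w q else 0).sum =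
      ∑ q ∈ unmask o, (l.countP fun t => pt (tblAt t (idx p)) == q : ZMod 2) * w q := by
    intro l
    induction l with
    | nil => simp
    | cons t l ih =>
      rw [List.map_cons, List.sum_cons, ih, ← Finset.sum_add_distrib]
      refine Finset.sum_congr rfl fun q _ => ?_
      rw [List.countP_cons]
      by_cases e : pt (tblAt t (idx p)) = q <;> simp [e]
      ring
  rw [swap]
  refine Finset.sum_congr rfl fun q hq => ?_
  have hc := (h3 o ho).2 _ (idx_lt p) hp _ (idx_lt q) (mem_unmask.1 hq)
  have e : (trans.countP fun t => pt (tblAt t (idx p)) == q) =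
      trans.countP fun t => tblAt t (idx p) == idx q := by
    refine List.countP_congr fun t ht => ?_
    have hlt : tblAt t (idx p) < 24 := by
      have := List.all_eq_true.1 trans_checks.1 t ht
      obtain ⟨g, hg⟩ := exists_isTbl (Bool.and_eq_true _ _ ▸ this : okTbl t = true ∧ _).1
      rw [← hg p]; exact idx_lt _
    simp only [beq_iff_eq]
    exact ⟨fun h => by rw [← h, idx_pt hlt], fun h => by rw [h, pt_idx]⟩
  rw [e, hc, Nat.cast_one, one_mul]

/-- An invariant subspace meeting the code in constants only lies in the code. -/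
theorem le_code {W : Submodule (ZMod 2) F24} (hW : Inv W)
    (hint : ∀ w ∈ W, w ∈ golayCode → w = 0 ∨ w = 1) : W ≤ golayCode := by
  obtain ⟨h1, h2, h3, h4, h5, h6⟩ := trans_checks
  intro w hw
  rw [← orth_code, LinearMap.BilinForm.mem_orthogonal_iff]
  intro x hx
  show dot x w = 0
  obtain ⟨n, hn, rfl⟩ := mem_golayCode_iff.1 hx
  have hrow : ∀ b ∈ basisMasks, inCode b = true ∧ popc b = 8 := by decide +kernel
  refine spanMasks_induction (P := fun v => dot v w = 0) (by simp)
    (fun a b ha hb => by rw [map_add, LinearMap.add_apply, ha, hb, add_zero]) (fun b hb => ?_) hn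
  obtain ⟨⟨g, hg⟩, hgo⟩ := octad_transitive
    (mem_octads_iff.2 ⟨307594, inCode_iff.1 (h3 307594 (by simp)).1, h6, rfl⟩)
    (mem_octads_iff.2 ⟨b, inCode_iff.1 (hrow b hb).1, (hrow b hb).2, rfl⟩)
  set w' : F24 := fun p => w (g p) with hw'
  have hw'W : w' ∈ W := by simpa [Equiv.Perm.inv_def] using hW g⁻¹ (inv_mem hg) w hw
  let u : F24 := fun p => (trans.map fun t => w' (pt (tblAt t (idx p)))).sum
  have huW : u ∈ W := by
    have : ∀ l : List ℕ, (∀ t ∈ l, inM24 t = true) →
        (fun p => (l.map fun t => w' (pt (tblAt t (idx p)))).sum) ∈ W := by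
      intro l
      induction l with
      | nil => intro _; simp only [List.map_nil, List.sum_nil]; exact zero_mem _
      | cons t l ih =>
        intro hl
        have ht := hl t (List.mem_cons_self ..)
        obtain ⟨k, hk⟩ := exists_isTbl (Bool.and_eq_true _ _ ▸ ht : okTbl t = true ∧ _).1
        have hkM := mem_M24_of_isTbl hk ht
        have e : (fun p => ((t :: l).map fun t => w' (pt (tblAt t (idx p)))).sum) =
            (fun p => w' (k p)) + fun p => (l.map fun t => w' (pt (tblAt t (idx p)))).sum := by
          funext p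
          simp only [List.map_cons, List.sum_cons, Pi.add_apply, ← hk p, pt_idx]
        rw [e]
        exact add_mem (by simpa [Equiv.Perm.inv_def] using hW k⁻¹ (inv_mem hkM) w' hw'W)
          (ih fun t' ht' => hl t' (List.mem_cons_of_mem _ ht'))
    exact this trans fun t ht => List.all_eq_true.1 h1 t ht
  have hu0 : ∀ p, (8391797 : ℕ).testBit (idx p) = true → u p = 0 := by
    intro p hp
    show (trans.map fun t => w' (pt (tblAt t (idx p)))).sum = 0
    rw [List.map_congr_left (g := fun _ => w' p) fun t ht => by
      rw [beq_iff_eq.1 (List.all_eq_true.1 (h2 _ (idx_lt p) hp) t ht), pt_idx]]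
    have e8 : ∀ z : ZMod 2, (trans.map fun _ => z).sum = 0 := by decide +kernel
    exact e8 _
  set a := ∑ q ∈ unmask 307594, w' q with ha
  set c := ∑ q ∈ unmask 8077824, w' q with hc
  have hbit : ∀ i < 24,
      ((8391797 : ℕ).testBit i = true → (307594 : ℕ).testBit i = false ∧ (8077824 : ℕ).testBit i = false) ∧
      ((307594 : ℕ).testBit i = true → (8077824 : ℕ).testBit i = false) := by decide +kernel
  have hu : u = a • wordOf 307594 + c • wordOf 8077824 := by
    funext p
    obtain ⟨b1, b2⟩ := hbit _ (idx_lt p)
    simp only [Pi.add_apply, Pi.smul_apply, wordOf, smul_eq_mul]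
    by_cases p0 : (8391797 : ℕ).testBit (idx p) = true
    · rw [hu0 p p0, (b1 p0).1, (b1 p0).2]; simp
    by_cases p1 : (307594 : ℕ).testBit (idx p) = true
    · show (trans.map fun t => w' (pt (tblAt t (idx p)))).sum = _
      rw [sum_eight (by simp) p p1 w', b2 p1, p1]; simp [ha]
    · have p2 : (8077824 : ℕ).testBit (idx p) = true := by
        have := h5 _ (idx_lt p)
        simpa [p0, p1] using this
      show (trans.map fun t => w' (pt (tblAt t (idx p)))).sum = _
      rw [sum_eight (by simp) p p2 w', p2]
      simp [p1, hc]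
  have huC : u ∈ golayCode := by
    rw [hu]
    exact add_mem (Submodule.smul_mem _ _ (wordOf_mem_golayCode (inCode_iff.1 (h3 _ (by simp)).1)))
      (Submodule.smul_mem _ _ (wordOf_mem_golayCode (inCode_iff.1 (h3 _ (by simp)).1)))
  have hu00 : u = 0 := by
    rcases hint u huW huC with h | h
    · exact h
    · exfalso
      have := hu0 (pt 0) (by decide +kernel)
      rw [h] at this
      exact one_ne_zero this
  have ha0 : a = 0 := by
    have h := congrFun hu00 (pt 1)
    rw [hu] at h
    have e1 : wordOf 307594 (pt 1) = 1 ∧ wordOf 8077824 (pt 1) = 0 := by decide +kernel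
    simpa [e1.1, e1.2] using h
  rw [dot_apply, ← ha0, ha, ← Equiv.sum_comp g (fun i => wordOf b i * w i)]
  rw [← Finset.sum_subset (Finset.subset_univ (unmask 307594))]
  · refine Finset.sum_congr rfl fun q hq => ?_
    have : g q ∈ unmask b := hgo ▸ Finset.smul_mem_smul_finset hq
    simp [wordOf, mem_unmask.1 this, hw']
  · intro q _ hq
    have : g q ∉ unmask b := by
      rw [← hgo]; intro h; exact hq ((Finset.smul_mem_smul_finset_iff g).1 h)
    rw [mem_unmask] at this
    simp [wordOf, this]

theorem cases_of_le {W : Submodule (ZMod 2) F24} (hW : Inv W) (hle : W ≤ golayCode) :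
    W = ⊥ ∨ W = Submodule.span (ZMod 2) {(1 : F24)} ∨ W = golayCode := by
  by_cases h : ∀ w ∈ W, w = 0 ∨ w = 1
  · by_cases h1 : (1 : F24) ∈ W
    · refine Or.inr (Or.inl (le_antisymm (fun w hw => ?_) ?_))
      · rcases h w hw with rfl | rfl
        · exact zero_mem _
        · exact Submodule.mem_span_singleton_self _
      · rw [Submodule.span_le]; simpa using h1
    · refine Or.inl ((Submodule.eq_bot_iff W).2 fun w hw => ?_)
      rcases h w hw with rfl | rfl
      · rfl
      · exact absurd hw h1
  · push Not at h
    obtain ⟨w, hw, h0, h1⟩ := h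
    exact Or.inr (Or.inr (le_antisymm hle (code_le_of_word hW hw (hle hw) h0 h1)))

/-- For the automorphism group of the length-24 binary Golay code of the definitions (the Mathieu group of degree 24) acting on binary words of length 24 by permuting coordinates, the only invariant subspaces of the space of all words are: zero, the span of the all-ones word, the code itself, the even-weight words, and the whole space. (So the permutation module has a unique composition series.) -/
theorem result (W : Submodule (ZMod 2) (Cfsg.GolayPt → ZMod 2)) (hW : ∀ σ ∈ Cfsg.M24, ∀ w ∈ W, (fun p => w (σ.symm p)) ∈ W) : W = ⊥ ∨ W = Submodule.span (ZMod 2) {fun _ => (1 : ZMod 2)} ∨ W = Cfsg.golayCode ∨ (W : Set (Cfsg.GolayPt → ZMod 2)) = {w | ∑ p, w p = 0} ∨ W = ⊤ := by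
  by_cases h : ∀ w ∈ W, w ∈ golayCode → w = 0 ∨ w = 1
  · rcases cases_of_le hW (le_code hW h) with h' | h' | h'
    · exact Or.inl h'
    · exact Or.inr (Or.inl h')
    · exact Or.inr (Or.inr (Or.inl h'))
  push Not at h
  obtain ⟨w, hw, hc, h0, h1⟩ := h
  have hCW := code_le_of_word hW hw hc h0 h1
  have hle : dot.orthogonal W ≤ golayCode := by
    rw [← orth_code]
    exact LinearMap.BilinForm.orthogonal_le hCW
  have hWW := LinearMap.BilinForm.orthogonal_orthogonal dot_nondegenerate dot_refl W
  rcases cases_of_le (inv_orth hW) hle with h' | h' | h'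
  · right; right; right; right
    rw [← hWW, h', eq_top_iff]
    intro v _
    rw [LinearMap.BilinForm.mem_orthogonal_iff]
    intro x hx
    rw [(Submodule.mem_bot _).1 hx]
    simp
  · right; right; right; left
    rw [← hWW, h']
    ext v
    rw [SetLike.mem_coe, LinearMap.BilinForm.mem_orthogonal_iff, Set.mem_ofPred_eq]
    constructor
    · intro hv
      have h : dot 1 v = 0 := hv 1 (Submodule.mem_span_singleton_self _)
      simpa [dot_apply] using h
    · intro hv x hx
      obtain ⟨k, rfl⟩ := Submodule.mem_span_singleton.1 hx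
      show dot (k • 1) v = 0
      rw [LinearMap.map_smul, LinearMap.smul_apply, dot_apply]
      simp [hv]
  · right; right; left
    rw [← hWW, h', orth_code]

end Cfsg.Agent.S5548
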