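import Cfsg.Statements.S1593
import Cfsg.Agent.Lib.GolayStructure.Ternary

set_option autoImplicit false
open Cfsg

namespace Cfsg.Agent.S1593

/-- The only sign changes preserving the length-12 ternary code are the identity and negation of all coordinates. -/
theorem result (c : Cfsg.ArrayPt → (ZMod 3)ˣ) (h : (∀ x ∈ Cfsg.ternaryGolayCode, Cfsg.monomialMap 1 c x ∈ Cfsg.ternaryGolayCode)) : (∀ p, c p = 1) ∨ (∀ p, c p = -1) := by
  open CfsgLib.GolayStructure.Ternary in
  have key : ∀ (k : Fin 6) (p : Cfsg.ArrayPt), row k p ≠ 0 → c p = c (info k) := by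
    intro k p hp
    have hm := congrFun (eq_combine (h _ (row_mem k))) p
    rw [combine_apply, Finset.sum_eq_single k] at hm
    · simp only [Cfsg.monomialMap, Equiv.Perm.one_def, Equiv.refl_symm, Equiv.refl_apply, row_info,
        if_pos, mul_one] at hm
      exact Units.ext (mul_right_cancel₀ hp hm)
    · intro l _ hl
      simp [Cfsg.monomialMap, Equiv.Perm.one_def, row_info, hl.symm]
    · simp
  open CfsgLib.GolayStructure.Ternary in
  have conn : ∀ p : Cfsg.ArrayPt, c p = c (0, 0) := by
    have k0 : ∀ p, row 0 p ≠ 0 → c p = c (0, 0) := fun p hp => key 0 p hp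
    have kk : ∀ k : Fin 6, c (info k) = c (0, 0) := by
      intro k
      have hk : ∀ k : Fin 6, ∃ p, row k p ≠ 0 ∧ row 0 p ≠ 0 := by decide +kernel
      obtain ⟨p, h1, h2⟩ := hk k
      rw [← key k p h1, k0 p h2]
    intro p
    have hp : ∀ p, ∃ k : Fin 6, row k p ≠ 0 := by decide +kernel
    obtain ⟨k, hk⟩ := hp p
    rw [key k p hk, kk k]
  have hu : ∀ u : (ZMod 3)ˣ, u = 1 ∨ u = -1 := by decide
  rcases hu (c (0, 0)) with h1 | h1
  · exact Or.inl fun p => (conn p).trans h1
  · exact Or.inr fun p => (conn p).trans h1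

end Cfsg.Agent.S1593
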