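import Cfsg.Statements.S5160
import Cfsg.Agent.Lib.FusionBasics.Extension
import Cfsg.Agent.Lib.FusionBasics.Group
import Cfsg.Agent.Lib.Alperin.Invariant
import Cfsg.Agent.Lib.FusionSub.Induction
-- import your own Cfsg.Agent.* helpers here

set_option autoImplicit false
open Cfsg

namespace Cfsg.Agent.S5160

open Cfsg.FusionSystem CfsgLib.Alperin CfsgLib.FusionSub

variable {G : Type*} [Group G] [Finite G] {p : ℕ} [Fact p.Prime]

/-- `Aut_E(R)` is normalized by `Aut_F(R)` for an invariant `E` over `S`. -/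
theorem autGroup_conj_mem {S : Subgroup G} {F E : Cfsg.FusionSystem S} (hE : E.IsInvariantIn F)
    {R : Subgroup G} (hR : R ≤ S) {b e : MulAut R} (hb : b ∈ F.autGroup R)
    (he : e ∈ E.autGroup R) : b * e * b⁻¹ ∈ E.autGroup R := by
  have hb' := (mem_autGroup_iff F hR).mp hb
  have hd : Decomp E F R (R.subtype.comp b.toMonoidHom) := hE.2.2.2 R hR _ hb'
  have h := congr_mem_autGroup (Q := R) hE.2.2.1 hd (F.injective_of_mem hb')
    (range_subtype_comp_aut b) he
  have e1 : isoOfHom (R.subtype.comp b.toMonoidHom) (F.injective_of_mem hb')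
      (range_subtype_comp_aut b) = b := MulEquiv.ext fun x => Subtype.ext rfl
  rw [e1] at h
  exact h

theorem isCentric_subsystem {S : Subgroup G} {F E : Cfsg.FusionSystem S}
    (h : E.IsSubsystemOf F) {R : Subgroup G} (hR : F.IsCentric R) : E.IsCentric R :=
  ⟨hR.1, fun Q ⟨φ, hφ, hr⟩ => hR.2 Q ⟨φ, h R hφ, hr⟩⟩

theorem isFullyCentralized_of_centric {S : Subgroup G} {F : Cfsg.FusionSystem S} {R : Subgroup G}
    (hR : F.IsCentric R) : F.IsFullyCentralized R := by
  refine ⟨hR.1, fun Q hQ => ?_⟩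
  obtain ⟨φ, hφ, hr⟩ := hQ
  obtain ⟨θ, hθ, hθr, -, -⟩ := exists_inverse hφ hr
  have hc := hR.2 Q ⟨φ, hφ, hr⟩
  refine card_le_of_maps_to (F.injective_of_mem hθ) hc (centralizerIn_le S R) fun x hx => ?_
  have hmap : (Q.subgroupOf Q).map θ = R := by
    rw [Subgroup.subgroupOf_self, ← MonoidHom.range_eq_map, hθr]
  exact apply_mem_centralizerIn hθ le_rfl hmap x hx.2

/-- Lifting membership of conjugations from a centric subgroup to `S`. -/
theorem lift_top (S : Sylow p G) {E : Cfsg.FusionSystem (S : Subgroup G)} (hEs : E.IsSaturated p)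
    (hEF : E.IsSubsystemOf (Cfsg.groupFusionSystem (S : Subgroup G))) {g : G}
    (hgS : g ∈ Subgroup.normalizer ((S : Subgroup G) : Set G)) (R : Subgroup G)
    (hR : (Cfsg.groupFusionSystem (S : Subgroup G)).IsCentric R)
    (hgR : g ∈ Subgroup.normalizer (R : Set G)) (h : conjHom R g ∈ E.Hom R) :
    conjHom (S : Subgroup G) g ∈ E.Hom (S : Subgroup G) := by
  set F := Cfsg.groupFusionSystem (S : Subgroup G) with hFdef
  have hF : F.IsSaturated p := CfsgLib.FusionBasics.group_isSaturated S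
  suffices H : ∀ n (R : Subgroup G), Nat.card (S : Subgroup G) - Nat.card R = n → F.IsCentric R →
      g ∈ Subgroup.normalizer (R : Set G) → conjHom R g ∈ E.Hom R →
      conjHom (S : Subgroup G) g ∈ E.Hom (S : Subgroup G) from H _ R rfl hR hgR h
  intro n
  induction n using Nat.strong_induction_on with
  | _ n ih =>
  intro R hn hR hgR h
  rcases eq_or_lt_of_le hR.1 with heq | hlt
  · subst heq
    exact h
  have hS := S.isPGroup'
  set N := normalizerIn (S : Subgroup G) R with hN
  have hr : (conjHom R g).range = R := by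
    rw [range_conjHom]
    ext y
    constructor
    · rintro ⟨x, hx, rfl⟩
      exact mem_normalizer_conj hgR hx
    · intro hy
      refine ⟨g⁻¹ * y * g⁻¹⁻¹, mem_normalizer_conj (Subgroup.inv_mem _ hgR) hy, ?_⟩
      show g * (g⁻¹ * y * g⁻¹⁻¹) * g⁻¹ = y
      group
  obtain ⟨ψ, hψ, hext⟩ := (receptive_of_fullyCentralized hS hEs
    (isFullyCentralized_of_centric (isCentric_subsystem hEF hR))).2 R _ h hr
  have hNe : N ≤ extender (S : Subgroup G) R (conjHom R g) := fun x hx =>
    mem_extender_iff.mpr ⟨hx.1, hx.2, g * x * g⁻¹, mem_normalizer_conj hgS hx.1, fun y hy => by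
      show g * (x * (y : G) * x⁻¹) * g⁻¹ = g * x * g⁻¹ * (g * (y : G) * g⁻¹) * (g * x * g⁻¹)⁻¹
      group⟩
  have hcF : conjHom N g ∈ F.Hom N := CfsgLib.FusionBasics.conjHom_mem_group g
    (normalizerIn_le _ R) fun x hx => mem_normalizer_conj hgS hx.1
  have hψN : ψ.comp (Subgroup.inclusion hNe) ∈ E.Hom N := restrict_mem hψ hNe
  obtain ⟨z, hzR, -, hz⟩ := CfsgLib.FusionBasics.exists_conj_of_agree hS hF
    (le_normalizerIn hR.1) hR (hEF _ hψN) hcF fun x hx => hext x hx _
  have hNlt : R < N := CfsgLib.FusionSub.lt_normalizerIn hS hlt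
  have hgN : g ∈ Subgroup.normalizer (N : Set G) := by
    have key : ∀ {a : G}, a ∈ Subgroup.normalizer ((S : Subgroup G) : Set G) →
        a ∈ Subgroup.normalizer (R : Set G) → ∀ {y : G}, y ∈ N → a * y * a⁻¹ ∈ N :=
      fun haS haR y hy => ⟨mem_normalizer_conj haS hy.1,
        Subgroup.mul_mem _ (Subgroup.mul_mem _ haR hy.2) (Subgroup.inv_mem _ haR)⟩
    refine Subgroup.mem_normalizer_iff.mpr fun y => ⟨key hgS hgR, fun hy => ?_⟩
    have := key (Subgroup.inv_mem _ hgS) (Subgroup.inv_mem _ hgR) hy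
    simpa [mul_assoc] using this
  refine ih _ ?_ N rfl (CfsgLib.FusionBasics.isCentric_of_le hR hNlt.le (normalizerIn_le _ R)) hgN ?_
  · rw [hN] at hNlt ⊢
    have := CfsgLib.FusionSub.card_lt_card (normalizerIn_le (S : Subgroup G) R) hNlt
    have := Subgroup.card_le_of_le (K := (S : Subgroup G)) (normalizerIn_le (S : Subgroup G) R)
    omega
  refine comp_mem_apply (E.conj_mem (normalizerIn_le _ R) (hR.1 hzR)) hψN
    (fun x => N.mul_mem (N.mul_mem z.2 x.2) (N.inv_mem z.2)) fun x => ?_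
  exact (hz x).trans rfl

/-- The automorphisms of `R` induced by elements of `p`-power order in `N_G(R)` lie in `Aut_E(R)`. -/
theorem pElements_mem (S : Sylow p G) {E : Cfsg.FusionSystem (S : Subgroup G)}
    (hE : E.IsInvariantIn (Cfsg.groupFusionSystem (S : Subgroup G))) {R : Subgroup G}
    (hR : (Cfsg.groupFusionSystem (S : Subgroup G)).IsFullyNormalized R) {g : G}
    (hg : g ∈ Subgroup.closure
      {g : G | g ∈ Subgroup.normalizer (R : Set G) ∧ ∃ k : ℕ, orderOf g = p ^ k}) :
    ∃ hgN : g ∈ Subgroup.normalizer (R : Set G), conjAut R g hgN ∈ E.autGroup R := by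
  set F := Cfsg.groupFusionSystem (S : Subgroup G) with hFdef
  have hF : F.IsSaturated p := CfsgLib.FusionBasics.group_isSaturated S
  have hle : Subgroup.closure {g : G | g ∈ Subgroup.normalizer (R : Set G) ∧ ∃ k : ℕ, orderOf g = p ^ k}
      ≤ ((E.autGroup R).comap R.normalizerMonoidHom).map (Subgroup.normalizer (R : Set G)).subtype := by
    refine (Subgroup.closure_le _).mpr ?_
    rintro x ⟨hxN, k, hk⟩
    refine ⟨⟨x, hxN⟩, ?_, rfl⟩
    show conjAut R x hxN ∈ E.autGroup R
    haveI := finite_autGroup F hR.1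
    obtain ⟨-, Q, hQ⟩ := (centralized_automized_of_fullyNormalized S.isPGroup' hF hR).2
    have haF : conjAut R x hxN ∈ F.autGroup R := by
      rw [CfsgLib.FusionBasics.group_autGroup hR.1]
      exact conjAut_mem (Subgroup.mem_top x) hxN
    set a : F.autGroup R := ⟨_, haF⟩ with ha
    have hp : IsPGroup p (Subgroup.zpowers a) := by
      rw [IsPGroup.iff_card]
      have hdvd : orderOf a ∣ p ^ k := by
        rw [← hk]
        refine orderOf_dvd_of_pow_eq_one (Subtype.ext ?_)
        show (conjAut R x hxN) ^ orderOf x = 1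
        rw [conjAut, ← map_pow]
        have : (⟨x, hxN⟩ : Subgroup.normalizer (R : Set G)) ^ orderOf x = 1 :=
          Subtype.ext (pow_orderOf_eq_one x)
        rw [this, map_one]
      obtain ⟨j, -, hj⟩ := (Nat.dvd_prime_pow (Fact.out : p.Prime)).mp hdvd
      exact ⟨j, by rw [Nat.card_zpowers, hj]⟩
    obtain ⟨Q', hQ'⟩ := hp.exists_le_sylow
    obtain ⟨b, hb⟩ := MulAction.exists_smul_eq (F.autGroup R) Q' Q
    have h1 : b * a * b⁻¹ ∈ (Q : Subgroup (F.autGroup R)) := by
      rw [← hb, Sylow.coe_subgroup_smul]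
      exact ⟨a, hQ' (Subgroup.mem_zpowers a), rfl⟩
    rw [hQ, Subgroup.mem_subgroupOf] at h1
    have h2 := autGroup_conj_mem hE hR.1 (inv_mem b.2) (autInducedBy_le_autGroup E hR.1 h1)
    simpa [ha, mul_assoc] using h2
  obtain ⟨⟨x, hx⟩, h, rfl⟩ := hle hg
  exact ⟨hx, h⟩

/-- Let G be a finite group with nontrivial Sylow p-subgroup S and F its fusion system on S. Suppose (a) no nontrivial proper subgroup of S is strongly closed in F, and (b) the automorphisms of S induced by G are generated by those induced, for R running over the fully normalized radical centric subgroups of F, by the subgroup of N_G(R) generated by its elements of p-power order. Then F is simple. -/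
theorem result {G : Type*} [Group G] [Finite G] (p : ℕ) [Fact p.Prime] (S : Sylow p G) (hS1 : (S : Subgroup G) ≠ ⊥) (ha : ∀ T : Subgroup G, (Cfsg.groupFusionSystem (S : Subgroup G)).StronglyClosed T → T = ⊥ ∨ T = (S : Subgroup G)) (hb : Cfsg.autInducedBy ⊤ (S : Subgroup G) = ⨆ (R : Subgroup G) (_ : (Cfsg.groupFusionSystem (S : Subgroup G)).IsFullyNormalized R ∧ (Cfsg.groupFusionSystem (S : Subgroup G)).IsRadical p R ∧ (Cfsg.groupFusionSystem (S : Subgroup G)).IsCentric R), Cfsg.autInducedBy (Subgroup.closure {g : G | g ∈ Subgroup.normalizer (R : Set G) ∧ ∃ k : ℕ, orderOf g = p ^ k}) (S : Subgroup G)) : (Cfsg.groupFusionSystem (S : Subgroup G)).IsSimple p := by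
  have hF : (Cfsg.groupFusionSystem (S : Subgroup G)).IsSaturated p :=
    CfsgLib.FusionBasics.group_isSaturated S
  refine ⟨hF, hS1, fun T E hE => ?_⟩
  rcases ha T hE.1.2.2.2.1 with rfl | rfl
  · exact Or.inl rfl
  refine Or.inr ⟨rfl, fun P => Set.Subset.antisymm (hE.1.2.2.1 P) fun φ hφ => ?_⟩
  have hinv := hE.1.2.2
  have htop : (Cfsg.groupFusionSystem (S : Subgroup G)).autGroup (S : Subgroup G) ≤
      E.autGroup (S : Subgroup G) := by
    rw [CfsgLib.FusionBasics.group_autGroup le_rfl, hb]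
    refine iSup₂_le fun R hR => (Subgroup.closure_le _).mpr ?_
    rintro a ⟨g, hg, hga⟩
    obtain ⟨hgN, hgE⟩ := pElements_mem S hinv hR.1 hg
    have h := lift_top S hE.1.1 hE.1.2.2.1 (CfsgLib.Alperin.normalizer_of_induced hga) R hR.2.2 hgN
      (CfsgLib.Alperin.mem_of_apply_eq ((mem_autGroup_iff E hR.1.1).mp hgE) fun x => rfl)
    exact (mem_autGroup_iff E le_rfl).mpr (CfsgLib.Alperin.mem_of_apply_eq h fun x => hga x)
  have hP := CfsgLib.Alperin.dom_le hφ
  obtain ⟨α, hα, φ₀, hφ₀, hx⟩ := hinv.2.2.2 P hP φ hφ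
  have hm : ∀ x : P, φ₀ x ∈ (S : Subgroup G) := (E.le_of_mem hφ₀).2
  exact CfsgLib.Alperin.comp_mem_apply hφ₀ ((mem_autGroup_iff E le_rfl).mp (htop hα)) hm
    fun x => hx x (hm x)

end Cfsg.Agent.S5160
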