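import Cfsg.Statements.S5980
import Cfsg.Agent.Lib.Omega.TensorRank
import Cfsg.Agent.Lib.Omega.IsometryParity
import Cfsg.Agent.Lib.Omega.SympForm
import Cfsg.Agent.Lib.Forms.SympBridge
import Cfsg.Agent.Lib.ClassicalLinear.SympCard
-- import your own Cfsg.Agent.* helpers here

set_option autoImplicit false
open scoped MatrixGroups
open Cfsg

namespace Cfsg.Agent.S5980

open CfsgLib CfsgLib.Geometric CfsgLib.Geometric.Tensor CfsgLib.Omega CfsgLib.Omega.TensorRank
open scoped Matrix
open Module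

variable {F : Type*} [Field F] {d : ℕ}

theorem mem_spGL_iff {g : GL (Fin d ⊕ Fin d) F} :
    g ∈ Cfsg.spGL d F ↔ ∀ u v, Cfsg.sympForm d F (ap g u) (ap g v) = Cfsg.sympForm d F u v := Iff.rfl

theorem sympForm_skew {m : ℕ} (u w : Fin m ⊕ Fin m → F) : Cfsg.sympForm m F u w = -Cfsg.sympForm m F w u := by
  have h := alt_skew (B := sympBilin m F) sympBilin_self u w
  rwa [sympBilin_apply, sympBilin_apply] at h

/-- A bilinear form given by axioms, bundled. -/
def bil {m : ℕ} {f : (Fin m → F) → (Fin m → F) → F} (hf : Cfsg.Geo.IsBilinearForm f) :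
    LinearMap.BilinForm F (Fin m → F) :=
  LinearMap.mk₂ F f hf.add_left hf.smul_left hf.add_right hf.smul_right

theorem bil_apply {m : ℕ} {f : (Fin m → F) → (Fin m → F) → F} (hf : Cfsg.Geo.IsBilinearForm f) (u v : Fin m → F) :
    bil hf u v = f u v := rfl

theorem eq_formOfGram {m : ℕ} {f : (Fin m → F) → (Fin m → F) → F} (hf : Cfsg.Geo.IsBilinearForm f)
    (u v : Fin m → F) :
    f u v = Cfsg.Geo.formOfGram (RingHom.id F) (Cfsg.Geo.gramMatrix f) u v := by
  rw [← bil_apply hf]
  conv_lhs => rw [← (Pi.basisFun F (Fin m)).sum_repr u, ← (Pi.basisFun F (Fin m)).sum_repr v]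
  simp only [Pi.basisFun_repr, Pi.basisFun_apply, map_sum, map_smul, LinearMap.sum_apply, LinearMap.smul_apply,
    smul_eq_mul, Cfsg.Geo.formOfGram, Cfsg.Geo.gramMatrix, bil_apply, RingHom.id_apply, Finset.mul_sum]
  rw [Finset.sum_comm]
  exact Finset.sum_congr rfl fun i _ => Finset.sum_congr rfl fun j _ => by ring

/-- An element of the big group from one of a smaller group, acting trivially on the other planes. -/
theorem exists_embed {e₀ : ℕ} (eI : Fin e₀ → Fin d) (he : Function.Injective eI)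
    (X : (Fin e₀ ⊕ Fin e₀ → F) →ₗ[F] (Fin e₀ ⊕ Fin e₀ → F))
    (hX : ∀ u v, Cfsg.sympForm e₀ F (X u) (X v) = Cfsg.sympForm e₀ F u v) :
    ∃ x ∈ Cfsg.spGL d F,
      (∀ r : ℕ, (∀ u, X^[r] u = u) → x ^ r = 1) ∧
      rk (x : Matrix (Fin d ⊕ Fin d) (Fin d ⊕ Fin d) F) = finrank F (LinearMap.range (X - LinearMap.id)) := by
  classical
  let R : (Fin d ⊕ Fin d → F) →ₗ[F] (Fin e₀ ⊕ Fin e₀ → F) := LinearMap.funLeft F F (Sum.map eI eI)
  have hemb : Function.Injective (Sum.map eI eI) := he.sumMap he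
  let J : (Fin e₀ ⊕ Fin e₀ → F) →ₗ[F] (Fin d ⊕ Fin d → F) := Function.ExtendByZero.linearMap F (Sum.map eI eI)
  have hJ : ∀ u k, J u (Sum.map eI eI k) = u k := fun u k => hemb.extend_apply _ _ _
  have hJ0 : ∀ u k, (¬ ∃ a, Sum.map eI eI a = k) → J u k = 0 := fun u k hk =>
    Function.extend_apply' _ _ _ hk
  have hRJ : ∀ u, R (J u) = u := fun u => funext fun k => hJ u k
  have hfJ : ∀ u w, Cfsg.sympForm d F (J u) w = Cfsg.sympForm e₀ F u (R w) := by
    intro u w
    rw [sympForm_eq_sum, sympForm_eq_sum]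
    refine (Fintype.sum_of_injective eI he _ _ (fun i hi => ?_) (fun i => ?_)).symm
    · rw [hJ0 u (.inr i) (fun ⟨a, ha⟩ => ?_), hJ0 u (.inl i) (fun ⟨a, ha⟩ => ?_)]
      · ring
      · rcases a with a | a <;> simp at ha
        exact hi ⟨a, ha⟩
      · rcases a with a | a <;> simp at ha
        exact hi ⟨a, ha⟩
    · show _ = J u (Sum.map eI eI (.inr i)) * w (.inl (eI i)) - J u (Sum.map eI eI (.inl i)) * w (.inr (eI i))
      rw [hJ, hJ]
      rfl
  have hfJ' : ∀ u w, Cfsg.sympForm d F w (J u) = Cfsg.sympForm e₀ F (R w) u := fun u w => by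
    rw [sympForm_skew, hfJ, ← sympForm_skew]
  let L : (Fin d ⊕ Fin d → F) →ₗ[F] (Fin d ⊕ Fin d → F) := LinearMap.id + J ∘ₗ (X - LinearMap.id) ∘ₗ R
  have hL : ∀ v, L v = v + J (X (R v) - R v) := fun v => rfl
  have hLsp : ∀ u v, Cfsg.sympForm d F (L u) (L v) = Cfsg.sympForm d F u v := by
    intro u v
    simp only [← sympBilin_apply, hL, map_add, LinearMap.add_apply]
    simp only [sympBilin_apply, hfJ, hfJ', hRJ]
    have := hX (R u) (R v)
    simp only [← sympBilin_apply, map_sub, LinearMap.sub_apply] at this ⊢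
    linear_combination this
  have hLinj : Function.Injective L := by
    rw [injective_iff_map_eq_zero]
    intro v hv
    refine sympBilin_nondegenerate v fun w => ?_
    rw [sympBilin_apply, ← hLsp, hv, ← sympBilin_apply, map_zero, LinearMap.zero_apply]
  let x : GL (Fin d ⊕ Fin d) F := ofEquiv (LinearEquiv.ofInjectiveEndo L hLinj)
  have hx : ∀ v, ap x v = L v := fun v => by rw [ap_ofEquiv]; rfl
  refine ⟨x, mem_spGL_iff.2 fun u v => by rw [hx, hx, hLsp], fun r hr => gl_ext fun v => ?_, ?_⟩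
  · have hit : ∀ i : ℕ, ap (x ^ i) v = v + J (X^[i] (R v) - R v) := by
      intro i
      induction i with
      | zero => simp
      | succ i ih =>
        rw [pow_succ', ap_mul, ih, hx, hL, map_add, hRJ, Function.iterate_succ_apply', add_sub_cancel,
          add_assoc, ← map_add]
        congr 2
        abel
    rw [hit, hr, sub_self, map_zero, add_zero, ap_one]
  · have h : sub1 (x : Matrix (Fin d ⊕ Fin d) (Fin d ⊕ Fin d) F) = J ∘ₗ (X - LinearMap.id) ∘ₗ R :=
      LinearMap.ext fun v => by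
        rw [sub1_apply, ← ap_def, hx, hL, add_sub_cancel_left]
        rfl
    have hJi : Function.Injective J := Function.LeftInverse.injective hRJ
    rw [rk, h, LinearMap.range_comp, LinearMap.range_comp_of_range_eq_top _ (LinearMap.range_eq_top.2
      (fun u => ⟨J u, hRJ u⟩))]
    exact (Submodule.equivMapOfInjective J hJi _).finrank_eq.symm

/-- A symplectic fixed-point-free element of prime order in the smallest dimension. -/
theorem exists_free [Fintype F] {e₀ r : ℕ} [Fact r.Prime] (hrF : (r : F) ≠ 0)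
    (hrq : (Fintype.card F : ZMod r) ≠ 0) (he : 0 < e₀)
    (h2e : ∀ k : ℕ, orderOf (Fintype.card F : ZMod r) ∣ k → Even k → 2 * e₀ ∣ k)
    (hcard : orderOf (Fintype.card F : ZMod r) ∣ 2 * e₀) :
    ∃ X : (Fin e₀ ⊕ Fin e₀ → F) →ₗ[F] (Fin e₀ ⊕ Fin e₀ → F),
      (∀ u v, Cfsg.sympForm e₀ F (X u) (X v) = Cfsg.sympForm e₀ F u v) ∧ (∀ u, X^[r] u = u) ∧
        finrank F (LinearMap.range (X - LinearMap.id)) = 2 * e₀ := by
  classical
  have hdvd : r ∣ Nat.card (Matrix.symplecticGroup (Fin e₀) F) := by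
    rw [ClassicalLinear.card_sp]
    refine dvd_mul_of_dvd_right ((dvd_trans ?_ (Finset.dvd_prod_of_mem _ (Finset.mem_range.2 (Nat.sub_lt he one_pos))))) _
    rw [show e₀ - 1 + 1 = e₀ by omega, ← ZMod.natCast_eq_zero_iff, Nat.cast_sub (Nat.one_le_pow _ _ Fintype.card_pos)]
    push_cast
    rw [sub_eq_zero, orderOf_dvd_iff_pow_eq_one.1 hcard]
  obtain ⟨g, hg⟩ := exists_prime_orderOf_dvd_card' r hdvd
  let X := Matrix.toLin' (g : Matrix (Fin e₀ ⊕ Fin e₀) (Fin e₀ ⊕ Fin e₀) F)
  have hXsp : ∀ u v, Cfsg.sympForm e₀ F (X u) (X v) = Cfsg.sympForm e₀ F u v := fun u v => by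
    simp only [X, Matrix.toLin'_apply]
    exact sympForm_mulVec_of_mem g.2 u v
  have hXr : ∀ u, X^[r] u = u := fun u => by
    rw [← Module.End.pow_apply]
    simp only [X, ← Matrix.toLin'_pow, ← SubmonoidClass.coe_pow]
    rw [← hg, pow_orderOf_eq_one, OneMemClass.coe_one, Matrix.toLin'_one]
    rfl
  refine ⟨X, hXsp, hXr, ?_⟩
  have hdim : finrank F (Fin e₀ ⊕ Fin e₀ → F) = 2 * e₀ := by
    rw [Module.finrank_fintype_fun_eq_card, Fintype.card_sum, Fintype.card_fin]; omega
  have h1 := LinearMap.finrank_range_add_finrank_ker (X - LinearMap.id)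
  have hev := even_finrank_fixed_alt (sympBilin e₀ F) sympBilin_self sympBilin_nondegenerate hrF X
    (fun u w => by rw [sympBilin_apply, sympBilin_apply]; exact hXsp u w) hXr
  have hd := PrimeOrder.orderOf_dvd_sub_finrank hrq X ⊤ (fun _ _ => trivial) (fun v _ => hXr v)
  rw [finrank_top, PrimeOrder.fixedIn, top_inf_eq] at hd
  rw [hdim] at h1 hd
  have hpos : 0 < finrank F (LinearMap.range (X - LinearMap.id)) := by
    refine Nat.pos_of_ne_zero fun h0 => ?_
    have hone : g = 1 := Subtype.ext (Matrix.toLin'.injective (LinearMap.ext fun v => by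
      have h2 : (X - LinearMap.id : (Fin e₀ ⊕ Fin e₀ → F) →ₗ[F] _) v ∈ LinearMap.range (X - LinearMap.id) :=
        ⟨v, rfl⟩
      rw [Submodule.finrank_eq_zero.1 h0, Submodule.mem_bot, LinearMap.sub_apply, sub_eq_zero] at h2
      rw [OneMemClass.coe_one, Matrix.toLin'_one]
      exact h2))
    rw [hone, orderOf_one] at hg
    exact (Fact.out : r.Prime).one_lt.ne hg
  have := h2e _ hd (by obtain ⟨k, hk⟩ := hev; exact ⟨e₀ - k, by omega⟩)
  have := Nat.le_of_dvd (by omega) this
  omega

/-- A symplectic family of full size is a basis, and two of them are matched by an element of the group. -/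
theorem exists_spGL_of_families {α : Type} [Fintype α] [DecidableEq α] (hcard : Fintype.card α = d)
    (b c : α × Fin 2 → (Fin d ⊕ Fin d → F))
    (hb0 : ∀ i j s, Cfsg.sympForm d F (b (i, s)) (b (j, s)) = 0)
    (hb1 : ∀ i j, Cfsg.sympForm d F (b (i, 0)) (b (j, 1)) = if i = j then 1 else 0)
    (hc0 : ∀ i j s, Cfsg.sympForm d F (c (i, s)) (c (j, s)) = 0)
    (hc1 : ∀ i j, Cfsg.sympForm d F (c (i, 0)) (c (j, 1)) = if i = j then 1 else 0) :
    ∃ g ∈ Cfsg.spGL d F, ∀ x, ap g (b x) = c x := by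
  have mk : ∀ b : α × Fin 2 → (Fin d ⊕ Fin d → F),
      (∀ i j s, Cfsg.sympForm d F (b (i, s)) (b (j, s)) = 0) →
      (∀ i j, Cfsg.sympForm d F (b (i, 0)) (b (j, 1)) = if i = j then 1 else 0) →
      ∃ B : Basis (α × Fin 2) F (Fin d ⊕ Fin d → F), ∀ x, B x = b x := by
    intro b h0 h1
    have hA : AdaptedFamily (sympBilin d F) (LinearMap.id : (Fin d ⊕ Fin d → F) →ₗ[F] _) 1 b 1 :=
      ⟨one_mul _, fun i j s => (sympBilin_apply _ _).trans (h0 i j s), fun i j => (sympBilin_apply _ _).trans (h1 i j), fun i => Or.inr ⟨rfl, fun s => ⟨1, by simp⟩⟩⟩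
    have hli := hA.linearIndependent (sympBilin_self (d := d) (F := F))
    refine ⟨Basis.mk hli (ge_of_eq (hli.span_eq_top_of_card_eq_finrank' ?_)), fun x => Basis.mk_apply _ _ _⟩
    rw [Fintype.card_prod, Fintype.card_fin, Module.finrank_fintype_fun_eq_card, Fintype.card_sum, Fintype.card_fin,
      hcard]
    omega
  obtain ⟨B, hB⟩ := mk b hb0 hb1
  obtain ⟨C, hC⟩ := mk c hc0 hc1
  let E := B.equiv C (Equiv.refl _)
  have hE : ∀ x, E (b x) = c x := fun x => by rw [← hB, ← hC]; exact Basis.equiv_apply _ _ _ _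
  have hform : (sympBilin d F).compl₁₂ E.toLinearMap E.toLinearMap = sympBilin d F := by
    refine LinearMap.BilinForm.ext_basis B fun x y => ?_
    simp only [LinearMap.compl₁₂_apply, LinearEquiv.coe_coe, hB, hE, sympBilin_apply]
    obtain ⟨i, s⟩ := x
    obtain ⟨j, t⟩ := y
    fin_cases s <;> fin_cases t <;> simp only [Fin.zero_eta, Fin.mk_one]
    · rw [hb0, hc0]
    · rw [hb1, hc1]
    · rw [sympForm_skew (c _), sympForm_skew (b _), hb1, hc1]
    · rw [hb0, hc0]
  refine ⟨ofEquiv E, mem_spGL_iff.2 fun u v => ?_, fun x => by rw [ap_ofEquiv, hE]⟩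
  rw [ap_ofEquiv, ap_ofEquiv]
  simpa [LinearMap.compl₁₂_apply, sympBilin_apply] using LinearMap.congr_fun₂ hform u v

/-- The binary form of a square root of minus one represents everything. -/
theorem exists_rep [Fintype F] (hodd : Fintype.card F % 2 = 1) {k : F} (hk : k ≠ 0) (t : F) :
    ∃ X Y : F, k * X ^ 2 + k⁻¹ * Y ^ 2 = t := by
  classical
  obtain ⟨X, Y, h⟩ := FiniteField.exists_root_sum_quadratic
    (f := Polynomial.C k * Polynomial.X ^ 2 + Polynomial.C (-t)) (g := Polynomial.C k⁻¹ * Polynomial.X ^ 2)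
    (by rw [Polynomial.degree_add_C (by rw [Polynomial.degree_C_mul_X_pow 2 hk]; decide),
      Polynomial.degree_C_mul_X_pow 2 hk]; rfl)
    (by rw [Polynomial.degree_C_mul_X_pow 2 (inv_ne_zero hk)]; rfl) hodd
  exact ⟨X, Y, by simp at h; linear_combination h⟩

/-- An element of the stabiliser in the symplectic group splits into isometries of the factors. -/
theorem exists_isometric_factors {a b r : ℕ} {e : (Fin d ⊕ Fin d) ≃ Fin a × Fin b} {P : GL (Fin d ⊕ Fin d) F}
    (h2F : (2 : F) ≠ 0) (ha : 0 < a) (hb : 0 < b) (hr : Odd r)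
    {f₁ : (Fin a → F) → (Fin a → F) → F} {f₂ : (Fin b → F) → (Fin b → F) → F}
    (hf₁ : Cfsg.Geo.IsSymplecticForm f₁) (hf₂ : Cfsg.Geo.IsSymmetricForm f₂) {c₁ : F} (hc₁ : c₁ ≠ 0)
    (hpt : ∀ u u' w w', Cfsg.sympForm d F (pt e P u w) (pt e P u' w') = c₁ * (f₁ u u' * f₂ w w'))
    {y : GL (Fin d ⊕ Fin d) F} (hysp : y ∈ Cfsg.spGL d F) (hyr : y ^ r = 1) {A : GL (Fin a) F} {B : GL (Fin b) F}
    (hAB : ∀ u w, ap y (pt e P u w) = pt e P (ap A u) (ap B w)) :
    ∃ s : F, s ≠ 0 ∧
      (∀ u v, f₁ ((s⁻¹ • (A : Matrix (Fin a) (Fin a) F)) *ᵥ u) ((s⁻¹ • (A : Matrix (Fin a) (Fin a) F)) *ᵥ v) = f₁ u v) ∧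
      (∀ u v, f₂ ((s • (B : Matrix (Fin b) (Fin b) F)) *ᵥ u) ((s • (B : Matrix (Fin b) (Fin b) F)) *ᵥ v) = f₂ u v) ∧
      (∀ u, (Matrix.toLin' (s⁻¹ • (A : Matrix (Fin a) (Fin a) F)))^[r] u = u) ∧
      (∀ w, (Matrix.toLin' (s • (B : Matrix (Fin b) (Fin b) F)))^[r] w = w) ∧
      ∀ u w, ap y (pt e P u w) =
        pt e P ((s⁻¹ • (A : Matrix (Fin a) (Fin a) F)) *ᵥ u) ((s • (B : Matrix (Fin b) (Fin b) F)) *ᵥ w) := by
  classical
  haveI : Nonempty (Fin a) := ⟨⟨0, ha⟩⟩
  haveI : Nonempty (Fin b) := ⟨⟨0, hb⟩⟩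
  obtain ⟨w₁, hw₁⟩ := exists_ne (0 : Fin b → F)
  obtain ⟨w₂, hw₂⟩ := (hf₂.nondegenerate w₁ hw₁).2
  obtain ⟨u₁, hu₁⟩ := exists_ne (0 : Fin a → F)
  obtain ⟨u₂, hu₂⟩ := (hf₁.nondegenerate u₁ hu₁).2
  have hmul : ∀ u u' w w', f₁ (ap A u) (ap A u') * f₂ (ap B w) (ap B w') = f₁ u u' * f₂ w w' := by
    intro u u' w w'
    have h := mem_spGL_iff.1 hysp (pt e P u w) (pt e P u' w')
    rw [hAB, hAB, hpt, hpt] at h
    exact mul_left_cancel₀ hc₁ h
  set μ := f₂ (ap B w₁) (ap B w₂) / f₂ w₁ w₂ with hμdef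
  have hμA : ∀ u u', μ * f₁ (ap A u) (ap A u') = f₁ u u' := fun u u' => by
    rw [hμdef, div_mul_eq_mul_div, mul_comm, hmul, mul_div_assoc, div_self hw₂, mul_one]
  have hμ0 : μ ≠ 0 := fun h => hu₂ (by rw [← hμA, h, zero_mul])
  have hμB : ∀ w w', f₂ (ap B w) (ap B w') = μ * f₂ w w' := fun w w' => by
    refine mul_left_cancel₀ (a := f₁ (ap A u₁) (ap A u₂)) (fun h => hu₂ (by rw [← hμA, h, mul_zero])) ?_
    rw [hmul, ← mul_assoc, mul_comm _ μ, hμA]
  have hit : ∀ (i : ℕ) u w, ap (y ^ i) (pt e P u w) = pt e P (ap (A ^ i) u) (ap (B ^ i) w) := by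
    intro i
    induction i with
    | zero => intro u w; simp
    | succ i ih => intro u w; rw [pow_succ', ap_mul, ih, hAB, pow_succ', pow_succ', ap_mul, ap_mul]
  obtain ⟨α, hα⟩ := exists_scalar_of_forall_eigen ((A ^ r : GL (Fin a) F) : Matrix (Fin a) (Fin a) F) fun u => by
    refine eigen_of_pt (e := e) (P := P) (u := u) (w := w₁) (w' := ap (B ^ r) w₁)
      (fun h => hw₁ (ap_injective _ (h.trans (Matrix.mulVec_zero _).symm))) ?_
    have := hit r u w₁
    rw [hyr, ap_one] at this
    exact this.symm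
  have hμAp : ∀ (i : ℕ) u u', μ ^ i * f₁ (ap (A ^ i) u) (ap (A ^ i) u') = f₁ u u' := by
    intro i
    induction i with
    | zero => intro u u'; simp
    | succ i ih =>
      intro u u'
      rw [pow_succ' A, ap_mul, ap_mul, pow_succ μ, mul_assoc, hμA, ih]
  have hα2 : μ ^ r * (α * α) = 1 := by
    have h := hμAp r u₁ u₂
    rw [ap_def, ap_def, hα, Matrix.smul_mulVec, Matrix.smul_mulVec, Matrix.one_mulVec, Matrix.one_mulVec,
      hf₁.bilinear.smul_left, hf₁.bilinear.smul_right] at h
    exact mul_right_cancel₀ hu₂ (by linear_combination h)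
  have hα0 : α ≠ 0 := fun h => by rw [h, mul_zero, mul_zero] at hα2; exact zero_ne_one hα2
  have hμr : μ⁻¹ ^ r = α * α := by rw [inv_pow]; exact inv_eq_of_mul_eq_one_right hα2
  obtain ⟨k, hk⟩ := hr
  set s := μ⁻¹ ^ (k + 1) / α with hs
  have hs0 : s ≠ 0 := div_ne_zero (pow_ne_zero _ (inv_ne_zero hμ0)) hα0
  have hss : s * s = μ⁻¹ := by
    rw [hs, div_mul_div_comm, ← pow_add, show k + 1 + (k + 1) = r + 1 by omega, pow_succ, hμr,
      mul_div_cancel_left₀ _ (mul_ne_zero hα0 hα0)]
  have hsr : s ^ r = α := by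
    conv_lhs => rw [hk, pow_succ, pow_mul, pow_two, hss, hs, mul_div_assoc', ← pow_add, show k + (k + 1) = r by omega,
      hμr, mul_div_cancel_right₀ _ hα0]
  have hsi : s⁻¹ * s⁻¹ = μ := by rw [← mul_inv, hss, inv_inv]
  have hsplit : ∀ u w, ap y (pt e P u w) =
      pt e P ((s⁻¹ • (A : Matrix (Fin a) (Fin a) F)) *ᵥ u) ((s • (B : Matrix (Fin b) (Fin b) F)) *ᵥ w) := fun u w => by
    rw [hAB, Matrix.smul_mulVec, Matrix.smul_mulVec, pt_smul_left, pt_smul_right, smul_smul, inv_mul_cancel₀ hs0,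
      one_smul]
    rfl
  have hT₁r : ∀ u, (Matrix.toLin' (s⁻¹ • (A : Matrix (Fin a) (Fin a) F)))^[r] u = u := fun u => by
    rw [← Module.End.pow_apply, ← Matrix.toLin'_pow, smul_pow, ← Units.val_pow_eq_pow_val, hα, smul_smul,
      inv_pow, hsr, inv_mul_cancel₀ hα0, one_smul, Matrix.toLin'_one]
    rfl
  refine ⟨s, hs0, fun u v => ?_, fun u v => ?_, hT₁r, fun w => ?_, hsplit⟩
  · rw [Matrix.smul_mulVec, Matrix.smul_mulVec, hf₁.bilinear.smul_left, hf₁.bilinear.smul_right, ← mul_assoc, hsi]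
    exact hμA u v
  · rw [Matrix.smul_mulVec, Matrix.smul_mulVec, hf₂.bilinear.smul_left, hf₂.bilinear.smul_right, ← mul_assoc, hss,
      ← ap_def, ← ap_def, hμB, ← mul_assoc, inv_mul_cancel₀ hμ0, one_mul]
  · have hit2 : ∀ i : ℕ, ap (y ^ i) (pt e P u₁ w) =
        pt e P ((Matrix.toLin' (s⁻¹ • (A : Matrix (Fin a) (Fin a) F)))^[i] u₁)
          ((Matrix.toLin' (s • (B : Matrix (Fin b) (Fin b) F)))^[i] w) := by
      intro i
      induction i with
      | zero => simp
      | succ i ih =>
        rw [pow_succ', ap_mul, ih, hsplit, Function.iterate_succ_apply', Function.iterate_succ_apply',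
          Matrix.toLin'_apply, Matrix.toLin'_apply]
    have h := hit2 r
    rw [hyr, ap_one, hT₁r] at h
    exact (pt_inj_right e P hu₁ h).symm

/-- Elements of prime order of PSp_n(q), q odd, and the stabilizers of tensor decompositions Sp_a(q) ⊗ O_b(q). Here `T = PSp_{2d}(F)` for a field `F` with `q` elements, `q` odd, `d ≥ 2`, realised through the matrices preserving the standard alternating form `f`; `2d = a·b` with `a` even, `b ≥ 3`, and the bijection `e` and change of basis `P` exhibit `f` as a non-zero scalar multiple of the tensor product of a non-degenerate alternating form `f₁` on `F^a` and a non-degenerate symmetric bilinear form `f₂` on `F^b`; `H` is the subgroup of `T` stabilizing this tensor decomposition (the elements of `T` in the conjugate by `P` of the group of Kronecker products) — a subgroup of type Sp_a(q) ⊗ O^ε_b(q) (maximality is not assumed). Ω is the set of cosets of `H` in `T`, so an element of `T` of prime order `r` (`x ∈ T` with `x^r` scalar, `x`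 not scalar) fixes a point of Ω exactly when some `T`-conjugate of `x` lies in `H`. Let `r` be a prime dividing the index of `H`. Then every element of `T` of order `r` fixes a point of Ω if and only if `r = 2` and `a = 2`. -/
theorem result {F : Type*} [Field F] [Fintype F] {p : ℕ} [Fact p.Prime] [CharP F p] {q : ℕ} (hq : Fintype.card F = q)
    (hodd : Odd q) (d : ℕ) (hd : 2 ≤ d) (a b : ℕ) (hab : 2 * d = a * b) (ha : Even a) (ha2 : 2 ≤ a) (hb : 3 ≤ b)
    (e : (Fin d ⊕ Fin d) ≃ Fin a × Fin b) (P : GL (Fin d ⊕ Fin d) F)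
    (f₁ : (Fin a → F) → (Fin a → F) → F) (f₂ : (Fin b → F) → (Fin b → F) → F)
    (hf₁ : Cfsg.Geo.IsSymplecticForm f₁) (hf₂ : Cfsg.Geo.IsSymmetricForm f₂)
    (hS : Cfsg.Geo.IsTensorFormStructure id (Cfsg.sympForm d F) f₁ f₂ e P)
    (r : ℕ) [Fact r.Prime]
    (hΩ : r ∣ (Cfsg.Geo.tensorProductSubgroup a b e P).relIndex (Cfsg.spGL d F)) :
    (∀ x ∈ Cfsg.spGL d F, (∃ z : F, ((x ^ r : GL (Fin d ⊕ Fin d) F) : Matrix (Fin d ⊕ Fin d) (Fin d ⊕ Fin d) F) = z • (1 : Matrix (Fin d ⊕ Fin d) (Fin d ⊕ Fin d) F)) →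
      (∀ z : F, (x : Matrix (Fin d ⊕ Fin d) (Fin d ⊕ Fin d) F) ≠ z • (1 : Matrix (Fin d ⊕ Fin d) (Fin d ⊕ Fin d) F)) →
      ∃ g ∈ Cfsg.spGL d F, g⁻¹ * x * g ∈ Cfsg.Geo.tensorProductSubgroup a b e P) ↔ (r = 2 ∧ a = 2) := by
  classical
  subst hq
  have hr : r.Prime := Fact.out
  have hoddq : Fintype.card F % 2 = 1 := Nat.odd_iff.1 hodd
  have h2F : (2 : F) ≠ 0 := fun h => by
    haveI := CharTwo.of_one_ne_zero_of_two_eq_zero (R := F) one_ne_zero h
    rw [FiniteField.even_card_iff_char_two.1 (ringChar.eq F 2)] at hoddq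
    omega
  have hB₁ : ∀ v, bil hf₁.bilinear v v = 0 := fun v => hf₁.alternating v
  have hB₁n : ∀ v, (∀ w, bil hf₁.bilinear v w = 0) → v = 0 := fun v hv => by
    by_contra h0; obtain ⟨x, hx⟩ := (hf₁.nondegenerate v h0).2; exact hx (hv x)
  have hB₂n : ∀ v, (∀ w, bil hf₂.bilinear v w = 0) → v = 0 := fun v hv => by
    by_contra h0; obtain ⟨x, hx⟩ := (hf₂.nondegenerate v h0).2; exact hx (hv x)
  obtain ⟨c₁, hc₁, hpt⟩ := form_pt (σ := RingHom.id F) e P (fun u v => eq_formOfGram hf₁.bilinear u v)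
    (fun u v => eq_formOfGram hf₂.bilinear u v) hS
  have hd0 : 0 < d := by omega
  have hsign : ∀ {x : GL (Fin d ⊕ Fin d) F}, x ∈ Cfsg.spGL d F → ∀ {z : F},
      (x : Matrix (Fin d ⊕ Fin d) (Fin d ⊕ Fin d) F) = z • 1 → z * z = 1 := by
    intro x hx z hz
    let u : Fin d ⊕ Fin d → F := Pi.single (.inr ⟨0, hd0⟩) 1
    let v : Fin d ⊕ Fin d → F := Pi.single (.inl ⟨0, hd0⟩) 1
    have huv : Cfsg.sympForm d F u v = 1 := by simp [u, v, sympForm_eq_sum, Pi.single_apply]
    have h1 := mem_spGL_iff.1 hx u v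
    rw [ap_def, ap_def, hz, Matrix.smul_mulVec, Matrix.smul_mulVec, Matrix.one_mulVec, Matrix.one_mulVec,
      ← sympBilin_apply, ← sympBilin_apply] at h1
    simp only [map_smul, LinearMap.smul_apply, smul_eq_mul, sympBilin_apply, huv, mul_one] at h1
    exact h1
  constructor
  · intro H
    -- a conjugate of `x` in the stabiliser
    have get : ∀ x ∈ Cfsg.spGL d F, x ^ r = 1 →
        (∀ z : F, (x : Matrix (Fin d ⊕ Fin d) (Fin d ⊕ Fin d) F) ≠ z • 1) →
        ∃ (y : GL (Fin d ⊕ Fin d) F) (A : GL (Fin a) F) (B : GL (Fin b) F), y ∈ Cfsg.spGL d F ∧ y ^ r = 1 ∧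
          (∀ u w, ap y (pt e P u w) = pt e P (ap A u) (ap B w)) ∧
          rk (y : Matrix (Fin d ⊕ Fin d) (Fin d ⊕ Fin d) F) = rk (x : Matrix (Fin d ⊕ Fin d) (Fin d ⊕ Fin d) F) := by
      intro x hx hxr hns
      obtain ⟨g, hg, hgx⟩ := H x hx ⟨1, by rw [hxr, one_smul]; rfl⟩ hns
      obtain ⟨A, B, hAB⟩ := (mem_iff e P _).1 hgx
      refine ⟨_, A, B, mul_mem (mul_mem (inv_mem hg) hx) hg, ?_, hAB, rk_conj x g⟩
      have h2 := conj_pow (a := g⁻¹) (b := x) (i := r)
      rw [inv_inv] at h2
      rw [h2, hxr]; group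
    have hns_of_small : ∀ x : GL (Fin d ⊕ Fin d) F, 0 < rk (x : Matrix (Fin d ⊕ Fin d) (Fin d ⊕ Fin d) F) →
        rk (x : Matrix (Fin d ⊕ Fin d) (Fin d ⊕ Fin d) F) < 2 * d →
        ∀ z : F, (x : Matrix (Fin d ⊕ Fin d) (Fin d ⊕ Fin d) F) ≠ z • 1 := by
      intro x h0 hlt z hz
      by_cases hz1 : z = 1
      · have : sub1 (x : Matrix (Fin d ⊕ Fin d) (Fin d ⊕ Fin d) F) = 0 := LinearMap.ext fun v => by
          simp [hz, hz1]
        rw [rk, this, LinearMap.range_zero, finrank_bot] at h0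
        omega
      · have h : LinearMap.range (sub1 (x : Matrix (Fin d ⊕ Fin d) (Fin d ⊕ Fin d) F)) = ⊤ :=
          LinearMap.range_eq_top.2 fun v => ⟨(z - 1)⁻¹ • v, by
            rw [sub1_apply, hz, Matrix.smul_mulVec, Matrix.one_mulVec]
            have : z • (z - 1)⁻¹ • v - (z - 1)⁻¹ • v = ((z - 1) * (z - 1)⁻¹) • v := by module
            rw [this, mul_inv_cancel₀ (sub_ne_zero.2 hz1), one_smul]⟩
        rw [rk, h, finrank_top, Module.finrank_fintype_fun_eq_card, Fintype.card_sum, Fintype.card_fin] at hlt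
        omega
    have small : ∀ {y : GL (Fin d ⊕ Fin d) F} {A : GL (Fin a) F} {B : GL (Fin b) F},
        (∀ u w, ap y (pt e P u w) = pt e P (ap A u) (ap B w)) →
        rk (y : Matrix (Fin d ⊕ Fin d) (Fin d ⊕ Fin d) F) < b →
        a ∣ rk (y : Matrix (Fin d ⊕ Fin d) (Fin d ⊕ Fin d) F) := by
      intro y A B hAB hlt
      obtain ⟨α, hα⟩ := left_scalar (by omega) y A B hAB hlt
      exact ⟨_, rk_right y (α • (B : Matrix (Fin b) (Fin b) F)) fun u w => by
        rw [hAB, ap_def, hα, Matrix.smul_mulVec, Matrix.one_mulVec, pt_smul_left, Matrix.smul_mulVec, pt_smul_right,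
          ap_def]⟩
    have hsymp1 : ∀ u v : Fin 1 ⊕ Fin 1 → F, Cfsg.sympForm 1 F u v =
        u (.inr 0) * v (.inl 0) - u (.inl 0) * v (.inr 0) := fun u v => by
      rw [sympForm_eq_sum, Fin.sum_univ_one]
    have hinj1 : Function.Injective (fun _ : Fin 1 => (⟨0, hd0⟩ : Fin d)) := fun i j _ => Subsingleton.elim i j
    -- `r = p`
    have hrp : r ≠ p := by
      rintro rfl
      let N : (Fin 1 ⊕ Fin 1 → F) →ₗ[F] (Fin 1 ⊕ Fin 1 → F) :=
        { toFun := fun v => Sum.elim (fun _ => v (.inr 0)) 0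
          map_add' := fun u v => by ext (i | i) <;> simp
          map_smul' := fun c v => by ext (i | i) <;> simp }
      have hNN : ∀ v, N (N v) = 0 := fun v => by ext (i | i) <;> rfl
      have hit : ∀ (i : ℕ) v, (LinearMap.id + N : (Fin 1 ⊕ Fin 1 → F) →ₗ[F] (Fin 1 ⊕ Fin 1 → F))^[i] v = v + (i : F) • N v := by
        intro i v
        induction i with
        | zero => simp
        | succ i ih =>
          rw [Function.iterate_succ_apply', ih, LinearMap.add_apply, LinearMap.id_apply, map_add, map_smul, hNN,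
            smul_zero, add_zero, Nat.cast_succ, add_smul, one_smul, add_assoc]
      obtain ⟨x, hx, hxr, hrk⟩ := exists_embed (d := d) _ hinj1 (LinearMap.id + N) (fun u v => by
        rw [hsymp1, hsymp1]; simp [N]; ring)
      have hxr' : x ^ r = 1 := hxr r fun v => by rw [hit, CharP.cast_eq_zero, zero_smul, add_zero]
      have h1 : rk (x : Matrix (Fin d ⊕ Fin d) (Fin d ⊕ Fin d) F) = 1 := by
        rw [hrk, add_sub_cancel_left]
        have : LinearMap.range N = F ∙ (Sum.elim (fun _ => 1) 0 : Fin 1 ⊕ Fin 1 → F) := by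
          ext w
          rw [LinearMap.mem_range, Submodule.mem_span_singleton]
          constructor
          · rintro ⟨v, rfl⟩
            exact ⟨v (.inr 0), by ext (i | i) <;> simp [N]⟩
          · rintro ⟨k, rfl⟩
            exact ⟨fun _ => k, by ext (i | i) <;> simp [N]⟩
        rw [this, finrank_span_singleton fun h => one_ne_zero (α := F) (congrFun h (.inl 0))]
      obtain ⟨y, A, B, -, -, hAB, hy⟩ := get x hx hxr' (hns_of_small x (by omega) (by omega))
      have := Nat.le_of_dvd one_pos (h1 ▸ hy ▸ small hAB (by omega))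
      omega
    have hrF : (r : F) ≠ 0 := fun h => hrp ((Nat.prime_dvd_prime_iff_eq Fact.out hr).1
      ((CharP.cast_eq_zero_iff F p r).1 h)).symm
    have hrq : (Fintype.card F : ZMod r) ≠ 0 := fun h => hrp (by
      obtain ⟨m, -, hm⟩ := FiniteField.card F p
      rw [ZMod.natCast_eq_zero_iff, hm] at h
      exact (Nat.prime_dvd_prime_iff_eq hr Fact.out).1 (hr.dvd_of_dvd_pow h))
    by_cases hr2 : r = 2
    · subst hr2
      refine ⟨rfl, ?_⟩
      by_contra ha4
      have ha4' : 4 ≤ a := by obtain ⟨k, hk⟩ := ha; omega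
      have hd2 : 4 * 3 ≤ 2 * d := hab ▸ Nat.mul_le_mul ha4' hb
      obtain ⟨x, hx, hxr, hrk⟩ := exists_embed (d := d) _ hinj1 (-LinearMap.id) (fun u v => by
        rw [hsymp1, hsymp1]; simp)
      have hxr' : x ^ 2 = 1 := hxr 2 fun v => by simp
      have h1 : rk (x : Matrix (Fin d ⊕ Fin d) (Fin d ⊕ Fin d) F) = 2 := by
        rw [hrk, LinearMap.range_eq_top.2 fun v => ⟨(-(2 : F))⁻¹ • v, by
          simp only [LinearMap.sub_apply, LinearMap.neg_apply, LinearMap.id_apply]
          have : -((-(2 : F))⁻¹ • v) - (-(2 : F))⁻¹ • v = ((-(2 : F)) * (-(2 : F))⁻¹) • v := by module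
          rw [this, mul_inv_cancel₀ (neg_ne_zero.2 h2F), one_smul]⟩,
          finrank_top, Module.finrank_fintype_fun_eq_card, Fintype.card_sum, Fintype.card_fin]
      obtain ⟨y, A, B, -, -, hAB, hy⟩ := get x hx hxr' (hns_of_small x (by omega) (by omega))
      have := Nat.le_of_dvd two_pos (h1 ▸ hy ▸ small hAB (by omega))
      omega
    exfalso
    have hro : Odd r := hr.odd_of_ne_two hr2
    set c₀ := orderOf (Fintype.card F : ZMod r) with hc₀
    have hc0 : 0 < c₀ := orderOf_pos_iff.2 (isOfFinOrder_iff_pow_eq_one.2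
      ⟨r - 1, Nat.sub_pos_of_lt hr.one_lt, ZMod.pow_card_sub_one_eq_one hrq⟩)
    set e₀ := if Even c₀ then c₀ / 2 else c₀ with he₀
    have he0 : 0 < e₀ := by
      rw [he₀]; split_ifs with h
      · obtain ⟨k, hk⟩ := h; omega
      · exact hc0
    have hcd : c₀ ∣ 2 * e₀ := by
      rw [he₀]; split_ifs with h
      · rw [Nat.mul_div_cancel' h.two_dvd]
      · exact dvd_mul_left _ _
    have h2e : ∀ k, c₀ ∣ k → Even k → 2 * e₀ ∣ k := by
      intro k hk hke
      rw [he₀]; split_ifs with h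
      · rwa [Nat.mul_div_cancel' h.two_dvd]
      · exact Nat.Coprime.mul_dvd_of_dvd_of_dvd
          ((Nat.prime_two.coprime_iff_not_dvd).2 fun h' => h (even_iff_two_dvd.2 h')) hke.two_dvd hk
    have hed : e₀ ≤ d := by
      have hcard : r ∣ Nat.card (Matrix.symplecticGroup (Fin d) F) := by
        rw [Nat.card_congr (MonoidHom.ofInjective (Forms.spToGL_injective (m := d) (F := F))).toEquiv,
          Forms.spToGL_range]
        exact hΩ.trans (Subgroup.relIndex_dvd_card _ _)
      rw [ClassicalLinear.card_sp] at hcard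
      rcases hr.dvd_mul.1 hcard with h | h
      · exact absurd ((ZMod.natCast_eq_zero_iff _ _).2 (hr.dvd_of_dvd_pow h)) hrq
      obtain ⟨i, hi, hi'⟩ := (hr.prime.dvd_finsetProd_iff _).1 h
      rw [Finset.mem_range] at hi
      rw [← ZMod.natCast_eq_zero_iff, Nat.cast_sub (Nat.one_le_pow _ _ Fintype.card_pos)] at hi'
      push_cast at hi'
      rw [sub_eq_zero] at hi'
      have := Nat.le_of_dvd (by omega) (h2e _ (orderOf_dvd_of_pow_eq_one hi') (even_two_mul _))
      omega
    obtain ⟨X, hXsp, hXr, hXrk⟩ := exists_free hrF hrq he0 h2e hcd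
    obtain ⟨x, hx, hxr, hrk⟩ := exists_embed (d := d) (Fin.castLE hed) (Fin.castLE_injective hed) X hXsp
    rw [hXrk] at hrk
    obtain ⟨y, A, B, hysp, hyr, hAB, hy⟩ := get x hx (hxr r hXr) (fun z hz => by
      have hz2 := hsign hx hz
      have hzr : z ^ r = 1 := by
        have h := congrArg (fun g : GL (Fin d ⊕ Fin d) F =>
          (g : Matrix (Fin d ⊕ Fin d) (Fin d ⊕ Fin d) F) (.inl ⟨0, hd0⟩) (.inl ⟨0, hd0⟩)) (hxr r hXr)
        simpa [Units.val_pow_eq_pow_val, hz, smul_pow] using h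
      obtain ⟨k, hk⟩ := hro
      rw [hk, pow_succ, pow_mul, pow_two, hz2, one_pow, one_mul] at hzr
      have : sub1 (x : Matrix (Fin d ⊕ Fin d) (Fin d ⊕ Fin d) F) = 0 := LinearMap.ext fun v => by
        simp [hz, hzr]
      rw [rk, this, LinearMap.range_zero, finrank_bot] at hrk
      omega)
    rw [hrk] at hy
    obtain ⟨s, hs0, hT₁f, hT₂f, hT₁r, hT₂r, hsplit⟩ :=
      exists_isometric_factors h2F (by omega) (by omega) hro hf₁ hf₂ hc₁ hpt hysp hyr hAB
    set M₁ := s⁻¹ • (A : Matrix (Fin a) (Fin a) F) with hM₁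
    set M₂ := s • (B : Matrix (Fin b) (Fin b) F) with hM₂
    have hk₁d : 2 * e₀ ∣ rk M₁ := by
      have h1 := LinearMap.finrank_range_add_finrank_ker (Matrix.toLin' M₁ - LinearMap.id)
      have hd' := PrimeOrder.orderOf_dvd_sub_finrank hrq (Matrix.toLin' M₁) ⊤ (fun _ _ => trivial) (fun v _ => hT₁r v)
      rw [finrank_top, PrimeOrder.fixedIn, top_inf_eq, ← hc₀] at hd'
      obtain ⟨m, hm⟩ := even_finrank_fixed_alt (bil hf₁.bilinear) hB₁ hB₁n hrF (Matrix.toLin' M₁)
        (fun u v => by simpa [bil_apply] using hT₁f u v) hT₁r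
      obtain ⟨m', hm'⟩ := ha
      rw [Module.finrank_fin_fun] at h1 hd'
      rw [show rk M₁ = a - finrank F (LinearMap.ker (Matrix.toLin' M₁ - LinearMap.id)) by rw [rk, sub1]; omega]
      exact h2e _ hd' ⟨m' - m, by omega⟩
    have hk₂d : 2 * e₀ ∣ rk M₂ := by
      have h1 := LinearMap.finrank_range_add_finrank_ker (Matrix.toLin' M₂ - LinearMap.id)
      have hd' := PrimeOrder.orderOf_dvd_sub_finrank hrq (Matrix.toLin' M₂) ⊤ (fun _ _ => trivial) (fun v _ => hT₂r v)
      rw [finrank_top, PrimeOrder.fixedIn, top_inf_eq, ← hc₀] at hd'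
      rw [Module.finrank_fin_fun] at h1 hd'
      have hev := even_finrank_moved_symm h2F (bil hf₂.bilinear) (fun u v => hf₂.symm u v) hB₂n hro
        (Matrix.toLin' M₂) (fun u v => by simpa [bil_apply] using hT₂f u v) hT₂r
      have e : b - finrank F (LinearMap.ker (Matrix.toLin' M₂ - LinearMap.id)) =
          finrank F (LinearMap.range (Matrix.toLin' M₂ - LinearMap.id)) := by omega
      rw [rk, sub1, ← e]
      exact h2e _ hd' (e ▸ hev)
    -- a trivial factor is impossible
    have htriv₁ : rk M₁ ≠ 0 := fun h0 => by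
      have h1 := rk_right y M₂ fun u w => by rw [hsplit, eq_one_of_rk_eq_zero _ h0, Matrix.one_mulVec]
      rw [hy] at h1
      obtain ⟨m, hm⟩ := hk₂d
      rw [hm, mul_left_comm] at h1
      have h3 : a * m = 1 := Nat.eq_of_mul_eq_mul_left (show 0 < 2 * e₀ by omega) (by rw [mul_one]; exact h1.symm)
      have := Nat.eq_one_of_mul_eq_one_right h3
      omega
    have htriv₂ : rk M₂ ≠ 0 := fun h0 => by
      have h1 := rk_left y M₁ fun u w => by rw [hsplit, eq_one_of_rk_eq_zero _ h0, Matrix.one_mulVec]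
      rw [hy] at h1
      obtain ⟨m, hm⟩ := hk₁d
      rw [hm, mul_left_comm] at h1
      have h3 : b * m = 1 := Nat.eq_of_mul_eq_mul_left (show 0 < 2 * e₀ by omega) (by rw [mul_one]; exact h1.symm)
      have := Nat.eq_one_of_mul_eq_one_right h3
      omega
    -- a scalar isometry of order dividing `r` is trivial
    have hscal : ∀ {m : ℕ} (M : Matrix (Fin m) (Fin m) F) (Bf : LinearMap.BilinForm F (Fin m → F)),
        0 < m → (∀ v, (∀ w, Bf v w = 0) → v = 0) → (∀ u w, Bf (M *ᵥ u) (M *ᵥ w) = Bf u w) →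
        (∀ u, (Matrix.toLin' M)^[r] u = u) → (∃ t : F, M = t • 1) → rk M = 0 := by
      rintro m M Bf hm hnd hf hMr ⟨t, rfl⟩
      set v : Fin m → F := Pi.single ⟨0, hm⟩ 1 with hv
      have hv0 : v ≠ 0 := Pi.single_ne_zero_iff.2 one_ne_zero
      obtain ⟨w, hvw⟩ : ∃ w, Bf v w ≠ 0 := by
        by_contra h; push Not at h; exact hv0 (hnd v h)
      have ht2 : t * t = 1 := by
        have := hf v w
        simp only [Matrix.smul_mulVec, Matrix.one_mulVec, map_smul, LinearMap.smul_apply, smul_eq_mul] at this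
        exact mul_right_cancel₀ hvw (by linear_combination this)
      have hit' : ∀ i : ℕ, (Matrix.toLin' (t • (1 : Matrix (Fin m) (Fin m) F)))^[i] v = t ^ i • v := by
        intro i
        induction i with
        | zero => simp
        | succ i ih => rw [Function.iterate_succ_apply', ih]; simp [smul_smul, pow_succ]
      have htr : t ^ r = 1 := smul_left_injective F hv0 (by simpa using (hit' r).symm.trans (hMr v))
      obtain ⟨k, hk⟩ := hro
      rw [hk, pow_succ, pow_mul, pow_two, ht2, one_pow, one_mul] at htr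
      rw [htr, one_smul, rk, show sub1 (1 : Matrix (Fin m) (Fin m) F) = 0 from LinearMap.ext fun u => by simp,
        LinearMap.range_zero, finrank_bot]
    have hA : ∀ t : F, (A : Matrix (Fin a) (Fin a) F) ≠ t • 1 := fun t ht =>
      htriv₁ (hscal _ (bil hf₁.bilinear) (by omega) hB₁n (fun u v => by simpa [bil_apply] using hT₁f u v) hT₁r
        ⟨s⁻¹ * t, by rw [hM₁, ht, smul_smul]⟩)
    have hB : ∀ t : F, (B : Matrix (Fin b) (Fin b) F) ≠ t • 1 := fun t ht =>
      htriv₂ (hscal _ (bil hf₂.bilinear) (by omega) hB₂n (fun u v => by simpa [bil_apply] using hT₂f u v) hT₂r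
        ⟨s * t, by rw [hM₂, ht, smul_smul]⟩)
    have hlt := lt_rk hb y A B hAB hA hB
    have hk₁a : rk M₁ ≤ a := (rk_le _).trans (Fintype.card_fin a).le
    have := Nat.le_of_dvd (Nat.pos_of_ne_zero htriv₁) hk₁d
    omega
  · rintro ⟨rfl, rfl⟩ x hx ⟨z, hz⟩ -
    have hdb : d = b := by omega
    subst hdb
    have hz2 : z * z = 1 := hsign (Subgroup.pow_mem _ hx 2) hz
    set f := Matrix.toLin' (x : Matrix (Fin d ⊕ Fin d) (Fin d ⊕ Fin d) F) with hfdef
    have hfsp : ∀ u w, sympBilin d F (f u) (f w) = sympBilin d F u w := fun u w => by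
      simp only [f, Matrix.toLin'_apply, sympBilin_apply]
      exact hx u w
    have hff : ∀ w, f (f w) = z • w := fun w => by
      simp only [f, Matrix.toLin'_apply, Matrix.mulVec_mulVec]
      rw [← Units.val_mul, ← pow_two, hz, Matrix.smul_mulVec, Matrix.one_mulVec]
    -- bases of the factors
    obtain ⟨v₀, hv₀⟩ := exists_ne (0 : Fin 2 → F)
    obtain ⟨v₁', hv₁'⟩ := (hf₁.nondegenerate v₀ hv₀).2
    set v₁ := (f₁ v₀ v₁')⁻¹ • v₁' with hv₁def
    have hv01 : f₁ v₀ v₁ = 1 := by rw [hv₁def, hf₁.bilinear.smul_right, inv_mul_cancel₀ hv₁']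
    have hvli : LinearIndependent F ![v₀, v₁] := by
      rw [LinearIndependent.pair_iff]
      intro s t hst
      have h1 := congrArg (fun v => bil hf₁.bilinear v v₁) hst
      have h2 := congrArg (fun v => bil hf₁.bilinear v₀ v) hst
      simp only [map_add, map_smul, LinearMap.add_apply, LinearMap.smul_apply, map_zero, LinearMap.zero_apply,
        bil_apply, hf₁.alternating, hv01, smul_eq_mul, mul_zero, mul_one, zero_add, add_zero] at h1 h2
      exact ⟨h1, h2⟩
    let V : Basis (Fin 2) F (Fin 2 → F) := Basis.mk hvli (ge_of_eq (hvli.span_eq_top_of_card_eq_finrank' (by simp)))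
    have hV0 : V 0 = v₀ := by simp [V]
    have hV1 : V 1 = v₁ := by simp [V]
    haveI : Invertible (2 : F) := invertibleOfNonzero h2F
    obtain ⟨W, hW⟩ := LinearMap.BilinForm.exists_orthogonal_basis (B := bil hf₂.bilinear) ⟨fun u v => hf₂.symm u v⟩
    let W' : Basis (Fin d) F (Fin d → F) := W.reindex (finCongr (Module.finrank_fin_fun F))
    have hW' : ∀ i j, i ≠ j → f₂ (W' i) (W' j) = 0 := fun i j hij => by
      simp only [W', Basis.reindex_apply]
      exact hW (fun h => hij ((finCongr _).symm.injective h))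
    let β : Fin d → F := fun j => c₁ * f₂ (W' j) (W' j)
    have hβ : ∀ j, β j ≠ 0 := fun j h => by
      refine W'.ne_zero j (hB₂n _ fun w => ?_)
      rw [← W'.sum_repr w, map_sum]
      refine Finset.sum_eq_zero fun i _ => ?_
      rw [map_smul, smul_eq_mul, bil_apply]
      by_cases hij : j = i
      · subst hij; rw [(mul_eq_zero.1 h).resolve_left hc₁, mul_zero]
      · rw [hW' j i hij, mul_zero]
    let T : Fin d × Fin 2 → (Fin d ⊕ Fin d → F) := fun q =>
      ![pt e P v₀ (W' q.1), (β q.1)⁻¹ • pt e P v₁ (W' q.1)] q.2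
    have hT0 : ∀ i j s, Cfsg.sympForm d F (T (i, s)) (T (j, s)) = 0 := fun i j s => by
      fin_cases s
      · show Cfsg.sympForm d F (pt e P v₀ _) (pt e P v₀ _) = 0
        rw [hpt, hf₁.alternating, zero_mul, mul_zero]
      · show Cfsg.sympForm d F ((β i)⁻¹ • pt e P v₁ _) ((β j)⁻¹ • pt e P v₁ _) = 0
        rw [← pt_smul_left, ← pt_smul_left, hpt, hf₁.bilinear.smul_left, hf₁.bilinear.smul_right,
          hf₁.alternating, mul_zero, mul_zero, zero_mul, mul_zero]
    have hT1 : ∀ i j, Cfsg.sympForm d F (T (i, 0)) (T (j, 1)) = if i = j then 1 else 0 := fun i j => by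
      show Cfsg.sympForm d F (pt e P v₀ _) ((β j)⁻¹ • pt e P v₁ _) = _
      rw [← pt_smul_left, hpt, hf₁.bilinear.smul_right, hv01, mul_one]
      split_ifs with hij
      · subst hij
        rw [mul_left_comm, inv_mul_cancel₀ (hβ i)]
      · rw [hW' i j hij, mul_zero, mul_zero]
    -- it suffices to find a matching family
    suffices h : ∃ (b' : Fin d × Fin 2 → (Fin d ⊕ Fin d → F)) (A : GL (Fin 2) F) (B : GL (Fin d) F),
        (∀ i j s, Cfsg.sympForm d F (b' (i, s)) (b' (j, s)) = 0) ∧
        (∀ i j, Cfsg.sympForm d F (b' (i, 0)) (b' (j, 1)) = if i = j then 1 else 0) ∧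
        ∀ g : GL (Fin d ⊕ Fin d) F, (∀ q, ap g (T q) = b' q) → ∀ i j,
          ap (g⁻¹ * x * g) (pt e P (V i) (W' j)) = pt e P (ap A (V i)) (ap B (W' j)) by
      obtain ⟨b', A, B, h0, h1, hg⟩ := h
      obtain ⟨g, hgsp, hgT⟩ := exists_spGL_of_families (Fintype.card_fin d) T b' hT0 hT1 h0 h1
      exact ⟨g, hgsp, mem_of_bases _ A B V W' (hg g hgT)⟩
    rcases mul_self_eq_one_iff.1 hz2 with rfl | rfl
    · -- eigenspaces
      have hEnd : ∀ η : F, η * η = 1 → ∀ w ∈ LinearMap.ker (f - η • LinearMap.id),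
          (∀ y ∈ LinearMap.ker (f - η • LinearMap.id), sympBilin d F w y = 0) → w = 0 := by
        intro η hη w hw hall
        refine sympBilin_nondegenerate w fun v => ?_
        have hw' : f w = η • w := by simpa [sub_eq_zero] using hw
        have h1 := hall (v + η • f v) (by
          rw [LinearMap.mem_ker]
          show f (v + η • f v) - η • (v + η • f v) = 0
          rw [map_add, map_smul, hff, one_smul, smul_add, smul_smul, hη, one_smul]
          abel)
        have h2' := hfsp w v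
        rw [hw', map_smul, LinearMap.smul_apply, smul_eq_mul] at h2'
        rw [map_add, map_smul, smul_eq_mul, h2'] at h1
        exact (mul_eq_zero.1 (show (2 : F) * sympBilin d F w v = 0 by linear_combination h1)).resolve_left h2F
      obtain ⟨α, _, _, bp, hp0, hp1, hpm, hpli, hpspan⟩ :=
        exists_symplectic_family (sympBilin d F) sympBilin_self _ (hEnd 1 (one_mul 1))
      obtain ⟨γ, _, _, bm, hm0, hm1, hmm, hmli, hmspan⟩ :=
        exists_symplectic_family (sympBilin d F) sympBilin_self _ (hEnd (-1) (by ring))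
      have hcross : ∀ u ∈ LinearMap.ker (f - (1 : F) • LinearMap.id),
          ∀ v ∈ LinearMap.ker (f - (-1 : F) • LinearMap.id),
            Cfsg.sympForm d F u v = 0 ∧ Cfsg.sympForm d F v u = 0 := by
        intro u hu v hv
        have hu' : f u = u := by simpa [sub_eq_zero] using hu
        have hv' : f v = -v := by
          rw [LinearMap.mem_ker, LinearMap.sub_apply, sub_eq_zero] at hv
          rw [hv]; simp
        have h := hfsp u v
        rw [hu', hv', map_neg] at h
        have h0 := (mul_eq_zero.1 (show (2 : F) * sympBilin d F u v = 0 by linear_combination -h)).resolve_left h2F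
        rw [sympBilin_apply] at h0
        exact ⟨h0, by rw [sympForm_skew, h0, neg_zero]⟩
      have hcard : Fintype.card (α ⊕ γ) = d := by
        have hc : IsCompl (LinearMap.ker (f - (1 : F) • LinearMap.id)) (LinearMap.ker (f - (-1 : F) • LinearMap.id)) := by
          refine IsCompl.of_eq ?_ (eq_top_iff.2 fun v _ => ?_)
          · rw [Submodule.eq_bot_iff]
            rintro v ⟨h1, h2'⟩
            rw [SetLike.mem_coe, LinearMap.mem_ker, LinearMap.sub_apply, sub_eq_zero] at h1 h2'
            rw [h1] at h2'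
            simp at h2'
            exact (smul_eq_zero.1 (show (2 : F) • v = 0 by rw [two_smul]; exact eq_neg_iff_add_eq_zero.1 h2')).resolve_left h2F
          · rw [show v = (2 : F)⁻¹ • (v + f v) + (2 : F)⁻¹ • (v - f v) by
              rw [← smul_add, add_add_sub_cancel, ← two_smul F v, inv_smul_smul₀ h2F]]
            refine Submodule.add_mem_sup (Submodule.smul_mem _ _ ?_) (Submodule.smul_mem _ _ ?_) <;>
              simp [sub_eq_zero, hff] <;> abel
        have h := Submodule.finrank_add_eq_of_isCompl hc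
        rw [← hpspan, ← hmspan, finrank_span_eq_card hpli, finrank_span_eq_card hmli, Fintype.card_prod,
          Fintype.card_prod, Fintype.card_fin, Module.finrank_fintype_fun_eq_card, Fintype.card_sum,
          Fintype.card_fin] at h
        rw [Fintype.card_sum]
        omega
      let E : α ⊕ γ ≃ Fin d := Fintype.equivFinOfCardEq hcard
      let b' : Fin d × Fin 2 → (Fin d ⊕ Fin d → F) := fun q =>
        Sum.elim (fun i => bp (i, q.2)) (fun i => bm (i, q.2)) (E.symm q.1)
      let η : Fin d → F := fun j => Sum.elim (fun _ : α => (1 : F)) (fun _ : γ => -1) (E.symm j)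
      have hη : ∀ j s, f (b' (j, s)) = η j • b' (j, s) := fun j s => by
        simp only [b', η]
        rcases E.symm j with i | i
        · simpa [sub_eq_zero] using hpm (i, s)
        · have h := hmm (i, s)
          rw [LinearMap.mem_ker, LinearMap.sub_apply, sub_eq_zero] at h
          simpa using h
      let B : GL (Fin d) F := ofEquiv (W'.equiv (W'.unitsSMul fun j => Units.mk0 (η j) (by
        simp only [η]; rcases E.symm j with i | i <;> simp)) (Equiv.refl _))
      refine ⟨b', 1, B, fun i j s => ?_, fun i j => ?_, fun g hg i j => ?_⟩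
      · simp only [b']
        rcases E.symm i with i | i <;> rcases E.symm j with j | j
        · exact (sympBilin_apply _ _).symm.trans (hp0 i j s)
        · exact (hcross _ (hpm _) _ (hmm _)).1
        · exact (hcross _ (hpm _) _ (hmm _)).2
        · exact (sympBilin_apply _ _).symm.trans (hm0 i j s)
      · rw [show (if i = j then (1 : F) else 0) = if E.symm i = E.symm j then 1 else 0 by simp]
        simp only [b']
        rcases E.symm i with i | i <;> rcases E.symm j with j | j
        · simpa [sympBilin_apply] using hp1 i j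
        · simpa using (hcross _ (hpm (i, 0)) _ (hmm (j, 1))).1
        · simpa using (hcross _ (hpm (j, 1)) _ (hmm (i, 0))).2
        · simpa [sympBilin_apply] using hm1 i j
      · have key : ∀ q : Fin d × Fin 2, ap (g⁻¹ * x * g) (T q) = η q.1 • T q := fun q => by
          rw [ap_mul, ap_mul, hg, ap_def x, ← Matrix.toLin'_apply, ← hfdef, hη, ap_smul, ← hg, ap_inv_ap]
        have hBW : ap B (W' j) = η j • W' j := by
          rw [ap_ofEquiv, Basis.equiv_apply, Basis.unitsSMul_apply]; rfl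
        rw [ap_one, hBW, pt_smul_right]
        fin_cases i
        · show ap _ (pt e P (V 0) _) = η j • pt e P (V 0) _
          rw [hV0]
          exact key (j, 0)
        · show ap _ (pt e P (V 1) _) = η j • pt e P (V 1) _
          rw [hV1]
          have h := congrArg (β j • ·) (key (j, 1))
          simp only [T, Matrix.cons_val_one, Matrix.cons_val_zero, ← ap_smul, smul_comm (β j) (η j),
            smul_inv_smul₀ (hβ j)] at h
          exact h
    · -- planes
      obtain ⟨α, _, _, bA, π, hA⟩ := exists_adapted_basis (B := sympBilin d F) sympBilin_self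
        sympBilin_nondegenerate hfsp hff
      have hne : (-1 : F) ≠ 1 := fun h => h2F (by linear_combination -h)
      have hcard : Fintype.card α = d := by
        have := Module.finrank_eq_card_basis bA
        rw [Module.finrank_fintype_fun_eq_card, Fintype.card_sum, Fintype.card_fin, Fintype.card_prod,
          Fintype.card_fin] at this
        omega
      let E : Fin d ≃ α := (Fintype.equivFinOfCardEq hcard).symm
      have hact : ∀ i, ∃ k k' : F, k ≠ 0 ∧ f (bA (i, 0)) = k • bA (i, 1) ∧ f (bA (i, 1)) = k' • bA (i, 0) :=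
        fun i => (hA.action i).elim (fun h => h.2) (fun h => absurd h.1 hne)
      have hrep : ∀ j, ∃ v : Fin d ⊕ Fin d → F, (∀ l s, l ≠ E j → sympBilin d F v (bA (l, s)) = 0 ∧
          sympBilin d F (f v) (bA (l, s)) = 0) ∧
          v ∈ Submodule.span F ({bA (E j, 0), bA (E j, 1)} : Set (Fin d ⊕ Fin d → F)) ∧
          f v ∈ Submodule.span F ({bA (E j, 0), bA (E j, 1)} : Set (Fin d ⊕ Fin d → F)) ∧
          sympBilin d F v (f v) = β j := by
        intro j
        obtain ⟨k, k', hk, h0, h1⟩ := hact (E j)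
        have hkk : k * k' = -1 := by
          have h := hff (bA (E j, 0))
          rw [h0, map_smul, h1, smul_smul] at h
          exact smul_left_injective F (bA.ne_zero _) h
        obtain ⟨X, Y, hXY⟩ := exists_rep hoddq hk (β j)
        have hfv : f (X • bA (E j, 0) + Y • bA (E j, 1)) = (X * k) • bA (E j, 1) + (Y * k') • bA (E j, 0) := by
          rw [map_add, map_smul, map_smul, h0, h1, smul_smul, smul_smul]
        refine ⟨X • bA (E j, 0) + Y • bA (E j, 1), fun l s hl => ?_, ?_, ?_, ?_⟩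
        · have hz0 : ∀ t, sympBilin d F (bA (E j, t)) (bA (l, s)) = 0 := by
            intro t
            fin_cases t <;> fin_cases s
            · exact hA.isotropic _ _ _
            · exact (hA.pairing _ _).trans (if_neg (Ne.symm hl))
            · show sympBilin d F (bA (E j, 1)) (bA (l, 0)) = 0
              rw [alt_skew sympBilin_self, hA.pairing, if_neg hl, neg_zero]
            · exact hA.isotropic _ _ _
          rw [hfv]
          simp [hz0]
        · exact Submodule.mem_span_pair.2 ⟨X, Y, rfl⟩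
        · rw [hfv]; exact Submodule.mem_span_pair.2 ⟨Y * k', X * k, add_comm _ _⟩
        · rw [hfv]
          have e10 : sympBilin d F (bA (E j, 1)) (bA (E j, 0)) = -1 := by
            rw [alt_skew sympBilin_self, hA.pairing, if_pos rfl]
          simp only [map_add, map_smul, LinearMap.add_apply, LinearMap.smul_apply, smul_eq_mul, hA.isotropic,
            hA.pairing, e10, if_true]
          have hk' : k' = -k⁻¹ := by field_simp; linear_combination hkk
          rw [hk']
          linear_combination hXY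
      choose v hvorth hvmem hfvmem hvβ using hrep
      let b' : Fin d × Fin 2 → (Fin d ⊕ Fin d → F) := fun q => ![v q.1, (β q.1)⁻¹ • f (v q.1)] q.2
      have horth : ∀ i j, i ≠ j → ∀ u ∈ ({v i, f (v i)} : Set (Fin d ⊕ Fin d → F)),
          ∀ w ∈ ({v j, f (v j)} : Set (Fin d ⊕ Fin d → F)), sympBilin d F u w = 0 := by
        intro i j hij u hu w hw
        have hw' : w ∈ Submodule.span F ({bA (E j, 0), bA (E j, 1)} : Set (Fin d ⊕ Fin d → F)) := by
          rcases hw with rfl | rfl
          · exact hvmem j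
          · exact hfvmem j
        refine (Submodule.span_le (p := LinearMap.ker (sympBilin d F u))).2 ?_ hw'
        rintro _ (rfl | rfl) <;> rcases hu with rfl | rfl
        · exact (hvorth i _ _ (E.injective.ne (Ne.symm hij))).1
        · exact (hvorth i _ _ (E.injective.ne (Ne.symm hij))).2
        · exact (hvorth i _ _ (E.injective.ne (Ne.symm hij))).1
        · exact (hvorth i _ _ (E.injective.ne (Ne.symm hij))).2
      let J : GL (Fin 2) F := ofEquiv (V.equiv ((V.reindex (Equiv.swap 0 1)).unitsSMul ![1, -1]) (Equiv.refl _))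
      have hJ0 : ap J v₀ = v₁ := by
        rw [← hV0, ← hV1, ap_ofEquiv, Basis.equiv_apply, Basis.unitsSMul_apply, Basis.reindex_apply]; simp
      have hJ1 : ap J v₁ = -v₀ := by
        rw [← hV0, ← hV1, ap_ofEquiv, Basis.equiv_apply, Basis.unitsSMul_apply, Basis.reindex_apply]; simp
      refine ⟨b', J, 1, fun i j s => ?_, fun i j => ?_, fun g hg i j => ?_⟩
      · by_cases hij : i = j
        · subst hij; rw [← sympBilin_apply]; exact sympBilin_self _
        rw [← sympBilin_apply]
        fin_cases s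
        · exact horth i j hij _ (by simp [b']) _ (by simp [b'])
        · show sympBilin d F ((β i)⁻¹ • f (v i)) ((β j)⁻¹ • f (v j)) = 0
          rw [map_smul, map_smul, LinearMap.smul_apply, horth i j hij _ (by simp) _ (by simp),
            smul_zero, smul_zero]
      · show Cfsg.sympForm d F (v i) ((β j)⁻¹ • f (v j)) = _
        rw [← sympBilin_apply, map_smul, smul_eq_mul]
        split_ifs with hij
        · subst hij; rw [hvβ, inv_mul_cancel₀ (hβ i)]
        · rw [horth i j hij _ (by simp) _ (by simp), mul_zero]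
      · rw [ap_one]
        have e0 : ap (g⁻¹ * x * g) (T (j, 0)) = β j • T (j, 1) := by
          rw [ap_mul, ap_mul, hg, ← ap_inv_ap g (β j • T (j, 1))]
          congr 1
          rw [ap_smul, hg]
          show ap x (v j) = β j • (β j)⁻¹ • f (v j)
          rw [smul_inv_smul₀ (hβ j)]
          rfl
        have e1 : ap (g⁻¹ * x * g) (T (j, 1)) = -((β j)⁻¹ • T (j, 0)) := by
          rw [ap_mul, ap_mul, hg, ← ap_inv_ap g (-((β j)⁻¹ • T (j, 0)))]
          congr 1
          rw [← neg_smul, ap_smul, hg]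
          show ap x ((β j)⁻¹ • f (v j)) = (-(β j)⁻¹) • v j
          rw [ap_smul, ap_def, ← Matrix.toLin'_apply, ← hfdef, hff, smul_smul, mul_neg_one]
        fin_cases i
        · show ap _ (pt e P (V 0) _) = pt e P (ap J (V 0)) _
          rw [hV0, hJ0]
          exact e0.trans (smul_inv_smul₀ (hβ j) _)
        · show ap _ (pt e P (V 1) _) = pt e P (ap J (V 1)) _
          rw [hV1, hJ1]
          have h := congrArg (β j • ·) e1
          simp only [← ap_smul, smul_neg, smul_inv_smul₀ (hβ j)] at h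
          simp only [T, Matrix.cons_val_one, Matrix.cons_val_zero, smul_inv_smul₀ (hβ j)] at h
          have hneg : pt e P (-v₀) (W' j) = -pt e P v₀ (W' j) := by
            conv_lhs => rw [← neg_one_smul F v₀]
            rw [pt_smul_left, neg_one_smul]
          exact h.trans hneg.symm

end Cfsg.Agent.S5980
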