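import Cfsg.Statements.S0572
import Mathlib

set_option autoImplicit false
open Cfsg

namespace Cfsg.Agent.S0572

set_option linter.style.haveILetI false

open scoped commutatorElement in
/-- Itô's Theorem: if a group G is the product AB of two abelian subgroups, then the commutator subgroup of G is abelian, i.e. the second term of the derived series is trivial. -/
theorem result {G : Type*} [Group G] (A B : Subgroup G) [IsMulCommutative A] [IsMulCommutative B] (hAB : ∀ g : G, ∃ a ∈ A, ∃ b ∈ B, g = a * b) : derivedSeries G 2 = ⊥ := by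
  have hca : ∀ x ∈ A, ∀ y ∈ A, x * y = y * x := fun x hx y hy =>
    congrArg Subtype.val (IsMulCommutative.is_comm.comm (⟨x, hx⟩ : A) ⟨y, hy⟩)
  have hcb : ∀ x ∈ B, ∀ y ∈ B, x * y = y * x := fun x hx y hy =>
    congrArg Subtype.val (IsMulCommutative.is_comm.comm (⟨x, hx⟩ : B) ⟨y, hy⟩)
  have hswap : ∀ g : G, ∃ b ∈ B, ∃ a ∈ A, g = b * a := fun g => by
    obtain ⟨a, ha, b, hb, h⟩ := hAB g⁻¹
    exact ⟨b⁻¹, inv_mem hb, a⁻¹, inv_mem ha, by rw [← mul_inv_rev, ← h, inv_inv]⟩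
  have hA1 : ∀ a ∈ A, ∀ b b' : G, ∀ a' ∈ A, ⁅a, b⁆ = ⁅a, b * a'⁆ := fun a ha b b' a' ha' => by
    rw [commutatorElement_def, commutatorElement_def]
    calc a * b * a⁻¹ * b⁻¹ = a * b * (a⁻¹ * a') * a'⁻¹ * b⁻¹ := by group
      _ = a * b * (a' * a⁻¹) * a'⁻¹ * b⁻¹ := by rw [hca a⁻¹ (inv_mem ha) a' ha']
      _ = a * (b * a') * a⁻¹ * (b * a')⁻¹ := by group
  have hB1 : ∀ b ∈ B, ∀ a : G, ∀ b' ∈ B, ⁅a, b⁆ = ⁅a * b', b⁆ := fun b hb a b' hb' => by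
    rw [commutatorElement_def, commutatorElement_def]
    calc a * b * a⁻¹ * b⁻¹ = a * (b * b') * b'⁻¹ * a⁻¹ * b⁻¹ := by group
      _ = a * (b' * b) * b'⁻¹ * a⁻¹ * b⁻¹ := by rw [hcb b hb b' hb']
      _ = a * b' * b * (a * b')⁻¹ * b⁻¹ := by group
  have hAe : ∀ a ∈ A, ∀ x ∈ A, ∀ b : G, x * ⁅a, b⁆ * x⁻¹ = ⁅a, x * b * x⁻¹⁆ := fun a ha x hx b => by
    rw [conjugate_commutatorElement, hca x hx a ha, mul_inv_cancel_right]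
  have hBe : ∀ b ∈ B, ∀ x ∈ B, ∀ a : G, x * ⁅a, b⁆ * x⁻¹ = ⁅x * a * x⁻¹, b⁆ := fun b hb x hx a => by
    rw [conjugate_commutatorElement, hcb x hx b hb, mul_inv_cancel_right]
  have key0 : ∀ a ∈ A, ∀ b ∈ B, ∀ a₂ ∈ A, ∀ b₂ ∈ B,
      Commute ⁅a₂, b₂⁆ (b₂ * a₂ * ⁅a, b⁆ * (b₂ * a₂)⁻¹) := by
    intro a ha b hb a₂ ha₂ b₂ hb₂
    obtain ⟨b₃, hb₃, a₃, ha₃, h3⟩ := hswap (a₂ * b * a₂⁻¹)
    obtain ⟨a₄, ha₄, b₄, hb₄, h4⟩ := hAB (b₂ * a * b₂⁻¹)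
    have e1 : a₂ * ⁅a, b⁆ * a₂⁻¹ = ⁅a, b₃⁆ := by
      rw [hAe a ha a₂ ha₂, h3]; exact (hA1 a ha b₃ 1 a₃ ha₃).symm
    have e2 : b₂ * ⁅a, b⁆ * b₂⁻¹ = ⁅a₄, b⁆ := by
      rw [hBe b hb b₂ hb₂, h4]; exact (hB1 b hb a₄ b₄ hb₄).symm
    have e3 : a₂ * ⁅a₄, b⁆ * a₂⁻¹ = ⁅a₄, b₃⁆ := by
      rw [hAe a₄ ha₄ a₂ ha₂, h3]; exact (hA1 a₄ ha₄ b₃ 1 a₃ ha₃).symm
    have e4 : b₂ * ⁅a, b₃⁆ * b₂⁻¹ = ⁅a₄, b₃⁆ := by
      rw [hBe b₃ hb₃ b₂ hb₂, h4]; exact (hB1 b₃ hb₃ a₄ b₄ hb₄).symm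
    have e : a₂ * b₂ * ⁅a, b⁆ * (a₂ * b₂)⁻¹ = b₂ * a₂ * ⁅a, b⁆ * (b₂ * a₂)⁻¹ := by
      calc a₂ * b₂ * ⁅a, b⁆ * (a₂ * b₂)⁻¹ = a₂ * (b₂ * ⁅a, b⁆ * b₂⁻¹) * a₂⁻¹ := by group
        _ = b₂ * (a₂ * ⁅a, b⁆ * a₂⁻¹) * b₂⁻¹ := by rw [e2, e3, e1, e4]
        _ = b₂ * a₂ * ⁅a, b⁆ * (b₂ * a₂)⁻¹ := by group
    have hrot : ∀ z : G, a₂ * b₂ * z * (a₂ * b₂)⁻¹ =
        ⁅a₂, b₂⁆ * (b₂ * a₂ * z * (b₂ * a₂)⁻¹) * ⁅a₂, b₂⁆⁻¹ := fun z => by group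
    -- `y` is the conjugate of `⁅a, b⁆`, which `⁅a₂, b₂⁆` fixes
    have hy := hrot ⁅a, b⁆
    rw [e] at hy
    have hc : Commute ⁅a₂, b₂⁆ (b₂ * a₂ * ⁅a, b⁆ * (b₂ * a₂)⁻¹) :=
      (eq_mul_inv_iff_mul_eq.1 hy).symm
    exact hc
  have hdense : ∀ a ∈ A, ∀ b ∈ B, ∀ a₂ ∈ A, ∀ b₂ ∈ B,
      ∃ a' ∈ A, ∃ b' ∈ B, ⁅a, b⁆ = b₂ * a₂ * ⁅a', b'⁆ * (b₂ * a₂)⁻¹ := by
    intro a ha b hb a₂ ha₂ b₂ hb₂
    obtain ⟨a', ha', b₅, hb₅, h5⟩ := hAB (b₂⁻¹ * a * b₂)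
    obtain ⟨b', hb', a₆, ha₆, h6⟩ := hswap (a₂⁻¹ * b * a₂)
    refine ⟨a', ha', b', hb', ?_⟩
    have f1 : b₂⁻¹ * ⁅a, b⁆ * b₂ = ⁅a', b⁆ := by
      have := hBe b hb b₂⁻¹ (inv_mem hb₂) a
      rw [inv_inv, h5] at this
      exact this.trans (hB1 b hb a' b₅ hb₅).symm
    have f2 : a₂⁻¹ * ⁅a', b⁆ * a₂ = ⁅a', b'⁆ := by
      have := hAe a' ha' a₂⁻¹ (inv_mem ha₂) b
      rw [inv_inv, h6] at this
      exact this.trans (hA1 a' ha' b' 1 a₆ ha₆).symm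
    rw [← f2, ← f1]; group
  have key : ∀ a ∈ A, ∀ b ∈ B, ∀ a₂ ∈ A, ∀ b₂ ∈ B, ⁅a₂, b₂⁆ * ⁅a, b⁆ = ⁅a, b⁆ * ⁅a₂, b₂⁆ := by
    intro a ha b hb a₂ ha₂ b₂ hb₂
    obtain ⟨a', ha', b', hb', h⟩ := hdense a ha b hb a₂ ha₂ b₂ hb₂
    rw [h]
    exact (key0 a' ha' b' hb' a₂ ha₂ b₂ hb₂).eq
  have hN : IsMulCommutative (⁅A, B⁆ : Subgroup G) := by
    rw [Subgroup.commutator_def]
    refine Subgroup.isMulCommutative_closure ?_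
    rintro _ ⟨a, ha, b, hb, rfl⟩ _ ⟨a', ha', b', hb', rfl⟩
    exact key a' ha' b' hb' a ha b hb
  have htop : A ⊔ B = ⊤ := top_le_iff.1 fun g _ => by
    obtain ⟨a, ha, b, hb, rfl⟩ := hAB g
    exact mul_mem (Subgroup.mem_sup_left ha) (Subgroup.mem_sup_right hb)
  haveI : (⁅A, B⁆ : Subgroup G).Normal := by
    rw [← Subgroup.normalizer_eq_top_iff, ← top_le_iff, ← htop]
    exact sup_le (Subgroup.normalizer_commutator_ge_left _ _) (Subgroup.normalizer_commutator_ge_right _ _)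
  have h1 : derivedSeries G 1 ≤ ⁅A, B⁆ := by
    rw [derivedSeries_one, ← Subgroup.Normal.quotient_commutative_iff_commutator_le]
    let q := QuotientGroup.mk' (⁅A, B⁆ : Subgroup G)
    have hqc : ∀ a ∈ A, ∀ b ∈ B, Commute (q a) (q b) := fun a ha b hb => by
      rw [← commutatorElement_eq_one_iff_commute, ← map_commutatorElement]
      exact (QuotientGroup.eq_one_iff _).2 (Subgroup.commutator_mem_commutator ha hb)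
    refine ⟨⟨fun x y => ?_⟩⟩
    obtain ⟨x, rfl⟩ := QuotientGroup.mk'_surjective _ x
    obtain ⟨y, rfl⟩ := QuotientGroup.mk'_surjective _ y
    obtain ⟨a, ha, b, hb, rfl⟩ := hAB x
    obtain ⟨a', ha', b', hb', rfl⟩ := hAB y
    rw [map_mul, map_mul]
    have c1 : Commute (q a) (q a') := Commute.map (hca a ha a' ha') q
    have c2 : Commute (q b) (q b') := Commute.map (hcb b hb b' hb') q
    exact ((c1.mul_right (hqc a ha b' hb')).mul_left ((hqc a' ha' b hb).symm.mul_right c2))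
  rw [derivedSeries_succ, ← le_bot_iff, ← Subgroup.commutator_self_eq_bot_iff.2 hN]
  exact Subgroup.commutator_mono h1 h1

end Cfsg.Agent.S0572
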