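import Cfsg.Statements.S0719
import Cfsg.Agent.Lib.AltGroups.RankMult

set_option autoImplicit false
open Cfsg

namespace Cfsg.Agent.S0719

open CfsgLib.AltGroups CfsgLib.CharTheory MulAction

variable {G Ω : Type*} [Group G] [Fintype G] [Fintype Ω] [MulAction G Ω]

/-- In a primitive action with more suborbits than points allowed for a regular one, no
non-trivial suborbit is a singleton. -/
theorem suborbit_ne_one (hprim : IsPreprimitive G Ω) {a b : Ω} (hab : b ≠ a)
    (hlt : Nat.card (orbitRel.Quotient (stabilizer G a) Ω) < Nat.card Ω) :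
    Nat.card (orbit (stabilizer G a) b) ≠ 1 := by
  intro h1
  haveI := hprim
  haveI : Nontrivial Ω := ⟨b, a, hab⟩
  obtain ⟨⟨y, hy⟩, hall⟩ := Nat.card_eq_one_iff_exists.mp h1
  have hle : stabilizer G a ≤ stabilizer G b := fun g hg => by
    have e1 := congrArg Subtype.val (hall ⟨b, mem_orbit_self b⟩)
    have e2 := congrArg Subtype.val (hall ⟨g • b, ⟨g, hg⟩, rfl⟩)
    exact mem_stabilizer_iff.mpr (e2.trans e1.symm)
  have hco : IsCoatom (stabilizer G a) := (isCoatom_stabilizer_iff_preprimitive G a).mpr hprim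
  obtain ⟨g, hg⟩ := exists_smul_eq G a b
  have hcard : stabilizer G a = stabilizer G b := by
    rcases hco.le_iff.mp hle with h | h
    · exfalso
      obtain ⟨k, hk⟩ := exists_smul_eq G b a
      have : k • b = b := mem_stabilizer_iff.mp (h ▸ Subgroup.mem_top k)
      exact hab (this.symm.trans hk)
    · exact h.symm
  have hn : g ∈ Subgroup.normalizer (stabilizer G a : Set G) := by
    rw [Subgroup.mem_normalizer_iff]
    intro k
    constructor
    · intro hk
      have hk' : g * k * g⁻¹ ∈ stabilizer G b := by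
        rw [mem_stabilizer_iff, mul_smul, mul_smul, inv_smul_eq_iff.mpr hg.symm,
          mem_stabilizer_iff.mp hk, hg]
      rwa [hcard]
    · intro hk
      rw [hcard, mem_stabilizer_iff, mul_smul, mul_smul, inv_smul_eq_iff.mpr hg.symm,
        smul_eq_iff_eq_inv_smul, inv_smul_eq_iff.mpr hg.symm] at hk
      exact hk
  have htop : Subgroup.normalizer (stabilizer G a : Set G) = ⊤ := by
    rcases hco.le_iff.mp Subgroup.le_normalizer with h | h
    · exact h
    · exfalso
      have : g • a = a := mem_stabilizer_iff.mp (h ▸ hn)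
      exact hab (hg.symm.trans this)
  haveI := Subgroup.normalizer_eq_top_iff.mp htop
  have hfix : ∀ (k : stabilizer G a) (x : Ω), k • x = x := by
    intro k x
    obtain ⟨t, rfl⟩ := exists_smul_eq G a x
    have := Subgroup.Normal.conj_mem inferInstance (k : G) k.2 t⁻¹
    rw [mem_stabilizer_iff, inv_inv, mul_smul, mul_smul, inv_smul_eq_iff] at this
    exact this
  refine hlt.ne' (Nat.card_eq_of_bijective (fun x => (Quotient.mk'' x : orbitRel.Quotient (stabilizer G a) Ω))
    ⟨fun x x' e => ?_, Quotient.mk''_surjective⟩)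
  obtain ⟨k, hk⟩ := Quotient.exact' e
  exact (hk.symm.trans (hfix k x'))

/-- The kernel with rows and columns swapped has the inverted trace function. -/
theorem tau_swap (K : Ω → Ω → ℂ) (g : G) : tau G (fun x y => K y x) g = tau G K g⁻¹ :=
  Fintype.sum_equiv (MulAction.toPerm g) _ _ fun x => by simp


/-- Groups of Wielandt type: if a primitive group of degree `2m` has rank 3 and permutation character `1 + χ₁ + χ₂` with irreducible `χ₁, χ₂` of degrees `m - 1` and `m`, then `m = 2a² + 2a + 1` for some positive integer `a` and the two non-trivial subdegrees are `a(2a+1)` and `(a+1)(2a+1)`. -/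
theorem result {G : Type*} [Group G] [Fintype G] {Ω : Type*} [Fintype Ω] [MulAction G Ω] (hprim : MulAction.IsPreprimitive G Ω) {m : ℕ} (hm : Fintype.card Ω = 2 * m) (a₀ : Ω) (hrank : Nat.card (MulAction.orbitRel.Quotient (MulAction.stabilizer G a₀) Ω) = 3) (χ₁ χ₂ : G → ℂ) (h₁ : Cfsg.IsIrrCharacter G χ₁) (h₂ : Cfsg.IsIrrCharacter G χ₂) (hπ : (fun g : G => (Nat.card (MulAction.fixedBy Ω g) : ℂ)) = fun g => 1 + χ₁ g + χ₂ g) (hd₁ : χ₁ 1 = (m : ℂ) - 1) (hd₂ : χ₂ 1 = m) : ∃ a : ℕ, 0 < a ∧ m = 2 * a ^ 2 + 2 * a + 1 ∧ ∀ b : Ω, b ≠ a₀ → Nat.card (MulAction.orbit (MulAction.stabilizer G a₀) b) = a * (2 * a + 1) ∨ Nat.card (MulAction.orbit (MulAction.stabilizer G a₀) b) = (a + 1) * (2 * a + 1) := by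
  classical
  haveI := hprim
  haveI : IsPretransitive G Ω := hprim.toIsPretransitive
  haveI := Fintype.ofFinite (Cfsg.IrrCharacter G)
  haveI := Fintype.ofFinite (orbitRel.Quotient (stabilizer G a₀) Ω)
  -- the three constituents
  set π : G → ℂ := fun g => (Nat.card (fixedBy Ω g) : ℂ) with hπdef
  have h12 : χ₁ ≠ χ₂ := fun e => by
    rw [e, hd₂] at hd₁
    exact one_ne_zero (sub_eq_self.mp hd₁.symm)
  have hπeq : π = (fun _ => (1 : ℂ)) + χ₁ + χ₂ := hπ
  have hone : classInner π (fun _ => (1 : ℂ)) = 1 := by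
    rw [hπdef, classInner_card_fixedBy_one, ← Nat.cast_one, Nat.cast_inj, Nat.card_eq_one_iff_exists]
    refine ⟨Quotient.mk'' a₀, fun q => ?_⟩
    induction q using Quotient.inductionOn' with
    | _ y => exact Quotient.eq''.2 (exists_smul_eq G a₀ y)
  have hn1 : χ₁ ≠ fun _ => (1 : ℂ) := fun e => by
    rw [hπeq, classInner_add_left, classInner_add_left, e, classInner_self_of_isIrr isIrrCharacter_one,
      classInner_eq_zero_of_ne h₂ isIrrCharacter_one (fun e2 => h12 (e.trans e2.symm))] at hone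
    norm_num at hone
  have hn2 : χ₂ ≠ fun _ => (1 : ℂ) := fun e => by
    rw [hπeq, classInner_add_left, classInner_add_left, e, classInner_self_of_isIrr isIrrCharacter_one,
      classInner_eq_zero_of_ne h₁ isIrrCharacter_one (fun e2 => h12 (e2.trans e.symm))] at hone
    norm_num at hone
  have hm1 : classInner π χ₁ = 1 := by
    rw [hπeq, classInner_add_left, classInner_add_left, classInner_self_of_isIrr h₁,
      classInner_eq_zero_of_ne isIrrCharacter_one h₁ hn1.symm, classInner_eq_zero_of_ne h₂ h₁ h12.symm]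
    ring
  have hm2 : classInner π χ₂ = 1 := by
    rw [hπeq, classInner_add_left, classInner_add_left, classInner_self_of_isIrr h₂,
      classInner_eq_zero_of_ne isIrrCharacter_one h₂ hn2.symm, classInner_eq_zero_of_ne h₁ h₂ h12]
    ring
  have hothers : ∀ φ : G → ℂ, IsIrrCharacter G φ → φ ≠ (fun _ => (1 : ℂ)) → φ ≠ χ₁ → φ ≠ χ₂ →
      classInner π φ = 0 := fun φ hφ e0 e1 e2 => by
    rw [hπeq, classInner_add_left, classInner_add_left, classInner_eq_zero_of_ne isIrrCharacter_one hφ e0.symm,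
      classInner_eq_zero_of_ne h₁ hφ e1.symm, classInner_eq_zero_of_ne h₂ hφ e2.symm]
    ring
  -- the three suborbits
  obtain ⟨q₁, q₂, hq12, hq1, hq2, hquniv⟩ : ∃ q₁ q₂ : orbitRel.Quotient (stabilizer G a₀) Ω,
      q₁ ≠ q₂ ∧ q₁ ≠ Quotient.mk'' a₀ ∧ q₂ ≠ Quotient.mk'' a₀ ∧
      Finset.univ = {Quotient.mk'' a₀, q₁, q₂} := by
    have hc : ((Finset.univ : Finset (orbitRel.Quotient (stabilizer G a₀) Ω)).erase (Quotient.mk'' a₀)).card = 2 := by
      rw [Finset.card_erase_of_mem (Finset.mem_univ _), Finset.card_univ, ← Nat.card_eq_fintype_card, hrank]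
    obtain ⟨q₁, q₂, hne, he⟩ := Finset.card_eq_two.mp hc
    have e1 : q₁ ∈ ({q₁, q₂} : Finset _) := by simp
    have e2 : q₂ ∈ ({q₁, q₂} : Finset _) := by simp
    rw [← he] at e1 e2
    refine ⟨q₁, q₂, hne, Finset.ne_of_mem_erase e1, Finset.ne_of_mem_erase e2, ?_⟩
    rw [← he, Finset.insert_erase (Finset.mem_univ _)]
  set b := q₁.out
  set c := q₂.out
  have hba : b ≠ a₀ := out_ne hq1
  have hca : c ≠ a₀ := out_ne hq2
  have hcls : ∀ y : Ω, y = a₀ ∨ y ∈ orbit (stabilizer G a₀) b ∨ y ∈ orbit (stabilizer G a₀) c := by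
    intro y
    have hy : (Quotient.mk'' y : orbitRel.Quotient (stabilizer G a₀) Ω) ∈ ({Quotient.mk'' a₀, q₁, q₂} : Finset _) := by
      rw [← hquniv]; exact Finset.mem_univ _
    simp only [Finset.mem_insert, Finset.mem_singleton] at hy
    rcases hy with h | h | h
    · left
      obtain ⟨g, hg⟩ := Quotient.exact' h
      exact hg.symm.trans g.2
    · exact Or.inr (Or.inl (Quotient.exact' (h.trans (Quotient.out_eq' q₁).symm)))
    · exact Or.inr (Or.inr (Quotient.exact' (h.trans (Quotient.out_eq' q₂).symm)))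
  have hdisj : ∀ y, y ∈ orbit (stabilizer G a₀) b → y ∈ orbit (stabilizer G a₀) c → False := by
    intro y h1 h2
    apply hq12
    rw [← Quotient.out_eq' q₁, ← Quotient.out_eq' q₂]
    exact ((Quotient.eq''.2 h1).symm.trans (Quotient.eq''.2 h2) :
      (Quotient.mk'' b : orbitRel.Quotient (stabilizer G a₀) Ω) = Quotient.mk'' c)
  set k := Nat.card (orbit (stabilizer G a₀) b) with hk
  set k' := Nat.card (orbit (stabilizer G a₀) c) with hk'
  have hkk : k + k' + 1 = 2 * m := by
    have h := card_eq_sum_suborbits (G := G) a₀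
    have hz : (Quotient.mk'' a₀ : orbitRel.Quotient (stabilizer G a₀) Ω).out ∈ orbit (stabilizer G a₀) a₀ :=
      Quotient.exact' (Quotient.out_eq' (Quotient.mk'' a₀ : orbitRel.Quotient (stabilizer G a₀) Ω))
    rw [hquniv, Finset.sum_insert (by simp [hq1.symm, hq2.symm]),
      Finset.sum_insert (by simp [hq12]), Finset.sum_singleton, orbit_eq_iff.mpr hz, card_orbit_self,
      Nat.card_eq_fintype_card (α := Ω), hm] at h
    change 2 * m = 1 + (k + k') at h
    omega
  have hlt : Nat.card (orbitRel.Quotient (stabilizer G a₀) Ω) < Nat.card Ω → k ≠ 1 ∧ k' ≠ 1 := fun h =>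
    ⟨suborbit_ne_one hprim hba h, suborbit_ne_one hprim hca h⟩
  have hkpos : 0 < k := Nat.card_pos_iff.mpr ⟨(nonempty_orbit b).to_subtype, inferInstance⟩
  have hk'pos : 0 < k' := Nat.card_pos_iff.mpr ⟨(nonempty_orbit c).to_subtype, inferInstance⟩
  have h4 : Nat.card (orbitRel.Quotient (stabilizer G a₀) Ω) < Nat.card Ω := by
    rw [hrank, Nat.card_eq_fintype_card, hm]; omega
  obtain ⟨hk1, hk'1⟩ := hlt h4
  -- the orbital kernels
  set R := orbital G a₀ b with hR
  set R' := orbital G a₀ c with hR'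
  have hRi : InvKernel G R := invKernel_orbital a₀ b
  have hR'i : InvKernel G R' := invKernel_orbital a₀ c
  have hRb : R a₀ b = 1 := if_pos ⟨1, one_smul G a₀, one_smul G b⟩
  have hR'c : R' a₀ c = 1 := if_pos ⟨1, one_smul G a₀, one_smul G c⟩
  have hRc : R a₀ c = 0 := if_neg fun ⟨g, e1, e2⟩ => hdisj c ⟨⟨g, e1⟩, e2⟩ (mem_orbit_self c)
  have hR'b : R' a₀ b = 0 := if_neg fun ⟨g, e1, e2⟩ => hdisj b (mem_orbit_self b) ⟨⟨g, e1⟩, e2⟩
  -- an invariant kernel is determined by three values
  have hext : ∀ K L : Ω → Ω → ℂ, InvKernel G K → InvKernel G L → K a₀ a₀ = L a₀ a₀ →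
      K a₀ b = L a₀ b → K a₀ c = L a₀ c → K = L := by
    intro K L hK hL e0 e1 e2
    funext x y
    obtain ⟨g, rfl⟩ := exists_smul_eq G a₀ x
    obtain ⟨y', rfl⟩ := MulAction.surjective g y
    rw [hK, hL]
    rcases hcls y' with rfl | ⟨u, rfl⟩ | ⟨u, rfl⟩
    · exact e0
    · have hu : (u : G) • a₀ = a₀ := u.2
      calc K a₀ ((u : G) • b) = K ((u : G) • a₀) ((u : G) • b) := by rw [hu]
        _ = L ((u : G) • a₀) ((u : G) • b) := by rw [hK, hL, e1]
        _ = L a₀ ((u : G) • b) := by rw [hu]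
    · have hu : (u : G) • a₀ = a₀ := u.2
      calc K a₀ ((u : G) • c) = K ((u : G) • a₀) ((u : G) • c) := by rw [hu]
        _ = L ((u : G) • a₀) ((u : G) • c) := by rw [hK, hL, e2]
        _ = L a₀ ((u : G) • c) := by rw [hu]
  have hrow : ∑ y, R a₀ y = (k : ℂ) := sum_orbital a₀ b
  have hrow' : ∑ y, R' a₀ y = (k' : ℂ) := sum_orbital a₀ c
  have hone_R : classInner (tau G R) (fun _ => (1 : ℂ)) = k := (classInner_tau_one hRi a₀).trans hrow
  have hone_R' : classInner (tau G R') (fun _ => (1 : ℂ)) = k' := (classInner_tau_one hR'i a₀).trans hrow'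
  -- self-pairing
  have hpair : R b a₀ = 1 := by
    by_contra hno
    have hno' : R b a₀ = 0 := by
      unfold R at hno ⊢; unfold orbital at hno ⊢; split_ifs at hno ⊢ with h <;> simp_all
    obtain ⟨g, hg⟩ := exists_smul_eq G b a₀
    have hE : (fun x y => R y x) = R' := by
      have hS : InvKernel G (fun x y => R y x) := fun g x y => hRi g y x
      obtain ⟨y, hy⟩ : ∃ y, g • a₀ = y := ⟨_, rfl⟩
      have hRy : R y a₀ = 1 := by
        have := hRi g a₀ b
        rwa [hy, hg, hRb] at this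
      rcases hcls y with rfl | hyb | hyc
      · exact absurd hRy (by rw [hR, orbital_self_zero hba]; exact zero_ne_one)
      · obtain ⟨u, rfl⟩ := hyb
        have hu : (u : G) • a₀ = a₀ := u.2
        change R ((u : G) • b) a₀ = 1 at hRy
        have e := hRi (u : G) b a₀
        rw [hu] at e
        rw [e, hno'] at hRy
        exact absurd hRy zero_ne_one
      · obtain ⟨u, rfl⟩ := hyc
        have hu : (u : G) • a₀ = a₀ := u.2
        change R ((u : G) • c) a₀ = 1 at hRy
        have e := hRi (u : G) c a₀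
        rw [hu] at e
        rw [e] at hRy
        refine hext _ _ hS hR'i ?_ ?_ ?_
        · rw [hR, hR', orbital_self_zero hba, orbital_self_zero hca]
        · show R b a₀ = _
          rw [hno', hR'b]
        · show R c a₀ = _
          rw [hRy, hR'c]
    have : (k : ℂ) = k' := by
      rw [← hone_R, ← hone_R', ← hE]
      simp only [Cfsg.classInner, map_one, mul_one, tau_swap]
      exact congrArg _ (Fintype.sum_equiv (Equiv.inv G) _ _ fun g => by simp)
    rw [Nat.cast_inj] at this
    omega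
  have hsymm : ∀ x y, R x y = R y x := by
    have hS : InvKernel G (fun x y => R y x) := fun g x y => hRi g y x
    have hcb : R c a₀ = 0 := by
      unfold R orbital
      rw [if_neg]
      rintro ⟨g, hg1, hg2⟩
      have hr : R c a₀ = 1 := if_pos ⟨g, hg1, hg2⟩
      obtain ⟨u, hu1, hu2⟩ : ∃ u : G, u • a₀ = b ∧ u • b = a₀ := by
        by_contra hne
        exact one_ne_zero (hpair.symm.trans (if_neg hne))
      refine hdisj c ⟨⟨g * u, ?_⟩, ?_⟩ (mem_orbit_self c)
      · rw [mem_stabilizer_iff, mul_smul, hu1, hg2]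
      · show (g * u) • b = c
        rw [mul_smul, hu2, hg1]
    intro x y
    exact congrFun (congrFun (hext R _ hRi hS rfl (by rw [hpair, hRb]) (by rw [hcb, hRc])) x) y
  -- the square of `R`
  set K := kmul R R with hK
  have hKi : InvKernel G K := hRi.kmul hRi
  have hRval : ∀ x y, R x y = 0 ∨ R x y = 1 := fun x y => by
    unfold R orbital; split_ifs <;> simp
  have hKint : ∀ x y, ∃ z : ℤ, K x y = z := fun x y => by
    choose z hz using orbital_eq_intCast (G := G) a₀ b
    exact ⟨∑ u, z x u * z u y, by simp [hK, kmul, hR, hz]⟩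
  have hKaa : K a₀ a₀ = k := by
    rw [← hrow]
    refine Finset.sum_congr rfl fun y _ => ?_
    rw [hsymm y a₀]
    rcases hRval a₀ y with h | h <;> rw [h] <;> ring
  obtain ⟨l, hl⟩ := hKint a₀ b
  obtain ⟨μ, hμ⟩ := hKint a₀ c
  set I : Ω → Ω → ℂ := fun x y => if x = y then 1 else 0 with hI
  have hIi : InvKernel G I := fun g x y => by simp [hI, smul_left_cancel_iff]
  have hKeq : K = fun x y => ((k : ℂ) - μ) * I x y + ((l : ℂ) - μ) * R x y + μ := by
    refine hext _ _ hKi (fun g x y => by simp only [hIi g x y, hRi g x y]) ?_ ?_ ?_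
    · rw [hKaa, show R a₀ a₀ = 0 from orbital_self_zero hba a₀]; simp [hI]
    · rw [hl, hRb]; simp [hI, hba.symm]
    · rw [hμ, hRc]; simp [hI, hca.symm]
  have hrel : ∀ χ : G → ℂ, IsIrrCharacter G χ → χ ≠ (fun _ => (1 : ℂ)) → classInner π χ = 1 →
      classInner (tau G R) χ ^ 2 = ((k : ℂ) - μ) + ((l : ℂ) - μ) * classInner (tau G R) χ := by
    intro χ hχ hne h1
    have hτ : tau G K = ((k : ℂ) - μ) • π + ((l : ℂ) - μ) • tau G R
        + ((μ : ℂ) * Fintype.card Ω) • (fun _ => (1 : ℂ)) := by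
      funext g
      have hIπ : tau G I g = π g := tau_one g
      rw [hKeq, Pi.add_apply, Pi.add_apply, Pi.smul_apply, Pi.smul_apply, Pi.smul_apply, ← hIπ]
      simp only [tau, smul_eq_mul, Finset.sum_add_distrib, ← Finset.mul_sum, Finset.sum_const,
        Finset.card_univ, nsmul_eq_mul]
      ring
    rw [sq, ← classInner_tau_kmul hRi hRi hχ h1, ← hK, hτ, classInner_add_left, classInner_add_left,
      classInner_smul_left, classInner_smul_left, classInner_smul_left, h1,
      classInner_eq_zero_of_ne isIrrCharacter_one hχ hne.symm]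
    ring
  set r := classInner (tau G R) χ₁ with hr
  set s := classInner (tau G R) χ₂ with hs
  have hsum3 : ∀ L : Ω → Ω → ℂ, InvKernel G L → ∑ x, L x x = classInner (tau G L) (fun _ => (1 : ℂ))
      + classInner (tau G L) χ₁ * ((m : ℂ) - 1) + classInner (tau G L) χ₂ * m := by
    intro L hL
    rw [sum_diag_eq (G := G) hL, ← Finset.sum_subset (Finset.subset_univ
      ({trivIrr G, ⟨χ₁, h₁⟩, ⟨χ₂, h₂⟩} : Finset (Cfsg.IrrCharacter G))) fun φ _ hφ => ?_]
    · rw [Finset.sum_insert, Finset.sum_insert, Finset.sum_singleton, trivIrr_apply, mul_one,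
        show ((⟨χ₁, h₁⟩ : Cfsg.IrrCharacter G) : G → ℂ) 1 = _ from hd₁,
        show ((⟨χ₂, h₂⟩ : Cfsg.IrrCharacter G) : G → ℂ) 1 = _ from hd₂, add_assoc]
      · rfl
      · simp [h12]
      · simp only [Finset.mem_insert, Finset.mem_singleton, not_or]
        exact ⟨fun e => hn1 (congrArg Subtype.val e).symm, fun e => hn2 (congrArg Subtype.val e).symm⟩
    · simp only [Finset.mem_insert, Finset.mem_singleton, not_or] at hφ
      rw [classInner_tau_eq_zero hL φ.2 (hothers φ φ.2 (fun e => hφ.1 (Subtype.ext e))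
        (fun e => hφ.2.1 (Subtype.ext e)) (fun e => hφ.2.2 (Subtype.ext e))), zero_mul]
  have htr1 : (k : ℂ) + r * ((m : ℂ) - 1) + s * m = 0 := by
    rw [← hone_R, ← hsum3 R hRi]
    exact Finset.sum_eq_zero fun x _ => orbital_self_zero hba x
  have htr2 : 2 * (m : ℂ) * k = (k : ℂ) * k + r * r * ((m : ℂ) - 1) + s * s * m := by
    have hd : ∀ x, K x x = k := fun x => by
      obtain ⟨g, rfl⟩ := exists_smul_eq G a₀ x
      rw [hKi, hKaa]
    have h := hsum3 K hKi
    rw [Finset.sum_congr rfl fun x _ => hd x, Finset.sum_const, Finset.card_univ, hm, nsmul_eq_mul,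
      classInner_tau_kmul hRi hRi h₁ hm1, classInner_tau_kmul hRi hRi h₂ hm2,
      classInner_tau_kmul hRi hRi isIrrCharacter_one hone, hone_R] at h
    push_cast at h
    exact h
  have hrs : r ≠ s := by
    intro e
    have hdvd : (2 * m - 1) ∣ k := by
      refine dvd_of_isIntegral_natCast_div (by omega) ?_
      convert (isIntegral_classInner_tau hRi (orbital_eq_intCast a₀ b) h₁).neg using 1
      rw [div_eq_iff (by exact_mod_cast (show 2 * m - 1 ≠ 0 by omega)), Nat.cast_sub (by omega)]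
      push_cast
      rw [← hr]
      linear_combination htr1 + (m : ℂ) * e
    have := Nat.le_of_dvd hkpos hdvd
    omega
  have ht : r + s = ((l - μ : ℤ) : ℂ) := by
    have e1 := hrel χ₁ h₁ hn1 hm1
    have e2 := hrel χ₂ h₂ hn2 hm2
    rw [← hr] at e1; rw [← hs] at e2
    apply mul_left_cancel₀ (sub_ne_zero.mpr hrs)
    push_cast
    linear_combination e1 - e2
  set t : ℤ := l - μ with htdef
  have hr' : r = (((k : ℤ) + m * t : ℤ) : ℂ) := by
    push_cast
    linear_combination -htr1 + (m : ℂ) * ht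
  have hs' : s = ((-(k : ℤ) - (m - 1) * t : ℤ) : ℂ) := by
    have hr'' := hr'
    push_cast at hr'' ⊢
    linear_combination ht - hr''
  rw [hr', hs'] at htr2
  have hZ : 2 * (m : ℤ) * k = k * k + (k + m * t) * (k + m * t) * (m - 1)
      + (-k - (m - 1) * t) * (-k - (m - 1) * t) * m := by exact_mod_cast htr2
  set S : ℤ := -(k : ℤ) - (m - 1) * t with hS
  have hmain : 2 * S * S + ((m : ℤ) - 1) * t * t = 2 * k := by
    have h2 : (m : ℤ) ≠ 0 := by omega
    apply mul_left_cancel₀ h2
    rw [hS]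
    linear_combination -hZ
  have hk2 : (2 : ℤ) ≤ k := by omega
  have hk3 : (k : ℤ) + 3 ≤ 2 * m := by omega
  have ht1 : t = -1 := by
    have hlt2 : t * t < 4 := by
      by_contra hh
      push Not at hh
      have := mul_le_mul_of_nonneg_left hh (by omega : (0 : ℤ) ≤ (m : ℤ) - 1)
      nlinarith [mul_self_nonneg S]
    have hlo : -1 ≤ t := by nlinarith
    have hhi : t ≤ 1 := by nlinarith
    interval_cases t
    · rfl
    · exfalso
      have : S = -(k : ℤ) := by rw [hS]; ring
      rw [this] at hmain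
      nlinarith
    · exfalso
      have : S = -((k : ℤ) + m - 1) := by rw [hS]; ring
      rw [this] at hmain
      nlinarith
  have hm' : (m : ℤ) = 2 * S * S + 2 * S + 1 := by
    have hSe : S = (m : ℤ) - 1 - k := by rw [hS, ht1]; ring
    rw [ht1] at hmain
    linarith [hSe]
  have hkS : (k : ℤ) = S * (2 * S + 1) := by
    have hSe : S = (m : ℤ) - 1 - k := by rw [hS, ht1]; ring
    linarith [hm']
  have hk'S : (k' : ℤ) = (S + 1) * (2 * S + 1) := by
    have : (k' : ℤ) = 2 * m - 1 - k := by omega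
    rw [this, hkS, hm']; ring
  have hfinish : ∃ a : ℕ, 0 < a ∧ m = 2 * a ^ 2 + 2 * a + 1 ∧
      (k = a * (2 * a + 1) ∨ k = (a + 1) * (2 * a + 1)) ∧
      (k' = a * (2 * a + 1) ∨ k' = (a + 1) * (2 * a + 1)) := by
    rcases le_or_gt 0 S with h0 | h0
    · obtain ⟨A, hA⟩ := Int.eq_ofNat_of_zero_le h0
      rw [hA] at hm' hkS hk'S
      refine ⟨A, ?_, ?_, Or.inl ?_, Or.inr ?_⟩
      · by_contra hA0
        obtain rfl : A = 0 := by omega
        simp at hkS; omega
      · exact_mod_cast (by rw [hm']; ring : (m : ℤ) = 2 * (A : ℤ) ^ 2 + 2 * A + 1)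
      · exact_mod_cast hkS
      · exact_mod_cast hk'S
    · obtain ⟨A, hA⟩ := Int.eq_ofNat_of_zero_le (by omega : 0 ≤ -S - 1)
      have hSA : S = -(A : ℤ) - 1 := by omega
      rw [hSA] at hm' hkS hk'S
      refine ⟨A, ?_, ?_, Or.inr ?_, Or.inl ?_⟩
      · by_contra hA0
        obtain rfl : A = 0 := by omega
        simp at hk'S; omega
      · exact_mod_cast (by rw [hm']; ring : (m : ℤ) = 2 * (A : ℤ) ^ 2 + 2 * A + 1)
      · exact_mod_cast (by rw [hkS]; ring : (k : ℤ) = ((A : ℤ) + 1) * (2 * A + 1))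
      · exact_mod_cast (by rw [hk'S]; ring : (k' : ℤ) = (A : ℤ) * (2 * A + 1))
  obtain ⟨A, hA, hmA, hkA, hk'A⟩ := hfinish
  refine ⟨A, hA, hmA, fun y hy => ?_⟩
  rcases hcls y with h | h | h
  · exact absurd h hy
  · rw [orbit_eq_iff.mpr h]; exact hkA
  · rw [orbit_eq_iff.mpr h]; exact hk'A

end Cfsg.Agent.S0719
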