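import Cfsg.Statements.S2761
import Cfsg.Prelude.Def_PLocal

set_option autoImplicit false
open Cfsg

namespace Cfsg.Agent.S2761

/-- The affine matrix of a permutation of the four points of the plane over two elements. -/
def mat (s : Equiv.Perm (Fin 4)) : Matrix (Fin 3) (Fin 3) (ZMod 2) :=
  let P : Fin 4 → Fin 3 → ZMod 2 := ![![0, 0, 1], ![1, 0, 1], ![0, 1, 1], ![1, 1, 1]]
  Matrix.of fun i j => (![P (s 1) i + P (s 0) i, P (s 2) i + P (s 0) i, P (s 0) i] : Fin 3 → ZMod 2) j

theorem det_mat : ∀ s, (mat s).det = 1 := by decide +kernel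

theorem mat_mul : ∀ s t, mat (s * t) = mat s * mat t := by decide +kernel

theorem mat_inj : ∀ s, mat s = 1 → s = 1 := by decide +kernel

theorem last_row : ∀ s, mat s 2 0 = 0 ∧ mat s 2 1 = 0 ∧ mat s 2 2 = 1 := by decide +kernel

theorem surj : ∀ a b c d e f : ZMod 2, a * e - b * d = 1 →
    ∃ s, mat s = !![a, b, c; d, e, f; 0, 0, 1] := by decide +kernel

theorem exists_hom : ∃ f : Equiv.Perm (Fin 4) →* Matrix.SpecialLinearGroup (Fin 3) (ZMod 2),
    f.range = Cfsg.qd 2 ∧ Function.Injective f := by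
  let g : Equiv.Perm (Fin 4) →* Matrix.SpecialLinearGroup (Fin 3) (ZMod 2) :=
    MonoidHom.mk' (fun s => ⟨mat s, det_mat s⟩) fun s t => Subtype.ext (mat_mul s t)
  refine ⟨g, le_antisymm ?_ ?_, ?_⟩
  · rintro _ ⟨s, rfl⟩
    exact Subgroup.subset_closure (last_row s)
  · rw [Cfsg.qd, Subgroup.closure_le]
    rintro ⟨M, hM⟩ ⟨h0, h1, h2⟩
    simp only at h0 h1 h2
    have hdet : M 0 0 * M 1 1 - M 0 1 * M 1 0 = 1 := by
      rw [Matrix.det_fin_three] at hM
      linear_combination hM + (M 0 2 * M 1 1 - M 0 1 * M 1 2) * h0 +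
        (M 0 0 * M 1 2 - M 0 2 * M 1 0) * h1 + (M 0 1 * M 1 0 - M 0 0 * M 1 1) * h2
    obtain ⟨s, hs⟩ := surj _ _ (M 0 2) _ _ (M 1 2) hdet
    refine ⟨s, Subtype.ext ?_⟩
    show mat s = M
    rw [hs]
    ext i j
    fin_cases i <;> fin_cases j <;> simp [h0, h1, h2]
  · exact (injective_iff_map_eq_one g).2 fun s hs => mat_inj s (congrArg Subtype.val hs)


/-- The group Qd(2), the natural semidirect product of an elementary abelian group of order 4 by SL₂(2) (realised as the affine subgroup of SL₃(2)), is isomorphic to the symmetric group of degree 4. -/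
theorem result : Nonempty (↥(Cfsg.qd 2) ≃* Equiv.Perm (Fin 4)) := by
  obtain ⟨f, hf, hinj⟩ := exists_hom
  exact ⟨((MonoidHom.ofInjective hinj).trans (MulEquiv.subgroupCongr hf)).symm⟩

end Cfsg.Agent.S2761
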