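import Cfsg.Statements.S5016
import Cfsg.Agent.Lib.RootGroups.RankOne
-- import your own Cfsg.Agent.* helpers here

set_option autoImplicit false
open Cfsg

namespace Cfsg.Agent.S5016

open CfsgLib.RootGroups
open scoped IsMulCommutative

/-- For any field k, the special linear group SL₂(k) is a special rank one group with abelian unipotent subgroups, the unipotent subgroups being the group of lower unitriangular matrices and the group of upper unitriangular matrices. -/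
theorem result (k : Type*) [Field k] :
    Cfsg.IsRankOneGroup (Matrix.SpecialLinearGroup (Fin 2) k) (Cfsg.lowerUnipotentSL2 k) (Cfsg.upperUnipotentSL2 k) ∧
    Cfsg.IsSpecialRankOnePair (Cfsg.lowerUnipotentSL2 k) (Cfsg.upperUnipotentSL2 k) ∧
    Cfsg.HasAbelianUnipotents (Cfsg.lowerUnipotentSL2 k) (Cfsg.upperUnipotentSL2 k) := by
  obtain ⟨L, hL⟩ : ∃ L : k → Matrix.SpecialLinearGroup (Fin 2) k,
      ∀ t, (L t : Matrix (Fin 2) (Fin 2) k) = !![1, 0; t, 1] :=
    ⟨fun t => ⟨!![1, 0; t, 1], by simp [Matrix.det_fin_two]⟩, fun _ => rfl⟩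
  obtain ⟨U, hU⟩ : ∃ U : k → Matrix.SpecialLinearGroup (Fin 2) k,
      ∀ t, (U t : Matrix (Fin 2) (Fin 2) k) = !![1, t; 0, 1] :=
    ⟨fun t => ⟨!![1, t; 0, 1], by simp [Matrix.det_fin_two]⟩, fun _ => rfl⟩
  -- identities are checked entrywise
  have hLadd : ∀ s t, L (s + t) = L s * L t := fun s t => Subtype.ext (by
    rw [Matrix.SpecialLinearGroup.coe_mul, hL, hL, hL]
    ext i j; fin_cases i <;> fin_cases j <;> simp [Matrix.mul_apply])
  have hUadd : ∀ s t, U (s + t) = U s * U t := fun s t => Subtype.ext (by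
    rw [Matrix.SpecialLinearGroup.coe_mul, hU, hU, hU]
    ext i j; fin_cases i <;> fin_cases j <;> simp [Matrix.mul_apply, add_comm])
  have hL0 : L 0 = 1 := Subtype.ext (by
    rw [hL, Matrix.SpecialLinearGroup.coe_one]; ext i j; fin_cases i <;> fin_cases j <;> simp)
  have hU0 : U 0 = 1 := Subtype.ext (by
    rw [hU, Matrix.SpecialLinearGroup.coe_one]; ext i j; fin_cases i <;> fin_cases j <;> simp)
  have hLinv : ∀ t, (L t)⁻¹ = L (-t) := fun t =>
    inv_eq_of_mul_eq_one_right (by rw [← hLadd, add_neg_cancel, hL0])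
  have hUinv : ∀ t, (U t)⁻¹ = U (-t) := fun t =>
    inv_eq_of_mul_eq_one_right (by rw [← hUadd, add_neg_cancel, hU0])
  have hAmem : ∀ g, g ∈ Cfsg.lowerUnipotentSL2 k ↔ ∃ t, g = L t := by
    intro g
    constructor
    · intro hg
      induction hg using Subgroup.closure_induction with
      | mem x hx =>
        refine ⟨(x : Matrix (Fin 2) (Fin 2) k) 1 0, Subtype.ext ?_⟩
        rw [hL]
        ext i j; fin_cases i <;> fin_cases j <;> simp [hx.1, hx.2.1, hx.2.2]
      | one => exact ⟨0, hL0.symm⟩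
      | mul x y _ _ hx hy =>
        obtain ⟨s, rfl⟩ := hx
        obtain ⟨t, rfl⟩ := hy
        exact ⟨s + t, (hLadd s t).symm⟩
      | inv x _ hx =>
        obtain ⟨s, rfl⟩ := hx
        exact ⟨-s, hLinv s⟩
    · rintro ⟨t, rfl⟩
      exact Subgroup.subset_closure (by simp [hL])
  have hBmem : ∀ g, g ∈ Cfsg.upperUnipotentSL2 k ↔ ∃ t, g = U t := by
    intro g
    constructor
    · intro hg
      induction hg using Subgroup.closure_induction with
      | mem x hx =>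
        refine ⟨(x : Matrix (Fin 2) (Fin 2) k) 0 1, Subtype.ext ?_⟩
        rw [hU]
        ext i j; fin_cases i <;> fin_cases j <;> simp [hx.1, hx.2.1, hx.2.2]
      | one => exact ⟨0, hU0.symm⟩
      | mul x y _ _ hx hy =>
        obtain ⟨s, rfl⟩ := hx
        obtain ⟨t, rfl⟩ := hy
        exact ⟨s + t, (hUadd s t).symm⟩
      | inv x _ hx =>
        obtain ⟨s, rfl⟩ := hx
        exact ⟨-s, hUinv s⟩
    · rintro ⟨t, rfl⟩
      exact Subgroup.subset_closure (by simp [hU])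
  -- the Weyl elements
  have hspec : ∀ t : k, t ≠ 0 → (U t⁻¹)⁻¹ * L t * U t⁻¹ = (L t)⁻¹ * (U t⁻¹)⁻¹ * L t := by
    intro t ht
    apply Subtype.ext
    rw [hUinv, hLinv]
    simp only [Matrix.SpecialLinearGroup.coe_mul, hL, hU]
    ext i j; fin_cases i <;> fin_cases j <;> simp [Matrix.mul_apply, ht] <;> field_simp <;> ring
  have hswap : ∀ t : k, t ≠ 0 → ∀ s : k,
      (L t * (U t⁻¹)⁻¹) * L s * (L t * (U t⁻¹)⁻¹)⁻¹ = U (-(s * t⁻¹ * t⁻¹)) := by
    intro t ht s
    rw [mul_inv_eq_iff_eq_mul, hUinv]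
    apply Subtype.ext
    simp only [Matrix.SpecialLinearGroup.coe_mul, hL, hU]
    ext i j; fin_cases i <;> fin_cases j <;> simp [Matrix.mul_apply, ht] <;> field_simp <;> ring
  have hconj : ∀ t : k, t ≠ 0 →
      Cfsg.conjBy (Cfsg.lowerUnipotentSL2 k) (U t⁻¹)⁻¹ =
        Cfsg.conjBy (Cfsg.upperUnipotentSL2 k) (L t)⁻¹ := by
    intro t ht
    rw [eq_comm, conjBy_eq_iff, inv_inv, conjBy_conjBy]
    ext g
    rw [mem_conjBy, hAmem, hBmem]
    constructor
    · rintro ⟨s, rfl⟩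
      refine ⟨-(s * t * t), ?_⟩
      have := hswap t ht (-(s * t * t))
      rw [show -(-(s * t * t) * t⁻¹ * t⁻¹) = s by field_simp] at this
      rw [← this]; group
    · rintro ⟨s, hs⟩
      refine ⟨-(s * t⁻¹ * t⁻¹), ?_⟩
      rw [← hswap t ht s, ← hs]; group
  have hne : Cfsg.lowerUnipotentSL2 k ≠ Cfsg.upperUnipotentSL2 k := by
    intro e
    obtain ⟨s, hs⟩ := (hBmem _).1 (e ▸ (hAmem (L 1)).2 ⟨1, rfl⟩)
    have := congrArg (fun g : Matrix.SpecialLinearGroup (Fin 2) k =>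
      (g : Matrix (Fin 2) (Fin 2) k) 1 0) hs
    simp [hL, hU] at this
  have hab : Cfsg.HasAbelianUnipotents (Cfsg.lowerUnipotentSL2 k) (Cfsg.upperUnipotentSL2 k) := by
    refine ⟨⟨⟨fun x y => Subtype.ext ?_⟩⟩, ⟨⟨fun x y => Subtype.ext ?_⟩⟩⟩
    · obtain ⟨s, hs⟩ := (hAmem _).1 x.2
      obtain ⟨t, ht⟩ := (hAmem _).1 y.2
      rw [Subgroup.coe_mul, Subgroup.coe_mul, hs, ht, ← hLadd, ← hLadd, add_comm]
    · obtain ⟨s, hs⟩ := (hBmem _).1 x.2
      obtain ⟨t, ht⟩ := (hBmem _).1 y.2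
      rw [Subgroup.coe_mul, Subgroup.coe_mul, hs, ht, ← hUadd, ← hUadd, add_comm]
  have hLne : ∀ t : k, L t ≠ 1 → t ≠ 0 := fun t h e => h (by rw [e, hL0])
  have hUne : ∀ t : k, U t ≠ 1 → t ≠ 0 := fun t h e => h (by rw [e, hU0])
  have hUne' : ∀ t : k, t ≠ 0 → U t ≠ 1 := by
    intro t ht e
    have := congrArg (fun g : Matrix.SpecialLinearGroup (Fin 2) k =>
      (g : Matrix (Fin 2) (Fin 2) k) 0 1) e
    simp [hU] at this
    exact ht this
  have hLne' : ∀ t : k, t ≠ 0 → L t ≠ 1 := by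
    intro t ht e
    have := congrArg (fun g : Matrix.SpecialLinearGroup (Fin 2) k =>
      (g : Matrix (Fin 2) (Fin 2) k) 1 0) e
    simp [hL] at this
    exact ht this
  haveI := hab.1
  haveI := hab.2
  have hpair : Cfsg.IsRankOnePair (Cfsg.lowerUnipotentSL2 k) (Cfsg.upperUnipotentSL2 k) := by
    refine ⟨hne, inferInstance, inferInstance, fun a ha ha1 => ?_, fun b hb hb1 => ?_⟩
    · obtain ⟨t, rfl⟩ := (hAmem _).1 ha
      exact ⟨U t⁻¹, (hBmem _).2 ⟨_, rfl⟩, hUne' _ (inv_ne_zero (hLne t ha1)),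
        hconj t (hLne t ha1)⟩
    · obtain ⟨t, rfl⟩ := (hBmem _).1 hb
      refine ⟨L t⁻¹, (hAmem _).2 ⟨_, rfl⟩, hLne' _ (inv_ne_zero (hUne t hb1)), ?_⟩
      have := (hconj t⁻¹ (inv_ne_zero (hUne t hb1))).symm
      rwa [inv_inv] at this
  refine ⟨⟨?_, hpair⟩, ⟨hpair, fun a ha ha1 b hb hb1 he => ?_⟩, hab⟩
  · rw [eq_top_iff]
    intro g _
    have hd := g.det_coe
    rw [Matrix.det_fin_two] at hd
    have hgen : ∀ g : Matrix.SpecialLinearGroup (Fin 2) k,
        (g : Matrix (Fin 2) (Fin 2) k) 1 0 ≠ 0 →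
          g ∈ Cfsg.lowerUnipotentSL2 k ⊔ Cfsg.upperUnipotentSL2 k := by
      intro g hc
      have hd := g.det_coe
      rw [Matrix.det_fin_two] at hd
      set a := (g : Matrix (Fin 2) (Fin 2) k) 0 0 with ha
      set b := (g : Matrix (Fin 2) (Fin 2) k) 0 1 with hb
      set c := (g : Matrix (Fin 2) (Fin 2) k) 1 0 with hc'
      set d := (g : Matrix (Fin 2) (Fin 2) k) 1 1 with hd'
      have : g = U ((a - 1) / c) * L c * U ((d - 1) / c) := by
        apply Subtype.ext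
        simp only [Matrix.SpecialLinearGroup.coe_mul, hL, hU]
        ext i j; fin_cases i <;> fin_cases j <;>
          simp [Matrix.mul_apply, ← ha, ← hb, ← hc', ← hd'] <;> field_simp
        · ring
        · linear_combination -hd
        · ring
      rw [this]
      exact Subgroup.mul_mem _ (Subgroup.mul_mem _ (Subgroup.mem_sup_right ((hBmem _).2 ⟨_, rfl⟩))
        (Subgroup.mem_sup_left ((hAmem _).2 ⟨_, rfl⟩)))
        (Subgroup.mem_sup_right ((hBmem _).2 ⟨_, rfl⟩))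
    by_cases hc : (g : Matrix (Fin 2) (Fin 2) k) 1 0 = 0
    · rw [hc, mul_zero, sub_zero] at hd
      have h1 : (((L 1) * g : Matrix.SpecialLinearGroup (Fin 2) k) :
          Matrix (Fin 2) (Fin 2) k) 1 0 ≠ 0 := by
        rw [Matrix.SpecialLinearGroup.coe_mul, hL]
        simp [Matrix.mul_apply, hc, left_ne_zero_of_mul_eq_one hd]
      have h2 := Subgroup.mul_mem _
        (Subgroup.mem_sup_left (T := Cfsg.upperUnipotentSL2 k)
          (Subgroup.inv_mem _ ((hAmem (L 1)).2 ⟨1, rfl⟩))) (hgen _ h1)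
      rwa [inv_mul_cancel_left] at h2
    · exact hgen g hc
  · obtain ⟨t, rfl⟩ := (hAmem _).1 ha
    have h1 : Paired (Cfsg.lowerUnipotentSL2 k) (Cfsg.upperUnipotentSL2 k) (L t) (U t⁻¹) :=
      ⟨ha, ha1, (hBmem _).2 ⟨_, rfl⟩, hUne' _ (inv_ne_zero (hLne t ha1)), hconj t (hLne t ha1)⟩
    rw [Paired.unique_right hpair ⟨ha, ha1, hb, hb1, he⟩ h1]
    exact hspec t (hLne t ha1)

end Cfsg.Agent.S5016
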