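import Cfsg.Statements.S5017
import Cfsg.Agent.Lib.RootGroups.RankOne
import Cfsg.Agent.Lib.Cores.Quasisimple
-- import your own Cfsg.Agent.* helpers here

set_option autoImplicit false
open Cfsg

namespace Cfsg.Agent.S5017

open CfsgLib.RootGroups

/-- Let X be a rank one group with unipotent subgroups A and B and N a normal subgroup of X. Then either X = N A or N lies in the centre of X. Consequently a perfect rank one group is quasisimple. -/
theorem result {X : Type*} [Group X] {A B : Subgroup X} (h : Cfsg.IsRankOneGroup X A B) :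
    (∀ N : Subgroup X, N.Normal → N ⊔ A = ⊤ ∨ N ≤ Subgroup.center X) ∧
    (Group.IsPerfect X → Cfsg.IsQuasisimple X) := by
  obtain ⟨hgen, hp⟩ := h
  have hdich : ∀ N : Subgroup X, N.Normal → N ⊔ A = ⊤ ∨ N ≤ Subgroup.center X := by
    intro N hN
    rcases normal_dichotomy hp (N := N) (by rw [hgen]; exact le_top)
      (fun x _ n hn => hN.conj_mem n hn x) with h1 | h1
    · exact Or.inl (top_le_iff.1 (hgen ▸ h1))
    · exact Or.inr fun n hn => Subgroup.mem_center_iff.2 fun x =>
        (h1 n hn x (hgen ▸ Subgroup.mem_top x)).eq.symm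
  refine ⟨hdich, fun hperf => ?_⟩
  haveI := hperf
  haveI : Nontrivial X := by
    obtain ⟨a, b, hab⟩ := exists_paired_pair hp
    exact ⟨⟨a, 1, hab.2.1⟩⟩
  refine CfsgLib.Cores.isQuasisimple_of_normal fun N hN hne => ?_
  refine (hdich N hN).resolve_left fun h1 => hne ?_
  haveI := hN
  -- the quotient is a perfect image of a nilpotent group
  have hsurj : Function.Surjective ((QuotientGroup.mk' N).comp A.subtype) := by
    intro q
    obtain ⟨x, rfl⟩ := QuotientGroup.mk_surjective q
    obtain ⟨n, hn, a, ha, rfl⟩ := Subgroup.mem_sup_of_normal_left.1 (h1 ▸ Subgroup.mem_top x)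
    exact ⟨⟨a, ha⟩, by simp [QuotientGroup.eq_one_iff n |>.2 hn]⟩
  haveI := hp.nilpotent_left
  have hnil : Group.IsNilpotent (X ⧸ N) := Group.nilpotent_of_surjective _ hsurj
  by_contra hne'
  haveI : Nontrivial (X ⧸ N) := QuotientGroup.nontrivial_iff.2 hne'
  exact Group.IsPerfect.not_isNilpotent (X ⧸ N) hnil

end Cfsg.Agent.S5017
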