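import Cfsg.Statements.S5032
import Cfsg.Agent.Lib.RootGroups.Connected
-- import your own Cfsg.Agent.* helpers here

set_option autoImplicit false
open Cfsg

namespace Cfsg.Agent.S5032

open CfsgLib.RootGroups

/-- Let S be a set of abstract root subgroups of G with more than one member. Then the graph of rank one pairs on S is connected if and only if S is a single conjugacy class of G and some member of S has a rank one partner in S. -/
theorem result {G : Type*} [Group G] {S : Set (Subgroup G)} (hS : Cfsg.IsRootSubgroupSet S) (h2 : ∃ A ∈ S, ∃ B ∈ S, A ≠ B) :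
    Cfsg.IsConnectedFamily (Cfsg.FAdj S) S ↔
      (Cfsg.IsConjClassOfSubgroups S ∧ ∃ A ∈ S, ¬ Cfsg.IsIsolatedIn (Cfsg.FAdj S) S A) := by
  constructor
  · intro hc
    obtain ⟨A, hA, B, hB, hne⟩ := h2
    refine ⟨⟨⟨A, hA⟩, fun C hC D hD => ?_⟩, A, hA, ?_⟩
    · have hr := hc C hC D hD
      induction hr with
      | refl => exact ⟨1, (conjBy_one C).symm⟩
      | tail _ hadj ih =>
        obtain ⟨g, rfl⟩ := ih hadj.1
        obtain ⟨y, -, hy⟩ := right_mem_unipotent hadj.2.2
        exact ⟨y * g, by rw [hy, conjBy_conjBy]⟩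
    · exact (not_isolated_iff hA).2 (exists_partner_of_reach (hc A hA B hB) hne.symm)
  · rintro ⟨⟨-, hclass⟩, A₀, hA₀, hni⟩
    obtain ⟨B₀, hB₀, hp₀⟩ := (not_isolated_iff hA₀).1 hni
    have hpartner : ∀ A ∈ S, ∃ A' ∈ S, Cfsg.IsRankOnePair A A' := by
      intro A hA
      obtain ⟨g, rfl⟩ := hclass A₀ hA₀ A hA
      exact ⟨_, hS.conj_mem B₀ hB₀ g, isRankOnePair_conjBy hp₀ g⟩
    -- every element of `G` keeps every member inside its component
    let P : Subgroup G :=
      { carrier := {g | ∀ C ∈ S, Relation.ReflTransGen (Cfsg.FAdj S) C (Cfsg.conjBy C g)}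
        one_mem' := fun C _ => by rw [conjBy_one]
        mul_mem' := by
          intro x y hx hy C hC
          rw [← conjBy_conjBy]
          exact (hy C hC).trans (hx _ (hS.conj_mem C hC y))
        inv_mem' := by
          intro x hx C hC
          have := hx _ (hS.conj_mem C hC x⁻¹)
          rw [conjBy_cancel_inv] at this
          exact fReach_symm this }
    have hP : (⊤ : Subgroup G) ≤ P := hS.generates ▸ iSup₂_le fun D hD d hd C hC => by
      obtain ⟨C', hC', hp⟩ := hpartner C hC
      exact reach_conjBy_rootElement hS hC hC' hp hD hd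
    intro A hA B hB
    obtain ⟨g, rfl⟩ := hclass A hA B hB
    exact hP (Subgroup.mem_top g) A hA

end Cfsg.Agent.S5032
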