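import Cfsg.Statements.S1078
import Cfsg.Agent.Lib.SteinbergPres.TrivialCenter

set_option autoImplicit false
open Cfsg

namespace Cfsg.Agent.S1078

/-- For G₂, F₄, E₈ the presented group has trivial centre (the universal and adjoint groups coincide). -/
theorem result {K : Type*} [Field K] (D : Cfsg.Lie.ChevalleyDatum) (hD : D ∈ [Cfsg.Lie.chevG2, Cfsg.Lie.chevF4, Cfsg.Lie.chevE8]) :
    Subgroup.center (D.SteinbergGroup K) = ⊥ := by
  have hD' : D ∈ [Cfsg.Lie.chevG2, Cfsg.Lie.chevB2, Cfsg.Lie.chevD4, Cfsg.Lie.chevF4, Cfsg.Lie.chevE6,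
      Cfsg.Lie.chevE7, Cfsg.Lie.chevE8] := by
    simp only [List.mem_cons, List.not_mem_nil, or_false] at hD ⊢
    tauto
  obtain ⟨A, h⟩ := CfsgLib.Chevalley.exists_full hD'
  simp only [List.mem_cons, List.not_mem_nil, or_false] at hD
  rcases hD with rfl | rfl | rfl
  exacts [CfsgLib.SteinbergPres.center_eq_bot h CfsgLib.SteinbergPres.invG2,
    CfsgLib.SteinbergPres.center_eq_bot h CfsgLib.SteinbergPres.invF4,
    CfsgLib.SteinbergPres.center_eq_bot h CfsgLib.SteinbergPres.invE8]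

end Cfsg.Agent.S1078
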