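import Cfsg.Statements.S1679
import Cfsg.Agent.Lib.SporRecognition.SuzG2.Matrices
import Cfsg.Agent.Lib.SporRecognition.Cert.SuzG24V.Lower
import Cfsg.Agent.Lib.OrderDegrees.G2Iso
import Cfsg.Agent.Lib.Chevalley.OrderG2
import Cfsg.Agent.S1694

set_option autoImplicit false
open Cfsg

namespace Cfsg.Agent.S1679

open CfsgLib.SporRecognition.CosetCert
open CfsgLib.SporRecognition.Cert
open CfsgLib.SporRecognition.SuzG2
open CfsgLib.OrderDegrees.G2 (G6 Ygl Ygl_mem Ygl_val)
open Cfsg.Spor.Suz (Gen)
open scoped Matrix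

abbrev RSuz : Set (FreeGroup Gen) := Cfsg.Spor.coxRelators Cfsg.Spor.Suz.edges ∪ {r | r ∈ Cfsg.Spor.Suz.extra}

abbrev P6 : Type := PresentedGroup R6

theorem lift_one_of_W6 {A : Type*} [Group A] (f : Gen → A) (h : ∀ w ∈ W6, evalW f w = 1) :
    ∀ r ∈ R6, FreeGroup.lift f r = 1 := by
  intro r hr
  obtain ⟨w, hw, rfl⟩ := List.mem_map.mp hr
  exact h w hw

theorem exists_word (x : P6) : ∃ w : List (Gen × Bool), x = evalW (PresentedGroup.of (rels := R6)) w := by
  obtain ⟨z, rfl⟩ := PresentedGroup.mk_surjective R6 x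
  refine ⟨z.toWord, ?_⟩
  have h2 : FreeGroup.lift (PresentedGroup.of (rels := R6)) = PresentedGroup.mk R6 :=
    FreeGroup.ext_hom _ _ fun a => FreeGroup.lift_apply_of
  rw [evalW, h2, FreeGroup.mk_toWord]

theorem map_evalW {A B : Type*} [Group A] [Group B] (φ : A →* B) (f : Gen → A) (w : List (Gen × Bool)) :
    φ (evalW f w) = evalW (fun a => φ (f a)) w := by
  simp only [evalW_eq_prod, map_list_prod, List.map_map]
  congr 1
  refine List.map_congr_left fun x _ => ?_
  rcases x with ⟨a, _ | _⟩ <;> simp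

/-- The generators in the six dimensional group. -/
noncomputable def gg (a : Gen) : G6 K4 :=
  ⟨((SuzG24V.rootW a).map fun rt => Ygl (F := K4) rt.1 (toK rt.2)).prod,
    list_prod_mem fun x hx => by
      obtain ⟨rt, -, rfl⟩ := List.mem_map.mp hx
      exact Ygl_mem _ _⟩

/-- The matrix of an element. -/
noncomputable def toMat : G6 K4 →* Matrix (Fin 6) (Fin 6) K4 := (Units.coeHom _).comp (G6 K4).subtype

theorem toMat_gg (a : Gen) : toMat (gg a) = mat a := by
  rw [← mat_eq_rootW a]
  show Units.coeHom _ (((SuzG24V.rootW a).map fun rt => Ygl (F := K4) rt.1 (toK rt.2)).prod) = _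
  rw [map_list_prod, List.map_map]
  rfl

theorem gg_inv (a : Gen) : (gg a)⁻¹ = gg a := by
  apply inv_eq_of_mul_eq_one_right
  refine Subtype.ext (Units.ext ?_)
  show toMat (gg a * gg a) = 1
  rw [map_mul, toMat_gg, mat_mul_self]

theorem evalW_gg (w : List (Gen × Bool)) (u : Nat) (hu : u < 4095) :
    toMat (evalW gg w) *ᵥ vec u = vec (trace (wordTabs SuzG24V.tabs w) u) := by
  induction w using List.reverseRecOn generalizing u with
  | nil => simp [evalW_eq_prod, wordTabs]
  | append_singleton w x ih =>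
    rcases x with ⟨a, b⟩
    have hb : SuzG24V.tabs a b = SuzG24V.tabs a true := by cases a <;> rfl
    have hx : toMat (evalW gg [(a, b)]) = mat a := by
      rcases b with _ | _ <;> simp [evalW_eq_prod, toMat_gg, gg_inv]
    rw [evalW_append, map_mul, ← Matrix.mulVec_mulVec, hx, vec_step a u hu,
      ih _ (SuzG24V.tablesOK a true u hu).1]
    simp [wordTabs, hb]

theorem rels_fix : ∀ w ∈ W6, ∀ u, u < 4095 → trace (wordTabs SuzG24V.tabs w) u = u := fun w hw u hu =>
  Nat.eq_of_beq_eq_true (List.all_eq_true.mp (allBelow_spec rels_ok u hu) w hw)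

theorem gg_rels : ∀ w ∈ W6, evalW gg w = 1 := by
  intro w hw
  refine Subtype.ext (Units.ext (eq_one_of_fix fun u hu => ?_))
  exact (evalW_gg w u hu).trans (congrArg vec (rels_fix w hw u hu))

/-- The representation. -/
noncomputable def rep : P6 →* G6 K4 := PresentedGroup.toGroup (lift_one_of_W6 gg gg_rels)

/-- The action on the vectors. -/
noncomputable def perm : P6 →* Equiv.Perm (Fin 4095) :=
  PresentedGroup.toGroup (lift_one_of_W6 (tabPerm SuzG24V.tablesOK)
    fun w hw => evalW_tabPerm_eq_one _ (rels_fix w hw))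

theorem perm_evalW (w : List (Gen × Bool)) (u : Fin 4095) :
    ((perm (evalW (PresentedGroup.of (rels := R6)) w) u : Fin 4095) : Nat) =
      trace (wordTabs SuzG24V.tabs w) u := by
  rw [map_evalW, show (fun a => perm (PresentedGroup.of a)) = tabPerm SuzG24V.tablesOK from
    funext fun a => PresentedGroup.toGroup.of _, evalW_tabPerm]

theorem rep_evalW (w : List (Gen × Bool)) : rep (evalW (PresentedGroup.of (rels := R6)) w) = evalW gg w := by
  rw [map_evalW, show (fun a => rep (PresentedGroup.of a)) = gg from funext fun a => PresentedGroup.toGroup.of _]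

theorem card_P6 : Finite P6 ∧ Nat.card P6 = 251596800 ∧ Function.Injective rep := by
  obtain ⟨hfin, hup⟩ := CfsgLib.SporRecognition.SuzG2.upper
  change Nat.card P6 ≤ 251596800 at hup
  haveI := hfin
  have hlow : 251596800 ≤ Nat.card perm.range := by
    refine SuzG24V.lower _ fun t ht => ?_
    obtain ⟨j, hj, rfl⟩ := List.getElem_of_mem ht
    have hj' : j < SuzG24V.seedW.length := hj
    refine ⟨_, ⟨evalW PresentedGroup.of SuzG24V.seedW[j], rfl⟩, fun u => ?_⟩
    rw [perm_evalW, ← (SuzG24V.seed_ok j hj' u u.2).1, sel_eq, List.getElem?_eq_getElem hj]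
    rfl
  have hle : Nat.card perm.range ≤ Nat.card P6 := Nat.le_of_dvd Nat.card_pos (Subgroup.card_range_dvd perm)
  have hcard : Nat.card P6 = 251596800 := le_antisymm hup (hlow.trans hle)
  have hinj : Function.Injective perm := by
    have hb : Function.Bijective perm.rangeRestrict :=
      (Nat.bijective_iff_surjective_and_card _).mpr ⟨perm.rangeRestrict_surjective, by omega⟩
    intro x y h
    exact hb.injective (Subtype.ext h)
  refine ⟨hfin, hcard, ?_⟩
  rw [← MonoidHom.ker_eq_bot_iff, eq_bot_iff]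
  intro x hx
  obtain ⟨w, rfl⟩ := exists_word x
  rw [MonoidHom.mem_ker, rep_evalW] at hx
  rw [Subgroup.mem_bot]
  apply hinj
  rw [map_one]
  refine Equiv.ext fun u => Fin.ext ?_
  rw [perm_evalW, Equiv.Perm.one_apply]
  refine vec_injective (trace_lt SuzG24V.tablesOK w u u.2) u.2 ?_
  rw [← evalW_gg w u u.2, hx, map_one, Matrix.one_mulVec]

theorem card_G6 : Nat.card (G6 K4) = 251596800 := by
  obtain ⟨e⟩ := CfsgLib.OrderDegrees.G2.nonempty_equiv (F := K4)
  have h := CfsgLib.Chevalley.cardG2 (F := K4)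
  rw [K4.card] at h
  rw [Nat.card_congr e.toEquiv]
  norm_num [Cfsg.Lie.chevG2] at h ⊢
  omega

/-- The subgroup of Suz on `a, …, f`. -/
abbrev H : Subgroup (PresentedGroup RSuz) := wordSubgroup RSuz Suz1782.subW

theorem subW_eq : Suz1782.subW = ([.a, .b, .c, .d, .e, .f] : List Gen).map fun a => [(a, true)] := by
  decide +kernel

theorem gen_mem (a : Gen) (ha : a ≠ .g) : PresentedGroup.of (rels := RSuz) a ∈ H := by
  refine Subgroup.subset_closure (List.mem_map.mpr ⟨[(a, true)], ?_, by simp [evalW_eq_prod]⟩)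
  rw [subW_eq]
  exact List.mem_map.mpr ⟨a, by cases a <;> first | exact absurd rfl ha | decide, rfl⟩

/-- The generators inside `H`. -/
def gh (a : Gen) : H := if ha : a = .g then 1 else ⟨PresentedGroup.of a, gen_mem a ha⟩

theorem coe_evalW_gh (w : List (Gen × Bool)) (hw : (w.all fun x => decide (x.1 ≠ Gen.g)) = true) :
    ((evalW gh w : H) : PresentedGroup RSuz) = evalW PresentedGroup.of w := by
  simp only [List.all_eq_true, decide_eq_true_eq] at hw
  rw [evalW_eq_prod, evalW_eq_prod, ← Subgroup.coe_subtype, map_list_prod, List.map_map]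
  congr 1
  refine List.map_congr_left fun x hx => ?_
  have h := hw x hx
  rcases x with ⟨a, _ | _⟩ <;> simp [gh, show a ≠ Gen.g from h]

theorem gh_rels : ∀ w ∈ W6, evalW gh w = 1 := by
  intro w hw
  rcases List.mem_append.mp hw with hw | hw
  · obtain ⟨h1, h2⟩ := List.mem_filter.mp hw
    refine Subtype.ext ?_
    rw [coe_evalW_gh w h2, SuzG416.relW_one w h1]
    rfl
  · simp only [List.mem_cons, List.not_mem_nil, or_false] at hw
    rcases hw with rfl | rfl <;> simp [evalW_eq_prod, gh]

/-- The map onto `H`. -/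
def toH : P6 →* H := PresentedGroup.toGroup (lift_one_of_W6 gh gh_rels)

theorem toH_surjective : Function.Surjective toH := by
  rw [← MonoidHom.range_eq_top]
  apply Subgroup.map_injective H.subtype_injective
  rw [← MonoidHom.range_eq_map, Subgroup.range_subtype]
  refine le_antisymm (Subgroup.map_subtype_le _) ?_
  show Subgroup.closure _ ≤ _
  rw [Subgroup.closure_le]
  intro y hy
  obtain ⟨w, hw, rfl⟩ := List.mem_map.mp hy
  rw [subW_eq] at hw
  obtain ⟨a, ha, rfl⟩ := List.mem_map.mp hw
  have ha' : a ≠ Gen.g := by rintro rfl; exact absurd ha (by decide)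
  refine ⟨toH (PresentedGroup.of a), ⟨_, rfl⟩, ?_⟩
  rw [show toH (PresentedGroup.of a) = gh a from PresentedGroup.toGroup.of _]
  simp [gh, ha', evalW_eq_prod]

theorem card_H : Nat.card H = 251596800 := by
  have h1 := H.card_mul_index
  have hi : H.index = 1782 := Suz1782.certified.index_eq
  rw [hi, (Cfsg.Agent.S1694.result).2, show (448345497600 : ℕ) = 251596800 * 1782 by norm_num] at h1
  exact Nat.eq_of_mul_eq_mul_right (by norm_num) h1

/-- In the presented sporadic Suzuki group (generators a, …, g), the subgroup generated by the images of a, …, f is isomorphic to the adjoint Chevalley group of type G₂ over a field with four elements. -/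
theorem result : ∃ (K : Type) (_ : Field K) (_ : Fintype K), Fintype.card K = 4 ∧ Nonempty ((((Subgroup.closure ({Cfsg.Spor.Suz.a, Cfsg.Spor.Suz.b, Cfsg.Spor.Suz.c, Cfsg.Spor.Suz.d, Cfsg.Spor.Suz.e, Cfsg.Spor.Suz.f} : Set (FreeGroup Cfsg.Spor.Suz.Gen))).map (PresentedGroup.mk (Cfsg.Spor.coxRelators Cfsg.Spor.Suz.edges ∪ {r | r ∈ Cfsg.Spor.Suz.extra})))) ≃* Cfsg.Lie.chevG2.group K) := by
  rw [map_closure_eq_wordSubgroup _ Suz1782.subW
    (by ext r; simp only [Suz1782.subW, List.map_cons, List.map_nil, List.mem_cons, List.not_mem_nil,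
          Set.mem_insert_iff, Set.mem_singleton_iff, Set.mem_ofPred_eq, or_false]; rfl)]
  obtain ⟨hfin, hc, hinj⟩ := card_P6
  haveI := hfin
  obtain ⟨e⟩ := CfsgLib.OrderDegrees.G2.nonempty_equiv (F := K4)
  have hH : Function.Bijective toH :=
    (Nat.bijective_iff_surjective_and_card _).mpr ⟨toH_surjective, by rw [hc, card_H]⟩
  have hr : Function.Bijective rep :=
    (Nat.bijective_iff_injective_and_card _).mpr ⟨hinj, by rw [hc, card_G6]⟩
  exact ⟨K4, inferInstance, inferInstance, K4.card,
    ⟨(MulEquiv.ofBijective toH hH).symm.trans ((MulEquiv.ofBijective rep hr).trans e)⟩⟩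

end Cfsg.Agent.S1679
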