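import Cfsg.Statements.S0007
import Mathlib
-- import your own Cfsg.Agent.* helpers here

set_option autoImplicit false
open Cfsg

namespace Cfsg.Agent.S0007

/-- Subgroups of coprime index: the intersection has index equal to the product of the indices, and every element is a product of an element of the first subgroup and an element of the second. -/
theorem result {G : Type*} [Group G] [Finite G] (H K : Subgroup G)
    (h : H.index.Coprime K.index) :
    (H ⊓ K).index = H.index * K.index ∧ ∀ g : G, ∃ x ∈ H, ∃ y ∈ K, g = x * y := by
  have e : (H ⊓ K).index = H.index * K.index := by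
    apply le_antisymm Subgroup.index_inf_le
    apply Nat.le_of_dvd (Nat.pos_of_ne_zero (Subgroup.index_inf_ne_zero Subgroup.index_ne_zero_of_finite Subgroup.index_ne_zero_of_finite))
    exact h.mul_dvd_of_dvd_of_dvd (Subgroup.index_dvd_of_le inf_le_left) (Subgroup.index_dvd_of_le inf_le_right)
  refine ⟨e, fun g => ?_⟩
  haveI : Fintype G := Fintype.ofFinite G
  have hr : H.relIndex K = H.index := by
    have := Subgroup.relIndex_mul_index (inf_le_right : H ⊓ K ≤ K)
    rw [e, Subgroup.inf_relIndex_right] at this
    exact Nat.eq_of_mul_eq_mul_right (Nat.pos_of_ne_zero Subgroup.index_ne_zero_of_finite) this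
  let f : K ⧸ H.subgroupOf K → G ⧸ H := Quotient.map' (fun y : K => (y : G)) (by
    intro a b hab
    rw [QuotientGroup.leftRel_apply] at hab ⊢
    simpa [Subgroup.mem_subgroupOf] using hab)
  have hf : Function.Injective f := by
    intro a b
    induction a using QuotientGroup.induction_on with | _ a => ?_
    induction b using QuotientGroup.induction_on with | _ b => ?_
    intro hab
    have := QuotientGroup.eq.1 (show ((a : G) : G ⧸ H) = ((b : G) : G ⧸ H) from hab)
    exact QuotientGroup.eq.2 (by simpa [Subgroup.mem_subgroupOf] using this)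
  have hb := Function.Injective.bijective_of_nat_card_le hf (le_of_eq (show H.index = Nat.card (K ⧸ H.subgroupOf K) from hr.symm))
  obtain ⟨y, hy⟩ := hb.2 ((g⁻¹ : G) : G ⧸ H)
  induction y using QuotientGroup.induction_on with | _ y => ?_
  have := QuotientGroup.eq.1 (show (((y : G)) : G ⧸ H) = ((g⁻¹ : G) : G ⧸ H) from hy)
  exact ⟨((y : G)⁻¹ * g⁻¹)⁻¹, H.inv_mem this, (y : G)⁻¹, K.inv_mem y.2, by group⟩
end Cfsg.Agent.S0007
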