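import Cfsg.Statements.S0009
import Cfsg.Agent.Lib.Cores.Fitting

set_option autoImplicit false
open Cfsg

namespace Cfsg.Agent.S0009

/-- The Fitting subgroup of a finite group is generated by the p-cores, p ranging over the primes. -/
theorem result {G : Type*} [Group G] [Finite G] :
    Cfsg.fittingSubgroup G = ⨆ p : Nat.Primes, Cfsg.pCore (p : ℕ) G := by
  refine le_antisymm ?_ (iSup_le fun p => ?_)
  · rw [CfsgLib.Cores.fittingSubgroup_eq_iSup_pCore]
    exact iSup_le fun q => le_iSup (fun p : Nat.Primes => Cfsg.pCore (p : ℕ) G)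
      ⟨(q : ℕ), Nat.prime_of_mem_primeFactors q.2⟩
  · haveI : Fact (Nat.Prime (p : ℕ)) := ⟨p.2⟩
    exact CfsgLib.Cores.pCore_le_fittingSubgroup (p : ℕ)

end Cfsg.Agent.S0009
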