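import Cfsg.Statements.S0011


set_option autoImplicit false
open Cfsg

namespace Cfsg.Agent.S0011

/-- If the Frattini quotient of a finite group is nilpotent then the group is nilpotent. -/
theorem result {G : Type*} [Group G] [Finite G]
    (h : Group.IsNilpotent (G ⧸ frattini G)) : Group.IsNilpotent G := by
  have q0 := (Group.isNilpotent_of_finite_tfae (G := G)).out 0 3
  refine q0.mpr ?_
  intro p hp P
  haveI := hp
  haveI : Finite (Sylow p G) := inferInstance
  let q : G →* G ⧸ frattini G := QuotientGroup.mk' _
  have hq : Function.Surjective q := QuotientGroup.mk'_surjective _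
  have q' := (Group.isNilpotent_of_finite_tfae (G := G ⧸ frattini G)).out 0 3
  have hn : ((P.mapSurjective hq : Sylow p (G ⧸ frattini G)) : Subgroup (G ⧸ frattini G)).Normal :=
    q'.mp h p hp _
  let N : Subgroup G := ((P : Subgroup G).map q).comap q
  haveI : N.Normal := by
    haveI : ((P : Subgroup G).map q).Normal := hn
    infer_instance
  have h1 := Sylow.normalizer_sup_eq_top' (N := N) P (Subgroup.le_comap_map _ _)
  have hN : N = (P : Subgroup G) ⊔ frattini G := by
    rw [show N = ((P : Subgroup G).map q).comap q from rfl, Subgroup.comap_map_eq, QuotientGroup.ker_mk']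
  rw [hN] at h1
  have hle : (P : Subgroup G) ≤ Subgroup.normalizer ((P : Subgroup G) : Set G) := Subgroup.le_normalizer
  rw [← sup_assoc] at h1
  have h2 : Subgroup.normalizer ((P : Subgroup G) : Set G) ⊔ frattini G = ⊤ :=
    top_le_iff.mp (h1.ge.trans (sup_le (sup_le le_sup_left (hle.trans le_sup_left)) le_sup_right))
  exact Subgroup.normalizer_eq_top_iff.mp (frattini_nongenerating h2)

end Cfsg.Agent.S0011
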