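import Cfsg.Statements.S0014
import Cfsg.Agent.Lib.PGroups.Frattini

set_option autoImplicit false
open Cfsg

namespace Cfsg.Agent.S0014

/-- Burnside's basis Theorem: in a finite p-group whose Frattini quotient has order p ^ n, every generating set contains n elements that already generate, and no set with fewer than n elements generates. -/
theorem result {G : Type*} [Group G] [Finite G] (p n : ℕ) [Fact p.Prime]
    (hG : IsPGroup p G) (hn : (frattini G).index = p ^ n) :
    (∀ S : Finset G, Subgroup.closure (S : Set G) = ⊤ → ∃ T : Finset G, T ⊆ S ∧ T.card = n ∧ Subgroup.closure (T : Set G) = ⊤) ∧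
    (∀ T : Finset G, Subgroup.closure (T : Set G) = ⊤ → n ≤ T.card) := by
  have key : ∀ S : Finset G, ∃ T : Finset G, T ⊆ S ∧
      frattini G ⊔ Subgroup.closure (T : Set G) = frattini G ⊔ Subgroup.closure (S : Set G) ∧
      (frattini G ⊔ Subgroup.closure (T : Set G)).index * p ^ T.card = p ^ n := by
    classical
    intro S
    induction S using Finset.induction with
    | empty => exact ⟨∅, le_rfl, rfl, by simp [hn]⟩
    | @insert y S _ ih =>
      obtain ⟨T, hTS, hTeq, hidx⟩ := ih
      let H : Subgroup G := frattini G ⊔ Subgroup.closure (T : Set G)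
      have hins : ∀ U : Finset G, frattini G ⊔ Subgroup.closure ((insert y U : Finset G) : Set G) =
          (frattini G ⊔ Subgroup.closure (U : Set G)) ⊔ Subgroup.zpowers y := by
        intro U
        rw [Finset.coe_insert, Set.insert_eq, Subgroup.closure_union, ← Subgroup.zpowers_eq_closure,
          sup_comm (Subgroup.zpowers y), sup_assoc]
      by_cases hy : y ∈ H
      · refine ⟨T, hTS.trans (Finset.subset_insert _ _), ?_, hidx⟩
        rw [hins, ← hTeq]
        exact (sup_eq_left.mpr (Subgroup.zpowers_le.mpr hy)).symm
      · refine ⟨insert y T, Finset.insert_subset_insert _ hTS, by rw [hins, hins, hTeq], ?_⟩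
        have hc : commutator G ≤ H :=
          (CfsgLib.PGroups.commutator_le_frattini hG).trans le_sup_left
        have hpow : y ^ p ∈ H := Subgroup.mem_sup_left (CfsgLib.PGroups.pow_mem_frattini hG y)
        haveI : H.Normal := Subgroup.commutator_top_right_le_iff.1
          ((Subgroup.commutator_mono le_top le_rfl).trans hc)
        have hord : orderOf (QuotientGroup.mk' H y) = p :=
          orderOf_eq_prime (by rw [← map_pow]; exact (QuotientGroup.eq_one_iff _).2 hpow)
            fun h => hy ((QuotientGroup.eq_one_iff _).1 h)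
        rw [← Nat.card_zpowers, ← MonoidHom.map_zpowers, ← Subgroup.relIndex_bot_left,
          ← Subgroup.relIndex_comap, MonoidHom.comap_bot, QuotientGroup.ker_mk',
          ← Subgroup.relIndex_sup_right, sup_comm] at hord
        have hmul := Subgroup.relIndex_mul_index (le_sup_left : H ≤ H ⊔ Subgroup.zpowers y)
        rw [hord] at hmul
        have hyT : y ∉ T := fun hm => hy (Subgroup.mem_sup_right (Subgroup.subset_closure hm))
        rw [hins, Finset.card_insert_of_notMem hyT, pow_succ', ← mul_assoc,
          mul_comm (H ⊔ Subgroup.zpowers y).index, hmul, hidx]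
  have hp1 := (Fact.out : p.Prime).one_lt
  have main : ∀ S : Finset G, Subgroup.closure (S : Set G) = ⊤ →
      ∃ T : Finset G, T ⊆ S ∧ T.card = n ∧ Subgroup.closure (T : Set G) = ⊤ := by
    intro S hS
    obtain ⟨T, hTS, hTeq, hidx⟩ := key S
    rw [hS, sup_top_eq] at hTeq
    rw [hTeq, Subgroup.index_top, one_mul] at hidx
    exact ⟨T, hTS, Nat.pow_right_injective hp1 hidx, frattini_nongenerating (by rwa [sup_comm])⟩
  refine ⟨main, fun T hT => ?_⟩
  obtain ⟨T', hT', hc, -⟩ := main T hT
  exact hc ▸ Finset.card_le_card hT' 

end Cfsg.Agent.S0014
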