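import Cfsg.Statements.S0029
import Cfsg.Agent.Lib.CoprimeAction.Basic

set_option autoImplicit false
open Cfsg

namespace Cfsg.Agent.S0029

/-- An action that is trivial on the Frattini quotient and coprime on the Frattini subgroup is trivial: if A normalises K, the orders of A and of the Frattini subgroup of K are coprime, and every commutator of an element of A with an element of K lies in the Frattini subgroup of K, then A centralises K. -/
theorem result {G : Type*} [Group G] [Finite G] (A K : Subgroup G)
    (hAK : A ≤ Subgroup.normalizer (K : Set G))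
    (hcop : (Nat.card A).Coprime (Nat.card (frattini K)))
    (htriv : ∀ a ∈ A, ∀ k ∈ K, a * k * a⁻¹ * k⁻¹ ∈ (frattini K).map K.subtype) :
    A ≤ Subgroup.centralizer (K : Set G) := by
  refine CfsgLib.CoprimeAction.le_centralizer_of_frattini hAK hcop fun a ha k hk => ?_
  have hn : K ≤ Subgroup.normalizer (((frattini K).map K.subtype : Subgroup G) : Set G) := by
    intro x hx
    refine CfsgLib.CoprimeAction.mem_normalizer_of_conj_mem ?_
    rintro _ ⟨y, hy, rfl⟩
    exact ⟨⟨x, hx⟩ * y * ⟨x, hx⟩⁻¹, (inferInstance : (frattini K).Normal).conj_mem y hy _, rfl⟩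
  have h := CfsgLib.CoprimeAction.conj_mem' (hn hk) (htriv a ha k hk)
  simpa [mul_assoc] using h

end Cfsg.Agent.S0029
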