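import Cfsg.Statements.S0031


set_option autoImplicit false
open Cfsg

open scoped Pointwise

namespace Cfsg.Agent.S0031

/-- A fixed-point-free automorphism of a finite group maps some Sylow p-subgroup to itself. -/
theorem result {G : Type*} [Group G] [Finite G] (φ : G ≃* G)
    (hφ : MonoidHom.FixedPointFree (φ : G →* G)) (p : ℕ) [Fact p.Prime] :
    ∃ P : Sylow p G, (P : Subgroup G).map (φ : G →* G) = P := by
  obtain ⟨P⟩ := (inferInstance : Nonempty (Sylow p G))
  obtain ⟨g, hg⟩ := MulAction.exists_smul_eq G P (P.mapSurjective (f := (φ : G →* G)) φ.surjective)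
  have h1 : (P : Subgroup G).map (φ : G →* G) = MulAut.conj g • (P : Subgroup G) := by
    have h := congrArg (fun Q : Sylow p G => (Q : Subgroup G)) hg
    rw [Sylow.coe_subgroup_smul] at h
    exact h.symm
  obtain ⟨y, hy⟩ := MonoidHom.FixedPointFree.commutatorMap_surjective hφ (g⁻¹)
  obtain ⟨x, hx⟩ : ∃ x, φ x * g = x := ⟨y⁻¹, by
    have hy' : g = φ y * y⁻¹ := by
      rw [← inv_inv g, ← hy]
      simp [div_eq_mul_inv]
    rw [hy', map_inv, inv_mul_cancel_left]⟩
  refine ⟨x • P, ?_⟩
  rw [Sylow.coe_subgroup_smul]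
  calc (MulAut.conj x • (P : Subgroup G)).map (φ : G →* G)
      = MulAut.conj (φ x) • ((P : Subgroup G).map (φ : G →* G)) := by
        rw [show (MulAut.conj x • (P : Subgroup G)) = (P : Subgroup G).map (MulAut.conj x).toMonoidHom from rfl,
          show (MulAut.conj (φ x) • ((P : Subgroup G).map (φ : G →* G))) =
            ((P : Subgroup G).map (φ : G →* G)).map (MulAut.conj (φ x)).toMonoidHom from rfl,
          Subgroup.map_map, Subgroup.map_map]
        congr 1
        ext z
        simp
    _ = MulAut.conj (φ x * g) • (P : Subgroup G) := by rw [h1, ← mul_smul, map_mul]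
    _ = MulAut.conj x • (P : Subgroup G) := by rw [hx]

end Cfsg.Agent.S0031
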