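import Cfsg.Statements.S0032


set_option autoImplicit false
open Cfsg

namespace Cfsg.Agent.S0032

/-- If an automorphism of a finite group fixes only the identity and maps a normal subgroup N into itself, then the only cosets of N it fixes are those in N: a fixed coset xN forces x ∈ N. -/
theorem result {G : Type*} [Group G] [Finite G] (φ : G ≃* G)
    (hφ : MonoidHom.FixedPointFree (φ : G →* G)) (N : Subgroup G) [N.Normal] (hN : ∀ n ∈ N, φ n ∈ N)
    (x : G) (hx : (φ x)⁻¹ * x ∈ N) : x ∈ N := by
  let ψ : N →* N := ((φ : G →* G).comp N.subtype).codRestrict N fun n => hN n n.2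
  have hψ : MonoidHom.FixedPointFree ψ := fun g hg => Subtype.ext (hφ g (congrArg Subtype.val hg))
  obtain ⟨m, hm⟩ := MonoidHom.FixedPointFree.commutatorMap_surjective hψ
    ⟨x * ((φ x)⁻¹ * x) * x⁻¹, (inferInstance : N.Normal).conj_mem _ hx x⟩
  have hm' : (m : G) * (φ m)⁻¹ = x * (φ x)⁻¹ := by
    have h := congrArg Subtype.val hm
    simp only [MonoidHom.commutatorMap_apply, div_eq_mul_inv, Subgroup.coe_mul, Subgroup.coe_inv] at h
    rw [show ((ψ m : N) : G) = φ m from rfl] at h
    rw [h]
    group
  have : x = m := by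
    refine MonoidHom.FixedPointFree.commutatorMap_injective hφ ?_
    simpa [div_eq_mul_inv] using hm'.symm
  exact this ▸ m.2

end Cfsg.Agent.S0032
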