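import Cfsg.Statements.S0036
import Cfsg.Agent.Lib.Frobenius.Basic
-- import your own Cfsg.Agent.* helpers here

set_option autoImplicit false
open Cfsg

namespace Cfsg.Agent.S0036

/-- When a Frobenius complement contains an involution, an elementary argument shows the Frobenius kernel is closed under multiplication (hence a subgroup). -/
theorem result {G : Type*} [Group G] [Finite G] (H : Subgroup G) (hH : Cfsg.IsFrobeniusComplement H)
    (t : G) (ht : t ∈ H) (ht1 : t ≠ 1) (ht2 : t * t = 1) :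
    ∀ x ∈ Cfsg.frobeniusKernel H, ∀ y ∈ Cfsg.frobeniusKernel H, x * y ∈ Cfsg.frobeniusKernel H := by
  have hbot : ∀ {x : G}, x ∈ H → x ∈ Cfsg.frobeniusKernel H → x = 1 := fun hx hk =>
    CfsgLib.Frobenius.eq_one_of_mem_kernel_of_mem hk hx
  have htinv : t⁻¹ = t := inv_eq_of_mul_eq_one_right ht2
  -- a product of `t` with a conjugate outside `H` is in the kernel
  have hker : ∀ g : G, g ∉ H → t * (g * t * g⁻¹) ∈ Cfsg.frobeniusKernel H := by
    intro g hg
    set u := g * t * g⁻¹ with hu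
    have hu2 : u * u = 1 := by
      rw [hu]
      calc g * t * g⁻¹ * (g * t * g⁻¹) = g * (t * t) * g⁻¹ := by group
        _ = 1 := by rw [ht2]; group
    have huinv : u⁻¹ = u := inv_eq_of_mul_eq_one_right hu2
    have huH : u ∉ H := fun h => hg (CfsgLib.Frobenius.mem_of_conj_mem hH ht ht1 h)
    by_cases hd : t * u = 1
    · exact Or.inl hd
    refine Or.inr fun c hc => ?_
    rw [CfsgLib.Frobenius.mem_conj_smul] at hc
    have hd1 : c⁻¹ * (t * u) * c ≠ 1 := fun h => hd (by
      calc t * u = c * (c⁻¹ * (t * u) * c) * c⁻¹ := by group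
        _ = 1 := by rw [h]; group)
    have htm : c⁻¹ * t * c ∈ H := by
      refine CfsgLib.Frobenius.mem_of_conj_mem hH hc hd1 ?_
      have h3 : c⁻¹ * t * c * (c⁻¹ * (t * u) * c) * (c⁻¹ * t * c)⁻¹
          = (c⁻¹ * (t * u) * c)⁻¹ := by
        simp only [mul_inv_rev, inv_inv, htinv, huinv]
        calc c⁻¹ * t * c * (c⁻¹ * (t * u) * c) * (c⁻¹ * (t * c))
            = c⁻¹ * ((t * t) * (u * t)) * c := by group
          _ = c⁻¹ * ((u * t) * c) := by rw [ht2, one_mul, mul_assoc]
      rw [h3]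
      exact H.inv_mem hc
    have hcH : c ∈ H := CfsgLib.Frobenius.mem_of_inter_conj hH ht ht1 htm
    have h4 : t * u ∈ H := by
      have := H.mul_mem (H.mul_mem hcH hc) (H.inv_mem hcH)
      simpa [mul_assoc] using this
    exact huH ((H.mul_mem_cancel_left ht).1 h4)
  -- every kernel element is such a product
  have hall : ∀ x ∈ Cfsg.frobeniusKernel H, x = 1 ∨ ∃ g : G, x = t * (g * t * g⁻¹) := by
    classical
    let f : G ⧸ H → Cfsg.frobeniusKernel H := fun q =>
      if hq : q.out ∈ H then ⟨1, Or.inl rfl⟩ else ⟨t * (q.out * t * q.out⁻¹), hker _ hq⟩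
    have hinj : Function.Injective f := by
      intro q r he
      have key : ∀ q : G ⧸ H, q.out ∈ H → q = ((1 : G) : G ⧸ H) := fun q hq => by
        conv_lhs => rw [← QuotientGroup.out_eq' q]
        rw [QuotientGroup.eq]
        simpa using H.inv_mem hq
      have hne : ∀ q : G ⧸ H, q.out ∉ H → t * (q.out * t * q.out⁻¹) ≠ 1 := fun q hq h1 =>
        hq (CfsgLib.Frobenius.mem_of_conj_mem hH ht ht1
          (by rw [(inv_eq_of_mul_eq_one_right h1).symm, htinv]; exact ht))
      by_cases hq : q.out ∈ H <;> by_cases hr : r.out ∈ H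
      · rw [key q hq, key r hr]
      · have := congrArg Subtype.val he
        simp [f, hq, hr] at this
        exact absurd this (by simpa [mul_assoc] using (hne r hr).symm)
      · have := congrArg Subtype.val he
        simp [f, hq, hr] at this
        exact absurd this (by simpa [mul_assoc] using hne q hq)
      · have h5 : t * (q.out * t * q.out⁻¹) = t * (r.out * t * r.out⁻¹) := by
          have := congrArg Subtype.val he
          simpa [f, hq, hr] using this
        have h6 := mul_left_cancel h5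
        rw [← QuotientGroup.out_eq' q, ← QuotientGroup.out_eq' r, QuotientGroup.eq]
        refine CfsgLib.Frobenius.mem_of_inter_conj hH ht ht1 ?_
        have h7 : (q.out⁻¹ * r.out)⁻¹ * t * (q.out⁻¹ * r.out) = t := by
          calc (q.out⁻¹ * r.out)⁻¹ * t * (q.out⁻¹ * r.out)
              = r.out⁻¹ * (q.out * t * q.out⁻¹) * r.out := by group
            _ = t := by rw [h6]; group
        rw [h7]
        exact ht
    have hsurj : Function.Surjective f :=
      (hinj.bijective_of_nat_card_le (by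
        rw [CfsgLib.Frobenius.card_kernel hH]; exact le_of_eq rfl)).2
    intro x hx
    obtain ⟨q, hq⟩ := hsurj ⟨x, hx⟩
    have h8 := congrArg Subtype.val hq
    by_cases hqH : q.out ∈ H
    · simp [f, hqH] at h8
      exact Or.inl h8.symm
    · simp [f, hqH] at h8
      exact Or.inr ⟨q.out, by rw [← h8]⟩
  -- `t` inverts the kernel
  have hinv : ∀ x ∈ Cfsg.frobeniusKernel H, t * x * t = x⁻¹ := by
    intro x hx
    rcases hall x hx with rfl | ⟨g, rfl⟩
    · simp [ht2]
    · calc t * (t * (g * t * g⁻¹)) * t = (t * t) * (g * t * g⁻¹ * t) := by group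
        _ = (t * (g * t * g⁻¹))⁻¹ := by
          rw [ht2, one_mul]; simp [mul_assoc, htinv]
  -- `t` is central in `H`
  have hcent : ∀ h ∈ H, h * t * h⁻¹ = t := by
    intro h hh
    by_contra hne
    have hs : (h * t * h⁻¹)⁻¹ * t ≠ 1 := fun e => hne (inv_mul_eq_one.1 e)
    have hsH : (h * t * h⁻¹)⁻¹ * t ∈ H :=
      H.mul_mem (H.inv_mem (H.mul_mem (H.mul_mem hh ht) (H.inv_mem hh))) ht
    obtain ⟨x, hxk, hx1⟩ : ∃ x ∈ Cfsg.frobeniusKernel H, x ≠ 1 := by
      obtain ⟨g, hg⟩ : ∃ g : G, g ∉ H := by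
        by_contra hcon
        push_neg at hcon
        exact hH.2.1 (eq_top_iff.2 fun g _ => hcon g)
      refine ⟨_, hker g hg, fun h1 => hg (CfsgLib.Frobenius.mem_of_conj_mem hH ht ht1 ?_)⟩
      rw [(inv_eq_of_mul_eq_one_right h1).symm, htinv]
      exact ht
    apply hx1
    have h2 : (h * t * h⁻¹) * x * (h * t * h⁻¹) = x⁻¹ := by
      have hy : h⁻¹ * x * h ∈ Cfsg.frobeniusKernel H := by
        simpa using CfsgLib.Frobenius.conj_mem_kernel hxk h⁻¹
      calc (h * t * h⁻¹) * x * (h * t * h⁻¹) = h * (t * (h⁻¹ * x * h) * t) * h⁻¹ := by group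
        _ = h * (h⁻¹ * x * h)⁻¹ * h⁻¹ := by rw [hinv _ hy]
        _ = x⁻¹ := by group
    have h3 := hinv x hxk
    have hcomm : x ∈ Subgroup.centralizer ({(h * t * h⁻¹)⁻¹ * t} : Set G) := by
      rw [Subgroup.mem_centralizer_iff]
      rintro _ rfl
      have h4 : t * x * t⁻¹ = (h * t * h⁻¹) * x * (h * t * h⁻¹) := by rw [htinv, h2, h3]
      have hsinv : (h * t * h⁻¹)⁻¹ = h * t * h⁻¹ := by simp [mul_assoc, htinv]
      calc (h * t * h⁻¹)⁻¹ * t * x
          = (h * t * h⁻¹)⁻¹ * (t * x * t⁻¹) * t := by group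
        _ = x * ((h * t * h⁻¹) * t) := by rw [h4]; group
        _ = x * ((h * t * h⁻¹)⁻¹ * t) := by rw [hsinv]
    exact hbot (CfsgLib.Frobenius.centralizer_le hH hsH hs hcomm) hxk
  intro x hx y hy
  rcases hall x hx with rfl | ⟨g, hg⟩
  · simpa using hy
  rcases hall y hy with rfl | ⟨k, hk⟩
  · simpa using hx
  -- `x = u t` with `u` a conjugate of `t`
  have hx' : x⁻¹ = g * t * g⁻¹ * t := by rw [hg]; simp [mul_assoc, htinv]
  have hxi : x⁻¹ ∈ Cfsg.frobeniusKernel H := by
    rw [← hinv x hx]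
    have := CfsgLib.Frobenius.conj_mem_kernel hx t
    rwa [htinv] at this
  rcases hall x⁻¹ hxi with h1 | ⟨g', hg'⟩
  · rw [inv_eq_one] at h1; subst h1; simpa using hy
  have hxy : x * y = g' * (t * ((g'⁻¹ * k) * t * (g'⁻¹ * k)⁻¹)) * g'⁻¹ := by
    have h5 : x = g' * t * g'⁻¹ * t := by
      rw [← inv_inv x, hg']; simp [mul_assoc, htinv]
    rw [h5, hk]
    calc g' * t * g'⁻¹ * t * (t * (k * t * k⁻¹))
        = g' * t * g'⁻¹ * (t * t) * (k * t * k⁻¹) := by group
      _ = _ := by rw [ht2]; group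
  rw [hxy]
  refine CfsgLib.Frobenius.conj_mem_kernel ?_ g'
  by_cases hgk : g'⁻¹ * k ∈ H
  · rw [hcent _ hgk, ht2]
    exact Or.inl rfl
  · exact hker _ hgk

end Cfsg.Agent.S0036
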