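import Cfsg.Statements.S0047
import Cfsg.Agent.Lib.CoprimeAction.Glauberman
-- import your own Cfsg.Agent.* helpers here

set_option autoImplicit false
open Cfsg

namespace Cfsg.Agent.S0047

/-- A finite group which is the product AB of two abelian subgroups A and B is solvable. -/
theorem result {G : Type*} [Group G] [Finite G] (A B : Subgroup G)
    [IsMulCommutative A] [IsMulCommutative B] (hAB : ∀ g : G, ∃ a ∈ A, ∃ b ∈ B, g = a * b) :
    Group.IsSolvable G := by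
  classical
  let S : Set G := {c | ∃ a ∈ A, ∃ b ∈ B, c = a * b * a⁻¹ * b⁻¹}
  have hBA : ∀ g : G, ∃ b ∈ B, ∃ a ∈ A, g = b * a := fun g => by
    obtain ⟨a, ha, b, hb, h⟩ := hAB g⁻¹
    exact ⟨b⁻¹, B.inv_mem hb, a⁻¹, A.inv_mem ha, by rw [← mul_inv_rev, ← h, inv_inv]⟩
  have cA : ∀ {x y : G}, x ∈ A → y ∈ A → x * y = y * x := fun hx hy =>
    Subgroup.le_centralizer_iff_isMulCommutative.2 (inferInstance : IsMulCommutative A) hy _ hx
  have cB : ∀ {x y : G}, x ∈ B → y ∈ B → x * y = y * x := fun hx hy =>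
    Subgroup.le_centralizer_iff_isMulCommutative.2 (inferInstance : IsMulCommutative B) hy _ hx
  -- conjugation by elements of `A`
  have conjA : ∀ {a b x : G}, a ∈ A → b ∈ B → x ∈ A → ∀ {c d : G}, c ∈ A → d ∈ B →
      x * b * x⁻¹ = d * c → x * (a * b * a⁻¹ * b⁻¹) * x⁻¹ = a * d * a⁻¹ * d⁻¹ := by
    intro a b x ha hb hx c d hc hd he
    have h1 : x * a * x⁻¹ = a := by rw [cA hx ha]; group
    calc x * (a * b * a⁻¹ * b⁻¹) * x⁻¹
        = (x * a * x⁻¹) * (x * b * x⁻¹) * (x * a * x⁻¹)⁻¹ * (x * b * x⁻¹)⁻¹ := by group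
      _ = a * d * (c * a⁻¹) * c⁻¹ * d⁻¹ := by rw [h1, he]; group
      _ = a * d * a⁻¹ * d⁻¹ := by rw [cA hc (A.inv_mem ha)]; group
  have conjB : ∀ {a b y : G}, a ∈ A → b ∈ B → y ∈ B → ∀ {c d : G}, c ∈ A → d ∈ B →
      y * a * y⁻¹ = c * d → y * (a * b * a⁻¹ * b⁻¹) * y⁻¹ = c * b * c⁻¹ * b⁻¹ := by
    intro a b y ha hb hy c d hc hd he
    have h1 : y * b * y⁻¹ = b := by rw [cB hy hb]; group
    calc y * (a * b * a⁻¹ * b⁻¹) * y⁻¹
        = (y * a * y⁻¹) * (y * b * y⁻¹) * (y * a * y⁻¹)⁻¹ * (y * b * y⁻¹)⁻¹ := by group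
      _ = c * (d * b) * d⁻¹ * c⁻¹ * b⁻¹ := by rw [h1, he]; group
      _ = c * b * c⁻¹ * b⁻¹ := by rw [cB hd hb]; group
  have hcomm : ∀ u ∈ S, ∀ v ∈ S, u * v = v * u := by
    rintro _ ⟨a, ha, b, hb, rfl⟩ _ ⟨x, hx, y, hy, rfl⟩
    obtain ⟨d, hd, c, hc, he⟩ := hBA (x⁻¹ * b * x⁻¹⁻¹)
    obtain ⟨c', hc', d', hd', he'⟩ := hAB (y⁻¹ * a * y⁻¹⁻¹)
    have e1 : y⁻¹ * (x⁻¹ * (a * b * a⁻¹ * b⁻¹) * x⁻¹⁻¹) * y⁻¹⁻¹ = c' * d * c'⁻¹ * d⁻¹ := by
      rw [conjA ha hb (A.inv_mem hx) hc hd he, conjB ha hd (B.inv_mem hy) hc' hd' he']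
    have e2 : x⁻¹ * (y⁻¹ * (a * b * a⁻¹ * b⁻¹) * y⁻¹⁻¹) * x⁻¹⁻¹ = c' * d * c'⁻¹ * d⁻¹ := by
      rw [conjB ha hb (B.inv_mem hy) hc' hd' he', conjA hc' hb (A.inv_mem hx) hc hd he]
    have e := e1.trans e2.symm
    set u := a * b * a⁻¹ * b⁻¹ with hu
    have h3 : u = (x * y * x⁻¹ * y⁻¹) * u * (x * y * x⁻¹ * y⁻¹)⁻¹ := by
      calc u = x * y * (y⁻¹ * (x⁻¹ * u * x⁻¹⁻¹) * y⁻¹⁻¹) * (x * y)⁻¹ := by group
        _ = x * y * (x⁻¹ * (y⁻¹ * u * y⁻¹⁻¹) * x⁻¹⁻¹) * (x * y)⁻¹ := by rw [e]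
        _ = _ := by group
    exact eq_mul_inv_iff_mul_eq.1 h3
  set H := Subgroup.closure S with hH
  haveI : IsMulCommutative H := Subgroup.isMulCommutative_closure hcomm
  have hnorm : ∀ g : G, (∀ u ∈ S, g * u * g⁻¹ ∈ H) → g ∈ Subgroup.normalizer (H : Set G) := by
    intro g hg
    refine CfsgLib.CoprimeAction.mem_normalizer_of_conj_mem fun z hz => ?_
    have : H ≤ H.comap (MulAut.conj g).toMonoidHom := (Subgroup.closure_le _).2 hg
    exact this hz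
  have hn : H.Normal := by
    rw [← Subgroup.normalizer_eq_top_iff, eq_top_iff]
    intro g _
    obtain ⟨x, hx, y, hy, rfl⟩ := hAB g
    refine Subgroup.mul_mem _ (hnorm x ?_) (hnorm y ?_)
    · rintro _ ⟨a, ha, b, hb, rfl⟩
      obtain ⟨d, hd, c, hc, he⟩ := hBA (x * b * x⁻¹)
      rw [conjA ha hb hx hc hd he]
      exact Subgroup.subset_closure ⟨a, ha, d, hd, rfl⟩
    · rintro _ ⟨a, ha, b, hb, rfl⟩
      obtain ⟨c', hc', d', hd', he'⟩ := hAB (y * a * y⁻¹)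
      rw [conjB ha hb hy hc' hd' he']
      exact Subgroup.subset_closure ⟨c', hc', b, hb, rfl⟩
  let f := QuotientGroup.mk' H
  have hfAB : ∀ {a b : G}, a ∈ A → b ∈ B → f a * f b = f b * f a := by
    intro a b ha hb
    rw [← map_mul, ← map_mul, eq_comm]
    refine QuotientGroup.eq.2 ?_
    have hm : a⁻¹ * b⁻¹ * (a⁻¹)⁻¹ * (b⁻¹)⁻¹ ∈ H :=
      Subgroup.subset_closure ⟨a⁻¹, A.inv_mem ha, b⁻¹, B.inv_mem hb, rfl⟩
    simpa [mul_assoc] using hm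
  haveI : Group.IsSolvable (G ⧸ H) := Group.isSolvable_of_comm fun p q => by
    obtain ⟨g, rfl⟩ := QuotientGroup.mk'_surjective H p
    obtain ⟨k, rfl⟩ := QuotientGroup.mk'_surjective H q
    obtain ⟨a, ha, b, hb, rfl⟩ := hAB g
    obtain ⟨x, hx, y, hy, rfl⟩ := hAB k
    have h1 : Commute (f a) (f x) := by rw [Commute, SemiconjBy, ← map_mul, ← map_mul, cA ha hx]
    have h2 : Commute (f b) (f y) := by rw [Commute, SemiconjBy, ← map_mul, ← map_mul, cB hb hy]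
    have h3 : Commute (f a) (f y) := hfAB ha hy
    have h4 : Commute (f b) (f x) := (hfAB hx hb : Commute (f x) (f b)).symm
    change f (a * b) * f (x * y) = f (x * y) * f (a * b)
    rw [map_mul, map_mul]
    exact ((h1.mul_right h3).mul_left (h4.mul_right h2)).eq
  haveI : Group.IsSolvable H := Group.isSolvable_of_comm fun p q => mul_comm' p q
  exact Group.isSolvable_of_ker_le_range H.subtype (QuotientGroup.mk' H)
    (by rw [QuotientGroup.ker_mk', Subgroup.range_subtype])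

end Cfsg.Agent.S0047
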