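import Cfsg.Statements.S0049
import Cfsg.Agent.Lib.Cores.Basic
import Mathlib.GroupTheory.SchurZassenhaus
-- import your own Cfsg.Agent.* helpers here

set_option autoImplicit false
open Cfsg

namespace Cfsg.Agent.S0049

/-- A prime divisor of the order of a finite group also divides the index of the Frattini subgroup. -/
theorem result {G : Type*} [Group G] [Finite G] (p : ℕ) (hp : p.Prime) (hdvd : p ∣ Nat.card G) :
    p ∣ (frattini G).index := by
  by_contra hndvd
  haveI := Fact.mk hp
  haveI : Group.IsNilpotent (frattini G) := frattini_nilpotent
  obtain ⟨P⟩ := (Sylow.nonempty : Nonempty (Sylow p (frattini G)))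
  haveI : (P : Subgroup (frattini G)).Characteristic :=
    Sylow.characteristic_of_normal P inferInstance
  set Q := (P : Subgroup (frattini G)).map (frattini G).subtype with hQ
  haveI : Q.Normal := CfsgLib.Cores.normal_map_subtype (frattini G) _
  have hQcard : Nat.card Q = p ^ (Nat.card (frattini G)).factorization p := by
    rw [hQ, Subgroup.card_map_of_injective (frattini G).subtype_injective, P.card_eq_multiplicity]
  have hfac : (Nat.card G).factorization p = (Nat.card (frattini G)).factorization p := by
    rw [← Subgroup.card_mul_index (frattini G),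
      Nat.factorization_mul Nat.card_pos.ne' (frattini G).index_ne_zero_of_finite]
    simp [Nat.factorization_eq_zero_of_not_dvd hndvd]
  have hpos : 0 < (Nat.card G).factorization p :=
    hp.factorization_pos_of_dvd Nat.card_pos.ne' hdvd
  have hcop : (Nat.card Q).Coprime Q.index := by
    rw [hQcard, ← hfac]
    refine (Nat.Coprime.pow_left _ (hp.coprime_iff_not_dvd.2 fun hd => ?_))
    have h1 : (Nat.card G).factorization p
        = (Nat.card Q).factorization p + Q.index.factorization p := by
      rw [← Subgroup.card_mul_index Q,
        Nat.factorization_mul Nat.card_pos.ne' Q.index_ne_zero_of_finite]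
      rfl
    rw [hQcard, hp.factorization_pow, Finsupp.single_eq_same, ← hfac] at h1
    have := hp.factorization_pos_of_dvd Q.index_ne_zero_of_finite hd
    omega
  obtain ⟨H, hH⟩ := Subgroup.exists_right_complement'_of_coprime hcop
  have hHtop : H = ⊤ := frattini_nongenerating <| top_le_iff.1 <| by
    rw [← hH.sup_eq_top, sup_comm Q H]
    exact sup_le_sup_left (Subgroup.map_subtype_le _) H
  subst hHtop
  have hbot := hH.disjoint
  rw [disjoint_top] at hbot
  rw [hbot, Subgroup.card_bot, ← hfac] at hQcard
  exact absurd hQcard (Nat.one_lt_pow hpos.ne' hp.one_lt).ne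

end Cfsg.Agent.S0049
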