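import Cfsg.Statements.S0050
import Cfsg.Agent.Lib.Hall.Existence
-- import your own Cfsg.Agent.* helpers here

set_option autoImplicit false
open Cfsg

namespace Cfsg.Agent.S0050

/-- Frattini argument for Hall subgroups: if L is a solvable normal subgroup and H a subgroup of L of order coprime to its index in L, then L together with the normaliser of H generates the whole group. -/
theorem result {G : Type*} [Group G] [Finite G] (L : Subgroup G) [L.Normal] (hL : Group.IsSolvable L)
    (H : Subgroup G) (hHL : H ≤ L) (hHall : (Nat.card H).Coprime (H.relIndex L)) :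
    L ⊔ Subgroup.normalizer (H : Set G) = ⊤ := by
  refine CfsgLib.Hall.sup_normalizer_eq_top hL hHL (π := {p | p ∣ Nat.card (H.subgroupOf L)}) ?_
  refine CfsgLib.Hall.isPiHall_of_coprime ?_
  rw [Nat.card_congr (Subgroup.subgroupOfEquivOfLe hHL).toEquiv]
  exact hHall

end Cfsg.Agent.S0050
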