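import Cfsg.Statements.S0052
import Mathlib.GroupTheory.Complement
import Mathlib.GroupTheory.OrderOfElement
import Mathlib.Tactic.Group
import Mathlib.Algebra.BigOperators.Group.Finset.Basic
-- import your own Cfsg.Agent.* helpers here

set_option autoImplicit false
open Pointwise
open Cfsg

namespace Cfsg.Agent.S0052

/-- Gaschütz's Theorem, conjugacy: for an abelian normal subgroup K ≤ U with the order of K coprime to the index of U, two complements of K in G having the same intersection with U are conjugate. -/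
theorem result {G : Type*} [Group G] [Finite G] (K U : Subgroup G) [K.Normal] [IsMulCommutative K]
    (hKU : K ≤ U) (hcop : (Nat.card K).Coprime U.index)
    (H₀ H₁ : Subgroup G) (h₀ : Subgroup.IsComplement' K H₀) (h₁ : Subgroup.IsComplement' K H₁) (hU : H₀ ⊓ U = H₁ ⊓ U) :
    ∃ g : G, MulAut.conj g • H₀ = H₁ := by
  classical
  set W := U.subgroupOf H₀ with hW
  -- `σ h = c h * h` is the element of `H₁` in `K h`
  have hex : ∀ h : H₀, ∃ k : K, (k : G) * h ∈ H₁ := by
    intro h
    obtain ⟨⟨k, h'⟩, hk⟩ := (h₁.existsUnique (h : G)).exists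
    refine ⟨k⁻¹, ?_⟩
    simp only at hk
    rw [Subgroup.coe_inv, ← hk, inv_mul_cancel_left]
    exact h'.2
  have huniq : ∀ (h : H₀) (k l : K), (k : G) * h ∈ H₁ → (l : G) * h ∈ H₁ → k = l := by
    intro h k l hk hl
    have hm : (k : G) * (l : G)⁻¹ ∈ K ⊓ H₁ := by
      refine ⟨K.mul_mem k.2 (K.inv_mem l.2), ?_⟩
      have := H₁.mul_mem hk (H₁.inv_mem hl)
      simpa [mul_assoc] using this
    rw [disjoint_iff.1 h₁.disjoint, Subgroup.mem_bot, mul_inv_eq_one] at hm
    exact Subtype.ext hm
  choose c hc using hex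
  let φ : H₀ →* MulAut K := (MulAut.conjNormal (H := K)).comp H₀.subtype
  have hmul : ∀ a b : H₀, c (a * b) = c a * φ a (c b) := by
    intro a b
    refine huniq (a * b) _ _ (hc _) ?_
    have : ((c a * φ a (c b) : K) : G) * ((a * b : H₀) : G)
        = ((c a : G) * a) * ((c b : G) * b) := by
      change (c a : G) * ((a : G) * (c b : G) * (a : G)⁻¹) * ((a : G) * (b : G)) = _
      group
    rw [this]
    exact H₁.mul_mem (hc a) (hc b)
  have hWc : ∀ w ∈ W, c w = 1 := by
    intro w hw
    refine huniq w _ _ (hc w) ?_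
    have : (w : G) ∈ H₁ ⊓ U := hU ▸ ⟨w.2, hw⟩
    simpa using this.1
  have hright : ∀ a w : H₀, w ∈ W → c (a * w) = c a := by
    intro a w hw
    rw [hmul, hWc w hw, map_one, mul_one]
  haveI : Fintype (H₀ ⧸ W) := Fintype.ofFinite _
  let cbar : H₀ ⧸ W → K := Quotient.lift c (fun a b hab => by
    have hab' : ((a : H₀ ⧸ W)) = (b : H₀ ⧸ W) := Quotient.sound hab
    have hm := QuotientGroup.eq.1 hab'
    rw [← hright a _ hm, mul_inv_cancel_left])
  have hcbar : ∀ a : H₀, cbar (a : H₀ ⧸ W) = c a := fun _ => rfl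
  letI : CommGroup K := { (inferInstance : Group K) with mul_comm := fun x y => mul_comm' x y }
  set P : K := ∏ q : H₀ ⧸ W, cbar q with hP
  have hPeq : ∀ a : H₀, c a ^ Nat.card (H₀ ⧸ W) * φ a P = P := by
    intro a
    rw [hP, map_prod, Nat.card_eq_fintype_card, ← Finset.card_univ, ← Finset.prod_const,
      ← Finset.prod_mul_distrib]
    refine Fintype.prod_equiv (MulAction.toPerm a) _ _ fun q => ?_
    induction q using QuotientGroup.induction_on with
    | H b =>
      rw [MulAction.toPerm_apply, MulAction.Quotient.smul_coe, smul_eq_mul, hcbar, hcbar, hmul]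
  have hcard : (Nat.card K).Coprime (Nat.card (H₀ ⧸ W)) := by
    have hle : Nat.card (H₀ ⧸ W) = U.index := by
      let f : H₀ ⧸ W → G ⧸ U := Quotient.map' Subtype.val fun a b hab => by
        rw [QuotientGroup.leftRel_apply] at hab ⊢
        exact hab
      refine Nat.card_eq_of_bijective f ⟨?_, ?_⟩
      · intro a b
        induction a using QuotientGroup.induction_on with
        | H a =>
          induction b using QuotientGroup.induction_on with
          | H b =>
            intro hab
            have hab' : ((a : G) : G ⧸ U) = ((b : G) : G ⧸ U) := hab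
            have hm : (a : G)⁻¹ * (b : G) ∈ U := QuotientGroup.eq.1 hab'
            exact QuotientGroup.eq.2 hm
      · intro q
        induction q using QuotientGroup.induction_on with
        | H g =>
          obtain ⟨⟨h, k⟩, hk⟩ := (h₀.symm.existsUnique g).exists
          refine ⟨((h : H₀) : H₀ ⧸ W), ?_⟩
          change ((h : G) : G ⧸ U) = (g : G ⧸ U)
          rw [QuotientGroup.eq, ← hk]
          simpa using hKU k.2
    rw [hle]
    exact hcop
  obtain ⟨R, hR⟩ := (powCoprime hcard).surjective P
  simp only [powCoprime_apply] at hR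
  have key : ∀ a : H₀, c a * φ a R = R := by
    intro a
    apply (powCoprime hcard).injective
    simp only [powCoprime_apply]
    rw [mul_pow, ← map_pow, hR]
    exact hPeq a
  refine ⟨(R : G), ?_⟩
  have hsub : MulAut.conj (R : G) • H₀ ≤ H₁ := by
    rintro _ ⟨a, ha, rfl⟩
    change (R : G) * a * (R : G)⁻¹ ∈ H₁
    have h := congrArg Subtype.val (key ⟨a, ha⟩)
    change (c ⟨a, ha⟩ : G) * (a * (R : G) * a⁻¹) = R at h
    have h2 : (R : G) * a * (R : G)⁻¹ = (c ⟨a, ha⟩ : G) * a := by
      calc (R : G) * a * (R : G)⁻¹ = ((c ⟨a, ha⟩ : G) * (a * (R : G) * a⁻¹)) * a * (R : G)⁻¹ := by rw [h]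
        _ = (c ⟨a, ha⟩ : G) * a := by group
    rw [h2]
    exact hc ⟨a, ha⟩
  refine Subgroup.eq_of_le_of_card_ge hsub ?_
  rw [Nat.card_congr (Subgroup.equivSMul (MulAut.conj (R : G)) H₀).toEquiv.symm,
    ← h₀.symm.index_eq_card, ← h₁.symm.index_eq_card]

end Cfsg.Agent.S0052
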