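import Cfsg.Statements.S0053
import Cfsg.Agent.Lib.Cores.MinimalNormal
-- import your own Cfsg.Agent.* helpers here

set_option autoImplicit false
open Cfsg

namespace Cfsg.Agent.S0053

/-- An abelian minimal normal subgroup N of a finite group is complemented exactly when N is not inside the Frattini subgroup. -/
theorem result {G : Type*} [Group G] [Finite G]
    (N : Subgroup G) [N.Normal] [IsMulCommutative N] (hN : N ≠ ⊥)
    (hmin : ∀ M : Subgroup G, M.Normal → M ≤ N → M = ⊥ ∨ M = N) :
    (∃ H : Subgroup G, Subgroup.IsComplement' N H) ↔ ¬ N ≤ frattini G := by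
  constructor
  · rintro ⟨H, hc⟩ hle
    refine hN ?_
    have h1 : H = ⊤ := frattini_nongenerating <| top_le_iff.1 <| by
      rw [← hc.sup_eq_top, sup_comm N H]
      exact sup_le_sup_left hle H
    subst h1
    have := hc.disjoint
    rwa [disjoint_top] at this
  · intro h
    obtain ⟨M, hM, hNM⟩ : ∃ M : Subgroup G, IsCoatom M ∧ ¬ N ≤ M := by
      by_contra! hcon
      exact h (le_iInf₂ fun M hM => hcon M hM)
    exact ⟨M, CfsgLib.Cores.isComplement'_of_minimal_normal_of_isCoatom hmin hM hNM⟩

end Cfsg.Agent.S0053
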