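import Cfsg.Statements.S0057
import Cfsg.Agent.Lib.CoprimeAction.Abelian
import Cfsg.Agent.Lib.CoprimeAction.Sylow
-- import your own Cfsg.Agent.* helpers here

set_option autoImplicit false
open Cfsg

namespace Cfsg.Agent.S0057

open scoped commutatorElement Pointwise

/-- Two subgroups of coprime index have product the whole group. -/
theorem mul_eq_univ_of_coprime_index {G : Type*} [Group G] [Finite G] {H K : Subgroup G}
    (h : H.index.Coprime K.index) : ((H : Set G) * (K : Set G)) = Set.univ := by
  have e1 : K.relIndex H * H.index = (H ⊓ K).index := by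
    rw [← Subgroup.inf_relIndex_left, Subgroup.relIndex_mul_index inf_le_left]
  have hd : K.index ∣ K.relIndex H * H.index := by
    rw [e1]; exact Subgroup.index_dvd_of_le inf_le_right
  have hd2 : K.index ∣ K.relIndex H := h.symm.dvd_of_dvd_mul_right hd
  have hpos : 0 < K.relIndex H := Nat.pos_of_ne_zero (Subgroup.index_ne_zero_of_finite)
  let f : H ⧸ K.subgroupOf H → G ⧸ K := Quotient.map' Subtype.val fun a b hab => by
    rw [QuotientGroup.leftRel_apply] at hab ⊢
    exact hab
  have hf : Function.Injective f := by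
    intro a b
    induction a using QuotientGroup.induction_on with
    | H a =>
      induction b using QuotientGroup.induction_on with
      | H b =>
        intro hab
        have hab' : ((a : G) : G ⧸ K) = ((b : G) : G ⧸ K) := hab
        have hm : (a : G)⁻¹ * (b : G) ∈ K := QuotientGroup.eq.1 hab'
        exact QuotientGroup.eq.2 hm
  have hs : Function.Surjective f :=
    (hf.bijective_of_nat_card_le (Nat.le_of_dvd hpos hd2)).2
  refine Set.eq_univ_of_forall fun g => ?_
  obtain ⟨q, hq⟩ := hs (g : G ⧸ K)
  induction q using QuotientGroup.induction_on with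
  | H a =>
    exact Set.mem_mul.2 ⟨a, a.2, (a : G)⁻¹ * g, QuotientGroup.eq.1 hq, by group⟩

/-- Under coprime action, if the centraliser of A in K has prime index p in K then the commutator subgroup [K, A] has order exactly p. -/
theorem result {G : Type*} [Group G] [Finite G] (A K : Subgroup G) (hAK : A ≤ Subgroup.normalizer (K : Set G))
    (hcop : (Nat.card A).Coprime (Nat.card K)) (hsolv : Group.IsSolvable A ∨ Group.IsSolvable K)
    (p : ℕ) (hp : p.Prime) (hidx : (K ⊓ Subgroup.centralizer (A : Set G)).relIndex K = p) :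
    Nat.card (⁅K, A⁆ : Subgroup G) = p := by
  set C := K ⊓ Subgroup.centralizer (A : Set G) with hC
  set L := ⁅K, A⁆ with hL
  have hLK : L ≤ K := CfsgLib.CoprimeAction.commutator_le_left hAK
  have hAn : A ≤ Subgroup.normalizer (L : Set G) :=
    le_trans le_sup_right (CfsgLib.CoprimeAction.sup_le_normalizer_commutator A K)
  have hKn : K ≤ Subgroup.normalizer (L : Set G) :=
    le_trans le_sup_left (CfsgLib.CoprimeAction.sup_le_normalizer_commutator A K)
  haveI := Fact.mk hp
  have hsup : L ⊔ C = K := CfsgLib.CoprimeAction.commutator_sup_centralizer hAK hcop hsolv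
  have hLL : ⁅L, A⁆ = L := CfsgLib.CoprimeAction.commutator_commutator_eq hAK hcop hsolv
  obtain ⟨P, hP⟩ := CfsgLib.CoprimeAction.exists_invariant_sylow hAK hcop hsolv p
  set Q := (P : Subgroup K).map K.subtype with hQ
  have hQK : Q ≤ K := Subgroup.map_subtype_le _
  -- `K = Q C`
  have hprod : ∀ k ∈ K, ∃ q ∈ Q, ∃ c ∈ C, k = q * c := by
    have hcop2 : ((P : Subgroup K).index).Coprime ((C.subgroupOf K).index) := by
      change ((P : Subgroup K).index).Coprime (C.relIndex K)
      rw [hidx]
      exact ((hp.coprime_iff_not_dvd).2 P.not_dvd_index).symm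
    intro k hk
    have hu := mul_eq_univ_of_coprime_index (H := (P : Subgroup K)) (K := C.subgroupOf K) hcop2
    obtain ⟨q, hq, c, hc, he⟩ := Set.mem_mul.1 (hu.symm ▸ Set.mem_univ (⟨k, hk⟩ : K))
    exact ⟨q, Subgroup.mem_map_of_mem K.subtype hq, c, hc, congrArg Subtype.val he.symm⟩
  have hLQ : L ≤ Q := by
    rw [hL, Subgroup.commutator_le]
    intro k hk a ha
    obtain ⟨q, hq, c, hc, rfl⟩ := hprod k hk
    have h1 : ⁅q * c, a⁆ = q * (a * q⁻¹ * a⁻¹) := by
      have h2 : c * a * c⁻¹ = a := by
        rw [← Subgroup.mem_centralizer_iff.1 hc.2 a ha]; group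
      rw [commutatorElement_def]
      calc q * c * a * (q * c)⁻¹ * a⁻¹ = q * (c * a * c⁻¹) * q⁻¹ * a⁻¹ := by group
        _ = q * (a * q⁻¹ * a⁻¹) := by rw [h2]; group
    rw [h1]
    exact Q.mul_mem hq ((Subgroup.mem_normalizer_iff.1 (hP ha) _).1 (Q.inv_mem hq))
  have hLp : IsPGroup p L := (P.2.map K.subtype).to_le hLQ
  -- `D = C_L(A)` has index `p` in `L`
  set D := L ⊓ Subgroup.centralizer (A : Set G) with hD
  have hDC : D = L ⊓ C := by rw [hD, hC, ← inf_assoc, inf_eq_left.2 hLK]
  have hDidx : D.relIndex L = p := by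
    have hDC' := hDC
    rw [hDC]
    have hCK : C ≤ K := inf_le_left
    haveI : (L.subgroupOf K).Normal := (Subgroup.normal_subgroupOf_iff_le_normalizer hLK).2 hKn
    have h1 : L.relIndex C = L.relIndex K := by
      have h2 := Subgroup.relIndex_sup_left (C.subgroupOf K) (L.subgroupOf K)
      rw [← Subgroup.subgroupOf_sup hLK hCK, hsup, Subgroup.relIndex_subgroupOf le_rfl,
        Subgroup.relIndex_subgroupOf hCK] at h2
      exact h2.symm
    have hcard : ∀ {X Y : Subgroup G}, X ≤ Y → Nat.card X * X.relIndex Y = Nat.card Y :=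
      fun {X Y} h => by
        rw [← Subgroup.relIndex_bot_left, ← Subgroup.relIndex_bot_left,
          Subgroup.relIndex_mul_relIndex ⊥ X Y bot_le h]
    have e1 := hcard hLK
    have e2 := hcard hCK
    have e3 := hcard (inf_le_left : L ⊓ C ≤ L)
    have e4 := hcard (inf_le_right : L ⊓ C ≤ C)
    rw [hidx] at e2
    rw [Subgroup.inf_relIndex_right, h1] at e4
    have hpos : 0 < Nat.card ↥(L ⊓ C) * L.relIndex K := by
      rw [e4]; exact Nat.card_pos
    refine Nat.eq_of_mul_eq_mul_left hpos ?_
    calc Nat.card ↥(L ⊓ C) * L.relIndex K * (L ⊓ C).relIndex L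
        = Nat.card ↥(L ⊓ C) * (L ⊓ C).relIndex L * L.relIndex K := by ring
      _ = Nat.card L * L.relIndex K := by rw [e3]
      _ = Nat.card C * p := e1.trans e2.symm
      _ = Nat.card ↥(L ⊓ C) * L.relIndex K * p := by rw [e4]
  obtain ⟨n, hn⟩ := IsPGroup.iff_card.1 hLp
  haveI hDn : (D.subgroupOf L).Normal :=
    Subgroup.normal_of_index_eq_minFac_card (by
      change D.relIndex L = _
      rw [hDidx, hn]
      rcases n with _ | n
      · exfalso
        have : L = ⊥ := Subgroup.eq_bot_of_card_eq _ (by simpa using hn)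
        rw [this, Subgroup.relIndex_bot_right] at hDidx
        exact hp.one_lt.ne hDidx
      · exact (Nat.Prime.pow_minFac hp n.succ_ne_zero).symm)
  have hLD : L ≤ Subgroup.normalizer (D : Set G) :=
    (Subgroup.normal_subgroupOf_iff_le_normalizer inf_le_left).1 hDn
  -- `D` is central in `L`
  have hDL : ⁅D, L⁆ = ⊥ := by
    have h1 : ⁅⁅A, D⁆, L⁆ = ⊥ := by
      rw [Subgroup.commutator_eq_bot_iff_le_centralizer.2
        (Subgroup.le_centralizer_iff.1 (inf_le_right : D ≤ Subgroup.centralizer (A : Set G))),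
        Subgroup.commutator_bot_left]
    have h2 : ⁅⁅D, L⁆, A⁆ = ⊥ := by
      rw [Subgroup.commutator_eq_bot_iff_le_centralizer]
      exact (Subgroup.le_normalizer_iff_commutator_le_left.1 hLD).trans inf_le_right
    have h3 := Subgroup.commutator_commutator_eq_bot_of_rotate h1 h2
    rwa [hLL, Subgroup.commutator_comm] at h3
  have hcomm : IsMulCommutative L := by
    rw [← Subgroup.le_centralizer_iff_isMulCommutative]
    have hcyc : IsCyclic (L ⧸ D.subgroupOf L) := isCyclic_of_prime_card (p := p) (by
      rw [← Subgroup.index]; exact hDidx)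
    have hker : (QuotientGroup.mk' (D.subgroupOf L)).ker ≤ Subgroup.center L := by
      rw [QuotientGroup.ker_mk']
      intro x hx
      rw [Subgroup.mem_center_iff]
      intro y
      exact Subtype.ext (Subgroup.mem_centralizer_iff.1
        (Subgroup.commutator_eq_bot_iff_le_centralizer.1 hDL hx) y y.2)
    intro x hx y hy
    exact congrArg Subtype.val
      (commutative_of_cyclic_center_quotient _ hker ⟨y, hy⟩ ⟨x, hx⟩)
  haveI := hcomm
  have hcopL : (Nat.card A).Coprime (Nat.card L) :=
    hcop.coprime_dvd_right (Subgroup.card_dvd_of_le hLK)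
  have hbot := CfsgLib.CoprimeAction.inf_commutator_eq_bot hAn hcopL
  rw [hLL, inf_eq_left.2 (inf_le_left : L ⊓ Subgroup.centralizer (A : Set G) ≤ L)] at hbot
  rw [show D = ⊥ from hbot, Subgroup.relIndex_bot_left] at hDidx
  exact hDidx

end Cfsg.Agent.S0057
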