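import Cfsg.Statements.S0059
import Cfsg.Agent.Lib.CoprimeAction.Glauberman
-- import your own Cfsg.Agent.* helpers here

set_option autoImplicit false
open Cfsg

namespace Cfsg.Agent.S0059

/-- Let a finite group act on a set on which a normal subgroup K of coprime order and index is transitive, with K or the quotient solvable. Then any complement H of K has a fixed point, and any two H-fixed points are interchanged by an element of K centralising H. -/
theorem result {G : Type*} [Group G] [Finite G] {X : Type*} [Nonempty X] [MulAction G X]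
    (K H : Subgroup G) [K.Normal] (hc : Subgroup.IsComplement' K H) (hcop : (Nat.card K).Coprime K.index)
    (hsolv : Group.IsSolvable K ∨ Group.IsSolvable (G ⧸ K)) (htrans : MulAction.IsPretransitive K X) :
    (∃ x : X, ∀ h ∈ H, h • x = x) ∧
    ∀ x y : X, (∀ h ∈ H, h • x = x) → (∀ h ∈ H, h • y = y) → ∃ k ∈ K ⊓ Subgroup.centralizer (H : Set G), k • x = y := by
  have hKtop : K ≤ ⊤ := le_top
  have hAK : H ≤ Subgroup.normalizer (K : Set G) := Subgroup.le_normalizer_of_normal
  have hcard : Nat.card H = K.index := (Subgroup.isComplement'_comm.1 hc).index_eq_card ▸ rfl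
  have hcop' : (Nat.card H).Coprime (Nat.card K) := by rw [hcard]; exact hcop.symm
  have hsolv' : Group.IsSolvable H ∨ Group.IsSolvable K := by
    rcases hsolv with h | h
    · exact Or.inr h
    · refine Or.inl ?_
      haveI := h
      refine Group.isSolvable_of_isSolvable_injective
        (f := (QuotientGroup.mk' K).comp H.subtype) ?_
      rw [← MonoidHom.ker_eq_bot_iff, MonoidHom.comap_ker (QuotientGroup.mk' K) H.subtype |>.symm,
        QuotientGroup.ker_mk', eq_bot_iff]
      intro x hx
      have hx' : (x : G) ∈ K ⊓ H := ⟨hx, x.2⟩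
      rw [disjoint_iff.1 hc.disjoint, Subgroup.mem_bot, OneMemClass.coe_eq_one] at hx'
      exact hx'
  have horb : ∀ x y : X, ∃ k ∈ K, k • x = y := fun x y => by
    obtain ⟨k, hk⟩ := htrans.exists_smul_eq x y
    exact ⟨k, k.2, hk⟩
  constructor
  · obtain ⟨x⟩ := ‹Nonempty X›
    obtain ⟨k, _, hk⟩ := CfsgLib.CoprimeAction.exists_fixed hAK hcop' hsolv' x fun a _ => by
      obtain ⟨k, hk, he⟩ := horb x (a • x)
      exact ⟨k, hk, he.symm⟩
    exact ⟨k • x, fun h hh => hk h hh⟩
  · intro x y hx hy
    obtain ⟨k, hk, hkx⟩ := horb x y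
    obtain ⟨c, hc, hcx⟩ := CfsgLib.CoprimeAction.exists_centralizer_smul_eq hAK hcop' hsolv' hx hk
      (fun a ha => by rw [hkx]; exact hy a ha)
    exact ⟨c, hc, hcx.trans hkx⟩

end Cfsg.Agent.S0059
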