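import Cfsg.Statements.S0060
import Cfsg.Agent.Lib.Cores.PCore
-- import your own Cfsg.Agent.* helpers here

set_option autoImplicit false
open Pointwise
open Cfsg

namespace Cfsg.Agent.S0060

/-- Brodkey's Theorem: in a finite group with abelian Sylow p-subgroups and no nontrivial normal p-subgroup, some conjugate of a Sylow p-subgroup meets it trivially. -/
theorem result {G : Type*} [Group G] [Finite G] (p : ℕ) [Fact p.Prime]
    (S : Sylow p G) (hS : IsMulCommutative S) (hOp : Cfsg.pCore p G = ⊥) :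
    ∃ g : G, (S : Subgroup G) ⊓ MulAut.conj g • (S : Subgroup G) = ⊥ := by
  classical
  obtain ⟨⟨U, T⟩, hmin⟩ : ∃ PQ : Sylow p G × Sylow p G, ∀ RQ : Sylow p G × Sylow p G,
      Nat.card ↥((PQ.1 : Subgroup G) ⊓ PQ.2) ≤ Nat.card ↥((RQ.1 : Subgroup G) ⊓ RQ.2) := by
    haveI : Nonempty (Sylow p G) := Sylow.nonempty
    exact Finite.exists_min _
  set D := (U : Subgroup G) ⊓ T with hD
  set N := Subgroup.centralizer (D : Set G) with hN
  have hab : ∀ R : Sylow p G, IsMulCommutative (R : Subgroup G) := by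
    intro R
    obtain ⟨g, rfl⟩ := MulAction.exists_smul_eq G S R
    haveI := hS
    rw [Sylow.coe_subgroup_smul]
    change IsMulCommutative ((S : Subgroup G).map (MulAut.conj g).toMonoidHom)
    exact Subgroup.map_isMulCommutative _ _
  have hle : ∀ R : Sylow p G, D ≤ (R : Subgroup G) → (R : Subgroup G) ≤ N := fun R hR =>
    (Subgroup.le_centralizer_iff_isMulCommutative.2 (hab R)).trans
      (Subgroup.centralizer_le (SetLike.coe_subset_coe.2 hR))
  have hUN : (U : Subgroup G) ≤ N := hle U inf_le_left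
  have hTN : (T : Subgroup G) ≤ N := hle T inf_le_right
  have hDle : ∀ R : Sylow p G, D ≤ (R : Subgroup G) := by
    intro R
    have hRp : IsPGroup p ((R : Subgroup G).subgroupOf N) := R.2.comap_subtype
    obtain ⟨Q, hQ⟩ := hRp.exists_le_sylow
    obtain ⟨n, hn⟩ := MulAction.exists_smul_eq N (U.subtype hUN) Q
    have hRN : (R : Subgroup G) ⊓ N ≤ MulAut.conj (n : G) • (U : Subgroup G) := by
      rintro x ⟨hxR, hxN⟩
      have hx : (⟨x, hxN⟩ : N) ∈ Q := hQ hxR
      rw [← hn, Sylow.smul_subtype hUN n] at hx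
      exact hx
    have hfix : MulAut.conj (n : G) • D = D := by
      have hc : ∀ d ∈ D, (n : G) * d * (n : G)⁻¹ = d := fun d hd => by
        rw [← Subgroup.mem_centralizer_iff.1 n.2 d hd]; group
      ext x
      constructor
      · rintro ⟨d, hd, rfl⟩
        change (n : G) * d * (n : G)⁻¹ ∈ D
        rw [hc d hd]; exact hd
      · intro hx
        exact ⟨x, hx, hc x hx⟩
    have hTn : MulAut.conj (n : G) • (T : Subgroup G) ≤ N := by
      rintro _ ⟨t, ht, rfl⟩
      exact N.mul_mem (N.mul_mem n.2 (hTN ht)) (N.inv_mem n.2)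
    have hsub : (R : Subgroup G) ⊓ MulAut.conj (n : G) • (T : Subgroup G) ≤ D := by
      rw [← hfix, hD, Subgroup.smul_inf]
      exact le_inf ((le_inf inf_le_left (inf_le_right.trans hTn)).trans hRN) inf_le_right
    have := hmin (R, (n : G) • T)
    rw [Sylow.coe_subgroup_smul] at this
    exact (Subgroup.eq_of_le_of_card_ge hsub this).ge.trans inf_le_left
  have hbot : D = ⊥ := le_bot_iff.1 (by
    rw [← hOp, CfsgLib.Cores.pCore_eq_iInf_sylow]; exact le_iInf hDle)
  obtain ⟨g, hg⟩ := MulAction.exists_smul_eq G U S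
  obtain ⟨k, hk⟩ := MulAction.exists_smul_eq G S (g • T)
  refine ⟨k, ?_⟩
  have h1 : MulAut.conj g • D = ⊥ := by rw [hbot]; exact Subgroup.map_bot _
  rw [hD, Subgroup.smul_inf, ← Sylow.coe_subgroup_smul, ← Sylow.coe_subgroup_smul, hg, ← hk,
    Sylow.coe_subgroup_smul] at h1
  exact h1

end Cfsg.Agent.S0060
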