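import Cfsg.Statements.S0062
import Cfsg.Agent.Lib.CharTheory.Burnside
-- import your own Cfsg.Agent.* helpers here

set_option autoImplicit false
open Cfsg

namespace Cfsg.Agent.S0062

/-- A finite group of order p^2 * q^2 with p and q prime is solvable. -/
theorem result {G : Type*} [Group G] [Finite G] (p q : ℕ) (hp : p.Prime) (hq : q.Prime)
    (hG : Nat.card G = p ^ 2 * q ^ 2) : Group.IsSolvable G := by
  exact CfsgLib.CharTheory.isSolvable_of_card_dvd_pow_mul_pow p q 2 2 hp hq (by rw [hG])

end Cfsg.Agent.S0062
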