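import Cfsg.Statements.S0063
import Mathlib.GroupTheory.PGroup
import Mathlib.GroupTheory.SpecificGroups.Cyclic
-- import your own Cfsg.Agent.* helpers here

set_option autoImplicit false
open Cfsg

namespace Cfsg.Agent.S0063

/-- A finite group of prime-power order p ^ m with m > 1 is nilpotent of class at most m - 1. -/
theorem result {G : Type*} [Group G] [Finite G] (p m : ℕ) [Fact p.Prime]
    (hG : Nat.card G = p ^ m) (hm : 1 < m) : Group.nilpotencyClass G ≤ m - 1 := by
  suffices h : ∀ (n : ℕ) (H : Type _) [Group H] [Finite H] (k : ℕ), Nat.card H = p ^ k → k ≤ n →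
      Group.nilpotencyClass H ≤ max 1 (k - 1) by
    have := h m G m hG le_rfl
    omega
  intro n
  induction n with
  | zero =>
    intro H _ _ k hk hle
    haveI : Subsingleton H := by
      rw [← Finite.card_le_one_iff_subsingleton, hk, Nat.le_zero.1 hle, pow_zero]
    rw [(nilpotencyClass_zero_iff_subsingleton (G := H)).2 inferInstance]
    exact Nat.zero_le _
  | succ n ih =>
    intro H _ _ k hk hle
    haveI hnil : Group.IsNilpotent H := (IsPGroup.of_card hk).isNilpotent
    rcases subsingleton_or_nontrivial H with hs | hnt
    · rw [(nilpotencyClass_zero_iff_subsingleton (G := H)).2 inferInstance]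
      exact Nat.zero_le _
    obtain ⟨j, hj⟩ := IsPGroup.iff_card.1 ((IsPGroup.of_card hk).to_quotient (Subgroup.center H))
    have hlt : j < k := by
      have h1 : 1 < Nat.card (Subgroup.center H) :=
        (Subgroup.one_lt_card_iff_ne_bot _).2 (Group.IsNilpotent.center_ne_bot H)
      have h2 := Subgroup.card_eq_card_quotient_mul_card_subgroup (Subgroup.center H)
      rw [hk, hj] at h2
      have hp0 : 0 < p ^ j := pow_pos (Fact.out (p := p.Prime)).pos j
      refine (Nat.pow_lt_pow_iff_right (Fact.out (p := p.Prime)).one_lt).1 ?_
      rw [h2]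
      exact lt_mul_of_one_lt_right hp0 h1
    have hrec := ih (H ⧸ Subgroup.center H) j hj (by omega)
    rw [nilpotencyClass_eq_quotient_center_plus_one]
    rcases j with _ | _ | j
    · haveI : Subsingleton (H ⧸ Subgroup.center H) := by
        rw [← Finite.card_le_one_iff_subsingleton, hj, pow_zero]
      rw [(nilpotencyClass_zero_iff_subsingleton (G := H ⧸ Subgroup.center H)).2 inferInstance]
      omega
    · exfalso
      haveI : IsCyclic (H ⧸ Subgroup.center H) := isCyclic_of_prime_card (hj.trans (pow_one p))
      have hcomm : ∀ a b : H, a * b = b * a :=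
        commutative_of_cyclic_center_quotient (QuotientGroup.mk' (Subgroup.center H))
          (le_of_eq (QuotientGroup.ker_mk' _))
      have htop : Subgroup.center H = ⊤ :=
        eq_top_iff.2 fun x _ => Subgroup.mem_center_iff.2 fun g => hcomm g x
      haveI := QuotientGroup.subsingleton_iff.2 htop
      have := Finite.card_le_one_iff_subsingleton.2
        (inferInstance : Subsingleton (H ⧸ Subgroup.center H))
      rw [hj, pow_one] at this
      exact absurd this (not_le.2 (Fact.out (p := p.Prime)).one_lt)
    · omega

end Cfsg.Agent.S0063
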