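import Cfsg.Statements.S0065
-- import your own Cfsg.Agent.* helpers here

set_option autoImplicit false
open Cfsg

namespace Cfsg.Agent.S0065

/-- A nontrivial normal subgroup of a nilpotent group intersects the centre nontrivially. -/
theorem result {G : Type*} [Group G] [Finite G] [Group.IsNilpotent G]
    (N : Subgroup G) [N.Normal] (hN : N ≠ ⊥) : N ⊓ Subgroup.center G ≠ ⊥ := by
  intro h
  have hz : ∀ n, N ⊓ Subgroup.upperCentralSeries G n = ⊥ := by
    intro n
    induction n with
    | zero => rw [Subgroup.upperCentralSeries_zero, inf_bot_eq]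
    | succ n ih =>
      rw [eq_bot_iff]
      rintro x ⟨hxN, hx⟩
      rw [← h]
      refine ⟨hxN, Subgroup.mem_center_iff.2 fun y => ?_⟩
      have h1 : x * y * x⁻¹ * y⁻¹ ∈ Subgroup.upperCentralSeries G n :=
        Subgroup.mem_upperCentralSeries_succ_iff.1 hx y
      have h2 : x * y * x⁻¹ * y⁻¹ ∈ N := by
        have h3 : y * x⁻¹ * y⁻¹ ∈ N := Subgroup.Normal.conj_mem inferInstance _ (N.inv_mem hxN) y
        simpa [mul_assoc] using N.mul_mem hxN h3
      have h4 : x * y * x⁻¹ * y⁻¹ = 1 := by
        have := ih.le ⟨h2, h1⟩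
        simpa using this
      calc y * x = (x * y * x⁻¹ * y⁻¹) * (y * x) := by rw [h4, one_mul]
        _ = x * y := by group
  obtain ⟨n, hn⟩ := Group.IsNilpotent.nilpotent G
  exact hN (by simpa [hn] using hz n)

end Cfsg.Agent.S0065
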