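import Cfsg.Statements.S0067
import Cfsg.Agent.Lib.Subnormal.BaerSuzuki
import Cfsg.Agent.Lib.Cores.Fitting
-- import your own Cfsg.Agent.* helpers here

set_option autoImplicit false
open Pointwise
open Cfsg

namespace Cfsg.Agent.S0067

/-- If the join of a subgroup A with each of its conjugates is nilpotent, then A is subnormal in the finite group and contained in the Fitting subgroup. -/
theorem result {G : Type*} [Group G] [Finite G] (A : Subgroup G)
    (h : ∀ g : G, Group.IsNilpotent (A ⊔ MulAut.conj g • A : Subgroup G)) : A.IsSubnormal ∧ A ≤ Cfsg.fittingSubgroup G := by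
  have hs : A.IsSubnormal := CfsgLib.Subnormal.isSubnormal_of_forall_isNilpotent h
  refine ⟨hs, CfsgLib.Cores.le_fittingSubgroup_of_subnormal hs ?_⟩
  exact CfsgLib.Cores.isNilpotent_of_le (h 1) le_sup_left

end Cfsg.Agent.S0067
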