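import Cfsg.Statements.S0068
import Cfsg.Agent.Lib.Cores.FPFComplement
-- import your own Cfsg.Agent.* helpers here

set_option autoImplicit false
open Cfsg

namespace Cfsg.Agent.S0068

/-- Frobenius complements of even order: if H complements a nontrivial normal subgroup K, each nonidentity element of H has trivial centraliser in K, and H has even order, then H contains a unique involution s, K is abelian, and s inverts every element of K. -/
theorem result {G : Type*} [Group G] [Finite G] (K H : Subgroup G) [K.Normal]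
    (hc : Subgroup.IsComplement' K H) (hK : K ≠ ⊥) (hfpf : ∀ h ∈ H, h ≠ 1 → K ⊓ Subgroup.centralizer {h} = ⊥)
    (heven : 2 ∣ Nat.card H) :
    (∃ s ∈ H, orderOf s = 2 ∧ (∀ t ∈ H, orderOf t = 2 → t = s) ∧ ∀ k ∈ K, s * k * s⁻¹ = k⁻¹) ∧ IsMulCommutative K := by
  obtain ⟨s, hs⟩ := exists_prime_orderOf_dvd_card' (G := H) 2 heven
  have hs' : orderOf (s : G) = 2 := by rw [Subgroup.orderOf_coe, hs]
  have hinv : ∀ k ∈ K, (s : G) * k * (s : G)⁻¹ = k⁻¹ := fun k hk => by
    refine CfsgLib.Cores.involution_inverts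
      ((Subgroup.le_normalizer_of_normal : H ≤ Subgroup.normalizer (K : Set G)) s.2) ?_
      (hfpf s s.2 fun h => ?_) hk
    · rw [← pow_two, ← hs']; exact pow_orderOf_eq_one _
    · rw [h, orderOf_one] at hs'; omega
  refine ⟨⟨s, s.2, hs', fun t ht ht2 => ?_, hinv⟩, ?_⟩
  · exact CfsgLib.Cores.involution_eq_of_fpf hK Subgroup.le_normalizer_of_normal hfpf s.2 ht hs' ht2
  · rw [← Subgroup.le_centralizer_iff_isMulCommutative]
    intro b hb a ha
    have h := hinv (a * b) (K.mul_mem ha hb)
    rw [show (s : G) * (a * b) * (s : G)⁻¹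
      = ((s : G) * a * (s : G)⁻¹) * ((s : G) * b * (s : G)⁻¹) by group, hinv a ha, hinv b hb] at h
    have := congrArg (·⁻¹) h
    simp at this
    exact this.symm

end Cfsg.Agent.S0068
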