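import Cfsg.Statements.S0070
import Cfsg.Agent.Lib.Cores.Fitting
import Mathlib.GroupTheory.Frattini
-- import your own Cfsg.Agent.* helpers here

set_option autoImplicit false
open Cfsg

namespace Cfsg.Agent.S0070

/-- The Fitting subgroup commutes with passing to the Frattini quotient: the Fitting subgroup of G modulo its Frattini subgroup is the image of the Fitting subgroup of G. -/
theorem result {G : Type*} [Group G] [Finite G] :
    Cfsg.fittingSubgroup (G ⧸ frattini G) = (Cfsg.fittingSubgroup G).map (QuotientGroup.mk' (frattini G)) := by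
  refine le_antisymm ?_ (CfsgLib.Cores.map_fittingSubgroup_le_of_surjective
    (QuotientGroup.mk'_surjective (frattini G)))
  set f := QuotientGroup.mk' (frattini G) with hf
  set Fb := Cfsg.fittingSubgroup (G ⧸ frattini G) with hFb
  set N := Fb.comap f with hN
  have hmapN : N.map f = Fb :=
    Subgroup.map_comap_eq_self_of_surjective (QuotientGroup.mk'_surjective _) _
  suffices hnil : Group.IsNilpotent N by
    rw [← hmapN]
    exact Subgroup.map_mono (CfsgLib.Cores.le_fittingSubgroup hnil)
  apply (Group.isNilpotent_of_finite_tfae (G := N)).out 3 0 |>.1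
  intro p hp P
  haveI := hp
  haveI : Group.IsNilpotent Fb := CfsgLib.Cores.isNilpotent_fittingSubgroup
  let g : N →* Fb := (f.comp N.subtype).codRestrict Fb fun x => x.2
  have hg : Function.Surjective g := by
    rintro ⟨y, hy⟩
    obtain ⟨x, rfl⟩ := QuotientGroup.mk'_surjective (frattini G) y
    exact ⟨⟨x, hy⟩, rfl⟩
  let Q : Sylow p Fb := P.mapSurjective hg
  haveI : (Q : Subgroup Fb).Characteristic := Sylow.characteristic_of_normal Q inferInstance
  haveI := CfsgLib.Cores.normal_map_subtype Fb (Q : Subgroup Fb)
  set PG := (P : Subgroup N).map N.subtype with hPG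
  set L := ((Q : Subgroup Fb).map Fb.subtype).comap f with hL
  have hPL : PG ≤ L := by
    rintro _ ⟨x, hx, rfl⟩
    exact ⟨g x, Subgroup.mem_map_of_mem g hx, rfl⟩
  have hLN : L ≤ N := Subgroup.comap_mono (Subgroup.map_subtype_le _)
  have hLsup : L ≤ PG ⊔ frattini G := by
    intro x hx
    obtain ⟨y, hy, hy'⟩ := hx
    obtain ⟨z, hz, rfl⟩ := hy
    have h1 : (z : G)⁻¹ * x ∈ frattini G := QuotientGroup.eq.1 hy'
    have h2 := Subgroup.mul_mem_sup
      (Subgroup.mem_map_of_mem N.subtype hz : (z : G) ∈ PG) h1
    simpa using h2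
  have hidx : ¬ p ∣ (PG.subgroupOf L).index := fun hd => by
    refine P.not_dvd_index (hd.trans ?_)
    have h1 : PG.relIndex L ∣ PG.relIndex N := ⟨L.relIndex N, (Subgroup.relIndex_mul_relIndex _ _ _ hPL hLN).symm⟩
    have h2 : PG.relIndex N = (P : Subgroup N).index := by
      change (((P : Subgroup N).map N.subtype).comap N.subtype).index = (P : Subgroup N).index
      rw [Subgroup.comap_map_eq_self_of_injective N.subtype_injective]
    rwa [h2] at h1
  let PS : Sylow p L := IsPGroup.toSylow
    ((P.2.map N.subtype).of_equiv (Subgroup.subgroupOfEquivOfLe hPL).symm) hidx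
  have hfr := Sylow.normalizer_sup_eq_top PS
  have hPSmap : (PS : Subgroup L).map L.subtype = PG := Subgroup.map_subgroupOf_eq_of_le hPL
  rw [hPSmap] at hfr
  have htop : Subgroup.normalizer (PG : Set G) = ⊤ := frattini_nongenerating <| top_le_iff.1 <| by
    rw [← hfr]
    exact sup_le le_sup_left
      (hLsup.trans (sup_le (Subgroup.le_normalizer.trans le_sup_left) le_sup_right))
  have hPGn : PG.Normal := Subgroup.normalizer_eq_top_iff.1 htop
  have := hPGn.comap N.subtype
  rwa [hPG, Subgroup.comap_map_eq_self_of_injective N.subtype_injective] at this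

end Cfsg.Agent.S0070
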