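import Cfsg.Statements.S0071
import Cfsg.Agent.Lib.NormalPComplement.Frobenius

set_option autoImplicit false
open Cfsg

namespace Cfsg.Agent.S0071

open CfsgLib.NormalPComplement
/-- The Frobenius normal p-complement Theorem states that a Sylow p-subgroup has a normal complement exactly when, for each of its subgroups Q, every element of the normalizer of Q of order prime to p centralizes Q. -/
theorem result {G : Type*} [Group G] [Finite G] {p : ℕ} [Fact p.Prime] (P : Sylow p G) : (∃ N : Subgroup G, N.Normal ∧ N.IsComplement' (P : Subgroup G)) ↔ ∀ Q : Subgroup G, Q ≤ (P : Subgroup G) → ∀ g ∈ Subgroup.normalizer (Q : Set G), Nat.Coprime (orderOf g) p → g ∈ Subgroup.centralizer (Q : Set G) := by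
  constructor
  · rintro ⟨N, hN, hc⟩ Q hQ g hg hcop
    exact (hasNormalPComplement_iff_frobeniusCondition.mp (⟨P, N, hN, hc⟩ : HasNormalPComplement p G))
      Q (P.2.to_le hQ) g hg hcop
  · intro h
    refine ⟨pPrimeCore p G, inferInstance, isComplement'_pPrimeCore
      (hasNormalPComplement_of_frobeniusCondition fun Q hQ g hg hcop => ?_) P⟩
    obtain ⟨S, hS⟩ := hQ.exists_le_sylow
    obtain ⟨u, hu⟩ := MulAction.exists_smul_eq G S P
    set Q' := Q.map (MulAut.conj u).toMonoidHom with hQ'
    have hQP : Q' ≤ (P : Subgroup G) := by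
      rw [← hu]
      exact Subgroup.map_mono hS
    have hg' : u * g * u⁻¹ ∈ Subgroup.normalizer (Q' : Set G) :=
      Subgroup.le_normalizer_map (MulAut.conj u).toMonoidHom ⟨g, hg, rfl⟩
    have hc := h Q' hQP (u * g * u⁻¹) hg' (by
      rw [show u * g * u⁻¹ = (MulAut.conj u).toMonoidHom g from rfl,
        orderOf_injective _ (MulEquiv.injective _)]
      exact hcop)
    intro x hx
    have h2 : u * x * u⁻¹ * (u * g * u⁻¹) = u * g * u⁻¹ * (u * x * u⁻¹) := hc _ ⟨x, hx, rfl⟩
    rwa [show u * x * u⁻¹ * (u * g * u⁻¹) = u * (x * g) * u⁻¹ by group,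
      show u * g * u⁻¹ * (u * x * u⁻¹) = u * (g * x) * u⁻¹ by group, mul_left_inj, mul_right_inj] at h2

end Cfsg.Agent.S0071
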