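import Cfsg.Statements.S0072
import Cfsg.Agent.Lib.NormalPComplement.Frobenius

set_option autoImplicit false
open Cfsg

namespace Cfsg.Agent.S0072

open CfsgLib.NormalPComplement
/-- A finite group has a normal p-complement if and only if every p-local subgroup (normalizer of a nontrivial p-subgroup) has one. -/
theorem result {G : Type*} [Group G] [Finite G] (p : ℕ) [Fact p.Prime] : Cfsg.HasNormalPComplement p G ↔ ∀ Q : Subgroup G, IsPGroup p Q → Q ≠ ⊥ → Cfsg.HasNormalPComplement p (Subgroup.normalizer (Q : Set G)) := by
  exact ⟨fun h Q _ _ => hasNormalPComplement_subgroup h _, hasNormalPComplement_of_local⟩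

end Cfsg.Agent.S0072
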