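import Cfsg.Statements.S0073
import Cfsg.Agent.Lib.Transfer.Abelian

set_option autoImplicit false
open Cfsg

namespace Cfsg.Agent.S0073

open CfsgLib.Transfer Subgroup
open scoped commutatorElement
/-- For a finite non-abelian simple group, either the cube of the least prime divisor of the order divides the order, or 12 does. -/
theorem result {G : Type*} [Group G] [Finite G] [IsSimpleGroup G] (hG : ∃ x y : G, x * y ≠ y * x) : (Nat.card G).minFac ^ 3 ∣ Nat.card G ∨ 12 ∣ Nat.card G := by
  obtain ⟨x, y, hxy⟩ := hG
  have hn1 : Nat.card G ≠ 1 := fun h => hxy (by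
    have := (Nat.card_eq_one_iff_unique.mp h).1
    exact Subsingleton.elim _ _)
  set p := (Nat.card G).minFac with hp
  have : Fact p.Prime := ⟨Nat.minFac_prime hn1⟩
  have hpdvd : p ∣ Nat.card G := Nat.minFac_dvd _
  refine or_iff_not_imp_left.mpr fun h3 => ?_
  let P : Sylow p G := default
  obtain ⟨k, hk⟩ := P.2.exists_card_eq
  have hk2 : k ≤ 2 := by
    by_contra hlt
    exact h3 (((pow_dvd_pow p (by omega : 3 ≤ k)).trans (hk.symm.dvd)).trans (card_subgroup_dvd_card _))
  have hk1 : 1 ≤ k := by
    by_contra hlt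
    have := P.dvd_card_of_dvd_card hpdvd
    rw [hk, show k = 0 by omega, pow_zero, Nat.dvd_one] at this
    exact (Fact.out : p.Prime).one_lt.ne' this
  have hno : ¬ normalizer (P : Set G) ≤ centralizer (P : Set G) := by
    intro h
    obtain ⟨N, hN⟩ : ∃ N : Subgroup G, N.Normal ∧ N.IsComplement' (P : Subgroup G) :=
      ⟨_, (MonoidHom.transferSylow P h).normal_ker, MonoidHom.ker_transferSylow_isComplement' P h⟩
    rcases hN.1.eq_bot_or_eq_top with rfl | rfl
    · have htop : (P : Subgroup G) = ⊤ := by simpa using hN.2.sup_eq_top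
      have hc : IsMulCommutative (P : Subgroup G) :=
        ⟨⟨fun a b => Subtype.ext (h (le_normalizer b.2) a a.2)⟩⟩
      exact hxy (congrArg Subtype.val (hc.is_comm.comm (⟨x, htop ▸ mem_top x⟩ : (P : Subgroup G))
        ⟨y, htop ▸ mem_top y⟩))
    · exact not_dvd_card_normalComplement P hN.2 (by rw [card_top]; exact hpdvd)
  interval_cases k
  · exact absurd (IsCyclic.normalizer_le_centralizer rfl
      (isCyclic_of_prime_card (p := p) (by simpa using hk) : IsCyclic (P : Subgroup G))) hno
  · have hP : IsMulCommutative (P : Subgroup G) := ⟨⟨IsPGroup.commutative_of_card_eq_prime_sq hk⟩⟩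
    by_contra h12
    refine hno (normalizer_le_centralizer_of_primes P hP hk fun q hq hqp hqG j hj1 hj2 hdvd => ?_)
    have hpq : p < q := lt_of_le_of_ne (Nat.minFac_le_of_dvd hq.two_le hqG) (Ne.symm hqp)
    have hp2 : 2 ≤ p := (Fact.out : p.Prime).two_le
    have hq1 : q ∣ p + 1 := by
      interval_cases j
      · rw [pow_one] at hdvd
        have := Nat.le_of_dvd (by omega) hdvd
        omega
      · have h2 : p ^ 2 - 1 = (p + 1) * (p - 1) := by
          simpa using Nat.sq_sub_sq p 1
        rw [h2] at hdvd
        rcases hq.dvd_mul.mp hdvd with h' | h'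
        · exact h'
        · have := Nat.le_of_dvd (by omega) h'
          omega
    have hle := Nat.le_of_dvd (by omega) hq1
    have hq : q = p + 1 := by omega
    have hpe : p = 2 := by
      by_contra hne
      have h1 : Odd p := (Fact.out : p.Prime).odd_of_ne_two hne
      have h2 : Odd q := Nat.Prime.odd_of_ne_two ‹_› (by omega)
      rw [hq, Nat.odd_add_one] at h2
      exact h2 h1
    refine h12 ?_
    have h4 : 4 ∣ Nat.card G := by
      have := hk.symm.dvd.trans (card_subgroup_dvd_card (P : Subgroup G))
      rwa [hpe] at this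
    have h3' : 3 ∣ Nat.card G := by rwa [hq, hpe] at hqG
    exact Nat.Coprime.mul_dvd_of_dvd_of_dvd (by norm_num : Nat.Coprime 4 3) h4 h3'

end Cfsg.Agent.S0073
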