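import Cfsg.Statements.S0076
import Cfsg.Agent.Lib.Transfer.Fusion

set_option autoImplicit false
open Cfsg

namespace Cfsg.Agent.S0076

open CfsgLib.Transfer Subgroup
open scoped commutatorElement
theorem mem_normalizer_iff_image_conj {G : Type*} [Group G] {S : Set G} {g : G} :
    g ∈ normalizer S ↔ (fun y => g * y * g⁻¹) '' S = S := by
  constructor
  · intro h
    ext y
    constructor
    · rintro ⟨x, hx, rfl⟩; exact (h x).mp hx
    · intro hy
      refine ⟨g⁻¹ * y * g, (h _).mpr ?_, by group⟩
      convert hy using 1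
      group
  · intro h n
    constructor
    · intro hn; rw [← h]; exact ⟨n, hn, rfl⟩
    · intro hn
      rw [← h] at hn
      obtain ⟨x, hx, hxe⟩ := hn
      rwa [← mul_left_cancel (mul_right_cancel hxe)]

/-- Two P-invariant subsets of a Sylow p-subgroup P that are conjugate in G are conjugate under the normalizer of P. -/
theorem result {G : Type*} [Group G] [Finite G] {p : ℕ} [Fact p.Prime] (P : Sylow p G) (X Y : Set G) (hXP : X ⊆ P) (hYP : Y ⊆ P) (hX : ∀ x ∈ P, (fun y => x * y * x⁻¹) '' X = X) (hY : ∀ x ∈ P, (fun y => x * y * x⁻¹) '' Y = Y) (g : G) (hg : (fun y => g * y * g⁻¹) '' X = Y) : ∃ n ∈ Subgroup.normalizer (P : Set G), (fun y => n * y * n⁻¹) '' X = Y := by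
  have hPY : (P : Subgroup G) ≤ normalizer Y := by
    intro x hx
    rw [mem_normalizer_iff_image_conj]
    exact hY x hx
  obtain rfl := hg
  set Y := (fun y => g * y * g⁻¹) '' X with hYdef
  have hgPY : ((g • P : Sylow p G) : Subgroup G) ≤ normalizer Y := by
    rintro _ ⟨x, hx, rfl⟩
    rw [mem_normalizer_iff_image_conj, hYdef, Set.image_image]
    change (fun y => g * x * g⁻¹ * (g * y * g⁻¹) * (g * x * g⁻¹)⁻¹) '' X = _
    conv_rhs => rw [← hX x hx, Set.image_image]
    exact Set.image_congr fun y _ => by group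
  obtain ⟨h, hh⟩ := MulAction.exists_smul_eq (normalizer Y) ((g • P).subtype hgPY) (P.subtype hPY)
  simp_rw [Sylow.smul_subtype, Subgroup.smul_def, smul_smul] at hh
  refine ⟨h * g, Sylow.smul_eq_iff_mem_normalizer.mp (Sylow.subtype_injective hh), ?_⟩
  have h2 : (fun y => (h : G) * y * (h : G)⁻¹) '' Y = Y := mem_normalizer_iff_image_conj.mp h.2
  calc (fun y => (h : G) * g * y * ((h : G) * g)⁻¹) '' X
      = (fun y => (h : G) * y * (h : G)⁻¹) '' ((fun y => g * y * g⁻¹) '' X) := by
        rw [Set.image_image]; exact Set.image_congr fun y _ => by group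
    _ = Y := h2

end Cfsg.Agent.S0076
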