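import Cfsg.Statements.S0078
import Cfsg.Agent.Lib.Transfer.Fusion

set_option autoImplicit false
open Cfsg

namespace Cfsg.Agent.S0078

open CfsgLib.Transfer Subgroup
open scoped commutatorElement
/-- In a p-normal group, a Sylow p-subgroup P meets O^p(G) exactly where it meets O^p(V), for any subgroup V containing the normalizer of the centre of P. -/
theorem result {G : Type*} [Group G] [Finite G] {p : ℕ} [Fact p.Prime] (P : Sylow p G) (hn : ∀ Q : Sylow p G, (P : Subgroup G) ⊓ Subgroup.centralizer (P : Set G) ≤ (Q : Subgroup G) → (Q : Subgroup G) ⊓ Subgroup.centralizer (Q : Set G) = (P : Subgroup G) ⊓ Subgroup.centralizer (P : Set G)) (V : Subgroup G) (hV : Subgroup.normalizer (((P : Subgroup G) ⊓ Subgroup.centralizer (P : Set G) : Subgroup G) : Set G) ≤ V) : (P : Subgroup G) ⊓ Cfsg.pResidual p G = (P : Subgroup G) ⊓ (Cfsg.pResidual p V).map V.subtype := by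
  set Z := (P : Subgroup G) ⊓ centralizer (P : Set G) with hZdef
  have hPN : (P : Subgroup G) ≤ normalizer (Z : Set G) := by
    intro x hx
    refine mem_normalizer_iff.mpr fun z => ?_
    constructor
    · intro hz
      have : x * z = z * x := hz.2 x hx
      rwa [this, mul_inv_cancel_right]
    · intro hz
      have h1 : x * (x * z * x⁻¹) = x * z * x⁻¹ * x := hz.2 x hx
      rw [inv_mul_cancel_right, mul_right_inj] at h1
      exact h1 ▸ hz
  have hW : IsWeaklyClosed Z P := by
    refine ⟨inf_le_left, fun g hle => ?_⟩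
    have hQ : Z ≤ ((g⁻¹ • P : Sylow p G) : Subgroup G) := fun z hz =>
      ⟨g * z * g⁻¹, hle ⟨z, hz, rfl⟩, by simp [mul_assoc]⟩
    have hmem : ∀ x : G, x ∈ ((g⁻¹ • P : Sylow p G) : Subgroup G) ↔ g * x * g⁻¹ ∈ (P : Subgroup G) := by
      intro x
      constructor
      · rintro ⟨y, hy, rfl⟩
        convert hy using 1
        simp [mul_assoc]
        exact Iff.rfl
      · intro hx
        exact ⟨_, hx, by simp [mul_assoc]⟩
    have h := hn _ hQ
    ext w
    constructor
    · rintro ⟨z, hz, rfl⟩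
      refine ⟨hle ⟨z, hz, rfl⟩, fun v hv => ?_⟩
      rw [← h] at hz
      have hv' : g * (g⁻¹ * v * g) * g⁻¹ ∈ (P : Subgroup G) := by rw [show g * (g⁻¹ * v * g) * g⁻¹ = v by group]; exact hv
      have hc : (g⁻¹ * v * g) * z = z * (g⁻¹ * v * g) := hz.2 _ ((hmem _).mpr hv')
      change v * (g * z * g⁻¹) = g * z * g⁻¹ * v
      calc v * (g * z * g⁻¹) = g * ((g⁻¹ * v * g) * z) * g⁻¹ := by group
        _ = g * (z * (g⁻¹ * v * g)) * g⁻¹ := by rw [hc]
        _ = g * z * g⁻¹ * v := by group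
    · intro hw
      refine ⟨g⁻¹ * w * g, ?_, by simp [mul_assoc]⟩
      rw [SetLike.mem_coe, ← h]
      refine ⟨(hmem _).mpr (by rw [show g * (g⁻¹ * w * g) * g⁻¹ = w by group]; exact hw.1), fun v hv => ?_⟩
      have hc : (g * v * g⁻¹) * w = w * (g * v * g⁻¹) := hw.2 _ ((hmem v).mp hv)
      calc v * (g⁻¹ * w * g) = g⁻¹ * ((g * v * g⁻¹) * w) * g := by group
        _ = g⁻¹ * (w * (g * v * g⁻¹)) * g := by rw [hc]
        _ = g⁻¹ * w * g * v := by group
  exact inf_pResidual_eq_of_control P (hPN.trans hV) fun x hx u hy => by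
    obtain ⟨w, hw, hwe⟩ := weaklyClosed_control P inf_le_right hW x hx u hy
    exact ⟨w, hV hw, hwe⟩

end Cfsg.Agent.S0078
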