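import Cfsg.Statements.S0079
import Cfsg.Agent.Lib.Transfer.Hall

set_option autoImplicit false
open Cfsg

namespace Cfsg.Agent.S0079

open CfsgLib.Transfer Subgroup
open scoped commutatorElement
/-- A nilpotent Hall subgroup has a normal complement exactly when elements of it that are conjugate in the whole group are already conjugate inside it. -/
theorem result {G : Type*} [Group G] [Finite G] (H : Subgroup G) (hH : Group.IsNilpotent H) (hHall : Nat.Coprime (Nat.card H) H.index) : (∃ N : Subgroup G, N.Normal ∧ N.IsComplement' H) ↔ ∀ x ∈ H, ∀ y ∈ H, (∃ g : G, g * x * g⁻¹ = y) → ∃ h ∈ H, h * x * h⁻¹ = y := by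
  refine ⟨fun ⟨N, hN, hc⟩ x hx y hy ⟨g, hg⟩ => ?_, normalComplement_of_no_fusion H hH hHall⟩
  obtain ⟨n, hn, h, hh, rfl⟩ := mem_sup_of_normal_left.mp (hc.sup_eq_top ▸ mem_top g)
  refine ⟨h, hh, mul_inv_eq_one.mp (mem_bot.mp (hc.disjoint.eq_bot ▸ ?_))⟩
  refine mem_inf.mpr ⟨?_, mul_mem (mul_mem (mul_mem hh hx) (inv_mem hh)) (inv_mem hy)⟩
  have : h * x * h⁻¹ * y⁻¹ = n⁻¹ * (y * n * y⁻¹) := by rw [← hg]; group
  rw [this]
  exact mul_mem (inv_mem hn) (hN.conj_mem n hn y)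

end Cfsg.Agent.S0079
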