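import Cfsg.Statements.S0080
import Cfsg.Agent.Lib.Transfer.Fusion

set_option autoImplicit false
open Cfsg

namespace Cfsg.Agent.S0080

open CfsgLib.Transfer Subgroup
open scoped IsMulCommutative
/-- When the index of H is prime to the order of H/H', the focal subgroup of H is G' ∩ H, and H/(G' ∩ H) has a normal complement. -/
theorem result {G : Type*} [Group G] [Finite G] (H : Subgroup G) (h : Nat.Coprime H.index (⁅H, H⁆.relIndex H)) : Subgroup.focalSubgroup H = commutator G ⊓ H ∧ ∃ N : Subgroup G, N.Normal ∧ N ⊓ H = commutator G ⊓ H ∧ N ⊔ H = ⊤ := by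
  set V := H.transferFocal with hV
  set m := H.index with hm
  have hcard : (Nat.card (H ⧸ H.focalSubgroupOf)).Coprime m := by
    refine Nat.Coprime.coprime_dvd_left ?_ h.symm
    change H.focalSubgroupOf.index ∣ _
    rw [focalSubgroupOf_def]
    exact relIndex_dvd_of_le_left H (commutator_le_focalSubgroup H)
  have hbij := (powCoprime hcard).bijective
  have hres : ∀ x : H, V x = (x : H ⧸ H.focalSubgroupOf) ^ m := transferFocal_eq_pow H
  have hker : V.ker ⊓ H = H.focalSubgroup := by
    ext x
    constructor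
    · rintro ⟨hx, hxH⟩
      have h2 := hres ⟨x, hxH⟩
      rw [show V x = 1 from hx] at h2
      have : ((⟨x, hxH⟩ : H) : H ⧸ H.focalSubgroupOf) = 1 :=
        hbij.1 (by simpa [powCoprime] using h2.symm)
      exact (QuotientGroup.eq_one_iff (N := H.focalSubgroupOf) (⟨x, hxH⟩ : H)).mp this
    · intro hx
      refine ⟨?_, H.focalSubgroup_le hx⟩
      have h2 := hres ⟨x, H.focalSubgroup_le hx⟩
      rw [(QuotientGroup.eq_one_iff _).mpr (show (⟨x, _⟩ : H) ∈ H.focalSubgroupOf from hx), one_pow] at h2
      exact h2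
  have e : H.focalSubgroup = _root_.commutator G ⊓ H := by
    refine le_antisymm (le_inf H.focalSubgroup_le_commutator H.focalSubgroup_le) ?_
    rw [← hker]
    exact inf_le_inf_right _ (Abelianization.commutator_subset_ker V)
  refine ⟨e, V.ker, V.normal_ker, hker.trans e, eq_top_iff.mpr fun g _ => ?_⟩
  obtain ⟨x, hx⟩ := hbij.2 (V g)
  obtain ⟨x, rfl⟩ := QuotientGroup.mk'_surjective _ x
  have hx' : V x = V g := (hres x).trans hx
  rw [show g = g * (x : G)⁻¹ * (x : G) by group]
  refine mul_mem_sup (MonoidHom.mem_ker.mpr ?_) x.2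
  rw [map_mul, map_inv, hx', mul_inv_cancel]

end Cfsg.Agent.S0080
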