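import Cfsg.Statements.S0082
import Cfsg.Agent.Lib.Transfer.Abelian
import Cfsg.Agent.Lib.BGAppendix.Basic

set_option autoImplicit false
open Cfsg

namespace Cfsg.Agent.S0082

open CfsgLib.Transfer Subgroup
open scoped commutatorElement
theorem exists_orderOf_eq_prime {G : Type*} [Group G] [Finite G] {p : ℕ} [Fact p.Prime]
    {H : Subgroup G} (h : H ≠ ⊥) (hH : IsPGroup p H) : ∃ a ∈ H, orderOf a = p := by
  obtain ⟨k, hk⟩ := hH.exists_card_eq
  rcases k with _ | k
  · exact absurd (card_eq_one.mp hk) h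
  obtain ⟨a, ha⟩ := exists_prime_orderOf_dvd_card' (G := H) p (hk ▸ dvd_pow_self p k.succ_ne_zero)
  exact ⟨a, a.2, by rw [Subgroup.orderOf_coe]; exact ha⟩

/-- With a cyclic Sylow p-subgroup, either there is a normal p-complement or the elements of order prime to p generate the whole group. -/
theorem result {G : Type*} [Group G] [Finite G] {p : ℕ} [Fact p.Prime] (P : Sylow p G) (hP : IsCyclic P) : Cfsg.HasNormalPComplement p G ∨ Cfsg.pResidual p G = ⊤ := by
  have hc : IsMulCommutative (P : Subgroup G) := IsCyclic.isMulCommutative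
  obtain ⟨hinf, hsup⟩ := abelian_decomp P hc
  rw [← abelian_inf_pResidual P hc] at hinf hsup
  set C := (P : Subgroup G) ⊓ centralizer (normalizer (P : Set G) : Set G)
  set R := (P : Subgroup G) ⊓ pResidual p G with hR
  by_cases hCb : C = ⊥
  · right
    rw [hCb, bot_sup_eq] at hsup
    rw [← sylow_sup_pResidual_eq_top P, sup_eq_right.mpr (hsup ▸ inf_le_right)]
  · left
    refine hasNormalPComplement_of_inf_eq_bot P ?_
    by_contra hRb
    -- two subgroups of order `p` in a cyclic group coincide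
    obtain ⟨a, ha, ha'⟩ := exists_orderOf_eq_prime hCb (P.2.to_le inf_le_left)
    obtain ⟨b, hb, hb'⟩ := exists_orderOf_eq_prime hRb (P.2.to_le inf_le_left)
    have h1 : Nat.card (zpowers (⟨a, ha.1⟩ : (P : Subgroup G))) =
        Nat.card (zpowers (⟨b, hb.1⟩ : (P : Subgroup G))) := by
      rw [Nat.card_zpowers, Nat.card_zpowers, orderOf_mk, orderOf_mk, ha', hb']
    have h2 := CfsgLib.BGAppendix.eq_of_card_eq_of_le_cyclic (⊤ : Subgroup (P : Subgroup G)) _ _
      (isCyclic_of_surjective _ Subgroup.topEquiv.symm.surjective) le_top le_top h1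
    obtain ⟨i, hi⟩ : (⟨a, ha.1⟩ : (P : Subgroup G)) ∈ zpowers (⟨b, hb.1⟩ : (P : Subgroup G)) :=
      h2 ▸ mem_zpowers _
    have hab : a ∈ R := by
      have : a = b ^ i := (congrArg Subtype.val hi).symm.trans (by simp)
      rw [this]; exact zpow_mem hb i
    have : a = 1 := mem_bot.mp (hinf ▸ ⟨ha, hab⟩)
    rw [this, orderOf_one] at ha'
    exact (Fact.out : p.Prime).one_lt.ne ha'

end Cfsg.Agent.S0082
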