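import Cfsg.Statements.S0083
import Cfsg.Agent.Lib.Transfer.Abelian

set_option autoImplicit false
open Cfsg

namespace Cfsg.Agent.S0083

open CfsgLib.Transfer Subgroup
open scoped commutatorElement
/-- For an abelian Sylow p-subgroup P, a normal p-complement exists exactly when the normalizer of P is an internal direct product of P with some subgroup. -/
theorem result {G : Type*} [Group G] [Finite G] {p : ℕ} [Fact p.Prime] (P : Sylow p G) (hP : IsMulCommutative P) : Cfsg.HasNormalPComplement p G ↔ ∃ Q : Subgroup G, Q ≤ Subgroup.centralizer (P : Set G) ∧ Q ⊓ (P : Subgroup G) = ⊥ ∧ Q ⊔ (P : Subgroup G) = Subgroup.normalizer (P : Set G) := by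
  constructor
  · intro h
    have hKP : pResidual p G ⊓ (P : Subgroup G) = ⊥ := by
      obtain ⟨R, C, hCn, hC⟩ := h
      refine disjoint_iff.mp (disjoint_of_coprime_natCard ?_)
      obtain ⟨k, hk⟩ := P.2.exists_card_eq
      rw [hk]
      refine Nat.Coprime.pow_right k ((Fact.out : p.Prime).coprime_iff_not_dvd.mpr fun hd => ?_).symm
      exact not_dvd_card_normalComplement R hC (hd.trans (card_dvd_of_le (pResidual_le_normalComplement R hC)))
    have hKn := pResidual_normal (G := G) (p := p)
    refine ⟨pResidual p G ⊓ normalizer (P : Set G), fun q hq x hx => ?_, ?_, ?_⟩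
    · have h1 : x * q * x⁻¹ * q⁻¹ ∈ pResidual p G ⊓ (P : Subgroup G) := by
        have hqK : q ∈ pResidual p G := hq.1
        refine mem_inf.mpr ⟨mul_mem (hKn.conj_mem q hqK x) (inv_mem hqK), ?_⟩
        rw [mul_assoc x q, mul_assoc x (q * x⁻¹)]
        have hx' : x ∈ (P : Subgroup G) := hx
        exact mul_mem hx' ((hq.2 _).mp (inv_mem hx' : x⁻¹ ∈ (P : Subgroup G)))
      rw [hKP, mem_bot, mul_inv_eq_one, mul_inv_eq_iff_eq_mul] at h1
      exact h1
    · rw [inf_right_comm, hKP, bot_inf_eq]
    · refine le_antisymm (sup_le inf_le_right le_normalizer) fun n hn => ?_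
      obtain ⟨x, hx, k, hk, hkK, rfl⟩ := mem_normalizer_split P hn
      exact mul_mem (mem_sup_right hx) (mem_sup_left ⟨map_subtype_pResidual_le _ hkK, hk⟩)
  · rintro ⟨Q, hQc, -, hsup⟩
    refine hasNormalPComplement_of_le_centralizer P (hsup ▸ sup_le hQc fun x hx y hy => ?_)
    exact congrArg Subtype.val (hP.is_comm.comm (⟨y, hy⟩ : (P : Subgroup G)) ⟨x, hx⟩)

end Cfsg.Agent.S0083
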