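import Cfsg.Statements.S0086
import Cfsg.Agent.Lib.Transfer.Residual

set_option autoImplicit false
open Cfsg

namespace Cfsg.Agent.S0086

open CfsgLib.Transfer Subgroup
open scoped commutatorElement
/-- A normal complement to a Sylow p-subgroup is exactly the set of elements of order prime to p. -/
theorem result {G : Type*} [Group G] [Finite G] {p : ℕ} [Fact p.Prime] (P : Sylow p G) (N : Subgroup G) [N.Normal] (hN : N.IsComplement' (P : Subgroup G)) (x : G) : x ∈ N ↔ Nat.Coprime (orderOf x) p := by
  refine ⟨fun hx => ?_, fun hx => pResidual_le_normalComplement P hN (mem_pResidual_of_coprime hx)⟩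
  exact Nat.Coprime.coprime_dvd_left (orderOf_dvd_natCard N hx)
    ((Fact.out : p.Prime).coprime_iff_not_dvd.mpr (not_dvd_card_normalComplement P hN)).symm

end Cfsg.Agent.S0086
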