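import Cfsg.Statements.S0088
import Cfsg.Agent.Lib.Transfer.Residual

set_option autoImplicit false
open Cfsg

namespace Cfsg.Agent.S0088

open CfsgLib.Transfer Subgroup
open scoped IsMulCommutative
/-- An abelian Hall subgroup meets G' ∩ Z(G) trivially. -/
theorem result {G : Type*} [Group G] [Finite G] (H : Subgroup G) (hc : IsMulCommutative H) (hHall : Nat.Coprime (Nat.card H) H.index) : H ⊓ commutator G ⊓ Subgroup.center G = ⊥ := by
  refine eq_bot_iff.mpr fun z hz => ?_
  obtain ⟨⟨hzH, hzG⟩, hzZ⟩ := hz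
  have := hc
  let f : G →* H := MonoidHom.transfer (MonoidHom.id H)
  have key : ∀ (k : ℕ) (g₀ : G), g₀⁻¹ * z ^ k * g₀ ∈ H → g₀⁻¹ * z ^ k * g₀ = z ^ k := fun k g₀ _ => by
    rw [mul_assoc, ← mem_center_iff.mp (pow_mem hzZ k) g₀, inv_mul_cancel_left]
  have h1 : f z = 1 := Abelianization.commutator_subset_ker f hzG
  rw [show f z = _ from MonoidHom.transfer_eq_pow _ z key] at h1
  have h2 : z ^ H.index = 1 := congrArg Subtype.val h1
  rw [mem_bot]
  exact orderOf_eq_one_iff.mp (Nat.eq_one_of_dvd_coprimes hHall (orderOf_dvd_natCard H hzH)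
    (orderOf_dvd_of_pow_eq_one h2))

end Cfsg.Agent.S0088
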