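import Cfsg.Statements.S0089
import Cfsg.Agent.Lib.Transfer.Residual
import Cfsg.Agent.S0088

set_option autoImplicit false
open Cfsg

namespace Cfsg.Agent.S0089

open CfsgLib.Transfer Subgroup
open scoped commutatorElement
/-- When all Sylow subgroups are abelian, the derived subgroup meets the centre trivially. -/
theorem result {G : Type*} [Group G] [Finite G] (h : ∀ p : ℕ, p.Prime → ∀ P : Sylow p G, IsMulCommutative P) : commutator G ⊓ Subgroup.center G = ⊥ := by
  refine eq_bot_iff.mpr fun z hz => mem_bot.mpr ?_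
  by_contra hne
  obtain ⟨q, hq, hdvd⟩ := Nat.exists_prime_and_dvd (mt orderOf_eq_one_iff.mp hne)
  have : Fact q.Prime := ⟨hq⟩
  set w := z ^ (orderOf z / q) with hw
  have hwo : orderOf w = q := orderOf_pow_orderOf_div (orderOf_pos z).ne' hdvd
  obtain ⟨P, hP⟩ := (IsPGroup.of_card (p := q) (n := 1)
    (show Nat.card (zpowers w) = q ^ 1 by rw [Nat.card_zpowers, hwo, pow_one])).exists_le_sylow
  obtain ⟨k, hk⟩ := P.2.exists_card_eq
  have hcop : Nat.Coprime (Nat.card (P : Subgroup G)) (P : Subgroup G).index := by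
    rw [hk]
    exact Nat.Coprime.pow_left k (hq.coprime_iff_not_dvd.mpr P.not_dvd_index)
  have hb : w ∈ (⊥ : Subgroup G) := by
    rw [← Cfsg.Agent.S0088.result (P : Subgroup G) (h q hq P) hcop]
    exact ⟨⟨hP (mem_zpowers w), pow_mem hz.1 _⟩, pow_mem hz.2 _⟩
  rw [mem_bot.mp hb, orderOf_one] at hwo
  exact hq.one_lt.ne hwo

end Cfsg.Agent.S0089
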