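import Cfsg.Statements.S0090
import Cfsg.Agent.Lib.Transfer.Hall
import Cfsg.Agent.Lib.CoprimeAction.Abelian
import Cfsg.Agent.S0088

set_option autoImplicit false
open Cfsg

namespace Cfsg.Agent.S0090

open CfsgLib.Transfer Subgroup
open scoped commutatorElement
/-- An abelian normal Hall subgroup A splits as the internal direct product of G' ∩ A and Z(G) ∩ A, and [A, G] = G' ∩ A. -/
theorem result {G : Type*} [Group G] [Finite G] (A : Subgroup G) [A.Normal] (hc : IsMulCommutative A) (hHall : Nat.Coprime (Nat.card A) A.index) : ⁅A, (⊤ : Subgroup G)⁆ = commutator G ⊓ A ∧ (commutator G ⊓ A) ⊓ (Subgroup.center G ⊓ A) = ⊥ ∧ (commutator G ⊓ A) ⊔ (Subgroup.center G ⊓ A) = A := by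
  obtain ⟨K, hK⟩ := exists_right_complement'_of_coprime hHall
  have hKn : K ≤ normalizer (A : Set G) := normalizer_eq_top (H := A) ▸ le_top
  have hcop : (Nat.card K).Coprime (Nat.card A) := by
    rw [← hK.symm.index_eq_card]; exact hHall.symm
  have hsplit : ∀ g : G, ∃ a ∈ A, ∃ k ∈ K, a * k = g := fun g =>
    mem_sup_of_normal_left.mp (hK.sup_eq_top ▸ mem_top g)
  have : IsMulCommutative A := hc
  have hcomm : ∀ x ∈ A, ∀ a ∈ A, a * x = x * a := fun x hx a ha =>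
    congrArg Subtype.val (hc.is_comm.comm (⟨a, ha⟩ : A) ⟨x, hx⟩)
  have hZ : A ⊓ centralizer (K : Set G) = center G ⊓ A := by
    ext z
    refine ⟨fun hz => ⟨mem_center_iff.mpr fun g => ?_, hz.1⟩,
      fun hz => ⟨hz.2, fun k _ => mem_center_iff.mp hz.1 k⟩⟩
    obtain ⟨a, ha, k, hk, rfl⟩ := hsplit g
    exact (Commute.mul_left (hcomm z hz.1 a ha) (hz.2 k hk)).eq
  have hsup := CfsgLib.CoprimeAction.sup_commutator_eq hKn hcop
  rw [hZ] at hsup
  have hle : ⁅A, (⊤ : Subgroup G)⁆ ≤ _root_.commutator G ⊓ A :=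
    le_inf (commutator_mono le_top le_rfl) (commutator_le_left A ⊤)
  have hbot : (_root_.commutator G ⊓ A) ⊓ (center G ⊓ A) = ⊥ :=
    eq_bot_iff.mpr fun z hz => (Cfsg.Agent.S0088.result A hc hHall).le ⟨⟨hz.1.2, hz.1.1⟩, hz.2.1⟩
  have hKA : ⁅A, K⁆ ≤ ⁅A, (⊤ : Subgroup G)⁆ := commutator_mono le_rfl le_top
  refine ⟨le_antisymm hle fun z hz => ?_, hbot, le_antisymm (sup_le inf_le_right inf_le_right) ?_⟩
  · have hz' : z ∈ (center G ⊓ A) ⊔ ⁅A, K⁆ := hsup.symm ▸ hz.2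
    obtain ⟨c, hc', w, hw, rfl⟩ := mem_sup_of_normal_left.mp hz'
    have hwG : w ∈ _root_.commutator G ⊓ A := hle (hKA hw)
    have hcG : c ∈ _root_.commutator G := by
      have := mul_mem (mem_inf.mp hz).1 (inv_mem (mem_inf.mp hwG).1)
      rwa [mul_inv_cancel_right] at this
    have : c = 1 := mem_bot.mp (hbot ▸ ⟨⟨hcG, hc'.2⟩, hc'⟩)
    rw [this, one_mul]
    exact hKA hw
  · calc A = (center G ⊓ A) ⊔ ⁅A, K⁆ := hsup.symm
      _ ≤ (_root_.commutator G ⊓ A) ⊔ (center G ⊓ A) :=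
        sup_le le_sup_right ((hKA.trans hle).trans le_sup_left)

end Cfsg.Agent.S0090
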