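import Cfsg.Statements.S0091
import Cfsg.Agent.Lib.Transfer.Fusion

set_option autoImplicit false
open Cfsg

namespace Cfsg.Agent.S0091

open CfsgLib.Transfer Subgroup
open scoped commutatorElement
/-- If a nontrivial Sylow p-subgroup controls its own fusion then it is not contained in the derived subgroup. -/
theorem result {G : Type*} [Group G] [Finite G] {p : ℕ} [Fact p.Prime] (P : Sylow p G) (hp : p ∣ Nat.card G) (h : ∀ x ∈ P, ∀ y ∈ P, (∃ g : G, g * x * g⁻¹ = y) → ∃ z ∈ P, z * x * z⁻¹ = y) : ¬ (P : Subgroup G) ≤ commutator G := by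
  intro hle
  have hbot : (P : Subgroup G) ≠ ⊥ := P.ne_bot_of_dvd_card hp
  have h1 : (P : Subgroup G) ≤ ⁅(P : Subgroup G), (P : Subgroup G)⁆ := by
    calc (P : Subgroup G) = _root_.commutator G ⊓ P := (inf_eq_right.mpr hle).symm
      _ = (P : Subgroup G).focalSubgroup := commutator_inf_eq_focalSubgroup P
      _ ≤ _ := focalSubgroup_le_commutator_of_control fun x hx u hy => h x hx _ hy ⟨u, rfl⟩
  have : Nontrivial (P : Subgroup G) := (nontrivial_iff_ne_bot _).mpr hbot
  have : Group.IsNilpotent (P : Subgroup G) := P.2.isNilpotent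
  have : Group.IsSolvable (P : Subgroup G) := inferInstance
  refine (Group.IsSolvable.commutator_lt_top_of_nontrivial (P : Subgroup G)).ne ?_
  refine map_injective (subtype_injective (P : Subgroup G)) ?_
  rw [map_subtype_commutator, ← MonoidHom.range_eq_map, range_subtype]
  exact le_antisymm (commutator_le_self _) h1

end Cfsg.Agent.S0091
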