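import Cfsg.Statements.S0092
import Cfsg.Agent.Lib.Transfer.Abelian

set_option autoImplicit false
open Cfsg

namespace Cfsg.Agent.S0092

open CfsgLib.Transfer Subgroup
open scoped Pointwise
/-- If the Sylow p-subgroups of O^p(G) are abelian then G splits over O^p(G). -/
theorem result {G : Type*} [Group G] [Finite G] {p : ℕ} [Fact p.Prime] (h : ∀ Q : Sylow p (Cfsg.pResidual p G), IsMulCommutative Q) : ∃ K : Subgroup G, K.IsComplement' (Cfsg.pResidual p G) := by
  set K := pResidual p G with hK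
  have hKn : K.Normal := pResidual_normal
  let Q : Sylow p K := default
  have hQab : IsMulCommutative (Q : Subgroup K) := h Q
  -- `Q = [Q, N_K(Q)]`, so the complement `A` in `N_K(Q)` has no fixed point in `Q`
  have hQres := abelian_inf_pResidual Q hQab
  rw [pResidual_pResidual, inf_top_eq] at hQres
  have hC : (Q : Subgroup K) ⊓ centralizer (normalizer (Q : Set K) : Set K) = ⊥ := by
    have h1 := (abelian_decomp Q hQab).1
    rw [← hQres, inf_right_comm, inf_idem] at h1
    exact h1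
  obtain ⟨A, hAN, hcop, hsplit⟩ := exists_complement_in_normalizer Q
  set A0 := A.map K.subtype with hA0
  set Q0 := (Q : Subgroup K).map K.subtype with hQ0
  set N := normalizer (Q0 : Set G) with hN
  have hAN0 : A0 ≤ N := (Subgroup.map_mono hAN).trans (le_normalizer_map _)
  have hfix : ∀ q ∈ Q0, q ∈ normalizer (A0 : Set G) → q = 1 := by
    rintro _ ⟨q, hq, rfl⟩ hqA
    have hdisj : (Q : Subgroup K) ⊓ A = ⊥ :=
      (disjoint_of_coprime_natCard hcop.symm).eq_bot
    have hqC : q ∈ centralizer (normalizer (Q : Set K) : Set K) := by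
      intro n hn
      obtain ⟨x, hx, a, ha, rfl⟩ := hsplit n hn
      have hxq : x * q = q * x :=
        congrArg Subtype.val (hQab.is_comm.comm (⟨x, hx⟩ : (Q : Subgroup K)) ⟨q, hq⟩)
      have haq : q * a * q⁻¹ * a⁻¹ ∈ (Q : Subgroup K) ⊓ A := by
        refine mem_inf.mpr ⟨?_, ?_⟩
        · rw [mul_assoc q a, mul_assoc q (a * q⁻¹)]
          exact mul_mem hq ((mem_normalizer_iff.mp (hAN ha) _).mp (inv_mem hq))
        · have h1 : (q : G) * (a : G) * (q : G)⁻¹ ∈ A0 := (mem_normalizer_iff.mp hqA _).mp ⟨a, ha, rfl⟩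
          obtain ⟨b, hb, hbe⟩ := h1
          have : b = q * a * q⁻¹ := Subtype.ext hbe
          exact mul_mem (this ▸ hb) (inv_mem ha)
      rw [hdisj, mem_bot, mul_inv_eq_one, mul_inv_eq_iff_eq_mul] at haq
      exact (Commute.mul_left hxq haq.symm).eq
    have : q = 1 := mem_bot.mp (hC ▸ mem_inf.mpr ⟨hq, hqC⟩)
    simp [this]
  -- the Frattini argument: `G = K M`
  set M := N ⊓ normalizer (A0 : Set G) with hM
  have hsplit0 : ∀ x ∈ N, x ∈ K → ∃ q ∈ Q0, ∃ a ∈ A0, q * a = x := by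
    intro x hxN hxK
    have hx' : (⟨x, hxK⟩ : K) ∈ normalizer (Q : Set K) := by
      refine mem_normalizer_iff.mpr fun z => ?_
      have h1 := mem_normalizer_iff.mp hxN (z : G)
      constructor
      · intro hz
        obtain ⟨w, hw, hwe⟩ := h1.mp ⟨z, hz, rfl⟩
        exact (Subtype.ext hwe : w = ⟨x, hxK⟩ * z * ⟨x, hxK⟩⁻¹) ▸ hw
      · intro hz
        obtain ⟨w, hw, hwe⟩ := h1.mpr ⟨_, hz, rfl⟩
        exact (Subtype.ext hwe : w = z) ▸ hw
    obtain ⟨q, hq, a, ha, hqa⟩ := hsplit _ hx'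
    exact ⟨q, ⟨q, hq, rfl⟩, a, ⟨a, ha, rfl⟩, congrArg Subtype.val hqa⟩
  have hQ0N : Q0 ≤ N := le_normalizer
  have hsolv : Group.IsSolvable Q0 := by
    have : Group.IsNilpotent Q0 := ((Q.2.map K.subtype)).isNilpotent
    infer_instance
  have hfr : ∀ n ∈ N, ∃ q ∈ Q0, q⁻¹ * n ∈ M := by
    intro n hn
    set B := A0.map (MulAut.conj n).toMonoidHom with hB
    have hB1 : B ≤ Q0 ⊔ A0 := by
      rintro _ ⟨a, ha, rfl⟩
      have hcN : n * a * n⁻¹ ∈ N := mul_mem (mul_mem hn (hAN0 ha)) (inv_mem hn)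
      obtain ⟨q, hq, a', ha', he⟩ := hsplit0 _ hcN (hKn.conj_mem a (map_subtype_le A ha) n)
      change n * a * n⁻¹ ∈ Q0 ⊔ A0
      rw [← he]
      exact mul_mem_sup hq ha'
    have hBc : (Nat.card B).Coprime (Nat.card Q0) := by
      rw [hB, card_map_of_injective (MulEquiv.injective _), card_map_of_injective K.subtype_injective,
        card_map_of_injective K.subtype_injective]
      exact hcop
    obtain ⟨q, hq, hle⟩ := CfsgLib.CoprimeAction.exists_le_conj_of_coprime hAN0 hB1 hBc (Or.inr hsolv)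
    refine ⟨q, hq, mem_inf.mpr ⟨mul_mem (inv_mem (hQ0N hq)) hn, ?_⟩⟩
    have heq : A0.map (MulAut.conj (q⁻¹ * n)).toMonoidHom = A0 := by
      refine eq_of_le_of_card_ge ?_ (card_map_of_injective (MulEquiv.injective _)).ge
      rintro _ ⟨a, ha, rfl⟩
      have h2 := CfsgLib.CoprimeAction.mem_conj_iff.mp (hle ⟨a, ha, rfl⟩)
      simpa [mul_assoc] using h2
    refine mem_normalizer_iff.mpr fun z => ?_
    conv_rhs => rw [← heq]
    exact (mem_map_iff_mem (MulAut.conj (q⁻¹ * n)).injective).symm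
  let T : Sylow p M := default
  refine ⟨(T : Subgroup M).map M.subtype, isComplement'_of_disjoint_and_mul_eq_univ ?_ ?_⟩
  · rw [disjoint_def]
    rintro _ ⟨t, ht, rfl⟩ htK
    obtain ⟨q, hq, a, ha, hqa⟩ := hsplit0 _ t.2.1 htK
    have hq1 : q = 1 := hfix q hq (by
      have := mul_mem (mem_inf.mp t.2).2 (inv_mem (le_normalizer ha : a ∈ normalizer (A0 : Set G)))
      change (t : G) * a⁻¹ ∈ _ at this
      rwa [show (t : G) = q * a from hqa.symm, mul_inv_cancel_right] at this)
    rw [hq1, one_mul] at hqa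
    obtain ⟨k, hk⟩ := (IsPGroup.iff_orderOf.mp T.2) ⟨t, ht⟩
    have h1 : orderOf (t : G) = p ^ k := by rw [← hk, orderOf_mk, orderOf_coe]
    have h2 : orderOf (t : G) ∣ Nat.card A := by
      rw [← card_map_of_injective (K := A) K.subtype_injective]
      exact orderOf_dvd_natCard A0 (show (t : G) ∈ A0 from hqa ▸ ha)
    obtain ⟨j, hj⟩ := Q.2.exists_card_eq
    refine orderOf_eq_one_iff.mp ?_
    rcases Nat.eq_zero_or_pos k with rfl | hkpos
    · exact h1.trans (pow_zero p)
    rcases Nat.eq_zero_or_pos j with rfl | hjpos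
    · -- `Q` is trivial, so `p` does not divide the order of `K`
      exfalso
      refine Q.not_dvd_index ?_
      rw [card_eq_one.mp (hj.trans (pow_zero p)), index_bot]
      exact ((dvd_pow_self p hkpos.ne').trans (h1 ▸ h2)).trans (card_subgroup_dvd_card A)
    · exfalso
      refine (Fact.out : p.Prime).one_lt.ne' (Nat.eq_one_of_dvd_coprimes hcop ?_ ?_)
      · exact (dvd_pow_self p hkpos.ne').trans (h1 ▸ h2)
      · rw [hj]; exact dvd_pow_self p hjpos.ne'
  · rw [← mul_normal]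
    suffices hh : (T : Subgroup M).map M.subtype ⊔ K = ⊤ by rw [hh, coe_top]
    refine eq_top_iff.mpr ((Sylow.normalizer_sup_eq_top Q).ge.trans (sup_le ?_ le_sup_right))
    intro n hn
    obtain ⟨q, hq, hm⟩ := hfr n hn
    obtain ⟨t, ht, k, hk, htk⟩ := exists_mul_eq T (⟨_, hm⟩ : M)
    have : n = q * ((t : G) * (k : G)) := by
      rw [show (t : G) * (k : G) = q⁻¹ * n from congrArg Subtype.val htk, mul_inv_cancel_left]
    rw [this]
    exact mul_mem (mem_sup_right (map_subtype_le _ hq)) (mul_mem_sup ⟨t, ht, rfl⟩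
      (map_subtype_pResidual_le M ⟨k, hk, rfl⟩))

end Cfsg.Agent.S0092
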