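import Cfsg.Statements.S0095
import Cfsg.Agent.Lib.Transfer.Extraspecial

set_option autoImplicit false
open Cfsg

namespace Cfsg.Agent.S0095

open CfsgLib.Transfer Subgroup
/-- The order of an extraspecial p-group is an odd power p^(2n+1) of p with n ≥ 1. -/
theorem result {P : Type*} [Group P] [Finite P] {p : ℕ} [Fact p.Prime] (h : Cfsg.IsExtraspecial p P) : ∃ n : ℕ, 1 ≤ n ∧ Nat.card P = p ^ (2 * n + 1) := by
  obtain ⟨z, hz, hab⟩ := exists_sympLike h
  obtain ⟨n, hn⟩ := exists_card_eq_pow hz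
  refine ⟨n, ?_, hn⟩
  by_contra h0
  refine hab (eq_top_of_card_eq _ ?_)
  rw [h.2, hn, show n = 0 by omega]
  simp

end Cfsg.Agent.S0095
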