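import Cfsg.Statements.S0097
import Cfsg.Agent.Lib.PGroups.Extraspecial

set_option autoImplicit false
open Cfsg

namespace Cfsg.Agent.S0097

/-- For odd p and E extraspecial, the subgroup generated by the elements of order dividing p has exponent dividing p and index at most p. -/
theorem result {E : Type*} [Group E] [Finite E] {p : ℕ} [Fact p.Prime] (hp : p ≠ 2) (h : Cfsg.IsExtraspecial p E) : (Subgroup.closure {x : E | x ^ p = 1}).index ≤ p ∧ ∀ g ∈ Subgroup.closure {x : E | x ^ p = 1}, g ^ p = 1 := by
  have hc : _root_.commutator E ≤ Subgroup.center E := h.1.2.2.le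
  have hcp := CfsgLib.PGroups.IsExtraspecial.commutator_pow_eq_one h
  let f := CfsgLib.PGroups.powMonoidHomOfClassTwo hc (CfsgLib.PGroups.odd_prime hp) hcp
  have hle : Subgroup.closure {x : E | x ^ p = 1} ≤ f.ker := (Subgroup.closure_le _).mpr fun x hx => hx
  refine ⟨?_, fun g hg => hle hg⟩
  have heq : f.ker ≤ Subgroup.closure {x : E | x ^ p = 1} := fun x hx => Subgroup.subset_closure hx
  rw [le_antisymm hle heq, Subgroup.index_ker]
  calc Nat.card f.range ≤ Nat.card (Subgroup.center E) :=
        Subgroup.card_le_of_le (by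
          rintro _ ⟨x, rfl⟩
          exact CfsgLib.PGroups.IsExtraspecial.pow_mem_center h x)
    _ = p := h.2

end Cfsg.Agent.S0097
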