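import Cfsg.Statements.S0101
import Cfsg.Agent.Lib.PGroups.Frattini

set_option autoImplicit false
open Cfsg

namespace Cfsg.Agent.S0101

open scoped IsMulCommutative
/-- In a perfect central extension, the kernel meets each Sylow p-subgroup P inside the Frattini subgroup of P. -/
theorem result {H : Type*} {G : Type*} [Group H] [Group G] [Finite H] (σ : H →* G) (hσ : Function.Surjective σ) (hc : σ.ker ≤ Subgroup.center H) (hH : commutator H = ⊤) {p : ℕ} [Fact p.Prime] (P : Sylow p H) : σ.ker ⊓ (P : Subgroup H) ≤ (frattini P).map (P : Subgroup H).subtype := by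
  intro z hz
  obtain ⟨hzk, hzP⟩ := hz
  refine ⟨⟨z, hzP⟩, ?_, rfl⟩
  set Φ := frattini (P : Subgroup H) with hΦ
  have hΦn : Φ.Normal := inferInstance
  have hab : IsMulCommutative ((P : Subgroup H) ⧸ Φ) :=
    Subgroup.Normal.quotient_commutative_iff_commutator_le.mpr
      (CfsgLib.PGroups.commutator_le_frattini P.2)
  let f : H →* (P : Subgroup H) ⧸ Φ := MonoidHom.transfer (QuotientGroup.mk' Φ)
  have key : ∀ (k : ℕ) (g₀ : H), g₀⁻¹ * z ^ k * g₀ ∈ (P : Subgroup H) → g₀⁻¹ * z ^ k * g₀ = z ^ k :=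
    fun k g₀ _ => by
      rw [mul_assoc, ← Subgroup.mem_center_iff.mp (pow_mem (hc hzk) k) g₀, inv_mul_cancel_left]
  have h1 : f z = 1 := Abelianization.commutator_subset_ker f (hH ▸ Subgroup.mem_top z)
  rw [show f z = _ from MonoidHom.transfer_eq_pow _ z key] at h1
  have h2 : (⟨z, hzP⟩ : (P : Subgroup H)) ^ (P : Subgroup H).index ∈ Φ := by
    have := (QuotientGroup.eq_one_iff _).mp h1
    exact this
  set w : (P : Subgroup H) := ⟨z, hzP⟩
  obtain ⟨k, hk⟩ := (IsPGroup.iff_orderOf.mp P.2) w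
  have hcop : Nat.Coprime (P : Subgroup H).index (orderOf w) := by
    rw [hk]
    exact Nat.Coprime.pow_right k ((Fact.out : p.Prime).coprime_iff_not_dvd.mpr P.not_dvd_index).symm
  obtain ⟨m, hm⟩ := exists_pow_eq_self_of_coprime hcop
  rw [← hm]
  exact pow_mem h2 m

end Cfsg.Agent.S0101
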