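import Cfsg.Statements.S0102
import Cfsg.Agent.Lib.PGroups.SylowBasics

set_option autoImplicit false
open Cfsg

namespace Cfsg.Agent.S0102

/-- A finite perfect group with cyclic Sylow p-subgroups has no perfect central extension whose kernel has order divisible by p. -/
theorem result {G : Type*} {H : Type*} [Group G] [Group H] [Finite G] [Finite H] (hG : commutator G = ⊤) {p : ℕ} [Fact p.Prime] (hcyc : ∀ P : Sylow p G, IsCyclic P) (σ : H →* G) (hσ : Function.Surjective σ) (hz : σ.ker ≤ Subgroup.center H) (hH : commutator H = ⊤) : ¬ p ∣ Nat.card σ.ker := by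
  have hz' : σ.ker ≤ Subgroup.center H := hz
  clear hz
  intro hdvd
  obtain ⟨z, hz⟩ := exists_prime_orderOf_dvd_card' (G := σ.ker) p hdvd
  have hzo : orderOf (z : H) = p := by rw [Subgroup.orderOf_coe, hz]
  have hzp : IsPGroup p (Subgroup.zpowers (z : H)) :=
    IsPGroup.of_card (n := 1) (by rw [Nat.card_zpowers, hzo, pow_one])
  obtain ⟨Q, hQ⟩ := hzp.exists_le_sylow
  have hzQ : (z : H) ∈ (Q : Subgroup H) := hQ (Subgroup.mem_zpowers _)
  obtain ⟨P, hP⟩ := (Q.2.map σ).exists_le_sylow
  have : IsCyclic P := hcyc P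
  have : IsCyclic ((Q : Subgroup H).map σ) :=
    isCyclic_of_injective (Subgroup.inclusion hP) (Subgroup.inclusion_injective hP)
  have hQc : IsMulCommutative (Q : Subgroup H) :=
    MonoidHom.isMulCommutative_of_isCyclic_of_ker_le_center (σ.subgroupMap (Q : Subgroup H))
      fun x hx => Subgroup.mem_center_iff.2 fun y => Subtype.ext
        (Subgroup.mem_center_iff.1 (hz' (congrArg Subtype.val hx)) _)
  have h1 : (z : H) ∈ (Q : Subgroup H) ⊓ Subgroup.center H ⊓ commutator H :=
    ⟨⟨hzQ, hz' z.2⟩, hH ▸ Subgroup.mem_top _⟩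
  rw [CfsgLib.PGroups.abelian_inf_center_inf_commutator Q hQc, Subgroup.mem_bot] at h1
  rw [h1, orderOf_one] at hzo
  exact (Fact.out : p.Prime).ne_one hzo.symm

end Cfsg.Agent.S0102
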