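import Cfsg.Statements.S0104
import Cfsg.Agent.Lib.PGroups.SylowBasics

set_option autoImplicit false
open Cfsg

namespace Cfsg.Agent.S0104

/-- A subgroup Z of a Sylow p-subgroup P that is normalized by N_G(P) is weakly closed in P exactly when it is normal in every Sylow p-subgroup containing it. -/
theorem result {G : Type*} [Group G] [Finite G] {p : ℕ} [Fact p.Prime] (P : Sylow p G) (Z : Subgroup G) (hZP : Z ≤ (P : Subgroup G)) (hZN : Subgroup.normalizer (P : Set G) ≤ Subgroup.normalizer (Z : Set G)) : Cfsg.IsWeaklyClosed Z P ↔ ∀ R : Sylow p G, Z ≤ (R : Subgroup G) → (R : Subgroup G) ≤ Subgroup.normalizer (Z : Set G) := by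
  have hPZ : (P : Subgroup G) ≤ Subgroup.normalizer (Z : Set G) := Subgroup.le_normalizer.trans hZN
  constructor
  · intro hW R hR
    obtain ⟨g, hg⟩ := MulAction.exists_smul_eq G R P
    have hmap : (R : Subgroup G).map (MulAut.conj g).toMonoidHom = (P : Subgroup G) := by
      rw [← hg]; rfl
    have hgN : g ∈ Subgroup.normalizer (Z : Set G) :=
      CfsgLib.PGroups.mem_normalizer_of_map_eq (hW.2 g (hmap ▸ Subgroup.map_mono hR))
    intro r hr
    have h1 : g * r * g⁻¹ ∈ Subgroup.normalizer (Z : Set G) := hPZ (hmap ▸ ⟨r, hr, rfl⟩)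
    have := mul_mem (mul_mem (inv_mem hgN) h1) hgN
    simpa [mul_assoc] using this
  · intro hR
    refine ⟨hZP, fun g hg => ?_⟩
    set N := Subgroup.normalizer (Z : Set G)
    set R := g⁻¹ • P with hRdef
    have hmemR : ∀ r : G, r ∈ (R : Subgroup G) ↔ g * r * g⁻¹ ∈ (P : Subgroup G) := by
      intro r
      rw [hRdef, Sylow.coe_subgroup_smul, Subgroup.mem_pointwise_smul_iff_inv_smul_mem,
        ← map_inv, inv_inv]
      rfl
    have hRN : (R : Subgroup G) ≤ N :=
      hR R fun z hz => (hmemR z).2 (hg ⟨z, hz, rfl⟩)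
    obtain ⟨n, hn⟩ := MulAction.exists_smul_eq N (P.subtype hPZ) (R.subtype hRN)
    rw [Sylow.smul_subtype] at hn
    have hnR : (n : G) • P = R := Sylow.subtype_injective hn
    have h1 : (g * (n : G)) • P = P := by rw [mul_smul, hnR, hRdef, smul_inv_smul]
    have h2 : g * (n : G) ∈ N := hZN (Sylow.smul_eq_iff_mem_normalizer.1 h1)
    have h3 : g ∈ N := by simpa using mul_mem h2 (inv_mem n.2)
    exact CfsgLib.PGroups.map_eq_of_mem_normalizer h3

end Cfsg.Agent.S0104
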