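import Cfsg.Statements.S0105
import Cfsg.Agent.Lib.PGroups.SylowBasics

set_option autoImplicit false
open Cfsg

namespace Cfsg.Agent.S0105

/-- With an abelian Sylow p-subgroup P, some quotient of G is isomorphic to the part of P central in N_G(P). -/
theorem result {G : Type*} [Group G] [Finite G] {p : ℕ} [Fact p.Prime] (P : Sylow p G) (hP : IsMulCommutative P) : ∃ (N : Subgroup G) (hN : N.Normal), Nonempty (G ⧸ N ≃* ((P : Subgroup G) ⊓ Subgroup.centralizer (Subgroup.normalizer (P : Set G) : Set G) : Subgroup G)) := by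
  have hn := CfsgLib.Transfer.pResidual_normal (G := G) (p := p)
  obtain ⟨hinf, hsup⟩ := CfsgLib.Transfer.abelian_decomp P hP
  have heq := CfsgLib.Transfer.abelian_inf_pResidual P hP
  set C := (P : Subgroup G) ⊓ Subgroup.centralizer (Subgroup.normalizer (P : Set G) : Set G)
  refine ⟨Cfsg.pResidual p G, hn,
    ⟨(MulEquiv.ofBijective ((QuotientGroup.mk' (Cfsg.pResidual p G)).comp C.subtype)
      ⟨?_, ?_⟩).symm⟩⟩
  · refine (injective_iff_map_eq_one _).2 fun x hx => Subtype.ext ?_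
    have h1 : (x : G) ∈ (P : Subgroup G) ⊓ Cfsg.pResidual p G :=
      ⟨x.2.1, (QuotientGroup.eq_one_iff _).1 hx⟩
    rw [heq] at h1
    have : (x : G) ∈ (⊥ : Subgroup G) := hinf ▸ ⟨x.2, h1⟩
    exact Subgroup.mem_bot.1 this
  · intro q
    obtain ⟨g, rfl⟩ := QuotientGroup.mk'_surjective _ q
    have htop : C ⊔ Cfsg.pResidual p G = ⊤ := by
      rw [eq_top_iff, ← CfsgLib.Transfer.sylow_sup_pResidual_eq_top P]
      refine sup_le ?_ le_sup_right
      conv_lhs => rw [← hsup, ← heq]
      exact sup_le_sup le_rfl inf_le_right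
    obtain ⟨c, hc, k, hk, rfl⟩ :=
      Subgroup.mem_sup_of_normal_right.1 (htop.symm ▸ Subgroup.mem_top g)
    exact ⟨⟨c, hc⟩, by simp [(QuotientGroup.eq_one_iff k).2 hk]⟩

end Cfsg.Agent.S0105
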