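import Cfsg.Statements.S0109
import Cfsg.Agent.Lib.PGroups.PStableSL
import Cfsg.Agent.Lib.ThompsonJ.Replacement
import Cfsg.Agent.Lib.ThompsonJ.FixedPointModule
import Cfsg.Agent.Lib.NormalPComplement.Quadratic
import Cfsg.Agent.Lib.SectRank.SylowInter
import Cfsg.Agent.Lib.ClassicalLinear.Generation
import Cfsg.Agent.S0261

set_option autoImplicit false
open Cfsg

namespace Cfsg.Agent.S0109

open CfsgLib

/-- Solvable groups (with abelian Sylow 2-subgroups if `p = 3`) have no `SL(2,p)` section. -/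
theorem slFree_of_solvable {G : Type*} [Group G] [Finite G] {p : ℕ} [Fact p.Prime] (hp : p ≠ 2)
    (hs : Group.IsSolvable G) (h3 : p = 3 → ∀ T : Sylow 2 G, IsMulCommutative T) :
    PGroups.SLFree p G := by
  intro K f hf
  by_cases hp3 : p = 3
  · haveI : Fact (Nat.Prime 2) := ⟨Nat.prime_two⟩
    obtain ⟨T⟩ := (Sylow.nonempty : Nonempty (Sylow 2 K))
    obtain ⟨k, hk, ⟨e⟩⟩ := Cfsg.Agent.S0261.result (F := ZMod p)
      (by rw [ZMod.card, hp3]; decide) (T.mapSurjective hf)
    obtain ⟨T', hT'⟩ := (T.2.map K.subtype).exists_le_sylow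
    have hc := (h3 hp3 T').is_comm.comm
    have hcomm : ∀ x y : (T.mapSurjective hf : Subgroup (Matrix.SpecialLinearGroup (Fin 2) (ZMod p))),
        x * y = y * x := by
      rintro ⟨_, u, hu, rfl⟩ ⟨_, v, hv, rfl⟩
      have h := congrArg Subtype.val (hc ⟨(u : G), hT' ⟨u, hu, rfl⟩⟩ ⟨(v : G), hT' ⟨v, hv, rfl⟩⟩)
      have h' : u * v = v * u := Subtype.ext h
      exact Subtype.ext (by simp only [Subgroup.coe_mul, ← map_mul, h'])
    have hq := congrArg e (hcomm (e.symm (QuaternionGroup.xa 0)) (e.symm (QuaternionGroup.a 1)))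
    rw [map_mul, map_mul, MulEquiv.apply_symm_apply, MulEquiv.apply_symm_apply,
      QuaternionGroup.xa_mul_a, QuaternionGroup.a_mul_xa] at hq
    injection hq with hq
    have h4 : ((2 : ℕ) : ZMod (2 * 2 ^ k)) = 0 := by
      push_cast
      linear_combination hq
    rw [ZMod.natCast_eq_zero_iff] at h4
    have := Nat.le_of_dvd two_pos h4
    have : 2 ≤ 2 ^ k := Nat.le_self_pow (by omega) 2
    omega
  · have hp5 : 5 ≤ p := Nat.Prime.five_le_of_ne_two_of_ne_three Fact.out hp hp3
    have : Group.IsSolvable (Matrix.SpecialLinearGroup (Fin 2) (ZMod p)) :=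
      Group.isSolvable_of_surjective hf
    have h2 : ((2 : ℕ) : ZMod p) ≠ 0 := fun h => by
      rw [ZMod.natCast_eq_zero_iff] at h
      have := Nat.le_of_dvd two_pos h
      omega
    have h22 : ((3 : ℕ) : ZMod p) ≠ 0 := fun h => by
      rw [ZMod.natCast_eq_zero_iff] at h
      have := Nat.le_of_dvd three_pos h
      omega
    have htop : commutator (Matrix.SpecialLinearGroup (Fin 2) (ZMod p)) = ⊤ :=
      ClassicalLinear.commutator_sl_eq_top (Or.inr ⟨((2 : ℕ) : ZMod p), h2, fun h => h22 (by
        push_cast at h ⊢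
        linear_combination h)⟩)
    haveI : Nontrivial (Matrix.SpecialLinearGroup (Fin 2) (ZMod p)) :=
      ⟨⟨1, ⟨!![1, 1; 0, 1], by simp [Matrix.det_fin_two]⟩, fun h => by
        have := congrFun (congrFun (congrArg Subtype.val h) 0) 1
        simp at this⟩⟩
    exact (Group.IsSolvable.commutator_lt_top_of_nontrivial _).ne htop

/-- The Thompson factorization Theorem for solvable groups states that, with p odd (and abelian Sylow 2-subgroups when p = 3) and no nontrivial normal subgroup of order prime to p, every element of G is a product of an element normalizing J(P) and an element centralizing the elements of order dividing p in the centre of P. -/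
theorem result {G : Type*} [Group G] [Finite G] {p : ℕ} [Fact p.Prime] (hp : p ≠ 2) (hs : Group.IsSolvable G) (h3 : p = 3 → ∀ T : Sylow 2 G, IsMulCommutative T) (hF : ∀ N : Subgroup G, N.Normal → Nat.Coprime (Nat.card N) p → N = ⊥) (P : Sylow p G) (g : G) : ∃ a ∈ Subgroup.normalizer (Cfsg.thompsonSubgroupOf p (P : Subgroup G) : Set G), ∃ c ∈ Subgroup.centralizer {x : G | x ∈ (P : Subgroup G) ∧ (∀ y ∈ (P : Subgroup G), x * y = y * x) ∧ x ^ p = 1}, g = a * c := by
  classical
  haveI := hs
  have hO : pPrimeCore p G = ⊥ :=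
    hF _ inferInstance (Cores.card_pPrimeCore_coprime p)
  have hc : Subgroup.centralizer (pCore p G : Set G) ≤ pCore p G :=
    SectRank.centralizer_pCore_le_of_solvable hO
  set V := ⨆ S : Sylow p G,
      omegaOne p ((S : Subgroup G) ⊓ Subgroup.centralizer ((S : Subgroup G) : Set G)) with hVdef
  haveI : V.Normal := ThompsonJ.iSup_omegaCenter_normal
  have hVe : IsElementaryAbelian p V := ThompsonJ.isElementaryAbelian_iSup_omegaCenter hc
  have hVP : V ≤ (P : Subgroup G) := iSup_le fun S =>
    (ThompsonJ.omegaCenter_le_center_pCore hc S).trans (inf_le_left.trans (Cores.pCore_le_sylow P))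
  set C := Subgroup.centralizer (V : Set G) with hC
  have hbot : pCore p (G ⧸ C) = ⊥ :=
    ThompsonJ.pCore_quotient_centralizer_eq_bot (T := fun S : Sylow p G => S) le_rfl
      ThompsonJ.sylow_le_centralizer_omegaCenter (le_iSup _)
  have hJ : thompsonSubgroupOf p (P : Subgroup G) ≤ C := by
    rw [ThompsonJ.thompsonSubgroupOf_le_iff]
    intro A hA
    by_contra hAC
    have hAN : A ≤ Subgroup.normalizer (V : Set G) := Subgroup.normalizer_eq_top V ▸ le_top
    obtain ⟨a, ha, haV, hq⟩ := NormalPComplement.exists_quadratic_of_offender hVe.1 hA.elem.1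
      (ThompsonJ.isPGroup_of_isElementaryAbelian hVe) (ThompsonJ.isPGroup_of_isElementaryAbelian hA.elem)
      hAN hAC (ThompsonJ.isBestOffenderOn_of_isMaxEA hVe hVP hA).1
    have hst := (slFree_of_solvable hp hs h3).isPStableOn hp V
      (ThompsonJ.isPGroup_of_isElementaryAbelian hVe) a (ThompsonJ.quadratic_zpowers_iff.2 hq)
    rw [hbot, Subgroup.mem_bot, QuotientGroup.eq_one_iff] at hst
    exact haV hst
  obtain ⟨k, hk, n, hn, rfl⟩ := ThompsonJ.exists_mul_normalizer_inf_sylow P C g
  refine ⟨n, ?_, n⁻¹ * k * n, ?_, by group⟩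
  · rw [← ThompsonJ.thompsonSubgroupOf_eq_of_le (inf_le_left : (P : Subgroup G) ⊓ C ≤ P)
      (le_inf (ThompsonJ.thompsonSubgroupOf_le p _) hJ)]
    exact ThompsonJ.normalizer_le_normalizer_thompsonSubgroupOf p _ hn
  · refine Subgroup.centralizer_le ?_ (show n⁻¹ * k * n ∈ C by
      simpa using Subgroup.Normal.conj_mem inferInstance k hk n⁻¹)
    rintro x ⟨hxP, hxc, hxp⟩
    exact Subgroup.mem_iSup_of_mem P
      (ThompsonJ.mem_omegaOne ⟨hxP, Subgroup.mem_centralizer_iff.2 fun y hy => (hxc y hy).symm⟩ hxp)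

end Cfsg.Agent.S0109
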