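import Cfsg.Statements.S0115
import Cfsg.Agent.Lib.PGroups.MaximalClass

set_option autoImplicit false
open Cfsg

namespace Cfsg.Agent.S0115

/-- A 2-group of order 2^n, n ≥ 3, is of maximal class exactly when its commutator quotient is a Klein four-group. -/
theorem result {X : Type*} [Group X] [Finite X] (n : ℕ) (hn : 3 ≤ n) (hX : Nat.card X = 2 ^ n) : Group.nilpotencyClass X = n - 1 ↔ IsKleinFour (X ⧸ commutator X) := by
  obtain ⟨k, rfl⟩ : ∃ k, n = k + 3 := ⟨n - 3, by omega⟩
  constructor
  · intro hc
    have hcc := CfsgLib.PGroups.card_commutator_of_maximal_class (p := 2) hn hX hc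
    exact CfsgLib.PGroups.isKleinFour_abelianization hX (by rw [hcc]; congr 1)
  · intro hK
    have h4 : (commutator X).index = 4 := hK.card_four
    have h := (commutator X).card_mul_index
    rw [h4, hX, show k + 3 = k + 1 + 2 by omega, pow_add 2 (k + 1) 2] at h
    rw [CfsgLib.PGroups.class_of_index_four k hX (by omega)]
    omega

end Cfsg.Agent.S0115
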