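import Cfsg.Statements.S0125
import Mathlib.GroupTheory.Transfer
import Mathlib.GroupTheory.Sylow

set_option autoImplicit false
open Cfsg

namespace Cfsg.Agent.S0125

/-- The centralizer of a self-centralizing normal subgroup A of a Sylow p-subgroup is the direct product of A with a normal p'-subgroup. -/
theorem result {G : Type*} [Group G] [Finite G] {p : ℕ} [Fact p.Prime] (R : Sylow p G) (A : Subgroup G) (hAR : A ≤ (R : Subgroup G)) (hAn : (R : Subgroup G) ≤ Subgroup.normalizer (A : Set G)) (hC : (R : Subgroup G) ⊓ Subgroup.centralizer (A : Set G) = A) : ∃ H : Subgroup G, H ≤ Subgroup.centralizer (A : Set G) ∧ Nat.Coprime (Nat.card H) p ∧ Subgroup.centralizer (A : Set G) ≤ Subgroup.normalizer (H : Set G) ∧ H ⊓ A = ⊥ ∧ H ⊔ A = Subgroup.centralizer (A : Set G) := by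
  set C := Subgroup.centralizer (A : Set G) with hCdef
  set N := Subgroup.normalizer (A : Set G) with hNdef
  have hCN : C ≤ N := Subgroup.centralizer_le_normalizer _
  have hAC : A ≤ C := fun a ha => (hC.symm ▸ ha : a ∈ (R : Subgroup G) ⊓ C).2
  have hCn : (C.subgroupOf N).Normal := by
    refine ⟨fun c hc g => ?_⟩
    rw [Subgroup.mem_subgroupOf, hCdef, Subgroup.mem_centralizer_iff] at hc ⊢
    intro a ha
    have h1 : (g : G)⁻¹ * a * g ∈ A := by
      have := (Subgroup.mem_normalizer_iff.1 (inv_mem g.2) a).1 ha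
      rwa [inv_inv] at this
    have h2 := hc _ h1
    simp only [Subgroup.coe_mul, Subgroup.coe_inv]
    calc a * ((g : G) * c * (g : G)⁻¹) = g * (((g : G)⁻¹ * a * g) * c) * (g : G)⁻¹ := by group
      _ = g * ((c : G) * ((g : G)⁻¹ * a * g)) * (g : G)⁻¹ := by rw [h2]
      _ = (g : G) * c * (g : G)⁻¹ * a := by group
  -- `A` is a Sylow subgroup of `C`
  have hidx : ¬ p ∣ (A.subgroupOf C).index := by
    have h1 : ¬ p ∣ (R : Subgroup G).relIndex N := fun h => R.not_dvd_index
      (h.trans (Subgroup.relIndex_dvd_index_of_le hAn))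
    intro h
    refine h1 (dvd_trans h ?_)
    change A.relIndex C ∣ _
    rw [show A.relIndex C = (R : Subgroup G).relIndex C by
      rw [← hC, Subgroup.inf_relIndex_right]]
    have hsup : C.relIndex ((R : Subgroup G) ⊔ C) = C.relIndex (R : Subgroup G) := by
      have := Subgroup.relIndex_sup_right (H := (R : Subgroup G).subgroupOf N) (K := C.subgroupOf N)
      rwa [← Subgroup.subgroupOf_sup hAn hCN, Subgroup.relIndex_subgroupOf (sup_le hAn hCN),
        Subgroup.relIndex_subgroupOf hAn] at this
    have e1 := Subgroup.relIndex_mul_relIndex ((R : Subgroup G) ⊓ C) (R : Subgroup G)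
      ((R : Subgroup G) ⊔ C) inf_le_left le_sup_left
    have e2 := Subgroup.relIndex_mul_relIndex ((R : Subgroup G) ⊓ C) C
      ((R : Subgroup G) ⊔ C) inf_le_right le_sup_right
    rw [Subgroup.inf_relIndex_left] at e1
    rw [Subgroup.inf_relIndex_right, hsup, ← e1, mul_comm] at e2
    have h2 : (R : Subgroup G).relIndex C = (R : Subgroup G).relIndex ((R : Subgroup G) ⊔ C) :=
      Nat.eq_of_mul_eq_mul_left
        (Nat.pos_of_ne_zero (Subgroup.index_ne_zero_of_finite
          (H := C.subgroupOf (R : Subgroup G)))) e2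
    rw [h2]
    exact Dvd.intro _ (Subgroup.relIndex_mul_relIndex (R : Subgroup G) _ N le_sup_left (sup_le hAn hCN))
  have hAp : IsPGroup p (A.subgroupOf C) :=
    (R.2.to_le hAR).of_equiv (Subgroup.subgroupOfEquivOfLe hAC).symm
  set S : Sylow p C := hAp.toSylow hidx
  have hS : (S : Subgroup C) = A.subgroupOf C := rfl
  have hle : Subgroup.normalizer (S : Set C) ≤ Subgroup.centralizer (S : Set C) := by
    intro c _
    rw [Subgroup.mem_centralizer_iff]
    intro a ha
    exact Subtype.ext ((Subgroup.mem_centralizer_iff.1 c.2) _ ha)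
  set K := (MonoidHom.transferSylow S hle).ker
  have hK := MonoidHom.ker_transferSylow_isComplement' S hle
  refine ⟨K.map C.subtype, Subgroup.map_subtype_le K, ?_, ?_, ?_, ?_⟩
  · rw [Subgroup.card_map_of_injective C.subtype_injective]
    exact ((Fact.out : p.Prime).coprime_iff_not_dvd.2
      (MonoidHom.not_dvd_card_ker_transferSylow S hle)).symm
  · intro c hc
    exact Subgroup.le_normalizer_map C.subtype
      ⟨⟨c, hc⟩, Subgroup.normalizer_eq_top (H := K) ▸ Subgroup.mem_top _, rfl⟩
  · have h1 : K ⊓ A.subgroupOf C = ⊥ := disjoint_iff.1 hK.disjoint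
    have h2 := congrArg (Subgroup.map C.subtype) h1
    rwa [Subgroup.map_inf _ _ _ C.subtype_injective, Subgroup.map_bot,
      Subgroup.map_subgroupOf_eq_of_le hAC] at h2
  · have h1 : K ⊔ A.subgroupOf C = ⊤ := hK.sup_eq_top
    have h2 := congrArg (Subgroup.map C.subtype) h1
    rwa [Subgroup.map_sup, Subgroup.map_subgroupOf_eq_of_le hAC, ← MonoidHom.range_eq_map,
      Subgroup.range_subtype] at h2

end Cfsg.Agent.S0125
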