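import Cfsg.Statements.S0131
import Cfsg.Agent.Lib.Transfer.Residual

set_option autoImplicit false
open Cfsg
open scoped commutatorElement

namespace Cfsg.Agent.S0131

/-- P/P' has a normal complement in G exactly when the focal subgroup G' ∩ P is as small as possible, namely P'. -/
theorem result {G : Type*} [Group G] [Finite G] {p : ℕ} [Fact p.Prime] (P : Sylow p G) : (∃ N : Subgroup G, N.Normal ∧ N ⊓ (P : Subgroup G) = ⁅(P : Subgroup G), (P : Subgroup G)⁆ ∧ N ⊔ (P : Subgroup G) = ⊤) ↔ commutator G ⊓ (P : Subgroup G) = ⁅(P : Subgroup G), (P : Subgroup G)⁆ := by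
  constructor
  · rintro ⟨N, hN, hinf, hsup⟩
    refine le_antisymm ?_ (le_inf (Subgroup.commutator_mono le_top le_top)
      (Subgroup.commutator_le_self _))
    rw [← hinf]
    refine inf_le_inf_right _ ?_
    rw [commutator_def, Subgroup.commutator_le]
    intro a _ b _
    obtain ⟨n, hn, x, hx, rfl⟩ :=
      Subgroup.mem_sup_of_normal_left.1 (hsup.symm ▸ Subgroup.mem_top a)
    obtain ⟨m, hm, y, hy, rfl⟩ :=
      Subgroup.mem_sup_of_normal_left.1 (hsup.symm ▸ Subgroup.mem_top b)
    have h1 : ⁅x, y⁆ ∈ N := by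
      have h2 := Subgroup.commutator_mem_commutator hx hy
      rw [← hinf] at h2
      exact h2.1
    rw [← QuotientGroup.eq_one_iff]
    change QuotientGroup.mk' N ⁅n * x, m * y⁆ = 1
    rw [map_commutatorElement, map_mul, map_mul,
      show QuotientGroup.mk' N n = 1 from (QuotientGroup.eq_one_iff n).2 hn,
      show QuotientGroup.mk' N m = 1 from (QuotientGroup.eq_one_iff m).2 hm, one_mul, one_mul,
      ← map_commutatorElement]
    exact (QuotientGroup.eq_one_iff _).2 h1
  · intro h
    open scoped IsMulCommutative in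
    refine ⟨(Subgroup.transferFocal (P : Subgroup G)).ker, MonoidHom.normal_ker _, ?_, ?_⟩
    · rw [Subgroup.ker_transferFocal_inf_eq_focalSubgroup P,
        ← Subgroup.commutator_inf_eq_focalSubgroup P, h]
    · rw [eq_top_iff, ← CfsgLib.Transfer.sylow_sup_pResidual_eq_top P]
      exact sup_le le_sup_right
        ((CfsgLib.Transfer.pResidual_le_ker (P.2.to_quotient _) _).trans le_sup_left)

end Cfsg.Agent.S0131
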