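import Cfsg.Statements.S0132
import Cfsg.Agent.Lib.NormalPComplement.Frobenius
import Cfsg.Agent.Lib.BGAppendix.FittingHall

set_option autoImplicit false
open Cfsg

namespace Cfsg.Agent.S0132

/-- A minimal non-p-nilpotent finite group is a minimal non-nilpotent group with a normal Sylow p-subgroup. -/
theorem result {G : Type*} [Group G] [Finite G] {p : ℕ} [Fact p.Prime] (h1 : ¬ Cfsg.HasNormalPComplement p G) (h2 : ∀ H : Subgroup G, H ≠ ⊤ → Cfsg.HasNormalPComplement p H) : (∀ H : Subgroup G, H ≠ ⊤ → Group.IsNilpotent H) ∧ ¬ Group.IsNilpotent G ∧ ∀ P : Sylow p G, (P : Subgroup G).Normal := by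
  obtain ⟨Q, hQ, g, hgN, hg, hgC⟩ : ∃ Q : Subgroup G, IsPGroup p Q ∧
      ∃ g ∈ Subgroup.normalizer (Q : Set G), (orderOf g).Coprime p ∧
        g ∉ Subgroup.centralizer (Q : Set G) := by
    by_contra hcon
    apply h1
    rw [CfsgLib.NormalPComplement.hasNormalPComplement_iff_frobeniusCondition]
    intro Q hQ g hgN hg
    by_contra hgC
    exact hcon ⟨Q, hQ, g, hgN, hg, hgC⟩
  have hQN : Q ≤ Subgroup.normalizer (Q : Set G) := Subgroup.le_normalizer
  set K := Q ⊔ Subgroup.zpowers g
  have hKN : K ≤ Subgroup.normalizer (Q : Set G) := sup_le hQN (Subgroup.zpowers_le.2 hgN)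
  have hK : K = ⊤ := by
    by_contra hK
    apply hgC
    have hn : (Q.subgroupOf K).Normal :=
      (Subgroup.normal_subgroupOf_iff_le_normalizer le_sup_left).2 hKN
    have hgK : g ∈ K := Subgroup.mem_sup_right (Subgroup.mem_zpowers g)
    rw [Subgroup.mem_centralizer_iff]
    intro x hx
    have := CfsgLib.NormalPComplement.commute_of_normal_pGroup (h2 K hK) (Q := Q.subgroupOf K)
      hQ.comap_subtype (g := ⟨g, hgK⟩) (x := ⟨x, Subgroup.mem_sup_left hx⟩)
      (by rwa [Subgroup.orderOf_mk]) hx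
    exact congrArg Subtype.val this.eq
  have hQn : Q.Normal := by
    rw [← Subgroup.normalizer_eq_top_iff, eq_top_iff, ← hK]
    exact hKN
  set q := QuotientGroup.mk' Q
  have hgen : ∀ x : G ⧸ Q, x ∈ Subgroup.zpowers (q g) := by
    intro x
    obtain ⟨y, rfl⟩ := QuotientGroup.mk'_surjective Q x
    obtain ⟨a, ha, t, ht, rfl⟩ :=
      Subgroup.mem_sup_of_normal_left.1 (hK.symm ▸ Subgroup.mem_top y : y ∈ K)
    obtain ⟨i, rfl⟩ := Subgroup.mem_zpowers_iff.1 ht
    rw [map_mul, map_zpow, show QuotientGroup.mk' Q a = 1 from (QuotientGroup.eq_one_iff a).2 ha,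
      one_mul]
    exact Subgroup.zpow_mem _ (Subgroup.mem_zpowers _) i
  have hidx : ¬ p ∣ Q.index := by
    rw [Subgroup.index_eq_card, ← orderOf_eq_card_of_forall_mem_zpowers hgen]
    intro hd
    exact (Fact.out : p.Prime).ne_one (Nat.eq_one_of_dvd_coprimes hg
      (hd.trans (orderOf_map_dvd q g)) dvd_rfl)
  set S := hQ.toSylow hidx
  have hS : (S : Subgroup G) = Q := rfl
  refine ⟨fun H hH => ?_, ?_, fun P => ?_⟩
  · have hQH : IsPGroup p (Q.subgroupOf H) := hQ.comap_subtype
    have hQHn : (Q.subgroupOf H).Normal := inferInstance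
    set C := Cfsg.pPrimeCore p H
    have hCcop : (Nat.card C).Coprime p := CfsgLib.Cores.card_pPrimeCore_coprime p
    have hcomm : ∀ (x : Q.subgroupOf H) (c : C),
        Commute ((Q.subgroupOf H).subtype x) (C.subtype c) := fun x c =>
      CfsgLib.NormalPComplement.commute_of_normal_pGroup (h2 H hH) hQH
        (Nat.Coprime.coprime_dvd_left (Subgroup.orderOf_dvd_natCard C c.2) hCcop) x.2
    let φ := MonoidHom.noncommCoprod (Q.subgroupOf H).subtype C.subtype hcomm
    have hsurj : Function.Surjective φ := by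
      intro h
      obtain ⟨T, hT⟩ := hQH.exists_le_sylow
      have hTeq : (T : Subgroup H) = Q.subgroupOf H := by
        refine le_antisymm (fun t ht => ?_) hT
        have h3 : (T : Subgroup H).map H.subtype ≤ (S : Subgroup G) := by
          obtain ⟨U, hU⟩ := (T.2.map H.subtype).exists_le_sylow
          have := Sylow.unique_of_normal S (by rw [hS]; exact hQn)
          exact hU.trans_eq (congrArg (fun s : Sylow p G => (s : Subgroup G)) (Subsingleton.elim U S))
        exact hS ▸ h3 ⟨t, ht, rfl⟩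
      obtain ⟨c, hc, t, ht, rfl⟩ := Subgroup.mem_sup_of_normal_left.1
        ((CfsgLib.NormalPComplement.pPrimeCore_sup_sylow (h2 H hH) T).symm ▸ Subgroup.mem_top h)
      rw [hTeq] at ht
      refine ⟨(⟨t, ht⟩, ⟨c, hc⟩), ?_⟩
      simp only [φ, MonoidHom.noncommCoprod_apply]
      exact (hcomm ⟨t, ht⟩ ⟨c, hc⟩).eq
    have : Group.IsNilpotent (Q.subgroupOf H) := hQH.isNilpotent
    have : IsMulCommutative C := by
      let f : C →* G ⧸ Q := q.comp (H.subtype.comp C.subtype)
      have hf : Function.Injective f := by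
        refine (injective_iff_map_eq_one f).2 fun c hc => ?_
        have hcQ : ((c : H) : G) ∈ Q := (QuotientGroup.eq_one_iff _).1 hc
        obtain ⟨k, hk⟩ := IsPGroup.iff_orderOf.1 hQ ⟨_, hcQ⟩
        rw [Subgroup.orderOf_mk, Subgroup.orderOf_coe, Subgroup.orderOf_coe] at hk
        exact orderOf_eq_one_iff.1 (Nat.eq_one_of_dvd_coprimes
          (hCcop.pow_right k) (orderOf_dvd_natCard c) (dvd_of_eq hk))
      have : IsCyclic (G ⧸ Q) := ⟨⟨q g, hgen⟩⟩
      have : IsCyclic C := isCyclic_of_injective f hf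
      infer_instance
    have : Group.IsNilpotent C := by
      refine ⟨1, ?_⟩
      rw [Subgroup.upperCentralSeries_one, Subgroup.center_eq_top_iff]
      assumption
    exact Group.nilpotent_of_surjective φ hsurj
  · intro hnil
    refine hgC (Subgroup.mem_centralizer_iff.2 fun x hx => ?_)
    obtain ⟨k, hk⟩ := IsPGroup.iff_orderOf.1 hQ ⟨x, hx⟩
    rw [Subgroup.orderOf_mk] at hk
    exact (CfsgLib.BGAppendix.commute_of_coprime_orderOf G x g (by rw [hk]; exact (hg.pow_right k).symm)).eq
  · have := Sylow.unique_of_normal S (by rw [hS]; exact hQn)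
    rw [Subsingleton.elim P S, hS]
    exact hQn

end Cfsg.Agent.S0132
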