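import Cfsg.Statements.S0147
import Cfsg.Agent.Lib.Frobenius.Induce

set_option autoImplicit false
open Cfsg

namespace Cfsg.Agent.S0147

/-- Transitivity of induction: inducing from H to K and then from K to G is the same as inducing from H to G. -/
theorem result {G : Type*} [Group G] [Fintype G] (H K : Subgroup G) [Fintype K] (hHK : H ≤ K) (θ : H → ℂ) : Cfsg.indFun K (Cfsg.indFun (H.subgroupOf K) (fun x => θ ⟨(x : K), Subgroup.mem_subgroupOf.mp x.2⟩)) = Cfsg.indFun H θ := by
  classical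
  have hc : Nat.card (H.subgroupOf K) = Nat.card H :=
    Nat.card_congr (Subgroup.subgroupOfEquivOfLe hHK).toEquiv
  set θ' : H.subgroupOf K → ℂ := fun x => θ ⟨(x : K), Subgroup.mem_subgroupOf.mp x.2⟩
  have h1 : ∀ y : K, Cfsg.extendByZero (H.subgroupOf K) θ' y = Cfsg.extendByZero H θ (y : G) := by
    intro y
    by_cases hy : (y : G) ∈ H
    · rw [CfsgLib.Frobenius.extendByZero_of_mem (H.subgroupOf K) θ' (g := y) hy,
        CfsgLib.Frobenius.extendByZero_of_mem H θ hy]
    · rw [CfsgLib.Frobenius.extendByZero_of_not_mem (H.subgroupOf K) θ' (g := y) hy,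
        CfsgLib.Frobenius.extendByZero_of_not_mem H θ hy]
  have h2 : ∀ y : G, Cfsg.extendByZero K (Cfsg.indFun (H.subgroupOf K) θ') y
      = (Nat.card H : ℂ)⁻¹ * ∑ k : K, Cfsg.extendByZero H θ ((k : G)⁻¹ * y * k) := by
    intro y
    by_cases hy : y ∈ K
    · rw [CfsgLib.Frobenius.extendByZero_of_mem K _ hy, Cfsg.indFun, hc]
      simp only [h1, Subgroup.coe_mul, Subgroup.coe_inv]
    · rw [CfsgLib.Frobenius.extendByZero_of_not_mem K _ hy, Finset.sum_eq_zero, mul_zero]
      intro k _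
      refine CfsgLib.Frobenius.extendByZero_of_not_mem H θ fun hk => hy ?_
      have := K.mul_mem (K.mul_mem k.2 (hHK hk)) (K.inv_mem k.2)
      simpa [mul_assoc] using this
  funext g
  simp only [Cfsg.indFun, h2, ← Finset.mul_sum]
  rw [Finset.sum_comm]
  have h3 : ∀ k : K, ∑ x : G, Cfsg.extendByZero H θ ((k : G)⁻¹ * (x⁻¹ * g * x) * k)
      = ∑ x : G, Cfsg.extendByZero H θ (x⁻¹ * g * x) := fun k =>
    Fintype.sum_equiv (Equiv.mulRight (k : G)) _ _ fun x => by simp [mul_assoc]
  simp only [h3, Finset.sum_const, Finset.card_univ, nsmul_eq_mul, Fintype.card_eq_nat_card]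
  have : (Nat.card K : ℂ) ≠ 0 := Nat.cast_ne_zero.2 Nat.card_pos.ne'
  field_simp

end Cfsg.Agent.S0147
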