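import Cfsg.Statements.S0149
import Cfsg.Agent.Lib.Frobenius.Induce

set_option autoImplicit false
open Cfsg

namespace Cfsg.Agent.S0149

/-- Let T be a subset of G meeting each of its conjugates by elements outside its normalizer N only in the identity, and let ψ be a class function of N vanishing on N away from T. Then the function induced from ψ agrees with ψ at every non-identity element of T. -/
theorem result {G : Type*} [Group G] [Fintype G] (T : Set G) (hTI : ∀ g : G, g ∉ Subgroup.normalizer T → ∀ t ∈ T, g * t * g⁻¹ ∈ T → t = 1) (hTN : T ⊆ Subgroup.normalizer T) (ψ : Subgroup.normalizer T → ℂ) (hψ : Cfsg.IsClassFunction (Subgroup.normalizer T) ψ) (hψT : ∀ x : Subgroup.normalizer T, (x : G) ∉ T → ψ x = 0) (t : Subgroup.normalizer T) (htT : (t : G) ∈ T) (ht1 : t ≠ 1) : Cfsg.indFun (Subgroup.normalizer T) ψ t = ψ t := by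
  refine CfsgLib.Frobenius.indFun_coe_of_vanish _ ψ hψ t fun x hx => ?_
  by_cases hm : x⁻¹ * (t : G) * x ∈ Subgroup.normalizer T
  · rw [CfsgLib.Frobenius.extendByZero_of_mem _ ψ hm]
    refine hψT _ fun hT => ht1 ?_
    have h1 : (t : G) = 1 := hTI x⁻¹ (fun h => hx (by simpa using inv_mem h)) t htT (by simpa using hT)
    exact Subtype.ext h1
  · exact CfsgLib.Frobenius.extendByZero_of_not_mem _ ψ hm

end Cfsg.Agent.S0149
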