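import Cfsg.Statements.S0159
import Cfsg.Agent.Lib.CharTheory.Orthogonality

set_option autoImplicit false
open Cfsg

namespace Cfsg.Agent.S0159


/-- The number of solutions of s * s = 1 in a finite group equals the sum, over the irreducible characters χ, of (the average over s of χ (s * s)) times χ 1. -/
theorem result {G : Type*} [Group G] [Fintype G] : (Nat.card {s : G // s * s = 1} : ℂ) = ∑ᶠ χ : Cfsg.IrrCharacter G, ((Nat.card G : ℂ)⁻¹ * ∑ s : G, (χ : G → ℂ) (s * s)) * (χ : G → ℂ) 1 := by
  classical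
  haveI := Fintype.ofFinite (Cfsg.IrrCharacter G)
  rw [finsum_eq_sum_of_fintype]
  simp only [mul_assoc, Finset.sum_mul]
  rw [← Finset.mul_sum, Finset.sum_comm]
  have h : ∀ s : G, ∑ χ : Cfsg.IrrCharacter G, (χ : G → ℂ) (s * s) * (χ : G → ℂ) 1
      = if s * s = 1 then (Nat.card G : ℂ) else 0 := fun s => by
    rw [← CfsgLib.CharTheory.sum_degree_mul (s * s)]
    exact Finset.sum_congr rfl fun χ _ => mul_comm _ _
  rw [Finset.sum_congr rfl fun s _ => h s, ← Finset.sum_filter, Finset.sum_const, nsmul_eq_mul,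
    mul_comm _ (Nat.card G : ℂ), ← mul_assoc, inv_mul_cancel₀ (Nat.cast_ne_zero.mpr Nat.card_pos.ne'), one_mul,
    Nat.card_eq_fintype_card, Fintype.card_subtype]

end Cfsg.Agent.S0159
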