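import Cfsg.Statements.S0160
import Cfsg.Agent.Lib.Frobenius.BrauerPerm
import Cfsg.Agent.Lib.CharTheory.Orthogonality

set_option autoImplicit false
open Cfsg

namespace Cfsg.Agent.S0160


/-- A finite group has as many real-valued irreducible complex characters as conjugacy classes closed under taking inverses. -/
theorem result {G : Type*} [Group G] [Finite G] : Nat.card {χ : Cfsg.IrrCharacter G // ∀ g : G, ((χ : G → ℂ) g).im = 0} = Nat.card {C : ConjClasses G // ∀ g : G, ConjClasses.mk g = C → IsConj g g⁻¹} := by
  classical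
  haveI := Fintype.ofFinite G
  haveI : Finite (ConjClasses G) := Finite.of_surjective ConjClasses.mk ConjClasses.mk_surjective
  haveI := Fintype.ofFinite (ConjClasses G)
  have hreal : ∀ χ : Cfsg.IrrCharacter G,
      ((χ : G → ℂ) ∘ (fun g => g⁻¹) = (χ : G → ℂ)) ↔ ∀ g : G, ((χ : G → ℂ) g).im = 0 := by
    intro χ
    rw [funext_iff]
    exact forall_congr' fun g => by
      rw [Function.comp_apply, CfsgLib.CharTheory.IsIrrCharacter.inv χ.2, Complex.conj_eq_iff_im]
  have h := CfsgLib.Frobenius.card_fixed_irr (G := G) (fun g => g⁻¹)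
    fun χ => CfsgLib.Frobenius.isIrrCharacter_comp_inv χ.2
  rw [Nat.card_congr (Equiv.subtypeEquivRight hreal),
    ← Finset.sum_fiberwise Finset.univ ConjClasses.mk] at h
  have hclass : ∀ C : ConjClasses G,
      (∑ g ∈ Finset.univ.filter (fun g => ConjClasses.mk g = C),
        if IsConj g⁻¹ g then (Nat.card (Subgroup.centralizer ({g} : Set G)) : ℂ) else 0)
      = if (∀ g : G, ConjClasses.mk g = C → IsConj g g⁻¹) then (Nat.card G : ℂ) else 0 := by
    intro C
    induction C using Quotient.inductionOn with
    | h c =>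
      change (∑ g ∈ Finset.univ.filter (fun g => ConjClasses.mk g = ConjClasses.mk c), _) = _
      have hiff : (∀ g : G, ConjClasses.mk g = ConjClasses.mk c → IsConj g g⁻¹) ↔ IsConj c c⁻¹ := by
        refine ⟨fun h => h c rfl, fun h g hg => ?_⟩
        rw [ConjClasses.mk_eq_mk_iff_isConj] at hg
        obtain ⟨t, ht⟩ := isConj_iff.mp hg.symm
        exact hg.trans (h.trans (isConj_iff.mpr ⟨t, by rw [← ht]; group⟩))
      have hterm : ∀ g, g ∈ Finset.univ.filter (fun g => ConjClasses.mk g = ConjClasses.mk c) →
          (if IsConj g⁻¹ g then (Nat.card (Subgroup.centralizer ({g} : Set G)) : ℂ) else 0)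
            = if IsConj c c⁻¹ then (Nat.card (Subgroup.centralizer ({c} : Set G)) : ℂ) else 0 := by
        intro g hg
        obtain ⟨t, ht⟩ := isConj_iff.mp
          (ConjClasses.mk_eq_mk_iff_isConj.mp (Finset.mem_filter.mp hg).2).symm
        have e1 : IsConj g⁻¹ g ↔ IsConj c c⁻¹ := by
          have hcg : IsConj c g := isConj_iff.mpr ⟨t, ht⟩
          have hcg' : IsConj c⁻¹ g⁻¹ := isConj_iff.mpr ⟨t, by rw [← ht]; group⟩
          exact ⟨fun h => hcg.trans (h.symm.trans hcg'.symm),
            fun h => hcg'.symm.trans (h.symm.trans hcg)⟩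
        have e2 : Nat.card (Subgroup.centralizer ({g} : Set G)) = Nat.card (Subgroup.centralizer ({c} : Set G)) := by
          refine (Nat.card_congr (Equiv.subtypeEquiv (MulAut.conj t).toEquiv fun x => ?_)).symm
          simp only [Subgroup.mem_centralizer_singleton_iff, MulEquiv.toEquiv_eq_coe, EquivLike.coe_coe,
            MulAut.conj_apply, ← ht]
          constructor
          · intro hx
            calc t * x * t⁻¹ * (t * c * t⁻¹) = t * (x * c) * t⁻¹ := by group
              _ = t * (c * x) * t⁻¹ := by rw [hx]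
              _ = t * c * t⁻¹ * (t * x * t⁻¹) := by group
          · intro hx
            calc x * c = t⁻¹ * (t * x * t⁻¹ * (t * c * t⁻¹)) * t := by group
              _ = t⁻¹ * (t * c * t⁻¹ * (t * x * t⁻¹)) * t := by rw [hx]
              _ = c * x := by group
        simp only [e1, e2]
      rw [Finset.sum_congr rfl hterm, Finset.sum_const, nsmul_eq_mul, ← Fintype.card_subtype,
        ← Nat.card_eq_fintype_card,
        Nat.card_congr (Equiv.subtypeEquivRight (fun g : G =>
          ConjClasses.mk_eq_mk_iff_isConj.trans ⟨IsConj.symm, IsConj.symm⟩)),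
        CfsgLib.CharTheory.card_isConj]
      split_ifs with h1 h2 h2
      · rw [← Nat.cast_mul, Subgroup.index_mul_card]
      · exact absurd (hiff.mpr h1) h2
      · exact absurd (hiff.mp h2) h1
      · rw [mul_zero]
  replace h := h.trans (congrArg _ (Finset.sum_congr rfl
    (g := fun C : ConjClasses G => if (∀ g : G, ConjClasses.mk g = C → IsConj g g⁻¹) then (Nat.card G : ℂ) else 0)
    fun C _ => by convert hclass C))
  rw [← Finset.sum_filter, Finset.sum_const, nsmul_eq_mul,
    mul_comm _ (Nat.card G : ℂ), ← mul_assoc, inv_mul_cancel₀ (Nat.cast_ne_zero.mpr Nat.card_pos.ne'), one_mul,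
    ← Fintype.card_subtype, ← Nat.card_eq_fintype_card] at h
  exact Nat.cast_injective h

end Cfsg.Agent.S0160
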