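import Cfsg.Statements.S0162
import Cfsg.Agent.Lib.Frobenius.BrauerPerm
import Cfsg.Agent.Lib.CharTheory.Orthogonality
import Cfsg.Agent.Lib.CharTheory.Degree

set_option autoImplicit false
open Cfsg

namespace Cfsg.Agent.S0162

theorem zmod16_pair (a : ℕ) (h : Odd a) : (((a : ZMod 16) ^ 2 - 1) + ((a : ZMod 16) ^ 2 - 1)) = 0 := by
  obtain ⟨k, rfl⟩ := h
  have key : ∀ x : ZMod 16, (((2 * x + 1) ^ 2 - 1) + ((2 * x + 1) ^ 2 - 1)) = 0 := by decide
  push_cast
  exact key _

/-- If a finite group has odd order, its order is congruent to its number of conjugacy classes modulo 16. -/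
theorem result {G : Type*} [Group G] [Finite G] (hodd : Odd (Nat.card G)) : Nat.card G ≡ Nat.card (ConjClasses G) [MOD 16] := by
  classical
  haveI := Fintype.ofFinite (Cfsg.IrrCharacter G)
  choose d hd0 hddvd hd using fun χ : Cfsg.IrrCharacter G =>
    CfsgLib.CharTheory.IsIrrCharacter.exists_degree_dvd χ.2
  have hdodd : ∀ χ, Odd (d χ) := fun χ => Odd.of_dvd_nat hodd (hddvd χ)
  have hsq : ∑ χ, d χ ^ 2 = Nat.card G := by
    have h := CfsgLib.CharTheory.sum_degree_sq (G := G)
    simp only [hd] at h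
    exact_mod_cast h
  rw [← ZMod.natCast_eq_natCast_iff, ← CfsgLib.CharTheory.card_irrCharacter, ← hsq,
    Nat.card_eq_fintype_card, ← Finset.card_univ, Finset.card_eq_sum_ones, ← sub_eq_zero]
  push_cast
  rw [← Finset.sum_sub_distrib]
  refine Finset.sum_involution (fun χ _ => ⟨_, CfsgLib.Frobenius.isIrrCharacter_comp_inv χ.2⟩)
    (fun χ _ => ?_) (fun χ _ hne heq => hne ?_) (fun χ _ => Finset.mem_univ _)
    (fun χ _ => Subtype.ext (funext fun g => congrArg χ.1 (inv_inv g)))
  · have he : d ⟨_, CfsgLib.Frobenius.isIrrCharacter_comp_inv χ.2⟩ = d χ := by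
      have h1 := hd ⟨_, CfsgLib.Frobenius.isIrrCharacter_comp_inv χ.2⟩
      simp only [inv_one, hd χ] at h1
      exact_mod_cast h1.symm
    rw [he]
    exact zmod16_pair _ (hdodd χ)
  · have h1 : (χ : G → ℂ) = fun _ => 1 :=
      CfsgLib.Frobenius.eq_one_of_real_of_odd hodd χ.2 fun g => by
        have h2 := congrFun (congrArg Subtype.val heq) g
        simp only at h2
        rw [CfsgLib.CharTheory.IsIrrCharacter.inv χ.2] at h2
        exact h2
    have h2 := hd χ
    rw [h1] at h2
    simp only at h2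
    have h3 : d χ = 1 := by exact_mod_cast h2.symm
    rw [h3, Nat.cast_one, one_pow, sub_self]

end Cfsg.Agent.S0162
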