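import Cfsg.Statements.S0163
import Cfsg.Agent.Lib.Brauer.Monomial

set_option autoImplicit false
open Cfsg

namespace Cfsg.Agent.S0163

theorem result {G : Type*} [Group G] [Fintype G] (χ : G → ℂ) (hχ : Cfsg.IsCharacter G χ) : ∃ l : List ((E : Subgroup G) × ((E →* ℂˣ) × ℤ)), (∀ t ∈ l, ∃ p : ℕ, p.Prime ∧ Cfsg.IsElementary p t.1) ∧ χ = (l.map fun t => (t.2.2 : ℂ) • Cfsg.indFun t.1 (fun e => (t.2.1 e : ℂ))).sum := by
  let F : ((E : Subgroup G) × (E →* ℂˣ)) → G → ℂ :=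
    fun i => Cfsg.indFun i.1 fun e => (i.2 e : ℂ)
  let P : ((E : Subgroup G) × (E →* ℂˣ)) → Prop := fun i => ∃ p, p.Prime ∧ Cfsg.IsElementary p i.1
  have hsub : χ ∈ AddSubgroup.closure {g | ∃ i, P i ∧ g = F i} := by
    refine AddSubgroup.closure_mono ?_
      (CfsgLib.Brauer.mem_closure_linear (CfsgLib.Brauer.isGeneralizedCharacter_of_isCharacter hχ))
    rintro f ⟨E, l, hp, rfl⟩
    exact ⟨⟨E, l⟩, hp, rfl⟩
  obtain ⟨l, hl, heq⟩ := CfsgLib.Brauer.exists_list_of_mem_closure F P hsub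
  refine ⟨l.map fun t => ⟨t.1.1, (t.1.2, t.2)⟩, fun t ht => ?_, ?_⟩
  · obtain ⟨s, hs, rfl⟩ := List.mem_map.1 ht
    exact hl s hs
  · rw [heq, List.map_map]
    rfl

end Cfsg.Agent.S0163
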