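import Cfsg.Statements.S0166
import Cfsg.Agent.Lib.Frobenius.Realisation
import Cfsg.Agent.Lib.Brauer.Monomial
import Cfsg.Agent.Lib.Jordan.GaloisNorm

set_option autoImplicit false
open Cfsg

namespace Cfsg.Agent.S0166

open Cfsg CfsgLib.Jordan in
/-- A function induced from a linear character is realisable over the `exponent`-th cyclotomic
field. -/
theorem isRealisable_indFun_linear {G : Type*} [Group G] [Fintype G] [NeZero (Monoid.exponent G)]
    (E : Subgroup G) (l : E →* ℂˣ) :
    CfsgLib.Frobenius.IsRealisable (cycField (Monoid.exponent G)).val.toRingHom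
      (indFun E fun e => (l e : ℂ)) := by
  classical
  have : Fintype (G ⧸ E) := Fintype.ofFinite _
  let σ : Representation ℂ E (Fin 1 → ℂ) :=
    { toFun := fun x => (l x : ℂ) • LinearMap.id
      map_one' := by simp; rfl
      map_mul' := fun a b => by
        rw [map_mul, Units.val_mul]
        exact LinearMap.ext fun v => by simp [smul_smul, mul_comm] }
  have hσap : ∀ x : E, σ x = (l x : ℂ) • LinearMap.id := fun x => rfl
  have hσ : σ.character = fun e => (l e : ℂ) := by
    funext x
    rw [Representation.character, hσap]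
    rw [map_smul, LinearMap.trace_id]
    simp
  have hmem : ∀ (g : G) (a b : (G ⧸ E) × Fin 1),
      CfsgLib.Frobenius.indMatrix E σ g a b ∈ cycField (Monoid.exponent G) := by
    intro g a b
    unfold CfsgLib.Frobenius.indMatrix CfsgLib.Frobenius.zeroExtMatrix
    split_ifs with h1 h2
    · have e : LinearMap.toMatrix' (σ ⟨_, h2⟩) a.2 b.2 = (l ⟨_, h2⟩ : ℂ) := by
        rw [hσap]
        rw [map_smul, LinearMap.toMatrix'_id]
        simp [Subsingleton.elim a.2 b.2]
      rw [e]
      refine mem_cycField_of_pow_eq_one ?_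
      rw [← Units.val_pow_eq_pow_val, ← map_pow,
        show (⟨_, h2⟩ : E) ^ Monoid.exponent G = 1 from Subtype.ext (by simp [Monoid.pow_exponent_eq_one]),
        map_one, Units.val_one]
    · exact zero_mem _
    · exact zero_mem _
  let ι := (cycField (Monoid.exponent G)).val.toRingHom
  let M' : G → Matrix ((G ⧸ E) × Fin 1) ((G ⧸ E) × Fin 1) (cycField (Monoid.exponent G)) :=
    fun g => Matrix.of fun a b => ⟨CfsgLib.Frobenius.indMatrix E σ g a b, hmem g a b⟩
  have hM : ∀ g, ι.mapMatrix (M' g) = CfsgLib.Frobenius.indMatrix E σ g := fun g =>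
    Matrix.ext fun a b => rfl
  have hinj : Function.Injective (ι.mapMatrix (m := (G ⧸ E) × Fin 1)) :=
    Matrix.map_injective ι.injective
  clear_value M'
  let M : G →* Matrix ((G ⧸ E) × Fin 1) ((G ⧸ E) × Fin 1) (cycField (Monoid.exponent G)) :=
    { toFun := M'
      map_one' := hinj (by rw [hM, map_one, CfsgLib.Frobenius.indMatrix_one])
      map_mul' := fun g h => hinj (by rw [hM, map_mul, hM, hM, CfsgLib.Frobenius.indMatrix_mul]) }
  obtain ⟨n, ρ, hρ⟩ := CfsgLib.Frobenius.isRealisable_of_matrix ι M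
  refine ⟨n, ρ, fun g => ?_⟩
  rw [← hρ, ← hσ, ← CfsgLib.Frobenius.trace_indMatrix E σ g, ← hM g]
  exact (AddMonoidHom.map_trace ι.toAddMonoidHom (M' g)).symm

/-- Brauer's splitting field Theorem: a complex representation of a finite group of exponent m is equivalent to a representation by matrices with entries in ℚ adjoined exp(2πi/m). -/
theorem result {G : Type*} [Group G] [Finite G] (n : ℕ) (ρ : Representation ℂ G (Fin n → ℂ)) : ∃ σ : Representation ℂ G (Fin n → ℂ), Nonempty (ρ.Equiv σ) ∧ ∀ g : G, ∀ i j : Fin n, LinearMap.toMatrix' (σ g) i j ∈ Algebra.adjoin ℚ ({Complex.exp (2 * Real.pi * Complex.I / (Monoid.exponent G : ℂ))} : Set ℂ) := by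
  classical
  have := Fintype.ofFinite G
  have : NeZero (Monoid.exponent G) := ⟨Monoid.exponent_ne_zero_of_finite⟩
  have hχ : Cfsg.IsCharacter G ρ.character := ⟨n, ρ, rfl⟩
  have hreal : CfsgLib.Frobenius.IsRealisable (CfsgLib.Jordan.cycField (Monoid.exponent G)).val.toRingHom
      ρ.character := by
    refine CfsgLib.Frobenius.isRealisable_of_mem_closure _ ?_ hχ
      (CfsgLib.Brauer.mem_closure_linear (CfsgLib.CharTheory.IsCharacter.isGeneralizedCharacter hχ))
    rintro f ⟨E, l, -, rfl⟩
    exact isRealisable_indFun_linear E l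
  obtain ⟨m, τ, hτ⟩ := hreal
  have hnm : n = m := by
    have h := hτ 1
    rw [ρ.char_one, τ.char_one, map_natCast, Nat.cast_inj, Module.finrank_fin_fun,
      Module.finrank_fin_fun] at h
    exact h
  subst hnm
  let ι := (CfsgLib.Jordan.cycField (Monoid.exponent G)).val.toRingHom
  let M : G →* Matrix (Fin n) (Fin n) ℂ :=
    (ι.mapMatrix (m := Fin n)).toMonoidHom.comp
      ((LinearMap.toMatrixAlgEquiv' (R := CfsgLib.Jordan.cycField (Monoid.exponent G))
        (n := Fin n)).toAlgHom.toMonoidHom.comp τ)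
  let σ : Representation ℂ G (Fin n → ℂ) :=
    (Matrix.toLinAlgEquiv' : Matrix (Fin n) (Fin n) ℂ ≃ₐ[ℂ] _).toAlgHom.toMonoidHom.comp M
  have hMσ : ∀ g, LinearMap.toMatrix' (σ g) = M g := fun g => LinearMap.toMatrix'_toLin' (M g)
  refine ⟨σ, CfsgLib.CharTheory.nonempty_equiv_of_character_eq ρ σ (funext fun g => ?_), fun g i j => ?_⟩
  · rw [hτ]
    show _ = LinearMap.trace ℂ _ (σ g)
    rw [LinearMap.trace_eq_matrix_trace ℂ (Pi.basisFun ℂ (Fin n)), LinearMap.toMatrix_eq_toMatrix',
      hMσ, Representation.character,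
      LinearMap.trace_eq_matrix_trace _ (Pi.basisFun _ (Fin n)), LinearMap.toMatrix_eq_toMatrix',
      AddMonoidHom.map_trace]
    rfl
  · rw [hMσ]
    have hζ := Complex.isPrimitiveRoot_exp (Monoid.exponent G) (NeZero.ne _)
    rw [← IntermediateField.adjoin_simple_toSubalgebra_of_isAlgebraic
      ((hζ.isIntegral (NeZero.pos _)).tower_top (A := ℚ)).isAlgebraic]
    exact (LinearMap.toMatrixAlgEquiv' (τ g) i j).2

end Cfsg.Agent.S0166
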