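import Cfsg.Statements.S0167
import Cfsg.Agent.Lib.CharTheory.Convolution

set_option autoImplicit false
open Cfsg

namespace Cfsg.Agent.S0167

/-- An element g of a finite group is a commutator if and only if the sum over the irreducible characters χ of χ g / χ 1 is nonzero. -/
theorem result {G : Type*} [Group G] [Finite G] (g : G) : (∃ a b : G, g = a * b * a⁻¹ * b⁻¹) ↔ ∑ᶠ χ : Cfsg.IrrCharacter G, (χ : G → ℂ) g / (χ : G → ℂ) 1 ≠ 0 := by
  classical
  haveI := Fintype.ofFinite G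
  have h := CfsgLib.CharTheory.card_commutator_eq g
  constructor
  · rintro ⟨a, b, hab⟩ h0
    rw [h0, mul_zero, Nat.cast_eq_zero] at h
    haveI : Nonempty {q : G × G // g = q.1 * q.2 * q.1⁻¹ * q.2⁻¹} := ⟨⟨(a, b), hab⟩⟩
    exact Nat.card_pos.ne' h
  · intro h0
    obtain ⟨q⟩ : Nonempty {q : G × G // g = q.1 * q.2 * q.1⁻¹ * q.2⁻¹} := by
      rw [← not_isEmpty_iff]
      intro he
      rw [Nat.card_of_isEmpty, Nat.cast_zero] at h
      exact h0 ((mul_eq_zero.1 h.symm).resolve_left (Nat.cast_ne_zero.2 Nat.card_pos.ne'))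
    exact ⟨q.1.1, q.1.2, q.2⟩

end Cfsg.Agent.S0167
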