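import Cfsg.Statements.S0193
import Cfsg.Agent.Lib.CharTheory.Basic
import Cfsg.Agent.Lib.Frobenius.ConjChar

set_option autoImplicit false
open Cfsg

namespace Cfsg.Agent.S0193

/-- Let H be a normal subgroup of a finite group G and θ an irreducible character of H. Then |H| times the inner product of the induced function of θ with itself equals the number of g in G with θ(g h g⁻¹) = θ(h) for all h in H; in particular the induced character is irreducible when only elements of H stabilise θ. -/
theorem result {G : Type*} [Group G] [Fintype G] (H : Subgroup G) [hN : H.Normal] (θ : H → ℂ) (hθ : Cfsg.IsIrrCharacter H θ) : (Nat.card H : ℂ) * Cfsg.classInner (Cfsg.indFun H θ) (Cfsg.indFun H θ) = (Nat.card {g : G // ∀ h : H, θ ⟨g * h * g⁻¹, hN.conj_mem h h.2 g⟩ = θ h} : ℂ) := by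
  classical
  open CfsgLib.Frobenius CfsgLib.CharTheory in
  have hcl : ∀ x : G, classInner θ (conjTwist H x θ) = if θ = conjTwist H x θ then 1 else 0 :=
    fun x => classInner_irr hθ (isIrrCharacter_conjTwist H x hθ)
  open CfsgLib.Frobenius in
  rw [classInner_indFun H θ _ (indFun_isClassFunction H θ)]
  have hres : (fun h : H => Cfsg.indFun H θ h)
      = (Nat.card H : ℂ)⁻¹ • ∑ x : G, CfsgLib.Frobenius.conjTwist H x θ := by
    funext h
    rw [CfsgLib.Frobenius.indFun_coe_normal]
    simp [Finset.sum_apply]
  rw [hres, CfsgLib.CharTheory.classInner_smul_right, CfsgLib.CharTheory.classInner_sum_right]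
  simp only [hcl, map_inv₀, map_natCast, Finset.sum_boole]
  rw [← mul_assoc, mul_inv_cancel₀ (Nat.cast_ne_zero.2 Nat.card_pos.ne'), one_mul,
    Nat.card_eq_fintype_card, Fintype.card_subtype]
  congr 1
  refine Finset.card_equiv (Equiv.inv G) fun x => ?_
  simp only [Finset.mem_filter, Finset.mem_univ, true_and, Equiv.inv_apply]
  constructor
  · intro h k
    simp only [inv_inv]
    exact (congrFun h k).symm
  · intro h
    funext k
    have := h k
    simp only [inv_inv] at this
    exact this.symm

end Cfsg.Agent.S0193
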