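import Cfsg.Statements.S0171
import Cfsg.Agent.Lib.Frobenius.BrauerPerm
import Cfsg.Agent.Lib.Frobenius.Basic
import Cfsg.Agent.S0193

set_option autoImplicit false
open Cfsg

namespace Cfsg.Agent.S0171

/-- Let G = K H with K normal, K ⊓ H trivial, and no non-identity element of H commuting with a non-identity element of K (a Frobenius group with kernel K and complement H). Then every non-principal irreducible character of K induces to an irreducible character of G. -/
theorem result {G : Type*} [Group G] [Fintype G] (K H : Subgroup G) [K.Normal] (hKH : K ⊓ H = ⊥) (hKH' : K ⊔ H = ⊤) (hfpf : ∀ h ∈ H, h ≠ 1 → ∀ k ∈ K, h * k = k * h → k = 1) (τ : K → ℂ) (hτ : Cfsg.IsIrrCharacter K τ) (hτ1 : τ ≠ fun _ => 1) : Cfsg.IsIrrCharacter G (Cfsg.indFun K τ) := by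
  classical
  open CfsgLib.Frobenius CfsgLib.CharTheory in
  have hchar := isCharacter_indFun K τ (IsIrrCharacter.isCharacter hτ)
  rw [CfsgLib.CharTheory.isIrrCharacter_iff_norm_one hchar]
  have hnorm := Cfsg.Agent.S0193.result K τ hτ
  have hset : ∀ g : G, (∀ k : K, τ ⟨g * k * g⁻¹, Subgroup.Normal.conj_mem ‹K.Normal› k k.2 g⟩ = τ k)
      ↔ g ∈ K := by
    intro g
    have hτc := CfsgLib.CharTheory.IsIrrCharacter.isClassFunction hτ
    constructor
    · intro hg
      obtain ⟨k, hk, h, hh, rfl⟩ := CfsgLib.Frobenius.exists_eq_mul_of_sup_eq_top K H hKH' g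
      by_contra hne
      have h1 : h ≠ 1 := fun e => hne (by rw [e, mul_one]; exact hk)
      apply hτ1
      refine CfsgLib.Frobenius.eq_one_of_fixed (fun x : K => MulAut.conjNormal h x)
        (fun χ => CfsgLib.Frobenius.isIrrCharacter_comp_surjective χ.2
          (MulAut.conjNormal (H := K) h).toMonoidHom (MulAut.conjNormal (H := K) h).surjective)
        (map_one _) (fun x hx => ?_) hτ (funext fun x => ?_)
      · obtain ⟨a, ha⟩ := isConj_iff.1 hx
        have ha' : (a : G) * (h * x * h⁻¹) * (a : G)⁻¹ = x := by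
          simpa using congrArg Subtype.val ha
        obtain ⟨b, hb, hbe⟩ := CfsgLib.Frobenius.exists_conj_eq K H hfpf hh h1 a.2
        have hc : h * (b⁻¹ * x * b) = b⁻¹ * x * b * h := by
          calc h * (b⁻¹ * x * b) = b⁻¹ * ((b * h * b⁻¹) * x * (b * h * b⁻¹)⁻¹) * b * h := by group
            _ = b⁻¹ * ((a : G) * (h * x * h⁻¹) * (a : G)⁻¹) * b * h := by rw [hbe]; group
            _ = b⁻¹ * x * b * h := by rw [ha']
        have := hfpf h hh h1 _ (K.mul_mem (K.mul_mem (K.inv_mem hb) x.2) hb) hc
        apply Subtype.ext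
        calc (x : G) = b * (b⁻¹ * x * b) * b⁻¹ := by group
          _ = 1 := by rw [this]; group
      · have e1 := hg x
        rw [← e1]
        show τ (MulAut.conjNormal h x) = _
        rw [← hτc (MulAut.conjNormal h x) ⟨k, hk⟩]
        congr 1
        apply Subtype.ext
        simp [mul_assoc]
    · intro hg k
      exact hτc k ⟨g, hg⟩
  have hcard : Nat.card {g : G // ∀ k : K, τ ⟨g * k * g⁻¹, Subgroup.Normal.conj_mem ‹K.Normal› k k.2 g⟩ = τ k}
      = Nat.card K := Nat.card_congr (Equiv.subtypeEquivRight hset)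
  rw [hcard] at hnorm
  exact (mul_eq_left₀ (Nat.cast_ne_zero.2 Nat.card_pos.ne')).1 hnorm

end Cfsg.Agent.S0171
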