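import Cfsg.Statements.S0172
import Cfsg.Agent.Lib.Frobenius.Basic

set_option autoImplicit false
open Cfsg

namespace Cfsg.Agent.S0172

open CfsgLib.Frobenius in
theorem isConj_of_isConj {G : Type*} [Group G] (K H : Subgroup G) [hK : K.Normal] (hKH : K ⊓ H = ⊥)
    (hKH' : K ⊔ H = ⊤) (h h' : H) (hc : IsConj (h : G) h') : IsConj h h' := by
  obtain ⟨g, hg⟩ := isConj_iff.1 hc
  obtain ⟨a, ha, b, hb, rfl⟩ := exists_eq_mul_of_sup_eq_top K H hKH' g
  refine isConj_iff.2 ⟨⟨b, hb⟩, Subtype.ext ?_⟩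
  show b * h * b⁻¹ = h'
  have hm : (h' : G) * (b * h * b⁻¹)⁻¹ ∈ K ⊓ H := by
    refine ⟨?_, H.mul_mem h'.2 (H.inv_mem (H.mul_mem (H.mul_mem hb h.2) (H.inv_mem hb)))⟩
    rw [← hg]
    have e : a * b * (h : G) * (a * b)⁻¹ * (b * h * b⁻¹)⁻¹
      = a * ((b * h * b⁻¹) * a⁻¹ * (b * h * b⁻¹)⁻¹) := by group
    rw [e]
    exact K.mul_mem ha (hK.conj_mem _ (K.inv_mem ha) _)
  rw [hKH, Subgroup.mem_bot, mul_inv_eq_one] at hm
  exact hm.symm

open CfsgLib.Frobenius in
theorem card_fibre {G : Type*} [Group G] [Finite G] (K H : Subgroup G) [hK : K.Normal]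
    (hKH : K ⊓ H = ⊥) (hKH' : K ⊔ H = ⊤) (hfpf : ∀ h ∈ H, h ≠ 1 → ∀ k ∈ K, h * k = k * h → k = 1)
    (k : K) (hk : k ≠ 1) :
    Nat.card {D : {C : ConjClasses K // C ≠ 1} //
      ConjClasses.map K.subtype D.1 = ConjClasses.mk (k : G)} = Nat.card H := by
  symm
  have hmem : ∀ h : H, ConjClasses.mk (⟨(h : G) * k * (h : G)⁻¹, hK.conj_mem _ k.2 _⟩ : K) ≠ 1 := by
    intro h e
    rw [ConjClasses.one_eq_mk_one, ConjClasses.mk_eq_mk_iff_isConj, isConj_one_left] at e
    exact hk (Subtype.ext (conj_eq_one_iff.1 (congrArg Subtype.val e)))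
  refine Nat.card_congr (Equiv.ofBijective
    (fun h : H => ⟨⟨_, hmem h⟩, ?_⟩) ⟨?_, ?_⟩)
  · show ConjClasses.mk (((⟨(h : G) * k * (h : G)⁻¹, hK.conj_mem _ k.2 _⟩ : K) : G)) = _
    exact ConjClasses.mk_eq_mk_iff_isConj.2 (IsConj.symm (isConj_iff.2 ⟨h, rfl⟩))
  · intro h h' e
    have e' := ConjClasses.mk_eq_mk_iff_isConj.1 (congrArg (fun D => D.1.1) e)
    obtain ⟨⟨a, ha⟩, he⟩ := isConj_iff.1 e'
    have he' : a * ((h : G) * k * (h : G)⁻¹) * a⁻¹ = (h' : G) * k * (h' : G)⁻¹ :=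
      congrArg Subtype.val he
    by_contra hne
    have hw1 : (h' : G)⁻¹ * h ≠ 1 := fun e1 => hne (Subtype.ext (inv_mul_eq_one.1 e1)).symm
    have hw : (h' : G)⁻¹ * h ∈ H := H.mul_mem (H.inv_mem h'.2) h.2
    obtain ⟨b, hb, hbe⟩ := exists_conj_eq K H hfpf hw hw1
      (show (h' : G)⁻¹ * a * h' ∈ K by simpa using hK.conj_mem a ha (h' : G)⁻¹)
    have hu : (h' : G)⁻¹ * a * h' * ((h' : G)⁻¹ * h) * k
        = k * ((h' : G)⁻¹ * a * h' * ((h' : G)⁻¹ * h)) := by
      calc (h' : G)⁻¹ * a * h' * ((h' : G)⁻¹ * h) * k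
          = (h' : G)⁻¹ * (a * ((h : G) * k * (h : G)⁻¹) * a⁻¹) * (a * h) := by group
        _ = (h' : G)⁻¹ * ((h' : G) * k * (h' : G)⁻¹) * (a * h) := by rw [he']
        _ = k * ((h' : G)⁻¹ * a * h' * ((h' : G)⁻¹ * h)) := by group
    rw [← hbe] at hu
    have hb2 : ((h' : G)⁻¹ * h) * (b⁻¹ * k * b) = (b⁻¹ * k * b) * ((h' : G)⁻¹ * h) := by
      calc ((h' : G)⁻¹ * h) * (b⁻¹ * k * b)
          = b⁻¹ * (b * ((h' : G)⁻¹ * h) * b⁻¹ * k) * b := by group
        _ = b⁻¹ * (k * (b * ((h' : G)⁻¹ * h) * b⁻¹)) * b := by rw [hu]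
        _ = (b⁻¹ * k * b) * ((h' : G)⁻¹ * h) := by group
    have h1 := hfpf _ hw hw1 _ (K.mul_mem (K.mul_mem (K.inv_mem hb) k.2) hb) hb2
    apply hk
    apply Subtype.ext
    calc (k : G) = b * (b⁻¹ * k * b) * b⁻¹ := by group
      _ = 1 := by rw [h1]; group
  · rintro ⟨⟨D, hD⟩, hDe⟩
    obtain ⟨d, rfl⟩ := ConjClasses.exists_rep D
    have hDe' : IsConj (d : G) k := ConjClasses.mk_eq_mk_iff_isConj.1 hDe
    obtain ⟨g, hg⟩ := isConj_iff.1 hDe'.symm
    obtain ⟨a, ha, h, hh, rfl⟩ := exists_eq_mul_of_sup_eq_top K H hKH' g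
    refine ⟨⟨h, hh⟩, Subtype.ext (Subtype.ext (ConjClasses.mk_eq_mk_iff_isConj.2
      (isConj_iff.2 ⟨⟨a, ha⟩, Subtype.ext ?_⟩)))⟩
    show a * (h * k * h⁻¹) * a⁻¹ = d
    rw [← hg]
    group

/-- Class number of a Frobenius group: if G = K H with K normal, K ⊓ H trivial and no non-identity element of H commuting with a non-identity element of K, then |H| * k(G) + 1 = |H| * k(H) + k(K), where k denotes the number of conjugacy classes. -/
theorem result {G : Type*} [Group G] [Finite G] (K H : Subgroup G) [K.Normal] (hKH : K ⊓ H = ⊥) (hKH' : K ⊔ H = ⊤) (hfpf : ∀ h ∈ H, h ≠ 1 → ∀ k ∈ K, h * k = k * h → k = 1) : Nat.card H * Nat.card (ConjClasses G) + 1 = Nat.card H * Nat.card (ConjClasses H) + Nat.card (ConjClasses K) := by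
  classical
  let π : {C : ConjClasses K // C ≠ 1} → ConjClasses G := fun C => ConjClasses.map K.subtype C.1
  have hfib : ∀ C : Set.range π, Nat.card {D // π D = (C : ConjClasses G)} = Nat.card H := by
    rintro ⟨_, ⟨C, hC⟩, rfl⟩
    obtain ⟨k, rfl⟩ := ConjClasses.exists_rep C
    refine card_fibre K H hKH hKH' hfpf k ?_
    rintro rfl
    exact hC ConjClasses.one_eq_mk_one.symm
  have h1 : Nat.card {C : ConjClasses K // C ≠ 1} = Nat.card (Set.range π) * Nat.card H := by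
    rw [Nat.card_congr (Equiv.sigmaFiberEquiv (Set.rangeFactorization π)).symm]
    haveI : Fintype (Set.range π) := Fintype.ofFinite _
    rw [Nat.card_sigma]
    have : ∀ C : Set.range π, Nat.card {D // Set.rangeFactorization π D = C} = Nat.card H := by
      intro C
      rw [← hfib C]
      exact Nat.card_congr (Equiv.subtypeEquivRight fun D => Subtype.ext_iff)
    simp only [this, Finset.sum_const, Finset.card_univ, smul_eq_mul, Nat.card_eq_fintype_card]
  let Φ : Option ({C : ConjClasses H // C ≠ 1} ⊕ Set.range π) → ConjClasses G := fun o =>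
    o.elim 1 (Sum.elim (fun C => ConjClasses.map H.subtype C.1) Subtype.val)
  have hmapne : ∀ (L : Subgroup G) (C : ConjClasses L), C ≠ 1 → ConjClasses.map L.subtype C ≠ 1 := by
    intro L C hC e
    obtain ⟨c, rfl⟩ := ConjClasses.exists_rep C
    have e' : IsConj (c : G) 1 := ConjClasses.mk_eq_mk_iff_isConj.1
      (e.trans ConjClasses.one_eq_mk_one)
    rw [isConj_one_left] at e'
    apply hC
    rw [show c = 1 from Subtype.ext e', ← ConjClasses.one_eq_mk_one]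
  have hΦinj : Function.Injective Φ := by
    have hK : ∀ C : Set.range π, (C : ConjClasses G) ≠ 1 := by
      rintro ⟨_, C, rfl⟩
      exact hmapne K C.1 C.2
    have hHK : ∀ (C : {C : ConjClasses H // C ≠ 1}) (D : Set.range π),
        ConjClasses.map H.subtype C.1 ≠ (D : ConjClasses G) := by
      rintro ⟨C, hC⟩ ⟨_, ⟨D, hD⟩, rfl⟩ e
      obtain ⟨c, rfl⟩ := ConjClasses.exists_rep C
      obtain ⟨d, rfl⟩ := ConjClasses.exists_rep D
      obtain ⟨g, hg⟩ := isConj_iff.1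
        (ConjClasses.mk_eq_mk_iff_isConj.1 (e.symm : ConjClasses.mk (d : G) = ConjClasses.mk (c : G)))
      have hc : (c : G) ∈ K ⊓ H := by
        refine ⟨?_, c.2⟩
        have h := (inferInstance : K.Normal).conj_mem _ d.2 g
        rwa [show g * (d : G) * g⁻¹ = (c : G) from hg] at h
      rw [hKH, Subgroup.mem_bot] at hc
      apply hC
      rw [show c = 1 from Subtype.ext hc, ← ConjClasses.one_eq_mk_one]
    rintro (_ | C | C) (_ | D | D) e
    · rfl
    · exact absurd e.symm (hmapne H D.1 D.2)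
    · exact absurd e.symm (hK D)
    · exact absurd e (hmapne H C.1 C.2)
    · obtain ⟨C, hC⟩ := C
      obtain ⟨D, hD⟩ := D
      obtain ⟨c, rfl⟩ := ConjClasses.exists_rep C
      obtain ⟨d, rfl⟩ := ConjClasses.exists_rep D
      have := isConj_of_isConj K H hKH hKH' c d (ConjClasses.mk_eq_mk_iff_isConj.1 e)
      simp only [ConjClasses.mk_eq_mk_iff_isConj.2 this]
    · exact absurd e (hHK C D)
    · exact absurd e (hK C)
    · exact absurd e.symm (hHK D C)
    · exact congrArg some (congrArg Sum.inr (Subtype.ext e))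
  have hΦsurj : Function.Surjective Φ := by
    intro C
    obtain ⟨g, rfl⟩ := ConjClasses.exists_rep C
    by_cases hgK : g ∈ K
    · by_cases hg1 : g = 1
      · exact ⟨none, hg1 ▸ ConjClasses.one_eq_mk_one⟩
      refine ⟨some (Sum.inr ⟨_, ⟨⟨ConjClasses.mk ⟨g, hgK⟩, ?_⟩, rfl⟩⟩), rfl⟩
      intro e
      rw [ConjClasses.one_eq_mk_one, ConjClasses.mk_eq_mk_iff_isConj, isConj_one_left] at e
      exact hg1 (congrArg Subtype.val e)
    · obtain ⟨k, hk, h, hh, rfl⟩ := CfsgLib.Frobenius.exists_eq_mul_of_sup_eq_top K H hKH' g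
      have hh1 : h ≠ 1 := fun e => hgK (by simpa [e] using hk)
      obtain ⟨a, _, hae⟩ := CfsgLib.Frobenius.exists_conj_eq K H hfpf hh hh1 hk
      refine ⟨some (Sum.inl ⟨ConjClasses.mk ⟨h, hh⟩, ?_⟩), ?_⟩
      · intro e
        rw [ConjClasses.one_eq_mk_one, ConjClasses.mk_eq_mk_iff_isConj, isConj_one_left] at e
        exact hh1 (congrArg Subtype.val e)
      · exact ConjClasses.mk_eq_mk_iff_isConj.2 (isConj_iff.2 ⟨a, hae⟩)
  have h2 := Nat.card_congr (Equiv.ofBijective Φ ⟨hΦinj, hΦsurj⟩)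
  rw [Finite.card_option, Nat.card_sum] at h2
  have h3 : Nat.card {C : ConjClasses K // C ≠ 1} + 1 = Nat.card (ConjClasses K) := by
    rw [← Finite.card_option]
    exact Nat.card_congr (Equiv.optionSubtypeNe (1 : ConjClasses K))
  have h4 : Nat.card {C : ConjClasses H // C ≠ 1} + 1 = Nat.card (ConjClasses H) := by
    rw [← Finite.card_option]
    exact Nat.card_congr (Equiv.optionSubtypeNe (1 : ConjClasses H))
  rw [← h2, ← h3, ← h4, h1]
  ring

end Cfsg.Agent.S0172
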