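import Cfsg.Statements.S0173
import Cfsg.Agent.Lib.Frobenius.BrauerPerm

set_option autoImplicit false
open Cfsg

namespace Cfsg.Agent.S0173

/-- Brauer's permutation lemma for a single automorphism: the number of conjugacy classes mapped to themselves equals the number of irreducible complex characters χ with χ ∘ α = χ. -/
theorem result {G : Type*} [Group G] [Finite G] (α : G ≃* G) : Nat.card {C : ConjClasses G // ConjClasses.map α.toMonoidHom C = C} = Nat.card {χ : Cfsg.IrrCharacter G // (χ : G → ℂ) ∘ α = (χ : G → ℂ)} := by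
  classical
  open CfsgLib.Frobenius in
  have := Fintype.ofFinite G
  have hα : ∀ χ : Cfsg.IrrCharacter G, Cfsg.IsIrrCharacter G ((χ : G → ℂ) ∘ α) := fun χ =>
    CfsgLib.Frobenius.isIrrCharacter_comp_surjective χ.2 α.toMonoidHom α.surjective
  have h := CfsgLib.Frobenius.card_fixed_irr α hα
  rw [← Finset.sum_fiberwise Finset.univ (ConjClasses.mk (α := G))] at h
  have h2 : ∀ C : ConjClasses G, ∑ g ∈ Finset.univ.filter (fun g => ConjClasses.mk g = C),
      (if IsConj (α g) g then (Nat.card (Subgroup.centralizer ({g} : Set G)) : ℂ) else 0)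
      = if ConjClasses.map α.toMonoidHom C = C then (Nat.card G : ℂ) else 0 := by
    intro C
    obtain ⟨g₀, rfl⟩ := ConjClasses.exists_rep C
    have hcent : ∀ g : G, IsConj g₀ g → Nat.card (Subgroup.centralizer ({g} : Set G))
        * (Finset.univ.filter fun x => ConjClasses.mk x = ConjClasses.mk g₀).card = Nat.card G := by
      intro g hg
      have e : (Finset.univ.filter fun x => ConjClasses.mk x = ConjClasses.mk g₀).card
          = (Subgroup.centralizer ({g} : Set G)).index := by
        rw [← CfsgLib.CharTheory.card_isConj, Nat.card_eq_fintype_card, Fintype.card_subtype]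
        refine congrArg Finset.card (Finset.filter_congr fun x _ => ?_)
        rw [ConjClasses.mk_eq_mk_iff_isConj]
        exact ⟨fun hx => (hx.trans hg).symm, fun hx => (hg.trans hx).symm⟩
      rw [e, Subgroup.card_mul_index]
    have hiff : ∀ g : G, IsConj g₀ g → (IsConj (α g) g
        ↔ ConjClasses.map α.toMonoidHom (ConjClasses.mk g₀) = ConjClasses.mk g₀) := by
      intro g hg
      rw [ConjClasses.mk_eq_mk_iff_isConj.2 hg]
      exact ConjClasses.mk_eq_mk_iff_isConj.symm
    by_cases hC : ConjClasses.map α.toMonoidHom (ConjClasses.mk g₀) = ConjClasses.mk g₀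
    · rw [if_pos hC, Finset.sum_congr rfl (g := fun _ =>
        (Nat.card (Subgroup.centralizer ({g₀} : Set G)) : ℂ)) fun g hg => ?_]
      · rw [Finset.sum_const, nsmul_eq_mul, ← hcent g₀ (IsConj.refl _), Nat.cast_mul, mul_comm]
      · rw [Finset.mem_filter, ConjClasses.mk_eq_mk_iff_isConj] at hg
        rw [if_pos ((hiff g hg.2.symm).2 hC)]
        have e := (hcent g hg.2.symm).trans (hcent g₀ (IsConj.refl _)).symm
        rw [Nat.eq_of_mul_eq_mul_right (Finset.card_pos.2 ⟨g₀, by simp⟩) e]
    · rw [if_neg hC]
      refine Finset.sum_eq_zero fun g hg => if_neg fun hc => hC ?_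
      rw [Finset.mem_filter, ConjClasses.mk_eq_mk_iff_isConj] at hg
      exact (hiff g hg.2.symm).1 hc
  replace h := h.trans (congrArg _ (Finset.sum_congr rfl fun C _ => by convert! h2 C using 3))
  rw [← Finset.sum_filter, Finset.sum_const, nsmul_eq_mul] at h
  rw [mul_comm ((Finset.card _ : ℕ) : ℂ), ← mul_assoc,
    inv_mul_cancel₀ (Nat.cast_ne_zero.2 Nat.card_pos.ne'), one_mul, Nat.cast_inj] at h
  rw [h, Nat.card_eq_fintype_card, Fintype.card_subtype]

end Cfsg.Agent.S0173
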