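import Cfsg.Statements.S0177
import Cfsg.Agent.Lib.CharTheory.Artin
import Cfsg.Agent.Lib.Brauer.Induction

set_option autoImplicit false
open Cfsg

namespace Cfsg.Agent.S0177

/-- The Artin induction Theorem: for a character χ of a finite group, |G| • χ is a ℤ-linear combination of functions induced from homomorphisms of cyclic subgroups into ℂˣ. -/
theorem result {G : Type*} [Group G] [Fintype G] (χ : G → ℂ) (hχ : Cfsg.IsCharacter G χ) : ∃ l : List ((A : Subgroup G) × ((A →* ℂˣ) × ℤ)), (∀ t ∈ l, IsCyclic t.1) ∧ (Nat.card G : ℂ) • χ = (l.map fun t => (t.2.2 : ℂ) • Cfsg.indFun t.1 (fun a => (t.2.1 a : ℂ))).sum := by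
  let F : ((A : Subgroup G) × (A →* ℂˣ)) → G → ℂ :=
    fun i => Cfsg.indFun i.1 fun a => (i.2 a : ℂ)
  let P : ((A : Subgroup G) × (A →* ℂˣ)) → Prop := fun i => IsCyclic i.1
  have hsub : (Nat.card G : ℂ) • χ ∈ AddSubgroup.closure {g | ∃ i, P i ∧ g = F i} := by
    refine AddSubgroup.closure_mono ?_ (CfsgLib.CharTheory.card_smul_mem_closure_cyclic
      (CfsgLib.Brauer.isGeneralizedCharacter_of_isCharacter hχ))
    rintro f ⟨A, l, hA, rfl⟩
    exact ⟨⟨A, l⟩, hA, rfl⟩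
  obtain ⟨l, hl, heq⟩ := CfsgLib.Brauer.exists_list_of_mem_closure F P hsub
  refine ⟨l.map fun t => ⟨t.1.1, (t.1.2, t.2)⟩, fun t ht => ?_, ?_⟩
  · obtain ⟨s, hs, rfl⟩ := List.mem_map.1 ht
    exact hl s hs
  · rw [heq, List.map_map]
    rfl

end Cfsg.Agent.S0177
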