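import Cfsg.Statements.S0178
import Cfsg.Agent.Lib.Frobenius.Eigen

set_option autoImplicit false
open Cfsg

namespace Cfsg.Agent.S0178

/-- The degree of an irreducible complex representation of a finite group is at most the index of any abelian subgroup. -/
theorem result {G : Type*} [Group G] [Finite G] {V : Type*} [AddCommGroup V] [Module ℂ V] [FiniteDimensional ℂ V] (ρ : Representation ℂ G V) [ρ.IsIrreducible] (A : Subgroup G) (hA : ∀ a ∈ A, ∀ b ∈ A, a * b = b * a) : Module.finrank ℂ V ≤ A.index := by
  have hnt : Nontrivial V := by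
    by_contra h
    rw [not_nontrivial_iff_subsingleton] at h
    obtain ⟨S, T, hST⟩ := exists_pair_ne (Subrepresentation ρ)
    exact hST (SetLike.ext fun x => by
      simp only [Subsingleton.elim x 0]
      exact ⟨fun _ => T.toSubmodule.zero_mem, fun _ => S.toSubmodule.zero_mem⟩)
  obtain ⟨v, hv0, hv⟩ := CfsgLib.Frobenius.exists_common_eigenvector ρ A hA
  let W : Submodule ℂ V := Submodule.span ℂ (Set.range fun q : G ⧸ A => ρ q.out v)
  let S : Subrepresentation ρ :=
    ⟨W, fun g _ hx => CfsgLib.Frobenius.span_transversal_stable ρ A v hv g hx⟩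
  obtain ⟨a, ha⟩ := QuotientGroup.mk_out_eq_mul A (1 : G)
  have hvW : v ∈ W := by
    have h1 : ρ (((1 : G) : G ⧸ A)).out v ∈ W := Submodule.subset_span ⟨_, rfl⟩
    have h2 := S.apply_mem_toSubmodule (a : G)⁻¹ h1
    rwa [← Module.End.mul_apply, ← map_mul, ha, one_mul, inv_mul_cancel, map_one,
      Module.End.one_apply] at h2
  have hS : S = ⊤ := (eq_bot_or_eq_top S).resolve_left fun e => hv0 (by
    have : v ∈ (⊥ : Subrepresentation ρ).toSubmodule := e ▸ hvW
    exact (Submodule.mem_bot ℂ).1 this)
  have hW : W = ⊤ := congrArg Subrepresentation.toSubmodule hS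
  classical
  haveI : Fintype (G ⧸ A) := Fintype.ofFinite _
  calc Module.finrank ℂ V = Module.finrank ℂ W := by rw [hW, finrank_top]
    _ ≤ Fintype.card (G ⧸ A) := finrank_range_le_card (R := ℂ) (fun q : G ⧸ A => ρ q.out v)
    _ = A.index := by rw [Subgroup.index, Nat.card_eq_fintype_card]

end Cfsg.Agent.S0178
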