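import Cfsg.Statements.S0180
import Cfsg.Agent.Lib.Jordan.GaloisNorm
import Cfsg.Agent.Lib.CharTheory.Orthogonality
import Cfsg.Agent.Lib.CharDegreesTheory.Galois

set_option autoImplicit false
open Cfsg

namespace Cfsg.Agent.S0180

/-- Every irreducible complex character of a finite group takes only rational values if and only if g is conjugate to g ^ m for every element g and every m coprime to the group order. -/
theorem result {G : Type*} [Group G] [Finite G] : (∀ χ : Cfsg.IrrCharacter G, ∀ g : G, ∃ q : ℚ, (χ : G → ℂ) g = (q : ℂ)) ↔ ∀ m : ℕ, m.Coprime (Nat.card G) → ∀ g : G, IsConj g (g ^ m) := by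
  classical
  have := Fintype.ofFinite G
  have : NeZero (Nat.card G) := ⟨Nat.card_pos.ne'⟩
  constructor
  · intro h m hm g
    obtain ⟨σ, hσ⟩ := CfsgLib.CharDegreesTheory.exists_ringAut_complex (Nat.card G) m hm
    refine CfsgLib.CharTheory.isConj_of_forall_irr fun χ => ?_
    obtain ⟨q, hq⟩ := h χ g
    rw [← CfsgLib.CharDegreesTheory.ringAut_apply_character σ hσ
      (CfsgLib.CharTheory.IsIrrCharacter.isCharacter χ.2) (orderOf_dvd_natCard g), hq, map_ratCast]
  · intro h χ g
    have hχ := CfsgLib.CharTheory.IsIrrCharacter.isCharacter χ.2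
    have hg : g ^ Nat.card G = 1 := pow_card_eq_one'
    have := CfsgLib.Jordan.cycField_isCyclotomic (Nat.card G)
    have : IsGalois ℚ (CfsgLib.Jordan.cycField (Nat.card G)) :=
      IsCyclotomicExtension.isGalois {Nat.card G} ℚ _
    have : FiniteDimensional ℚ (CfsgLib.Jordan.cycField (Nat.card G)) :=
      IsCyclotomicExtension.finiteDimensional {Nat.card G} ℚ _
    let P : CfsgLib.Jordan.cycField (Nat.card G) := ⟨_, CfsgLib.Jordan.mem_cycField hχ hg⟩
    have hfix : ∀ σ : (CfsgLib.Jordan.cycField (Nat.card G)) ≃ₐ[ℚ] (CfsgLib.Jordan.cycField (Nat.card G)), σ P = P := by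
      intro σ
      obtain ⟨t, ht, hval⟩ := CfsgLib.Jordan.exists_galois_apply (Nat.card G) σ
      apply Subtype.ext
      rw [hval _ hχ g P hg rfl]
      exact (CfsgLib.CharTheory.irr_apply_eq_of_isConj (h t ht g) χ).symm
    obtain ⟨q, hq⟩ := IntermediateField.mem_bot.1 ((IsGalois.mem_bot_iff_fixed P).2 hfix)
    refine ⟨q, ?_⟩
    show (P : ℂ) = _
    rw [← hq]
    simp

end Cfsg.Agent.S0180
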