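import Cfsg.Statements.S0181
import Cfsg.Agent.Lib.CharTheory.Orthogonality
import Cfsg.Agent.Lib.Frobenius.ConjChar

set_option autoImplicit false
open Cfsg

namespace Cfsg.Agent.S0181

/-- Let H be a normal subgroup of a finite group G and ρ an irreducible complex representation whose kernel does not contain H. If g commutes with no non-identity element of H, then the character of ρ vanishes at g. -/
theorem result {G : Type*} [Group G] [Finite G] {V : Type*} [AddCommGroup V] [Module ℂ V] [FiniteDimensional ℂ V] (ρ : Representation ℂ G V) [ρ.IsIrreducible] (H : Subgroup G) [H.Normal] (hker : ∃ h ∈ H, ρ h ≠ LinearMap.id) (g : G) (hg : ∀ h ∈ H, h * g = g * h → h = 1) : ρ.character g = 0 := by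
  classical
  have := Fintype.ofFinite G
  have := Fintype.ofFinite (G ⧸ H)
  have := Fintype.ofFinite (Cfsg.IrrCharacter G)
  have := Fintype.ofFinite (Cfsg.IrrCharacter (G ⧸ H))
  let I : Cfsg.IrrCharacter (G ⧸ H) → Cfsg.IrrCharacter G := fun φ =>
    ⟨_, CfsgLib.Frobenius.isIrrCharacter_comp_surjective φ.2 (QuotientGroup.mk' H)
      (QuotientGroup.mk'_surjective H)⟩
  have hI : Function.Injective I := fun a b e => Subtype.ext (funext fun q => by
    obtain ⟨x, rfl⟩ := QuotientGroup.mk'_surjective H q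
    exact congrFun (congrArg Subtype.val e) x)
  let χ : Cfsg.IrrCharacter G := ⟨_, CfsgLib.CharTheory.isIrrCharacter_character ρ⟩
  have hχ : χ ∉ Finset.univ.image I := by
    intro hm
    obtain ⟨φ, -, hφ⟩ := Finset.mem_image.1 hm
    obtain ⟨h, hh, hne⟩ := hker
    apply hne
    refine (CfsgLib.CharTheory.character_eq_finrank_iff ρ h).1 ?_
    rw [← ρ.char_one]
    have e := congrArg Subtype.val hφ
    show (χ : G → ℂ) h = (χ : G → ℂ) 1
    rw [← e]
    show (φ : G ⧸ H → ℂ) _ = (φ : G ⧸ H → ℂ) _
    rw [map_one, show QuotientGroup.mk' H h = 1 from (QuotientGroup.eq_one_iff h).2 hh]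
  have h1 := congrArg Complex.re (CfsgLib.CharTheory.sum_mul_conj g g)
  have h2 := congrArg Complex.re
    (CfsgLib.CharTheory.sum_mul_conj (G := G ⧸ H) (g : G ⧸ H) (g : G ⧸ H))
  rw [if_pos (IsConj.refl _), Complex.re_sum, Complex.natCast_re] at h1 h2
  simp only [Complex.mul_conj, Complex.ofReal_re] at h1 h2
  have hle : Nat.card (Subgroup.centralizer ({g} : Set G))
      ≤ Nat.card (Subgroup.centralizer ({(g : G ⧸ H)} : Set (G ⧸ H))) := by
    refine Nat.card_le_card_of_injective (fun c => ⟨((c : G) : G ⧸ H), ?_⟩) fun c d e => ?_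
    · rw [Subgroup.mem_centralizer_singleton_iff]
      exact congrArg (fun x : G => (x : G ⧸ H)) (Subgroup.mem_centralizer_singleton_iff.1 c.2)
    · apply Subtype.ext
      have e' : ((c : G) : G ⧸ H) = ((d : G) : G ⧸ H) := congrArg Subtype.val e
      have hmem := (Subgroup.centralizer ({g} : Set G)).mul_mem
        ((Subgroup.centralizer ({g} : Set G)).inv_mem c.2) d.2
      exact inv_mul_eq_one.1 (hg _ (QuotientGroup.eq.1 e') (Subgroup.mem_centralizer_singleton_iff.1 hmem))
  have h3 : ∑ ψ ∈ Finset.univ.image I, Complex.normSq ((ψ : G → ℂ) g)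
      = (Nat.card (Subgroup.centralizer ({(g : G ⧸ H)} : Set (G ⧸ H))) : ℝ) := by
    rw [Finset.sum_image hI.injOn]
    exact h2
  rw [← Finset.sum_add_sum_compl (Finset.univ.image I)] at h1
  have h4 := Finset.single_le_sum (f := fun ψ : Cfsg.IrrCharacter G => Complex.normSq ((ψ : G → ℂ) g))
    (fun ψ _ => Complex.normSq_nonneg _) (Finset.mem_compl.2 hχ)
  have h5 : Complex.normSq (ρ.character g) ≤ 0 := by
    have hle' : (Nat.card (Subgroup.centralizer ({g} : Set G)) : ℝ)
        ≤ Nat.card (Subgroup.centralizer ({(g : G ⧸ H)} : Set (G ⧸ H))) := Nat.cast_le.2 hle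
    change Complex.normSq (ρ.character g) ≤ _ at h4
    linarith
  exact Complex.normSq_eq_zero.1 (le_antisymm h5 (Complex.normSq_nonneg _))

end Cfsg.Agent.S0181
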