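import Cfsg.Statements.S0184
import Cfsg.Agent.Lib.Frobenius.Separate
import Mathlib.GroupTheory.PGroup
import Mathlib.GroupTheory.SpecificGroups.Cyclic
import Mathlib.GroupTheory.GroupAction.ConjAct
import Mathlib.RingTheory.IntegralDomain
import Mathlib.RepresentationTheory.Irreducible
import Mathlib.LinearAlgebra.Eigenspace.Triangularizable
import Mathlib.Analysis.Complex.Polynomial.Basic

set_option autoImplicit false
open Cfsg

namespace Cfsg.Agent.S0184

/-- In an irreducible representation a central element acts as a scalar. -/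
theorem exists_scalar {G : Type*} [Group G] {n : ℕ} (ρ : Representation ℂ G (Fin n → ℂ))
    [ρ.IsIrreducible] {c : G} (hc : c ∈ Subgroup.center G) :
    ∃ a : ℂ, ∀ x, ρ c x = a • x := by
  have hnt : Nontrivial (Fin n → ℂ) := by
    by_contra h
    rw [not_nontrivial_iff_subsingleton] at h
    obtain ⟨S, T, hST⟩ := exists_pair_ne (Subrepresentation ρ)
    exact hST (SetLike.ext fun x => by
      simp only [Subsingleton.elim x 0]
      exact ⟨fun _ => T.toSubmodule.zero_mem, fun _ => S.toSubmodule.zero_mem⟩)
  obtain ⟨a, ha⟩ := Module.End.exists_eigenvalue (ρ c)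
  let S : Subrepresentation ρ := ⟨Module.End.eigenspace (ρ c) a, fun g x hx => by
    rw [Module.End.mem_eigenspace_iff] at hx ⊢
    rw [← Module.End.mul_apply, ← map_mul, ← Subgroup.mem_center_iff.1 hc g, map_mul,
      Module.End.mul_apply, hx, map_smul]⟩
  have hS : S = ⊤ := (eq_bot_or_eq_top S).resolve_left fun h =>
    ha (congrArg Subrepresentation.toSubmodule h)
  exact ⟨a, fun x => Module.End.mem_eigenspace_iff.1
    ((congrArg Subrepresentation.toSubmodule hS).ge (Submodule.mem_top : x ∈ (⊤ : Submodule ℂ _)))⟩

/-- A non-trivial normal subgroup of a finite `p`-group contains a non-identity central element. -/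
theorem exists_mem_center {G : Type*} [Group G] [Finite G] {p : ℕ} [Fact p.Prime]
    (hG : IsPGroup p G) (N : Subgroup G) [N.Normal] {w : G} (hw : w ∈ N) (hw1 : w ≠ 1) :
    ∃ c ∈ N, c ∈ Subgroup.center G ∧ c ≠ 1 := by
  have hN : p ∣ Nat.card N := by
    have : Nontrivial N := ⟨⟨⟨w, hw⟩, 1, fun h => hw1 (congrArg Subtype.val h)⟩⟩
    obtain ⟨k, hk, he⟩ := (hG.to_subgroup N).nontrivial_iff_card.1 this
    rw [he]
    exact dvd_pow_self p hk.ne'
  obtain ⟨a, ha, hne⟩ := (hG.of_equiv ConjAct.toConjAct).exists_fixed_point_of_prime_dvd_card_of_fixed_point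
    N hN (a := (1 : N)) (fun g => smul_one g)
  refine ⟨a, a.2, Subgroup.mem_center_iff.2 fun g => ?_, fun h => hne (Subtype.ext h.symm)⟩
  have e : g * (a : G) * g⁻¹ = a := congrArg Subtype.val (ha (ConjAct.toConjAct g))
  exact mul_inv_eq_iff_eq_mul.1 e

/-- A finite p-group admits a faithful irreducible complex representation if and only if its centre is cyclic. -/
theorem result {G : Type*} [Group G] [Finite G] (p : ℕ) [Fact p.Prime] (hG : IsPGroup p G) : (∃ (n : ℕ) (ρ : Representation ℂ G (Fin n → ℂ)), ρ.IsIrreducible ∧ Function.Injective ρ) ↔ IsCyclic (Subgroup.center G) := by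
  constructor
  · rintro ⟨n, ρ, hirr, hinj⟩
    have : ∀ c : Subgroup.center G, ∃ a : ℂ, ∀ x, ρ (c : G) x = a • x := fun c => exists_scalar ρ c.2
    choose f hf using this
    have hnt : ∃ v : Fin n → ℂ, v ≠ 0 := by
      by_contra h
      push Not at h
      obtain ⟨S, T, hST⟩ := exists_pair_ne (Subrepresentation ρ)
      exact hST (SetLike.ext fun x => by
        simp only [h x]
        exact ⟨fun _ => T.toSubmodule.zero_mem, fun _ => S.toSubmodule.zero_mem⟩)
    obtain ⟨v, hv⟩ := hnt
    let F : Subgroup.center G →* ℂ :=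
      { toFun := f
        map_one' := smul_left_injective ℂ hv (by
          show f 1 • v = (1 : ℂ) • v
          rw [← hf 1 v]; simp)
        map_mul' := fun a b => smul_left_injective ℂ hv (by
          show f (a * b) • v = (f a * f b) • v
          rw [← hf (a * b) v, Subgroup.coe_mul, map_mul, Module.End.mul_apply, hf, hf, smul_smul]) }
    refine isCyclic_of_injective_ringHom F fun a b (h : f a = f b) => ?_
    exact Subtype.ext (hinj (LinearMap.ext fun x => by rw [hf, hf, h]))
  · intro hcyc
    classical
    rcases subsingleton_or_nontrivial G with hG1 | hG1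
    · refine ⟨1, 1, ?_, fun a b _ => Subsingleton.elim a b⟩
      have : Nontrivial (Subrepresentation (1 : Representation ℂ G (Fin 1 → ℂ))) := by
        refine ⟨⊥, ⊤, fun h => ?_⟩
        have hb : (⊥ : Submodule ℂ (Fin 1 → ℂ)) = ⊤ := congrArg Subrepresentation.toSubmodule h
        exact bot_ne_top hb
      refine ⟨fun S => ?_⟩
      have h1 : S.toSubmodule = ⊥ ∨ S.toSubmodule = ⊤ := by
        have hle := Submodule.finrank_le S.toSubmodule
        rw [Module.finrank_fin_fun] at hle
        rcases Nat.le_one_iff_eq_zero_or_eq_one.1 hle with h | h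
        · exact Or.inl (Submodule.finrank_eq_zero.1 h)
        · exact Or.inr (Submodule.eq_top_of_finrank_eq (by rw [h, Module.finrank_fin_fun]))
      rcases h1 with h | h
      · exact Or.inl (Subrepresentation.toSubmodule_injective h)
      · exact Or.inr (Subrepresentation.toSubmodule_injective h)
    · have := hG.center_nontrivial
      obtain ⟨k, hk, he⟩ := (hG.to_subgroup (Subgroup.center G)).nontrivial_iff_card.1 this
      obtain ⟨z, hz⟩ := exists_prime_orderOf_dvd_card' (G := Subgroup.center G) p
        (by rw [he]; exact dvd_pow_self p hk.ne')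
      have hp1 : p ≠ 1 := (Fact.out : p.Prime).ne_one
      have hz1 : (z : G) ≠ 1 := by
        intro h
        rw [← Subgroup.orderOf_coe, h, orderOf_one] at hz
        exact hp1 hz.symm
      obtain ⟨n, ρ, hirr, hρz⟩ := CfsgLib.Frobenius.exists_irreducible_apply_ne_one hz1
      refine ⟨n, ρ, hirr, fun a b hab => ?_⟩
      by_contra hne
      have hker : b⁻¹ * a ∈ MonoidHom.ker ρ := by
        rw [MonoidHom.mem_ker, map_mul, hab, ← map_mul, inv_mul_cancel, map_one]
      obtain ⟨c, hcN, hcZ, hc1⟩ := exists_mem_center hG (MonoidHom.ker ρ) hker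
        (fun h => hne (inv_mul_eq_one.1 h).symm)
      apply hρz
      -- the element of order `p` lies in every non-trivial subgroup of the centre
      let T : Subgroup (Subgroup.center G) := (MonoidHom.ker ρ).subgroupOf (Subgroup.center G)
      have hT : Nontrivial T :=
        ⟨⟨⟨⟨c, hcZ⟩, hcN⟩, 1, fun h => hc1 (congrArg (fun t : T => ((t : Subgroup.center G) : G)) h)⟩⟩
      obtain ⟨j, hj, hje⟩ := ((hG.to_subgroup _).to_subgroup T).nontrivial_iff_card.1 hT
      obtain ⟨y, hy⟩ := exists_prime_orderOf_dvd_card' (G := T) p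
        (by rw [hje]; exact dvd_pow_self p hj.ne')
      have hy' : orderOf (y : Subgroup.center G) = p := by rw [Subgroup.orderOf_coe, hy]
      have : Fintype (Subgroup.center G) := Fintype.ofFinite _
      have hle := IsCyclic.card_pow_eq_one_le (α := Subgroup.center G) (Fact.out : p.Prime).pos
      have hsub : (Subgroup.zpowers (y : Subgroup.center G) : Set (Subgroup.center G)).toFinset
          = Finset.univ.filter (fun x : Subgroup.center G => x ^ p = 1) := by
        refine Finset.eq_of_subset_of_card_le (fun x hx => ?_) (hle.trans ?_)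
        · rw [Set.mem_toFinset] at hx
          obtain ⟨i, rfl⟩ := hx
          refine Finset.mem_filter.2 ⟨Finset.mem_univ _, ?_⟩
          show ((y : Subgroup.center G) ^ i) ^ p = 1
          rw [← zpow_natCast, ← zpow_mul, mul_comm, zpow_mul, zpow_natCast]
          conv_lhs => rw [← hy', pow_orderOf_eq_one, one_zpow]
        · rw [Set.toFinset_card, ← Nat.card_eq_fintype_card]
          show p ≤ Nat.card (Subgroup.zpowers (y : Subgroup.center G))
          rw [Nat.card_zpowers, hy']
      have hzy : z ∈ (Subgroup.zpowers (y : Subgroup.center G) : Set (Subgroup.center G)).toFinset := by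
        rw [hsub, Finset.mem_filter]
        exact ⟨Finset.mem_univ _, by rw [← hz, pow_orderOf_eq_one]⟩
      rw [Set.mem_toFinset] at hzy
      have hzT : z ∈ T := (Subgroup.zpowers_le.2 y.2) hzy
      exact MonoidHom.mem_ker.1 (Subgroup.mem_subgroupOf.1 hzT)

end Cfsg.Agent.S0184
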