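import Cfsg.Statements.S0185
import Cfsg.Agent.Lib.CharTheory.Degree
import Cfsg.Agent.Lib.CharTheory.Decomp

set_option autoImplicit false
open Cfsg

namespace Cfsg.Agent.S0185

/-- If a finite group has a faithful complex representation of degree less than the smallest prime dividing its order, the group is abelian. -/
theorem result {G : Type*} [Group G] [Finite G] {V : Type*} [AddCommGroup V] [Module ℂ V] [FiniteDimensional ℂ V] (ρ : Representation ℂ G V) (hfaithful : Function.Injective ρ) (hdeg : ∀ p : ℕ, p.Prime → p ∣ Nat.card G → Module.finrank ℂ V < p) (a b : G) : a * b = b * a := by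
  classical
  have := Fintype.ofFinite G
  open CfsgLib.CharTheory in
  have hP : ∀ r : Subrepresentation ρ, ∀ v ∈ r.toSubmodule, ρ a (ρ b v) = ρ b (ρ a v) := by
    refine subrep_induction ρ (fun v hv => ?_) (fun p hp v hv => ?_) ?_
    · simp [(Submodule.mem_bot ℂ).1 hv]
    · have := isIrreducible_of_isAtom hp
      have h1 : Module.finrank ℂ p.toSubmodule = 1 := by
        by_contra hne
        obtain ⟨q, hq, hqd⟩ := Nat.exists_prime_and_dvd hne
        have h2 := hdeg q hq (hqd.trans (finrank_dvd_card p.toRepresentation))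
        have h3 := Submodule.finrank_le p.toSubmodule
        have h4 := Nat.le_of_dvd (finrank_pos_of_isIrreducible p.toRepresentation) hqd
        omega
      have : Nontrivial p.toSubmodule := Module.nontrivial_of_finrank_eq_succ h1
      obtain ⟨w, hw⟩ := exists_ne (0 : p.toSubmodule)
      have hsc : ∀ g : G, ∃ c : ℂ, ∀ u ∈ p.toSubmodule, ρ g u = c • u := by
        intro g
        obtain ⟨c, hc⟩ := (finrank_eq_one_iff_of_nonzero' w hw).1 h1 (p.toRepresentation g w)
        refine ⟨c, fun u hu => ?_⟩
        obtain ⟨d, hd⟩ := (finrank_eq_one_iff_of_nonzero' w hw).1 h1 ⟨u, hu⟩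
        have hd' : u = d • (w : V) := (congrArg Subtype.val hd).symm
        have hc' : ρ g (w : V) = c • (w : V) := (congrArg Subtype.val hc).symm
        rw [hd', map_smul, hc', smul_comm]
      obtain ⟨ca, hca⟩ := hsc a
      obtain ⟨cb, hcb⟩ := hsc b
      rw [hcb v hv, hca v hv, map_smul, map_smul, hca v hv, hcb v hv, smul_comm]
    · intro p q r hr _ hp hq v hv
      rw [← hr, Subrepresentation.toSubmodule_sup] at hv
      obtain ⟨x, hx, y, hy, rfl⟩ := Submodule.mem_sup.1 hv
      simp only [map_add, hp x hx, hq y hy]
  apply hfaithful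
  rw [map_mul, map_mul]
  exact LinearMap.ext fun v => hP ⊤ v trivial

end Cfsg.Agent.S0185
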