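import Cfsg.Statements.S0186
import Cfsg.Agent.S0185
import Cfsg.Agent.Lib.CharTheory.Orthogonality
import Mathlib.GroupTheory.PGroup

set_option autoImplicit false
open Cfsg

namespace Cfsg.Agent.S0186

/-- Let G be a finite simple group of order n and p a prime dividing n. If G has more than n / p^2 conjugacy classes, then every Sylow p-subgroup of G is abelian. -/
theorem result {G : Type*} [Group G] [Finite G] [IsSimpleGroup G] (p : ℕ) [Fact p.Prime] (hp : p ∣ Nat.card G) (hmany : Nat.card G < p ^ 2 * Nat.card (ConjClasses G)) (P : Sylow p G) (a b : G) (ha : a ∈ P) (hb : b ∈ P) : a * b = b * a := by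
  classical
  by_contra hab
  have := Fintype.ofFinite G
  have : Fintype (Cfsg.IrrCharacter G) := Fintype.ofFinite _
  open CfsgLib.CharTheory in
  have hbig : ∀ χ : Cfsg.IrrCharacter G, χ ≠ CfsgLib.CharTheory.trivIrr G →
      (p : ℝ) ^ 2 ≤ (((χ : G → ℂ) 1) ^ 2).re := by
    intro χ hχ
    obtain ⟨n, ρ, hρ, hχe⟩ := χ.2
    have h1 : (χ : G → ℂ) 1 = n := by rw [← hχe, ρ.char_one, Module.finrank_fin_fun]
    rw [h1]
    simp only [← Nat.cast_pow, Complex.natCast_re, Nat.cast_le]
    refine Nat.pow_le_pow_left ?_ 2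
    by_contra hlt
    push Not at hlt
    have hinj : Function.Injective ρ := by
      rw [injective_iff_map_eq_one]
      intro g hg
      by_contra hg1
      have htop : MonoidHom.ker ρ = ⊤ := ((MonoidHom.normal_ker ρ).eq_bot_or_eq_top).resolve_left
        fun h => hg1 (by rw [← Subgroup.mem_bot, ← h]; exact hg)
      have hc : ∀ x : G, (χ : G → ℂ) x = (n : ℂ) := by
        intro x
        have hx : ρ x = 1 := MonoidHom.mem_ker.1 (htop ▸ Subgroup.mem_top x)
        rw [← hχe, Representation.character, hx, LinearMap.trace_one, Module.finrank_fin_fun]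
      have hn := CfsgLib.CharTheory.classInner_self_of_isIrr χ.2
      simp only [Cfsg.classInner, hc, Finset.sum_const, Finset.card_univ, nsmul_eq_mul,
        Fintype.card_eq_nat_card, Complex.conj_natCast] at hn
      rw [← mul_assoc, inv_mul_cancel₀ (Nat.cast_ne_zero.2 Nat.card_pos.ne'), one_mul,
        ← Nat.cast_mul, Nat.cast_eq_one] at hn
      apply hχ
      apply Subtype.ext
      funext x
      rw [hc, trivIrr_apply, (Nat.eq_one_of_mul_eq_one_right hn), Nat.cast_one]
    apply hab
    have := Cfsg.Agent.S0185.result (G := (P : Subgroup G))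
      (ρ.comp (P : Subgroup G).subtype : Representation ℂ (P : Subgroup G) (Fin n → ℂ))
      (hinj.comp Subtype.val_injective) (fun q hq hqd => ?_) ⟨a, ha⟩ ⟨b, hb⟩
    · exact congrArg Subtype.val this
    · obtain ⟨k, hk⟩ := P.2.exists_card_eq
      rw [hk] at hqd
      rw [(Nat.prime_dvd_prime_iff_eq hq Fact.out).1 (hq.dvd_of_dvd_pow hqd),
        Module.finrank_fin_fun]
      exact hlt
  have hp2 : p ^ 2 ∣ Nat.card G := by
    obtain ⟨k, hk⟩ := P.2.exists_card_eq
    refine dvd_trans ?_ (Subgroup.card_subgroup_dvd_card (P : Subgroup G))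
    rw [hk]
    refine pow_dvd_pow p ?_
    by_contra hk2
    push Not at hk2
    apply hab
    have : IsCyclic (P : Subgroup G) := by
      interval_cases k
      · have : Subsingleton (P : Subgroup G) := (Nat.card_eq_one_iff_unique.1 (by simpa using hk)).1
        infer_instance
      · exact isCyclic_of_prime_card (by simpa using hk)
    have hcg : Std.Commutative (α := (P : Subgroup G)) (· * ·) :=
      (IsCyclic.isMulCommutative (α := (P : Subgroup G))).is_comm
    exact congrArg Subtype.val (hcg.comm ⟨a, ha⟩ ⟨b, hb⟩)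
  obtain ⟨m, hm⟩ := hp2
  have hk : m + 1 ≤ Nat.card (ConjClasses G) := by
    rw [hm] at hmany
    exact Nat.lt_of_mul_lt_mul_left hmany
  have hsum := congrArg Complex.re (CfsgLib.CharTheory.sum_degree_sq (G := G))
  rw [Complex.re_sum, Complex.natCast_re,
    ← Finset.add_sum_erase _ _ (Finset.mem_univ (CfsgLib.CharTheory.trivIrr G))] at hsum
  have hge := Finset.card_nsmul_le_sum (Finset.univ.erase (CfsgLib.CharTheory.trivIrr G))
    (fun χ : Cfsg.IrrCharacter G => (((χ : G → ℂ) 1) ^ 2).re) ((p : ℝ) ^ 2)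
    fun χ hχ => hbig χ (Finset.ne_of_mem_erase hχ)
  rw [Finset.card_erase_of_mem (Finset.mem_univ _), Finset.card_univ, ← Nat.card_eq_fintype_card,
    CfsgLib.CharTheory.card_irrCharacter, nsmul_eq_mul] at hge
  simp only [CfsgLib.CharTheory.trivIrr_apply, one_pow, Complex.one_re] at hsum
  have h3 : (((Nat.card (ConjClasses G) - 1) * p ^ 2 + 1 : ℕ) : ℝ) ≤ (Nat.card G : ℝ) := by
    push_cast
    linarith
  have h4 : (Nat.card (ConjClasses G) - 1) * p ^ 2 + 1 ≤ Nat.card G := Nat.cast_le.1 h3
  have h5 : m * p ^ 2 ≤ (Nat.card (ConjClasses G) - 1) * p ^ 2 := Nat.mul_le_mul_right _ (by omega)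
  rw [hm, mul_comm (p ^ 2) m] at h4
  omega

end Cfsg.Agent.S0186
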