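import Cfsg.Statements.S0187
import Cfsg.Agent.Lib.Frobenius.Separate
import Cfsg.Agent.Lib.CharTheory.Basic

set_option autoImplicit false
open Cfsg

namespace Cfsg.Agent.S0187

/-- A finite group is commutative if and only if every irreducible complex character has degree 1. -/
theorem result {G : Type*} [Group G] [Finite G] : (∀ a b : G, a * b = b * a) ↔ ∀ χ : Cfsg.IrrCharacter G, (χ : G → ℂ) 1 = 1 := by
  constructor
  · intro hab χ
    obtain ⟨n, ρ, hρ, hχ⟩ := χ.2
    have : IsMulCommutative G := ⟨⟨hab⟩⟩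
    rw [← hχ, ρ.char_one, Representation.IsIrreducible.finrank_eq_one_of_isMulCommutative ρ,
      Nat.cast_one]
  · intro h a b
    by_contra hne
    have hc : a * b * (b * a)⁻¹ ≠ 1 := fun e => hne (mul_inv_eq_one.1 e)
    obtain ⟨n, ρ, hρ, hρc⟩ := CfsgLib.Frobenius.exists_irreducible_apply_ne_one hc
    have h1 := h ⟨ρ.character, n, ρ, hρ, rfl⟩
    have hn : n = 1 := by
      have h2 : (Module.finrank ℂ (Fin n → ℂ) : ℂ) = 1 := ρ.char_one.symm.trans h1
      rw [Module.finrank_fin_fun] at h2
      exact_mod_cast h2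
    subst hn
    have hsc : ∀ g : G, ∀ v : Fin 1 → ℂ, ρ g v = ρ g (fun _ => 1) 0 • v := by
      intro g v
      have hv : v = v 0 • (fun _ => (1 : ℂ)) := funext fun i => by
        simp [Subsingleton.elim i 0]
      funext i
      conv_lhs => rw [hv, map_smul]
      simp [Subsingleton.elim i 0, mul_comm]
    have hcomm : ρ a * ρ b = ρ b * ρ a := LinearMap.ext fun v => by
      rw [Module.End.mul_apply, Module.End.mul_apply, hsc a (ρ b v), hsc b v, hsc b (ρ a v), hsc a v,
        smul_comm]
    apply hρc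
    rw [map_mul, map_mul, hcomm, ← map_mul, ← map_mul, mul_inv_cancel, map_one]

end Cfsg.Agent.S0187
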