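import Cfsg.Statements.S0189
import Cfsg.Agent.Lib.CharTheory.Basic

set_option autoImplicit false
open Cfsg

namespace Cfsg.Agent.S0189

/-- If a complex character of a finite group vanishes at every non-identity element of a Sylow p-subgroup P, then |P| divides its degree. -/
theorem result {G : Type*} [Group G] [Finite G] (p : ℕ) [Fact p.Prime] (P : Sylow p G) (χ : G → ℂ) (hχ : Cfsg.IsCharacter G χ) (hvan : ∀ g : G, g ∈ P → g ≠ 1 → χ g = 0) : ∃ k : ℕ, χ 1 = (Nat.card P : ℂ) * k := by
  classical
  obtain ⟨n, ρ, rfl⟩ := hχ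
  have : Fintype (P : Subgroup G) := Fintype.ofFinite _
  let σ : Representation ℂ (P : Subgroup G) (Fin n → ℂ) := ρ.comp (P : Subgroup G).subtype
  refine ⟨Module.finrank ℂ σ.invariants, ?_⟩
  have h := CfsgLib.CharTheory.classInner_character_one σ
  have hc : ∀ x : (P : Subgroup G),
      σ.character x
        = ρ.character (x : G) := fun x => rfl
  simp only [Cfsg.classInner, map_one, mul_one, hc] at h
  rw [Finset.sum_eq_single (1 : (P : Subgroup G))
    (fun x _ hx => hvan x x.2 (fun e => hx (Subtype.ext e))) (by simp)] at h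
  have hne : (Nat.card (P : Subgroup G) : ℂ) ≠ 0 := Nat.cast_ne_zero.2 Nat.card_pos.ne'
  rw [inv_mul_eq_iff_eq_mul₀ hne] at h
  exact h

end Cfsg.Agent.S0189
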