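import Cfsg.Statements.S0190
import Cfsg.Agent.Lib.Frobenius.Induce

set_option autoImplicit false
open Cfsg

namespace Cfsg.Agent.S0190

/-- For a transitive action of a finite group on X, the permutation character g ↦ (number of fixed points of g) is the function induced from the principal character of the stabilizer of any point. -/
theorem result {G : Type*} [Group G] [Fintype G] (X : Type*) [MulAction G X] [Finite X] [MulAction.IsPretransitive G X] (x : X) : (fun g : G => (Nat.card (MulAction.fixedBy X g) : ℂ)) = Cfsg.indFun (MulAction.stabilizer G x) (fun _ => 1) := by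
  classical
  funext g
  haveI : Fintype X := Fintype.ofFinite X
  simp only [Cfsg.indFun]
  have h1 : ∀ a : G, Cfsg.extendByZero (MulAction.stabilizer G x) (fun _ => (1 : ℂ)) (a⁻¹ * g * a)
      = if g • (a • x) = a • x then 1 else 0 := by
    intro a
    by_cases h : g • (a • x) = a • x
    · rw [if_pos h, CfsgLib.Frobenius.extendByZero_of_mem]
      rw [MulAction.mem_stabilizer_iff, mul_smul, mul_smul, h, inv_smul_smul]
    · rw [if_neg h, CfsgLib.Frobenius.extendByZero_of_not_mem]
      intro hm
      rw [MulAction.mem_stabilizer_iff, mul_smul, mul_smul, inv_smul_eq_iff] at hm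
      exact h hm
  simp only [h1]
  rw [← Finset.sum_fiberwise Finset.univ (fun a : G => a • x)]
  have h2 : ∀ y : X, ∑ a ∈ Finset.univ.filter (fun a : G => a • x = y), (if g • (a • x) = a • x then (1 : ℂ) else 0)
      = (if g • y = y then (1 : ℂ) else 0) * (Nat.card (MulAction.stabilizer G x) : ℂ) := by
    intro y
    obtain ⟨b, rfl⟩ := MulAction.exists_smul_eq G x y
    rw [Finset.sum_congr rfl (g := fun _ => if g • (b • x) = b • x then (1 : ℂ) else 0)
      (fun a ha => by rw [Finset.mem_filter] at ha; simp only [ha.2]), Finset.sum_const, nsmul_eq_mul,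
      mul_comm]
    congr 2
    rw [Nat.card_eq_fintype_card, ← Finset.card_univ]
    refine (Finset.card_bij (fun (c : MulAction.stabilizer G x) _ => b * (c : G)) (fun c _ => ?_)
      (fun c _ d _ e => Subtype.ext (mul_left_cancel e)) (fun a ha => ?_)).symm
    · rw [Finset.mem_filter]
      exact ⟨Finset.mem_univ _, by rw [mul_smul, MulAction.mem_stabilizer_iff.1 c.2]⟩
    · rw [Finset.mem_filter] at ha
      exact ⟨⟨b⁻¹ * a, by rw [MulAction.mem_stabilizer_iff, mul_smul, ha.2, inv_smul_smul]⟩,
        Finset.mem_univ _, by simp⟩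
  simp only [h2, ← Finset.sum_mul, Finset.sum_boole]
  have h3 : Nat.card (MulAction.fixedBy X g) = (Finset.univ.filter fun y : X => g • y = y).card := by
    rw [Nat.card_eq_fintype_card, ← Fintype.card_subtype]
    exact Fintype.card_congr (Equiv.refl _)
  rw [h3]
  have : (Nat.card (MulAction.stabilizer G x) : ℂ) ≠ 0 := Nat.cast_ne_zero.2 Nat.card_pos.ne'
  field_simp

end Cfsg.Agent.S0190
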