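import Cfsg.Statements.S0192
import Mathlib.RepresentationTheory.Character

set_option autoImplicit false
open Cfsg

namespace Cfsg.Agent.S0192

/-- The averaged character of a restriction is the dimension of the fixed space. -/
theorem classInner_one_eq {G : Type*} [Group G] [Fintype G] {V : Type*} [AddCommGroup V]
    [Module ℂ V] [FiniteDimensional ℂ V] (σ : Representation ℂ G V) :
    (Cfsg.classInner σ.character (fun _ => 1)).re
      = (Module.finrank ℂ σ.invariants : ℝ) := by
  have : Invertible (Nat.card G : ℂ) := invertibleOfNonzero (Nat.cast_ne_zero.2 Nat.card_pos.ne')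
  have h := σ.card_inv_mul_sum_char_eq_finrank
  simp only [Cfsg.classInner, map_one, mul_one]
  rw [h]
  simp

/-- Brauer's generation criterion. Let G be a finite simple group, H₁ and H₂ subgroups, and χ a non-principal irreducible character. If the multiplicity of the principal character in χ restricted to H₁ ⊓ H₂ is less than the sum of the corresponding multiplicities for H₁ and H₂, then H₁ and H₂ do not generate G. -/
theorem result {G : Type*} [Group G] [Fintype G] [IsSimpleGroup G] (H₁ H₂ : Subgroup G) [Fintype H₁] [Fintype H₂] [Fintype ↥(H₁ ⊓ H₂)] (χ : G → ℂ) (hχ : Cfsg.IsIrrCharacter G χ) (hχ1 : χ ≠ fun _ => 1) (hlt : (Cfsg.classInner (fun x : ↥(H₁ ⊓ H₂) => χ x) (fun _ => 1)).re < (Cfsg.classInner (fun x : H₁ => χ x) (fun _ => 1)).re + (Cfsg.classInner (fun x : H₂ => χ x) (fun _ => 1)).re) : H₁ ⊔ H₂ ≠ ⊤ := by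
  obtain ⟨n, ρ, hρ, rfl⟩ := hχ
  intro htop
  let W : Subgroup G → Submodule ℂ (Fin n → ℂ) := fun H => Representation.invariants (ρ.comp H.subtype)
  have e : ∀ (H : Subgroup G) [Fintype H],
      (Cfsg.classInner (fun x : H => ρ.character x) (fun _ => 1)).re
        = (Module.finrank ℂ (W H) : ℝ) :=
    fun H _ => classInner_one_eq (ρ.comp H.subtype : Representation ℂ H (Fin n → ℂ))
  rw [e, e, e, ← Nat.cast_add, Nat.cast_lt] at hlt
  have hmem : ∀ (H : Subgroup G) (v : Fin n → ℂ), v ∈ W H ↔ ∀ h ∈ H, ρ h v = v := fun H v =>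
    ⟨fun hv h hh => hv ⟨h, hh⟩, fun hv h => hv h h.2⟩
  have h1 : W H₁ ≤ W (H₁ ⊓ H₂) := fun v hv => (hmem _ v).2 fun h hh => (hmem _ v).1 hv h hh.1
  have h2 : W H₂ ≤ W (H₁ ⊓ H₂) := fun v hv => (hmem _ v).2 fun h hh => (hmem _ v).1 hv h hh.2
  have hinf : W H₁ ⊓ W H₂ ≠ ⊥ := by
    intro hb
    have hs := Submodule.finrank_sup_add_finrank_inf_eq (W H₁) (W H₂)
    rw [hb, finrank_bot, add_zero] at hs
    have := Submodule.finrank_mono (sup_le h1 h2)
    omega
  obtain ⟨v, ⟨hv1, hv2⟩, hv0⟩ := (Submodule.ne_bot_iff _).1 hinf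
  have hfix : ∀ g : G, ρ g v = v := by
    let T : Subgroup G :=
      { carrier := {g | ρ g v = v}
        one_mem' := by simp
        mul_mem' := fun {a b} (ha : ρ a v = v) (hb : ρ b v = v) => by
          show ρ (a * b) v = v
          rw [map_mul, Module.End.mul_apply, hb, ha]
        inv_mem' := fun {a} (ha : ρ a v = v) => by
          show ρ a⁻¹ v = v
          conv_lhs => rw [← ha]
          rw [← Module.End.mul_apply, ← map_mul, inv_mul_cancel, map_one, Module.End.one_apply] }
    have hT : H₁ ⊔ H₂ ≤ T := sup_le ((hmem _ v).1 hv1) ((hmem _ v).1 hv2)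
    rw [htop] at hT
    exact fun g => hT (Subgroup.mem_top g)
  let S : Subrepresentation ρ := ⟨ℂ ∙ v, fun g x hx => by
    obtain ⟨c, rfl⟩ := Submodule.mem_span_singleton.1 hx
    rw [map_smul, hfix]
    exact hx⟩
  have hS : S = ⊤ := (eq_bot_or_eq_top S).resolve_left fun h => hv0 (by
    have : v ∈ (⊥ : Subrepresentation ρ).toSubmodule := h ▸ Submodule.mem_span_singleton_self v
    exact (Submodule.mem_bot ℂ).1 this)
  have hsp : (ℂ ∙ v) = ⊤ := congrArg Subrepresentation.toSubmodule hS
  apply hχ1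
  funext g
  have hid : ρ g = LinearMap.id := LinearMap.ext fun x => by
    obtain ⟨c, rfl⟩ := Submodule.mem_span_singleton.1 (hsp ▸ Submodule.mem_top : x ∈ ℂ ∙ v)
    simp [hfix]
  have hn : n = 1 := by
    have := finrank_span_singleton (K := ℂ) hv0
    rwa [hsp, finrank_top, Module.finrank_fin_fun] at this
  subst hn
  simp [Representation.character, hid]

end Cfsg.Agent.S0192
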