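import Cfsg.Statements.S0194
import Cfsg.Agent.Lib.Frobenius.BrauerPerm

set_option autoImplicit false
open scoped ComplexConjugate
open Cfsg

namespace Cfsg.Agent.S0194

/-- Let G have odd order, H be a normal subgroup and θ a non-principal irreducible character of H. Then the function induced from θ is orthogonal to its complex conjugate. -/
theorem result {G : Type*} [Group G] [Fintype G] (hodd : Odd (Nat.card G)) (H : Subgroup G) [H.Normal] (θ : H → ℂ) (hθ : Cfsg.IsIrrCharacter H θ) (hθ1 : θ ≠ fun _ => 1) : Cfsg.classInner (fun g => conj (Cfsg.indFun H θ g)) (Cfsg.indFun H θ) = 0 := by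
  classical
  open CfsgLib.Frobenius CfsgLib.CharTheory in
  rw [classInner_indFun_right H θ _ (fun a b => by
    simp only [indFun_isClassFunction H θ a b])]
  have hres : (fun h : H => conj (Cfsg.indFun H θ h))
      = (Nat.card H : ℂ)⁻¹ • ∑ x : G, fun h : H => conj (CfsgLib.Frobenius.conjTwist H x θ h) := by
    funext h
    rw [CfsgLib.Frobenius.indFun_coe_normal]
    simp [Finset.sum_apply, map_sum]
  rw [hres, CfsgLib.CharTheory.classInner_smul_left, CfsgLib.CharTheory.classInner_sum_left,
    Finset.sum_eq_zero fun x _ => ?_, mul_zero]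
  refine CfsgLib.CharTheory.classInner_eq_zero_of_ne
    (CfsgLib.Frobenius.isIrrCharacter_conj (CfsgLib.Frobenius.isIrrCharacter_conjTwist H x hθ)) hθ
    fun he => hθ1 ?_
  have htw : ∀ (a b : G) (η : H → ℂ), CfsgLib.Frobenius.conjTwist H a (CfsgLib.Frobenius.conjTwist H b η)
      = CfsgLib.Frobenius.conjTwist H (a * b) η := by
    intro a b η
    funext k
    unfold CfsgLib.Frobenius.conjTwist
    congr 1
    apply Subtype.ext
    simp [mul_assoc]
  have hone : CfsgLib.Frobenius.conjTwist H 1 θ = θ := by
    funext k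
    unfold CfsgLib.Frobenius.conjTwist
    congr 1
    apply Subtype.ext
    simp
  have h2 : CfsgLib.Frobenius.conjTwist H (x * x) θ = θ := by
    rw [← htw]
    funext k
    show CfsgLib.Frobenius.conjTwist H x θ _ = θ k
    have e1 := congrFun he k
    have e2 := congrFun he ⟨x⁻¹ * k * x, by simpa using Subgroup.Normal.conj_mem ‹H.Normal› _ k.2 x⁻¹⟩
    beta_reduce at e1 e2
    apply (starRingEnd ℂ).injective
    rw [e2, ← e1, Complex.conj_conj]
    rfl
  have hpow : ∀ m : ℕ, CfsgLib.Frobenius.conjTwist H ((x * x) ^ m) θ = θ := by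
    intro m
    induction m with
    | zero => rw [pow_zero, hone]
    | succ m ih => rw [pow_succ, ← htw, h2, ih]
  obtain ⟨k, hk⟩ := hodd
  have hx : CfsgLib.Frobenius.conjTwist H x θ = θ := by
    have := hpow (k + 1)
    rwa [← sq, ← pow_mul, show 2 * (k + 1) = Nat.card G + 1 from by omega, pow_succ,
      pow_card_eq_one', one_mul] at this
  refine CfsgLib.Frobenius.eq_one_of_real_of_odd
    (Odd.of_dvd_nat (n := Nat.card G) ⟨k, hk⟩ (Subgroup.card_subgroup_dvd_card H)) hθ fun n => ?_
  rw [hx] at he
  exact congrFun he n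

end Cfsg.Agent.S0194
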