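import Cfsg.Statements.S0195
import Cfsg.Agent.Lib.Frobenius.Basic

set_option autoImplicit false
open Cfsg

namespace Cfsg.Agent.S0195

theorem map_conj_eq {G : Type*} [Group G] (A : Subgroup G)
    (hA : ∀ x ∈ A, x ≠ 1 → Subgroup.centralizer ({x} : Set G) = A) (g : G) {x : G} (hx : x ∈ A)
    (hgx : g * x * g⁻¹ ∈ A) (hx1 : x ≠ 1) : g ∈ Subgroup.normalizer (A : Set G) := by
  refine Subgroup.mem_normalizer_iff.2 fun a => ?_
  have e1 := hA x hx hx1
  have e2 := hA _ hgx (fun h => hx1 (conj_eq_one_iff.1 h))
  constructor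
  · intro ha
    rw [← e2, Subgroup.mem_centralizer_singleton_iff]
    rw [← e1, Subgroup.mem_centralizer_singleton_iff] at ha
    calc g * a * g⁻¹ * (g * x * g⁻¹) = g * (a * x) * g⁻¹ := by group
      _ = g * (x * a) * g⁻¹ := by rw [ha]
      _ = g * x * g⁻¹ * (g * a * g⁻¹) := by group
  · intro ha
    rw [← e1, Subgroup.mem_centralizer_singleton_iff]
    rw [← e2, Subgroup.mem_centralizer_singleton_iff] at ha
    calc a * x = g⁻¹ * (g * a * g⁻¹ * (g * x * g⁻¹)) * g := by group
      _ = g⁻¹ * (g * x * g⁻¹ * (g * a * g⁻¹)) * g := by rw [ha]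
      _ = x * a := by group

/-- Let A be a subgroup of G that equals the centralizer of each of its non-identity elements. If g lies outside the normalizer of A, then the only element of A conjugated by g into A is the identity (A is a trivial-intersection set). -/
theorem result {G : Type*} [Group G] [Finite G] (A : Subgroup G) (hA : ∀ x ∈ A, x ≠ 1 → Subgroup.centralizer ({x} : Set G) = A) (g : G) (hg : g ∉ Subgroup.normalizer (A : Set G)) (x : G) (hx : x ∈ A) (hgx : g * x * g⁻¹ ∈ A) : x = 1 := by
  by_contra hx1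
  exact hg (map_conj_eq A hA g hx hgx hx1)

end Cfsg.Agent.S0195
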