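import Cfsg.Statements.S0196
import Cfsg.Agent.Lib.Frobenius.Basic

set_option autoImplicit false
open Cfsg

namespace Cfsg.Agent.S0196

/-- Let A be a subgroup of a finite group G that equals the centralizer of each of its non-identity elements, and let N be its normalizer. Then the index of A in N divides |A| − 1 (N/A permutes the non-identity elements of A in orbits of full length). -/
theorem result {G : Type*} [Group G] [Finite G] (A : Subgroup G) (hA : ∀ x ∈ A, x ≠ 1 → Subgroup.centralizer ({x} : Set G) = A) : (A.subgroupOf (Subgroup.normalizer (A : Set G))).index ∣ Nat.card A - 1 := by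
  classical
  by_cases hA1 : A = ⊥
  · subst hA1
    simp
  let N := Subgroup.normalizer (A : Set G)
  let X := {a : A // a ≠ 1}
  let act : MulAction N X :=
    { smul := fun n a => ⟨⟨(n : G) * (a : A) * (n : G)⁻¹, (Subgroup.mem_normalizer_iff.1 n.2 _).1 a.1.2⟩,
        fun h => a.2 (Subtype.ext (conj_eq_one_iff.1 (congrArg Subtype.val h)))⟩
      one_smul := fun a => by
        apply Subtype.ext; apply Subtype.ext
        show ((1 : N) : G) * (a : A) * ((1 : N) : G)⁻¹ = _
        simp
      mul_smul := fun m n a => by
        apply Subtype.ext; apply Subtype.ext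
        show ((m * n : N) : G) * (a : A) * ((m * n : N) : G)⁻¹ = m * (n * (a : A) * (n : G)⁻¹) * (m : G)⁻¹
        simp [mul_assoc] }
  have hstab : ∀ a : X, MulAction.stabilizer N a = A.subgroupOf N := by
    intro a
    ext n
    rw [MulAction.mem_stabilizer_iff, Subgroup.mem_subgroupOf]
    have e := hA _ a.1.2 (fun h => a.2 (Subtype.ext h))
    constructor
    · intro h
      have h' : (n : G) * (a : A) * (n : G)⁻¹ = (a : A) := congrArg (fun t : X => ((t : A) : G)) h
      rw [← e, Subgroup.mem_centralizer_singleton_iff]
      exact mul_inv_eq_iff_eq_mul.1 h'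
    · intro h
      rw [← e, Subgroup.mem_centralizer_singleton_iff] at h
      apply Subtype.ext; apply Subtype.ext
      show (n : G) * (a : A) * (n : G)⁻¹ = (a : A)
      exact mul_inv_eq_iff_eq_mul.2 h
  have hX : Nat.card X + 1 = Nat.card A := by
    rw [← Finite.card_option]
    exact Nat.card_congr (Equiv.optionSubtypeNe (1 : A))
  have : Fintype (Quotient (MulAction.orbitRel N X)) := Fintype.ofFinite _
  rw [← hX, Nat.add_sub_cancel, Nat.card_congr (MulAction.selfEquivSigmaOrbitsQuotientStabilizer N X),
    Nat.card_sigma]
  refine Finset.dvd_sum fun ω _ => ?_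
  rw [hstab]
  exact dvd_rfl

end Cfsg.Agent.S0196
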