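import Cfsg.Statements.S0207
import Cfsg.Agent.Lib.Involutions.Basic

set_option autoImplicit false
open Cfsg

namespace Cfsg.Agent.S0207

/-- If x, y are distinct involutions, every element of the subgroup they generate that lies outside the cyclic subgroup generated by xy is an involution. -/
theorem result {G : Type*} [Group G] [Finite G] (x y : G) (hx : orderOf x = 2) (hy : orderOf y = 2) (hxy : x ≠ y) (d : G) (hd : d ∈ Subgroup.closure ({x, y} : Set G)) (hd' : d ∉ Subgroup.zpowers (x * y)) : orderOf d = 2 := by
  obtain ⟨k, rfl | rfl⟩ := CfsgLib.Involutions.mem_closure_pair hx hy hd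
  · exact absurd (zpow_mem (Subgroup.mem_zpowers _) k) hd'
  · refine CfsgLib.Involutions.orderOf_eq_two_iff.2 ⟨?_, fun h => hd' ?_⟩
    · rw [CfsgLib.Involutions.zpow_mul_mul_zpow_mul hx hy, sub_self, zpow_zero]
    · rw [h]; exact one_mem _

end Cfsg.Agent.S0207
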