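import Cfsg.Statements.S0211
import Cfsg.Agent.Lib.Involutions.Basic

set_option autoImplicit false
open Cfsg

namespace Cfsg.Agent.S0211

/-- Let x, y be involutions with xy of even order n and z = (xy)^(n/2). Then xz is conjugate to x by an element of the subgroup generated by x, y if and only if 4 divides n. -/
theorem result {G : Type*} [Group G] [Finite G] (x y : G) (hx : orderOf x = 2) (hy : orderOf y = 2) (heven : Even (orderOf (x * y))) : (∃ d ∈ Subgroup.closure ({x, y} : Set G), d * x * d⁻¹ = x * (x * y) ^ (orderOf (x * y) / 2)) ↔ 4 ∣ orderOf (x * y) := by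
  obtain ⟨m, hm⟩ := heven
  have heven : Even (orderOf (x * y)) := ⟨m, hm⟩
  have hn2 : orderOf (x * y) / 2 = m := by omega
  rw [hn2]
  have hxz : x * (x * y) ^ m = (x * y) ^ m * x := by
    have h := (CfsgLib.Involutions.commute_half_left hx hy heven).eq
    rw [hn2] at h
    exact h.symm
  rw [hxz, ← zpow_natCast]
  constructor
  · rintro ⟨d, hd, hd'⟩
    obtain ⟨k, hk⟩ := CfsgLib.Involutions.exists_conj_left_eq hx hy hd
    rw [hk] at hd'
    have h := mul_right_cancel hd'
    rw [← orderOf_dvd_sub_iff_zpow_eq_zpow] at h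
    have h2 : (2 : ℤ) ∣ 2 * k - (m : ℤ) :=
      dvd_trans (by rw [hm]; push_cast; exact ⟨m, by ring⟩) h
    omega
  · intro h4
    obtain ⟨j, hj⟩ : 2 ∣ m := by omega
    refine ⟨(x * y) ^ (j : ℤ), CfsgLib.Involutions.zpow_mem_closure_pair x y j, ?_⟩
    rw [CfsgLib.Involutions.conj_left_by_zpow hx hy, hj]
    push_cast; rfl

end Cfsg.Agent.S0211
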