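import Cfsg.Statements.S0212
import Cfsg.Agent.Lib.Involutions.Counting
import Mathlib.SetTheory.Cardinal.Finite
import Mathlib.GroupTheory.Perm.Basic
import Mathlib.Data.Fintype.Perm
import Mathlib.GroupTheory.GroupAction.Quotient
import Mathlib.GroupTheory.Subgroup.Simple

set_option autoImplicit false
open Cfsg

namespace Cfsg.Agent.S0212

/-- The Brauer–Fowler bound: if G is a finite simple group and t an involution of G whose centralizer has order n, then |G| ≤ (2n^2)!. -/
theorem result {G : Type*} [Group G] [Finite G] [IsSimpleGroup G] (t : G) (ht : orderOf t = 2) : Nat.card G ≤ Nat.factorial (2 * (Nat.card (Subgroup.centralizer ({t} : Set G))) ^ 2) := by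
  by_cases hz : t ∈ Subgroup.center G
  · have htop : Subgroup.zpowers t = ⊤ := by
      have hn : (Subgroup.zpowers t).Normal := ⟨fun a ha g => by
        have hc : g * a = a * g := Subgroup.mem_center_iff.1 ((Subgroup.zpowers_le.2 hz) ha) g
        rw [hc, mul_inv_cancel_right]; exact ha⟩
      refine (hn.eq_bot_or_eq_top).resolve_left fun h => CfsgLib.Involutions.ne_one ht ?_
      exact Subgroup.zpowers_eq_bot.1 h
    have hG : Nat.card G = 2 := by rw [← Subgroup.card_top (G := G), ← htop, Nat.card_zpowers, ht]
    rw [hG]
    refine le_trans ?_ (Nat.self_le_factorial _)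
    have : 0 < Nat.card (Subgroup.centralizer ({t} : Set G)) := Nat.card_pos
    nlinarith
  · have heven : Even (Nat.card G) := even_iff_two_dvd.2 (ht ▸ orderOf_dvd_natCard t)
    have hcen : ∀ x : G, orderOf x = 2 → x ∉ Subgroup.center G := by
      intro x hx hxc
      have hn : (Subgroup.center G).Normal := inferInstance
      rcases hn.eq_bot_or_eq_top with h | h
      · exact CfsgLib.Involutions.ne_one hx (Subgroup.mem_bot.1 (h ▸ hxc))
      · exact hz (h ▸ Subgroup.mem_top t)
    set n := Nat.card {t : G // orderOf t = 2} with hn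
    set c := Nat.card (Subgroup.centralizer ({t} : Set G)) with hc
    have hnc : Nat.card G ≤ n * c := by
      rw [← CfsgLib.Involutions.card_isConj_mul_card_centralizer t]
      refine Nat.mul_le_mul_right _ (Nat.card_le_card_of_injective
        (fun g => ⟨g.1, (CfsgLib.Involutions.orderOf_eq_of_isConj g.2).symm.trans ht⟩) ?_)
      intro a b h
      exact Subtype.ext (congrArg (fun z : {u : G // orderOf u = 2} => z.1) h)
    obtain ⟨H, hH, hidx⟩ := CfsgLib.Involutions.exists_small_index heven hcen
    have hn_le : n ≤ Nat.card G := Nat.card_le_card_of_injective _ Subtype.val_injective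
    have hc2 : 2 ≤ c := ht ▸ Nat.le_of_dvd Nat.card_pos
      (Subgroup.orderOf_dvd_natCard _ (CfsgLib.Involutions.mem_centralizer_singleton.2 rfl))
    have hb : H.index ≤ 2 * c ^ 2 := by
      rcases hidx with h | h
      · rw [h]; nlinarith
      · have h1 : Nat.card G * (Nat.card G + n) ≤ 2 * (n * c) ^ 2 := by nlinarith [hnc, hn_le]
        have h' := lt_of_lt_of_le h h1
        have h2 : 2 * H.index * n ^ 2 < 2 * c ^ 2 * n ^ 2 := by
          refine lt_of_lt_of_le h' (le_of_eq ?_); ring
        have h3 := Nat.lt_of_mul_lt_mul_right h2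
        omega
    have hcore : H.normalCore = ⊥ := (Subgroup.normalCore_normal H).eq_bot_or_eq_top.resolve_right
      fun h => hH (top_le_iff.1 (h ▸ H.normalCore_le))
    rw [Subgroup.normalCore_eq_ker] at hcore
    calc Nat.card G ≤ Nat.card (Equiv.Perm (G ⧸ H)) :=
          Nat.card_le_card_of_injective _ ((MonoidHom.ker_eq_bot_iff _).1 hcore)
      _ = (H.index).factorial := by
          classical
          have : Fintype (G ⧸ H) := Fintype.ofFinite _
          rw [Nat.card_eq_fintype_card, Fintype.card_perm, Subgroup.index_eq_card,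
            Nat.card_eq_fintype_card]
      _ ≤ _ := Nat.factorial_le hb

end Cfsg.Agent.S0212
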