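import Cfsg.Statements.S0213
import Cfsg.Agent.Lib.Involutions.Counting

set_option autoImplicit false
open Cfsg

namespace Cfsg.Agent.S0213

/-- Thompson Order Formula, two-class case: if every involution of the finite group G is conjugate to exactly one of the non-conjugate involutions x₁, x₂, and nᵢ is the number of pairs (u, v) with u conjugate to x₁, v conjugate to x₂ and xᵢ in the cyclic group generated by uv, then |G| = |C(x₂)| n₁ + |C(x₁)| n₂. -/
theorem result {G : Type*} [Group G] [Finite G] (x₁ x₂ : G) (h₁ : orderOf x₁ = 2) (h₂ : orderOf x₂ = 2) (hnc : ¬ IsConj x₁ x₂) (hall : ∀ t : G, orderOf t = 2 → IsConj x₁ t ∨ IsConj x₂ t) : Nat.card G = Nat.card (Subgroup.centralizer ({x₂} : Set G)) * Nat.card {p : G × G // IsConj x₁ p.1 ∧ IsConj x₂ p.2 ∧ x₁ ∈ Subgroup.zpowers (p.1 * p.2)} + Nat.card (Subgroup.centralizer ({x₁} : Set G)) * Nat.card {p : G × G // IsConj x₁ p.1 ∧ IsConj x₂ p.2 ∧ x₂ ∈ Subgroup.zpowers (p.1 * p.2)} := by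
  classical
  have : Fintype G := Fintype.ofFinite G
  have hxor : ∀ z : G, orderOf z = 2 → (IsConj x₁ z ↔ ¬ IsConj x₂ z) := fun z hz =>
    ⟨fun a b => hnc (a.trans b.symm), fun b => (hall z hz).resolve_right b⟩
  let S := {p : G × G // IsConj x₁ p.1 ∧ IsConj x₂ p.2}
  have hS : Nat.card S = Nat.card {u : G // IsConj x₁ u} * Nat.card {v : G // IsConj x₂ v} := by
    rw [← Nat.card_prod]
    exact Nat.card_congr
      { toFun := fun p => (⟨p.1.1, p.2.1⟩, ⟨p.1.2, p.2.2⟩)
        invFun := fun q => ⟨(q.1.1, q.2.1), q.1.2, q.2.2⟩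
        left_inv := fun p => rfl
        right_inv := fun q => rfl }
  have ho : ∀ p : S, orderOf p.1.1 = 2 ∧ orderOf p.1.2 = 2 := fun p =>
    ⟨(CfsgLib.Involutions.orderOf_eq_of_isConj p.2.1).symm.trans h₁,
      (CfsgLib.Involutions.orderOf_eq_of_isConj p.2.2).symm.trans h₂⟩
  have heven : ∀ p : S, Even (orderOf (p.1.1 * p.1.2)) := fun p =>
    Nat.not_odd_iff_even.1 fun h => hnc
      ((p.2.1.trans (CfsgLib.Involutions.isConj_of_odd (ho p).1 (ho p).2 h)).trans p.2.2.symm)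
  let ζ : S → G := fun p => (p.1.1 * p.1.2) ^ (orderOf (p.1.1 * p.1.2) / 2)
  have hζ : ∀ p, orderOf (ζ p) = 2 := fun p =>
    CfsgLib.Involutions.orderOf_half (heven p) (orderOf_pos _).ne'
  have hfib : ∀ z : G, orderOf z = 2 →
      Nat.card {p : S // ζ p = z} =
        Nat.card {p : G × G // IsConj x₁ p.1 ∧ IsConj x₂ p.2 ∧ z ∈ Subgroup.zpowers (p.1 * p.2)} := by
    intro z hz
    exact Nat.card_congr
      { toFun := fun p => ⟨p.1.1, p.1.2.1, p.1.2.2, by
          obtain ⟨p, hp⟩ := p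
          subst hp
          exact pow_mem (Subgroup.mem_zpowers _) _⟩
        invFun := fun q => ⟨⟨q.1, q.2.1, q.2.2.1⟩,
          (CfsgLib.Involutions.eq_half_of_mem_zpowers hz q.2.2.2).2.symm⟩
        left_inv := fun p => rfl
        right_inv := fun q => rfl }
  have htrans : ∀ z w : G, IsConj z w →
      Nat.card {p : G × G // IsConj x₁ p.1 ∧ IsConj x₂ p.2 ∧ z ∈ Subgroup.zpowers (p.1 * p.2)} =
        Nat.card {p : G × G // IsConj x₁ p.1 ∧ IsConj x₂ p.2 ∧ w ∈ Subgroup.zpowers (p.1 * p.2)} := by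
    intro z w hzw
    obtain ⟨g, rfl⟩ := isConj_iff.1 hzw
    refine Nat.card_congr (((MulAut.conj g).toEquiv.prodCongr (MulAut.conj g).toEquiv).subtypeEquiv ?_)
    rintro ⟨u, v⟩
    have hc : ∀ (x a : G), IsConj x a ↔ IsConj x (g * a * g⁻¹) := fun x a =>
      ⟨fun h => h.trans (isConj_iff.2 ⟨g, rfl⟩), fun h => h.trans (isConj_iff.2 ⟨g⁻¹, by group⟩)⟩
    show _ ↔ IsConj x₁ (g * u * g⁻¹) ∧ IsConj x₂ (g * v * g⁻¹) ∧
      g * z * g⁻¹ ∈ Subgroup.zpowers ((g * u * g⁻¹) * (g * v * g⁻¹))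
    rw [← hc, ← hc, conj_mul, Subgroup.mem_zpowers_iff, Subgroup.mem_zpowers_iff]
    refine and_congr_right fun _ => and_congr_right fun _ => ⟨?_, ?_⟩
    · rintro ⟨k, hk⟩; exact ⟨k, by rw [conj_zpow, hk]⟩
    · rintro ⟨k, hk⟩
      rw [conj_zpow] at hk
      exact ⟨k, mul_left_cancel (mul_right_cancel hk)⟩
  have hsum : Nat.card S = ∑ z : G, Nat.card {p : S // ζ p = z} := by
    rw [← Nat.card_sigma]
    exact (Nat.card_congr (Equiv.sigmaFiberEquiv ζ)).symm
  set n₁ := Nat.card {p : G × G // IsConj x₁ p.1 ∧ IsConj x₂ p.2 ∧ x₁ ∈ Subgroup.zpowers (p.1 * p.2)}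
  set n₂ := Nat.card {p : G × G // IsConj x₁ p.1 ∧ IsConj x₂ p.2 ∧ x₂ ∈ Subgroup.zpowers (p.1 * p.2)}
  have hval : ∀ z : G, Nat.card {p : S // ζ p = z} =
      (if IsConj x₁ z then n₁ else 0) + (if IsConj x₂ z then n₂ else 0) := by
    intro z
    by_cases hz : orderOf z = 2
    · rw [hfib z hz]
      by_cases h : IsConj x₁ z
      · rw [if_pos h, if_neg ((hxor z hz).1 h), add_zero, htrans z x₁ h.symm]
      · have h' : IsConj x₂ z := (hall z hz).resolve_left h
        rw [if_neg h, if_pos h', zero_add, htrans z x₂ h'.symm]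
    · have he : IsEmpty {p : S // ζ p = z} := ⟨fun p => hz (p.2 ▸ hζ p.1)⟩
      rw [Nat.card_of_isEmpty, if_neg, if_neg]
      · exact fun h => hz ((CfsgLib.Involutions.orderOf_eq_of_isConj h).symm.trans h₂)
      · exact fun h => hz ((CfsgLib.Involutions.orderOf_eq_of_isConj h).symm.trans h₁)
  have hk : ∀ (x : G) (k : ℕ), ∑ z : G, (if IsConj x z then k else 0) =
      Nat.card {z : G // IsConj x z} * k := by
    intro x k
    rw [← Finset.sum_filter, Finset.sum_const, smul_eq_mul, Nat.card_eq_fintype_card, Fintype.card_subtype]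
  have e1 := CfsgLib.Involutions.card_isConj_mul_card_centralizer x₁
  have e2 := CfsgLib.Involutions.card_isConj_mul_card_centralizer x₂
  have key : Nat.card {u : G // IsConj x₁ u} * Nat.card {v : G // IsConj x₂ v} =
      Nat.card {u : G // IsConj x₁ u} * n₁ + Nat.card {v : G // IsConj x₂ v} * n₂ := by
    rw [← hS, hsum, Finset.sum_congr rfl (fun z _ => hval z), Finset.sum_add_distrib, hk, hk]
  refine Nat.eq_of_mul_eq_mul_left (Nat.card_pos (α := G)) ?_
  calc Nat.card G * Nat.card G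
      = (Nat.card {u : G // IsConj x₁ u} * Nat.card {v : G // IsConj x₂ v}) *
          (Nat.card (Subgroup.centralizer ({x₁} : Set G)) * Nat.card (Subgroup.centralizer ({x₂} : Set G))) := by
        nth_rewrite 1 [← e1]; nth_rewrite 1 [← e2]; ring
    _ = (Nat.card {u : G // IsConj x₁ u} * Nat.card (Subgroup.centralizer ({x₁} : Set G))) *
          (Nat.card (Subgroup.centralizer ({x₂} : Set G)) * n₁) +
        (Nat.card {v : G // IsConj x₂ v} * Nat.card (Subgroup.centralizer ({x₂} : Set G))) *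
          (Nat.card (Subgroup.centralizer ({x₁} : Set G)) * n₂) := by rw [key]; ring
    _ = _ := by rw [e1, e2]; ring

end Cfsg.Agent.S0213
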