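import Cfsg.Statements.S0216
import Cfsg.Agent.Lib.Involutions.ThompsonTransfer

set_option autoImplicit false
open Cfsg

namespace Cfsg.Agent.S0216

/-- For an involution u in a Sylow 2-subgroup P of a finite group G, the following are equivalent: no G-conjugate of u other than u lies in P; every commutator of u with an element of G has odd order. -/
theorem result {G : Type*} [Group G] [Finite G] (P : Sylow 2 G) (u : G) (hu : orderOf u = 2) (huP : u ∈ P) : (∀ g : G, g * u * g⁻¹ ∈ P → g * u * g⁻¹ = u) ↔ (∀ g : G, Odd (orderOf (u * g * u⁻¹ * g⁻¹))) := by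
  constructor
  · intro hiso g
    have h := CfsgLib.Involutions.odd_orderOf_mul_of_isolated hu hiso (isConj_iff.2 ⟨g, rfl⟩ :
      IsConj u (g * u * g⁻¹))
    rwa [show u * (g * u * g⁻¹) = u * g * u⁻¹ * g⁻¹ by
      rw [CfsgLib.Involutions.inv_eq_self hu]; group] at h
  · intro h g hg
    have hodd := h g
    rw [show u * g * u⁻¹ * g⁻¹ = u * (g * u * g⁻¹) by
      rw [CfsgLib.Involutions.inv_eq_self hu]; group] at hodd
    obtain ⟨k, hk⟩ := P.isPGroup' ⟨u * (g * u * g⁻¹), mul_mem huP hg⟩
    have hd : orderOf (u * (g * u * g⁻¹)) ∣ 2 ^ k :=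
      orderOf_dvd_of_pow_eq_one (congrArg Subtype.val hk)
    have h1 : orderOf (u * (g * u * g⁻¹)) = 1 :=
      Nat.eq_one_of_dvd_coprimes ((Nat.coprime_two_left.2 hodd).pow_left k) hd dvd_rfl
    exact ((CfsgLib.Involutions.orderOf_mul_eq_one_iff
      ((CfsgLib.Involutions.orderOf_conj g u).trans hu)).1 (orderOf_eq_one_iff.1 h1)).symm

end Cfsg.Agent.S0216
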