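import Cfsg.Statements.S0218
import Cfsg.Agent.Lib.Involutions.Basic
import Mathlib.GroupTheory.SpecificGroups.Quaternion

set_option autoImplicit false
open Cfsg

namespace Cfsg.Agent.S0218

/-- The generalized quaternion group of order 2^(n+3) contains exactly one element of order 2. -/
theorem result (n : ℕ) : Nat.card {x : QuaternionGroup (2 ^ (n + 1)) // orderOf x = 2} = 1 := by
  have h : ∀ x : QuaternionGroup (2 ^ (n + 1)), orderOf x = 2 ↔
      x = QuaternionGroup.a ((2 ^ (n + 1) : ℕ) : ZMod (2 * 2 ^ (n + 1))) := by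
    intro x
    constructor
    · intro hx
      have hx2 := CfsgLib.Involutions.mul_self_eq_one hx
      rcases x with i | i
      · have hi : 2 * i = 0 := by
          have h := hx2
          rw [QuaternionGroup.a_mul_a, ← QuaternionGroup.a_zero, QuaternionGroup.a.injEq] at h
          exact (two_mul i).trans h
        have hne : i ≠ 0 := by
          rintro rfl
          exact CfsgLib.Involutions.ne_one hx QuaternionGroup.a_zero
        rw [QuaternionGroup.a.injEq]
        obtain ⟨k, hk, rfl⟩ : ∃ k : ℕ, k < 2 * 2 ^ (n + 1) ∧ ((k : ℕ) : ZMod (2 * 2 ^ (n + 1))) = i :=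
          ⟨i.val, ZMod.val_lt i, ZMod.natCast_zmod_val i⟩
        have hdvd : 2 * 2 ^ (n + 1) ∣ 2 * k := by
          rw [← ZMod.natCast_eq_zero_iff]; push_cast; exact hi
        have hdvd' : 2 ^ (n + 1) ∣ k := Nat.dvd_of_mul_dvd_mul_left two_pos hdvd
        obtain ⟨c, rfl⟩ := hdvd'
        have hc : c < 2 := by nlinarith [Nat.two_pow_pos (n + 1)]
        interval_cases c
        · simp at hne
        · rw [mul_one]
      · exfalso
        have h4 := QuaternionGroup.orderOf_xa (n := 2 ^ (n + 1)) i
        omega
    · rintro rfl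
      rw [CfsgLib.Involutions.orderOf_eq_two_iff, QuaternionGroup.a_mul_a]
      constructor
      · rw [← QuaternionGroup.a_zero, QuaternionGroup.a.injEq, ← two_mul]
        exact_mod_cast ZMod.natCast_self (2 * 2 ^ (n + 1))
      · rw [← QuaternionGroup.a_zero, Ne, QuaternionGroup.a.injEq, ZMod.natCast_eq_zero_iff]
        intro hd
        have := Nat.le_of_dvd (Nat.two_pow_pos _) hd
        have := Nat.two_pow_pos (n + 1)
        omega
  rw [Nat.card_congr (Equiv.subtypeEquivRight h)]
  simp

end Cfsg.Agent.S0218
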