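import Cfsg.Statements.S0229
import Cfsg.Agent.Lib.Involutions.ThompsonTransfer

set_option autoImplicit false
open Cfsg

namespace Cfsg.Agent.S0229

/-- Let t be an involution of a Sylow 2-subgroup S of a finite group G, conjugate in G to no other element of S, and let s be an involution of G not conjugate to t. Then the order of st is twice an odd number. -/
theorem result {G : Type*} [Group G] [Finite G] (S : Sylow 2 G) (t : G) (ht : orderOf t = 2) (htS : t ∈ S) (hiso : ∀ g : G, g * t * g⁻¹ ∈ S → g * t * g⁻¹ = t) (s : G) (hs : orderOf s = 2) (hns : ¬ IsConj s t) : orderOf (s * t) % 4 = 2 := by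
  have hst : orderOf (s * t) = orderOf (t * s) := by
    rw [← CfsgLib.Involutions.orderOf_conj t (s * t)]
    congr 1
    rw [CfsgLib.Involutions.inv_eq_self ht, mul_assoc t (s * t) t, mul_assoc s t t,
      CfsgLib.Involutions.mul_self_eq_one ht, mul_one]
  rw [hst]
  have heven : Even (orderOf (t * s)) := Nat.not_odd_iff_even.1 fun h =>
    hns (CfsgLib.Involutions.isConj_of_odd ht hs h).symm
  by_contra hne
  have h4 : 4 ∣ orderOf (t * s) := by
    obtain ⟨m, hm⟩ := heven
    omega
  set z := (t * s) ^ (orderOf (t * s) / 2) with hz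
  have hz2 : orderOf z = 2 := CfsgLib.Involutions.orderOf_half heven (orderOf_pos _).ne'
  have hzt : Commute z t := CfsgLib.Involutions.commute_half_left ht hs heven
  obtain ⟨j, hj⟩ := h4
  have hconj : (t * s) ^ (j : ℤ) * t * ((t * s) ^ (j : ℤ))⁻¹ = t * z := by
    rw [CfsgLib.Involutions.conj_left_by_zpow ht hs, ← hzt.eq, hz, ← zpow_natCast _ (orderOf (t * s) / 2)]
    congr 2
    omega
  have hne' : t ≠ t * z := fun h => CfsgLib.Involutions.ne_one hz2
    (mul_left_cancel (a := t) (by rw [mul_one]; exact h.symm))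
  have ho : orderOf (t * (t * z)) ∣ 2 ^ 1 := by
    rw [← mul_assoc, CfsgLib.Involutions.mul_self_eq_one ht, one_mul, hz2, pow_one]
  have htz : orderOf (t * z) = 2 := by
    rw [← hconj, CfsgLib.Involutions.orderOf_conj, ht]
  exact hne' (CfsgLib.Involutions.isolated_eq hiso
    (CfsgLib.Involutions.isPGroup_closure_pair ht htz ho) (IsConj.refl t)
    (isConj_iff.2 ⟨_, hconj⟩) (Subgroup.subset_closure (by simp)) (Subgroup.subset_closure (by simp)))

end Cfsg.Agent.S0229
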