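import Cfsg.Statements.S0231
import Cfsg.Agent.Lib.Involutions.ThompsonTransfer

set_option autoImplicit false
open scoped Pointwise
open Cfsg

namespace Cfsg.Agent.S0231

/-- Let T be a Sylow 2-subgroup of the finite group G which is not normal and which intersects every other Sylow 2-subgroup trivially. Then G has a single conjugacy class of involutions. -/
theorem result {G : Type*} [Group G] [Finite G] (T : Sylow 2 G) (hnn : ¬ (T : Subgroup G).Normal) (hTI : ∀ g : G, MulAut.conj g • (T : Subgroup G) ≠ T → MulAut.conj g • (T : Subgroup G) ⊓ T = ⊥) (s t : G) (hs : orderOf s = 2) (ht : orderOf t = 2) : IsConj s t := by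
  have huniq : ∀ (P Q : Sylow 2 G) (x : G), x ∈ P → x ∈ Q → x ≠ 1 → P = Q := by
    intro P Q x hxP hxQ hx1
    by_contra hne
    obtain ⟨a, ha⟩ := MulAction.exists_smul_eq G P T
    have hxT : a * x * a⁻¹ ∈ (T : Subgroup G) := by
      show a * x * a⁻¹ ∈ T
      rw [← ha]; exact ⟨x, hxP, rfl⟩
    have hxa : a * x * a⁻¹ ∈ a • Q := ⟨x, hxQ, rfl⟩
    obtain ⟨g, hg⟩ := MulAction.exists_smul_eq G T (a • Q)
    have hgne : MulAut.conj g • (T : Subgroup G) ≠ T := by
      intro h
      refine hne (MulAction.injective a (ha.trans ?_))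
      show T = a • Q
      rw [← hg]
      exact (Sylow.ext h).symm
    have hbot := hTI g hgne
    have : a * x * a⁻¹ ∈ MulAut.conj g • (T : Subgroup G) ⊓ T := by
      refine ⟨?_, hxT⟩
      show a * x * a⁻¹ ∈ g • T
      rw [hg]; exact hxa
    rw [hbot, Subgroup.mem_bot, mul_inv_eq_one] at this
    exact hx1 (mul_left_cancel (a := a) (by rw [mul_one]; exact this))
  have key : ∀ (a b : G), orderOf a = 2 → orderOf b = 2 → ¬ IsConj a b →
      ∀ P Q : Sylow 2 G, a ∈ P → b ∈ Q → P = Q := by
    intro a b ha hb hab P Q haP hbQ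
    obtain ⟨z, hz, hza, hzb, -⟩ := CfsgLib.Involutions.exists_commuting_involution ha hb hab
    have hp : ∀ c : G, orderOf c = 2 → z * c = c * z → ∀ R : Sylow 2 G, c ∈ R → z ∈ R := by
      intro c hc hzc R hcR
      have hd : orderOf (z * c) ∣ 2 ^ 1 := by
        rw [orderOf_dvd_iff_pow_eq_one, pow_one, Commute.mul_pow hzc, pow_two, pow_two,
          CfsgLib.Involutions.mul_self_eq_one hz, CfsgLib.Involutions.mul_self_eq_one hc, one_mul]
      obtain ⟨R', hR'⟩ := (CfsgLib.Involutions.isPGroup_closure_pair hz hc hd).exists_le_sylow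
      have hc' : c ∈ R' := hR' (Subgroup.subset_closure (by simp))
      rw [huniq R R' c hcR hc' (CfsgLib.Involutions.ne_one hc)]
      exact hR' (Subgroup.subset_closure (by simp))
    exact huniq P Q z (hp a ha hza P haP) (hp b hb hzb Q hbQ) (CfsgLib.Involutions.ne_one hz)
  by_contra hst
  obtain ⟨P, hP⟩ := (CfsgLib.Involutions.isPGroup_zpowers_of_involution hs).exists_le_sylow
  obtain ⟨Q, hQ⟩ := (CfsgLib.Involutions.isPGroup_zpowers_of_involution ht).exists_le_sylow
  apply hnn
  rw [← Subgroup.normalizer_eq_top_iff, eq_top_iff]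
  intro g _
  refine Sylow.smul_eq_iff_mem_normalizer.1 ?_
  have h1 : P = g • Q := key s (g * t * g⁻¹) hs ((CfsgLib.Involutions.orderOf_conj g t).trans ht)
    (fun h => hst (h.trans (isConj_iff.2 ⟨g⁻¹, by group⟩))) P (g • Q)
    (hP (Subgroup.mem_zpowers s)) ⟨t, hQ (Subgroup.mem_zpowers t), rfl⟩
  have h2 : P = Q := key s t hs ht hst P Q (hP (Subgroup.mem_zpowers s)) (hQ (Subgroup.mem_zpowers t))
  -- every element fixes `P`, and all Sylow subgroups are conjugate
  have hall : ∀ g' : G, g' • P = P := by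
    intro g'
    have h1' : P = g' • Q := key s (g' * t * g'⁻¹) hs ((CfsgLib.Involutions.orderOf_conj g' t).trans ht)
      (fun h => hst (h.trans (isConj_iff.2 ⟨g'⁻¹, by group⟩))) P (g' • Q)
      (hP (Subgroup.mem_zpowers s)) ⟨t, hQ (Subgroup.mem_zpowers t), rfl⟩
    rw [← h2] at h1'
    exact h1'.symm
  obtain ⟨a, ha⟩ := MulAction.exists_smul_eq G P T
  rw [hall a] at ha
  rw [← ha]
  exact hall g

end Cfsg.Agent.S0231
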