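import Cfsg.Statements.S0232
import Cfsg.Agent.Lib.Involutions.Counting
import Mathlib.GroupTheory.QuotientGroup.Basic
import Mathlib.GroupTheory.SchurZassenhaus

set_option autoImplicit false
open Cfsg

namespace Cfsg.Agent.S0232

theorem aux.{u} : ∀ (N : ℕ) (G : Type u) [Group G] [Finite G], Nat.card G = N →
    Even (Nat.card G) → 2 < Nat.card G →
    ∃ H : Subgroup G, H ≠ ⊤ ∧ Nat.card G < (Nat.card H) ^ 3 := by
  intro N
  induction N using Nat.strong_induction_on with
  | _ N IH => ?_
  intro G _ _ hN heven hgt
  have two : ∀ K : Subgroup G, K.index = 2 →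
      ∃ H : Subgroup G, H ≠ ⊤ ∧ Nat.card G < (Nat.card H) ^ 3 := by
    intro K hK
    have hc := K.card_mul_index
    rw [hK] at hc
    refine ⟨K, fun h => by rw [h, Subgroup.index_top] at hK; exact absurd hK (by norm_num), ?_⟩
    have hk : 2 ≤ Nat.card K := by omega
    rw [← hc]
    nlinarith [Nat.mul_le_mul hk hk]
  by_cases hz : ∃ z : G, orderOf z = 2 ∧ z ∈ Subgroup.center G
  · obtain ⟨z, hz2, hzc⟩ := hz
    have hn : (Subgroup.zpowers z).Normal := ⟨fun a ha g => by
      have hc : g * a = a * g := Subgroup.mem_center_iff.1 ((Subgroup.zpowers_le.2 hzc) ha) g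
      rw [hc, mul_inv_cancel_right]; exact ha⟩
    have hZ : Nat.card (Subgroup.zpowers z) = 2 := by rw [Nat.card_zpowers, hz2]
    have hq : Nat.card G = Nat.card (G ⧸ Subgroup.zpowers z) * 2 := by
      rw [Subgroup.card_eq_card_quotient_mul_card_subgroup (Subgroup.zpowers z), hZ]
    by_cases heq : Even (Nat.card (G ⧸ Subgroup.zpowers z))
    · by_cases hq2 : Nat.card (G ⧸ Subgroup.zpowers z) = 2
      · exact two (Subgroup.zpowers z) hq2
      · obtain ⟨m, hm⟩ := heq
        have hpos : 0 < Nat.card (G ⧸ Subgroup.zpowers z) := Nat.card_pos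
        obtain ⟨H, hH, hlt⟩ := IH (Nat.card (G ⧸ Subgroup.zpowers z)) (by omega)
          (G ⧸ Subgroup.zpowers z) rfl ⟨m, hm⟩ (by omega)
        let π := QuotientGroup.mk' (Subgroup.zpowers z)
        have hsurj : Function.Surjective π := QuotientGroup.mk'_surjective _
        refine ⟨H.comap π, fun h => hH ?_, ?_⟩
        · rw [← Subgroup.map_comap_eq_self_of_surjective hsurj H, h,
            Subgroup.map_top_of_surjective _ hsurj]
        · have h1 := (H.comap π).card_mul_index
          rw [Subgroup.index_comap_of_surjective _ hsurj, hq, ← H.card_mul_index] at h1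
          have hi : H.index ≠ 0 := Subgroup.index_ne_zero_of_finite
          have h2 : Nat.card (H.comap π) = Nat.card H * 2 := by
            apply Nat.eq_of_mul_eq_mul_right (Nat.pos_of_ne_zero hi)
            rw [h1]; ring
          rw [h2, hq, mul_pow]
          omega
    · -- `⟨z⟩` is a Sylow 2-subgroup with an odd-order complement
      have hcop : Nat.Coprime (Nat.card (Subgroup.zpowers z)) (Subgroup.zpowers z).index := by
        rw [hZ]
        exact (Nat.prime_two.coprime_iff_not_dvd).2 fun h => heq (even_iff_two_dvd.2 h)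
      obtain ⟨K, hK⟩ := Subgroup.exists_right_complement'_of_coprime hcop
      refine two K ?_
      rw [hK.index_eq_card, hZ]
  · push Not at hz
    obtain ⟨t, ht, hmax⟩ : ∃ t : G, orderOf t = 2 ∧ ∀ u : G, orderOf u = 2 →
        Nat.card (Subgroup.centralizer ({u} : Set G)) ≤
          Nat.card (Subgroup.centralizer ({t} : Set G)) := by
      classical
      have : Fintype G := Fintype.ofFinite G
      obtain ⟨t₀, ht₀⟩ := exists_prime_orderOf_dvd_card' (G := G) 2 heven.two_dvd
      obtain ⟨t, ht, hmax⟩ := Finset.exists_max_image (Finset.univ.filter fun u : G => orderOf u = 2)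
        (fun u => Nat.card (Subgroup.centralizer ({u} : Set G))) ⟨t₀, by simp [ht₀]⟩
      exact ⟨t, by simpa using ht, fun u hu => hmax u (by simp [hu])⟩
    have hC : Subgroup.centralizer ({t} : Set G) ≠ ⊤ := by
      intro h
      rw [Subgroup.centralizer_eq_top_iff_subset, Set.singleton_subset_iff] at h
      exact hz t ht h
    by_cases hcl : ∀ s : G, orderOf s = 2 → IsConj t s
    · obtain ⟨H, hH, hi | hlt⟩ := CfsgLib.Involutions.exists_small_index heven hz
      · exact two H hi
      · set n := Nat.card {t : G // orderOf t = 2} with hn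
        set c := Nat.card (Subgroup.centralizer ({t} : Set G)) with hc
        have hnc : n * c = Nat.card G := by
          rw [← CfsgLib.Involutions.card_isConj_mul_card_centralizer t, hn, hc]
          congr 1
          exact Nat.card_congr (Equiv.subtypeEquivRight fun s =>
            ⟨hcl s, fun h => (CfsgLib.Involutions.orderOf_eq_of_isConj h).symm.trans ht⟩)
        have hcpos : 1 ≤ c := Nat.card_pos
        have h1 : 2 * H.index * n ^ 2 < 2 * c ^ 2 * n ^ 2 := by
          refine lt_of_lt_of_le hlt ?_
          rw [← hnc]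
          nlinarith [Nat.mul_le_mul_left (n ^ 2 * c) hcpos]
        have h2 := Nat.lt_of_mul_lt_mul_right h1
        have hpos : 0 < Nat.card H := Nat.card_pos
        have h3 : Nat.card G < Nat.card H * c ^ 2 := by
          rw [← H.card_mul_index]
          exact Nat.mul_lt_mul_of_pos_left (by omega) hpos
        rcases le_total c (Nat.card H) with h | h
        · refine ⟨H, hH, lt_of_lt_of_le h3 ?_⟩
          calc Nat.card H * c ^ 2 ≤ Nat.card H * Nat.card H ^ 2 :=
                Nat.mul_le_mul_left _ (Nat.pow_le_pow_left h 2)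
            _ = _ := by ring
        · refine ⟨_, hC, lt_of_lt_of_le h3 ?_⟩
          calc Nat.card H * c ^ 2 ≤ c * c ^ 2 := Nat.mul_le_mul_right _ h
            _ = _ := by ring
    · push Not at hcl
      obtain ⟨s, hs, hns⟩ := hcl
      exact ⟨_, hC, CfsgLib.Involutions.card_lt_cube hs ht (fun h => hns h.symm) hmax⟩

/-- A finite group G of even order greater than 2 has a proper subgroup H with |G| < |H|^3. -/
theorem result {G : Type*} [Group G] [Finite G] (heven : Even (Nat.card G)) (hgt : 2 < Nat.card G) : ∃ H : Subgroup G, H ≠ ⊤ ∧ Nat.card G < (Nat.card H) ^ 3 := by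
  exact aux (Nat.card G) G rfl heven hgt

end Cfsg.Agent.S0232
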