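import Cfsg.Statements.S0234
import Cfsg.Agent.Lib.Involutions.Counting
import Cfsg.Agent.Lib.Involutions.ThompsonTransfer
import Cfsg.Agent.Lib.SmallGroups.Counting

set_option autoImplicit false
open Cfsg

namespace Cfsg.Agent.S0234

/-- In a finite simple group G of even order greater than 2, the number n of involutions satisfies 3n < |G|. -/
theorem result {G : Type*} [Group G] [Finite G] [IsSimpleGroup G] (heven : Even (Nat.card G)) (hgt : 2 < Nat.card G) : 3 * Nat.card {t : G // orderOf t = 2} < Nat.card G := by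
  have hnc : ¬ IsMulCommutative G := CfsgLib.SmallGroups.not_isMulCommutative_of_card fun hp => by
    obtain ⟨m, hm⟩ := heven
    exact absurd ((Nat.prime_dvd_prime_iff_eq Nat.prime_two hp).1 ⟨m, by omega⟩) (by omega)
  have h2 : ∀ H : Subgroup G, H.index ≠ 2 := by
    intro H hH
    have hHt : H ≠ ⊤ := fun h => by rw [h, Subgroup.index_top] at hH; omega
    have hd := CfsgLib.SmallGroups.two_mul_card_dvd_factorial_index hnc hHt
    rw [hH] at hd
    have := Nat.le_of_dvd (by norm_num [Nat.factorial]) hd
    norm_num [Nat.factorial] at this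
    omega
  have hcen : ∀ x : G, orderOf x = 2 → x ∉ Subgroup.center G := by
    intro x hx hxc
    rcases (inferInstance : (Subgroup.center G).Normal).eq_bot_or_eq_top with h | h
    · exact CfsgLib.Involutions.ne_one hx (Subgroup.mem_bot.1 (h ▸ hxc))
    · exact hnc (IsMulCommutative.of_comm fun a b =>
        (Subgroup.mem_center_iff.1 (h ▸ Subgroup.mem_top a) b).symm)
  obtain ⟨H, hH, hidx⟩ := CfsgLib.Involutions.exists_small_index heven hcen
  have hlt := hidx.resolve_left (h2 H)
  set N := Nat.card G with hN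
  set n := Nat.card {t : G // orderOf t = 2} with hn
  by_contra hcon
  have hcon : N ≤ 3 * n := Nat.le_of_not_lt hcon
  have hn0 : 0 < n := by omega
  have hm5 : H.index ≤ 5 := by
    by_contra h
    have h6 : 6 ≤ H.index := by omega
    nlinarith [Nat.mul_le_mul hcon hcon, Nat.mul_le_mul_right (n ^ 2) h6]
  have h60 : N ∣ 60 := by
    have h := (CfsgLib.SmallGroups.two_mul_card_dvd_factorial_index hnc hH).trans
      (Nat.factorial_dvd_factorial hm5)
    rw [show Nat.factorial 5 = 2 * 60 from rfl] at h
    exact Nat.dvd_of_mul_dvd_mul_left two_pos h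
  have hS : ∀ (p a m : ℕ) [Fact p.Prime], N = p ^ a * m → ¬ p ∣ m → p ∣ N →
      Nat.card (Sylow p G) ∈ m.divisors.filter (fun d => d % p = 1) ∧
        2 * N ∣ (Nat.card (Sylow p G)).factorial := fun p a m _ h1 h1' h2' =>
    ⟨CfsgLib.SmallGroups.card_sylow_mem h1 h1', CfsgLib.SmallGroups.two_mul_card_dvd_factorial_card_sylow hnc h2'⟩
  have h2' : Fact (Nat.Prime 2) := ⟨Nat.prime_two⟩
  have h3' : Fact (Nat.Prime 3) := ⟨Nat.prime_three⟩
  have h5' : Fact (Nat.Prime 5) := ⟨by norm_num⟩
  have hle : N ≤ 60 := Nat.le_of_dvd (by norm_num) h60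
  have hmem : N ∈ Nat.divisors 60 := Nat.mem_divisors.2 ⟨h60, by norm_num⟩
  have hev : N % 2 = 0 := Nat.even_iff.1 heven
  rw [show Nat.divisors 60 = {1, 2, 3, 4, 5, 6, 10, 12, 15, 20, 30, 60} from by decide] at hmem
  simp only [Finset.mem_insert, Finset.mem_singleton] at hmem
  have c3 : ∀ a m k, N = 3 ^ a * m → ¬ 3 ∣ m → 0 < a → (m.divisors.filter (fun d => d % 3 = 1) ⊆ Finset.range k) →
      ¬ 2 * N ≤ (k - 1).factorial → False := by
    intro a m k h1 h1' ha hk hf
    obtain ⟨hm, hd⟩ := hS 3 a m h1 h1' (h1 ▸ Dvd.dvd.mul_right (dvd_pow_self 3 ha.ne') m)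
    have := Finset.mem_range.1 (hk hm)
    exact hf ((Nat.le_of_dvd (Nat.factorial_pos _) hd).trans (Nat.factorial_le (by omega)))
  have c5 : ∀ a m k, N = 5 ^ a * m → ¬ 5 ∣ m → 0 < a → (m.divisors.filter (fun d => d % 5 = 1) ⊆ Finset.range k) →
      ¬ 2 * N ≤ (k - 1).factorial → False := by
    intro a m k h1 h1' ha hk hf
    obtain ⟨hm, hd⟩ := hS 5 a m h1 h1' (h1 ▸ Dvd.dvd.mul_right (dvd_pow_self 5 ha.ne') m)
    have := Finset.mem_range.1 (hk hm)
    exact hf ((Nat.le_of_dvd (Nat.factorial_pos _) hd).trans (Nat.factorial_le (by omega)))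
  rcases hmem with h | h | h | h | h | h | h | h | h | h | h | h <;> try omega
  · exact CfsgLib.SmallGroups.not_isPGroup hnc 2 (IsPGroup.of_card (n := 2) (by omega : Nat.card G = 2 ^ 2))
  · exact c3 1 2 2 (by omega) (by norm_num) one_pos (by decide) (by rw [h]; decide)
  · exact c5 1 2 2 (by omega) (by norm_num) one_pos (by decide) (by rw [h]; decide)
  · -- order 12: the Sylow 2-subgroups
    obtain ⟨hm, hd⟩ := hS 2 2 3 (by omega) (by norm_num) (by omega)
    have := Nat.le_of_dvd (Nat.factorial_pos _) hd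
    have hk : Nat.card (Sylow 2 G) ≤ 3 := Nat.le_of_dvd (by norm_num) (Nat.dvd_of_mem_divisors (Finset.mem_filter.1 hm).1)
    have := Nat.factorial_le hk
    norm_num [Nat.factorial] at this
    omega
  · exact c5 1 4 2 (by omega) (by norm_num) one_pos (by decide) (by rw [h]; decide)
  · -- order 30
    obtain ⟨T⟩ := (inferInstance : Nonempty (Sylow 2 G))
    have hT : Nat.card (T : Subgroup G) = 2 ^ 1 :=
      CfsgLib.SmallGroups.card_sylow_eq (m := 15) (a := 1) (by omega) (by norm_num) T
    have hc : IsCyclic (T : Subgroup G) := isCyclic_of_prime_card (p := 2) (by simpa using hT)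
    obtain ⟨K, hK⟩ := CfsgLib.Involutions.exists_index_two_of_cyclic_sylow heven T hc
    exact h2 K hK
  · -- order 60: count elements of orders 5, 3, 2
    obtain ⟨hm, hd⟩ := hS 5 1 12 (by omega) (by norm_num) (by omega)
    rw [show (12 : ℕ).divisors.filter (fun d => d % 5 = 1) = {1, 6} from by decide] at hm
    obtain ⟨hm', hd'⟩ := hS 3 1 20 (by omega) (by norm_num) (by omega)
    rw [show (20 : ℕ).divisors.filter (fun d => d % 3 = 1) = {1, 4, 10} from by decide] at hm'
    simp only [Finset.mem_insert, Finset.mem_singleton] at hm hm'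
    have hn5 : Nat.card (Sylow 5 G) = 6 := by
      rcases hm with h' | h'
      · rw [h', h] at hd; norm_num [Nat.factorial] at hd
      · exact h'
    have hn3 : Nat.card (Sylow 3 G) = 10 := by
      rcases hm' with h' | h' | h'
      · rw [h', h] at hd'; norm_num [Nat.factorial] at hd'
      · rw [h', h] at hd'; norm_num [Nat.factorial] at hd'
      · exact h'
    obtain ⟨P⟩ := (inferInstance : Nonempty (Sylow 5 G))
    obtain ⟨Q⟩ := (inferInstance : Nonempty (Sylow 3 G))
    have e5 := CfsgLib.SmallGroups.card_orderOf_eq_prime P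
      ((CfsgLib.SmallGroups.card_sylow_eq (m := 12) (a := 1) (by omega) (by norm_num) P).trans (by norm_num))
    have e3 := CfsgLib.SmallGroups.card_orderOf_eq_prime Q
      ((CfsgLib.SmallGroups.card_sylow_eq (m := 20) (a := 1) (by omega) (by norm_num) Q).trans (by norm_num))
    rw [hn5] at e5
    rw [hn3] at e3
    classical
    have : Fintype G := Fintype.ofFinite G
    rw [Nat.card_eq_fintype_card, Fintype.card_subtype] at e5 e3
    have hn' : n = (Finset.univ.filter fun g : G => orderOf g = 2).card := by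
      rw [hn, Nat.card_eq_fintype_card, Fintype.card_subtype]
    have hu := Finset.card_le_univ (((Finset.univ.filter fun g : G => orderOf g = 2) ∪
      (Finset.univ.filter fun g : G => orderOf g = 3)) ∪ (Finset.univ.filter fun g : G => orderOf g = 5))
    rw [Finset.card_union_of_disjoint, Finset.card_union_of_disjoint, e5, e3, ← hn',
      ← Nat.card_eq_fintype_card, ← hN] at hu
    · omega
    · exact Finset.disjoint_filter.2 fun g _ a b => by omega
    · refine Finset.disjoint_left.2 fun g a b => ?_
      simp only [Finset.mem_union, Finset.mem_filter, Finset.mem_univ, true_and] at a b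
      omega

end Cfsg.Agent.S0234
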