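import Cfsg.Statements.S0240
import Cfsg.Agent.Lib.Involutions.Counting

set_option autoImplicit false
open Cfsg

namespace Cfsg.Agent.S0240

/-- Let G be a finite group with n involutions and H a subgroup with |H|·(n+1) > |G|. Then some nontrivial h ∈ H is strongly real in G: an involution t of G satisfies t h t⁻¹ = h⁻¹. -/
theorem result {G : Type*} [Group G] [Finite G] (H : Subgroup G) (hH : Nat.card G < Nat.card H * (Nat.card {t : G // orderOf t = 2} + 1)) : ∃ h : G, h ∈ H ∧ h ≠ 1 ∧ ∃ t : G, orderOf t = 2 ∧ t * h * t⁻¹ = h⁻¹ := by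
  classical
  have : Fintype G := Fintype.ofFinite G
  let f : ↥H × Option {t : G // orderOf t = 2} → G := fun p => (p.1 : G) * p.2.elim 1 (fun t => (t : G))
  have hlt : Nat.card G < Nat.card (↥H × Option {t : G // orderOf t = 2}) := by
    rwa [Nat.card_prod, Finite.card_option]
  obtain ⟨⟨h₁, o₁⟩, ⟨h₂, o₂⟩, hne, heq⟩ :=
    Fintype.exists_ne_map_eq_of_card_lt f (by simpa [Nat.card_eq_fintype_card] using hlt)
  change (h₁ : G) * _ = (h₂ : G) * _ at heq
  have hkey : ((h₂ : G)⁻¹ * h₁) = o₂.elim 1 (fun t => (t : G)) * (o₁.elim 1 (fun t => (t : G)))⁻¹ := by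
    rw [eq_mul_inv_iff_mul_eq, mul_assoc, heq, inv_mul_cancel_left]
  refine ⟨(h₂ : G)⁻¹ * h₁, H.mul_mem (H.inv_mem h₂.2) h₁.2, ?_, ?_⟩
  · intro h1
    have h12 : h₁ = h₂ := Subtype.ext (by rw [← mul_one (h₂ : G), ← h1, mul_inv_cancel_left])
    subst h12
    refine hne (Prod.ext rfl ?_)
    have h := mul_left_cancel heq
    rcases o₁ with _ | a <;> rcases o₂ with _ | b
    · rfl
    · exact absurd h.symm (CfsgLib.Involutions.ne_one b.2)
    · exact absurd h (CfsgLib.Involutions.ne_one a.2)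
    · exact congrArg some (Subtype.ext h)
  · rw [hkey]
    rcases o₁ with _ | a <;> rcases o₂ with _ | b
    · exfalso
      refine hne (Prod.ext (Subtype.ext ?_) rfl)
      simpa using heq
    · refine ⟨b, b.2, ?_⟩
      simp [CfsgLib.Involutions.inv_eq_self b.2, CfsgLib.Involutions.mul_self_eq_one b.2]
    · refine ⟨a, a.2, ?_⟩
      simp [CfsgLib.Involutions.inv_eq_self a.2, CfsgLib.Involutions.mul_self_eq_one a.2]
    · refine ⟨b, b.2, ?_⟩
      show (b : G) * (b * (a : G)⁻¹) * (b : G)⁻¹ = ((b : G) * (a : G)⁻¹)⁻¹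
      rw [CfsgLib.Involutions.inv_eq_self a.2]
      exact CfsgLib.Involutions.conj_mul_eq_inv b.2 a.2

end Cfsg.Agent.S0240
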