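import Cfsg.Statements.S0250
import Cfsg.Agent.Lib.ClassicalLinear.ProjLine

set_option autoImplicit false
open Cfsg

namespace Cfsg.Agent.S0250

/-- SL_2(2) is isomorphic to S_3. -/
theorem result {F : Type*} [Field F] [Fintype F] (hF : Fintype.card F = 2) : Nonempty (Matrix.SpecialLinearGroup (Fin 2) F ≃* Equiv.Perm (Fin 3)) := by
  have hc : Subgroup.center (Matrix.SpecialLinearGroup (Fin 2) F) = ⊥ :=
    Subgroup.card_eq_one.1 (by rw [CfsgLib.ClassicalLinear.card_center_SL, hF]; rfl)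
  have hsl : Nat.card (Matrix.SpecialLinearGroup (Fin 2) F) = 6 := by
    rw [CfsgLib.ClassicalLinear.card_SL_two hF]; norm_num
  obtain ⟨φ, hφ⟩ := CfsgLib.ClassicalLinear.exists_pslTwo_hom (F := F) (m := 3) (by rw [hF])
  let ψ : Matrix.SpecialLinearGroup (Fin 2) F →* Equiv.Perm (Fin 3) :=
    φ.comp (QuotientGroup.mk' (Subgroup.center (Matrix.SpecialLinearGroup (Fin 2) F)))
  have hψ : Function.Injective ψ := hφ.comp (by
    rw [← MonoidHom.ker_eq_bot_iff, QuotientGroup.ker_mk', hc])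
  refine ⟨MulEquiv.ofBijective ψ ?_⟩
  rw [Nat.bijective_iff_injective_and_card]
  exact ⟨hψ, by rw [hsl, Nat.card_perm, Nat.card_fin]; rfl⟩

end Cfsg.Agent.S0250
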