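import Cfsg.Statements.S0251
import Cfsg.Agent.Lib.ClassicalLinear.ProjLine

set_option autoImplicit false
open Cfsg

namespace Cfsg.Agent.S0251

/-- PSL_2(3) is isomorphic to A_4. -/
theorem result {F : Type*} [Field F] [Fintype F] (hF : Fintype.card F = 3) : Nonempty (Matrix.ProjectiveSpecialLinearGroup (Fin 2) F ≃* alternatingGroup (Fin 4)) := by
  obtain ⟨φ, hφ⟩ := CfsgLib.ClassicalLinear.exists_pslTwo_hom (F := F) (m := 4) (by rw [hF])
  exact CfsgLib.ClassicalLinear.equiv_alternatingGroup_of_injective (by norm_num) φ hφ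
    (by rw [CfsgLib.ClassicalLinear.card_PSL_two_card_three hF]; rfl)

end Cfsg.Agent.S0251
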