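import Cfsg.Statements.S0257
import Cfsg.Agent.Lib.ClassicalLinear.BlockHom
import Cfsg.Agent.Lib.ClassicalLinear.Card
import Cfsg.Agent.Lib.SL2.Basic

set_option autoImplicit false
open Cfsg Matrix

namespace Cfsg.Agent.S0257

/-- The eight matrices of the quaternion subgroup. -/
private def quatMat : QuaternionGroup 2 → Matrix (Fin 2) (Fin 2) (ZMod 3)
  | QuaternionGroup.a k => !![0, -1; 1, 0] ^ k.val
  | QuaternionGroup.xa k => !![1, 1; 1, -1] * !![0, -1; 1, 0] ^ k.val

private theorem quatMat_det : ∀ q, (quatMat q).det = 1 := by decide +kernel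

private theorem quatMat_mul : ∀ q r, quatMat (q * r) = quatMat q * quatMat r := by decide +kernel

private theorem quatMat_inj : ∀ q r, quatMat q = quatMat r → q = r := by decide +kernel

private theorem quatMat_range : ∀ a b c d : ZMod 3, a * d - b * c = 1 →
    (a + d = 0 ∨ (b = 0 ∧ c = 0 ∧ a = d)) → ∃ q, quatMat q = !![a, b; c, d] := by decide +kernel

private theorem quatMat_tr : ∀ q, quatMat q 0 0 + quatMat q 1 1 = 0 ∨
    CfsgLib.SL2.IsScalarMat (quatMat q) := by decide +kernel

private theorem quat_facts :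
    ∃ Q : Subgroup (Matrix.SpecialLinearGroup (Fin 2) (ZMod 3)),
      Q.Normal ∧ Q.index = 3 ∧ Nonempty (Q ≃* QuaternionGroup 2) := by
  have : Fact (Nat.Prime 3) := ⟨Nat.prime_three⟩
  let f : QuaternionGroup 2 →* Matrix.SpecialLinearGroup (Fin 2) (ZMod 3) :=
    MonoidHom.mk' (fun q => ⟨quatMat q, quatMat_det q⟩)
      (fun q r => Subtype.ext (quatMat_mul q r))
  have hf : Function.Injective f := fun q r h => quatMat_inj q r (congrArg Subtype.val h)
  have hmem : ∀ g, g ∈ f.range ↔
      CfsgLib.SL2.tr g = 0 ∨ g ∈ Subgroup.center (Matrix.SpecialLinearGroup (Fin 2) (ZMod 3)) := by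
    intro g
    rw [CfsgLib.SL2.mem_center_iff_isScalarMat]
    constructor
    · rintro ⟨q, rfl⟩
      exact quatMat_tr q
    · intro h
      obtain ⟨q, hq⟩ := quatMat_range (g.1 0 0) (g.1 0 1) (g.1 1 0) (g.1 1 1)
        (CfsgLib.SL2.det_eq g) h
      exact ⟨q, Subtype.ext (hq.trans (Matrix.eta_fin_two g.1).symm)⟩
  have hn : f.range.Normal := ⟨fun g hg k => by
    rw [hmem] at hg ⊢
    rcases hg with hg | hg
    · exact Or.inl ((CfsgLib.SL2.tr_conj g k).trans hg)
    · refine Or.inr ?_
      rw [Subgroup.mem_center_iff.1 hg k, mul_inv_cancel_right]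
      exact hg⟩
  refine ⟨f.range, hn, ?_, ⟨(MonoidHom.ofInjective hf).symm⟩⟩
  have h := Subgroup.card_mul_index f.range
  rw [← Nat.card_congr (MonoidHom.ofInjective hf).toEquiv, Nat.card_eq_fintype_card, QuaternionGroup.card,
    CfsgLib.ClassicalLinear.card_SL_two (ZMod.card 3)] at h
  norm_num at h
  omega

/-- SL_2(3) has a normal subgroup of index 3 isomorphic to the quaternion group of order 8, and its centre has order 2. -/
theorem result {F : Type*} [Field F] [Fintype F] (hF : Fintype.card F = 3) : (∃ Q : Subgroup (Matrix.SpecialLinearGroup (Fin 2) F), Q.Normal ∧ Q.index = 3 ∧ Nonempty (Q ≃* QuaternionGroup 2)) ∧ Nat.card (Subgroup.center (Matrix.SpecialLinearGroup (Fin 2) F)) = 2 := by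
  refine ⟨?_, ?_⟩
  · have : Fact (Nat.Prime 3) := ⟨Nat.prime_three⟩
    let e := CfsgLib.ClassicalLinear.slCongr (n := Fin 2)
      (ZMod.ringEquivOfPrime F Nat.prime_three hF)
    obtain ⟨Q, hn, hi, ⟨q⟩⟩ := quat_facts
    refine ⟨Q.map e.toMonoidHom, hn.map e.toMonoidHom e.surjective, ?_, ⟨?_⟩⟩
    · exact (Subgroup.index_map_equiv Q e).trans hi
    · exact (e.subgroupMap Q).symm.trans q
  · rw [CfsgLib.ClassicalLinear.card_center_SL, hF]
    simp

end Cfsg.Agent.S0257
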