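import Cfsg.Statements.S0262
import Cfsg.Agent.Lib.SL2.Sylow

set_option autoImplicit false
open Cfsg

namespace Cfsg.Agent.S0262

/-- For an odd prime r different from the characteristic, the Sylow r-subgroups of SL_2(q) are cyclic. -/
theorem result {F : Type*} [Field F] [Fintype F] (p : ℕ) [Fact p.Prime] [CharP F p] (r : ℕ) [Fact r.Prime] (hr : r ≠ 2) (hrp : r ≠ p) (R : Sylow r (Matrix.SpecialLinearGroup (Fin 2) F)) : IsCyclic (R : Subgroup (Matrix.SpecialLinearGroup (Fin 2) F)) := by
  set q := Nat.card F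
  by_cases hd : r ∣ q - 1 ∨ r ∣ q + 1
  · obtain ⟨g, hg, -, -, hle, -, -⟩ := CfsgLib.SL2.sylow_odd_structure r hr hd R
    have := CfsgLib.SL2.isCyclic_centralizer hg
    exact isCyclic_of_injective (Subgroup.inclusion hle) (Subgroup.inclusion_injective _)
  · have hn : ¬ r ∣ Nat.card (Matrix.SpecialLinearGroup (Fin 2) F) := by
      intro h
      rw [CfsgLib.SL2.card_SL, show Nat.card F ^ 2 - 1 = (Nat.card F + 1) * (Nat.card F - 1) from
        Nat.sq_sub_sq _ 1] at h
      rcases (Fact.out : r.Prime).dvd_mul.1 h with h | h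
      · obtain ⟨f, -, hf⟩ := FiniteField.card F p
        rw [Nat.card_eq_fintype_card, hf] at h
        exact hrp ((Nat.prime_dvd_prime_iff_eq Fact.out Fact.out).1
          ((Fact.out : r.Prime).dvd_of_dvd_pow h))
      · rcases (Fact.out : r.Prime).dvd_mul.1 h with h | h
        · exact hd (Or.inr h)
        · exact hd (Or.inl h)
    have h1 : Nat.card (R : Subgroup (Matrix.SpecialLinearGroup (Fin 2) F)) = 1 := by
      rw [R.card_eq_multiplicity, Nat.factorization_eq_zero_of_not_dvd hn, pow_zero]
    have : Subsingleton (R : Subgroup (Matrix.SpecialLinearGroup (Fin 2) F)) :=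
      (Nat.card_eq_one_iff_unique.1 h1).1
    infer_instance

end Cfsg.Agent.S0262
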