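import Cfsg.Statements.S0266
import Cfsg.Agent.Lib.ClassicalLinear.ProjTriple

set_option autoImplicit false
open scoped MatrixGroups
open Cfsg

namespace Cfsg.Agent.S0266

/-- PGL_2(F) is sharply 3-transitive on the projective line: it is 3-transitive and the stabiliser of three distinct points is trivial. -/
theorem result {F : Type*} [Field F] : MulAction.IsMultiplyPretransitive (Matrix.ProjGenLinGroup (Fin 2) F) (Projectivization F (Fin 2 → F)) 3 ∧ ∀ (g : Matrix.ProjGenLinGroup (Fin 2) F) (a b c : Projectivization F (Fin 2 → F)), a ≠ b → a ≠ c → b ≠ c → g • a = a → g • b = b → g • c = c → g = 1 := by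
  have hsm : ∀ (g : GL (Fin 2) F) (x : Projectivization F (Fin 2 → F)),
      (Matrix.ProjGenLinGroup.mk g : Matrix.ProjGenLinGroup (Fin 2) F) • x = g • x := fun g x => by
    induction x using Projectivization.ind with | _ v hv => rfl
  refine ⟨⟨fun x y => ?_⟩, ?_⟩
  · have hne : ∀ (z : Fin 3 ↪ Projectivization F (Fin 2 → F)),
        z 0 ≠ z 1 ∧ z 0 ≠ z 2 ∧ z 1 ≠ z 2 := fun z =>
      ⟨z.injective.ne (by decide), z.injective.ne (by decide), z.injective.ne (by decide)⟩
    obtain ⟨g, g0, g1, g2⟩ := CfsgLib.ClassicalLinear.exists_gl_map_triple (hne x).1 (hne x).2.1 (hne x).2.2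
    obtain ⟨h, h0, h1, h2⟩ := CfsgLib.ClassicalLinear.exists_gl_map_triple (hne y).1 (hne y).2.1 (hne y).2.2
    refine ⟨Matrix.ProjGenLinGroup.mk (h * g⁻¹), Function.Embedding.ext fun i => ?_⟩
    rw [Function.Embedding.smul_apply, hsm, mul_smul]
    fin_cases i
    · exact (congrArg (h • ·) (inv_smul_eq_iff.2 g0.symm)).trans h0
    · exact (congrArg (h • ·) (inv_smul_eq_iff.2 g1.symm)).trans h1
    · exact (congrArg (h • ·) (inv_smul_eq_iff.2 g2.symm)).trans h2
  · intro g a b c hab hac hbc ha hb hc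
    induction g using Matrix.ProjGenLinGroup.induction_on with | mk g => ?_
    rw [hsm] at ha hb hc
    obtain ⟨k, k0, k1, k2⟩ := CfsgLib.ClassicalLinear.exists_gl_map_triple hab hac hbc
    subst k0 k1 k2
    obtain ⟨u, hu⟩ := CfsgLib.ClassicalLinear.scalar_of_fix_standard (g := k⁻¹ * g * k)
      (by rw [mul_smul, mul_smul, ha, inv_smul_smul])
      (by rw [mul_smul, mul_smul, hb, inv_smul_smul])
      (by rw [mul_smul, mul_smul, hc, inv_smul_smul])
    have hg : g = k * Matrix.GeneralLinearGroup.scalar (Fin 2) u * k⁻¹ := by rw [hu]; group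
    rw [hg, map_mul, map_mul, Matrix.ProjGenLinGroup.mk_scalar, mul_one, ← map_mul,
      mul_inv_cancel, map_one]

end Cfsg.Agent.S0266
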