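import Cfsg.Statements.S0267
import Cfsg.Agent.Lib.ClassicalLinear.ProjTriple

set_option autoImplicit false
open Cfsg

namespace Cfsg.Agent.S0267

/-- SL_2(q) is 3-transitive on the q+1 points of the projective line if and only if q is even. -/
theorem result {F : Type*} [Field F] [Fintype F] : MulAction.IsMultiplyPretransitive (Matrix.SpecialLinearGroup (Fin 2) F) (Projectivization F (Fin 2 → F)) 3 ↔ ringChar F = 2 := by
  constructor
  · intro h
    by_contra hc
    obtain ⟨t, ht⟩ := FiniteField.exists_nonsquare (F := F) hc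
    have ht0 : t ≠ 0 := fun h0 => ht (h0 ▸ IsSquare.zero)
    have hu : (![t, 1] : Fin 2 → F) ≠ 0 := fun e => by simpa using congrFun e 1
    let P0 : Fin 3 → Projectivization F (Fin 2 → F) := ![CfsgLib.ClassicalLinear.linePt ![1, 0] CfsgLib.ClassicalLinear.e0_ne_zero,
      CfsgLib.ClassicalLinear.linePt ![0, 1] CfsgLib.ClassicalLinear.e1_ne_zero, CfsgLib.ClassicalLinear.linePt ![1, 1] CfsgLib.ClassicalLinear.e11_ne_zero]
    let P1 : Fin 3 → Projectivization F (Fin 2 → F) := ![CfsgLib.ClassicalLinear.linePt ![1, 0] CfsgLib.ClassicalLinear.e0_ne_zero,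
      CfsgLib.ClassicalLinear.linePt ![0, 1] CfsgLib.ClassicalLinear.e1_ne_zero, CfsgLib.ClassicalLinear.linePt ![t, 1] hu]
    have hinj : Function.Injective P0 ∧ Function.Injective P1 := by
      constructor <;> intro i j hij <;> fin_cases i <;> fin_cases j <;>
        first
        | rfl
        | (exfalso
           simp only [P0, P1, Fin.zero_eta, Fin.mk_one, Fin.reduceFinMk, Matrix.cons_val] at hij
           rw [Projectivization.mk_eq_mk_iff'] at hij
           obtain ⟨r, hr⟩ := hij
           have r0 := congrFun hr 0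
           have r1 := congrFun hr 1
           simp at r0 r1 <;> simp_all)
    obtain ⟨g, hg⟩ := h.exists_smul_eq ⟨P0, hinj.1⟩ ⟨P1, hinj.2⟩
    have e0 := Function.Embedding.ext_iff.1 hg 0
    have e1 := Function.Embedding.ext_iff.1 hg 1
    have e2 := Function.Embedding.ext_iff.1 hg 2
    simp only [Function.Embedding.smul_apply, Function.Embedding.coeFn_mk, P0, P1,
      Matrix.cons_val_zero, Matrix.cons_val_one, Matrix.cons_val] at e0 e1 e2
    rw [Projectivization.smul_mk, Projectivization.mk_eq_mk_iff'] at e0 e1 e2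
    obtain ⟨r, hr⟩ := e0
    obtain ⟨s, hs⟩ := e1
    obtain ⟨w, hw⟩ := e2
    change r • _ = g.1.mulVec _ at hr
    change s • _ = g.1.mulVec _ at hs
    change w • _ = g.1.mulVec _ at hw
    have a1 := congrFun hr 1
    have b0 := congrFun hs 0
    have c0 := congrFun hw 0
    have c1 := congrFun hw 1
    simp [Matrix.mulVec, dotProduct, Fin.sum_univ_two] at a1 b0 c0 c1
    rw [← b0, add_zero] at c0
    rw [← a1, zero_add] at c1
    have hd := g.2
    rw [Matrix.det_fin_two, ← a1, mul_zero, sub_zero, ← c0, ← c1] at hd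
    refine ht ⟨w * t, ?_⟩
    linear_combination -t * hd
  · intro hc
    refine ⟨fun x y => ?_⟩
    have hne : ∀ (z : Fin 3 ↪ Projectivization F (Fin 2 → F)),
        z 0 ≠ z 1 ∧ z 0 ≠ z 2 ∧ z 1 ≠ z 2 := fun z =>
      ⟨z.injective.ne (by decide), z.injective.ne (by decide), z.injective.ne (by decide)⟩
    obtain ⟨g, g0, g1, g2⟩ := CfsgLib.ClassicalLinear.exists_gl_map_triple (hne x).1 (hne x).2.1 (hne x).2.2
    obtain ⟨h, h0, h1, h2⟩ := CfsgLib.ClassicalLinear.exists_gl_map_triple (hne y).1 (hne y).2.1 (hne y).2.2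
    have hsl : ∀ k : GL (Fin 2) F, ∃ k' : Matrix.SpecialLinearGroup (Fin 2) F,
        ∀ p : Projectivization F (Fin 2 → F), k' • p = k • p := by
      intro k
      obtain ⟨u, hu⟩ := FiniteField.isSquare_of_char_two hc k.1.det
      have hd := ((Matrix.isUnit_iff_isUnit_det _).1 k.isUnit).ne_zero
      have hu0 : u ≠ 0 := fun e => hd (by rw [hu, e, mul_zero])
      have hdet : (u⁻¹ • k.1).det = 1 := by
        rw [Matrix.det_smul, Fintype.card_fin, hu]
        field_simp
      refine ⟨(⟨u⁻¹ • k.1, hdet⟩ : Matrix.SpecialLinearGroup (Fin 2) F), fun p => ?_⟩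
      induction p using Projectivization.ind with | _ v hv => ?_
      erw [Projectivization.smul_mk, Projectivization.mk_eq_mk_iff']
      refine ⟨u⁻¹, ?_⟩
      change u⁻¹ • k.1.mulVec v = (u⁻¹ • k.1).mulVec v
      rw [Matrix.smul_mulVec]
    obtain ⟨k, hk⟩ := hsl (h * g⁻¹)
    refine ⟨k, Function.Embedding.ext fun i => ?_⟩
    rw [Function.Embedding.smul_apply, hk, mul_smul]
    fin_cases i
    · exact (congrArg (h • ·) (inv_smul_eq_iff.2 g0.symm)).trans h0
    · exact (congrArg (h • ·) (inv_smul_eq_iff.2 g1.symm)).trans h1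
    · exact (congrArg (h • ·) (inv_smul_eq_iff.2 g2.symm)).trans h2

end Cfsg.Agent.S0267
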