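import Cfsg.Statements.S0268
import Cfsg.Agent.Lib.SL2.Basic

set_option autoImplicit false
open Cfsg

namespace Cfsg.Agent.S0268

/-- For q odd, -1 is the unique involution of SL_2(q). -/
theorem result {F : Type*} [Field F] [Fintype F] (hF : Odd (Fintype.card F)) (g : Matrix.SpecialLinearGroup (Fin 2) F) (h1 : g ≠ 1) (h2 : g * g = 1) : (g : Matrix (Fin 2) (Fin 2) F) = -1 := by
  have h2' : (2 : F) ≠ 0 := by
    refine Ring.two_ne_zero (R := F) fun hc => ?_
    have he := FiniteField.even_card_iff_char_two.1 hc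
    rw [Nat.odd_iff] at hF
    omega
  have h := CfsgLib.SL2.eq_neg_one_of_sq_eq_one h2' (g := g) (by rw [pow_two]; exact h2) h1
  rw [h, Matrix.SpecialLinearGroup.coe_neg, Matrix.SpecialLinearGroup.coe_one]

end Cfsg.Agent.S0268
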