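import Cfsg.Statements.S0269
import Cfsg.Agent.Lib.ClassicalLinear.SympPerfect
import Cfsg.Agent.Lib.ClassicalLinear.Generation

set_option autoImplicit false
open Cfsg

namespace Cfsg.Agent.S0269

/-- Sp_{2m}(q) is perfect except for Sp_2(2), Sp_2(3) and Sp_4(2): stated as m at least 3, or m = 2 and q at least 3, or q at least 4. -/
theorem result {F : Type*} [Field F] [Fintype F] (m : ℕ) (h : 3 ≤ m ∨ (m = 2 ∧ 3 ≤ Fintype.card F) ∨ 4 ≤ Fintype.card F) : commutator (Matrix.symplecticGroup (Fin m) F) = ⊤ := by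
  refine CfsgLib.ClassicalLinear.commutator_sp_eq_top ?_
  have h4 : 4 ≤ Fintype.card F → ∃ a : F, a ≠ 0 ∧ a ^ 2 ≠ 1 := fun hq =>
    CfsgLib.ClassicalLinear.exists_sq_ne_one_of_four_le_card
      (by rwa [Nat.card_eq_fintype_card])
  rcases h with h | ⟨hm, hq⟩ | hq
  · exact Or.inl h
  · by_cases hc : ringChar F = 2
    · have he := FiniteField.even_card_iff_char_two.1 hc
      exact Or.inr (Or.inr (h4 (by omega)))
    · exact Or.inr (Or.inl ⟨hm.ge, Ring.two_ne_zero hc⟩)
  · exact Or.inr (Or.inr (h4 hq))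

end Cfsg.Agent.S0269
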