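import Cfsg.Statements.S0284
import Cfsg.Agent.Lib.ClassicalForms.Unitary.Card

set_option autoImplicit false
open Cfsg

namespace Cfsg.Agent.S0284

/-- The standard Hermitian form on F^n, |F| = q^2, has exactly q^(n-1) (q^n - (-1)^n) vectors of norm 1. -/
theorem result {F : Type*} [Field F] [Fintype F] {q : ℕ} (hF : Fintype.card F = q ^ 2) (n : ℕ) : Nat.card {v : Fin n → F // Cfsg.hermForm n F q v v = 1} = (if Even n then q ^ (n - 1) * (q ^ n - 1) else q ^ (n - 1) * (q ^ n + 1)) := by
  have hF' : Nat.card F = q ^ 2 := by rw [Nat.card_eq_fintype_card, hF]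
  have hq := CfsgLib.ClassicalForms.two_le_q hF'
  have h1 : 1 ≤ q ^ n := Nat.one_le_pow _ _ (by omega)
  have key := CfsgLib.ClassicalForms.card_herm_one hF' n
  rcases n with _ | m
  · have : Nat.card {v : Fin 0 → F // Cfsg.hermForm 0 F q v v = 1} = 0 := by
      rw [Nat.card_eq_zero]
      exact Or.inl ⟨fun v => by simpa [Cfsg.hermForm] using v.2⟩
    simp [this]
  apply Nat.eq_of_mul_eq_mul_left (show 0 < q by omega)
  zify
  rw [key]
  rcases Nat.even_or_odd (m + 1) with he | ho
  · rw [if_pos he, he.neg_one_pow, Nat.add_sub_cancel]; push_cast [h1]; ring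
  · rw [if_neg (Nat.not_even_iff_odd.2 ho), ho.neg_one_pow, Nat.add_sub_cancel]; push_cast; ring

end Cfsg.Agent.S0284
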