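import Cfsg.Statements.S0285
import Cfsg.Agent.Lib.ClassicalForms.Unitary.Card

set_option autoImplicit false
open Cfsg

namespace Cfsg.Agent.S0285

/-- The standard Hermitian form on F^n, |F| = q^2, has exactly (q^n - (-1)^n)(q^(n-1) + (-1)^n) non-zero isotropic vectors; counting the zero vector too: -/
theorem result {F : Type*} [Field F] [Fintype F] {q : ℕ} (hF : Fintype.card F = q ^ 2) (n : ℕ) : Nat.card {v : Fin n → F // Cfsg.hermForm n F q v v = 0} = (if Even n then (q ^ n - 1) * (q ^ (n - 1) + 1) else (q ^ n + 1) * (q ^ (n - 1) - 1)) + 1 := by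
  have hF' : Nat.card F = q ^ 2 := by rw [Nat.card_eq_fintype_card, hF]
  have hq := CfsgLib.ClassicalForms.two_le_q hF'
  have key := CfsgLib.ClassicalForms.card_herm_zero hF' n
  rcases n with _ | m
  · have : Nat.card {v : Fin 0 → F // Cfsg.hermForm 0 F q v v = 0} = 1 := by
      rw [Nat.card_eq_one_iff_unique]
      exact ⟨inferInstance, ⟨⟨0, by simp [Cfsg.hermForm]⟩⟩⟩
    simp [this]
  have h1 : 1 ≤ q ^ (m + 1) := Nat.one_le_pow _ _ (by omega)
  have h2 : 1 ≤ q ^ m := Nat.one_le_pow _ _ (by omega)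
  apply Nat.eq_of_mul_eq_mul_left (show 0 < q by omega)
  zify
  rw [key]
  rcases Nat.even_or_odd (m + 1) with he | ho
  · rw [if_pos he, he.neg_one_pow, Nat.add_sub_cancel]; push_cast [h1]; ring
  · rw [if_neg (Nat.not_even_iff_odd.2 ho), ho.neg_one_pow, Nat.add_sub_cancel]; push_cast [h2]; ring

end Cfsg.Agent.S0285
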