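import Cfsg.Statements.S0286
import Cfsg.Agent.Lib.ClassicalForms.Ortho.Standard

set_option autoImplicit false
open Cfsg

namespace Cfsg.Agent.S0286

/-- |GO_{2m+1}(q)| = 2 q^(m^2) prod_{i=1}^{m} (q^(2i) - 1) for q odd. -/
theorem result {F : Type*} [Field F] [Fintype F] {q : ℕ} (hF : Fintype.card F = q) (hodd : Odd q) (m : ℕ) : Nat.card (Cfsg.isometryGroup F (Cfsg.quadFormOdd m F)) = 2 * q ^ (m ^ 2) * ∏ i ∈ Finset.range m, (q ^ (2 * (i + 1)) - 1) := by
  have hF' : Nat.card F = q := by rw [Nat.card_eq_fintype_card, hF]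
  have h2 : (2 : F) ≠ 0 := CfsgLib.ClassicalForms.two_ne_zero_of_odd (by rwa [hF'])
  have h := CfsgLib.ClassicalForms.card_orth_qOdd h2 m
  rw [← Nat.card_congr (CfsgLib.ClassicalForms.isoMat _ (CfsgLib.ClassicalForms.qOdd_apply (F := F) m)).toEquiv, hF'] at h
  have hq : 1 ≤ q := hF ▸ Fintype.card_pos
  zify
  rw [h]
  congr 1
  refine Finset.prod_congr rfl fun i _ => ?_
  push_cast [Nat.one_le_pow _ _ hq]
  ring

end Cfsg.Agent.S0286
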