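import Cfsg.Statements.S0290
import Cfsg.Agent.Lib.ClassicalForms.Ortho.Standard

set_option autoImplicit false
open Cfsg

namespace Cfsg.Agent.S0290

/-- The minus-type quadratic form on F^(2m), m at least 1, has q^(2m-1) + q^(m-1) - q^m zeros (that is, (q^m + 1)(q^(m-1) - 1) non-zero isotropic vectors). -/
theorem result {F : Type*} [Field F] [Fintype F] {q : ℕ} (hF : Fintype.card F = q) (m : ℕ) (hm : 1 ≤ m) (a b : F) (hab : ∀ z₁ z₂ : F, z₁ ^ 2 + a * z₁ * z₂ + b * z₂ ^ 2 = 0 → z₁ = 0 ∧ z₂ = 0) : Nat.card {v : (Fin (m - 1) ⊕ Fin (m - 1)) ⊕ Fin 2 → F // Cfsg.quadFormMinus (m - 1) F a b v = 0} = q ^ (2 * m - 1) + q ^ (m - 1) - q ^ m := by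
  have hF' : Nat.card F = q := by rw [Nat.card_eq_fintype_card, hF]
  obtain ⟨k, rfl⟩ : ∃ k, m = k + 1 := ⟨m - 1, by omega⟩
  simp only [Nat.add_sub_cancel] at *
  rw [show 2 * (k + 1) - 1 = 2 * k + 1 by omega]
  have h := CfsgLib.ClassicalForms.card_zeros_qMinus hab k
  simp only [CfsgLib.ClassicalForms.qMinus_apply, hF'] at h
  have hq : 1 ≤ q := hF ▸ Fintype.card_pos
  have hle : q ^ (k + 1) ≤ q ^ (2 * k + 1) + q ^ k :=
    (Nat.pow_le_pow_right hq (by omega)).trans (Nat.le_add_right _ _)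
  zify [hle]
  have hq0 : (q : ℤ) ≠ 0 := by exact_mod_cast (show q ≠ 0 by omega)
  apply mul_right_cancel₀ hq0
  exact h.trans (by ring)

end Cfsg.Agent.S0290
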