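import Cfsg.Statements.S0294
import Cfsg.Agent.Lib.ClassicalForms.Ortho.POmegaCard

set_option autoImplicit false
open Cfsg

namespace Cfsg.Agent.S0294

/-- gcd(4, q^m + 1) |PΩ^-_{2m}(q)| = q^(m(m-1)) (q^m + 1) prod_{i=1}^{m-1} (q^(2i) - 1), m at least 4 (type ²D_m). -/
theorem result {F : Type*} [Field F] [Fintype F] {q : ℕ} (hF : Fintype.card F = q) (m : ℕ) (hm : 4 ≤ m) (a b : F) (hab : ∀ z₁ z₂ : F, z₁ ^ 2 + a * z₁ * z₂ + b * z₂ ^ 2 = 0 → z₁ = 0 ∧ z₂ = 0) : Nat.gcd 4 (q ^ m + 1) * Nat.card (Cfsg.POmega F (Cfsg.quadFormMinus (m - 1) F a b)) = q ^ (m * (m - 1)) * (q ^ m + 1) * ∏ i ∈ Finset.range (m - 1), (q ^ (2 * (i + 1)) - 1) := by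
  obtain ⟨k, rfl⟩ : ∃ k, m = k + 1 := ⟨m - 1, by omega⟩
  show Nat.gcd 4 (q ^ (k + 1) + 1) * Nat.card (Cfsg.POmega F (Cfsg.quadFormMinus k F a b))
    = q ^ ((k + 1) * k) * (q ^ (k + 1) + 1) * ∏ i ∈ Finset.range k, (q ^ (2 * (i + 1)) - 1)
  have hF' : Nat.card F = q := by rw [Nat.card_eq_fintype_card, hF]
  have h := CfsgLib.ClassicalForms.card_orth_qMinus hab k
  have h' := CfsgLib.ClassicalForms.card_pOmega_minus hab (show 2 ≤ k by omega)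
  rw [hF'] at h h'
  rw [← h'] at h
  push_cast at h
  have hq : 1 ≤ q := hF ▸ Fintype.card_pos
  zify [Nat.one_le_pow _ _ hq]
  linarith

end Cfsg.Agent.S0294
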