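import Cfsg.Statements.S0306
import Cfsg.Agent.Lib.ClassicalForms.Ortho.Dihedral

set_option autoImplicit false
open Cfsg

namespace Cfsg.Agent.S0306

/-- GO^-_2(q) is dihedral of order 2(q+1). -/
theorem result {F : Type*} [Field F] [Fintype F] {q : ℕ} (hF : Fintype.card F = q) (a b : F) (hab : ∀ z₁ z₂ : F, z₁ ^ 2 + a * z₁ * z₂ + b * z₂ ^ 2 = 0 → z₁ = 0 ∧ z₂ = 0) : Nonempty (Cfsg.isometryGroup F (Cfsg.quadFormMinus 0 F a b) ≃* DihedralGroup (q + 1)) := by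
  obtain ⟨e⟩ := CfsgLib.ClassicalForms.dihedral_binForm (a := a) (b := b) hab
  rw [Nat.card_eq_fintype_card, hF] at e
  let L : ((Fin 0 ⊕ Fin 0) ⊕ Fin 2 → F) ≃ₗ[F] (Fin 2 → F) :=
    LinearEquiv.funCongrLeft F F (Equiv.emptySum (Fin 0 ⊕ Fin 0) (Fin 2)).symm
  refine ⟨(CfsgLib.ClassicalForms.isoMat _ (CfsgLib.ClassicalForms.qMinus_apply 0 a b)).trans
    ((CfsgLib.ClassicalForms.orthCongr L fun v => ?_).trans e)⟩
  rw [CfsgLib.ClassicalForms.qMinus_apply, CfsgLib.ClassicalForms.binForm_apply]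
  simp [Cfsg.quadFormMinus, L, LinearEquiv.funCongrLeft_apply, LinearMap.funLeft]

end Cfsg.Agent.S0306
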