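import Mathlib
import Cfsg.Prelude.Def_LieClassical

set_option autoImplicit false
open Cfsg

namespace Cfsg.Agent.S0307

/-- PSL_n(q) is normal in PGL_n(q) with cyclic quotient of order gcd(n, q-1): the image of the natural map PSL_n → PGL_n is the kernel of a surjective homomorphism onto the cyclic group of that order. -/
theorem result {F : Type*} [Field F] [Fintype F] {q : ℕ} (hF : Fintype.card F = q) (n : ℕ) (hn : 1 ≤ n) : ∃ g : Matrix.ProjGenLinGroup (Fin n) F →* Multiplicative (ZMod (Nat.gcd n (q - 1))), Function.Surjective g ∧ g.ker = (Matrix.ProjectiveSpecialLinearGroup.toPGL : Matrix.ProjectiveSpecialLinearGroup (Fin n) F →* Matrix.ProjGenLinGroup (Fin n) F).range := by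
  classical
  set P : Subgroup Fˣ := (powMonoidHom n : Fˣ →* Fˣ).range with hP
  have : IsCyclic (Fˣ ⧸ P) :=
    isCyclic_of_surjective (QuotientGroup.mk' P) (QuotientGroup.mk'_surjective P)
  have hcard : Nat.card (Fˣ ⧸ P) = Nat.card (Multiplicative (ZMod (Nat.gcd n (q - 1)))) := by
    have hmul : Nat.card (Fˣ ⧸ P) * Nat.card P = Nat.card Fˣ :=
      (Subgroup.card_eq_card_quotient_mul_card_subgroup P).symm
    have hu : Nat.card Fˣ = q - 1 := by
      rw [Nat.card_units, Nat.card_eq_fintype_card, hF]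
    rw [Nat.card_congr Multiplicative.toAdd, Nat.card_zmod, ← hu, Nat.gcd_comm]
    have h1 : Nat.card P = Nat.card Fˣ / (Nat.card Fˣ).gcd n := IsCyclic.card_powMonoidHom_range (G := Fˣ) n
    have hpos : 0 < Nat.card P := Nat.card_pos
    apply Nat.eq_of_mul_eq_mul_right hpos
    rw [hmul, h1, Nat.mul_div_cancel' (Nat.gcd_dvd_left _ _)]
  let e := mulEquivOfCyclicCardEq hcard
  let f : GL (Fin n) F →* Fˣ ⧸ P := (QuotientGroup.mk' P).comp Matrix.GeneralLinearGroup.det
  have hf : f.comp (Matrix.GeneralLinearGroup.scalar (Fin n)) = 1 := by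
    refine MonoidHom.ext fun u => ?_
    show (Matrix.GeneralLinearGroup.det (Matrix.GeneralLinearGroup.scalar (Fin n) u) : Fˣ ⧸ P) = 1
    rw [QuotientGroup.eq_one_iff, Matrix.GeneralLinearGroup.det_scalar, Fintype.card_fin]
    exact ⟨u, rfl⟩
  refine ⟨e.toMonoidHom.comp (Matrix.ProjGenLinGroup.lift f hf), ?_, ?_⟩
  · intro y
    obtain ⟨x, hx⟩ := QuotientGroup.mk'_surjective P (e.symm y)
    have : NeZero n := ⟨by omega⟩
    obtain ⟨g, rfl⟩ := Matrix.GeneralLinearGroup.det_surjective (n := Fin n) x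
    refine ⟨Matrix.ProjGenLinGroup.mk g, ?_⟩
    show e (f g) = y
    rw [show f g = e.symm y from hx, MulEquiv.apply_symm_apply]
  · ext x
    induction x using Matrix.ProjGenLinGroup.induction_on with | mk g => ?_
    rw [MonoidHom.mem_ker]
    show e (f g) = 1 ↔ _
    rw [MulEquiv.map_eq_one_iff]
    show (Matrix.GeneralLinearGroup.det g : Fˣ ⧸ P) = 1 ↔ _
    rw [QuotientGroup.eq_one_iff]
    constructor
    · rintro ⟨u, hu : u ^ n = _⟩
      have hdet : ((g * Matrix.GeneralLinearGroup.scalar (Fin n) u⁻¹ : GL (Fin n) F) :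
          Matrix (Fin n) (Fin n) F).det = 1 := by
        rw [← Matrix.GeneralLinearGroup.val_det_apply, map_mul,
          Matrix.GeneralLinearGroup.det_scalar, Fintype.card_fin, inv_pow, hu, mul_inv_cancel,
          Units.val_one]
      refine ⟨QuotientGroup.mk ⟨_, hdet⟩, ?_⟩
      show Matrix.ProjGenLinGroup.mk (Matrix.SpecialLinearGroup.toGL ⟨_, hdet⟩) = _
      rw [Matrix.ProjGenLinGroup.mk_eq_mk_iff]
      refine ⟨u, ?_⟩
      have h2 : Matrix.SpecialLinearGroup.toGL ⟨_, hdet⟩
          = g * Matrix.GeneralLinearGroup.scalar (Fin n) u⁻¹ := Units.ext rfl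
      rw [h2, mul_assoc, ← map_mul, inv_mul_cancel, map_one, mul_one]
    · rintro ⟨y, hy⟩
      induction y using QuotientGroup.induction_on with | H s => ?_
      rw [Matrix.ProjectiveSpecialLinearGroup.toPGL_mk, Matrix.ProjGenLinGroup.mk_eq_mk_iff] at hy
      obtain ⟨u, hu⟩ := hy
      refine ⟨u, ?_⟩
      have h3 : Matrix.GeneralLinearGroup.det (Matrix.SpecialLinearGroup.toGL s) = 1 :=
        Units.ext s.2
      rw [← hu, map_mul, h3, one_mul, Matrix.GeneralLinearGroup.det_scalar, Fintype.card_fin]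
      rfl

end Cfsg.Agent.S0307
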