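import Cfsg.Statements.S0321
import Cfsg.Agent.Lib.BNPair.Parabolic

set_option autoImplicit false
open Cfsg

namespace Cfsg.Agent.S0321

/-- For `n ∈ N` not in `B`, the union `B ∪ B n B` is (the underlying set of) a subgroup exactly when `n` agrees
modulo `B ⊓ N` with one of the distinguished representatives; thus the distinguished involutions are
determined by `B` and `N`. -/
theorem result {G : Type*} [Group G] (P : Cfsg.BNPair G) {n : G}
    (hn : n ∈ P.N) (hnB : n ∉ P.B) :
    (∃ H : Subgroup G, (H : Set G) = (P.B : Set G) ∪ DoubleCoset.doubleCoset n (P.B : Set G) P.B) ↔ ∃ s ∈ P.S, s⁻¹ * n ∈ P.B := by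
  constructor
  · rintro ⟨H, hH⟩
    have hBH : P.B ≤ H := fun x hx => by
      show x ∈ (H : Set G); rw [hH]; exact Or.inl hx
    have hnH : n ∈ H := by
      show n ∈ (H : Set G); rw [hH]; exact Or.inr (CfsgLib.BNPair.self_mem_cell n)
    obtain ⟨l, hl, hln⟩ := CfsgLib.BNPair.exists_isReduced hn
    cases l with
    | nil => exact absurd (by simpa [CfsgLib.BNPair.Agree] using hln) hnB
    | cons s l =>
      have hs := hl.1.head
      have hlH : (s :: l).prod ∈ H := by
        have := H.mul_mem hnH (H.inv_mem (hBH hln))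
        simpa [mul_assoc] using this
      have hsH : s ∈ (H : Set G) := CfsgLib.BNPair.letters_mem hBH hl hlH s (by simp)
      rw [hH] at hsH
      rcases hsH with h | h
      · exact absurd h (CfsgLib.BNPair.s_not_mem hs)
      · exact ⟨s, hs, CfsgLib.BNPair.agree_of_mem_cell (CfsgLib.BNPair.s_mem_N hs) hn
          (CfsgLib.BNPair.self_mem_cell s) h⟩
  · rintro ⟨s, hs, hsn⟩
    have hJ : ({s} : Set G) ⊆ P.S := by simpa using hs
    refine ⟨P.parabolic {s}, ?_⟩
    have hc : CfsgLib.BNPair.cell P s = CfsgLib.BNPair.cell P n :=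
      CfsgLib.BNPair.cell_eq_of_agree hsn
    change _ = _ ∪ CfsgLib.BNPair.cell P n
    rw [← hc]
    ext g
    constructor
    · intro hg
      obtain ⟨l, hl, hgl⟩ := (CfsgLib.BNPair.mem_parabolic_iff hJ).1 hg
      have hw := CfsgLib.BNPair.word_of_subset hJ hl
      obtain ⟨w, hsub, hwr, hwa⟩ := CfsgLib.BNPair.exists_reduced_sublist hw
      rw [← CfsgLib.BNPair.cell_eq_of_agree hwa] at hgl
      rcases w with _ | ⟨x, _ | ⟨y, w⟩⟩
      · left
        rw [List.prod_nil, CfsgLib.BNPair.mem_cell_of_mem_B P.B.one_mem] at hgl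
        exact hgl
      · right
        obtain rfl : x = s := by simpa using hl x (hsub.subset (by simp))
        simpa using hgl
      · exfalso
        obtain rfl : x = s := by simpa using hl x (hsub.subset (by simp))
        obtain rfl : y = x := by simpa using hl y (hsub.subset (by simp))
        have h1 := hwr.tail.tail.1
        have h2 := CfsgLib.BNPair.len_le (P := P) (n := (y :: y :: w).prod) h1
          (by simpa using (CfsgLib.BNPair.agree_s_s hs h1.prod_mem).symm)
        have h3 := hwr.2
        simp only [List.length_cons] at h3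
        omega
    · rintro (hg | hg)
      · exact CfsgLib.BNPair.B_le_parabolic _ hg
      · exact CfsgLib.BNPair.cell_subset (CfsgLib.BNPair.B_le_parabolic _)
          (CfsgLib.BNPair.subset_parabolic _ rfl) hg

end Cfsg.Agent.S0321
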