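import Cfsg.Statements.S0322
import Cfsg.Agent.Lib.BNPair.Parabolic

set_option autoImplicit false
open Cfsg

namespace Cfsg.Agent.S0322

/-- A group with a (B,N)-pair of rank one acts doubly transitively on the left cosets of `B`. -/
theorem result {G : Type*} [Group G] (P : Cfsg.BNPair G) (h : P.rank = 1) : MulAction.IsMultiplyPretransitive G (G ⧸ P.B) 2 := by
  obtain ⟨⟨s, hs⟩, huniq⟩ : ∃ s : P.S, ∀ x : P.S, x = s := by
    have h1 := h
    rw [Cfsg.BNPair.rank, Nat.card_eq_one_iff_unique] at h1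
    obtain ⟨hsub, ⟨s⟩⟩ := h1
    exact ⟨s, fun x => Subsingleton.elim x s⟩
  have hS : ∀ g : G, g ∈ P.B ∨ g ∈ CfsgLib.BNPair.cell P s := by
    intro g
    obtain ⟨n, hn, hgn⟩ := CfsgLib.BNPair.exists_mem_cell (P := P) g
    obtain ⟨l, hl, hln⟩ := CfsgLib.BNPair.exists_isReduced hn
    rw [← CfsgLib.BNPair.cell_eq_of_agree hln] at hgn
    have hls : ∀ x ∈ l, x = s := fun x hx => congrArg Subtype.val (huniq ⟨x, hl.1 x hx⟩)
    rcases l with _ | ⟨x, _ | ⟨y, w⟩⟩
    · left
      rw [List.prod_nil, CfsgLib.BNPair.mem_cell_of_mem_B P.B.one_mem] at hgn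
      exact hgn
    · obtain rfl := hls x (by simp)
      exact Or.inr (by simpa using hgn)
    · exfalso
      obtain rfl := hls x (by simp)
      obtain rfl := hls y (by simp)
      have h1 := hl.tail.tail.1
      have h2 := CfsgLib.BNPair.len_le (P := P) (n := (y :: y :: w).prod) h1
        (by simpa using (CfsgLib.BNPair.agree_s_s hs h1.prod_mem).symm)
      have h3 := hl.2
      simp only [List.length_cons] at h3
      omega
  rw [MulAction.is_two_pretransitive_iff]
  intro p q r w hpq hrw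
  have key : ∀ p q : G ⧸ P.B, p ≠ q →
      ∃ g : G, g • (QuotientGroup.mk 1 : G ⧸ P.B) = p ∧ g • (QuotientGroup.mk s : G ⧸ P.B) = q := by
    intro p q
    refine QuotientGroup.induction_on p fun x => QuotientGroup.induction_on q fun y => ?_
    intro hxy
    rcases hS (x⁻¹ * y) with hc | hc
    · exact absurd (QuotientGroup.eq.2 hc) hxy
    · obtain ⟨b, hb, b', hb', e⟩ := CfsgLib.BNPair.mem_cell.1 hc
      refine ⟨x * b, ?_, ?_⟩
      · rw [MulAction.Quotient.smul_mk, smul_eq_mul, mul_one]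
        exact QuotientGroup.eq.2 (by simpa [mul_assoc] using P.B.inv_mem hb)
      · rw [MulAction.Quotient.smul_mk, smul_eq_mul]
        refine QuotientGroup.eq.2 ?_
        have e2 : (x * b * s)⁻¹ * y = b' := by
          calc (x * b * s)⁻¹ * y = s⁻¹ * b⁻¹ * (x⁻¹ * y) := by group
            _ = b' := by rw [e]; group
        rw [e2]; exact hb'
  obtain ⟨g, hg1, hg2⟩ := key p q hpq
  obtain ⟨k, hk1, hk2⟩ := key r w hrw
  exact ⟨k * g⁻¹, by rw [← hg1, mul_smul, inv_smul_smul, hk1],
    by rw [← hg2, mul_smul, inv_smul_smul, hk2]⟩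

end Cfsg.Agent.S0322
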