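import Cfsg.Statements.S0327
import Cfsg.Agent.Lib.Suzuki.Simple

set_option autoImplicit false
open Cfsg

namespace Cfsg.Agent.S0327

/-- The Suzuki group (`m ≥ 1`) is a Zassenhaus group on the `q² + 1` points of the Suzuki–Tits ovoid. -/
theorem result {F : Type*} [Field F] [Fintype F] {m : ℕ} (hm : 1 ≤ m)
    (hF : Fintype.card F = 2 ^ (2 * m + 1)) :
    Cfsg.IsZassenhausGroup (Cfsg.Sz F m) (Cfsg.suzukiOvoid F m) := by
  have h := CfsgLib.Suzuki.Hyp.of_fintype hm hF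
  refine ⟨h.faithfulSMul, h.isMultiplyPretransitive,
    fun g a b c hab hbc hac ha hb hc => h.eq_one_of_fix_three hab hbc hac ha hb hc, ?_, ?_⟩
  · obtain ⟨κ, hκ0, hκ1⟩ := h.exists_ne_zero_one
    obtain ⟨t, ht⟩ := h.exists_kap hκ0
    refine ⟨h.d t, fun he => hκ1 ?_, CfsgLib.Suzuki.oInf F m, CfsgLib.Suzuki.oPt m 0 0,
      (CfsgLib.Suzuki.oPt_ne_oInf 0 0).symm, h.d_smul_inf t, h.d_smul_zero t⟩
    have := h.d_injective (he.trans h.d_one.symm)
    rw [← ht, this, CfsgLib.Suzuki.kap, Units.val_one, CfsgLib.Suzuki.th_one]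
  · intro N hN hNt
    exact h.exists_stabilizer_ne_bot N hN hNt

end Cfsg.Agent.S0327
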