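import Cfsg.Statements.S0330
import Cfsg.Agent.Lib.Suzuki.SylowTwo

set_option autoImplicit false
open Cfsg

namespace Cfsg.Agent.S0330

/-- A Sylow 2-subgroup `P` of the Suzuki group (field with `q = 2^(2m+1)` elements, `m ≥ 1`) has order `q²` and
exponent `4`; its centre coincides with its commutator subgroup and has order `q`. -/
theorem result {F : Type*} [Field F] [Fintype F] {m : ℕ} (hm : 1 ≤ m)
    (hF : Fintype.card F = 2 ^ (2 * m + 1)) (P : Sylow 2 (Cfsg.Sz F m)) :
    Nat.card P = (2 ^ (2 * m + 1)) ^ 2 ∧ Monoid.exponent P = 4 ∧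
      Subgroup.center P = commutator P ∧ Nat.card (Subgroup.center P) = 2 ^ (2 * m + 1) := by
  have h := CfsgLib.Suzuki.Hyp.of_fintype hm hF
  obtain ⟨g, hg⟩ := h.exists_sylow_eq P
  have e : h.U ≃* (P : Subgroup (Cfsg.Sz F m)) :=
    (Subgroup.equivSMul (MulAut.conj g) h.U).trans (MulEquiv.subgroupCongr hg.symm)
  have hc : Subgroup.center (P : Subgroup (Cfsg.Sz F m)) = (Subgroup.center h.U).map e.toMonoidHom := by
    ext x
    rw [Subgroup.mem_map]
    constructor
    · intro hx
      exact ⟨e.symm x, Subgroup.mem_center_iff.2 fun y => e.injective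
        (by rw [map_mul, map_mul, e.apply_symm_apply]; exact Subgroup.mem_center_iff.1 hx (e y)), e.apply_symm_apply x⟩
    · rintro ⟨y, hy, rfl⟩
      refine Subgroup.mem_center_iff.2 fun z => e.symm.injective ?_
      rw [map_mul, map_mul, MulEquiv.coe_toMonoidHom, e.symm_apply_apply]
      exact Subgroup.mem_center_iff.1 hy (e.symm z)
  have hd : commutator (P : Subgroup (Cfsg.Sz F m)) = (commutator h.U).map e.toMonoidHom := by
    rw [commutator_def, commutator_def, Subgroup.map_commutator, Subgroup.map_top_of_surjective _ e.surjective]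
  refine ⟨?_, ?_, ?_, ?_⟩
  · exact (Nat.card_congr e.toEquiv).symm.trans h.card_U
  · exact (Monoid.exponent_eq_of_mulEquiv e).symm.trans h.exponent_U
  · exact (hc.trans (by rw [h.center_U, ← h.commutator_U])).trans hd.symm
  · refine (congrArg (fun S : Subgroup (P : Subgroup (Cfsg.Sz F m)) => Nat.card S) hc).trans ?_
    rw [← Nat.card_congr ((Subgroup.center h.U).equivMapOfInjective e.toMonoidHom e.injective).toEquiv, h.center_U,
      Nat.card_congr (Subgroup.subgroupOfEquivOfLe h.Z_le_U).toEquiv, h.card_Z]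

end Cfsg.Agent.S0330
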