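import Cfsg.Statements.S0337
import Cfsg.Agent.S0348
import Cfsg.Agent.S0346
import Cfsg.Agent.S1477
import Cfsg.Agent.Lib.BGTypes.CNMaximal
import Cfsg.Agent.Lib.MetacyclicP.CTI.Zassenhaus

set_option autoImplicit false
open Cfsg

namespace Cfsg.Agent.S0337

/-- Classification of simple CN-groups, order-level form: a finite non-abelian simple group in which every
non-identity element has nilpotent centraliser is isomorphic to `PSL₂(F)` with `|F| = 9`, `|F|` a power of `2`, or
`|F|` a prime of the form `2^k ± 1`; or to `PSL₃` over the field with `4` elements; or is simple of Suzuki order. -/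
theorem result {G : Type*} [Group G] [Finite G] [IsSimpleGroup G]
    (hG : ∃ a b : G, a * b ≠ b * a) (hCN : Cfsg.IsCNGroup G) :
    (∃ (F : Type) (_ : Field F) (_ : Fintype F),
        (Fintype.card F = 9 ∨ (∃ n : ℕ, Fintype.card F = 2 ^ n) ∨
          ((Fintype.card F).Prime ∧ ∃ k : ℕ, Fintype.card F = 2 ^ k + 1 ∨ Fintype.card F + 1 = 2 ^ k)) ∧
        Nonempty (G ≃* Matrix.ProjectiveSpecialLinearGroup (Fin 2) F)) ∨
    (∃ (F : Type) (_ : Field F) (_ : Fintype F), Fintype.card F = 4 ∧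
        Nonempty (G ≃* Matrix.ProjectiveSpecialLinearGroup (Fin 3) F)) ∨
    Cfsg.IsSuzuki G := by
  refine Cfsg.Agent.S0348.result hG fun t ht => ?_
  classical
  have : Fact (Nat.Prime 2) := ⟨Nat.prime_two⟩
  have hns : ¬ Group.IsSolvable G := fun h => by
    obtain ⟨a, b, hab⟩ := hG
    exact hab (IsSimpleGroup.comm_iff_isSolvable.2 h a b)
  have ht1 : t ≠ 1 := fun e => by rw [e, orderOf_one] at ht; omega
  set C := Subgroup.centralizer ({t} : Set G)
  obtain ⟨H, hCH, ⟨⟨hH, -⟩, hmax'⟩⟩ := Finite.exists_le_maximal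
    (p := fun L : Subgroup G => Group.IsNilpotent L ∧ C ≤ L) (a := C) ⟨hCN t ht1, le_rfl⟩
  have hmax : ∀ L : Subgroup G, Group.IsNilpotent L → H ≤ L → L = H := fun L hL hle =>
    le_antisymm (hmax' ⟨hL, hCH.trans hle⟩ hle) hle
  have htH : t ∈ H := hCH (Subgroup.mem_centralizer_singleton_iff.2 rfl)
  have h2 : 2 ∣ Nat.card H := ht ▸ Subgroup.orderOf_dvd_natCard H htH
  by_cases hpp : IsPrimePow (Nat.card H)
  · obtain ⟨p, k, hp, hk, hpk⟩ := hpp
    have hp' := hp.nat_prime
    have hp2 : p = 2 := ((Nat.prime_dvd_prime_iff_eq Nat.prime_two hp').1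
      (Nat.prime_two.dvd_of_dvd_pow (hpk ▸ h2))).symm
    exact (IsPGroup.of_card (n := k) (by rw [← hpk, hp2])).to_le hCH
  exfalso
  obtain ⟨hcop, hTI, hcl⟩ := Cfsg.Agent.S1477.result hCN H hH hmax
  have hcl' := hcl (hTI hpp (fun e => by omega))
  obtain ⟨z, hzH, hz, hzc⟩ := CfsgLib.BGTypes.exists_central_orderOf hH Nat.prime_two h2
  have hz1 : z ≠ 1 := fun e => by rw [e, orderOf_one] at hz; omega
  have hodd : Odd H.index := by
    refine Nat.not_even_iff_odd.1 fun he => ?_
    have := Nat.eq_one_of_dvd_coprimes hcop h2 he.two_dvd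
    omega
  have S : CfsgLib.MetacyclicP.CTI.Setting H z :=
    ⟨hH, hcl', hz, CfsgLib.BGTypes.centralizer_central_eq hCN hmax hz1 hzc, hodd, hns,
      fun K hK => Cfsg.Agent.S0205.result hK⟩
  letI : Fintype (G ⧸ Subgroup.normalizer (H : Set G)) := Fintype.ofFinite _
  have hp := Cfsg.Agent.S0346.result S.isZassenhaus
  refine hpp ?_
  obtain ⟨b, hb⟩ := S.exists_ne_base
  let f : H → {c : G ⧸ Subgroup.normalizer (H : Set G) // c ≠ ((1 : G) : G ⧸ Subgroup.normalizer (H : Set G))} :=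
    fun τ => ⟨(τ : G) • b, fun e => hb (MulAction.injective (τ : G) (e.trans
      (CfsgLib.MetacyclicP.CTI.smul_o_eq.2 (Subgroup.le_normalizer τ.2)).symm))⟩
  have hf : Function.Bijective f := by
    refine ⟨fun a c e => ?_, fun c => ?_⟩
    · exact (S.regular hb (f a).2).unique (y₁ := a) rfl (congrArg Subtype.val e).symm
    · obtain ⟨τ, hτ, -⟩ := S.regular hb c.2
      exact ⟨τ, Subtype.ext hτ⟩
  rw [Nat.card_eq_of_bijective f hf, Nat.card_eq_fintype_card, Fintype.card_subtype_compl,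
    Fintype.card_subtype_eq]
  exact hp

end Cfsg.Agent.S0337
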