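import Cfsg.Statements.S0344
import Cfsg.Agent.Lib.SharplyEven.Main
import Cfsg.Agent.Lib.AltGroups.ZassenhausEven

set_option autoImplicit false
open Cfsg

namespace Cfsg.Agent.S0344

/-- A finite simple Zassenhaus group with a two-point stabiliser of even order is isomorphic to `PSL₂(F)` for a finite
field `F` with more than three elements. -/
theorem result {G Ω : Type*} [Group G] [Finite G] [MulAction G Ω] [Finite Ω]
    (hZ : Cfsg.IsZassenhausGroup G Ω) [IsSimpleGroup G]
    {a b : Ω} (hab : a ≠ b) (heven : Even (Nat.card ↥(MulAction.stabilizer G a ⊓ MulAction.stabilizer G b))) :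
    ∃ (F : Type) (_ : Field F) (_ : Fintype F), 3 < Fintype.card F ∧ Nonempty (G ≃* Matrix.ProjectiveSpecialLinearGroup (Fin 2) F) := by
  classical
  haveI := Fintype.ofFinite Ω
  have hc := CfsgLib.AltGroups.IsZassenhaus.three_le_card hZ
  obtain ⟨N, hNle, hNn, hNab, hreg⟩ := CfsgLib.AltGroups.exists_kernel_of_even hZ (x := a) (o := b) (Ne.symm hab) heven
  rcases CfsgLib.AltGroups.zassenhaus_abelian_kernel_even hZ (Ne.symm hab) N hNle hNn hNab hreg heven with hd | ⟨hΩ, K, iK, iKf, -, hKc, hiso⟩
  · exfalso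
    refine (CfsgLib.SharplyEven.Sharp.of_card hab hZ hd ?_).not_simple hZ inferInstance
    rw [← hd]
    exact heven.add even_two
  · refine ⟨K, iK, iKf, ?_, hiso⟩
    obtain ⟨r, hr⟩ := heven
    have : 0 < Nat.card ↥(MulAction.stabilizer G a ⊓ MulAction.stabilizer G b) := Nat.card_pos
    omega

end Cfsg.Agent.S0344
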