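import Cfsg.Statements.S0345
import Cfsg.Agent.Lib.SharplyEven.Main
import Cfsg.Agent.Lib.AltGroups.ZassenhausEven
import Cfsg.Agent.Lib.RealChar.ZassenhausOdd

set_option autoImplicit false
open Cfsg

namespace Cfsg.Agent.S0345

/-- In a finite simple Zassenhaus group the stabiliser `H` of two points `a ≠ b` is cyclic, and some involution
interchanging `a` and `b` inverts every element of `H`. -/
theorem result {G Ω : Type*} [Group G] [Finite G] [MulAction G Ω] [Finite Ω]
    (hZ : Cfsg.IsZassenhausGroup G Ω) [IsSimpleGroup G]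
    {a b : Ω} (hab : a ≠ b) :
    IsCyclic ↥(MulAction.stabilizer G a ⊓ MulAction.stabilizer G b) ∧
      ∃ v : G, orderOf v = 2 ∧ v • a = b ∧ v • b = a ∧ ∀ h ∈ MulAction.stabilizer G a ⊓ MulAction.stabilizer G b, v * h * v⁻¹ = h⁻¹ := by
  classical
  haveI := Fintype.ofFinite Ω
  set H := MulAction.stabilizer G a ⊓ MulAction.stabilizer G b with hH
  obtain ⟨v, hv2, hva, hvb⟩ := CfsgLib.AltGroups.IsZassenhaus.exists_involution_swap hZ hab
  have hvi : v⁻¹ = v := inv_eq_of_mul_eq_one_right (by rw [← pow_two, ← hv2, pow_orderOf_eq_one])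
  suffices hinv : (∀ h ∈ H, v * h * v⁻¹ = h⁻¹) ∧ ((∀ x y : H, x * y = y * x) → IsCyclic H) by
    refine ⟨hinv.2 fun x y => Subtype.ext ?_, v, hv2, hva, hvb, hinv.1⟩
    have h1 := hinv.1 (x * y) (mul_mem x.2 y.2)
    rw [mul_inv_rev, ← hinv.1 x x.2, ← hinv.1 y y.2] at h1
    have h2 : v * ((x : G) * y) * v⁻¹ = v * ((y : G) * x) * v⁻¹ := by
      rw [h1]; group
    exact mul_left_cancel (mul_right_cancel h2)
  rcases Nat.even_or_odd (Nat.card H) with heven | hodd
  · obtain ⟨N, hNle, hNn, hNab, hreg⟩ := CfsgLib.AltGroups.exists_kernel_of_even hZ (x := a) (o := b) (Ne.symm hab) heven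
    rcases CfsgLib.AltGroups.zassenhaus_abelian_kernel_even hZ (Ne.symm hab) N hNle hNn hNab hreg heven with hd | ⟨hΩ, -⟩
    · exfalso
      refine (CfsgLib.SharplyEven.Sharp.of_card hab hZ hd ?_).not_simple hZ inferInstance
      rw [← hd]
      exact heven.add even_two
    refine ⟨fun h hh => ?_, fun hcomm => ?_⟩
    · obtain ⟨ho, -⟩ := CfsgLib.AltGroups.IsZassenhaus.swapper_of_even hZ hab heven hΩ (w := v * h)
        (by rw [mul_smul, show h • a = a from hh.1, hva]) (by rw [mul_smul, show h • b = b from hh.2, hvb])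
      have h1 : v * h * (v * h) = 1 := by rw [← pow_two, ← ho, pow_orderOf_eq_one]
      rw [hvi]
      exact eq_inv_of_mul_eq_one_left (by rw [mul_assoc]; exact h1)
    · haveI : IsMulCommutative H := ⟨⟨hcomm⟩⟩
      have hn1 : N ≠ ⊥ := by
        intro e
        obtain ⟨c, hca, hcb⟩ := CfsgLib.AltGroups.IsZassenhaus.exists_third hZ (a := a) (b := b)
        obtain ⟨u, hu, -⟩ := hreg b c (Ne.symm hab) hca
        have hu1 : (u : G) = 1 := (Subgroup.eq_bot_iff_forall N).1 e u u.2
        change (u : G) • b = c at hu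
        rw [hu1, one_smul] at hu
        exact hcb hu.symm
      refine CfsgLib.Cores.isCyclic_of_fpf hn1 (CfsgLib.SharplyEven.Sharp.kernel_normalized N hNle hNn) ?_
      intro h hh h1
      refine (Subgroup.eq_bot_iff_forall _).2 fun u hu => ?_
      obtain ⟨hu1, hu2⟩ := Subgroup.mem_inf.1 hu
      by_contra hu0
      have hux : u • b ≠ a := fun e => hab (MulAction.injective u (e.trans (hNle hu1).symm)).symm
      have huo : u • b ≠ b := fun e => by
        have := (hreg b b (Ne.symm hab) (Ne.symm hab)).unique (y₁ := ⟨u, hu1⟩) (y₂ := 1) e (one_smul G b)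
        exact hu0 (congrArg Subtype.val this)
      refine h1 (hZ.2.2.1 h a b (u • b) hab (Ne.symm huo) (Ne.symm hux) hh.1 hh.2 ?_)
      rw [← mul_smul, ← Subgroup.mem_centralizer_singleton_iff.1 hu2, mul_smul, show h • b = b from hh.2]
  · refine ⟨fun h hh => CfsgLib.RealChar.Zassenhaus.swap_inverts hZ hab hodd hva hvb hh.1 hh.2, fun hcomm => ?_⟩
    haveI := CfsgLib.RealChar.Zassenhaus.isZGroup_E hZ hab hodd
    haveI : IsMulCommutative H := ⟨⟨hcomm⟩⟩
    letI : CommGroup H := { (inferInstance : Group H) with mul_comm := hcomm }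
    haveI : Group.IsNilpotent H := inferInstance
    infer_instance

end Cfsg.Agent.S0345
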