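import Cfsg.Statements.S0375
import Cfsg.Agent.Lib.Leech.CodeUniqueness

set_option autoImplicit false
open Cfsg

namespace Cfsg.Agent.S0375

/-- A doubly even self-dual binary code of length 24 with no words of weight 4 is equivalent to the length-24 code built from the squares modulo 23. -/
theorem result (C : Submodule (ZMod 2) (Fin 24 → ZMod 2)) (hdim : Module.finrank (ZMod 2) C = 12) (horth : ∀ v ∈ C, ∀ w ∈ C, ∑ i, v i * w i = 0) (h4 : ∀ w ∈ C, 4 ∣ hammingNorm w) (hno4 : ∀ w ∈ C, hammingNorm w ≠ 4) : ∃ e : Fin 24 ≃ Cfsg.GolayPt, ∀ w : Cfsg.GolayPt → ZMod 2, w ∈ Cfsg.golayCode ↔ (fun i => w (e i)) ∈ C := by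
  let e0 : Fin 24 ≃ Cfsg.GolayPt := Fintype.equivOfCardEq (by simp [Cfsg.GolayPt])
  let C' := C.comap (LinearMap.funLeft (ZMod 2) (ZMod 2) e0)
  have hmem : ∀ w : Cfsg.GolayPt → ZMod 2, w ∈ C' ↔ (fun i => w (e0 i)) ∈ C := fun w => Iff.rfl
  have hn : ∀ w : Cfsg.GolayPt → ZMod 2,
      hammingNorm (fun i => w (e0 i)) = (Cfsg.support₂ w).card := by
    intro w
    rw [hammingNorm]
    exact Finset.card_equiv e0 (fun i => by simp [Cfsg.support₂])
  have h : CfsgLib.Leech.CodeUnique.IsCodeLike C' :=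
    { card_eq := by
        have e : C' ≃ C :=
          { toFun := fun w => ⟨fun i => w.1 (e0 i), w.2⟩
            invFun := fun c => ⟨fun i => c.1 (e0.symm i), by rw [hmem]; simp⟩
            left_inv := fun w => by ext i; simp
            right_inv := fun c => by ext i; simp }
        rw [Nat.card_congr e, Module.natCard_eq_pow_finrank (K := ZMod 2) (V := C), hdim, Nat.card_zmod]
        norm_num
      four_dvd := fun c hc => hn c ▸ h4 _ hc
      eight_le := fun c hc h0 => by
        have h1 := h4 _ ((hmem c).1 hc)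
        have h2 := hno4 _ ((hmem c).1 hc)
        rw [hn] at h1 h2
        have : (Cfsg.support₂ c).card ≠ 0 := fun e => h0 (CfsgLib.Leech.support₂_injective (by
          rw [Finset.card_eq_zero.1 e]; ext i; simp [Cfsg.support₂]))
        omega }
  obtain ⟨σ, hσ⟩ := h.exists_equiv
  exact ⟨e0.trans σ, fun w => (hσ w).trans (hmem _)⟩

end Cfsg.Agent.S0375
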