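import Cfsg.Statements.S0412
import Cfsg.Agent.Lib.Mathieu.Chain24
import Cfsg.Agent.Lib.Mathieu.AutTransport
import Cfsg.Agent.Lib.Golay.Stab
import Cfsg.Agent.Lib.Golay.Simple
import Cfsg.Agent.S0363
-- import your own Cfsg.Agent.* helpers here

set_option autoImplicit false
open Cfsg

namespace Cfsg.Agent.S0412

/-- Aut of an S(5, 8, 24) is simple of order 244823040 and 5-transitive on points. -/
theorem result {α : Type*} [Fintype α] [DecidableEq α] (hα : Fintype.card α = 24) {B : Set (Finset α)} (hB : Cfsg.IsSteinerSystem 5 8 B) : Cfsg.IsM24 (Cfsg.setSystemAut B) ∧ MulAction.IsMultiplyPretransitive (Cfsg.setSystemAut B) α 5 := by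
  obtain ⟨e, he⟩ := CfsgLib.Mathieu.Chain24.unique hα rfl hB Cfsg.Agent.S0363.result
  have hpre := CfsgLib.Golay.M24_five_transitive
  rw [CfsgLib.Golay.M24_eq_setSystemAut] at hpre
  have hk := CfsgLib.Mathieu.isMultiplyPretransitive_transport (B' := Cfsg.octads) ⟨e, he⟩ (k := 5)
  have hs := CfsgLib.Golay.isSimpleGroup_M24
  have hc := CfsgLib.Golay.natCard_M24
  rw [CfsgLib.Golay.M24_eq_setSystemAut] at hs hc
  refine ⟨⟨CfsgLib.Mathieu.isSimpleGroup_congr (CfsgLib.Mathieu.autCongr e he), ?_⟩, hk⟩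
  rw [Nat.card_congr (CfsgLib.Mathieu.autCongr e he).toEquiv, hc]

end Cfsg.Agent.S0412
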