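import Cfsg.Statements.S0413
import Cfsg.Agent.Lib.Mathieu.SteinerAut
-- import your own Cfsg.Agent.* helpers here

set_option autoImplicit false
open Cfsg

namespace Cfsg.Agent.S0413

/-- Aut of an S(4, 7, 23) is simple of order 10200960 and 4-transitive. -/
theorem result {α : Type*} [Fintype α] [DecidableEq α] (hα : Fintype.card α = 23) {B : Set (Finset α)} (hB : Cfsg.IsSteinerSystem 4 7 B) : Cfsg.IsM23 (Cfsg.setSystemAut B) ∧ MulAction.IsMultiplyPretransitive (Cfsg.setSystemAut B) α 4 := by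
  obtain ⟨h1, h2, h3⟩ := CfsgLib.Mathieu.steinerAut_twentyThree hα hB
  exact ⟨⟨h1, h2⟩, h3⟩

end Cfsg.Agent.S0413
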