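import Cfsg.Statements.S0439


set_option autoImplicit false
open Cfsg

namespace Cfsg.Agent.S0439


theorem swap_cases {α : Type*} [DecidableEq α] {σ τ : Equiv.Perm α} (hσ : σ.IsSwap) (hτ : τ.IsSwap) :
    (σ * τ) ^ 2 = 1 ∨ (σ * τ) ^ 3 = 1 := by
  obtain ⟨a, b, hab, rfl⟩ := hσ
  obtain ⟨c, d, hcd, rfl⟩ := hτ
  by_cases h : (a = c ∧ b = d) ∨ (a = d ∧ b = c)
  · left
    rcases h with ⟨rfl, rfl⟩ | ⟨rfl, rfl⟩
    · rw [Equiv.swap_mul_self, one_pow]
    · rw [Equiv.swap_comm b a, Equiv.swap_mul_self, one_pow]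
  have three : ∀ x y z : α, x ≠ y → x ≠ z → y ≠ z → (Equiv.swap x y * Equiv.swap x z) ^ 3 = 1 := by
    intro x y z h1 h2 h3
    apply Equiv.ext
    intro w
    have fix3 : ∀ w, w ≠ x → w ≠ y → w ≠ z → (Equiv.swap x y) (Equiv.swap x z w) = w := by
      intro w p q r
      rw [Equiv.swap_apply_of_ne_of_ne p r, Equiv.swap_apply_of_ne_of_ne p q]
    have ex : (Equiv.swap x y) (Equiv.swap x z x) = z := by
      rw [Equiv.swap_apply_left, Equiv.swap_apply_of_ne_of_ne h2.symm h3.symm]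
    have ey : (Equiv.swap x y) (Equiv.swap x z y) = x := by
      rw [Equiv.swap_apply_of_ne_of_ne h1.symm h3, Equiv.swap_apply_right]
    have ez : (Equiv.swap x y) (Equiv.swap x z z) = y := by
      rw [Equiv.swap_apply_right, Equiv.swap_apply_left]
    simp only [pow_succ, pow_zero, one_mul, Equiv.Perm.mul_apply, Equiv.Perm.one_apply]
    by_cases p : w = x
    · subst p; rw [ex, ez, ey]
    by_cases q : w = y
    · subst q; rw [ey, ex, ez]
    by_cases r : w = z
    · subst r; rw [ez, ey, ex]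
    rw [fix3 w p q r, fix3 w p q r, fix3 w p q r]
  by_cases hac : a = c
  · subst hac; exact Or.inr (three a b d hab hcd (fun e => h (Or.inl ⟨rfl, e⟩)))
  by_cases had : a = d
  · subst had; rw [Equiv.swap_comm c a]; exact Or.inr (three a b c hab hac (fun e => h (Or.inr ⟨rfl, e⟩)))
  by_cases hbc : b = c
  · subst hbc; rw [Equiv.swap_comm a b]; exact Or.inr (three b a d hab.symm hcd had)
  by_cases hbd : b = d
  · subst hbd; rw [Equiv.swap_comm a b, Equiv.swap_comm c b]; exact Or.inr (three b a c hab.symm hbc hac)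
  left
  rw [pow_two]
  have hc : Equiv.swap c d * Equiv.swap a b = Equiv.swap a b * Equiv.swap c d := by
    rw [Equiv.mul_swap_eq_swap_mul, Equiv.swap_apply_of_ne_of_ne hac had, Equiv.swap_apply_of_ne_of_ne hbc hbd]
  calc Equiv.swap a b * Equiv.swap c d * (Equiv.swap a b * Equiv.swap c d)
      = Equiv.swap a b * (Equiv.swap c d * Equiv.swap a b) * Equiv.swap c d := by simp only [mul_assoc]
    _ = (Equiv.swap a b * Equiv.swap a b) * (Equiv.swap c d * Equiv.swap c d) := by
        rw [hc]; simp only [mul_assoc]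
    _ = 1 := by rw [Equiv.swap_mul_self, Equiv.swap_mul_self, one_mul]

/-- In the symmetric group of degree n ≥ 2, the set of transpositions is a conjugacy class of 3-transpositions which generates the group. -/
theorem result (n : ℕ) (hn : 2 ≤ n) : Cfsg.IsThreeTranspositionClass {σ : Equiv.Perm (Fin n) | σ.IsSwap} := by
  refine ⟨⟨fun d hd => hd.orderOf, fun d hd e he => swap_cases hd he⟩, ?_, Equiv.Perm.closure_isSwap⟩
  have hne : (⟨0, by omega⟩ : Fin n) ≠ ⟨1, by omega⟩ := by simp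
  refine ⟨Equiv.swap ⟨0, by omega⟩ ⟨1, by omega⟩, ⟨_, _, hne, rfl⟩, ?_⟩
  ext σ
  constructor
  · rintro ⟨a, b, hab, rfl⟩
    exact (Equiv.Perm.isConj_swap hne hab)
  · intro h
    obtain ⟨g, rfl⟩ := isConj_iff.mp h
    refine ⟨g ⟨0, by omega⟩, g ⟨1, by omega⟩, fun e => hne (g.injective e), ?_⟩
    rw [mul_inv_eq_iff_eq_mul, Equiv.mul_swap_eq_swap_mul]

end Cfsg.Agent.S0439
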