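import Cfsg.Statements.S0440
import Cfsg.Agent.Lib.Forms.SympMatrix
import Cfsg.Agent.Lib.Forms.SympBridge

set_option autoImplicit false
open Cfsg

namespace Cfsg.Agent.S0440

open Matrix

variable {n : ℕ}

/-- The symplectic transvection attached to a vector, over the field with two elements. -/
def tr (v : Fin n ⊕ Fin n → ZMod 2) : Matrix.symplecticGroup (Fin n) (ZMod 2) :=
  ⟨Cfsg.sympTransvection n v 1, CfsgLib.Forms.sympTransvection_mem v 1⟩

theorem coe_tr (v : Fin n ⊕ Fin n → ZMod 2) :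
    ((tr v : Matrix.symplecticGroup (Fin n) (ZMod 2)) : Matrix (Fin n ⊕ Fin n) (Fin n ⊕ Fin n) (ZMod 2))
      = Cfsg.sympTransvection n v 1 := rfl

theorem eq_iff_mulVec {A B : Matrix.symplecticGroup (Fin n) (ZMod 2)} :
    A = B ↔ ∀ x, (A : Matrix (Fin n ⊕ Fin n) (Fin n ⊕ Fin n) (ZMod 2)) *ᵥ x
      = (B : Matrix (Fin n ⊕ Fin n) (Fin n ⊕ Fin n) (ZMod 2)) *ᵥ x :=
  ⟨fun h x => by rw [h], fun h => Subtype.ext (Matrix.ext_of_mulVec_single fun _ => h _)⟩

theorem tr_apply (v x : Fin n ⊕ Fin n → ZMod 2) :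
    (tr v : Matrix (Fin n ⊕ Fin n) (Fin n ⊕ Fin n) (ZMod 2)) *ᵥ x = x + Cfsg.sympForm n (ZMod 2) x v • v := by
  rw [coe_tr, CfsgLib.Forms.sympTransvection_mulVec, one_mul]

theorem form_self (v : Fin n ⊕ Fin n → ZMod 2) : Cfsg.sympForm n (ZMod 2) v v = 0 := by
  rw [← CfsgLib.Omega.sympBilin_apply]; exact CfsgLib.Omega.sympBilin_self v

theorem form_comm (u v : Fin n ⊕ Fin n → ZMod 2) :
    Cfsg.sympForm n (ZMod 2) u v = Cfsg.sympForm n (ZMod 2) v u := by
  rw [← CfsgLib.Omega.sympBilin_apply, ← CfsgLib.Omega.sympBilin_apply,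
    ← LinearMap.IsAlt.neg (CfsgLib.Forms.sympBilin_isAlt n (ZMod 2)) u v]
  exact (ZMod.neg_eq_self_mod_two _).symm

theorem exists_partner {v : Fin n ⊕ Fin n → ZMod 2} (hv : v ≠ 0) : ∃ y, Cfsg.sympForm n (ZMod 2) v y = 1 := by
  by_contra h
  apply hv
  apply CfsgLib.Omega.sympBilin_nondegenerate v
  intro w
  rw [CfsgLib.Omega.sympBilin_apply]
  have e : ∀ a : ZMod 2, a = 0 ∨ a = 1 := by decide
  exact (e _).resolve_right fun e' => h ⟨w, e'⟩

theorem tr_conj (A : Matrix.symplecticGroup (Fin n) (ZMod 2)) (v : Fin n ⊕ Fin n → ZMod 2) :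
    A * tr v * A⁻¹ = tr ((A : Matrix (Fin n ⊕ Fin n) (Fin n ⊕ Fin n) (ZMod 2)) *ᵥ v) := by
  rw [mul_inv_eq_iff_eq_mul, eq_iff_mulVec]
  intro x
  simp only [Submonoid.coe_mul, ← Matrix.mulVec_mulVec, tr_apply, Matrix.mulVec_add, Matrix.mulVec_smul,
    CfsgLib.Omega.sympForm_mulVec_of_mem A.2]

theorem tr_sq (v : Fin n ⊕ Fin n → ZMod 2) : tr v * tr v = 1 := by
  rw [eq_iff_mulVec]
  intro x
  simp only [Submonoid.coe_mul, ← Matrix.mulVec_mulVec, tr_apply, OneMemClass.coe_one, Matrix.one_mulVec]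
  rw [show Cfsg.sympForm n (ZMod 2) (x + Cfsg.sympForm n (ZMod 2) x v • v) v = Cfsg.sympForm n (ZMod 2) x v from ?_]
  · have e : ∀ a : ZMod 2, a + a = 0 := by decide
    rw [add_assoc, ← add_smul, e, zero_smul, add_zero]
  · simp only [← CfsgLib.Omega.sympBilin_apply, map_add, map_smul, LinearMap.add_apply, LinearMap.smul_apply,
      CfsgLib.Omega.sympBilin_self, smul_zero, add_zero]

theorem tr_ne_one {v : Fin n ⊕ Fin n → ZMod 2} (hv : v ≠ 0) : tr v ≠ 1 := by
  intro h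
  obtain ⟨y, hy⟩ := exists_partner hv
  have := (eq_iff_mulVec.mp h) y
  rw [tr_apply, OneMemClass.coe_one, Matrix.one_mulVec, form_comm, hy, one_smul, add_eq_left] at this
  exact hv this

theorem tr_inv (v : Fin n ⊕ Fin n → ZMod 2) : (tr v)⁻¹ = tr v := inv_eq_of_mul_eq_one_right (tr_sq v)

theorem three (v w : Fin n ⊕ Fin n → ZMod 2) : (tr v * tr w) ^ 2 = 1 ∨ (tr v * tr w) ^ 3 = 1 := by
  have e : ∀ a : ZMod 2, a = 0 ∨ a = 1 := by decide
  have h1 := tr_conj (tr v) w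
  have h2 := tr_conj (tr w) v
  rw [tr_inv, tr_apply] at h1
  rw [tr_inv, tr_apply] at h2
  rcases e (Cfsg.sympForm n (ZMod 2) w v) with h | h
  · left
    rw [h, zero_smul, add_zero] at h1
    rw [pow_two, ← mul_assoc, h1, tr_sq]
  · right
    rw [h, one_smul] at h1
    rw [form_comm, h, one_smul, add_comm] at h2
    calc (tr v * tr w) ^ 3 = (tr v * tr w * tr v) * (tr w * tr v * tr w) := by
          simp only [pow_succ, pow_zero, one_mul, mul_assoc]
      _ = 1 := by rw [h1, h2, tr_sq]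

theorem rank_tr {v : Fin n ⊕ Fin n → ZMod 2} (hv : v ≠ 0) :
    ((tr v : Matrix (Fin n ⊕ Fin n) (Fin n ⊕ Fin n) (ZMod 2)) - 1).rank = 1 := by
  rw [coe_tr, Cfsg.sympTransvection, one_smul, add_sub_cancel_left]
  refine le_antisymm (Matrix.rank_vecMulVec_le _ _) ?_
  rw [Nat.one_le_iff_ne_zero, Ne, Matrix.rank, Submodule.finrank_eq_zero, LinearMap.range_eq_bot]
  intro h
  apply tr_ne_one hv
  rw [eq_iff_mulVec]
  intro x
  rw [coe_tr, Cfsg.sympTransvection, one_smul, Matrix.add_mulVec]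
  have := LinearMap.congr_fun h x
  rw [Matrix.mulVecLin_apply, LinearMap.zero_apply] at this
  rw [this, add_zero]
  rfl

theorem mem_iff (g : Matrix.symplecticGroup (Fin n) (ZMod 2)) :
    ((g : Matrix (Fin n ⊕ Fin n) (Fin n ⊕ Fin n) (ZMod 2)) - 1).rank = 1 ↔ ∃ v, v ≠ 0 ∧ g = tr v := by
  refine ⟨fun hr => ?_, fun ⟨v, hv, e⟩ => e ▸ rank_tr hv⟩
  unfold Matrix.rank at hr
  obtain ⟨⟨v, hvm⟩, hv0, hv⟩ := finrank_eq_one_iff'.mp hr
  have hv0' : v ≠ 0 := fun h => hv0 (Subtype.ext h)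
  refine ⟨v, hv0', ?_⟩
  have key : ∀ x, ∃ c : ZMod 2, (g : Matrix (Fin n ⊕ Fin n) (Fin n ⊕ Fin n) (ZMod 2)) *ᵥ x = x + c • v := by
    intro x
    obtain ⟨c, hc⟩ := hv ⟨_, ⟨x, rfl⟩⟩
    refine ⟨c, ?_⟩
    have := congrArg Subtype.val hc
    simp only [SetLike.val_smul, Matrix.mulVecLin_apply, Matrix.sub_mulVec, Matrix.one_mulVec] at this
    rw [this, add_sub_cancel]
  choose φ hφ using key
  have hrel : ∀ x y, φ x * Cfsg.sympForm n (ZMod 2) v y + φ y * Cfsg.sympForm n (ZMod 2) x v = 0 := by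
    intro x y
    have := CfsgLib.Omega.sympForm_mulVec_of_mem g.2 x y
    rw [hφ, hφ] at this
    simp only [← CfsgLib.Omega.sympBilin_apply, map_add, map_smul, LinearMap.add_apply, LinearMap.smul_apply,
      smul_eq_mul, CfsgLib.Omega.sympBilin_self, mul_zero, add_zero] at this ⊢
    linear_combination this
  obtain ⟨y, hy⟩ := exists_partner hv0'
  have hx : ∀ x, φ x = φ y * Cfsg.sympForm n (ZMod 2) x v := by
    intro x
    have := hrel x y
    rw [hy, mul_one] at this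
    have e : ∀ a b : ZMod 2, a + b = 0 → a = b := by decide
    exact e _ _ this
  have hy1 : φ y = 1 := by
    have e : ∀ a : ZMod 2, a = 0 ∨ a = 1 := by decide
    refine (e _).resolve_left fun h0 => hv0 ?_
    obtain ⟨x, hxv⟩ := hvm
    apply Subtype.ext
    show v = 0
    rw [← hxv, Matrix.mulVecLin_apply, Matrix.sub_mulVec, Matrix.one_mulVec, hφ, hx, h0, zero_mul, zero_smul,
      add_zero, sub_self]
  rw [eq_iff_mulVec]
  intro x
  rw [hφ, tr_apply, hx, hy1, one_mul]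

/-- In the symplectic group in dimension 2n ≥ 2 over the field with two elements, the elements g for which g - 1 has rank one (the symplectic transvections) form a conjugacy class of 3-transpositions generating the group. -/
theorem result (n : ℕ) (hn : 1 ≤ n) : Cfsg.IsThreeTranspositionClass {g : Matrix.symplecticGroup (Fin n) (ZMod 2) | ((g : Matrix (Fin n ⊕ Fin n) (Fin n ⊕ Fin n) (ZMod 2)) - 1).rank = 1} := by
  have hmem : ∀ g, g ∈ {g : Matrix.symplecticGroup (Fin n) (ZMod 2) |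
      ((g : Matrix (Fin n ⊕ Fin n) (Fin n ⊕ Fin n) (ZMod 2)) - 1).rank = 1} ↔ ∃ v, v ≠ 0 ∧ g = tr v :=
    fun g => mem_iff g
  refine ⟨⟨?_, ?_⟩, ?_, ?_⟩
  · intro d hd
    obtain ⟨v, hv, rfl⟩ := (hmem d).mp hd
    exact orderOf_eq_prime (by rw [pow_two]; exact tr_sq v) (tr_ne_one hv)
  · intro d hd e he
    obtain ⟨v, _, rfl⟩ := (hmem d).mp hd
    obtain ⟨w, _, rfl⟩ := (hmem e).mp he
    exact three v w
  · let v0 : Fin n ⊕ Fin n → ZMod 2 := Pi.single (Sum.inl ⟨0, hn⟩) 1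
    have hv0 : v0 ≠ 0 := by simp [v0]
    refine ⟨tr v0, (hmem _).mpr ⟨v0, hv0, rfl⟩, ?_⟩
    ext g
    constructor
    · intro hg
      obtain ⟨w, hw, rfl⟩ := (hmem g).mp hg
      obtain ⟨y, hy⟩ := exists_partner hv0
      obtain ⟨z, hz⟩ := exists_partner hw
      obtain ⟨A, hA, -⟩ := CfsgLib.Forms.exists_sp_map_pair v0 y w z hy hz
      exact isConj_iff.mpr ⟨A, by rw [tr_conj, hA]⟩
    · intro hg
      obtain ⟨A, rfl⟩ := isConj_iff.mp hg
      refine (hmem _).mpr ⟨_, fun h => ?_, tr_conj A v0⟩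
      apply tr_ne_one hv0
      have : A * tr v0 * A⁻¹ = 1 := by
        rw [tr_conj, h, eq_iff_mulVec]
        intro x
        simp [tr_apply]
      exact conj_eq_one_iff.mp this
  · rw [eq_top_iff, ← CfsgLib.Forms.closure_sympTransvection n (ZMod 2), Subgroup.closure_le]
    rintro A ⟨w, c, hA⟩
    have hA' : ∀ x, (A : Matrix (Fin n ⊕ Fin n) (Fin n ⊕ Fin n) (ZMod 2)) *ᵥ x
        = x + (c * Cfsg.sympForm n (ZMod 2) x w) • w := fun x => by
      rw [hA, CfsgLib.Forms.sympTransvection_mulVec]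
    by_cases h : c = 0 ∨ w = 0
    · have : A = 1 := by
        rw [eq_iff_mulVec]
        intro x
        rcases h with h | h <;> simp [hA', h]
      rw [this]; exact Subgroup.one_mem _
    · push Not at h
      apply Subgroup.subset_closure
      refine (hmem A).mpr ⟨w, h.2, ?_⟩
      have e : ∀ a : ZMod 2, a ≠ 0 → a = 1 := by decide
      rw [eq_iff_mulVec]
      intro x
      rw [hA', tr_apply, e c h.1, one_mul]

end Cfsg.Agent.S0440
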