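import Cfsg.Statements.S0442
import Mathlib.Tactic.Group


set_option autoImplicit false
open Cfsg

namespace Cfsg.Agent.S0442

/-- A standard trick for producing elements of an involution centraliser: for an involution a and an element g, let b be the conjugate g⁻¹ * a * g. If a * b has odd order 2m + 1 then g * (a * b) ^ m commutes with a; if a * b has even order 2m then (a * b) ^ m and (a * (g * a * g⁻¹)) ^ m commute with a. -/
theorem result {G : Type*} [Group G] (a g : G) (ha : orderOf a = 2) : (∀ m : ℕ, orderOf (a * (g⁻¹ * a * g)) = 2 * m + 1 → Commute (g * (a * (g⁻¹ * a * g)) ^ m) a) ∧ (∀ m : ℕ, orderOf (a * (g⁻¹ * a * g)) = 2 * m → Commute ((a * (g⁻¹ * a * g)) ^ m) a ∧ Commute ((a * (g * a * g⁻¹)) ^ m) a) := by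
  have haa : a * a = 1 := by
    have := pow_orderOf_eq_one a
    rwa [ha, pow_two] at this
  have hinv : a⁻¹ = a := inv_eq_of_mul_eq_one_right haa
  have key : ∀ (y : G), a * y * a⁻¹ = y⁻¹ → ∀ k : ℕ, a * y ^ k * a⁻¹ = (y ^ k)⁻¹ := by
    intro y hy k
    rw [← inv_pow, ← hy, conj_pow]
  have keyh : ∀ h : G, a * (a * (h * a * h⁻¹)) * a⁻¹ = (a * (h * a * h⁻¹))⁻¹ := by
    intro h
    simp only [mul_inv_rev, inv_inv, hinv]
    rw [← mul_assoc a a, haa, one_mul]
    group
  have ku := keyh g⁻¹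
  rw [inv_inv] at ku
  constructor
  · intro m hm
    set u := a * (g⁻¹ * a * g) with hu
    have h1 : u ^ (2 * m + 1) = 1 := by rw [← hm]; exact pow_orderOf_eq_one u
    have h2 : a * u ^ m = (u ^ m)⁻¹ * a := by
      have := key u ku m
      rw [mul_inv_eq_iff_eq_mul] at this
      exact this
    have h3 : u ^ m * a * (u ^ m)⁻¹ = g⁻¹ * a * g := by
      have h4 : u ^ m * a = a * (u ^ m)⁻¹ := by
        have h6 : u ^ m * (a * u ^ m) * (u ^ m)⁻¹ = u ^ m * ((u ^ m)⁻¹ * a) * (u ^ m)⁻¹ := by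
          rw [h2]
        rw [← mul_assoc (u ^ m) a, mul_inv_cancel_right, ← mul_assoc, mul_inv_cancel, one_mul] at h6
        exact h6
      rw [h4, mul_assoc, ← mul_inv_rev, ← pow_add]
      have : (u ^ (m + m))⁻¹ = u := by
        apply inv_eq_of_mul_eq_one_right
        rw [← pow_succ, show m + m + 1 = 2 * m + 1 by omega, h1]
      rw [this, hu, ← mul_assoc, haa, one_mul]
    show g * u ^ m * a = a * (g * u ^ m)
    have : g * u ^ m * a * (g * u ^ m)⁻¹ = a := by
      rw [mul_inv_rev]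
      calc g * u ^ m * a * ((u ^ m)⁻¹ * g⁻¹) = g * (u ^ m * a * (u ^ m)⁻¹) * g⁻¹ := by group
        _ = a := by rw [h3]; group
    exact mul_inv_eq_iff_eq_mul.mp this
  · intro m hm
    have gen : ∀ y : G, a * y * a⁻¹ = y⁻¹ → y ^ (2 * m) = 1 → Commute (y ^ m) a := by
      intro y hy h1
      have h2 : (y ^ m)⁻¹ = y ^ m := by
        apply inv_eq_of_mul_eq_one_right
        rw [← pow_add, ← two_mul, h1]
      have := key y hy m
      rw [h2, mul_inv_eq_iff_eq_mul] at this
      exact this.symm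
    set u := a * (g⁻¹ * a * g) with hu
    have h1 : u ^ (2 * m) = 1 := by rw [← hm]; exact pow_orderOf_eq_one u
    refine ⟨gen u ku h1, gen _ (keyh g) ?_⟩
    have : a * (g * a * g⁻¹) = (g * u * g⁻¹)⁻¹ := by
      simp only [hu, mul_inv_rev, inv_inv, hinv]
      group
    rw [this, inv_pow, conj_pow, h1]
    group

end Cfsg.Agent.S0442
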