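import Cfsg.Statements.S0443


set_option autoImplicit false
open Cfsg

namespace Cfsg.Agent.S0443


theorem mem_sylow_of_centralizes {G : Type*} [Group G] [Finite G] {p : ℕ} [Fact p.Prime] (P : Sylow p G) {x : G}
    (hx : ∃ k, x ^ p ^ k = 1) (hc : (P : Subgroup G) ≤ Subgroup.centralizer ({x} : Set G)) : x ∈ P := by
  obtain ⟨k, hk⟩ := hx
  have hz : IsPGroup p (Subgroup.zpowers x) := by
    rintro ⟨y, hy⟩
    obtain ⟨n, rfl⟩ := Subgroup.mem_zpowers_iff.mp hy
    refine ⟨k, Subtype.ext ?_⟩
    show (x ^ n) ^ (p ^ k : ℕ) = 1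
    rw [← zpow_natCast, ← zpow_mul, mul_comm, zpow_mul, zpow_natCast, hk, one_zpow]
  have hle : (P : Subgroup G) ≤ Subgroup.normalizer (Subgroup.zpowers x : Set G) := by
    refine hc.trans ?_
    rw [← Subgroup.centralizer_closure, ← Subgroup.zpowers_eq_closure]
    exact Subgroup.centralizer_le_normalizer (G := G) _
  have := IsPGroup.to_sup_of_normal_right' P.isPGroup' hz hle
  have := P.is_maximal' this le_sup_left
  rw [← SetLike.mem_coe]
  show x ∈ (P : Subgroup G)
  rw [← this]
  exact Subgroup.mem_sup_right (Subgroup.mem_zpowers x)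

/-- Two definitions of a 2-central involution agree: an element t of order 2 of a finite group lies in the centre of some Sylow 2-subgroup if and only if its centraliser contains some Sylow 2-subgroup. -/
theorem result {G : Type*} [Group G] [Finite G] (t : G) (ht : orderOf t = 2) : Cfsg.IsTwoCentralInvolution t ↔ ∃ P : Sylow 2 G, (P : Subgroup G) ≤ Subgroup.centralizer ({t} : Set G) := by
  constructor
  · rintro ⟨_, P, hP, hc⟩
    exact ⟨P, fun x hx => Subgroup.mem_centralizer_singleton_iff.mpr (hc x hx)⟩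
  · rintro ⟨P, hP⟩
    refine ⟨ht, P, mem_sylow_of_centralizes P ⟨1, ?_⟩ hP,
      fun x hx => Subgroup.mem_centralizer_singleton_iff.mp (hP hx)⟩
    rw [pow_one, ← ht]
    exact pow_orderOf_eq_one t

end Cfsg.Agent.S0443
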