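import Cfsg.Statements.S0445
import Mathlib
-- import your own Cfsg.Agent.* helpers here

set_option autoImplicit false
open Cfsg

namespace Cfsg.Agent.S0445

open Matrix

/-- The general matrix commuting with the transvection. -/
def mk (p : Fin 7 → ZMod 2) (B : Matrix (Fin 3) (Fin 3) (ZMod 2)) : Matrix (Fin 5) (Fin 5) (ZMod 2) :=
  !![1, p 0, p 1, p 2, p 3;
     0, 1, 0, 0, 0;
     0, p 4, B 0 0, B 0 1, B 0 2;
     0, p 5, B 1 0, B 1 1, B 1 2;
     0, p 6, B 2 0, B 2 1, B 2 2]

theorem det_mk (p : Fin 7 → ZMod 2) (B : Matrix (Fin 3) (Fin 3) (ZMod 2)) : (mk p B).det = B.det := by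
  rw [Matrix.det_succ_column_zero, Fin.sum_univ_five]
  simp [mk]
  rw [Matrix.det_succ_row_zero, Fin.sum_univ_four]
  simp [Matrix.det_fin_three, Fin.succAbove]

theorem zmod_two : ∀ a : ZMod 2, a = 0 ∨ a = 1 := by decide

/-- Determinant one matrices of size three are the invertible ones. -/
def detOneEquiv : {B : Matrix (Fin 3) (Fin 3) (ZMod 2) // B.det = 1} ≃ GL (Fin 3) (ZMod 2) where
  toFun B := Matrix.GeneralLinearGroup.mkOfDetNeZero B.1 (by rw [B.2]; exact one_ne_zero)
  invFun g := ⟨g, (zmod_two _).resolve_left (Matrix.GeneralLinearGroup.det_ne_zero g)⟩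
  left_inv B := Subtype.ext rfl
  right_inv g := Units.ext rfl

/-- In the special linear group of dimension 5 over the field with two elements, the centraliser of a transvection has order 21504 = 2 ^ 7 · 168 (it is an extension of an extraspecial group of order 2 ^ 7 by the simple group of order 168). -/
theorem result (s : Matrix.SpecialLinearGroup (Fin 5) (ZMod 2)) (hs : (s : Matrix (Fin 5) (Fin 5) (ZMod 2)) = Matrix.transvection 0 1 1) : Nat.card (Subgroup.centralizer ({s} : Set (Matrix.SpecialLinearGroup (Fin 5) (ZMod 2)))) = 21504 := by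
  have hmem : ∀ g : Matrix.SpecialLinearGroup (Fin 5) (ZMod 2), g ∈ Subgroup.centralizer
      ({s} : Set (Matrix.SpecialLinearGroup (Fin 5) (ZMod 2))) ↔
      (g : Matrix (Fin 5) (Fin 5) (ZMod 2)) * Matrix.transvection 0 1 1
        = Matrix.transvection 0 1 1 * (g : Matrix (Fin 5) (Fin 5) (ZMod 2)) := by
    intro g
    rw [Subgroup.mem_centralizer_singleton_iff, ← hs]
    exact ⟨fun h => congrArg Subtype.val h, fun h => Subtype.ext h⟩
  let Φ : (Fin 7 → ZMod 2) × {B : Matrix (Fin 3) (Fin 3) (ZMod 2) // B.det = 1} →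
      Subgroup.centralizer ({s} : Set (Matrix.SpecialLinearGroup (Fin 5) (ZMod 2))) := fun x =>
    ⟨⟨mk x.1 x.2.1, by rw [det_mk]; exact x.2.2⟩, (hmem _).mpr (by
      ext i j
      fin_cases i <;> fin_cases j <;>
        simp [mk, Matrix.mul_apply, Matrix.transvection, Fin.sum_univ_five, Matrix.single, Matrix.one_apply] <;>
        ring)⟩
  have hΦ : Function.Bijective Φ := by
    constructor
    · rintro ⟨p, B, hB⟩ ⟨p', B', hB'⟩ h
      have h' : mk p B = mk p' B' := congrArg (fun x => ((x.1 : Matrix.SpecialLinearGroup (Fin 5) (ZMod 2)) :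
        Matrix (Fin 5) (Fin 5) (ZMod 2))) h
      have e := fun i j => congrFun (congrFun h' i) j
      refine Prod.ext ?_ (Subtype.ext ?_)
      · funext i
        fin_cases i
        exacts [e 0 1, e 0 2, e 0 3, e 0 4, e 2 1, e 3 1, e 4 1]
      · ext i j
        fin_cases i <;> fin_cases j
        exacts [e 2 2, e 2 3, e 2 4, e 3 2, e 3 3, e 3 4, e 4 2, e 4 3, e 4 4]
    · rintro ⟨⟨g, hg⟩, hgc⟩
      have h := (hmem _).mp hgc
      have e : ∀ i j, (g * Matrix.transvection 0 1 (1 : ZMod 2) : Matrix (Fin 5) (Fin 5) (ZMod 2)) i j = (Matrix.transvection 0 1 (1 : ZMod 2) * g : Matrix (Fin 5) (Fin 5) (ZMod 2)) i j :=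
        fun i j => congrFun (congrFun h i) j
      simp only [Matrix.mul_apply, Matrix.transvection, Fin.sum_univ_five, Matrix.single, Matrix.add_apply,
        Matrix.of_apply, Matrix.one_apply] at e
      have h10 : g 1 0 = 0 := by simpa using e 0 0
      have h20 : g 2 0 = 0 := by simpa using e 2 1
      have h30 : g 3 0 = 0 := by simpa using e 3 1
      have h40 : g 4 0 = 0 := by simpa using e 4 1
      have h12 : g 1 2 = 0 := by simpa using e 0 2
      have h13 : g 1 3 = 0 := by simpa using e 0 3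
      have h14 : g 1 4 = 0 := by simpa using e 0 4
      have h11 : g 1 1 = g 0 0 := by
        have := e 0 1
        simp at this
        linear_combination -this
      have h00 : g 0 0 = 1 := by
        refine (zmod_two _).resolve_left fun h0 => ?_
        have : g.det = 0 := Matrix.det_eq_zero_of_column_eq_zero 0 fun i => by fin_cases i <;> assumption
        rw [hg] at this
        exact one_ne_zero this
      let B : Matrix (Fin 3) (Fin 3) (ZMod 2) := !![g 2 2, g 2 3, g 2 4; g 3 2, g 3 3, g 3 4; g 4 2, g 4 3, g 4 4]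
      let p : Fin 7 → ZMod 2 := ![g 0 1, g 0 2, g 0 3, g 0 4, g 2 1, g 3 1, g 4 1]
      have hgm : mk p B = g := by
        ext i j
        fin_cases i <;> fin_cases j <;> simp [mk, p, B, h10, h20, h30, h40, h12, h13, h14, h11, h00]
      refine ⟨(p, ⟨B, ?_⟩), Subtype.ext (Subtype.ext hgm)⟩
      rw [← det_mk p B, hgm, hg]
  rw [← Nat.card_eq_of_bijective Φ hΦ, Nat.card_prod, Nat.card_fun, Nat.card_congr detOneEquiv,
    Matrix.card_GL_field]
  simp [Fin.prod_univ_three]

end Cfsg.Agent.S0445
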