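import Cfsg.Statements.S0446


set_option autoImplicit false
open Cfsg

namespace Cfsg.Agent.S0446

/-- Every finite group of even order contains a 2-central involution, i.e. an element of order 2 in the centre of some Sylow 2-subgroup. -/
theorem result {G : Type*} [Group G] [Finite G] (h : Even (Nat.card G)) : ∃ t : G, Cfsg.IsTwoCentralInvolution t := by
  obtain ⟨P⟩ : Nonempty (Sylow 2 G) := inferInstance
  have h2 : 2 ∣ Nat.card G := h.two_dvd
  have hne : (P : Subgroup G) ≠ ⊥ := P.ne_bot_of_dvd_card h2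
  haveI : Nontrivial (P : Subgroup G) := (Subgroup.nontrivial_iff_ne_bot _).mpr hne
  haveI := P.isPGroup'.center_nontrivial
  obtain ⟨k, hk, hc⟩ := (P.isPGroup'.to_subgroup (Subgroup.center (P : Subgroup G))).nontrivial_iff_card.mp ‹_›
  have : 2 ∣ Nat.card (Subgroup.center (P : Subgroup G)) := hc ▸ dvd_pow_self 2 hk.ne'
  obtain ⟨x, hx⟩ := exists_prime_orderOf_dvd_card' 2 this
  refine ⟨((x : (P : Subgroup G)) : G), ?_, P, (x : (P : Subgroup G)).2, ?_⟩
  · rw [Subgroup.orderOf_coe, Subgroup.orderOf_coe]; exact hx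
  · intro y hy
    exact congrArg Subtype.val (Subgroup.mem_center_iff.mp x.2 ⟨y, hy⟩)

end Cfsg.Agent.S0446
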