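import Cfsg.Statements.S0460
import Cfsg.Agent.S1699
import Cfsg.Agent.Lib.SporRecognition.ONSmall.Embed

set_option autoImplicit false
open Cfsg

namespace Cfsg.Agent.S0460

/-- The O'Nan group exists as a transitive permutation group of degree 122760: simple of order 460815505920, point stabiliser of order 3753792, and containing simple subgroups of orders 175560 and 7920. -/
theorem result : ∃ H : Subgroup (Equiv.Perm (Fin 122760)), Cfsg.IsON H ∧ MulAction.IsPretransitive H (Fin 122760) ∧ Nat.card (MulAction.stabilizer H (0 : Fin 122760)) = 3753792 ∧ (∃ K : Subgroup H, Cfsg.IsJ1 K) ∧ (∃ K : Subgroup H, Cfsg.IsM11 K) := by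
  haveI hS : IsSimpleGroup Cfsg.Spor.ON := Cfsg.Agent.S1699.result.1
  have hcard : Nat.card Cfsg.Spor.ON = 460815505920 := Cfsg.Agent.S1699.result.2
  let C := CfsgLib.SporRecognition.Cert.ON122760.certified
  have htr : ∀ u : Fin 122760, ∃ g, C.hom g 0 = u := fun u => by
    obtain ⟨w, hw⟩ := C.trans_ok u u.2
    exact ⟨_, Fin.ext (by rw [C.hom_evalW, CfsgLib.SporRecognition.CosetCert.evalW_tabPerm]; exact hw)⟩
  have hinj : Function.Injective C.hom := by
    rw [← MonoidHom.ker_eq_bot_iff]
    rcases Subgroup.Normal.eq_bot_or_eq_top (H := C.hom.ker) inferInstance with h | h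
    · exact h
    · exfalso
      obtain ⟨g, hg⟩ := htr 1
      have hk : g ∈ C.hom.ker := h ▸ Subgroup.mem_top g
      rw [MonoidHom.mem_ker.mp hk] at hg
      exact absurd (congrArg Fin.val hg) (by decide)
  let e := MonoidHom.ofInjective hinj
  haveI hRs : IsSimpleGroup C.hom.range := e.symm.isSimpleGroup
  have hR : Nat.card C.hom.range = 460815505920 := (Nat.card_congr e.toEquiv.symm).trans hcard
  haveI : Finite C.hom.range := Nat.finite_of_card_ne_zero (by rw [hR]; decide)
  haveI htrans : MulAction.IsPretransitive C.hom.range (Fin 122760) := by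
    refine ⟨fun x y => ?_⟩
    obtain ⟨g, hg⟩ := htr x
    obtain ⟨k, hk⟩ := htr y
    refine ⟨⟨C.hom (k * g⁻¹), _, rfl⟩, ?_⟩
    show C.hom (k * g⁻¹) x = y
    rw [map_mul, map_inv, Equiv.Perm.mul_apply, ← hg, Equiv.Perm.inv_def, Equiv.symm_apply_apply]
    exact hk
  refine ⟨C.hom.range, ⟨hRs, hR⟩, htrans, ?_, ?_, ?_⟩
  · have h := Subgroup.card_mul_index (MulAction.stabilizer C.hom.range (0 : Fin 122760))
    rw [MulAction.index_stabilizer_of_transitive, Nat.card_fin, hR] at h
    omega
  · obtain ⟨ψ, hψ⟩ := CfsgLib.SporRecognition.ONSmall.J1P.exists_hom hcard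
    obtain ⟨h1, h2⟩ := CfsgLib.SporRecognition.ONSmall.J1P.simple_and_card
    exact ⟨ψ.range, (MonoidHom.ofInjective hψ).symm.isSimpleGroup,
      (Nat.card_congr (MonoidHom.ofInjective hψ).toEquiv.symm).trans h2⟩
  · obtain ⟨ψ, hψ⟩ := CfsgLib.SporRecognition.ONSmall.M11P.exists_hom hcard
    obtain ⟨h1, h2⟩ := CfsgLib.SporRecognition.ONSmall.M11P.simple_and_card
    exact ⟨ψ.range, (MonoidHom.ofInjective hψ).symm.isSimpleGroup,
      (Nat.card_congr (MonoidHom.ofInjective hψ).toEquiv.symm).trans h2⟩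

end Cfsg.Agent.S0460
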