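import Cfsg.Statements.S0478
import Cfsg.Agent.Lib.SporadicB.J3.Basic

set_option autoImplicit false
open Cfsg
open scoped MatrixGroups
open Matrix

namespace Cfsg.Agent.S0478

/-- A triple cover of Janko's third group inside a unitary group: for a field F with four elements, the special unitary group of dimension 9 (with respect to the form with q = 2) has a subgroup whose centre has order 3 and whose quotient by its centre is simple of order 50232960. -/
theorem result : ∃ (F : Type) (_ : Field F) (_ : Fintype F), Fintype.card F = 4 ∧ ∃ H : Subgroup (Cfsg.SU 9 F 2), Nat.card (Subgroup.center H) = 3 ∧ Cfsg.IsJ3 (H ⧸ Subgroup.center H) := by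
  let inst : Fintype (GaloisField 2 2) := Fintype.ofFinite _
  have hF : Fintype.card (GaloisField 2 2) = 4 := by
    rw [← Nat.card_eq_fintype_card, GaloisField.card 2 2 (by norm_num)]
    norm_num
  have := CfsgLib.SporadicB.J3.charP_two_of_card_four _ hF
  obtain ⟨ω, hω⟩ := CfsgLib.SporadicB.J3.exists_omega _ hF
  refine ⟨GaloisField 2 2, inferInstance, inst, hF, ?_⟩
  let F := GaloisField 2 2
  let e : Cfsg.Spor.F9 ≃ Fin 9 := finProdFinEquiv
  let r : Matrix Cfsg.Spor.F9 Cfsg.Spor.F9 F ≃+* Matrix (Fin 9) (Fin 9) F := (Matrix.reindexAlgEquiv F F e).toRingEquiv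
  let f : Cfsg.Spor.threeJ3 F ω →* Matrix.SpecialLinearGroup (Fin 9) F :=
    { toFun := fun g => ⟨r ((g : GL Cfsg.Spor.F9 F) : Matrix Cfsg.Spor.F9 Cfsg.Spor.F9 F), by
        show (Matrix.reindex e e _).det = 1
        rw [Matrix.det_reindex_self]
        exact CfsgLib.SporadicB.J3.det_eq_one hω g.2 hF⟩
      map_one' := Subtype.ext (by simp)
      map_mul' := fun a b => Subtype.ext (by
        show r _ = r _ * r _
        rw [← map_mul]
        rfl) }
  have hf : Function.Injective f := by
    intro a b h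
    have h' := congrArg Subtype.val h
    exact Subtype.ext (Units.ext (r.injective h'))
  have hmem : ∀ g, f g ∈ Cfsg.SU 9 F 2 := by
    intro g
    show ∀ u v : Fin 9 → F, _
    intro u v
    have h := CfsgLib.SporadicB.J3.herm_preserved hω g.2 (u ∘ e) (v ∘ e)
    have hr : ∀ w : Fin 9 → F, (r ((g : GL Cfsg.Spor.F9 F) : Matrix Cfsg.Spor.F9 Cfsg.Spor.F9 F)) *ᵥ w =
        ((((g : GL Cfsg.Spor.F9 F) : Matrix Cfsg.Spor.F9 Cfsg.Spor.F9 F)) *ᵥ (w ∘ e)) ∘ e.symm := by
      intro w
      funext i
      show (Matrix.submatrix _ e.symm e.symm *ᵥ w) i = _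
      rw [Matrix.submatrix_mulVec_equiv]
      simp
    show ∑ i, ((r _) *ᵥ u) i * ((r _) *ᵥ v) i ^ 2 = ∑ i, u i * v i ^ 2
    rw [hr, hr]
    simp only [Function.comp_apply] at h ⊢
    rw [Equiv.sum_comp e (fun i => u i * v i ^ 2)] at h
    rw [Equiv.sum_comp e.symm (fun z => (((g : GL Cfsg.Spor.F9 F) : Matrix Cfsg.Spor.F9 Cfsg.Spor.F9 F) *ᵥ _) z *
      (((g : GL Cfsg.Spor.F9 F) : Matrix Cfsg.Spor.F9 Cfsg.Spor.F9 F) *ᵥ _) z ^ 2)]
    exact h
  let f' : Cfsg.Spor.threeJ3 F ω →* Cfsg.SU 9 F 2 := f.codRestrict _ hmem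
  have hf' : Function.Injective f' := fun a b h => hf (congrArg Subtype.val h)
  refine ⟨f'.range, ?_, ?_⟩
  · obtain ⟨φ, -, -, -, -, hc⟩ := CfsgLib.SporadicB.J3.j3_main (F := F) hω
    refine Eq.trans ?_ hc
    exact (Nat.card_congr (Subgroup.centerCongr (MonoidHom.ofInjective hf')).toEquiv).symm
  · let eG := MonoidHom.ofInjective hf'
    obtain ⟨hs, hn⟩ := CfsgLib.SporadicB.J3.isJ3_quotient (F := F) hω
    have hmap : (Subgroup.center (Cfsg.Spor.threeJ3 F ω)).map eG.toMonoidHom = Subgroup.center f'.range := by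
      ext x
      constructor
      · rintro ⟨y, hy, rfl⟩
        rw [SetLike.mem_coe, Subgroup.mem_center_iff] at hy
        rw [Subgroup.mem_center_iff]
        intro z
        obtain ⟨z, rfl⟩ := eG.surjective z
        show eG z * eG y = eG y * eG z
        rw [← map_mul, ← map_mul, hy z]
      · intro hx
        obtain ⟨y, rfl⟩ := eG.surjective x
        refine ⟨y, Subgroup.mem_center_iff.mpr fun z => eG.injective ?_, rfl⟩
        rw [map_mul, map_mul]
        exact Subgroup.mem_center_iff.mp hx (eG z)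
    let q := QuotientGroup.congr _ _ eG hmap
    exact ⟨(q.symm).isSimpleGroup, by rw [← Nat.card_congr q.toEquiv]; exact hn⟩

end Cfsg.Agent.S0478
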