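import Cfsg.Statements.S0481


set_option autoImplicit false
open Cfsg

namespace Cfsg.Agent.S0481

/-- Large extraspecial subgroups: let z be an involution of a finite group G whose centraliser C contains a normal 2-subgroup Q with centre of order 2 and all squares central, such that every element of G centralising Q lies in Q. Then C contains a Sylow 2-subgroup of G, and any involution of G whose centraliser contains a Sylow 2-subgroup of G is conjugate to z. -/
theorem result {G : Type*} [Group G] [Finite G] (z : G) (hz : orderOf z = 2) (Q : Subgroup G) (hQC : Q ≤ Subgroup.centralizer ({z} : Set G)) (hQn : ∀ g ∈ Subgroup.centralizer ({z} : Set G), ∀ q ∈ Q, g * q * g⁻¹ ∈ Q) (hQ2 : IsPGroup 2 Q) (hZ : Nat.card (Subgroup.center Q) = 2) (hsq : ∀ x : Q, x ^ 2 ∈ Subgroup.center Q) (hlarge : Subgroup.centralizer (Q : Set G) ≤ Q) : (∃ P : Sylow 2 G, (P : Subgroup G) ≤ Subgroup.centralizer ({z} : Set G)) ∧ ∀ u : G, orderOf u = 2 → (∃ P : Sylow 2 G, (P : Subgroup G) ≤ Subgroup.centralizer ({u} : Set G)) → IsConj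 z u := by
  classical
  set C := Subgroup.centralizer ({z} : Set G) with hC
  have hzQ : z ∈ Q := hlarge (by
    rw [Subgroup.mem_centralizer_iff]
    intro q hq
    exact Subgroup.mem_centralizer_singleton_iff.mp (hQC hq))
  have hzc : (⟨z, hzQ⟩ : Q) ∈ Subgroup.center Q := by
    rw [Subgroup.mem_center_iff]
    intro q
    exact Subtype.ext (Subgroup.mem_centralizer_singleton_iff.mp (hQC q.2))
  have hz1 : z ≠ 1 := by
    intro h; rw [h, orderOf_one] at hz; omega
  have key : ∀ x : G, x ∈ Subgroup.centralizer (Q : Set G) → x = 1 ∨ x = z := by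
    intro x hx
    have hxc : (⟨x, hlarge hx⟩ : Q) ∈ Subgroup.center Q := by
      rw [Subgroup.mem_center_iff]
      intro q
      exact Subtype.ext (Subgroup.mem_centralizer_iff.mp hx q q.2)
    rw [Nat.card_eq_two_iff' (1 : Subgroup.center Q)] at hZ
    obtain ⟨y, hy, huniq⟩ := hZ
    by_cases hx1 : x = 1
    · exact Or.inl hx1
    · right
      have e1 := huniq ⟨_, hxc⟩ (fun h => hx1 (congrArg (fun w : Subgroup.center Q => ((w : Q) : G)) h))
      have e2 := huniq ⟨_, hzc⟩ (fun h => hz1 (congrArg (fun w : Subgroup.center Q => ((w : Q) : G)) h))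
      exact congrArg (fun w : Subgroup.center Q => ((w : Q) : G)) (e1.trans e2.symm)
  obtain ⟨P, hP⟩ := hQ2.exists_le_sylow
  have hP2 : 2 ∣ Nat.card G := hz ▸ orderOf_dvd_natCard z
  have hne : (P : Subgroup G) ≠ ⊥ := P.ne_bot_of_dvd_card hP2
  haveI : Nontrivial (P : Subgroup G) := (Subgroup.nontrivial_iff_ne_bot _).mpr hne
  haveI := P.isPGroup'.center_nontrivial
  obtain ⟨w, hw⟩ := exists_ne (1 : Subgroup.center (P : Subgroup G))
  have hwz : ((w : (P : Subgroup G)) : G) = z := by
    refine (key _ ?_).resolve_left ?_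
    · rw [Subgroup.mem_centralizer_iff]
      intro q hq
      exact congrArg Subtype.val (Subgroup.mem_center_iff.mp w.2 ⟨q, hP hq⟩)
    · intro h
      exact hw (Subtype.ext (Subtype.ext h))
  have hPC : (P : Subgroup G) ≤ C := by
    intro x hx
    rw [hC, Subgroup.mem_centralizer_singleton_iff, ← hwz]
    exact congrArg Subtype.val (Subgroup.mem_center_iff.mp w.2 ⟨x, hx⟩)
  refine ⟨⟨P, hPC⟩, ?_⟩
  rintro u hu ⟨R, hR⟩
  obtain ⟨g, hg⟩ := MulAction.exists_smul_eq G R P
  have hgu : g * u * g⁻¹ = z := by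
    refine (key _ ?_).resolve_left ?_
    · rw [Subgroup.mem_centralizer_iff]
      intro q hq
      have hq' : q ∈ ((g • R : Sylow 2 G) : Subgroup G) := by rw [hg]; exact hP hq
      rw [Sylow.coe_subgroup_smul, Subgroup.mem_pointwise_smul_iff_inv_smul_mem, ← map_inv, MulAut.smul_def,
        MulAut.conj_apply, inv_inv] at hq'
      have h1 := Subgroup.mem_centralizer_singleton_iff.mp (hR hq')
      have h2 := congrArg (fun x => g * x * g⁻¹) h1
      simp only [mul_assoc, mul_inv_cancel_left, inv_mul_cancel_left, mul_inv_cancel, mul_one] at h2 ⊢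
      exact h2
    · intro h
      rw [mul_inv_eq_one, mul_eq_left] at h
      rw [h, orderOf_one] at hu
      omega
  exact (isConj_iff.mpr ⟨g, hgu⟩).symm

end Cfsg.Agent.S0481
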