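import Cfsg.Statements.S0502
import Cfsg.Agent.Lib.KGroups.Klein

set_option autoImplicit false
open Cfsg

namespace Cfsg.Agent.S0502

/-- The commuting relation on four-subgroups. -/
abbrev R (P : Type*) [Group P] (A B : Subgroup P) : Prop :=
  IsKleinFour A ∧ IsKleinFour B ∧ ∀ a ∈ A, ∀ b ∈ B, a * b = b * a

theorem R_symm {P : Type*} [Group P] {A B : Subgroup P} (h : R P A B) : R P B A :=
  ⟨h.2.1, h.1, fun b hb a ha => (h.2.2 a ha b hb).symm⟩

theorem reach {P : Type*} [Group P] [Finite P] (E : Subgroup P) [E.Normal]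
    (hE : IsMulCommutative E) (hE2 : ∀ e ∈ E, e ^ 2 = 1) (hE8 : 8 ≤ Nat.card E) {z : P}
    (hzE : z ∈ E) (hz : orderOf z = 2) (hzc : ∀ g, g * z = z * g) (U : Subgroup P)
    (hU : IsKleinFour U) :
    ∃ W : Subgroup P, IsKleinFour W ∧ W ≤ E ∧ Relation.ReflTransGen (R P) U W ∧
      Relation.ReflTransGen (R P) W U := by
  obtain ⟨u, huU, hu1, huz⟩ := CfsgLib.KGroups.exists_klein_not hU z
  have hu : orderOf u = 2 := CfsgLib.KGroups.orderOf_of_mem_klein hU huU hu1
  have hu2 : u * u = 1 := by rw [← pow_two, ← hu, pow_orderOf_eq_one]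
  obtain ⟨V, hV, huV, hzV, hVmem⟩ := CfsgLib.KGroups.exists_klein hu hz (hzc u) huz
  have hEc : ∀ a ∈ E, ∀ b ∈ E, a * b = b * a := fun a ha b hb =>
    congrArg Subtype.val (hE.is_comm.comm ⟨a, ha⟩ ⟨b, hb⟩)
  have hEi : ∀ e ∈ E, e * e = 1 := fun e he => by rw [← pow_two]; exact hE2 e he
  have hconj : ∀ e ∈ E, u * e * u⁻¹ ∈ E := fun e he => Subgroup.Normal.conj_mem ‹_› e he u
  let φ : E →* E :=
    { toFun := fun e => ⟨u * (e : P) * u⁻¹ * e, E.mul_mem (hconj e e.2) e.2⟩
      map_one' := by ext; simp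
      map_mul' := by
        rintro ⟨a, ha⟩ ⟨b, hb⟩
        ext
        show u * (a * b) * u⁻¹ * (a * b) = u * a * u⁻¹ * a * (u * b * u⁻¹ * b)
        calc u * (a * b) * u⁻¹ * (a * b)
            = u * a * u⁻¹ * ((u * b * u⁻¹) * a) * b := by group
          _ = u * a * u⁻¹ * (a * (u * b * u⁻¹)) * b := by rw [hEc _ (hconj b hb) a ha]
          _ = u * a * u⁻¹ * a * (u * b * u⁻¹ * b) := by group }
  have hle : φ.range ≤ φ.ker := by
    rintro _ ⟨⟨e, he⟩, rfl⟩
    rw [MonoidHom.mem_ker]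
    ext
    show u * (u * e * u⁻¹ * e) * u⁻¹ * (u * e * u⁻¹ * e) = 1
    rw [inv_eq_of_mul_eq_one_right hu2]
    have k1 : ∀ x : P, u * (u * x) = x := fun x => by rw [← mul_assoc, hu2, one_mul]
    have k2 : ∀ x : P, e * (e * x) = x := fun x => by rw [← mul_assoc, hEi e he, one_mul]
    simp only [mul_assoc, k1, k2]
    exact hEi e he
  have hcard : Nat.card φ.ker * Nat.card φ.range = Nat.card E := by
    rw [← Subgroup.index_ker, Subgroup.card_mul_index]
  have h3 : 3 ≤ Nat.card φ.ker := by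
    have := Nat.le_of_dvd Nat.card_pos (Subgroup.card_dvd_of_le hle)
    nlinarith
  obtain ⟨w, hwk, hw1, hwz⟩ : ∃ w : E, w ∈ φ.ker ∧ (w : P) ≠ 1 ∧ (w : P) ≠ z := by
    by_contra h
    push Not at h
    have hsub : (φ.ker : Set E) ⊆ {1, ⟨z, hzE⟩} := fun x hx => by
      by_cases h1 : (x : P) = 1
      · exact Or.inl (Subtype.ext h1)
      · exact Or.inr (Subtype.ext (h x hx h1))
    have h4 := Set.ncard_le_ncard hsub (Set.toFinite _)
    have h2 : ({1, ⟨z, hzE⟩} : Set E).ncard ≤ 2 := (Set.ncard_insert_le _ _).trans (by simp)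
    rw [show (φ.ker : Set E).ncard = Nat.card φ.ker from (Nat.card_coe_set_eq _).symm] at h4
    omega
  have hw : orderOf (w : P) = 2 := orderOf_eq_prime (hE2 w w.2) hw1
  obtain ⟨W, hW, hwW, hzW, hWmem⟩ := CfsgLib.KGroups.exists_klein hw hz (hzc w) hwz
  have hWE : W ≤ E := fun x hx => by
    rcases hWmem x hx with rfl | rfl | rfl | rfl
    exacts [E.one_mem, w.2, hzE, E.mul_mem w.2 hzE]
  have huw : Commute u w := by
    have h : u * w * u⁻¹ * w = 1 := congrArg Subtype.val (MonoidHom.mem_ker.1 hwk)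
    have h' : u * w * u⁻¹ = w := by
      rw [eq_inv_of_mul_eq_one_left h]
      exact inv_eq_of_mul_eq_one_right (hEi w w.2)
    exact mul_inv_eq_iff_eq_mul.1 h'
  have hR1 : R P U V := ⟨hU, hV, fun a ha b hb => by
    have hau : Commute a u := CfsgLib.KGroups.klein_comm hU ha huU
    rcases hVmem b hb with rfl | rfl | rfl | rfl
    exacts [Commute.one_right a, hau, hzc a, Commute.mul_right hau (hzc a)]⟩
  have hR2 : R P V W := ⟨hV, hW, fun a ha b hb => by
    have key : ∀ x, Commute u x → Commute a x := fun x hx => by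
      rcases hVmem a ha with rfl | rfl | rfl | rfl
      exacts [Commute.one_left x, hx, (hzc x).symm, Commute.mul_left hx (hzc x).symm]
    apply key
    rcases hWmem b hb with rfl | rfl | rfl | rfl
    exacts [Commute.one_right u, huw, hzc u, Commute.mul_right huw (hzc u)]⟩
  exact ⟨W, hW, hWE, (Relation.ReflTransGen.single hR1).tail hR2,
    (Relation.ReflTransGen.single (R_symm hR2)).tail (R_symm hR1)⟩

/-- If a finite 2-group has a normal elementary abelian subgroup of order at least 8, then any two of its Klein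
four-subgroups are joined by a chain of Klein four-subgroups with consecutive members commuting elementwise. -/
theorem result {P : Type*} [Group P] [Finite P] (hP : IsPGroup 2 P)
    (E : Subgroup P) [E.Normal] (hE : IsMulCommutative E) (hE2 : ∀ e ∈ E, e ^ 2 = 1) (hE8 : 8 ≤ Nat.card E) :
    Cfsg.IsFourConnected P := by
  have : Fact (Nat.Prime 2) := ⟨Nat.prime_two⟩
  have hdvd : 2 ∣ Nat.card E :=
    ((hP.to_subgroup E).card_eq_or_dvd).resolve_left (by omega)
  obtain ⟨z, hzfix, hz1⟩ := (hP.of_equiv (ConjAct.toConjAct (G := P))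
    ).exists_fixed_point_of_prime_dvd_card_of_fixed_point E hdvd (a := 1) (fun g => smul_one g)
  have hzc : ∀ g, g * (z : P) = z * g := fun g => by
    have := congrArg Subtype.val (hzfix (ConjAct.toConjAct g))
    rw [show ((ConjAct.toConjAct g • z : E) : P) = g * z * g⁻¹ from rfl] at this
    exact mul_inv_eq_iff_eq_mul.1 this
  have hz : orderOf (z : P) = 2 := orderOf_eq_prime (hE2 z z.2)
    fun h => hz1 (Subtype.ext h).symm
  have hEc : ∀ a ∈ E, ∀ b ∈ E, a * b = b * a := fun a ha b hb =>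
    congrArg Subtype.val (hE.is_comm.comm ⟨a, ha⟩ ⟨b, hb⟩)
  intro U V hU hV
  obtain ⟨W, hW, hWE, hUW, -⟩ := reach E hE hE2 hE8 z.2 hz hzc U hU
  obtain ⟨W', hW', hW'E, -, hVW⟩ := reach E hE hE2 hE8 z.2 hz hzc V hV
  exact (hUW.tail ⟨hW, hW', fun a ha b hb => hEc a (hWE ha) b (hW'E hb)⟩).trans hVW

end Cfsg.Agent.S0502
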