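import Cfsg.Statements.S0505
import Cfsg.Agent.Lib.PSolvable.HallHigman
import Cfsg.Agent.Lib.CoprimeAction.Basic
import Cfsg.Agent.Lib.TwoGroups.NormalAbelian

set_option autoImplicit false
open Cfsg

namespace Cfsg.Agent.S0505

/-- In a solvable group with trivial core, an odd-order subgroup centralizing a 2-subgroup `T`
and invariant under `N(T)` is trivial. -/
theorem eq_bot_of_invariant {X : Type*} [Group X] [Finite X] [Group.IsSolvable X]
    (hX : Cfsg.oddCore X = ⊥) {T W : Subgroup X} (hT : IsPGroup 2 T)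
    (hW : (Nat.card W).Coprime 2) (hWT : W ≤ Subgroup.centralizer (T : Set X))
    (hN : Subgroup.normalizer (T : Set X) ≤ Subgroup.normalizer (W : Set X)) : W = ⊥ := by
  have : Fact (Nat.Prime 2) := ⟨Nat.prime_two⟩
  set R := Cfsg.pCore 2 X with hR
  have hRn : Subgroup.normalizer (R : Set X) = ⊤ := Subgroup.normalizer_eq_top_iff.2 inferInstance
  have hRW : R ⊓ Subgroup.centralizer (T : Set X) ≤ Subgroup.centralizer (W : Set X) := by
    rintro c ⟨hcR, hcT⟩
    refine Subgroup.mem_centralizer_iff.2 fun w hw => ?_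
    have h1 : w * c * w⁻¹ * c⁻¹ ∈ R :=
      R.mul_mem ((inferInstance : R.Normal).conj_mem c hcR w) (R.inv_mem hcR)
    have h2 : w * c * w⁻¹ * c⁻¹ ∈ W := by
      have := (Subgroup.mem_normalizer_iff.1
        (hN (Subgroup.centralizer_le_normalizer _ hcT)) w⁻¹).1 (W.inv_mem hw)
      have := W.mul_mem hw this
      simpa [mul_assoc] using this
    obtain ⟨k, hk⟩ := IsPGroup.iff_card.1 (CfsgLib.Cores.isPGroup_pCore 2 X)
    have h12 : orderOf (w * c * w⁻¹ * c⁻¹) = 1 := Nat.eq_one_of_dvd_coprimes (hW.pow_right k)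
      (Subgroup.orderOf_dvd_natCard W h2) (hk ▸ Subgroup.orderOf_dvd_natCard R h1)
    have := orderOf_eq_one_iff.1 h12
    rwa [mul_inv_eq_one, mul_inv_eq_iff_eq_mul] at this
  have hle : W ≤ Subgroup.centralizer (R : Set X) :=
    CfsgLib.CoprimeAction.pxq hT hW (CfsgLib.Cores.isPGroup_pCore 2 X)
      (Subgroup.le_centralizer_iff.1 hWT) (hRn ▸ le_top) (hRn ▸ le_top) hRW
  have hle' : W ≤ R := hle.trans
    (CfsgLib.PSolvable.centralizer_pCore_le CfsgLib.PSolvable.isPSolvable_of_isSolvable hX)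
  obtain ⟨k, hk⟩ := IsPGroup.iff_card.1 (CfsgLib.Cores.isPGroup_pCore 2 X)
  exact Subgroup.eq_bot_of_card_eq W (Nat.eq_one_of_dvd_coprimes (hW.pow_right k) dvd_rfl
    (hk ▸ Subgroup.card_dvd_of_le hle'))

/-- Let G be a finite group of even order in which the centralizer of every involution is solvable and has trivial
core (no nontrivial normal subgroup of odd order). Then G is of characteristic 2 type. -/
theorem result {G : Type*} [Group G] [Finite G]
    (h2 : Even (Nat.card G))
    (hs : ∀ t : G, orderOf t = 2 → Group.IsSolvable (Subgroup.centralizer ({t} : Set G)))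
    (hc : ∀ t : G, orderOf t = 2 → Cfsg.oddCore (Subgroup.centralizer ({t} : Set G)) = ⊥) :
    Cfsg.IsCharacteristicTwoType G := by
  have : Fact (Nat.Prime 2) := ⟨Nat.prime_two⟩
  refine ⟨h2, fun T hT hT1 => ?_⟩
  set N := Subgroup.normalizer (T : Set G)
  have hTN : T ≤ N := Subgroup.le_normalizer
  -- an involution centralizing the whole of `T`
  obtain ⟨t, htT, ht, htc⟩ : ∃ t ∈ T, orderOf t = 2 ∧ ∀ x ∈ T, x * t = t * x := by
    have : Nontrivial T := T.nontrivial_iff_ne_bot.2 hT1
    have := hT.center_nontrivial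
    obtain ⟨n, hn, hcard⟩ := (IsPGroup.nontrivial_iff_card (p := 2)
      (hT.to_subgroup (Subgroup.center T))).1 ‹_›
    obtain ⟨z, hz⟩ := exists_prime_orderOf_dvd_card' (G := Subgroup.center T) 2
      (hcard ▸ dvd_pow_self 2 (by omega))
    refine ⟨((z : T) : G), (z : T).2, ?_, fun x hx =>
      congrArg Subtype.val (Subgroup.mem_center_iff.1 z.2 ⟨x, hx⟩)⟩
    rw [Subgroup.orderOf_coe, Subgroup.orderOf_coe, hz]
  set X := Subgroup.centralizer ({t} : Set G) with hXdef
  have := hs t ht
  have hTX : T ≤ X := fun x hx => Subgroup.mem_centralizer_singleton_iff.2 (htc x hx)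
  have hCX : Subgroup.centralizer (T : Set G) ≤ X :=
    Subgroup.centralizer_le (Set.singleton_subset_iff.2 htT)
  -- the core of `N` is trivial
  have hON : Cfsg.oddCore N = ⊥ := by
    set W := (Cfsg.oddCore N).map N.subtype with hWdef
    have hWc : (Nat.card W).Coprime 2 := by
      rw [hWdef, Subgroup.card_map_of_injective N.subtype_injective]
      exact CfsgLib.Cores.card_pPrimeCore_coprime 2
    have hWn : N ≤ Subgroup.normalizer (W : Set G) := fun x hx => by
      rw [hWdef]
      exact Subgroup.le_normalizer_map N.subtype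
        ⟨⟨x, hx⟩, (Subgroup.normalizer_eq_top_iff (H := Cfsg.oddCore N)).2 inferInstance ▸ Subgroup.mem_top _, rfl⟩
    have hWN : W ≤ N := Subgroup.map_subtype_le _
    have hWT : W ≤ Subgroup.centralizer (T : Set G) := fun w hw => by
      refine Subgroup.mem_centralizer_iff.2 fun x hx => ?_
      have h1 : x * w * x⁻¹ * w⁻¹ ∈ W :=
        W.mul_mem ((Subgroup.mem_normalizer_iff.1 (hWn (hTN hx)) w).1 hw) (W.inv_mem hw)
      have h3 : x * w * x⁻¹ * w⁻¹ ∈ T := by
        have := T.mul_mem hx ((Subgroup.mem_normalizer_iff.1 (hWN hw) x⁻¹).1 (T.inv_mem hx))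
        simpa [mul_assoc] using this
      obtain ⟨k, hk⟩ := IsPGroup.iff_card.1 hT
      have := orderOf_eq_one_iff.1 (Nat.eq_one_of_dvd_coprimes (hWc.pow_right k)
        (Subgroup.orderOf_dvd_natCard W h1) (hk ▸ Subgroup.orderOf_dvd_natCard T h3))
      rwa [mul_inv_eq_one, mul_inv_eq_iff_eq_mul] at this
    have hWX : W ≤ X := hWT.trans hCX
    have h0 := eq_bot_of_invariant (hc t ht) (hT.comap_subtype (K := X))
      (W := W.subgroupOf X)
      (by rw [Nat.card_congr (Subgroup.subgroupOfEquivOfLe hWX).toEquiv]; exact hWc)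
      (fun w hw => Subgroup.mem_centralizer_iff.2 fun x hx =>
        Subtype.ext (Subgroup.mem_centralizer_iff.1 (hWT hw) x hx))
      (fun x hx => by
        have hx' : (x : G) ∈ N := Subgroup.mem_normalizer_iff.2 fun y => by
          refine ⟨fun hy => (Subgroup.mem_normalizer_iff.1 hx ⟨y, hTX hy⟩).1 hy, fun hy => ?_⟩
          have hyX : y ∈ X := by
            have := X.mul_mem (X.mul_mem (X.inv_mem x.2) (hTX hy)) x.2
            simpa [mul_assoc] using this
          exact (Subgroup.mem_normalizer_iff.1 hx ⟨y, hyX⟩).2 hy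
        refine Subgroup.mem_normalizer_iff.2 fun y => ?_
        exact Subgroup.mem_normalizer_iff.1 (hWn hx') y)
    rw [Subgroup.subgroupOf_eq_bot, disjoint_iff, inf_eq_left.2 hWX, hWdef] at h0
    exact (Subgroup.map_eq_bot_iff_of_injective _ N.subtype_injective).1 h0
  -- `C_N(O₂(N))` is a 2-group
  unfold Cfsg.IsOfCharacteristicTwo
  set C := Subgroup.centralizer (Cfsg.pCore 2 N : Set N) with hC
  have hTR : T.subgroupOf N ≤ Cfsg.pCore 2 N := by
    have : (T.subgroupOf N).Normal := Subgroup.normal_in_normalizer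
    exact CfsgLib.Cores.le_pCore (hT.comap_subtype (K := N))
  have hsolv : Group.IsSolvable C := by
    have hle : C.map N.subtype ≤ X := by
      refine le_trans ?_ hCX
      rintro _ ⟨c, hc', rfl⟩
      refine Subgroup.mem_centralizer_iff.2 fun x hx => ?_
      exact congrArg Subtype.val (Subgroup.mem_centralizer_iff.1 hc' ⟨x, hTN hx⟩ (hTR hx))
    exact Group.isSolvable_of_isSolvable_injective (f := ((N.subtype.comp C.subtype).codRestrict X
      fun c => hle ⟨c, c.2, rfl⟩))
      (fun a b h => Subtype.ext (Subtype.ext (congrArg Subtype.val h :)))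
  have hOC : Cfsg.pPrimeCore 2 C = ⊥ := by
    have hn := CfsgLib.Cores.normal_map_subtype C (Cfsg.pPrimeCore 2 C)
    have hle : (Cfsg.pPrimeCore 2 C).map C.subtype ≤ Cfsg.pPrimeCore 2 N :=
      CfsgLib.Cores.le_pPrimeCore (by
        rw [Subgroup.card_map_of_injective C.subtype_injective]
        exact CfsgLib.Cores.card_pPrimeCore_coprime 2)
    rw [show Cfsg.pPrimeCore 2 N = ⊥ from hON, le_bot_iff] at hle
    exact (Subgroup.map_eq_bot_iff_of_injective _ C.subtype_injective).1 hle
  have hcen : (⊤ : Subgroup C) ≤ Subgroup.centralizer (Cfsg.pCore 2 C : Set C) := fun c _ => by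
    refine Subgroup.mem_centralizer_iff.2 fun x hx => ?_
    have hxR : (x : N) ∈ Cfsg.pCore 2 N :=
      CfsgLib.Cores.map_subtype_pCore_le (Subgroup.Normal.isSubnormal inferInstance) ⟨x, hx, rfl⟩
    exact Subtype.ext (Subgroup.mem_centralizer_iff.1 c.2 x hxR)
  have htop : IsPGroup 2 C := CfsgLib.Cores.pCore_eq_top_iff.1 (eq_top_iff.2 (hcen.trans
    (CfsgLib.PSolvable.centralizer_pCore_le CfsgLib.PSolvable.isPSolvable_of_isSolvable hOC)))
  exact CfsgLib.Cores.le_pCore htop

end Cfsg.Agent.S0505
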