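import Cfsg.Statements.S0520
import Cfsg.Agent.Lib.KGroups.Klein

set_option autoImplicit false
open Cfsg

namespace Cfsg.Agent.S0520

variable {G : Type*} [Group G]

/-- Conjugation of subgroups. -/
abbrev cj (g : G) (A : Subgroup G) : Subgroup G := A.map (MulAut.conj g).toMonoidHom

/-- The commuting relation on four-subgroups. -/
abbrev R (A B : Subgroup G) : Prop :=
  IsKleinFour A ∧ IsKleinFour B ∧ ∀ a ∈ A, ∀ b ∈ B, a * b = b * a

/-- Connectedness in the commuting graph. -/
abbrev Conn : Subgroup G → Subgroup G → Prop := Relation.ReflTransGen R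

theorem klein_congr {A : Type*} {B : Type*} [Group A] [Group B] (e : A ≃* B)
    (h : IsKleinFour A) : IsKleinFour B :=
  ⟨by rw [← Nat.card_congr e.toEquiv]; exact h.card_four,
    by rw [← Monoid.exponent_eq_of_mulEquiv e]; exact h.exponent_two⟩

theorem klein_cj {A : Subgroup G} (g : G) (h : IsKleinFour A) : IsKleinFour (cj g A) :=
  klein_congr (A.equivMapOfInjective _ (MulAut.conj g).injective) h

theorem conn_symm {A B : Subgroup G} (h : Conn A B) : Conn B A := by
  induction h with
  | refl => exact Relation.ReflTransGen.refl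
  | tail _ h ih =>
    exact (Relation.ReflTransGen.single
      (show R _ _ from ⟨h.2.1, h.1, fun b hb a ha => (h.2.2 a ha b hb).symm⟩)).trans ih

theorem conn_cj {A B : Subgroup G} (g : G) (h : Conn A B) : Conn (cj g A) (cj g B) := by
  refine Relation.ReflTransGen.lift (p := R (G := G)) (cj g) (fun A B h => ?_) _ _ h
  refine ⟨klein_cj g h.1, klein_cj g h.2.1, ?_⟩
  rintro _ ⟨a, ha, rfl⟩ _ ⟨b, hb, rfl⟩
  rw [← map_mul, ← map_mul, h.2.2 a ha b hb]

theorem cj_cj (g h : G) (A : Subgroup G) : cj g (cj h A) = cj (g * h) A := by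
  rw [cj, cj, cj, Subgroup.map_map]; congr 1; ext x; simp [MulAut.conj_apply, mul_assoc]

theorem cj_one (A : Subgroup G) : cj 1 A = A := by
  rw [cj, map_one]; exact Subgroup.map_id A

theorem cj_inv_cancel (g : G) (A : Subgroup G) : cj g (cj g⁻¹ A) = A := by
  rw [cj_cj, mul_inv_cancel, cj_one]

theorem cj_mono (g : G) {A B : Subgroup G} (h : A ≤ B) : cj g A ≤ cj g B :=
  Subgroup.map_mono h

/-- A group of 2-rank at least 2 has a four-subgroup. -/
theorem exists_klein_of_rank {H : Type*} [Group H] (h : ¬ Cfsg.PRankLE 2 1 H) :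
    ∃ K : Subgroup H, IsKleinFour K := by
  simp only [Cfsg.PRankLE, not_forall, not_le, pow_one] at h
  obtain ⟨A, hA, hA2, hcard⟩ := h
  have hfin : Finite A := Nat.finite_of_card_ne_zero (by omega)
  have : Nontrivial A := Finite.one_lt_card_iff_nontrivial.1 (by omega)
  obtain ⟨a, ha⟩ := exists_ne (1 : A)
  obtain ⟨b, hb1, hba⟩ : ∃ b : A, b ≠ 1 ∧ b ≠ a := by
    by_contra h'
    push Not at h'
    have hu : (Set.univ : Set A) ⊆ {1, a} := fun x _ => by
      by_cases hx : x = 1
      · exact Or.inl hx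
      · exact Or.inr (h' x hx)
    have h1 := Set.ncard_le_ncard hu (Set.toFinite _)
    have h2 : ({1, a} : Set A).ncard ≤ 2 := (Set.ncard_insert_le _ _).trans (by simp)
    rw [Set.ncard_univ] at h1
    omega
  obtain ⟨K, hK, -⟩ := CfsgLib.KGroups.exists_klein (a := (b : H)) (b := (a : H))
    (orderOf_eq_prime (hA2 _ b.2) (fun h => hb1 (Subtype.ext h)))
    (orderOf_eq_prime (hA2 _ a.2) (fun h => ha (Subtype.ext h)))
    (congrArg Subtype.val (hA.is_comm.comm b a)) (fun h => hba (Subtype.ext h))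
  exact ⟨K, hK⟩

/-- A subgroup containing a four-subgroup has 2-rank at least 2. -/
theorem rank_of_klein {Q K : Subgroup G} (hKQ : K ≤ Q) (hK : IsKleinFour K) :
    ¬ Cfsg.PRankLE 2 1 Q := by
  intro h
  have hK' : IsKleinFour (K.subgroupOf Q) :=
    klein_congr (Subgroup.subgroupOfEquivOfLe hKQ).symm hK
  have hc := h (K.subgroupOf Q) IsKleinFour.isMulCommutative fun a ha => by
    have := congrArg Subtype.val (IsKleinFour.mul_self (⟨a, ha⟩ : K.subgroupOf Q))
    rw [pow_two]; exact this
  rw [hK'.card_four] at hc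
  omega

/-- Let G be a finite group of 2-rank at least 2 and S a Sylow 2-subgroup whose commuting graph of Klein four-subgroups is
connected. Then the commuting graph of Klein four-subgroups of G is disconnected if and only if the 2-generated core — the
subgroup generated by the normalizers N_G(Q) of the subgroups Q of S that contain a Klein four-group — is a proper
subgroup of G. -/
theorem result {G : Type*} [Group G] [Finite G] (h2 : ¬ Cfsg.PRankLE 2 1 G)
    (S : Sylow 2 G) (hS : Cfsg.IsFourConnected (S : Subgroup G)) :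
    ¬ Cfsg.IsFourConnected G ↔
      (⨆ Q : {Q : Subgroup G // Q ≤ (S : Subgroup G) ∧ ¬ Cfsg.PRankLE 2 1 Q},
          Subgroup.normalizer ((Q : Subgroup G) : Set G)) ≠ ⊤ := by
  have : Fact (Nat.Prime 2) := ⟨Nat.prime_two⟩
  obtain ⟨K0, hK0⟩ := exists_klein_of_rank h2
  obtain ⟨T0, hT0⟩ := (IsPGroup.of_card (p := 2) (n := 2) hK0.card_four).exists_le_sylow
  obtain ⟨g0, hg0⟩ := MulAction.exists_smul_eq G T0 S
  have hT0S : cj g0 (T0 : Subgroup G) = (S : Subgroup G) := by
    rw [← hg0]; rfl
  set U0 := cj g0 K0 with hU0def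
  have hU0 : IsKleinFour U0 := klein_cj g0 hK0
  have hU0S : U0 ≤ (S : Subgroup G) := hT0S ▸ cj_mono g0 hT0
  set M : Subgroup G := ⨆ Q : {Q : Subgroup G // Q ≤ (S : Subgroup G) ∧ ¬ Cfsg.PRankLE 2 1 Q},
    Subgroup.normalizer ((Q : Subgroup G) : Set G) with hMdef
  have hQM : ∀ Q : Subgroup G, Q ≤ (S : Subgroup G) → (∃ K, IsKleinFour (K : Subgroup G) ∧ K ≤ Q) →
      Subgroup.normalizer (Q : Set G) ≤ M := fun Q hQ ⟨K, hK, hKQ⟩ =>
    le_iSup (fun Q : {Q : Subgroup G // Q ≤ (S : Subgroup G) ∧ ¬ Cfsg.PRankLE 2 1 Q} =>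
      Subgroup.normalizer ((Q : Subgroup G) : Set G)) ⟨Q, hQ, rank_of_klein hKQ hK⟩
  have hSM : (S : Subgroup G) ≤ M :=
    Subgroup.le_normalizer.trans (hQM _ le_rfl ⟨U0, hU0, hU0S⟩)
  -- two-subgroups of `M` are conjugate into `S` inside `M`
  have intoS : ∀ Q : Subgroup G, IsPGroup 2 Q → Q ≤ M → ∃ m ∈ M, cj m Q ≤ (S : Subgroup G) := by
    intro Q hQ hQle
    obtain ⟨T, hT⟩ := (hQ.comap_subtype (K := M)).exists_le_sylow
    obtain ⟨m, hm⟩ := MulAction.exists_smul_eq M T (S.subtype hSM)
    refine ⟨m, m.2, ?_⟩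
    rintro _ ⟨x, hx, rfl⟩
    have hx' : (⟨x, hQle hx⟩ : M) ∈ (T : Subgroup M) := hT hx
    have : m * ⟨x, hQle hx⟩ * m⁻¹ ∈ ((m • T : Sylow 2 M) : Subgroup M) := by
      rw [Sylow.coe_subgroup_smul]
      exact ⟨_, hx', rfl⟩
    rw [hm, Sylow.coe_subtype] at this
    exact this
  have hnorm : ∀ Q : Subgroup G, IsPGroup 2 Q → Q ≤ M →
      (∃ K, IsKleinFour (K : Subgroup G) ∧ K ≤ Q) → Subgroup.normalizer (Q : Set G) ≤ M := by
    rintro Q hQ hQle ⟨K, hK, hKQ⟩ x hx
    obtain ⟨m, hm, hmQ⟩ := intoS Q hQ hQle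
    have hx' : m * x * m⁻¹ ∈ Subgroup.normalizer ((cj m Q : Subgroup G) : Set G) :=
      Subgroup.le_normalizer_map (MulAut.conj m).toMonoidHom ⟨x, hx, rfl⟩
    have := hQM _ hmQ ⟨cj m K, klein_cj m hK, cj_mono m hKQ⟩ hx'
    simpa [mul_assoc] using M.mul_mem (M.mul_mem (M.inv_mem hm) this) hm
  constructor
  · intro hdis htop
    apply hdis
    have inS : ∀ U : Subgroup G, U ≤ (S : Subgroup G) → IsKleinFour U → Conn U0 U := by
      intro U hUS hU
      have h := hS (U0.subgroupOf S) (U.subgroupOf S)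
        (klein_congr (Subgroup.subgroupOfEquivOfLe hU0S).symm hU0)
        (klein_congr (Subgroup.subgroupOfEquivOfLe hUS).symm hU)
      have h2 : Conn ((U0.subgroupOf S).map (S : Subgroup G).subtype)
          ((U.subgroupOf S).map (S : Subgroup G).subtype) :=
        Relation.ReflTransGen.lift (p := R (G := G))
          (fun A : Subgroup (S : Subgroup G) => A.map (S : Subgroup G).subtype)
          (fun A B h => by
            refine ⟨klein_congr (A.equivMapOfInjective _ (Subgroup.subtype_injective _)) h.1,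
              klein_congr (B.equivMapOfInjective _ (Subgroup.subtype_injective _)) h.2.1, ?_⟩
            rintro _ ⟨a, ha, rfl⟩ _ ⟨b, hb, rfl⟩
            rw [← map_mul, ← map_mul, h.2.2 a ha b hb]) _ _ h
      rwa [Subgroup.map_subgroupOf_eq_of_le hU0S, Subgroup.map_subgroupOf_eq_of_le hUS] at h2
    let St : Subgroup G :=
      { carrier := {g | Conn U0 (cj g U0)}
        one_mem' := by show Conn U0 (cj 1 U0); rw [cj_one]
        mul_mem' := fun {a b} ha hb => by
          show Conn U0 (cj (a * b) U0)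
          rw [← cj_cj]; exact Relation.ReflTransGen.trans ha (conn_cj a hb)
        inv_mem' := fun {a} ha => by
          show Conn U0 (cj a⁻¹ U0)
          have h := conn_symm (conn_cj a⁻¹ (ha : Conn U0 (cj a U0)))
          rwa [cj_cj, inv_mul_cancel, cj_one] at h }
    have hall : ∀ g, Conn U0 (cj g U0) := by
      have hle : M ≤ St := by
        rw [hMdef]
        refine iSup_le ?_
        rintro ⟨Q, hQS, hQr⟩ g hg
        obtain ⟨K, hK⟩ := exists_klein_of_rank hQr
        set K' := K.map Q.subtype with hK'def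
        have hK' : IsKleinFour K' :=
          klein_congr (K.equivMapOfInjective _ Q.subtype_injective) hK
        have hK'Q : K' ≤ Q := Subgroup.map_subtype_le K
        have hgK : cj g K' ≤ Q := by
          rintro _ ⟨x, hx, rfl⟩
          exact (Subgroup.mem_normalizer_iff.1 hg x).1 (hK'Q hx)
        show Conn U0 (cj g U0)
        exact (inS _ (hgK.trans hQS) (klein_cj g hK')).trans
          (conn_cj g (conn_symm (inS K' (hK'Q.trans hQS) hK')))
      exact fun g => hle (htop ▸ Subgroup.mem_top g)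
    have hany : ∀ U : Subgroup G, IsKleinFour U → Conn U0 U := by
      intro U hU
      obtain ⟨T, hT⟩ := (IsPGroup.of_card (p := 2) (n := 2) hU.card_four).exists_le_sylow
      obtain ⟨g, hg⟩ := MulAction.exists_smul_eq G S T
      have hT' : cj g (S : Subgroup G) = (T : Subgroup G) := by rw [← hg]; rfl
      have hle : cj g⁻¹ U ≤ (S : Subgroup G) := by
        have := cj_mono g⁻¹ (hT.trans hT'.ge)
        rwa [cj_cj, inv_mul_cancel, cj_one] at this
      have := (hall g).trans (conn_cj g (inS _ hle (klein_cj g⁻¹ hU)))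
      rwa [cj_inv_cancel] at this
    intro U V hU hV
    exact (conn_symm (hany U hU)).trans (hany V hV)
  · intro hproper hconn
    apply hproper
    have hfour : ∀ U : Subgroup G, IsKleinFour U → U ≤ M := by
      intro U hU
      have hU' := hconn U0 U hU0 hU
      clear hU
      induction hU' with
      | refl => exact hU0S.trans hSM
      | tail _ h ih =>
        exact fun b hb => hnorm _ (IsPGroup.of_card (p := 2) (n := 2) h.1.card_four) ih
          ⟨_, h.1, le_rfl⟩ (Subgroup.centralizer_le_normalizer _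
            (Subgroup.mem_centralizer_iff.2 fun a ha => h.2.2 a ha b hb))
    rw [eq_top_iff]
    rintro g -
    let T : Sylow 2 G := g • S
    have hTdef : (T : Subgroup G) = cj g (S : Subgroup G) := rfl
    have hgU : cj g U0 ≤ (T : Subgroup G) ⊓ M :=
      le_inf (hTdef ▸ cj_mono g hU0S) (hfour _ (klein_cj g hU0))
    have hTM : (T : Subgroup G) ≤ M := by
      by_contra hnot
      set Q := (T : Subgroup G) ⊓ M with hQdef
      have hlt : Q.subgroupOf (T : Subgroup G) < ⊤ := by
        rw [lt_top_iff_ne_top, ne_eq, Subgroup.subgroupOf_eq_top]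
        exact fun h => hnot (h.trans inf_le_right)
      have := T.isPGroup'.isNilpotent
      obtain ⟨⟨x, hxT⟩, hxN, hxQ⟩ :=
        SetLike.exists_of_lt (Group.normalizerCondition_of_isNilpotent _ hlt)
      have hxN' : x ∈ Subgroup.normalizer (Q : Set G) := by
        rw [Subgroup.mem_normalizer_iff] at hxN ⊢
        intro y
        refine ⟨fun hy => ?_, fun hy => ?_⟩
        · exact (hxN ⟨y, hy.1⟩).1 hy
        · have hyT : y ∈ (T : Subgroup G) := by
            have := mul_mem (mul_mem (inv_mem hxT) hy.1) hxT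
            simpa [mul_assoc] using this
          exact (hxN ⟨y, hyT⟩).2 hy
      have hxM : x ∈ M :=
        hnorm Q (T.isPGroup'.to_le inf_le_left) inf_le_right ⟨_, klein_cj g hU0, hgU⟩ hxN'
      exact hxQ ⟨hxT, hxM⟩
    obtain ⟨m, hm⟩ := MulAction.exists_smul_eq M (S.subtype hSM) (T.subtype hTM)
    have hm' : (m : G) • S = T :=
      Sylow.subtype_injective ((Sylow.smul_subtype hSM m).symm.trans hm)
    have hN : (m : G)⁻¹ * g ∈ Subgroup.normalizer ((S : Subgroup G) : Set G) := by
      have he : ((m : G)⁻¹ * g) • S = S := by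
        rw [mul_smul]
        show (m : G)⁻¹ • T = S
        rw [← hm', inv_smul_smul]
      exact Sylow.smul_eq_iff_mem_normalizer.1 he
    have := M.mul_mem m.2 (hQM _ le_rfl ⟨U0, hU0, hU0S⟩ hN)
    rwa [mul_inv_cancel_left] at this

end Cfsg.Agent.S0520
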