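import Cfsg.Statements.S0521
import Cfsg.Agent.Lib.PSolvable.HallHigman
import Cfsg.Agent.Lib.CoprimeAction.Basic
import Cfsg.Agent.Lib.PGroups.Frattini
import Cfsg.Agent.Lib.Subnormal.BaerSuzuki

set_option autoImplicit false
open Cfsg

namespace Cfsg.Agent.S0521

variable {X : Type*} [Group X] [Finite X] {p : ℕ} [hp : Fact p.Prime]

/-- An element of order prime to `p` fixing `n` and moving `v` by `n` fixes `v`. -/
theorem fix_of_coprime {h v n : X} (hh : (orderOf h).Coprime p) (hn : n ^ p = 1)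
    (h1 : h * n * h⁻¹ = n) (h2 : h * v * h⁻¹ = n * v) : h * v * h⁻¹ = v := by
  have key : ∀ k : ℕ, h ^ k * v * (h ^ k)⁻¹ = n ^ k * v := by
    intro k
    induction k with
    | zero => simp
    | succ k ih =>
      have hk : h * n ^ k * h⁻¹ = n ^ k := by
        have := congrArg (· ^ k) h1
        simpa [conj_pow] using this
      calc h ^ (k + 1) * v * (h ^ (k + 1))⁻¹ = h * (h ^ k * v * (h ^ k)⁻¹) * h⁻¹ := by
            rw [pow_succ']; group
        _ = (h * n ^ k * h⁻¹) * (h * v * h⁻¹) := by rw [ih]; group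
        _ = n ^ (k + 1) * v := by rw [hk, h2, pow_succ, mul_assoc]
  have := key (orderOf h)
  rw [pow_orderOf_eq_one, one_mul, inv_one, mul_one] at this
  have hk1 : n ^ orderOf h = 1 := mul_eq_right.1 this.symm
  rw [h2, (orderOf_eq_one_iff.1 (Nat.eq_one_of_dvd_coprimes hh
    (orderOf_dvd_of_pow_eq_one hk1) (orderOf_dvd_of_pow_eq_one hn)) : n = 1), one_mul]

/-- A `p`-element normalizing a subgroup of order dividing `p` centralizes it. -/
theorem fix_line {x a : X} {e : ℕ} (hx : x ^ p ^ e = 1) (ha : a ^ p = 1)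
    (h : x * a * x⁻¹ ∈ Subgroup.zpowers a) : x * a * x⁻¹ = a := by
  obtain ⟨i, hi⟩ := Subgroup.mem_zpowers_iff.1 h
  have key : ∀ k : ℕ, x ^ k * a * (x ^ k)⁻¹ = a ^ (i ^ k) := by
    intro k
    induction k with
    | zero => simp
    | succ k ih =>
      calc x ^ (k + 1) * a * (x ^ (k + 1))⁻¹ = x * (x ^ k * a * (x ^ k)⁻¹) * x⁻¹ := by
            rw [pow_succ']; group
        _ = x * a ^ (i ^ k) * x⁻¹ := by rw [ih]
        _ = (x * a * x⁻¹) ^ (i ^ k) := (conj_zpow).symm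
        _ = a ^ (i ^ (k + 1)) := by rw [← hi, ← zpow_mul, pow_succ']
  have h1 := key (p ^ e)
  rw [hx, one_mul, inv_one, mul_one] at h1
  rw [← hi]
  by_cases ha1 : a = 1
  · simp [ha1]
  have hord : orderOf a = p := orderOf_eq_prime ha ha1
  have h2 : ((i ^ p ^ e : ℤ) : ZMod p) = ((1 : ℤ) : ZMod p) := by
    rw [ZMod.intCast_eq_intCast_iff]
    have : a ^ (i ^ p ^ e) = a ^ (1 : ℤ) := by rw [zpow_one]; exact h1.symm
    rwa [zpow_eq_zpow_iff_modEq, hord] at this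
  push_cast at h2
  rw [ZMod.pow_card_pow] at h2
  have h3 : (i : ZMod p) = ((1 : ℤ) : ZMod p) := by simpa using h2
  rw [ZMod.intCast_eq_intCast_iff] at h3
  conv_rhs => rw [← zpow_one a]
  rw [zpow_eq_zpow_iff_modEq, hord]
  exact h3

/-- Two transvections, one fixing the centre of the other, generate a `p`-group. -/
theorem pair_fixed {V : Subgroup X} (hVp : IsPGroup p V) (hVc : ∀ u ∈ V, ∀ v ∈ V, u * v = v * u)
    (hVe : ∀ v ∈ V, v ^ p = 1) (hC : Subgroup.centralizer (V : Set X) ≤ V) {x y a b : X}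
    (ha : a ∈ V) (hb : b ∈ V) (hxa : x * a * x⁻¹ = a) (hya : y * a * y⁻¹ = a)
    (hyb : y * b * y⁻¹ = b) (hxv : ∀ v ∈ V, x * v * x⁻¹ * v⁻¹ ∈ Subgroup.zpowers a)
    (hyv : ∀ v ∈ V, y * v * y⁻¹ * v⁻¹ ∈ Subgroup.zpowers b) :
    IsPGroup p (Subgroup.closure ({x, y} : Set X)) := by
  set W := Subgroup.zpowers a
  set U := Subgroup.zpowers a ⊔ Subgroup.zpowers b with hU
  have hWU : W ≤ U := le_sup_left
  have hUV : U ≤ V := sup_le (Subgroup.zpowers_le.2 ha) (Subgroup.zpowers_le.2 hb)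
  let P : X → Prop := fun h =>
    h * a * h⁻¹ = a ∧ (∀ u ∈ U, h * u * h⁻¹ * u⁻¹ ∈ W) ∧ ∀ v ∈ V, h * v * h⁻¹ * v⁻¹ ∈ U
  have hfixW : ∀ {h : X}, h * a * h⁻¹ = a → ∀ w ∈ W, h * w * h⁻¹ = w := fun {h} hh w hw => by
    obtain ⟨i, rfl⟩ := hw
    show h * a ^ i * h⁻¹ = a ^ i
    rw [← conj_zpow, hh]
  have P1 : P 1 := ⟨by simp, fun u _ => by simp, fun v _ => by simp⟩
  have Pmul : ∀ g h, P g → P h → P (g * h) := by
    intro g h hg hh
    have hgU : ∀ u ∈ U, g * u * g⁻¹ ∈ U := fun u hu => by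
      have := U.mul_mem (hWU (hg.2.1 u hu)) hu
      rwa [inv_mul_cancel_right] at this
    refine ⟨?_, fun u hu => ?_, fun v hv => ?_⟩
    · rw [show g * h * a * (g * h)⁻¹ = g * (h * a * h⁻¹) * g⁻¹ by group, hh.1, hg.1]
    · rw [show g * h * u * (g * h)⁻¹ * u⁻¹ =
          (g * (h * u * h⁻¹ * u⁻¹) * g⁻¹) * (g * u * g⁻¹ * u⁻¹) by group,
        hfixW hg.1 _ (hh.2.1 u hu)]
      exact W.mul_mem (hh.2.1 u hu) (hg.2.1 u hu)
    · rw [show g * h * v * (g * h)⁻¹ * v⁻¹ =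
          (g * (h * v * h⁻¹ * v⁻¹) * g⁻¹) * (g * v * g⁻¹ * v⁻¹) by group]
      exact U.mul_mem (hgU _ (hh.2.2 v hv)) (hg.2.2 v hv)
  have hxP : P x := by
    refine ⟨hxa, fun u hu => hxv u (hUV hu), fun v hv => hWU (hxv v hv)⟩
  have hyP : P y := by
    refine ⟨hya, fun u hu => ?_, fun v hv => (le_sup_right : _ ≤ U) (hyv v hv)⟩
    have hle : U ≤ Subgroup.centralizer ({y} : Set X) := by
      refine sup_le (Subgroup.zpowers_le.2 ?_) (Subgroup.zpowers_le.2 ?_)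
      · exact Subgroup.mem_centralizer_singleton_iff.2 (mul_inv_eq_iff_eq_mul.1 hya).symm
      · exact Subgroup.mem_centralizer_singleton_iff.2 (mul_inv_eq_iff_eq_mul.1 hyb).symm
    rw [← Subgroup.mem_centralizer_singleton_iff.1 (hle hu), mul_inv_cancel_right, mul_inv_cancel]
    exact W.one_mem
  have hall : ∀ h ∈ Subgroup.closure ({x, y} : Set X), P h := by
    intro h hh
    induction hh using Subgroup.closure_induction with
    | mem z hz =>
      rcases hz with rfl | rfl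
      exacts [hxP, hyP]
    | one => exact P1
    | mul g h _ _ hg hh => exact Pmul g h hg hh
    | inv g _ hg =>
      have hp' : ∀ k : ℕ, P (g ^ k) := fun k => by
        induction k with
        | zero => simpa using P1
        | succ k ih => rw [pow_succ]; exact Pmul _ _ ih hg
      have hinv : g⁻¹ = g ^ (orderOf g - 1) := by
        refine inv_eq_of_mul_eq_one_right ?_
        rw [← pow_succ', Nat.sub_add_cancel (orderOf_pos g), pow_orderOf_eq_one]
      rw [hinv]; exact hp' _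
  intro h
  obtain ⟨e, m, hm, hord⟩ :=
    Nat.exists_eq_pow_mul_and_not_dvd (orderOf_pos (h : X)).ne' p hp.out.ne_one
  refine ⟨e, Subtype.ext ?_⟩
  have hcop : (orderOf ((h : X) ^ p ^ e)).Coprime p := by
    rw [orderOf_pow_of_dvd (pow_ne_zero _ hp.out.ne_zero) (Dvd.intro m hord.symm), hord,
      Nat.mul_div_cancel_left _ (pow_pos hp.out.pos _)]
    exact (hp.out.coprime_iff_not_dvd.2 hm).symm
  obtain ⟨q1, q2, q3⟩ := hall _ (pow_mem h.2 (p ^ e))
  have hfU : ∀ u ∈ U, (h : X) ^ p ^ e * u * ((h : X) ^ p ^ e)⁻¹ = u := fun u hu =>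
    fix_of_coprime hcop (hVe _ (hUV (hWU (q2 u hu)))) (hfixW q1 _ (q2 u hu)) (by group)
  have hfV : ∀ v ∈ V, (h : X) ^ p ^ e * v * ((h : X) ^ p ^ e)⁻¹ = v := fun v hv =>
    fix_of_coprime hcop (hVe _ (hUV (q3 v hv))) (hfU _ (q3 v hv)) (by group)
  have hV : (h : X) ^ p ^ e ∈ V := hC (Subgroup.mem_centralizer_iff.2 fun v hv =>
    (mul_inv_eq_iff_eq_mul.1 (hfV v hv)).symm)
  obtain ⟨k, hk⟩ := hVp ⟨_, hV⟩
  have hk' : ((h : X) ^ p ^ e) ^ p ^ k = 1 := congrArg Subtype.val hk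
  exact orderOf_eq_one_iff.1 (Nat.eq_one_of_dvd_coprimes (hcop.pow_right k) dvd_rfl
    (orderOf_dvd_of_pow_eq_one hk'))

/-- Two transvections neither of which fixes the centre of the other give an element of even order. -/
theorem pair_moved (hX : Odd (Nat.card X)) {V : Subgroup X}
    (hVc : ∀ u ∈ V, ∀ v ∈ V, u * v = v * u) (hVe : ∀ v ∈ V, v ^ p = 1) {x y a₀ b : X}
    (ha : a₀ ∈ V) (hb : b ∈ V) (hxa : x * a₀ * x⁻¹ = a₀) (hyb : y * b * y⁻¹ = b)
    (hxv : ∀ v ∈ V, x * v * x⁻¹ * v⁻¹ ∈ Subgroup.zpowers a₀)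
    (hyv : ∀ v ∈ V, y * v * y⁻¹ * v⁻¹ ∈ Subgroup.zpowers b)
    (hxb : x * b * x⁻¹ ≠ b) (hya : y * a₀ * y⁻¹ ≠ a₀) : False := by
  obtain ⟨a, hadef⟩ : ∃ a, x * b * x⁻¹ * b⁻¹ = a := ⟨_, rfl⟩
  have haW : a ∈ Subgroup.zpowers a₀ := hadef ▸ hxv b hb
  have haV : a ∈ V := (Subgroup.zpowers_le.2 ha) haW
  have ha1 : a ≠ 1 := fun h => hxb (mul_inv_eq_one.1 (hadef.trans h))
  have hxa' : x * a * x⁻¹ = a := by
    obtain ⟨i, hi⟩ := haW
    rw [← hi]
    show x * a₀ ^ i * x⁻¹ = a₀ ^ i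
    rw [← conj_zpow, hxa]
  have hxb' : x * b * x⁻¹ = a * b := by rw [← hadef, inv_mul_cancel_right]
  have ha₀1 : a₀ ≠ 1 := fun h => hya (by simp [h])
  have ha₀W : a₀ ∈ Subgroup.zpowers a := by
    obtain ⟨i, hi⟩ := haW
    have hi' : a₀ ^ i = a := hi
    have hord : orderOf a₀ = p := orderOf_eq_prime (hVe _ ha) ha₀1
    have hpi : ¬ (p : ℤ) ∣ i := fun hd => ha1 (by
      rw [← hi', ← orderOf_dvd_iff_zpow_eq_one, hord]; exact hd)
    obtain ⟨v, u, huv⟩ := (Nat.prime_iff_prime_int.1 hp.out).coprime_iff_not_dvd.2 hpi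
    refine ⟨u, ?_⟩
    show a ^ u = a₀
    rw [← hi', ← zpow_mul, show i * u = 1 - v * p by linarith, zpow_sub, zpow_one, zpow_mul',
      zpow_natCast, hVe _ ha, one_zpow, inv_one, mul_one]
  obtain ⟨j, hj⟩ := hyv a haV
  have hj' : y * a * y⁻¹ = b ^ j * a := by
    rw [show b ^ j = y * a * y⁻¹ * a⁻¹ from hj, inv_mul_cancel_right]
  have hb1 : b ≠ 1 := fun h => hxb (by simp [h])
  have hbord : orderOf b = p := orderOf_eq_prime (hVe _ hb) hb1
  have hpj : ¬ (p : ℤ) ∣ j := fun hd => hya (by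
    have hya' : y * a * y⁻¹ = a := by
      rw [hj', orderOf_dvd_iff_zpow_eq_one.1 (hbord ▸ hd), one_mul]
    obtain ⟨i, hi⟩ := ha₀W
    rw [← hi]
    show y * a ^ i * y⁻¹ = a ^ i
    rw [← conj_zpow, hya'])
  obtain ⟨v, u, huv⟩ := (Nat.prime_iff_prime_int.1 hp.out).coprime_iff_not_dvd.2 hpj
  -- a power of `y` moving `a` to `b⁻¹ * a`
  have hpow : ∀ k : ℕ, y ^ k * a * (y ^ k)⁻¹ = b ^ (j * k) * a := by
    intro k
    induction k with
    | zero => simp
    | succ k ih =>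
      calc y ^ (k + 1) * a * (y ^ (k + 1))⁻¹ = y * (y ^ k * a * (y ^ k)⁻¹) * y⁻¹ := by
            rw [pow_succ']; group
        _ = y * b ^ (j * k) * y⁻¹ * (y * a * y⁻¹) := by rw [ih]; group
        _ = b ^ (j * (k + 1 : ℕ)) * a := by
            rw [← conj_zpow, hyb, hj', ← mul_assoc, ← zpow_add]
            congr 2
            push_cast; ring
  let k := ((-u) % (p : ℤ)).toNat
  have hk : (k : ℤ) = (-u) % (p : ℤ) :=
    Int.toNat_of_nonneg (Int.emod_nonneg _ (by exact_mod_cast hp.out.ne_zero))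
  set z := y ^ k with hz
  have hza : z * a * z⁻¹ = b⁻¹ * a := by
    rw [hz, hpow, ← zpow_neg_one b]
    congr 1
    rw [zpow_eq_zpow_iff_modEq, hbord, hk]
    have h1 : (-u) % (p : ℤ) ≡ -u [ZMOD p] := Int.mod_modEq _ _
    refine (h1.mul_left j).trans (Int.ModEq.symm (Int.modEq_iff_dvd.2 ⟨v, ?_⟩))
    linarith
  have hzb : z * b * z⁻¹ = b := by
    have : ∀ m : ℕ, y ^ m * b * (y ^ m)⁻¹ = b := fun m => by
      induction m with
      | zero => simp
      | succ m ih =>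
        rw [show y ^ (m + 1) * b * (y ^ (m + 1))⁻¹ = y * (y ^ m * b * (y ^ m)⁻¹) * y⁻¹ by
          rw [pow_succ']; group, ih, hyb]
    exact this k
  have hcomm : a * b = b * a := hVc a haV b hb
  set w := x * z * x with hw
  have hwa : w * a * w⁻¹ = b⁻¹ := by
    calc w * a * w⁻¹ = x * (z * (x * a * x⁻¹) * z⁻¹) * x⁻¹ := by rw [hw]; group
      _ = x * (z * a * z⁻¹) * x⁻¹ := by rw [hxa']
      _ = (x * b * x⁻¹)⁻¹ * (x * a * x⁻¹) := by rw [hza]; group
      _ = b⁻¹ := by rw [hxb', hxa', mul_inv_rev, inv_mul_cancel_right]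
  have hwb : w * b * w⁻¹ = a := by
    calc w * b * w⁻¹ = x * (z * (x * b * x⁻¹) * z⁻¹) * x⁻¹ := by rw [hw]; group
      _ = x * ((z * a * z⁻¹) * (z * b * z⁻¹)) * x⁻¹ := by rw [hxb']; group
      _ = x * (b⁻¹ * (a * b)) * x⁻¹ := by rw [hza, hzb, mul_assoc b⁻¹ a b]
      _ = a := by rw [hcomm, inv_mul_cancel_left, hxa']
  have hw2 : w ^ 2 * a * (w ^ 2)⁻¹ = a⁻¹ := by
    calc w ^ 2 * a * (w ^ 2)⁻¹ = w * (w * a * w⁻¹) * w⁻¹ := by rw [pow_two]; group
      _ = (w * b * w⁻¹)⁻¹ := by rw [hwa]; group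
      _ = a⁻¹ := by rw [hwb]
  have hev : ∀ m : ℕ, (w ^ 2) ^ (2 * m) * a * ((w ^ 2) ^ (2 * m))⁻¹ = a := by
    intro m
    induction m with
    | zero => simp
    | succ m ih =>
      calc (w ^ 2) ^ (2 * (m + 1)) * a * ((w ^ 2) ^ (2 * (m + 1)))⁻¹
          = w ^ 2 * (w ^ 2 * ((w ^ 2) ^ (2 * m) * a * ((w ^ 2) ^ (2 * m))⁻¹) * (w ^ 2)⁻¹) *
              (w ^ 2)⁻¹ := by
            rw [show 2 * (m + 1) = 2 * m + 1 + 1 by ring, pow_succ' _ (2 * m + 1), pow_succ']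
            group
        _ = w ^ 2 * a⁻¹ * (w ^ 2)⁻¹ := by rw [ih, hw2]
        _ = (w ^ 2 * a * (w ^ 2)⁻¹)⁻¹ := by group
        _ = a := by rw [hw2, inv_inv]
  obtain ⟨m, hm⟩ := hX.of_dvd_nat (orderOf_dvd_natCard (w ^ 2))
  have h5 : a⁻¹ = a := by
    conv_rhs => rw [← show (w ^ 2) ^ orderOf (w ^ 2) * a * ((w ^ 2) ^ orderOf (w ^ 2))⁻¹ = a by
      rw [pow_orderOf_eq_one, one_mul, inv_one, mul_one]]
    rw [hm, pow_succ', show w ^ 2 * (w ^ 2) ^ (2 * m) * a * (w ^ 2 * (w ^ 2) ^ (2 * m))⁻¹ =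
      w ^ 2 * ((w ^ 2) ^ (2 * m) * a * ((w ^ 2) ^ (2 * m))⁻¹) * (w ^ 2)⁻¹ by group, hev, hw2]
  have ha2 : orderOf a = 2 := orderOf_eq_prime (by
    rw [pow_two]; exact mul_eq_one_iff_eq_inv.2 h5.symm) ha1
  exact (Nat.not_even_iff_odd.2 hX) (even_iff_two_dvd.2 (ha2 ▸ orderOf_dvd_natCard a))

/-- A `p`-element acting as a transvection on a self-centralizing normal elementary abelian
subgroup of a group of odd order lies in `O_p`. -/
theorem mem_pCore_of_transvection (hX : Odd (Nat.card X)) {V : Subgroup X} [V.Normal]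
    (hVp : IsPGroup p V) (hVc : ∀ u ∈ V, ∀ v ∈ V, u * v = v * u) (hVe : ∀ v ∈ V, v ^ p = 1)
    (hC : Subgroup.centralizer (V : Set X) ≤ V) {x : X} {e : ℕ} (hx : x ^ p ^ e = 1)
    {L : Subgroup X} [IsCyclic L] (hLV : L ≤ V) (hxL : ∀ l ∈ L, x * l * x⁻¹ ∈ L)
    (hxv : ∀ v ∈ V, x * v * x⁻¹ * v⁻¹ ∈ L) : x ∈ Cfsg.pCore p X := by
  obtain ⟨⟨a, haL⟩, hgen⟩ := IsCyclic.exists_generator (α := L)
  have hLa : ∀ l ∈ L, l ∈ Subgroup.zpowers a := fun l hl => by
    obtain ⟨i, hi⟩ := Subgroup.mem_zpowers_iff.1 (hgen ⟨l, hl⟩)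
    exact ⟨i, congrArg Subtype.val hi⟩
  have hxa : x * a * x⁻¹ = a := fix_line hx (hVe a (hLV haL)) (hLa _ (hxL a haL))
  refine CfsgLib.Subnormal.mem_pCore_of_forall_closure_pair fun g => ?_
  set y := g * x * g⁻¹ with hy
  set b := g * a * g⁻¹ with hb
  have hVn := (inferInstance : V.Normal).conj_mem
  have hbV : b ∈ V := hVn a (hLV haL) g
  have hyb : y * b * y⁻¹ = b := by
    rw [show y * b * y⁻¹ = g * (x * a * x⁻¹) * g⁻¹ by rw [hy, hb]; group, hxa]
  have hxv' : ∀ v ∈ V, x * v * x⁻¹ * v⁻¹ ∈ Subgroup.zpowers a := fun v hv => hLa _ (hxv v hv)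
  have hyv : ∀ v ∈ V, y * v * y⁻¹ * v⁻¹ ∈ Subgroup.zpowers b := fun v hv => by
    obtain ⟨i, hi⟩ := hxv' (g⁻¹ * v * g) (by simpa using hVn v hv g⁻¹)
    refine ⟨i, ?_⟩
    show b ^ i = _
    rw [hb, conj_zpow, show a ^ i = x * (g⁻¹ * v * g) * x⁻¹ * (g⁻¹ * v * g)⁻¹ from hi, hy]
    group
  by_cases hya : y * a * y⁻¹ = a
  · exact pair_fixed hVp hVc hVe hC (hLV haL) hbV hxa hya hyb hxv' hyv
  by_cases hxb : x * b * x⁻¹ = b
  · rw [Set.pair_comm]
    exact pair_fixed hVp hVc hVe hC hbV (hLV haL) hyb hxb hxa hyv hxv'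
  exact (pair_moved hX hVc hVe (hLV haL) hbV hxa hyb hxv' hyv hxb hya).elim

/-- The theorem for a group with trivial `p'`-core. -/
theorem sylow_le_pCore [Group.IsSolvable X] (hX : Odd (Nat.card X))
    (hcore : Cfsg.pPrimeCore p X = ⊥) (S : Sylow p X)
    (hS : IsCyclic (commutator (S : Subgroup X))) : (S : Subgroup X) ≤ Cfsg.pCore p X := by
  set P₀ := Cfsg.pCore p X with hP₀def
  have hPp : IsPGroup p P₀ := CfsgLib.Cores.isPGroup_pCore p X
  have hPS : P₀ ≤ (S : Subgroup X) := CfsgLib.Cores.pCore_le_sylow S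
  set Φ := (frattini P₀).map P₀.subtype with hΦdef
  have hΦn : Φ.Normal := CfsgLib.Cores.normal_map_subtype P₀ _
  have hΦP : Φ ≤ P₀ := Subgroup.map_subtype_le _
  have hΦp : IsPGroup p Φ := hPp.to_le hΦP
  set π := QuotientGroup.mk' Φ with hπdef
  have hπs : Function.Surjective π := QuotientGroup.mk'_surjective Φ
  have hker : π.ker = Φ := QuotientGroup.ker_mk' Φ
  set V := P₀.map π with hVdef
  have hVn : V.Normal := Subgroup.Normal.map inferInstance π hπs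
  have hVc : ∀ u ∈ V, ∀ v ∈ V, u * v = v * u := by
    rintro _ ⟨u, hu, rfl⟩ _ ⟨v, hv, rfl⟩
    rw [← commutatorElement_eq_one_iff_mul_comm, ← map_commutatorElement, ← MonoidHom.mem_ker, hker]
    exact ⟨_, CfsgLib.PGroups.commutatorElement_mem_frattini hPp ⟨u, hu⟩ ⟨v, hv⟩, rfl⟩
  have hVe : ∀ v ∈ V, v ^ p = 1 := by
    rintro _ ⟨u, hu, rfl⟩
    rw [← map_pow, ← MonoidHom.mem_ker, hker]
    exact ⟨_, CfsgLib.PGroups.pow_mem_frattini hPp ⟨u, hu⟩, rfl⟩
  have hC : Subgroup.centralizer (V : Set (X ⧸ Φ)) ≤ V := by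
    set K := (Subgroup.centralizer (V : Set (X ⧸ Φ))).comap π with hKdef
    have hKp : IsPGroup p K := by
      intro k
      obtain ⟨e, m, hm, hord⟩ :=
        Nat.exists_eq_pow_mul_and_not_dvd (orderOf_pos (k : X)).ne' p hp.out.ne_one
      refine ⟨e, Subtype.ext ?_⟩
      show (k : X) ^ p ^ e = 1
      set h := (k : X) ^ p ^ e with hdef
      have hcop : (orderOf h).Coprime p := by
        rw [hdef, orderOf_pow_of_dvd (pow_ne_zero _ hp.out.ne_zero) (Dvd.intro m hord.symm), hord,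
          Nat.mul_div_cancel_left _ (pow_pos hp.out.pos _)]
        exact (hp.out.coprime_iff_not_dvd.2 hm).symm
      obtain ⟨r, hr⟩ := IsPGroup.iff_card.1 (hPp.to_subgroup (frattini P₀))
      have hle : Subgroup.zpowers h ≤ Subgroup.centralizer (P₀ : Set X) := by
        refine CfsgLib.CoprimeAction.le_centralizer_of_frattini
          (Subgroup.normalizer_eq_top_iff (H := P₀) |>.2 inferInstance ▸ le_top)
          (by rw [Nat.card_zpowers, hr]; exact hcop.pow_right r) fun t ht u hu => ?_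
        obtain ⟨i, rfl⟩ := ht
        have hmem : π (h ^ i) ∈ Subgroup.centralizer (V : Set (X ⧸ Φ)) :=
          (K.zpow_mem (K.pow_mem k.2 _) i : h ^ i ∈ K)
        have h1 := Subgroup.mem_centralizer_iff.1 hmem (π u) ⟨u, hu, rfl⟩
        show u⁻¹ * (h ^ i * u * (h ^ i)⁻¹) ∈ Φ
        rw [← hker, MonoidHom.mem_ker]
        simp only [map_mul, map_inv]
        rw [← h1]
        group
      have hP : h ∈ P₀ := CfsgLib.PSolvable.centralizer_pCore_le
        CfsgLib.PSolvable.isPSolvable_of_isSolvable hcore (hle (Subgroup.mem_zpowers h))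
      obtain ⟨j, hj⟩ := hPp ⟨h, hP⟩
      have hj' : h ^ p ^ j = 1 := congrArg Subtype.val hj
      exact orderOf_eq_one_iff.1 (Nat.eq_one_of_dvd_coprimes (hcop.pow_right j) dvd_rfl
        (orderOf_dvd_of_pow_eq_one hj'))
    rintro v hv
    obtain ⟨u, rfl⟩ := hπs v
    have : (Subgroup.centralizer (V : Set (X ⧸ Φ))).Normal := inferInstance
    exact ⟨u, CfsgLib.Cores.le_pCore hKp (hv : u ∈ K), rfl⟩
  intro s hs
  let D : Subgroup X := (commutator (S : Subgroup X)).map (S : Subgroup X).subtype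
  have : IsCyclic D := isCyclic_of_surjective _
    ((commutator (S : Subgroup X)).equivMapOfInjective _ (Subgroup.subtype_injective _)).surjective
  have : IsCyclic (D.map π) := isCyclic_of_surjective _ (π.subgroupMap_surjective D)
  have : IsCyclic ((D.map π) ⊓ V : Subgroup (X ⧸ Φ)) := Subgroup.isCyclic_of_le inf_le_left
  have hDn : ∀ d ∈ D, s * d * s⁻¹ ∈ D := by
    rintro _ ⟨d, hd, rfl⟩
    exact ⟨⟨s, hs⟩ * d * ⟨s, hs⟩⁻¹, Subgroup.Normal.conj_mem inferInstance d hd _, rfl⟩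
  obtain ⟨e, he⟩ := S.2 ⟨s, hs⟩
  have hx : π s ^ p ^ e = 1 := by
    rw [← map_pow, show s ^ p ^ e = 1 from congrArg Subtype.val he, map_one]
  have hodd : Odd (Nat.card (X ⧸ Φ)) := hX.of_dvd_nat (Subgroup.card_quotient_dvd_card Φ)
  have hmem : π s ∈ Cfsg.pCore p (X ⧸ Φ) := by
    refine mem_pCore_of_transvection hodd (hPp.map π) hVc hVe hC hx
      (L := D.map π ⊓ V) inf_le_right ?_ ?_
    · rintro l ⟨⟨d, hd, rfl⟩, hlV⟩
      refine ⟨⟨s * d * s⁻¹, hDn d hd, by simp⟩, hVn.conj_mem _ hlV _⟩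
    · rintro _ ⟨u, hu, rfl⟩
      refine ⟨⟨s * u * s⁻¹ * u⁻¹, ⟨⟨s, hs⟩ * ⟨u, hPS hu⟩ * (⟨s, hs⟩ : (S : Subgroup X))⁻¹ * (⟨u, hPS hu⟩ : (S : Subgroup X))⁻¹,
        Subgroup.commutator_mem_commutator (Subgroup.mem_top _) (Subgroup.mem_top _), rfl⟩,
          by simp⟩, ?_⟩
      exact V.mul_mem (hVn.conj_mem _ ⟨u, hu, rfl⟩ _) (V.inv_mem ⟨u, hu, rfl⟩)
  rw [hP₀def, ← CfsgLib.Cores.comap_pCore_quotient Φ hΦp]
  exact hmem

/-- Let X be a finite solvable group of odd order, p a prime and S a Sylow p-subgroup of X whose commutator subgroup is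
cyclic. Then the product of the largest normal subgroup of X of order prime to p with S is a normal subgroup of X. -/
theorem result {X : Type*} [Group X] [Finite X] [Group.IsSolvable X]
    (hX : Odd (Nat.card X)) (p : ℕ) [Fact p.Prime] (S : Sylow p X) (hS : IsCyclic (commutator (S : Subgroup X))) :
    (Cfsg.pPrimeCore p X ⊔ (S : Subgroup X)).Normal := by
  set π := QuotientGroup.mk' (Cfsg.pPrimeCore p X) with hπdef
  have hπs : Function.Surjective π := QuotientGroup.mk'_surjective _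
  let T : Sylow p (X ⧸ Cfsg.pPrimeCore p X) := S.mapSurjective hπs
  have hTS : (T : Subgroup (X ⧸ Cfsg.pPrimeCore p X)) = (S : Subgroup X).map π := rfl
  have hT : IsCyclic (commutator (T : Subgroup (X ⧸ Cfsg.pPrimeCore p X))) := by
    rw [hTS, commutator_def, ← MonoidHom.range_eq_top.2 (π.subgroupMap_surjective (S : Subgroup X)),
      MonoidHom.range_eq_map, ← Subgroup.map_commutator, ← commutator_def]
    exact isCyclic_of_surjective _ (MonoidHom.subgroupMap_surjective _ _)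
  have : Group.IsSolvable (X ⧸ Cfsg.pPrimeCore p X) := Group.isSolvable_of_surjective hπs
  have hodd : Odd (Nat.card (X ⧸ Cfsg.pPrimeCore p X)) :=
    hX.of_dvd_nat (Subgroup.card_quotient_dvd_card _)
  have h := sylow_le_pCore hodd (CfsgLib.Cores.pPrimeCore_quotient_pPrimeCore p) T hT
  have heq : Cfsg.pCore p (X ⧸ Cfsg.pPrimeCore p X) = T :=
    le_antisymm (CfsgLib.Cores.pCore_le_sylow T) h
  have hn : ((S : Subgroup X).map π).Normal := by rw [← hTS, ← heq]; infer_instance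
  have := hn.comap π
  rwa [Subgroup.comap_map_eq, QuotientGroup.ker_mk', sup_comm] at this

end Cfsg.Agent.S0521
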