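import Cfsg.Statements.S0522
import Cfsg.Agent.Lib.BGAppendix.TransitivityCriteria
import Cfsg.Agent.Lib.Balance.SigFamily

set_option autoImplicit false
open Cfsg

namespace Cfsg.Agent.S0522

open CfsgLib CfsgLib.BGAppendix
open scoped commutatorElement

/-- An invariant `p'`-subgroup of a solvable overgroup of a self-centralizing normal abelian subgroup
of rank at least 2 of a Sylow subgroup lies in the `p'`-core. -/
theorem le_core_of_scn {G : Type*} [Group G] [Finite G] (hodd : Odd (Nat.card G)) {p : ℕ}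
    [hp : Fact p.Prime] {A : Subgroup G} {P : Sylow p G}
    (hA : IsPGroup p A) (hAc : IsMulCommutative A) (hscn : IsSCN (P : Subgroup G) A)
    (hr : ¬ PRankLE p 1 A)
    (hsol : ∀ g ∈ A, g ≠ 1 → Group.IsSolvable (Subgroup.centralizer ({g} : Set G)))
    {X : Subgroup G} (hX : Group.IsSolvable X) (hAX : A ≤ X)
    {Y : Subgroup G} (hYX : Y ≤ X) (hY : ¬ p ∣ Nat.card Y)
    (hAY : A ≤ Subgroup.normalizer (Y : Set G)) : Y ≤ piCoreOf (primesNotDvd p) X := by
  obtain ⟨B, z, hBA, hBp, hBc, hPB, hzB, hz1, hzP, hBz⟩ :=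
    exists_normal_sq_le hAc hscn.1 hscn.2.1 hr
  have hzA : z ∈ A := hBA hzB
  have hzp : z ^ p = 1 := hBp z hzB
  have hoddC : ∀ H : Subgroup G, Odd (Nat.card H) := fun H =>
    hodd.of_dvd_nat (Subgroup.card_subgroup_dvd_card H)
  have hAcent : ∀ g ∈ A, A ≤ Subgroup.centralizer ({g} : Set G) := fun g hg a ha =>
    Subgroup.mem_centralizer_singleton_iff.mpr
      (congrArg Subtype.val (hAc.is_comm.comm ⟨a, ha⟩ ⟨g, hg⟩))
  -- the case of a central element
  have hgood : ∀ W : Subgroup G, ¬ p ∣ Nat.card W → A ≤ Subgroup.normalizer (W : Set G) →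
      W ≤ Subgroup.centralizer ({z} : Set G) →
      W ≤ piCoreOf (primesNotDvd p) (Subgroup.centralizer ({z} : Set G)) := by
    intro W hW hAW hWC
    set C := Subgroup.centralizer ({z} : Set G)
    have := hsol z hzA hz1
    have hPC : (P : Subgroup G) ≤ C := fun x hx =>
      Subgroup.mem_centralizer_singleton_iff.mpr (hzP x hx)
    refine le_piCoreOf_of_subgroupOf_le hWC (le_pPrimeCore_of_self_centralizing
      (A := A.subgroupOf C) (hA.of_equiv (Subgroup.subgroupOfEquivOfLe (hAcent z hzA)).symm) ?_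
      (le_pPrimePCore_of_abelian_normal_in_sylow (hoddC C) (P.subtype hPC)
        (Subgroup.comap_mono hscn.1) ?_ (subgroupOf_le_normalizer hscn.2.1))
      ?_ (not_dvd_card_subgroupOf hWC hW) (subgroupOf_le_normalizer hAW))
    · exact IsMulCommutative.of_setLike_mul_comm fun x hx y hy => Subtype.ext
        (congrArg Subtype.val (hAc.is_comm.comm ⟨x, hx⟩ ⟨y, hy⟩) :)
    · exact IsMulCommutative.of_setLike_mul_comm fun x hx y hy => Subtype.ext
        (congrArg Subtype.val (hAc.is_comm.comm ⟨x, hx⟩ ⟨y, hy⟩) :)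
    · intro x hx k hk
      refine mem_of_isSCN hscn (x := (x : G)) ?_ (k := k) (by simpa using congrArg Subtype.val hk)
      rw [Subgroup.mem_centralizer_iff]
      intro a ha
      exact congrArg Subtype.val
        (Subgroup.mem_centralizer_iff.mp hx ⟨a, hAcent z hzA ha⟩ ha)
  -- an arbitrary element of B
  have hgoodB : ∀ b ∈ B, b ≠ 1 → ∀ W : Subgroup G, ¬ p ∣ Nat.card W →
      A ≤ Subgroup.normalizer (W : Set G) → W ≤ Subgroup.centralizer ({b} : Set G) →
      W ≤ piCoreOf (primesNotDvd p) (Subgroup.centralizer ({b} : Set G)) := by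
    intro b hb hb1 W hW hAW hWC
    set C := Subgroup.centralizer ({b} : Set G) with hC
    have := hsol b (hBA hb) hb1
    set P₀ := (P : Subgroup G) ⊓ C with hP₀
    obtain ⟨hP₀n, hP₀i⟩ := exists_central_kernel hzp hz1 hzP (fun x hx => hBz x hx b hb)
    obtain ⟨R, hR⟩ := ((P.2.to_le (inf_le_left : P₀ ≤ P)).of_equiv
      (Subgroup.subgroupOfEquivOfLe (inf_le_right : P₀ ≤ C)).symm).exists_le_sylow
    set R' := (R : Subgroup C).map C.subtype with hR'
    have hR'p : IsPGroup p R' := R.2.map _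
    have hP₀R : P₀ ≤ R' := by
      exact (Subgroup.map_subgroupOf_eq_of_le (inf_le_right : P₀ ≤ C)).ge.trans (Subgroup.map_mono hR)
    have hRnorm : R' ≤ Subgroup.normalizer (P₀ : Set G) := by
      by_cases he : P₀ = R'
      · rw [← he]; exact Subgroup.le_normalizer
      · have hlt := lt_inf_normalizer hR'p (lt_of_le_of_ne hP₀R he)
        have hcardR : Nat.card R' ≤ Nat.card P₀ * p := by
          obtain ⟨Q, hQ⟩ := hR'p.exists_le_sylow
          calc Nat.card R' ≤ Nat.card Q := Nat.le_of_dvd Nat.card_pos (Subgroup.card_dvd_of_le hQ)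
            _ = Nat.card P := Q.card_eq_multiplicity.trans P.card_eq_multiplicity.symm
            _ = Nat.card P₀ * P₀.relIndex P := by
              rw [← Subgroup.relIndex_bot_left, ← Subgroup.relIndex_bot_left,
                Subgroup.relIndex_mul_relIndex _ _ _ bot_le inf_le_left]
            _ ≤ _ := Nat.mul_le_mul_left _ hP₀i
        set N := R' ⊓ Subgroup.normalizer (P₀ : Set G)
        have h1 : Nat.card P₀ < Nat.card N := Set.Finite.card_lt_card (Set.toFinite _) hlt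
        obtain ⟨i, hi⟩ := IsPGroup.iff_card.mp (P.2.to_le (inf_le_left : P₀ ≤ P))
        obtain ⟨j, hj⟩ := IsPGroup.iff_card.mp (hR'p.to_le (inf_le_left : N ≤ R'))
        rw [hi, hj] at h1
        have hij : i < j := (Nat.pow_lt_pow_iff_right hp.out.one_lt).mp h1
        have h2 : Nat.card R' ≤ Nat.card N := by
          rw [hj]
          refine hcardR.trans ?_
          rw [hi, ← pow_succ]
          exact Nat.pow_le_pow_right hp.out.pos hij
        have hN : N = R' := Subgroup.eq_of_le_of_card_ge inf_le_left h2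
        exact hN ▸ inf_le_right
    set Zc := P₀ ⊓ Subgroup.centralizer (P₀ : Set G) with hZc
    have hRZ : R' ≤ Subgroup.normalizer (Zc : Set G) := by
      refine le_normalizer_of_conj_le fun x hx y hy => ⟨(Subgroup.mem_normalizer_iff.mp (hRnorm hx) y).mp hy.1, ?_⟩
      show x * y * x⁻¹ ∈ Subgroup.centralizer (P₀ : Set G)
      rw [Subgroup.mem_centralizer_iff]
      intro g hg
      have hg' : x⁻¹ * g * x ∈ (P₀ : Set G) := (Subgroup.mem_normalizer_iff''.mp (hRnorm hx) g).mp hg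
      have h2 := Subgroup.mem_centralizer_iff.mp hy.2 _ hg'
      calc g * (x * y * x⁻¹) = x * (x⁻¹ * g * x * y) * x⁻¹ := by group
        _ = x * (y * (x⁻¹ * g * x)) * x⁻¹ := by rw [h2]
        _ = x * y * x⁻¹ * g := by group
    have hzZ : z ∈ Zc := ⟨⟨hscn.1 hzA, hAcent b (hBA hb) hzA⟩,
      Subgroup.mem_centralizer_iff.mpr fun g hg => hzP g hg.1⟩
    have hZcom : IsMulCommutative (Zc.subgroupOf C) :=
      IsMulCommutative.of_setLike_mul_comm fun x hx y hy => Subtype.ext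
        (Subgroup.mem_centralizer_iff.mp hy.2 _ hx.1)
    have hZR : Zc.subgroupOf C ≤ R := (Subgroup.comap_mono inf_le_left).trans hR
    have hRn : (R : Subgroup C) ≤ Subgroup.normalizer ((Zc.subgroupOf C : Subgroup C) : Set C) :=
      fun x hx => subgroupOf_le_normalizer hRZ (show x ∈ R'.subgroupOf C from ⟨x, hx, rfl⟩)
    have hzO : (⟨z, hAcent b (hBA hb) hzA⟩ : C) ∈ pPrimePCore p C :=
      le_pPrimePCore_of_abelian_normal_in_sylow (hoddC C) R hZR hZcom hRn hzZ
    set K := piCoreOf (primesNotDvd p) C with hK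
    set U := W ⊓ Subgroup.centralizer ({z} : Set G) with hU
    have hzW : z ∈ Subgroup.normalizer (W : Set G) := hAW hzA
    have hUK : U ≤ K := by
      have h1 : U ≤ piCoreOf (primesNotDvd p) (Subgroup.centralizer ({z} : Set G)) :=
        hgood U (fun h => hW (h.trans (Subgroup.card_dvd_of_le inf_le_left)))
          (le_normalizer_inf hAW ((hAcent z hzA).trans Subgroup.le_normalizer)) inf_le_right
      refine le_trans (le_inf h1 (inf_le_left.trans hWC)) (le_piCoreOf_of_balance (hsol b (hBA hb) hb1)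
        (hAcent b (hBA hb) hzA) (n := 1) (by rwa [pow_one]) ?_ ?_ ?_)
      · exact fun h => BGUniqueness.not_dvd_card_piCoreOf _
          (h.trans (Subgroup.card_dvd_of_le inf_le_left))
      · exact le_inf inf_le_right (inf_le_left.trans (piCoreOf_le _ _))
      · refine le_normalizer_inf (inf_le_right.trans (le_normalizer_piCoreOf _ _))
          (inf_le_left.trans Subgroup.le_normalizer)
    intro y hy
    have hcomm := commute_mk_of_mem_pPrimePCore (G := C) (Y := W.subgroupOf C)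
      (not_dvd_card_subgroupOf hWC hW) (a := ⟨z, hAcent b (hBA hb) hzA⟩) hzO
      (subgroupOf_le_normalizer (A := Subgroup.zpowers z) (Subgroup.zpowers_le.mpr hzW)
        (show (⟨z, _⟩ : C) ∈ (Subgroup.zpowers z).subgroupOf C from Subgroup.mem_zpowers z))
      (y := ⟨y, hWC hy⟩) hy
    have hd : y⁻¹ * (z * y * z⁻¹) ∈ K := by
      rw [hK, ← BGUniqueness.map_pPrimeCore_eq]
      refine ⟨⟨y, hWC hy⟩⁻¹ * (⟨z, hAcent b (hBA hb) hzA⟩ * ⟨y, hWC hy⟩ * ⟨z, hAcent b (hBA hb) hzA⟩⁻¹),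
        (QuotientGroup.eq_one_iff _).mp ?_, rfl⟩
      show QuotientGroup.mk' (pPrimeCore p C) _ = 1
      rw [map_mul, map_mul, map_mul, map_inv, map_inv, hcomm.eq]
      group
    have hzK : Subgroup.zpowers z ≤ Subgroup.normalizer ((W ⊓ K : Subgroup G) : Set G) :=
      Subgroup.zpowers_le.mpr ((le_normalizer_inf (A := Subgroup.zpowers z)
        (Subgroup.zpowers_le.mpr hzW)
        (Subgroup.zpowers_le.mpr (le_normalizer_piCoreOf _ C (hAcent b (hBA hb) hzA))))
        (Subgroup.mem_zpowers z))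
    have hcz : (Nat.card (Subgroup.zpowers z)).Coprime (Nat.card ↥(W ⊓ K)) := by
      rw [Nat.card_zpowers, orderOf_eq_prime hzp hz1]
      exact hp.out.coprime_iff_not_dvd.mpr fun h => hW (h.trans (Subgroup.card_dvd_of_le inf_le_left))
    obtain ⟨c, hc, hcy⟩ := CoprimeAction.exists_centralizer_mem_coset_of_le (A := Subgroup.zpowers z)
      (K := W) (N := W ⊓ K) hzK inf_le_left hcz
      (Or.inl (CoprimeAction.isSolvable_zpowers z)) hy (fun a ha => by
        refine ⟨W.mul_mem (W.inv_mem hy) ((Subgroup.mem_normalizer_iff.mp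
          (Subgroup.zpowers_le.mpr hzW ha) y).mp hy), ?_⟩
        obtain ⟨n, rfl⟩ : ∃ n : ℕ, z ^ n = a := (mem_powers_iff_mem_zpowers).mpr ha
        induction n with
        | zero => simp
        | succ n ih =>
          have hzn : z ^ n ∈ C := C.pow_mem (hAcent b (hBA hb) hzA) n
          have h3 : z ^ n * (y⁻¹ * (z * y * z⁻¹)) * (z ^ n)⁻¹ ∈ K :=
            (Subgroup.mem_normalizer_iff.mp (le_normalizer_piCoreOf _ C hzn) _).mp hd
          have h4 : y⁻¹ * (z ^ n * y * (z ^ n)⁻¹) ∈ K := ih (Subgroup.pow_mem _ (Subgroup.mem_zpowers z) n)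
          have h5 := K.mul_mem h4 h3
          have e : y⁻¹ * (z ^ (n + 1) * y * (z ^ (n + 1))⁻¹) =
              y⁻¹ * (z ^ n * y * (z ^ n)⁻¹) * (z ^ n * (y⁻¹ * (z * y * z⁻¹)) * (z ^ n)⁻¹) := by
            rw [pow_succ]; group
          rw [e]; exact h5)
    have hcU : c ∈ U := ⟨hc.1, Subgroup.mem_centralizer_singleton_iff.mpr
      ((Subgroup.mem_centralizer_iff.mp hc.2 z (Subgroup.mem_zpowers z)).symm)⟩
    have : y = c * (y⁻¹ * c)⁻¹ := by group
    rw [this]
    exact K.mul_mem (hUK hcU) (K.inv_mem hcy.2)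
  have : IsMulCommutative B := IsMulCommutative.of_setLike_mul_comm fun x hx y hy =>
    congrArg Subtype.val (hAc.is_comm.comm ⟨x, hBA hx⟩ ⟨y, hBA hy⟩)
  refine CoprimeAction.le_of_centralizers (A := B) ?_ (hBA.trans hAY)
    (BGUniqueness.coprime_card_of_pGroup (hA.to_le hBA) hY) (fun b hb hb1 => ?_)
  · intro hcyc
    obtain ⟨g, hg⟩ := IsCyclic.exists_ofOrder_eq_natCard (α := B)
    have h := orderOf_dvd_of_pow_eq_one (x := g) (n := p) (Subtype.ext (by simpa using hBp g g.2))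
    rw [hg] at h
    exact absurd (Nat.le_of_dvd hp.out.pos h) (not_le.mpr hBc)
  · set W := Y ⊓ Subgroup.centralizer ({b} : Set G)
    have hW := hgoodB b hb hb1 W (fun h => hY (h.trans (Subgroup.card_dvd_of_le inf_le_left)))
      (le_normalizer_inf hAY ((hAcent b (hBA hb)).trans Subgroup.le_normalizer)) inf_le_right
    refine le_trans (le_inf hW (inf_le_left.trans hYX)) (le_piCoreOf_of_balance
      hX (hAX (hBA hb)) (n := 1)
      (by rw [pow_one]; exact hBp b hb) ?_ ?_ ?_)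
    · exact fun h => BGUniqueness.not_dvd_card_piCoreOf _
        (h.trans (Subgroup.card_dvd_of_le inf_le_left))
    · exact le_inf inf_le_right (inf_le_left.trans (piCoreOf_le _ _))
    · exact le_normalizer_inf (inf_le_right.trans (le_normalizer_piCoreOf _ _))
        (inf_le_left.trans Subgroup.le_normalizer)

/-- Two invariant `q`-subgroups properly containing a common subgroup have fixed points outside it
under a common nontrivial element of an elementary abelian group of rank 3. -/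
theorem exists_common_element {G : Type*} [Group G] [Finite G] {p q : ℕ} [hp : Fact p.Prime]
    [hq : Fact q.Prime] (hpq : p ≠ q) {E D T₁ T₂ : Subgroup G} [IsMulCommutative E]
    (hEp : ∀ e ∈ E, e ^ p = 1) (hE : p ^ 3 ≤ Nat.card E)
    (h₁ : IsPGroup q T₁) (hn₁ : E ≤ Subgroup.normalizer (T₁ : Set G)) (hD₁ : ¬ T₁ ≤ D)
    (h₂ : IsPGroup q T₂) (hn₂ : E ≤ Subgroup.normalizer (T₂ : Set G)) (hD₂ : ¬ T₂ ≤ D) :
    ∃ a ∈ E, a ≠ 1 ∧ ¬ T₁ ⊓ Subgroup.centralizer ({a} : Set G) ≤ D ∧
      ¬ T₂ ⊓ Subgroup.centralizer ({a} : Set G) ≤ D := by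
  have hcomm : ∀ x ∈ E, ∀ y ∈ E, x * y = y * x := fun x hx y hy =>
    congrArg Subtype.val ((IsMulCommutative.is_comm (M := E)).comm ⟨x, hx⟩ ⟨y, hy⟩)
  have key : ∀ W : Subgroup G, W ≤ E → p < Nat.card W → ∀ T : Subgroup G, IsPGroup q T →
      W ≤ Subgroup.normalizer (T : Set G) → ¬ T ≤ D →
      ∃ a ∈ W, a ≠ 1 ∧ ¬ T ⊓ Subgroup.centralizer ({a} : Set G) ≤ D := by
    intro W hWE hW T hT hn hD
    by_contra hcon
    push Not at hcon
    have : IsMulCommutative W := IsMulCommutative.of_setLike_mul_comm fun x hx y hy =>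
      hcomm x (hWE hx) y (hWE hy)
    refine hD (CoprimeAction.le_of_centralizers (A := W) ?_ hn ?_ hcon)
    · intro hcyc
      obtain ⟨g, hg⟩ := IsCyclic.exists_ofOrder_eq_natCard (α := W)
      have h := orderOf_dvd_of_pow_eq_one (x := g) (n := p)
        (Subtype.ext (by simpa using hEp g (hWE g.2)))
      rw [hg] at h
      exact absurd (Nat.le_of_dvd hp.out.pos h) (not_le.mpr hW)
    · have hWp : IsPGroup p W := fun x => ⟨1, Subtype.ext (by simpa using hEp x (hWE x.2))⟩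
      obtain ⟨i, hi⟩ := IsPGroup.iff_card.mp hWp
      obtain ⟨j, hj⟩ := IsPGroup.iff_card.mp hT
      rw [hi, hj]
      exact Nat.Coprime.pow _ _ ((Nat.coprime_primes hp.out hq.out).mpr hpq)
  have hp3 : p < p ^ 3 := lt_self_pow₀ hp.out.one_lt (by norm_num)
  obtain ⟨b, hb, hb1, hCb⟩ := key E le_rfl (hp3.trans_le hE) T₁ h₁ hn₁ hD₁
  -- a complement of `⟨b⟩` in `E`
  obtain ⟨F, ⟨hFE, hbF⟩, hFmax⟩ :=
    ({F : Subgroup G | F ≤ E ∧ b ∉ F}).toFinite.exists_maximal
      ⟨⊥, bot_le, fun h => hb1 (Subgroup.mem_bot.mp h)⟩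
  have hob : orderOf b = p := orderOf_eq_prime (hEp b hb) hb1
  have hdis : F ⊓ Subgroup.zpowers b = ⊥ := by
    rw [eq_bot_iff]
    intro x hx
    by_contra hx1
    rw [Subgroup.mem_bot] at hx1
    have hox : orderOf x = p := orderOf_eq_prime (hEp x (hFE hx.1)) hx1
    have hxb : Subgroup.zpowers x = Subgroup.zpowers b :=
      Subgroup.eq_of_le_of_card_ge (Subgroup.zpowers_le.mpr hx.2)
        (by rw [Nat.card_zpowers, Nat.card_zpowers, hox, hob])
    exact hbF (Subgroup.zpowers_le.mpr hx.1 (hxb ▸ Subgroup.mem_zpowers b))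
  have hFn : ∀ Z : Subgroup G, Z ≤ E → F ≤ Subgroup.normalizer (Z : Set G) := fun Z hZ =>
    le_normalizer_of_le_centralizer fun x hx => Subgroup.mem_centralizer_iff.mpr fun y hy =>
      hcomm y (hFE hy) x (hZ hx)
  have hbE : Subgroup.zpowers b ≤ E := Subgroup.zpowers_le.mpr hb
  have hsup : E ≤ F ⊔ Subgroup.zpowers b := by
    intro x hx
    by_cases hxF : x ∈ F
    · exact (le_sup_left : F ≤ _) hxF
    have hbx : b ∈ F ⊔ Subgroup.zpowers x := by
      by_contra hbn
      exact hxF (hFmax ⟨sup_le hFE (Subgroup.zpowers_le.mpr hx), hbn⟩ le_sup_left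
        ((le_sup_right : Subgroup.zpowers x ≤ _) (Subgroup.mem_zpowers x)))
    rw [← SetLike.mem_coe, Subgroup.coe_mul_of_left_le_normalizer_right F (Subgroup.zpowers x)
      (hFn _ (Subgroup.zpowers_le.mpr hx))] at hbx
    obtain ⟨f, hf, y, hy, hfy⟩ := hbx
    change f * y = b at hfy
    have hy1 : y ≠ 1 := fun h => hbF (by rw [← hfy, h, mul_one]; exact hf)
    have hyx : Subgroup.zpowers y = Subgroup.zpowers x :=
      Subgroup.eq_of_le_of_card_ge (Subgroup.zpowers_le.mpr hy) (by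
        rw [Nat.card_zpowers, Nat.card_zpowers,
          orderOf_eq_prime (hEp x hx) (fun h => hxF (h ▸ one_mem _)),
          orderOf_eq_prime (hEp y ((Subgroup.zpowers_le.mpr hx) hy)) hy1])
    have hy' : y ∈ F ⊔ Subgroup.zpowers b := by
      rw [show y = f⁻¹ * b by rw [← hfy, inv_mul_cancel_left]]
      exact mul_mem ((le_sup_left : F ≤ _) (inv_mem hf))
        ((le_sup_right : Subgroup.zpowers b ≤ _) (Subgroup.mem_zpowers b))
    exact Subgroup.zpowers_le.mpr hy' (hyx ▸ Subgroup.mem_zpowers x)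
  have hFcard : p < Nat.card F := by
    have h := Nat.le_of_dvd Nat.card_pos (Subgroup.card_dvd_of_le hsup)
    rw [card_sup_eq_mul _ _ (hFn _ hbE) hdis, Nat.card_zpowers, hob] at h
    by_contra hle
    have h4 : Nat.card F * p ≤ p * p := Nat.mul_le_mul_right _ (not_lt.mp hle)
    have h5 : p ^ 2 < p ^ 3 := Nat.pow_lt_pow_right hp.out.one_lt (by norm_num)
    rw [sq] at h5
    omega
  set V := T₁ ⊓ Subgroup.centralizer ({b} : Set G) with hV
  have hbc : E ≤ Subgroup.centralizer ({b} : Set G) := fun x hx =>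
    Subgroup.mem_centralizer_singleton_iff.mpr (hcomm x hx b hb)
  obtain ⟨f, hf, hf1, hCf⟩ := key F hFE hFcard V (h₁.to_le inf_le_left)
    (hFE.trans (le_normalizer_inf hn₁ (hbc.trans Subgroup.le_normalizer))) hCb
  set W := Subgroup.zpowers b ⊔ Subgroup.zpowers f with hW
  have hWE : W ≤ E := sup_le hbE (Subgroup.zpowers_le.mpr (hFE hf))
  have hWcard : p < Nat.card W := by
    by_contra hle
    have h1 : Subgroup.zpowers b = W := Subgroup.eq_of_le_of_card_ge le_sup_left
      (by rw [Nat.card_zpowers, hob]; exact not_lt.mp hle)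
    have h2 : f ∈ F ⊓ Subgroup.zpowers b :=
      ⟨hf, h1.symm ▸ (le_sup_right : Subgroup.zpowers f ≤ W) (Subgroup.mem_zpowers f)⟩
    rw [hdis, Subgroup.mem_bot] at h2
    exact hf1 h2
  obtain ⟨a, ha, ha1, hCa⟩ := key W hWE hWcard T₂ h₂ (hWE.trans hn₂) hD₂
  refine ⟨a, hWE ha, ha1, fun hle => hCf (le_trans (le_inf (inf_le_left.trans inf_le_left) ?_) hle), hCa⟩
  intro x hx
  have hxW : W ≤ Subgroup.centralizer ({x} : Set G) := by
    rw [hW, sup_le_iff, Subgroup.zpowers_le, Subgroup.zpowers_le]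
    exact ⟨Subgroup.mem_centralizer_singleton_iff.mpr
        (Subgroup.mem_centralizer_singleton_iff.mp hx.1.2).symm,
      Subgroup.mem_centralizer_singleton_iff.mpr
        (Subgroup.mem_centralizer_singleton_iff.mp hx.2).symm⟩
  exact Subgroup.mem_centralizer_singleton_iff.mpr
    (Subgroup.mem_centralizer_singleton_iff.mp (hxW ha)).symm

set_option maxHeartbeats 1000000 in
theorem main {X : Type*} [Group X] [Finite X] (hX : Odd (Nat.card X)) {p : ℕ}
    [hp : Fact p.Prime]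
    (hloc : ∀ T : Subgroup X, IsPGroup p T → T ≠ ⊥ →
      Group.IsSolvable (Subgroup.normalizer (T : Set X)))
    {P : Sylow p X} {B : Subgroup X} (hscn : IsSCN (P : Subgroup X) B) [hBa : IsMulCommutative B]
    {E : Subgroup X} (hEB : E ≤ B) (hEp : ∀ e ∈ E, e ^ p = 1) (hE : p ^ 3 ≤ Nat.card E)
    {q : ℕ} [hq : Fact q.Prime] (hqp : q ≠ p) :
    ∀ n : ℕ, ∀ Q₁ ∈ maxInvSubgroups ⊤ B {q}, ∀ Q₂ ∈ maxInvSubgroups ⊤ B {q},
      Nat.card X ≤ Nat.card ↥(Q₁ ⊓ Q₂) + n →
      ∃ c ∈ Subgroup.centralizer (B : Set X), Q₂ = Q₁.map (MulAut.conj c).toMonoidHom := by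
  have hB : IsPGroup p B := P.2.to_le hscn.1
  have hcomm : ∀ x ∈ B, ∀ y ∈ B, x * y = y * x := fun x hx y hy =>
    congrArg Subtype.val ((IsMulCommutative.is_comm (M := B)).comm ⟨x, hx⟩ ⟨y, hy⟩)
  have hEc : IsMulCommutative E := IsMulCommutative.of_setLike_mul_comm fun x hx y hy =>
    hcomm x (hEB hx) y (hEB hy)
  have hr : ¬ PRankLE p 1 B := fun h => by
    have h3 : IsMulCommutative (E.subgroupOf B) :=
      IsMulCommutative.of_setLike_mul_comm fun x _ y _ => Subtype.ext (hcomm x x.2 y y.2)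
    have h4 := h (E.subgroupOf B) h3 (fun e he => Subtype.ext (by simpa using hEp e he))
    rw [Nat.card_congr (Subgroup.subgroupOfEquivOfLe hEB).toEquiv] at h4
    exact absurd (hE.trans h4) (not_le.mpr (Nat.pow_lt_pow_right hp.out.one_lt (by norm_num)))
  have hsol : ∀ g ∈ B, g ≠ 1 → Group.IsSolvable (Subgroup.centralizer ({g} : Set X)) := by
    intro g hg hg1
    have hT : IsPGroup p (Subgroup.zpowers g) := hB.to_le (Subgroup.zpowers_le.mpr hg)
    have h2 := hloc _ hT (fun h => hg1 (Subgroup.zpowers_eq_bot.mp h))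
    refine CoprimeAction.isSolvable_of_le (K := Subgroup.normalizer
      ((Subgroup.zpowers g : Subgroup X) : Set X)) ?_
    refine le_trans ?_ (Subgroup.centralizer_le_normalizer _)
    intro x hx
    rw [Subgroup.mem_centralizer_iff]
    rintro _ ⟨i, rfl⟩
    exact ((Commute.zpow_right
      (show Commute x g from Subgroup.mem_centralizer_singleton_iff.mp hx) i).eq).symm
  have hqd : ∀ T : Subgroup X, IsPGroup q T → ¬ p ∣ Nat.card T := fun T hT h => hqp (by
    obtain ⟨i, hi⟩ := IsPGroup.iff_card.mp hT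
    exact ((Nat.prime_dvd_prime_iff_eq hp.out hq.out).mp (hp.out.dvd_of_dvd_pow (hi ▸ h))).symm)
  intro n
  induction n using Nat.strong_induction_on with
  | _ n ih =>
    intro Q₁ hQ₁ Q₂ hQ₂ hn
    obtain ⟨⟨hp₁, hn₁⟩, hm₁⟩ := mem_maxInv_iff.mp hQ₁
    obtain ⟨⟨hp₂, hn₂⟩, hm₂⟩ := mem_maxInv_iff.mp hQ₂
    by_cases he : Q₁ = Q₂
    · exact ⟨1, one_mem _, by rw [map_conj_one, he]⟩
    set D := Q₁ ⊓ Q₂ with hDdef
    have hBD : B ≤ Subgroup.normalizer (D : Set X) := le_normalizer_inf hn₁ hn₂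
    have hlt₁ : D < Q₁ := lt_of_le_of_ne inf_le_left fun e =>
      he (hm₁ Q₂ hp₂ hn₂ (e ▸ (inf_le_right : D ≤ Q₂))).symm
    have hlt₂ : D < Q₂ := lt_of_le_of_ne inf_le_right fun e =>
      he (hm₂ Q₁ hp₁ hn₁ (e ▸ (inf_le_left : D ≤ Q₁)))
    have hBN : B ≤ Subgroup.normalizer ((Subgroup.normalizer (D : Set X) : Subgroup X) : Set X) :=
      hBD.trans Subgroup.le_normalizer
    obtain ⟨a, haE, ha1, ha₁, ha₂⟩ := exists_common_element (Ne.symm hqp) hEp hE
      (D := D) (T₁ := Q₁ ⊓ Subgroup.normalizer (D : Set X))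
      (T₂ := Q₂ ⊓ Subgroup.normalizer (D : Set X))
      (hp₁.to_le inf_le_left) (hEB.trans (le_normalizer_inf hn₁ hBN))
      (lt_inf_normalizer hp₁ hlt₁).not_ge
      (hp₂.to_le inf_le_left) (hEB.trans (le_normalizer_inf hn₂ hBN))
      (lt_inf_normalizer hp₂ hlt₂).not_ge
    set C := Subgroup.centralizer ({a} : Set X) with hC
    have hsC := hsol a (hEB haE) ha1
    have hBC : B ≤ C := fun x hx =>
      Subgroup.mem_centralizer_singleton_iff.mpr (hcomm x hx a (hEB haE))
    have hBCn : B ≤ Subgroup.normalizer (C : Set X) := hBC.trans Subgroup.le_normalizer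
    set K := piCoreOf (primesNotDvd p) C ⊓ Subgroup.normalizer (D : Set X) with hK
    have hKD : K ≤ Subgroup.normalizer (D : Set X) := inf_le_right
    have hKs : Group.IsSolvable K :=
      CoprimeAction.isSolvable_of_le ((inf_le_left : K ≤ _).trans (piCoreOf_le _ _))
    obtain ⟨L, hL⟩ : ∃ L, D ⊔ K = L := ⟨_, rfl⟩
    have hDp : IsPGroup q D := hp₁.to_le inf_le_left
    have hLs : Group.IsSolvable L := by
      have := hDp.isNilpotent
      rw [← hL]
      exact Balance.isSolvable_sup hKD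
    have hLp : ¬ p ∣ Nat.card L := fun h => by
      rw [← hL] at h
      have h2 := h.trans (Balance.card_sup_dvd_of_normalized hKD)
      rcases (Nat.Prime.dvd_mul hp.out).mp h2 with h3 | h3
      · exact hqd D hDp h3
      · exact BGUniqueness.not_dvd_card_piCoreOf _ (h3.trans (Subgroup.card_dvd_of_le inf_le_left))
    have hBK : B ≤ Subgroup.normalizer (K : Set X) :=
      le_normalizer_inf (hBC.trans (le_normalizer_piCoreOf _ C)) hBN
    have hBL : B ≤ Subgroup.normalizer (L : Set X) := hL ▸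
      (le_inf hBD hBK).trans (Subgroup.normalizer_inf_normalizer_le_normalizer_sup D K)
    have hcop : (Nat.card B).Coprime (Nat.card L) := BGUniqueness.coprime_card_of_pGroup hB hLp
    have hTL : ∀ Q : Subgroup X, IsPGroup q Q → B ≤ Subgroup.normalizer (Q : Set X) →
        Q ⊓ Subgroup.normalizer (D : Set X) ⊓ C ≤ L := fun Q hQp hQn =>
      hL ▸ le_sup_of_le_right (le_inf (le_core_of_scn hX hB hBa hscn hr hsol hsC hBC inf_le_right
        (hqd _ (hQp.to_le (inf_le_left.trans inf_le_left)))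
        (le_normalizer_inf (le_normalizer_inf hQn hBN) hBCn)) (inf_le_left.trans inf_le_right))
    have hU : ∀ Q : Subgroup X, IsPGroup q Q → B ≤ Subgroup.normalizer (Q : Set X) → D ≤ Q →
        ¬ Q ⊓ Subgroup.normalizer (D : Set X) ⊓ C ≤ D →
        ∃ U S : Subgroup X, D < U ∧ U ≤ Q ∧ U ≤ S ∧ S ≤ L ∧ B ≤ Subgroup.normalizer (S : Set X) ∧
          IsPGroup q S ∧ ¬ q ∣ S.relIndex L := by
      intro Q hQp hQn hDQ hnot
      obtain ⟨T, hT⟩ : ∃ T, Q ⊓ Subgroup.normalizer (D : Set X) ⊓ C = T := ⟨_, rfl⟩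
      have hTQ : T ≤ Q := hT ▸ inf_le_left.trans inf_le_left
      have hBT : B ≤ Subgroup.normalizer (T : Set X) :=
        hT ▸ le_normalizer_inf (le_normalizer_inf hQn hBN) hBCn
      have hTL' : T ≤ L := hT ▸ hTL Q hQp hQn
      rw [hT] at hnot
      have hUL : D ⊔ T ≤ L := sup_le (hL ▸ le_sup_left) hTL'
      have hUQ : D ⊔ T ≤ Q := sup_le hDQ hTQ
      have hBU : B ≤ Subgroup.normalizer ((D ⊔ T : Subgroup X) : Set X) :=
        (le_inf hBD hBT).trans (Subgroup.normalizer_inf_normalizer_le_normalizer_sup D T)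
      obtain ⟨S, hUS, hSL, hBS, hS, hSi⟩ := exists_invariant_sylow_ge hBL hcop hLs
        hUL hBU (hQp.to_le hUQ)
      exact ⟨D ⊔ T, S, lt_of_le_of_ne le_sup_left fun e => hnot (e ▸ le_sup_right), hUQ, hUS, hSL, hBS,
        hS, hSi⟩
    obtain ⟨U₁, S₁, hDU₁, hU₁Q, hU₁S, hS₁L, hBS₁, hS₁, hS₁i⟩ :=
      hU Q₁ hp₁ hn₁ inf_le_left ha₁
    obtain ⟨U₂, S₂, hDU₂, hU₂Q, hU₂S, hS₂L, hBS₂, hS₂, hS₂i⟩ :=
      hU Q₂ hp₂ hn₂ inf_le_right ha₂
    obtain ⟨k, hk, hS⟩ :=
      invariant_sylow_conj hBL hcop hLs hS₁L hBS₁ hS₁ hS₁i hS₂L hBS₂ hS₂ hS₂i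
    obtain ⟨M, hM, hSM⟩ := exists_maxInv_ge hS₂ hBS₂
    have hkN : k ∈ Subgroup.normalizer (B : Set X) := Subgroup.centralizer_le_normalizer _ hk.2
    have step : ∀ P₁ ∈ maxInvSubgroups ⊤ B {q}, ∀ P₂ ∈ maxInvSubgroups ⊤ B {q},
        Nat.card D < Nat.card ↥(P₁ ⊓ P₂) →
        ∃ c ∈ Subgroup.centralizer (B : Set X), P₂ = P₁.map (MulAut.conj c).toMonoidHom := by
      intro P₁ hP₁ P₂ hP₂ hlt
      have hle : Nat.card ↥(P₁ ⊓ P₂) ≤ Nat.card X :=
        Nat.le_of_dvd Nat.card_pos (Subgroup.card_subgroup_dvd_card _)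
      exact ih (n - 1) (by omega) P₁ hP₁ P₂ hP₂ (by omega)
    have hc₁ : Nat.card D < Nat.card U₁ := Set.Finite.card_lt_card (Set.toFinite _) hDU₁
    have hc₂ : Nat.card D < Nat.card U₂ := Set.Finite.card_lt_card (Set.toFinite _) hDU₂
    obtain ⟨c, hc, hMc⟩ := step _ (map_conj_mem_maxInv hkN hQ₁) M hM (by
      rw [← Subgroup.card_map_of_injective (K := U₁)
        (f := (MulAut.conj k).toMonoidHom) (MulAut.conj k).injective] at hc₁
      exact hc₁.trans_le (Nat.le_of_dvd Nat.card_pos (Subgroup.card_dvd_of_le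
        (le_inf (Subgroup.map_mono hU₁Q) ((Subgroup.map_mono hU₁S).trans (hS ▸ hSM))))))
    obtain ⟨d, hd, hQd⟩ := step M hM Q₂ hQ₂
      (hc₂.trans_le (Nat.le_of_dvd Nat.card_pos
        (Subgroup.card_dvd_of_le (le_inf (hU₂S.trans hSM) hU₂Q))))
    exact ⟨d * (c * k), mul_mem hd (mul_mem hc hk.2),
      by rw [hQd, hMc, map_conj_map, map_conj_map, mul_assoc]⟩
/-- Transitivity Theorem (odd-order setting). Let X be a finite group of odd order in which the normalizer of every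
nontrivial p-subgroup is solvable, P a Sylow p-subgroup, and B an abelian subgroup of P, normalized by P, with
C_P(B) = B and containing an elementary abelian subgroup of order p^3. Then for every prime q ≠ p, any two q-subgroups
that are maximal among the q-subgroups normalized by B are conjugate by an element of the centralizer of B. -/
theorem result {X : Type*} [Group X] [Finite X] (hX : Odd (Nat.card X)) (p : ℕ)
    [Fact p.Prime] (hloc : ∀ T : Subgroup X, IsPGroup p T → T ≠ ⊥ → Group.IsSolvable (Subgroup.normalizer (T : Set X)))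
    (P : Sylow p X) (B : Subgroup X) (hBP : B ≤ (P : Subgroup X))
    (hBn : ∀ x ∈ (P : Subgroup X), ∀ b ∈ B, x * b * x⁻¹ ∈ B) (hBa : IsMulCommutative B)
    (hBc : (P : Subgroup X) ⊓ Subgroup.centralizer (B : Set X) = B)
    (hB3 : ∃ E : Subgroup X, E ≤ B ∧ (∀ e ∈ E, e ^ p = 1) ∧ p ^ 3 ≤ Nat.card E)
    (q : ℕ) [Fact q.Prime] (hqp : q ≠ p) (Q₁ Q₂ : Subgroup X)
    (h₁ : IsPGroup q Q₁ ∧ B ≤ Subgroup.normalizer (Q₁ : Set X) ∧
      ∀ R : Subgroup X, IsPGroup q R → B ≤ Subgroup.normalizer (R : Set X) → Q₁ ≤ R → R = Q₁)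
    (h₂ : IsPGroup q Q₂ ∧ B ≤ Subgroup.normalizer (Q₂ : Set X) ∧
      ∀ R : Subgroup X, IsPGroup q R → B ≤ Subgroup.normalizer (R : Set X) → Q₂ ≤ R → R = Q₂) :
    ∃ c ∈ Subgroup.centralizer (B : Set X), Q₂ = Q₁.map (MulAut.conj c).toMonoidHom := by
  obtain ⟨E, hEB, hEp, hE⟩ := hB3
  have hscn : IsSCN (P : Subgroup X) B :=
    ⟨hBP, CfsgLib.BGAppendix.le_normalizer_of_conj_le hBn, hBc⟩
  exact main hX hloc hscn hEB hEp hE hqp (Nat.card X) Q₁
    (CfsgLib.BGAppendix.mem_maxInv_iff.mpr ⟨⟨h₁.1, h₁.2.1⟩, h₁.2.2⟩) Q₂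
    (CfsgLib.BGAppendix.mem_maxInv_iff.mpr ⟨⟨h₂.1, h₂.2.1⟩, h₂.2.2⟩) (Nat.le_add_left _ _)

end Cfsg.Agent.S0522
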