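import Cfsg.Statements.S0529
import Mathlib
import Cfsg.Agent.Lib.Supersolvable.Basic

set_option autoImplicit false
open Cfsg

namespace Cfsg.Agent.S0529

open CfsgLib.Supersolvable in
theorem chain : ∀ (n : ℕ) (G : Type*) [Group G] [Finite G], Nat.card G = n → Cfsg.IsSupersolvable G →
    ∃ (n : ℕ) (H : Fin (n + 1) → Subgroup G), H 0 = ⊥ ∧ H (Fin.last n) = ⊤ ∧ (∀ i, (H i).Normal) ∧
      (∀ i : Fin n, H i.castSucc ≤ H i.succ ∧ ((H i.castSucc).relIndex (H i.succ)).Prime) ∧
      ∀ i j : Fin n, i ≤ j → (H j.castSucc).relIndex (H j.succ) ≤ (H i.castSucc).relIndex (H i.succ) := by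
  intro n
  induction n using Nat.strong_induction_on with
  | _ n ih =>
    intro G _ _ hn hG
    rcases subsingleton_or_nontrivial G with h | h
    · exact ⟨0, fun _ => ⊥, rfl, Subsingleton.elim _ _, fun _ => inferInstance, fun i => i.elim0,
        fun i => i.elim0⟩
    obtain ⟨N, hN, hp, hmax⟩ := exists_normal_largest_prime hG
    haveI := hN
    obtain ⟨m, H, h0, h1, hn', hs, hd⟩ :=
      ih _ (hn ▸ card_quotient_lt N (ne_bot_of_prime hp)) (G ⧸ N) rfl (quotient N hG)
    let q := QuotientGroup.mk' N
    have hq : Function.Surjective q := QuotientGroup.mk'_surjective N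
    let K : Fin (m + 1 + 1) → Subgroup G := Fin.cons ⊥ fun i => (H i).comap q
    have hrel : ∀ i : Fin m, (K i.succ.castSucc).relIndex (K i.succ.succ) =
        (H i.castSucc).relIndex (H i.succ) := fun i => by
      rw [← Fin.succ_castSucc]
      simp only [K, Fin.cons_succ]
      rw [Subgroup.relIndex_comap, Subgroup.map_comap_eq_self_of_surjective hq]
    have hrel0 : (K (0 : Fin (m + 1)).castSucc).relIndex (K (0 : Fin (m + 1)).succ) = Nat.card N := by
      rw [Fin.castSucc_zero]
      simp only [K, Fin.cons_succ, Fin.cons_zero]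
      rw [Subgroup.relIndex_bot_left, h0, MonoidHom.comap_bot, QuotientGroup.ker_mk']
    refine ⟨m + 1, K, rfl, ?_, ?_, ?_, ?_⟩
    · rw [← Fin.succ_last]; simp [K, h1]
    · intro i
      induction i using Fin.cases with
      | zero => simp only [K, Fin.cons_zero]; infer_instance
      | succ i => simp only [K, Fin.cons_succ]; exact (hn' i).comap q
    · intro i
      induction i using Fin.cases with
      | zero => exact ⟨by simp [K], hrel0 ▸ hp⟩
      | succ i =>
        refine ⟨?_, hrel i ▸ (hs i).2⟩
        rw [← Fin.succ_castSucc]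
        simp only [K, Fin.cons_succ]
        exact Subgroup.comap_mono (hs i).1
    · intro i j hij
      induction j using Fin.cases with
      | zero => rw [Fin.le_zero_iff.mp hij]
      | succ j =>
        induction i using Fin.cases with
        | zero =>
          rw [hrel0, hrel j]
          refine hmax _ (hs j).2 ?_
          exact ((Subgroup.relIndex_dvd_card _ _).trans
            ((Subgroup.card_subgroup_dvd_card _).trans (Subgroup.card_quotient_dvd_card N)))
        | succ i =>
          rw [hrel i, hrel j]
          exact hd i j (Fin.succ_le_succ_iff.mp hij)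

/-- A finite supersolvable group has a chain of normal subgroups, from the trivial subgroup to the whole group, in which every step has prime index and the primes occurring are non-increasing as one goes up the chain. -/
theorem result {G : Type*} [Group G] [Finite G] (hG : Cfsg.IsSupersolvable G) : ∃ (n : ℕ) (H : Fin (n + 1) → Subgroup G), H 0 = ⊥ ∧ H (Fin.last n) = ⊤ ∧ (∀ i, (H i).Normal) ∧ (∀ i : Fin n, H i.castSucc ≤ H i.succ ∧ ((H i.castSucc).relIndex (H i.succ)).Prime) ∧ ∀ i j : Fin n, i ≤ j → (H j.castSucc).relIndex (H j.succ) ≤ (H i.castSucc).relIndex (H i.succ) := by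
  exact chain (Nat.card G) G rfl hG

end Cfsg.Agent.S0529
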