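import Cfsg.Statements.S0530
import Mathlib
import Cfsg.Agent.Lib.Supersolvable.Basic

set_option autoImplicit false
open Cfsg

namespace Cfsg.Agent.S0530

theorem main (p : ℕ) (hp : p.Prime) : ∀ (n : ℕ) (G : Type*) [Group G] [Finite G],
    Nat.card G = 2 * p ^ n → Cfsg.IsSupersolvable G := by
  intro n
  have := Fact.mk hp
  induction n using Nat.strong_induction_on with
  | _ n ih =>
    intro G _ _ hG
    rcases eq_or_ne p 2 with rfl | hp2
    · exact CfsgLib.Supersolvable.isPGroup (IsPGroup.of_card (n := n + 1) (by rw [hG, pow_succ']))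
    rcases eq_or_ne n 0 with rfl | hn0
    · exact CfsgLib.Supersolvable.isPGroup (p := 2) (IsPGroup.of_card (n := 1) (by simpa using hG))
    obtain ⟨P⟩ := (inferInstance : Nonempty (Sylow p G))
    have hP : Nat.card P = p ^ n := by
      rw [P.card_eq_multiplicity, hG, Nat.factorization_mul (by simp) (pow_ne_zero _ hp.ne_zero),
        Finsupp.add_apply, hp.factorization_pow, Finsupp.single_eq_same,
        Nat.prime_two.factorization, Finsupp.single_eq_of_ne hp2, zero_add]
    have hidx : (P : Subgroup G).index = 2 := by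
      have h := (P : Subgroup G).card_mul_index
      rw [hP, hG, mul_comm 2] at h
      exact Nat.mul_left_cancel (pow_pos hp.pos n) h
    haveI : (P : Subgroup G).Normal := Subgroup.normal_of_index_eq_two hidx
    haveI : Nontrivial P := Finite.one_lt_card_iff_nontrivial.mp (hP ▸ Nat.one_lt_pow hn0 hp.one_lt)
    haveI := P.isPGroup'.center_nontrivial
    obtain ⟨k, hk, hc⟩ := (P.isPGroup'.to_subgroup (Subgroup.center P)).nontrivial_iff_card.mp inferInstance
    obtain ⟨⟨⟨x, hxP⟩, hxZ⟩, hx⟩ := exists_prime_orderOf_dvd_card' (G := Subgroup.center P) p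
      (hc ▸ dvd_pow_self p hk.ne')
    have hxp : orderOf x = p := by simpa [← Subgroup.orderOf_coe] using hx
    have hcomm : ∀ u ∈ (P : Subgroup G), u * x = x * u := fun u hu =>
      congrArg Subtype.val (Subgroup.mem_center_iff.mp hxZ ⟨u, hu⟩)
    obtain ⟨t, ht⟩ : ∃ t, t ∉ (P : Subgroup G) := by
      by_contra h
      push Not at h
      have h2 : (P : Subgroup G) = ⊤ := top_le_iff.mp fun u _ => h u
      rw [h2, Subgroup.index_top] at hidx
      omega
    have htt : t * t ∈ (P : Subgroup G) := by
      rw [Subgroup.mul_mem_iff_of_index_two hidx]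
    let x' := t * x * t⁻¹
    have hx'P : x' ∈ (P : Subgroup G) := (inferInstance : (P : Subgroup G).Normal).conj_mem x hxP t
    have htx' : t * x' * t⁻¹ = x := by
      rw [show t * x' * t⁻¹ = (t * t) * x * (t * t)⁻¹ by simp [x', mul_assoc], hcomm _ htt,
        mul_inv_cancel_right]
    have hdec : ∀ g : G, g * x * g⁻¹ = x ∨ g * x * g⁻¹ = x' := by
      intro g
      by_cases hg : g ∈ (P : Subgroup G)
      · exact Or.inl (by rw [hcomm g hg, mul_inv_cancel_right])
      · have : t⁻¹ * g ∈ (P : Subgroup G) := by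
          rw [Subgroup.mul_mem_iff_of_index_two hidx]
          simp [ht, hg]
        refine Or.inr ?_
        rw [show g * x * g⁻¹ = t * ((t⁻¹ * g) * x * (t⁻¹ * g)⁻¹) * t⁻¹ by simp [mul_assoc],
          hcomm _ this, mul_inv_cancel_right]
    obtain ⟨y, hyo, hy⟩ : ∃ y : G, orderOf y = p ∧ ∀ g : G, g * y * g⁻¹ ∈ Subgroup.zpowers y := by
      by_cases hinv : x * x' = 1
      · refine ⟨x, hxp, fun g => ?_⟩
        rcases hdec g with h | h <;> rw [h]
        · exact Subgroup.mem_zpowers x
        · rw [eq_inv_of_mul_eq_one_right hinv]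
          exact inv_mem (Subgroup.mem_zpowers x)
      · have hxx' : Commute x x' := (hcomm x' hx'P).symm
        refine ⟨x * x', orderOf_eq_prime ?_ hinv, fun g => ?_⟩
        · rw [hxx'.mul_pow, show x' = MulAut.conj t x from rfl, ← map_pow, ← hxp,
            pow_orderOf_eq_one, map_one, one_mul]
        · have hmul : g * (x * x') * g⁻¹ = (g * x * g⁻¹) * ((g * t) * x * (g * t)⁻¹) := by
            simp [x', mul_assoc]
          rw [hmul]
          by_cases hg : g ∈ (P : Subgroup G)
          · rw [show (g * t) * x * (g * t)⁻¹ = g * x' * g⁻¹ by simp [x', mul_assoc], hcomm g hg,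
              mul_inv_cancel_right]
            have hgx' : g * x' * g⁻¹ = x' := by
              have : t⁻¹ * g * t ∈ (P : Subgroup G) :=
                (inferInstance : (P : Subgroup G).Normal).conj_mem' g hg t
              rw [show g * x' * g⁻¹ = t * ((t⁻¹ * g * t) * x * (t⁻¹ * g * t)⁻¹) * t⁻¹ by
                simp [x', mul_assoc], hcomm _ this, mul_inv_cancel_right]
            rw [hgx']
            exact Subgroup.mem_zpowers _
          · have hgt : g * t ∈ (P : Subgroup G) := by
              rw [Subgroup.mul_mem_iff_of_index_two hidx]; simp [ht, hg]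
            have htg : t⁻¹ * g ∈ (P : Subgroup G) := by
              rw [Subgroup.mul_mem_iff_of_index_two hidx]; simp [ht, hg]
            rw [hcomm _ hgt, mul_inv_cancel_right,
              show g * x * g⁻¹ = t * ((t⁻¹ * g) * x * (t⁻¹ * g)⁻¹) * t⁻¹ by simp [mul_assoc],
              hcomm _ htg, mul_inv_cancel_right]
            exact hxx'.eq ▸ Subgroup.mem_zpowers _
    haveI : (Subgroup.zpowers y).Normal := ⟨fun z hz g => by
      obtain ⟨i, rfl⟩ := Subgroup.mem_zpowers_iff.mp hz
      rw [← conj_zpow]
      exact Subgroup.zpow_mem _ (hy g) i⟩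
    refine CfsgLib.Supersolvable.of_quotient_cyclic (Subgroup.zpowers y)
      (ih (n - 1) (Nat.sub_lt (Nat.pos_of_ne_zero hn0) Nat.one_pos) _ ?_)
    have h := Subgroup.card_eq_card_quotient_mul_card_subgroup (Subgroup.zpowers y)
    rw [Nat.card_zpowers, hyo, hG] at h
    refine Nat.eq_of_mul_eq_mul_right hp.pos (h.symm.trans ?_)
    rw [mul_assoc, ← pow_succ, Nat.sub_add_cancel (Nat.pos_of_ne_zero hn0)]

/-- A finite group whose order is twice a prime power is supersolvable. -/
theorem result {G : Type*} [Group G] [Finite G] (p n : ℕ) (hp : p.Prime) (hG : Nat.card G = 2 * p ^ n) : Cfsg.IsSupersolvable G := by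
  exact main p hp n G hG

end Cfsg.Agent.S0530
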