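import Cfsg.Statements.S0534
import Mathlib
import Cfsg.Agent.Lib.Hall.Existence
import Cfsg.Agent.Lib.Supersolvable.CLT

set_option autoImplicit false
open Cfsg

namespace Cfsg.Agent.S0534

theorem abelian_clt (A : Type*) [CommGroup A] [Finite A] : Cfsg.HasSubgroupOfEveryOrder A := by
  refine CfsgLib.Supersolvable.hasSubgroupOfEveryOrder ?_
  suffices ∀ (n : ℕ) (A : Type _) [CommGroup A] [Finite A], Nat.card A = n → Cfsg.IsSupersolvable A from
    this _ A rfl
  intro n
  induction n using Nat.strong_induction_on with
  | _ n ih =>
    intro A _ _ hn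
    rcases subsingleton_or_nontrivial A with h | h
    · exact CfsgLib.Supersolvable.of_subsingleton
    obtain ⟨a, ha⟩ := exists_ne (1 : A)
    exact CfsgLib.Supersolvable.of_quotient_cyclic (Subgroup.zpowers a)
      (ih _ (hn ▸ CfsgLib.Supersolvable.card_quotient_lt _ (fun h => ha (Subgroup.zpowers_eq_bot.mp h))) _ rfl)

/-- Let G be a finite solvable group and A a finite abelian group such that every prime dividing the order of A divides the order of G and, for each prime p dividing the order of G, the exponent of p in the order of A is one less than its exponent in the order of G. Then G × A has a subgroup of every order dividing its order. -/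
theorem result {G A : Type*} [Group G] [CommGroup A] [Finite G] [Finite A] [Group.IsSolvable G] (hA : ∀ p : ℕ, p.Prime → p ∣ Nat.card A → p ∣ Nat.card G) (hexp : ∀ p : ℕ, p.Prime → p ∣ Nat.card G → (Nat.card A).factorization p + 1 = (Nat.card G).factorization p) : Cfsg.HasSubgroupOfEveryOrder (G × A) := by
  intro d hd
  classical
  rw [Nat.card_prod] at hd
  have hd0 : d ≠ 0 := fun h => (mul_ne_zero Nat.card_pos.ne' Nat.card_pos.ne') (Nat.eq_zero_of_zero_dvd (h ▸ hd))
  let π : Set ℕ := {p | (Nat.card G).factorization p ≤ d.factorization p}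
  obtain ⟨H, hH⟩ := CfsgLib.Hall.exists_isPiHall (G := G) π
  have hH' := CfsgLib.Hall.isPiHall_iff.mp hH
  have hfac : ∀ p : ℕ, p.Prime → (Nat.card H).factorization p =
      if p ∈ π then (Nat.card G).factorization p else 0 := by
    intro p hp
    have h1 := Nat.factorization_mul (a := Nat.card H) Nat.card_pos.ne' H.index_ne_zero_of_finite
    rw [H.card_mul_index] at h1
    have h2 := DFunLike.congr_fun h1 p
    rw [Finsupp.add_apply] at h2
    split_ifs with hmem
    · rw [h2, Nat.factorization_eq_zero_of_not_dvd (fun hdp => hH'.2 p hp hdp hmem), add_zero]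
    · exact Nat.factorization_eq_zero_of_not_dvd (fun hdp => hmem (hH'.1 p hp hdp))
  have hHd : Nat.card H ∣ d := by
    rw [← Nat.factorization_prime_le_iff_dvd Nat.card_pos.ne' hd0]
    intro p hp
    rw [hfac p hp]
    split_ifs with hmem
    · exact hmem
    · exact Nat.zero_le _
  obtain ⟨c, rfl⟩ := hHd
  have hc0 : c ≠ 0 := fun h => hd0 (by rw [h, mul_zero])
  have hcA : c ∣ Nat.card A := by
    rw [← Nat.factorization_prime_le_iff_dvd hc0 Nat.card_pos.ne']
    intro p hp
    have hle : (Nat.card H * c).factorization p ≤ (Nat.card G * Nat.card A).factorization p :=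
      (Nat.factorization_le_iff_dvd hd0 (mul_ne_zero Nat.card_pos.ne' Nat.card_pos.ne')).mpr hd p
    rw [Nat.factorization_mul Nat.card_pos.ne' hc0, Finsupp.add_apply, hfac p hp,
      Nat.factorization_mul Nat.card_pos.ne' Nat.card_pos.ne', Finsupp.add_apply] at hle
    by_cases hG : p ∣ Nat.card G
    · have he := hexp p hp hG
      by_cases hmem : p ∈ π
      · rw [if_pos hmem] at hle; omega
      · rw [if_neg hmem] at hle
        have hlt : ¬ (Nat.card G).factorization p ≤ (Nat.card H * c).factorization p := hmem
        rw [Nat.factorization_mul Nat.card_pos.ne' hc0, Finsupp.add_apply, hfac p hp, if_neg hmem] at hlt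
        omega
    · have h0 : (Nat.card A).factorization p = 0 :=
        Nat.factorization_eq_zero_of_not_dvd fun h => hG (hA p hp h)
      have h1 : (Nat.card G).factorization p = 0 := Nat.factorization_eq_zero_of_not_dvd hG
      have : p ∈ π := show (Nat.card G).factorization p ≤ (Nat.card H * c).factorization p by rw [h1]; exact Nat.zero_le _
      rw [if_pos this] at hle
      omega
  obtain ⟨B, hB⟩ := abelian_clt A c hcA
  refine ⟨H.prod B, ?_⟩
  rw [Nat.card_congr (Subgroup.prodEquiv H B).toEquiv, Nat.card_prod, hB]

end Cfsg.Agent.S0534
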