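import Cfsg.Statements.S0535
import Mathlib
import Cfsg.Agent.Lib.Hall.Existence
import Cfsg.Agent.Lib.Hall.Solvability
import Cfsg.Agent.S0144

set_option autoImplicit false
open Cfsg

namespace Cfsg.Agent.S0535

universe u in
theorem main (G : Type u) [Group G] [Finite G] (h : ∀ H : Subgroup G, H ≠ ⊥ → ∀ p : ℕ, p.Prime →
    p ∣ Nat.card H → ∃ K : Subgroup H, K ≠ ⊤ ∧ ∃ k : ℕ, K.index = p ^ k) : Group.IsSolvable G := by
  suffices ∀ (n : ℕ) (S : Subgroup G), Nat.card S = n → Group.IsSolvable S by
    haveI := this _ ⊤ rfl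
    exact Group.isSolvable_of_surjective (f := (⊤ : Subgroup G).subtype) fun x => ⟨⟨x, trivial⟩, rfl⟩
  intro n
  induction n using Nat.strong_induction_on with
  | _ n ih =>
    intro S hS
    refine CfsgLib.Hall.isSolvable_of_isComplementSystem
      (fun {X} _ _ p q a b hp hq hX => Cfsg.Agent.S0144.result p q a b hp hq hX) fun p hp => ?_
    by_cases hpd : p ∣ Nat.card S
    · have hSne : S ≠ ⊥ := fun hb => by
        rw [hb, Subgroup.card_bot] at hpd
        exact hp.not_dvd_one hpd
      obtain ⟨K, hK, k, hk⟩ := h S hSne p hp hpd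
      have hlt : Nat.card (K.map S.subtype) < n := by
        rw [Subgroup.card_map_of_injective S.subtype_injective, ← hS]
        exact lt_of_le_of_ne (Subgroup.card_le_card_group K) fun he => hK (Subgroup.eq_top_of_card_eq K he)
      haveI := ih _ hlt (K.map S.subtype) rfl
      haveI : Group.IsSolvable K := Group.isSolvable_of_surjective
        (f := (K.equivMapOfInjective S.subtype S.subtype_injective).symm.toMonoidHom) (MulEquiv.surjective _)
      obtain ⟨H, hH⟩ := CfsgLib.Hall.exists_isPiHall (G := K) ({p}ᶜ : Set ℕ)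
      refine ⟨H.map K.subtype, CfsgLib.Hall.index_eq_ordProj_of_isPiHall hp ?_⟩
      obtain ⟨h1, h2⟩ := CfsgLib.Hall.isPiHall_iff.mp hH
      refine CfsgLib.Hall.isPiHall_iff.mpr
        ⟨by rwa [Subgroup.card_map_of_injective K.subtype_injective], ?_⟩
      rw [Subgroup.index_map_subtype, hk]
      refine h2.mul fun q hq hd => ?_
      rw [compl_compl]
      exact (Nat.prime_dvd_prime_iff_eq hq hp).mp (hq.dvd_of_dvd_pow hd)
    · exact ⟨⊤, by rw [Subgroup.index_top, Nat.factorization_eq_zero_of_not_dvd hpd, pow_zero]⟩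

/-- Suppose that for every nontrivial subgroup H of a finite group and every prime p dividing the order of H there is a proper subgroup of H whose index in H is a power of p. Then the group is solvable. -/
theorem result {G : Type*} [Group G] [Finite G] (h : ∀ H : Subgroup G, H ≠ ⊥ → ∀ p : ℕ, p.Prime → p ∣ Nat.card H → ∃ K : Subgroup H, K ≠ ⊤ ∧ ∃ k : ℕ, K.index = p ^ k) : Group.IsSolvable G := by
  exact main G h

end Cfsg.Agent.S0535
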