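import Cfsg.Statements.S0536
import Mathlib
import Cfsg.Agent.Lib.SolvableStructure.MinimalNonNilpotent

set_option autoImplicit false
open Cfsg

namespace Cfsg.Agent.S0536

/-- Structure of minimal non-nilpotent groups: if a finite group is not nilpotent but all its proper subgroups are, then there are distinct primes p and q, a cyclic Sylow p-subgroup P and a normal Sylow q-subgroup Q with G generated by P and Q. -/
theorem result {G : Type*} [Group G] [Finite G] (hG : Cfsg.IsMinimalNonNilpotent G) : ∃ p q : ℕ, p.Prime ∧ q.Prime ∧ p ≠ q ∧ ∃ (P : Sylow p G) (Q : Sylow q G), IsCyclic P ∧ (Q : Subgroup G).Normal ∧ (P : Subgroup G) ⊔ Q = ⊤ := by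
  obtain ⟨p, q, hp, hq, hpq, P, Q, h1, h2, h3, -⟩ := CfsgLib.SolvableStructure.schmidt hG
  exact ⟨p, q, hp, hq, hpq, P, Q, h1, h2, h3⟩

end Cfsg.Agent.S0536
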