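import Cfsg.Statements.S0537
import Mathlib
import Cfsg.Agent.Lib.SolvableStructure.MinimalNonNilpotent

set_option autoImplicit false
open Cfsg

namespace Cfsg.Agent.S0537

theorem abelian_of_nilpotent {G : Type*} [Group G] [Finite G] (hnil : Group.IsNilpotent G)
    (h : ∀ H : Subgroup G, H ≠ ⊤ → IsMulCommutative H) (hp : ∀ p : ℕ, p.Prime → ¬ IsPGroup p G) :
    IsMulCommutative G := by
  let e := Sylow.directProductOfNormal (G := G)
    (fun {p} [Fact p.Prime] P => CfsgLib.SolvableStructure.sylow_normal_of_isNilpotent hnil p P)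
  refine ⟨⟨fun a b => ?_⟩⟩
  obtain ⟨a, rfl⟩ := e.surjective a
  obtain ⟨b, rfl⟩ := e.surjective b
  rw [← map_mul, ← map_mul]
  congr 1
  funext p P
  have hpp : (p : ℕ).Prime := Nat.prime_of_mem_primeFactors p.2
  have hne : (P : Subgroup G) ≠ ⊤ := fun he => hp p hpp
    (P.isPGroup'.of_surjective (P : Subgroup G).subtype fun g => ⟨⟨g, he ▸ Subgroup.mem_top g⟩, rfl⟩)
  exact (h _ hne).is_comm.comm (a p P) (b p P)

/-- A finite non-abelian group in which every proper subgroup is abelian is either of prime-power order, or is generated by a cyclic Sylow p-subgroup and a normal Sylow q-subgroup that is elementary abelian, for distinct primes p and q. -/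
theorem result {G : Type*} [Group G] [Finite G] (hna : ¬ IsMulCommutative G) (h : ∀ H : Subgroup G, H ≠ ⊤ → IsMulCommutative H) : (∃ p : ℕ, p.Prime ∧ IsPGroup p G) ∨ ∃ p q : ℕ, p.Prime ∧ q.Prime ∧ p ≠ q ∧ ∃ (P : Sylow p G) (Q : Sylow q G), IsCyclic P ∧ (Q : Subgroup G).Normal ∧ Cfsg.IsElementaryAbelian q (Q : Subgroup G) ∧ (P : Subgroup G) ⊔ Q = ⊤ := by
  haveI : ∀ H : Subgroup G, H ≠ ⊤ → Group.IsNilpotent H := fun H hH => by
    haveI := h H hH
    open scoped IsMulCommutative in exact inferInstance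
  by_cases hnil : Group.IsNilpotent G
  · refine Or.inl ?_
    by_contra hp
    refine hna (abelian_of_nilpotent hnil h fun p hpp => fun hP => hp ⟨p, hpp, hP⟩)
  refine Or.inr ?_
  obtain ⟨p, q, hp, hq, hpq, P, Q, hc, hQn, hPQ, hnc⟩ :=
    CfsgLib.SolvableStructure.schmidt (G := G) ⟨hnil, this⟩
  haveI := Fact.mk hp
  haveI := Fact.mk hq
  refine ⟨p, q, hp, hq, hpq, P, Q, hc, hQn, ?_, hPQ⟩
  haveI := hQn
  have hQtop : (Q : Subgroup G) ≠ ⊤ := fun he => hnil <| by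
    haveI := Q.isPGroup'.isNilpotent
    exact Group.nilpotent_of_surjective (Q : Subgroup G).subtype fun g => ⟨⟨g, he ▸ Subgroup.mem_top g⟩, rfl⟩
  haveI hQc := h _ hQtop
  refine ⟨hQc, fun a ha => ?_⟩
  let Q₁ : Subgroup G :=
    { carrier := {x | x ∈ (Q : Subgroup G) ∧ x ^ q = 1}
      one_mem' := ⟨Subgroup.one_mem _, one_pow q⟩
      mul_mem' := fun {a b} ha hb => ⟨Subgroup.mul_mem _ ha.1 hb.1, by
        have hc : Commute a b :=
          congrArg Subtype.val (hQc.is_comm.comm (⟨a, ha.1⟩ : (Q : Subgroup G)) ⟨b, hb.1⟩)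
        rw [hc.mul_pow, ha.2, hb.2, one_mul]⟩
      inv_mem' := fun {a} ha => ⟨Subgroup.inv_mem _ ha.1, by rw [inv_pow, ha.2, inv_one]⟩ }
  haveI : Q₁.Normal := ⟨fun x hx g =>
    ⟨hQn.conj_mem x hx.1 g, by rw [conj_pow, hx.2]; simp⟩⟩
  have hle : Q₁ ≤ (Q : Subgroup G) := fun x hx => hx.1
  suffices (Q : Subgroup G) ≤ Q₁ from (this ha).2
  by_contra hlt
  have hne : (P : Subgroup G) ⊔ Q₁ ≠ ⊤ := fun he => hlt fun x hx => by
    obtain ⟨u, hu, v, hv, huv⟩ := Subgroup.mem_sup_of_normal_right.mp (he ▸ Subgroup.mem_top x)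
    have : u ∈ (P : Subgroup G) ⊓ Q :=
      ⟨hu, eq_mul_inv_of_mul_eq huv ▸ Subgroup.mul_mem _ hx (Subgroup.inv_mem _ (hle hv))⟩
    rw [disjoint_iff.mp (IsPGroup.disjoint_of_ne p q hpq _ _ P.isPGroup' Q.isPGroup'),
      Subgroup.mem_bot] at this
    rw [← huv, this, one_mul]
    exact hv
  haveI hW := h _ hne
  have hPQn : (P : Subgroup G) ≤ Subgroup.normalizer ((Q : Subgroup G) : Set G) :=
    (Subgroup.normalizer_eq_top (H := (Q : Subgroup G))).symm ▸ le_top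
  have hcop : (Nat.card P).Coprime (Nat.card Q) :=
    IsPGroup.coprime_card_of_ne p q hpq _ _ P.isPGroup' Q.isPGroup'
  refine hnc ?_
  rw [Subgroup.le_centralizer_iff, ← Subgroup.commutator_eq_bot_iff_le_centralizer]
  by_contra hbot
  haveI : Nontrivial ↥⁅(Q : Subgroup G), (P : Subgroup G)⁆ := (Subgroup.nontrivial_iff_ne_bot _).mpr hbot
  have hcl : ⁅(Q : Subgroup G), (P : Subgroup G)⁆ ≤ Q :=
    CfsgLib.CoprimeAction.commutator_le_left hPQn
  obtain ⟨k, hk, hkc⟩ := (Q.isPGroup'.to_le hcl).nontrivial_iff_card.mp inferInstance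
  obtain ⟨x, hx⟩ := exists_prime_orderOf_dvd_card' (G := ↥⁅(Q : Subgroup G), (P : Subgroup G)⁆) q
    (hkc ▸ dvd_pow_self q hk.ne')
  have hxQ : (x : G) ∈ Q₁ := ⟨hcl x.2, by
    exact congrArg Subtype.val (orderOf_dvd_iff_pow_eq_one.mp hx.dvd)⟩
  have hmem : (x : G) ∈ ((Q : Subgroup G) ⊓ Subgroup.centralizer ((P : Subgroup G) : Set G)) ⊓
      ⁅(Q : Subgroup G), (P : Subgroup G)⁆ := by
    refine ⟨⟨hcl x.2, Subgroup.mem_centralizer_iff.mpr fun u hu => ?_⟩, x.2⟩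
    exact congrArg Subtype.val (hW.is_comm.comm (⟨u, le_sup_left (b := Q₁) hu⟩ : ↥((P : Subgroup G) ⊔ Q₁))
      ⟨x, le_sup_right (a := (P : Subgroup G)) hxQ⟩)
  rw [CfsgLib.CoprimeAction.inf_commutator_eq_bot hPQn hcop, Subgroup.mem_bot] at hmem
  rw [show x = 1 from Subtype.ext hmem, orderOf_one] at hx
  exact hq.ne_one hx.symm

end Cfsg.Agent.S0537
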