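import Cfsg.Statements.S0540
import Mathlib
import Cfsg.Agent.Lib.SolvableStructure.SubnormalFamily
import Cfsg.Agent.Lib.CoprimeAction.Sylow

set_option autoImplicit false
open Pointwise
open Cfsg

namespace Cfsg.Agent.S0540

open CfsgLib.CoprimeAction in
theorem mem_conj {G : Type*} [Group G] [Finite G] {A : Subgroup G} {S : Subgroup G → Set (Subgroup G)}
    (hS : ∀ V B : Subgroup G, B ∈ S V ↔ (∃ g : G, B = MulAut.conj g • A) ∧ B ≤ V ∧ (B.subgroupOf V).IsSubnormal)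
    {V B : Subgroup G} (hB : B ∈ S V) {v : G} (hv : v ∈ V) : MulAut.conj v • B ∈ S V := by
  obtain ⟨⟨g, hg⟩, hle, hsn⟩ := (hS V B).mp hB
  refine (hS V _).mpr ⟨⟨v * g, by rw [hg, map_mul, mul_smul]⟩,
    conj_smul_le (Subgroup.le_normalizer hv) hle, ?_⟩
  have h : (MulAut.conj v • B).subgroupOf V = MulAut.conj (⟨v, hv⟩ : V) • B.subgroupOf V := by
    refine Subgroup.map_injective V.subtype_injective ?_
    rw [map_conj_subtype, Subgroup.map_subgroupOf_eq_of_le hle,
      Subgroup.map_subgroupOf_eq_of_le (conj_smul_le (Subgroup.le_normalizer hv) hle)]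
  rw [h]
  exact hsn.map (MulAut.conj (⟨v, hv⟩ : V)).surjective

theorem main {G : Type*} [Group G] [Finite G] (A : Subgroup G) (U : Set (Subgroup G))
    (hU : U.Nonempty) (S : Subgroup G → Set (Subgroup G))
    (hS : ∀ V B : Subgroup G, B ∈ S V ↔ (∃ g : G, B = MulAut.conj g • A) ∧ B ≤ V ∧ (B.subgroupOf V).IsSubnormal)
    (h1 : ∀ V ∈ U, A ∈ S V) (h2 : ∀ V ∈ U, ∀ W ∈ U, ∀ B ∈ S W, B ≤ V → B ∈ S V)
    (h3 : ∀ V ∈ U, ∀ W ∈ U, ∃ X ∈ U,
      Subgroup.normalizer ((sSup (S V ∩ S W) : Subgroup G) : Set G) ≤ X) :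
    ∃ M ∈ U, ∀ V ∈ U, V ≤ M := by
  obtain ⟨M, hM⟩ : ∃ M, Maximal (· ∈ U) M := Set.Finite.exists_maximal (Set.toFinite U) hU
  suffices ∀ V W, Maximal (· ∈ U) V → Maximal (· ∈ U) W → V = W by
    refine ⟨M, hM.prop, fun V hV => ?_⟩
    obtain ⟨W, hVW, hW⟩ := Finite.exists_le_maximal (p := (· ∈ U)) hV
    exact this W M hW hM ▸ hVW
  by_contra hcon
  push Not at hcon
  -- choose two maximal members with the largest common family
  obtain ⟨⟨V, W⟩, ⟨hV, hW, hne⟩, hmax⟩ := Set.exists_max_image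
    {P : Subgroup G × Subgroup G | Maximal (· ∈ U) P.1 ∧ Maximal (· ∈ U) P.2 ∧ P.1 ≠ P.2}
    (fun P => (S P.1 ∩ S P.2).ncard) (Set.toFinite _)
    (by obtain ⟨V, W, hV, hW, hne⟩ := hcon; exact ⟨(V, W), hV, hW, hne⟩)
  obtain ⟨X, hX, hDX⟩ := h3 V hV.prop W hW.prop
  obtain ⟨X', hXX', hX'⟩ := Finite.exists_le_maximal (p := (· ∈ U)) hX
  let D := S V ∩ S W
  have hJ : Subgroup.normalizer ((sSup D : Subgroup G) : Set G) ≤ X' := hDX.trans hXX'
  have hnorm : ∀ Y : Subgroup G, S Y ⊆ D → (∀ B ∈ D, B ∈ S Y) →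
      Y ≤ Subgroup.normalizer ((sSup D : Subgroup G) : Set G) := by
    intro Y hY1 hY2 v hv
    refine CfsgLib.CoprimeAction.mem_normalizer_of_conj_mem fun x hx => ?_
    have h : sSup D ≤ (sSup D).comap (MulAut.conj v).toMonoidHom :=
      sSup_le fun B hB => Subgroup.map_le_iff_le_comap.mp
        (le_sSup (hY1 (mem_conj hS (hY2 B hB) hv)))
    exact h hx
  have step : ∀ Y ∈ ({V, W} : Set (Subgroup G)), D ⊂ S Y →
      ∃ B ∈ S Y, B ∉ D ∧ B ≤ X' := by
    intro Y hY hlt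
    obtain ⟨B, hB, hBD, hBn⟩ := CfsgLib.SolvableStructure.exists_normalizing_of_family_in Y (S Y) D
      (fun B hB => ((hS Y B).mp hB).2.1) (fun B hB => ((hS Y B).mp hB).2.2)
      (fun B hB v hv => mem_conj hS hB hv) hlt
    exact ⟨B, hB, hBD, hBn.trans hJ⟩
  have grow : ∀ Y, Maximal (· ∈ U) Y → D ⊆ S Y → ∀ B ∈ S Y, B ∉ D → B ≤ X' → Y = X' := by
    intro Y hY hDY B hB hBD hBX
    by_contra hne'
    have hsub : insert B D ⊆ S Y ∩ S X' := by
      rintro C (rfl | hC)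
      · exact ⟨hB, h2 X' hX'.prop Y hY.prop C hB hBX⟩
      · exact ⟨hDY hC, h2 X' hX'.prop Y hY.prop C (hDY hC)
          ((le_sSup hC).trans (Subgroup.le_normalizer.trans hJ))⟩
    have h4 := hmax (Y, X') ⟨hY, hX', hne'⟩
    have h5 := Set.ncard_le_ncard hsub (Set.toFinite _)
    rw [Set.ncard_insert_of_notMem hBD (Set.toFinite _)] at h5
    exact absurd (h5.trans h4) (by simp [D])
  rcases (Set.inter_subset_left : D ⊆ S V).eq_or_ssubset with hDV | hDV <;>
    rcases (Set.inter_subset_right : D ⊆ S W).eq_or_ssubset with hDW | hDW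
  · have hV' : V = X' := hV.eq_of_le hX'.prop ((hnorm V hDV.ge fun B hB => hB.1).trans hJ)
    have hW' : W = X' := hW.eq_of_le hX'.prop ((hnorm W hDW.ge fun B hB => hB.2).trans hJ)
    exact hne (hV'.trans hW'.symm)
  · obtain ⟨C, hC, hCD, hCX⟩ := step W (by simp) hDW
    have hV' : V = X' := hV.eq_of_le hX'.prop ((hnorm V hDV.ge fun B hB => hB.1).trans hJ)
    have hW' := grow W hW Set.inter_subset_right C hC hCD hCX
    exact hne (hV'.trans hW'.symm)
  · obtain ⟨C, hC, hCD, hCX⟩ := step V (by simp) hDV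
    have hW' : W = X' := hW.eq_of_le hX'.prop ((hnorm W hDW.ge fun B hB => hB.2).trans hJ)
    have hV' := grow V hV Set.inter_subset_left C hC hCD hCX
    exact hne (hV'.trans hW'.symm)
  · obtain ⟨B, hB, hBD, hBX⟩ := step V (by simp) hDV
    obtain ⟨C, hC, hCD, hCX⟩ := step W (by simp) hDW
    exact hne ((grow V hV Set.inter_subset_left B hB hBD hBX).trans
      (grow W hW Set.inter_subset_right C hC hCD hCX).symm)

/-- A uniqueness lemma of zipper type. Let A be a subgroup of a finite group G and U a nonempty family of subgroups. For V in U write S(V) for the set of conjugates of A that lie in V and are subnormal in V. Assume: A belongs to S(V) for every V in U; a member of some S(W) that lies in V belongs to S(V); and for all V, W in U the normalizer of the join of S(V) ∩ S(W) lies in some member of U. Then U has a greatest element. -/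
theorem result {G : Type*} [Group G] [Finite G] (A : Subgroup G) (U : Set (Subgroup G)) (hU : U.Nonempty) (S : Subgroup G → Set (Subgroup G)) (hS : ∀ V B : Subgroup G, B ∈ S V ↔ (∃ g : G, B = MulAut.conj g • A) ∧ B ≤ V ∧ (B.subgroupOf V).IsSubnormal) (h1 : ∀ V ∈ U, A ∈ S V) (h2 : ∀ V ∈ U, ∀ W ∈ U, ∀ B ∈ S W, B ≤ V → B ∈ S V) (h3 : ∀ V ∈ U, ∀ W ∈ U, ∃ X ∈ U, Subgroup.normalizer ((sSup (S V ∩ S W) : Subgroup G) : Set G) ≤ X) : ∃ M ∈ U, ∀ V ∈ U, V ≤ M := by
  exact main A U hU S hS h1 h2 h3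

end Cfsg.Agent.S0540
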