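import Cfsg.Statements.S0541
import Mathlib
import Cfsg.Agent.Lib.SolvableStructure.SubnormalFamily
import Cfsg.Agent.Lib.CoprimeAction.Sylow
import Cfsg.Agent.Lib.Subnormal.Basic

set_option autoImplicit false
open Pointwise
open Cfsg

namespace Cfsg.Agent.S0541

open CfsgLib.CoprimeAction in
theorem main {G : Type*} [Group G] [Finite G] (p : ℕ) [Fact p.Prime] (Z Y : Subgroup G)
    (h : ∀ g : G, IsPGroup p ↥(⨆ y ∈ Y, MulAut.conj (y * g) • Z)) :
    ∃ P : Sylow p G, Y ≤ Subgroup.normalizer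
      ((⨆ g ∈ {g : G | MulAut.conj g • Z ≤ (P : Subgroup G)}, MulAut.conj g • Z : Subgroup G) : Set G) := by
  -- subgroups generated by conjugates of `Z`
  let gen : Set G → Subgroup G := fun T => ⨆ g ∈ T, MulAut.conj g • Z
  have hgen : ∀ T : Set G, ∀ g ∈ T, MulAut.conj g • Z ≤ gen T := fun T g hg =>
    le_iSup₂ (f := fun g (_ : g ∈ T) => MulAut.conj g • Z) g hg
  have hY : ∀ g : G, Y ≤ Subgroup.normalizer ((⨆ y ∈ Y, MulAut.conj (y * g) • Z : Subgroup G) : Set G) := by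
    intro g v hv
    refine mem_normalizer_of_conj_mem fun x hx => ?_
    have h' : (⨆ y ∈ Y, MulAut.conj (y * g) • Z : Subgroup G) ≤
        (⨆ y ∈ Y, MulAut.conj (y * g) • Z : Subgroup G).comap (MulAut.conj v).toMonoidHom :=
      iSup₂_le fun y hy => Subgroup.map_le_iff_le_comap.mp
        (le_iSup₂_of_le (f := fun y (_ : y ∈ Y) => MulAut.conj (y * g) • Z) (v * y) (Y.mul_mem hv hy)
          (le_of_eq (by rw [mul_assoc v, map_mul _ v (y * g), mul_smul]; rfl)))
    exact h' hx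
  obtain ⟨J, hJ⟩ : ∃ J, Maximal (fun J : Subgroup G =>
      IsPGroup p J ∧ Y ≤ Subgroup.normalizer (J : Set G) ∧ ∃ T : Set G, J = gen T) J := by
    refine Set.Finite.exists_maximal (Set.toFinite _) ⟨⊥, IsPGroup.of_bot, ?_, ∅, by simp [gen]⟩
    rw [Subgroup.normalizer_eq_top]
    exact le_top
  obtain ⟨hJp, hJY, T, hT⟩ := hJ.prop
  obtain ⟨P, hP⟩ := hJp.exists_le_sylow
  refine ⟨P, ?_⟩
  let W : Subgroup G := gen {g : G | MulAut.conj g • Z ≤ (P : Subgroup G)}
  suffices W = J by show Y ≤ Subgroup.normalizer (W : Set G); rw [this]; exact hJY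
  have hJW : J ≤ W := hT ▸ iSup₂_le fun g hg => hgen _ g ((hgen T g hg).trans (hT ▸ hP))
  have hWP : W ≤ P := iSup₂_le fun g hg => hg
  by_contra hne
  let S : Set (Subgroup G) := {X | ∃ g : G, X = MulAut.conj g • Z ∧ MulAut.conj g • Z ≤ (P : Subgroup G)}
  let S₀ : Set (Subgroup G) := {X ∈ S | X ≤ J}
  have hS₀ : S₀ ⊂ S := ⟨fun X hX => hX.1, fun hle => hne (le_antisymm
    (iSup₂_le fun g hg => (hle ⟨g, rfl, hg⟩).2) hJW)⟩
  obtain ⟨X, ⟨g, rfl, hgP⟩, hX₀, hXn⟩ :=
    CfsgLib.SolvableStructure.exists_normalizing_of_family_in (P : Subgroup G) S S₀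
      (by rintro _ ⟨g, rfl, hg⟩; exact hg)
      (fun X _ => CfsgLib.Subnormal.isSubnormal_subgroupOf_of_isNilpotent P.isPGroup'.isNilpotent)
      (by
        rintro _ ⟨g, rfl, hg⟩ v hv
        refine ⟨v * g, by rw [map_mul, mul_smul], ?_⟩
        rw [map_mul, mul_smul]
        exact conj_smul_le (Subgroup.le_normalizer hv) hg) hS₀
  have hsup : sSup S₀ = J := by
    refine le_antisymm (sSup_le fun X hX => hX.2) ?_
    conv_lhs => rw [hT]
    exact iSup₂_le fun g hg => le_sSup ⟨⟨g, rfl, (hgen T g hg).trans (hT ▸ hP)⟩, hT ▸ hgen T g hg⟩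
  rw [hsup] at hXn
  let K : Subgroup G := ⨆ y ∈ Y, MulAut.conj (y * g) • Z
  have hgK : MulAut.conj g • Z ≤ K :=
    le_iSup₂_of_le (f := fun y (_ : y ∈ Y) => MulAut.conj (y * g) • Z) 1 Y.one_mem (by rw [one_mul])
  have hKn : K ≤ Subgroup.normalizer (J : Set G) := by
    refine iSup₂_le fun y hy => ?_
    rw [map_mul, mul_smul]
    exact conj_smul_le (Subgroup.le_normalizer (hJY hy)) hXn
  have hnew := hJ.eq_of_le (y := J ⊔ K) ⟨IsPGroup.to_sup_of_normal_left' hJp (h g) hKn, ?_,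
    T ∪ ((fun y => y * g) '' (Y : Set G)), ?_⟩ le_sup_left
  · exact hX₀ ⟨⟨g, rfl, hgP⟩, hgK.trans (le_sup_right.trans hnew.ge)⟩
  · exact CfsgLib.Subnormal.le_normalizer_sup hJY (hY g)
  · rw [hT]
    simp only [gen, iSup_union, iSup_image, K, SetLike.mem_coe]

/-- Let Z and Y be subgroups of a finite group G and p a prime. Suppose that for every g in G the subgroup generated by the conjugates of g Z g⁻¹ under Y is a p-group. Then there is a Sylow p-subgroup P of G such that Y normalizes the subgroup generated by all conjugates of Z contained in P. -/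
theorem result {G : Type*} [Group G] [Finite G] (p : ℕ) [Fact p.Prime] (Z Y : Subgroup G) (h : ∀ g : G, IsPGroup p ↥(⨆ y ∈ Y, MulAut.conj (y * g) • Z)) : ∃ P : Sylow p G, Y ≤ Subgroup.normalizer ((⨆ g ∈ {g : G | MulAut.conj g • Z ≤ (P : Subgroup G)}, MulAut.conj g • Z : Subgroup G) : Set G) := by
  exact main p Z Y h

end Cfsg.Agent.S0541
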