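import Cfsg.Statements.S0542
import Mathlib


set_option autoImplicit false
open Cfsg

namespace Cfsg.Agent.S0542

theorem not_dvd_relIndex {G : Type*} [Group G] [Finite G] {p : ℕ} [Fact p.Prime] {H : Subgroup G}
    (hH : H.IsSubnormal) (S : Sylow p G) : ¬ p ∣ (S : Subgroup G).relIndex H := by
  induction hH with
  | top => rw [Subgroup.relIndex_top_right]; exact S.not_dvd_index
  | step H K hle hK hN ih =>
    let P : Subgroup K := (S : Subgroup G).subgroupOf K
    let N : Subgroup K := H.subgroupOf K
    haveI : N.Normal := hN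
    have h1 : P.relIndex N = (S : Subgroup G).relIndex H :=
      Subgroup.relIndex_subgroupOf hle
    have h2 := Subgroup.relIndex_mul_relIndex (P ⊓ N) P (P ⊔ N) inf_le_left le_sup_left
    rw [← Subgroup.relIndex_mul_relIndex (P ⊓ N) N (P ⊔ N) inf_le_right le_sup_right,
      Subgroup.inf_relIndex_right, Subgroup.inf_relIndex_left, Subgroup.relIndex_sup_right,
      mul_comm] at h2
    have h3 : P.relIndex (P ⊔ N) = P.relIndex N :=
      Nat.eq_of_mul_eq_mul_right (Nat.pos_of_ne_zero (Subgroup.index_ne_zero_of_finite (H := N.subgroupOf P))) h2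
    intro hd
    rw [← h1, ← h3] at hd
    exact ih (hd.trans (dvd_trans (Dvd.intro _ (Subgroup.relIndex_mul_index le_sup_left)) dvd_rfl))

/-- A Sylow p-subgroup of a finite group meets every subnormal subgroup H in a Sylow p-subgroup of H. -/
theorem result {G : Type*} [Group G] [Finite G] (p : ℕ) [Fact p.Prime] (H : Subgroup G) (hH : H.IsSubnormal) (S : Sylow p G) : ∃ Q : Sylow p H, (Q : Subgroup H) = (S : Subgroup G).subgroupOf H := by
  refine ⟨((S.isPGroup'.to_le (inf_le_left : (S : Subgroup G) ⊓ H ≤ S)).of_equiv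
      (Subgroup.subgroupOfEquivOfLe (inf_le_right : (S : Subgroup G) ⊓ H ≤ H)).symm).toSylow ?_, ?_⟩
  · rw [← Subgroup.relIndex, Subgroup.inf_relIndex_right]
    exact not_dvd_relIndex hH S
  · exact Subgroup.inf_subgroupOf_right _ _

end Cfsg.Agent.S0542
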