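import Cfsg.Statements.S0547
import Mathlib
import Cfsg.Agent.Lib.SolvableStructure.MinimalNormal

set_option autoImplicit false
open Cfsg

namespace Cfsg.Agent.S0547

/-- Let a finite solvable group G act faithfully and primitively on a set, and let M be a minimal normal subgroup of G. Then M is transitive with trivial point stabilizers, and the number of points equals the order of M, which is a prime power p ^ d with d ≥ 1. -/
theorem result {G : Type*} [Group G] [Finite G] [Group.IsSolvable G] {Ω : Type*} [Nonempty Ω] [MulAction G Ω] [FaithfulSMul G Ω] (hprim : MulAction.IsPreprimitive G Ω) (M : Subgroup G) [M.Normal] (hM : M ≠ ⊥) (hmin : ∀ K : Subgroup G, K.Normal → K ≤ M → K = ⊥ ∨ K = M) : MulAction.IsPretransitive M Ω ∧ (∀ ω : Ω, MulAction.stabilizer M ω = ⊥) ∧ ∃ p d : ℕ, p.Prime ∧ 0 < d ∧ Nat.card Ω = p ^ d ∧ Nat.card M = p ^ d := by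
  haveI := hprim
  haveI hMc := CfsgLib.SolvableStructure.isMulCommutative_of_minimal_normal hM hmin
  have htrans : MulAction.IsPretransitive M Ω := by
    refine MulAction.IsQuasiPreprimitive.isPretransitive_of_normal fun h => hM ?_
    refine eq_bot_iff.mpr fun m hm => ?_
    refine Subgroup.mem_bot.mpr (FaithfulSMul.eq_of_smul_eq_smul fun x : Ω => ?_)
    rw [one_smul]
    have hx : x ∈ MulAction.fixedPoints M Ω := h ▸ Set.mem_univ x
    exact hx ⟨m, hm⟩
  have hstab : ∀ ω : Ω, MulAction.stabilizer M ω = ⊥ := by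
    intro ω
    refine eq_bot_iff.mpr fun m hm => Subgroup.mem_bot.mpr (Subtype.ext ?_)
    refine FaithfulSMul.eq_of_smul_eq_smul fun x : Ω => ?_
    obtain ⟨k, rfl⟩ := htrans.exists_smul_eq ω x
    rw [OneMemClass.coe_one, one_smul]
    show (m : G) • (k : G) • ω = (k : G) • ω
    rw [← mul_smul, CfsgLib.SolvableStructure.commute_of_isMulCommutative m.2 k.2, mul_smul]
    congr 1
  refine ⟨htrans, hstab, ?_⟩
  obtain ⟨p, d, hp, hd, hc, -, -⟩ := CfsgLib.SolvableStructure.minimal_normal_prime hM hmin
  refine ⟨p, d, hp, hd, ?_, hc⟩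
  obtain ⟨ω⟩ := (inferInstance : Nonempty Ω)
  have h := MulAction.index_stabilizer_of_transitive M ω
  rw [hstab ω, Subgroup.index_bot] at h
  rw [← h, hc]

end Cfsg.Agent.S0547
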