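import Cfsg.Statements.S0548
import Mathlib
import Cfsg.Agent.Lib.SolvableStructure.MinimalNormal

set_option autoImplicit false
open Cfsg

namespace Cfsg.Agent.S0548

/-- Let a finite solvable group G act faithfully and primitively on a set, let M be a minimal normal subgroup and H the stabilizer of a point. Then H is a complement to M, no non-identity element of H centralizes M, and the only subgroups of M normalized by H are the trivial subgroup and M. -/
theorem result {G : Type*} [Group G] [Finite G] [Group.IsSolvable G] {Ω : Type*} [MulAction G Ω] [FaithfulSMul G Ω] (hprim : MulAction.IsPreprimitive G Ω) (M : Subgroup G) [M.Normal] (hM : M ≠ ⊥) (hmin : ∀ K : Subgroup G, K.Normal → K ≤ M → K = ⊥ ∨ K = M) (ω : Ω) : Subgroup.IsComplement' M (MulAction.stabilizer G ω) ∧ MulAction.stabilizer G ω ⊓ Subgroup.centralizer (M : Set G) = ⊥ ∧ ∀ K : Subgroup G, K ≤ M → MulAction.stabilizer G ω ≤ Subgroup.normalizer (K : Set G) → K = ⊥ ∨ K = M := by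
  haveI := hprim
  haveI hMc := CfsgLib.SolvableStructure.isMulCommutative_of_minimal_normal hM hmin
  have htrans : MulAction.IsPretransitive M Ω := by
    refine MulAction.IsQuasiPreprimitive.isPretransitive_of_normal fun h => hM ?_
    refine eq_bot_iff.mpr fun m hm => ?_
    refine Subgroup.mem_bot.mpr (FaithfulSMul.eq_of_smul_eq_smul fun x : Ω => ?_)
    rw [one_smul]
    have hx : x ∈ MulAction.fixedPoints M Ω := h ▸ Set.mem_univ x
    exact hx ⟨m, hm⟩
  have hfix : ∀ g : G, (∀ k ∈ M, g * k = k * g) → g • ω = ω → g = 1 := by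
    intro g hg hω
    refine FaithfulSMul.eq_of_smul_eq_smul fun x : Ω => ?_
    obtain ⟨k, rfl⟩ := htrans.exists_smul_eq ω x
    rw [one_smul]
    show g • (k : G) • ω = (k : G) • ω
    rw [← mul_smul, hg k k.2, mul_smul, hω]
  have hcompl : Subgroup.IsComplement' M (MulAction.stabilizer G ω) := by
    refine Subgroup.isComplement'_stabilizer ω (fun m hm => ?_) fun g => ?_
    · exact Subtype.ext (hfix m (fun k hk =>
        CfsgLib.SolvableStructure.commute_of_isMulCommutative m.2 hk) hm)
    · obtain ⟨m, hm⟩ := htrans.exists_smul_eq (g • ω) ω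
      exact ⟨m, hm⟩
  refine ⟨hcompl, ?_, fun K hK hn => ?_⟩
  · refine eq_bot_iff.mpr fun g hg => Subgroup.mem_bot.mpr ?_
    exact hfix g (fun k hk => (Subgroup.mem_centralizer_iff.mp hg.2 k hk).symm) hg.1
  · refine hmin K (CfsgLib.SolvableStructure.normal_of_supplement hcompl.sup_eq_top
      (fun m hm => ?_) hn) hK
    exact Subgroup.centralizer_le_normalizer _ (Subgroup.mem_centralizer_iff.mpr fun k hk =>
      CfsgLib.SolvableStructure.commute_of_isMulCommutative (hK hk) hm)

end Cfsg.Agent.S0548
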