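import Cfsg.Statements.S0550
import Mathlib
import Cfsg.Agent.Lib.SolvableStructure.MinimalNormal

set_option autoImplicit false
open Cfsg

namespace Cfsg.Agent.S0550

/-- Let U be a maximal subgroup with trivial normal core in a finite group G, and A ≠ B two minimal normal subgroups. Then A is the centralizer of B and B that of A, U complements each of them, A and B are non-abelian, and A, B and (A ⊔ B) ∩ U are pairwise isomorphic. -/
theorem result {G : Type*} [Group G] [Finite G] (U : Subgroup G) (hU : IsCoatom U) (hcore : U.normalCore = ⊥) (A B : Subgroup G) [A.Normal] [B.Normal] (hA : A ≠ ⊥) (hB : B ≠ ⊥) (hAmin : ∀ K : Subgroup G, K.Normal → K ≤ A → K = ⊥ ∨ K = A) (hBmin : ∀ K : Subgroup G, K.Normal → K ≤ B → K = ⊥ ∨ K = B) (hAB : A ≠ B) : Subgroup.centralizer (B : Set G) = A ∧ Subgroup.centralizer (A : Set G) = B ∧ Subgroup.IsComplement' A U ∧ Subgroup.IsComplement' B U ∧ ¬ IsMulCommutative A ∧ Nonempty (A ≃* B) ∧ Nonempty (A ≃* ↥((A ⊔ B) ⊓ U)) := by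
  have hdis : A ⊓ B = ⊥ := by
    rcases hAmin (A ⊓ B) inferInstance inf_le_left with h | h
    · exact h
    · rcases hBmin A inferInstance (inf_eq_left.mp h) with h' | h'
      · exact absurd h' hA
      · exact absurd h' hAB
  have hcomm : ∀ a ∈ A, ∀ b ∈ B, a * b = b * a := fun a ha b hb =>
    Subgroup.commute_of_normal_of_disjoint A B inferInstance inferInstance
      (disjoint_iff.mpr hdis) a b ha hb
  have hCB : Subgroup.centralizer (B : Set G) = A :=
    ((CfsgLib.SolvableStructure.centralizer_minimal hU hcore hB A inferInstance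
      (fun a ha => Subgroup.mem_centralizer_iff.mpr fun b hb => (hcomm a ha b hb).symm)).resolve_left hA).symm
  have hCA : Subgroup.centralizer (A : Set G) = B :=
    ((CfsgLib.SolvableStructure.centralizer_minimal hU hcore hA B inferInstance
      (fun b hb => Subgroup.mem_centralizer_iff.mpr fun a ha => hcomm a ha b hb)).resolve_left hB).symm
  have hAU : A ⊓ U = ⊥ := hCB ▸ CfsgLib.SolvableStructure.centralizer_inf_eq_bot hU hcore hB
  have hBU : B ⊓ U = ⊥ := hCA ▸ CfsgLib.SolvableStructure.centralizer_inf_eq_bot hU hcore hA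
  have hsupA : A ⊔ U = ⊤ := CfsgLib.SolvableStructure.sup_eq_top_of_not_le hU
    (CfsgLib.SolvableStructure.not_le_of_normalCore_eq_bot hcore hA)
  have hsupB : B ⊔ U = ⊤ := CfsgLib.SolvableStructure.sup_eq_top_of_not_le hU
    (CfsgLib.SolvableStructure.not_le_of_normalCore_eq_bot hcore hB)
  have hded : ∀ X : Subgroup G, X.Normal → X ≤ A ⊔ B → X ⊔ U = ⊤ → X ⊔ ((A ⊔ B) ⊓ U) = A ⊔ B := by
    intro X hXn hX hXU
    refine le_antisymm (sup_le hX inf_le_left) fun g hg => ?_
    obtain ⟨x, hx, u, hu, rfl⟩ :=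
      Subgroup.mem_sup_of_normal_left.mp (hXU ▸ Subgroup.mem_top g)
    exact Subgroup.mul_mem_sup hx
      ⟨by simpa using Subgroup.mul_mem _ (Subgroup.inv_mem _ (hX hx)) hg, hu⟩
  refine ⟨hCB, hCA, ?_, ?_, ?_, ?_, ?_⟩
  · exact Subgroup.isComplement'_of_disjoint_and_mul_eq_univ (disjoint_iff.mpr hAU)
      (by rw [← Subgroup.normal_mul, hsupA]; rfl)
  · exact Subgroup.isComplement'_of_disjoint_and_mul_eq_univ (disjoint_iff.mpr hBU)
      (by rw [← Subgroup.normal_mul, hsupB]; rfl)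
  · intro hc
    have hle : A ≤ B := hCA ▸ CfsgLib.SolvableStructure.le_centralizer_of_isMulCommutative A
    exact hA (hdis ▸ (inf_eq_left.mpr hle).symm)
  · obtain ⟨e₁⟩ := CfsgLib.SolvableStructure.nonempty_equiv_of_sup_eq (X := A) (Y := B)
      (Z := (A ⊔ B) ⊓ U) hdis (eq_bot_iff.mpr fun x hx => hAU ▸ ⟨hx.1, hx.2.2⟩)
      (hded A inferInstance le_sup_left hsupA).symm
    obtain ⟨e₂⟩ := CfsgLib.SolvableStructure.nonempty_equiv_of_sup_eq (X := B) (Y := A)
      (Z := (A ⊔ B) ⊓ U) (inf_comm A B ▸ hdis) (eq_bot_iff.mpr fun x hx => hBU ▸ ⟨hx.1, hx.2.2⟩)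
      ((sup_comm B A).trans (hded B inferInstance le_sup_right hsupB).symm)
    exact ⟨e₂.trans e₁.symm⟩
  · exact CfsgLib.SolvableStructure.nonempty_equiv_of_sup_eq (X := B) (Y := A)
      (Z := (A ⊔ B) ⊓ U) (inf_comm A B ▸ hdis) (eq_bot_iff.mpr fun x hx => hBU ▸ ⟨hx.1, hx.2.2⟩)
      ((sup_comm B A).trans (hded B inferInstance le_sup_right hsupB).symm)

end Cfsg.Agent.S0550
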