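import Cfsg.Statements.S0551
import Mathlib
import Cfsg.Agent.Lib.SolvableStructure.MinimalNormal
import Cfsg.Agent.Lib.CoprimeAction.Basic

set_option autoImplicit false
open Pointwise
open Cfsg

namespace Cfsg.Agent.S0551

/-- In a finite solvable group all core-free maximal subgroups are conjugate. -/
theorem result {G : Type*} [Group G] [Finite G] [Group.IsSolvable G] (U V : Subgroup G) (hU : IsCoatom U) (hV : IsCoatom V) (hUc : U.normalCore = ⊥) (hVc : V.normalCore = ⊥) : ∃ g : G, MulAut.conj g • U = V := by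
  rcases subsingleton_or_nontrivial G with hG | hG
  · exact absurd (Subsingleton.elim U ⊤) hU.1
  obtain ⟨A, -, hAn, hA, hAmin⟩ :=
    CfsgLib.SolvableStructure.exists_minimal_normal (N := (⊤ : Subgroup G)) inferInstance top_ne_bot
  haveI := hAn
  obtain ⟨p, d, hp, hd, hAc, -, hAab⟩ := CfsgLib.SolvableStructure.minimal_normal_prime hA hAmin
  have hAinf : ∀ W : Subgroup G, IsCoatom W → W.normalCore = ⊥ →
      A ⊔ W = ⊤ ∧ A ⊓ W = ⊥ := fun W hW hWc => by
    refine ⟨CfsgLib.SolvableStructure.sup_eq_top_of_not_le hW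
      (CfsgLib.SolvableStructure.not_le_of_normalCore_eq_bot hWc hA), eq_bot_iff.mpr ?_⟩
    refine le_trans (inf_le_inf_right W ?_)
      (CfsgLib.SolvableStructure.centralizer_inf_eq_bot hW hWc hA).le
    exact CfsgLib.SolvableStructure.le_centralizer_of_isMulCommutative A
  obtain ⟨hAU, hAU'⟩ := hAinf U hU hUc
  obtain ⟨hAV, hAV'⟩ := hAinf V hV hVc
  by_cases hUbot : U = ⊥
  · refine ⟨1, ?_⟩
    rw [map_one, one_smul]
    have : A = ⊤ := by rw [← hAU, hUbot, sup_bot_eq]
    rw [hUbot, ← hAV', this, top_inf_eq]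
  -- a minimal normal subgroup `R` of `U`
  haveI : Nontrivial U := (Subgroup.nontrivial_iff_ne_bot U).mpr hUbot
  obtain ⟨R₀, -, hR₀n, hR₀, hR₀min⟩ :=
    CfsgLib.SolvableStructure.exists_minimal_normal (N := (⊤ : Subgroup U)) inferInstance top_ne_bot
  haveI := hR₀n
  obtain ⟨r, e, hr, he, hRc, -, hRab⟩ := CfsgLib.SolvableStructure.minimal_normal_prime hR₀ hR₀min
  let R : Subgroup G := R₀.map U.subtype
  have hRU : R ≤ U := Subgroup.map_subtype_le R₀
  have hRne : R ≠ ⊥ := fun h =>
    hR₀ ((Subgroup.map_eq_bot_iff_of_injective _ U.subtype_injective).mp h)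
  have hRcard : Nat.card R = r ^ e := by
    rw [Subgroup.card_map_of_injective U.subtype_injective, hRc]
  have hUR : U ≤ Subgroup.normalizer (R : Set G) := by
    rw [← Subgroup.normal_subgroupOf_iff_le_normalizer hRU]
    rwa [Subgroup.subgroupOf, Subgroup.comap_map_eq_self_of_injective U.subtype_injective]
  have hHn : (A ⊔ R).Normal := by
    refine CfsgLib.SolvableStructure.normal_of_supplement hAU (le_sup_left.trans Subgroup.le_normalizer) ?_
    intro u hu
    refine CfsgLib.CoprimeAction.mem_normalizer_of_conj_mem fun x hx => ?_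
    obtain ⟨a, ha, s, hs, rfl⟩ := Subgroup.mem_sup_of_normal_left.mp hx
    rw [show u * (a * s) * u⁻¹ = (u * a * u⁻¹) * (u * s * u⁻¹) by group]
    exact Subgroup.mul_mem_sup (hAn.conj_mem a ha u) (CfsgLib.CoprimeAction.conj_mem (hUR hu) hs)
  haveI := hHn
  have hAR : A ⊓ R = ⊥ := eq_bot_iff.mpr fun x hx => hAU' ▸ ⟨hx.1, hRU hx.2⟩
  have hrp : r ≠ p := by
    rintro rfl
    haveI := Fact.mk hr
    have hHp : IsPGroup r ↥(A ⊔ R) := by
      refine IsPGroup.of_card (n := d + e) ?_
      have hcomp : Subgroup.IsComplement' (A.subgroupOf (A ⊔ R)) (R.subgroupOf (A ⊔ R)) := by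
        refine Subgroup.isComplement'_of_disjoint_and_mul_eq_univ ?_ ?_
        · rw [disjoint_iff, ← Subgroup.inf_subgroupOf_right] at *
          refine eq_bot_iff.mpr fun x hx => Subtype.ext ?_
          have : (x : G) ∈ A ⊓ R := ⟨hx.1.1, hx.2⟩
          rwa [hAR, Subgroup.mem_bot] at this
        · refine Set.eq_univ_of_forall fun x => ?_
          obtain ⟨a, ha, s, hs, hx⟩ := Subgroup.mem_sup_of_normal_left.mp x.2
          exact ⟨⟨a, le_sup_left (b := R) ha⟩, ha, ⟨s, le_sup_right (a := A) hs⟩, hs, Subtype.ext hx⟩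
      rw [← hcomp.card_mul_card, Nat.card_congr (Subgroup.subgroupOfEquivOfLe le_sup_left).toEquiv,
        Nat.card_congr (Subgroup.subgroupOfEquivOfLe le_sup_right).toEquiv, hAc, hRcard, pow_add]
    haveI : Nontrivial ↥(A ⊔ R) :=
      (Subgroup.nontrivial_iff_ne_bot _).mpr fun h => hA (eq_bot_iff.mpr (h ▸ le_sup_left))
    let Z : Subgroup G := A ⊓ Subgroup.centralizer ((A ⊔ R : Subgroup G) : Set G)
    haveI : (Subgroup.centralizer ((A ⊔ R : Subgroup G) : Set G)).Normal :=
      Subgroup.normal_centralizer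
    have hZ : Z = A := by
      refine (hAmin Z inferInstance inf_le_left).resolve_left fun hb => ?_
      haveI : Nontrivial (A.subgroupOf (A ⊔ R)) := by
        rw [Subgroup.nontrivial_iff_ne_bot, Ne, Subgroup.subgroupOf_eq_bot, disjoint_iff,
          inf_eq_left.mpr le_sup_left]
        exact hA
      obtain ⟨z, hz, hne⟩ := (hHp.of_equiv ConjAct.toConjAct).exists_fixed_point_of_prime_dvd_card_of_fixed_point
        (A.subgroupOf (A ⊔ R)) (by
          rw [Nat.card_congr (Subgroup.subgroupOfEquivOfLe le_sup_left).toEquiv, hAc]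
          exact dvd_pow_self r hd.ne') (a := (1 : A.subgroupOf (A ⊔ R))) (fun g => smul_one g)
      refine hne (Subtype.ext ?_).symm
      have hzZ : ((z : ↥(A ⊔ R)) : G) ∈ Z := by
        refine ⟨z.2, Subgroup.mem_centralizer_iff.mpr fun g hg => ?_⟩
        have h := congrArg Subtype.val (hz (ConjAct.toConjAct ⟨g, hg⟩))
        rw [ConjAct.Subgroup.val_conj_smul, ConjAct.toConjAct_smul] at h
        exact congrArg Subtype.val (mul_inv_eq_iff_eq_mul.mp h)
      rw [hb, Subgroup.mem_bot] at hzZ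
      exact Subtype.ext hzZ
    refine hRne (eq_bot_iff.mpr fun s hs => ?_)
    rw [← CfsgLib.SolvableStructure.centralizer_inf_eq_bot hU hUc hA]
    refine ⟨Subgroup.mem_centralizer_iff.mpr fun a ha => ?_, hRU hs⟩
    exact (Subgroup.mem_centralizer_iff.mp (hZ.ge ha).2 s (le_sup_right (a := A) hs)).symm
  let B : Subgroup G := (A ⊔ R) ⊓ V
  have hB : A ⊔ B = A ⊔ R := by
    refine le_antisymm (sup_le le_sup_left inf_le_left) fun g hg => ?_
    obtain ⟨a, ha, v, hv, rfl⟩ :=
      Subgroup.mem_sup_of_normal_left.mp (hAV ▸ Subgroup.mem_top g)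
    exact Subgroup.mul_mem_sup ha
      ⟨by simpa using Subgroup.mul_mem _ (Subgroup.inv_mem _ (le_sup_left (b := R) ha)) hg, hv⟩
  obtain ⟨eB⟩ := CfsgLib.SolvableStructure.nonempty_equiv_of_sup_eq (X := A) (Y := B) (Z := R)
    (eq_bot_iff.mpr fun x hx => hAV' ▸ ⟨hx.1, hx.2.2⟩) hAR hB
  have hBcard : Nat.card B = Nat.card R := Nat.card_congr eB.toEquiv
  obtain ⟨a, ha, hle⟩ := CfsgLib.CoprimeAction.exists_le_conj_of_coprime (N := A) (H := R)
    (Subgroup.normalizer_eq_top (H := A) ▸ le_top) (B := B) inf_le_left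
    (by rw [hBcard, hRcard, hAc]; exact ((Nat.coprime_primes hr hp).mpr hrp).pow _ _)
    (Or.inr inferInstance)
  have heq : B = MulAut.conj a • R :=
    Subgroup.eq_of_le_of_card_ge hle (by rw [CfsgLib.CoprimeAction.card_conj_smul, hBcard])
  refine ⟨a, ?_⟩
  -- both sides are the normalizer of `B`
  have hBne : B ≠ ⊥ := fun h => by
    rw [h, Subgroup.card_bot] at hBcard
    exact hRne (Subgroup.card_eq_one.mp hBcard.symm)
  have hnn : Subgroup.normalizer (B : Set G) ≠ ⊤ := fun h => by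
    haveI := Subgroup.normalizer_eq_top_iff.mp h
    exact hBne (eq_bot_iff.mpr (hVc ▸ Subgroup.normal_le_normalCore.mpr inf_le_right))
  have hVN : V ≤ Subgroup.normalizer (B : Set G) := fun v hv => by
    refine CfsgLib.CoprimeAction.mem_normalizer_of_conj_mem fun x hx =>
      ⟨hHn.conj_mem x hx.1 v, Subgroup.mul_mem _ (Subgroup.mul_mem _ hv hx.2) (Subgroup.inv_mem _ hv)⟩
  have hUN : MulAut.conj a • U ≤ Subgroup.normalizer (B : Set G) := fun g hg => by
    refine CfsgLib.CoprimeAction.mem_normalizer_of_conj_mem fun x hx => ?_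
    rw [heq, CfsgLib.CoprimeAction.mem_conj_iff] at hx ⊢
    have := CfsgLib.CoprimeAction.conj_mem (hUR (CfsgLib.CoprimeAction.mem_conj_iff.mp hg)) hx
    convert this using 1
    group
  have hVeq : Subgroup.normalizer (B : Set G) = V :=
    (hV.le_iff_eq hnn).mp hVN
  rw [hVeq] at hUN
  refine Subgroup.eq_of_le_of_card_ge hUN ?_
  rw [CfsgLib.CoprimeAction.card_conj_smul]
  have h1 : Subgroup.IsComplement' A U := Subgroup.isComplement'_of_disjoint_and_mul_eq_univ
    (disjoint_iff.mpr hAU') (by rw [← Subgroup.normal_mul, hAU]; rfl)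
  have h2 : Subgroup.IsComplement' A V := Subgroup.isComplement'_of_disjoint_and_mul_eq_univ
    (disjoint_iff.mpr hAV') (by rw [← Subgroup.normal_mul, hAV]; rfl)
  exact (Nat.eq_of_mul_eq_mul_left Nat.card_pos (h2.card_mul_card.trans h1.card_mul_card.symm)).le

end Cfsg.Agent.S0551
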