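import Cfsg.Statements.S0552
import Mathlib
import Cfsg.Agent.Lib.Cores.Fitting

set_option autoImplicit false
open Cfsg

namespace Cfsg.Agent.S0552

/-- Let σ be an automorphism of a finite solvable group G fixing every element of the Fitting subgroup. If σ is not the identity then the order of σ and the order of G have a common prime factor. -/
theorem result {G : Type*} [Group G] [Finite G] [Group.IsSolvable G] (σ : G ≃* G) (hσ : ∀ x ∈ Cfsg.fittingSubgroup G, σ x = x) (hne : σ ≠ MulEquiv.refl G) : ¬ (orderOf σ).Coprime (Nat.card G) := by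
  intro hcop
  refine hne (MulEquiv.ext fun x => ?_)
  have hCF := CfsgLib.Cores.centralizer_fittingSubgroup_le (G := G)
  have hn : x⁻¹ * σ x ∈ Cfsg.fittingSubgroup G := by
    refine hCF (Subgroup.mem_centralizer_iff.mpr fun f hf => ?_)
    have hxf : x * f * x⁻¹ ∈ Cfsg.fittingSubgroup G :=
      (inferInstance : (Cfsg.fittingSubgroup G).Normal).conj_mem f hf x
    have h := hσ _ hxf
    rw [map_mul, map_mul, map_inv, hσ f hf] at h
    have h2 : x⁻¹ * σ x * f * (σ x)⁻¹ * x = f := by
      simpa [mul_assoc] using congrArg (fun y => x⁻¹ * y * x) h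
    calc f * (x⁻¹ * σ x) = (x⁻¹ * σ x * f * (σ x)⁻¹ * x) * (x⁻¹ * σ x) := by rw [h2]
      _ = x⁻¹ * σ x * f := by group
  have hpow : ∀ k : ℕ, (σ ^ k) x = x * (x⁻¹ * σ x) ^ k := by
    intro k
    induction k with
    | zero => simp
    | succ k ih =>
      rw [pow_succ', MulAut.mul_apply, ih, map_mul, map_pow, hσ _ hn, pow_succ']
      simp [mul_assoc]
  have h1 : (x⁻¹ * σ x) ^ orderOf σ = 1 := by
    simpa [pow_orderOf_eq_one] using (hpow (orderOf σ)).symm
  have h2 : (x⁻¹ * σ x) ^ Nat.card G = 1 := pow_card_eq_one'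
  have h3 := pow_gcd_eq_one.mpr ⟨h1, h2⟩
  rw [hcop.gcd_eq_one, pow_one] at h3
  exact (inv_mul_eq_one.mp h3).symm

end Cfsg.Agent.S0552
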