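import Cfsg.Statements.S0553
import Mathlib
import Cfsg.Agent.Lib.SolvableStructure.MinimalNormal

set_option autoImplicit false
open Cfsg

namespace Cfsg.Agent.S0553

theorem main : ∀ (n : ℕ) (G : Type*) [Group G] [Finite G] [Group.IsSolvable G] [Nontrivial G],
    Nat.card G = n → (∀ M : Subgroup G, IsCoatom M → (Nat.card M).Coprime M.index) →
    ∃ p : ℕ, p.Prime ∧ p ∣ Nat.card G ∧ ∀ P : Sylow p G, (P : Subgroup G).Normal := by
  intro n
  induction n using Nat.strong_induction_on with
  | _ n ih =>
    intro G _ _ _ _ hn h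
    obtain ⟨N, -, hN, hNne, hNmin⟩ :=
      CfsgLib.SolvableStructure.exists_minimal_normal (N := (⊤ : Subgroup G)) inferInstance top_ne_bot
    haveI := hN
    obtain ⟨p, d, hp, hd, hNc, -, hNab⟩ := CfsgLib.SolvableStructure.minimal_normal_prime hNne hNmin
    haveI := Fact.mk hp
    have hNG : p ∣ Nat.card G :=
      ((hNc ▸ dvd_pow_self p hd.ne') : p ∣ Nat.card N).trans (Subgroup.card_subgroup_dvd_card N)
    have hnormal : ∀ (r : ℕ) [Fact r.Prime] (R : Sylow r G), (R : Subgroup G).Normal →
        ∀ P : Sylow r G, (P : Subgroup G).Normal := by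
      intro r _ R hR P
      obtain ⟨g, hg⟩ := MulAction.exists_smul_eq G R P
      rw [← hg, Sylow.coe_subgroup_smul]
      exact Subgroup.Normal.map hR (MulAut.conj g).toMonoidHom (MulAut.conj g).surjective
    by_cases hphi : ∃ M : Subgroup G, IsCoatom M ∧ ¬ N ≤ M
    · obtain ⟨M, hM, hNM⟩ := hphi
      have htop := CfsgLib.SolvableStructure.sup_eq_top_of_not_le hM hNM
      have hinf : N ⊓ M = ⊥ := by
        refine (hNmin _ ?_ inf_le_left).resolve_right fun h => hNM (inf_eq_left.mp h)
        refine CfsgLib.SolvableStructure.normal_of_supplement htop (fun a ha => ?_) ?_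
        · exact Subgroup.centralizer_le_normalizer _ (Subgroup.mem_centralizer_iff.mpr fun x hx =>
            CfsgLib.SolvableStructure.commute_of_isMulCommutative hx.1 ha)
        · rw [← Subgroup.normal_subgroupOf_iff_le_normalizer inf_le_right, Subgroup.inf_subgroupOf_right]
          infer_instance
      have hc : Subgroup.IsComplement' N M := Subgroup.isComplement'_of_disjoint_and_mul_eq_univ
        (disjoint_iff.mpr hinf) (by rw [← Subgroup.normal_mul, htop]; rfl)
      have hidx : N.index = Nat.card M := by
        have h1 := N.card_mul_index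
        rw [← hc.card_mul_card] at h1
        exact Nat.eq_of_mul_eq_mul_left Nat.card_pos h1
      have hMi : M.index = Nat.card N := Subgroup.IsComplement'.index_eq_card hc
      have hnd : ¬ p ∣ N.index := fun hd' => hp.ne_one (Nat.eq_one_of_dvd_coprimes (h M hM)
        (hidx ▸ hd') (hMi ▸ hNc ▸ dvd_pow_self p hd.ne'))
      exact ⟨p, hp, hNG, hnormal p ((IsPGroup.of_card hNc).toSylow hnd) hN⟩
    push Not at hphi
    rcases subsingleton_or_nontrivial (G ⧸ N) with hq | hq
    · refine ⟨p, hp, hNG, fun P => ?_⟩
      have hN1 : N = ⊤ := by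
        rw [eq_top_iff]
        exact fun g _ => (QuotientGroup.eq_one_iff g).mp (Subsingleton.elim _ _)
      have hG : IsPGroup p G := (IsPGroup.of_card (G := N) hNc).of_surjective N.subtype fun g =>
        ⟨⟨g, hN1 ▸ Subgroup.mem_top g⟩, rfl⟩
      rw [← P.is_maximal' (Q := ⊤) (hG.to_subgroup ⊤) le_top]
      infer_instance
    let q := QuotientGroup.mk' N
    have hq' : Function.Surjective q := QuotientGroup.mk'_surjective N
    have hlt : Nat.card (G ⧸ N) < n := by
      rw [← hn, Subgroup.card_eq_card_quotient_mul_card_subgroup N]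
      exact lt_mul_of_one_lt_right Nat.card_pos ((Subgroup.one_lt_card_iff_ne_bot N).mpr hNne)
    obtain ⟨r, hr, hrd, hrn⟩ := ih _ hlt (G ⧸ N) rfl fun L hL => by
      have hM : IsCoatom (L.comap q) := by
        refine ⟨fun ht => hL.1 ?_, fun K hK => ?_⟩
        · rw [← Subgroup.map_comap_eq_self_of_surjective hq' L, ht,
            Subgroup.map_top_of_surjective q hq']
        · have hNK : q.ker ≤ K := (MonoidHom.ker_le_comap _ _).trans hK.le
          have hlt : L < K.map q := by
            rw [← Subgroup.comap_lt_comap_of_surjective hq', Subgroup.comap_map_eq_self hNK]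
            exact hK
          rw [← Subgroup.comap_map_eq_self hNK, hL.2 _ hlt, Subgroup.comap_top]
      have h1 := h _ hM
      rw [L.index_comap_of_surjective hq'] at h1
      refine h1.coprime_dvd_left ?_
      conv_lhs => rw [← Subgroup.map_comap_eq_self_of_surjective hq' L]
      exact Subgroup.card_map_dvd _ _
    haveI := Fact.mk hr
    refine ⟨r, hr, hrd.trans (Subgroup.card_quotient_dvd_card N), fun P => ?_⟩
    haveI hPq := hrn (P.mapSurjective hq')
    let L : Subgroup G := ((P.mapSurjective hq' : Sylow r (G ⧸ N)) : Subgroup (G ⧸ N)).comap q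
    haveI hL : L.Normal := hPq.comap q
    have hLeq : L = (P : Subgroup G) ⊔ N := by
      show ((P : Subgroup G).map q).comap q = _
      rw [Subgroup.comap_map_eq, QuotientGroup.ker_mk']
    have hF := Sylow.normalizer_sup_eq_top' P (hLeq.ge.trans' le_sup_left : (P : Subgroup G) ≤ L)
    rw [← Subgroup.normalizer_eq_top_iff]
    by_contra hne
    obtain ⟨M, hM, hle⟩ := (eq_top_or_exists_le_coatom _).resolve_left hne
    refine hM.1 (top_le_iff.mp (hF.symm.le.trans (sup_le hle ?_)))
    rw [hLeq]
    exact sup_le (Subgroup.le_normalizer.trans hle) (hphi M hM)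

/-- Let G be a nontrivial finite solvable group in which every maximal subgroup has order coprime to its index. Then for some prime p dividing the order of G the Sylow p-subgroups of G are normal. -/
theorem result {G : Type*} [Group G] [Finite G] [Group.IsSolvable G] [Nontrivial G] (h : ∀ M : Subgroup G, IsCoatom M → (Nat.card M).Coprime M.index) : ∃ p : ℕ, p.Prime ∧ p ∣ Nat.card G ∧ ∀ P : Sylow p G, (P : Subgroup G).Normal := by
  exact main (Nat.card G) G rfl h

end Cfsg.Agent.S0553
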