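import Cfsg.Statements.S0554
import Mathlib
import Cfsg.Agent.Lib.SolvableStructure.MinimalNormal

set_option autoImplicit false
open Cfsg

namespace Cfsg.Agent.S0554

theorem absorb {G : Type*} [Group G] (N : Subgroup G) [N.Normal] : ∀ (t : ℕ) (T : Fin t → Subgroup G)
    (i₀ : Fin t), N ≤ T i₀ → ∀ s : Fin t → G, (∀ i, s i ∈ T i) → ∀ n ∈ N,
    ∃ s' : Fin t → G, (∀ i, s' i ∈ T i) ∧ (List.ofFn s').prod = (List.ofFn s).prod * n := by
  intro t
  induction t with
  | zero => exact fun T i₀ => i₀.elim0
  | succ t ih =>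
    intro T i₀ hT s hs n hn
    induction i₀ using Fin.cases with
    | zero =>
      let P := (List.ofFn s).prod
      refine ⟨Fin.cons (P * n * P⁻¹ * s 0) (fun i => s i.succ), fun i => ?_, ?_⟩
      · induction i using Fin.cases with
        | zero =>
          rw [Fin.cons_zero]
          exact Subgroup.mul_mem _ (hT ((inferInstance : N.Normal).conj_mem n hn P)) (hs 0)
        | succ i => rw [Fin.cons_succ]; exact hs i.succ
      · have h1 : P = s 0 * (List.ofFn fun i => s i.succ).prod := by
          simp only [P, List.ofFn_succ, List.prod_cons]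
        rw [List.ofFn_succ, List.prod_cons, Fin.cons_zero]
        simp only [Fin.cons_succ]
        rw [show (List.ofFn s).prod = P from rfl, mul_assoc _ (s 0), ← h1, inv_mul_cancel_right]
    | succ j =>
      obtain ⟨s', hs', he⟩ := ih (fun i => T i.succ) j hT (fun i => s i.succ) (fun i => hs i.succ) n hn
      refine ⟨Fin.cons (s 0) s', fun i => ?_, ?_⟩
      · induction i using Fin.cases with
        | zero => rw [Fin.cons_zero]; exact hs 0
        | succ i => rw [Fin.cons_succ]; exact hs' i
      · simp only [List.ofFn_succ, List.prod_cons, Fin.cons_zero, Fin.cons_succ, he, mul_assoc]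

theorem main : ∀ (n : ℕ) (G : Type*) [Group G] [Finite G] [Group.IsSolvable G], Nat.card G = n →
    ∀ (t : ℕ) (p : Fin t → ℕ), (∀ i, (p i).Prime) → Function.Injective p →
    (∀ q : ℕ, q.Prime → q ∣ Nat.card G → ∃ i, p i = q) → ∀ S : (i : Fin t) → Sylow (p i) G,
    ∀ g : G, ∃ s : (i : Fin t) → G, (∀ i, s i ∈ (S i : Subgroup G)) ∧ g = (List.ofFn s).prod := by
  intro n
  induction n using Nat.strong_induction_on with
  | _ n ih =>
    intro G _ _ _ hn t p hp hinj hall S g
    rcases subsingleton_or_nontrivial G with hG | hG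
    · exact ⟨fun _ => 1, fun i => Subgroup.one_mem _, Subsingleton.elim _ _⟩
    obtain ⟨N, -, hN, hNne, hNmin⟩ :=
      CfsgLib.SolvableStructure.exists_minimal_normal (N := (⊤ : Subgroup G)) inferInstance top_ne_bot
    haveI := hN
    obtain ⟨r, d, hr, hd, hNc, -, -⟩ := CfsgLib.SolvableStructure.minimal_normal_prime hNne hNmin
    obtain ⟨i₀, hi₀⟩ := hall r hr
      (((hNc ▸ dvd_pow_self r hd.ne') : r ∣ Nat.card N).trans (Subgroup.card_subgroup_dvd_card N))
    haveI : ∀ i, Fact (p i).Prime := fun i => ⟨hp i⟩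
    have hNS : N ≤ (S i₀ : Subgroup G) := by
      have hNp : IsPGroup (p i₀) N := IsPGroup.of_card (n := d) (by rw [hi₀, hNc])
      obtain ⟨Q, hQ⟩ := hNp.exists_le_sylow
      obtain ⟨c, hc⟩ := MulAction.exists_smul_eq G Q (S i₀)
      rw [← hc, Sylow.coe_subgroup_smul]
      intro x hx
      exact ⟨c⁻¹ * x * c, hQ (hN.conj_mem' x hx c), by simp [mul_assoc]⟩
    let q := QuotientGroup.mk' N
    have hq : Function.Surjective q := QuotientGroup.mk'_surjective N
    have hlt : Nat.card (G ⧸ N) < n := by
      rw [← hn, Subgroup.card_eq_card_quotient_mul_card_subgroup N]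
      exact lt_mul_of_one_lt_right Nat.card_pos ((Subgroup.one_lt_card_iff_ne_bot N).mpr hNne)
    obtain ⟨s, hs, hgs⟩ := ih _ hlt (G ⧸ N) rfl t p hp hinj
      (fun r hr hrd => hall r hr (hrd.trans (Subgroup.card_quotient_dvd_card N)))
      (fun i => (S i).mapSurjective hq) (q g)
    have hs' : ∀ i, ∃ x ∈ (S i : Subgroup G), q x = s i := fun i => Subgroup.mem_map.mp (hs i)
    choose x hx hxs using hs'
    have hmem : ((List.ofFn x).prod)⁻¹ * g ∈ N := by
      have h1 : q (List.ofFn x).prod = q g := by
        rw [map_list_prod, List.map_ofFn, hgs]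
        congr 2
        exact funext hxs
      exact QuotientGroup.eq.mp h1
    obtain ⟨s', hs', he⟩ := absorb N t (fun i => (S i : Subgroup G)) i₀ hNS x hx _ hmem
    exact ⟨s', hs', by rw [he, mul_inv_cancel_left]⟩

/-- Let G be a finite solvable group and let S assign to each of t distinct primes, including every prime divisor of the order of G, a Sylow subgroup of G. Then every element of G is a product s_0 s_1 ⋯ s_(t-1) with s_i in S i, the factors taken in the given order. -/
theorem result {G : Type*} [Group G] [Finite G] [Group.IsSolvable G] (t : ℕ) (p : Fin t → ℕ) (hp : ∀ i, (p i).Prime) (hinj : Function.Injective p) (hall : ∀ q : ℕ, q.Prime → q ∣ Nat.card G → ∃ i, p i = q) (S : (i : Fin t) → Sylow (p i) G) : ∀ g : G, ∃ s : (i : Fin t) → G, (∀ i, s i ∈ (S i : Subgroup G)) ∧ g = (List.ofFn s).prod := by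
  exact main (Nat.card G) G rfl t p hp hinj hall S

end Cfsg.Agent.S0554
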