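import Cfsg.Statements.S0555
import Mathlib


set_option autoImplicit false
open Cfsg

namespace Cfsg.Agent.S0555

/-- Let i ≥ 1. If in the derived series of a group the quotient of the i-th term by the (i+1)-st and the quotient of the (i+1)-st by the (i+2)-nd are both cyclic, then the (i+1)-st and (i+2)-nd terms coincide. -/
theorem result {G : Type*} [Group G] (i : ℕ) (hi : 1 ≤ i) (h₁ : IsCyclic (↥(derivedSeries G i) ⧸ (derivedSeries G (i + 1)).subgroupOf (derivedSeries G i))) (h₂ : IsCyclic (↥(derivedSeries G (i + 1)) ⧸ (derivedSeries G (i + 2)).subgroupOf (derivedSeries G (i + 1)))) : derivedSeries G (i + 1) = derivedSeries G (i + 2) := by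
  let q := QuotientGroup.mk' (derivedSeries G (i + 2))
  let H := derivedSeries G i
  let K := derivedSeries G (i + 1)
  refine le_antisymm ?_ (derivedSeries_antitone (G := G) (by omega))
  have hq : Function.Surjective q := QuotientGroup.mk'_surjective _
  have hLK : derivedSeries G (i + 2) ≤ K := derivedSeries_antitone (G := G) (by omega)
  have hKH : K ≤ H := derivedSeries_antitone (G := G) (by omega)
  -- the image of `K` is cyclic
  haveI hKc : IsCyclic (K.map q) := by
    refine isCyclic_of_surjective (QuotientGroup.lift ((derivedSeries G (i + 2)).subgroupOf K)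
      (q.subgroupMap K) fun x hx => ?_) fun y => ?_
    · exact Subtype.ext ((QuotientGroup.eq_one_iff _).mpr hx)
    · obtain ⟨x, hx⟩ := q.subgroupMap_surjective K y
      exact ⟨(x : K ⧸ _), hx⟩
  -- elements of `H` centralize the image of `K`, as the automorphisms of a cyclic group commute
  haveI : (K.map q).Normal := (inferInstance : K.Normal).map q hq
  let φ : G →* MulAut (K.map q) := (MulAut.conjNormal).comp q
  have hφ : ∀ h ∈ commutator G, φ h = 1 := by
    have hc : ∀ f g : MulAut (K.map q), f * g = g * f := by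
      intro f g
      obtain ⟨m, hm⟩ := MonoidHom.map_cyclic f.toMonoidHom
      obtain ⟨k, hk⟩ := MonoidHom.map_cyclic g.toMonoidHom
      have hm' : ∀ y, f y = y ^ m := hm
      have hk' : ∀ y, g y = y ^ k := hk
      ext y : 1
      simp only [MulAut.mul_apply, hm', hk', ← zpow_mul, mul_comm m]
    have hle : commutator G ≤ φ.ker := by
      rw [commutator_def, Subgroup.commutator_le]
      intro a _ b _
      rw [MonoidHom.mem_ker, map_commutatorElement, commutatorElement_eq_one_iff_commute]
      exact hc _ _
    exact fun h hh => hle hh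
  have hHG : H ≤ commutator G := derivedSeries_one G ▸ derivedSeries_antitone (G := G) hi
  have hcomm : ∀ h ∈ H, ∀ k ∈ K, q h * q k = q k * q h := by
    intro h hh k hk
    have := congrArg (fun f : MulAut (K.map q) => ((f ⟨q k, Subgroup.mem_map_of_mem q hk⟩ : K.map q) : G ⧸ derivedSeries G (i + 2)))
      (hφ h (hHG hh))
    simp only [φ, MonoidHom.comp_apply, MulAut.conjNormal_apply, MulAut.one_apply] at this
    exact mul_inv_eq_iff_eq_mul.mp this
  obtain ⟨g, hg⟩ := IsCyclic.exists_generator (α := H ⧸ K.subgroupOf H)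
  obtain ⟨g, rfl⟩ := QuotientGroup.mk'_surjective _ g
  have hdec : ∀ x ∈ H, ∃ n : ℤ, ∃ k ∈ K, x = (g : G) ^ n * k := by
    intro x hx
    obtain ⟨n, hn⟩ := Subgroup.mem_zpowers_iff.mp (hg (QuotientGroup.mk' _ ⟨x, hx⟩))
    rw [← map_zpow] at hn
    refine ⟨n, ((g : G) ^ n)⁻¹ * x, ?_, by simp⟩
    have h := QuotientGroup.eq.mp hn
    simpa [Subgroup.mem_subgroupOf] using h
  show derivedSeries G (i + 1) ≤ derivedSeries G (i + 2)
  rw [derivedSeries_succ, Subgroup.commutator_le]
  intro x hx y hy
  obtain ⟨n, k, hk, rfl⟩ := hdec x hx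
  obtain ⟨m, l, hl, rfl⟩ := hdec y hy
  rw [← QuotientGroup.eq_one_iff]
  show q _ = 1
  rw [map_commutatorElement, commutatorElement_eq_one_iff_commute, map_mul, map_mul, map_zpow,
    map_zpow]
  have hgk : ∀ z ∈ K, Commute (q g) (q z) := fun z hz => hcomm g g.2 z hz
  exact Commute.mul_left
    (Commute.mul_right (Commute.zpow_zpow_self (q g) n m) ((hgk l hl).zpow_left n))
    (Commute.mul_right ((hgk k hk).symm.zpow_right m) (hcomm k (hKH hk) l hl))

end Cfsg.Agent.S0555
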