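import Cfsg.Statements.S0556
import Mathlib
import Cfsg.Agent.Lib.CoprimeAction.Sylow

set_option autoImplicit false
open Cfsg

namespace Cfsg.Agent.S0556

theorem mul_comm' {G : Type*} [Group G] {A : Subgroup G} [h : IsMulCommutative A] (a b : A) :
    a * b = b * a := h.is_comm.comm a b

theorem top_quotient_commutator_le {G : Type*} [Group G] [Finite G] {A : Subgroup G} [A.Normal]
    (hA : IsCoatom A) : ⁅(⊤ : Subgroup G), ⊤⁆ ≤ A := by
  obtain ⟨g, hg⟩ : ∃ g, g ∉ A := by
    by_contra h
    push Not at h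
    exact hA.1 (top_le_iff.mp fun g _ => h g)
  have htop : A ⊔ Subgroup.zpowers g = ⊤ :=
    hA.2 _ (lt_of_le_not_ge le_sup_left fun h => hg (h (le_sup_right (a := A) (Subgroup.mem_zpowers g))))
  rw [Subgroup.commutator_le]
  intro x _ y _
  obtain ⟨a, ha, u, hu, rfl⟩ := Subgroup.mem_sup_of_normal_left.mp (htop ▸ Subgroup.mem_top x)
  obtain ⟨b, hb, v, hv, rfl⟩ := Subgroup.mem_sup_of_normal_left.mp (htop ▸ Subgroup.mem_top y)
  rw [← QuotientGroup.eq_one_iff]
  show (QuotientGroup.mk' A) _ = 1
  rw [map_commutatorElement, commutatorElement_eq_one_iff_commute, map_mul, map_mul,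
    show QuotientGroup.mk' A a = 1 from (QuotientGroup.eq_one_iff a).mpr ha,
    show QuotientGroup.mk' A b = 1 from (QuotientGroup.eq_one_iff b).mpr hb, one_mul, one_mul]
  obtain ⟨i, rfl⟩ := Subgroup.mem_zpowers_iff.mp hu
  obtain ⟨j, rfl⟩ := Subgroup.mem_zpowers_iff.mp hv
  rw [map_zpow, map_zpow]
  exact Commute.zpow_zpow_self _ i j

theorem corefree {G : Type*} [Group G] [Finite G] (A : Subgroup G) [IsMulCommutative A]
    (hA : IsCoatom A) (hcore : A.normalCore = ⊥) : derivedSeries G 2 = ⊥ := by
  let N := commutator G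
  by_cases hNbot : N = ⊥
  · exact eq_bot_iff.mpr ((derivedSeries_antitone (G := G) (by omega : 1 ≤ 2)).trans
      (by rw [derivedSeries_one]; exact hNbot.le))
  have hnot : ∀ K : Subgroup G, K.Normal → K ≠ ⊥ → ¬ K ≤ A := fun K hK hne hle =>
    hne (eq_bot_iff.mpr (hcore ▸ Subgroup.normal_le_normalCore.mpr hle))
  have hNA : ∀ x ∈ A, ∀ y ∈ A, x * y = y * x := fun x hx y hy =>
    congrArg Subtype.val (mul_comm' (⟨x, hx⟩ : A) ⟨y, hy⟩)
  -- the normalizer of a nontrivial subgroup of `A` is `A`
  have hnorm : ∀ P : Subgroup G, P ≤ A → P ≠ ⊥ → Subgroup.normalizer (P : Set G) = A := by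
    intro P hP hne
    have hle : A ≤ Subgroup.normalizer (P : Set G) := fun a ha =>
      Subgroup.centralizer_le_normalizer _ (Subgroup.mem_centralizer_iff.mpr fun x hx =>
        hNA x (hP hx) a ha)
    exact (hA.le_iff_eq fun h => hnot P (Subgroup.normalizer_eq_top_iff.mp h) hne hP).mp hle
  have hcop : (Nat.card A).Coprime (Nat.card N) := by
    refine Nat.coprime_of_dvd fun p hp hpA hpN => ?_
    haveI := Fact.mk hp
    obtain ⟨P₀⟩ := (inferInstance : Nonempty (Sylow p A))
    have hne : (P₀ : Subgroup A).map A.subtype ≠ ⊥ := fun h =>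
      P₀.ne_bot_of_dvd_card hpA ((Subgroup.map_eq_bot_iff_of_injective _ A.subtype_injective).mp h)
    obtain ⟨S, hS⟩ := (P₀.isPGroup'.map A.subtype).exists_le_sylow
    have hSA : (S : Subgroup G) ≤ A := by
      by_contra hSA
      have hlt : ((P₀ : Subgroup A).map A.subtype).subgroupOf S < ⊤ :=
        lt_top_iff_ne_top.mpr fun h =>
          hSA ((Subgroup.subgroupOf_eq_top.mp h).trans (Subgroup.map_subtype_le _))
      haveI := S.isPGroup'.isNilpotent
      obtain ⟨u, hu, hu'⟩ :=
        SetLike.exists_of_lt (Group.normalizerCondition_of_isNilpotent _ hlt)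
      have huA : (u : G) ∈ A := by
        rw [← hnorm _ (Subgroup.map_subtype_le _) hne]
        refine CfsgLib.CoprimeAction.mem_normalizer_of_conj_mem fun x hx => ?_
        exact (Subgroup.mem_normalizer_iff.mp hu ⟨x, hS hx⟩).mp hx
      -- `S ∩ A` is a `p`-subgroup of `A` above `P₀`
      have hmax := P₀.is_maximal' (Q := ((S : Subgroup G).subgroupOf A))
        (S.isPGroup'.comap_of_injective _ A.subtype_injective)
        (fun x hx => hS (Subgroup.mem_map_of_mem _ hx))
      exact hu' (Subgroup.mem_map.mpr ⟨⟨u, huA⟩, hmax ▸ u.2, rfl⟩)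
    have hSne : (S : Subgroup G) ≠ ⊥ := fun h => hne (eq_bot_iff.mpr (h ▸ hS))
    have hSn : Subgroup.normalizer ((S : Subgroup G) : Set G) ≤ Subgroup.centralizer ((S : Subgroup G) : Set G) := by
      rw [hnorm _ hSA hSne]
      exact fun a ha => Subgroup.mem_centralizer_iff.mpr fun x hx => hNA x (hSA hx) a ha
    haveI : IsMulCommutative (S : Subgroup G) :=
      ⟨⟨fun a b => Subtype.ext (hNA a (hSA a.2) b (hSA b.2))⟩⟩
    have hker := MonoidHom.not_dvd_card_ker_transferSylow S hSn
    refine hker (hpN.trans (Subgroup.card_dvd_of_le ?_))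
    show commutator G ≤ _
    rw [commutator_def, Subgroup.commutator_le]
    intro a _ b _
    rw [MonoidHom.mem_ker, map_commutatorElement, commutatorElement_eq_one_iff_commute]
    exact Subtype.ext (hNA _ (hSA (Subtype.coe_prop _)) _ (hSA (Subtype.coe_prop _)))
  have hinf : N ⊓ A = ⊥ := Subgroup.inf_eq_bot_of_coprime hcop.symm
  have hAN : A ≤ Subgroup.normalizer (N : Set G) := Subgroup.normalizer_eq_top (H := N) ▸ le_top
  -- an invariant subgroup of `N` is trivial or `N`
  have hinv : ∀ R : Subgroup G, R ≤ N → A ≤ Subgroup.normalizer (R : Set G) → R = ⊥ ∨ R = N := by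
    intro R hR hAR
    rcases eq_or_ne (R ⊔ A) ⊤ with h | h
    · refine Or.inr (le_antisymm hR fun x hx => ?_)
      have h2 : x ∈ R ⊔ A := h ▸ Subgroup.mem_top x
      rw [← SetLike.mem_coe, Subgroup.coe_mul_of_right_le_normalizer_left R A hAR] at h2
      obtain ⟨r, hr, a, ha, rfl⟩ := h2
      have : a ∈ N ⊓ A := ⟨by simpa using N.mul_mem (N.inv_mem (hR hr)) hx, ha⟩
      rw [hinf, Subgroup.mem_bot] at this
      simpa [this] using hr
    · refine Or.inl (eq_bot_iff.mpr ?_)
      rw [← hinf]
      refine le_inf hR ((le_sup_left : R ≤ R ⊔ A).trans ?_)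
      by_contra hle
      exact h (hA.2 _ (lt_of_le_not_ge le_sup_right hle))
  have hsolvA : Group.IsSolvable A := Group.isSolvable_of_comm fun a b => mul_comm' a b
  obtain ⟨r, hr, hrd⟩ := Nat.exists_prime_and_dvd (mt Subgroup.card_eq_one.mp hNbot)
  haveI := Fact.mk hr
  obtain ⟨R, hR⟩ :=
    CfsgLib.CoprimeAction.exists_invariant_sylow hAN hcop (Or.inl hsolvA) r
  have hReq : (R : Subgroup N).map N.subtype = N := by
    refine (hinv _ (Subgroup.map_subtype_le _) hR).resolve_left fun h => ?_
    exact R.ne_bot_of_dvd_card hrd ((Subgroup.map_eq_bot_iff_of_injective _ N.subtype_injective).mp h)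
  have hNsolv : Group.IsSolvable N := by
    haveI := (R.isPGroup'.map N.subtype).isNilpotent
    rw [hReq] at this
    infer_instance
  rcases hinv ⁅N, N⁆ (Subgroup.commutator_le_self N)
    (hAN.trans (CfsgLib.CoprimeAction.normalizer_le_normalizer_commutator N)) with h | h
  · rw [derivedSeries_succ, derivedSeries_one]; exact h
  · exact absurd h (CfsgLib.CoprimeAction.commutator_lt_of_isSolvable N hNbot).ne

/-- If a finite group has a maximal subgroup that is abelian, then the third term of its derived series is trivial (so the group is solvable of derived length at most three). -/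
theorem result {G : Type*} [Group G] [Finite G] (A : Subgroup G) (hA : IsCoatom A) [IsMulCommutative A] : derivedSeries G 3 = ⊥ := by
  haveI : A.normalCore.Normal := inferInstance
  by_cases hAn : A.Normal
  · have hA1 : derivedSeries G 1 ≤ A := by
      rw [derivedSeries_one, commutator_def]
      by_contra hcon
      exact hcon (top_quotient_commutator_le hA)
    have h2 : derivedSeries G 2 = ⊥ := eq_bot_iff.mpr <| by
      refine (derivedSeries_succ G 1).le.trans ((Subgroup.commutator_mono hA1 hA1).trans (le_of_eq ?_))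
      rw [Subgroup.commutator_eq_bot_iff_le_centralizer]
      exact fun a ha => Subgroup.mem_centralizer_iff.mpr fun b hb =>
        congrArg Subtype.val (mul_comm' (⟨b, hb⟩ : A) ⟨a, ha⟩)
    exact eq_bot_iff.mpr (h2 ▸ derivedSeries_antitone (G := G) (by omega))
  let Z := A.normalCore
  let q := QuotientGroup.mk' Z
  have hq : Function.Surjective q := QuotientGroup.mk'_surjective Z
  have hZA : Z ≤ A := A.normalCore_le
  haveI : IsMulCommutative (A.map q) := by
    refine ⟨⟨?_⟩⟩
    rintro ⟨_, a, ha, rfl⟩ ⟨_, b, hb, rfl⟩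
    refine Subtype.ext ?_
    show q a * q b = q b * q a
    rw [← map_mul, ← map_mul, show a * b = b * a from
      congrArg Subtype.val (mul_comm' (⟨a, ha⟩ : A) ⟨b, hb⟩)]
  have hmax : IsCoatom (A.map q) := by
    refine ⟨fun h => hA.1 ?_, fun K hK => ?_⟩
    · have := congrArg (Subgroup.comap q) h
      rwa [Subgroup.comap_map_eq_self ((QuotientGroup.ker_mk' Z).symm ▸ hZA), Subgroup.comap_top] at this
    · have hlt : A < K.comap q := by
        have := (Subgroup.comap_lt_comap_of_surjective hq).mpr hK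
        rwa [Subgroup.comap_map_eq_self ((QuotientGroup.ker_mk' Z).symm ▸ hZA)] at this
      rw [← Subgroup.map_comap_eq_self_of_surjective hq K, hA.2 _ hlt,
        Subgroup.map_top_of_surjective q hq]
  have hcore : (A.map q).normalCore = ⊥ := by
    refine eq_bot_iff.mpr fun y hy => ?_
    obtain ⟨x, rfl⟩ := hq y
    have h1 : ((A.map q).normalCore.comap q) ≤ Z := by
      refine Subgroup.normal_le_normalCore.mpr ?_
      refine (Subgroup.comap_mono (Subgroup.normalCore_le _)).trans ?_
      rw [Subgroup.comap_map_eq_self ((QuotientGroup.ker_mk' Z).symm ▸ hZA)]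
    exact (QuotientGroup.eq_one_iff x).mpr (h1 hy)
  have h2 : derivedSeries G 2 ≤ Z := by
    have h := map_derivedSeries_le_derivedSeries q 2
    rw [corefree (A.map q) hmax hcore, le_bot_iff, Subgroup.map_eq_bot_iff, QuotientGroup.ker_mk'] at h
    exact h
  have hZc : Z ≤ Subgroup.center G := by
    obtain ⟨g, hg⟩ : ∃ g : G, g ∉ Subgroup.normalizer (A : Set G) := by
      by_contra h
      push Not at h
      exact hAn (Subgroup.normalizer_eq_top_iff.mp (top_le_iff.mp fun g _ => h g))
    intro z hz
    have htop : A ⊔ A.map (MulAut.conj g).toMonoidHom = ⊤ := by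
      refine hA.2 _ (lt_of_le_not_ge le_sup_left fun h => hg ?_)
      refine CfsgLib.CoprimeAction.mem_normalizer_of_conj_mem fun x hx => ?_
      exact (le_sup_right.trans h) ⟨x, hx, rfl⟩
    refine Subgroup.mem_center_iff.mpr fun w => ?_
    have : ⊤ ≤ Subgroup.centralizer ({z} : Set G) := by
      rw [← htop]
      refine sup_le (fun a ha => ?_) ?_
      · exact Subgroup.mem_centralizer_singleton_iff.mpr
          (congrArg Subtype.val (mul_comm' (⟨a, ha⟩ : A) ⟨z, hZA hz⟩))
      · rintro _ ⟨a, ha, rfl⟩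
        refine Subgroup.mem_centralizer_singleton_iff.mpr ?_
        have hz' : g⁻¹ * z * g ∈ A := hZA (A.normalCore_normal.conj_mem' z hz g)
        have hc := congrArg Subtype.val (mul_comm' (⟨a, ha⟩ : A) ⟨_, hz'⟩)
        have h2 := congrArg (fun y => g * y * g⁻¹) hc
        simpa [mul_assoc] using h2
    exact Subgroup.mem_centralizer_singleton_iff.mp (this (Subgroup.mem_top w))
  refine eq_bot_iff.mpr ((derivedSeries_succ G 2).le.trans
    ((Subgroup.commutator_mono h2 h2).trans (le_of_eq ?_)))
  rw [Subgroup.commutator_eq_bot_iff_le_centralizer]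
  exact fun a ha => Subgroup.mem_centralizer_iff.mpr fun b hb =>
    Subgroup.mem_center_iff.mp (hZc ha) b

end Cfsg.Agent.S0556
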