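import Cfsg.Statements.S0558
import Cfsg.Agent.Lib.PSolvable.FocalHall

set_option autoImplicit false
open Cfsg

namespace Cfsg.Agent.S0558

set_option linter.style.haveILetI false

open scoped Pointwise

theorem sylow_eq {G : Type*} [Group G] [Finite G] {H : Subgroup G} {p : ℕ} [Fact p.Prime]
    (P : Sylow p H)
    (hN : Subgroup.normalizer (((P : Subgroup H).map H.subtype : Subgroup G) : Set G) = H) :
    ∃ R : Sylow p G, (R : Subgroup G) = (P : Subgroup H).map H.subtype := by
  obtain ⟨R, hR⟩ := (P.2.map H.subtype).exists_le_sylow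
  refine ⟨R, le_antisymm ?_ hR⟩
  by_contra hne
  haveI : Group.IsNilpotent (R : Subgroup G) := R.2.isNilpotent
  set P' := (P : Subgroup H).map H.subtype with hP'
  have hlt : P'.subgroupOf (R : Subgroup G) < ⊤ :=
    lt_top_iff_ne_top.2 fun h => hne (Subgroup.subgroupOf_eq_top.1 h)
  obtain ⟨r, hrN, hrP⟩ :=
    SetLike.exists_of_lt (Group.normalizerCondition_of_isNilpotent _ hlt)
  have hrN' : (r : G) ∈ Subgroup.normalizer (P' : Set G) := by
    rw [Subgroup.mem_normalizer_iff]
    intro x
    have hmem := Subgroup.mem_normalizer_iff.1 hrN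
    constructor
    · intro hx
      exact (hmem ⟨x, hR hx⟩).1 hx
    · intro hx
      have h1 : (r : G)⁻¹ * ((r : G) * x * (r : G)⁻¹) * r ∈ (R : Subgroup G) :=
        mul_mem (mul_mem (inv_mem r.2) (hR hx)) r.2
      have h2 : x ∈ (R : Subgroup G) := by simpa [mul_assoc] using h1
      exact (hmem ⟨x, h2⟩).2 hx
  rw [hN] at hrN'
  -- `P` is a maximal `p`-subgroup of `H`
  let Q : Subgroup H := (R : Subgroup G).subgroupOf H
  have hQ : Q = (P : Subgroup H) := P.is_maximal' R.2.comap_subtype fun x hx =>
    hR (Subgroup.mem_map_of_mem _ hx)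
  apply hrP
  have : (⟨r, hrN'⟩ : H) ∈ Q := r.2
  rw [hQ] at this
  exact Subgroup.mem_map_of_mem H.subtype this

/-- Let H be a subgroup of a finite group G that is not a Sylow subgroup of G for any prime, and suppose that for every prime p dividing the order of H and every Sylow p-subgroup P of H the normalizer of P in G is exactly H. Then some normal subgroup of G is a complement to H. -/
theorem result {G : Type*} [Group G] [Finite G] (H : Subgroup G) (hnot : ∀ p : ℕ, p.Prime → ∀ P : Sylow p G, (P : Subgroup G) ≠ H) (hnorm : ∀ p : ℕ, p.Prime → p ∣ Nat.card H → ∀ P : Sylow p H, Subgroup.normalizer (((P : Subgroup H).map H.subtype : Subgroup G) : Set G) = H) : ∃ N : Subgroup G, N.Normal ∧ Subgroup.IsComplement' N H := by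
  have hH1 : H ≠ ⊥ := by
    intro h
    obtain ⟨q, hq1, hq⟩ := Nat.exists_infinite_primes (Nat.card G + 1)
    haveI : Fact q.Prime := ⟨hq⟩
    obtain ⟨P⟩ : Nonempty (Sylow q G) := inferInstance
    refine hnot q hq P ?_
    rw [h]
    have : Nat.card (P : Subgroup G) = 1 := by
      rw [P.card_eq_multiplicity, Nat.factorization_eq_zero_of_not_dvd, pow_zero]
      exact fun hd => absurd (Nat.le_of_dvd Nat.card_pos hd) (by omega)
    exact Subgroup.card_eq_one.1 this
  have hnormal : ∀ (p : ℕ) [Fact p.Prime] (P : Sylow p H), p ∣ Nat.card H →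
      (P : Subgroup H).Normal := fun p _ P hp => by
    have h := hnorm p Fact.out hp P
    constructor
    intro x hx g
    have hg : (g : G) ∈ Subgroup.normalizer
        (((P : Subgroup H).map H.subtype : Subgroup G) : Set G) := by rw [h]; exact g.2
    obtain ⟨y, hy, hyx⟩ :=
      (Subgroup.mem_normalizer_iff.1 hg (x : G)).1 (Subgroup.mem_map_of_mem _ hx)
    have : y = g * x * g⁻¹ := Subtype.ext hyx
    exact this ▸ hy
  haveI hHnil : Group.IsNilpotent H := by
    refine ((Group.isNilpotent_of_finite_tfae (G := H)).out 0 3 rfl rfl).2 fun p hp P => ?_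
    by_cases hd : p ∣ Nat.card H
    · exact hnormal p P hd
    · have : (P : Subgroup H) = ⊥ := Subgroup.card_eq_one.1 (by
        rw [P.card_eq_multiplicity, Nat.factorization_eq_zero_of_not_dvd hd, pow_zero])
      rw [this]
      infer_instance
  -- one normal complement for each prime
  have key : ∀ p : (Nat.card H).primeFactors, ∃ N : Subgroup G, N.Normal ∧
      N.index = (p : ℕ) ^ (Nat.card H).factorization (p : ℕ) ∧ ¬ (p : ℕ) ∣ Nat.card N := by
    rintro ⟨p, hp⟩
    have hpp := Nat.prime_of_mem_primeFactors hp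
    have hpd := Nat.dvd_of_mem_primeFactors hp
    haveI : Fact p.Prime := ⟨hpp⟩
    obtain ⟨P⟩ : Nonempty (Sylow p H) := inferInstance
    obtain ⟨R, hR⟩ := sylow_eq P (hnorm p hpp hpd P)
    have hRH : (R : Subgroup G) ≤ H := hR ▸ Subgroup.map_subtype_le _
    -- a second prime
    obtain ⟨q, hq, hqd, hqp⟩ : ∃ q : ℕ, q.Prime ∧ q ∣ Nat.card H ∧ q ≠ p := by
      by_contra h
      push Not at h
      refine hnot p hpp R (le_antisymm hRH ?_)
      have hH : IsPGroup p H := by
        have := (Nat.eq_prime_pow_of_unique_prime_dvd Nat.card_pos.ne' fun {d} hd hdd => h d hd hdd)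
        exact IsPGroup.of_card this
      have : (P : Subgroup H) = ⊤ :=
        (P.is_maximal' (Q := ⊤) (hH.of_equiv Subgroup.topEquiv.symm) le_top).symm
      rw [hR, this, ← MonoidHom.range_eq_map, Subgroup.range_subtype]
    haveI : Fact q.Prime := ⟨hq⟩
    obtain ⟨Q⟩ : Nonempty (Sylow q H) := inferInstance
    obtain ⟨S, hS⟩ := sylow_eq Q (hnorm q hq hqd Q)
    have hNS : Subgroup.normalizer ((S : Subgroup G) : Set G) = H := by rw [hS]; exact hnorm q hq hqd Q
    have hPQ : ∀ x ∈ (R : Subgroup G), ∀ y ∈ (S : Subgroup G), Commute x y := by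
      intro x hx y hy
      rw [hR] at hx
      rw [hS] at hy
      obtain ⟨u, hu, rfl⟩ := hx
      obtain ⟨v, hv, rfl⟩ := hy
      exact (Subgroup.commute_of_normal_of_disjoint _ _ (hnormal p P hpd) (hnormal q Q hqd)
        (IsPGroup.disjoint_of_ne p q hqp.symm _ _ P.2 Q.2) u v hu hv).map H.subtype
    have hcop : (Nat.card (R : Subgroup G)).Coprime (R : Subgroup G).index := by
      rw [R.card_eq_multiplicity]
      exact ((hpp.coprime_iff_not_dvd.2 R.not_dvd_index).pow_left _)
    have hctrl : ∀ x ∈ (R : Subgroup G), ∀ g : G, g * x * g⁻¹ ∈ (R : Subgroup G) →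
        ∃ h ∈ H, h * x * h⁻¹ = g * x * g⁻¹ := by
      -- fusion in `P` is controlled by `H`
      intro x hx g hgx
      let C := Subgroup.centralizer ({g * x * g⁻¹} : Set G)
      have hS1 : (S : Subgroup G) ≤ C := fun y hy =>
        Subgroup.mem_centralizer_singleton_iff.2 (hPQ _ hgx y hy).eq.symm
      have hS2 : ((g • S : Sylow q G) : Subgroup G) ≤ C := by
        intro y hy
        rw [Sylow.coe_subgroup_smul, CfsgLib.PSolvable.mem_conj_smul_iff] at hy
        rw [Subgroup.mem_centralizer_singleton_iff]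
        have := (hPQ x hx _ hy).eq
        calc y * (g * x * g⁻¹) = g * (g⁻¹ * y * g * x) * g⁻¹ := by group
          _ = g * (x * (g⁻¹ * y * g)) * g⁻¹ := by rw [this]
          _ = g * x * g⁻¹ * y := by group
      obtain ⟨c, hc⟩ := MulAction.exists_smul_eq C ((g • S).subtype hS2) (S.subtype hS1)
      rw [Sylow.smul_subtype] at hc
      have hc' : (c : G) • g • S = S := Sylow.subtype_injective hc
      rw [smul_smul, Sylow.smul_eq_iff_mem_normalizer] at hc'
      refine ⟨(c : G) * g, hNS.le hc', ?_⟩
      have hcx := Subgroup.mem_centralizer_singleton_iff.1 c.2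
      calc (c : G) * g * x * ((c : G) * g)⁻¹ = (c : G) * (g * x * g⁻¹) * (c : G)⁻¹ := by group
        _ = g * x * g⁻¹ := by rw [hcx]; group
    obtain ⟨N, hN, hc⟩ := CfsgLib.PSolvable.exists_complement_of_controlled (R : Subgroup G) H hRH
      hHnil hcop hctrl
    refine ⟨N, hN, ?_, ?_⟩
    · rw [hc.symm.index_eq_card, hR, Subgroup.card_map_of_injective H.subtype_injective,
        P.card_eq_multiplicity]
    · rw [← hc.index_eq_card]
      exact R.not_dvd_index
  choose N hNn hNi hNd using key
  refine ⟨⨅ p, N p, Subgroup.normal_iInf_normal hNn, ?_⟩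
  have hdisj : Disjoint (⨅ p, N p) H := by
    rw [disjoint_iff, Subgroup.eq_bot_iff_forall]
    rintro x ⟨hx, hxH⟩
    by_contra hx1
    obtain ⟨q, hq, hqd⟩ := Nat.exists_prime_and_dvd (mt orderOf_eq_one_iff.1 hx1)
    have hqH : q ∣ Nat.card H := by
      have := orderOf_dvd_natCard (⟨x, hxH⟩ : H)
      rw [Subgroup.orderOf_mk] at this
      exact hqd.trans this
    let i : (Nat.card H).primeFactors := ⟨q, Nat.mem_primeFactors.2 ⟨hq, hqH, Nat.card_pos.ne'⟩⟩
    have hxi : x ∈ N i := (iInf_le N i) hx
    have := orderOf_dvd_natCard (⟨x, hxi⟩ : N i)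
    rw [Subgroup.orderOf_mk] at this
    exact hNd i (hqd.trans this)
  have hle : (⨅ p, N p).index ≤ Nat.card H := by
    refine (Subgroup.index_iInf_le N).trans_eq ?_
    rw [Finset.prod_congr rfl fun p _ => hNi p]
    conv_rhs => rw [← Nat.prod_factorization_pow_eq_self (Nat.card_pos (α := H)).ne']
    rw [Finsupp.prod, Nat.support_factorization]
    exact Finset.prod_coe_sort (Nat.card H).primeFactors fun p => p ^ (Nat.card H).factorization p
  refine Subgroup.isComplement'_of_card_mul_and_disjoint (le_antisymm ?_ ?_) hdisj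
  · rw [← CfsgLib.PSolvable.card_mul_mul_card_inf, disjoint_iff.1 hdisj, Subgroup.card_bot, mul_one]
    exact Finite.card_subtype_le _
  · rw [← (⨅ p, N p).card_mul_index]
    exact Nat.mul_le_mul_left _ hle

end Cfsg.Agent.S0558
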