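import Cfsg.Statements.S0560
import Cfsg.Agent.Lib.PSolvable.Products

set_option autoImplicit false
open Pointwise
open Cfsg

namespace Cfsg.Agent.S0560

/-- Let the finite group G be the product HK of two subgroups and p a prime. Then there are Sylow p-subgroups P of H and Q of K and a Sylow p-subgroup R of G whose underlying set is the product set of P and Q. -/
theorem result {G : Type*} [Group G] [Finite G] (H K : Subgroup G) (hHK : ∀ g : G, ∃ h ∈ H, ∃ k ∈ K, g = h * k) (p : ℕ) [Fact p.Prime] : ∃ (P : Sylow p H) (Q : Sylow p K) (R : Sylow p G), ((R : Subgroup G) : Set G) = (((P : Subgroup H).map H.subtype : Subgroup G) : Set G) * (((Q : Subgroup K).map K.subtype : Subgroup G) : Set G) := by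
  have hF : CfsgLib.PSolvable.IsFactor H K := hHK
  obtain ⟨P₀⟩ : Nonempty (Sylow p H) := inferInstance
  obtain ⟨Q₀⟩ : Nonempty (Sylow p K) := inferInstance
  obtain ⟨R₁, hR₁⟩ := (P₀.2.map H.subtype).exists_le_sylow
  obtain ⟨R₂, hR₂⟩ := (Q₀.2.map K.subtype).exists_le_sylow
  obtain ⟨g, hg⟩ := MulAction.exists_smul_eq G R₁ R₂
  obtain ⟨k, hk, h, hh, rfl⟩ := hF.swap g
  -- the Sylow subgroup `h R₁ h⁻¹` contains Sylow subgroups of both factors
  refine ⟨(⟨h, hh⟩ : H) • P₀, (⟨k⁻¹, inv_mem hk⟩ : K) • Q₀, h • R₁, ?_⟩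
  set P := (⟨h, hh⟩ : H) • P₀
  set Q := (⟨k⁻¹, inv_mem hk⟩ : K) • Q₀
  set R := h • R₁ with hRdef
  have hPR : (P : Subgroup H).map H.subtype ≤ (R : Subgroup G) := by
    rintro _ ⟨x, hx, rfl⟩
    rw [SetLike.mem_coe, Sylow.coe_subgroup_smul, CfsgLib.PSolvable.mem_conj_smul_iff] at hx
    rw [hRdef, Sylow.coe_subgroup_smul, CfsgLib.PSolvable.mem_conj_smul_iff]
    exact hR₁ ⟨_, hx, by simp⟩
  have hQR : (Q : Subgroup K).map K.subtype ≤ (R : Subgroup G) := by
    rintro _ ⟨x, hx, rfl⟩
    rw [SetLike.mem_coe, Sylow.coe_subgroup_smul, CfsgLib.PSolvable.mem_conj_smul_iff] at hx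
    rw [hRdef, Sylow.coe_subgroup_smul, CfsgLib.PSolvable.mem_conj_smul_iff]
    have h1 := hR₂ (Subgroup.mem_map_of_mem K.subtype hx)
    rw [← hg, Sylow.coe_subgroup_smul, CfsgLib.PSolvable.mem_conj_smul_iff] at h1
    simpa [mul_assoc] using h1
  have hsub : (((P : Subgroup H).map H.subtype : Subgroup G) : Set G) *
      (((Q : Subgroup K).map K.subtype : Subgroup G) : Set G) ⊆ ((R : Subgroup G) : Set G) := by
    rintro _ ⟨a, ha, b, hb, rfl⟩
    exact mul_mem (hPR ha) (hQR hb)
  refine (Set.eq_of_subset_of_ncard_le hsub ?_).symm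
  rw [← Nat.card_coe_set_eq, ← Nat.card_coe_set_eq]
  -- compare orders
  have h1 := CfsgLib.PSolvable.card_mul_mul_card_inf ((P : Subgroup H).map H.subtype)
    ((Q : Subgroup K).map K.subtype)
  obtain ⟨r, hr⟩ := IsPGroup.iff_card.1 ((P.2.map H.subtype).to_le
    (inf_le_left : (P : Subgroup H).map H.subtype ⊓ (Q : Subgroup K).map K.subtype ≤ _))
  have hP : Nat.card ((P : Subgroup H).map H.subtype) = p ^ (Nat.card H).factorization p := by
    rw [Subgroup.card_map_of_injective H.subtype_injective]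
    exact P.card_eq_multiplicity
  have hQ : Nat.card ((Q : Subgroup K).map K.subtype) = p ^ (Nat.card K).factorization p := by
    rw [Subgroup.card_map_of_injective K.subtype_injective]
    exact Q.card_eq_multiplicity
  have hi : r ≤ (Nat.card ↥(H ⊓ K)).factorization p := by
    refine ((Fact.out : p.Prime).pow_dvd_iff_le_factorization Nat.card_pos.ne').1 (hr ▸ ?_)
    exact Subgroup.card_dvd_of_le (inf_le_inf (Subgroup.map_subtype_le _)
      (Subgroup.map_subtype_le _))
  have hG : (Nat.card G).factorization p + (Nat.card ↥(H ⊓ K)).factorization p =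
      (Nat.card H).factorization p + (Nat.card K).factorization p := by
    rw [← Finsupp.add_apply, ← Nat.factorization_mul Nat.card_pos.ne' Nat.card_pos.ne', hF.card_eq,
      Nat.factorization_mul Nat.card_pos.ne' Nat.card_pos.ne', Finsupp.add_apply]
  refine Nat.le_of_mul_le_mul_right ?_
    (Nat.card_pos (α := ↥((P : Subgroup H).map H.subtype ⊓ (Q : Subgroup K).map K.subtype)))
  rw [h1, hP, hQ, hr]
  change Nat.card ↥(R : Subgroup G) * _ ≤ _
  rw [R.card_eq_multiplicity, ← pow_add, ← pow_add]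
  exact Nat.pow_le_pow_right (Fact.out : p.Prime).pos (by omega)

end Cfsg.Agent.S0560
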