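import Cfsg.Statements.S0561
import Cfsg.Agent.Lib.Hall.Existence
import Cfsg.Agent.Lib.PSolvable.Products

set_option autoImplicit false
open Pointwise
open Cfsg

namespace Cfsg.Agent.S0561

set_option linter.style.haveILetI false

open Pointwise CfsgLib.PSolvable CfsgLib.Hall

theorem factorization_of_isPiHall {G : Type*} [Group G] [Finite G] {π : Set ℕ} {H : Subgroup G}
    (hH : IsPiHall π H) {p : ℕ} (hp : p.Prime) :
    (p ∈ π → (Nat.card H).factorization p = (Nat.card G).factorization p) ∧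
      (p ∉ π → (Nat.card H).factorization p = 0) := by
  refine ⟨fun hπ => ?_, fun hπ => Nat.factorization_eq_zero_of_not_dvd fun hd =>
    hπ ((isPiHall_iff.1 hH).1 p hp hd)⟩
  rw [← H.card_mul_index, Nat.factorization_mul Nat.card_pos.ne' H.index_ne_zero_of_finite,
    Finsupp.add_apply,
    Nat.factorization_eq_zero_of_not_dvd fun hd => (isPiHall_iff.1 hH).2 p hp hd hπ, add_zero]

theorem isPiHall_subgroupOf {G : Type*} [Group G] [Finite G] {π : Set ℕ} {H T : Subgroup G}
    (hH : IsPiHall π H) (hle : H ≤ T) : IsPiHall π (H.subgroupOf T) := by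
  rw [isPiHall_iff]
  refine ⟨?_, (isPiHall_iff.1 hH).2.of_dvd (Dvd.intro _ (Subgroup.relIndex_mul_index hle))⟩
  rw [Nat.card_congr (Subgroup.subgroupOfEquivOfLe hle).toEquiv]
  exact (isPiHall_iff.1 hH).1

/-- Let the finite solvable group G be the product HK of subgroups, and let A be normal in H and B normal in K, where A and B are Hall subgroups of G (order coprime to index). Then for all x, y the product set of xAx⁻¹ and yBy⁻¹ is a subgroup of G. -/
theorem result {G : Type*} [Group G] [Finite G] [Group.IsSolvable G] (H K A B : Subgroup G) (hHK : ∀ g : G, ∃ h ∈ H, ∃ k ∈ K, g = h * k) (hA : A ≤ H) (hAn : (A.subgroupOf H).Normal) (hB : B ≤ K) (hBn : (B.subgroupOf K).Normal) (hAh : (Nat.card A).Coprime A.index) (hBh : (Nat.card B).Coprime B.index) (x y : G) : ∃ S : Subgroup G, (S : Set G) = ((MulAut.conj x • A : Subgroup G) : Set G) * ((MulAut.conj y • B : Subgroup G) : Set G) := by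
  let π : Set ℕ := {p | p ∣ Nat.card A}
  let σ : Set ℕ := {p | p ∣ Nat.card B}
  have hAπ : IsPiHall π A := isPiHall_of_coprime hAh
  have hBσ : IsPiHall σ B := isPiHall_of_coprime hBh
  obtain ⟨T, hT⟩ := exists_isPiHall (G := G) (π ∪ σ)
  -- conjugates inside `T` containing a Hall `π ∩ σ`-subgroup of `T`
  obtain ⟨C, hC⟩ := exists_isPiHall (G := T) (π ∩ σ)
  have key : ∀ (ρ : Set ℕ) (X : Subgroup G), IsPiHall ρ X → ρ ⊆ π ∪ σ → π ∩ σ ⊆ ρ →
      ∃ g : G, MulAut.conj g • X ≤ T ∧ C.map T.subtype ≤ MulAut.conj g • X := by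
    intro ρ X hX hρ hρ'
    obtain ⟨g, hg⟩ := exists_le_conj_isPiHall hT
      (fun p hp hd => hρ ((isPiHall_iff.1 hX).1 p hp hd) : IsPiSubgroup (π ∪ σ) X)
    have hg' : MulAut.conj g⁻¹ • X ≤ T := by
      intro z hz
      have h1 := hg (mem_conj_smul_iff.1 hz)
      rw [mem_conj_smul_iff] at h1
      simpa [mul_assoc] using h1
    have hXg : IsPiHall ρ (MulAut.conj g⁻¹ • X : Subgroup G) := by
      rw [isPiHall_iff] at hX ⊢
      have hc : Nat.card (MulAut.conj g⁻¹ • X : Subgroup G) = Nat.card X :=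
        Nat.card_congr (Subgroup.equivSMul (MulAut.conj g⁻¹) X).symm.toEquiv
      have a := (MulAut.conj g⁻¹ • X : Subgroup G).card_mul_index
      rw [hc, ← X.card_mul_index] at a
      rw [hc, Nat.mul_left_cancel Nat.card_pos a]
      exact hX
    obtain ⟨t, ht⟩ := exists_le_conj_isPiHall (isPiHall_subgroupOf hXg hg')
      (fun p hp hd => hρ' ((isPiHall_iff.1 hC).1 p hp hd) : IsPiSubgroup ρ C)
    refine ⟨(t : G) * g⁻¹, ?_, ?_⟩
    · intro z hz
      rw [mem_conj_smul_iff] at hz
      have h2 : (t : G)⁻¹ * z * t ∈ MulAut.conj g⁻¹ • X := by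
        rw [mem_conj_smul_iff]
        simpa [mul_assoc] using hz
      have h3 := T.mul_mem (T.mul_mem t.2 (hg' h2)) (T.inv_mem t.2)
      simpa [mul_assoc] using h3
    · rintro _ ⟨c, hc, rfl⟩
      have h2 := mem_conj_smul_iff.1 (ht hc)
      rw [Subgroup.mem_subgroupOf, mem_conj_smul_iff] at h2
      rw [mem_conj_smul_iff]
      simpa [mul_assoc] using h2
  obtain ⟨a, haT, haC⟩ := key π A hAπ Set.subset_union_left Set.inter_subset_left
  obtain ⟨b, hbT, hbC⟩ := key σ B hBσ Set.subset_union_right Set.inter_subset_right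
  let A' : Subgroup G := MulAut.conj a • A
  let B' : Subgroup G := MulAut.conj b • B
  have hcA : Nat.card A' = Nat.card A :=
    Nat.card_congr (Subgroup.equivSMul (MulAut.conj a) A).symm.toEquiv
  have hcB : Nat.card B' = Nat.card B :=
    Nat.card_congr (Subgroup.equivSMul (MulAut.conj b) B).symm.toEquiv
  -- `A' B' = T`
  have hprod : (A' : Set G) * (B' : Set G) = (T : Set G) := by
    have hsub : (A' : Set G) * (B' : Set G) ⊆ T := by
      rintro _ ⟨u, hu, v, hv, rfl⟩
      exact T.mul_mem (haT hu) (hbT hv)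
    refine Set.eq_of_subset_of_ncard_le hsub ?_
    rw [← Nat.card_coe_set_eq, ← Nat.card_coe_set_eq]
    refine Nat.le_of_mul_le_mul_right (c := Nat.card (A' ⊓ B' : Subgroup G)) ?_ Nat.card_pos
    rw [card_mul_mul_card_inf, hcA, hcB]
    have hI : Nat.card (A' ⊓ B' : Subgroup G) ∣ Nat.card C := by
      have hle : (A' ⊓ B') ≤ T := inf_le_left.trans haT
      rw [← Nat.card_congr (Subgroup.subgroupOfEquivOfLe hle).toEquiv]
      have h1 : IsPiNum (π ∩ σ) (Nat.card ((A' ⊓ B').subgroupOf T)) := by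
        rw [Nat.card_congr (Subgroup.subgroupOfEquivOfLe hle).toEquiv]
        intro p hp hd
        exact ⟨(hd.trans (Subgroup.card_dvd_of_le inf_le_left)).trans hcA.dvd,
          (hd.trans (Subgroup.card_dvd_of_le inf_le_right)).trans hcB.dvd⟩
      refine (h1.coprime (isPiHall_iff.1 hC).2).dvd_of_dvd_mul_right ?_
      rw [C.card_mul_index]
      exact Subgroup.card_subgroup_dvd_card _
    have hT' : (Nat.card (T : Set G)) = Nat.card T := rfl
    refine Nat.le_of_dvd (Nat.mul_pos Nat.card_pos Nat.card_pos) ?_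
    refine (mul_dvd_mul_left _ hI).trans ?_
    rw [hT', ← Nat.factorization_prime_le_iff_dvd (Nat.mul_pos Nat.card_pos Nat.card_pos).ne'
      (Nat.mul_pos Nat.card_pos Nat.card_pos).ne']
    intro p hp
    rw [Nat.factorization_mul Nat.card_pos.ne' Nat.card_pos.ne',
      Nat.factorization_mul Nat.card_pos.ne' Nat.card_pos.ne', Finsupp.add_apply, Finsupp.add_apply]
    have fT := factorization_of_isPiHall hT hp
    have fC := factorization_of_isPiHall hC hp
    have fA := factorization_of_isPiHall hAπ hp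
    have fB := factorization_of_isPiHall hBσ hp
    by_cases h1 : p ∈ π <;> by_cases h2 : p ∈ σ
    · rw [fT.1 (Or.inl h1), fC.1 ⟨h1, h2⟩, fA.1 h1, fB.1 h2, fT.1 (Or.inl h1)]
    · rw [fT.1 (Or.inl h1), fC.2 (fun h => h2 h.2), fA.1 h1, fB.2 h2]
    · rw [fT.1 (Or.inr h2), fC.2 (fun h => h1 h.1), fA.2 h1, fB.1 h2, zero_add, add_zero]
    · rw [fT.2 (fun h => h.elim h1 h2), fC.2 (fun h => h1 h.1), fA.2 h1, fB.2 h2]
  -- transport to arbitrary conjugates
  have hfix : ∀ (L X : Subgroup G), X ≤ L → (X.subgroupOf L).Normal → ∀ l ∈ L,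
      MulAut.conj l • X = X := by
    intro L X hXL hXn l hl
    have hN := (Subgroup.normal_subgroupOf_iff_le_normalizer hXL).1 hXn
    ext z
    rw [mem_conj_smul_iff]
    exact (Subgroup.mem_normalizer_iff''.1 (hN hl) z).symm
  have hcommon : ∀ u v : G, ∃ g : G, MulAut.conj g • A = MulAut.conj u • A ∧
      MulAut.conj g • B = MulAut.conj v • B := by
    intro u v
    obtain ⟨h, hh, k, hk, hhk⟩ := hHK (u⁻¹ * v)
    refine ⟨u * h, ?_, ?_⟩
    · rw [map_mul, mul_smul, hfix H A hA hAn h hh]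
    · have hv : v = u * h * k := by rw [mul_assoc, ← hhk, mul_inv_cancel_left]
      rw [hv, map_mul _ (u * h) k, mul_smul, hfix K B hB hBn k hk]
  obtain ⟨g₀, hg₀A, hg₀B⟩ := hcommon a b
  obtain ⟨g, hgA, hgB⟩ := hcommon x y
  refine ⟨MulAut.conj (g * g₀⁻¹) • T, ?_⟩
  rw [← hgA, ← hgB, Subgroup.coe_pointwise_smul, ← hprod]
  have hA' : MulAut.conj (g * g₀⁻¹) • A' = MulAut.conj g • A := by
    simp only [A', ← hg₀A, ← mul_smul, ← map_mul, inv_mul_cancel_right]
  have hB' : MulAut.conj (g * g₀⁻¹) • B' = MulAut.conj g • B := by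
    simp only [B', ← hg₀B, ← mul_smul, ← map_mul, inv_mul_cancel_right]
  rw [← hA', ← hB', Subgroup.coe_pointwise_smul, Subgroup.coe_pointwise_smul]
  exact Set.image_mul (MulAut.conj (g * g₀⁻¹))

end Cfsg.Agent.S0561
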