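import Cfsg.Statements.S0562
import Cfsg.Agent.Lib.PSolvable.Products

set_option autoImplicit false
open Cfsg

namespace Cfsg.Agent.S0562

/-- Let the finite group G be the product HK of subgroups, A normal in H, B normal in K, and L the normalizer of the subgroup generated by A and B. Then every element of L is a product of an element of L ∩ H and an element of L ∩ K. -/
theorem result {G : Type*} [Group G] [Finite G] (H K A B : Subgroup G) (hHK : ∀ g : G, ∃ h ∈ H, ∃ k ∈ K, g = h * k) (hA : A ≤ H) (hAn : (A.subgroupOf H).Normal) (hB : B ≤ K) (hBn : (B.subgroupOf K).Normal) : ∀ g ∈ Subgroup.normalizer ((A ⊔ B : Subgroup G) : Set G), ∃ h ∈ Subgroup.normalizer ((A ⊔ B : Subgroup G) : Set G) ⊓ H, ∃ k ∈ Subgroup.normalizer ((A ⊔ B : Subgroup G) : Set G) ⊓ K, g = h * k := by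
  intro g hg
  obtain ⟨h, hh, k, hk, rfl⟩ := hHK g
  rw [Subgroup.normal_subgroupOf_iff_le_normalizer hA] at hAn
  rw [Subgroup.normal_subgroupOf_iff_le_normalizer hB] at hBn
  have hk' : k⁻¹ ∈ Subgroup.normalizer (B : Set G) := hBn (inv_mem hk)
  -- `h` conjugates the join into itself
  have hle : (A ⊔ B).map (MulAut.conj h).toMonoidHom ≤ A ⊔ B := by
    rw [Subgroup.map_sup, sup_le_iff]
    constructor
    · rintro _ ⟨a, ha, rfl⟩
      exact Subgroup.mem_sup_left ((Subgroup.mem_normalizer_iff.1 (hAn hh) a).1 ha)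
    · rintro _ ⟨b, hb, rfl⟩
      have hb' : k⁻¹ * b * (k⁻¹)⁻¹ ∈ A ⊔ B :=
        Subgroup.mem_sup_right ((Subgroup.mem_normalizer_iff.1 hk' b).1 hb)
      have := (Subgroup.mem_normalizer_iff.1 hg _).1 hb'
      simpa [mul_assoc] using this
  have hh' : h ∈ Subgroup.normalizer ((A ⊔ B : Subgroup G) : Set G) := by
    rw [Subgroup.mem_normalizer_iff]
    intro x
    have heq : (A ⊔ B).map (MulAut.conj h).toMonoidHom = A ⊔ B :=
      Subgroup.eq_of_le_of_card_ge hle
        (Subgroup.card_map_of_injective (MulAut.conj h).injective).ge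
    constructor
    · intro hx
      exact hle ⟨x, hx, rfl⟩
    · intro hx
      rw [← heq] at hx
      obtain ⟨y, hy, hy'⟩ := hx
      have : y = x := (MulAut.conj h).injective hy'
      exact this ▸ hy
  refine ⟨h, ⟨hh', hh⟩, k, ⟨?_, hk⟩, rfl⟩
  simpa using mul_mem (inv_mem hh') hg

end Cfsg.Agent.S0562
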