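import Cfsg.Statements.S0563
import Cfsg.Agent.Lib.PSolvable.ProductSolvable
import Cfsg.Agent.S0561

set_option autoImplicit false
open Pointwise
open Cfsg

namespace Cfsg.Agent.S0563

set_option linter.style.haveILetI false

open CfsgLib.PSolvable

open Pointwise in
theorem hall_of_sylow {G : Type*} [Group G] [Finite G] {A B : Subgroup G}
    (hA : Group.IsNilpotent A) (hcop : (Nat.card A).Coprime (Nat.card B)) (hAB : IsFactor A B)
    {p : ℕ} [hp : Fact p.Prime] (P : Sylow p A) :
    (((P : Subgroup A).map A.subtype).subgroupOf A).Normal ∧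
      (Nat.card ((P : Subgroup A).map A.subtype)).Coprime ((P : Subgroup A).map A.subtype).index := by
  have hn : (P : Subgroup A).Normal :=
    ((Group.isNilpotent_of_finite_tfae (G := A)).out 0 3 rfl rfl).1 hA p hp P
  refine ⟨by rwa [Subgroup.subgroupOf, Subgroup.comap_map_eq_self_of_injective A.subtype_injective], ?_⟩
  rw [Subgroup.card_map_of_injective A.subtype_injective, Subgroup.index_map_subtype]
  refine Nat.Coprime.mul_right ?_ ?_
  · rw [P.card_eq_multiplicity]
    exact (hp.out.coprime_iff_not_dvd.2 P.not_dvd_index).pow_left _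
  · refine (Nat.Coprime.coprime_dvd_left (Subgroup.card_subgroup_dvd_card _) ?_)
    refine hcop.coprime_dvd_right (dvd_of_eq ?_)
    refine Nat.mul_left_cancel (Nat.card_pos (α := A)) ?_
    rw [A.card_mul_index]
    have h := hAB.card_eq
    rwa [inf_eq_bot_of_coprime_card hcop, Subgroup.card_bot, mul_one] at h

/-- If a finite group G is the product AB of two nilpotent subgroups of coprime orders, then G is solvable, and for every Sylow p-subgroup P of A and Sylow q-subgroup Q of B the product set PQ is a subgroup. -/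
theorem result {G : Type*} [Group G] [Finite G] (A B : Subgroup G) (hA : Group.IsNilpotent A) (hB : Group.IsNilpotent B) (hcop : (Nat.card A).Coprime (Nat.card B)) (hAB : ∀ g : G, ∃ a ∈ A, ∃ b ∈ B, g = a * b) : Group.IsSolvable G ∧ ∀ (p q : ℕ) [Fact p.Prime] [Fact q.Prime] (P : Sylow p A) (Q : Sylow q B), ∃ S : Subgroup G, (S : Set G) = (((P : Subgroup A).map A.subtype : Subgroup G) : Set G) * (((Q : Subgroup B).map B.subtype : Subgroup G) : Set G) := by
  haveI hs : Group.IsSolvable G := CfsgLib.PSolvable.isSolvable_of_nilpotent_factors hA hB hAB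
  refine ⟨hs, fun p q _ _ P Q => ?_⟩
  obtain ⟨hP, hPh⟩ := hall_of_sylow hA hcop hAB P
  obtain ⟨hQ, hQh⟩ := hall_of_sylow hB hcop.symm (CfsgLib.PSolvable.IsFactor.swap hAB) Q
  obtain ⟨S, hS⟩ := Cfsg.Agent.S0561.result A B _ _ hAB (Subgroup.map_subtype_le _) hP
    (Subgroup.map_subtype_le _) hQ hPh hQh 1 1
  exact ⟨S, by simpa using hS⟩

end Cfsg.Agent.S0563
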