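import Cfsg.Statements.S0565
import Cfsg.Agent.Lib.PSolvable.ProductSolvable
import Cfsg.Agent.Lib.SolvableStructure.MinimalNormal
import Cfsg.Agent.S0581

set_option autoImplicit false
open Cfsg

namespace Cfsg.Agent.S0565

set_option linter.style.haveILetI false

open Pointwise CfsgLib.PSolvable

theorem exists_normal_ge_of_isNilpotent {G : Type*} [Group G] [Finite G] (hG : Group.IsNilpotent G)
    {A : Subgroup G} (hA : A ≠ ⊤) : ∃ N : Subgroup G, N.Normal ∧ N ≠ ⊤ ∧ A ≤ N := by
  obtain ⟨M, hM, hle⟩ := (eq_top_or_exists_le_coatom A).resolve_left hA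
  haveI := hG
  exact ⟨M, Subgroup.NormalizerCondition.normal_of_coatom M
    Group.normalizerCondition_of_isNilpotent hM, hM.1, hle⟩

theorem aux.{u} : ∀ (n : ℕ) (G : Type u) [Group G] [Finite G], Nat.card G = n →
    ∀ A B : Subgroup G, Group.IsNilpotent A → Group.IsNilpotent B → IsFactor A B →
      (A ≠ ⊤ ∨ B ≠ ⊤) → ∃ N : Subgroup G, N.Normal ∧ N ≠ ⊤ ∧ (A ≤ N ∨ B ≤ N) := by
  intro n
  induction n using Nat.strong_induction_on with
  | _ n ih =>
    intro G _ _ hn A B hA hB hAB hproper
    haveI := hA
    haveI := hB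
    by_cases hG : Group.IsNilpotent G
    · rcases hproper with h | h
      · obtain ⟨N, h1, h2, h3⟩ := exists_normal_ge_of_isNilpotent hG h
        exact ⟨N, h1, h2, Or.inl h3⟩
      · obtain ⟨N, h1, h2, h3⟩ := exists_normal_ge_of_isNilpotent hG h
        exact ⟨N, h1, h2, Or.inr h3⟩
    haveI hs : Group.IsSolvable G := isSolvable_of_nilpotent_factors hA hB hAB
    haveI : Nontrivial G := by
      by_contra h
      rw [not_nontrivial_iff_subsingleton] at h
      exact hG inferInstance
    obtain ⟨M, -, hMn, hMb, hMmin⟩ := CfsgLib.SolvableStructure.exists_minimal_normal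
      (G := G) (N := ⊤) inferInstance top_ne_bot
    haveI := hMn
    obtain ⟨p, d, hp, hd, hMc, -, hMab⟩ := CfsgLib.SolvableStructure.minimal_normal_prime hMb hMmin
    haveI := Fact.mk hp
    haveI := hMab
    let π := QuotientGroup.mk' M
    have hπ : Function.Surjective π := QuotientGroup.mk'_surjective M
    have htop : ∀ C : Subgroup G, C.map π = ⊤ ↔ C ⊔ M = ⊤ := fun C => by
      constructor
      · intro h
        have h' := congrArg (Subgroup.comap π) h
        rwa [Subgroup.comap_map_eq, QuotientGroup.ker_mk', Subgroup.comap_top] at h'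
      · intro h
        have h' := congrArg (Subgroup.map π) h
        rwa [Subgroup.map_sup, QuotientGroup.map_mk'_self, sup_bot_eq,
          Subgroup.map_top_of_surjective _ hπ] at h'
    by_cases hboth : A ⊔ M = ⊤ ∧ B ⊔ M = ⊤
    swap
    · have hlt : Nat.card (G ⧸ M) < n := by
        rw [← hn, Subgroup.card_eq_card_quotient_mul_card_subgroup M]
        exact lt_mul_of_one_lt_right Nat.card_pos ((Subgroup.one_lt_card_iff_ne_bot M).mpr hMb)
      have hpr : A.map π ≠ ⊤ ∨ B.map π ≠ ⊤ := by
        rcases not_and_or.1 hboth with h | h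
        · exact Or.inl fun e => h ((htop A).1 e)
        · exact Or.inr fun e => h ((htop B).1 e)
      obtain ⟨N, hN, hNt, hle⟩ := ih _ hlt (G ⧸ M) rfl (A.map π) (B.map π)
        (Group.nilpotent_of_surjective (π.subgroupMap A) (π.subgroupMap_surjective A))
        (Group.nilpotent_of_surjective (π.subgroupMap B) (π.subgroupMap_surjective B))
        (hAB.map hπ) hpr
      refine ⟨N.comap π, hN.comap π, fun h => hNt ?_, hle.imp Subgroup.map_le_iff_le_comap.1
        Subgroup.map_le_iff_le_comap.1⟩
      rw [← Subgroup.map_comap_eq_self_of_surjective hπ N, h, Subgroup.map_top_of_surjective _ hπ]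
    exfalso
    -- both factors complement `M`
    have hcompl : ∀ C : Subgroup G, Group.IsNilpotent C → C ⊔ M = ⊤ →
        C.index = Nat.card M ∧ (∀ X : Subgroup G, C ≤ X → X = C ∨ X = ⊤) := by
      intro C hC hCM
      have hn' : ∀ X : Subgroup G, C ≤ X → X ⊓ M = ⊥ ∨ X = ⊤ := by
        intro X hCX
        have hXn : (X ⊓ M).Normal := by
          rw [← Subgroup.normalizer_eq_top_iff, eq_top_iff, ← hCM, sup_le_iff]
          refine ⟨fun c hc => mem_normalizer_of_conj_le fun y hy => ?_,
            (CfsgLib.SolvableStructure.le_centralizer_of_isMulCommutative M).trans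
              ((Subgroup.centralizer_le (SetLike.coe_subset_coe.2 inf_le_right)).trans
                (Subgroup.centralizer_le_normalizer _))⟩
          rw [mem_conj_smul_iff] at hy
          refine ⟨?_, ?_⟩
          · have := X.mul_mem (X.mul_mem (hCX hc) hy.1) (X.inv_mem (hCX hc))
            simpa [mul_assoc] using this
          · have := hMn.conj_mem _ hy.2 c
            simpa [mul_assoc] using this
        rcases hMmin _ hXn inf_le_right with h | h
        · exact Or.inl h
        · exact Or.inr (top_le_iff.1 (hCM ▸ sup_le hCX (inf_eq_right.1 h)))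
      have hd' : C ⊓ M = ⊥ := (hn' C le_rfl).resolve_right fun h => hG (by
        haveI : Group.IsNilpotent (⊤ : Subgroup G) := h ▸ hC
        exact Group.nilpotent_of_mulEquiv Subgroup.topEquiv)
      refine ⟨Subgroup.IsComplement'.index_eq_card (Subgroup.isComplement'_of_disjoint_and_mul_eq_univ
        (disjoint_iff.2 (inf_comm C M ▸ hd')) (by rw [← Subgroup.normal_mul, sup_comm, hCM]; rfl)),
        fun X hCX => ?_⟩
      rcases hn' X hCX with h | h
      · refine Or.inl (le_antisymm (fun x hx => ?_) hCX)
        obtain ⟨c, hc, m, hm, rfl⟩ := Subgroup.mem_sup_of_normal_right.1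
          (hCM ▸ Subgroup.mem_top x : x ∈ C ⊔ M)
        have hm' : m ∈ X ⊓ M := ⟨(X.mul_mem_cancel_left (hCX hc)).1 hx, hm⟩
        rw [h, Subgroup.mem_bot] at hm'
        rw [hm', mul_one]; exact hc
      · exact Or.inr h
    obtain ⟨hAi, hAmax⟩ := hcompl A hA hboth.1
    obtain ⟨hBi, hBmax⟩ := hcompl B hB hboth.2
    have hcardeq : Nat.card A = Nat.card B := by
      have a := A.card_mul_index
      rw [hAi, ← B.card_mul_index, hBi] at a
      exact Nat.mul_right_cancel Nat.card_pos a
    -- `p'`-parts
    have hnn : ∀ C : Subgroup G, Group.IsNilpotent C → C ⊔ M = ⊤ →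
        ¬ (primeCompl p C).Normal := by
      intro C hC hCM hCn
      haveI := hCn
      have hcM : primeCompl p C ≤ Subgroup.centralizer (M : Set G) := fun x hx => by
        refine Subgroup.mem_centralizer_iff.2 fun m hm => ?_
        have h1 : x ∈ primeCompl p C := hx
        refine ((Subgroup.commute_of_normal_of_disjoint M (primeCompl p C) hMn hCn ?_ m x hm hx)).eq
        rw [disjoint_iff, eq_bot_iff]
        intro w hw
        exact Subgroup.mem_bot.2 (NilProd.inf_eq_bot_primeCompl (IsPGroup.of_card hMc) C hw.1 hw.2)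
      let P := primePart p C ⊔ M
      obtain ⟨r, hr, hrp⟩ : ∃ r, r.Prime ∧ p ≠ r :=
        ⟨_, (Nat.exists_infinite_primes (p + 1)).choose_spec.2,
          fun h => by have := (Nat.exists_infinite_primes (p + 1)).choose_spec.1; omega⟩
      haveI := Fact.mk hr
      have hCsplit : C ≤ primePart p C ⊔ primeCompl p C := by
        intro c hc
        obtain ⟨u, v, huv, ⟨k, hu⟩, hv, hu', hv'⟩ : ∃ u v : G, c = u * v ∧ (∃ k, orderOf u = p ^ k) ∧
            (orderOf v).Coprime p ∧ u ∈ C ∧ v ∈ C := by
          obtain ⟨e, m, hm, he⟩ := Nat.exists_eq_pow_mul_and_not_dvd (orderOf_pos c).ne' p hp.ne_one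
          have hcop : (p ^ e).Coprime m := (hp.coprime_iff_not_dvd.2 hm).pow_left e
          obtain ⟨i, j, hij⟩ := Nat.isCoprime_iff_coprime.2 hcop
          refine ⟨(c ^ m) ^ j, (c ^ (p ^ e)) ^ i, ?_, ?_, ?_, C.zpow_mem (pow_mem hc _) j,
            C.zpow_mem (pow_mem hc _) i⟩
          · rw [← zpow_natCast c (p ^ e), ← zpow_natCast c m, ← zpow_mul, ← zpow_mul, ← zpow_add,
              mul_comm _ j, mul_comm _ i, add_comm, hij, zpow_one]
          · have h1 : orderOf ((c ^ m) ^ j) ∣ p ^ e := by
              refine orderOf_dvd_of_pow_eq_one ?_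
              rw [← zpow_natCast ((c ^ m) ^ j), ← zpow_mul, mul_comm j, zpow_mul, zpow_natCast,
                ← pow_mul, mul_comm m, ← he, pow_orderOf_eq_one, one_zpow]
            obtain ⟨k, -, hk⟩ := (Nat.dvd_prime_pow hp).1 h1
            exact ⟨k, hk⟩
          · have h1 : orderOf ((c ^ (p ^ e)) ^ i) ∣ m := by
              refine orderOf_dvd_of_pow_eq_one ?_
              rw [← zpow_natCast ((c ^ (p ^ e)) ^ i), ← zpow_mul, mul_comm i, zpow_mul, zpow_natCast,
                ← pow_mul, ← he, pow_orderOf_eq_one, one_zpow]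
            exact (hp.coprime_iff_not_dvd.2 hm).symm.coprime_dvd_left h1
        rw [huv]
        exact mul_mem (Subgroup.mem_sup_left (mem_primePart hC hu' hu))
          (Subgroup.mem_sup_right (mem_primeCompl hC hv' hv))
      have hPn : P.Normal := by
        rw [← Subgroup.normalizer_eq_top_iff, eq_top_iff, ← hCM]
        refine sup_le (fun c hc => mem_normalizer_of_conj_le ?_)
          (le_sup_right.trans Subgroup.le_normalizer)
        rw [Subgroup.smul_sup,
          CfsgLib.CoprimeAction.conj_smul_eq_self.2 (le_normalizer_primePart p C hc),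
          CfsgLib.CoprimeAction.conj_smul_eq_self.2 (Subgroup.le_normalizer_of_normal
            (Subgroup.mem_top c) : c ∈ _)]
      haveI := hPn
      have hPp : IsPGroup p P :=
        IsPGroup.to_sup_of_normal_right (isPGroup_primePart p C) (IsPGroup.of_card hMc)
      have hall : P ⊔ primeCompl p C = ⊤ := top_le_iff.1 (hCM ▸ sup_le
        (hCsplit.trans (sup_le_sup_right le_sup_left _)) (le_sup_right.trans le_sup_left))
      have hnP : Group.IsNilpotent P := hPp.isNilpotent
      have hnC : Group.IsNilpotent (primeCompl p C) :=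
        CfsgLib.Cores.isNilpotent_of_le hC (primeCompl_le p C)
      have := CfsgLib.Cores.isNilpotent_sup_of_normal hnP hnC
      rw [hall] at this
      exact hG (Group.nilpotent_of_mulEquiv Subgroup.topEquiv)
    have hN : ∀ C : Subgroup G, Group.IsNilpotent C → C ⊔ M = ⊤ →
        (∀ X : Subgroup G, C ≤ X → X = C ∨ X = ⊤) →
        Subgroup.normalizer (primeCompl p C : Set G) = C := fun C hC hCM hmax =>
      (hmax _ (le_normalizer_primeCompl p C)).resolve_right fun h =>
        hnn C hC hCM (Subgroup.normalizer_eq_top_iff.1 h)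
    have hhall : ∀ C D : Subgroup G, Group.IsNilpotent C → Group.IsNilpotent D →
        C.index = Nat.card M → Nat.card C = Nat.card D →
        ∃ x : G, primeCompl p D ≤ MulAut.conj x • primeCompl p C := by
      intro C D hC hD hCi hCD
      have hmem : ∀ q : ℕ, q.Prime → q ≠ p → q ∣ Nat.card C → q ∣ Nat.card (primeCompl p C) := by
        intro q hq hqp hqd
        haveI := Fact.mk hq
        obtain ⟨x, hx⟩ := exists_prime_orderOf_dvd_card' (G := C) q hqd
        have h1 : (x : G) ∈ primeCompl p C := mem_primeCompl hC x.2 (by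
          rw [Subgroup.orderOf_coe, hx]; exact (Nat.coprime_primes hq hp).2 hqp)
        exact hx ▸ Subgroup.orderOf_coe x ▸ Subgroup.orderOf_dvd_natCard _ h1
      have hne : ∀ E : Subgroup G, ∀ q : ℕ, q.Prime → q ∣ Nat.card (primeCompl p E) → q ≠ p := by
        intro E q hq hqd he
        haveI := Fact.mk hq
        obtain ⟨x, hx⟩ := exists_prime_orderOf_dvd_card' (G := primeCompl p E) q hqd
        have := orderOf_coprime_of_mem_primeCompl x.2
        rw [Subgroup.orderOf_coe, hx, he, Nat.coprime_self] at this
        exact hp.ne_one this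
      refine Cfsg.Agent.S0581.result _ _ (CfsgLib.Cores.isNilpotent_of_le hC (primeCompl_le p C))
        (Nat.coprime_of_dvd fun q hq h1 h2 => ?_) fun q hq hqd => ?_
      · haveI := Fact.mk hq
        have hqp := hne C q hq h1
        have hsub : primePart q C ≤ primeCompl p C := fun x hx => by
          obtain ⟨k, hk⟩ := IsPGroup.iff_orderOf.1 (isPGroup_primePart q C) ⟨x, hx⟩
          rw [Subgroup.orderOf_mk] at hk
          exact mem_primeCompl hC (primePart_le q C hx)
            (hk ▸ ((Nat.coprime_primes hq hp).2 hqp).pow_left k)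
        refine not_dvd_index_primePart hC ?_ (h2.trans (Subgroup.index_dvd_of_le hsub))
        rw [hCi, hMc]
        exact fun h => hqp ((Nat.prime_dvd_prime_iff_eq hq hp).1 (hq.dvd_of_dvd_pow h))
      · exact hmem q hq (hne D q hq hqd) (hCD ▸ hqd.trans (Subgroup.card_dvd_of_le (primeCompl_le p D)))
    obtain ⟨x, hx⟩ := hhall A B hA hB hAi hcardeq
    obtain ⟨y, hy⟩ := hhall B A hB hA hBi hcardeq.symm
    have heq : MulAut.conj x • primeCompl p A = primeCompl p B := by
      refine (Subgroup.eq_of_le_of_card_ge hx ?_).symm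
      have h1 := Nat.le_of_dvd Nat.card_pos (Subgroup.card_dvd_of_le hy)
      rw [← Nat.card_congr (Subgroup.equivSMul (MulAut.conj y) (primeCompl p B)).toEquiv] at h1
      rwa [← Nat.card_congr (Subgroup.equivSMul (MulAut.conj x) (primeCompl p A)).toEquiv]
    have hBx : B ≤ MulAut.conj x • A := by
      intro b hb
      rw [mem_conj_smul_iff]
      have h1 : b ∈ Subgroup.normalizer (primeCompl p B : Set G) := le_normalizer_primeCompl p B hb
      rw [← heq, mem_normalizer_conj_smul_iff, hN A hA hboth.1 hAmax] at h1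
      exact h1
    have hBA : B = MulAut.conj x • A := Subgroup.eq_of_le_of_card_ge hBx (by
      rw [← Nat.card_congr (Subgroup.equivSMul (MulAut.conj x) A).toEquiv, hcardeq])
    have hf := hAB.conj_smul x 1
    rw [map_one, one_smul, hBA] at hf
    have hAt : A = ⊤ := top_le_iff.1 fun g _ => by
      obtain ⟨u, hu, v, hv, he⟩ := hf (x * g * x⁻¹)
      have := mem_conj_smul_iff.1 (mul_mem hu hv)
      rw [← he] at this
      simpa [mul_assoc] using this
    exact hG (by
      haveI : Group.IsNilpotent (⊤ : Subgroup G) := hAt ▸ hA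
      exact Group.nilpotent_of_mulEquiv Subgroup.topEquiv)

/-- Let the finite group G be the product AB of nilpotent subgroups A and B, not both equal to G. Then there is a proper normal subgroup of G containing A or containing B. -/
theorem result {G : Type*} [Group G] [Finite G] (A B : Subgroup G) (hA : Group.IsNilpotent A) (hB : Group.IsNilpotent B) (hAB : ∀ g : G, ∃ a ∈ A, ∃ b ∈ B, g = a * b) (hproper : A ≠ ⊤ ∨ B ≠ ⊤) : ∃ N : Subgroup G, N.Normal ∧ N ≠ ⊤ ∧ (A ≤ N ∨ B ≤ N) := by
  exact aux _ G rfl A B hA hB hAB hproper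

end Cfsg.Agent.S0565
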