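import Cfsg.Statements.S0567
import Mathlib

set_option autoImplicit false
open Cfsg

namespace Cfsg.Agent.S0567

set_option linter.style.haveILetI false

theorem iterate_mono {G : Type*} [Group G] {H K : Subgroup G} (h : H ≤ K) (m : ℕ) :
    (fun X : Subgroup G => ⁅X, H⁆)^[m] ⊤ ≤ (fun X : Subgroup G => ⁅X, K⁆)^[m] ⊤ := by
  induction m with
  | zero => exact le_rfl
  | succ m ih =>
    rw [Function.iterate_succ_apply', Function.iterate_succ_apply']
    exact Subgroup.commutator_mono ih h

/-- A subgroup H of a group G is subnormal exactly when, for some m, the subgroup obtained from G by taking the commutator with H m times in succession is contained in H. -/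
theorem result {G : Type*} [Group G] (H : Subgroup G) : H.IsSubnormal ↔ ∃ m : ℕ, (fun K : Subgroup G => ⁅K, H⁆)^[m] ⊤ ≤ H := by
  constructor
  · intro hs
    induction hs with
    | top => exact ⟨0, le_rfl⟩
    | step A B hAB _ hN ih =>
      obtain ⟨m, hm⟩ := ih
      rw [Subgroup.normal_subgroupOf_iff_le_normalizer hAB,
        Subgroup.le_normalizer_iff_commutator_le_right] at hN
      refine ⟨m + 1, ?_⟩
      rw [Function.iterate_succ_apply']
      exact (Subgroup.commutator_mono ((iterate_mono hAB m).trans hm) le_rfl).trans hN
  · rintro ⟨m, hm⟩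
    suffices key : ∀ j, ((fun K : Subgroup G => ⁅K, H⁆)^[j] ⊤ ⊔ H).IsSubnormal by
      have := key m
      rwa [sup_eq_right.2 hm] at this
    intro j
    induction j with
    | zero =>
      rw [Function.iterate_zero_apply, top_sup_eq]
      exact Subgroup.IsSubnormal.top
    | succ j ih =>
      rw [Function.iterate_succ_apply']
      set K := (fun K : Subgroup G => ⁅K, H⁆)^[j] ⊤ with hK
      have hle : ⁅K, H⁆ ⊔ H ≤ K ⊔ H := sup_le (Subgroup.commutator_le_sup _ _) le_sup_right
      refine Subgroup.IsSubnormal.step _ _ hle ih ?_
      rw [Subgroup.normal_subgroupOf_iff_le_normalizer hle]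
      refine sup_le ?_ (le_sup_right.trans Subgroup.le_normalizer)
      rw [Subgroup.le_normalizer_iff_commutator_le_right, Subgroup.commutator_le]
      intro k hk x hx
      have hkN := Subgroup.normalizer_commutator_ge_left (H₁ := K) (H₂ := H) hk
      rw [Subgroup.sup_eq_closure] at hx
      induction hx using Subgroup.closure_induction with
      | mem y hy =>
        rcases hy with hy | hy
        · refine Subgroup.mem_sup_left ?_
          rw [commutatorElement_def]
          exact mul_mem ((Subgroup.mem_normalizer_iff.1 hkN y).1 hy) (inv_mem hy)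
        · exact Subgroup.mem_sup_left (Subgroup.commutator_mem_commutator hk hy)
      | one => simp
      | inv y hy ihy =>
        rw [commutatorElement_inv_right, ← commutatorElement_inv]
        have hy' : y ∈ ⁅K, H⁆ ⊔ H := by rw [Subgroup.sup_eq_closure]; exact hy
        exact mul_mem (mul_mem (inv_mem hy') (inv_mem ihy)) hy'
      | mul y z hy hz ihy ihz =>
        have hy' : y ∈ ⁅K, H⁆ ⊔ H := by rw [Subgroup.sup_eq_closure]; exact hy
        rw [commutatorElement_mul_right_eq_mul_conj]
        first
          | exact mul_mem ihy (mul_mem (mul_mem hy' ihz) (inv_mem hy'))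
          | exact mul_mem (mul_mem (mul_mem ihy hy') ihz) (inv_mem hy')

end Cfsg.Agent.S0567
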