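import Cfsg.Statements.S0568
import Cfsg.Agent.Lib.SolvableStructure.SystemNormalizer

set_option autoImplicit false
open Cfsg

namespace Cfsg.Agent.S0568

set_option linter.style.haveILetI false

open CfsgLib.SolvableStructure
/-- Let D be the system normalizer of a Hall complement system of a finite solvable group G, and let A < B be normal subgroups with no normal subgroup of G strictly between them (a chief factor). If G centralizes B modulo A then B ≤ A ⊔ D (D covers the factor); otherwise B ∩ D ≤ A (D avoids it). -/
theorem result {G : Type*} [Group G] [Finite G] [Group.IsSolvable G] (K : Nat.Primes → Subgroup G) (hK : Cfsg.IsComplementSystem K) (A B : Subgroup G) [A.Normal] [B.Normal] (hAB : A < B) (hchief : ∀ N : Subgroup G, N.Normal → A ≤ N → N ≤ B → N = A ∨ N = B) : (⁅B, (⊤ : Subgroup G)⁆ ≤ A → B ≤ A ⊔ Cfsg.systemNormalizer K) ∧ (¬ ⁅B, (⊤ : Subgroup G)⁆ ≤ A → B ⊓ Cfsg.systemNormalizer K ≤ A) := by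
  set f := QuotientGroup.mk' A with hf
  have hfs : Function.Surjective f := QuotientGroup.mk'_surjective A
  haveI : Group.IsSolvable (G ⧸ A) := Group.isSolvable_of_surjective hfs
  haveI hBn : (B.map f).Normal := Subgroup.Normal.map inferInstance f hfs
  have hker : f.ker ≤ B := by rw [hf, QuotientGroup.ker_mk']; exact hAB.le
  constructor
  · intro hc
    have hz : B.map f ≤ Cfsg.systemNormalizer (fun p => (K p).map f) := by
      refine le_iInf fun p => le_trans ?_ (Subgroup.centralizer_le_normalizer _)
      rintro _ ⟨b, hb, rfl⟩
      refine Subgroup.mem_centralizer_iff.mpr fun y _ => ?_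
      obtain ⟨g, rfl⟩ := hfs y
      refine (commutatorElement_eq_one_iff_mul_comm.mp ?_).symm
      rw [← map_commutatorElement]
      exact (QuotientGroup.eq_one_iff _).mpr (hc (Subgroup.commutator_mem_commutator hb (Subgroup.mem_top g)))
    rw [systemNormalizer_map hK A, Subgroup.map_le_iff_le_comap, Subgroup.comap_map_eq, QuotientGroup.ker_mk',
      sup_comm] at hz
    exact hz
  · intro hc
    have h := inf_systemNormalizer_eq_bot (N := B.map f)
      (fun h => hAB.not_ge <| by
        rw [Subgroup.map_eq_bot_iff, QuotientGroup.ker_mk'] at h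
        exact h)
      (fun M hM hle => by
        rcases hchief (M.comap f) (hM.comap f)
          (fun x hx => by
            rw [Subgroup.mem_comap, hf, QuotientGroup.mk'_apply, (QuotientGroup.eq_one_iff x).mpr hx]
            exact M.one_mem)
          ((Subgroup.comap_mono hle).trans (Subgroup.comap_map_eq_self hker).le) with h | h
        · left
          rw [← Subgroup.map_comap_eq_self_of_surjective hfs M, h, hf, QuotientGroup.map_mk'_self]
        · right
          rw [← Subgroup.map_comap_eq_self_of_surjective hfs M, h])
      (fun h => hc <| Subgroup.commutator_le.mpr fun b hb g _ => by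
        rw [← QuotientGroup.eq_one_iff, ← QuotientGroup.mk'_apply, map_commutatorElement,
          commutatorElement_eq_one_iff_mul_comm]
        exact ((Subgroup.mem_center_iff.mp (h (Subgroup.mem_map_of_mem f hb))) (f g)).symm)
      (isComplementSystem_map hK A)
    rw [systemNormalizer_map hK A] at h
    rintro x ⟨hxB, hxD⟩
    have hx : f x ∈ B.map f ⊓ (Cfsg.systemNormalizer K).map f :=
      ⟨Subgroup.mem_map_of_mem f hxB, Subgroup.mem_map_of_mem f hxD⟩
    rw [h, Subgroup.mem_bot] at hx
    exact (QuotientGroup.eq_one_iff x).mp hx

end Cfsg.Agent.S0568
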