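import Cfsg.Statements.S0569
import Cfsg.Agent.Lib.SolvableStructure.SystemNormalizer

set_option autoImplicit false
open Cfsg

namespace Cfsg.Agent.S0569

set_option linter.style.haveILetI false

open CfsgLib.SolvableStructure
open scoped Pointwise
/-- In a finite solvable group: each nilpotent self-normalizing subgroup contains the system normalizer of some Hall complement system, and the system normalizer of any Hall complement system lies in some nilpotent self-normalizing subgroup. -/
theorem result {G : Type*} [Group G] [Finite G] [Group.IsSolvable G] : (∀ C : Subgroup G, Cfsg.IsCarterSubgroup C → ∃ K : Nat.Primes → Subgroup G, Cfsg.IsComplementSystem K ∧ Cfsg.systemNormalizer K ≤ C) ∧ ∀ K : Nat.Primes → Subgroup G, Cfsg.IsComplementSystem K → ∃ C : Subgroup G, Cfsg.IsCarterSubgroup C ∧ Cfsg.systemNormalizer K ≤ C := by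
  refine ⟨fun C hC => ?_, fun L hL => ?_⟩
  · obtain ⟨K, hK, hR⟩ := exists_reduces (C := C) hC.1
    exact ⟨K, hK, systemNormalizer_le_of_reduces hC hK hR⟩
  · obtain ⟨C, hC⟩ := CfsgLib.Cores.exists_isCarterSubgroup (G := G)
    obtain ⟨K, hK, hR⟩ := exists_reduces (C := C) hC.1
    obtain ⟨g, hg⟩ := exists_conj_eq hK hL
    refine ⟨MulAut.conj g • C, hC.conj g, ?_⟩
    rw [← show (fun p => MulAut.conj g • K p) = L from funext hg, systemNormalizer_conj,
      Subgroup.pointwise_smul_le_pointwise_smul_iff]
    exact systemNormalizer_le_of_reduces hC hK hR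

end Cfsg.Agent.S0569
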