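import Cfsg.Statements.S0570
import Cfsg.Agent.Lib.SolvableStructure.SystemNormalizer

set_option autoImplicit false
open Cfsg

namespace Cfsg.Agent.S0570

set_option linter.style.haveILetI false

open CfsgLib.SolvableStructure
open scoped Pointwise
/-- Let G be a finite group with a nilpotent normal subgroup F such that G modulo F is nilpotent (nilpotent length at most two). Then a subgroup of G is a Carter subgroup if and only if it is the system normalizer of some Hall complement system. -/
theorem result {G : Type*} [Group G] [Finite G] (F : Subgroup G) [F.Normal] (hF : Group.IsNilpotent F) (hGF : Group.IsNilpotent (G ⧸ F)) (C : Subgroup G) : Cfsg.IsCarterSubgroup C ↔ ∃ K : Nat.Primes → Subgroup G, Cfsg.IsComplementSystem K ∧ C = Cfsg.systemNormalizer K := by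
  haveI := hF
  haveI := hGF
  haveI : Group.IsSolvable G := Group.isSolvable_of_ker_le_range F.subtype (QuotientGroup.mk' F) (by simp)
  constructor
  · intro hC
    obtain ⟨K, hK, hR⟩ := exists_reduces (C := C) hC.1
    exact ⟨K, hK, (systemNormalizer_eq_of_reduces hF hGF hC hK hR).symm⟩
  · rintro ⟨L, hL, rfl⟩
    obtain ⟨D, hD⟩ := CfsgLib.Cores.exists_isCarterSubgroup (G := G)
    obtain ⟨K, hK, hR⟩ := exists_reduces (C := D) hD.1
    obtain ⟨g, hg⟩ := exists_conj_eq hK hL
    rw [← show (fun p => MulAut.conj g • K p) = L from funext hg, systemNormalizer_conj,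
      systemNormalizer_eq_of_reduces hF hGF hD hK hR]
    exact hD.conj g

end Cfsg.Agent.S0570
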