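import Cfsg.Statements.S0571
import Cfsg.Agent.Lib.PSolvable.AbelianProducts
import Cfsg.Agent.Lib.Supersolvable.Basic

set_option autoImplicit false
open Cfsg

namespace Cfsg.Agent.S0571

set_option linter.style.haveILetI false

theorem aux.{u} : ∀ (n : ℕ) (G : Type u) [Group G] [Finite G], Nat.card G = n →
    ∀ A B : Subgroup G, IsCyclic A → IsCyclic B → CfsgLib.PSolvable.IsFactor A B →
      Cfsg.IsSupersolvable G := by
  intro n
  induction n using Nat.strong_induction_on with
  | _ n ih =>
    intro G _ _ hn A B hA hB hAB
    rcases subsingleton_or_nontrivial G with hs | hs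
    · exact CfsgLib.Supersolvable.of_subsingleton
    haveI := hA
    haveI := hB
    haveI : IsMulCommutative A := ⟨⟨(hA.commGroup).mul_comm⟩⟩
    haveI : IsMulCommutative B := ⟨⟨(hB.commGroup).mul_comm⟩⟩
    obtain ⟨N, hN, hN0, hle⟩ := CfsgLib.PSolvable.exists_normal_le_factor A B hAB
    haveI := hN
    haveI : IsCyclic N := by
      rcases hle with h | h
      · exact isCyclic_of_surjective _ (Subgroup.subgroupOfEquivOfLe h).surjective
      · exact isCyclic_of_surjective _ (Subgroup.subgroupOfEquivOfLe h).surjective
    let π := QuotientGroup.mk' N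
    exact CfsgLib.Supersolvable.of_quotient_cyclic N
      (ih _ (hn ▸ CfsgLib.Supersolvable.card_quotient_lt N hN0) _ rfl (A.map π) (B.map π)
        (isCyclic_of_surjective _ (π.subgroupMap_surjective A))
        (isCyclic_of_surjective _ (π.subgroupMap_surjective B))
        (hAB.map (QuotientGroup.mk'_surjective N)))

/-- If a finite group G is the product AB of two cyclic subgroups (every element is a product ab), then G is supersolvable. -/
theorem result {G : Type*} [Group G] [Finite G] (A B : Subgroup G) [IsCyclic A] [IsCyclic B] (hAB : ∀ g : G, ∃ a ∈ A, ∃ b ∈ B, g = a * b) : Cfsg.IsSupersolvable G := by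
  exact aux _ G rfl A B inferInstance inferInstance hAB

end Cfsg.Agent.S0571
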