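import Cfsg.Statements.S0574
import Cfsg.Agent.Lib.PSolvable.ProductSolvable
import Cfsg.Agent.S0572

set_option autoImplicit false
open Cfsg

namespace Cfsg.Agent.S0574

set_option linter.style.haveILetI false

open CfsgLib.PSolvable
open scoped commutatorElement

theorem derivedSeries_le_map {G : Type*} [Group G] {H : Subgroup G} {i : ℕ}
    (h : derivedSeries G i ≤ H) :
    ∀ k, derivedSeries G (i + k) ≤ (derivedSeries H k).map H.subtype := by
  intro k
  induction k with
  | zero => rwa [Nat.add_zero, derivedSeries_zero, ← MonoidHom.range_eq_map, Subgroup.range_subtype]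
  | succ k ih =>
    rw [← Nat.add_assoc, derivedSeries_succ, derivedSeries_succ, Subgroup.map_commutator]
    exact Subgroup.commutator_mono ih ih

theorem primeFactorsList_length_lt {m n : ℕ} (hn : n ≠ 0) (hd : m ∣ n) (hlt : m < n) :
    m.primeFactorsList.length < n.primeFactorsList.length := by
  obtain ⟨c, rfl⟩ := hd
  rw [mul_ne_zero_iff] at hn
  have hc : 1 < c := by
    by_contra h
    have : c = 1 := by have := Nat.pos_of_ne_zero hn.2; omega
    rw [this, mul_one] at hlt
    exact lt_irrefl _ hlt
  rw [(Nat.perm_primeFactorsList_mul hn.1 hn.2).length_eq, List.length_append]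
  have : 0 < c.primeFactorsList.length := List.length_pos_of_ne_nil fun h => by
    rcases (Nat.primeFactorsList_eq_nil _).mp h with h | h <;> omega
  omega

theorem aux.{u} : ∀ (n : ℕ) (G : Type u) [Group G] [Finite G] (A B : Subgroup G),
    IsMulCommutative A → ⁅B, B⁆ ≤ Subgroup.centralizer (B : Set G) → IsFactor A B →
    Nat.card (⁅B, B⁆ : Subgroup G) = n →
    derivedSeries G (2 * (1 + n.primeFactorsList.length)) = ⊥ := by
  intro n
  induction n using Nat.strong_induction_on with
  | _ n ih =>
    intro G _ _ A B hA hB hAB hn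
    haveI := hA
    by_cases hB1 : (⁅B, B⁆ : Subgroup G) = ⊥
    · haveI := Subgroup.commutator_self_eq_bot_iff.1 hB1
      rw [← hn, hB1, Subgroup.card_bot, Nat.primeFactorsList_one]
      exact Cfsg.Agent.S0572.result A B hAB
    have hsolv : Group.IsSolvable G := by
      refine isSolvable_of_nilpotent_factors ?_ ?_ hAB
      · letI : CommGroup A := { (inferInstance : Group A) with mul_comm := hA.is_comm.comm }
        exact inferInstance
      · exact CfsgLib.Cores.isNilpotent_of_commutator_le_centralizer hB
    let T := derivedSeries G 2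
    haveI : T.Normal := derivedSeries_normal G 2
    let H := (A ⊔ T) ⊓ (B ⊔ T)
    let A₁ := A ⊓ H
    let B₁ := B ⊓ H
    have hHT : T ≤ H := le_inf le_sup_right le_sup_right
    have hfacH : ∀ h ∈ H, ∃ a ∈ A₁, ∃ b ∈ B₁, h = a * b := by
      intro h hh
      obtain ⟨a, ha, b, hb, rfl⟩ := hAB h
      have hbH : b ∈ H :=
        ⟨((A ⊔ T).mul_mem_cancel_left (Subgroup.mem_sup_left ha)).1 hh.1, Subgroup.mem_sup_left hb⟩
      exact ⟨a, ⟨ha, (H.mul_mem_cancel_right hbH).1 hh⟩, b, ⟨hb, hbH⟩, rfl⟩
    -- `B₁' < B'`
    have hB₁T : ∀ b ∈ B₁, ∃ a ∈ A, ∃ t ∈ T, b = a * t := fun b hb => by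
      obtain ⟨a, ha, t, ht, he⟩ := Subgroup.mem_sup_of_normal_right.1 hb.2.1
      exact ⟨a, ha, t, ht, he.symm⟩
    have hlt : ⁅B₁, B₁⁆ < ⁅B, B⁆ := by
      refine lt_of_le_of_ne (Subgroup.commutator_mono inf_le_left inf_le_left) fun he => ?_
      let q := QuotientGroup.mk' T
      have hB'T : ⁅B, B⁆ ≤ T := by
        rw [← he, Subgroup.commutator_le]
        intro b hb b' hb'
        obtain ⟨a, ha, t, ht, rfl⟩ := hB₁T b hb
        obtain ⟨a', ha', t', ht', rfl⟩ := hB₁T b' hb'
        rw [← QuotientGroup.eq_one_iff]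
        change q ⁅a * t, a' * t'⁆ = 1
        rw [map_commutatorElement, commutatorElement_eq_one_iff_mul_comm, map_mul, map_mul,
          show q t = 1 from (QuotientGroup.eq_one_iff t).2 ht,
          show q t' = 1 from (QuotientGroup.eq_one_iff t').2 ht', mul_one, mul_one, ← map_mul,
          ← map_mul, show a * a' = a' * a from congrArg Subtype.val
            (hA.is_comm.comm (⟨a, ha⟩ : A) ⟨a', ha'⟩)]
      let W := Subgroup.normalClosure ((⁅B, B⁆ : Subgroup G) : Set G)
      have hTW : T = W := by
        refine le_antisymm ?_ (Subgroup.normalClosure_le_normal hB'T)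
        let π := QuotientGroup.mk' W
        have hπ : Function.Surjective π := QuotientGroup.mk'_surjective W
        haveI : IsMulCommutative (A.map π) := Subgroup.map_isMulCommutative A π
        haveI : IsMulCommutative (B.map π) := by
          rw [← Subgroup.commutator_self_eq_bot_iff, ← Subgroup.map_commutator, eq_bot_iff,
            Subgroup.map_le_iff_le_comap, MonoidHom.comap_bot, QuotientGroup.ker_mk']
          exact Subgroup.le_normalClosure
        have h2 := Cfsg.Agent.S0572.result (A.map π) (B.map π) (IsFactor.map hAB hπ)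
        rw [← map_derivedSeries_eq (f := π) hπ, Subgroup.map_eq_bot_iff, QuotientGroup.ker_mk'] at h2
        exact h2
      let K := derivedSeries G 3
      haveI : K.Normal := derivedSeries_normal G 3
      let r := QuotientGroup.mk' K
      have hTK : ∀ x ∈ T, ∀ y ∈ T, r x * r y = r y * r x := fun x hx y hy => by
        rw [← commutatorElement_eq_one_iff_mul_comm, ← map_commutatorElement]
        refine (QuotientGroup.eq_one_iff _).2 ?_
        change ⁅x, y⁆ ∈ derivedSeries G (2 + 1)
        rw [derivedSeries_succ]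
        exact Subgroup.commutator_mem_commutator hx hy
      have hAK : ∀ x ∈ A, ∀ y ∈ A, r x * r y = r y * r x := fun x hx y hy => by
        rw [← map_mul, ← map_mul, show x * y = y * x from congrArg Subtype.val
          (hA.is_comm.comm (⟨x, hx⟩ : A) ⟨y, hy⟩)]
      have hcent : ∀ b ∈ B₁, ∀ a ∈ A, ∀ t ∈ T, b = a * t → ∀ x ∈ T, r a * r x = r x * r a := by
        intro b hb a ha t ht hbe
        have hle : W ≤ (Subgroup.centralizer ({r a} : Set (G ⧸ K))).comap r := by
          change Subgroup.closure (Group.conjugatesOfSet ((⁅B, B⁆ : Subgroup G) : Set G)) ≤ _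
          rw [Subgroup.closure_le]
          intro x hx
          obtain ⟨z, hz, hc⟩ := Group.mem_conjugatesOfSet_iff.1 hx
          obtain ⟨g, rfl⟩ := isConj_iff.1 hc
          have hbz : b * z = z * b := Subgroup.mem_centralizer_iff.1 (hB hz) b hb.1
          have haz : r a * r z = r z * r a := by
            have h1 : r a * r t * r z = r z * (r a * r t) := by
              rw [← map_mul, ← map_mul, ← map_mul, ← hbe, hbz]
            rw [mul_assoc, hTK t ht z (hB'T hz), ← mul_assoc, ← mul_assoc] at h1
            exact mul_right_cancel h1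
          obtain ⟨a', ha', b', hb', rfl⟩ := hAB g
          have hb'z : b' * z = z * b' := Subgroup.mem_centralizer_iff.1 (hB hz) b' hb'
          have he' : a' * b' * z * (a' * b')⁻¹ = a' * z * a'⁻¹ := by
            rw [mul_assoc a' b' z, hb'z]; group
          rw [SetLike.mem_coe, Subgroup.mem_comap, he', Subgroup.mem_centralizer_singleton_iff,
            map_mul, map_mul, map_inv]
          have h2 : Commute (r a) (r a' * r z * (r a')⁻¹) :=
            ((show Commute (r a) (r a') from hAK a ha a' ha').mul_right haz).mul_right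
              (show Commute (r a) (r a') from hAK a ha a' ha').inv_right
          exact h2.eq.symm
        intro x hx
        exact (Subgroup.mem_centralizer_singleton_iff.1 (hle (hTW ▸ hx))).symm
      have hB'K : ⁅B, B⁆ ≤ K := by
        rw [← he, Subgroup.commutator_le]
        intro b hb b' hb'
        obtain ⟨a, ha, t, ht, hbe⟩ := hB₁T b hb
        obtain ⟨a', ha', t', ht', hbe'⟩ := hB₁T b' hb'
        rw [← QuotientGroup.eq_one_iff]
        change r ⁅b, b'⁆ = 1
        rw [map_commutatorElement, commutatorElement_eq_one_iff_mul_comm, hbe, hbe', map_mul, map_mul]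
        exact ((show Commute (r a) (r a') from hAK a ha a' ha').mul_right
          (hcent b hb a ha t ht hbe t' ht')).mul_left
            ((show Commute (r a') (r t) from hcent b' hb' a' ha' t' ht' hbe' t ht).symm.mul_right
              (hTK t ht t' ht'))
      -- then `G'' ≤ G'''`
      have hTne : T ≠ ⊥ := fun h => hB1 (le_bot_iff.1 (h ▸ hB'T))
      have h3 : T ≤ K := hTW ▸ Subgroup.normalClosure_le_normal hB'K
      refine absurd h3 (not_le_of_gt ?_)
      change derivedSeries G (2 + 1) < T
      rw [derivedSeries_succ]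
      exact Group.IsSolvable.commutator_lt_of_ne_bot hTne
    -- induction in `H`
    have hmap : ∀ C : Subgroup G, (C ⊓ H).subgroupOf H = C.subgroupOf H := fun C =>
      Subgroup.inf_subgroupOf_right C H
    have hA' : IsMulCommutative (A.subgroupOf H) :=
      ⟨⟨fun x y => Subtype.ext (Subtype.ext (congrArg Subtype.val
        (hA.is_comm.comm (⟨_, x.2⟩ : A) ⟨_, y.2⟩) :))⟩⟩
    have hcomm : (⁅B.subgroupOf H, B.subgroupOf H⁆ : Subgroup H).map H.subtype = ⁅B₁, B₁⁆ := by
      rw [Subgroup.map_commutator, Subgroup.subgroupOf_map_subtype]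
    have hcard : Nat.card (⁅B.subgroupOf H, B.subgroupOf H⁆ : Subgroup H) =
        Nat.card (⁅B₁, B₁⁆ : Subgroup G) := by
      rw [← hcomm, Subgroup.card_map_of_injective H.subtype_injective]
    have hlt' : Nat.card (⁅B₁, B₁⁆ : Subgroup G) < n := by
      rw [← hn]
      refine lt_of_le_of_ne (Nat.le_of_dvd Nat.card_pos (Subgroup.card_dvd_of_le hlt.le)) fun h =>
        hlt.ne (Subgroup.eq_of_le_of_card_ge hlt.le h.ge)
    have hB' : ⁅B.subgroupOf H, B.subgroupOf H⁆ ≤
        Subgroup.centralizer ((B.subgroupOf H : Subgroup H) : Set H) := by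
      intro x hx
      refine Subgroup.mem_centralizer_iff.2 fun y hy => Subtype.ext ?_
      have h1 : (x : G) ∈ ⁅B₁, B₁⁆ := hcomm ▸ ⟨x, hx, rfl⟩
      exact Subgroup.mem_centralizer_iff.1 (hB (hlt.le h1)) y hy
    have hrec := ih _ hlt' H (A.subgroupOf H) (B.subgroupOf H) hA' hB' (fun g => by
      obtain ⟨a, ha, b, hb, he⟩ := hfacH g g.2
      exact ⟨⟨a, ha.2⟩, ha.1, ⟨b, hb.2⟩, hb.1, Subtype.ext he⟩) hcard
    have hlen := primeFactorsList_length_lt (n := n) (hn ▸ Nat.card_pos.ne')
      (hn ▸ Subgroup.card_dvd_of_le hlt.le) hlt'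
    have h4 := derivedSeries_le_map hHT
      (2 * (1 + (Nat.card (⁅B₁, B₁⁆ : Subgroup G)).primeFactorsList.length))
    rw [hrec, Subgroup.map_bot, le_bot_iff] at h4
    refine le_bot_iff.1 (le_trans (derivedSeries_antitone G ?_) h4.le)
    omega

/-- Let the finite group G be the product AB of an abelian subgroup A and a subgroup B of nilpotency class at most two, and let Ω be the number of prime factors, with multiplicity, of the order of the commutator subgroup of B. Then the term of index 2(1 + Ω) of the derived series of G is trivial. -/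
theorem result {G : Type*} [Group G] [Finite G] (A B : Subgroup G) [IsMulCommutative A] (hB : commutator ↥B ≤ Subgroup.center ↥B) (hAB : ∀ g : G, ∃ a ∈ A, ∃ b ∈ B, g = a * b) : derivedSeries G (2 * (1 + (Nat.card ↥(commutator ↥B)).primeFactorsList.length)) = ⊥ := by
  have h1 : (commutator ↥B).map B.subtype = ⁅B, B⁆ := Subgroup.map_subtype_commutator B
  have h2 : Nat.card (⁅B, B⁆ : Subgroup G) = Nat.card ↥(commutator ↥B) := by
    rw [← h1, Subgroup.card_map_of_injective B.subtype_injective]
  refine aux _ G A B inferInstance ?_ hAB h2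
  rw [← h1]
  rintro _ ⟨x, hx, rfl⟩
  refine Subgroup.mem_centralizer_iff.2 fun y hy => ?_
  exact congrArg Subtype.val (Subgroup.mem_center_iff.1 (hB hx) ⟨y, hy⟩)

end Cfsg.Agent.S0574
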