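import Cfsg.Statements.S0576


set_option autoImplicit false
open Cfsg

namespace Cfsg.Agent.S0576

set_option linter.style.haveILetI false

/-- Let H be a normal subgroup of a finite group G with H contained in the Frattini subgroup of G. Then the group of inner automorphisms of H is contained in the Frattini subgroup of the automorphism group of H. -/
theorem result {G : Type*} [Group G] [Finite G] (H : Subgroup G) [H.Normal] (hH : H ≤ frattini G) : (MulAut.conj : ↥H →* MulAut ↥H).range ≤ frattini (MulAut ↥H) := by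
  rw [frattini, Order.radical]
  refine le_iInf₂ fun M hM => ?_
  by_contra hle
  let I : Subgroup (MulAut ↥H) := (MulAut.conj : ↥H →* MulAut ↥H).range
  haveI hI : I.Normal := by
    constructor
    rintro _ ⟨h, rfl⟩ α
    refine ⟨α h, ?_⟩
    ext x
    simp [MulAut.conj_apply]
  have htop : M ⊔ I = ⊤ := hM.2 _ (left_lt_sup.2 hle)
  let φ : G →* MulAut ↥H := MulAut.conjNormal
  have hφ : ∀ h : H, φ (h : G) = MulAut.conj h := fun h => by
    ext x
    simp [φ, MulAut.conjNormal_apply, MulAut.conj_apply]
  have hc : M.comap φ ⊔ H = ⊤ := by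
    rw [eq_top_iff]
    intro g _
    obtain ⟨m, hm, i, ⟨h, rfl⟩, hmi⟩ := Subgroup.mem_sup_of_normal_right.1
      (htop ▸ Subgroup.mem_top (φ g) : φ g ∈ M ⊔ I)
    have h1 : g * (h : G)⁻¹ ∈ M.comap φ := by
      rw [Subgroup.mem_comap, map_mul, map_inv, hφ, ← hmi, mul_inv_cancel_right]
      exact hm
    have := Subgroup.mul_mem_sup h1 h.2
    rwa [inv_mul_cancel_right] at this
  have hct : M.comap φ = ⊤ := frattini_nongenerating
    (top_le_iff.1 (hc ▸ sup_le_sup_left hH _))
  refine hle ?_
  rintro _ ⟨h, rfl⟩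
  rw [← hφ]
  exact Subgroup.mem_comap.1 (hct ▸ Subgroup.mem_top (h : G))

end Cfsg.Agent.S0576
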