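import Cfsg.Statements.S0584
import Cfsg.Agent.Lib.PSolvable.FrattiniFacts

set_option autoImplicit false
open Cfsg

namespace Cfsg.Agent.S0584

set_option linter.style.haveILetI false

/-- Let B ≤ A be normal subgroups of a finite group G with B contained in the Frattini subgroup of G. If A modulo B is nilpotent then A is nilpotent. -/
theorem result {G : Type*} [Group G] [Finite G] (A B : Subgroup G) [A.Normal] [B.Normal] (hBA : B ≤ A) (hB : B ≤ frattini G) (h : Group.IsNilpotent (↥A ⧸ B.subgroupOf A)) : Group.IsNilpotent A := by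
  refine ((Group.isNilpotent_of_finite_tfae (G := A)).out 0 3 rfl rfl).2 ?_
  intro p hp P
  haveI := hp
  haveI := h
  -- the image of `P` in `A ⧸ B` is normal, hence characteristic
  let q := QuotientGroup.mk' (B.subgroupOf A)
  let S := P.mapSurjective (QuotientGroup.mk'_surjective (B.subgroupOf A))
  have hSn : ((S : Subgroup (↥A ⧸ B.subgroupOf A))).Normal :=
    ((Group.isNilpotent_of_finite_tfae (G := ↥A ⧸ B.subgroupOf A)).out 0 3 rfl rfl).1 h p hp S
  let T : Subgroup A := (P : Subgroup A) ⊔ B.subgroupOf A
  have hT : T = (S : Subgroup (↥A ⧸ B.subgroupOf A)).comap q := by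
    change T = ((P : Subgroup A).map q).comap q
    rw [Subgroup.comap_map_eq, QuotientGroup.ker_mk']
  haveI hTn : T.Normal := hT ▸ hSn.comap q
  -- `T` is normal in `G`
  have hTG : (T.map A.subtype).Normal := by
    haveI := Sylow.characteristic_of_normal S hSn
    constructor
    rintro _ ⟨t, ht, rfl⟩ g
    let φ : MulAut A := MulAut.conjNormal g
    have hle : B.subgroupOf A ≤ (B.subgroupOf A).comap φ.toMonoidHom := fun b hb => by
      change g * (b : G) * g⁻¹ ∈ B
      exact ‹B.Normal›.conj_mem _ hb g
    have hB : (B.subgroupOf A).map φ.toMonoidHom = B.subgroupOf A := by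
      refine Subgroup.eq_of_le_of_card_ge (Subgroup.map_le_iff_le_comap.2 hle) ?_
      exact (Subgroup.card_map_of_injective (f := φ.toMonoidHom) φ.injective).ge
    let ψ := QuotientGroup.congr (B.subgroupOf A) (B.subgroupOf A) φ hB
    refine ⟨φ t, ?_, rfl⟩
    rw [hT] at ht ⊢
    have h1 := Subgroup.characteristic_iff_map_eq.1 ‹(S : Subgroup _).Characteristic› ψ
    change q (φ t) ∈ (S : Subgroup (↥A ⧸ B.subgroupOf A))
    rw [← h1]
    exact ⟨q t, ht, rfl⟩
  -- Frattini argument
  haveI := hTG
  haveI : Finite (Sylow p (T.map A.subtype : Subgroup G)) := inferInstance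
  let P' := (P : Subgroup A).map A.subtype
  have hP'T : P' ≤ T.map A.subtype := Subgroup.map_mono le_sup_left
  have hP'card : Nat.card P' = p ^ (Nat.card A).factorization p := by
    rw [Subgroup.card_map_of_injective A.subtype_injective, P.card_eq_multiplicity]
  let R : Sylow p (T.map A.subtype : Subgroup G) := by
    refine Sylow.ofCard (P'.subgroupOf (T.map A.subtype)) ?_
    rw [Nat.card_congr (Subgroup.subgroupOfEquivOfLe hP'T).toEquiv, hP'card]
    refine congrArg (p ^ ·) (le_antisymm ?_ ?_)
    · have h1 : p ^ (Nat.card A).factorization p ∣ Nat.card ↥(T.map A.subtype) :=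
        hP'card ▸ Subgroup.card_dvd_of_le hP'T
      exact (hp.out.pow_dvd_iff_le_factorization Nat.card_pos.ne').1 h1
    · exact (Nat.factorization_le_iff_dvd Nat.card_pos.ne' Nat.card_pos.ne').2
        (Subgroup.card_dvd_of_le (Subgroup.map_subtype_le T)) p
  have hfrat := Sylow.normalizer_sup_eq_top R
  have hR : (R : Subgroup (T.map A.subtype : Subgroup G)).map (T.map A.subtype).subtype = P' :=
    Subgroup.map_subgroupOf_eq_of_le hP'T
  rw [hR] at hfrat
  have hN : Subgroup.normalizer (P' : Set G) = ⊤ := by
    refine frattini_nongenerating (top_le_iff.1 (hfrat ▸ sup_le le_sup_left ?_))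
    rw [Subgroup.map_sup, Subgroup.map_subgroupOf_eq_of_le hBA]
    exact sup_le (le_sup_of_le_left Subgroup.le_normalizer) (le_sup_of_le_right hB)
  haveI : P'.Normal := Subgroup.normalizer_eq_top_iff.1 hN
  exact Subgroup.Normal.of_map_subtype ‹P'.Normal›

end Cfsg.Agent.S0584
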