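import Cfsg.Statements.S0577
import Cfsg.Agent.Lib.SolvableStructure.MinimalNonNilpotent
import Cfsg.Agent.Lib.PSolvable.FrattiniFacts
import Cfsg.Agent.S0584
import Cfsg.Agent.Lib.PSolvable.Products
import Cfsg.Agent.Lib.PGroups.Frattini

set_option autoImplicit false
open Cfsg
open scoped commutatorElement Pointwise

namespace Cfsg.Agent.S0577

set_option linter.style.haveILetI false

/-- Let G be a finite minimal non-nilpotent group and Q a normal Sylow q-subgroup of G, and let D be the commutator subgroup of Q regarded in G (a normal subgroup). Then G modulo D is non-abelian and all its proper subgroups are abelian. -/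
theorem result {G : Type*} [Group G] [Finite G] (hG : Cfsg.IsMinimalNonNilpotent G) (q : ℕ) [Fact q.Prime] (hq : q ∣ Nat.card G) (Q : Sylow q G) (hQ : (Q : Subgroup G).Normal) (D : Subgroup G) [D.Normal] (hD : D = (commutator ↥(Q : Subgroup G)).map (Q : Subgroup G).subtype) : ¬ IsMulCommutative (G ⧸ D) ∧ ∀ K : Subgroup (G ⧸ D), K ≠ ⊤ → IsMulCommutative K := by
  obtain ⟨p, r, hp, hr, hpr, P, R, hPc, hRn, hPR, hnc⟩ := CfsgLib.SolvableStructure.schmidt hG
  haveI := Fact.mk hp
  haveI := Fact.mk hr
  have hrq : r = q := by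
    by_contra hrq
    -- then `q = p`, and both Sylow subgroups are normal
    have hcard : Nat.card G ∣ Nat.card P * Nat.card R := by
      have h := CfsgLib.PSolvable.card_mul_mul_card_inf (P : Subgroup G) (R : Subgroup G)
      have hd : (P : Subgroup G) ⊓ R = ⊥ :=
        disjoint_iff.1 (IsPGroup.disjoint_of_ne p r hpr _ _ P.isPGroup' R.isPGroup')
      have hU : ((P : Subgroup G) : Set G) * ((R : Subgroup G) : Set G) = Set.univ := by
        rw [← Subgroup.mul_normal, hPR, Subgroup.coe_top]
      rw [hd, hU, Nat.card_univ, Subgroup.card_bot, mul_one] at h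
      exact h.dvd
    have hqp : q = p := by
      obtain ⟨a, ha⟩ := IsPGroup.iff_card.1 P.isPGroup'
      obtain ⟨b, hb⟩ := IsPGroup.iff_card.1 R.isPGroup'
      have := hq.trans hcard
      rw [ha, hb] at this
      rcases (Fact.out : q.Prime).dvd_mul.1 this with h | h
      · exact (Nat.prime_dvd_prime_iff_eq Fact.out hp).1 ((Fact.out : q.Prime).dvd_of_dvd_pow h)
      · exact absurd ((Nat.prime_dvd_prime_iff_eq Fact.out hr).1 ((Fact.out : q.Prime).dvd_of_dvd_pow h))
          (Ne.symm hrq)
    subst hqp
    obtain ⟨g, hg⟩ := MulAction.exists_smul_eq G Q P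
    have hPn : (P : Subgroup G).Normal := by
      rw [← hg, Sylow.coe_subgroup_smul]
      exact Subgroup.Normal.map hQ (MulAut.conj g).toMonoidHom (MulAut.conj g).surjective
    exact hnc fun x hx => Subgroup.mem_centralizer_iff.2 fun y hy =>
      ((Subgroup.commute_of_normal_of_disjoint (P : Subgroup G) (R : Subgroup G) hPn hRn
        (IsPGroup.disjoint_of_ne _ r hpr _ _ P.isPGroup' R.isPGroup') x y hx hy).eq).symm
  subst hrq
  have hRQ : (R : Subgroup G) = Q := by
    haveI := Sylow.unique_of_normal Q hQ
    rw [Subsingleton.elim R Q]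
  rw [hRQ] at hPR
  haveI := hQ
  have hDQ : D ≤ (Q : Subgroup G) := hD ▸ Subgroup.map_subtype_le _
  have hDΦ : D ≤ frattini G := by
    refine le_trans ?_ (CfsgLib.PSolvable.map_frattini_le_frattini (Q : Subgroup G))
    rw [hD]
    exact Subgroup.map_mono (CfsgLib.PGroups.commutator_le_frattini Q.isPGroup')
  refine ⟨fun hab => hG.1 ?_, fun K hK => ?_⟩
  · haveI : IsMulCommutative (G ⧸ D) := hab
    have h := Cfsg.Agent.S0584.result (⊤ : Subgroup G) D le_top hDΦ (by
      letI : CommGroup (↥(⊤ : Subgroup G) ⧸ D.subgroupOf ⊤) :=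
        { (inferInstance : Group (↥(⊤ : Subgroup G) ⧸ D.subgroupOf ⊤)) with
          mul_comm := fun x y => by
            induction x using QuotientGroup.induction_on with
            | H x =>
              induction y using QuotientGroup.induction_on with
              | H y =>
                rw [← QuotientGroup.mk_mul, ← QuotientGroup.mk_mul, QuotientGroup.eq]
                change ((x : G) * y)⁻¹ * ((y : G) * x) ∈ D
                rw [← QuotientGroup.eq, QuotientGroup.mk_mul, QuotientGroup.mk_mul]
                exact hab.is_comm.comm _ _ }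
      infer_instance)
    exact Group.nilpotent_of_mulEquiv Subgroup.topEquiv
  · let π := QuotientGroup.mk' D
    have hπ : Function.Surjective π := QuotientGroup.mk'_surjective D
    have hne : K.comap π ≠ ⊤ := fun h => hK (by
      rw [← Subgroup.map_comap_eq_self_of_surjective hπ K, h, Subgroup.map_top_of_surjective _ hπ])
    haveI := hG.2 _ hne
    haveI hKn : Group.IsNilpotent K := Group.nilpotent_of_surjective (π.subgroupComap K)
      (π.subgroupComap_surjective_of_surjective K hπ)
    -- images of the two Sylow subgroups are abelian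
    let Q' := Q.mapSurjective hπ
    let P' := P.mapSurjective hπ
    have hQ' : ∀ a ∈ (Q : Subgroup G), ∀ b ∈ (Q : Subgroup G), π a * π b = π b * π a := by
      intro a ha b hb
      have h1 : ⁅a, b⁆ ∈ D := by
        rw [hD]
        exact ⟨⁅(⟨a, ha⟩ : ↥(Q : Subgroup G)), ⟨b, hb⟩⁆, Subgroup.commutator_mem_commutator
          (Subgroup.mem_top _) (Subgroup.mem_top _), rfl⟩
      rw [← commutatorElement_eq_one_iff_mul_comm, ← map_commutatorElement]
      exact (QuotientGroup.eq_one_iff _).2 h1
    have habel : ∀ (s : ℕ) [Fact s.Prime] (S : Sylow s K), IsMulCommutative S := by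
      intro s _ S
      refine ⟨⟨fun u v => ?_⟩⟩
      apply Subtype.ext; apply Subtype.ext
      let X := (S : Subgroup K).map K.subtype
      have hX : IsPGroup s X := S.isPGroup'.map _
      obtain ⟨T, hT⟩ := hX.exists_le_sylow
      have hu : ((u : K) : G ⧸ D) ∈ (T : Subgroup (G ⧸ D)) := hT ⟨u, u.2, rfl⟩
      have hv : ((v : K) : G ⧸ D) ∈ (T : Subgroup (G ⧸ D)) := hT ⟨v, v.2, rfl⟩
      by_cases hsq : s = r
      · subst hsq
        haveI := Sylow.unique_of_normal Q' (Subgroup.Normal.map hQ π hπ)
        have hTQ : (T : Subgroup (G ⧸ D)) = (Q : Subgroup G).map π := by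
          rw [Subsingleton.elim T Q']
          rfl
        rw [hTQ] at hu hv
        obtain ⟨a, ha, hau⟩ := hu
        obtain ⟨b, hb, hbv⟩ := hv
        push_cast
        rw [← hau, ← hbv]
        exact hQ' a ha b hb
      by_cases hsp : s = p
      · subst hsp
        obtain ⟨g, hg⟩ := MulAction.exists_smul_eq (G ⧸ D) P' T
        rw [← hg, Sylow.coe_subgroup_smul] at hu hv
        obtain ⟨a, ⟨a', ha', rfl⟩, hau⟩ := hu
        obtain ⟨b, ⟨b', hb', rfl⟩, hbv⟩ := hv
        have hc : a' * b' = b' * a' := congrArg Subtype.val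
          ((hPc.commGroup).mul_comm (⟨a', ha'⟩ : ↥(P : Subgroup G)) ⟨b', hb'⟩)
        have h1 : π a' * π b' = π b' * π a' := by rw [← map_mul, ← map_mul, hc]
        push_cast
        rw [← hau, ← hbv]
        change MulAut.conj g (π a') * MulAut.conj g (π b') = MulAut.conj g (π b') * MulAut.conj g (π a')
        rw [← map_mul (MulAut.conj g), ← map_mul (MulAut.conj g), h1]
      · -- `S` is trivial
        obtain ⟨k, hk⟩ := IsPGroup.iff_orderOf.1 S.isPGroup' u
        have hk0 : k = 0 := by
          by_contra hk0
          have hd : s ∣ Nat.card G := by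
            refine ((dvd_pow_self s hk0).trans (hk ▸ orderOf_dvd_natCard u)).trans ?_
            exact (Subgroup.card_subgroup_dvd_card _).trans
              ((Subgroup.card_subgroup_dvd_card K).trans
                (Subgroup.card_quotient_dvd_card D))
          obtain ⟨a, ha⟩ := IsPGroup.iff_card.1 P.isPGroup'
          obtain ⟨b, hb⟩ := IsPGroup.iff_card.1 Q.isPGroup'
          have h := CfsgLib.PSolvable.card_mul_mul_card_inf (P : Subgroup G) (Q : Subgroup G)
          rw [← Subgroup.mul_normal, hPR, Subgroup.coe_top, Nat.card_univ] at h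
          have h2 : s ∣ p ^ a * r ^ b := by
            rw [← ha, ← hb, ← h]
            exact dvd_mul_of_dvd_left hd _
          rcases (Fact.out : s.Prime).dvd_mul.1 h2 with h | h
          · exact hsp ((Nat.prime_dvd_prime_iff_eq Fact.out hp).1 ((Fact.out : s.Prime).dvd_of_dvd_pow h))
          · exact hsq ((Nat.prime_dvd_prime_iff_eq Fact.out hr).1 ((Fact.out : s.Prime).dvd_of_dvd_pow h))
        rw [hk0, pow_zero, orderOf_eq_one_iff] at hk
        rw [hk]; simp
    obtain ⟨e⟩ := ((Group.isNilpotent_of_finite_tfae (G := K)).out 0 4 rfl rfl).1 hKn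
    refine ⟨⟨fun a b => e.symm.injective ?_⟩⟩
    rw [map_mul, map_mul]
    funext s S
    haveI : Fact (Nat.Prime s) := ⟨Nat.prime_of_mem_primeFactors s.2⟩
    exact ((habel s S).is_comm.comm _ _)

end Cfsg.Agent.S0577
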