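import Cfsg.Statements.S0578
import Mathlib

set_option autoImplicit false
open Cfsg

namespace Cfsg.Agent.S0578

universe u

theorem aux (n : ℕ) : ∀ (G : Type u) [Group G] [Finite G], Nat.card G = n →
    (∀ A : Subgroup G, IsMulCommutative A →
      Subgroup.normalizer (A : Set G) = Subgroup.centralizer (A : Set G)) →
    ∀ (p : ℕ) [Fact p.Prime] (P : Sylow p G), IsMulCommutative (P : Subgroup G) := by
  intro G _ _ _ h p _ P
  -- the centre of `P`, and above it a larger abelian normal subgroup unless `P` is abelian
  by_contra hP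
  let Z : Subgroup G := (Subgroup.center (P : Subgroup G)).map (P : Subgroup G).subtype
  have hq : Subgroup.center (P : Subgroup G) ≠ ⊤ := fun ht => hP ⟨⟨fun a b => by
    have hb : b ∈ Subgroup.center (P : Subgroup G) := by rw [ht]; trivial
    exact Subgroup.mem_center_iff.1 hb a⟩⟩
  haveI : Nontrivial ((P : Subgroup G) ⧸ Subgroup.center (P : Subgroup G)) :=
    QuotientGroup.nontrivial_iff.2 hq
  haveI := (P.2.to_quotient (Subgroup.center (P : Subgroup G))).center_nontrivial
  obtain ⟨c, hc⟩ := exists_ne (1 : Subgroup.center ((P : Subgroup G) ⧸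
    Subgroup.center (P : Subgroup G)))
  obtain ⟨a, ha⟩ := QuotientGroup.mk'_surjective _ (c : (P : Subgroup G) ⧸ Subgroup.center (P : Subgroup G))
  let B : Subgroup (P : Subgroup G) :=
    Subgroup.center (P : Subgroup G) ⊔ Subgroup.zpowers a
  let A : Subgroup G := B.map (P : Subgroup G).subtype
  haveI hBn : B.Normal := by
    have hB : B = (Subgroup.zpowers (QuotientGroup.mk' (Subgroup.center (P : Subgroup G)) a)).comap
        (QuotientGroup.mk' _) := by
      rw [← MonoidHom.map_zpowers, Subgroup.comap_map_eq, QuotientGroup.ker_mk', sup_comm]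
    have hz : (Subgroup.zpowers (QuotientGroup.mk' (Subgroup.center (P : Subgroup G)) a)).Normal := by
      constructor
      intro x hx g
      have hxc : x ∈ Subgroup.center _ := (Subgroup.zpowers_le.2 (ha ▸ c.2)) hx
      rw [Subgroup.mem_center_iff.1 hxc g, mul_inv_cancel_right]
      exact hx
    rw [hB]
    exact hz.comap _
  have hBcomm : ∀ x ∈ B, ∀ y ∈ B, x * y = y * x := by
    have hZc : ∀ x ∈ Subgroup.center (P : Subgroup G), ∀ y, y * x = x * y :=
      fun x hx y => Subgroup.mem_center_iff.1 hx y
    intro x hx y hy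
    rw [Subgroup.mem_sup_of_normal_left] at hx hy
    obtain ⟨u, hu, _, ⟨i, rfl⟩, rfl⟩ := hx
    obtain ⟨v, hv, _, ⟨j, rfl⟩, rfl⟩ := hy
    have e1 : Commute u v := (hZc v hv u : u * v = v * u)
    have e2 : Commute u (a ^ j) := (hZc u hu (a ^ j)).symm
    have e3 : Commute (a ^ i) v := hZc v hv (a ^ i)
    exact ((e1.mul_right e2).mul_left (e3.mul_right (Commute.zpow_zpow_self a i j)))
  have hA : IsMulCommutative A := by
    refine ⟨⟨?_⟩⟩
    rintro ⟨_, x, hx, rfl⟩ ⟨_, y, hy, rfl⟩
    exact Subtype.ext (congrArg Subtype.val (hBcomm x hx y hy) : (x : G) * (y : G) = y * x)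
  have hnc := h A hA
  -- so `P` centralizes `a`
  apply hc
  have haz : a ∈ Subgroup.center (P : Subgroup G) := by
    rw [Subgroup.mem_center_iff]
    intro y
    have hy : (y : G) ∈ Subgroup.normalizer (A : Set G) := by
      have : (Subgroup.normalizer (B : Set (P : Subgroup G))).map (P : Subgroup G).subtype ≤
          Subgroup.normalizer (A : Set G) := Subgroup.le_normalizer_map _
      exact this ⟨y, by rw [Subgroup.normalizer_eq_top]; trivial, rfl⟩
    rw [hnc] at hy
    exact Subtype.ext (Subgroup.mem_centralizer_iff.1 hy (a : G)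
      ⟨a, Subgroup.mem_sup_right (Subgroup.mem_zpowers a), rfl⟩).symm
  apply Subtype.ext
  rw [← ha]
  exact (QuotientGroup.eq_one_iff a).2 haz

/-- If in a finite group the normalizer of each abelian subgroup coincides with its centralizer, then the group is abelian. -/
theorem result {G : Type*} [Group G] [Finite G] (h : ∀ A : Subgroup G, IsMulCommutative A → Subgroup.normalizer (A : Set G) = Subgroup.centralizer (A : Set G)) : IsMulCommutative G := by
  -- every Sylow subgroup is abelian and central in its normalizer, so Burnside applies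
  have hab := fun (p : ℕ) (hp : Fact p.Prime) (P : Sylow p G) => aux (Nat.card G) G rfl h p P
  have hker : ∀ (p : ℕ) [Fact p.Prime] (P : Sylow p G),
      Subgroup.normalizer ((P : Subgroup G) : Set G) ≤
        Subgroup.centralizer ((P : Subgroup G) : Set G) := fun p _ P =>
    (h _ (hab p ‹_› P)).le
  refine ⟨⟨fun a b => ?_⟩⟩
  have hcomm : ∀ g ∈ commutator G, g = 1 := by
    intro g hg
    by_contra hg1
    have hne : Nat.card (commutator G) ≠ 1 := by
      rw [Ne, Subgroup.card_eq_one]
      intro hb
      exact hg1 (Subgroup.mem_bot.1 (hb ▸ hg))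
    obtain ⟨p, hp, hpd⟩ := Nat.exists_prime_and_dvd hne
    haveI : Fact p.Prime := ⟨hp⟩
    obtain ⟨P⟩ : Nonempty (Sylow p G) := inferInstance
    haveI := hab p ⟨hp⟩ P
    have hle : commutator G ≤ (MonoidHom.transferSylow P (hker p P)).ker := by
      rw [commutator_def, Subgroup.commutator_le]
      intro x _ y _
      rw [MonoidHom.mem_ker, map_commutatorElement]
      apply commutatorElement_eq_one_iff_mul_comm.2
      exact Std.Commutative.comm _ _
    exact MonoidHom.not_dvd_card_ker_transferSylow P (hker p P)
      (hpd.trans (Subgroup.card_dvd_of_le hle))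
  exact commutatorElement_eq_one_iff_mul_comm.1
    (hcomm _ (Subgroup.commutator_mem_commutator (Subgroup.mem_top a) (Subgroup.mem_top b)))

end Cfsg.Agent.S0578
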