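import Cfsg.Statements.S0579
import Cfsg.Agent.Lib.PSolvable.PrimeIndex
import Cfsg.Agent.Lib.PSolvable.FrattiniFacts
import Cfsg.Agent.Lib.PSolvable.HallHigman
import Cfsg.Agent.Lib.NormalComplements.Gaschutz
import Cfsg.Agent.Lib.SolvableStructure.MinimalNormal
import Cfsg.Agent.Lib.PGroups.Frattini
import Cfsg.Agent.Lib.Cores.MinimalNormal

set_option autoImplicit false
open Cfsg
open scoped commutatorElement

namespace Cfsg.Agent.S0579

set_option linter.style.haveILetI false

set_option maxHeartbeats 1000000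

open CfsgLib.PSolvable in
theorem aux.{u} : ∀ (n : ℕ) (G : Type u) [Group G] [Finite G], Nat.card G = n →
    (∀ M : Subgroup G, IsCoatom M → M.index.Prime) → Cfsg.IsSupersolvable G := by
  intro n
  induction n using Nat.strong_induction_on with
  | _ n ih =>
    intro G _ _ hn h
    rcases subsingleton_or_nontrivial G with hs | hs
    · exact CfsgLib.Supersolvable.of_subsingleton
    haveI := isSolvable_of_maximal_prime_index h
    have hquot : ∀ (X : Subgroup G) [X.Normal], X ≠ ⊥ → Cfsg.IsSupersolvable (G ⧸ X) :=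
      fun X _ hX => ih _ (hn ▸ CfsgLib.Supersolvable.card_quotient_lt X hX) _ rfl
        (maximal_prime_index_quotient h X)
    obtain ⟨N, -, hNn, hNb, hNmin⟩ := CfsgLib.SolvableStructure.exists_minimal_normal
      (G := G) (N := ⊤) inferInstance top_ne_bot
    haveI := hNn
    have hQ := hquot N hNb
    by_cases huniq : ∃ X : Subgroup G, X.Normal ∧ X ≠ ⊥ ∧ ¬ N ≤ X
    · obtain ⟨X, hX, hXb, hNX⟩ := huniq
      haveI := hX
      have hd : N ⊓ X = ⊥ := (hNmin _ inferInstance inf_le_left).resolve_right
        fun he => hNX (inf_eq_left.1 he)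
      refine CfsgLib.Supersolvable.of_injective
        (f := (QuotientGroup.mk' N).prod (QuotientGroup.mk' X)) ?_
        (CfsgLib.Supersolvable.prod hQ (hquot X hXb))
      rw [← MonoidHom.ker_eq_bot_iff, MonoidHom.ker_prod, QuotientGroup.ker_mk',
        QuotientGroup.ker_mk', hd]
    push Not at huniq
    obtain ⟨p, d, hp, hd, hNc, hNexp, hNab⟩ :=
      CfsgLib.SolvableStructure.minimal_normal_prime hNb hNmin
    haveI := hNab
    haveI := Fact.mk hp
    by_cases hΦ : ∃ M : Subgroup G, IsCoatom M ∧ ¬ N ≤ M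
    · obtain ⟨M, hM, hNM⟩ := hΦ
      have htop : N ⊔ M = ⊤ := hM.2 _ (right_lt_sup.2 hNM)
      have hc := CfsgLib.Cores.isComplement'_of_minimal_normal_of_isCoatom
        (N := N) (M := M) hNmin hM hNM
      have hpr : (Nat.card N).Prime := by
        have := h M hM
        rwa [Subgroup.IsComplement'.index_eq_card hc] at this
      haveI := CfsgLib.Supersolvable.isCyclic_of_prime hpr
      exact CfsgLib.Supersolvable.of_quotient_cyclic N hQ
    push Not at hΦ
    have hNΦ : N ≤ frattini G := le_iInf₂ fun M hM => hΦ M hM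
    -- the Sylow subgroup for the largest prime
    obtain ⟨r, hr, hrd, hmax⟩ : ∃ r, r.Prime ∧ r ∣ Nat.card G ∧
        ∀ q : ℕ, q.Prime → q ∣ Nat.card G → q ≤ r := by
      have hne : (Nat.card G).primeFactors.Nonempty :=
        Nat.nonempty_primeFactors.mpr Finite.one_lt_card
      obtain ⟨h1, h2, -⟩ := Nat.mem_primeFactors.mp ((Nat.card G).primeFactors.max'_mem hne)
      exact ⟨_, h1, h2, fun q hq hqd =>
        Finset.le_max' _ _ (Nat.mem_primeFactors.mpr ⟨hq, hqd, Nat.card_pos.ne'⟩)⟩
    haveI := Fact.mk hr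
    obtain ⟨P⟩ := (inferInstance : Nonempty (Sylow r G))
    haveI hPn := normal_sylow_of_maximal_prime_index h r hmax P
    have hPb : (P : Subgroup G) ≠ ⊥ := P.ne_bot_of_dvd_card hrd
    have hNP : N ≤ (P : Subgroup G) := huniq _ hPn hPb
    have hrp : r = p := by
      have h1 : p ∣ Nat.card (P : Subgroup G) :=
        (dvd_pow_self p hd.ne').trans (hNc ▸ Subgroup.card_dvd_of_le hNP)
      obtain ⟨a, ha⟩ := IsPGroup.iff_card.1 P.isPGroup'
      rw [ha] at h1
      exact ((Nat.prime_dvd_prime_iff_eq hp hr).1 (hp.dvd_of_dvd_pow h1)).symm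
    subst hrp
    -- `C(P) ≤ P`
    have hcore : Cfsg.pPrimeCore r G = ⊥ := by
      by_contra hb
      have h1 := Subgroup.card_dvd_of_le (huniq _ inferInstance hb)
      rw [hNc] at h1
      exact CfsgLib.Cores.not_dvd_card_pPrimeCore ((dvd_pow_self r hd.ne').trans h1)
    have hPcore : Cfsg.pCore r G = P := CfsgLib.Cores.pCore_eq_sylow_of_normal P
    have hCP : Subgroup.centralizer ((P : Subgroup G) : Set G) ≤ P := by
      have := centralizer_pCore_le (isPSolvable_of_isSolvable (p := r) (G := G)) hcore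
      rwa [hPcore] at this
    -- `N ≤ Φ(P)`
    let Φ : Subgroup G := (frattini (P : Subgroup G)).map (P : Subgroup G).subtype
    have hΦP : Φ ≤ P := Subgroup.map_subtype_le _
    haveI : Group.IsNilpotent (P : Subgroup G) := P.isPGroup'.isNilpotent
    have hPindex : ((P : Subgroup G)).index.Coprime r :=
      (hr.coprime_iff_not_dvd.2 P.not_dvd_index).symm
    have hΦb : Φ ≠ ⊥ := by
      intro hb
      have hfr : frattini (P : Subgroup G) = ⊥ :=
        (Subgroup.map_eq_bot_iff_of_injective _ (P : Subgroup G).subtype_injective).1 hb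
      haveI : IsMulCommutative (N.subgroupOf P) :=
        ⟨⟨fun a b => Subtype.ext (Subtype.ext
          (CfsgLib.SolvableStructure.commute_of_isMulCommutative (A := N) a.2 b.2))⟩⟩
      haveI : (N.subgroupOf P).Normal := hNn.subgroupOf _
      obtain ⟨K, hK⟩ := exists_isComplement'_of_frattini_eq_bot hfr (N.subgroupOf P)
      obtain ⟨M, hM⟩ := CfsgLib.NormalComplements.exists_isComplement'_of_coprime_index N P
        (K.map (P : Subgroup G).subtype) hNab hNP (Subgroup.map_subtype_le _) (by
          rw [← Subgroup.map_subgroupOf_eq_of_le hNP,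
            ← Subgroup.map_inf _ _ _ (P : Subgroup G).subtype_injective, inf_comm,
            disjoint_iff.1 hK.disjoint, Subgroup.map_bot]) (by
          have h2 : N.subgroupOf P ⊔ K = ⊤ := hK.sup_eq_top
          have h3 := congrArg (Subgroup.map (P : Subgroup G).subtype) h2
          rw [Subgroup.map_sup, Subgroup.map_subgroupOf_eq_of_le hNP, ← MonoidHom.range_eq_map,
            Subgroup.range_subtype, sup_comm] at h3
          exact h3.ge) (by rw [hNc]; exact (hPindex.symm).pow_left d)
      have hMtop : M = ⊤ := frattini_nongenerating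
        (top_le_iff.1 (hM.sup_eq_top ▸ sup_le_sup_left hNΦ M))
      have h4 := hM.disjoint
      rw [hMtop, disjoint_iff, top_inf_eq] at h4
      exact hNb h4
    haveI : Φ.Normal := ConjAct.normal_of_characteristic_of_normal
    have hNPhi : N ≤ Φ := huniq _ inferInstance hΦb
    let q := QuotientGroup.mk' Φ
    have hq : Function.Surjective q := QuotientGroup.mk'_surjective Φ
    have hKs : Cfsg.IsSupersolvable (G ⧸ Φ) :=
      CfsgLib.Supersolvable.map (f := QuotientGroup.map N Φ (MonoidHom.id G) hNPhi) (fun x => by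
        obtain ⟨g, rfl⟩ := hq x
        exact ⟨(g : G ⧸ N), rfl⟩) hQ
    let V := (P : Subgroup G).map q
    haveI : V.Normal := hPn.map q hq
    have hV : ∀ v ∈ V, v ^ r = 1 := by
      rintro _ ⟨u, hu, rfl⟩
      rw [← map_pow]
      exact (QuotientGroup.eq_one_iff _).2
        ⟨(⟨u, hu⟩ : (P : Subgroup G)) ^ r, CfsgLib.PGroups.pow_mem_frattini P.isPGroup' _, rfl⟩
    -- a `p'`-element fixing all chief factors below `P` is trivial
    have hkey : ∀ y : G, (orderOf y).Coprime r →
        (∀ (A : Subgroup (G ⧸ Φ)) [A.Normal] (C : Subgroup ((G ⧸ Φ) ⧸ A)) [C.Normal],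
          Nat.card C ∣ r →
          ((q y : G ⧸ Φ) : (G ⧸ Φ) ⧸ A) ∈ Subgroup.centralizer (C : Set ((G ⧸ Φ) ⧸ A))) →
        y = 1 := by
      intro y hy hfac
      have h1 := mem_centralizer_of_supersolvable hKs V hV
        (hy.coprime_dvd_left (orderOf_map_dvd q y)) hfac
      have h2 : Subgroup.zpowers y ≤ Subgroup.centralizer ((P : Subgroup G) : Set G) := by
        refine CfsgLib.CoprimeAction.le_centralizer_of_frattini
          ((Subgroup.normalizer_eq_top (H := (P : Subgroup G))).symm ▸ le_top) ?_ ?_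
        · obtain ⟨k, hk⟩ := IsPGroup.iff_card.1
            (P.isPGroup'.to_subgroup (frattini (P : Subgroup G)))
          rw [Nat.card_zpowers, hk]
          exact hy.pow_right k
        · intro b hb u hu
          obtain ⟨m, rfl⟩ := Subgroup.mem_zpowers_iff.1 hb
          refine (QuotientGroup.eq_one_iff _).1 ?_
          have h3 : q u * q (y ^ m) = q (y ^ m) * q u := by
            rw [map_zpow]
            exact Subgroup.mem_centralizer_iff.1 (zpow_mem h1 m) _ ⟨u, hu, rfl⟩
          change q (u⁻¹ * (y ^ m * u * (y ^ m)⁻¹)) = 1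
          rw [map_mul, map_mul, map_mul, map_inv, map_inv, ← h3]
          group
      have h4 : y ∈ (P : Subgroup G) := hCP (h2 (Subgroup.mem_zpowers y))
      obtain ⟨k, hk⟩ := IsPGroup.iff_orderOf.1 P.isPGroup' ⟨y, h4⟩
      rw [Subgroup.orderOf_mk] at hk
      rw [← orderOf_eq_one_iff]
      rcases k with _ | k
      · simpa using hk
      · rw [hk, Nat.coprime_pow_left_iff (Nat.succ_pos k), Nat.coprime_self] at hy
        exact absurd hy hr.ne_one
    obtain ⟨H, hH⟩ := Subgroup.exists_right_complement'_of_coprime (N := (P : Subgroup G)) (by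
      obtain ⟨k, hk⟩ := IsPGroup.iff_card.1 P.isPGroup'
      rw [hk]; exact hPindex.symm.pow_left k)
    have hHcop : ∀ x ∈ H, (orderOf x).Coprime r := fun x hx =>
      hPindex.coprime_dvd_left (by
        rw [hH.symm.index_eq_card]
        exact Subgroup.orderOf_dvd_natCard H hx)
    have hpow : ∀ x ∈ H, x ^ (r - 1) = 1 := fun x hx => hkey _
      ((hHcop x hx).coprime_dvd_left (orderOf_pow_dvd _)) fun A _ C _ hC => by
        rw [map_pow, QuotientGroup.mk_pow]
        exact (conj_power_cases hC).1 _
    have hcomm : ∀ x ∈ H, ∀ y ∈ H, x * y = y * x := fun x hx y hy => by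
      rw [← commutatorElement_eq_one_iff_mul_comm]
      refine hkey _ (hHcop _ ?_) fun A _ C _ hC => ?_
      · rw [commutatorElement_def]
        exact mul_mem (mul_mem (mul_mem hx hy) (inv_mem hx)) (inv_mem hy)
      · rw [map_commutatorElement]
        change QuotientGroup.mk' A ⁅q x, q y⁆ ∈ _
        rw [map_commutatorElement]
        exact (conj_power_cases hC).2 _ _
    -- `P` centralizes `N`
    have hPN : ∀ u ∈ (P : Subgroup G), ∀ v ∈ N, v * u = u * v := by
      have hX : N ⊓ Subgroup.centralizer ((P : Subgroup G) : Set G) = N := by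
        refine (hNmin _ inferInstance inf_le_left).resolve_left fun hb => ?_
        haveI : (N.subgroupOf P).Normal := hNn.subgroupOf _
        have hne : N.subgroupOf P ≠ ⊥ := fun h0 => hNb (by
          rw [← Subgroup.map_subgroupOf_eq_of_le hNP, h0, Subgroup.map_bot])
        refine inf_center_ne_bot hne (eq_bot_iff.2 fun z hz => ?_)
        have h1 : (z : G) ∈ N ⊓ Subgroup.centralizer ((P : Subgroup G) : Set G) :=
          ⟨hz.1, Subgroup.mem_centralizer_iff.2 fun u hu =>
            congrArg Subtype.val (Subgroup.mem_center_iff.1 hz.2 ⟨u, hu⟩)⟩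
        rw [hb, Subgroup.mem_bot] at h1
        exact Subgroup.mem_bot.2 (Subtype.ext h1)
      intro u hu v hv
      exact (Subgroup.mem_centralizer_iff.1 (hX.symm.le hv).2 u hu).symm
    have hdec : ∀ g : G, ∃ u ∈ (P : Subgroup G), ∃ x ∈ H, g = u * x := fun g => by
      obtain ⟨⟨u, x⟩, hux⟩ := hH.2 g
      exact ⟨u, u.2, x, x.2, hux.symm⟩
    have hconj : ∀ u ∈ (P : Subgroup G), ∀ x : G, ∀ v ∈ N, u * x * v * (u * x)⁻¹ = x * v * x⁻¹ := by
      intro u hu x v hv
      have h1 := hPN u hu _ (hNn.conj_mem v hv x)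
      calc u * x * v * (u * x)⁻¹ = u * (x * v * x⁻¹) * u⁻¹ := by group
        _ = x * v * x⁻¹ := by rw [← h1]; group
    -- every element of `H` acts on `N` as a power map
    have hscal : ∀ x ∈ H, ∃ m : ℕ, ∀ v ∈ N, x * v * x⁻¹ = v ^ m := by
      intro x hx
      obtain ⟨v, m, hv, hv1, hm⟩ := exists_power_eigenvector (p := r) N hNb hNexp x
        (by rw [hpow x hx]; exact one_mem _)
      let E : Subgroup G :=
        { carrier := {w | w ∈ N ∧ x * w * x⁻¹ = w ^ m}
          one_mem' := ⟨N.one_mem, by simp⟩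
          mul_mem' := fun {a b} ha hb => ⟨N.mul_mem ha.1 hb.1, by
            rw [Commute.mul_pow
              (CfsgLib.SolvableStructure.commute_of_isMulCommutative ha.1 hb.1), ← ha.2, ← hb.2]
            group⟩
          inv_mem' := fun {a} ha => ⟨N.inv_mem ha.1, by rw [inv_pow, ← ha.2]; group⟩ }
      have hE : E.Normal := by
        refine ⟨fun w hw g => ⟨hNn.conj_mem w hw.1 g, ?_⟩⟩
        obtain ⟨u, hu, y, hy, rfl⟩ := hdec g
        rw [hconj u hu y w hw.1, conj_pow, ← hw.2]
        calc x * (y * w * y⁻¹) * x⁻¹ = x * y * w * (x * y)⁻¹ := by group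
          _ = y * x * w * (y * x)⁻¹ := by rw [hcomm x hx y hy]
          _ = y * (x * w * x⁻¹) * y⁻¹ := by group
      have hEN : E = N := (hNmin E hE fun w hw => hw.1).resolve_left fun hb => hv1 (by
        have : v ∈ E := ⟨hv, hm⟩
        rwa [hb, Subgroup.mem_bot] at this)
      exact ⟨m, fun w hw => (hEN.ge hw).2⟩
    obtain ⟨v, hv, hv1⟩ := (Subgroup.bot_or_exists_ne_one N).resolve_left hNb
    have hZn : (Subgroup.zpowers v).Normal := by
      refine ⟨fun w hw g => ?_⟩
      obtain ⟨u, hu, x, hx, rfl⟩ := hdec g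
      obtain ⟨m, hm⟩ := hscal x hx
      have hwN : w ∈ N := (Subgroup.zpowers_le.2 hv) hw
      rw [hconj u hu x w hwN, hm w hwN]
      exact pow_mem hw m
    have hZ : Subgroup.zpowers v = N := (hNmin _ hZn (Subgroup.zpowers_le.2 hv)).resolve_left
      fun hb => hv1 (Subgroup.zpowers_eq_bot.1 hb)
    haveI : IsCyclic N := hZ ▸ (inferInstance : IsCyclic (Subgroup.zpowers v))
    exact CfsgLib.Supersolvable.of_quotient_cyclic N hQ

/-- Huppert's supersolvability criterion: if every maximal subgroup of a finite group has prime index, then the group is supersolvable. -/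
theorem result {G : Type*} [Group G] [Finite G] (h : ∀ M : Subgroup G, IsCoatom M → M.index.Prime) : Cfsg.IsSupersolvable G := by
  exact aux _ G rfl h

end Cfsg.Agent.S0579
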