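import Cfsg.Statements.S0582
import Cfsg.Agent.Lib.PSolvable.PrimeIndex

set_option autoImplicit false
open Pointwise
open Cfsg

namespace Cfsg.Agent.S0582

set_option linter.style.haveILetI false

open Pointwise in
theorem aux.{u} : ∀ (n : ℕ) (G : Type u) [Group G] [Finite G], Nat.card G = n →
    ∀ H K : Subgroup G, Cfsg.IsSupersolvable H → Cfsg.IsSupersolvable K →
      Nat.card H = Nat.card K → (Nat.card H).Coprime H.index → ∃ x : G, MulAut.conj x • H = K := by
  intro n
  induction n using Nat.strong_induction_on with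
  | _ n ih =>
    intro G _ _ hn H K hH hK hcard hHall
    by_cases h1 : Nat.card H = 1
    · refine ⟨1, ?_⟩
      rw [map_one, one_smul, (Subgroup.card_eq_one (H := H)).1 h1, (Subgroup.card_eq_one (H := K)).1 (hcard ▸ h1)]
    obtain ⟨p, hp, hpd, hmax⟩ : ∃ p, p.Prime ∧ p ∣ Nat.card H ∧
        ∀ q : ℕ, q.Prime → q ∣ Nat.card H → q ≤ p := by
      have hne : (Nat.card H).primeFactors.Nonempty :=
        Nat.nonempty_primeFactors.mpr (lt_of_le_of_ne Nat.card_pos (Ne.symm h1))
      obtain ⟨h1, h2, -⟩ := Nat.mem_primeFactors.mp ((Nat.card H).primeFactors.max'_mem hne)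
      exact ⟨_, h1, h2, fun q hq hqd =>
        Finset.le_max' _ _ (Nat.mem_primeFactors.mpr ⟨hq, hqd, Nat.card_pos.ne'⟩)⟩
    haveI := Fact.mk hp
    -- the normal Sylow subgroups
    have key : ∀ L : Subgroup G, Cfsg.IsSupersolvable L → Nat.card L = Nat.card H →
        ∃ Q : Sylow p G, (Q : Subgroup G) ≤ L ∧
          L ≤ Subgroup.normalizer ((Q : Subgroup G) : Set G) := by
      intro L hL hLc
      obtain ⟨S⟩ := (inferInstance : Nonempty (Sylow p L))
      have hSn : (S : Subgroup L).Normal :=
        CfsgLib.PSolvable.normal_sylow_of_maximal_prime_index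
          (fun M hM => CfsgLib.Supersolvable.index_maximal_prime hL hM) p
          (fun q hq hqd => hmax q hq (hLc ▸ hqd)) S
      have hLi : L.index = H.index := by
        have a := L.card_mul_index
        rw [hLc, ← H.card_mul_index] at a
        exact Nat.mul_left_cancel Nat.card_pos a
      have hnd : ¬ p ∣ ((S : Subgroup L).map L.subtype).index := by
        rw [Subgroup.index_map_subtype, hLi]
        intro hd
        rcases hp.dvd_mul.1 hd with h | h
        · exact S.not_dvd_index h
        · exact hp.not_dvd_one ((hHall.gcd_eq_one) ▸ Nat.dvd_gcd hpd h)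
      refine ⟨(S.isPGroup'.map L.subtype).toSylow hnd, Subgroup.map_subtype_le _, ?_⟩
      exact (Subgroup.normal_subgroupOf_iff_le_normalizer (Subgroup.map_subtype_le (S : Subgroup L))).1
        (by rwa [Subgroup.subgroupOf, Subgroup.comap_map_eq_self_of_injective L.subtype_injective])
    obtain ⟨P, hPH, hHP⟩ := key H hH rfl
    obtain ⟨Q, hQK, hKQ⟩ := key K hK hcard.symm
    obtain ⟨g, hg⟩ := MulAction.exists_smul_eq G P Q
    let H' : Subgroup G := MulAut.conj g • H
    have hQH' : (Q : Subgroup G) ≤ H' := by
      rw [← hg, Sylow.coe_subgroup_smul]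
      exact Subgroup.pointwise_smul_le_pointwise_smul_iff.2 hPH
    have hH'Q : H' ≤ Subgroup.normalizer ((Q : Subgroup G) : Set G) := by
      refine (Subgroup.normal_subgroupOf_iff_le_normalizer hQH').1 ⟨fun y hy x => ?_⟩
      rw [Subgroup.mem_subgroupOf, ← hg, Sylow.coe_subgroup_smul,
        Subgroup.mem_pointwise_smul_iff_inv_smul_mem] at hy ⊢
      have hx := Subgroup.mem_pointwise_smul_iff_inv_smul_mem.1 x.2
      simp only [Subgroup.coe_mul, InvMemClass.coe_inv, smul_mul', smul_inv']
      exact (Subgroup.mem_normalizer_iff.1 (hHP hx) _).1 hy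
    let e : H ≃* H' := Subgroup.equivSMul (MulAut.conj g) H
    have hH's : Cfsg.IsSupersolvable H' := CfsgLib.Supersolvable.of_equiv e hH
    have hH'c : Nat.card H' = Nat.card H := Nat.card_congr e.symm.toEquiv
    have hH'i : H'.index = H.index := by
      have a := H'.card_mul_index
      rw [hH'c, ← H.card_mul_index] at a
      exact Nat.mul_left_cancel Nat.card_pos a
    let N := Subgroup.normalizer ((Q : Subgroup G) : Set G)
    let D : Subgroup N := (Q : Subgroup G).subgroupOf N
    haveI : D.Normal := Subgroup.normal_in_normalizer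
    let π : N →* N ⧸ D := QuotientGroup.mk' D
    have hπ : Function.Surjective π := QuotientGroup.mk'_surjective D
    let A := (H'.subgroupOf N).map π
    let B := (K.subgroupOf N).map π
    have hcA : Cfsg.IsSupersolvable A := CfsgLib.Supersolvable.map
      (f := π.subgroupMap (H'.subgroupOf N)) (π.subgroupMap_surjective _)
      (CfsgLib.Supersolvable.of_equiv (Subgroup.subgroupOfEquivOfLe hH'Q).symm hH's)
    have hcB : Cfsg.IsSupersolvable B := CfsgLib.Supersolvable.map
      (f := π.subgroupMap (K.subgroupOf N)) (π.subgroupMap_surjective _)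
      (CfsgLib.Supersolvable.of_equiv (Subgroup.subgroupOfEquivOfLe hKQ).symm hK)
    have hidx : ∀ L : Subgroup N, D ≤ L → (L.map π).index = L.index := fun L hL =>
      Subgroup.index_map_eq _ hπ ((QuotientGroup.ker_mk' D).le.trans hL)
    have hDA : D ≤ H'.subgroupOf N := fun x hx => hQH' hx
    have hDB : D ≤ K.subgroupOf N := fun x hx => hQK hx
    have hab : Nat.card A = Nat.card B := by
      have a := (H'.subgroupOf N).card_mul_index
      have b := (K.subgroupOf N).card_mul_index
      have hcc : Nat.card (H'.subgroupOf N) = Nat.card (K.subgroupOf N) := by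
        rw [Nat.card_congr (Subgroup.subgroupOfEquivOfLe hH'Q).toEquiv,
          Nat.card_congr (Subgroup.subgroupOfEquivOfLe hKQ).toEquiv, hH'c, hcard]
      rw [hcc, ← b] at a
      have hi := Nat.mul_left_cancel Nat.card_pos a
      have a' := A.card_mul_index
      rw [hidx _ hDA, hi, ← hidx _ hDB, ← B.card_mul_index] at a'
      exact Nat.mul_right_cancel (Nat.pos_of_ne_zero B.index_ne_zero_of_finite) a'
    have hcop : (Nat.card A).Coprime A.index := by
      refine Nat.Coprime.coprime_dvd_left ?_ (Nat.Coprime.coprime_dvd_right ?_ hHall)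
      · rw [← hH'c, ← Nat.card_congr (Subgroup.subgroupOfEquivOfLe hH'Q).toEquiv]
        exact Subgroup.card_dvd_of_surjective _ (π.subgroupMap_surjective _)
      · rw [hidx _ hDA, ← hH'i]
        exact Dvd.intro _ (Subgroup.relIndex_mul_index hH'Q)
    have hlt : Nat.card (N ⧸ D) < n := by
      refine (CfsgLib.Supersolvable.card_quotient_lt D ?_).trans_le (hn ▸ N.card_le_card_group)
      intro hb
      have h2 : Nat.card (Q : Subgroup G) = 1 := by
        rw [← Nat.card_congr (Subgroup.subgroupOfEquivOfLe (Subgroup.le_normalizer (H := (Q : Subgroup G)))).toEquiv]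
        exact Subgroup.card_eq_one.2 hb
      exact Q.ne_bot_of_dvd_card (hpd.trans H.card_subgroup_dvd_card) (Subgroup.card_eq_one.1 h2)
    obtain ⟨x, hx⟩ := ih _ hlt _ rfl A B hcA hcB hab hcop
    obtain ⟨x, rfl⟩ := hπ x
    refine ⟨(x : G) * g, ?_⟩
    rw [map_mul, mul_smul]
    have hle : MulAut.conj (x : G) • H' ≤ K := by
      intro y hy
      rw [Subgroup.mem_pointwise_smul_iff_inv_smul_mem] at hy
      have hy' : (x : G)⁻¹ * y * x ∈ H' := by simpa [MulAut.smul_def] using hy
      let w : N := ⟨(x : G)⁻¹ * y * x, hH'Q hy'⟩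
      have h2 : π (x * w * x⁻¹) ∈ B := by
        rw [← hx, Subgroup.mem_pointwise_smul_iff_inv_smul_mem]
        refine ⟨w, hy', ?_⟩
        rw [MulAut.smul_def, ← map_inv, MulAut.conj_apply, map_mul, map_mul, map_inv]
        group
      obtain ⟨z, hz, hzw⟩ := h2
      have h3 : z⁻¹ * (x * w * x⁻¹) ∈ K.subgroupOf N := hDB (QuotientGroup.eq.1 hzw)
      have h4 := (K.subgroupOf N).mul_mem hz h3
      rw [mul_inv_cancel_left, Subgroup.mem_subgroupOf] at h4
      simpa [w, mul_assoc] using h4
    refine Subgroup.eq_of_le_of_card_ge hle ?_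
    rw [Nat.card_congr (Subgroup.equivSMul (MulAut.conj (x : G)) H').symm.toEquiv, hH'c, hcard]

/-- Let H and K be supersolvable subgroups of a finite group G of the same order, that order being coprime to their index. Then H and K are conjugate in G. -/
theorem result {G : Type*} [Group G] [Finite G] (H K : Subgroup G) (hH : Cfsg.IsSupersolvable H) (hK : Cfsg.IsSupersolvable K) (hcard : Nat.card H = Nat.card K) (hHall : (Nat.card H).Coprime H.index) : ∃ x : G, MulAut.conj x • H = K := by
  exact aux _ G rfl H K hH hK hcard hHall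

end Cfsg.Agent.S0582
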