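import Cfsg.Statements.S0583
import Cfsg.Agent.Lib.PSolvable.FrattiniFacts

set_option autoImplicit false
open Cfsg

namespace Cfsg.Agent.S0583

set_option linter.style.haveILetI false

/-- In a finite group the Fitting subgroup is contained in the centralizer of each minimal normal subgroup. -/
theorem result {G : Type*} [Group G] [Finite G] (M : Subgroup G) [M.Normal] (hM : M ≠ ⊥) (hmin : ∀ K : Subgroup G, K.Normal → K ≤ M → K = ⊥ ∨ K = M) : Cfsg.fittingSubgroup G ≤ Subgroup.centralizer (M : Set G) := by
  haveI : (Cfsg.fittingSubgroup G).Normal := CfsgLib.Cores.fittingSubgroup_normal G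
  haveI : Group.IsNilpotent (Cfsg.fittingSubgroup G) := CfsgLib.Cores.isNilpotent_fittingSubgroup
  rcases hmin (M ⊓ Cfsg.fittingSubgroup G) inferInstance inf_le_left with h | h
  · intro f hf
    rw [Subgroup.mem_centralizer_iff]
    intro m hm
    exact (Subgroup.commute_of_normal_of_disjoint M _ inferInstance inferInstance
      (disjoint_iff.2 h) m f hm hf).eq
  · have hMF : M ≤ Cfsg.fittingSubgroup G := inf_eq_left.1 h
    let F := Cfsg.fittingSubgroup G
    let X := (M.subgroupOf F ⊓ Subgroup.center F).map F.subtype
    have hne : M.subgroupOf F ≠ ⊥ := fun hb => hM (by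
      rw [← Subgroup.map_subgroupOf_eq_of_le hMF, hb, Subgroup.map_bot])
    haveI : X.Normal := by
      have h1 : X = M ⊓ (Subgroup.center F).map F.subtype := by
        simp only [X, Subgroup.map_inf _ _ F.subtype F.subtype_injective]
        congr 1
        exact Subgroup.map_subgroupOf_eq_of_le hMF
      rw [h1]
      haveI : ((Subgroup.center F).map F.subtype).Normal :=
        CfsgLib.Cores.normal_map_subtype F _
      infer_instance
    have hXM : X = M := (hmin X inferInstance (by
      rintro _ ⟨y, hy, rfl⟩
      exact hy.1)).resolve_left (by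
        rw [Subgroup.map_eq_bot_iff_of_injective _ F.subtype_injective]
        exact CfsgLib.PSolvable.inf_center_ne_bot hne)
    intro f hf
    rw [Subgroup.mem_centralizer_iff]
    intro m hm
    have hm' : m ∈ X := by rw [hXM]; exact hm
    obtain ⟨y, hy, rfl⟩ := hm'
    exact congrArg Subtype.val ((Subgroup.mem_center_iff.1 hy.2) ⟨f, hf⟩).symm

end Cfsg.Agent.S0583
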