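import Cfsg.Statements.S0586
import Cfsg.Agent.Lib.PSolvable.FrattiniFacts

set_option autoImplicit false
open Cfsg

namespace Cfsg.Agent.S0586

set_option linter.style.haveILetI false

/-- If the Frattini subgroup of a finite group G is trivial, then the Fitting subgroup of G equals the join of all abelian minimal normal subgroups of G. -/
theorem result {G : Type*} [Group G] [Finite G] (hΦ : frattini G = ⊥) : Cfsg.fittingSubgroup G = sSup {N : Subgroup G | N.Normal ∧ N ≠ ⊥ ∧ IsMulCommutative N ∧ ∀ K : Subgroup G, K.Normal → K ≤ N → K = ⊥ ∨ K = N} := by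
  set S : Subgroup G := sSup {N : Subgroup G | N.Normal ∧ N ≠ ⊥ ∧ IsMulCommutative N ∧
    ∀ K : Subgroup G, K.Normal → K ≤ N → K = ⊥ ∨ K = N} with hS
  have hSF : S ≤ Cfsg.fittingSubgroup G := sSup_le fun N hN => by
    haveI := hN.1
    haveI := hN.2.2.1
    exact CfsgLib.Cores.le_fittingSubgroup
      (by open scoped IsMulCommutative in infer_instance)
  refine le_antisymm ?_ hSF
  let F := Cfsg.fittingSubgroup G
  haveI hFn : F.Normal := CfsgLib.Cores.fittingSubgroup_normal G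
  haveI hFc : IsMulCommutative F :=
    CfsgLib.PSolvable.isMulCommutative_of_isNilpotent_normal hΦ F
      CfsgLib.Cores.isNilpotent_fittingSubgroup
  haveI hSn : S.Normal := Subgroup.sSup_normal _ fun N hN => hN.1
  have hFcomm : ∀ a ∈ F, ∀ b ∈ F, a * b = b * a := fun a ha b hb =>
    congrArg Subtype.val (IsMulCommutative.is_comm.comm (⟨a, ha⟩ : F) ⟨b, hb⟩)
  haveI : IsMulCommutative S :=
    ⟨⟨fun a b => Subtype.ext (hFcomm _ (hSF a.2) _ (hSF b.2))⟩⟩
  obtain ⟨H, hH⟩ := CfsgLib.PSolvable.exists_isComplement'_of_frattini_eq_bot hΦ S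
  haveI hXn : (F ⊓ H).Normal := by
    refine CfsgLib.PSolvable.normal_of_sup_eq_top hH.sup_eq_top ?_ ?_
    · refine CfsgLib.PSolvable.le_normalizer_of_le_centralizer fun s hs => ?_
      exact Subgroup.mem_centralizer_iff.2 fun x hx => hFcomm x hx.1 s (hSF hs)
    · exact CfsgLib.PSolvable.le_normalizer_inf_of_le (by rw [Subgroup.normalizer_eq_top]; exact le_top)
        le_rfl
  have hX : F ⊓ H = ⊥ := by
    by_contra hne
    obtain ⟨N, hN, hmin⟩ := Set.Finite.exists_minimal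
      (s := {N : Subgroup G | N.Normal ∧ N ≠ ⊥ ∧ N ≤ F ⊓ H}) (Set.toFinite _)
      ⟨F ⊓ H, hXn, hne, le_rfl⟩
    have hNS : N ≤ S := le_sSup ⟨hN.1, hN.2.1,
      ⟨⟨fun a b => Subtype.ext (hFcomm _ (hN.2.2 a.2).1 _ (hN.2.2 b.2).1)⟩⟩,
      fun K hK hKN => or_iff_not_imp_left.2 fun hKne =>
        le_antisymm hKN (hmin ⟨hK, hKne, hKN.trans hN.2.2⟩ hKN)⟩
    exact hN.2.1 (le_bot_iff.1 fun x hx => hH.disjoint.le_bot ⟨hNS hx, (hN.2.2 hx).2⟩)
  intro f hf
  have hf' : f ∈ S ⊔ H := hH.sup_eq_top ▸ Subgroup.mem_top f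
  obtain ⟨s, hs, h, hh, rfl⟩ := Subgroup.mem_sup_of_normal_left.1 hf'
  have : h ∈ F ⊓ H := ⟨(F.mul_mem_cancel_left (hSF hs)).1 hf, hh⟩
  rw [hX, Subgroup.mem_bot] at this
  rw [this, mul_one]
  exact hs

end Cfsg.Agent.S0586
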