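import Cfsg.Statements.S0587
import Cfsg.Agent.Lib.PSolvable.FrattiniFacts
import Cfsg.Agent.Lib.PGroups.Frattini

set_option autoImplicit false
open Cfsg

namespace Cfsg.Agent.S0587

set_option linter.style.haveILetI false

/-- Let G be a finite group whose largest normal p-subgroup L is nontrivial, and M a maximal subgroup of G with trivial normal core. Then L is elementary abelian, M is a complement to L, L is a minimal normal subgroup of G, the centralizer of L is L, and for every prime q such that the largest normal q-subgroup of M is nontrivial, the order of L is congruent to 1 modulo q and q ≠ p. -/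
theorem result {G : Type*} [Group G] [Finite G] (p : ℕ) [Fact p.Prime] (hL : Cfsg.pCore p G ≠ ⊥) (M : Subgroup G) (hM : IsCoatom M) (hcore : M.normalCore = ⊥) : Cfsg.IsElementaryAbelian p (Cfsg.pCore p G) ∧ Subgroup.IsComplement' (Cfsg.pCore p G) M ∧ (∀ K : Subgroup G, K.Normal → K ≤ Cfsg.pCore p G → K = ⊥ ∨ K = Cfsg.pCore p G) ∧ Subgroup.centralizer ((Cfsg.pCore p G : Subgroup G) : Set G) = Cfsg.pCore p G ∧ ∀ (q : ℕ) [Fact q.Prime], Cfsg.pCore q ↥M ≠ ⊥ → Nat.card (Cfsg.pCore p G) % q = 1 % q ∧ q ≠ p := by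
  have hΦ : frattini G = ⊥ := le_bot_iff.1 (hcore ▸
    Subgroup.normal_le_normalCore.2 (frattini_le_coatom hM))
  set L := Cfsg.pCore p G with hLdef
  haveI hLn : L.Normal := Subgroup.sSup_normal _ fun N hN => hN.1
  have hLp : IsPGroup p L := CfsgLib.Cores.isPGroup_pCore p G
  have hLΦ : frattini L = ⊥ := by
    have := CfsgLib.PSolvable.map_frattini_le_frattini L
    rwa [hΦ, le_bot_iff, Subgroup.map_eq_bot_iff_of_injective _ L.subtype_injective] at this
  obtain ⟨hcomm, hpow⟩ := (CfsgLib.PGroups.frattini_eq_bot_iff hLp).1 hLΦ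
  haveI hLc : IsMulCommutative L := ⟨⟨hcomm⟩⟩
  have hcomm' : ∀ a ∈ L, ∀ b ∈ L, a * b = b * a := fun a ha b hb =>
    congrArg Subtype.val (hcomm ⟨a, ha⟩ ⟨b, hb⟩)
  have hel : Cfsg.IsElementaryAbelian p L :=
    ⟨hLc, fun a ha => congrArg Subtype.val (hpow ⟨a, ha⟩)⟩
  have hLM : ¬ L ≤ M := fun h => hL (le_bot_iff.1 (hcore ▸ Subgroup.normal_le_normalCore.2 h))
  have hsup : ∀ K : Subgroup G, ¬ K ≤ M → K ⊔ M = ⊤ := fun K hK =>
    hM.2 _ (lt_of_le_of_ne le_sup_right fun h => hK (h ▸ le_sup_left))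
  have htop : L ⊔ M = ⊤ := hsup L hLM
  have hbot : ∀ X : Subgroup G, X ≤ M → L ≤ Subgroup.centralizer (X : Set G) →
      M ≤ Subgroup.normalizer (X : Set G) → X = ⊥ := fun X hXM hLX hMX => by
    haveI := CfsgLib.PSolvable.normal_of_sup_eq_top htop
      (CfsgLib.PSolvable.le_normalizer_of_le_centralizer hLX) hMX
    exact le_bot_iff.1 (hcore ▸ Subgroup.normal_le_normalCore.2 hXM)
  have hinf : L ⊓ M = ⊥ := hbot _ inf_le_right
    (fun a ha => Subgroup.mem_centralizer_iff.2 fun x hx => hcomm' x hx.1 a ha)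
    (CfsgLib.PSolvable.le_normalizer_inf_of_le (by rw [Subgroup.normalizer_eq_top]; exact le_top) le_rfl)
  have hcompl : Subgroup.IsComplement' L M := by
    refine Subgroup.isComplement'_of_disjoint_and_mul_eq_univ (disjoint_iff.2 hinf) ?_
    rw [← Subgroup.normal_mul, htop]
    rfl
  have hmin : ∀ K : Subgroup G, K.Normal → K ≤ L → K = ⊥ ∨ K = L := by
    intro K hK hKL
    refine or_iff_not_imp_left.2 fun hne => le_antisymm hKL ?_
    haveI := hK
    have hKtop : K ⊔ M = ⊤ := hsup K fun h =>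
      hne (le_bot_iff.1 (hcore ▸ Subgroup.normal_le_normalCore.2 h))
    intro x hx
    have hx' : x ∈ K ⊔ M := hKtop ▸ Subgroup.mem_top x
    obtain ⟨k, hk, m, hm, rfl⟩ := Subgroup.mem_sup_of_normal_left.1 hx'
    have hmL : m ∈ L ⊓ M := ⟨(L.mul_mem_cancel_left (hKL hk)).1 hx, hm⟩
    rw [hinf, Subgroup.mem_bot] at hmL
    rw [hmL, mul_one]
    exact hk
  have hcent : Subgroup.centralizer (L : Set G) = L := by
    have hLC : L ≤ Subgroup.centralizer (L : Set G) := fun a ha =>
      Subgroup.mem_centralizer_iff.2 fun x hx => hcomm' x hx a ha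
    have hCM : Subgroup.centralizer (L : Set G) ⊓ M = ⊥ := hbot _ inf_le_right
      (fun a ha => Subgroup.mem_centralizer_iff.2 fun x hx =>
        (Subgroup.mem_centralizer_iff.1 hx.1 a ha).symm)
      (CfsgLib.PSolvable.le_normalizer_inf_of_le (by rw [Subgroup.normalizer_eq_top]; exact le_top)
        le_rfl)
    refine le_antisymm (fun x hx => ?_) hLC
    have hx' : x ∈ L ⊔ M := htop ▸ Subgroup.mem_top x
    obtain ⟨l, hl, m, hm, rfl⟩ := Subgroup.mem_sup_of_normal_left.1 hx'
    have hmC : m ∈ Subgroup.centralizer (L : Set G) ⊓ M :=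
      ⟨((Subgroup.centralizer (L : Set G)).mul_mem_cancel_left (hLC hl)).1 hx, hm⟩
    rw [hCM, Subgroup.mem_bot] at hmC
    rw [hmC, mul_one]
    exact hl
  refine ⟨hel, hcompl, hmin, hcent, fun q _ hq => ?_⟩
  let Q := (Cfsg.pCore q ↥M).map M.subtype
  have hQne : Q ≠ ⊥ := by
    rwa [Ne, Subgroup.map_eq_bot_iff_of_injective _ M.subtype_injective]
  have hQM : Q ≤ M := Subgroup.map_subtype_le _
  have hQn : M ≤ Subgroup.normalizer (Q : Set G) :=
    Subgroup.le_normalizer.trans
      (CfsgLib.Cores.normalizer_le_normalizer_map_subtype M (Cfsg.pCore q ↥M))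
  have hQp : IsPGroup q Q := (CfsgLib.Cores.isPGroup_pCore q ↥M).map _
  have hqp : q ≠ p := by
    rintro rfl
    haveI : (L ⊔ Q).Normal := by
      refine CfsgLib.PSolvable.normal_of_sup_eq_top htop ?_ ?_
      · exact le_sup_left.trans Subgroup.le_normalizer
      · intro m hm
        rw [Subgroup.mem_normalizer_iff_map_conj_eq, Subgroup.map_sup]
        congr 1
        · exact Subgroup.mem_normalizer_iff_map_conj_eq.1 (by rw [Subgroup.normalizer_eq_top]; trivial)
        · exact Subgroup.mem_normalizer_iff_map_conj_eq.1 (hQn hm)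
    have h1 : Q ≤ L := le_sup_right.trans
      (CfsgLib.Cores.le_pCore (hLp.to_sup_of_normal_left hQp))
    exact hQne (le_bot_iff.1 (hinf ▸ le_inf h1 hQM))
  refine ⟨?_, hqp⟩
  -- `Q` has no nontrivial fixed points on `L`
  have hfix : L ⊓ Subgroup.centralizer (Q : Set G) = ⊥ := by
    haveI : (L ⊓ Subgroup.centralizer (Q : Set G)).Normal := by
      refine CfsgLib.PSolvable.normal_of_sup_eq_top htop ?_ ?_
      · exact CfsgLib.PSolvable.le_normalizer_of_le_centralizer fun a ha =>
          Subgroup.mem_centralizer_iff.2 fun x hx => hcomm' x hx.1 a ha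
      · intro m hm
        rw [Subgroup.mem_normalizer_iff]
        intro x
        have hmQ := Subgroup.mem_normalizer_iff.1 (hQn hm)
        constructor
        · intro hx
          refine ⟨hLn.conj_mem x hx.1 m, Subgroup.mem_centralizer_iff.2 fun u hu => ?_⟩
          have hu' : m⁻¹ * u * m ∈ Q := (hmQ _).2 (by simpa [mul_assoc] using hu)
          have := Subgroup.mem_centralizer_iff.1 hx.2 _ hu'
          calc u * (m * x * m⁻¹) = m * (m⁻¹ * u * m * x) * m⁻¹ := by group
            _ = m * (x * (m⁻¹ * u * m)) * m⁻¹ := by rw [this]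
            _ = m * x * m⁻¹ * u := by group
        · intro hx
          refine ⟨by simpa [mul_assoc] using hLn.conj_mem' _ hx.1 m,
            Subgroup.mem_centralizer_iff.2 fun u hu => ?_⟩
          have := Subgroup.mem_centralizer_iff.1 hx.2 _ ((hmQ u).1 hu)
          calc u * x = m⁻¹ * (m * u * m⁻¹ * (m * x * m⁻¹)) * m := by group
            _ = m⁻¹ * (m * x * m⁻¹ * (m * u * m⁻¹)) * m := by rw [this]
            _ = x * u := by group
    refine (hmin _ inferInstance inf_le_left).resolve_right fun h => hQne ?_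
    have h1 : Q ≤ Subgroup.centralizer (L : Set G) := fun u hu =>
      Subgroup.mem_centralizer_iff.2 fun x hx =>
        (Subgroup.mem_centralizer_iff.1 (h.ge hx).2 u hu).symm
    rw [hcent] at h1
    exact le_bot_iff.1 (hinf ▸ le_inf h1 hQM)
  -- orbit counting
  letI : MulAction Q L :=
    MulAction.compHom L ((MulAut.conjNormal (H := L)).comp Q.subtype)
  have hmod := hQp.card_modEq_card_fixedPoints L
  have hone : Nat.card (MulAction.fixedPoints Q L) = 1 := by
    rw [Nat.card_eq_one_iff_unique]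
    refine ⟨⟨fun a b => ?_⟩, ⟨⟨1, fun u => map_one (MulAut.conjNormal (H := L) (u : G))⟩⟩⟩
    have key : ∀ a : MulAction.fixedPoints Q L, ((a : L) : G) = 1 := fun a => by
      refine Subgroup.mem_bot.1 (hfix.le ⟨(a : L).2, Subgroup.mem_centralizer_iff.2 fun u hu => ?_⟩)
      have h2 := congrArg Subtype.val (a.2 ⟨u, hu⟩)
      change u * ((a : L) : G) * u⁻¹ = _ at h2
      exact mul_inv_eq_iff_eq_mul.1 h2
    exact Subtype.ext (Subtype.ext ((key a).trans (key b).symm))
  rw [hone] at hmod
  exact hmod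

end Cfsg.Agent.S0587
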