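import Cfsg.Statements.S0588
import Mathlib


set_option autoImplicit false
open Cfsg

namespace Cfsg.Agent.S0588

/-- If a subgroup H of a finite group G contains the centralizer of every non-identity element of H, then the order of H is coprime to its index. -/
theorem result {G : Type*} [Group G] [Finite G] (H : Subgroup G) (h : ∀ x ∈ H, x ≠ 1 → Subgroup.centralizer ({x} : Set G) ≤ H) : (Nat.card H).Coprime H.index := by
  rw [Nat.coprime_iff_gcd_eq_one]
  by_contra hne
  obtain ⟨p, hp, hpd⟩ := Nat.exists_prime_and_dvd hne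
  have hpH := (Nat.dvd_gcd_iff.1 hpd).1
  have hpI := (Nat.dvd_gcd_iff.1 hpd).2
  haveI : Fact p.Prime := ⟨hp⟩
  obtain ⟨⟨x, hxH⟩, hx⟩ := exists_prime_orderOf_dvd_card' p hpH
  rw [Subgroup.orderOf_mk] at hx
  have hx1 : x ≠ 1 := fun h' => hp.one_lt.ne' (by rw [← hx, h', orderOf_one])
  obtain ⟨R, hR⟩ := (IsPGroup.of_card (G := Subgroup.zpowers x) (n := 1)
    (by rw [Nat.card_zpowers, hx, pow_one])).exists_le_sylow
  have hxR : x ∈ (R : Subgroup G) := hR (Subgroup.mem_zpowers x)
  haveI : Nontrivial (R : Subgroup G) := (Subgroup.nontrivial_iff_ne_bot _).2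
    fun h' => hx1 (Subgroup.mem_bot.1 (h' ▸ hxR))
  haveI := R.2.center_nontrivial
  obtain ⟨z, hz⟩ := exists_ne (1 : Subgroup.center (R : Subgroup G))
  have hzc : ∀ y : (R : Subgroup G), (y : G) * (z : G) = (z : G) * (y : G) := fun y => by
    have := Subgroup.mem_center_iff.1 z.2 y
    exact congrArg Subtype.val this
  have hzH : ((z : (R : Subgroup G)) : G) ∈ H := h x hxH hx1
    (Subgroup.mem_centralizer_singleton_iff.2 (hzc ⟨x, hxR⟩).symm)
  have hRH : (R : Subgroup G) ≤ H := by
    intro y hy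
    refine h _ hzH ?_ (Subgroup.mem_centralizer_singleton_iff.2 (hzc ⟨y, hy⟩))
    intro h'
    exact hz (Subtype.ext (Subtype.ext h'))
  exact R.not_dvd_index (hpI.trans (Subgroup.index_dvd_of_le hRH))

end Cfsg.Agent.S0588
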