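import Cfsg.Statements.S0589
import Cfsg.Agent.Lib.Frobenius.Basic

set_option autoImplicit false
open Pointwise
open Cfsg

namespace Cfsg.Agent.S0589

set_option linter.style.haveILetI false

open scoped Pointwise

open CfsgLib.Frobenius in
theorem frobenius_inf {G : Type*} [Group G] {H L : Subgroup G}
    (hH : Cfsg.IsFrobeniusComplement H) (g : G) (hne : L ⊓ MulAut.conj g • H ≠ ⊥)
    (hlt : ¬ L ≤ MulAut.conj g • H) :
    Cfsg.IsFrobeniusComplement ((MulAut.conj g • H).subgroupOf L) := by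
  refine ⟨?_, fun h => hlt (Subgroup.subgroupOf_eq_top.1 h), fun l hl => ?_⟩
  · intro h
    apply hne
    rw [Subgroup.subgroupOf_eq_bot, disjoint_comm, disjoint_iff] at h
    exact h
  · rw [Subgroup.eq_bot_iff_forall]
    intro x hx
    have h1 : g⁻¹ * (x : G) * g ∈ H := mem_conj_smul.1 hx.1
    have h2 : l⁻¹ * x * l ∈ (MulAut.conj g • H).subgroupOf L := mem_conj_smul.1 hx.2
    have h3 : g⁻¹ * ((l : G)⁻¹ * x * l) * g ∈ H := mem_conj_smul.1 h2
    by_contra hx1
    apply hl
    change (l : G) ∈ MulAut.conj g • H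
    rw [mem_conj_smul]
    refine mem_of_inter_conj hH h1 (fun h' => hx1 ?_) (by simpa [mul_assoc] using h3)
    refine Subtype.ext ?_
    have : (x : G) = g * (g⁻¹ * x * g) * g⁻¹ := by group
    rw [h'] at this
    simpa using this

/-- Let H be a Frobenius complement in a finite group G and L a subgroup of G whose order divides the order of H. Then L is contained in some conjugate of H. -/
theorem result {G : Type*} [Group G] [Finite G] (H : Subgroup G) (hH : Cfsg.IsFrobeniusComplement H) (L : Subgroup G) (hL : Nat.card L ∣ Nat.card H) : ∃ x : G, L ≤ MulAut.conj x • H := by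
  classical
  have hmem : ∀ x ∈ L, x ≠ 1 → ∃ g : G, x ∈ MulAut.conj g • H := by
    intro x hx hx1
    obtain ⟨q, hq, hqd⟩ := Nat.exists_prime_and_dvd (mt orderOf_eq_one_iff.1 hx1)
    haveI : Fact q.Prime := ⟨hq⟩
    have hqH : q ∣ Nat.card H :=
      hqd.trans (((Subgroup.orderOf_mk x hx).symm ▸ orderOf_dvd_natCard (⟨x, hx⟩ : L)).trans hL)
    have hcop := CfsgLib.Frobenius.coprime_card_index hH
    have hqI : ¬ q ∣ H.index := fun h =>
      hq.one_lt.ne' (Nat.eq_one_of_dvd_one (hcop.gcd_eq_one ▸ Nat.dvd_gcd hqH h))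
    obtain ⟨k, hk⟩ := hqd
    have hy : orderOf (x ^ k) = q := by
      rw [orderOf_pow' x (by rintro rfl; exact (orderOf_pos x).ne' (by simpa using hk)), hk,
        Nat.gcd_mul_left_left, Nat.mul_div_cancel]
      exact Nat.pos_of_ne_zero (by rintro rfl; exact (orderOf_pos x).ne' (by simpa using hk))
    obtain ⟨Q⟩ : Nonempty (Sylow q H) := inferInstance
    have hQ : Nat.card ((Q : Subgroup H).map H.subtype) = q ^ (Nat.card G).factorization q := by
      rw [Subgroup.card_map_of_injective H.subtype_injective, Q.card_eq_multiplicity,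
        ← H.card_mul_index, Nat.factorization_mul Nat.card_pos.ne' H.index_ne_zero_of_finite,
        Finsupp.add_apply, Nat.factorization_eq_zero_of_not_dvd hqI, add_zero]
    let S : Sylow q G := Sylow.ofCard _ hQ
    obtain ⟨R, hR⟩ := (IsPGroup.of_card (G := Subgroup.zpowers (x ^ k)) (n := 1)
      (by rw [Nat.card_zpowers, hy, pow_one])).exists_le_sylow
    obtain ⟨g, hg⟩ := MulAction.exists_smul_eq G S R
    have hxk := hR (Subgroup.mem_zpowers (x ^ k))
    rw [← hg, Sylow.coe_subgroup_smul, CfsgLib.Frobenius.mem_conj_smul] at hxk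
    have hgk : g⁻¹ * x ^ k * g ∈ H := Subgroup.map_subtype_le _ hxk
    refine ⟨g, CfsgLib.Frobenius.mem_conj_smul.2 (CfsgLib.Frobenius.centralizer_le hH hgk ?_ ?_)⟩
    · intro h'
      have : x ^ k = g * (g⁻¹ * x ^ k * g) * g⁻¹ := by group
      rw [h', mul_one, mul_inv_cancel] at this
      rw [this, orderOf_one] at hy
      exact hq.one_lt.ne hy
    · rw [Subgroup.mem_centralizer_singleton_iff]
      calc g⁻¹ * x * g * (g⁻¹ * x ^ k * g) = g⁻¹ * (x * x ^ k) * g := by group
        _ = g⁻¹ * (x ^ k * x) * g := by rw [(Commute.self_pow x k).eq]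
        _ = g⁻¹ * x ^ k * g * (g⁻¹ * x * g) := by group
  by_cases hL1 : L = ⊥
  · exact ⟨1, hL1.le.trans bot_le⟩
  by_contra hcon
  push Not at hcon
  obtain ⟨x₀, hx₀, hx₀1⟩ := (Subgroup.bot_or_exists_ne_one L).resolve_left hL1
  obtain ⟨g, hg⟩ := hmem x₀ hx₀ hx₀1
  have hne : L ⊓ MulAut.conj g • H ≠ ⊥ := fun h => hx₀1 (Subgroup.mem_bot.1 (h.le ⟨hx₀, hg⟩))
  have hF := frobenius_inf hH g hne (hcon g)
  -- an element of `L` outside all conjugates of the first intersection
  obtain ⟨y, hyK, hy1⟩ : ∃ y ∈ Cfsg.frobeniusKernel ((MulAut.conj g • H).subgroupOf L), y ≠ 1 := by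
    by_contra h
    push Not at h
    have hsub : Cfsg.frobeniusKernel ((MulAut.conj g • H).subgroupOf L) ⊆ {1} := h
    have := Set.ncard_le_ncard hsub (Set.toFinite _)
    rw [← Nat.card_coe_set_eq, CfsgLib.Frobenius.card_kernel hF, Set.ncard_singleton] at this
    have := CfsgLib.Frobenius.one_lt_index hF
    omega
  obtain ⟨g', hg'⟩ := hmem y y.2 fun h => hy1 (Subtype.ext h)
  have hne' : L ⊓ MulAut.conj g' • H ≠ ⊥ := fun h =>
    hy1 (Subtype.ext (Subgroup.mem_bot.1 (h.le ⟨y.2, hg'⟩)))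
  have hF' := frobenius_inf hH g' hne' (hcon g')
  set M := (MulAut.conj g • H).subgroupOf L with hM
  set M' := (MulAut.conj g' • H).subgroupOf L with hM'
  -- the two families of conjugates share no nonidentity element
  have hcover : ∀ z : L, z ∈ Cfsg.frobeniusKernel M ∨ z ∈ Cfsg.frobeniusKernel M' := by
    intro z
    by_contra hz
    push Not at hz
    obtain ⟨hz, hz'⟩ := hz
    simp only [Cfsg.frobeniusKernel, Set.mem_ofPred_eq, not_or, not_forall, not_not] at hz hz'
    obtain ⟨hz1, a, ha⟩ := hz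
    obtain ⟨-, b, hb⟩ := hz'
    rw [CfsgLib.Frobenius.mem_conj_smul] at ha hb
    have ha' : g⁻¹ * ((a : G)⁻¹ * z * a) * g ∈ H := CfsgLib.Frobenius.mem_conj_smul.1 ha
    have hb' : g'⁻¹ * ((b : G)⁻¹ * z * b) * g' ∈ H := CfsgLib.Frobenius.mem_conj_smul.1 hb
    have hu : g⁻¹ * (a : G)⁻¹ * b * g' ∈ H := by
      refine CfsgLib.Frobenius.mem_of_inter_conj hH ha' (fun h' => hz1 ?_) ?_
      · refine Subtype.ext ?_
        have h'' : (z : G) = a * g * (g⁻¹ * ((a : G)⁻¹ * z * a) * g) * g⁻¹ * (a : G)⁻¹ := by group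
        rw [h'] at h''
        simpa using h''
      · simpa [mul_assoc] using hb'
    refine hy1 (hyK.resolve_right fun h => h (b⁻¹ * a) ?_)
    rw [CfsgLib.Frobenius.mem_conj_smul]
    refine CfsgLib.Frobenius.mem_conj_smul.2 ?_
    have hy' : g'⁻¹ * (y : G) * g' ∈ H := CfsgLib.Frobenius.mem_conj_smul.1 hg'
    have := H.mul_mem (H.mul_mem hu hy') (H.inv_mem hu)
    simpa [mul_assoc] using this
  have hle := Set.ncard_union_le (Cfsg.frobeniusKernel M) (Cfsg.frobeniusKernel M')
  have huniv : Cfsg.frobeniusKernel M ∪ Cfsg.frobeniusKernel M' = Set.univ :=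
    Set.eq_univ_iff_forall.2 hcover
  have hone : (1 : L) ∈ Cfsg.frobeniusKernel M ∩ Cfsg.frobeniusKernel M' :=
    ⟨Or.inl rfl, Or.inl rfl⟩
  have hie := Set.ncard_union_add_ncard_inter (Cfsg.frobeniusKernel M) (Cfsg.frobeniusKernel M')
  rw [huniv, Set.ncard_univ, ← Nat.card_coe_set_eq (Cfsg.frobeniusKernel M),
    ← Nat.card_coe_set_eq (Cfsg.frobeniusKernel M'), CfsgLib.Frobenius.card_kernel hF,
    CfsgLib.Frobenius.card_kernel hF'] at hie
  have hpos : 0 < (Cfsg.frobeniusKernel M ∩ Cfsg.frobeniusKernel M').ncard :=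
    Set.ncard_pos (Set.toFinite _) |>.2 ⟨1, hone⟩
  have h1 := M.index_mul_card
  have h2 := M'.index_mul_card
  have h3 := CfsgLib.Frobenius.one_lt_card hF
  have h4 := CfsgLib.Frobenius.one_lt_card hF'
  nlinarith

end Cfsg.Agent.S0589
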