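import Cfsg.Statements.S0591
import Cfsg.Agent.Lib.ThompsonJ.Quadratic
-- import your own Cfsg.Agent.* helpers here

set_option autoImplicit false
open Cfsg

namespace Cfsg.Agent.S0591

open scoped commutatorElement in
theorem card_le_sq {G : Type*} [Group G] [Finite G] {p : ℕ} (V : Subgroup G)
    (hV : Cfsg.IsElementaryAbelian p V) (a : G) (ha : a ∈ Subgroup.normalizer (V : Set G))
    (hq : ⁅⁅V, Subgroup.zpowers a⁆, Subgroup.zpowers a⁆ = ⊥) :
    Nat.card V ≤ Nat.card ↥(V ⊓ Subgroup.centralizer (Subgroup.zpowers a : Set G)) ^ 2 := by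
  set C := V ⊓ Subgroup.centralizer (Subgroup.zpowers a : Set G) with hC
  have hmem : ∀ v ∈ V, ⁅v, a⁆ ∈ C := fun v hv =>
    ⟨CfsgLib.ThompsonJ.commutator_mem_of_mem_normalizer ha hv,
      (Subgroup.commutator_eq_bot_iff_le_centralizer.1 hq)
        (Subgroup.commutator_mem_commutator hv (Subgroup.mem_zpowers a))⟩
  let f : V →* C :=
    { toFun := fun v => ⟨⁅(v : G), a⁆, hmem v v.2⟩
      map_one' := Subtype.ext (by simp)
      map_mul' := fun v w => Subtype.ext <| by
        change ⁅(v : G) * (w : G), a⁆ = ⁅(v : G), a⁆ * ⁅(w : G), a⁆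
        rw [commutatorElement_mul_left_eq_conj_mul,
          CfsgLib.ThompsonJ.isElementaryAbelian_comm hV v.2 (hmem _ w.2).1, mul_inv_cancel_right,
          CfsgLib.ThompsonJ.isElementaryAbelian_comm hV (hmem _ w.2).1 (hmem _ v.2).1] }
  have hker : f.ker ≤ C.subgroupOf V := by
    intro v hv
    have h1 : ⁅(v : G), a⁆ = 1 := congrArg Subtype.val hv
    refine ⟨v.2, ?_⟩
    rintro _ ⟨n, rfl⟩
    exact ((commutatorElement_eq_one_iff_commute.1 h1).symm.zpow_left n).eq
  rw [← Subgroup.card_mul_index f.ker, Subgroup.index_ker, sq]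
  refine Nat.mul_le_mul ?_ (Subgroup.card_le_card_group _)
  exact (Subgroup.card_le_of_le hker).trans
    (Nat.card_congr (Subgroup.subgroupOfEquivOfLe (inf_le_left : C ≤ V)).toEquiv).le


/-- For a quadratically acting element a on an elementary abelian p-group V, the fixed points C_V(a) have order at least the square root of the order of V. -/
theorem result {G : Type*} [Group G] [Finite G] {p : ℕ} [Fact p.Prime] (V : Subgroup G) (hV : Cfsg.IsElementaryAbelian p V) (a : G) (ha : a ∈ Subgroup.normalizer (V : Set G)) (hq : ⁅⁅V, Subgroup.zpowers a⁆, Subgroup.zpowers a⁆ = ⊥) : Nat.card V ≤ Nat.card ↥(V ⊓ Subgroup.centralizer (Subgroup.zpowers a : Set G)) ^ 2 := card_le_sq V hV a ha hq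

end Cfsg.Agent.S0591
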