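import Cfsg.Statements.S0592
import Cfsg.Agent.Lib.PGroups.QuadPairSL
-- import your own Cfsg.Agent.* helpers here

set_option autoImplicit false
open Cfsg

namespace Cfsg.Agent.S0592

open Matrix in
theorem exists_hom {K : Type*} [Field K] [Fintype K] {p : ℕ} [Fact p.Prime] [CharP K p]
    {W : Type*} [AddCommGroup W] [Module K W] [FiniteDimensional K W] [Finite W]
    (H : Subgroup (W ≃ₗ[K] W)) (a b : W ≃ₗ[K] W) (hH : H = Subgroup.closure {a, b})
    (ha : ∀ w : W, a (a w - w) = a w - w) (hb : ∀ w : W, b (b w - w) = b w - w)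
    (hnp : ¬ IsPGroup p H)
    (hk : ∃ e k : ℕ, orderOf (a * b) = p ^ e * k ∧ k ∣ Fintype.card K - 1) :
    ∃ φ : H →* Matrix.SpecialLinearGroup (Fin 2) K, ¬ IsPGroup p φ.range := by
  classical
  haveI : Finite (W ≃ₗ[K] W) := Finite.of_injective (fun e : W ≃ₗ[K] W => (e : W → W))
    DFunLike.coe_injective
  haveI : Finite H := inferInstance
  let L := AlgebraicClosure K
  let ι := algebraMap K L
  haveI : CharP L p := charP_of_injective_algebraMap ι.injective p
  set a' : H := ⟨a, hH ▸ Subgroup.subset_closure (Or.inl rfl)⟩ with ha'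
  set b' : H := ⟨b, hH ▸ Subgroup.subset_closure (Or.inr rfl)⟩ with hb'
  have hgen : Subgroup.closure {a', b'} = ⊤ := by
    refine Subgroup.map_injective H.subtype_injective ?_
    rw [MonoidHom.map_closure, ← MonoidHom.range_eq_map, Subgroup.range_subtype, Set.image_pair]
    exact hH.symm
  let fK : H →* Module.End K W :=
    { toFun := fun t => ((t : W ≃ₗ[K] W) : W →ₗ[K] W)
      map_one' := rfl
      map_mul' := fun _ _ => rfl }
  let B := Module.finBasis K W
  let Φ : Module.End K W →+* Module.End L (Fin (Module.finrank K W) → L) :=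
    (Matrix.toLinAlgEquiv' (R := L)).toRingEquiv.toRingHom.comp
      ((ι.mapMatrix).comp (LinearMap.toMatrixAlgEquiv B).toRingEquiv.toRingHom)
  have hΦ : Function.Injective Φ :=
    (Matrix.toLinAlgEquiv' (R := L)).injective.comp
      ((Matrix.map_injective ι.injective).comp (LinearMap.toMatrixAlgEquiv B).injective)
  have hquad : ∀ c : H, (∀ w, (c : W ≃ₗ[K] W) ((c : W ≃ₗ[K] W) w - w) = (c : W ≃ₗ[K] W) w - w) →
      (Φ (fK c) - 1) * (Φ (fK c) - 1) = 0 := by
    intro c hc
    rw [← map_one Φ, ← map_sub, ← map_mul, show (fK c - 1) * (fK c - 1) = 0 from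
      LinearMap.ext fun w => sub_eq_zero.mpr (hc w), map_zero]
  -- a non-`p`-group has a two-dimensional pair section
  obtain ⟨F, c, hc, hFa, hFb⟩ : ∃ (F : H →* Matrix (Fin 2) (Fin 2) L) (c : L), c ≠ 0 ∧
      F a' = !![1, c; 0, 1] ∧ F b' = !![1, 0; 1, 1] := by
    by_contra h
    push_neg at h
    refine hnp fun t => ?_
    obtain ⟨k, hk'⟩ := CfsgLib.PGroups.pow_eq_one_of_noSLPair (L := L) (p := p) hgen
      (fun F c hc h1 h2 => h F c hc h1 h2) _ _ rfl (Φ.toMonoidHom.comp fK)
      (hquad a' ha) (hquad b' hb) t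
    refine ⟨k, ?_⟩
    rw [← map_pow] at hk'
    have h1 : fK (t ^ p ^ k) = 1 := hΦ (hk'.trans (map_one Φ).symm)
    exact Subtype.ext (LinearEquiv.ext fun w => LinearMap.congr_fun h1 w)
  -- the parameter lies in `K`
  obtain ⟨e, k, hord, hkdvd⟩ := hk
  have hFab : F (a' * b') = !![1 + c, c; 1, 1] := by
    rw [map_mul, hFa, hFb]
    ext i j; fin_cases i <;> fin_cases j <;> simp [Matrix.mul_apply]
  set M : Matrix (Fin 2) (Fin 2) L := F (a' * b') with hM
  have hMpow : M ^ (p ^ e * k) = 1 := by
    rw [hM, ← map_pow, ← map_one F]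
    congr 1
    exact Subtype.ext (by rw [SubgroupClass.coe_pow, ← hord]; exact pow_orderOf_eq_one _)
  obtain ⟨x, hx⟩ : ∃ x : L, x * x - (2 + c) * x + 1 = 0 := by
    obtain ⟨x, hx⟩ := IsAlgClosed.exists_root (Polynomial.X ^ 2 - Polynomial.C (2 + c) * Polynomial.X + 1) (by
      have : (Polynomial.X ^ 2 - Polynomial.C (2 + c) * Polynomial.X + 1 : Polynomial L).degree = 2 := by
        compute_degree!
      rw [this]; norm_num)
    exact ⟨x, by simpa [sq] using hx⟩
  -- `x` is an eigenvalue
  have hvec : ∀ n : ℕ, M ^ n *ᵥ ![x - 1, 1] = x ^ n • ![x - 1, 1] := by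
    intro n
    induction n with
    | zero => simp
    | succ n ih =>
      rw [pow_succ', ← Matrix.mulVec_mulVec, ih, Matrix.mulVec_smul, hFab, pow_succ, mul_smul]
      congr 1
      ext i
      fin_cases i <;> simp [Matrix.mulVec, dotProduct, Fin.sum_univ_two]
      linear_combination -hx
  have hxpow : x ^ (p ^ e * k) = 1 := by
    have h1 := congrFun (hvec (p ^ e * k)) 1
    rw [hMpow] at h1
    simpa using h1.symm
  have hxk : x ^ k = 1 := by
    have h1 : (x ^ k - 1) ^ p ^ e = 0 := by
      rw [sub_pow_char_pow, one_pow, ← pow_mul, mul_comm, hxpow, sub_self]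
    exact sub_eq_zero.1 (eq_zero_of_pow_eq_zero h1)
  have hxq : x ^ (Fintype.card K - 1) = 1 := by
    obtain ⟨j, hj⟩ := hkdvd
    rw [hj, pow_mul, hxk, one_pow]
  have hxK : ∃ x₀ : K, ι x₀ = x := by
    have hx1 : x ^ Fintype.card K = x := by
      conv_lhs => rw [show Fintype.card K = Fintype.card K - 1 + 1 from
        (Nat.sub_add_cancel Fintype.card_pos).symm, pow_succ, hxq, one_mul]
    have hroot : x ∈ ((Polynomial.X ^ Fintype.card K - Polynomial.X : Polynomial K).map ι).roots := by
      rw [Polynomial.mem_roots]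
      · simp [hx1]
      · exact (Polynomial.map_ne_zero_iff ι.injective).2
          (FiniteField.X_pow_card_sub_X_ne_zero K Fintype.one_lt_card)
    have hsplit : ((Polynomial.X ^ Fintype.card K - Polynomial.X : Polynomial K).map ι).roots =
        (Polynomial.X ^ Fintype.card K - Polynomial.X : Polynomial K).roots.map ι := by
      refine (Polynomial.roots_map_of_injective_of_card_eq_natDegree ι.injective ?_).symm
      rw [FiniteField.roots_X_pow_card_sub_X, FiniteField.X_pow_card_sub_X_natDegree_eq K Fintype.one_lt_card]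
      rfl
    rw [hsplit, Multiset.mem_map] at hroot
    obtain ⟨x₀, -, h0⟩ := hroot
    exact ⟨x₀, h0⟩
  obtain ⟨x₀, rfl⟩ := hxK
  have hx0 : x₀ ≠ 0 := by
    rintro rfl
    rw [map_zero] at hx
    simp at hx
  obtain ⟨c₀, rfl⟩ : ∃ c₀ : K, ι c₀ = c := by
    refine ⟨x₀ + x₀⁻¹ - 2, ?_⟩
    have hi : ι x₀ ≠ 0 := by simpa using hx0
    rw [map_sub, map_add, map_inv₀, map_ofNat]
    apply mul_left_cancel₀ hi
    rw [mul_sub, mul_add, mul_inv_cancel₀ hi]
    linear_combination hx
  -- hence all of `F` is defined over `K`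
  let S : Submonoid (Matrix (Fin 2) (Fin 2) L) :=
    { carrier := {N | ∃ N₀ : Matrix (Fin 2) (Fin 2) K, N₀.det = 1 ∧ N₀.map ι = N}
      one_mem' := ⟨1, Matrix.det_one, by simp [Matrix.map_one]⟩
      mul_mem' := fun {A B} ⟨A₀, hA, hA'⟩ ⟨B₀, hB, hB'⟩ =>
        ⟨A₀ * B₀, by rw [Matrix.det_mul, hA, hB, one_mul], by rw [Matrix.map_mul, hA', hB']⟩ }
  have hS : ∀ t : H, F t ∈ S := by
    intro t
    have ht : t ∈ Submonoid.closure ({a', b'} : Set H) := by
      rw [← Subgroup.closure_toSubmonoid_of_finite, hgen]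
      exact Subgroup.mem_top t
    induction ht using Submonoid.closure_induction with
    | mem y hy =>
      rcases hy with rfl | rfl
      · exact ⟨!![1, c₀; 0, 1], by simp [Matrix.det_fin_two_of], by
          rw [hFa]; ext i j; fin_cases i <;> fin_cases j <;> simp⟩
      · exact ⟨!![1, 0; 1, 1], by simp [Matrix.det_fin_two_of], by
          rw [hFb]; ext i j; fin_cases i <;> fin_cases j <;> simp⟩
    | one => rw [map_one]; exact one_mem S
    | mul y z _ _ hy hz => rw [map_mul]; exact mul_mem hy hz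
  choose N hNdet hN using hS
  have hinj : Function.Injective (fun A : Matrix (Fin 2) (Fin 2) K => A.map ι) :=
    Matrix.map_injective ι.injective
  let φ : H →* Matrix.SpecialLinearGroup (Fin 2) K :=
    { toFun := fun t => ⟨N t, hNdet t⟩
      map_one' := Subtype.ext (hinj (by simp [hN, Matrix.map_one]))
      map_mul' := fun s t => Subtype.ext (hinj (by
        change (N (s * t)).map ι = (N s * N t).map ι
        rw [Matrix.map_mul, hN, hN, hN, map_mul])) }
  have hφ : ∀ t : H, ((φ t : Matrix.SpecialLinearGroup (Fin 2) K) :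
      Matrix (Fin 2) (Fin 2) K).map ι = F t := hN
  refine ⟨φ, fun hp' => ?_⟩
  haveI : Finite φ.range := inferInstance
  haveI : Group.IsNilpotent φ.range := hp'.isNilpotent
  -- noncommuting unipotent images cannot lie in a `p`-subgroup
  obtain ⟨P, hP⟩ := hp'.exists_le_sylow
  have hcomm : φ a' * φ b' = φ b' * φ a' := by
    have h1 : ∀ t : H, φ t ∈ (P : Subgroup _) := fun t => hP ⟨t, rfl⟩
    have hzne : Nontrivial φ.range := by
      refine ⟨⟨φ a', a', rfl⟩, 1, fun h => ?_⟩
      have h2 := congrArg (fun z : φ.range => ((z : Matrix.SpecialLinearGroup (Fin 2) K) :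
        Matrix (Fin 2) (Fin 2) K).map ι) h
      simp only [OneMemClass.coe_one, Matrix.SpecialLinearGroup.coe_one, hφ, hFa] at h2
      simp [Matrix.map_one] at h2
      exact hc (by simpa using congrFun (congrFun h2 0) 1)
    haveI := hp'.center_nontrivial
    obtain ⟨z, hz⟩ := exists_ne (1 : Subgroup.center φ.range)
    obtain ⟨t, htz⟩ := (z : φ.range).2
    have hza := congrArg Subtype.val (Subgroup.mem_center_iff.1 z.2 ⟨φ a', a', rfl⟩)
    have hzb := congrArg Subtype.val (Subgroup.mem_center_iff.1 z.2 ⟨φ b', b', rfl⟩)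
    simp only [Subgroup.coe_mul, ← htz, ← map_mul] at hza hzb
    have ea := congrArg (fun y : Matrix.SpecialLinearGroup (Fin 2) K => (y : Matrix (Fin 2) (Fin 2) K).map ι) hza
    have eb := congrArg (fun y : Matrix.SpecialLinearGroup (Fin 2) K => (y : Matrix (Fin 2) (Fin 2) K).map ι) hzb
    simp only [hφ] at ea eb
    simp only [map_mul, hFa, hFb] at ea eb
    have a00 := congrFun (congrFun ea 0) 0
    have a01 := congrFun (congrFun ea 0) 1
    have b00 := congrFun (congrFun eb 0) 0
    simp [Matrix.mul_apply, -map_eq_zero] at a00 a01 b00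
    -- the centre is then scalar, hence trivial
    exfalso
    obtain ⟨j, hj⟩ := hp' (z : φ.range)
    have hdet := congrArg Matrix.det (hN t).symm
    rw [← RingHom.mapMatrix_apply, ← RingHom.map_det, hNdet, map_one] at hdet
    set Z := F t with hZ
    have h10 : Z 1 0 = 0 := by
      rcases a00 with h | h
      · first | exact h | exact absurd h (by simpa using hc)
      · first | exact h | exact absurd h (by simpa using hc)
    have h01 : Z 0 1 = 0 := b00
    have h11 : Z 1 1 = Z 0 0 := mul_left_cancel₀ hc (by linear_combination a01)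
    have hZs : Z = Z 0 0 • (1 : Matrix (Fin 2) (Fin 2) L) := by
      ext i j; fin_cases i <;> fin_cases j <;> simp [h10, h01, h11]
    have hZp : Z ^ p ^ j = 1 := by
      have h3 := congrArg (fun z : φ.range => ((z : Matrix.SpecialLinearGroup (Fin 2) K) :
        Matrix (Fin 2) (Fin 2) K).map ι) hj
      simp only [SubgroupClass.coe_pow, ← htz, ← map_pow] at h3
      rw [hφ, map_pow] at h3
      simpa [Matrix.map_one] using h3
    rw [hZs, smul_pow, one_pow] at hZp
    have h4 : (Z 0 0) ^ p ^ j = 1 := by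
      simpa using congrFun (congrFun hZp 0) 0
    have h5 : Z 0 0 = 1 := by
      have : (Z 0 0 - 1) ^ p ^ j = 0 := by rw [sub_pow_char_pow, one_pow, h4, sub_self]
      exact sub_eq_zero.1 (eq_zero_of_pow_eq_zero this)
    refine hz (Subtype.ext (Subtype.ext ?_))
    change ((z : φ.range) : Matrix.SpecialLinearGroup (Fin 2) K) = 1
    rw [← htz]
    refine Subtype.ext (hinj ?_)
    change (N t).map ι = _
    rw [hN, ← hZ, hZs, h5]
    simp [Matrix.map_one]
  have h1 := congrArg (fun y : Matrix.SpecialLinearGroup (Fin 2) K => (y : Matrix (Fin 2) (Fin 2) K).map ι) hcomm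
  simp only [← map_mul, hφ] at h1
  simp only [map_mul, hFa, hFb] at h1
  have := congrFun (congrFun h1 0) 0
  simp [Matrix.mul_apply] at this
  exact hc (by simp [this])


/-- Two quadratically acting generators of a linear group that is not a p-group, with the p'-part of the order of their product dividing q - 1, give a homomorphism onto a subgroup of SL(2, q) that is not a p-group. -/
theorem result {K : Type*} [Field K] [Fintype K] {p : ℕ} [Fact p.Prime] [CharP K p] {W : Type*} [AddCommGroup W] [Module K W] [FiniteDimensional K W] [Finite W] [Nontrivial W] (H : Subgroup (W ≃ₗ[K] W)) (a b : W ≃ₗ[K] W) (hH : H = Subgroup.closure {a, b}) (ha : ∀ w : W, a (a w - w) = a w - w) (hb : ∀ w : W, b (b w - w) = b w - w) (hnp : ¬ IsPGroup p H) (hk : ∃ e k : ℕ, orderOf (a * b) = p ^ e * k ∧ k ∣ Fintype.card K - 1) : ∃ φ : H →* Matrix.SpecialLinearGroup (Fin 2) K, ¬ IsPGroup p φ.range := exists_hom H a b hH ha hb hnp hk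

end Cfsg.Agent.S0592
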