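import Cfsg.Statements.S0593
import Cfsg.Agent.Lib.ThompsonJ.QuadraticPair
-- import your own Cfsg.Agent.* helpers here

set_option autoImplicit false
open Cfsg

namespace Cfsg.Agent.S0593

/-- For odd p, a faithful group on an elementary abelian p-group generated by two quadratically acting elements is a p-group or has non-abelian Sylow 2-subgroups. -/
theorem result {G : Type*} [Group G] [Finite G] {p : ℕ} [Fact p.Prime] (hp : p ≠ 2) (V H : Subgroup G) (hV : Cfsg.IsElementaryAbelian p V) (hHV : H ≤ Subgroup.normalizer (V : Set G)) (hf : H ⊓ Subgroup.centralizer (V : Set G) = ⊥) (a b : G) (hab : H = Subgroup.closure {a, b}) (ha : ⁅⁅V, Subgroup.zpowers a⁆, Subgroup.zpowers a⁆ = ⊥) (hb : ⁅⁅V, Subgroup.zpowers b⁆, Subgroup.zpowers b⁆ = ⊥) (hnp : ¬ IsPGroup p H) (T : Sylow 2 H) : ¬ IsMulCommutative T := by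
  intro hT
  have hab' : ∀ T' : Sylow 2 H, IsMulCommutative T' := fun T' => by
    haveI : Fact (Nat.Prime 2) := ⟨Nat.prime_two⟩
    obtain ⟨g, rfl⟩ := MulAction.exists_smul_eq H T T'
    rw [Sylow.coe_subgroup_smul]
    exact Subgroup.map_isMulCommutative _ _
  subst hab
  exact hnp (CfsgLib.ThompsonJ.isPGroup_closure_pair_of_slFree hp hV
    (hHV (Subgroup.subset_closure (Or.inl rfl))) (hHV (Subgroup.subset_closure (Or.inr rfl))) hf ha hb
    (CfsgLib.PGroups.SLFree.of_abelian_sylow_two hp hab'))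

end Cfsg.Agent.S0593
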