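import Cfsg.Statements.S0594
import Cfsg.Agent.Lib.ThompsonJ.QuadraticPair
import Cfsg.Agent.Lib.PSolvable.Basic
-- import your own Cfsg.Agent.* helpers here

set_option autoImplicit false
open Cfsg

namespace Cfsg.Agent.S0594

/-- For odd p, two quadratic generators of a faithful group that is not a p-group, one of which acts nontrivially on a normal subgroup of order prime to p, force p = 3 and a section isomorphic to SL(2,3). -/
theorem result {G : Type*} [Group G] [Finite G] {p : ℕ} [Fact p.Prime] (hp : p ≠ 2) (V H : Subgroup G) (hV : Cfsg.IsElementaryAbelian p V) (hHV : H ≤ Subgroup.normalizer (V : Set G)) (hf : H ⊓ Subgroup.centralizer (V : Set G) = ⊥) (a b : G) (hab : H = Subgroup.closure {a, b}) (ha : ⁅⁅V, Subgroup.zpowers a⁆, Subgroup.zpowers a⁆ = ⊥) (hb : ⁅⁅V, Subgroup.zpowers b⁆, Subgroup.zpowers b⁆ = ⊥) (hnp : ¬ IsPGroup p H) (Q : Subgroup G) (hQH : Q ≤ H) (hQn : H ≤ Subgroup.normalizer (Q : Set G)) (hQ : (Nat.card Q).Coprime p) (hQa : ⁅Q, Subgroup.zpowers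 a⁆ ≠ ⊥) : p = 3 ∧ ∃ (K L : Subgroup G) (hL : (L.subgroupOf K).Normal), K ≤ H ∧ Nonempty ((K ⧸ L.subgroupOf K) ≃* Matrix.SpecialLinearGroup (Fin 2) (ZMod 3)) := by
  open CfsgLib.ThompsonJ in
  have hah : a ∈ H := hab ▸ Subgroup.subset_closure (Or.inl rfl)
  obtain ⟨y, hy, hya⟩ : ∃ y ∈ Q, a * y ≠ y * a := by
    by_contra h
    push_neg at h
    refine hQa (Subgroup.commutator_eq_bot_iff_le_centralizer.2 fun y hy => ?_)
    rintro _ ⟨n, rfl⟩
    exact ((show Commute a y from h y hy).zpow_left n).eq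
  set b' := y * a * y⁻¹ with hb'
  set X := Subgroup.closure ({a, b'} : Set G) with hX
  have hyH : y ∈ H := hQH hy
  have hb'H : b' ∈ H := mul_mem (mul_mem hyH hah) (inv_mem hyH)
  have hXH : X ≤ H := (Subgroup.closure_le _).2 (by rintro x (rfl | rfl) <;> assumption)
  have hfX : X ⊓ Subgroup.centralizer (V : Set G) = ⊥ :=
    le_bot_iff.1 (hf ▸ inf_le_inf_right _ hXH)
  have hbq : ⁅⁅V, Subgroup.zpowers b'⁆, Subgroup.zpowers b'⁆ = ⊥ := by
    refine quadratic_zpowers_iff.2 fun v hv => ?_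
    have hv' : y⁻¹ * v * y ∈ V := (Subgroup.mem_normalizer_iff''.1 (hHV hyH) v).1 hv
    have h1 := congrArg (MulAut.conj y) (quadratic_zpowers_iff.1 ha _ hv')
    simpa [hb', commutatorElement_def, mul_assoc] using h1
  -- `Q X` is an extension of a `p'`-group by a `p`-group
  have hap : a ^ p = 1 := by
    have h1 := (quadratic_commutator_le (H := Subgroup.zpowers a) hV
      (Subgroup.zpowers_le.2 (hHV hah)) ha).2 a (Subgroup.mem_zpowers a)
    have h2 : a ^ p ∈ H ⊓ Subgroup.centralizer (V : Set G) := ⟨pow_mem hah p, h1⟩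
    rwa [hf, Subgroup.mem_bot] at h2
  have hQX : X ≤ Subgroup.normalizer (Q : Set G) := hXH.trans hQn
  haveI : (Q.subgroupOf X).Normal := Subgroup.normal_subgroupOf_of_le_normalizer hQX
  let f := QuotientGroup.mk' (Q.subgroupOf X)
  let a' : X := ⟨a, Subgroup.subset_closure (Or.inl rfl)⟩
  have hgen : Subgroup.closure {a', (⟨b', Subgroup.subset_closure (Or.inr rfl)⟩ : X)} = ⊤ := by
    refine Subgroup.map_injective X.subtype_injective ?_
    rw [MonoidHom.map_closure, ← MonoidHom.range_eq_map, Subgroup.range_subtype, Set.image_pair]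
    rfl
  have hcyc : ∀ q : X ⧸ Q.subgroupOf X, q ∈ Subgroup.zpowers (f a') := by
    intro q
    obtain ⟨x, rfl⟩ := QuotientGroup.mk'_surjective _ q
    have hle : Subgroup.closure {a', (⟨b', Subgroup.subset_closure (Or.inr rfl)⟩ : X)} ≤
        (Subgroup.zpowers (f a')).comap f := by
      refine (Subgroup.closure_le _).2 ?_
      rintro z (rfl | rfl)
      · exact Subgroup.mem_zpowers _
      · change f _ ∈ Subgroup.zpowers (f a')
        have : f ⟨b', Subgroup.subset_closure (Or.inr rfl)⟩ = f a' := by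
          refine QuotientGroup.eq.2 ?_
          change b'⁻¹ * a ∈ Q
          rw [hb', show (y * a * y⁻¹)⁻¹ * a = y * (a⁻¹ * y⁻¹ * a) by group]
          exact mul_mem hy ((Subgroup.mem_normalizer_iff''.1 (hQn hah) _).1 (inv_mem hy))
        rw [this]; exact Subgroup.mem_zpowers _
    exact hle (hgen ▸ Subgroup.mem_top x)
  have hquot : IsPGroup p (X ⧸ Q.subgroupOf X) := by
    intro q
    obtain ⟨n, rfl⟩ := hcyc q
    refine ⟨1, ?_⟩
    rw [pow_one, ← zpow_natCast, ← zpow_mul, mul_comm, zpow_mul, zpow_natCast, ← map_pow,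
      show a' ^ p = 1 from Subtype.ext hap, map_one, one_zpow]
  have hcop : (Nat.card (Q.subgroupOf X)).Coprime p := by
    refine hQ.coprime_dvd_left ?_
    rw [← Subgroup.card_map_of_injective X.subtype_injective, Subgroup.subgroupOf_map_subtype]
    exact Subgroup.card_dvd_of_le inf_le_left
  have hsol : Cfsg.IsPSolvable p X :=
    CfsgLib.PSolvable.isPSolvable_of_extension _
      (CfsgLib.PSolvable.isPSolvable_of_coprime hcop)
      (CfsgLib.PSolvable.isPSolvable_of_isPGroup hquot)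
  have hnpX : ¬ IsPGroup p X := by
    intro hXp
    have hmem : b' * a⁻¹ ∈ X :=
      mul_mem (Subgroup.subset_closure (Or.inr rfl)) (inv_mem (Subgroup.subset_closure (Or.inl rfl)))
    have hmemQ : b' * a⁻¹ ∈ Q := by
      rw [hb', show y * a * y⁻¹ * a⁻¹ = y * (a * y⁻¹ * a⁻¹) by group]
      exact mul_mem hy ((Subgroup.mem_normalizer_iff.1 (hQn hah) _).1 (inv_mem hy))
    obtain ⟨k, hk⟩ := hXp ⟨_, hmem⟩
    have h1 : b' * a⁻¹ = 1 := by
      rw [← orderOf_eq_one_iff]
      exact Nat.eq_one_of_dvd_coprimes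
        (((hQ.coprime_dvd_left (Subgroup.orderOf_dvd_natCard Q hmemQ))).pow_right k) dvd_rfl
        (orderOf_dvd_of_pow_eq_one (by simpa using congrArg Subtype.val hk))
    rw [hb', mul_inv_eq_one, mul_inv_eq_iff_eq_mul] at h1
    exact hya h1.symm
  have hnot : ¬ CfsgLib.PGroups.SLFree p X := fun h => hnpX
    (isPGroup_closure_pair_of_slFree hp hV (hHV hah) (hHV hb'H) hfX ha hbq h)
  have hp3 : p = 3 := by
    by_contra h3
    exact hnot (CfsgLib.PGroups.SLFree.of_isPSolvable
      (Nat.Prime.five_le_of_ne_two_of_ne_three Fact.out hp h3) hsol)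
  subst hp3
  obtain ⟨K, L, hL, hK, he⟩ := exists_section_of_not_slFree hnot
  exact ⟨rfl, K, L, hL, hK.trans hXH, he⟩

end Cfsg.Agent.S0594
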