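import Cfsg.Statements.S0596
import Cfsg.Agent.Lib.PGroups.FaithfulStableSL

set_option autoImplicit false
open Cfsg

namespace Cfsg.Agent.S0596

/-- For odd p, a p-separable group with a faithful action on an elementary abelian p-group that is not p-stable has p = 3 and involves SL(2,3). -/
theorem result {G : Type*} [Group G] [Finite G] {p : ℕ} [Fact p.Prime] (hp : p ≠ 2) (V H : Subgroup G) (hV : Cfsg.IsElementaryAbelian p V) (hHV : H ≤ Subgroup.normalizer (V : Set G)) (hf : H ⊓ Subgroup.centralizer (V : Set G) = ⊥) (hsep : Cfsg.IsPSolvable p H) (a : G) (haH : a ∈ H) (hq : ⁅⁅V, Subgroup.zpowers a⁆, Subgroup.zpowers a⁆ = ⊥) (hna : a ∉ (Cfsg.pCore p H).map H.subtype) : p = 3 ∧ ∃ (K L : Subgroup G) (hL : (L.subgroupOf K).Normal), K ≤ H ∧ Nonempty ((K ⧸ L.subgroupOf K) ≃* Matrix.SpecialLinearGroup (Fin 2) (ZMod 3)) := by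
  have hnot : ¬ CfsgLib.PGroups.SLFree p H := fun h =>
    hna (h.mem_map_pCore_of_quadratic hp hV hHV hf haH hq)
  have hp3 : p = 3 := by
    by_contra h3
    exact hnot (CfsgLib.PGroups.SLFree.of_isPSolvable
      (Nat.Prime.five_le_of_ne_two_of_ne_three Fact.out hp h3) hsep)
  refine ⟨hp3, ?_⟩
  subst hp3
  simp only [CfsgLib.PGroups.SLFree, not_forall, not_not] at hnot
  obtain ⟨K, f, hf'⟩ := hnot
  obtain ⟨M, hM⟩ : ∃ M : Subgroup G, M = K.map H.subtype := ⟨_, rfl⟩
  let e : M ≃* K := (MulEquiv.subgroupCongr hM).trans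
    (K.equivMapOfInjective H.subtype H.subtype_injective).symm
  have hsurj : Function.Surjective (f.comp e.toMonoidHom) := hf'.comp e.surjective
  obtain ⟨L, hL⟩ : ∃ L : Subgroup G, L = (f.comp e.toMonoidHom).ker.map M.subtype := ⟨_, rfl⟩
  have hLK : L.subgroupOf M = (f.comp e.toMonoidHom).ker := by
    rw [hL]
    exact Subgroup.comap_map_eq_self_of_injective M.subtype_injective _
  have hn : (L.subgroupOf M).Normal := hLK ▸ inferInstance
  exact ⟨M, L, hn, hM ▸ Subgroup.map_subtype_le _,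
    ⟨(QuotientGroup.quotientMulEquivOfEq hLK).trans
      (QuotientGroup.quotientKerEquivOfSurjective _ hsurj)⟩⟩

end Cfsg.Agent.S0596
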