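import Cfsg.Statements.S0601
import Cfsg.Agent.Lib.ThompsonJ.FixedPointModule
-- import your own Cfsg.Agent.* helpers here

set_option autoImplicit false
open Cfsg

namespace Cfsg.Agent.S0601

/-- When O_p(G) contains its centralizer, the normal closure of Ω₁(Z(S)) is elementary abelian and G has no nontrivial normal p-subgroup modulo its centralizer. -/
theorem result {G : Type*} [Group G] [Finite G] {p : ℕ} [Fact p.Prime] (hc : Subgroup.centralizer (Cfsg.pCore p G : Set G) ≤ Cfsg.pCore p G) : (⨆ S : Sylow p G, Cfsg.omegaOne p (((S : Subgroup G)) ⊓ Subgroup.centralizer ((S : Subgroup G) : Set G))).Normal ∧ Cfsg.IsElementaryAbelian p (⨆ S : Sylow p G, Cfsg.omegaOne p (((S : Subgroup G)) ⊓ Subgroup.centralizer ((S : Subgroup G) : Set G))) ∧ ∀ D : Subgroup G, D.Normal → Subgroup.centralizer ((⨆ S : Sylow p G, Cfsg.omegaOne p (((S : Subgroup G)) ⊓ Subgroup.centralizer ((S : Subgroup G) : Set G)) : Subgroup G) : Set G) ≤ D → (∃ k : ℕ, (Subgroup.centralizer ((⨆ S : Sylow p G, Cfsg.omegaOne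 p (((S : Subgroup G)) ⊓ Subgroup.centralizer ((S : Subgroup G) : Set G)) : Subgroup G) : Set G)).relIndex D = p ^ k) → D = Subgroup.centralizer ((⨆ S : Sylow p G, Cfsg.omegaOne p (((S : Subgroup G)) ⊓ Subgroup.centralizer ((S : Subgroup G) : Set G)) : Subgroup G) : Set G) := by
  refine ⟨CfsgLib.ThompsonJ.iSup_omegaCenter_normal,
    CfsgLib.ThompsonJ.isElementaryAbelian_iSup_omegaCenter hc, fun D hD hCD hk => ?_⟩
  haveI := hD
  exact le_antisymm (CfsgLib.ThompsonJ.le_centralizer_of_relIndex (T := fun S : Sylow p G => S)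
    (le_refl _) CfsgLib.ThompsonJ.sylow_le_centralizer_omegaCenter
    (fun S => le_iSup (fun T : Sylow p G => Cfsg.omegaOne p ((T : Subgroup G) ⊓
      Subgroup.centralizer ((T : Subgroup G) : Set G))) S) hCD hk) hCD

end Cfsg.Agent.S0601
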