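import Cfsg.Statements.S0609
import Cfsg.Agent.Lib.ThompsonJ.CoprimeQuotient
import Cfsg.Agent.Lib.Cores.PCore
-- import your own Cfsg.Agent.* helpers here

set_option autoImplicit false
open Cfsg

namespace Cfsg.Agent.S0609

/-- Thompson factorizability passes to and from the quotient by the largest normal subgroup of order prime to p. -/
theorem result {G : Type*} [Group G] [Finite G] {p : ℕ} [Fact p.Prime] : Cfsg.IsThompsonFactorizable p G ↔ Cfsg.IsThompsonFactorizable p (G ⧸ Cfsg.pPrimeCore p G) := by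
  open CfsgLib.ThompsonJ in
  set N := Cfsg.pPrimeCore p G with hNdef
  set f := QuotientGroup.mk' N with hf
  have hN : (Nat.card N).Coprime p := CfsgLib.Cores.card_pPrimeCore_coprime p
  have hbot : Cfsg.pPrimeCore p (G ⧸ N) = ⊥ := CfsgLib.Cores.pPrimeCore_quotient_pPrimeCore p
  have hsurj : Function.Surjective f := QuotientGroup.mk'_surjective N
  have hS : ∀ S : Sylow p G,
      ((S.mapSurjective hsurj : Sylow p (G ⧸ N)) : Subgroup (G ⧸ N)) = (S : Subgroup G).map f :=
    fun S => rfl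
  have hinj : ∀ S : Sylow p G, Function.Injective (f.comp (S : Subgroup G).subtype) :=
    fun S => injective_mk'_comp_subtype hN S.isPGroup'
  constructor
  · intro h T y
    obtain ⟨S, rfl⟩ := Sylow.mapSurjective_surjective hsurj p T
    obtain ⟨g, rfl⟩ := hsurj y
    obtain ⟨x, hx, c, hc, n, hn, rfl⟩ := h S g
    refine ⟨1, one_mem _, f c, ?_, f n, ?_, ?_⟩
    · rw [hS, ← map_omegaCenter_of_injective f (hinj S)]
      rintro _ ⟨z, hz, rfl⟩
      rw [← map_mul, ← map_mul, hc z hz]
    · rw [hS, ← map_thompsonSubgroupOf_of_injective f (hinj S)]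
      exact Subgroup.le_normalizer_map f ⟨n, hn, rfl⟩
    · rw [one_mul, map_mul, map_mul, show f x = 1 from (QuotientGroup.eq_one_iff x).2 hx, one_mul]
  · intro h S g
    obtain ⟨z, hz, c', hc', n', hn', hg⟩ := h (S.mapSurjective hsurj) (f g)
    rw [hbot, Subgroup.mem_bot] at hz
    obtain ⟨c, rfl⟩ := hsurj c'
    obtain ⟨n, rfl⟩ := hsurj n'
    rw [hz, one_mul, ← map_mul] at hg
    rw [hS, ← map_omegaCenter_of_injective f (hinj S)] at hc'
    rw [hS, ← map_thompsonSubgroupOf_of_injective f (hinj S)] at hn'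
    obtain ⟨m₁, hm₁, c₁, hc₁, rfl⟩ := exists_mul_centralizer hN
      (S.isPGroup'.to_le ((omegaOne_le p _).trans inf_le_left)) hc'
    obtain ⟨m₂, hm₂, n₁, hn₁, rfl⟩ := exists_mul_normalizer hN
      (S.isPGroup'.to_le (thompsonSubgroupOf_le p _)) hn'
    set rest := m₁ * c₁ * (m₂ * n₁) with hrest
    refine ⟨g * (c₁ * n₁)⁻¹, ?_, c₁, hc₁, n₁, hn₁, by group⟩
    rw [← QuotientGroup.eq_one_iff]
    change f (g * (c₁ * n₁)⁻¹) = 1
    rw [map_mul, hg, hrest, map_inv]
    simp only [map_mul, show f m₁ = 1 from (QuotientGroup.eq_one_iff m₁).2 hm₁,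
      show f m₂ = 1 from (QuotientGroup.eq_one_iff m₂).2 hm₂, one_mul]
    group

end Cfsg.Agent.S0609
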