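import Cfsg.Statements.S0627
import Cfsg.Agent.Lib.ThompsonJ.StableNormal
import Cfsg.Agent.Lib.ThompsonJ.CoprimeQuotient
import Cfsg.Agent.Lib.PSolvable.HallHigman
import Cfsg.Agent.S0625
-- import your own Cfsg.Agent.* helpers here

set_option autoImplicit false
open Cfsg

namespace Cfsg.Agent.S0627

/-- In a p-separable group with p at least 5, the normalizer of W(S) supplements the largest normal subgroup of order prime to p. -/
theorem result {G : Type*} [Group G] [Finite G] {p : ℕ} [Fact p.Prime] (hp : 5 ≤ p) (hsep : Cfsg.IsPSolvable p G) (S : Sylow p G) : Cfsg.pPrimeCore p G ⊔ Subgroup.normalizer (((Cfsg.stableNormalClosure p ↥(S : Subgroup G)).map (S : Subgroup G).subtype) : Set G) = ⊤ := by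
  open CfsgLib.ThompsonJ in
  set N := Cfsg.pPrimeCore p G with hNdef
  set f := QuotientGroup.mk' N with hfdef
  set W := (Cfsg.stableNormalClosure p ↥(S : Subgroup G)).map (S : Subgroup G).subtype with hWdef
  have hN : (Nat.card N).Coprime p := CfsgLib.Cores.card_pPrimeCore_coprime p
  have hq : Cfsg.IsPSolvable p (G ⧸ N) := CfsgLib.PSolvable.isPSolvable_quotient hsep N
  have hbot : Cfsg.pPrimeCore p (G ⧸ N) = ⊥ := CfsgLib.Cores.pPrimeCore_quotient_pPrimeCore p
  have hc := CfsgLib.PSolvable.centralizer_pCore_le hq hbot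
  set T : Sylow p (G ⧸ N) := S.mapSurjective (QuotientGroup.mk'_surjective N) with hT
  have hn := stableNormalClosure_normal T (Cfsg.Agent.S0625.result hp hq) hc
  have hinj : Function.Injective (f.comp (S : Subgroup G).subtype) :=
    injective_mk'_comp_subtype hN S.isPGroup'
  have hrange : (f.comp (S : Subgroup G).subtype).range = (T : Subgroup (G ⧸ N)) := by
    rw [MonoidHom.range_comp, Subgroup.range_subtype]; rfl
  let η : (S : Subgroup G) ≃* (T : Subgroup (G ⧸ N)) :=
    (MonoidHom.ofInjective hinj).trans (MulEquiv.subgroupCongr hrange)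
  have hη : (T : Subgroup (G ⧸ N)).subtype.comp η.toMonoidHom = f.comp (S : Subgroup G).subtype :=
    MonoidHom.ext fun _ => rfl
  rw [← map_stableNormalClosure_equiv η, Subgroup.map_map, hη, ← Subgroup.map_map, ← hWdef] at hn
  rw [eq_top_iff]
  intro x _
  haveI := hn
  obtain ⟨m, hm, k, hk, rfl⟩ := exists_mul_normalizer hN
    (S.isPGroup'.to_le (Subgroup.map_subtype_le _) : IsPGroup p W) (x := x)
    (by rw [Subgroup.normalizer_eq_top]; exact Subgroup.mem_top _)
  exact Subgroup.mul_mem_sup hm hk

end Cfsg.Agent.S0627
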