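import Cfsg.Statements.S0629
import Cfsg.Agent.Lib.SectRank.Constrained
import Cfsg.Agent.Lib.PSolvable.HallHigman

set_option autoImplicit false
open Cfsg

namespace Cfsg.Agent.S0629

/-- A group in which the centralizer of a Sylow p-subgroup of O_{p',p}(G) is p-solvable is p-constrained. -/
theorem result {G : Type*} [Group G] [Finite G] {p : ℕ} [Fact p.Prime] (P : Sylow p ↥(Cfsg.pPrimePCore p G)) (hsol : Cfsg.IsPSolvable p ↥(Subgroup.centralizer (((P : Subgroup ↥(Cfsg.pPrimePCore p G)).map (Cfsg.pPrimePCore p G).subtype : Subgroup G) : Set G))) : Cfsg.IsPConstrained p G := by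
  rw [CfsgLib.SectRank.isPConstrained_iff]
  set O := Cfsg.pPrimeCore p G with hO
  set π := QuotientGroup.mk' O with hπ
  set R := Cfsg.pCore p (G ⧸ O) with hR
  set PG := (P : Subgroup ↥(Cfsg.pPrimePCore p G)).map (Cfsg.pPrimePCore p G).subtype with hPG
  have hPR : PG.map π = R := CfsgLib.SectRank.map_sylow_pPrimePCore P
  set C := Subgroup.centralizer (R : Set (G ⧸ O)) with hC
  have hCeq : (Subgroup.centralizer (PG : Set G)).map π = C := by
    refine le_antisymm ?_ fun x hx => ?_
    · rintro _ ⟨c, hc, rfl⟩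
      refine Subgroup.mem_centralizer_iff.2 fun y hy => ?_
      rw [SetLike.mem_coe, ← hPR] at hy
      obtain ⟨u, hu, rfl⟩ := hy
      rw [← map_mul, ← map_mul, Subgroup.mem_centralizer_iff.1 hc u hu]
    · obtain ⟨g, rfl⟩ := QuotientGroup.mk'_surjective O x
      obtain ⟨o, ho, hoc⟩ := CfsgLib.SectRank.exists_mul_mem_centralizer
        (P.2.map (Cfsg.pPrimePCore p G).subtype) (CfsgLib.Cores.card_pPrimeCore_coprime p)
        (h := g) fun y hy => by
          have hy' : π y ∈ R := hPR ▸ Subgroup.mem_map_of_mem _ hy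
          have hcm := Subgroup.mem_centralizer_iff.1 hx _ hy'
          rw [← QuotientGroup.eq_one_iff (N := O), ← QuotientGroup.mk'_apply, ← hπ,
            map_mul, map_mul, map_mul, map_inv, map_inv]
          simp only [hπ] at hcm ⊢
          rw [← hcm]
          group
      exact ⟨o * g, hoc, by rw [map_mul, hπ, QuotientGroup.mk'_apply,
        (QuotientGroup.eq_one_iff o).2 ho, one_mul]⟩
  have hCsol : Cfsg.IsPSolvable p ↥C := by
    rw [← hCeq]
    exact CfsgLib.PSolvable.isPSolvable_of_surjective hsol (π.subgroupMap_surjective _)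
  have hsn : C.IsSubnormal := Subgroup.Normal.isSubnormal inferInstance
  have hCbot : Cfsg.pPrimeCore p ↥C = ⊥ := by
    have h := CfsgLib.Cores.map_subtype_pPrimeCore_le (p := p) hsn
    rw [show Cfsg.pPrimeCore p (G ⧸ O) = ⊥ from CfsgLib.Cores.pPrimeCore_quotient_pPrimeCore p, le_bot_iff] at h
    exact (Subgroup.map_eq_bot_iff_of_injective _ C.subtype_injective).1 h
  have hHH := CfsgLib.PSolvable.centralizer_pCore_le hCsol hCbot
  have hle := CfsgLib.Cores.map_subtype_pCore_le (p := p) hsn
  intro x hx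
  refine hle ⟨⟨x, hx⟩, hHH (Subgroup.mem_centralizer_iff.2 fun z hz => Subtype.ext ?_), rfl⟩
  exact Subgroup.mem_centralizer_iff.1 hx _ (hle ⟨z, hz, rfl⟩)

end Cfsg.Agent.S0629
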