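import Cfsg.Statements.S0634
import Cfsg.Agent.Lib.PSolvable.Series

set_option autoImplicit false
open Cfsg

namespace Cfsg.Agent.S0634

/-- In a p-soluble group each p-factor of the upper p-series contains its own centralizer in the corresponding quotient. -/
theorem result {G : Type*} [Group G] [Finite G] {p : ℕ} [Fact p.Prime] (hsol : Cfsg.IsPSolvable p G) (k : ℕ) : Subgroup.centralizer ((((Cfsg.upperPSeries p G (2 * k + 2)).1.map (QuotientGroup.mk' (Cfsg.upperPSeries p G (2 * k + 1)).1)) : Subgroup (G ⧸ (Cfsg.upperPSeries p G (2 * k + 1)).1)) : Set (G ⧸ (Cfsg.upperPSeries p G (2 * k + 1)).1)) ≤ (Cfsg.upperPSeries p G (2 * k + 2)).1.map (QuotientGroup.mk' (Cfsg.upperPSeries p G (2 * k + 1)).1) := by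
  set n := 2 * k + 1 with hn
  set Q := G ⧸ (Cfsg.upperPSeries p G n).1 with hQ
  have hodd : ¬ Even n := by simp [hn, Nat.even_add_one]
  have hmap : (Cfsg.upperPSeries p G (2 * k + 2)).1.map (QuotientGroup.mk' (Cfsg.upperPSeries p G n).1)
      = Cfsg.pCore p (G ⧸ (Cfsg.upperPSeries p G n).1) := by
    rw [show 2 * k + 2 = n + 1 from rfl, CfsgLib.PSolvable.upperPSeries_succ_of_odd hodd,
      Subgroup.map_comap_eq_self_of_surjective (QuotientGroup.mk'_surjective _)]
  rw [hmap]
  exact CfsgLib.PSolvable.centralizer_pCore_le (CfsgLib.PSolvable.isPSolvable_quotient hsol _)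
    (CfsgLib.PSolvable.pPrimeCore_quotient_upperPSeries (even_two_mul k))

end Cfsg.Agent.S0634
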