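import Cfsg.Statements.S0635
import Cfsg.Agent.Lib.PSolvable.Series
import Cfsg.Agent.Lib.MetacyclicP.PLength

set_option autoImplicit false
open Cfsg

namespace Cfsg.Agent.S0635

open Cfsg CfsgLib in
theorem pLengthLE_of_class {p : ℕ} [Fact p.Prime] : ∀ (c : ℕ) {G : Type*} [Group G] [Finite G],
    IsPSolvable p G → ∀ S : Sylow p G, Group.nilpotencyClass ↥(S : Subgroup G) ≤ c →
      PLengthLE p c G := by
  intro c
  induction c with
  | zero =>
    intro G _ _ _ S hc
    haveI : Group.IsNilpotent ↥(S : Subgroup G) := S.2.isNilpotent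
    have hsub := Group.nilpotencyClass_zero_iff_subsingleton.1 (Nat.le_zero.1 hc)
    rw [PSolvable.pLengthLE_zero_iff]
    have h1 : Nat.card ↥(S : Subgroup G) = 1 := Nat.card_eq_one_iff_unique.2 ⟨hsub, ⟨1⟩⟩
    have h2 := (S : Subgroup G).card_mul_index
    rw [h1, one_mul] at h2
    rw [← h2]
    exact ((Fact.out : p.Prime).coprime_iff_not_dvd.2 S.not_dvd_index).symm
  | succ c ih =>
    intro G _ _ hG S hc
    haveI : Group.IsNilpotent ↥(S : Subgroup G) := S.2.isNilpotent
    set U := pPrimePCore p G with hU
    set π := QuotientGroup.mk' (pPrimeCore p G) with hπ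
    have hZ : (Subgroup.center ↥(S : Subgroup G)).map (S : Subgroup G).subtype ≤ U := by
      rintro _ ⟨z, hz, rfl⟩
      show π (z : G) ∈ pCore p (G ⧸ pPrimeCore p G)
      refine PSolvable.centralizer_pCore_le (PSolvable.isPSolvable_quotient hG _)
        (Cores.pPrimeCore_quotient_pPrimeCore p) (Subgroup.mem_centralizer_iff.2 fun y hy => ?_)
      obtain ⟨s, hs, rfl⟩ := Cores.pCore_le_sylow
        (S.mapSurjective (QuotientGroup.mk'_surjective (pPrimeCore p G))) hy
      rw [← map_mul, ← map_mul]
      exact congrArg π (congrArg Subtype.val (Subgroup.mem_center_iff.1 hz ⟨s, hs⟩))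
    set f := QuotientGroup.mk' U with hf
    set S' := S.mapSurjective (QuotientGroup.mk'_surjective U) with hS'
    have hclass : Group.nilpotencyClass ↥(S' : Subgroup (G ⧸ U)) ≤ c := by
      let g := f.subgroupMap (S : Subgroup G)
      have hle : Subgroup.center ↥(S : Subgroup G) ≤ g.ker := by
        intro z hz
        exact MonoidHom.mem_ker.2 (Subtype.ext
          ((QuotientGroup.eq_one_iff (z : G)).2 (hZ ⟨z, hz, rfl⟩)))
      have hsurj : Function.Surjective
          (QuotientGroup.lift (Subgroup.center ↥(S : Subgroup G)) g hle) := by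
        intro y
        obtain ⟨s, rfl⟩ := f.subgroupMap_surjective (S : Subgroup G) y
        exact ⟨QuotientGroup.mk s, rfl⟩
      have h1 : Group.nilpotencyClass ↥((S : Subgroup G).map f) ≤ c := by
        refine (Group.nilpotencyClass_le_of_surjective _ hsurj).trans ?_
        rw [Group.nilpotencyClass_quotient_center]
        omega
      exact h1
    have hH := ih (PSolvable.isPSolvable_quotient hG U) S' hclass
    have hker : f.ker ≤ (upperPSeries p G (2 * 1 + 1)).1 := by
      rw [hf, QuotientGroup.ker_mk', hU, ← PSolvable.upperPSeries_two]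
      exact PSolvable.upperPSeries_le_succ 2
    have h := MetacyclicP.comap_upperPSeries_add_le (QuotientGroup.mk'_surjective U) hker (2 * c)
    unfold PLengthLE at hH ⊢
    rw [hH, Subgroup.comap_top] at h
    refine top_le_iff.1 ?_
    rwa [show 2 * (c + 1) + 1 = 2 * 1 + (2 * c + 1) by ring]



/-- The p-length of a p-soluble group is at most the nilpotency class of its Sylow p-subgroups. -/
theorem result {G : Type*} [Group G] [Finite G] {p : ℕ} [Fact p.Prime] (hsol : Cfsg.IsPSolvable p G) (S : Sylow p G) : Cfsg.PLengthLE p (Group.nilpotencyClass ↥(S : Subgroup G)) G := by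
  exact pLengthLE_of_class _ hsol S le_rfl

end Cfsg.Agent.S0635
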