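import Cfsg.Statements.S0636
import Cfsg.Agent.Lib.PGroups.Omega

set_option autoImplicit false
open Cfsg

namespace Cfsg.Agent.S0636

open scoped commutatorElement in
universe u in
theorem exists_normal_sq_le_normal {G : Type u} [Group G] [Finite G] {p : ℕ} [hp : Fact p.Prime] (h2 : p ≠ 2)
    (hG : IsPGroup p G) (S : Subgroup G) [S.Normal] (hnc : ¬ IsCyclic S) :
    ∃ E : Subgroup G, E.Normal ∧ E ≤ S ∧ Cfsg.IsElementaryAbelian p E ∧ Nat.card E = p ^ 2 := by
  induction hn : Nat.card G using Nat.strong_induction_on generalizing G with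
  | _ n ih =>
    subst hn
    obtain ⟨m, hm⟩ := IsPGroup.iff_card.1 (hG.to_subgroup S)
    have hm1 : 1 ≤ m := by
      by_contra h0
      rw [show m = 0 by omega, pow_zero] at hm
      haveI := (Nat.card_eq_one_iff_unique.1 hm).1
      exact hnc inferInstance
    obtain ⟨Z, hZn, hZS, hZc⟩ :=
      CfsgLib.PGroups.exists_normal_card_le hG (N := S) (k := 1) hm hm1
    rw [pow_one] at hZc
    have hZle := CfsgLib.PGroups.le_center_of_card_eq_prime hG hZc
    set q := QuotientGroup.mk' Z with hq
    haveI hSn : (S.map q).Normal := Subgroup.Normal.map inferInstance q (QuotientGroup.mk'_surjective Z)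
    by_cases hc : IsCyclic (S.map q : Subgroup (G ⧸ Z))
    · have hker : (q.subgroupMap S).ker ≤ Subgroup.center S := by
        intro x hx
        have h1 : (x : G) ∈ Z :=
          (QuotientGroup.eq_one_iff _).1 (congrArg Subtype.val (MonoidHom.mem_ker.1 hx))
        exact Subgroup.mem_center_iff.2 fun y =>
          Subtype.ext (Subgroup.mem_center_iff.1 (hZle h1) y)
      have hcomm := commutative_of_cyclic_center_quotient (q.subgroupMap S) hker
      obtain ⟨E, h1, h0, h3, h4⟩ := CfsgLib.PGroups.exists_normal_sq_le h2 hG S hnc fun x hx y hy => by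
        rw [commutatorElement_eq_one_iff_mul_comm.2 (congrArg Subtype.val (hcomm ⟨x, hx⟩ ⟨y, hy⟩))]
        exact one_mem _
      exact ⟨E, h1, h0, h3, h4⟩
    have hlt : Nat.card (G ⧸ Z) < Nat.card G := by
      rw [← Z.index_mul_card, hZc, ← Subgroup.index_eq_card]
      exact lt_mul_of_one_lt_right (Nat.pos_of_ne_zero Subgroup.index_ne_zero_of_finite)
        hp.out.one_lt
    obtain ⟨F, hFn, hFS, hFe, hFc⟩ := ih _ hlt (hG.to_quotient Z) (S.map q) hc rfl
    set N := F.comap q with hN
    haveI hNn : N.Normal := hFn.comap _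
    have hmap : N.map q = F :=
      Subgroup.map_comap_eq_self_of_surjective (QuotientGroup.mk'_surjective Z) F
    have hNS : N ≤ S := by
      refine (Subgroup.comap_mono hFS).trans ?_
      rw [Subgroup.comap_map_eq, hq, QuotientGroup.ker_mk']
      exact sup_le le_rfl hZS
    have hFnc : ¬ IsCyclic F := by
      intro hc
      obtain ⟨f, hf⟩ := IsCyclic.exists_generator (α := F)
      have : Nat.card F ≤ p := by
        rw [← orderOf_eq_card_of_forall_mem_zpowers hf]
        exact Nat.le_of_dvd hp.out.pos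
          (orderOf_dvd_of_pow_eq_one (Subtype.ext (by simpa using hFe.2 f f.2)))
      rw [hFc] at this
      have := lt_self_pow₀ hp.out.one_lt (show 1 < 2 by omega)
      omega
    have hNnc : ¬ IsCyclic N := fun hc => hFnc <| by
      rw [← hmap]
      exact isCyclic_of_surjective (q.subgroupMap N) (MonoidHom.subgroupMap_surjective _ _)
    obtain ⟨E, h1, h0, h3, h4⟩ := CfsgLib.PGroups.exists_normal_sq_le h2 hG N hNnc fun x hx y hy => by
      apply hZle
      rw [← QuotientGroup.eq_one_iff]
      change q ⁅x, y⁆ = 1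
      rw [map_commutatorElement, commutatorElement_eq_one_iff_mul_comm]
      exact congrArg Subtype.val (hFe.1.is_comm.comm ⟨_, hx⟩ ⟨_, hy⟩)
    exact ⟨E, h1, h0.trans hNS, h3, h4⟩



/-- For odd p, every non-cyclic normal subgroup of a p-group contains a normal elementary abelian subgroup of the whole group of order p². -/
theorem result {R : Type*} [Group R] [Finite R] {p : ℕ} [Fact p.Prime] (hp : p ≠ 2) (hR : IsPGroup p R) (S : Subgroup R) [S.Normal] (hS : ¬ IsCyclic S) : ∃ A : Subgroup R, A ≤ S ∧ A.Normal ∧ Cfsg.IsElementaryAbelian p A ∧ Nat.card A = p ^ 2 := by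
  obtain ⟨E, h1, h2, h3, h4⟩ := exists_normal_sq_le_normal hp hR S hS
  exact ⟨E, h2, h1, h3, h4⟩

end Cfsg.Agent.S0636
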