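import Cfsg.Statements.S0640
import Cfsg.Agent.Lib.PGroups.Aut
import Cfsg.Agent.Lib.PGroups.NormalAbelian
import Cfsg.Agent.Lib.PGroups.Omega
open scoped commutatorElement

set_option autoImplicit false
open Cfsg

namespace Cfsg.Agent.S0640

/-- For odd p, a prime q ≠ p dividing the order of the automorphism group of a p-group of rank at most 2 divides p² - 1 and is less than p. -/
theorem result {R : Type*} [Group R] [Finite R] {p : ℕ} [Fact p.Prime] (hp : p ≠ 2) (hR : IsPGroup p R) (hrk : Cfsg.PRankLE p 2 R) (q : ℕ) (hq : q.Prime) (hqp : q ≠ p) (hdvd : q ∣ Nat.card (MulAut R)) : q ∣ p ^ 2 - 1 ∧ q < p := by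
  classical
  have hp' : p.Prime := Fact.out
  haveI := Fact.mk hq
  obtain ⟨φ, hφ⟩ := exists_prime_orderOf_dvd_card' (G := MulAut R) q hdvd
  have hcop : (orderOf φ).Coprime p := by rw [hφ]; exact (Nat.coprime_primes hq hp').2 hqp
  have hne : φ ≠ 1 := fun h => hq.ne_one (by rw [← hφ, h, orderOf_one])
  -- a minimal invariant subgroup on which `φ` is non-trivial
  obtain ⟨H, ⟨hHi, hHm⟩, hmin⟩ := Set.Finite.exists_minimalFor (fun H : Subgroup R => Nat.card H)
    {H : Subgroup R | (∀ x ∈ H, φ x ∈ H) ∧ ∃ x ∈ H, φ x ≠ x} (Set.toFinite _)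
    ⟨⊤, fun x _ => Subgroup.mem_top _, by
      by_contra h
      push Not at h
      exact hne (MulEquiv.ext fun x => h x (Subgroup.mem_top x))⟩
  have hsmall : ∀ K : Subgroup R, K < H → (∀ x ∈ K, φ x ∈ K) → ∀ x ∈ K, φ x = x := by
    intro K hK hKi
    by_contra h
    push Not at h
    have hle := hmin (j := K) ⟨hKi, h⟩ (Subgroup.card_le_of_le hK.le)
    exact hK.ne (Subgroup.eq_of_le_of_card_ge hK.le hle)
  have hHp : IsPGroup p H := hR.to_subgroup H
  -- the `p`-th powers and commutators of `H`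
  set K := Subgroup.closure {g | (∃ x ∈ H, g = x ^ p) ∨ ∃ x ∈ H, ∃ y ∈ H, g = ⁅x, y⁆} with hK
  have hKi : ∀ g ∈ K, φ g ∈ K := by
    intro g hg
    induction hg using Subgroup.closure_induction with
    | mem g hg =>
      refine Subgroup.subset_closure ?_
      rcases hg with ⟨x, hx, rfl⟩ | ⟨x, hx, y, hy, rfl⟩
      · exact Or.inl ⟨φ x, hHi x hx, map_pow _ _ _⟩
      · exact Or.inr ⟨φ x, hHi x hx, φ y, hHi y hy, map_commutatorElement _ _ _⟩
    | one => rw [map_one]; exact one_mem _
    | mul s t _ _ hs ht => rw [map_mul]; exact mul_mem hs ht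
    | inv s _ hs => rw [map_inv]; exact inv_mem hs
  have hKlt : K < H := by
    refine lt_of_le_of_lt (show K ≤ (frattini H).map H.subtype from ?_) ?_
    · rw [hK, Subgroup.closure_le]
      rintro g (⟨x, hx, rfl⟩ | ⟨x, hx, y, hy, rfl⟩)
      · exact ⟨(⟨x, hx⟩ : H) ^ p, CfsgLib.PGroups.pow_mem_frattini hHp _, rfl⟩
      · exact ⟨⁅(⟨x, hx⟩ : H), ⟨y, hy⟩⁆, CfsgLib.PGroups.commutatorElement_mem_frattini hHp _ _,
          map_commutatorElement _ _ _⟩
    · refine lt_of_le_of_ne (Subgroup.map_subtype_le _) fun he => ?_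
      have htop : frattini H = ⊤ := Subgroup.map_injective H.subtype_injective
        (by rw [he, ← MonoidHom.range_eq_map, Subgroup.range_subtype])
      have hbt : (⊥ : Subgroup H) = ⊤ := frattini_nongenerating (by rw [htop, sup_top_eq])
      obtain ⟨x, hx, hxne⟩ := hHm
      have h1 : (⟨x, hx⟩ : H) ∈ (⊥ : Subgroup H) := hbt ▸ Subgroup.mem_top _
      have hx1 : x = 1 := congrArg Subtype.val (Subgroup.mem_bot.1 h1)
      exact hxne (by rw [hx1, map_one])
  have hKfix := hsmall K hKlt hKi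
  -- `H` is generated by the `x⁻¹ φ x`
  set D := Subgroup.closure {g | ∃ x ∈ H, g = x⁻¹ * φ x} with hD
  have hDH : D = H := by
    have hle : D ≤ H := (Subgroup.closure_le H).2 (by
      rintro g ⟨x, hx, rfl⟩; exact H.mul_mem (H.inv_mem hx) (hHi x hx))
    refine hle.eq_of_not_lt fun hlt => ?_
    obtain ⟨x, hx, hxne⟩ := hHm
    refine hxne (CfsgLib.PGroups.fixed_of_fixed_diff hR φ hcop (hsmall D hlt ?_ _
      (Subgroup.subset_closure ⟨x, hx, rfl⟩)))
    intro g hg
    induction hg using Subgroup.closure_induction with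
    | mem g hg =>
      obtain ⟨y, hy, rfl⟩ := hg
      exact Subgroup.subset_closure ⟨φ y, hHi y hy, by rw [map_mul, map_inv]⟩
    | one => rw [map_one]; exact one_mem _
    | mul s t _ _ hs ht => rw [map_mul]; exact mul_mem hs ht
    | inv s _ hs => rw [map_inv]; exact inv_mem hs
  have hcen : ∀ x ∈ H, ∀ y ∈ H, ∀ z ∈ H, Commute ⁅x, y⁆ z := by
    intro x hx y hy z hz
    have hk : ⁅x, y⁆ ∈ K := Subgroup.subset_closure (Or.inr ⟨x, hx, y, hy, rfl⟩)
    have hall : D ≤ Subgroup.centralizer ({⁅x, y⁆} : Set R) := by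
      rw [hD, Subgroup.closure_le]
      rintro g ⟨u, hu, rfl⟩
      rw [SetLike.mem_coe, Subgroup.mem_centralizer_singleton_iff]
      have hconj : u * ⁅x, y⁆ * u⁻¹ ∈ K := by
        rw [conjugate_commutatorElement]
        exact Subgroup.subset_closure (Or.inr ⟨_, H.mul_mem (H.mul_mem hu hx) (H.inv_mem hu), _,
          H.mul_mem (H.mul_mem hu hy) (H.inv_mem hu), rfl⟩)
      have h1 := hKfix _ hconj
      rw [map_mul, map_mul, map_inv, hKfix _ hk] at h1
      calc u⁻¹ * φ u * ⁅x, y⁆ = u⁻¹ * (φ u * ⁅x, y⁆ * (φ u)⁻¹) * φ u := by group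
        _ = u⁻¹ * (u * ⁅x, y⁆ * u⁻¹) * φ u := by rw [h1]
        _ = ⁅x, y⁆ * (u⁻¹ * φ u) := by group
    exact (Subgroup.mem_centralizer_singleton_iff.1 (hall (hDH.symm ▸ hz))).symm
  have hHcl : ⁅commutator H, (⊤ : Subgroup H)⁆ = ⊥ := by
    rw [Subgroup.commutator_top_right_eq_bot_iff_le_center, commutator_def, Subgroup.commutator_le]
    intro x _ y _
    refine Subgroup.mem_center_iff.2 fun z => Subtype.ext ?_
    exact (hcen x x.2 y y.2 z z.2).eq.symm
  -- exponent `p`
  let W : Subgroup R :=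
    { carrier := {x | x ∈ H ∧ x ^ p = 1}
      one_mem' := ⟨one_mem H, one_pow p⟩
      mul_mem' := fun {a b} ha hb => ⟨mul_mem ha.1 hb.1, by
        have := CfsgLib.PGroups.mul_pow_eq_one_of_small_class (G := H) (p := p) (x := ⟨a, ha.1⟩)
          (y := ⟨b, hb.1⟩) (Or.inl ⟨hp, hHcl⟩) (Subtype.ext (by simpa using ha.2))
          (Subtype.ext (by simpa using hb.2))
        simpa using congrArg Subtype.val this⟩
      inv_mem' := fun {a} ha => ⟨inv_mem ha.1, by rw [inv_pow, ha.2, inv_one]⟩ }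
  have hexp : ∀ x ∈ H, x ^ p = 1 := by
    by_contra h
    push Not at h
    have hWlt : W < H := by
      refine lt_of_le_of_ne (fun x hx => hx.1) fun he => ?_
      obtain ⟨x, hx, hxp⟩ := h
      rw [← he] at hx
      exact hxp hx.2
    have hfix := hsmall W hWlt fun x hx => ⟨hHi x hx.1, by rw [← map_pow, hx.2, map_one]⟩
    obtain ⟨x, hx, hxne⟩ := hHm
    let ψ : H →* H := (φ.toMonoidHom.comp H.subtype).codRestrict H fun y => hHi y y.2
    have hψb : Function.Bijective ψ := Finite.injective_iff_bijective.1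
      fun a b hab => Subtype.ext (φ.injective (congrArg Subtype.val hab))
    let φH : MulAut H := MulEquiv.ofBijective ψ hψb
    have hpowφ : ∀ (k : ℕ) (y : H), (((φH ^ k) y : H) : R) = (φ ^ k) y := by
      intro k
      induction k with
      | zero => intro y; rfl
      | succ k ih =>
        intro y
        rw [pow_succ', pow_succ', MulAut.mul_apply, MulAut.mul_apply, ← ih]
        rfl
    have hdiv : orderOf φH ∣ orderOf φ := orderOf_dvd_of_pow_eq_one (MulEquiv.ext fun y =>
      Subtype.ext (by rw [hpowφ, pow_orderOf_eq_one]; rfl))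
    have h1 := CfsgLib.PGroups.eq_one_of_fixed_omega hp hHp φH (hcop.coprime_dvd_left hdiv)
      fun y hy => Subtype.ext (hfix y ⟨y.2, by simpa using congrArg Subtype.val hy⟩)
    exact hxne (congrArg Subtype.val (congrArg (fun e : MulAut H => e ⟨x, hx⟩) h1))
  -- order and fixed points
  have hrkH : ∀ E : Subgroup H, Cfsg.IsElementaryAbelian p E → Nat.card E ≤ p ^ 2 := by
    intro E hE
    have h1 := hrk (E.map H.subtype) ?_ ?_
    · rwa [Subgroup.card_subtype] at h1
    · have := hE.1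
      exact Subgroup.map_isMulCommutative E _
    · rintro _ ⟨e, he, rfl⟩
      rw [← map_pow, hE.2 e he, map_one]
  have hH3 := CfsgLib.PGroups.card_le_of_exponent_rank_two (G := H) (p := p)
    (fun x => Subtype.ext (by simpa using hexp x x.2)) hrkH
  obtain ⟨j, hj⟩ := IsPGroup.iff_card.1 hHp
  set F := (φ.toMonoidHom.eqLocus (MonoidHom.id R)) ⊓ H with hF
  obtain ⟨i, hi⟩ := IsPGroup.iff_card.1 (hR.to_subgroup F)
  have hFlt : F < H := by
    refine lt_of_le_of_ne inf_le_right fun he => ?_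
    obtain ⟨x, hx, hxne⟩ := hHm
    rw [← he] at hx
    exact hxne hx.1
  have hij : i < j := by
    by_contra hle
    have h1 : Nat.card H ≤ Nat.card F := by
      rw [hi, hj]
      exact Nat.pow_le_pow_right hp'.pos (by omega)
    exact hFlt.ne (Subgroup.eq_of_le_of_card_ge hFlt.le h1)
  have hji : j ≤ i + 2 := by
    have hj3 : j ≤ 3 := by
      rw [hj] at hH3
      exact (Nat.pow_le_pow_iff_right hp'.one_lt).1 hH3
    rcases Nat.eq_zero_or_pos i with h0 | h0
    · have hKb : K = ⊥ := by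
        refine eq_bot_iff.2 fun x hx => ?_
        have h1 : x ∈ F := ⟨hKfix x hx, hKlt.le hx⟩
        rw [h0, pow_zero] at hi
        rwa [Subgroup.eq_bot_of_card_eq F hi] at h1
      have hab : IsMulCommutative (⊤ : Subgroup H) := ⟨⟨fun u v => by
        have h1 : ⁅((u : H) : R), ((v : H) : R)⁆ ∈ K :=
          Subgroup.subset_closure (Or.inr ⟨_, u.1.2, _, v.1.2, rfl⟩)
        rw [hKb, Subgroup.mem_bot] at h1
        exact Subtype.ext (Subtype.ext (commutatorElement_eq_one_iff_mul_comm.1 h1))⟩⟩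
      have h1 := hrkH ⊤ ⟨hab, fun x _ => Subtype.ext (by simpa using hexp x x.2)⟩
      rw [Subgroup.card_top, hj] at h1
      have := (Nat.pow_le_pow_iff_right hp'.one_lt).1 h1
      omega
    · omega
  -- orbits of `φ` on `H`
  letI : MulAction (Subgroup.zpowers φ) H :=
    { smul := fun g x => ⟨(g : MulAut R) x, by
        obtain ⟨k, hk⟩ := mem_powers_iff_mem_zpowers.2 g.2
        have hk' : φ ^ k = (g : MulAut R) := hk
        rw [← hk']
        have hall : ∀ m : ℕ, ∀ y ∈ H, (φ ^ m) y ∈ H := by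
          intro m
          induction m with
          | zero => intro y hy; simpa using hy
          | succ m ih => intro y hy; rw [pow_succ', MulAut.mul_apply]; exact hHi _ (ih y hy)
        exact hall k x x.2⟩
      one_smul := fun x => Subtype.ext rfl
      mul_smul := fun g h x => Subtype.ext rfl }
  have hzp : IsPGroup q (Subgroup.zpowers φ) := IsPGroup.of_card (n := 1) (by
    rw [Nat.card_zpowers, hφ, pow_one])
  have hmod := hzp.card_modEq_card_fixedPoints H
  have hfix : Nat.card (MulAction.fixedPoints (Subgroup.zpowers φ) H) = Nat.card F := by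
    refine Nat.card_congr
      { toFun := fun x => ⟨(x.1 : R), congrArg Subtype.val (x.2 ⟨φ, Subgroup.mem_zpowers φ⟩), x.1.2⟩
        invFun := fun x => ⟨⟨x.1, x.2.2⟩, fun g => Subtype.ext ?_⟩
        left_inv := fun x => rfl
        right_inv := fun x => rfl }
    show (g : MulAut R) x.1 = x.1
    obtain ⟨k, hk⟩ := mem_powers_iff_mem_zpowers.2 g.2
    have hk' : φ ^ k = (g : MulAut R) := hk
    rw [← hk']
    clear hk hk'
    induction k with
    | zero => rfl
    | succ k ih => rw [pow_succ', MulAut.mul_apply, ih]; exact x.2.1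
  rw [hfix, hi, hj] at hmod
  have hdvd' : q ∣ p ^ (j - i) - 1 := by
    have h1 := (Nat.modEq_iff_dvd' (Nat.pow_le_pow_right hp'.pos hij.le)).1 hmod.symm
    rw [show p ^ j - p ^ i = p ^ i * (p ^ (j - i) - 1) by
      rw [Nat.mul_sub, ← pow_add, mul_one, Nat.add_sub_cancel' hij.le]] at h1
    exact (((Nat.coprime_primes hq hp').2 hqp).pow_right i).dvd_of_dvd_mul_left h1
  have hsq : q ∣ p ^ 2 - 1 := by
    refine hdvd'.trans ?_
    rcases (show j - i = 1 ∨ j - i = 2 by omega) with h | h
    · rw [h]; exact Nat.pow_sub_one_dvd_pow_sub_one p (show 1 ∣ 2 by norm_num)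
    · rw [h]
  refine ⟨hsq, ?_⟩
  have h2p : 2 < p := lt_of_le_of_ne hp'.two_le (Ne.symm hp)
  have hfac : p ^ 2 - 1 = (p - 1) * (p + 1) := by
    rw [mul_comm]; simpa using Nat.sq_sub_sq p 1
  rw [hfac] at hsq
  rcases hq.dvd_mul.1 hsq with h | h
  · have := Nat.le_of_dvd (by omega) h
    omega
  · rcases hq.eq_two_or_odd' with h2 | h2
    · omega
    · have he : 2 ∣ p + 1 := by
        obtain ⟨t, ht⟩ := hp'.odd_of_ne_two hp
        exact ⟨t + 1, by omega⟩
      have hcop2 : Nat.Coprime q 2 := h2.coprime_two_right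
      have := Nat.le_of_dvd (by omega) (hcop2.mul_dvd_of_dvd_of_dvd h he)
      omega

end Cfsg.Agent.S0640
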