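import Cfsg.Statements.S0641
import Mathlib

set_option autoImplicit false
open Cfsg

namespace Cfsg.Agent.S0641

/-- Regularity of a p-group passes to quotient groups. -/
theorem result {G : Type*} [Group G] {p : ℕ} [Fact p.Prime] (hG : Cfsg.IsRegularPGroup p G) (N : Subgroup G) [N.Normal] : Cfsg.IsRegularPGroup p (G ⧸ N) := by
  refine ⟨hG.1.to_quotient N, ?_⟩
  intro x y n
  obtain ⟨a, rfl⟩ := QuotientGroup.mk'_surjective N x
  obtain ⟨b, rfl⟩ := QuotientGroup.mk'_surjective N y
  obtain ⟨c, hc, he⟩ := hG.2 a b n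
  refine ⟨QuotientGroup.mk' N c, ?_, ?_⟩
  · have h1 : (⁅Subgroup.closure ({a, b} : Set G), Subgroup.closure ({a, b} : Set G)⁆).map
        (QuotientGroup.mk' N) = ⁅Subgroup.closure ({QuotientGroup.mk' N a, QuotientGroup.mk' N b} :
          Set (G ⧸ N)), Subgroup.closure ({QuotientGroup.mk' N a, QuotientGroup.mk' N b} :
          Set (G ⧸ N))⁆ := by
      rw [Subgroup.map_commutator, MonoidHom.map_closure, Set.image_pair]
    rw [← h1]
    have h2 := Subgroup.mem_map_of_mem (QuotientGroup.mk' N) hc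
    refine (show (Cfsg.powerClosure p n ⁅Subgroup.closure ({a, b} : Set G),
        Subgroup.closure ({a, b} : Set G)⁆).map (QuotientGroup.mk' N) ≤ _ from ?_) h2
    rw [Cfsg.powerClosure, MonoidHom.map_closure, Cfsg.powerClosure]
    refine Subgroup.closure_mono ?_
    rintro _ ⟨z, ⟨w, hw, rfl⟩, rfl⟩
    exact ⟨QuotientGroup.mk' N w, Subgroup.mem_map_of_mem _ hw, map_pow _ _ _⟩
  · rw [← map_mul, ← map_pow, he, map_mul, map_mul, map_pow, map_pow]

end Cfsg.Agent.S0641
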