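import Cfsg.Statements.S0642
import Cfsg.Agent.Lib.CoprimeAction.Glauberman
import Cfsg.Agent.Lib.PGroups.Frattini

set_option autoImplicit false
open Cfsg

open scoped commutatorElement

namespace Cfsg.Agent.S0642

/-- Among finite 2-groups the regular ones are exactly the abelian ones. -/
theorem result {G : Type*} [Group G] [Finite G] (hG : IsPGroup 2 G) : Cfsg.IsRegularPGroup 2 G ↔ ∀ a b : G, a * b = b * a := by
  constructor
  · intro hr a b
    obtain ⟨c, hc, he⟩ := hr.2 a b 1
    set H := Subgroup.closure ({a, b} : Set G) with hH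
    set K := Cfsg.powerClosure 2 1 ⁅H, H⁆ with hK
    have haH : a ∈ H := Subgroup.subset_closure (by simp)
    have hbH : b ∈ H := Subgroup.subset_closure (by simp)
    have hKn : ∀ h ∈ H, ∀ x ∈ K, h * x * h⁻¹ ∈ K := by
      intro h hh x hx
      induction hx using Subgroup.closure_induction with
      | mem x hx =>
        obtain ⟨y, hy, rfl⟩ := hx
        refine Subgroup.subset_closure ⟨h * y * h⁻¹, ?_, conj_pow.symm⟩
        exact (Subgroup.mem_normalizer_iff.1 (CfsgLib.CoprimeAction.normalizer_le_normalizer_commutator H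
          (Subgroup.le_normalizer hh)) y).1 hy
      | one => simp [K.one_mem]
      | mul x y _ _ hx hy => simpa [mul_assoc] using mul_mem hx hy
      | inv x _ hx => simpa [mul_assoc] using inv_mem hx
    have hKle : K ≤ ⁅H, H⁆ := by
      rw [hK, Cfsg.powerClosure, Subgroup.closure_le]
      rintro x ⟨y, hy, rfl⟩
      exact pow_mem hy _
    set N := Subgroup.normalizer (K : Set G) with hN
    have hHN : H ≤ N := fun h hh => Subgroup.mem_normalizer_fintype fun x hx => hKn h hh x hx
    let q := QuotientGroup.mk' (K.subgroupOf N)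
    have haN := hHN haH
    have hbN := hHN hbH
    have hcom : Commute (q ⟨a, haN⟩) (q ⟨b, hbN⟩) := by
      have hcq : b⁻¹ * a⁻¹ * b * a ∈ K := by
        have h1 : c = (a ^ 2 * b ^ 2)⁻¹ * (a * b) ^ 2 := by
          rw [pow_one] at he
          rw [he]; group
        have h2 : b⁻¹ * a⁻¹ * b * a = b * c * b⁻¹ := by
          rw [h1, pow_two, pow_two, pow_two]; group
        rw [h2]
        exact hKn b hbH c hc
      show q ⟨a, haN⟩ * q ⟨b, hbN⟩ = q ⟨b, hbN⟩ * q ⟨a, haN⟩
      rw [← map_mul, ← map_mul]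
      refine QuotientGroup.eq.2 ?_
      show (a * b)⁻¹ * (b * a) ∈ K
      rw [show (a * b)⁻¹ * (b * a) = b⁻¹ * a⁻¹ * b * a by group]
      exact hcq
    have hHK : ⁅H, H⁆ ≤ K := by
      let T := ((Subgroup.centralizer ({q ⟨a, haN⟩, q ⟨b, hbN⟩} : Set (↥N ⧸ K.subgroupOf N))).comap q).map
        N.subtype
      have hT : H ≤ T := by
        rw [hH, Subgroup.closure_le]
        rintro x (rfl | rfl)
        · refine ⟨⟨x, haN⟩, Subgroup.mem_centralizer_iff.2 ?_, rfl⟩
          rintro y (rfl | rfl)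
          · rfl
          · exact hcom.symm.eq
        · refine ⟨⟨x, hbN⟩, Subgroup.mem_centralizer_iff.2 ?_, rfl⟩
          rintro y (rfl | rfl)
          · exact hcom.eq
          · rfl
      rw [Subgroup.commutator_le]
      intro x hx y hy
      have hgen : ∀ z (hz : z ∈ H), q ⟨z, hHN hz⟩ ∈ Subgroup.closure ({q ⟨a, haN⟩, q ⟨b, hbN⟩} : Set (↥N ⧸ K.subgroupOf N)) := by
        intro z hz
        have h1 : Subgroup.closure ({a, b} : Set G) ≤
            ((Subgroup.closure ({q ⟨a, haN⟩, q ⟨b, hbN⟩} : Set (↥N ⧸ K.subgroupOf N))).comap q).map N.subtype := by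
          rw [Subgroup.closure_le]
          rintro w (rfl | rfl)
          · exact ⟨⟨w, haN⟩, Subgroup.subset_closure (Set.mem_insert _ _), rfl⟩
          · exact ⟨⟨w, hbN⟩, Subgroup.subset_closure (Set.mem_insert_of_mem _ rfl), rfl⟩
        obtain ⟨⟨w, hw⟩, hwm, rfl⟩ := h1 hz
        exact hwm
      obtain ⟨⟨x', hx'N⟩, hx', rfl⟩ := hT hx
      have hc2 : Commute (q ⟨x', hx'N⟩) (q ⟨y, hHN hy⟩) := by
        have h1 : q ⟨x', hx'N⟩ ∈ Subgroup.centralizer
            ((Subgroup.closure ({q ⟨a, haN⟩, q ⟨b, hbN⟩} : Set (↥N ⧸ K.subgroupOf N)) : Subgroup _) :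
              Set (↥N ⧸ K.subgroupOf N)) := by
          rw [Subgroup.centralizer_closure]
          exact hx'
        exact (Subgroup.mem_centralizer_iff.1 h1 _ (hgen y hy)).symm
      have h2 := commutatorElement_eq_one_iff_mul_comm.2 hc2.eq
      rw [← map_commutatorElement] at h2
      have h3 := (QuotientGroup.eq_one_iff (N := K.subgroupOf N) _).1 h2
      exact h3
    have hD1 : ⁅H, H⁆ = ⊥ := by
      by_contra hne
      set D := ⁅H, H⁆ with hD
      haveI := (Subgroup.nontrivial_iff_ne_bot D).2 hne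
      have hle : (⊤ : Subgroup D) ≤ frattini ↥D := by
        intro x _
        have hxK : (x : G) ∈ (frattini ↥D).map D.subtype := by
          refine (show K ≤ _ from ?_) (hHK x.2)
          rw [hK, Cfsg.powerClosure, Subgroup.closure_le]
          rintro _ ⟨w, hw, rfl⟩
          exact ⟨⟨w, hw⟩ ^ 2, CfsgLib.PGroups.pow_mem_frattini (hG.to_subgroup D) _, by simp⟩
        obtain ⟨w, hw, hwx⟩ := hxK
        exact Subtype.ext hwx ▸ hw
      have h3 := frattini_nongenerating (K := (⊥ : Subgroup D))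
        (by rw [bot_sup_eq, top_le_iff.1 hle])
      exact bot_ne_top h3
    have h1 : ⁅a, b⁆ ∈ ⁅H, H⁆ := Subgroup.commutator_mem_commutator haH hbH
    rw [hD1, Subgroup.mem_bot] at h1
    exact commutatorElement_eq_one_iff_mul_comm.1 h1
  · intro hab
    refine ⟨hG, fun a b n => ⟨1, one_mem _, ?_⟩⟩
    rw [mul_one, (show Commute a b from hab a b).mul_pow]

end Cfsg.Agent.S0642
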