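import Cfsg.Statements.S0645
import Cfsg.Agent.Lib.PGroups.Omega
import Cfsg.Agent.Lib.PGroupCounting.Kulakoff

set_option autoImplicit false
open Cfsg

namespace Cfsg.Agent.S0645

/-- Classification of p-groups with a cyclic maximal subgroup, odd p: a non-abelian one of order p^n has generators a of order p^(n-1) and b of order p, b outside the cyclic subgroup generated by a, with b a b⁻¹ = a^(1 + p^(n-2)). -/
theorem result {G : Type*} [Group G] [Finite G] {p : ℕ} [Fact p.Prime] (hp : p ≠ 2) (n : ℕ) (hn : 3 ≤ n) (hG : Nat.card G = p ^ n) (C : Subgroup G) (hC : IsCyclic C) (hCi : C.index = p) (hna : ∃ x y : G, x * y ≠ y * x) : ∃ a b : G, orderOf a = p ^ (n - 1) ∧ orderOf b = p ∧ b ∉ Subgroup.zpowers a ∧ b * a * b⁻¹ = a ^ (1 + p ^ (n - 2)) := by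
  have hp' : p.Prime := Fact.out
  have hPp : IsPGroup p G := IsPGroup.of_card hG
  have hnc : ¬ IsCyclic G := by
    intro h
    obtain ⟨g, hg⟩ := IsCyclic.exists_generator (α := G)
    obtain ⟨u, v, huv⟩ := hna
    obtain ⟨i, rfl⟩ := Subgroup.mem_zpowers_iff.1 (hg u)
    obtain ⟨j, rfl⟩ := Subgroup.mem_zpowers_iff.1 (hg v)
    exact huv ((Commute.refl g).zpow_zpow i j).eq
  obtain ⟨a, rfl⟩ := (Subgroup.isCyclic_iff_exists_zpowers_eq_top C).1 hC
  have hoa : orderOf a = p ^ (n - 1) := by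
    have h1 := (Subgroup.zpowers a).card_mul_index
    rw [hCi, hG, Nat.card_zpowers] at h1
    refine Nat.eq_of_mul_eq_mul_right hp'.pos (h1.trans ?_)
    rw [← pow_succ]
    congr 1
    omega
  have hCm : IsCoatom (Subgroup.zpowers a) :=
    CfsgLib.TwoGroups.isCoatom_of_index_prime (hCi ▸ hp')
  haveI hCn := CfsgLib.TwoGroups.normal_of_isCoatom hPp hCm
  obtain ⟨E, hEn, hEe, hEc, -⟩ :=
    CfsgLib.PGroups.omega_of_cyclic_maximal hp hPp hnc _ hC hCi
  obtain ⟨b, hbE, hb⟩ : ∃ b ∈ E, b ∉ Subgroup.zpowers a := by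
    by_contra! h
    have hE' : IsCyclic E := isCyclic_of_injective (Subgroup.inclusion h) (Subgroup.inclusion_injective h)
    obtain ⟨g, hg⟩ := hE'.exists_generator
    have h1 : orderOf g ≤ p := Nat.le_of_dvd hp'.pos
      (orderOf_dvd_of_pow_eq_one (Subtype.ext (by simpa using hEe.2 g g.2)))
    rw [orderOf_eq_card_of_forall_mem_zpowers hg, hEc] at h1
    have := lt_self_pow₀ hp'.one_lt (show 1 < 2 by omega)
    omega
  have hbp : b ^ p = 1 := hEe.2 b hbE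
  obtain ⟨r, hr⟩ := Subgroup.mem_zpowers_iff.1 (hCn.conj_mem a (Subgroup.mem_zpowers a) b)
  have hit : ∀ k : ℕ, b ^ k * a * (b ^ k)⁻¹ = a ^ (r ^ k) := by
    intro k
    induction k with
    | zero => simp
    | succ k ih =>
      rw [pow_succ' b, show b * b ^ k * a * (b * b ^ k)⁻¹ = b * (b ^ k * a * (b ^ k)⁻¹) * b⁻¹ by group,
        ih, ← conj_zpow, ← hr, ← zpow_mul, pow_succ' r]
  have h2 : (p : ℤ) ^ (n - 2 + 1) ∣ r ^ p - 1 := by
    have h1 := hit p
    rw [hbp, one_mul, inv_one, mul_one] at h1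
    have h3 : a ^ (r ^ p - 1) = 1 := by rw [zpow_sub, ← h1, zpow_one, mul_inv_cancel]
    rw [← orderOf_dvd_iff_zpow_eq_one, hoa, show n - 1 = n - 2 + 1 by omega] at h3
    exact_mod_cast h3
  obtain ⟨s, hs⟩ := CfsgLib.PGroupCounting.dvd_sub_one_of_dvd_pow_sub_one hp' hp h2
  have hsnd : ¬ (p : ℤ) ∣ s := by
    rintro ⟨q, rfl⟩
    have hcom : Commute b a := by
      have h1 : a ^ r = a := by
        have h3 : a ^ (r - 1) = 1 := by
          rw [← orderOf_dvd_iff_zpow_eq_one, hoa, show n - 1 = n - 2 + 1 by omega]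
          exact ⟨q, by push_cast; rw [hs]; ring⟩
        rw [zpow_sub, zpow_one, mul_inv_eq_one] at h3
        exact h3
      rw [h1] at hr
      exact mul_inv_eq_iff_eq_mul.1 hr.symm
    have htop : Subgroup.zpowers a ⊔ Subgroup.zpowers b = ⊤ :=
      hCm.2 _ (lt_of_le_of_ne le_sup_left fun h => hb (h ▸ Subgroup.mem_sup_right (Subgroup.mem_zpowers b)))
    obtain ⟨u, v, huv⟩ := hna
    obtain ⟨u1, hu1, u2, hu2, rfl⟩ := Subgroup.mem_sup_of_normal_left.1 (htop.symm ▸ Subgroup.mem_top u)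
    obtain ⟨v1, hv1, v2, hv2, rfl⟩ := Subgroup.mem_sup_of_normal_left.1 (htop.symm ▸ Subgroup.mem_top v)
    obtain ⟨i, rfl⟩ := Subgroup.mem_zpowers_iff.1 hu1
    obtain ⟨j, rfl⟩ := Subgroup.mem_zpowers_iff.1 hu2
    obtain ⟨k, rfl⟩ := Subgroup.mem_zpowers_iff.1 hv1
    obtain ⟨l, rfl⟩ := Subgroup.mem_zpowers_iff.1 hv2
    exact huv ((((Commute.refl a).zpow_zpow i k).mul_right (hcom.symm.zpow_zpow i l)).mul_left
      ((hcom.zpow_zpow j k).mul_right ((Commute.refl b).zpow_zpow j l))).eq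
  obtain ⟨t, ht⟩ : ∃ t : ℕ, (p : ℤ) ∣ t * s - 1 := by
    have hs0 : (s : ZMod p) ≠ 0 := fun h => hsnd ((ZMod.intCast_zmod_eq_zero_iff_dvd s p).1 h)
    refine ⟨((s : ZMod p)⁻¹).val, (ZMod.intCast_zmod_eq_zero_iff_dvd _ p).1 ?_⟩
    push_cast
    rw [ZMod.natCast_zmod_val, inv_mul_cancel₀ hs0, sub_self]
  have hob : orderOf b = p := orderOf_eq_prime hbp (fun h => hb (h ▸ one_mem _))
  have hbt : b ^ t ∉ Subgroup.zpowers a := by
    intro h
    obtain ⟨c, hc⟩ := ht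
    apply hb
    have h1 : b ^ ((t : ℤ) * s) = b := by
      rw [show (t : ℤ) * s = 1 + p * c by linear_combination hc, zpow_add, zpow_one, zpow_mul,
        zpow_natCast, hbp, one_zpow, mul_one]
    rw [← h1, zpow_mul, zpow_natCast]
    exact zpow_mem h s
  refine ⟨a, b ^ t, hoa, orderOf_eq_prime (by rw [← pow_mul, mul_comm, pow_mul, hbp, one_pow])
    (fun h => hbt (h ▸ one_mem _)), hbt, ?_⟩
  rw [hit, ← zpow_natCast a]
  apply (orderOf_dvd_sub_iff_zpow_eq_zpow).1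
  rw [hoa, show n - 1 = n - 2 + 1 by omega]
  obtain ⟨c, hc⟩ := ht
  obtain ⟨d, hd⟩ : ((p : ℤ) ^ (n - 2)) ^ 2 ∣ r ^ t - 1 - t * (r - 1) := by
    have key : ∀ k : ℕ, ((p : ℤ) ^ (n - 2)) ^ 2 ∣ r ^ k - 1 - k * (r - 1) := by
      intro k
      induction k with
      | zero => simp
      | succ k ih =>
        obtain ⟨d, hd⟩ := ih
        exact ⟨r * d + k * s ^ 2, by
          push_cast; rw [pow_succ']; linear_combination r * hd + k * (r - 1 + (p : ℤ) ^ (n - 2) * s) * hs⟩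
    exact key t
  obtain ⟨w, hw⟩ : (p : ℤ) ∣ (p : ℤ) ^ (n - 2) := dvd_pow_self _ (by omega)
  refine ⟨c + w * d, ?_⟩
  push_cast
  rw [pow_succ]
  linear_combination hd + (p : ℤ) ^ (n - 2) * hc + (t : ℤ) * hs + (p : ℤ) ^ (n - 2) * d * hw

end Cfsg.Agent.S0645
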