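import Cfsg.Statements.S0646
import Cfsg.Agent.Lib.TwoGroups.CyclicMax

set_option autoImplicit false
open Cfsg

namespace Cfsg.Agent.S0646

/-- Classification of non-abelian 2-groups with a cyclic maximal subgroup: dihedral, generalized quaternion, and for order at least 16 the modular group and the semidihedral group, each given by generators a (of index 2) and b with the stated relations. -/
theorem result {G : Type*} [Group G] [Finite G] (n : ℕ) (hn : 3 ≤ n) (hG : Nat.card G = 2 ^ n) (C : Subgroup G) (hC : IsCyclic C) (hCi : C.index = 2) (hna : ∃ x y : G, x * y ≠ y * x) : ∃ a b : G, orderOf a = 2 ^ (n - 1) ∧ b ∉ Subgroup.zpowers a ∧ ((b ^ 2 = 1 ∧ b * a * b⁻¹ = a⁻¹) ∨ (b ^ 2 = a ^ (2 ^ (n - 2)) ∧ b * a * b⁻¹ = a⁻¹) ∨ (4 ≤ n ∧ b ^ 2 = 1 ∧ b * a * b⁻¹ = a ^ (1 + 2 ^ (n - 2))) ∨ (4 ≤ n ∧ b ^ 2 = 1 ∧ b * a * b⁻¹ = a ^ (2 ^ (n - 2) - 1))) := by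
  obtain ⟨x, rfl⟩ := (Subgroup.isCyclic_iff_exists_zpowers_eq_top C).1 hC
  obtain ⟨m, rfl⟩ : ∃ m, n = m + 3 := ⟨n - 3, by omega⟩
  have hox : orderOf x = 2 ^ (m + 2) := by
    have h1 := (Subgroup.zpowers x).card_mul_index
    rw [hCi, hG, Nat.card_zpowers, pow_succ] at h1
    exact Nat.eq_of_mul_eq_mul_right two_pos h1
  have hc2 : Nat.card G = 2 * orderOf x := by rw [hG, hox, pow_succ, mul_comm]
  obtain ⟨y, hy⟩ : ∃ y, y ∉ Subgroup.zpowers x := by
    by_contra! hall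
    rw [(Subgroup.eq_top_iff' _).2 hall, Subgroup.index_top] at hCi
    omega
  haveI : (Subgroup.zpowers x).Normal := Subgroup.normal_of_index_eq_two hCi
  obtain ⟨r, hr⟩ := Subgroup.mem_zpowers_iff.1
    (Subgroup.Normal.conj_mem inferInstance x (Subgroup.mem_zpowers x) y)
  obtain ⟨e, he⟩ := Subgroup.mem_zpowers_iff.1 (CfsgLib.TwoGroups.sq_notMem_or_mem hc2 y)
  have hr' : y * x * y⁻¹ = x ^ r := hr.symm
  have hy2 : y ^ 2 = x ^ e := he.symm
  have hdvd : ∀ a b : ℤ, x ^ a = x ^ b ↔ (2 : ℤ) ^ (m + 2) ∣ b - a := fun a b => by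
    rw [CfsgLib.TwoGroups.zpow_eq_zpow_iff_dvd hox]; push_cast; rfl
  have hdvd1 : ∀ a : ℤ, x ^ a = 1 ↔ (2 : ℤ) ^ (m + 2) ∣ a := fun a => by
    rw [CfsgLib.TwoGroups.zpow_eq_one_iff_dvd hox]; push_cast; rfl
  have hre : (2 : ℤ) ^ (m + 2) ∣ e * (r - 1) := by
    have h1 : y * x ^ e * y⁻¹ = x ^ e := by rw [← hy2]; group
    rw [CfsgLib.TwoGroups.conj_zpow_eq hr', hdvd] at h1
    have : e * (r - 1) = -(e - r * e) := by ring
    rw [this, dvd_neg]; exact h1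
  have hrr : (2 : ℤ) ^ (m + 2) ∣ r * r - 1 := by
    have h1 : y ^ 2 * x * (y ^ 2)⁻¹ = x := by rw [hy2]; group
    have h2 : y ^ 2 * x * (y ^ 2)⁻¹ = x ^ (r * r) := by
      rw [← CfsgLib.TwoGroups.conj_zpow_eq hr' r, ← hr', pow_two, mul_inv_rev]; simp only [mul_assoc]
    have h3 : x ^ (1 : ℤ) = x ^ (r * r) := by rw [zpow_one, ← h2, h1]
    exact (hdvd _ _).1 h3
  -- replacing `y` by `x ^ k * y`
  have hadj : ∀ k : ℤ, (x ^ k * y) ∉ Subgroup.zpowers x ∧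
      (x ^ k * y) * x * (x ^ k * y)⁻¹ = x ^ r ∧ (x ^ k * y) ^ 2 = x ^ (k + r * k + e) := by
    intro k
    refine ⟨fun h => hy ?_, ?_, ?_⟩
    · simpa using mul_mem (inv_mem (Subgroup.zpow_mem_zpowers x k)) h
    · rw [show x ^ k * y * x * (x ^ k * y)⁻¹ = x ^ k * (y * x * y⁻¹) * (x ^ k)⁻¹ by group, hr',
        ← zpow_add, ← zpow_neg, ← zpow_add]
      congr 1
      ring
    · rw [pow_two, show x ^ k * y * (x ^ k * y) = x ^ k * (y * x ^ k * y⁻¹) * (y ^ 2) by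
        rw [pow_two]; group, CfsgLib.TwoGroups.conj_zpow_eq hr', hy2, ← zpow_add, ← zpow_add]
  have hab : ¬ (2 : ℤ) ^ (m + 2) ∣ r - 1 := by
    intro hr1
    have hxy : Commute x y := by
      have : x ^ r = x ^ (1 : ℤ) := by
        rw [hdvd, show 1 - r = -(r - 1) by ring, dvd_neg]; exact hr1
      rw [this, zpow_one] at hr'
      exact (mul_inv_eq_iff_eq_mul.1 hr').symm
    obtain ⟨g, h, hgh⟩ := hna
    apply hgh
    rcases CfsgLib.TwoGroups.exists_eq_zpow_or_zpow_mul hc2 hy g with ⟨a, rfl⟩ | ⟨a, rfl⟩ <;>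
      rcases CfsgLib.TwoGroups.exists_eq_zpow_or_zpow_mul hc2 hy h with ⟨b, rfl⟩ | ⟨b, rfl⟩
    · exact ((Commute.refl x).zpow_zpow a b).eq
    · exact (((Commute.refl x).zpow_zpow a b).mul_right (hxy.zpow_left a)).eq
    · exact (((Commute.refl x).zpow_zpow b a).mul_right (hxy.zpow_left b)).symm.eq
    · exact ((((Commute.refl x).zpow_zpow a b).mul_right (hxy.zpow_left a)).mul_left
        ((((hxy.symm).zpow_right b)).mul_right (Commute.refl y))).eq
  refine ⟨x, ?_⟩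
  rw [show m + 3 - 1 = m + 2 from rfl, show m + 3 - 2 = m + 1 from rfl]
  have hn4 : ∀ j : ℕ, 0 < j → j ≤ m → 4 ≤ m + 3 := by omega
  rcases CfsgLib.TwoGroups.sq_sub_one_cases hrr with ⟨j, hj⟩ | ⟨j, hj⟩
  · -- r ≡ 1 + 2^(m+1)
    have hjodd : Odd j := by
      rw [← Int.not_even_iff_odd]
      rintro ⟨i, rfl⟩
      exact hab ⟨i, by rw [hj]; ring⟩
    obtain ⟨i, rfl⟩ := hjodd
    cases m with
    | zero =>
      -- order 8 : r ≡ -1
      have hinv : y * x * y⁻¹ = x⁻¹ := by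
        rw [hr', ← zpow_neg_one, hdvd]
        exact ⟨-(i + 1), by linear_combination (-1 : ℤ) * hj⟩
      have h2e : (2 : ℤ) ∣ e := by
        obtain ⟨c, hc⟩ := hre
        have h4 : 2 * (e * (2 * i + 1)) = 2 * (2 * c) := by
          rw [hj] at hc; linear_combination hc
        obtain h5 := mul_left_cancel₀ two_ne_zero h4
        exact (Int.prime_two.dvd_or_dvd ⟨c, h5⟩).resolve_right (by omega)
      obtain ⟨f, rfl⟩ := h2e
      refine ⟨y, hox, hy, ?_⟩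
      rcases Int.even_or_odd f with ⟨g, rfl⟩ | ⟨g, rfl⟩
      · exact Or.inl ⟨by rw [hy2, hdvd1]; exact ⟨g, by ring⟩, hinv⟩
      · refine Or.inr (Or.inl ⟨?_, hinv⟩)
        rw [hy2, ← zpow_natCast, hdvd]
        exact ⟨-g, by push_cast; ring⟩
    | succ m =>
      have h2e : (2 : ℤ) ∣ e := by
        obtain ⟨c, hc⟩ := hre
        have h4 : (2 : ℤ) ^ (m + 2) * (e * (2 * i + 1)) = 2 ^ (m + 2) * (2 * c) := by
          rw [hj] at hc; linear_combination hc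
        have h5 := mul_left_cancel₀ (pow_ne_zero _ two_ne_zero) h4
        exact (Int.prime_two.dvd_or_dvd ⟨c, h5⟩).resolve_right (by omega)
      obtain ⟨f, rfl⟩ := h2e
      set k : ℤ := -f * (1 - 2 ^ (m + 1) * (2 * i + 1)) with hk
      obtain ⟨h1, h2, h3⟩ := hadj k
      refine ⟨x ^ k * y, hox, h1, Or.inr (Or.inr (Or.inl ⟨by omega, ?_, ?_⟩))⟩
      · rw [h3, hdvd1]
        exact ⟨f * (2 * i + 1) ^ 2 * 2 ^ m, by
          rw [hk, show r = 1 + 2 ^ (m + 2) * (2 * i + 1) by linear_combination hj]; ring⟩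
      · rw [h2, ← zpow_natCast, hdvd]
        exact ⟨-i, by push_cast; linear_combination (-1 : ℤ) * hj⟩
  · rcases Int.even_or_odd j with ⟨i, rfl⟩ | ⟨i, rfl⟩
    · -- r ≡ -1
      have hinv : y * x * y⁻¹ = x⁻¹ := by
        rw [hr', ← zpow_neg_one, hdvd]
        exact ⟨-i, by linear_combination (-1 : ℤ) * hj⟩
      have h2e : (2 : ℤ) ^ (m + 1) ∣ e := by
        have h2 : (2 : ℤ) ^ (m + 2) ∣ e * (r + 1) := ⟨e * i, by rw [hj]; ring⟩
        have h3 := dvd_sub h2 hre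
        rw [show e * (r + 1) - e * (r - 1) = 2 * e by ring, pow_succ'] at h3
        exact (mul_dvd_mul_iff_left (by norm_num : (2 : ℤ) ≠ 0)).1 h3
      obtain ⟨f, rfl⟩ := h2e
      refine ⟨y, hox, hy, ?_⟩
      rcases Int.even_or_odd f with ⟨g, rfl⟩ | ⟨g, rfl⟩
      · exact Or.inl ⟨by rw [hy2, hdvd1]; exact ⟨g, by ring⟩, hinv⟩
      · refine Or.inr (Or.inl ⟨?_, hinv⟩)
        rw [hy2, ← zpow_natCast, hdvd]
        exact ⟨-g, by push_cast; ring⟩
    · -- r ≡ -1 + 2^(m+1)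
      cases m with
      | zero => exact absurd ⟨i, by linear_combination hj⟩ hab
      | succ m =>
      have h2e : (2 : ℤ) ^ (m + 2) ∣ e := by
        have hco : IsCoprime ((2 : ℤ) ^ (m + 2)) (2 ^ (m + 1) * (2 * i + 1) - 1) :=
          IsCoprime.pow_left ⟨2 ^ m * (2 * i + 1), -1, by ring⟩
        refine hco.dvd_of_dvd_mul_right ?_
        obtain ⟨c, hc⟩ := hre
        refine ⟨c, mul_left_cancel₀ (two_ne_zero (α := ℤ)) ?_⟩
        rw [show r = 2 ^ (m + 2) * (2 * i + 1) - 1 by linear_combination hj] at hc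
        linear_combination hc
      obtain ⟨f, rfl⟩ := h2e
      obtain ⟨h1, h2, h3⟩ := hadj (-f)
      refine ⟨x ^ (-f) * y, hox, h1, Or.inr (Or.inr (Or.inr ⟨by omega, ?_, ?_⟩))⟩
      · rw [h3, hdvd1]
        exact ⟨-f * i, by
          rw [show r = 2 ^ (m + 2) * (2 * i + 1) - 1 by linear_combination hj]; ring⟩
      · rw [h2, ← zpow_natCast, hdvd]
        have hpos : 1 ≤ 2 ^ (m + 2) := Nat.one_le_two_pow
        exact ⟨-i, by push_cast [Nat.cast_sub hpos]; linear_combination (-1 : ℤ) * hj⟩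

end Cfsg.Agent.S0646
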