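import Cfsg.Statements.S0656
import Cfsg.Agent.Lib.PGroups.FaithfulStableSL

set_option autoImplicit false
open Cfsg

namespace Cfsg.Agent.S0656

/-- For odd p, a faithful group on an elementary abelian p-group with no nontrivial normal p-subgroup in which some nontrivial p-element acts quadratically has a section isomorphic to SL(2, p). -/
theorem result {G : Type*} [Group G] [Finite G] {p : ℕ} [Fact p.Prime] (hp : p ≠ 2) (V H : Subgroup G) (hV : Cfsg.IsElementaryAbelian p V) (hHV : H ≤ Subgroup.normalizer (V : Set G)) (hf : H ⊓ Subgroup.centralizer (V : Set G) = ⊥) (hO : Cfsg.pCore p ↥H = ⊥) (x : G) (hxH : x ∈ H) (hx1 : x ≠ 1) (hxp : ∃ k : ℕ, orderOf x = p ^ k) (hq : ⁅⁅V, Subgroup.zpowers x⁆, Subgroup.zpowers x⁆ = ⊥) : ∃ (K L : Subgroup G) (hL : (L.subgroupOf K).Normal), K ≤ H ∧ Nonempty ((K ⧸ L.subgroupOf K) ≃* Matrix.SpecialLinearGroup (Fin 2) (ZMod p)) := by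
  by_contra hcon
  have hfree : CfsgLib.PGroups.SLFree p ↥H := by
    intro K f hf
    apply hcon
    refine ⟨K.map H.subtype, (f.ker.map K.subtype).map H.subtype, ?_, Subgroup.map_subtype_le _, ?_⟩
    · let e := K.equivMapOfInjective H.subtype H.subtype_injective
      have h1 : ((f.ker.map K.subtype).map H.subtype).subgroupOf (K.map H.subtype)
          = f.ker.map e.toMonoidHom := by
        ext x
        constructor
        · rintro ⟨y, ⟨z, hz, rfl⟩, hzx⟩
          exact ⟨z, hz, Subtype.ext hzx⟩
        · rintro ⟨z, hz, rfl⟩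
          exact ⟨z.1, ⟨z, hz, rfl⟩, rfl⟩
      rw [h1]
      exact Subgroup.Normal.map inferInstance _ e.surjective
    · let e := K.equivMapOfInjective H.subtype H.subtype_injective
      have h1 : ((f.ker.map K.subtype).map H.subtype).subgroupOf (K.map H.subtype)
          = (f.comp e.symm.toMonoidHom).ker := by
        ext x
        constructor
        · rintro ⟨y, ⟨z, hz, rfl⟩, hzx⟩
          have h2 : e z = x := Subtype.ext hzx
          show f (e.symm x) = 1
          rw [← h2, e.symm_apply_apply]
          exact hz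
        · intro hx
          refine ⟨((e.symm x : K) : H), ⟨e.symm x, hx, rfl⟩, ?_⟩
          exact congrArg Subtype.val (e.apply_symm_apply x)
      haveI : (((f.ker.map K.subtype).map H.subtype).subgroupOf (K.map H.subtype)).Normal :=
        h1 ▸ inferInstance
      exact ⟨(QuotientGroup.quotientMulEquivOfEq h1).trans
        (QuotientGroup.quotientKerEquivOfSurjective _ (hf.comp e.symm.surjective))⟩
  have h := CfsgLib.PGroups.SLFree.mem_map_pCore_of_quadratic hfree hp hV hHV hf hxH hq
  rw [hO, Subgroup.map_bot] at h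
  exact hx1 (Subgroup.mem_bot.1 h)

end Cfsg.Agent.S0656
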