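import Cfsg.Statements.S0657
import Cfsg.Agent.Lib.PGroups.PStableSL
import Cfsg.Agent.Lib.NormalPComplement.PStable

set_option autoImplicit false
open Cfsg

namespace Cfsg.Agent.S0657

/-- For odd p, a group that fails to be p-stable modulo its largest normal subgroup of order prime to p, and whose upper p-series does not stop there, has a section isomorphic to SL(2, p). -/
theorem result {G : Type*} [Group G] [Finite G] {p : ℕ} [Fact p.Prime] (hp : p ≠ 2) (hO : Cfsg.pPrimeCore p G < Cfsg.pPrimePCore p G) (hns : ¬ Cfsg.IsPStable p (G ⧸ Cfsg.pPrimeCore p G)) : ∃ (K L : Subgroup G) (hL : (L.subgroupOf K).Normal), K ≤ ⊤ ∧ Nonempty ((K ⧸ L.subgroupOf K) ≃* Matrix.SpecialLinearGroup (Fin 2) (ZMod p)) := by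
  by_contra hcon
  apply hns
  have hfree0 : CfsgLib.PGroups.SLFree p G := by
    intro K f hf
    apply hcon
    have h1 : (f.ker.map K.subtype).subgroupOf K = f.ker :=
      Subgroup.comap_map_eq_self_of_injective K.subtype_injective _
    have hn : ((f.ker.map K.subtype).subgroupOf K).Normal := by rw [h1]; infer_instance
    exact ⟨K, f.ker.map K.subtype, hn, le_top,
      ⟨(QuotientGroup.quotientMulEquivOfEq h1).trans (QuotientGroup.quotientKerEquivOfSurjective f hf)⟩⟩
  set O := Cfsg.pPrimeCore p G with hOdef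
  have hfree : CfsgLib.PGroups.SLFree p (G ⧸ O) :=
    hfree0.of_surjective (QuotientGroup.mk' O) (QuotientGroup.mk'_surjective O)
  have hbot : Cfsg.pPrimeCore p (G ⧸ O) = ⊥ := CfsgLib.Cores.pPrimeCore_quotient_pPrimeCore p
  refine ⟨(Fact.out : p.Prime).odd_of_ne_two hp, ?_, fun A P hA hP hnorm hle hn hq => ?_⟩
  · intro h0
    refine hO.not_ge ?_
    show (Cfsg.pCore p (G ⧸ O)).comap (QuotientGroup.mk' O) ≤ O
    rw [h0, MonoidHom.comap_bot, QuotientGroup.ker_mk']
  · rw [hbot, bot_sup_eq] at hn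
    haveI := hn
    have hAN : A ≤ Subgroup.normalizer (P : Set (G ⧸ O)) := Subgroup.normalizer_eq_top (H := P) ▸ le_top
    rw [CfsgLib.NormalPComplement.map_mk'_le_pCore_iff hAN]
    intro a ha
    have hq' : ⁅⁅P, Subgroup.zpowers a⁆, Subgroup.zpowers a⁆ = ⊥ := eq_bot_iff.2
      (hq ▸ Subgroup.commutator_mono (Subgroup.commutator_mono le_rfl (Subgroup.zpowers_le.2 ha))
        (Subgroup.zpowers_le.2 ha))
    exact CfsgLib.NormalPComplement.inAutCore_of_mk_mem_pCore
      (CfsgLib.PGroups.SLFree.isPStableOn hfree hp P hP a hq')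

end Cfsg.Agent.S0657
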