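import Cfsg.Statements.S0667
import Cfsg.Agent.Lib.NormalPComplement.PStable

set_option autoImplicit false
open Cfsg

namespace Cfsg.Agent.S0667

theorem zcore_zero_normal {X : Type*} [Group X] [Finite X] {p : ℕ} [Fact p.Prime] (hp : p ≠ 2)
    (hc : Cfsg.IsPConstrained p X) (hs : Cfsg.IsPStable p X) (hbot : Cfsg.pPrimeCore p X = ⊥)
    (P : Sylow p X) : (CfsgLib.Replacement.zcore 0 (P : Subgroup X)).Normal :=
  CfsgLib.Replacement.zcore_normal hp P ⟨le_rfl, fun _ _ _ h => h⟩
    ((CfsgLib.PSolvable.isPConstrained_iff_of_pPrimeCore_eq_bot hbot).1 hc)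
    (fun V _ hV => CfsgLib.NormalPComplement.isPStableOn_of_isPStable hs hbot V hV) (Or.inl rfl)



/-- Glauberman's Theorem in the p-constrained, p-stable vocabulary: for odd p such a group is the product of its largest normal subgroup of order prime to p with the normalizer of Z(J(P)), and Z(J(P)) is normal when that p'-subgroup is trivial. -/
theorem result {G : Type*} [Group G] [Finite G] {p : ℕ} [Fact p.Prime] (hp : p ≠ 2) (hc : Cfsg.IsPConstrained p G) (hs : Cfsg.IsPStable p G) (P : Sylow p G) : Cfsg.pPrimeCore p G ⊔ Subgroup.normalizer (Cfsg.centerThompsonAOf ((P : Subgroup G)) : Set G) = ⊤ ∧ (Cfsg.pPrimeCore p G = ⊥ → (Cfsg.centerThompsonAOf ((P : Subgroup G))).Normal) := by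
  rw [CfsgLib.Replacement.centerThompsonAOf_eq_zcore]
  refine ⟨?_, fun hbot => zcore_zero_normal hp hc hs hbot P⟩
  set O := Cfsg.pPrimeCore p G with hO
  set π := QuotientGroup.mk' O with hπ
  set Z := CfsgLib.Replacement.zcore 0 (P : Subgroup G) with hZ
  have hOc : (Nat.card O).Coprime p := CfsgLib.Cores.card_pPrimeCore_coprime p
  have hbot : Cfsg.pPrimeCore p (G ⧸ O) = ⊥ := CfsgLib.Cores.pPrimeCore_quotient_pPrimeCore p
  have hn := zcore_zero_normal hp
    ((CfsgLib.PSolvable.isPConstrained_iff_of_pPrimeCore_eq_bot hbot).2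
      (CfsgLib.PSolvable.isPConstrained_iff.1 hc))
    ((CfsgLib.NormalPComplement.isPStable_iff_quotient hs.2.1).1 hs) hbot
    (P.mapSurjective (QuotientGroup.mk'_surjective O))
  rw [show ((P.mapSurjective (QuotientGroup.mk'_surjective O) : Sylow p (G ⧸ O)) : Subgroup (G ⧸ O))
      = (P : Subgroup G).map π from rfl,
    CfsgLib.Replacement.zcore_map_mk 0 hOc P.2 le_rfl] at hn
  refine eq_top_iff.2 fun g _ => ?_
  have hZp : IsPGroup p Z := P.2.to_le (CfsgLib.Replacement.zcore_le 0 _)
  obtain ⟨n, hn', hng⟩ := CfsgLib.NormalPComplement.le_normalizer_of_map_normalizer hZp hOc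
    (y := π g) (by rw [Subgroup.normalizer_eq_top_iff.2 hn]; exact Subgroup.mem_top _)
  have h1 : g * n⁻¹ ∈ O := by
    rw [← QuotientGroup.eq_one_iff (N := O), ← QuotientGroup.mk'_apply, map_mul, map_inv, hng, hπ,
      mul_inv_cancel]
  have h2 := mul_mem (Subgroup.mem_sup_left (T := Subgroup.normalizer (Z : Set G)) h1)
    (Subgroup.mem_sup_right (S := O) hn')
  rwa [inv_mul_cancel_right] at h2

end Cfsg.Agent.S0667
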