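import Cfsg.Statements.S0658
import Cfsg.Agent.Lib.NormalPComplement.PStable
import Cfsg.Agent.Lib.NormalPComplement.Basic
import Cfsg.Agent.S0667

set_option autoImplicit false
open Cfsg

namespace Cfsg.Agent.S0658

theorem lt_inf_normalizer {X : Type*} [Group X] [Finite X] {p : ℕ} [Fact p.Prime] {S D : Subgroup X}
    (hS : IsPGroup p S) (hlt : D < S) : D < S ⊓ Subgroup.normalizer (D : Set X) := by
  haveI : Group.IsNilpotent S := hS.isNilpotent
  have h1 : D.subgroupOf S < ⊤ := lt_top_iff_ne_top.2 fun h =>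
    hlt.not_ge (Subgroup.subgroupOf_eq_top.1 h)
  obtain ⟨x, hx1, hx2⟩ := SetLike.exists_of_lt (Group.normalizerCondition_of_isNilpotent _ h1)
  refine lt_of_le_of_ne (le_inf hlt.le Subgroup.le_normalizer) fun h => hx2 ?_
  rw [Subgroup.mem_subgroupOf, h]
  refine ⟨x.2, Subgroup.mem_normalizer_fintype fun d hd => ?_⟩
  exact (Subgroup.mem_normalizer_iff.1 hx1 ⟨d, hlt.le hd⟩).1 hd

theorem card_lt_of_lt {X : Type*} [Group X] [Finite X] {A B : Subgroup X} (h : A < B) :
    Nat.card A < Nat.card B :=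
  lt_of_le_of_ne (Nat.card_le_card_of_injective _ (Subgroup.inclusion_injective h.le))
    fun he => h.ne (Subgroup.eq_of_le_of_card_ge h.le he.ge)


/-- In a group of characteristic p type all of whose p-locals are p-stable (p odd), the normalizer of Z(J(P)) contains the normalizer of every nontrivial subgroup of the Sylow p-subgroup P. -/
theorem result {G : Type*} [Group G] [Finite G] {p : ℕ} [Fact p.Prime] (hp : p ≠ 2) (hloc : ∀ Q : Subgroup G, IsPGroup p Q → Q ≠ ⊥ → Cfsg.pPrimeCore p ↥(Subgroup.normalizer (Q : Set G)) = ⊥ ∧ Cfsg.IsPConstrained p ↥(Subgroup.normalizer (Q : Set G)) ∧ Cfsg.IsPStable p ↥(Subgroup.normalizer (Q : Set G))) (P : Sylow p G) (Q : Subgroup G) (hQP : Q ≤ (P : Subgroup G)) (hQ1 : Q ≠ ⊥) : Subgroup.normalizer (Q : Set G) ≤ Subgroup.normalizer (Cfsg.centerThompsonAOf ((P : Subgroup G)) : Set G) := by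
  rw [CfsgLib.Replacement.centerThompsonAOf_eq_zcore]
  set M := Subgroup.normalizer (CfsgLib.Replacement.zcore 0 (P : Subgroup G) : Set G) with hM
  have hPM : (P : Subgroup G) ≤ M :=
    Subgroup.le_normalizer.trans (CfsgLib.Replacement.normalizer_le_normalizer_zcore 0 _)
  by_contra hcon
  obtain ⟨U, ⟨hUP, hU1, hUM⟩, hUmax⟩ := Set.Finite.exists_maximalFor
    (fun U : Subgroup G => Nat.card ((P : Subgroup G) ⊓ Subgroup.normalizer (U : Set G) : Subgroup G))
    {U : Subgroup G | U ≤ (P : Subgroup G) ∧ U ≠ ⊥ ∧ ¬ Subgroup.normalizer (U : Set G) ≤ M}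
    (Set.toFinite _) ⟨Q, hQP, hQ1, hcon⟩
  apply hUM
  have hbig : ∀ V : Subgroup G, V ≤ (P : Subgroup G) → V ≠ ⊥ →
      Nat.card ((P : Subgroup G) ⊓ Subgroup.normalizer (U : Set G) : Subgroup G) <
        Nat.card ((P : Subgroup G) ⊓ Subgroup.normalizer (V : Set G) : Subgroup G) →
      Subgroup.normalizer (V : Set G) ≤ M := by
    intro V hV hV1 hlt
    by_contra h
    exact absurd (hUmax ⟨hV, hV1, h⟩ hlt.le) (not_le.2 hlt)
  set N := Subgroup.normalizer (U : Set G) with hN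
  set T := (P : Subgroup G) ⊓ N with hT
  have hTN : T ≤ N := inf_le_right
  have hTP : T ≤ (P : Subgroup G) := inf_le_left
  have hTp : IsPGroup p T := P.2.to_le hTP
  have hUT : U ≤ T := le_inf hUP Subgroup.le_normalizer
  have hT1 : T ≠ ⊥ := fun h => hU1 (le_bot_iff.1 (h ▸ hUT))
  obtain ⟨h1, h2, h3⟩ := hloc U (P.2.to_le hUP) hU1
  obtain ⟨R, hR⟩ := (hTp.of_equiv (Subgroup.subgroupOfEquivOfLe hTN).symm).exists_le_sylow
  set RG := (R : Subgroup ↥N).map N.subtype with hRG
  have hTR : T ≤ RG := fun x hx => ⟨⟨x, hTN hx⟩, hR hx, rfl⟩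
  have hnor := Cfsg.Agent.S0667.zcore_zero_normal hp h2 h3 h1 R
  have hNZ : N ≤ Subgroup.normalizer (CfsgLib.Replacement.zcore 0 RG : Set G) := by
    rw [hRG, CfsgLib.Replacement.map_zcore_injective 0 _ N.subtype N.subtype_injective]
    intro x hx
    exact Subgroup.le_normalizer_map N.subtype
      ⟨⟨x, hx⟩, by rw [Subgroup.normalizer_eq_top_iff.2 hnor]; exact Subgroup.mem_top _, rfl⟩
  by_cases hTP' : T = (P : Subgroup G)
  · have : RG = (P : Subgroup G) := P.3 (R.2.map _) (hTP' ▸ hTR)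
    rwa [this] at hNZ
  have hlt : T < (P : Subgroup G) ⊓ Subgroup.normalizer (T : Set G) :=
    lt_inf_normalizer P.2 (lt_of_le_of_ne hTP hTP')
  have hNT : Subgroup.normalizer (T : Set G) ≤ M :=
    hbig T hTP hT1 (card_lt_of_lt hlt)
  have hTRG : T = RG := by
    by_contra hne
    set S1 := RG ⊓ Subgroup.normalizer (T : Set G) with hS1
    have hlt1 : T < S1 :=
      lt_inf_normalizer (R.2.map _) (lt_of_le_of_ne hTR hne)
    have hS1M : S1 ≤ M := inf_le_right.trans hNT
    have hS1p : IsPGroup p S1 := (R.2.map N.subtype).to_le inf_le_left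
    obtain ⟨S', hS'⟩ := (hS1p.of_equiv (Subgroup.subgroupOfEquivOfLe hS1M).symm).exists_le_sylow
    obtain ⟨m, hm⟩ := MulAction.exists_smul_eq ↥M S' (P.subtype hPM)
    have hmem : ∀ x ∈ S1, (m : G) * x * (m : G)⁻¹ ∈ (P : Subgroup G) := by
      intro x hx
      have hxS' : (⟨x, hS1M hx⟩ : ↥M) ∈ S' := hS' hx
      have h4 : m * ⟨x, hS1M hx⟩ * m⁻¹ ∈ (P.subtype hPM : Sylow p ↥M) := by
        rw [← hm]
        exact ⟨_, hxS', rfl⟩
      exact h4
    set U' := U.map (MulAut.conj (m : G)).toMonoidHom with hU'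
    have hU'P : U' ≤ (P : Subgroup G) := by
      rintro _ ⟨u, hu, rfl⟩
      exact hmem u (hlt1.le (hUT hu))
    have hU'1 : U' ≠ ⊥ := fun h => hU1
      ((Subgroup.map_eq_bot_iff_of_injective _ (MulAut.conj (m : G)).injective).1 h)
    have hU'M : ¬ Subgroup.normalizer (U' : Set G) ≤ M := by
      intro h
      apply hUM
      intro x hx
      have h4 : (m : G) * x * (m : G)⁻¹ ∈ M :=
        h (Subgroup.le_normalizer_map (MulAut.conj (m : G)).toMonoidHom ⟨x, hx, rfl⟩)
      have h5 := mul_mem (mul_mem (inv_mem m.2) h4) m.2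
      simpa [mul_assoc] using h5
    have h6 : Nat.card S1 ≤ Nat.card ((P : Subgroup G) ⊓ Subgroup.normalizer (U' : Set G) : Subgroup G) := by
      rw [Nat.card_congr (S1.equivMapOfInjective (MulAut.conj (m : G)).toMonoidHom
        (MulAut.conj (m : G)).injective).toEquiv]
      refine Nat.card_le_card_of_injective _ (Subgroup.inclusion_injective (le_inf ?_ ?_))
      · rintro _ ⟨x, hx, rfl⟩
        exact hmem x hx
      · rintro _ ⟨x, hx, rfl⟩
        obtain ⟨z, hz, hzx⟩ := (Subgroup.mem_inf.1 hx).1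
        exact Subgroup.le_normalizer_map (MulAut.conj (m : G)).toMonoidHom
          ⟨x, hzx ▸ z.2, rfl⟩
    have h7 := (card_lt_of_lt hlt1).trans_le h6
    exact hU'M (hbig U' hU'P hU'1 h7)
  rw [← hTRG] at hNZ
  refine hNZ.trans (hbig _ ((CfsgLib.Replacement.zcore_le 0 T).trans hTP)
    (CfsgLib.Replacement.zcore_ne_bot (dvd_zero p) hTp hT1) ?_)
  refine (card_lt_of_lt hlt).trans_le ?_
  exact Nat.card_le_card_of_injective _ (Subgroup.inclusion_injective
    (inf_le_inf_left _ (CfsgLib.Replacement.normalizer_le_normalizer_zcore 0 T)))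

end Cfsg.Agent.S0658
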