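import Cfsg.Statements.S0660
import Mathlib

set_option autoImplicit false
open Cfsg

namespace Cfsg.Agent.S0660

/-- Under a coprime action on an abelian group, an invariant subgroup that is complemented admits an invariant complement. -/
theorem result {G : Type*} [Group G] [Finite G] (V A U : Subgroup G) (hVab : IsMulCommutative V) (hAV : A ≤ Subgroup.normalizer (V : Set G)) (hcop : (Nat.card A).Coprime (Nat.card V)) (hUV : U ≤ V) (hAU : A ≤ Subgroup.normalizer (U : Set G)) (W : Subgroup G) (hWV : W ≤ V) (hUW : U ⊓ W = ⊥) (hUWV : U ⊔ W = V) : ∃ W' : Subgroup G, W' ≤ V ∧ A ≤ Subgroup.normalizer (W' : Set G) ∧ U ⊓ W' = ⊥ ∧ U ⊔ W' = V := by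
  classical
  have := hVab
  letI : CommGroup V := { (inferInstance : Group V) with mul_comm := fun a b => mul_comm' a b }
  have hcj : ∀ (a : A) (v : V), (a : G) * v * (a : G)⁻¹ ∈ V := fun a v =>
    (Subgroup.mem_normalizer_iff.1 (hAV a.2) _).1 v.2
  let α : A → (V →* V) := fun a =>
    { toFun := fun v => ⟨(a : G) * v * (a : G)⁻¹, hcj a v⟩
      map_one' := Subtype.ext (by simp)
      map_mul' := fun x y => Subtype.ext (by
        simp only [Subgroup.coe_mul]
        group) }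
  have hαmul : ∀ (a b : A) (v : V), α (a * b) v = α a (α b v) := fun a b v => Subtype.ext (by
    show ((a * b : A) : G) * v * ((a * b : A) : G)⁻¹
      = (a : G) * ((b : G) * v * (b : G)⁻¹) * (a : G)⁻¹
    rw [Subgroup.coe_mul]
    group)
  have hα1 : ∀ v : V, α 1 v = v := fun v => Subtype.ext (by
    show ((1 : A) : G) * v * ((1 : A) : G)⁻¹ = v
    simp)
  set U₀ := U.subgroupOf V with hU₀
  set W₀ := W.subgroupOf V with hW₀
  have hαU : ∀ (a : A), ∀ v ∈ U₀, α a v ∈ U₀ := fun a v hv =>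
    (Subgroup.mem_normalizer_iff.1 (hAU a.2) _).1 hv
  have hbij : Function.Bijective (U₀.subtype.coprod W₀.subtype) := by
    refine ⟨(injective_iff_map_eq_one _).2 ?_, ?_⟩
    · rintro ⟨u, w⟩ h
      have h1 : (u : V) * (w : V) = 1 := h
      have hu : ((u : V) : G) ∈ U ⊓ W := by
        refine Subgroup.mem_inf.2 ⟨u.2, ?_⟩
        have h2 : (u : V) = (w : V)⁻¹ := eq_inv_of_mul_eq_one_left h1
        rw [h2]
        exact W.inv_mem w.2
      rw [hUW, Subgroup.mem_bot] at hu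
      have hu1 : (u : V) = 1 := Subtype.ext hu
      rw [hu1, one_mul] at h1
      exact Prod.ext (Subtype.ext hu1) (Subtype.ext h1)
    · intro v
      have hv : v ∈ (U ⊔ W).subgroupOf V := by
        rw [Subgroup.mem_subgroupOf, hUWV]; exact v.2
      rw [Subgroup.subgroupOf_sup hUV hWV] at hv
      obtain ⟨u, hu, w, hw, rfl⟩ := Subgroup.mem_sup.1 hv
      exact ⟨(⟨u, hu⟩, ⟨w, hw⟩), rfl⟩
  let e := MulEquiv.ofBijective (U₀.subtype.coprod W₀.subtype) hbij
  let π : V →* V := U₀.subtype.comp ((MonoidHom.fst U₀ W₀).comp e.symm.toMonoidHom)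
  have hπU : ∀ v, π v ∈ U₀ := fun v => SetLike.coe_mem _
  have hπfix : ∀ v ∈ U₀, π v = v := by
    intro v hv
    have h1 : e (⟨v, hv⟩, 1) = v := mul_one v
    show ((e.symm v).1 : V) = v
    rw [show e.symm v = (⟨v, hv⟩, 1) by rw [MulEquiv.symm_apply_eq, h1]]
  haveI := Fintype.ofFinite A
  let φ : V →* V := ∏ a : A, (α a).comp (π.comp (α a⁻¹))
  have hφ : ∀ v, φ v = ∏ a : A, α a (π (α a⁻¹ v)) := fun v => by
    simp [φ, MonoidHom.finsetProd_apply]
  have hequiv : ∀ (b : A) (v : V), φ (α b v) = α b (φ v) := by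
    intro b v
    rw [hφ, hφ, map_prod]
    refine (Fintype.prod_equiv (Equiv.mulLeft b) _ _ fun c => ?_).symm
    show α b (α c (π (α c⁻¹ v))) = α (b * c) (π (α (b * c)⁻¹ (α b v)))
    rw [hαmul, mul_inv_rev, ← hαmul (c⁻¹ * b⁻¹) b, inv_mul_cancel_right]
  have hφU : ∀ v, φ v ∈ U₀ := fun v => by
    rw [hφ]
    exact prod_mem fun a _ => hαU a _ (hπU _)
  have hφfix : ∀ u ∈ U₀, φ u = u ^ Nat.card A := by
    intro u hu
    rw [hφ, Nat.card_eq_fintype_card, Fintype.card, ← Finset.prod_const]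
    refine Finset.prod_congr rfl fun a _ => ?_
    rw [hπfix _ (hαU _ u hu), ← hαmul, mul_inv_cancel, hα1]
  have hcU : (Nat.card U₀).Coprime (Nat.card A) :=
    (hcop.coprime_dvd_right (Subgroup.card_subgroup_dvd_card U₀)).symm
  refine ⟨φ.ker.map V.subtype, Subgroup.map_subtype_le _, ?_, ?_, ?_⟩
  · intro a ha
    refine Subgroup.mem_normalizer_fintype ?_
    rintro _ ⟨v, hv, rfl⟩
    refine ⟨α ⟨a, ha⟩ v, ?_, rfl⟩
    rw [SetLike.mem_coe, MonoidHom.mem_ker] at hv ⊢
    rw [hequiv, hv, map_one]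
  · rw [eq_bot_iff]
    rintro x ⟨hxU, v, hv, rfl⟩
    rw [SetLike.mem_coe, MonoidHom.mem_ker] at hv
    have hvU : v ∈ U₀ := hxU
    rw [hφfix v hvU] at hv
    have h1 : v = 1 := by
      refine orderOf_eq_one_iff.1 (Nat.eq_one_of_dvd_coprimes hcU ?_ (orderOf_dvd_of_pow_eq_one hv))
      exact Subgroup.orderOf_dvd_natCard U₀ hvU
    rw [h1]
    exact Subgroup.mem_bot.2 rfl
  · refine le_antisymm (sup_le hUV (Subgroup.map_subtype_le _)) fun x hx => ?_
    obtain ⟨u, hu⟩ := (powCoprime hcU).surjective ⟨φ ⟨x, hx⟩, hφU _⟩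
    have hu' : (u : V) ^ Nat.card A = φ ⟨x, hx⟩ := congrArg Subtype.val hu
    have hk : (u : V)⁻¹ * ⟨x, hx⟩ ∈ φ.ker := by
      rw [MonoidHom.mem_ker, map_mul, map_inv, hφfix _ u.2, hu', inv_mul_cancel]
    have h2 := mul_mem (Subgroup.mem_sup_left (T := φ.ker.map V.subtype) (show ((u : V) : G) ∈ U from u.2))
      (Subgroup.mem_sup_right (S := U) (Subgroup.mem_map_of_mem V.subtype hk))
    simpa using h2

end Cfsg.Agent.S0660
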