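import Cfsg.Statements.S0661
import Cfsg.Agent.Lib.SectRank.Constrained

set_option autoImplicit false
open Cfsg

namespace Cfsg.Agent.S0661

/-- If, modulo the largest normal subgroup of order prime to p, the largest normal p-subgroup contains its centralizer, then for every p-subgroup P the p'-core of N_G(P) is just O_p'(G) ∩ N_G(P). -/
theorem result {G : Type*} [Group G] [Finite G] {p : ℕ} [Fact p.Prime] (hc : Subgroup.centralizer (Cfsg.pCore p (G ⧸ Cfsg.pPrimeCore p G) : Set (G ⧸ Cfsg.pPrimeCore p G)) ≤ Cfsg.pCore p (G ⧸ Cfsg.pPrimeCore p G)) (P : Subgroup G) (hP : IsPGroup p P) : (Cfsg.pPrimeCore p ↥(Subgroup.normalizer (P : Set G))).map (Subgroup.normalizer (P : Set G)).subtype = Cfsg.pPrimeCore p G ⊓ Subgroup.normalizer (P : Set G) := by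
  set O := Cfsg.pPrimeCore p G with hO
  set N := Subgroup.normalizer (P : Set G) with hN
  set π := QuotientGroup.mk' O with hπ
  have hOc : (Nat.card O).Coprime p := CfsgLib.Cores.card_pPrimeCore_coprime p
  set f := π.comp N.subtype with hf
  have hle : f.ker = O.subgroupOf N := by
    rw [hf, ← MonoidHom.comap_ker, hπ, QuotientGroup.ker_mk']; rfl
  have hr : f.range = Subgroup.normalizer ((P.map π : Subgroup (G ⧸ O)) : Set (G ⧸ O)) := by
    refine le_antisymm ?_ fun y hy => ?_
    · rw [hf, MonoidHom.range_comp, Subgroup.range_subtype]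
      exact Subgroup.le_normalizer_map π
    · obtain ⟨g, rfl⟩ := QuotientGroup.mk'_surjective O y
      obtain ⟨o, ho, hn⟩ := CfsgLib.SectRank.exists_mul_mem_normalizer hP hOc (h := g) fun x hx => by
        obtain ⟨t, ht, hteq⟩ :=
          (Subgroup.mem_normalizer_iff.1 hy (π x)).1 (Subgroup.mem_map_of_mem π hx)
        have h1 : g * x * g⁻¹ * t⁻¹ ∈ O := by
          rw [← QuotientGroup.eq_one_iff (N := O), ← QuotientGroup.mk'_apply, ← hπ,
            map_mul, map_mul, map_mul, map_inv, map_inv, hteq, hπ]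
          group
        have := (O ⊔ P).mul_mem (Subgroup.mem_sup_left h1) (Subgroup.mem_sup_right ht)
        simpa [mul_assoc] using this
      refine ⟨⟨o * g, hn⟩, ?_⟩
      show π (o * g) = π g
      rw [map_mul, hπ, QuotientGroup.mk'_apply, (QuotientGroup.eq_one_iff o).2 ho, one_mul]
  have hbot : Cfsg.pPrimeCore p ↥f.range = ⊥ :=
    CfsgLib.SectRank.pPrimeCore_eq_bot_of_centralizer_le (CfsgLib.SectRank.centralizer_pCore_le_equiv
      (MulEquiv.subgroupCongr hr) (CfsgLib.SectRank.centralizer_pCore_normalizer_le _ (hP.map π) hc))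
  have hker : f.ker = Cfsg.pPrimeCore p ↥N := by
    refine le_antisymm (CfsgLib.Cores.le_pPrimeCore ?_) ?_
    · rw [hle]
      exact hOc.coprime_dvd_left (Subgroup.card_comap_dvd_of_injective _ _ N.subtype_injective)
    · have h := CfsgLib.Cores.map_pPrimeCore_le_of_surjective (p := p) f.rangeRestrict_surjective
      rw [hbot, le_bot_iff, Subgroup.map_eq_bot_iff, MonoidHom.ker_rangeRestrict] at h
      exact h
  rw [← hker, hle, Subgroup.subgroupOf_map_subtype]

end Cfsg.Agent.S0661
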