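import Cfsg.Statements.S0663
import Cfsg.Agent.Lib.PGroups.Series
import Cfsg.Agent.Lib.CoprimeAction.Basic

set_option autoImplicit false
open Cfsg

open scoped commutatorElement

namespace Cfsg.Agent.S0663

section

variable {L : Type*} [Group L] [Finite L] {p : ℕ} [Fact p.Prime]

open scoped commutatorElement

theorem commutator_lt {T H : Subgroup L} (hT : IsPGroup p T) (hHT : H ≤ T)
    (hn : T ≤ Subgroup.normalizer (H : Set L)) (hH : H ≠ ⊥) : ⁅H, T⁆ < H := by
  haveI : Group.IsNilpotent T := hT.isNilpotent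
  haveI : (H.subgroupOf T).Normal := Subgroup.normal_subgroupOf_of_le_normalizer hn
  have h := CfsgLib.PGroups.commutator_top_lt (N := H.subgroupOf T)
    (fun h0 => hH (by rwa [Subgroup.subgroupOf_eq_bot, disjoint_iff, inf_eq_left.2 hHT] at h0))
  have h2 := (Subgroup.map_lt_map_iff_of_injective T.subtype_injective).2 h
  rwa [Subgroup.map_commutator, ← MonoidHom.range_eq_map, Subgroup.range_subtype,
    Subgroup.map_subgroupOf_eq_of_le hHT] at h2

theorem mul_card_le_of_lt {H K : Subgroup L} (hK : IsPGroup p K) (h : H < K) :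
    p * Nat.card H ≤ Nat.card K := by
  have h2 : H.subgroupOf K < ⊤ := lt_top_iff_ne_top.2 fun he => h.not_ge (Subgroup.subgroupOf_eq_top.1 he)
  have h3 := CfsgLib.PGroups.prime_mul_card_le hK h2
  rwa [Subgroup.card_top, Nat.card_congr (Subgroup.subgroupOfEquivOfLe h.le).toEquiv] at h3

theorem card_mul_pow_le (f : ℕ → Subgroup L) (n : ℕ) (hp : IsPGroup p (f 0)) (h0 : Nat.card (f 0) = p ^ n)
    (hle : ∀ k, f (k + 1) ≤ f k) (hlt : ∀ k, f k ≠ ⊥ → f (k + 1) < f k) :
    ∀ k, f k ≠ ⊥ → Nat.card (f k) * p ^ k ≤ p ^ n := by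
  intro k
  induction k with
  | zero => intro _; rw [pow_zero, mul_one, h0]
  | succ k ih =>
    intro hne
    have hne' : f k ≠ ⊥ := fun h => hne (le_bot_iff.1 (h ▸ hle k))
    have hpk : IsPGroup p (f k) := hp.to_le (antitone_nat_of_succ_le hle (Nat.zero_le k))
    refine le_trans ?_ (ih hne')
    rw [pow_succ', ← mul_assoc, mul_comm (Nat.card _) p]
    exact Nat.mul_le_mul_right _ (mul_card_le_of_lt hpk (hlt k hne'))

theorem pow_le_card (f : ℕ → Subgroup L) (n : ℕ) (hp : IsPGroup p (f 0))
    (hle : ∀ k, f (k + 1) ≤ f k) (hlt : ∀ k, f k ≠ ⊥ → f (k + 1) < f k)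
    (hne : ∀ k, k < n → f k ≠ ⊥) : ∀ d k, k + d = n → p ^ d ≤ Nat.card (f k) := by
  intro d
  induction d with
  | zero => intro k _; rw [pow_zero]; exact Nat.card_pos
  | succ d ih =>
    intro k hk
    have hpk : IsPGroup p (f k) := hp.to_le (antitone_nat_of_succ_le hle (Nat.zero_le k))
    refine le_trans ?_ (mul_card_le_of_lt hpk (hlt k (hne k (by omega))))
    rw [pow_succ']
    exact Nat.mul_le_mul_left _ (ih (k + 1) (by omega))

omit [Fact p.Prime] in
theorem iterCommutator_props (N G T : Subgroup L) (hT : T ≤ Subgroup.normalizer (N : Set L))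
    (hGT : G ≤ T) (hNT : N ≤ T) : ∀ k, Cfsg.iterCommutator N G k ≤ Cfsg.iterCommutator N T k ∧
      Cfsg.iterCommutator N T k ≤ N ∧
      T ≤ Subgroup.normalizer (Cfsg.iterCommutator N T k : Set L) := by
  intro k
  induction k with
  | zero => exact ⟨le_rfl, le_rfl, hT⟩
  | succ k ih =>
    exact ⟨Subgroup.commutator_mono ih.1 hGT,
      (CfsgLib.CoprimeAction.commutator_le_left ih.2.2).trans ih.2.1,
      le_sup_right.trans (CfsgLib.CoprimeAction.sup_le_normalizer_commutator T _)⟩

end



/-- A p-group acts uniserially on a p-group N of order p^n exactly when the iterated commutator chain from N has length n; in that case the chain terms are all the invariant subgroups of N and they are normal in N. -/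
theorem result {L : Type*} [Group L] [Finite L] {p : ℕ} [Fact p.Prime] (N G : Subgroup L) (hN : IsPGroup p N) (hG : IsPGroup p G) (hGN : G ≤ Subgroup.normalizer (N : Set L)) (n : ℕ) (hn : Nat.card N = p ^ n) : ((∀ H : Subgroup L, H ≤ N → G ≤ Subgroup.normalizer (H : Set L) → H ≠ ⊥ → (⁅H, G⁆).relIndex H = p) ↔ Cfsg.iterCommutator N G (n - 1) ≠ ⊥ ∨ n = 0) ∧ ((∀ H : Subgroup L, H ≤ N → G ≤ Subgroup.normalizer (H : Set L) → H ≠ ⊥ → (⁅H, G⁆).relIndex H = p) → ∀ H : Subgroup L, H ≤ N → G ≤ Subgroup.normalizer (H : Set L) → (∃ i ≤ n, H = Cfsg.iterCommutator N G i) ∧ N ≤ Subgroup.normalizer (H : Set L)) := by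
  classical
  set T := N ⊔ G with hTdef
  have hNT : N ≤ T := le_sup_left
  have hGT : G ≤ T := le_sup_right
  have hTp : IsPGroup p T := IsPGroup.to_sup_of_normal_left' hN hG hGN
  have hTN : T ≤ Subgroup.normalizer (N : Set L) := sup_le Subgroup.le_normalizer hGN
  set A : ℕ → Subgroup L := Cfsg.iterCommutator N G with hA
  set M : ℕ → Subgroup L := Cfsg.iterCommutator N T with hM
  have hprops := iterCommutator_props N G T hTN hGT hNT
  have hA_inv : ∀ k, G ≤ Subgroup.normalizer (A k : Set L) := by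
    intro k
    induction k with
    | zero => exact hGN
    | succ k ih => exact le_sup_right.trans (CfsgLib.CoprimeAction.sup_le_normalizer_commutator G (A k))
  have hA_le : ∀ k, A (k + 1) ≤ A k := fun k => CfsgLib.CoprimeAction.commutator_le_left (hA_inv k)
  have hA_N : ∀ k, A k ≤ N := fun k => (hprops k).1.trans (hprops k).2.1
  have hlt : ∀ H : Subgroup L, H ≤ N → G ≤ Subgroup.normalizer (H : Set L) → H ≠ ⊥ → ⁅H, G⁆ < H := by
    intro H hHN hHG hH
    refine lt_of_le_of_lt (Subgroup.commutator_mono le_rfl le_sup_right)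
      (commutator_lt (p := p) (T := H ⊔ G) ?_ le_sup_left (sup_le Subgroup.le_normalizer hHG) hH)
    exact IsPGroup.to_sup_of_normal_left' (hN.to_le hHN) hG hHG
  have hA_lt : ∀ k, A k ≠ ⊥ → A (k + 1) < A k := fun k h => hlt _ (hA_N k) (hA_inv k) h
  have hM_le : ∀ k, M (k + 1) ≤ M k := fun k =>
    CfsgLib.CoprimeAction.commutator_le_left (hprops k).2.2
  have hM_lt : ∀ k, M k ≠ ⊥ → M (k + 1) < M k := fun k h =>
    commutator_lt hTp ((hprops k).2.1.trans hNT) (hprops k).2.2 h
  have hanti : Antitone A := antitone_nat_of_succ_le hA_le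
  have hp' : p.Prime := Fact.out
  -- consequences of a long chain
  have hlong : (A (n - 1) ≠ ⊥ ∨ n = 0) → ∀ k, k < n → A k ≠ ⊥ := by
    intro h k hk hb
    rcases h with h | h
    · exact h (le_bot_iff.1 (hb ▸ hanti (show k ≤ n - 1 by omega)))
    · omega
  have hAn : ∀ k, n ≤ k → A k = ⊥ := by
    intro k hk
    by_contra hne
    have h1 := card_mul_pow_le A n hN hn hA_le hA_lt k hne
    have h2 : 2 * p ^ k ≤ p ^ n := le_trans (Nat.mul_le_mul_right _
      (Finite.one_lt_card_iff_nontrivial.2 ((Subgroup.nontrivial_iff_ne_bot _).2 hne))) h1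
    have h3 := Nat.pow_le_pow_right hp'.pos hk
    have h4 : 0 < p ^ n := pow_pos hp'.pos n
    omega
  have hchain : (A (n - 1) ≠ ⊥ ∨ n = 0) → ∀ k, A k = M k := by
    intro h k
    refine Subgroup.eq_of_le_of_card_ge (hprops k).1 ?_
    by_cases hb : M k = ⊥
    · rw [hb, Subgroup.card_bot]; exact Nat.card_pos
    have h1 := card_mul_pow_le M n hN hn hM_le hM_lt k hb
    by_cases hk : k < n
    · have h2 := pow_le_card A n hN hA_le hA_lt (hlong h) (n - k) k (by omega)
      have h3 : Nat.card (M k) * p ^ k ≤ Nat.card (A k) * p ^ k := by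
        refine h1.trans ?_
        calc p ^ n = p ^ (n - k) * p ^ k := by rw [← pow_add]; congr 1; omega
          _ ≤ _ := Nat.mul_le_mul_right _ h2
      exact Nat.le_of_mul_le_mul_right h3 (pow_pos hp'.pos k)
    · exfalso
      have h2 : 2 * p ^ k ≤ p ^ n := le_trans (Nat.mul_le_mul_right _
        (Finite.one_lt_card_iff_nontrivial.2 ((Subgroup.nontrivial_iff_ne_bot _).2 hb))) h1
      have h3 := Nat.pow_le_pow_right hp'.pos (show n ≤ k by omega)
      have h4 : 0 < p ^ n := pow_pos hp'.pos n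
      omega
  have hnorm : (A (n - 1) ≠ ⊥ ∨ n = 0) → ∀ k, N ≤ Subgroup.normalizer (A k : Set L) := by
    intro h k
    rw [hchain h k]
    exact hNT.trans (hprops k).2.2
  have hcard : (A (n - 1) ≠ ⊥ ∨ n = 0) → ∀ k, k ≤ n → Nat.card (A k) = p ^ (n - k) := by
    intro h k hk
    rcases eq_or_lt_of_le hk with rfl | hk
    · rw [hAn k le_rfl, Subgroup.card_bot, Nat.sub_self, pow_zero]
    have h1 := pow_le_card A n hN hA_le hA_lt (hlong h) (n - k) k (by omega)
    have h2 := card_mul_pow_le A n hN hn hA_le hA_lt k (hlong h k hk)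
    refine le_antisymm (Nat.le_of_mul_le_mul_right ?_ (pow_pos hp'.pos k)) h1
    rwa [← pow_add, Nat.sub_add_cancel hk.le]
  -- the invariant subgroups
  have hall : (A (n - 1) ≠ ⊥ ∨ n = 0) → ∀ H : Subgroup L, H ≤ N →
      G ≤ Subgroup.normalizer (H : Set L) → ∃ i ≤ n, H = A i := by
    intro h H hHN hHG
    by_cases hb : H = ⊥
    · exact ⟨n, le_rfl, hb.trans (hAn n le_rfl).symm⟩
    set i := Nat.findGreatest (fun j => H ≤ A j) n with hidef
    have hi : i ≤ n := Nat.findGreatest_le n
    have hHi : H ≤ A i := Nat.findGreatest_spec (P := fun j => H ≤ A j) (Nat.zero_le n) hHN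
    refine ⟨i, hi, le_antisymm hHi ?_⟩
    have hin : i < n := lt_of_le_of_ne hi fun he => hb (le_bot_iff.1 (hAn i he.ge ▸ hHi))
    have hnot : ¬ H ≤ A (i + 1) :=
      Nat.findGreatest_is_greatest (P := fun j => H ≤ A j) (Nat.lt_succ_self i) hin
    have hstep : ∀ j, i ≤ j → A j ≤ H ⊔ A (j + 1) := by
      intro j hj
      induction j, hj using Nat.le_induction with
      | base =>
        have hsup : A (i + 1) < H ⊔ A (i + 1) :=
          lt_of_le_of_ne le_sup_right fun he => hnot (le_sup_left.trans he.ge)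
        have hle : H ⊔ A (i + 1) ≤ A i := sup_le hHi (hA_le i)
        have hpK : IsPGroup p (H ⊔ A (i + 1) : Subgroup L) := (hN.to_le (hA_N i)).to_le hle
        have h1 := mul_card_le_of_lt hpK hsup
        rw [hcard h (i + 1) hin, ← pow_succ', show n - (i + 1) + 1 = n - i by omega,
          ← hcard h i hi] at h1
        exact (Subgroup.eq_of_le_of_card_ge hle h1).ge
      | succ j hj ih =>
        show ⁅A j, G⁆ ≤ H ⊔ A (j + 2)
        rw [Subgroup.commutator_le]
        intro x hx g hg
        have hxm : x ∈ (↑(H ⊔ A (j + 1)) : Set L) := ih hx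
        rw [Subgroup.coe_mul_of_left_le_normalizer_right H (A (j + 1))
          (hHN.trans (hnorm h (j + 1))), Set.mem_mul] at hxm
        obtain ⟨a, ha, b, hbA, rfl⟩ := hxm
        have e : ⁅a * b, g⁆ = a * ⁅b, g⁆ * a⁻¹ * ⁅a, g⁆ := by
          simp only [commutatorElement_def]; group
        rw [e]
        exact mul_mem (Subgroup.mem_sup_right ((Subgroup.mem_normalizer_iff.1
          (hnorm h (j + 2) (hHN ha)) _).1 (Subgroup.commutator_mem_commutator hbA hg)))
          (Subgroup.mem_sup_left (CfsgLib.CoprimeAction.commutator_le_left hHG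
            (Subgroup.commutator_mem_commutator ha hg)))
    have hall' : ∀ j, i ≤ j → A i ≤ H ⊔ A j := by
      intro j hj
      induction j, hj using Nat.le_induction with
      | base => exact le_sup_right
      | succ j hj ih => exact ih.trans (sup_le le_sup_left (hstep j hj))
    have h3 := hall' n hi
    rwa [hAn n le_rfl, sup_bot_eq] at h3
  have huni : (A (n - 1) ≠ ⊥ ∨ n = 0) → ∀ H : Subgroup L, H ≤ N →
      G ≤ Subgroup.normalizer (H : Set L) → H ≠ ⊥ → (⁅H, G⁆).relIndex H = p := by
    intro h H hHN hHG hb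
    obtain ⟨i, hi, rfl⟩ := hall h H hHN hHG
    have hin : i < n := lt_of_le_of_ne hi fun he => hb (hAn i he.ge)
    have h1 := Subgroup.relIndex_mul_relIndex ⊥ (A (i + 1)) (A i) bot_le (hA_le i)
    rw [Subgroup.relIndex_bot_left, Subgroup.relIndex_bot_left, hcard h i hi,
      hcard h (i + 1) hin, show n - i = n - (i + 1) + 1 by omega, pow_succ] at h1
    exact Nat.eq_of_mul_eq_mul_left (pow_pos hp'.pos _) h1
  have hconv : (∀ H : Subgroup L, H ≤ N → G ≤ Subgroup.normalizer (H : Set L) → H ≠ ⊥ →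
      (⁅H, G⁆).relIndex H = p) → A (n - 1) ≠ ⊥ ∨ n = 0 := by
    intro hU
    have hk : ∀ k, k ≤ n → p ^ (n - k) = Nat.card (A k) := by
      intro k hk
      induction k with
      | zero => exact hn.symm
      | succ k ih =>
        have hne : A k ≠ ⊥ := by
          intro hb
          have h1 := ih (by omega)
          rw [hb, Subgroup.card_bot] at h1
          exact (Nat.one_lt_pow (show n - k ≠ 0 by omega) hp'.one_lt).ne' h1
        have h1 := Subgroup.relIndex_mul_relIndex ⊥ (A (k + 1)) (A k) bot_le (hA_le k)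
        rw [Subgroup.relIndex_bot_left, Subgroup.relIndex_bot_left,
          show (A (k + 1)).relIndex (A k) = p from hU _ (hA_N k) (hA_inv k) hne,
          ← ih (by omega), show n - k = n - (k + 1) + 1 by omega, pow_succ] at h1
        exact (Nat.eq_of_mul_eq_mul_right hp'.pos h1).symm
    rcases Nat.eq_zero_or_pos n with hn0 | hn0
    · exact Or.inr hn0
    refine Or.inl fun hb => ?_
    have h1 := hk (n - 1) (by omega)
    rw [hb, Subgroup.card_bot, show n - (n - 1) = 1 by omega, pow_one] at h1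
    exact hp'.ne_one h1
  exact ⟨⟨hconv, huni⟩, fun hU H hHN hHG =>
    ⟨hall (hconv hU) H hHN hHG, by
      obtain ⟨i, -, rfl⟩ := hall (hconv hU) H hHN hHG
      exact hnorm (hconv hU) i⟩⟩

end Cfsg.Agent.S0663
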