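import Cfsg.Statements.S0666
import Cfsg.Agent.Lib.Frobenius.Kernel
open scoped IsMulCommutative

set_option autoImplicit false
set_option linter.style.haveILetI false
open Cfsg

namespace Cfsg.Agent.S0666

/-- A Frobenius group acting on a nontrivial abelian group of order prime to that of its kernel, with the kernel acting without nontrivial fixed points, has a complement with a nontrivial fixed point. -/
theorem result {G : Type*} [Group G] [Finite G] (V F : Subgroup G) (hVab : IsMulCommutative V) (hV1 : V ≠ ⊥) (hFV : F ≤ Subgroup.normalizer (V : Set G)) (H : Subgroup ↥F) (hH : Cfsg.IsFrobeniusComplement H) (hcop : (Nat.card V).Coprime (Nat.card (Cfsg.frobeniusKernel H))) (hCK : V ⊓ Subgroup.centralizer (Subtype.val '' Cfsg.frobeniusKernel H : Set G) = ⊥) : V ⊓ Subgroup.centralizer ((H.map F.subtype : Subgroup G) : Set G) ≠ ⊥ := by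
  classical
  obtain ⟨N, hNK, hNn, hNH⟩ := CfsgLib.Frobenius.exists_kernel hH
  haveI := hVab
  haveI := hNn
  haveI : Fintype ↥F := Fintype.ofFinite _
  haveI : Fintype N := Fintype.ofFinite _
  haveI : Fintype H := Fintype.ofFinite _
  intro hCH
  apply hV1
  rw [eq_bot_iff]
  intro x₀ hx₀
  let x : V := ⟨x₀, hx₀⟩
  -- conjugation by an element of `F`
  let c : ↥F → ↥V →* ↥V := fun f =>
    { toFun := fun v => ⟨(f : G) * v * (f : G)⁻¹,
        (Subgroup.mem_normalizer_iff.1 (hFV f.2) v).1 v.2⟩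
      map_one' := Subtype.ext (by simp)
      map_mul' := fun a b => Subtype.ext (by simp [mul_assoc]) }
  have hc : ∀ (f g : ↥F) (v : ↥V), c f (c g v) = c (f * g) v := fun f g v =>
    Subtype.ext (by simp [c, mul_assoc])
  have hc1 : ∀ v : ↥V, c 1 v = v := fun v => Subtype.ext (by simp [c])
  have hfixH : ∀ v : ↥V, (∀ h : H, c h v = v) → v = 1 := fun v hv => by
    refine Subtype.ext (Subgroup.mem_bot.1 (hCH ▸ ⟨v.2, Subgroup.mem_centralizer_iff.2 ?_⟩))
    rintro _ ⟨h, hh, rfl⟩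
    exact mul_inv_eq_iff_eq_mul.1 (congrArg Subtype.val (hv ⟨h, hh⟩))
  have hfixN : ∀ v : ↥V, (∀ k : N, c k v = v) → v = 1 := fun v hv => by
    refine Subtype.ext (Subgroup.mem_bot.1 (hCK ▸ ⟨v.2, Subgroup.mem_centralizer_iff.2 ?_⟩))
    rintro _ ⟨k, hk, rfl⟩
    exact mul_inv_eq_iff_eq_mul.1 (congrArg Subtype.val (hv ⟨k, hNK.ge hk⟩))
  -- the three sums
  have hkH : ∀ k : N, ∏ h : H, c ((k : ↥F) * (h : ↥F) * (k : ↥F)⁻¹) x = 1 := by
    intro k
    have h1 : c ((k : ↥F)⁻¹) (∏ h : H, c ((k : ↥F) * (h : ↥F) * (k : ↥F)⁻¹) x) = 1 := by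
      refine hfixH _ fun a => ?_
      rw [hc, map_prod, map_prod]
      refine Fintype.prod_equiv (Equiv.mulLeft a) _ _ fun h => ?_
      rw [hc, hc]
      congr 2
      simp [mul_assoc]
    have h2 := congrArg (c (k : ↥F)) h1
    rwa [hc, mul_inv_cancel, hc1, map_one] at h2
  have hNsum : ∏ k : N, c (k : ↥F) x = 1 := by
    refine hfixN _ fun a => ?_
    rw [map_prod]
    refine Fintype.prod_equiv (Equiv.mulLeft a) _ _ fun k => ?_
    rw [hc]
    rfl
  have hFsum : ∏ f : ↥F, c f x = 1 := by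
    refine hfixH _ fun a => ?_
    rw [map_prod]
    exact Fintype.prod_equiv (Equiv.mulLeft (a : ↥F)) _ _ fun f => hc _ _ _
  have hprod : ∏ f : ↥F, c f x = ∏ h : H, ∏ k : N, c ((k : ↥F) * (h : ↥F)) x := by
    rw [Finset.prod_comm, ← Fintype.prod_prod_type'
      (f := fun (k : N) (h : H) => c ((k : ↥F) * (h : ↥F)) x)]
    exact (Fintype.prod_bijective (fun kh : N × H => (kh.1 : ↥F) * (kh.2 : ↥F)) hNH
      _ _ fun _ => rfl).symm
  have hconj : ∏ h : H, ∏ k : N, c ((k : ↥F) * (h : ↥F) * (k : ↥F)⁻¹) x = 1 := by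
    rw [Finset.prod_comm]
    exact Finset.prod_eq_one fun k _ => hkH k
  have hsame : ∀ h : H, h ≠ 1 →
      ∏ k : N, c ((k : ↥F) * (h : ↥F) * (k : ↥F)⁻¹) x = ∏ k : N, c ((k : ↥F) * (h : ↥F)) x := by
    intro h hh
    let φ : N → N := fun k => ⟨(k : ↥F) * ((h : ↥F) * (k : ↥F)⁻¹ * (h : ↥F)⁻¹),
      N.mul_mem k.2 (hNn.conj_mem _ (N.inv_mem k.2) _)⟩
    have hφ : Function.Injective φ := by
      intro k l hkl
      have e : (k : ↥F) * ((h : ↥F) * (k : ↥F)⁻¹ * (h : ↥F)⁻¹) =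
          (l : ↥F) * ((h : ↥F) * (l : ↥F)⁻¹ * (h : ↥F)⁻¹) := congrArg Subtype.val hkl
      have e' : (k : ↥F) * (h : ↥F) * (k : ↥F)⁻¹ = (l : ↥F) * (h : ↥F) * (l : ↥F)⁻¹ := by
        simp only [← mul_assoc] at e
        exact mul_right_cancel e
      have hcomm : ((l : ↥F)⁻¹ * k) * (h : ↥F) = (h : ↥F) * ((l : ↥F)⁻¹ * k) := by
        calc ((l : ↥F)⁻¹ * k) * (h : ↥F) = (l : ↥F)⁻¹ * ((k : ↥F) * (h : ↥F) * (k : ↥F)⁻¹) * k := by
              simp [mul_assoc]
          _ = _ := by rw [e']; simp [mul_assoc]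
      have hH' : (l : ↥F)⁻¹ * k ∈ H :=
        CfsgLib.Frobenius.centralizer_le hH h.2 (fun e => hh (Subtype.ext e))
          (Subgroup.mem_centralizer_singleton_iff.2 hcomm)
      have h1 : (l : ↥F)⁻¹ * k = 1 :=
        CfsgLib.Frobenius.eq_one_of_mem_kernel_of_mem
          (hNK.le (N.mul_mem (N.inv_mem l.2) k.2)) hH'
      exact Subtype.ext (inv_mul_eq_one.1 h1).symm
    refine Fintype.prod_bijective φ (Finite.injective_iff_bijective.1 hφ) _ _ fun k => ?_
    congr 2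
    simp [φ, mul_assoc]
  rw [hprod, ← Finset.mul_prod_erase Finset.univ _ (Finset.mem_univ (1 : H))] at hFsum
  rw [← Finset.mul_prod_erase Finset.univ _ (Finset.mem_univ (1 : H)),
    Finset.prod_congr rfl (fun h hh => hsame h (Finset.ne_of_mem_erase hh))] at hconj
  simp only [Subgroup.coe_one, mul_one, hNsum, one_mul] at hFsum
  rw [hFsum, mul_one] at hconj
  simp only [Subgroup.coe_one, mul_one, mul_inv_cancel, hc1, Finset.prod_const,
    Finset.card_univ] at hconj
  have hx : x = 1 := by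
    refine orderOf_eq_one_iff.1 (Nat.eq_one_of_dvd_coprimes hcop (orderOf_dvd_natCard x) ?_)
    refine orderOf_dvd_of_pow_eq_one ?_
    rw [← hNK]
    show x ^ Nat.card N = 1
    rwa [Nat.card_eq_fintype_card]
  exact Subgroup.mem_bot.2 (congrArg Subtype.val hx)

end Cfsg.Agent.S0666
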