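import Cfsg.Statements.S0668
import Cfsg.Agent.Lib.PermGroups.PModule

set_option autoImplicit false
open Cfsg

namespace Cfsg.Agent.S0668

open CfsgLib.PermGroups in
/-- Invariant linear maps are the functions on the orbits. -/
noncomputable def invariantsEquivOrbitFun {G K Ω₁ Ω₂ : Type*} [Group G] [Field K] [Fintype Ω₁]
    [DecidableEq Ω₁] [MulAction G Ω₁] [MulAction G Ω₂] :
    ((Cfsg.permRep K G Ω₁).linHom (Cfsg.permRep K G Ω₂)).invariants ≃ₗ[K]
      (MulAction.orbitRel.Quotient G (Ω₁ × Ω₂) → K) where
  toFun f q := Quotient.liftOn q (fun z => f.1 (Pi.single z.1 1) z.2) (by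
    rintro z w ⟨g, rfl⟩
    show f.1 (Pi.single (g • w.1) 1) (g • w.2) = _
    have hf := (Representation.mem_invariants _ _).1 f.2 g
    have h := congrFun (LinearMap.congr_fun hf (Pi.single (g • w.1) (1 : K))) (g • w.2)
    rw [Representation.linHom_apply] at h
    rw [← h]
    simp [permRep_single, permRep_apply])
  map_add' f f' := by ext q; induction q using Quotient.inductionOn; rfl
  map_smul' c f := by ext q; induction q using Quotient.inductionOn; rfl
  invFun φ := ⟨matMap fun x y => φ ⟦(x, y)⟧, by
    rw [Representation.mem_invariants]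
    intro g
    refine LinearMap.ext fun v => ?_
    rw [Representation.linHom_apply, LinearMap.comp_apply, LinearMap.comp_apply,
      matMap_comm (G := G), ← Module.End.mul_apply, ← map_mul, mul_inv_cancel, map_one,
      Module.End.one_apply]
    intro h x y
    exact congrArg φ (Quotient.sound ⟨h, rfl⟩)⟩
  left_inv f := by
    refine Subtype.ext (LinearMap.ext fun v => funext fun y => ?_)
    show matMap _ v y = f.1 v y
    rw [matMap_apply]
    conv_rhs => rw [pi_eq_sum_univ' v]
    rw [map_sum, Finset.sum_apply]
    refine Finset.sum_congr rfl fun x _ => ?_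
    rw [map_smul, Pi.smul_apply, smul_eq_mul]
    rfl
  right_inv φ := by
    ext q
    induction q using Quotient.inductionOn with
    | h z => exact matMap_single _ z.1 z.2

/-- The equivariant linear maps between the permutation modules of two finite `G`-sets form a space whose dimension is the number of `G`-orbits on the product of the two sets. -/
theorem result {G : Type*} [Group G] {K : Type*} [Field K] {Ω₁ Ω₂ : Type*} [Fintype Ω₁] [Fintype Ω₂] [MulAction G Ω₁] [MulAction G Ω₂] : Module.finrank K ((Cfsg.permRep K G Ω₁).linHom (Cfsg.permRep K G Ω₂)).invariants = Nat.card (MulAction.orbitRel.Quotient G (Ω₁ × Ω₂)) := by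
  classical
  have : Fintype (MulAction.orbitRel.Quotient G (Ω₁ × Ω₂)) := Fintype.ofFinite _
  rw [(invariantsEquivOrbitFun (K := K)).finrank_eq, Module.finrank_pi, Nat.card_eq_fintype_card]

end Cfsg.Agent.S0668
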