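import Cfsg.Statements.S0669

set_option autoImplicit false
open Cfsg

namespace Cfsg.Agent.S0669

/-- The rank of a transitive action: orbits on ordered pairs correspond to orbits of a point stabiliser. -/
theorem result {G : Type*} [Group G] {Ω : Type*} [Finite Ω] [MulAction G Ω] [MulAction.IsPretransitive G Ω] (a : Ω) : Nat.card (MulAction.orbitRel.Quotient G (Ω × Ω)) = Nat.card (MulAction.orbitRel.Quotient (MulAction.stabilizer G a) Ω) := by
  classical
  refine (Nat.card_eq_of_bijective (Quotient.map (fun x : Ω => (a, x)) ?_ :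
    MulAction.orbitRel.Quotient (MulAction.stabilizer G a) Ω →
      MulAction.orbitRel.Quotient G (Ω × Ω)) ⟨?_, ?_⟩).symm
  · rintro x y ⟨s, hs⟩
    exact ⟨(s : G), Prod.ext s.2 hs⟩
  · intro p q
    induction p using Quotient.inductionOn with
    | h x =>
      induction q using Quotient.inductionOn with
      | h y =>
        intro h
        obtain ⟨g, hg⟩ := Quotient.exact h
        exact Quotient.sound ⟨⟨g, congrArg Prod.fst hg⟩, congrArg Prod.snd hg⟩
  · intro p
    induction p using Quotient.inductionOn with
    | h z =>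
      obtain ⟨g, hg⟩ := MulAction.exists_smul_eq G z.1 a
      exact ⟨⟦g • z.2⟧, Quotient.sound ⟨g, Prod.ext hg rfl⟩⟩

end Cfsg.Agent.S0669
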