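import Cfsg.Statements.S0677
import Cfsg.Agent.Lib.PermGroups.Reflection
import Cfsg.Agent.S0675

set_option autoImplicit false
open Cfsg

namespace Cfsg.Agent.S0677

/-- The parity argument for symmetric difference sets in `ZMod p`. -/
theorem symmetric_difference_set {p : ℕ} [Fact p.Prime] (hp2 : p ≠ 2) (D : Finset (ZMod p))
    (lam : ℕ) (hD : ∀ t : ZMod p, t ≠ 0 → (D.filter fun i => t - i ∈ D).card = lam)
    (h1 : (1 : ZMod p) ∈ D) : ∀ u : ZMod p, u ≠ 0 → u ∈ D := by
  classical
  have hp : p.Prime := Fact.out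
  have h2 : (2 : ZMod p) ≠ 0 := by
    intro h0
    have : ((2 : ℕ) : ZMod p) = 0 := by exact_mod_cast h0
    rw [ZMod.natCast_eq_zero_iff] at this
    exact hp2 ((Nat.prime_dvd_prime_iff_eq hp Nat.prime_two).1 this)
  have par : ∀ u : ZMod p, u ≠ 0 → (u ∈ D ↔ Odd lam) := by
    intro u hu
    set T := D.filter fun i => (2 * u) - i ∈ D with hT
    have heven : Even (T.erase u).card := by
      rw [even_iff_two_dvd, ← ZMod.natCast_eq_zero_iff, Finset.cast_card]
      refine Finset.sum_involution (fun i _ => 2 * u - i) (fun i _ => by decide) ?_ ?_ ?_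
      · intro i hi _ he
        exact (Finset.mem_erase.1 hi).1 (mul_left_cancel₀ h2 (by linear_combination -he))
      · intro i hi
        rw [hT] at hi ⊢
        simp only [Finset.mem_erase, Finset.mem_filter] at hi ⊢
        refine ⟨fun he => hi.1 (by linear_combination -he), hi.2.2, ?_⟩
        rw [sub_sub_cancel]
        exact hi.2.1
      · intro i hi
        exact sub_sub_cancel _ _
    have hlam : T.card = lam := hD _ (mul_ne_zero h2 hu)
    constructor
    · intro huD
      have : u ∈ T := by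
        rw [hT, Finset.mem_filter, show 2 * u - u = u by ring]
        exact ⟨huD, huD⟩
      rw [← hlam, ← Finset.card_erase_add_one this]
      exact heven.add_one
    · intro hodd
      by_contra huD
      have : u ∉ T := fun h => huD (Finset.mem_filter.1 h).1
      rw [Finset.erase_eq_of_notMem this, hlam] at heven
      exact (Nat.not_even_iff_odd.2 hodd) heven
  exact fun u hu => (par u hu).2 ((par 1 one_ne_zero).1 h1)

/-- In a transitive permutation group of prime degree `p` whose Sylow `p`-normaliser has even order, the point stabilisers are the only subgroups of index `p`. -/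
theorem result {α : Type*} [Fintype α] [DecidableEq α] {p : ℕ} [Fact p.Prime] (hα : Fintype.card α = p) (G : Subgroup (Equiv.Perm α)) [MulAction.IsPretransitive G α] (P : Sylow p G) (heven : Even (Nat.card (Subgroup.normalizer ((P : Subgroup G) : Set G)))) (H : Subgroup G) (hH : H.index = p) : ∃ a : α, H = MulAction.stabilizer G a := by
  classical
  have hp : p.Prime := Fact.out
  have hα' : Nat.card α = p := by rw [Nat.card_eq_fintype_card, hα]
  obtain ⟨a₀⟩ : Nonempty α := Fintype.card_pos_iff.1 (hα ▸ hp.pos)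
  have hstab : ∀ a : α, Nat.card (MulAction.stabilizer G a) = Nat.card H := fun a => by
    have h1 := Subgroup.index_mul_card (MulAction.stabilizer G a)
    have h2 := Subgroup.index_mul_card H
    rw [MulAction.index_stabilizer_of_transitive, hα'] at h1
    rw [hH] at h2
    exact Nat.eq_of_mul_eq_mul_left hp.pos (h1.trans h2.symm)
  suffices hfix : ∃ a : α, ∀ x ∈ H, x • a = a by
    obtain ⟨a, ha⟩ := hfix
    exact ⟨a, Subgroup.eq_of_le_of_card_ge (fun x hx => ha x hx) (hstab a).le⟩
  have hPcard := CfsgLib.PermGroups.natCard_sylow_prime_degree (α := α) hα' P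
  have hpH : ¬ p ∣ Nat.card H := by
    intro hdvd
    have hfac : (Nat.card G).factorization p = 1 := by
      have := P.card_eq_multiplicity
      rw [hPcard] at this
      exact Nat.pow_right_injective hp.two_le ((this.symm.trans (pow_one p).symm))
    rw [← Subgroup.index_mul_card H, hH, Nat.factorization_mul hp.ne_zero Nat.card_pos.ne',
      Finsupp.add_apply, hp.factorization_self] at hfac
    have := hp.factorization_pos_of_dvd Nat.card_pos.ne' hdvd
    omega
  by_cases hp2 : p = 2
  · subst hp2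
    have hG2 : Nat.card G ≤ 2 := by
      refine le_trans (Subgroup.card_le_card_group G) ?_
      rw [Nat.card_perm, hα']
      rfl
    have hH1 : Nat.card H = 1 := by
      have h2 := Subgroup.index_mul_card H
      rw [hH] at h2
      have : 0 < Nat.card H := Nat.card_pos
      omega
    exact ⟨a₀, fun x hx => by
      rw [Subgroup.card_eq_one.1 hH1, Subgroup.mem_bot] at hx
      rw [hx, one_smul]⟩
  obtain ⟨σ, h, hσ, hz, hh1, hh, hinv⟩ :=
    CfsgLib.PermGroups.exists_inverting_involution (α := α) hα' hp2 P heven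
  -- the cosets of `H` are the `σ ^ i H`
  have hσH : ∀ n : ℕ, σ ^ n ∈ H → p ∣ n := fun n hn => by
    by_contra hnd
    have h1 : orderOf (σ ^ n) = p := by
      rw [Nat.Coprime.orderOf_pow (hσ ▸ (hp.coprime_iff_not_dvd.2 hnd)), hσ]
    exact hpH (h1 ▸ Subgroup.orderOf_dvd_natCard H hn)
  have hcinj : Function.Injective fun i : ZMod p => ((σ ^ i.val : G) : G ⧸ H) := by
    intro i j hij
    rw [QuotientGroup.eq] at hij
    have hmem : σ ^ ((j - i).val) ∈ H := by
      refine (congrArg (· ∈ H) ?_).mpr hij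
      rw [eq_inv_mul_iff_mul_eq, ← pow_add, pow_eq_pow_iff_modEq, hσ,
        ← ZMod.natCast_eq_natCast_iff]
      simp
    have := (ZMod.natCast_eq_zero_iff _ _).2 (hσH _ hmem)
    rw [ZMod.natCast_zmod_val, sub_eq_zero] at this
    exact this.symm
  have hcbij : Function.Bijective fun i : ZMod p => ((σ ^ i.val : G) : G ⧸ H) :=
    (Nat.bijective_iff_injective_and_card _).2
      ⟨hcinj, by rw [Nat.card_zmod]; exact hH.symm⟩
  -- an inverting involution inside `H`
  obtain ⟨i, hi⟩ := hcbij.2 (h : G ⧸ H)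
  have h2ne : (2 : ZMod p) ≠ 0 := by
    intro h0
    have : ((2 : ℕ) : ZMod p) = 0 := by exact_mod_cast h0
    rw [ZMod.natCast_eq_zero_iff] at this
    exact hp2 ((Nat.prime_dvd_prime_iff_eq hp Nat.prime_two).1 this)
  set n := (i / 2).val with hn
  have hconj : ∀ m : ℕ, h * σ ^ m = (σ ^ m)⁻¹ * h := fun m => by
    rw [← inv_pow, ← hinv, conj_pow, inv_mul_cancel_right]
  have hσh : σ ^ i.val = σ ^ n * σ ^ n := by
    rw [← pow_add, pow_eq_pow_iff_modEq, hσ, ← ZMod.natCast_eq_natCast_iff]
    simp [hn]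
    field_simp
    ring
  have hrev : h * σ ^ i.val * h = (σ ^ i.val)⁻¹ := by rw [hconj, mul_assoc, hh, mul_one]
  let h₀ : G := (σ ^ n)⁻¹ * h * σ ^ n
  have h₀H : h₀ ∈ H := by
    have h1 : (σ ^ i.val)⁻¹ * h ∈ H := QuotientGroup.eq.1 hi
    refine (congrArg (· ∈ H) ?_).mpr h1
    rw [hσh, mul_inv_rev]
    show (σ ^ n)⁻¹ * h * σ ^ n = _
    rw [mul_assoc, hconj, ← mul_assoc]
  have hh₀ : h₀ * h₀ = 1 := by
    show (σ ^ n)⁻¹ * h * σ ^ n * ((σ ^ n)⁻¹ * h * σ ^ n) = 1
    calc _ = (σ ^ n)⁻¹ * (h * h) * σ ^ n := by simp [mul_assoc]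
      _ = 1 := by rw [hh, mul_one, inv_mul_cancel]
  have hinv₀ : h₀ * σ * h₀⁻¹ = σ⁻¹ := by
    have hc : σ ^ n * σ = σ * σ ^ n := (Commute.pow_self σ n).eq
    calc h₀ * σ * h₀⁻¹ = (σ ^ n)⁻¹ * (h * (σ ^ n * σ * (σ ^ n)⁻¹) * h⁻¹) * σ ^ n := by
          simp [h₀, mul_assoc]
      _ = σ⁻¹ := by
        rw [hc, mul_inv_cancel_right, hinv, mul_assoc,
          ((Commute.refl σ).inv_left.pow_right n).eq, inv_mul_cancel_left]
  obtain ⟨e, he, hr⟩ :=
    CfsgLib.PermGroups.exists_coord_reflection (α := α) hα' hp2 hσ hh₀ hinv₀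
  refine ⟨e 0, ?_⟩
  by_cases hG : Group.IsSolvable G
  · -- here `H` is abelian, so it preserves the only fixed point of `h₀`
    have hfix1 : ∀ b : α, h₀ • b = b → b = e 0 := fun b hb => by
      obtain ⟨j, rfl⟩ := e.surjective b
      rw [hr] at hb
      have h0 : (2 : ZMod p) * j = 0 := by linear_combination -(e.injective hb)
      rw [(mul_eq_zero.1 h0).resolve_left h2ne]
    suffices hnorm : ∀ g : G, g * σ * g⁻¹ ∈ Subgroup.zpowers σ by
      intro x hx
      have hc : ∀ u v : G, Commute ((u * v) * (v * u)⁻¹) σ := by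
        intro u v
        obtain ⟨a, ha⟩ := hnorm u
        obtain ⟨b, hb⟩ := hnorm v
        simp only at ha hb
        have h1 : (u * v) * σ * (u * v)⁻¹ = σ ^ (a * b) := by
          rw [show (u * v) * σ * (u * v)⁻¹ = u * (v * σ * v⁻¹) * u⁻¹ by simp [mul_assoc],
            ← hb, ← conj_zpow, ← ha, ← zpow_mul]
        have h2 : (v * u) * σ * (v * u)⁻¹ = σ ^ (a * b) := by
          rw [show (v * u) * σ * (v * u)⁻¹ = v * (u * σ * u⁻¹) * v⁻¹ by simp [mul_assoc],
            ← ha, ← conj_zpow, ← hb, ← zpow_mul, mul_comm b a]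
        have h3 : (u * v) * σ * (u * v)⁻¹ = (v * u) * σ * (v * u)⁻¹ := h1.trans h2.symm
        have h4 : ((v * u)⁻¹ * (u * v)) * σ = σ * ((v * u)⁻¹ * (u * v)) := by
          calc ((v * u)⁻¹ * (u * v)) * σ
              = (v * u)⁻¹ * ((u * v) * σ * (u * v)⁻¹) * (u * v) := by simp [mul_assoc]
            _ = (v * u)⁻¹ * ((v * u) * σ * (v * u)⁻¹) * (u * v) := by rw [h3]
            _ = σ * ((v * u)⁻¹ * (u * v)) := by simp [mul_assoc]
        obtain ⟨c, hc⟩ := CfsgLib.PermGroups.mem_zpowers_of_commute (α := α) hα' hσ h4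
        simp only at hc
        show ((u * v) * (v * u)⁻¹) * σ = σ * ((u * v) * (v * u)⁻¹)
        obtain ⟨d, hd⟩ := hnorm (v * u)
        simp only at hd
        have h5 : (u * v) * (v * u)⁻¹ = σ ^ (d * c) := by
          rw [show (u * v) * (v * u)⁻¹ = (v * u) * ((v * u)⁻¹ * (u * v)) * (v * u)⁻¹ by
            simp [mul_assoc], ← hc, ← conj_zpow, ← hd, ← zpow_mul]
        rw [h5, (Commute.self_zpow σ (d * c)).eq]
      have hxh : (x * h₀) * (h₀ * x)⁻¹ = 1 := by
        have hm : (x * h₀) * (h₀ * x)⁻¹ ∈ Subgroup.zpowers σ :=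
          CfsgLib.PermGroups.mem_zpowers_of_commute (α := α) hα' hσ (hc x h₀)
        obtain ⟨m, hm⟩ := (IsOfFinOrder.mem_powers_iff_mem_zpowers (isOfFinOrder_of_finite σ)).2 hm
        simp only at hm
        have : σ ^ m ∈ H := hm ▸ H.mul_mem (H.mul_mem hx h₀H) (H.inv_mem (H.mul_mem h₀H hx))
        rw [← hm, ← orderOf_dvd_iff_pow_eq_one, hσ]
        exact hσH m this
      rw [mul_inv_eq_one] at hxh
      refine hfix1 _ ?_
      rw [← mul_smul, ← hxh, mul_smul, hr, neg_zero]
    -- a non-trivial abelian normal subgroup is generated by `σ`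
    obtain ⟨A, hAn, hA1, hAc⟩ : ∃ A : Subgroup G, A.Normal ∧ A ≠ ⊥ ∧ IsMulCommutative A := by
      obtain ⟨k, hk⟩ := hG.solvable
      have hk0 : derivedSeries G 0 ≠ ⊥ := fun h0 => hh1 (by
        have : h ∈ derivedSeries G 0 := Subgroup.mem_top h
        rwa [h0, Subgroup.mem_bot] at this)
      induction k with
      | zero => exact absurd hk hk0
      | succ k ih =>
        by_cases h0 : derivedSeries G k = ⊥
        · exact ih h0
        · refine ⟨_, derivedSeries_normal G k, h0, ⟨⟨fun ⟨u, hu⟩ ⟨v, hv⟩ => Subtype.ext ?_⟩⟩⟩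
          have := Subgroup.commutator_mem_commutator hu hv
          rw [show ⁅derivedSeries G k, derivedSeries G k⁆ = derivedSeries G (k + 1) from rfl,
            hk, Subgroup.mem_bot, commutatorElement_eq_one_iff_mul_comm] at this
          exact this
    have hprim : MulAction.IsPreprimitive G α := MulAction.IsPreprimitive.of_prime_card (hα'.symm ▸ hp)
    have htrans : MulAction.IsPretransitive A α := by
      refine MulAction.IsQuasiPreprimitive.isPretransitive_of_normal fun hfp => hA1 ?_
      refine (Subgroup.eq_bot_iff_forall _).2 fun u hu => eq_of_smul_eq_smul (α := α) fun b => ?_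
      rw [one_smul]
      exact (hfp.symm ▸ Set.mem_univ b : b ∈ MulAction.fixedPoints A α) ⟨u, hu⟩
    have hAcard : Nat.card A = p := (CfsgLib.PermGroups.card_eq_of_regular A
      (CfsgLib.PermGroups.semiregular_of_abelian_transitive A hAc a₀)).trans hα'
    have hAP : A = Subgroup.zpowers σ := by
      obtain ⟨Q, hQ⟩ := IsPGroup.exists_le_sylow (IsPGroup.of_card (n := 1) (by rw [hAcard, pow_one]) :
        IsPGroup p A)
      have hQA : (Q : Subgroup G) = A := (Subgroup.eq_of_le_of_card_ge hQ
        (by rw [hAcard, CfsgLib.PermGroups.natCard_sylow_prime_degree (α := α) hα' Q])).symm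
      obtain ⟨g, hg⟩ := MulAction.exists_smul_eq G Q P
      rw [hz, ← hg, Sylow.coe_subgroup_smul, hQA]
      ext u
      rw [Subgroup.mem_pointwise_smul_iff_inv_smul_mem]
      have hu : (MulAut.conj g)⁻¹ • u = g⁻¹ * u * g := by
        simp [MulAut.smul_def, MulAut.inv_apply]
      rw [hu]
      exact ⟨fun h' => hAn.conj_mem' u h' g, fun h' => by
        simpa [mul_assoc] using hAn.conj_mem _ h' g⟩
    intro g
    rw [← hAP]
    exact hAn.conj_mem σ (hAP ▸ Subgroup.mem_zpowers σ) g
  · -- the orbit of `e 1` under `H`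
    have h2 : MulAction.IsMultiplyPretransitive G α 2 :=
      (Cfsg.Agent.S0675.result (hα ▸ hp) G).resolve_left hG
    have h2' : ∀ {a b c d : α}, a ≠ b → c ≠ d → ∃ g : G, g • a = c ∧ g • b = d :=
      (MulAction.is_two_pretransitive_iff (G := G) (α := α)).1 h2
    let O : Set α := MulAction.orbit H (e 1)
    have hO : ∀ x ∈ H, ∀ b, b ∈ O → x • b ∈ O := fun x hx b hb =>
      MulAction.mem_orbit_of_mem_orbit (⟨x, hx⟩ : H) hb
    let In : G ⧸ H → α → Prop := fun q b => Quotient.liftOn' q (fun g => g⁻¹ • b ∈ O) (by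
      intro g g' hgg'
      rw [QuotientGroup.leftRel_apply] at hgg'
      refine propext ⟨fun hg => ?_, fun hg => ?_⟩
      · have := hO _ (H.inv_mem hgg') _ hg
        rwa [mul_inv_rev, inv_inv, mul_smul, smul_inv_smul] at this
      · have := hO _ hgg' _ hg
        rwa [mul_smul, smul_inv_smul] at this)
    have hIn : ∀ (g : G) q b, In (g • q) (g • b) ↔ In q b := by
      intro g q b
      obtain ⟨u, rfl⟩ := QuotientGroup.mk_surjective q
      show (g * u)⁻¹ • g • b ∈ O ↔ u⁻¹ • b ∈ O
      rw [mul_inv_rev, mul_smul, inv_smul_smul]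
    let D : Finset (ZMod p) := Finset.univ.filter fun j => e j ∈ O
    have hD : ∀ j, j ∈ D ↔ e j ∈ O := fun j => by simp [D]
    have hDneg : ∀ j, -j ∈ D ↔ j ∈ D := fun j => by
      have key : ∀ j, j ∈ D → -j ∈ D := fun j hj => by
        rw [hD] at hj ⊢
        rw [← hr]
        exact hO _ h₀H _ hj
      exact ⟨fun hj => by simpa using key _ hj, key j⟩
    have hInc : ∀ i j : ZMod p, In ((σ ^ i.val : G) : G ⧸ H) (e j) ↔ j - i ∈ D := by
      intro i j
      rw [hD]
      show (σ ^ i.val)⁻¹ • e j ∈ O ↔ _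
      have : (σ ^ i.val)⁻¹ • e j = e (j - i) := by
        rw [inv_smul_eq_iff, CfsgLib.PermGroups.pow_coord he]
        simp
      rw [this]
    have hcount : ∀ t : ZMod p, (D.filter fun i => t - i ∈ D).card =
        Nat.card {q : G ⧸ H // In q (e 0) ∧ In q (e t)} := by
      intro t
      rw [← Nat.card_eq_finsetCard]
      refine Nat.card_congr (Equiv.subtypeEquiv (Equiv.ofBijective _ hcbij) fun i => ?_)
      simp only [Finset.mem_filter, Equiv.ofBijective_apply, hInc, zero_sub, hDneg]
    have hconst : ∀ t : ZMod p, t ≠ 0 → (D.filter fun i => t - i ∈ D).card =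
        Nat.card {q : G ⧸ H // In q (e 0) ∧ In q (e 1)} := by
      intro t ht
      obtain ⟨g, hg0, hg1⟩ := h2' (e.injective.ne (zero_ne_one' (ZMod p)))
        (e.injective.ne ht.symm)
      rw [hcount]
      refine (Nat.card_congr (Equiv.subtypeEquiv (MulAction.toPerm g) fun q => ?_)).symm
      exact (and_congr (hIn g q (e 0)) (hIn g q (e 1))).symm.trans (by rw [hg0, hg1]; rfl)
    have hall := symmetric_difference_set hp2 D _ hconst ((hD 1).2 (MulAction.mem_orbit_self _))
    intro x hx
    by_contra hne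
    obtain ⟨j, hj⟩ := e.surjective (x • e 0)
    have hj0 : j ≠ 0 := fun h0 => hne (by rw [← hj, h0])
    have hjO : e j ∈ O := (hD j).1 (hall j hj0)
    have h0O : e 0 ∈ O := by
      have := hO _ (H.inv_mem hx) _ hjO
      rwa [hj, inv_smul_smul] at this
    have htop : O = Set.univ := Set.eq_univ_of_forall fun b => by
      obtain ⟨k, rfl⟩ := e.surjective b
      by_cases hk : k = 0
      · rw [hk]; exact h0O
      · exact (hD k).1 (hall k hk)
    have : MulAction.IsPretransitive H α := (MulAction.isPretransitive_iff_orbit_eq_univ (e 1)).2 htop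
    have h3 := CfsgLib.PermGroups.card_mul_card_stabilizer H (e 1)
    rw [hα'] at h3
    exact hpH (Dvd.intro _ h3)

end Cfsg.Agent.S0677
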