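import Cfsg.Statements.S0678
import Cfsg.Agent.Lib.PermGroups.PrimeDegreeSylow
import Cfsg.Agent.S0675
import Cfsg.Agent.S0676

set_option autoImplicit false
open Cfsg

namespace Cfsg.Agent.S0678

open CfsgLib.PermGroups

theorem arith3 : ∀ n < 721, n * (7 * 3) ∣ 5040 → n % 7 = 1 → 42 ∣ n * (7 * 3) →
    n = 8 ∨ 9 ∣ n * (7 * 3) := by
  decide +kernel

theorem arith6 : ∀ n < 721, n * (7 * 6) ∣ 5040 → n % 7 = 1 → 210 ∣ n * (7 * 6) →
    9 ∣ n * (7 * 6) := by
  decide +kernel

/-- A non-solvable transitive permutation group on 7 points that does not contain the alternating group is a simple group of order 168. -/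
theorem result {α : Type*} [Fintype α] [DecidableEq α] (hα : Fintype.card α = 7) (G : Subgroup (Equiv.Perm α)) [MulAction.IsPretransitive G α] (hG : ¬ Group.IsSolvable G) (hA : ¬ alternatingGroup α ≤ G) : Nat.card G = 168 ∧ IsSimpleGroup G := by
  classical
  have hp : Fact (Nat.Prime 7) := ⟨by decide⟩
  have hα' : Nat.card α = 7 := by rw [Nat.card_eq_fintype_card, hα]
  obtain ⟨P⟩ := (inferInstance : Nonempty (Sylow 7 G))
  obtain ⟨d, hd, hN⟩ := exists_card_normalizer_prime_degree (α := α) hα' P
  have hnormal : ¬ (P : Subgroup G).Normal := fun h =>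
    hG (isSolvable_of_sylow_normal (α := α) hα' P h)
  have hG7 : Nat.card G ≠ 7 := fun h => hG (by
    have : IsCyclic G := isCyclic_of_prime_card h
    letI := this.commGroup
    exact Group.isSolvable_of_comm mul_comm)
  have hd1 : d ≠ 1 := fun h => hG7 (natCard_eq_of_normalizer_sylow_le (α := α) hα' P
    (Subgroup.eq_of_le_of_card_ge Subgroup.le_normalizer
      (by rw [hN, h, mul_one, natCard_sylow_prime_degree (α := α) hα' P])).ge)
  have hcard : Nat.card G = Nat.card (Sylow 7 G) * (7 * d) := hN ▸ card_eq_natCard_sylow_mul P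
  have hmod : Nat.card (Sylow 7 G) % 7 = 1 := card_sylow_modEq_one 7 G
  have hdvd : Nat.card G ∣ 5040 := by
    have := G.card_subgroup_dvd_card
    rwa [Nat.card_perm, hα', show Nat.factorial 7 = 5040 from rfl] at this
  have h2 : MulAction.IsMultiplyPretransitive G α 2 :=
    (Cfsg.Agent.S0675.result (hα ▸ hp.out) G).resolve_left hG
  have h42 : 42 ∣ Nat.card G := by
    have := descFactorial_dvd_card (G := G) (α := α) (k := 2) (by omega)
    rwa [hα', show Nat.descFactorial 7 2 = 42 from rfl] at this
  have h9 : ¬ 9 ∣ Nat.card G := by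
    intro h
    have hprim : MulAction.IsPreprimitive G α :=
      MulAction.IsPreprimitive.of_prime_card (hα' ▸ hp.out)
    refine hA (alternatingGroup_le_of_three_part (by omega) hprim ?_)
    rw [hα]
    have h3 : (Nat.factorial 7).factorization 3 = 2 := by
      rw [show Nat.factorial 7 = 3 ^ 2 * 560 from rfl,
        Nat.factorization_mul (by norm_num) (by norm_num), Finsupp.add_apply,
        Nat.Prime.factorization_pow Nat.prime_three, Finsupp.single_eq_same,
        Nat.factorization_eq_zero_of_not_dvd (by norm_num)]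
    rw [h3]
    exact h
  have hd3 : d = 2 ∨ d = 3 ∨ d = 6 := by
    have := Nat.le_of_dvd (by norm_num) hd
    have h0 : d ≠ 0 := by rintro rfl; simp at hd
    norm_num at this
    interval_cases d <;> omega
  have hn : Nat.card (Sylow 7 G) < 721 := by
    have h := Nat.le_of_dvd (by norm_num) hdvd
    rw [hcard] at h
    rcases hd3 with rfl | rfl | rfl <;> omega
  rcases hd3 with rfl | rfl | rfl
  · exfalso
    have hs := isSimpleGroup_of_normalizer_prime_index (α := α) hα' P Nat.prime_two hN hnormal
    obtain ⟨σ, h, hσ, -, hh1, hh, hinv⟩ :=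
      exists_inverting_involution (α := α) hα' (by omega) P ⟨7, hN.trans (by norm_num)⟩
    obtain ⟨e, -, hr⟩ := exists_coord_reflection (α := α) hα' (by omega) hσ hh hinv
    have hsign : Equiv.Perm.sign (h : Equiv.Perm α) = -1 := by
      have : (h : Equiv.Perm α) = e.permCongr (Equiv.neg (ZMod 7)) := by
        ext x
        obtain ⟨j, rfl⟩ := e.surjective x
        rw [Equiv.permCongr_apply, e.symm_apply_apply, Equiv.neg_apply]
        exact hr j
      rw [this, Equiv.Perm.sign_permCongr]
      decide
    have hσsign : Equiv.Perm.sign (σ : Equiv.Perm α) = 1 := by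
      have h7 : Equiv.Perm.sign (σ : Equiv.Perm α) ^ 7 = 1 := by
        rw [← map_pow, ← SubgroupClass.coe_pow, ← hσ, pow_orderOf_eq_one, OneMemClass.coe_one,
          map_one]
      rcases Int.units_eq_one_or (Equiv.Perm.sign (σ : Equiv.Perm α)) with h' | h'
      · exact h'
      · rw [h'] at h7; exact absurd h7 (by decide)
    rcases hs.eq_bot_or_eq_top_of_normal ((Equiv.Perm.sign).comp G.subtype).ker
      inferInstance with hk | hk
    · have : σ ∈ ((Equiv.Perm.sign).comp G.subtype).ker := hσsign
      rw [hk, Subgroup.mem_bot] at this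
      rw [this, orderOf_one] at hσ
      norm_num at hσ
    · have : h ∈ ((Equiv.Perm.sign).comp G.subtype).ker := hk ▸ Subgroup.mem_top h
      have h1 : Equiv.Perm.sign (h : Equiv.Perm α) = 1 := this
      rw [hsign] at h1
      exact absurd h1 (by decide)
  · rcases arith3 _ hn (hcard ▸ hdvd) hmod (hcard ▸ h42) with h | h
    · exact ⟨by rw [hcard, h],
        isSimpleGroup_of_normalizer_prime_index (α := α) hα' P Nat.prime_three hN hnormal⟩
    · exact absurd (hcard ▸ h) h9
  · exfalso
    have h3 : MulAction.IsMultiplyPretransitive G α 3 :=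
      Cfsg.Agent.S0676.result hα G hG P ⟨21, hN.trans (by norm_num)⟩
    have h210 : 210 ∣ Nat.card G := by
      have := descFactorial_dvd_card (G := G) (α := α) (k := 3) (by omega)
      rwa [hα', show Nat.descFactorial 7 3 = 210 from rfl] at this
    exact h9 (hcard ▸ arith6 _ hn (hcard ▸ hdvd) hmod (hcard ▸ h210))

end Cfsg.Agent.S0678
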