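import Cfsg.Statements.S0679
import Cfsg.Agent.Lib.PermGroups.DegreeEleven
import Cfsg.Agent.S0675
import Cfsg.Agent.S0676
import Cfsg.Agent.S0498

set_option autoImplicit false
open Cfsg

namespace Cfsg.Agent.S0679

open CfsgLib.PermGroups MulAction

/-- The possible Sylow numbers. -/
theorem arith : ∀ a ∈ Finset.range 9, ∀ b ∈ Finset.range 5, 2 ^ a * 3 ^ b % 11 = 1 → 2 ∣ 2 ^ a * 3 ^ b →
    ¬ 32 ∣ 2 ^ a * 3 ^ b → ¬ 81 ∣ 2 ^ a * 3 ^ b →
      2 ^ a * 3 ^ b = 12 ∨ 2 ^ a * 3 ^ b = 144 := by
  decide +kernel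

variable {α : Type*} [Fintype α] [DecidableEq α]

theorem order_even_part (hα : Fintype.card α = 11) (K : Subgroup (Equiv.Perm α))
    [IsPretransitive K α] [IsMultiplyPretransitive K α 2] (hA : ¬ alternatingGroup α ≤ K)
    (hKA : K ≤ alternatingGroup α) {n : ℕ} (hcard : Nat.card K = 55 * n) (hn : n % 11 = 1) :
    n = 12 ∨ n = 144 := by
  obtain ⟨a, b, hab⟩ : ∃ a b : α, a ≠ b := Fintype.exists_pair_of_one_lt_card (by omega)
  have hS := Eleven.card_pair_stabilizer hα hA hKA hab
  have h16 := Eleven.not_sixteen_dvd hα hA hKA hab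
  have h2n : 2 ∣ n := by omega
  have h32 : ¬ 32 ∣ n := fun h => h16 (by
    obtain ⟨k, rfl⟩ := h
    exact ⟨k, by omega⟩)
  have h81 : ¬ 81 ∣ n := fun h => Eleven.not_eightyone_dvd hα hA (hcard ▸ Dvd.dvd.mul_left h 55)
  have h5 : ¬ 5 ∣ n := fun h => Eleven.not_twentyfive_dvd hα hA (by
    rw [hcard]; exact Nat.mul_dvd_mul (by norm_num : 5 ∣ 55) h)
  have h7 : ¬ 7 ∣ n := fun h => Eleven.not_seven_dvd hα hA (hcard ▸ Dvd.dvd.mul_left h 55)
  have hdvd : n ∣ 2 ^ 8 * 3 ^ 4 * 35 := by
    have h := K.card_subgroup_dvd_card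
    rw [Nat.card_perm, Nat.card_eq_fintype_card (α := α), hα, hcard,
      show Nat.factorial 11 = 55 * (2 ^ 8 * 3 ^ 4 * 35) from rfl] at h
    exact Nat.dvd_of_mul_dvd_mul_left (by norm_num) h
  have hcop : Nat.Coprime n 35 :=
    Nat.Coprime.mul_right (k := n) (m := 5) (n := 7)
      ((Nat.Prime.coprime_iff_not_dvd (by norm_num)).2 h5).symm
      ((Nat.Prime.coprime_iff_not_dvd (by norm_num)).2 h7).symm
  obtain ⟨x, y, hx, hy, rfl⟩ := Nat.dvd_mul.1 (hcop.dvd_of_dvd_mul_right hdvd)
  obtain ⟨i, hi, rfl⟩ := (Nat.dvd_prime_pow Nat.prime_two).1 hx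
  obtain ⟨j, hj, rfl⟩ := (Nat.dvd_prime_pow Nat.prime_three).1 hy
  exact arith i (Finset.mem_range.2 (by omega)) j (Finset.mem_range.2 (by omega)) hn h2n h32 h81

/-- There is no group of order `15840`. -/
theorem no_extension (hα : Fintype.card α = 11) (G K : Subgroup (Equiv.Perm α))
    (hK : K = G ⊓ alternatingGroup α) [IsPretransitive G α] [IsPretransitive K α]
    [IsMultiplyPretransitive K α 2]
    (hA : ¬ alternatingGroup α ≤ G) (hcK : Nat.card K = 7920) (hcG : Nat.card G = 15840) :
    False := by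
  have hAK : ¬ alternatingGroup α ≤ K := fun h => hA (h.trans (hK ▸ inf_le_left))
  have hKA : K ≤ alternatingGroup α := hK ▸ inf_le_right
  obtain ⟨h4, hbot⟩ := Eleven.sharply_four hα hAK hKA hcK
  have hKG : K ≤ G := hK ▸ inf_le_left
  have hsmul : ∀ (g : Equiv.Perm α) (hg : g ∈ G) (x : α), (⟨g, hg⟩ : G) • x = g x :=
    fun _ _ _ => rfl
  have h4G : IsMultiplyPretransitive G α 4 := ⟨fun x y => by
    obtain ⟨g, hg⟩ := h4.exists_smul_eq x y
    exact ⟨⟨g, hKG g.2⟩, hg⟩⟩
  have hst : ∀ x : Fin 4 ↪ α, Nat.card (stabilizer G x) = 2 := by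
    intro x
    have h := (stabilizer G x).index_mul_card
    have horb : orbit G x = Set.univ :=
      Set.eq_univ_iff_forall.2 fun y => h4G.exists_smul_eq x y
    have hidx : (stabilizer G x).index = Nat.card (Fin 4 ↪ α) :=
      (index_stabilizer (G := G) x).trans ((congrArg Set.ncard horb).trans (Set.ncard_univ _))
    rw [hidx, hcG, Nat.card_eq_fintype_card (α := Fin 4 ↪ α),
      Fintype.card_embedding_eq, Fintype.card_fin, hα,
      show Nat.descFactorial 11 4 = 7920 from rfl] at h
    omega
  obtain ⟨x⟩ : Nonempty (Fin 4 ↪ α) := Function.Embedding.nonempty_of_card_le (by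
    rw [Fintype.card_fin, hα]; norm_num)
  haveI := Fact.mk Nat.prime_two
  obtain ⟨⟨⟨h, hhG⟩, hhx⟩, hord⟩ :=
    exists_prime_orderOf_dvd_card' (G := stabilizer G x) 2 (hst x).symm.dvd
  rw [Subgroup.orderOf_mk, Subgroup.orderOf_mk] at hord
  have hhi : ∀ i, h (x i) = x i := fun i =>
    congrArg (fun f : Fin 4 ↪ α => f i) (mem_stabilizer_iff.1 hhx)
  obtain ⟨k, hk, hk', -⟩ := Eleven.exists_support_card Nat.prime_two hord
  have hfix4 : h.support.card ≤ 7 := by
    have hsub : h.support ⊆ (Finset.univ.image x)ᶜ := fun y hy => by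
      rw [Finset.mem_compl, Finset.mem_image]
      rintro ⟨i, -, rfl⟩
      exact Equiv.Perm.mem_support.1 hy (hhi i)
    refine (Finset.card_le_card hsub).trans ?_
    rw [Finset.card_compl, Finset.card_image_of_injective _ x.injective, Finset.card_univ,
      Fintype.card_fin, hα]
  have hodd : Equiv.Perm.sign h = -1 := by
    rcases Int.units_eq_one_or (Equiv.Perm.sign h) with e | e
    · exfalso
      have hhK : h ∈ K := hK ▸ ⟨hhG, e⟩
      have : (⟨h, hhK⟩ : K) ∈ stabilizer K x :=
        Function.Embedding.ext fun i => hhi i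
      rw [hbot x, Subgroup.mem_bot] at this
      rw [Subtype.mk_eq_mk.1 this, orderOf_one] at hord
      norm_num at hord
    · exact e
  have hk2 : k = 2 := by
    rw [Equiv.Perm.sign_of_cycleType, hk, Multiset.sum_replicate, Multiset.card_replicate,
      smul_eq_mul] at hodd
    have : k < 3 := by omega
    interval_cases k
    · exfalso
      have hsw : h.IsSwap := by
        rw [← Equiv.Perm.card_support_eq_two, hk']
      have hprim : IsPreprimitive G α := by
        refine IsPreprimitive.of_prime_card ?_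
        rw [Nat.card_eq_fintype_card, hα]
        norm_num
      exact hA ((Equiv.Perm.subgroup_eq_top_of_isPreprimitive_of_isSwap_mem hprim h hsw hhG).ge.trans'
        le_top)
    · exact absurd hodd (by decide)
    · rfl
  subst hk2
  set F := h.supportᶜ with hF
  have hF5 : F.card = 5 := by rw [hF, Finset.card_compl, hα, hk']
  obtain ⟨e, he, hei⟩ : ∃ e ∈ F, ∀ i, x i ≠ e := by
    by_contra! hcon
    have : F ⊆ Finset.univ.image x := fun e he => by
      obtain ⟨i, hi⟩ := hcon e he
      exact Finset.mem_image.2 ⟨i, Finset.mem_univ _, hi⟩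
    have := Finset.card_le_card this
    rw [Finset.card_image_of_injective _ x.injective, Finset.card_univ, Fintype.card_fin, hF5]
      at this
    omega
  have hhe : h e = e := by
    rwa [hF, Finset.mem_compl, Equiv.Perm.notMem_support] at he
  let v : Fin 5 → α := ![x 0, x 1, x 2, x 3, e]
  have hv : Function.Injective v := by
    intro i j hij
    fin_cases i <;> fin_cases j <;>
      simp [v, x.injective.eq_iff, hei, fun i => (hei i).symm] at hij ⊢
  have hvfix : ∀ i, h (v i) = v i := by
    intro i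
    fin_cases i <;> simp [v, hhi, hhe]
  let y : Fin 4 ↪ α := ⟨fun i => v i.succ, hv.comp (Fin.succ_injective _)⟩
  let z : Fin 4 ↪ α := ⟨fun i => v i.castSucc, hv.comp (Fin.castSucc_injective _)⟩
  obtain ⟨g, hg⟩ := h4.exists_smul_eq z y
  have hgi : ∀ i : Fin 4, (g : Equiv.Perm α) (v i.castSucc) = v i.succ := fun i =>
    congrArg (fun f : Fin 4 ↪ α => f i) hg
  -- `g` commutes with `h`
  have hcomm : (g : Equiv.Perm α) * h = h * g := by
    have hmem : ∀ w : Equiv.Perm α, (hw : w ∈ G) → (∀ i : Fin 4, w (v i.succ) = v i.succ) →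
        (⟨w, hw⟩ : G) ∈ stabilizer G y := fun w hw hwi => Function.Embedding.ext fun i => hwi i
    have h1 := hmem h hhG fun i => hvfix _
    have h2 := hmem ((g : Equiv.Perm α) * h * (g : Equiv.Perm α)⁻¹)
      (G.mul_mem (G.mul_mem (hKG g.2) hhG) (G.inv_mem (hKG g.2))) fun i => by
        rw [← hgi, Equiv.Perm.mul_apply, Equiv.Perm.mul_apply, ← Equiv.Perm.mul_apply _ (g : Equiv.Perm α),
          inv_mul_cancel, Equiv.Perm.one_apply, hvfix]
    obtain ⟨u, w, huw, huniv⟩ := Nat.card_eq_two_iff.1 (hst y)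
    have key : ∀ q : stabilizer G y, (q : G) ≠ 1 → q = ⟨⟨h, hhG⟩, h1⟩ := by
      intro q hq
      by_contra hne
      have hmem' : ∀ q : stabilizer G y, q = u ∨ q = w := fun q => by
        have : q ∈ ({u, w} : Set (stabilizer G y)) := huniv ▸ Set.mem_univ q
        exact this
      have h3 : (⟨⟨h, hhG⟩, h1⟩ : stabilizer G y) ≠ 1 := fun e0 => by
        have : h = 1 := congrArg (fun q : stabilizer G y => ((q : G) : Equiv.Perm α)) e0
        rw [this, orderOf_one] at hord
        norm_num at hord
      have h4' : q ≠ 1 := fun e0 => hq (by rw [e0]; rfl)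
      rcases hmem' q with e1 | e1 <;> rcases hmem' ⟨⟨h, hhG⟩, h1⟩ with e2 | e2 <;>
        rcases hmem' 1 with e3 | e3 <;>
        first
        | exact hne (e1.trans e2.symm)
        | exact h4' (e1.trans e3.symm)
        | exact h3 (e2.trans e3.symm)
    have hq := key ⟨_, h2⟩ fun e0 => by
      have e1 : (g : Equiv.Perm α) * h * (g : Equiv.Perm α)⁻¹ = 1 :=
        congrArg (fun q : G => (q : Equiv.Perm α)) e0
      rw [mul_inv_eq_one, mul_eq_left] at e1
      rw [e1, orderOf_one] at hord
      norm_num at hord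
    have e1 : (g : Equiv.Perm α) * h * (g : Equiv.Perm α)⁻¹ = h :=
      congrArg (fun q : stabilizer G y => ((q : G) : Equiv.Perm α)) hq
    exact mul_inv_eq_iff_eq_mul.1 e1
  have hhg : ∀ a, h ((g : Equiv.Perm α) a) = (g : Equiv.Perm α) (h a) := fun a => by
    rw [← Equiv.Perm.mul_apply, ← Equiv.Perm.mul_apply, hcomm]
  -- the image of the last point
  have hFeq : F = Finset.univ.image v := by
    refine (Finset.eq_of_subset_of_card_le ?_ ?_).symm
    · intro a ha
      obtain ⟨i, -, rfl⟩ := Finset.mem_image.1 ha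
      rw [hF, Finset.mem_compl, Equiv.Perm.notMem_support]
      exact hvfix i
    · rw [hF5, Finset.card_image_of_injective _ hv, Finset.card_univ, Fintype.card_fin]
  have hlast : (g : Equiv.Perm α) (v 4) = v 0 := by
    have hmem : (g : Equiv.Perm α) (v 4) ∈ F := by
      rw [hF, Finset.mem_compl, Equiv.Perm.notMem_support, hhg, hvfix]
    rw [hFeq, Finset.mem_image] at hmem
    obtain ⟨i, -, hi⟩ := hmem
    rcases Fin.eq_zero_or_eq_succ i with rfl | ⟨j, rfl⟩
    · exact hi.symm
    · exfalso
      rw [← hgi j] at hi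
      have := hv ((g : Equiv.Perm α).injective hi)
      fin_cases j <;> exact absurd this (by decide)
  have hnext : ∀ i : Fin 5, (g : Equiv.Perm α) (v i) = v (i + 1) := by
    intro i
    fin_cases i
    exacts [hgi 0, hgi 1, hgi 2, hgi 3, hlast]
  have hg5 : g ^ 5 = 1 := by
    have hmem : g ^ 5 ∈ stabilizer K y := Function.Embedding.ext fun i => by
      show ((g : Equiv.Perm α) ^ 5) (v i.succ) = v i.succ
      simp only [pow_succ, pow_zero, one_mul, Equiv.Perm.mul_apply, hnext]
      congr 1
      revert i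
      decide
    rwa [hbot y, Subgroup.mem_bot] at hmem
  have hg5' : orderOf (g : Equiv.Perm α) = 5 := by
    haveI := Fact.mk (by norm_num : Nat.Prime 5)
    refine orderOf_eq_prime ?_ fun e0 => ?_
    · rw [← SubgroupClass.coe_pow, hg5]; rfl
    · have := hnext 0
      rw [e0, Equiv.Perm.one_apply] at this
      exact absurd (hv this) (by decide)
  have hsupp := Eleven.five_fixed hα hAK g.2 hg5'
  have hone : (g : Equiv.Perm α).supportᶜ.card = 1 := by rw [Finset.card_compl, hα, hsupp]
  obtain ⟨w, hw⟩ := Finset.card_eq_one.1 hone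
  have hwfix : (g : Equiv.Perm α) w = w := by
    rw [← Equiv.Perm.notMem_support, ← Finset.mem_compl, hw, Finset.mem_singleton]
  have hhw : h w = w := by
    have h1 : (g : Equiv.Perm α) (h w) = h w := by rw [← hhg, hwfix]
    rw [← Equiv.Perm.notMem_support, ← Finset.mem_compl, hw, Finset.mem_singleton] at h1
    exact h1
  have hwF : w ∈ F := by rwa [hF, Finset.mem_compl, Equiv.Perm.notMem_support]
  rw [hFeq, Finset.mem_image] at hwF
  obtain ⟨i, -, rfl⟩ := hwF
  have hi := hnext i
  rw [hwfix] at hi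
  exact (by decide : ∀ j : Fin 5, j ≠ j + 1) i (hv hi)

/-- A non-solvable transitive permutation group on 11 points that does not contain the alternating group is either sharply 4-transitive (of order 7920) or isomorphic to the projective special linear group of degree 2 over the field with 11 elements. -/
theorem result {α : Type*} [Fintype α] [DecidableEq α] (hα : Fintype.card α = 11) (G : Subgroup (Equiv.Perm α)) [MulAction.IsPretransitive G α] (hG : ¬ Group.IsSolvable G) (hA : ¬ alternatingGroup α ≤ G) : (MulAction.IsMultiplyPretransitive G α 4 ∧ ∀ x : Fin 4 ↪ α, MulAction.stabilizer G x = ⊥) ∨ Nonempty (G ≃* Matrix.ProjectiveSpecialLinearGroup (Fin 2) (ZMod 11)) := by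
  classical
  haveI hp : Fact (Nat.Prime 11) := ⟨by norm_num⟩
  have hα' : Nat.card α = 11 := by rw [Nat.card_eq_fintype_card, hα]
  obtain ⟨P⟩ := (inferInstance : Nonempty (Sylow 11 G))
  obtain ⟨d, hd, hN⟩ := exists_card_normalizer_prime_degree (α := α) hα' P
  have hnormal : ¬ (P : Subgroup G).Normal := fun h =>
    hG (isSolvable_of_sylow_normal (α := α) hα' P h)
  have hd1 : d ≠ 1 := fun h => hG (by
    have h11 : Nat.card G = 11 := natCard_eq_of_normalizer_sylow_le (α := α) hα' P
      (Subgroup.eq_of_le_of_card_ge Subgroup.le_normalizer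
        (by rw [hN, h, mul_one, natCard_sylow_prime_degree (α := α) hα' P])).ge
    haveI := isCyclic_of_prime_card h11
    letI := (this : IsCyclic G).commGroup
    exact Group.isSolvable_of_comm mul_comm)
  set n := Nat.card (Sylow 11 G)
  have hcard : Nat.card G = n * (11 * d) := hN ▸ card_eq_natCard_sylow_mul P
  have hmod : n % 11 = 1 := card_sylow_modEq_one 11 G
  have h2 : IsMultiplyPretransitive G α 2 :=
    (Cfsg.Agent.S0675.result (hα ▸ hp.out) G).resolve_left hG
  obtain ⟨σ, hσ⟩ := exists_orderOf_eq_prime_degree (G := G) (α := α) hα'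
  have hσsign : Equiv.Perm.sign (σ : Equiv.Perm α) = 1 := by
    have h11 : Equiv.Perm.sign (σ : Equiv.Perm α) ^ 11 = 1 := by
      rw [← map_pow, ← SubgroupClass.coe_pow, ← hσ, pow_orderOf_eq_one, OneMemClass.coe_one,
        map_one]
    rcases Int.units_eq_one_or (Equiv.Perm.sign (σ : Equiv.Perm α)) with h' | h'
    · exact h'
    · rw [h'] at h11; exact absurd h11 (by decide)
  set S := ((Equiv.Perm.sign).comp G.subtype).ker with hS
  have hSne : S ≠ ⊥ := fun h => by
    have : σ ∈ S := hσsign
    rw [h, Subgroup.mem_bot] at this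
    rw [this, orderOf_one] at hσ
    norm_num at hσ
  have hoddh : Even d → ∃ h : G, Equiv.Perm.sign (h : Equiv.Perm α) = -1 := by
    intro hev
    obtain ⟨τ, h, hτ, -, hh1, hh, hinv⟩ := exists_inverting_involution (α := α) hα' (by omega) P
      (hN ▸ hev.mul_left 11)
    obtain ⟨e, -, hr⟩ := exists_coord_reflection (α := α) hα' (by omega) hτ hh hinv
    refine ⟨h, ?_⟩
    have : (h : Equiv.Perm α) = e.permCongr (Equiv.neg (ZMod 11)) := by
      ext x
      obtain ⟨j, rfl⟩ := e.surjective x
      rw [Equiv.permCongr_apply, e.symm_apply_apply, Equiv.neg_apply]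
      exact hr j
    rw [this, Equiv.Perm.sign_permCongr]
    decide +kernel
  have hd10 : d = 2 ∨ d = 5 ∨ d = 10 := by
    have := Nat.le_of_dvd (by norm_num) hd
    have h0 : d ≠ 0 := by rintro rfl; simp at hd
    norm_num at this
    interval_cases d <;> omega
  have hGsmall : ¬ alternatingGroup α ≤ G := hA
  rcases hd10 with rfl | rfl | rfl
  · -- the reflection is odd
    exfalso
    have hs := isSimpleGroup_of_normalizer_prime_index (α := α) hα' P Nat.prime_two hN hnormal
    obtain ⟨h, hh⟩ := hoddh ⟨1, rfl⟩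
    have htop := (hs.eq_bot_or_eq_top_of_normal S inferInstance).resolve_left hSne
    have h1 : Equiv.Perm.sign (h : Equiv.Perm α) = 1 := (htop ▸ Subgroup.mem_top h : h ∈ S)
    rw [hh] at h1
    exact absurd h1 (by decide)
  · have hs := isSimpleGroup_of_normalizer_prime_index (α := α) hα' P (by norm_num) hN hnormal
    have htop := (hs.eq_bot_or_eq_top_of_normal S inferInstance).resolve_left hSne
    have hGA : G ≤ alternatingGroup α := fun g hg =>
      show Equiv.Perm.sign g = 1 from (htop ▸ Subgroup.mem_top (⟨g, hg⟩ : G) : (⟨g, hg⟩ : G) ∈ S)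
    rcases order_even_part hα G hA hGA (n := n) (by omega) hmod with hn | hn
    · exact Or.inr (Cfsg.Agent.S0498.result (G := G) 11 (Or.inl rfl)
        (by rw [hcard, hn]; norm_num) (F := ZMod 11) (ZMod.card 11))
    · exact Or.inl (Eleven.sharply_four hα hA hGA (by rw [hcard, hn]))
  · exfalso
    obtain ⟨h, hh⟩ := hoddh ⟨5, rfl⟩
    have h3 : IsMultiplyPretransitive G α 3 :=
      Cfsg.Agent.S0676.result hα G hG P ⟨55, hN.trans (by norm_num)⟩
    have h990 : 990 ∣ Nat.card G := by
      have := descFactorial_dvd_card (G := G) (α := α) (k := 3) (by omega)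
      rwa [hα', show Nat.descFactorial 11 3 = 990 from rfl] at this
    set K := G ⊓ alternatingGroup α with hKdef
    have hKS : K = S.map G.subtype := by
      ext g
      constructor
      · rintro ⟨h1, h2⟩
        exact ⟨⟨g, h1⟩, h2, rfl⟩
      · rintro ⟨⟨g, hg⟩, h2, rfl⟩
        exact ⟨hg, h2⟩
    have hidx : S.index = 2 := by
      have hr : ((Equiv.Perm.sign).comp G.subtype).range = ⊤ := by
        rw [eq_top_iff]
        intro u _
        rcases Int.units_eq_one_or u with rfl | rfl
        · exact ⟨1, map_one _⟩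
        · exact ⟨h, hh⟩
      rw [hS, Subgroup.index_ker, hr, Subgroup.card_top, Nat.card_eq_fintype_card]
      rfl
    have hcK : Nat.card K = 55 * n := by
      rw [hKS, Subgroup.card_subtype]
      have := S.card_mul_index
      rw [hidx] at this
      omega
    haveI := isPretransitive_of_normal_prime_degree (α := α) hα' S hSne
    haveI hKtr : IsPretransitive K α := ⟨fun a b => by
      obtain ⟨g, hg⟩ := exists_smul_eq S a b
      exact ⟨⟨_, hKS ▸ Subgroup.mem_map_of_mem G.subtype g.2⟩, hg⟩⟩
    have hKsolv : ¬ Group.IsSolvable K := by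
      intro hsolv
      have e : (S : Subgroup G) ≃* K :=
        (Subgroup.equivMapOfInjective S _ G.subtype_injective).trans
          (MulEquiv.subgroupCongr hKS.symm)
      haveI : Group.IsSolvable S := Group.isSolvable_of_isSolvable_injective (f := e.toMonoidHom) e.injective
      exact hG (Group.isSolvable_of_ker_le_range S.subtype ((Equiv.Perm.sign).comp G.subtype)
        (by rw [Subgroup.range_subtype]))
    haveI hK2 : IsMultiplyPretransitive K α 2 :=
      (Cfsg.Agent.S0675.result (hα ▸ hp.out) K).resolve_left hKsolv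
    rcases order_even_part hα K (fun h0 => hA (h0.trans inf_le_left)) inf_le_right hcK hmod
      with hn | hn
    · rw [hcard, hn] at h990
      norm_num at h990
    · exact no_extension hα G K rfl hA (by rw [hcK, hn]) (by rw [hcard, hn])

end Cfsg.Agent.S0679
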