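import Cfsg.Statements.S0681
import Mathlib.Tactic.Abel

set_option autoImplicit false
open Cfsg

namespace Cfsg.Agent.S0681

theorem nf_zero_mul {F : Type*} [Cfsg.NearField F] (a : F) : (0 : F) * a = 0 := by
  have h : (0 : F) * a + 0 * a = 0 * a + 0 := by
    rw [← Cfsg.NearField.right_distrib, add_zero, add_zero]
  exact add_left_cancel h

theorem nf_mul_ne_zero {F : Type*} [Cfsg.NearField F] {a b : F} (ha : a ≠ 0) (hb : b ≠ 0) :
    a * b ≠ 0 := by
  obtain ⟨c, hc, -⟩ := Cfsg.NearField.exists_inv b hb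
  intro h
  apply ha
  rw [← mul_one a, ← hc, ← mul_assoc, h, nf_zero_mul]

theorem nf_neg_mul {F : Type*} [Cfsg.NearField F] (a b : F) : (-a) * b = -(a * b) := by
  apply eq_neg_of_add_eq_zero_left
  rw [← Cfsg.NearField.right_distrib, neg_add_cancel, nf_zero_mul]

/-- The affine maps `x ↦ x * a + b`, `a ≠ 0`, of a near-field form a sharply doubly transitive permutation group. -/
theorem result {F : Type*} [Cfsg.NearField F] : ∃ H : Subgroup (Equiv.Perm F), (∀ σ : Equiv.Perm F, σ ∈ H ↔ ∃ a b : F, a ≠ 0 ∧ ∀ x : F, σ x = x * a + b) ∧ MulAction.IsMultiplyPretransitive H F 2 ∧ ∀ x : Fin 2 ↪ F, MulAction.stabilizer H x = ⊥ := by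
  classical
  let H : Subgroup (Equiv.Perm F) :=
    { carrier := {σ | ∃ a b : F, a ≠ 0 ∧ ∀ x : F, σ x = x * a + b}
      one_mem' := ⟨1, 0, (Cfsg.NearField.zero_ne_one).symm, fun x => by simp⟩
      mul_mem' := by
        rintro σ τ ⟨a, b, ha, hσ⟩ ⟨c, d, hc, hτ⟩
        refine ⟨c * a, d * a + b, nf_mul_ne_zero hc ha, fun x => ?_⟩
        rw [Equiv.Perm.mul_apply, hτ, hσ, Cfsg.NearField.right_distrib, mul_assoc, add_assoc]
      inv_mem' := by
        rintro σ ⟨a, b, ha, hσ⟩
        obtain ⟨c, hac, hca⟩ := Cfsg.NearField.exists_inv a ha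
        refine ⟨c, -(b * c), fun h => ?_, fun x => ?_⟩
        · rw [h, Cfsg.NearField.mul_zero] at hac
          exact Cfsg.NearField.zero_ne_one hac
        · rw [Equiv.Perm.inv_def, Equiv.symm_apply_eq, hσ, Cfsg.NearField.right_distrib,
            mul_assoc, hca, mul_one, ← nf_neg_mul, mul_assoc, hca, mul_one, neg_add_cancel_right] }
  refine ⟨H, fun σ => Iff.rfl, ?_, fun x => ?_⟩
  · have key : ∀ {u v : F}, u ≠ v → ∃ σ ∈ H, σ 0 = u ∧ σ 1 = v := by
      intro u v huv
      have ha : v + -u ≠ 0 := fun h => huv (eq_of_sub_eq_zero (by rw [sub_eq_add_neg, h])).symm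
      obtain ⟨c, hac, hca⟩ := Cfsg.NearField.exists_inv _ ha
      let σ : Equiv.Perm F :=
        { toFun := fun x => x * (v + -u) + u
          invFun := fun y => (y + -u) * c
          left_inv := fun x => by
            simp only [add_neg_cancel_right, mul_assoc, hac, mul_one]
          right_inv := fun y => by
            simp only [mul_assoc, hca, mul_one, neg_add_cancel_right] }
      refine ⟨σ, ⟨_, u, ha, fun x => rfl⟩, ?_, ?_⟩
      · show (0 : F) * (v + -u) + u = u
        rw [nf_zero_mul, zero_add]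
      · show (1 : F) * (v + -u) + u = v
        rw [one_mul, neg_add_cancel_right]
    rw [MulAction.is_two_pretransitive_iff]
    intro a b c d hab hcd
    obtain ⟨σ, hσ, hσ0, hσ1⟩ := key hab
    obtain ⟨τ, hτ, hτ0, hτ1⟩ := key hcd
    refine ⟨⟨τ * σ⁻¹, H.mul_mem hτ (H.inv_mem hσ)⟩, ?_, ?_⟩
    · show τ (σ.symm a) = c
      rw [← hσ0, Equiv.symm_apply_apply, hτ0]
    · show τ (σ.symm b) = d
      rw [← hσ1, Equiv.symm_apply_apply, hτ1]
  · refine (Subgroup.eq_bot_iff_forall _).2 fun σ hσ => ?_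
    obtain ⟨a, b, -, hab⟩ := σ.2
    have h0 : (σ : Equiv.Perm F) (x 0) = x 0 :=
      congrArg (fun z : Fin 2 ↪ F => z 0) (MulAction.mem_stabilizer_iff.1 hσ)
    have h1 : (σ : Equiv.Perm F) (x 1) = x 1 :=
      congrArg (fun z : Fin 2 ↪ F => z 1) (MulAction.mem_stabilizer_iff.1 hσ)
    have hne : x 0 + -(x 1) ≠ 0 := fun h =>
      Fin.zero_ne_one (x.injective (eq_of_sub_eq_zero (by rw [sub_eq_add_neg, h])))
    rw [hab] at h0 h1
    obtain ⟨c, hc, hc'⟩ := Cfsg.NearField.exists_inv _ hne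
    have ha : a = 1 := by
      have h2 : (x 0 + -(x 1)) * a = x 0 + -(x 1) := by
        rw [Cfsg.NearField.right_distrib, nf_neg_mul, eq_add_neg_of_add_eq h0,
          eq_add_neg_of_add_eq h1, neg_add_rev, neg_neg]
        simp [add_assoc]
      calc a = c * ((x 0 + -(x 1)) * a) := by rw [← mul_assoc, hc', one_mul]
        _ = 1 := by rw [h2, hc']
    subst ha
    rw [mul_one] at h0
    have hb : b = 0 := add_eq_left.1 h0
    exact Subtype.ext (Equiv.ext fun y => by simp [hab, hb])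

end Cfsg.Agent.S0681
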