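import Cfsg.Statements.S0682
import Mathlib.GroupTheory.PGroup
import Mathlib.GroupTheory.Perm.Cycle.Type

set_option autoImplicit false
open Cfsg

namespace Cfsg.Agent.S0682

/-- A finite near-field has prime-power order; its additive group is commutative of prime exponent. -/
theorem result {F : Type*} [Cfsg.NearField F] [Finite F] : ∃ p j : ℕ, p.Prime ∧ 1 ≤ j ∧ Nat.card F = p ^ j ∧ (∀ x y : F, x + y = y + x) ∧ ∀ x : F, p • x = 0 := by
  classical
  have zero_mul : ∀ c : F, (0 : F) * c = 0 := fun c => by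
    have h : (0 : F) * c + 0 * c = 0 * c + 0 := by
      rw [← Cfsg.NearField.right_distrib, add_zero, add_zero]
    exact add_left_cancel h
  have cancel : ∀ c : F, c ≠ 0 → ∀ x y : F, x * c = y * c → x = y := fun c hc x y h => by
    obtain ⟨d, hd, -⟩ := Cfsg.NearField.exists_inv c hc
    rw [← mul_one x, ← hd, ← mul_assoc, h, mul_assoc, hd, mul_one]
  have trans : ∀ u v : F, u ≠ 0 → ∃ c : F, u * c = v := fun u v hu => by
    obtain ⟨d, hd, -⟩ := Cfsg.NearField.exists_inv u hu
    exact ⟨d * v, by rw [← mul_assoc, hd, one_mul]⟩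
  have smul_mul : ∀ (n : ℕ) (u c : F), (n • u) * c = n • (u * c) := fun n u c => by
    induction n with
    | zero => simp [zero_mul]
    | succ n ih => rw [succ_nsmul, Cfsg.NearField.right_distrib, ih, succ_nsmul]
  have h1 : Nat.card F ≠ 1 := fun h => by
    obtain ⟨hs, -⟩ := Nat.card_eq_one_iff_unique.1 h
    exact (Cfsg.NearField.zero_ne_one : (0:F) ≠ 1) (Subsingleton.elim _ _)
  obtain ⟨p, hp, hdvd⟩ := Nat.exists_prime_and_dvd h1
  have := Fact.mk hp
  obtain ⟨u, hu⟩ := exists_prime_addOrderOf_dvd_card' p hdvd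
  have hu0 : u ≠ 0 := fun h => hp.one_lt.ne' (by rw [← hu, h, addOrderOf_zero])
  have hexp : ∀ x : F, p • x = 0 := fun x => by
    obtain ⟨c, rfl⟩ := trans u x hu0
    rw [← smul_mul, ← hu, addOrderOf_nsmul_eq_zero, zero_mul]
  have hP : IsPGroup p (Multiplicative F) := fun g =>
    ⟨1, by rw [pow_one]; exact congrArg Multiplicative.ofAdd (hexp (Multiplicative.toAdd g))⟩
  obtain ⟨j, hj⟩ := IsPGroup.iff_card.1 hP
  have hj' : Nat.card F = p ^ j := (Nat.card_congr Multiplicative.ofAdd).trans hj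
  refine ⟨p, j, hp, ?_, hj', fun x y => ?_, hexp⟩
  · rcases Nat.eq_zero_or_pos j with h | h
    · exact absurd (by rw [hj', h, pow_zero]) h1
    · exact h
  · have : Nontrivial (Multiplicative F) := ⟨⟨Multiplicative.ofAdd 0, Multiplicative.ofAdd 1,
      fun h => Cfsg.NearField.zero_ne_one (Multiplicative.ofAdd.injective h)⟩⟩
    obtain ⟨z, hz, hz1⟩ := (Subgroup.nontrivial_iff_exists_ne_one _).1 hP.center_nontrivial
    have hz0 : Multiplicative.toAdd z ≠ 0 := fun h => hz1 (Multiplicative.toAdd.injective h)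
    by_cases hx : x = 0
    · simp [hx]
    · obtain ⟨c, hc⟩ := trans x (Multiplicative.toAdd z) hx
      have hc0 : c ≠ 0 := fun h => hz0 (by rw [← hc, h, Cfsg.NearField.mul_zero])
      apply cancel c hc0
      rw [Cfsg.NearField.right_distrib, Cfsg.NearField.right_distrib, hc]
      exact congrArg Multiplicative.toAdd
        ((Subgroup.mem_center_iff.1 hz (Multiplicative.ofAdd (y * c))).symm)

end Cfsg.Agent.S0682
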