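import Cfsg.Statements.S0683
import Cfsg.Agent.Lib.PermGroups.SharplyKernel

set_option autoImplicit false
open Cfsg

namespace Cfsg.Agent.S0683

/-- A finite sharply doubly transitive permutation group is the affine group of a near-field: the permuted set carries a near-field structure for which the group consists exactly of the maps `x ↦ x * a + b` with `a ≠ 0`. -/
theorem result {α : Type*} [Fintype α] [DecidableEq α] (H : Subgroup (Equiv.Perm α)) [MulAction.IsMultiplyPretransitive H α 2] (hsharp : ∀ x : Fin 2 ↪ α, MulAction.stabilizer H x = ⊥) (h2 : 2 ≤ Fintype.card α) : ∃ _ : Cfsg.NearField α, ∀ σ : Equiv.Perm α, σ ∈ H ↔ ∃ a b : α, a ≠ 0 ∧ ∀ x : α, σ x = x * a + b := by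
  classical
  obtain ⟨p, j, -, -, -, K, hKn, hKc, -, hKt, hKsem, -, -⟩ :=
    CfsgLib.PermGroups.sharply_two_transitive_kernel hsharp (by rwa [Nat.card_eq_fintype_card])
  have : Nontrivial α := Fintype.one_lt_card_iff_nontrivial.1 h2
  obtain ⟨o, e, hoe⟩ := exists_pair_ne α
  have hHt : MulAction.IsPretransitive H α := MulAction.isPretransitive_of_is_two_pretransitive
  have huniq : ∀ (a b : α), a ≠ b → ∀ g h : H, g • a = h • a → g • b = h • b → g = h := by
    intro a b hab g h ha hb
    have h0 := hsharp ⟨![a, b], fun i k hik => by fin_cases i <;> fin_cases k <;> simp_all⟩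
    rw [Subgroup.eq_bot_iff_forall] at h0
    refine (inv_mul_eq_one.1 (h0 (h⁻¹ * g) (Function.Embedding.ext fun i => ?_))).symm
    fin_cases i
    · show (h⁻¹ * g) • a = a
      rw [mul_smul, ha, inv_smul_smul]
    · show (h⁻¹ * g) • b = b
      rw [mul_smul, hb, inv_smul_smul]
  choose k hk using fun x : α => MulAction.exists_smul_eq K o x
  have hkuniq : ∀ u v : K, u • o = v • o → u = v := fun u v h => by
    have h1 := Subgroup.eq_bot_iff_forall _ |>.1 (hKsem o) (v⁻¹ * u)
      (by rw [MulAction.mem_stabilizer_iff, mul_smul, h, inv_smul_smul])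
    exact (inv_mul_eq_one.1 h1).symm
  have hm : ∀ a : α, a ≠ o → ∃ h : H, h • o = o ∧ h • e = a := fun a ha =>
    CfsgLib.PermGroups.exists_smul_pair (G := H) hoe (Ne.symm ha)
  choose m hm1 hm2 using hm
  have hmuniq : ∀ (a : α) (ha : a ≠ o) (h : H), h • o = o → h • e = a → h = m a ha :=
    fun a ha h h1 h2 => huniq o e hoe h _ (h1.trans (hm1 a ha).symm) (h2.trans (hm2 a ha).symm)
  let add' : α → α → α := fun x y => (k y * k x) • o
  let mul' : α → α → α := fun x a => if ha : a = o then o else m a ha • x
  have hkadd : ∀ x y, k (add' x y) = k y * k x := fun x y => hkuniq _ _ (hk _)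
  have hko : k o = 1 := hkuniq _ _ (by rw [hk, one_smul])
  have hmul_o : ∀ a, mul' o a = o := fun a => by
    by_cases ha : a = o <;> simp [mul', ha, hm1]
  have hne : ∀ a b, a ≠ o → ∀ hb : b ≠ o, m b hb • a ≠ o := fun a b ha hb h =>
    ha (smul_left_cancel (m b hb) (h.trans (hm1 b hb).symm))
  let NF : Cfsg.NearField α :=
    { zero := o
      one := e
      add := add'
      neg := fun x => (k x)⁻¹ • o
      nsmul := @nsmulRec α ⟨o⟩ ⟨add'⟩
      zsmul := @zsmulRec α ⟨o⟩ ⟨add'⟩ ⟨fun x => (k x)⁻¹ • o⟩ (@nsmulRec α ⟨o⟩ ⟨add'⟩)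
      add_assoc := fun x y z => by
        show (k z * k (add' x y)) • o = (k (add' y z) * k x) • o
        rw [hkadd, hkadd, mul_assoc]
      zero_add := fun x => by
        show (k x * k o) • o = x
        rw [hko, mul_one, hk]
      add_zero := fun x => by
        show (k o * k x) • o = x
        rw [hko, one_mul, hk]
      neg_add_cancel := fun x => by
        show (k x * k ((k x)⁻¹ • o)) • o = o
        rw [hkuniq _ _ (hk ((k x)⁻¹ • o)), mul_inv_cancel, one_smul]
      mul := mul'
      npow := @npowRec α ⟨e⟩ ⟨mul'⟩
      one_mul := fun a => by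
        show mul' e a = a
        by_cases ha : a = o <;> simp [mul', ha, hm2]
      mul_one := fun x => by
        show mul' x e = x
        have : m e hoe.symm = 1 := (hmuniq e hoe.symm 1 (one_smul _ _) (one_smul _ _)).symm
        simp [mul', hoe.symm, this]
      mul_assoc := fun x a b => by
        show mul' (mul' x a) b = mul' x (mul' a b)
        by_cases hb : b = o
        · simp [mul', hb]
        by_cases ha : a = o
        · simp [mul', ha, hmul_o, hm1]
        have hab := hne a b ha hb
        have h1 : m (m b hb • a) hab = m b hb * m a ha :=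
          (hmuniq _ hab _ (by rw [mul_smul, hm1, hm1]) (by rw [mul_smul, hm2])).symm
        simp [mul', ha, hb, hab, h1, mul_smul]
      right_distrib := fun x y a => by
        show mul' (add' x y) a = add' (mul' x a) (mul' y a)
        by_cases ha : a = o
        · simp [mul', add', ha, hko]
        simp only [mul', ha, dite_false]
        let c : K →* K := (@MulAut.conjNormal H _ K hKn (m a ha)).toMonoidHom
        have hc : ∀ u : K, c u • o = m a ha • u • o := fun u => by
          show ((c u : H)) • o = m a ha • (u : H) • o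
          simp only [c, MulEquiv.coe_toMonoidHom, MulAut.conjNormal_apply]
          rw [mul_smul, mul_smul, inv_smul_eq_iff.2 (hm1 a ha).symm]
        have hkc : ∀ z, k (m a ha • z) = c (k z) := fun z => hkuniq _ _ (by rw [hk, hc, hk])
        show m a ha • add' x y = (k (m a ha • y) * k (m a ha • x)) • o
        rw [hkc, hkc, ← map_mul, hc]
      mul_zero := fun x => by
        show mul' x o = o
        simp [mul']
      zero_ne_one := hoe
      exists_inv := fun a ha => by
        have hao : a ≠ o := ha
        have hb : (m a hao)⁻¹ • e ≠ o := fun h => hoe (by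
          rw [inv_smul_eq_iff, hm1] at h; exact h.symm)
        have h1 : m _ hb = (m a hao)⁻¹ :=
          (hmuniq _ hb _ (inv_smul_eq_iff.2 (hm1 a hao).symm) rfl).symm
        refine ⟨(m a hao)⁻¹ • e, ?_, ?_⟩
        · show mul' a ((m a hao)⁻¹ • e) = e
          simp only [mul', hb, dite_false, h1]
          rw [inv_smul_eq_iff, hm2]
        · show mul' ((m a hao)⁻¹ • e) a = e
          simp [mul', hao] }
  refine ⟨NF, fun σ => ⟨fun hσ => ?_, ?_⟩⟩
  · let g : H := ⟨σ, hσ⟩
    let b := g • o
    let h : H := (k b : H)⁻¹ * g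
    have hh : h • o = o := by
      show ((k b : H)⁻¹ * g) • o = o
      rw [mul_smul, inv_smul_eq_iff]
      exact (hk b).symm
    have ha : h • e ≠ o := fun he => hoe (smul_left_cancel h (hh.trans he.symm))
    refine ⟨h • e, b, ha, fun x => ?_⟩
    show σ x = add' (mul' x (h • e)) b
    simp only [mul', ha, dite_false, ← hmuniq _ ha h hh rfl, add']
    rw [mul_smul, hk]
    show σ x = (k b : H) • h • x
    rw [← mul_smul, mul_inv_cancel_left]
    rfl
  · rintro ⟨a, b, ha, hab⟩
    have hao : a ≠ o := ha
    have : σ = (((k b : H) * m a hao : H) : Equiv.Perm α) := Equiv.ext fun x => by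
      rw [hab x]
      show add' (mul' x a) b = ((k b : H) * m a hao) • x
      simp only [mul', hao, dite_false, add']
      rw [mul_smul, hk, mul_smul]
      rfl
    rw [this]
    exact ((k b : H) * m a hao).2

end Cfsg.Agent.S0683
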