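import Cfsg.Statements.S0684
import Cfsg.Agent.Lib.PermGroups.RegularField

set_option autoImplicit false
open Cfsg

namespace Cfsg.Agent.S0684

/-- Point stabiliser of a sharply doubly transitive group not of semilinear type: a maximal normal abelian subgroup `A` of a linear group `H` that is regular on non-zero vectors and has no irreducible cyclic normal subgroup is cyclic and reducible, and the order of `A` divides `p ^ k - 1` for `k` the dimension of a minimal `A`-invariant subspace. -/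
theorem result {p : ℕ} [Fact p.Prime] {V : Type*} [AddCommGroup V] [Module (ZMod p) V] [Finite V] (H : Subgroup (V ≃ₗ[ZMod p] V)) (hreg : ∀ v w : V, v ≠ 0 → w ≠ 0 → ∃! h : H, (h : V ≃ₗ[ZMod p] V) v = w) (hI : ∀ A : Subgroup H, A.Normal → IsCyclic A → ∃ W : Submodule (ZMod p) V, W ≠ ⊥ ∧ W ≠ ⊤ ∧ ∀ a ∈ A, ∀ v ∈ W, ((a : H) : V ≃ₗ[ZMod p] V) v ∈ W) (A : Subgroup H) (hAn : A.Normal) (hAc : IsMulCommutative A) (hAmax : ∀ B : Subgroup H, B.Normal → IsMulCommutative B → A ≤ B → B = A) : IsCyclic A ∧ ∃ W : Submodule (ZMod p) V, W ≠ ⊥ ∧ W ≠ ⊤ ∧ (∀ a ∈ A, ∀ v ∈ W, ((a : H) : V ≃ₗ[ZMod p] V) v ∈ W) ∧ (∀ W' : Submodule (ZMod p) V, W' ≤ W → (∀ a ∈ A, ∀ v ∈ W', ((a : H) : V ≃ₗ[ZMod p] V) v ∈ W') → W' = ⊥ ∨ W' = W) ∧ Nat.card A ∣ p ^ Module.finrank (ZMod p) W - 1 := by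
  haveI := CfsgLib.PermGroups.Regular.nontrivial_of_noIrredCyclic hI
  haveI : Module.Finite (ZMod p) V := Module.Finite.of_finite
  obtain ⟨hcyc, hdvd, -, htop⟩ := CfsgLib.PermGroups.Regular.abelian_normal_data hreg hI hAn hAc
  obtain ⟨v, hv⟩ := exists_ne (0 : V)
  have hS := CfsgLib.PermGroups.Regular.isInj_of_abelian hreg hAn hAc
  refine ⟨hcyc, CfsgLib.PermGroups.Regular.orb (CfsgLib.PermGroups.Regular.alg A) v, fun h => hv ?_,
    htop v hv, CfsgLib.PermGroups.Regular.invUnder_orb A v, fun W' hW' hWi => ?_, ?_⟩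
  · have := CfsgLib.PermGroups.Regular.self_mem_orb (CfsgLib.PermGroups.Regular.alg A) v
    rwa [h, Submodule.mem_bot] at this
  · refine or_iff_not_imp_left.2 fun hne => le_antisymm hW' ?_
    obtain ⟨u, hu, hu0⟩ := Submodule.exists_mem_ne_zero_of_ne_bot hne
    exact (CfsgLib.PermGroups.Regular.orb_le
      (CfsgLib.PermGroups.Regular.mem_orb_symm hreg hAn (hW' hu) hu0)).trans
      (CfsgLib.PermGroups.Regular.orb_le_of_invUnder hWi hu)
  · rwa [CfsgLib.PermGroups.Regular.finrank_orb hS hv]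

end Cfsg.Agent.S0684
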