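import Cfsg.Statements.S0688
import Cfsg.Agent.Lib.PermGroups.RegularExceptional

set_option autoImplicit false
open Cfsg

namespace Cfsg.Agent.S0688

theorem zmod_three_sq : ∀ c : ZMod 3, c * c ≠ -1 := by decide

/-- Degrees of the soluble exceptional sharply doubly transitive groups: if a solvable linear group over the prime field is regular on the non-zero vectors of `V` and has no irreducible cyclic normal subgroup, then `V` has 25, 49, 121 or 529 elements. -/
theorem result {p : ℕ} [Fact p.Prime] {V : Type*} [AddCommGroup V] [Module (ZMod p) V] [Finite V] (H : Subgroup (V ≃ₗ[ZMod p] V)) (hreg : ∀ v w : V, v ≠ 0 → w ≠ 0 → ∃! h : H, (h : V ≃ₗ[ZMod p] V) v = w) (hI : ∀ A : Subgroup H, A.Normal → IsCyclic A → ∃ W : Submodule (ZMod p) V, W ≠ ⊥ ∧ W ≠ ⊤ ∧ ∀ a ∈ A, ∀ v ∈ W, ((a : H) : V ≃ₗ[ZMod p] V) v ∈ W) (hsolv : Group.IsSolvable H) : Nat.card V = 25 ∨ Nat.card V = 49 ∨ Nat.card V = 121 ∨ Nat.card V = 529 := by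
  haveI := CfsgLib.PermGroups.Regular.nontrivial_of_noIrredCyclic hI
  haveI : Module.Finite (ZMod p) V := Module.Finite.of_finite
  obtain ⟨A, N, hA, hc, hmax, hN, hle, hna, hmin⟩ :=
    CfsgLib.PermGroups.Regular.exists_A_N hreg hI
  haveI := hN
  haveI := hsolv
  obtain ⟨e⟩ : Nonempty (N ≃* QuaternionGroup 2) := by
    refine (CfsgLib.PermGroups.Regular.quaternion_or_perfect hreg hA hc hmax hN hle hna hmin).resolve_right
      fun hperf => hna ?_
    by_contra h
    haveI : Nontrivial N := by
      by_contra hn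
      haveI : Subsingleton N := not_nontrivial_iff_subsingleton.1 hn
      exact h (IsMulCommutative.of_comm fun a b => Subsingleton.elim _ _)
    exact (Group.IsSolvable.commutator_lt_top_of_nontrivial N).ne hperf
  have hcen := CfsgLib.PermGroups.Regular.centralizer_eq hreg hA hc hmax hN hle hna
  have hirr := CfsgLib.PermGroups.Regular.irred_of_nonabelian hreg hN hna
  have hV := CfsgLib.PermGroups.Regular.quaternion_data hreg hN hna e
  let ψ : H →* MulAut (QuaternionGroup 2) :=
    (MulAut.congr e).toMonoidHom.comp MulAut.conjNormal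
  have hψ : ψ.ker = Subgroup.centralizer (N : Set H) := by
    ext g
    simp only [ψ, MonoidHom.mem_ker, MonoidHom.comp_apply, MulEquiv.coe_toMonoidHom,
      map_eq_one_iff _ (MulAut.congr e).injective, Subgroup.mem_centralizer_iff]
    constructor
    · intro h n hn
      have h1 := congrArg Subtype.val (MulEquiv.congr_fun h ⟨n, hn⟩)
      rw [MulAut.conjNormal_apply, MulAut.one_apply] at h1
      exact (mul_inv_eq_iff_eq_mul.1 h1).symm
    · intro h
      refine MulEquiv.ext fun n => Subtype.ext ?_
      rw [MulAut.conjNormal_apply, MulAut.one_apply, ← h n n.2, mul_inv_cancel_right]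
  haveI : Finite (MulAut (QuaternionGroup 2)) := inferInstance
  obtain ⟨q, m, ⟨j, hj⟩, hq1, hVq, -, hH, hm, -, hdvd⟩ :=
    CfsgLib.PermGroups.Regular.card_facts hreg hcen hirr hV ψ hψ
  have h24 : q + 1 ∣ 24 :=
    hdvd.trans (hm ▸ CfsgLib.PermGroups.card_mulAut_q8 ▸ ψ.range.card_subgroup_dvd_card)
  have hN8 : Nat.card N = 8 := by
    rw [Nat.card_congr e.toEquiv, Nat.card_eq_fintype_card, QuaternionGroup.card]
  have h8 : 8 ∣ q ^ 2 - 1 := hN8 ▸ hH ▸ N.card_subgroup_dvd_card
  have hcases : ∀ q ∈ Finset.range 24, 1 < q → q + 1 ∣ 24 → 8 ∣ q ^ 2 - 1 →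
      q = 3 ∨ q = 5 ∨ q = 7 ∨ q = 11 ∨ q = 23 := by decide
  have hq24 := Nat.le_of_dvd (by norm_num) h24
  rcases hcases q (Finset.mem_range.2 (by omega)) hq1 h24 h8 with rfl | rfl | rfl | rfl | rfl
  · exfalso
    have hp3 : p = 3 := by
      have h1 : p ∣ 3 := by
        rcases j with - | j
        · simp at hj
        · exact ⟨p ^ j, by rw [hj, pow_succ']⟩
      exact (Nat.prime_dvd_prime_iff_eq Fact.out Nat.prime_three).1 h1
    subst hp3
    have hNtop : N = ⊤ := Subgroup.eq_top_of_card_eq N (by rw [hN8, hH]; norm_num)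
    let y : H := (e.symm (QuaternionGroup.a 1) : N)
    have hyo : orderOf y = 4 := by
      rw [Subgroup.orderOf_coe, show e.symm (QuaternionGroup.a 1) =
        e.symm.toMonoidHom (QuaternionGroup.a 1) from rfl,
        orderOf_injective e.symm.toMonoidHom e.symm.injective,
        QuaternionGroup.orderOf_a_one]
    have hidx : (Subgroup.zpowers y).index = 2 := by
      have h1 := Subgroup.card_mul_index (Subgroup.zpowers y)
      rw [Nat.card_zpowers, hyo, hH] at h1
      norm_num at h1
      omega
    haveI : (Subgroup.zpowers y).Normal := Subgroup.normal_of_index_eq_two hidx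
    obtain ⟨W, hW0, hW1, hW⟩ := hI (Subgroup.zpowers y) inferInstance inferInstance
    have hfin : Module.finrank (ZMod 3) V = 2 := by
      have h := Module.natCard_eq_pow_finrank (K := ZMod 3) (V := V)
      rw [hVq, Nat.card_zmod] at h
      exact (Nat.pow_right_injective (le_refl 2 |>.trans (by norm_num)) h).symm
    have hW1' : Module.finrank (ZMod 3) W = 1 := by
      have h1 := Submodule.finrank_lt hW1
      have h2 : Module.finrank (ZMod 3) W ≠ 0 := fun h => hW0 (Submodule.finrank_eq_zero.1 h)
      omega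
    obtain ⟨⟨u, huW⟩, hu0, hu⟩ := finrank_eq_one_iff'.1 hW1'
    have hu0' : u ≠ 0 := fun h => hu0 (Subtype.ext h)
    obtain ⟨c, hc'⟩ := hu ⟨_, hW y (Subgroup.mem_zpowers y) u huW⟩
    have hcu : CfsgLib.PermGroups.Regular.endHom H y u = c • u := (congrArg Subtype.val hc').symm
    have hy2 : CfsgLib.PermGroups.Regular.endHom H (y * y) = -1 := by
      refine CfsgLib.PermGroups.fpf_involution _
        (CfsgLib.PermGroups.Regular.endHom_fpf hreg) ?_ ?_
      · calc y * y * (y * y) = y ^ 4 := by simp [pow_succ, mul_assoc]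
          _ = 1 := by rw [← hyo, pow_orderOf_eq_one]
      · intro h
        rw [← pow_two] at h
        have := orderOf_dvd_of_pow_eq_one h
        rw [hyo] at this
        norm_num at this
    have h1 : (c * c) • u = (-1 : ZMod 3) • u := by
      rw [mul_smul, ← hcu, ← map_smul, ← hcu, ← Module.End.mul_apply, ← map_mul, hy2, neg_smul,
        one_smul]
      rfl
    have h2 : c * c = -1 := smul_left_injective (ZMod 3) hu0' h1
    exact absurd h2 (zmod_three_sq c)
  all_goals rw [hVq]; norm_num

end Cfsg.Agent.S0688
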