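import Cfsg.Statements.S0691
import Cfsg.Agent.Lib.PermGroups.RegularLinear
import Mathlib.Tactic.NormNum.Prime

set_option autoImplicit false
open Cfsg

namespace Cfsg.Agent.S0691

/-- An exceptional sharply doubly transitive group of degree 5^2: the listed matrices generate a subgroup of GL(2,5) of order 24 acting regularly on the non-zero vectors. -/
theorem result (A : Matrix.GeneralLinearGroup (Fin 2) (ZMod 5)) (B : Matrix.GeneralLinearGroup (Fin 2) (ZMod 5)) (C : Matrix.GeneralLinearGroup (Fin 2) (ZMod 5)) (hA : (A : Matrix (Fin 2) (Fin 2) (ZMod 5)) = !![2, 0; 0, -2]) (hB : (B : Matrix (Fin 2) (Fin 2) (ZMod 5)) = !![0, -1; 1, 0]) (hC : (C : Matrix (Fin 2) (Fin 2) (ZMod 5)) = !![1, 2; 1, -2]) : Nat.card (Subgroup.closure ({A, B, C} : Set (Matrix.GeneralLinearGroup (Fin 2) (ZMod 5)))) = 24 ∧ ∀ v w : Fin 2 → ZMod 5, v ≠ 0 → w ≠ 0 → ∃! h : Subgroup.closure ({A, B, C} : Set (Matrix.GeneralLinearGroup (Fin 2) (ZMod 5))), Matrix.mulVec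 ((h : Matrix.GeneralLinearGroup (Fin 2) (ZMod 5)) : Matrix (Fin 2) (Fin 2) (ZMod 5)) v = w := by
  classical
  have : Fact (Nat.Prime 5) := ⟨by norm_num⟩
  have hA' : (A : Matrix (Fin 2) (Fin 2) (ZMod 5)) =
      CfsgLib.PermGroups.quadMat 5 (2, 0, 0, 3) := by
    rw [hA]; simp only [CfsgLib.PermGroups.quadMat]; decide
  have hB' : (B : Matrix (Fin 2) (Fin 2) (ZMod 5)) =
      CfsgLib.PermGroups.quadMat 5 (0, 4, 1, 0) := by
    rw [hB]; simp only [CfsgLib.PermGroups.quadMat]; decide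
  have hC' : (C : Matrix (Fin 2) (Fin 2) (ZMod 5)) =
      CfsgLib.PermGroups.quadMat 5 (1, 2, 1, 3) := by
    rw [hC]; simp only [CfsgLib.PermGroups.quadMat]; decide
  refine CfsgLib.PermGroups.regular_of_quadCert (p := 5) [(2, 0, 0, 3), (0, 4, 1, 0), (1, 2, 1, 3)] 1 1 (by norm_num)
    [(0, 0), (0, 1), (0, 2), (1, 0), (1, 1), (1, 2), (2, 0), (2, 2), (3, 0), (3, 2), (4, 0), (4,
      1), (4, 2), (5, 2), (6, 2), (8, 0), (8, 2), (9, 1), (9, 2), (13, 2), (14, 2), (16, 2), (18,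
      2)]
    _ ?_ ?_ ?_ (by decide +kernel)
  · intro s hs
    simp only [Set.mem_insert_iff, Set.mem_singleton_iff] at hs
    rcases hs with rfl | rfl | rfl
    · exact Or.inl ⟨_, by simp, hA'⟩
    · exact Or.inl ⟨_, by simp, hB'⟩
    · exact Or.inl ⟨_, by simp, hC'⟩
  · intro g hg
    simp only [List.mem_cons, List.not_mem_nil, or_false] at hg
    rcases hg with rfl | rfl | rfl
    · exact ⟨A, by simp, hA'⟩
    · exact ⟨B, by simp, hB'⟩
    · exact ⟨C, by simp, hC'⟩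
  · exact Or.inl rfl

end Cfsg.Agent.S0691
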