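import Cfsg.Statements.S0692
import Cfsg.Agent.Lib.PermGroups.RegularLinear
import Mathlib.Tactic.NormNum.Prime

set_option autoImplicit false
open Cfsg

namespace Cfsg.Agent.S0692

/-- An exceptional sharply doubly transitive group of degree 11^2: the listed matrices generate a subgroup of GL(2,11) of order 120 acting regularly on the non-zero vectors. -/
theorem result (A : Matrix.GeneralLinearGroup (Fin 2) (ZMod 11)) (B : Matrix.GeneralLinearGroup (Fin 2) (ZMod 11)) (hA : (A : Matrix (Fin 2) (Fin 2) (ZMod 11)) = !![0, -1; 1, 0]) (hB : (B : Matrix (Fin 2) (Fin 2) (ZMod 11)) = !![2, 4; 1, -3]) : Nat.card (Subgroup.closure ({A, B} : Set (Matrix.GeneralLinearGroup (Fin 2) (ZMod 11)))) = 120 ∧ ∀ v w : Fin 2 → ZMod 11, v ≠ 0 → w ≠ 0 → ∃! h : Subgroup.closure ({A, B} : Set (Matrix.GeneralLinearGroup (Fin 2) (ZMod 11))), Matrix.mulVec ((h : Matrix.GeneralLinearGroup (Fin 2) (ZMod 11)) : Matrix (Fin 2) (Fin 2) (ZMod 11)) v = w := by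
  classical
  have : Fact (Nat.Prime 11) := ⟨by norm_num⟩
  have hA' : (A : Matrix (Fin 2) (Fin 2) (ZMod 11)) =
      CfsgLib.PermGroups.quadMat 11 (0, 10, 1, 0) := by
    rw [hA]; simp only [CfsgLib.PermGroups.quadMat]; decide
  have hB' : (B : Matrix (Fin 2) (Fin 2) (ZMod 11)) =
      CfsgLib.PermGroups.quadMat 11 (2, 4, 1, 8) := by
    rw [hB]; simp only [CfsgLib.PermGroups.quadMat]; decide
  refine CfsgLib.PermGroups.regular_of_quadCert (p := 11) [(0, 10, 1, 0), (2, 4, 1, 8)] 1 1 (by norm_num)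
    [(0, 0), (0, 1), (1, 0), (1, 1), (2, 0), (2, 1), (3, 0), (3, 1), (4, 0), (4, 1), (5, 1), (6,
      0), (7, 1), (8, 0), (8, 1), (9, 1), (10, 0), (11, 0), (11, 1), (12, 1), (13, 0), (13, 1),
      (14, 1), (15, 0), (16, 0), (16, 1), (17, 1), (18, 1), (19, 0), (20, 0), (20, 1), (21, 1),
      (22, 0), (23, 0), (23, 1), (24, 1), (25, 1), (26, 0), (27, 0), (27, 1), (28, 1), (29, 1),
      (30, 1), (32, 0), (32, 1), (33, 1), (34, 1), (35, 0), (36, 0), (36, 1), (37, 1), (38, 1),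
      (39, 1), (41, 0), (42, 0), (42, 1), (43, 1), (44, 1), (45, 0), (46, 0), (46, 1), (47, 1),
      (48, 1), (49, 1), (51, 0), (52, 0), (52, 1), (53, 1), (54, 1), (55, 1), (57, 0), (58, 1),
      (59, 1), (60, 1), (62, 0), (63, 0), (63, 1), (64, 1), (65, 1), (66, 1), (68, 0), (69, 0),
      (69, 1), (70, 1), (71, 1), (72, 0), (73, 0), (73, 1), (74, 1), (75, 1), (76, 1), (78, 0),
      (79, 0), (79, 1), (80, 1), (81, 1), (82, 1), (84, 0), (85, 0), (86, 1), (87, 1), (90, 0),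
      (90, 1), (91, 1), (92, 1), (95, 0), (96, 0), (97, 1), (98, 1), (99, 1), (100, 0), (100, 1),
      (101, 1), (105, 0), (106, 1), (107, 1), (108, 0), (109, 0), (110, 1)]
    _ ?_ ?_ ?_ (by decide +kernel)
  · intro s hs
    simp only [Set.mem_insert_iff, Set.mem_singleton_iff] at hs
    rcases hs with rfl | rfl
    · exact Or.inl ⟨_, by simp, hA'⟩
    · exact Or.inl ⟨_, by simp, hB'⟩
  · intro g hg
    simp only [List.mem_cons, List.not_mem_nil, or_false] at hg
    rcases hg with rfl | rfl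
    · exact ⟨A, by simp, hA'⟩
    · exact ⟨B, by simp, hB'⟩
  · exact Or.inl rfl

end Cfsg.Agent.S0692
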