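import Cfsg.Statements.S0693
import Cfsg.Agent.Lib.PermGroups.RegularLinear
import Mathlib.Tactic.NormNum.Prime

set_option autoImplicit false
open Cfsg

namespace Cfsg.Agent.S0693

/-- An exceptional sharply doubly transitive group of degree 59^2: the listed matrices generate a subgroup of GL(2,59) of order 3480 acting regularly on the non-zero vectors. -/
theorem result (A : Matrix.GeneralLinearGroup (Fin 2) (ZMod 59)) (B : Matrix.GeneralLinearGroup (Fin 2) (ZMod 59)) (C : Matrix.GeneralLinearGroup (Fin 2) (ZMod 59)) (hA : (A : Matrix (Fin 2) (Fin 2) (ZMod 59)) = !![0, -1; 1, 0]) (hB : (B : Matrix (Fin 2) (Fin 2) (ZMod 59)) = !![9, 15; -10, -10]) (hC : (C : Matrix (Fin 2) (Fin 2) (ZMod 59)) = !![4, 0; 0, 4]) : Nat.card (Subgroup.closure ({A, B, C} : Set (Matrix.GeneralLinearGroup (Fin 2) (ZMod 59)))) = 3480 ∧ ∀ v w : Fin 2 → ZMod 59, v ≠ 0 → w ≠ 0 → ∃! h : Subgroup.closure ({A, B, C} : Set (Matrix.GeneralLinearGroup (Fin 2) (ZMod 59))),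 Matrix.mulVec ((h : Matrix.GeneralLinearGroup (Fin 2) (ZMod 59)) : Matrix (Fin 2) (Fin 2) (ZMod 59)) v = w := by
  classical
  have : Fact (Nat.Prime 59) := ⟨by norm_num⟩
  have hA' : (A : Matrix (Fin 2) (Fin 2) (ZMod 59)) =
      CfsgLib.PermGroups.quadMat 59 (0, 58, 1, 0) := by
    rw [hA]; simp only [CfsgLib.PermGroups.quadMat]; decide
  have hB' : (B : Matrix (Fin 2) (Fin 2) (ZMod 59)) =
      CfsgLib.PermGroups.quadMat 59 (9, 15, 49, 49) := by
    rw [hB]; simp only [CfsgLib.PermGroups.quadMat]; decide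
  have hC' : (C : Matrix (Fin 2) (Fin 2) (ZMod 59)) = ((4 : ℕ) : ZMod 59) • 1 := by
    rw [hC]
    ext i j
    fin_cases i <;> fin_cases j <;> simp [Matrix.one_fin_two]
  refine CfsgLib.PermGroups.regular_of_quadCert (p := 59) [(0, 58, 1, 0), (9, 15, 49, 49)] 4 29 (by norm_num)
    [(0, 0), (0, 1), (1, 0), (1, 1), (2, 0), (2, 1), (3, 0), (3, 1), (4, 0), (4, 1), (5, 1), (6,
      0), (7, 1), (8, 0), (8, 1), (9, 1), (10, 0), (11, 0), (11, 1), (12, 1), (13, 0), (13, 1),
      (14, 1), (15, 0), (16, 0), (16, 1), (17, 1), (18, 1), (19, 0), (20, 0), (20, 1), (21, 1),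
      (22, 0), (23, 0), (23, 1), (24, 1), (25, 1), (26, 0), (27, 0), (27, 1), (28, 1), (29, 1),
      (30, 1), (32, 0), (32, 1), (33, 1), (34, 1), (35, 0), (36, 0), (36, 1), (37, 1), (38, 1),
      (39, 1), (41, 0), (42, 0), (42, 1), (43, 1), (44, 1), (45, 0), (46, 0), (46, 1), (47, 1),
      (48, 1), (49, 1), (51, 0), (52, 0), (52, 1), (53, 1), (54, 1), (55, 1), (57, 0), (58, 1),
      (59, 1), (60, 1), (62, 0), (63, 0), (63, 1), (64, 1), (65, 1), (66, 1), (68, 0), (69, 0),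
      (69, 1), (70, 1), (71, 1), (72, 0), (73, 0), (73, 1), (74, 1), (75, 1), (76, 1), (78, 0),
      (79, 0), (79, 1), (80, 1), (81, 1), (82, 1), (84, 0), (85, 0), (86, 1), (87, 1), (90, 0),
      (90, 1), (91, 1), (92, 1), (95, 0), (96, 0), (97, 1), (98, 1), (99, 1), (100, 0), (100, 1),
      (101, 1), (105, 0), (106, 1), (107, 1), (108, 0), (109, 0), (110, 1)]
    _ ?_ ?_ ?_ (by decide +kernel)
  · intro s hs
    simp only [Set.mem_insert_iff, Set.mem_singleton_iff] at hs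
    rcases hs with rfl | rfl | rfl
    · exact Or.inl ⟨_, by simp, hA'⟩
    · exact Or.inl ⟨_, by simp, hB'⟩
    · exact Or.inr hC'
  · intro g hg
    simp only [List.mem_cons, List.not_mem_nil, or_false] at hg
    rcases hg with rfl | rfl
    · exact ⟨A, by simp, hA'⟩
    · exact ⟨B, by simp, hB'⟩
  · exact Or.inr ⟨C, by simp, hC'⟩

end Cfsg.Agent.S0693
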