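import Cfsg.Statements.S0694
import Mathlib.FieldTheory.Finite.Basic
import Mathlib.Algebra.Ring.GeomSum
import Mathlib.Algebra.Order.Ring.GeomSum
import Mathlib.Data.Nat.Factorization.Induction
import Mathlib.Tactic.LinearCombination

set_option autoImplicit false
open Cfsg

namespace Cfsg.Agent.S0694

/-- `1 + q + ⋯ + q ^ (i - 1)`. -/
def geomQ (q i : ℕ) : ℕ := ∑ j ∈ Finset.range i, q ^ j

theorem geomQ_succ (q i : ℕ) : geomQ q (i + 1) = geomQ q i + q ^ i := Finset.sum_range_succ _ _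

theorem geomQ_mul (q m k : ℕ) : geomQ q (m * k) = geomQ q m * geomQ (q ^ m) k := by
  induction k with
  | zero => simp [geomQ]
  | succ k ih =>
    rw [geomQ_succ, Nat.mul_succ]
    have : geomQ q (m * k + m) = geomQ q (m * k) + q ^ (m * k) * geomQ q m := by
      simp only [geomQ, Finset.sum_range_add, Finset.mul_sum, pow_add]
    rw [this, ih, ← pow_mul]
    ring

theorem geomQ_dvd (q : ℕ) {i j : ℕ} (h : i ∣ j) : geomQ q i ∣ geomQ q j := by
  obtain ⟨k, rfl⟩ := h
  exact Dvd.intro _ (geomQ_mul q i k).symm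

theorem sub_one_mul_geomQ (q i : ℕ) (hq : 1 ≤ q) : (q - 1) * geomQ q i + 1 = q ^ i := by
  induction i with
  | zero => simp [geomQ]
  | succ i ih =>
    obtain ⟨r, rfl⟩ := Nat.exists_eq_add_of_le hq
    rw [Nat.add_sub_cancel_left] at ih ⊢
    rw [geomQ_succ, pow_succ, mul_add, add_right_comm, ih]
    ring

theorem modEq_one_iff {q n i : ℕ} (hq : 2 ≤ q) :
    q ^ i ≡ 1 [MOD n * (q - 1)] ↔ n ∣ geomQ q i := by
  rw [Nat.ModEq.comm, Nat.modEq_iff_dvd' (Nat.one_le_pow _ _ (by omega)),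
    show q ^ i - 1 = geomQ q i * (q - 1) by
      have := sub_one_mul_geomQ q i (by omega)
      rw [mul_comm]; omega,
    Nat.mul_dvd_mul_iff_right (by omega : 0 < q - 1)]

theorem cast_geomQ_of_dvd {s q : ℕ} (h : s ∣ q - 1) (hq : 1 ≤ q) (i : ℕ) :
    ((geomQ q i : ℕ) : ZMod s) = i := by
  have h1 : (q : ZMod s) = 1 := by
    have := (ZMod.natCast_eq_zero_iff (q - 1) s).2 h
    rwa [Nat.cast_sub hq, Nat.cast_one, sub_eq_zero] at this
  simp [geomQ, h1]

theorem dvd_geomQ_prime {s q : ℕ} (h : s ∣ q - 1) (hq : 1 ≤ q) (m : ℕ) :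
    s ∣ geomQ (q ^ m) s := by
  have h' : s ∣ q ^ m - 1 := h.trans (by simpa using Nat.sub_dvd_pow_sub_pow q 1 m)
  rw [← ZMod.natCast_eq_zero_iff, cast_geomQ_of_dvd h' (Nat.one_le_pow _ _ hq), ZMod.natCast_self]

theorem pow_dvd_geomQ_pow {s q : ℕ} (h : s ∣ q - 1) (hq : 1 ≤ q) :
    ∀ b : ℕ, s ^ b ∣ geomQ q (s ^ b)
  | 0 => by simp
  | b + 1 => by
    rw [pow_succ, geomQ_mul]
    exact Nat.mul_dvd_mul (pow_dvd_geomQ_pow h hq b) (dvd_geomQ_prime h hq _)

theorem sq_not_dvd_geomQ {s x : ℕ} (hs : s.Prime) (hx : 1 ≤ x) (h : s ∣ x - 1)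
    (h4 : s = 2 → 4 ∣ x - 1) : ¬ s ^ 2 ∣ geomQ x s := by
  intro hd
  rw [← ZMod.natCast_eq_zero_iff] at hd
  obtain ⟨t, ht⟩ := h
  have hx' : x = 1 + s * t := by omega
  have key : ∀ l : ℕ, ((x : ZMod (s ^ 2))) ^ l = 1 + (l : ZMod (s ^ 2)) * (s * t) := by
    intro l
    induction l with
    | zero => simp
    | succ l ih =>
      have hz : ((s : ZMod (s ^ 2))) * s = 0 := by
        rw [← Nat.cast_mul, ← pow_two, ZMod.natCast_self]
      rw [pow_succ (x : ZMod (s ^ 2)) l, ih, hx']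
      push_cast
      linear_combination (l : ZMod (s ^ 2)) * (t : ZMod (s ^ 2)) ^ 2 * hz
  have hval : ((geomQ x s : ℕ) : ZMod (s ^ 2)) = s := by
    simp only [geomQ, Nat.cast_sum, Nat.cast_pow, key, Finset.sum_add_distrib, ← Finset.sum_mul]
    rw [Finset.sum_const, Finset.card_range, nsmul_one, ← Nat.cast_sum, Finset.sum_range_id]
    rcases hs.eq_two_or_odd' with h2 | hodd
    · subst h2
      obtain ⟨u, hu⟩ := h4 rfl
      have : t = 2 * u := by omega
      subst this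
      simp only [Nat.reduceSub, mul_one, Nat.reduceDiv, Nat.cast_one, one_mul]
      have hz : ((2 : ℕ) : ZMod (2 ^ 2)) * ((2 * u : ℕ) : ZMod (2 ^ 2)) = 0 := by
        rw [← Nat.cast_mul, ZMod.natCast_eq_zero_iff]
        exact ⟨u, by ring⟩
      rw [hz, add_zero]
    · obtain ⟨r, rfl⟩ := hodd
      have hz : ((2 * r + 1 : ℕ) : ZMod ((2 * r + 1) ^ 2)) * ((2 * r + 1 : ℕ) : ZMod ((2 * r + 1) ^ 2))
          = 0 := by rw [← Nat.cast_mul, ← pow_two, ZMod.natCast_self]
      rw [show (2 * r + 1) * (2 * r + 1 - 1) / 2 = (2 * r + 1) * r by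
        rw [Nat.add_sub_cancel, ← mul_assoc, mul_comm _ 2, mul_assoc, Nat.mul_div_cancel_left _ two_pos],
        Nat.cast_mul]
      linear_combination (r : ZMod ((2 * r + 1) ^ 2)) * (t : ZMod ((2 * r + 1) ^ 2)) * hz
  rw [hval, ZMod.natCast_eq_zero_iff] at hd
  have := Nat.le_of_dvd hs.pos hd
  have := hs.two_le
  nlinarith

theorem pow_dvd_of_pow_dvd_geomQ {s q : ℕ} (hs : s.Prime) (hq : 1 ≤ q) (h : s ∣ q - 1) :
    ∀ b i : ℕ, (s = 2 → 2 ≤ b → 4 ∣ q - 1) → s ^ b ∣ geomQ q i → s ^ b ∣ i := by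
  intro b
  induction b with
  | zero => intros; simp
  | succ b ih =>
    intro i h4 hd
    have hsi : s ∣ i := by
      rw [← ZMod.natCast_eq_zero_iff, ← cast_geomQ_of_dvd h hq, ZMod.natCast_eq_zero_iff]
      exact (dvd_pow_self s (Nat.succ_ne_zero b)).trans hd
    obtain ⟨j, rfl⟩ := hsi
    rcases Nat.eq_zero_or_pos b with rfl | hb
    · simp
    rw [pow_succ'] at hd ⊢
    apply Nat.mul_dvd_mul_left
    apply ih j fun h2 hb2 => h4 h2 (by omega)
    rw [mul_comm s j, geomQ_mul] at hd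
    obtain ⟨u, hu⟩ := dvd_geomQ_prime h hq j
    have hu' : ¬ s ∣ u := fun hd' => by
      have h' : s ∣ q ^ j - 1 := h.trans (by simpa using Nat.sub_dvd_pow_sub_pow q 1 j)
      refine sq_not_dvd_geomQ hs (Nat.one_le_pow _ _ hq) h' (fun h2 => ?_) ?_
      · exact (h4 h2 (by omega)).trans (by simpa using Nat.sub_dvd_pow_sub_pow q 1 j)
      · rw [hu, pow_two]; exact Nat.mul_dvd_mul_left s hd'
    rw [hu, show geomQ q j * (s * u) = s * (geomQ q j * u) by ring,
      Nat.mul_dvd_mul_iff_left hs.pos] at hd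
    exact ((hs.coprime_iff_not_dvd.2 hu').pow_left b).dvd_of_dvd_mul_right hd

theorem dvd_of_primePow_parts {n m : ℕ} (h : ∀ p k : ℕ, p.Prime → p ^ k ∣ n → p ^ k ∣ m) :
    n ∣ m := (Nat.dvd_iff_prime_pow_dvd_dvd m n).2 h

theorem bad_prime_dvd_geomQ {q n r s k : ℕ} (hn0 : 0 < n) (hq : 2 ≤ q) (hn : n ∣ geomQ q n) (hs : s.Prime)
    (hk : s ^ k ∣ n) (hsq : ¬ s ∣ q - 1) (hr : r.Prime) (hrn : r ∣ n) (hsr : s ≤ r) :
    s ^ k ∣ geomQ q (n / r) := by
  rcases Nat.eq_zero_or_pos k with rfl | hk0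
  · simp
  have hcop : Nat.Coprime (s ^ k) (q - 1) := (hs.coprime_iff_not_dvd.2 hsq).pow_left k
  suffices h : (q : ZMod (s ^ k)) ^ (n / r) = 1 by
    have h1 : ((q ^ (n / r) - 1 : ℕ) : ZMod (s ^ k)) = 0 := by
      rw [Nat.cast_sub (Nat.one_le_pow _ _ (by omega)), Nat.cast_pow, h, Nat.cast_one, sub_self]
    rw [ZMod.natCast_eq_zero_iff] at h1
    have h2 := sub_one_mul_geomQ q (n / r) (by omega)
    rw [show q ^ (n / r) - 1 = (q - 1) * geomQ q (n / r) by omega] at h1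
    exact hcop.dvd_of_dvd_mul_left h1
  have hn1 : (q : ZMod (s ^ k)) ^ n = 1 := by
    have h1 : ((q - 1) * geomQ q n : ℕ) = (0 : ZMod (s ^ k)) := by
      rw [ZMod.natCast_eq_zero_iff]
      exact (hk.trans hn).mul_left _
    rw [← Nat.cast_pow, ← sub_one_mul_geomQ q n (by omega), Nat.cast_add, h1, zero_add,
      Nat.cast_one]
  rw [← orderOf_dvd_iff_pow_eq_one]
  have h2 : orderOf (q : ZMod (s ^ k)) ∣ n := orderOf_dvd_of_pow_eq_one hn1
  have hu : IsUnit (q : ZMod (s ^ k)) := IsUnit.of_pow_eq_one hn1 hn0.ne'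
  obtain ⟨u, hu⟩ := hu
  have h3 : orderOf (q : ZMod (s ^ k)) ∣ s ^ (k - 1) * (s - 1) := by
    have : NeZero (s ^ k) := ⟨pow_ne_zero k hs.ne_zero⟩
    rw [← hu, orderOf_units, ← Nat.totient_prime_pow hs hk0, ← ZMod.card_units_eq_totient]
    exact orderOf_dvd_card
  have h4 : Nat.gcd n (s ^ (k - 1) * (s - 1)) ∣ n / r := by
    obtain ⟨m, hm⟩ := hrn
    subst hm
    rw [Nat.mul_div_cancel_left m hr.pos]
    rcases Nat.lt_or_ge s r with hlt | hge
    · have : Nat.Coprime r (s ^ (k - 1) * (s - 1)) := by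
        refine Nat.Coprime.mul_right (((Nat.coprime_primes hr hs).2 hlt.ne').pow_right _) ?_
        refine hr.coprime_iff_not_dvd.2 fun hd => ?_
        have := hs.two_le
        have := Nat.le_of_dvd (by omega) hd
        omega
      rw [this.gcd_mul_left_cancel]
      exact Nat.gcd_dvd_left _ _
    · have hsr' : s = r := le_antisymm hsr hge
      subst hsr'
      have hg : Nat.gcd (s * m) (s ^ (k - 1) * (s - 1)) ∣
          Nat.gcd (s * m) (s ^ (k - 1)) * Nat.gcd m (s - 1) := by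
        refine (Nat.gcd_mul_right_dvd_mul_gcd _ _ _).trans (Nat.mul_dvd_mul_left _ ?_)
        rw [Nat.Coprime.gcd_mul_left_cancel]
        refine (hs.coprime_iff_not_dvd.2 fun hd => ?_)
        have := hs.two_le
        have := Nat.le_of_dvd (by omega) hd
        omega
      refine hg.trans ?_
      refine Nat.Coprime.mul_dvd_of_dvd_of_dvd ?_ ?_ (Nat.gcd_dvd_left _ _)
      · refine Nat.Coprime.coprime_dvd_left (Nat.gcd_dvd_right _ _)
          (Nat.Coprime.coprime_dvd_right (Nat.gcd_dvd_right _ _) ?_)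
        refine Nat.Coprime.pow_left _ (hs.coprime_iff_not_dvd.2 fun hd => ?_)
        have := hs.two_le
        have := Nat.le_of_dvd (by omega) hd
        omega
      · refine (Nat.gcd_dvd_right _ _).trans ?_
        rw [show k = k - 1 + 1 by omega, pow_succ'] at hk
        exact (Nat.mul_dvd_mul_iff_left hs.pos).1 hk
  exact (Nat.dvd_gcd h2 h3).trans h4

/-- The Dickson pair condition: for a prime power `q` and `n > 1`, (every prime factor of `n` divides `q - 1`, and `4 ∣ n → 4 ∣ q - 1`) holds exactly when `q ^ n ≡ 1` modulo `n * (q - 1)` but `q ^ i` is not, for `0 < i < n`. -/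
theorem result (q n : ℕ) (hq : IsPrimePow q) (hn : 1 < n) : ((∀ r : ℕ, r.Prime → r ∣ n → r ∣ q - 1) ∧ (4 ∣ n → 4 ∣ q - 1)) ↔ (q ^ n ≡ 1 [MOD n * (q - 1)] ∧ ∀ i : ℕ, 0 < i → i < n → ¬ q ^ i ≡ 1 [MOD n * (q - 1)]) := by
  have hq2 : 2 ≤ q := hq.two_le
  simp only [modEq_one_iff hq2]
  constructor
  · rintro ⟨hr, h4⟩
    refine ⟨dvd_of_primePow_parts fun p k hp hk => ?_, fun i hi hin hd => ?_⟩
    · rcases Nat.eq_zero_or_pos k with rfl | hk0
      · simp
      · exact (pow_dvd_geomQ_pow (hr p hp ((dvd_pow_self p hk0.ne').trans hk)) (by omega) k).trans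
          (geomQ_dvd q hk)
    · have : n ∣ i := dvd_of_primePow_parts fun p k hp hk => by
        rcases Nat.eq_zero_or_pos k with rfl | hk0
        · simp
        · exact pow_dvd_of_pow_dvd_geomQ hp (by omega) (hr p hp ((dvd_pow_self p hk0.ne').trans hk)) k i
            (fun h2 hk2 => h4 ((show 4 ∣ p ^ k by rw [h2]; exact Nat.pow_dvd_pow 2 hk2).trans hk))
            (hk.trans hd)
      exact absurd (Nat.le_of_dvd hi this) (by omega)
  · rintro ⟨hn', hmin⟩
    have hn0 : n ≠ 0 := by omega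
    have small : ∀ r : ℕ, r.Prime → r ∣ n → ¬ n ∣ geomQ q (n / r) := fun r hr hrn =>
      hmin _ (Nat.div_pos (Nat.le_of_dvd (by omega) hrn) hr.pos) (Nat.div_lt_self (by omega) hr.one_lt)
    have hgood : ∀ r : ℕ, r.Prime → r ∣ n → r ∣ q - 1 := by
      by_contra! hbad
      obtain ⟨r, ⟨hr, hrn, hrq⟩, hmax⟩ : ∃ r, (r.Prime ∧ r ∣ n ∧ ¬ r ∣ q - 1) ∧
          ∀ s, (s.Prime ∧ s ∣ n ∧ ¬ s ∣ q - 1) → s ≤ r := by
        classical
        obtain ⟨r₀, h0⟩ := hbad
        let F := n.primeFactors.filter fun r => ¬ r ∣ q - 1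
        have hF : ∀ r, r ∈ F ↔ r.Prime ∧ r ∣ n ∧ ¬ r ∣ q - 1 := fun r => by
          simp [F, Nat.mem_primeFactors, hn0, and_assoc]
        have hne : F.Nonempty := ⟨r₀, (hF r₀).2 h0⟩
        exact ⟨F.max' hne, (hF _).1 (F.max'_mem hne), fun s hs => F.le_max' s ((hF s).2 hs)⟩
      refine small r hr hrn (dvd_of_primePow_parts fun p k hp hk => ?_)
      rcases Nat.eq_zero_or_pos k with rfl | hk0
      · simp
      by_cases hpq : p ∣ q - 1
      · refine (pow_dvd_geomQ_pow hpq (by omega) k).trans (geomQ_dvd q ?_)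
        have hne : p ≠ r := fun he => hrq (he ▸ hpq)
        exact Nat.dvd_div_of_mul_dvd
          ((((Nat.coprime_primes hp hr).2 hne).pow_left k).symm.mul_dvd_of_dvd_of_dvd hrn hk)
      · exact bad_prime_dvd_geomQ (by omega) hq2 hn' hp hk hpq hr hrn
          (hmax p ⟨hp, (dvd_pow_self p hk0.ne').trans hk, hpq⟩)
    refine ⟨hgood, fun h4 => ?_⟩
    by_contra h4q
    have h2n : 2 ∣ n := (show 2 ∣ 4 by norm_num).trans h4
    have hq1 := hgood 2 Nat.prime_two h2n
    refine small 2 Nat.prime_two h2n (dvd_of_primePow_parts fun p k hp hk => ?_)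
    rcases Nat.eq_zero_or_pos k with rfl | hk0
    · simp
    have hpq := hgood p hp ((dvd_pow_self p hk0.ne').trans hk)
    by_cases hp2 : p = 2
    · subst hp2
      rcases Nat.lt_or_ge k 2 with h | h
      · obtain rfl : k = 1 := by omega
        refine (pow_dvd_geomQ_pow hpq (by omega) 1).trans (geomQ_dvd q ?_)
        rw [pow_one]
        exact Nat.dvd_div_of_mul_dvd (by simpa using h4)
      · -- `4 ∣ geomQ q 2`
        obtain ⟨b, rfl⟩ := Nat.exists_eq_add_of_le h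
        have h42 : 4 ∣ geomQ q 2 := by
          have : geomQ q 2 = 1 + q := by simp [geomQ, Finset.sum_range_succ]
          rw [this]
          obtain ⟨t, ht⟩ := hq1
          rcases Nat.even_or_odd t with ⟨u, hu⟩ | ⟨u, hu⟩
          · exact absurd ⟨u, by omega⟩ h4q
          · exact ⟨u + 1, by omega⟩
        have step : ∀ c : ℕ, 2 ^ (c + 2) ∣ geomQ q (2 ^ (c + 1)) := by
          intro c
          induction c with
          | zero => simpa using h42
          | succ c ih =>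
            rw [pow_succ 2 (c + 1), geomQ_mul, pow_succ 2 (c + 2)]
            exact Nat.mul_dvd_mul ih (dvd_geomQ_prime hq1 (by omega) _)
        rw [show 2 + b = b + 2 by omega] at hk ⊢
        refine (step b).trans (geomQ_dvd q (Nat.dvd_div_of_mul_dvd ?_))
        rw [← pow_succ']
        exact hk
    · refine (pow_dvd_geomQ_pow hpq (by omega) k).trans (geomQ_dvd q ?_)
      exact Nat.dvd_div_of_mul_dvd
        ((((Nat.coprime_primes hp Nat.prime_two).2 hp2).pow_left k).symm.mul_dvd_of_dvd_of_dvd h2n hk)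

end Cfsg.Agent.S0694
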