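import Cfsg.Statements.S0698
import Cfsg.Agent.Lib.PermGroups.Jordan

set_option autoImplicit false
open Cfsg

namespace Cfsg.Agent.S0698

/-- Jordan's Theorem on normal subgroups of multiply transitive groups: if `G` is `k`-transitive (`k > 1`) of degree greater than `k`, a non-trivial normal subgroup is `(k-1)`-transitive, except possibly for `k = 3` when it may be an elementary abelian 2-group. -/
theorem result {α : Type*} [Fintype α] [DecidableEq α] (G : Subgroup (Equiv.Perm α)) {k : ℕ} (hk : 1 < k) (hdeg : k < Fintype.card α) (hG : MulAction.IsMultiplyPretransitive G α k) (N : Subgroup G) [N.Normal] (hN : N ≠ ⊥) : MulAction.IsMultiplyPretransitive N α (k - 1) ∨ (k = 3 ∧ IsMulCommutative N ∧ ∀ n ∈ N, n ^ 2 = 1) := by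
  exact (CfsgLib.PermGroups.jordan_normal_subgroup k G α hk
    (by rwa [Nat.card_eq_fintype_card]) hG N inferInstance hN).imp_right
    fun ⟨h3, hc, hex, _⟩ => ⟨h3, hc, hex⟩

end Cfsg.Agent.S0698
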