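import Cfsg.Statements.S0701
import Cfsg.Agent.Lib.PermGroups.Basic

set_option autoImplicit false
open Cfsg

namespace Cfsg.Agent.S0701

/-- The centraliser in the full symmetric group of a transitive permutation group `G` is semiregular, and it is transitive if and only if `G` is regular. -/
theorem result {α : Type*} (G : Subgroup (Equiv.Perm α)) [MulAction.IsPretransitive G α] : (∀ c ∈ Subgroup.centralizer (G : Set (Equiv.Perm α)), ∀ a : α, c a = a → c = 1) ∧ (MulAction.IsPretransitive (Subgroup.centralizer (G : Set (Equiv.Perm α))) α ↔ ∀ a : α, MulAction.stabilizer G a = ⊥) := by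
  classical
  refine ⟨fun c hc a h => ?_, ?_, ?_⟩
  · exact CfsgLib.PermGroups.eq_one_of_commute_of_transitive G
      (fun m hm => (hc m hm).symm) (a := a) h
  · intro hC a
    exact CfsgLib.PermGroups.semiregular_of_le_centralizer
      (Subgroup.centralizer (G : Set (Equiv.Perm α))) G (Subgroup.le_centralizer_iff.1 le_rfl) a
  · intro hreg
    refine ⟨fun a b => ?_⟩
    choose g hg using fun x : α => MulAction.exists_smul_eq G a x
    simp only [Subgroup.smul_def, Equiv.Perm.smul_def] at hg
    have huniq : ∀ (y : α) (u v : G), (u : Equiv.Perm α) y = (v : Equiv.Perm α) y → u = v := by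
      intro y u v h
      have h1 : v⁻¹ * u ∈ MulAction.stabilizer G y := by
        rw [MulAction.mem_stabilizer_iff, mul_smul, inv_smul_eq_iff]; exact h
      rw [hreg y, Subgroup.mem_bot] at h1
      exact (inv_mul_eq_one.1 h1).symm
    let f : α → α := fun x => (g x : Equiv.Perm α) b
    have hcomm : ∀ (u : G) (x : α), f ((u : Equiv.Perm α) x) = (u : Equiv.Perm α) (f x) := by
      intro u x
      have : g ((u : Equiv.Perm α) x) = u * g x := huniq a _ _ (by simp [hg])
      simp [f, this]
    have hbij : Function.Bijective f := by
      constructor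
      · intro x y h
        rw [← hg x, ← hg y, huniq b _ _ h]
      · intro y
        obtain ⟨u, hu⟩ := MulAction.exists_smul_eq G b y
        refine ⟨(u : Equiv.Perm α) a, ?_⟩
        have : g ((u : Equiv.Perm α) a) = u := huniq a _ _ (by simp [hg])
        simpa [f, this, Subgroup.smul_def, Equiv.Perm.smul_def] using hu
    refine ⟨⟨Equiv.ofBijective f hbij, fun u hu => Equiv.ext fun x => ?_⟩, ?_⟩
    · simpa using (hcomm ⟨u, hu⟩ x).symm
    · have : g a = 1 := huniq a _ _ (by simp [hg])
      show f a = b
      simp [f, this]

end Cfsg.Agent.S0701
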