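import Cfsg.Statements.S0702
import Cfsg.Agent.Lib.PermGroups.Basic

set_option autoImplicit false
open Cfsg

namespace Cfsg.Agent.S0702

theorem exists_commuting_of_fixed {α : Type*} [Finite α] (G : Subgroup (Equiv.Perm α))
    [MulAction.IsPretransitive G α] (a b : α)
    (hb : ∀ g ∈ G, g a = a → g b = b) :
    ∃ c ∈ Subgroup.centralizer (G : Set (Equiv.Perm α)), c a = b := by
  choose g hg using fun x : α => MulAction.exists_smul_eq G a x
  simp only [Subgroup.smul_def, Equiv.Perm.smul_def] at hg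
  let f : α → α := fun x => (g x : Equiv.Perm α) b
  have hwd : ∀ u : G, f ((u : Equiv.Perm α) a) = (u : Equiv.Perm α) b := by
    intro u
    have h := hb (((u⁻¹ * g ((u : Equiv.Perm α) a) : G) : Equiv.Perm α))
      (u⁻¹ * g ((u : Equiv.Perm α) a)).2 (by simp [hg])
    simp only [Subgroup.coe_mul, Subgroup.coe_inv, Equiv.Perm.mul_apply] at h
    exact (Equiv.symm_apply_eq _).1 h
  have hsurj : Function.Surjective f := fun y => by
    obtain ⟨u, hu⟩ := MulAction.exists_smul_eq G b y
    exact ⟨(u : Equiv.Perm α) a, by rw [hwd]; exact hu⟩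
  refine ⟨Equiv.ofBijective f ⟨Finite.injective_iff_surjective.2 hsurj, hsurj⟩, fun u hu => ?_, ?_⟩
  · refine Equiv.ext fun x => ?_
    obtain ⟨v, rfl⟩ := MulAction.exists_smul_eq G a x
    show u (f ((v : Equiv.Perm α) a)) = f (u ((v : Equiv.Perm α) a))
    rw [hwd v]
    exact (hwd (⟨u, hu⟩ * v)).symm
  · show f a = b
    simpa using hwd 1

/-- For a transitive permutation group `G` on a finite set, the centraliser of `G` in the symmetric group is isomorphic to `N_G(G_ω)/G_ω`, and its orbit of `ω` is the set of fixed points of `G_ω`. -/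
theorem result {α : Type*} [Finite α] (G : Subgroup (Equiv.Perm α)) [MulAction.IsPretransitive G α] (a : α) : Nonempty (Subgroup.centralizer (G : Set (Equiv.Perm α)) ≃* Subgroup.normalizer ((MulAction.stabilizer G a : Subgroup G) : Set G) ⧸ (MulAction.stabilizer G a).subgroupOf (Subgroup.normalizer ((MulAction.stabilizer G a : Subgroup G) : Set G))) ∧ MulAction.orbit (Subgroup.centralizer (G : Set (Equiv.Perm α))) a = MulAction.fixedPoints (MulAction.stabilizer G a) α := by
  classical
  let S : Subgroup G := MulAction.stabilizer G a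
  let N : Subgroup G := Subgroup.normalizer (S : Set G)
  let C := Subgroup.centralizer (G : Set (Equiv.Perm α))
  have hmemS : ∀ g : G, g ∈ S ↔ (g : Equiv.Perm α) a = a := fun g => Iff.rfl
  have hC : ∀ c ∈ C, ∀ g : G, ∀ x : α, (g : Equiv.Perm α) (c x) = c ((g : Equiv.Perm α) x) :=
    fun c hc g x => by rw [← Equiv.Perm.mul_apply, hc g g.2, Equiv.Perm.mul_apply]
  have huniq : ∀ c ∈ C, ∀ d ∈ C, c a = d a → c = d := by
    intro c hc d hd h
    refine Equiv.ext fun x => ?_
    obtain ⟨v, rfl⟩ := MulAction.exists_smul_eq G a x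
    show c ((v : Equiv.Perm α) a) = d ((v : Equiv.Perm α) a)
    rw [← hC c hc, ← hC d hd, h]
  have hex : ∀ n : N, ∃ c : C, (c : Equiv.Perm α) a = ((n : G)⁻¹ : G) • a := by
    intro n
    obtain ⟨c, hc, hca⟩ := exists_commuting_of_fixed G a (((n : G)⁻¹ : G) • a) (fun g hg hga => by
      have h := (Subgroup.mem_normalizer_iff.1 n.2 ⟨g, hg⟩).1 hga
      have h' : ((n : G) * ⟨g, hg⟩ * (n : G)⁻¹) • a = a := h
      rw [mul_smul, mul_smul, ← eq_inv_smul_iff] at h'
      exact h')
    exact ⟨⟨c, hc⟩, hca⟩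
  choose f hf using hex
  have hf' : ∀ n : N, (f n : Equiv.Perm α) a = ((n : G) : Equiv.Perm α)⁻¹ a := fun n => hf n
  let φ : N →* C :=
    { toFun := f
      map_one' := Subtype.ext (huniq _ (f 1).2 _ (1 : C).2 (by simp [hf']))
      map_mul' := fun m n => Subtype.ext (huniq _ (f (m * n)).2 _ (f m * f n).2 (by
        simp only [hf', Subgroup.coe_mul, Equiv.Perm.mul_apply, mul_inv_rev]
        rw [← Subgroup.coe_inv G (n : G), ← hC _ (f m).2, hf'])) }
  have hker : φ.ker = S.subgroupOf N := by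
    ext n
    rw [MonoidHom.mem_ker, Subgroup.mem_subgroupOf]
    constructor
    · intro h
      have h1 := hf' n
      rw [show f n = 1 from h] at h1
      exact ((Equiv.eq_symm_apply _).1 h1 : ((n : G) : Equiv.Perm α) a = a)
    · intro h
      refine Subtype.ext (huniq _ (f n).2 _ (1 : C).2 ?_)
      rw [hf' n]
      exact ((Equiv.symm_apply_eq _).2 ((hmemS _).1 h).symm)
  have hsurj : Function.Surjective φ := by
    intro c
    obtain ⟨g, hg⟩ := MulAction.exists_smul_eq G a ((c : Equiv.Perm α) a)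
    have hfix : ∀ s : G, s • ((c : Equiv.Perm α) a) = (c : Equiv.Perm α) a ↔ s • a = a := fun s => by
      show (s : Equiv.Perm α) _ = _ ↔ (s : Equiv.Perm α) a = a
      rw [hC _ c.2, (c : Equiv.Perm α).injective.eq_iff]
    have hgN : g⁻¹ ∈ N := Subgroup.mem_normalizer_iff.2 fun s => by
      show s • a = a ↔ (g⁻¹ * s * g⁻¹⁻¹) • a = a
      rw [inv_inv, mul_smul, mul_smul, hg, inv_smul_eq_iff, hg, hfix]
    refine ⟨⟨g⁻¹, hgN⟩, Subtype.ext (huniq _ (f _).2 _ c.2 ?_)⟩
    rw [hf, inv_inv, hg]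
  refine ⟨⟨((QuotientGroup.quotientMulEquivOfEq hker.symm).trans
    (QuotientGroup.quotientKerEquivOfSurjective φ hsurj)).symm⟩, ?_⟩
  ext b
  constructor
  · rintro ⟨c, rfl⟩ s
    show ((s : G) : Equiv.Perm α) ((c : Equiv.Perm α) a) = (c : Equiv.Perm α) a
    rw [hC _ c.2, (hmemS _).1 s.2]
  · intro hb
    obtain ⟨c, hc, hca⟩ := exists_commuting_of_fixed G a b fun g hg hga => hb ⟨⟨g, hg⟩, hga⟩
    exact ⟨⟨c, hc⟩, hca⟩

end Cfsg.Agent.S0702
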