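import Cfsg.Statements.S0703
import Cfsg.Agent.Lib.PermGroups.Basic

set_option autoImplicit false
open Cfsg

namespace Cfsg.Agent.S0703

/-- An abelian transitive minimal normal subgroup `M` of a permutation group on a finite set is self-centralising in the symmetric group, regular, elementary abelian, and is the unique minimal normal subgroup. -/
theorem result {α : Type*} [Finite α] (G : Subgroup (Equiv.Perm α)) (M : Subgroup G) [M.Normal] (hM : M ≠ ⊥) (hmin : ∀ L : Subgroup G, L.Normal → L ≤ M → L = ⊥ ∨ L = M) (hab : IsMulCommutative M) (htrans : MulAction.IsPretransitive M α) : Subgroup.centralizer ((M.map G.subtype : Subgroup (Equiv.Perm α)) : Set (Equiv.Perm α)) = M.map G.subtype ∧ (∀ a : α, MulAction.stabilizer M a = ⊥) ∧ (∃ p : ℕ, p.Prime ∧ ∀ m ∈ M, m ^ p = 1) ∧ ∀ L : Subgroup G, L.Normal → L ≠ ⊥ → (∀ L' : Subgroup G, L'.Normal → L' ≤ L → L' = ⊥ ∨ L' = L) → L = M := by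
  have := htrans
  cases nonempty_fintype α
  have hne : Nonempty α := by
    by_contra h
    rw [not_nonempty_iff] at h
    exact hM (Subgroup.eq_bot_iff_forall _ |>.2 fun x _ => Subsingleton.elim _ _)
  have := CfsgLib.PermGroups.isPretransitive_map_subtype (α := α) G M
  have hab' : IsMulCommutative (M.map G.subtype) := Subgroup.map_isMulCommutative M G.subtype
  refine ⟨CfsgLib.PermGroups.centralizer_eq_self_of_abelian_transitive α _ hab',
    fun a => CfsgLib.PermGroups.semiregular_of_abelian_transitive M hab a,
    CfsgLib.PermGroups.exists_prime_exponent_of_abelian_minimal_normal M hM hmin hab,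
    fun L hLn hL hLmin => ?_⟩
  rcases hmin (L ⊓ M) inferInstance inf_le_right with h | h
  · have h1 : L ≤ Subgroup.centralizer (M : Set G) :=
      CfsgLib.PermGroups.le_centralizer_of_normal_of_disjoint M L inferInstance hLn
        (by rw [inf_comm, h])
    rw [CfsgLib.PermGroups.centralizer_eq_self_of_abelian_transitive α M hab] at h1
    exact ((hmin L hLn h1).resolve_left hL)
  · exact ((hLmin M inferInstance (inf_eq_right.1 h)).resolve_left hM).symm

end Cfsg.Agent.S0703
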