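import Cfsg.Statements.S0704
import Cfsg.Agent.Lib.PermGroups.Basic

set_option autoImplicit false
open Cfsg

namespace Cfsg.Agent.S0704

/-- Two distinct transitive minimal normal subgroups `M`, `N` of a permutation group are regular, non-abelian, isomorphic, each other's centraliser in the symmetric group, and the only minimal normal subgroups. -/
theorem result {α : Type*} (G : Subgroup (Equiv.Perm α)) (M N : Subgroup G) [M.Normal] [N.Normal] (hM : M ≠ ⊥) (hN : N ≠ ⊥) (hMmin : ∀ L : Subgroup G, L.Normal → L ≤ M → L = ⊥ ∨ L = M) (hNmin : ∀ L : Subgroup G, L.Normal → L ≤ N → L = ⊥ ∨ L = N) (hMN : M ≠ N) (hMt : MulAction.IsPretransitive M α) (hNt : MulAction.IsPretransitive N α) : (∀ a : α, MulAction.stabilizer M a = ⊥) ∧ (∀ a : α, MulAction.stabilizer N a = ⊥) ∧ ¬ IsMulCommutative M ∧ Nonempty (M ≃* N) ∧ Subgroup.centralizer ((M.map G.subtype : Subgroup (Equiv.Perm α)) : Set (Equiv.Perm α)) = N.map G.subtype ∧ Subgroup.centralizer ((N.map G.subtype : Subgroup (Equiv.Perm α)) : Set (Equiv.Perm α)) = M.map G.subtype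 ∧ ∀ L : Subgroup G, L.Normal → L ≠ ⊥ → (∀ L' : Subgroup G, L'.Normal → L' ≤ L → L' = ⊥ ∨ L' = L) → L = M ∨ L = N := by
  have := hMt
  have := hNt
  have hne : Nonempty α := by
    by_contra h
    rw [not_nonempty_iff] at h
    exact hM (Subgroup.eq_bot_iff_forall _ |>.2 fun x _ => Subsingleton.elim _ _)
  have hMN0 : M ⊓ N = ⊥ := by
    rcases hMmin (M ⊓ N) inferInstance inf_le_left with h | h
    · exact h
    · exact absurd ((hNmin M inferInstance (inf_eq_left.1 h)).resolve_left hM) hMN
  have hNc : N ≤ Subgroup.centralizer (M : Set G) :=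
    CfsgLib.PermGroups.le_centralizer_of_normal_of_disjoint M N inferInstance inferInstance hMN0
  have hMc : M ≤ Subgroup.centralizer (N : Set G) := Subgroup.le_centralizer_iff.1 hNc
  have hCM := CfsgLib.PermGroups.centralizer_eq_of_transitive_of_le (α := α) M N hNc
  have hCN := CfsgLib.PermGroups.centralizer_eq_of_transitive_of_le (α := α) N M hMc
  have := CfsgLib.PermGroups.isPretransitive_map_subtype (α := α) G M
  have := CfsgLib.PermGroups.isPretransitive_map_subtype (α := α) G N
  have hNc' : N.map G.subtype ≤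
      Subgroup.centralizer ((M.map G.subtype : Subgroup (Equiv.Perm α)) : Set (Equiv.Perm α)) := by
    rintro _ ⟨n, hn, rfl⟩ _ ⟨m, hm, rfl⟩
    rw [← map_mul, ← map_mul, hNc hn m hm]
  refine ⟨fun a => CfsgLib.PermGroups.semiregular_of_le_centralizer N M hMc a,
    fun a => CfsgLib.PermGroups.semiregular_of_le_centralizer M N hNc a, ?_,
    CfsgLib.PermGroups.nonempty_mulEquiv_of_commuting_transitive (α := α) M N hNc,
    CfsgLib.PermGroups.centralizer_eq_of_transitive_of_le (α := α) _ _ hNc',
    CfsgLib.PermGroups.centralizer_eq_of_transitive_of_le (α := α) _ _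
      (Subgroup.le_centralizer_iff.1 hNc'), fun L hLn hL hLmin => ?_⟩
  · intro hab
    exact hMN ((CfsgLib.PermGroups.centralizer_eq_self_of_abelian_transitive α M hab).symm.trans hCM)
  · by_contra hne'
    rw [not_or] at hne'
    have key : ∀ K : Subgroup G, K.Normal → K ≠ ⊥ →
        (∀ J : Subgroup G, J.Normal → J ≤ K → J = ⊥ ∨ J = K) → L ≠ K →
        L ≤ Subgroup.centralizer (K : Set G) := by
      intro K hKn hK hKmin hLK
      rcases hKmin (L ⊓ K) inferInstance inf_le_right with h | h
      · exact CfsgLib.PermGroups.le_centralizer_of_normal_of_disjoint K L hKn hLn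
          (by rw [inf_comm, h])
      · exact absurd ((hLmin K hKn (inf_eq_right.1 h)).resolve_left hK).symm hLK
    have h1 := key M inferInstance hM hMmin hne'.1
    have h2 := key N inferInstance hN hNmin hne'.2
    rw [hCM] at h1
    rw [hCN] at h2
    exact hL (le_bot_iff.1 (hMN0 ▸ le_inf h2 h1))

end Cfsg.Agent.S0704
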