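import Cfsg.Statements.S0706
import Cfsg.Agent.Lib.PermGroups.Generous
import Mathlib.GroupTheory.Sylow
import Mathlib.GroupTheory.Perm.Cycle.Type

set_option autoImplicit false
open scoped Pointwise
open Cfsg

namespace Cfsg.Agent.S0706

/-- In a generously `k`-transitive permutation group, for a prime `p ≤ k` and a `k`-set `Γ`, there are no `p` points outside `Γ` lying in distinct orbits of the pointwise stabiliser of `Γ` all of length prime to `p` (at most `p - 1` such orbits). -/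
theorem result {α : Type*} [Fintype α] [DecidableEq α] (G : Subgroup (Equiv.Perm α)) {k : ℕ} (hk : k < Fintype.card α) (hgen : ∀ s : Finset α, s.card = k + 1 → ∀ σ : Equiv.Perm ↥s, ∃ g ∈ G, ∀ x : ↥s, g (x : α) = σ x) {p : ℕ} (hp : p.Prime) (hpk : p ≤ k) (Γ : Finset α) (hΓ : Γ.card = k) (f : Fin p → α) (hf : ∀ i, f i ∉ Γ) (hdist : ∀ i j, i ≠ j → f j ∉ MulAction.orbit (fixingSubgroup G (Γ : Set α)) (f i)) : ∃ i, p ∣ Nat.card (MulAction.orbit (fixingSubgroup G (Γ : Set α)) (f i)) := by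
  classical
  by_contra hcon
  rw [not_exists] at hcon
  have := Fact.mk hp
  have hktr := CfsgLib.PermGroups.generous_isMultiplyPretransitive hk hgen
  set H : Subgroup G := fixingSubgroup G (Γ : Set α) with hH
  obtain ⟨Γ0, hΓ0, hΓ0c⟩ := Finset.exists_subset_card_eq (hΓ.symm ▸ hpk : p ≤ Γ.card)
  let Y : Subgroup G :=
    { carrier := {g | (∀ x ∈ Γ, x ∉ Γ0 → g • x = x) ∧ ∀ x, g • x ∈ Γ0 ↔ x ∈ Γ0}
      one_mem' := ⟨fun x _ _ => one_smul _ x, fun x => by rw [one_smul]⟩
      mul_mem' := fun {u v} hu hv => ⟨fun x hx hx0 => by rw [mul_smul, hv.1 x hx hx0, hu.1 x hx hx0],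
        fun x => by rw [mul_smul, hu.2, hv.2]⟩
      inv_mem' := fun {u} hu => ⟨fun x hx hx0 => by rw [inv_smul_eq_iff, hu.1 x hx hx0],
        fun x => by rw [← hu.2 (u⁻¹ • x), smul_inv_smul]⟩ }
  have hmemH : ∀ g : G, g ∈ H ↔ ∀ x ∈ Γ, g • x = x := fun g => by
    rw [hH, mem_fixingSubgroup_iff]; rfl
  have hYΓ : ∀ g ∈ Y, ∀ x ∈ Γ, g • x ∈ Γ := fun g hg x hx => by
    by_cases h : x ∈ Γ0
    · exact hΓ0 ((hg.2 x).2 h)
    · rw [hg.1 x hx h]; exact hx
  have hHY : H ≤ Y := fun g hg => by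
    rw [hmemH] at hg
    refine ⟨fun x hx _ => hg x hx, fun x => ⟨fun h => ?_, fun h => ?_⟩⟩
    · have := hg _ (hΓ0 h)
      rw [smul_left_cancel_iff] at this
      rwa [this] at h
    · rw [hg x (hΓ0 h)]; exact h
  -- `p * |H|` divides `|Y|`
  have hpY : p * Nat.card H ∣ Nat.card Y := by
    have hN : (H.subgroupOf Y).Normal := ⟨fun n hn y => by
      rw [Subgroup.mem_subgroupOf, hmemH] at hn ⊢
      intro x hx
      rw [Subgroup.coe_mul, Subgroup.coe_mul, mul_smul, mul_smul,
        hn _ (hYΓ _ (y⁻¹).2 x hx), Subgroup.coe_inv, smul_inv_smul]⟩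
    obtain ⟨σ, hσ⟩ := exists_prime_orderOf_dvd_card' (G := Equiv.Perm ↥Γ0) p (by
      rw [Nat.card_eq_fintype_card, Fintype.card_perm, Fintype.card_coe, hΓ0c]
      exact Nat.dvd_factorial hp.pos le_rfl)
    let τ : Equiv.Perm α := Equiv.Perm.ofSubtype σ
    obtain ⟨g, hg, hgτ⟩ := CfsgLib.PermGroups.generous_extend hk hgen Γ (by omega) τ fun x hx =>
      Equiv.Perm.ofSubtype_apply_of_not_mem σ fun h => hx (hΓ0 h)
    have hτ0 : ∀ x, τ x ∈ Γ0 ↔ x ∈ Γ0 := fun x => by
      by_cases h : x ∈ Γ0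
      · simp [τ, h, Equiv.Perm.ofSubtype_apply_of_mem σ h]
      · simp [τ, Equiv.Perm.ofSubtype_apply_of_not_mem σ h]
    have hg0 : ∀ x, g x ∈ Γ0 ↔ x ∈ Γ0 := fun x => by
      by_cases hx : x ∈ Γ
      · rw [hgτ x hx, hτ0]
      · refine iff_of_false (fun h => ?_) fun h => hx (hΓ0 h)
        obtain ⟨z, hz⟩ := τ.surjective (g x)
        have hz0 : z ∈ Γ0 := (hτ0 z).1 (hz ▸ h)
        exact hx (g.injective ((hgτ z (hΓ0 hz0)).trans hz) ▸ hΓ0 hz0)
    let y : Y := ⟨⟨g, hg⟩, fun x hx hx0 => (hgτ x hx).trans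
      (Equiv.Perm.ofSubtype_apply_of_not_mem σ hx0), hg0⟩
    have hy : ∀ x : Γ0, (y : G) • (x : α) = σ x := fun x =>
      (hgτ x (hΓ0 x.2)).trans (Equiv.Perm.ofSubtype_apply_coe σ x)
    have hpow : ∀ (n : ℕ) (x : Γ0), ((y : G) ^ n) • (x : α) = (σ ^ n) x := by
      intro n
      induction n with
      | zero => simp
      | succ n ih =>
        intro x
        rw [pow_succ, mul_smul, hy, ih, pow_succ, Equiv.Perm.mul_apply]
    have h1 : (QuotientGroup.mk' (H.subgroupOf Y) y) ^ p = 1 := by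
      rw [← map_pow, QuotientGroup.mk'_apply, QuotientGroup.eq_one_iff, Subgroup.mem_subgroupOf,
        hmemH]
      intro x hx
      rw [SubgroupClass.coe_pow]
      by_cases h : x ∈ Γ0
      · rw [hpow p ⟨x, h⟩, ← hσ, pow_orderOf_eq_one]; rfl
      · exact (Y.pow_mem y.2 p).1 x hx h
    have h2 : QuotientGroup.mk' (H.subgroupOf Y) y ≠ 1 := by
      rw [ne_eq, QuotientGroup.mk'_apply, QuotientGroup.eq_one_iff, Subgroup.mem_subgroupOf, hmemH]
      intro h
      have : σ = 1 := Equiv.ext fun x => Subtype.ext ((hy x).symm.trans (h x (hΓ0 x.2)))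
      rw [this, orderOf_one] at hσ
      exact hp.one_lt.ne hσ
    have hd : p ∣ Nat.card (Y ⧸ H.subgroupOf Y) := by
      rw [← orderOf_eq_prime h1 h2]
      exact orderOf_dvd_natCard _
    rw [Subgroup.card_eq_card_quotient_mul_card_subgroup (H.subgroupOf Y),
      Nat.card_congr (Subgroup.subgroupOfEquivOfLe hHY).toEquiv]
    exact Nat.mul_dvd_mul_right hd _
  let R : Sylow p Y := default
  -- `R` fixes a point in each of the orbits
  have hfix : ∀ i, ∃ d, d ∈ MulAction.orbit H (f i) ∧ ∀ r ∈ (R : Subgroup Y), r • d = d := by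
    intro i
    have horb : MulAction.orbit Y (f i) = MulAction.orbit H (f i) := by
      ext d
      constructor
      · rintro ⟨y, rfl⟩
        show (y : G) • f i ∈ _
        obtain ⟨g', hg', hfixg, hgab⟩ := CfsgLib.PermGroups.generous_setwise_orbits hk hgen hΓ
          (a := f i) (b := (y : G) • f i) (fun hmem => hf i (by
            have := hYΓ _ (Y.inv_mem y.2) _ hmem
            rwa [inv_smul_smul] at this))
          (g := ((y : G) : Equiv.Perm α)) (y : G).2 (fun x hx => hYΓ _ y.2 x hx) rfl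
        exact ⟨⟨⟨g', hg'⟩, (hmemH _).2 hfixg⟩, hgab⟩
      · rintro ⟨h, rfl⟩
        exact ⟨⟨(h : G), hHY h.2⟩, rfl⟩
    have hidx : ¬ p ∣ (MulAction.stabilizer Y (f i)).index := by
      rw [MulAction.index_stabilizer, horb, ← Nat.card_coe_set_eq]
      exact hcon i
    let P : Sylow p (MulAction.stabilizer Y (f i)) := default
    obtain ⟨Q, hQ⟩ := IsPGroup.exists_le_sylow
      (P.2.map (MulAction.stabilizer Y (f i)).subtype)
    have hPQ : (P : Subgroup (MulAction.stabilizer Y (f i))).map (MulAction.stabilizer Y (f i)).subtype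
        = (Q : Subgroup Y) := by
      refine Subgroup.eq_of_le_of_card_ge hQ (le_of_eq ?_)
      rw [Subgroup.card_map_of_injective (Subgroup.subtype_injective _), Q.card_eq_multiplicity,
        P.card_eq_multiplicity]
      have hmul := Subgroup.index_mul_card (MulAction.stabilizer Y (f i))
      rw [← hmul, Nat.factorization_mul (fun h => hidx (by simp [h])) Nat.card_pos.ne',
        Finsupp.add_apply, Nat.factorization_eq_zero_of_not_dvd hidx, zero_add]
    obtain ⟨y, hy⟩ := MulAction.exists_smul_eq Y Q R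
    refine ⟨y • f i, horb ▸ ⟨y, rfl⟩, fun r hr => ?_⟩
    rw [← hy, Sylow.coe_subgroup_smul] at hr
    obtain ⟨q, hq, rfl⟩ := Subgroup.mem_map.1 hr
    rw [← hPQ] at hq
    obtain ⟨q', -, rfl⟩ := hq
    show (y * (q' : Y) * y⁻¹) • y • f i = y • f i
    rw [mul_smul, mul_smul, inv_smul_smul, q'.2]
  choose d hd hdfix using hfix
  have hdΓ : ∀ i, d i ∉ Γ := by
    intro i hi
    obtain ⟨h, hh⟩ := hd i
    apply hf i
    have h1 := (hmemH _).1 (H.inv_mem h.2) _ hi
    rw [← hh] at h1 hi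
    change (h : G)⁻¹ • (h : G) • f i = (h : G) • f i at h1
    rw [inv_smul_smul] at h1
    rw [h1]; exact hi
  have hdinj : Function.Injective d := fun i j h => by
    by_contra hne
    apply hdist i j hne
    have h1 := MulAction.orbit_eq_iff.2 (hd i)
    have h2 := MulAction.orbit_eq_iff.2 (hd j)
    rw [← h1, h, h2]
    exact MulAction.mem_orbit_self _
  let Γ1 : Finset α := (Γ \ Γ0) ∪ Finset.univ.image d
  have hΓ1 : Γ1.card = k := by
    rw [Finset.card_union_of_disjoint, Finset.card_image_of_injective _ hdinj,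
      Finset.card_sdiff_of_subset hΓ0, hΓ, hΓ0c, Finset.card_univ, Fintype.card_fin]
    · omega
    · rw [Finset.disjoint_left]
      intro x hx hx'
      obtain ⟨i, -, rfl⟩ := Finset.mem_image.1 hx'
      exact hdΓ i (Finset.mem_sdiff.1 hx).1
  have hR : (R : Subgroup Y).map Y.subtype ≤ fixingSubgroup G (Γ1 : Set α) := by
    rintro _ ⟨r, hr, rfl⟩
    rw [mem_fixingSubgroup_iff]
    intro x hx
    rw [Finset.mem_coe, Finset.mem_union, Finset.mem_sdiff, Finset.mem_image] at hx
    rcases hx with ⟨hx, hx0⟩ | ⟨i, -, rfl⟩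
    · exact r.2.1 x hx hx0
    · exact hdfix i r hr
  have hcard : Nat.card (fixingSubgroup G (Γ1 : Set α)) = Nat.card H := by
    let e : Γ ≃ Γ1 := Finset.equivOfCardEq (hΓ.trans hΓ1.symm)
    let e₀ : Fin k ≃ Γ := (Fintype.equivFinOfCardEq ((Fintype.card_coe Γ).trans hΓ)).symm
    obtain ⟨g, hg⟩ := hktr.exists_smul_eq (e₀.toEmbedding.trans (Function.Embedding.subtype _))
      ((e₀.trans e).toEmbedding.trans (Function.Embedding.subtype _))
    have hgΓ : g • (Γ : Set α) = (Γ1 : Set α) := by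
      apply Set.Subset.antisymm
      · rintro _ ⟨x, hx, rfl⟩
        have := congrArg (fun z : Fin k ↪ α => z (e₀.symm ⟨x, hx⟩)) hg
        simp at this
        show g • x ∈ (Γ1 : Set α)
        rw [this]
        exact (e ⟨x, hx⟩).2
      · intro x hx
        refine ⟨(e.symm ⟨x, hx⟩ : α), (e.symm ⟨x, hx⟩).2, ?_⟩
        have := congrArg (fun z : Fin k ↪ α => z (e₀.symm (e.symm ⟨x, hx⟩))) hg
        simpa using this
    exact (Nat.card_congr (SubMulAction.fixingSubgroupEquivFixingSubgroup hgΓ).toEquiv).symm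
  have hdvd := Subgroup.card_dvd_of_le hR
  rw [hcard, Subgroup.card_map_of_injective (Subgroup.subtype_injective _),
    R.card_eq_multiplicity] at hdvd
  have h1 := (hp.pow_dvd_iff_le_factorization Nat.card_pos.ne').1 hdvd
  have h2 : (p * Nat.card H).factorization p ≤ (Nat.card Y).factorization p :=
    (Nat.factorization_le_iff_dvd (mul_ne_zero hp.ne_zero Nat.card_pos.ne') Nat.card_pos.ne').2 hpY p
  rw [Nat.factorization_mul hp.ne_zero Nat.card_pos.ne', Finsupp.add_apply,
    hp.factorization_self] at h2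
  omega

end Cfsg.Agent.S0706
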