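import Cfsg.Statements.S0707

import Cfsg.Agent.Lib.PermGroups.Basic

set_option autoImplicit false
open Cfsg


namespace Cfsg.Agent.S0707

/-- In a primitive permutation group, distinct points have distinct stabilisers unless the group is regular of prime degree. -/
theorem result {α : Type*} (G : Subgroup (Equiv.Perm α)) [MulAction.IsPreprimitive G α] (h : ¬ (Nat.card α).Prime ∨ ∃ a : α, MulAction.stabilizer G a ≠ ⊥) {a b : α} (hab : a ≠ b) : MulAction.stabilizer G a ≠ MulAction.stabilizer G b := by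
  intro heq
  have : Nontrivial α := ⟨⟨a, b, hab⟩⟩
  let S : Subgroup G := MulAction.stabilizer G a
  obtain ⟨g, hg⟩ := MulAction.exists_smul_eq G a b
  have hgN : g ∈ Subgroup.normalizer (S : Set G) := Subgroup.mem_normalizer_iff.2 fun s => by
    show s ∈ MulAction.stabilizer G a ↔ g * s * g⁻¹ ∈ MulAction.stabilizer G a
    conv_rhs => rw [heq]
    rw [MulAction.mem_stabilizer_iff, MulAction.mem_stabilizer_iff, ← hg, mul_smul, mul_smul,
      inv_smul_smul, smul_left_cancel_iff]
  have hgS : g ∉ S := fun h => hab (h.symm.trans hg)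
  have hco : ∀ c : α, IsCoatom (MulAction.stabilizer G c) := fun c =>
    MulAction.IsPreprimitive.isCoatom_stabilizer_of_isPreprimitive G c
  have htop : Subgroup.normalizer (S : Set G) = ⊤ :=
    (hco a).2 _ (lt_of_le_of_ne Subgroup.le_normalizer fun h => hgS (by rw [show S = Subgroup.normalizer (S : Set G) from h]; exact hgN))
  have hall : ∀ (c : α) (s : G), s ∈ S → s • c = c := fun c s hs => by
    obtain ⟨u, rfl⟩ := MulAction.exists_smul_eq G a c
    have hu : u⁻¹ ∈ Subgroup.normalizer (S : Set G) := htop ▸ Subgroup.mem_top _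
    have h1 : (u⁻¹ * s * u⁻¹⁻¹) • a = a := (Subgroup.mem_normalizer_iff.1 hu s).1 hs
    rw [inv_inv, mul_smul, mul_smul, inv_smul_eq_iff] at h1
    exact h1
  have hSbot : S = ⊥ := (Subgroup.eq_bot_iff_forall _).2 fun s hs =>
    eq_of_smul_eq_smul (α := α) fun c => by rw [hall c s hs, one_smul]
  have hreg : ∀ c : α, MulAction.stabilizer G c = ⊥ := fun c => by
    refine (Subgroup.eq_bot_iff_forall _).2 fun s hs => ?_
    obtain ⟨u, rfl⟩ := MulAction.exists_smul_eq G a c
    have h1 : u⁻¹ * s * u ∈ S := by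
      show (u⁻¹ * s * u) • a = a
      rw [mul_smul, mul_smul, inv_smul_eq_iff]; exact hs
    rw [hSbot, Subgroup.mem_bot] at h1
    calc s = u * (u⁻¹ * s * u) * u⁻¹ := by simp [mul_assoc]
      _ = 1 := by rw [h1, mul_one, mul_inv_cancel]
  rcases h with h | ⟨c, hc⟩
  · apply h
    have hgen : ∀ x : G, x ≠ 1 → Subgroup.zpowers x = ⊤ := fun x hx => by
      have hb := hco a
      rw [hreg a] at hb
      exact hb.2 _ (bot_lt_iff_ne_bot.2 fun h => hx (Subgroup.zpowers_eq_bot.1 h))
    have hne : g ≠ 1 := fun h => hgS (h ▸ S.one_mem)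
    have hfin : IsOfFinOrder g := by
      by_contra hinf
      have h2 : g ^ 2 ≠ 1 := fun h2 => hinf (isOfFinOrder_iff_pow_eq_one.2 ⟨2, two_pos, h2⟩)
      have : g ∈ Subgroup.zpowers (g ^ 2) := (hgen _ h2).symm ▸ Subgroup.mem_top g
      obtain ⟨k, hk⟩ := this
      simp only at hk
      rw [← zpow_natCast, ← zpow_mul] at hk
      nth_rw 2 [← zpow_one g] at hk
      have := (injective_zpow_iff_not_isOfFinOrder.2 hinf) hk
      omega
    have hord : ∀ x : G, x ≠ 1 → orderOf x = Nat.card G := fun x hx => by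
      rw [← Nat.card_zpowers, hgen x hx, Subgroup.card_top]
    have hcard : Nat.card α = Nat.card G := by
      have := Subgroup.index_mul_card (MulAction.stabilizer G a)
      rwa [MulAction.index_stabilizer_of_transitive, hreg a, Subgroup.card_bot, mul_one] at this
    have hn : Nat.card G ≠ 0 := hord g hne ▸ hfin.orderOf_pos.ne'
    have : Finite G := Nat.finite_of_card_ne_zero hn
    have hn1 : Nat.card G ≠ 1 := fun h1 => hne <| by
      rw [← orderOf_eq_one_iff, hord g hne, h1]
    obtain ⟨q, hq, hqd⟩ := Nat.exists_prime_and_dvd hn1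
    have := Fact.mk hq
    obtain ⟨x, hx⟩ := exists_prime_orderOf_dvd_card' q hqd
    rw [hcard, ← hord x (fun h => hq.one_lt.ne' (by rw [← hx, h, orderOf_one])), hx]
    exact hq
  · exact hc (hreg c)

end Cfsg.Agent.S0707
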