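import Cfsg.Statements.S0708
import Mathlib.GroupTheory.Perm.Cycle.Type
import Mathlib.Data.Fintype.CardEmbedding
import Mathlib.Tactic

set_option autoImplicit false
open Cfsg

namespace Cfsg.Agent.S0708

variable {G : Type*} [Group G] {Ω : Type*} [MulAction G Ω]

/-- Four pairwise distinct points as an embedding. -/
def quad {a b c d : Ω} (h : [a, b, c, d].Nodup) : Fin 4 ↪ Ω :=
  ⟨fun i => [a, b, c, d].get i, h.injective_get⟩

theorem exists_move (h4 : MulAction.IsMultiplyPretransitive G Ω 4) {a b c d a' b' c' d' : Ω}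
    (h : [a, b, c, d].Nodup) (h' : [a', b', c', d'].Nodup) :
    ∃ g : G, g • a = a' ∧ g • b = b' ∧ g • c = c' ∧ g • d = d' := by
  obtain ⟨g, hg⟩ := MulAction.exists_smul_eq G (quad h) (quad h')
  exact ⟨g, DFunLike.congr_fun hg 0, DFunLike.congr_fun hg 1, DFunLike.congr_fun hg 2,
    DFunLike.congr_fun hg 3⟩

theorem eq_of_agree (hsharp : ∀ x : Fin 4 ↪ Ω, MulAction.stabilizer G x = ⊥) {a b c d : Ω}
    (h : [a, b, c, d].Nodup) {g f : G} (ha : g • a = f • a) (hb : g • b = f • b) (hc : g • c = f • c)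
    (hd : g • d = f • d) : g = f := by
  have : f⁻¹ * g ∈ MulAction.stabilizer G (quad h) := by
    rw [MulAction.mem_stabilizer_iff]
    ext i
    fin_cases i <;> simp [quad, mul_smul, ha, hb, hc, hd]
  rw [hsharp, Subgroup.mem_bot, inv_mul_eq_one] at this
  exact this.symm

/-- Tits' argument: a sharply 4-transitive group (no finiteness assumed) has finite degree at most 11, and at most 6 when the degree is even. -/
theorem result {G : Type*} [Group G] {Ω : Type*} [MulAction G Ω] (h4 : MulAction.IsMultiplyPretransitive G Ω 4) (hsharp : ∀ x : Fin 4 ↪ Ω, MulAction.stabilizer G x = ⊥) (hne : Nonempty (Fin 4 ↪ Ω)) : Finite Ω ∧ Nat.card Ω ≤ 11 ∧ (Even (Nat.card Ω) → Nat.card Ω ≤ 6) := by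
  classical
  obtain ⟨e⟩ := hne
  set p1 := e 0
  set p2 := e 1
  set p3 := e 2
  set p4 := e 3
  have ne : ∀ i j, i ≠ j → e i ≠ e j := fun i j h hh => h (e.injective hh)
  have h12 : p1 ≠ p2 := ne _ _ (by decide)
  have h13 : p1 ≠ p3 := ne _ _ (by decide)
  have h14 : p1 ≠ p4 := ne _ _ (by decide)
  have h23 : p2 ≠ p3 := ne _ _ (by decide)
  have h24 : p2 ≠ p4 := ne _ _ (by decide)
  have h34 : p3 ≠ p4 := ne _ _ (by decide)
  have hP : [p1, p2, p3, p4].Nodup := by simp [h12, h13, h14, h23, h24, h34]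
  have hP' : [p2, p1, p3, p4].Nodup := by simp [h12.symm, h13, h14, h23, h24, h34]
  obtain ⟨a, a1, a2, a3, a4⟩ := exists_move h4 hP hP'
  have hinv : ∀ x : Ω, a • a • x = x := by
    have : a * a = 1 := eq_of_agree hsharp hP (by simp [mul_smul, a1, a2]) (by simp [mul_smul, a1, a2])
      (by simp [mul_smul, a3]) (by simp [mul_smul, a4])
    intro x
    rw [smul_smul, this, one_smul]
  -- fixed points
  set F : Set Ω := {x | a • x = x} with hF
  have hFle : ∀ s : Finset Ω, (↑s : Set Ω) ⊆ F → s.card ≤ 3 := by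
    intro s hs
    by_contra hcard
    obtain ⟨t, hts, htc⟩ := Finset.exists_subset_card_eq (s := s) (n := 4) (by omega)
    obtain ⟨x, y, z, w, hxy, hxz, hxw, hyz, hyw, hzw, rfl⟩ := Finset.card_eq_four.mp htc
    have hm : ∀ u ∈ ({x, y, z, w} : Finset Ω), a • u = (1 : G) • u := fun u hu => by
      rw [one_smul]; exact hs (hts hu)
    have : a = 1 := eq_of_agree hsharp (a := x) (b := y) (c := z) (d := w)
      (by simp [hxy, hxz, hxw, hyz, hyw, hzw]) (hm x (by simp)) (hm y (by simp)) (hm z (by simp)) (hm w (by simp))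
    rw [this, one_smul] at a1
    exact h12 a1
  have hFfin : F.Finite := by
    by_contra h
    obtain ⟨s, hs, hsc⟩ := Set.Infinite.exists_subset_card_eq h 4
    have := hFle s hs
    omega
  haveI : Finite F := hFfin.to_subtype
  have hFcard : F.ncard ≤ 3 := by
    rw [Set.ncard_eq_toFinset_card F hFfin]
    exact hFle _ (by simp)
  have hF2 : 2 ≤ F.ncard := by
    rw [← Set.ncard_pair h34]
    refine Set.ncard_le_ncard ?_ hFfin
    rintro u (rfl | rfl)
    · exact a3
    · exact a4
  -- centralising elements fixing `p1`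
  let C := {g : G // g * a = a * g ∧ g • p1 = p1}
  let φ : C → (F ↪ F) := fun g => ⟨fun x => ⟨g.1 • x.1, show a • g.1 • x.1 = g.1 • x.1 by
      rw [smul_smul, ← g.2.1, ← smul_smul, x.2]⟩,
    fun x y h => Subtype.ext (MulAction.injective g.1 (congrArg Subtype.val h))⟩
  have hφ : Function.Injective φ := by
    intro g f h
    have hF' : ∀ u ∈ F, g.1 • u = f.1 • u := fun u hu =>
      congrArg Subtype.val (DFunLike.congr_fun h ⟨u, hu⟩)
    apply Subtype.ext
    refine eq_of_agree hsharp hP (g.2.2.trans f.2.2.symm) ?_ (hF' p3 a3) (hF' p4 a4)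
    rw [← a1, smul_smul, g.2.1, ← smul_smul, g.2.2, smul_smul, f.2.1, ← smul_smul, f.2.2]
  haveI : Finite C := Finite.of_injective φ hφ
  have hC : Nat.card C ≤ F.ncard.factorial := by
    haveI := Fintype.ofFinite F
    refine le_trans (Nat.card_le_card_of_injective φ hφ) ?_
    rw [Nat.card_eq_fintype_card, Fintype.card_embedding_eq, Nat.descFactorial_self,
      ← Nat.card_eq_fintype_card, Nat.card_coe_set_eq]
  -- the remaining moved points
  set N : Set Ω := {x | a • x ≠ x ∧ x ≠ p1 ∧ x ≠ p2} with hN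
  have hrest : ∀ x ∈ N, [p1, p2, x, a • x].Nodup := by
    rintro x ⟨hx, hx1, hx2⟩
    have hx3 : a • x ≠ p1 := fun h => hx2 (MulAction.injective a (h.trans a2.symm))
    have hx4 : a • x ≠ p2 := fun h => hx1 (MulAction.injective a (h.trans a1.symm))
    simp [h12, Ne.symm hx1, Ne.symm hx2, Ne.symm hx3, Ne.symm hx4, Ne.symm hx]
  have hNfin : N.Finite ∧ N.ncard ≤ F.ncard.factorial := by
    rcases N.eq_empty_or_nonempty with hemp | ⟨x₀, hx₀⟩
    · rw [hemp]
      exact ⟨Set.finite_empty, by simp⟩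
    have hex : ∀ x : N, ∃ g : C, g.1 • x₀ = x.1 := by
      rintro ⟨x, hx⟩
      obtain ⟨g, g1, g2, g3, g4⟩ := exists_move h4 (hrest x₀ hx₀) (hrest x hx)
      have hcomm : g * a = a * g := eq_of_agree hsharp (hrest x₀ hx₀)
        (by rw [mul_smul, mul_smul, a1, g1, g2, a1]) (by rw [mul_smul, mul_smul, a2, g2, g1, a2])
        (by rw [mul_smul, mul_smul, g4, g3]) (by rw [mul_smul, mul_smul, hinv, g4, g3, hinv])
      exact ⟨⟨g, hcomm, g1⟩, g3⟩
    choose ψ hψ using hex
    have hψi : Function.Injective ψ := fun x y h => Subtype.ext (by rw [← hψ x, ← hψ y, h])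
    haveI : Finite N := Finite.of_injective ψ hψi
    refine ⟨Set.toFinite N, ?_⟩
    rw [← Nat.card_coe_set_eq N]
    exact le_trans (Nat.card_le_card_of_injective ψ hψi) hC
  have huniv : (Set.univ : Set Ω) = F ∪ (N ∪ {p1, p2}) := by
    ext x
    simp only [hF, hN, Set.mem_univ, Set.mem_union, Set.mem_setOf_eq, Set.mem_insert_iff,
      Set.mem_singleton_iff, true_iff]
    tauto
  have hfin : (Set.univ : Set Ω).Finite := by
    rw [huniv]
    exact hFfin.union (hNfin.1.union (Set.toFinite _))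
  haveI : Finite Ω := Set.finite_univ_iff.mp hfin
  haveI := Fintype.ofFinite Ω
  have hle : Nat.card Ω ≤ F.ncard + (F.ncard.factorial + 2) := by
    rw [← Set.ncard_univ, huniv]
    refine le_trans (Set.ncard_union_le _ _) (Nat.add_le_add_left ?_ _)
    refine le_trans (Set.ncard_union_le _ _) (Nat.add_le_add hNfin.2 ?_)
    rw [Set.ncard_pair h12]
  have hpar : Fintype.card Ω ≡ F.ncard [MOD 2] := by
    haveI : Fact (Nat.Prime 2) := ⟨Nat.prime_two⟩
    have h := Equiv.Perm.card_fixedPoints_modEq (α := Ω) (f := (fun x => a • x : Function.End Ω))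
      (p := 2) (n := 1) (funext fun x => by simp [pow_two]; exact hinv x)
    refine h.trans (congrArg (· % 2) ?_)
    rw [← Nat.card_eq_fintype_card, ← Nat.card_coe_set_eq]
    rfl
  refine ⟨inferInstance, ?_, fun heven => ?_⟩
  · rw [Nat.card_eq_fintype_card] at hle ⊢
    rcases (show F.ncard = 2 ∨ F.ncard = 3 by omega) with h | h <;> rw [h] at hle <;>
      simp [Nat.factorial] at hle <;> omega
  · rw [Nat.card_eq_fintype_card] at heven hle ⊢
    obtain ⟨r, hr⟩ := heven
    have h2 : F.ncard % 2 = 0 := by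
      rw [← hpar, hr]; omega
    have : F.ncard = 2 := by omega
    rw [this] at hle
    simp [Nat.factorial] at hle
    omega

end Cfsg.Agent.S0708
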