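import Cfsg.Statements.S0709
import Mathlib.Tactic

set_option autoImplicit false
open Cfsg

namespace Cfsg.Agent.S0709

variable {α : Type*} [Fintype α] [DecidableEq α]

/-- The tower `W k = ⟨G ∩ stab (q 2), s 1, …, s (k-1)⟩`. -/
def tower (G₂ : Subgroup (Equiv.Perm α)) (s : ℕ → Equiv.Perm α) (k : ℕ) : Subgroup (Equiv.Perm α) :=
  Subgroup.closure ((G₂ : Set (Equiv.Perm α)) ∪ {x | ∃ i : ℕ, 1 ≤ i ∧ i < k ∧ x = s i})

theorem tower_one (G₂ : Subgroup (Equiv.Perm α)) (s : ℕ → Equiv.Perm α) : tower G₂ s 1 = G₂ := by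
  refine le_antisymm (Subgroup.closure_le _ |>.mpr ?_) ?_
  · rintro x (h | ⟨i, h1, h2, -⟩)
    · exact h
    · omega
  · exact fun x hx => Subgroup.subset_closure (Or.inl hx)

theorem base_le_tower (G₂ : Subgroup (Equiv.Perm α)) (s : ℕ → Equiv.Perm α) (k : ℕ) :
    G₂ ≤ tower G₂ s k := fun _ hx => Subgroup.subset_closure (Or.inl hx)

theorem gen_mem_tower (G₂ : Subgroup (Equiv.Perm α)) (s : ℕ → Equiv.Perm α) {i k : ℕ}
    (h1 : 1 ≤ i) (h2 : i < k) : s i ∈ tower G₂ s k :=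
  Subgroup.subset_closure (Or.inr ⟨i, h1, h2, rfl⟩)

theorem tower_mono (G₂ : Subgroup (Equiv.Perm α)) (s : ℕ → Equiv.Perm α) {j k : ℕ} (h : j ≤ k) :
    tower G₂ s j ≤ tower G₂ s k :=
  Subgroup.closure_mono (Set.union_subset_union_right _ fun _ ⟨i, h1, h2, h3⟩ => ⟨i, h1, by omega, h3⟩)

/-- Closure of the double coset union `A ∪ A s A` under multiplication. -/
theorem coset_closed {Γ : Type*} [Group Γ] (A : Subgroup Γ) (s : Γ) (hs2 : s * s ∈ A)
    (hss : ∀ a ∈ A, s * a * s ∈ A ∨ ∃ b ∈ A, ∃ c ∈ A, s * a * s = b * s * c) :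
    ∀ g ∈ Subgroup.closure ((A : Set Γ) ∪ {s}), g ∈ A ∨ ∃ b ∈ A, ∃ c ∈ A, g = b * s * c := by
  intro g hg
  let U : Γ → Prop := fun g => g ∈ A ∨ ∃ b ∈ A, ∃ c ∈ A, g = b * s * c
  have hmulA : ∀ a ∈ A, ∀ g, U g → U (a * g) := by
    rintro a ha g (h | ⟨b, hb, c, hc, rfl⟩)
    · exact Or.inl (A.mul_mem ha h)
    · exact Or.inr ⟨a * b, A.mul_mem ha hb, c, hc, by group⟩
  have hmuls : ∀ g, U g → U (s * g) := by
    rintro g (h | ⟨b, hb, c, hc, rfl⟩)
    · exact Or.inr ⟨1, A.one_mem, g, h, by group⟩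
    · rcases hss b hb with h | ⟨b', hb', c', hc', h⟩
      · exact Or.inl (by rw [← mul_assoc, ← mul_assoc]; exact A.mul_mem h hc)
      · exact Or.inr ⟨b', hb', c' * c, A.mul_mem hc' hc, by rw [← mul_assoc, ← mul_assoc, h]; group⟩
  have hinvs : ∀ g, U g → U (s⁻¹ * g) := by
    intro g hg
    have := hmulA _ (A.inv_mem hs2) _ (hmuls g hg)
    simpa [mul_assoc] using this
  suffices ∀ g ∈ Subgroup.closure ((A : Set Γ) ∪ {s}), ∀ x, U x → U (g * x) by
    have := this g hg 1 (Or.inl A.one_mem)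
    rwa [mul_one] at this
  intro g hg
  refine Subgroup.closure_induction_left (p := fun g _ => ∀ x, U x → U (g * x)) ?_ ?_ ?_ hg
  · intro x hx; simpa using hx
  · rintro y hy z _ ih x hx
    rw [mul_assoc]
    rcases hy with hy | hy
    · exact hmulA y hy _ (ih x hx)
    · rw [Set.mem_singleton_iff.mp hy]; exact hmuls _ (ih x hx)
  · rintro y hy z _ ih x hx
    rw [mul_assoc]
    rcases hy with hy | hy
    · exact hmulA _ (A.inv_mem hy) _ (ih x hx)
    · rw [Set.mem_singleton_iff.mp hy]; exact hinvs _ (ih x hx)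

/-- Witt's Lemma for constructing transitive extensions. Points `q 1, …, q t` (`t ≥ 2`) of a finite set are given; `G` fixes `q i` for `i ≥ 3` and is doubly transitive on the remaining points; `s 1 ∈ G` swaps `q 1, q 2`; for `2 ≤ i ≤ t-1`, `s i` swaps `q i, q (i+1)` and fixes the other `q j`; with `H` the stabiliser of `q 1, q 2` in `G`: `s i ^ 2 ∈ H`, `(s i * s (i+1)) ^ 3 ∈ H`, `(s i * s j) ^ 2 ∈ H` for `j ≥ i + 2`, and `s i` (`i ≥ 2`) normalises the stabiliser of `q 2` in `G`. Then `G` and the `s i` generate a `t`-transitive group whose pointwise stabiliser of the `q`'s is `H`. -/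
theorem result {α : Type*} [Fintype α] [DecidableEq α] (t : ℕ) (ht : 2 ≤ t) (q : ℕ → α) (hq : ∀ i j : ℕ, 1 ≤ i → i ≤ t → 1 ≤ j → j ≤ t → q i = q j → i = j) (G : Subgroup (Equiv.Perm α)) (hfix : ∀ g ∈ G, ∀ i : ℕ, 3 ≤ i → i ≤ t → g (q i) = q i) (h2 : ∀ a b c d : α, (∀ i, 3 ≤ i → i ≤ t → a ≠ q i ∧ b ≠ q i ∧ c ≠ q i ∧ d ≠ q i) → a ≠ b → c ≠ d → ∃ g ∈ G, g a = c ∧ g b = d) (s : ℕ → Equiv.Perm α) (hs1 : s 1 ∈ G) (hs1q : s 1 (q 1) = q 2 ∧ s 1 (q 2) = q 1) (hsq : ∀ i : ℕ, 2 ≤ i → i + 1 ≤ t → s i (q i) = q (i + 1) ∧ s i (q (i + 1)) = q i ∧ ∀ j : ℕ, 1 ≤ j → j ≤ t → j ≠ i → j ≠ i + 1 → s i (q j) = q j) (H : Subgroup (Equiv.Perm α)) (hH : H = G ⊓ MulAction.stabilizer (Equiv.Perm α) (q 1) ⊓ MulAction.stabilizer (Equiv.Perm α) (q 2)) (hsq2 : ∀ i : ℕ, 1 ≤ i → i + 1 ≤ t → s i ^ 2 ∈ H) (hbraid : ∀ i : ℕ, 1 ≤ i → i + 2 ≤ t → (s i * s (i + 1)) ^ 3 ∈ H) (hcomm : ∀ i j : ℕ, 1 ≤ i → i + 2 ≤ j → j + 1 ≤ t → (s i * s j) ^ 2 ∈ H ∧ (s j * s i) ^ 2 ∈ H) (hnorm : ∀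 i : ℕ, 2 ≤ i → i + 1 ≤ t → ∀ g ∈ G ⊓ MulAction.stabilizer (Equiv.Perm α) (q 2), s i * g * (s i)⁻¹ ∈ G ⊓ MulAction.stabilizer (Equiv.Perm α) (q 2)) : MulAction.IsMultiplyPretransitive ↥(Subgroup.closure ((G : Set (Equiv.Perm α)) ∪ {x | ∃ i : ℕ, 2 ≤ i ∧ i + 1 ≤ t ∧ x = s i})) α t ∧ Subgroup.closure ((G : Set (Equiv.Perm α)) ∪ {x | ∃ i : ℕ, 2 ≤ i ∧ i + 1 ≤ t ∧ x = s i}) ⊓ fixingSubgroup (Equiv.Perm α) {x | ∃ i : ℕ, 1 ≤ i ∧ i ≤ t ∧ x = q i} = H := by
  classical
  set G₂ : Subgroup (Equiv.Perm α) := G ⊓ MulAction.stabilizer (Equiv.Perm α) (q 2) with hG₂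
  set Ω : ℕ → Set α := fun k => {a | ∀ j, k + 1 ≤ j → j ≤ t → a ≠ q j} with hΩ
  have hqΩ : ∀ i k, 1 ≤ i → i ≤ k → k ≤ t → q i ∈ Ω k := by
    intro i k h1 h2 h3 j hj hjt h
    have := hq i j h1 (by omega) (by omega) hjt h
    omega
  have hs1₂ : q 1 ≠ q 2 := fun h => by have := hq 1 2 le_rfl (by omega) (by omega) ht h; omega
  -- the bottom of the tower
  have hGW : ∀ g, g ∈ G → g ∈ tower G₂ s 2 := by
    intro g hg
    by_cases h : g (q 2) = q 2
    · exact base_le_tower G₂ s 2 ⟨hg, h⟩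
    · have hga : ∀ i, 3 ≤ i → i ≤ t → g (q 2) ≠ q i := fun i h3 hit e => by
        rw [← hfix g hg i h3 hit] at e
        have := hq 2 i (by omega) (by omega) (by omega) hit (g.injective e)
        omega
      have h21 : ∀ i, 3 ≤ i → i ≤ t → q 2 ≠ q i := fun i h3 hit e => by
        have := hq 2 i (by omega) (by omega) (by omega) hit e; omega
      have h11 : ∀ i, 3 ≤ i → i ≤ t → q 1 ≠ q i := fun i h3 hit e => by
        have := hq 1 i le_rfl (by omega) (by omega) hit e; omega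
      obtain ⟨f, hf, hf2, hf1⟩ := h2 (q 2) (g (q 2)) (q 2) (q 1)
        (fun i h3 hit => ⟨h21 i h3 hit, hga i h3 hit, h21 i h3 hit, h11 i h3 hit⟩) (Ne.symm h) hs1₂.symm
      have hmem : s 1 * f * g ∈ G₂ := by
        refine ⟨G.mul_mem (G.mul_mem hs1 hf) hg, ?_⟩
        show (s 1 * f * g) (q 2) = q 2
        rw [Equiv.Perm.mul_apply, Equiv.Perm.mul_apply, hf1, hs1q.1]
      have hg' : g = f⁻¹ * (s 1)⁻¹ * (s 1 * f * g) := by group
      rw [hg']
      exact mul_mem (mul_mem (inv_mem (base_le_tower G₂ s 2 ⟨hf, hf2⟩))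
        (inv_mem (gen_mem_tower G₂ s le_rfl one_lt_two))) (base_le_tower G₂ s 2 hmem)
  have hWG : tower G₂ s 2 = G := by
    refine le_antisymm (Subgroup.closure_le _ |>.mpr ?_) hGW
    rintro x (h | ⟨i, h1, h2, rfl⟩)
    · exact h.1
    · rw [show i = 1 by omega]; exact hs1
  have hHle : ∀ k, 1 ≤ k → H ≤ tower G₂ s k := by
    intro k _
    rw [hH]
    exact (le_inf (inf_le_left.trans inf_le_left) inf_le_right).trans (base_le_tower G₂ s k)
  have hpres : ∀ k, 2 ≤ k → k ≤ t → ∀ g ∈ tower G₂ s k, ∀ j, k + 1 ≤ j → j ≤ t → g (q j) = q j := by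
    intro k hk hkt g hg j hj hjt
    have : tower G₂ s k ≤ MulAction.stabilizer (Equiv.Perm α) (q j) := by
      refine Subgroup.closure_le _ |>.mpr ?_
      rintro x (h | ⟨i, h1, h2, rfl⟩)
      · exact hfix x h.1 j (by omega) hjt
      · rcases Nat.eq_or_lt_of_le h1 with rfl | h1'
        · exact hfix _ hs1 j (by omega) hjt
        · exact (hsq i h1' (by omega)).2.2 j (by omega) hjt (by omega) (by omega)
    exact this hg
  -- `s i` normalises the tower below `i - 1`
  have hnormW : ∀ i k, 2 ≤ i → i + 1 ≤ t → 1 ≤ k → k < i → ∀ g ∈ tower G₂ s k, s i * g * (s i)⁻¹ ∈ tower G₂ s k := by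
    intro i k hi hit hk hki g hg
    have : tower G₂ s k ≤ (tower G₂ s k).comap (MulAut.conj (s i)).toMonoidHom := by
      refine Subgroup.closure_le _ |>.mpr ?_
      rintro x (h | ⟨j, h1, h2, rfl⟩)
      · exact base_le_tower G₂ s k (hnorm i hi hit x h)
      · show s i * s j * (s i)⁻¹ ∈ tower G₂ s k
        obtain ⟨-, hc⟩ := hcomm j i h1 (by omega) hit
        have e2 : s i * s j * (s i)⁻¹ = (s i * s j) ^ 2 * (s j)⁻¹ * (s i ^ 2)⁻¹ := by
          rw [pow_two, pow_two]; group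
        rw [e2]
        refine mul_mem (mul_mem (hHle k hk hc) (inv_mem (gen_mem_tower G₂ s h1 h2))) ?_
        exact inv_mem (hHle k hk (hsq2 i (by omega) hit))
    exact this hg
  -- stabilisers and transitivity, by induction
  have main : ∀ k, 1 ≤ k → k + 1 ≤ t →
      (∀ g ∈ tower G₂ s (k + 1), g (q (k + 1)) = q (k + 1) → g ∈ tower G₂ s k) ∧
      (∀ g ∈ tower G₂ s (k + 1), g ∈ tower G₂ s k ∨ ∃ b ∈ tower G₂ s k, ∃ c ∈ tower G₂ s k, g = b * s k * c) ∧
      (∀ a ∈ Ω (k + 1), ∃ g ∈ tower G₂ s (k + 1), g a = q (k + 1)) := by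
    intro k hk
    induction k, hk using Nat.le_induction with
    | base =>
      intro _
      refine ⟨fun g hg hgq => ?_, fun g hg => ?_, fun a ha => ?_⟩
      · rw [tower_one]
        rw [hWG] at hg
        exact ⟨hg, hgq⟩
      · rw [tower_one, hWG] at *
        by_cases h : g (q 2) = q 2
        · exact Or.inl ⟨hg, h⟩
        · right
          have hga : ∀ i, 3 ≤ i → i ≤ t → g (q 2) ≠ q i := fun i h3 hit e => by
            rw [← hfix g hg i h3 hit] at e
            have := hq 2 i (by omega) (by omega) (by omega) hit (g.injective e)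
            omega
          have h21 : ∀ i, 3 ≤ i → i ≤ t → q 2 ≠ q i := fun i h3 hit e => by
            have := hq 2 i (by omega) (by omega) (by omega) hit e; omega
          have h11 : ∀ i, 3 ≤ i → i ≤ t → q 1 ≠ q i := fun i h3 hit e => by
            have := hq 1 i le_rfl (by omega) (by omega) hit e; omega
          obtain ⟨f, hf, hf2, hf1⟩ := h2 (q 2) (g (q 2)) (q 2) (q 1)
            (fun i h3 hit => ⟨h21 i h3 hit, hga i h3 hit, h21 i h3 hit, h11 i h3 hit⟩) (Ne.symm h) hs1₂.symm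
          refine ⟨f⁻¹, inv_mem (s := G₂) ⟨hf, hf2⟩, (s 1)⁻¹ * f * g, ?_, by group⟩
          refine ⟨G.mul_mem (G.mul_mem (G.inv_mem hs1) hf) hg, ?_⟩
          show ((s 1)⁻¹ * f * g) (q 2) = q 2
          rw [Equiv.Perm.mul_apply, Equiv.Perm.mul_apply, hf1, Equiv.Perm.inv_eq_iff_eq, hs1q.2]
      · rw [hWG]
        by_cases h : a = q 2
        · exact ⟨1, G.one_mem, by simp [h]⟩
        · obtain ⟨b, hb2, hbq⟩ : ∃ b, b = q 1 ∧ True := ⟨q 1, rfl, trivial⟩
          have h21 : ∀ i, 3 ≤ i → i ≤ t → q 2 ≠ q i := fun i h3 hit e => by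
            have := hq 2 i (by omega) (by omega) (by omega) hit e; omega
          have h11 : ∀ i, 3 ≤ i → i ≤ t → q 1 ≠ q i := fun i h3 hit e => by
            have := hq 1 i le_rfl (by omega) (by omega) hit e; omega
          obtain ⟨f, hf, hfa, -⟩ := h2 a (q 2) (q 2) (q 1)
            (fun i h3 hit => ⟨ha i (by omega) hit, h21 i h3 hit, h21 i h3 hit, h11 i h3 hit⟩) h hs1₂.symm
          exact ⟨f, hf, hfa⟩
    | succ k hk ih =>
      intro hkt
      obtain ⟨hstab, hdec, htrans⟩ := ih (by omega)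
      set r := s k with hr
      set σ := s (k + 1) with hσ
      set A := tower G₂ s (k + 1) with hA
      set B := tower G₂ s k with hB
      obtain ⟨hσq, hσq', hσfix⟩ := hsq (k + 1) (by omega) hkt
      have hσ2 : σ * σ ∈ A := by rw [← pow_two]; exact hHle _ (by omega) (hsq2 _ (by omega) hkt)
      have hN : ∀ b ∈ B, σ * b * σ⁻¹ ∈ B := hnormW (k + 1) k (by omega) hkt hk (by omega)
      have hσσB : σ * σ ∈ B := by rw [← pow_two]; exact hHle _ hk (hsq2 _ (by omega) hkt)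
      have hrr : r * r ∈ B := by rw [← pow_two]; exact hHle _ hk (hsq2 _ hk (by omega))
      have hbr : (r * σ) ^ 3 ∈ B := hHle _ hk (hbraid k hk (by omega))
      have hBA : B ≤ A := tower_mono G₂ s (Nat.le_succ k)
      have hrA : r ∈ A := gen_mem_tower G₂ s hk (Nat.lt_succ_self k)
      have hσN : ∀ b ∈ B, σ * b * σ ∈ B := fun b hb => by
        have : σ * b * σ = (σ * b * σ⁻¹) * (σ * σ) := by group
        rw [this]; exact B.mul_mem (hN b hb) hσσB
      have hsrs : ∃ b ∈ A, ∃ c ∈ A, σ * r * σ = b * σ * c := by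
        -- `σ r σ = r⁻¹ (r σ)^3 (σ r)⁻¹ ⋯`, rewritten through the braid relation
        set h := (r * σ) ^ 3 with hh
        refine ⟨r⁻¹ * h, A.mul_mem (A.inv_mem hrA) (hBA hbr), (σ * σ)⁻¹ * r⁻¹, A.mul_mem (A.inv_mem hσ2) (A.inv_mem hrA), ?_⟩
        rw [hh, pow_succ, pow_succ, pow_one]
        group
      have hss : ∀ a ∈ A, σ * a * σ ∈ A ∨ ∃ b ∈ A, ∃ c ∈ A, σ * a * σ = b * σ * c := by
        intro a ha
        rcases hdec a ha with h | ⟨b, hb, c, hc, rfl⟩
        · exact Or.inl (hBA (hσN a h))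
        · obtain ⟨b', hb', c', hc', he⟩ := hsrs
          refine Or.inr ⟨(σ * b * σ⁻¹) * b', A.mul_mem (hBA (hN b hb)) hb', c' * (σ⁻¹ * c * σ), A.mul_mem hc' ?_, ?_⟩
          · have : σ⁻¹ * c * σ = (σ * σ)⁻¹ * (σ * c * σ⁻¹) * (σ * σ) := by group
            rw [this]
            exact A.mul_mem (A.mul_mem (A.inv_mem hσ2) (hBA (hN c hc))) hσ2
          · calc σ * (b * r * c) * σ = (σ * b * σ⁻¹) * (σ * r * σ) * (σ⁻¹ * c * σ) := by group
              _ = (σ * b * σ⁻¹) * b' * σ * (c' * (σ⁻¹ * c * σ)) := by rw [he]; group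
      have hnext : tower G₂ s (k + 1 + 1) = Subgroup.closure ((A : Set (Equiv.Perm α)) ∪ {σ}) := by
        refine le_antisymm (Subgroup.closure_le _ |>.mpr ?_) (Subgroup.closure_le _ |>.mpr ?_)
        · rintro x (h | ⟨i, h1, h2, rfl⟩)
          · exact Subgroup.subset_closure (Or.inl (base_le_tower G₂ s _ h))
          · by_cases hi : i = k + 1
            · exact Subgroup.subset_closure (Or.inr (by rw [hi]; rfl))
            · exact Subgroup.subset_closure (Or.inl (gen_mem_tower G₂ s h1 (by omega)))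
        · rintro x (h | h)
          · exact tower_mono G₂ s (Nat.le_succ _) h
          · rw [Set.mem_singleton_iff.mp h]; exact gen_mem_tower G₂ s (by omega) (Nat.lt_succ_self _)
      have hdec' : ∀ g ∈ tower G₂ s (k + 1 + 1), g ∈ A ∨ ∃ b ∈ A, ∃ c ∈ A, g = b * σ * c := by
        rw [hnext]
        exact coset_closed A σ hσ2 hss
      have hAq : ∀ g ∈ A, g (q (k + 1 + 1)) = q (k + 1 + 1) := fun g hg =>
        hpres (k + 1) (by omega) (by omega) g hg _ le_rfl hkt
      refine ⟨fun g hg hgq => ?_, hdec', fun a ha => ?_⟩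
      · rcases hdec' g hg with h | ⟨b, hb, c, hc, rfl⟩
        · exact h
        · exfalso
          rw [Equiv.Perm.mul_apply, Equiv.Perm.mul_apply, hAq c hc] at hgq
          rw [hσq'] at hgq
          have := b.injective (hgq.trans (hAq b hb).symm)
          have := hq (k + 1) (k + 1 + 1) (by omega) (by omega) (by omega) hkt this
          omega
      · by_cases h : a = q (k + 1 + 1)
        · exact ⟨1, one_mem _, by simp [h]⟩
        · have ha' : a ∈ Ω (k + 1) := by
            intro j hj hjt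
            rcases Nat.eq_or_lt_of_le hj with rfl | hj'
            · exact h
            · exact ha j hj' hjt
          obtain ⟨g, hg, hga⟩ := htrans a ha'
          exact ⟨σ * g, mul_mem (gen_mem_tower G₂ s (by omega) (Nat.lt_succ_self _))
            (tower_mono G₂ s (Nat.le_succ _) hg), by rw [Equiv.Perm.mul_apply, hga, hσq]⟩
  -- the top of the tower is the group of the statement
  have htop : Subgroup.closure ((G : Set (Equiv.Perm α)) ∪ {x | ∃ i : ℕ, 2 ≤ i ∧ i + 1 ≤ t ∧ x = s i}) = tower G₂ s t := by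
    refine le_antisymm (Subgroup.closure_le _ |>.mpr ?_) (Subgroup.closure_le _ |>.mpr ?_)
    · rintro x (h | ⟨i, h1, h2, rfl⟩)
      · exact tower_mono G₂ s ht (hGW x h)
      · exact gen_mem_tower G₂ s (by omega) (by omega)
    · rintro x (h | ⟨i, h1, h2, rfl⟩)
      · exact Subgroup.subset_closure (Or.inl h.1)
      · rcases Nat.eq_or_lt_of_le h1 with rfl | h1'
        · exact Subgroup.subset_closure (Or.inl hs1)
        · exact Subgroup.subset_closure (Or.inr ⟨i, h1', by omega, rfl⟩)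
  rw [htop]
  refine ⟨?_, ?_⟩
  · -- every tuple in `Ω k` can be moved to the `q`'s
    have key : ∀ k, 2 ≤ k → k ≤ t → ∀ x : ℕ → α, (∀ i, 1 ≤ i → i ≤ k → x i ∈ Ω k) →
        (∀ i j, 1 ≤ i → i ≤ k → 1 ≤ j → j ≤ k → x i = x j → i = j) →
        ∃ g ∈ tower G₂ s k, ∀ i, 1 ≤ i → i ≤ k → g (x i) = q i := by
      intro k hk
      induction k, hk using Nat.le_induction with
      | base =>
        intro _ x hx hxi
        have hne : x 1 ≠ x 2 := fun h => by have := hxi 1 2 le_rfl one_le_two one_le_two le_rfl h; omega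
        obtain ⟨f, hf, hf1, hf2⟩ := h2 (x 1) (x 2) (q 1) (q 2)
          (fun i h3 hit => ⟨hx 1 le_rfl one_le_two i h3 hit, hx 2 one_le_two le_rfl i h3 hit,
            fun e => (hqΩ 1 2 le_rfl one_le_two ht) i h3 hit e, fun e => (hqΩ 2 2 one_le_two le_rfl ht) i h3 hit e⟩)
          hne hs1₂
        refine ⟨f, hGW f hf, fun i h1 h2 => ?_⟩
        rcases (show i = 1 ∨ i = 2 by omega) with rfl | rfl
        · exact hf1
        · exact hf2
      | succ k hk ih =>
        intro hkt x hx hxi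
        obtain ⟨g, hg, hgx⟩ := (main k (by omega) hkt).2.2 (x (k + 1)) (hx (k + 1) (by omega) le_rfl)
        have hy1 : ∀ i, 1 ≤ i → i ≤ k → g (x i) ∈ Ω k := by
          intro i h1 h2 j hj hjt e
          rcases Nat.eq_or_lt_of_le hj with rfl | hj'
          · have := hxi i (k + 1) h1 (by omega) (by omega) le_rfl (g.injective (e.trans hgx.symm))
            omega
          · exact hx i h1 (by omega) j hj' hjt (g.injective (e.trans (hpres (k + 1) (by omega) hkt g hg j hj' hjt).symm))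
        obtain ⟨f, hf, hfx⟩ := ih (by omega) (fun i => g (x i)) hy1
          (fun i j h1 h2 h3 h4 e => hxi i j h1 (by omega) h3 (by omega) (g.injective e))
        refine ⟨f * g, mul_mem (tower_mono G₂ s (Nat.le_succ k) hf) hg, fun i h1 h2 => ?_⟩
        rw [Equiv.Perm.mul_apply]
        rcases Nat.eq_or_lt_of_le h2 with rfl | h2'
        · rw [hgx]; exact hpres k hk (by omega) f hf _ le_rfl hkt
        · exact hfx i h1 (by omega)
    have key' : ∀ u : Fin t ↪ α, ∃ g : tower G₂ s t, ∀ i : Fin t, g • u i = q ((i : ℕ) + 1) := by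
      intro u
      let x : ℕ → α := fun i => if h : i - 1 < t then u ⟨i - 1, h⟩ else q 1
      obtain ⟨g, hg, hgx⟩ := key t ht le_rfl x (fun i _ _ j hj hjt => absurd hjt (by omega)) (by
        intro i j h1 h2 h3 h4 e
        simp only [x, dif_pos (show i - 1 < t by omega), dif_pos (show j - 1 < t by omega)] at e
        have := congrArg Fin.val (u.injective e)
        simp only at this
        omega)
      refine ⟨⟨g, hg⟩, fun i => ?_⟩
      have := hgx ((i : ℕ) + 1) (by omega) (by omega)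
      simp only [x, Nat.add_sub_cancel, dif_pos i.2, Fin.eta] at this
      exact this
    refine ⟨fun u v => ?_⟩
    obtain ⟨g, hg⟩ := key' u
    obtain ⟨f, hf⟩ := key' v
    refine ⟨f⁻¹ * g, Function.Embedding.ext fun i => ?_⟩
    rw [Function.Embedding.smul_apply, mul_smul, hg, ← hf, inv_smul_smul]
  · apply le_antisymm
    · rintro g ⟨hg, hgfix⟩
      have hgf : ∀ i, 1 ≤ i → i ≤ t → g (q i) = q i := fun i h1 h2 =>
        (mem_fixingSubgroup_iff _).mp hgfix (q i) ⟨i, h1, h2, rfl⟩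
      have down : ∀ d k, k + d = t → 2 ≤ k → g ∈ tower G₂ s k := by
        intro d
        induction d with
        | zero =>
          intro k hk _
          rw [show k = t by omega]
          exact hg
        | succ d ih =>
          intro k hk h2
          exact (main k (by omega) (by omega)).1 g (ih (k + 1) (by omega) (by omega)) (hgf _ (by omega) (by omega))
      have hgG : g ∈ G := hWG ▸ down (t - 2) 2 (by omega) le_rfl
      rw [hH]
      exact ⟨⟨hgG, hgf 1 le_rfl (by omega)⟩, hgf 2 one_le_two ht⟩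
    · intro g hg
      refine ⟨hHle t (by omega) hg, (mem_fixingSubgroup_iff _).mpr ?_⟩
      rintro _ ⟨i, h1, h2, rfl⟩
      rw [hH] at hg
      rcases (show i = 1 ∨ i = 2 ∨ 3 ≤ i by omega) with rfl | rfl | h3
      · exact hg.1.2
      · exact hg.2
      · exact hfix g hg.1.1 i h3 h2

end Cfsg.Agent.S0709
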