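import Cfsg.Statements.S0710
import Mathlib.GroupTheory.Perm.Centralizer
import Mathlib.GroupTheory.SpecificGroups.Cyclic
import Mathlib.GroupTheory.Sylow
import Mathlib.Tactic

set_option autoImplicit false
open Cfsg

namespace Cfsg.Agent.S0710

/-- No transitive permutation group on 13 points has order `13 * 12 * 11 * 10 * 9 * 8`. -/
theorem result {α : Type*} [Fintype α] [DecidableEq α] (hα : Fintype.card α = 13) (G : Subgroup (Equiv.Perm α)) [MulAction.IsPretransitive G α] : Nat.card G ≠ 13 * 12 * 11 * 10 * 9 * 8 := by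
  classical
  intro hG
  haveI : Fact (Nat.Prime 13) := ⟨by norm_num⟩
  let P : Sylow 13 G := default
  have hP : Nat.card (P : Subgroup G) = 13 := by
    rw [P.card_eq_multiplicity, hG]
    have : Nat.factorization (13 * 12 * 11 * 10 * 9 * 8) 13 = 1 := by
      rw [Nat.factorization_def _ (by norm_num : Nat.Prime 13)]
      rw [show (13 * 12 * 11 * 10 * 9 * 8 : ℕ) = 13 * 95040 by norm_num,
        padicValNat.mul (by norm_num) (by norm_num), padicValNat.self (by norm_num),
        padicValNat.eq_zero_of_not_dvd (by norm_num)]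
    rw [this]
    norm_num
  haveI : IsCyclic (P : Subgroup G) := isCyclic_of_prime_card hP
  obtain ⟨u, hu⟩ := IsCyclic.exists_ofOrder_eq_natCard (α := (P : Subgroup G))
  rw [hP] at hu
  set σ : Equiv.Perm α := ((u : G) : Equiv.Perm α) with hσ
  have hσo : orderOf σ = 13 := by
    rw [hσ, Subgroup.orderOf_coe, Subgroup.orderOf_coe, hu]
  have hcyc : σ.IsCycle := Equiv.Perm.isCycle_of_prime_order' (by rw [hσo]; norm_num) (by rw [hσo, hα]; norm_num)
  have hC : Nat.card (Subgroup.centralizer ({σ} : Set (Equiv.Perm α))) = 13 := by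
    rw [Equiv.Perm.nat_card_centralizer, hcyc.cycleType, ← hcyc.orderOf, hσo, hα]
    simp
  set C := Subgroup.centralizer ((P : Subgroup G) : Set G) with hCdef
  have hPC : (P : Subgroup G) ≤ C := by
    haveI := (IsCyclic.commGroup (α := (P : Subgroup G)))
    intro x hx
    rw [hCdef, Subgroup.mem_centralizer_iff]
    intro y hy
    obtain ⟨a, ha⟩ := IsCyclic.exists_generator (α := (P : Subgroup G))
    obtain ⟨i, hi⟩ := Subgroup.mem_zpowers_iff.mp (ha ⟨x, hx⟩)
    obtain ⟨j, hj⟩ := Subgroup.mem_zpowers_iff.mp (ha ⟨y, hy⟩)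
    have h1 : (⟨y, hy⟩ : (P : Subgroup G)) * ⟨x, hx⟩ = ⟨x, hx⟩ * ⟨y, hy⟩ := by
      rw [← hi, ← hj, ← zpow_add, ← zpow_add, add_comm]
    exact congrArg Subtype.val h1
  have hC13 : Nat.card C = 13 := by
    refine le_antisymm ?_ (hP ▸ Subgroup.card_le_of_le hPC)
    rw [← hC]
    refine Nat.card_le_card_of_injective
      (fun c : C => (⟨((c : G) : Equiv.Perm α), by
        rw [Subgroup.mem_centralizer_singleton_iff]
        exact congrArg Subtype.val ((Subgroup.mem_centralizer_iff.mp c.2 (u : G) u.2).symm)⟩ :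
          Subgroup.centralizer ({σ} : Set (Equiv.Perm α)))) ?_
    intro c d h
    simp only [Subtype.mk.injEq] at h
    exact Subtype.ext (Subtype.ext h)
  set N := Subgroup.normalizer (P : Set G) with hNdef
  have hCN : C ≤ N := Subgroup.centralizer_le_normalizer _
  have hidx : (C.subgroupOf N).index ∣ 12 := by
    have key := Subgroup.card_dvd_of_injective _
      (QuotientGroup.kerLift_injective (P : Subgroup G).normalizerMonoidHom)
    rw [IsCyclic.card_mulAut, hP, Nat.totient_prime (by norm_num : Nat.Prime 13), ← Subgroup.index_eq_card,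
      Subgroup.normalizerMonoidHom_ker] at key
    simpa [hCdef, hNdef] using key
  have hN : Nat.card N = 13 * (C.subgroupOf N).index := by
    rw [← Subgroup.card_mul_index (C.subgroupOf N), Nat.card_congr (Subgroup.subgroupOfEquivOfLe hCN).toEquiv, hC13]
  have hmod := card_sylow_modEq_one 13 G
  rw [P.card_eq_index_normalizer, ← hNdef] at hmod
  have htot := Subgroup.card_mul_index N
  rw [hN, hG] at htot
  set d := (C.subgroupOf N).index
  set q := N.index
  have hdq : d * q = 95040 := by
    have : 13 * (d * q) = 13 * 95040 := by rw [← mul_assoc, htot]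
    omega
  have hd : d ∈ Nat.divisors 12 := Nat.mem_divisors.mpr ⟨hidx, by norm_num⟩
  have hd' : d ∈ ({1, 2, 3, 4, 6, 12} : Finset ℕ) := by
    have h12 : Nat.divisors 12 = {1, 2, 3, 4, 6, 12} := by decide
    rwa [h12] at hd
  simp only [Finset.mem_insert, Finset.mem_singleton] at hd'
  unfold Nat.ModEq at hmod
  rcases hd' with h | h | h | h | h | h <;> rw [h] at hdq <;> omega

end Cfsg.Agent.S0710
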