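import Cfsg.Statements.S0712


set_option autoImplicit false
open Cfsg

namespace Cfsg.Agent.S0712

/-- Jordan: a primitive group in which the pointwise stabiliser of a set `s` is doubly transitive on the complement of `s` (which has at least 2 points) is `(|s| + 2)`-transitive. -/
theorem result {α : Type*} [Fintype α] [DecidableEq α] (G : Subgroup (Equiv.Perm α)) (hG : MulAction.IsPreprimitive G α) (s : Set α) {m : ℕ} (hsm : s.ncard = m) (hm : m + 2 ≤ Fintype.card α) (h2 : MulAction.IsMultiplyPretransitive (fixingSubgroup G s) (SubMulAction.ofFixingSubgroup G s) 2) : MulAction.IsMultiplyPretransitive G α (m + 2) := by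
  classical
  have hpre : MulAction.IsMultiplyPretransitive G α m := by
    rcases Nat.eq_zero_or_pos m with rfl | hpos
    · exact MulAction.is_zero_pretransitive'
    · obtain ⟨n, rfl⟩ : ∃ n, m = n + 1 := ⟨m - 1, by omega⟩
      have hp := hG.isMultiplyPreprimitive (s := s) (n := n) hsm
        (by rw [Nat.card_eq_fintype_card]; omega) (MulAction.isPreprimitive_of_is_two_pretransitive h2)
      have := hp.isMultiplyPretransitive
      exact MulAction.isMultiplyPretransitive_of_le' (n := n + 2) (by omega)
        (by rw [ENat.card_eq_coe_fintype_card]; exact_mod_cast (by omega : n + 2 ≤ Fintype.card α))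
  constructor
  intro x y
  have e : Fin m ≃ s := (Fintype.equivFinOfCardEq (by rw [← Nat.card_eq_fintype_card, Nat.card_coe_set_eq, hsm])).symm
  let em : Fin m ↪ α := e.toEmbedding.trans (Function.Embedding.subtype _)
  have key : ∀ z : Fin (m + 2) ↪ α, ∃ g : G, (∀ i : Fin m, g • z (Fin.castAdd 2 i) = em i) ∧
      ∀ i : Fin 2, g • z (Fin.natAdd m i) ∉ s := by
    intro z
    obtain ⟨g, hg⟩ := MulAction.exists_smul_eq G ((Fin.castAddEmb 2).trans z) em
    refine ⟨g, fun i => DFunLike.congr_fun hg i, fun i hi => ?_⟩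
    have hj : g • z (Fin.castAdd 2 (e.symm ⟨_, hi⟩)) = em (e.symm ⟨_, hi⟩) := DFunLike.congr_fun hg _
    simp only [em, Function.Embedding.trans_apply, Equiv.coe_toEmbedding, Equiv.apply_symm_apply] at hj
    have hz := z.injective (MulAction.injective g hj)
    rw [Fin.ext_iff] at hz
    simp at hz
    omega
  obtain ⟨g, hg, hg'⟩ := key x
  obtain ⟨g', hg₁, hg₁'⟩ := key y
  let mk2 (z : Fin (m + 2) ↪ α) (c : G) (hc : ∀ i : Fin 2, c • z (Fin.natAdd m i) ∉ s) :
      Fin 2 ↪ SubMulAction.ofFixingSubgroup G s :=
    ⟨fun i => ⟨c • z (Fin.natAdd m i), hc i⟩, fun i j hij => by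
      have := z.injective (MulAction.injective c (Subtype.ext_iff.mp hij))
      exact Fin.natAdd_injective _ _ this⟩
  obtain ⟨f, hf⟩ := MulAction.exists_smul_eq (fixingSubgroup G s) (mk2 x g hg') (mk2 y g' hg₁')
  refine ⟨g'⁻¹ * (f : G) * g, ?_⟩
  ext i
  induction i using Fin.addCases with
  | left i =>
    have hfix : (f : G) • em i = em i := (mem_fixingSubgroup_iff G).mp f.2 _ (e i).2
    simp only [Function.Embedding.smul_apply, mul_smul, hg i, hfix, inv_smul_eq_iff, hg₁ i]
  | right i =>
    have hfi := congrArg Subtype.val (DFunLike.congr_fun hf i)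
    simp only [mk2, Function.Embedding.smul_apply, Function.Embedding.coeFn_mk, SetLike.val_smul] at hfi
    simp only [Function.Embedding.smul_apply, mul_smul, inv_smul_eq_iff]
    exact hfi

end Cfsg.Agent.S0712
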