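import Cfsg.Statements.S0714
import Mathlib.GroupTheory.GroupAction.MultipleTransitivity
import Mathlib.GroupTheory.SpecificGroups.Alternating
import Mathlib.Tactic

set_option autoImplicit false
open Cfsg

namespace Cfsg.Agent.S0714

/-- Over any field, the permutation module of the alternating group of degree at least 5 has exactly four invariant subspaces: zero, the constant functions, the functions with coordinate sum zero, and everything. -/
theorem result {α : Type*} [Fintype α] [DecidableEq α] (hα : 5 ≤ Fintype.card α) {K : Type*} [Field K] (W : Subrepresentation (Cfsg.permRep K (alternatingGroup α) α)) : W.toSubmodule = ⊥ ∨ W = Cfsg.permConstants K (alternatingGroup α) α ∨ W = Cfsg.permSumZero K (alternatingGroup α) α ∨ W.toSubmodule = ⊤ := by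
  classical
  set V := W.toSubmodule with hV
  set e : α → (α → K) := fun a => Pi.single a 1 with he
  have hinv : ∀ (g : Equiv.Perm α), g ∈ alternatingGroup α → ∀ f ∈ V, (fun x => f (g⁻¹ x)) ∈ V := by
    intro g hg f hf
    exact W.apply_mem_toSubmodule ⟨g, hg⟩ hf
  have hcyc : ∀ x y z : α, x ≠ y → x ≠ z → Equiv.swap x z * Equiv.swap x y ∈ alternatingGroup α := by
    intro x y z hxy hxz
    rw [Equiv.Perm.mem_alternatingGroup, map_mul, Equiv.Perm.sign_swap hxy, Equiv.Perm.sign_swap hxz]
    rfl
  by_cases hconst : ∀ f ∈ V, ∀ x y, f x = f y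
  · -- only constant functions
    by_cases hbot : V = ⊥
    · exact Or.inl hbot
    · right; left
      apply Subrepresentation.toSubmodule_injective
      obtain ⟨f, hf, hf0⟩ := Submodule.exists_mem_ne_zero_of_ne_bot hbot
      refine le_antisymm (fun h hh => ?_) ?_
      · obtain ⟨a⟩ : Nonempty α := Fintype.card_pos_iff.mp (by omega)
        exact Submodule.mem_span_singleton.mpr ⟨h a, funext fun x => by simp [hconst h hh a x]⟩
      · refine Submodule.span_le.mpr ?_
        rintro _ rfl
        obtain ⟨a, ha⟩ := Function.ne_iff.mp hf0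
        have : (fun _ => (1 : K)) = (f a)⁻¹ • f := funext fun x => by
          rw [Pi.smul_apply, smul_eq_mul, hconst f hf x a, inv_mul_cancel₀ (by simpa using ha)]
        rw [this]
        exact V.smul_mem _ hf
  · push Not at hconst
    obtain ⟨f, hf, x, y, hxy'⟩ := hconst
    have hxy : x ≠ y := fun h => hxy' (by rw [h])
    obtain ⟨R, hRsub, hR⟩ := Finset.exists_subset_card_eq (s := (Finset.univ.erase x).erase y) (n := 3) (by
      rw [Finset.card_erase_of_mem (by simp [Ne.symm hxy]), Finset.card_erase_of_mem (Finset.mem_univ x),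
        Finset.card_univ]; omega)
    obtain ⟨z, u, v, hzu, hzv, huv, hRe, hout⟩ : ∃ z u v, z ≠ u ∧ z ≠ v ∧ u ≠ v ∧
        R = {z, u, v} ∧ (∀ w ∈ R, w ≠ x ∧ w ≠ y) := by
      obtain ⟨z, u, v, h1, h2, h3, h4⟩ := Finset.card_eq_three.mp hR
      refine ⟨z, u, v, h1, h2, h3, h4, ?_⟩
      intro w hw
      have := hRsub hw
      simp at this
      exact ⟨this.2, this.1⟩
    obtain ⟨hzx, hzy⟩ := hout z (by simp [hRe])
    obtain ⟨hux, huy⟩ := hout u (by simp [hRe])
    obtain ⟨hvx, hvy⟩ := hout v (by simp [hRe])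
    set c := Equiv.swap x z * Equiv.swap x y with hc
    set f₁ : α → K := (fun w => f (c⁻¹ w)) - f with hf₁
    have hf₁m : f₁ ∈ V := V.sub_mem (hinv c (hcyc x y z hxy (Ne.symm hzx)) f hf) hf
    have hci : ∀ w, c⁻¹ w = Equiv.swap x y (Equiv.swap x z w) := fun w => by
      rw [hc, mul_inv_rev, Equiv.swap_inv, Equiv.swap_inv]; rfl
    have hf₁y : f₁ y ≠ 0 := by
      simp only [hf₁, Pi.sub_apply, hci, Equiv.swap_apply_of_ne_of_ne (Ne.symm hxy) (Ne.symm hzy),
        Equiv.swap_apply_right]
      exact sub_ne_zero.mpr hxy'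
    have hf₁0 : ∀ w, w ≠ x → w ≠ y → w ≠ z → f₁ w = 0 := by
      intro w h1 h2 h3
      simp [hf₁, hci, Equiv.swap_apply_of_ne_of_ne h1 h3, Equiv.swap_apply_of_ne_of_ne h1 h2]
    set d := Equiv.swap y v * Equiv.swap y u with hd
    have hdi : ∀ w, d⁻¹ w = Equiv.swap y u (Equiv.swap y v w) := fun w => by
      rw [hd, mul_inv_rev, Equiv.swap_inv, Equiv.swap_inv]; rfl
    set f₂ : α → K := (fun w => f₁ (d⁻¹ w)) - f₁ with hf₂
    have hf₂m : f₂ ∈ V := V.sub_mem (hinv d (hcyc y u v (Ne.symm huy) (Ne.symm hvy)) f₁ hf₁m) hf₁m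
    have hu0 : f₁ u = 0 := hf₁0 u hux huy (Ne.symm hzu)
    have hv0 : f₁ v = 0 := hf₁0 v hvx hvy (Ne.symm hzv)
    have hf₂e : f₂ = f₁ y • (e u - e y) := by
      funext w
      simp only [hf₂, he, Pi.sub_apply, Pi.smul_apply, smul_eq_mul, Pi.single_apply, hdi]
      by_cases h1 : w = u
      · subst h1
        simp [Equiv.swap_apply_of_ne_of_ne huy huv, huy, hu0]
      by_cases h2 : w = y
      · subst h2
        simp [Equiv.swap_apply_of_ne_of_ne hvy (Ne.symm huv), Ne.symm huy, hv0]
      by_cases h3 : w = v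
      · subst h3
        simp [hu0, hv0, hvy, Ne.symm huv]
      · simp [Equiv.swap_apply_of_ne_of_ne h2 h3, Equiv.swap_apply_of_ne_of_ne h2 h1, h1, h2]
    have hbase : e u - e y ∈ V := by
      have := V.smul_mem (f₁ y)⁻¹ hf₂m
      rwa [hf₂e, smul_smul, inv_mul_cancel₀ hf₁y, one_smul] at this
    have hall : ∀ a b, a ≠ b → e a - e b ∈ V := by
      intro a b hab
      have h2 : MulAction.IsMultiplyPretransitive (alternatingGroup α) α 2 := by
        haveI := alternatingGroup.isMultiplyPretransitive α
        exact MulAction.isMultiplyPretransitive_of_le (n := Nat.card α - 2)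
          (by rw [Nat.card_eq_fintype_card]; omega) (by omega)
      obtain ⟨g, hgu, hgy⟩ := MulAction.is_two_pretransitive_iff.mp h2 huy hab
      have := hinv g g.2 _ hbase
      change (g : Equiv.Perm α) u = a at hgu
      change (g : Equiv.Perm α) y = b at hgy
      convert this using 1
      funext w
      simp only [he, Pi.sub_apply, Pi.single_apply, Equiv.Perm.inv_eq_iff_eq, hgu, hgy]
    have hsum : (Cfsg.permSumZero K (alternatingGroup α) α).toSubmodule ≤ V := by
      intro h hh
      have hh0 : ∑ w, h w = 0 := hh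
      have : h = ∑ w, h w • (e w - e y) := by
        funext w
        simp [he, Finset.sum_apply, Pi.single_apply, mul_sub, Finset.sum_sub_distrib, hh0]
      rw [this]
      refine V.sum_mem fun w _ => ?_
      by_cases hw : w = y
      · subst hw; simp
      · exact V.smul_mem _ (hall w y hw)
    right; right
    by_cases hle : V ≤ (Cfsg.permSumZero K (alternatingGroup α) α).toSubmodule
    · left
      exact Subrepresentation.toSubmodule_injective (le_antisymm hle hsum)
    · right
      obtain ⟨w₀, hw₀, hw₀'⟩ := SetLike.not_le_iff_exists.mp hle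
      have hs : ∑ w, w₀ w ≠ 0 := hw₀'
      refine eq_top_iff.mpr fun h _ => ?_
      have hm : h - ((∑ w, h w) / (∑ w, w₀ w)) • w₀ ∈ (Cfsg.permSumZero K (alternatingGroup α) α).toSubmodule := by
        show ∑ w, (h - ((∑ w, h w) / (∑ w, w₀ w)) • w₀) w = 0
        simp [Finset.sum_sub_distrib, ← Finset.mul_sum, div_mul_cancel₀ _ hs]
      have := V.add_mem (hsum hm) (V.smul_mem ((∑ w, h w) / (∑ w, w₀ w)) hw₀)
      simpa using this

end Cfsg.Agent.S0714
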