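import Cfsg.Statements.S0716
import Cfsg.Agent.Lib.AltGroups.RankMult

set_option autoImplicit false
open Cfsg

namespace Cfsg.Agent.S0716

/-- (a) If all non-principal irreducible constituents of the permutation character of a transitive group have the same degree `f`, the character is multiplicity-free and all non-trivial subdegrees equal `f`. (b) A transitive group of rank at most 5 has multiplicity-free permutation character. -/
theorem result {G : Type*} [Group G] [Fintype G] {Ω : Type*} [Fintype Ω] [MulAction G Ω] [MulAction.IsPretransitive G Ω] (a : Ω) : ((f : ℕ) → (∀ χ : G → ℂ, Cfsg.IsIrrCharacter G χ → χ ≠ (fun _ => 1) → Cfsg.classInner (fun g : G => (Nat.card (MulAction.fixedBy Ω g) : ℂ)) χ ≠ 0 → χ 1 = f) → (∀ χ : G → ℂ, Cfsg.IsIrrCharacter G χ → Cfsg.classInner (fun g : G => (Nat.card (MulAction.fixedBy Ω g) : ℂ)) χ = 0 ∨ Cfsg.classInner (fun g : G => (Nat.card (MulAction.fixedBy Ω g) : ℂ)) χ = 1) ∧ ∀ b : Ω, b ≠ a → Nat.card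 (MulAction.orbit (MulAction.stabilizer G a) b) = f) ∧ (Nat.card (MulAction.orbitRel.Quotient (MulAction.stabilizer G a) Ω) ≤ 5 → ∀ χ : G → ℂ, Cfsg.IsIrrCharacter G χ → Cfsg.classInner (fun g : G => (Nat.card (MulAction.fixedBy Ω g) : ℂ)) χ = 0 ∨ Cfsg.classInner (fun g : G => (Nat.card (MulAction.fixedBy Ω g) : ℂ)) χ = 1) := by
  classical
  refine ⟨fun f hf => CfsgLib.AltGroups.multiplicityFree_of_degree_eq f hf a, fun hr χ hχ => ?_⟩
  haveI := Fintype.ofFinite (Cfsg.IrrCharacter G)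
  obtain ⟨m, hm, hm1, -, hrk⟩ := CfsgLib.AltGroups.exists_mult (G := G) a
  set t := CfsgLib.CharTheory.trivIrr G
  let ψ : Cfsg.IrrCharacter G := ⟨χ, hχ⟩
  rw [hm ψ, Nat.cast_eq_zero, Nat.cast_eq_one]
  by_contra hcon
  push Not at hcon
  have hψ : ψ ≠ t := fun e => hcon.2 (by rw [e, hm1])
  have h4 : m ψ * m ψ + ∑ φ ∈ (Finset.univ.erase t).erase ψ, m φ * m φ ≤ 4 := by
    rw [Finset.add_sum_erase _ (fun φ => m φ * m φ) (Finset.mem_erase.mpr ⟨hψ, Finset.mem_univ _⟩)]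
    rw [hrk, ← Finset.add_sum_erase _ _ (Finset.mem_univ t), hm1] at hr
    omega
  have h22 : 2 * 2 ≤ m ψ * m ψ := Nat.mul_le_mul (by omega) (by omega)
  have hrest : ∀ φ : Cfsg.IrrCharacter G, φ ≠ t → φ ≠ ψ → m φ = 0 := fun φ h1 h2 => by
    have := Finset.single_le_sum (fun i _ => Nat.zero_le (m i * m i))
      (Finset.mem_erase.mpr ⟨h2, Finset.mem_erase.mpr ⟨h1, Finset.mem_univ φ⟩⟩)
    exact mul_self_eq_zero.mp (by omega : m φ * m φ = 0)
  obtain ⟨d, -, hd⟩ := CfsgLib.CharTheory.exists_degree_of_isIrr hχ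
  have := (CfsgLib.AltGroups.multiplicityFree_of_degree_eq d (fun φ hφ hne h0 => ?_) a).1 χ hχ
  · rw [hm ψ, Nat.cast_eq_zero, Nat.cast_eq_one] at this
    exact this.elim hcon.1 hcon.2
  · by_cases e : (⟨φ, hφ⟩ : Cfsg.IrrCharacter G) = ψ
    · rw [show φ = χ from congrArg Subtype.val e, hd]
    · exact absurd (by rw [hm ⟨φ, hφ⟩, hrest _ (fun e' => hne (congrArg Subtype.val e')) e, Nat.cast_zero]) h0

end Cfsg.Agent.S0716
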