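import Cfsg.Statements.S0717
import Cfsg.Agent.Lib.AltGroups.RankMult

set_option autoImplicit false
open Cfsg

namespace Cfsg.Agent.S0717

/-- All suborbits of a transitive group are self-paired (every pair of points is interchanged by some group element) if and only if the permutation character is multiplicity-free and each of its irreducible constituents is real-valued. -/
theorem result {G : Type*} [Group G] [Fintype G] {Ω : Type*} [Fintype Ω] [MulAction G Ω] [MulAction.IsPretransitive G Ω] : (∀ a b : Ω, ∃ g : G, g • a = b ∧ g • b = a) ↔ ∀ χ : G → ℂ, Cfsg.IsIrrCharacter G χ → Cfsg.classInner (fun g : G => (Nat.card (MulAction.fixedBy Ω g) : ℂ)) χ ≠ 0 → Cfsg.classInner (fun g : G => (Nat.card (MulAction.fixedBy Ω g) : ℂ)) χ = 1 ∧ ∀ g : G, (starRingEnd ℂ) (χ g) = χ g := by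
  classical
  constructor
  · intro h χ hχ h0
    have hsymm : ∀ K : Ω → Ω → ℂ, CfsgLib.AltGroups.InvKernel G K → ∀ x y, K x y = K y x := by
      intro K hK x y
      obtain ⟨g, h1, h2⟩ := h x y
      rw [← hK g x y, h1, h2]
    have hmul : Cfsg.classInner (fun g : G => (Nat.card (MulAction.fixedBy Ω g) : ℂ)) χ = 1 := by
      have := CfsgLib.AltGroups.multiplicityFree_of_comm (ρ := Cfsg.permRep ℂ G Ω) (fun S T hS hT => by
        obtain ⟨K, hK, rfl⟩ := CfsgLib.AltGroups.eq_op_of_comm hS
        obtain ⟨L, hL, rfl⟩ := CfsgLib.AltGroups.eq_op_of_comm hT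
        rw [← CfsgLib.AltGroups.op_kmul, ← CfsgLib.AltGroups.op_kmul]
        congr 1
        funext x z
        rw [hsymm _ (hL.kmul hK) x z]
        exact Finset.sum_congr rfl fun y _ => by rw [hsymm K hK x y, hsymm L hL y z, mul_comm]) hχ
      rw [CfsgLib.AltGroups.character_permRep] at this
      exact this.resolve_left h0
    refine ⟨hmul, ?_⟩
    by_contra hreal
    push Not at hreal
    obtain ⟨g₀, hg₀⟩ := hreal
    have hne : χ ≠ fun g => (starRingEnd ℂ) (χ g) := fun e => hg₀ (congrFun e g₀).symm
    have horth : Cfsg.classInner χ (fun g => (starRingEnd ℂ) (χ g)) = 0 :=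
      CfsgLib.CharTheory.classInner_eq_zero_of_ne hχ (CfsgLib.CharTheory.isIrrCharacter_conj hχ) hne
    obtain ⟨n, σ, hσ, rfl⟩ := hχ
    haveI := hσ
    set ρ := Cfsg.permRep ℂ G Ω with hρ
    set c : G → ℂ := fun g => (starRingEnd ℂ) (σ.character g) - σ.character g with hc
    have hinv : ∀ g, (starRingEnd ℂ) (σ.character g) = σ.character g⁻¹ := fun g =>
      (CfsgLib.CharTheory.isCharacter_inv (CfsgLib.CharTheory.isCharacter_character σ) g).symm
    have hcl : ∀ g x : G, c (x * g * x⁻¹) = c g := fun g x => by
      simp only [hc]; rw [σ.char_conj]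
    set D : (Ω → ℂ) →ₗ[ℂ] (Ω → ℂ) := ∑ g : G, c g • ρ g with hD
    have hcomm : ∀ x : G, D ∘ₗ ρ x = ρ x ∘ₗ D := by
      intro x
      show D * ρ x = ρ x * D
      simp only [hD, Finset.sum_mul, Finset.mul_sum]
      refine Fintype.sum_equiv (MulAut.conj x⁻¹).toEquiv _ _ fun g => ?_
      rw [smul_mul_assoc, mul_smul_comm, ← map_mul, ← map_mul]
      have h1 : c ((MulAut.conj x⁻¹).toEquiv g) = c g := hcl g x⁻¹
      rw [h1]
      congr 2
      simp [mul_assoc]
    have hD0 : D = 0 := by
      obtain ⟨K, hK, hKD⟩ := CfsgLib.AltGroups.eq_op_of_comm hcomm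
      have hent : ∀ x y, K x y = ∑ g : G, c g * (if g⁻¹ • x = y then 1 else 0) := by
        intro x y
        have := congrFun (LinearMap.congr_fun hKD (Pi.single y 1)) x
        simp only [hD, LinearMap.sum_apply, LinearMap.smul_apply, Finset.sum_apply, Pi.smul_apply,
          CfsgLib.AltGroups.op_apply, smul_eq_mul] at this
        rw [Finset.sum_eq_single y (fun z _ hz => by simp [hz]) (by simp), Pi.single_eq_same,
          mul_one] at this
        rw [← this]
        refine Finset.sum_congr rfl fun g _ => ?_
        show c g * (Pi.single y (1 : ℂ) : Ω → ℂ) (g⁻¹ • x) = _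
        rw [Pi.single_apply]
      have hanti : ∀ x y, K y x = - K x y := by
        intro x y
        rw [hent, hent, ← Finset.sum_neg_distrib]
        refine Fintype.sum_equiv (Equiv.inv G) _ _ fun g => ?_
        have e : c g⁻¹ = - c g := by
          simp only [hc, hinv, inv_inv]; ring
        simp only [Equiv.inv_apply, e, inv_inv, neg_mul, neg_neg]
        congr 1
        exact if_congr ⟨fun e' => by rw [← e', smul_inv_smul], fun e' => by rw [← e', inv_smul_smul]⟩ rfl rfl
      rw [hKD]
      refine LinearMap.ext fun f => funext fun x => ?_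
      have hz : ∀ y, K x y = 0 := fun y => by
        have h1 := hanti x y
        rw [← hsymm K hK x y] at h1
        exact self_eq_neg.mp h1
      simp [hz]
    rw [← CfsgLib.AltGroups.character_permRep] at hmul
    obtain ⟨X, hX, hX0⟩ := CfsgLib.AltGroups.exists_hom_ne_zero (ρ := ρ) hmul
    have hX' := (CfsgLib.AltGroups.mem_hom_iff σ ρ).mp hX
    have h1 : X ∘ₗ (∑ g : G, c g • σ g) = 0 := by
      refine LinearMap.ext fun u => ?_
      have := LinearMap.congr_fun hD0 (X u)
      simp only [hD, LinearMap.sum_apply, LinearMap.smul_apply, LinearMap.zero_apply] at this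
      simp only [LinearMap.comp_apply, LinearMap.sum_apply, LinearMap.smul_apply, map_sum, map_smul,
        LinearMap.zero_apply]
      rw [← this]
      refine Finset.sum_congr rfl fun g _ => ?_
      congr 1
      exact LinearMap.congr_fun (hX' g) u
    have hinj : Function.Injective X := by
      refine (Representation.IsIrreducible.injective_or_eq_zero
        (Representation.invariantsEquivIntertwiningMap σ ρ ⟨X, hX⟩)).resolve_right fun h0' => hX0 ?_
      exact congrArg Subtype.val
        ((Representation.invariantsEquivIntertwiningMap σ ρ).map_eq_zero_iff.mp h0')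
    have h2 : (∑ g : G, c g • σ g) = 0 := by
      refine LinearMap.ext fun u => hinj ?_
      rw [LinearMap.zero_apply, map_zero]
      exact LinearMap.congr_fun h1 u
    have h3 := congrArg (LinearMap.trace ℂ (Fin n → ℂ)) h2
    simp only [map_sum, map_smul, smul_eq_mul, map_zero] at h3
    have h4 := CfsgLib.CharTheory.classInner_self_of_isIrr
      (CfsgLib.CharTheory.isIrrCharacter_character σ)
    have h5 : Cfsg.classInner σ.character σ.character
        - Cfsg.classInner σ.character (fun g => (starRingEnd ℂ) (σ.character g))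
        = (Nat.card G : ℂ)⁻¹ * ∑ g : G, c g * LinearMap.trace ℂ _ (σ g) := by
      simp only [Cfsg.classInner, hc, ← mul_sub, ← Finset.sum_sub_distrib, Complex.conj_conj]
      refine congrArg _ (Finset.sum_congr rfl fun g _ => ?_)
      show _ = ((starRingEnd ℂ) (σ.character g) - σ.character g) * σ.character g
      ring
    rw [h3, h4, horth, mul_zero, sub_zero] at h5
    exact one_ne_zero h5
  · intro h a b
    by_cases hab : a = b
    · subst hab
      exact ⟨1, one_smul G a, one_smul G a⟩
    set O := CfsgLib.AltGroups.orbital G a b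
    have hO : CfsgLib.AltGroups.InvKernel G O := CfsgLib.AltGroups.invKernel_orbital a b
    set K : Ω → Ω → ℂ := fun x y => O x y - O y x with hK
    have hKi : CfsgLib.AltGroups.InvKernel G K := fun g x y => by
      simp only [hK, hO g x y, hO g y x]
    have h0 : CfsgLib.AltGroups.op K = 0 := by
      refine CfsgLib.AltGroups.op_eq_zero_of_multiplicityFree hKi (fun χ hχ => ?_) fun χ hχ h1 => ?_
      · by_cases h0 : Cfsg.classInner (fun g : G => (Nat.card (MulAction.fixedBy Ω g) : ℂ)) χ = 0
        · exact Or.inl h0
        · exact Or.inr (h χ hχ h0).1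
      · have hreal := (h χ hχ (by rw [h1]; exact one_ne_zero)).2
        have hanti : ∀ g : G, CfsgLib.AltGroups.tau G K g⁻¹ = - CfsgLib.AltGroups.tau G K g := by
          intro g
          simp only [CfsgLib.AltGroups.tau, ← Finset.sum_neg_distrib]
          refine Fintype.sum_equiv (MulAction.toPerm g⁻¹) _ _ fun x => ?_
          simp [hK]
        have hs : Cfsg.classInner (CfsgLib.AltGroups.tau G K) χ
            = - Cfsg.classInner (CfsgLib.AltGroups.tau G K) χ := by
          simp only [Cfsg.classInner, ← mul_neg, ← Finset.sum_neg_distrib]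
          refine congrArg _ (Fintype.sum_equiv (Equiv.inv G) _ _ fun g => ?_)
          show _ = CfsgLib.AltGroups.tau G K g⁻¹ * -(starRingEnd ℂ) (χ g⁻¹)
          rw [hanti, hreal g⁻¹, CfsgLib.CharTheory.IsIrrCharacter.inv hχ]
          ring
        exact self_eq_neg.mp hs
    have h1 : K b a = 0 := by
      have := congrFun (LinearMap.congr_fun h0 (Pi.single a 1)) b
      simpa [Pi.single_apply] using this
    have h2 : O a b = 1 := if_pos ⟨1, one_smul G a, one_smul G b⟩
    simp only [hK, h2, sub_eq_zero] at h1
    by_contra hno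
    rw [show O b a = 0 from if_neg fun hg => hno hg] at h1
    exact zero_ne_one h1

end Cfsg.Agent.S0717
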