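import Cfsg.Statements.S0722
import Mathlib.Algebra.Group.Subgroup.Pointwise


set_option autoImplicit false
open Cfsg

namespace Cfsg.Agent.S0722
open scoped Pointwise

/-- In a primitive group `H`, with `N` a minimal normal subgroup and `K` a point stabiliser, `K ⊓ N` is maximal among proper `K`-invariant subgroups of `N`. -/
theorem result {α : Type*} [Finite α] (H : Subgroup (Equiv.Perm α)) [MulAction.IsPreprimitive H α] (N : Subgroup H) [N.Normal] (hN : N ≠ ⊥) (hmin : ∀ M : Subgroup H, M.Normal → M ≤ N → M = ⊥ ∨ M = N) (a : α) (X : Subgroup H) (hX : X ≤ N) (hKX : MulAction.stabilizer H a ⊓ N ≤ X) (hinv : MulAction.stabilizer H a ≤ Subgroup.normalizer (X : Set H)) : X = MulAction.stabilizer H a ⊓ N ∨ X = N := by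
  set K : Subgroup H := MulAction.stabilizer H a with hKdef
  rcases subsingleton_or_nontrivial α with hα | hα
  · left
    refine le_antisymm (le_inf ?_ hX) hKX
    intro h _
    exact Subsingleton.elim _ _
  have hco : IsCoatom K := MulAction.IsPreprimitive.isCoatom_stabilizer_of_isPreprimitive H a
  rcases hco.le_iff.mp (le_sup_right : K ≤ X ⊔ K) with htop | hK
  · right
    refine le_antisymm hX fun n hn => ?_
    have hsup : (↑(X ⊔ K) : Set H) = (X : Set H) * (K : Set H) := Subgroup.coe_mul_of_right_le_normalizer_left X K hinv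
    have : n ∈ (↑(X ⊔ K) : Set H) := by rw [htop]; exact Subgroup.mem_top n
    rw [hsup] at this
    obtain ⟨x, hx, y, hy, rfl⟩ := this
    have hyN : y ∈ N := by
      have := N.mul_mem (N.inv_mem (hX hx)) hn
      simpa using this
    exact X.mul_mem hx (hKX ⟨hy, hyN⟩)
  · left
    exact le_antisymm (le_inf (hK ▸ le_sup_left) hX) hKX

end Cfsg.Agent.S0722
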