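import Cfsg.Statements.S0723
import Mathlib.Algebra.Group.Subgroup.Pointwise
import Cfsg.Agent.S0722
import Cfsg.Agent.Lib.AltGroups.MinimalNormalProduct
import Cfsg.Agent.Lib.AltGroups.PowerOfSimple

set_option autoImplicit false
open Cfsg

namespace Cfsg.Agent.S0723

/-- The core of the O'Nan–Scott Theorem. Let `H` be a primitive permutation group on a finite set whose unique minimal normal subgroup `N` is non-abelian, and `K` a point stabiliser. Then there are a non-abelian simple group `T` and an isomorphism `N ≃* T^m` (`m ≥ 1`) under which `K ⊓ N` becomes either a product `∏ K_i` of proper subgroups `K_i < T`, or the set of functions constant on each block of a partition of the index set into blocks of one common size `k ≥ 2`. -/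
theorem result {α : Type*} [Finite α] (H : Subgroup (Equiv.Perm α)) [MulAction.IsPreprimitive H α] (N : Subgroup H) [N.Normal] (hN : N ≠ ⊥) (hmin : ∀ M : Subgroup H, M.Normal → M ≤ N → M = ⊥ ∨ M = N) (huniq : ∀ L : Subgroup H, L.Normal → L ≠ ⊥ → (∀ M : Subgroup H, M.Normal → M ≤ L → M = ⊥ ∨ M = L) → L = N) (hnab : ¬ IsMulCommutative N) (a : α) : ∃ (T : Type) (_ : Group T) (m : ℕ) (e : N ≃* (Fin m → T)), IsSimpleGroup T ∧ ¬ IsMulCommutative T ∧ 0 < m ∧ ((∃ K : Fin m → Subgroup T, (∀ i, K i ≠ ⊤) ∧ ∀ n : N, (n : H) ∈ MulAction.stabilizer H a ↔ ∀ i, e n i ∈ K i) ∨ (∃ (k : ℕ) (c : Fin m → Fin m), 2 ≤ k ∧ (∀ j : Fin m, Nat.card {i : Fin m // c i = j} = k ∨ Nat.card {i : Fin m // c i = j} = 0) ∧ ∀ n : N, (n : H) ∈ MulAction.stabilizer H a ↔ ∀ i j : Fin m, c i = c j → e n i = e n j)) := by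
  classical
  obtain ⟨T, instT, m, hsimple, hm, ⟨e⟩⟩ :=
    CfsgLib.AltGroups.exists_mulEquiv_pi_of_minimal_normal N hN hmin
  haveI := hsimple
  haveI : Finite T := by
    haveI : Finite (Fin m → T) := Finite.of_equiv _ e.toEquiv
    exact Finite.of_surjective (fun f : Fin m → T => f ⟨0, hm⟩) (fun t => ⟨fun _ => t, rfl⟩)
  have hTnab : ¬ IsMulCommutative T := fun hc =>
    hnab ⟨⟨fun x y => e.injective (by
      rw [map_mul, map_mul]; funext i; exact hc.is_comm.comm _ _)⟩⟩
  set K := MulAction.stabilizer H a with hK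
  let D : Subgroup (Fin m → T) := (K.comap N.subtype).map e.toMonoidHom
  have hDmem : ∀ n : N, e n ∈ D ↔ (n : H) ∈ K := fun n =>
    ⟨fun ⟨n', hn', he⟩ => by rw [← e.injective he]; exact hn', fun h => ⟨n, h, rfl⟩⟩
  -- `N` does not fix `a`
  have hNK : ¬ N ≤ K := by
    intro hle
    apply hN
    rw [Subgroup.eq_bot_iff_forall]
    intro n hn
    apply Subtype.ext
    refine Equiv.ext fun x => ?_
    obtain ⟨g, rfl⟩ := MulAction.exists_smul_eq H a x
    have h1 : g⁻¹ * n * g ∈ K := hle (by simpa using (inferInstance : N.Normal).conj_mem n hn g⁻¹)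
    have h2 : n • g • a = g • a := by
      have := MulAction.mem_stabilizer_iff.mp h1
      rwa [mul_smul, mul_smul, inv_smul_eq_iff] at this
    exact h2
  haveI : Nontrivial α := by
    by_contra hc
    rw [not_nontrivial_iff_subsingleton] at hc
    exact hNK fun n _ => Subsingleton.elim _ _
  have hco : IsCoatom K := MulAction.IsPreprimitive.isCoatom_stabilizer_of_isPreprimitive H a
  have hsup : N ⊔ K = ⊤ := hco.2 _ (lt_of_le_of_ne le_sup_right fun h => hNK (h ▸ le_sup_left))
  -- automorphisms induced by the stabiliser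
  let φ : H → ((Fin m → T) ≃* (Fin m → T)) := fun g => e.symm.trans ((MulAut.conjNormal g).trans e)
  have hφD : ∀ k ∈ K, ∀ f ∈ D, φ k f ∈ D := by
    rintro k hk _ ⟨n, hn, rfl⟩
    simp only [φ, MulEquiv.coe_toMonoidHom, MulEquiv.trans_apply, MulEquiv.symm_apply_apply]
    rw [hDmem, MulAut.conjNormal_apply]
    exact K.mul_mem (K.mul_mem hk hn) (K.inv_mem hk)
  -- maximality of `D`
  have hmax : ∀ X : Subgroup (Fin m → T), D ≤ X → (∀ k ∈ K, ∀ f ∈ X, φ k f ∈ X) → X = D ∨ X = ⊤ := by
    intro X hDX hXi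
    let X' : Subgroup H := (X.comap e.toMonoidHom).map N.subtype
    have hX' : ∀ n : N, (n : H) ∈ X' ↔ e n ∈ X := fun n =>
      ⟨fun ⟨n', hn', he⟩ => by rw [← Subtype.ext he]; exact hn', fun h => ⟨n, h, rfl⟩⟩
    have hin : K ≤ Subgroup.normalizer (X' : Set H) := by
      intro k hk
      apply Subgroup.mem_normalizer_fintype
      rintro _ ⟨n, hn, rfl⟩
      have h1 := hXi k hk (e n) hn
      simp only [φ, MulEquiv.trans_apply, MulEquiv.symm_apply_apply] at h1
      have h2 := (hX' _).mpr h1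
      rw [MulAut.conjNormal_apply] at h2
      exact h2
    rcases Cfsg.Agent.S0722.result H N hN hmin a X' (Subgroup.map_subtype_le _)
      (fun g hg => (hX' ⟨g, hg.2⟩).mpr (hDX ((hDmem _).mpr hg.1))) hin with h | h
    · left
      refine le_antisymm (fun f hf => ?_) hDX
      obtain ⟨n, rfl⟩ := e.surjective f
      have h1 : (n : H) ∈ X' := (hX' n).mpr hf
      rw [h] at h1
      exact (hDmem n).mpr h1.1
    · right
      rw [eq_top_iff]
      intro f _
      obtain ⟨n, rfl⟩ := e.surjective f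
      refine (hX' n).mp ?_
      rw [h]
      exact n.2
  have hDtop : D ≠ ⊤ := fun h => hNK fun n hn => (hDmem ⟨n, hn⟩).mp (h ▸ Subgroup.mem_top _)
  have haut : ∀ k, ∃ (π : Fin m → Fin m) (b : Fin m → (T ≃* T)), Function.Bijective π ∧
      ∀ f j, φ k f j = b j (f (π j)) :=
    fun k => CfsgLib.AltGroups.exists_perm_of_mulEquiv_pi hTnab (φ k)
  choose π b hπ hφ using haut
  -- the stabiliser is transitive on the factors
  have htrans : ∀ i j : Fin m, ∃ k ∈ K, π k i = j := by
    intro i j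
    by_contra hne
    push Not at hne
    let Y : Subgroup (Fin m → T) := ⨅ k ∈ K, (Pi.evalMonoidHom (fun _ : Fin m => T) (π k i)).ker
    have hYmem : ∀ f, f ∈ Y ↔ ∀ k ∈ K, f (π k i) = 1 := fun f => by
      simp [Y, Subgroup.mem_iInf, MonoidHom.mem_ker]
    have hYi : ∀ k₀ ∈ K, ∀ f ∈ Y, φ k₀ f ∈ Y := by
      intro k₀ hk₀ f hf
      rw [hYmem] at hf ⊢
      intro k hk
      have h1 : φ (k * k₀) f i = 1 := by rw [hφ, hf _ (K.mul_mem hk hk₀), map_one]
      have h2 : φ (k * k₀) f = φ k (φ k₀ f) := by simp [φ]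
      rw [h2, hφ] at h1
      exact (b k i).map_eq_one_iff.mp h1
    haveI hYn : Y.Normal := ⟨fun f hf g => by
      rw [hYmem] at hf ⊢
      intro k hk
      simp [hf k hk]⟩
    let Y' : Subgroup H := (Y.comap e.toMonoidHom).map N.subtype
    have hY'n : Y'.Normal := by
      rw [← Subgroup.normalizer_eq_top_iff, eq_top_iff, ← hsup]
      refine sup_le ?_ ?_
      · intro n hn
        apply Subgroup.mem_normalizer_fintype
        rintro _ ⟨u, hu, rfl⟩
        refine ⟨⟨n, hn⟩ * u * ⟨n, hn⟩⁻¹, ?_, rfl⟩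
        exact (hYn.comap e.toMonoidHom).conj_mem u hu _
      · intro k hk
        apply Subgroup.mem_normalizer_fintype
        rintro _ ⟨u, hu, rfl⟩
        refine ⟨MulAut.conjNormal k u, ?_, by simp⟩
        have := hYi k hk (e u) hu
        simpa [φ] using this
    obtain ⟨t, ht⟩ := exists_ne (1 : T)
    rcases hmin Y' hY'n (Subgroup.map_subtype_le _) with h | h
    · rw [Subgroup.map_eq_bot_iff_of_injective _ N.subtype_injective] at h
      have h1 : e.symm (Pi.mulSingle j t) ∈ Y.comap e.toMonoidHom := by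
        rw [Subgroup.mem_comap, MulEquiv.coe_toMonoidHom, MulEquiv.apply_symm_apply, hYmem]
        intro k hk
        simp [Pi.mulSingle_eq_of_ne (hne k hk)]
      rw [h, Subgroup.mem_bot, e.symm.map_eq_one_iff, Pi.mulSingle_eq_one_iff] at h1
      exact ht h1
    · obtain ⟨u, hu, he⟩ := (h.symm ▸ (e.symm (Pi.mulSingle (π 1 i) t)).2 :
        ((e.symm (Pi.mulSingle (π 1 i) t) : N) : H) ∈ Y')
      rw [Subgroup.coe_subtype] at he
      rw [SetLike.mem_coe, Subgroup.mem_comap, MulEquiv.coe_toMonoidHom, Subtype.ext he,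
        MulEquiv.apply_symm_apply, hYmem] at hu
      have := hu 1 K.one_mem
      rw [Pi.mulSingle_eq_same] at this
      exact ht this
  by_cases hfull : ∀ i t, ∃ f ∈ D, f i = t
  · -- diagonal case
    let R : Fin m → Fin m → Prop := fun i j => ∀ f ∈ D, f i = 1 → f j = 1
    let S : Setoid (Fin m) := ⟨R, fun i f _ h => h, fun h => CfsgLib.AltGroups.link_symm D hfull h,
      fun h1 h2 f hf hfi => h2 f hf (h1 f hf hfi)⟩
    let c : Fin m → Fin m := fun i => (Quotient.mk S i).out
    have hc : ∀ i, R i (c i) := fun i =>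
      CfsgLib.AltGroups.link_symm D hfull (Quotient.mk_out (s := S) i)
    have hc' : ∀ i j, R i j → c i = c j := fun i j h => congrArg Quotient.out (Quotient.sound (s := S) h)
    choose ψ hψ using fun i => CfsgLib.AltGroups.exists_link D hfull (hc i)
    have hRπ : ∀ k ∈ K, ∀ i j, R i j ↔ R (π k i) (π k j) := by
      intro k hk i j
      constructor
      · intro h f hf hfi
        have := h _ (hφD k hk f hf) (by rw [hφ, hfi, map_one])
        rw [hφ] at this
        exact (b k j).map_eq_one_iff.mp this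
      · intro h f hf hfi
        have hsurj : ∃ f' ∈ D, φ k f' = f := by
          refine ⟨φ k⁻¹ f, hφD _ (K.inv_mem hk) f hf, ?_⟩
          simp [φ]
        obtain ⟨f', hf', rfl⟩ := hsurj
        rw [hφ] at hfi ⊢
        rw [h f' hf' ((b k i).map_eq_one_iff.mp hfi), map_one]
    have hclass : ∀ i j, Nat.card {l // R i l} = Nat.card {l // R j l} := by
      intro i j
      obtain ⟨k, hk, hij⟩ := htrans i j
      refine Nat.card_eq_of_bijective (fun l => ⟨π k l.1, hij ▸ (hRπ k hk i l.1).mp l.2⟩) ⟨?_, ?_⟩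
      · intro l l' h
        exact Subtype.ext ((hπ k).1 (congrArg Subtype.val h))
      · rintro ⟨l, hl⟩
        obtain ⟨l', rfl⟩ := (hπ k).2 l
        exact ⟨⟨l', (hRπ k hk i l').mpr (hij.symm ▸ hl)⟩, rfl⟩
    set k₀ := Nat.card {l // R ⟨0, hm⟩ l} with hk₀
    have hfib : ∀ j : Fin m, Nat.card {i : Fin m // c i = j} = k₀ ∨ Nat.card {i : Fin m // c i = j} = 0 := by
      intro j
      by_cases hj : c j = j
      · left
        rw [hk₀, hclass ⟨0, hm⟩ j]
        refine Nat.card_congr (Equiv.subtypeEquivRight fun i => ⟨fun h => ?_, fun h => ?_⟩)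
        · exact CfsgLib.AltGroups.link_symm D hfull (h ▸ hc i)
        · rw [← hc' j i h, hj]
      · right
        haveI : IsEmpty {i : Fin m // c i = j} := ⟨fun ⟨i, hi⟩ => hj (by
          rw [← hi]; exact (hc' i (c i) (hc i)).symm)⟩
        exact Nat.card_of_isEmpty
    have hk2 : 2 ≤ k₀ := by
      by_contra hlt
      push Not at hlt
      apply hDtop
      rw [eq_top_iff]
      intro v _
      obtain ⟨f, hf, hfv⟩ := CfsgLib.AltGroups.exists_mem_eqOn D hfull hTnab Finset.univ (fun i _ j _ hij h => by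
        have h1 : 1 < Nat.card {l // R i l} := by
          rw [Finite.one_lt_card_iff_nontrivial]
          exact ⟨⟨i, fun _ _ h => h⟩, ⟨j, h⟩, fun e => hij (congrArg Subtype.val e)⟩
        rw [hclass i ⟨0, hm⟩] at h1
        omega) v
      rwa [← funext (fun i => hfv i (Finset.mem_univ i))]
    refine ⟨T, instT, m, e.trans (MulEquiv.piCongrRight ψ), hsimple, hTnab, hm,
      Or.inr ⟨k₀, c, hk2, hfib, fun n => ?_⟩⟩
    have happ : ∀ i, (e.trans (MulEquiv.piCongrRight ψ)) n i = ψ i (e n i) := fun i => rfl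
    simp only [happ]
    constructor
    · intro hn i j hij
      have hd := (hDmem n).mpr hn
      rw [← hψ i _ hd, ← hψ j _ hd, hij]
    · intro hn
      obtain ⟨d, hd, hdv⟩ := CfsgLib.AltGroups.exists_mem_eqOn D hfull hTnab
        (Finset.univ.image c) (fun i hi j hj hij h => by
          obtain ⟨i', -, rfl⟩ := Finset.mem_image.mp hi
          obtain ⟨j', -, rfl⟩ := Finset.mem_image.mp hj
          exact hij (by rw [hc' i' (c i') (hc i'), hc' j' (c j') (hc j')]; exact hc' _ _ h))
        (fun i => ψ i (e n i))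
      rw [← hDmem]
      suffices e n = d by rw [this]; exact hd
      funext i
      apply (ψ i).injective
      rw [← hψ i d hd, hdv (c i) (Finset.mem_image_of_mem c (Finset.mem_univ i))]
      exact hn i (c i) (hc' i (c i) (hc i))
  · -- product case
    push Not at hfull
    obtain ⟨i₀, t₀, hi₀⟩ := hfull
    let R : Fin m → Subgroup T := fun i => D.map (Pi.evalMonoidHom (fun _ : Fin m => T) i)
    have hR : ∀ i, R i ≠ ⊤ := by
      intro i htop
      obtain ⟨k, hk, hik⟩ := htrans i₀ i
      obtain ⟨f, hf, hft⟩ := (htop ▸ Subgroup.mem_top ((b k i₀).symm t₀) : (b k i₀).symm t₀ ∈ R i)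
      refine hi₀ (φ k f) (hφD k hk f hf) ?_
      rw [hφ, hik]
      rw [Pi.evalMonoidHom_apply] at hft
      rw [hft, MulEquiv.apply_symm_apply]
    let X : Subgroup (Fin m → T) := Subgroup.pi Set.univ R
    have hDX : D ≤ X := fun f hf i _ => ⟨f, hf, rfl⟩
    have hXi : ∀ k ∈ K, ∀ f ∈ X, φ k f ∈ X := by
      intro k hk f hf i _
      obtain ⟨d, hd, hdv⟩ := hf (π k i) (Set.mem_univ _)
      refine ⟨φ k d, hφD k hk d hd, ?_⟩
      rw [Pi.evalMonoidHom_apply, hφ, hφ]
      rw [Pi.evalMonoidHom_apply] at hdv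
      rw [hdv]
    rcases hmax X hDX hXi with h | h
    · refine ⟨T, instT, m, e, hsimple, hTnab, hm, Or.inl ⟨R, hR, fun n => ?_⟩⟩
      rw [← hDmem, ← h]
      exact ⟨fun hx i => hx i (Set.mem_univ i), fun hx i _ => hx i⟩
    · exfalso
      refine hR i₀ (eq_top_iff.mpr fun t _ => ?_)
      have : (fun _ => t) ∈ X := h ▸ Subgroup.mem_top _
      exact this i₀ (Set.mem_univ _)

end Cfsg.Agent.S0723
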