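import Cfsg.Statements.S0724
import Mathlib.Algebra.Polynomial.Eval.Degree
import Mathlib.Algebra.Polynomial.Eval.Algebra
import Mathlib.Algebra.Polynomial.BigOperators
import Mathlib.GroupTheory.GroupAction.Quotient
import Mathlib.Tactic


set_option autoImplicit false
open Cfsg

namespace Cfsg.Agent.S0724

/-- Blichfeldt's Theorem: if a finite set `L` of natural numbers contains the number of fixed points of every non-identity element of a permutation group `G` of degree `n`, then the order of `G` divides `∏ (n - l)` over `l ∈ L`. -/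
theorem result {α : Type*} [Fintype α] [DecidableEq α] (G : Subgroup (Equiv.Perm α)) (L : Finset ℕ) (hL : ∀ g ∈ G, g ≠ 1 → Nat.card (MulAction.fixedBy α g) ∈ L) : Nat.card G ∣ ∏ l ∈ L, (Fintype.card α - l) := by
  classical
  rcases Classical.em (∃ l ∈ L, Fintype.card α ≤ l) with ⟨l, hl, hle⟩ | hlt
  · rw [Finset.prod_eq_zero hl (by omega)]
    exact dvd_zero _
  push Not at hlt
  let π : G → ℤ := fun g => (Nat.card (MulAction.fixedBy α g) : ℤ)
  have hpow : ∀ j : ℕ, (Nat.card G : ℤ) ∣ ∑ g : G, π g ^ j := by
    intro j
    have h := MulAction.sum_card_fixedBy_eq_card_orbits_mul_card_group G (Fin j → α)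
    have hfix : ∀ g : G, (π g) ^ j = (Fintype.card (MulAction.fixedBy (Fin j → α) g) : ℤ) := by
      intro g
      have e : MulAction.fixedBy (Fin j → α) g ≃ (Fin j → MulAction.fixedBy α g) :=
        { toFun := fun f i => ⟨f.1 i, congrFun f.2 i⟩
          invFun := fun f => ⟨fun i => (f i).1, funext fun i => (f i).2⟩
          left_inv := fun f => rfl
          right_inv := fun f => rfl }
      rw [Fintype.card_congr e]
      simp [π, Nat.card_eq_fintype_card]
    simp only [hfix]
    rw [← Nat.cast_sum, h, Nat.cast_mul, Nat.card_eq_fintype_card]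
    exact dvd_mul_left _ _
  let P : Polynomial ℤ := ∏ l ∈ L, (Polynomial.X - Polynomial.C (l : ℤ))
  have hsum : (Nat.card G : ℤ) ∣ ∑ g : G, P.eval (π g) := by
    simp only [Polynomial.eval_eq_sum_range]
    rw [Finset.sum_comm]
    refine Finset.dvd_sum fun j _ => ?_
    rw [← Finset.mul_sum]
    exact Dvd.dvd.mul_left (hpow j) _
  have hone : ∑ g : G, P.eval (π g) = ((∏ l ∈ L, (Fintype.card α - l) : ℕ) : ℤ) := by
    rw [Finset.sum_eq_single (1 : G)]
    · have : π 1 = (Fintype.card α : ℤ) := by simp [π, Nat.card_eq_fintype_card]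
      rw [this, Polynomial.eval_prod, Nat.cast_prod]
      refine Finset.prod_congr rfl fun l hl => ?_
      simp [Nat.cast_sub (hlt l hl).le]
    · intro g _ hg
      have hmem := hL g g.2 (fun h => hg (Subtype.ext h))
      rw [Polynomial.eval_prod]
      refine Finset.prod_eq_zero hmem ?_
      have hfb : Nat.card (MulAction.fixedBy α (g : Equiv.Perm α)) = Nat.card (MulAction.fixedBy α g) :=
        Nat.card_congr (Equiv.refl _)
      simp only [π, Polynomial.eval_sub, Polynomial.eval_X, Polynomial.eval_C, hfb, sub_self]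
    · simp
  rw [hone] at hsum
  exact_mod_cast hsum

end Cfsg.Agent.S0724
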