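import Cfsg.Statements.S0726


set_option autoImplicit false
open Cfsg

namespace Cfsg.Agent.S0726

/-- The left and right regular permutation representations of a group are each other's centralisers in the symmetric group: the centraliser of the left regular image is the right regular image, and a transitive subgroup centralising the left regular image is the whole right regular image. -/
theorem result {G : Type*} [Group G] : Subgroup.centralizer ((MulAction.toPermHom G G).range : Set (Equiv.Perm G)) = (MulAction.toPermHom Gᵐᵒᵖ G).range ∧ ∀ H : Subgroup (Equiv.Perm G), H ≤ Subgroup.centralizer ((MulAction.toPermHom G G).range : Set (Equiv.Perm G)) → MulAction.IsPretransitive H G → H = (MulAction.toPermHom Gᵐᵒᵖ G).range := by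
  have key : Subgroup.centralizer ((MulAction.toPermHom G G).range : Set (Equiv.Perm G)) =
      (MulAction.toPermHom Gᵐᵒᵖ G).range := by
    ext σ
    rw [Subgroup.mem_centralizer_iff]
    constructor
    · intro hσ
      refine ⟨MulOpposite.op (σ 1), Equiv.ext fun x => ?_⟩
      have := Equiv.Perm.ext_iff.mp (hσ (MulAction.toPermHom G G x) ⟨x, rfl⟩) 1
      simp at this
      simp [← this]
    · rintro ⟨r, rfl⟩ _ ⟨g, rfl⟩
      ext x
      simp [mul_assoc]
  refine ⟨key, fun H hH hpre => le_antisymm (key ▸ hH) ?_⟩
  rintro _ ⟨r, rfl⟩
  obtain ⟨h, hh⟩ := MulAction.exists_smul_eq H (1 : G) r.unop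
  obtain ⟨r', hr'⟩ := (key ▸ hH) h.2
  have : r'.unop = r.unop := by
    have h1 := Equiv.Perm.ext_iff.mp hr' (1 : G)
    change (h : Equiv.Perm G) 1 = r.unop at hh
    rw [hh] at h1
    simpa using h1
  rw [← MulOpposite.unop_injective this, hr']
  exact h.2

end Cfsg.Agent.S0726
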