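import Cfsg.Statements.S0727
import Cfsg.Agent.Lib.AltGroups.SharplyThreeTransitive

set_option autoImplicit false
open Cfsg

namespace Cfsg.Agent.S0727

/-- A sharply triply transitive permutation group of degree `2^f + 1` is isomorphic to the projective general linear group of degree 2 over the field with `2^f` elements. -/
theorem result {α : Type*} [Fintype α] [DecidableEq α] {f : ℕ} (hf : 1 ≤ f) (hα : Fintype.card α = 2 ^ f + 1) (G : Subgroup (Equiv.Perm α)) (h3 : MulAction.IsMultiplyPretransitive G α 3) (hsharp : ∀ x : Fin 3 ↪ α, MulAction.stabilizer G x = ⊥) : ∃ (F : Type) (_ : Field F) (_ : Fintype F), Fintype.card F = 2 ^ f ∧ Nonempty (G ≃* Matrix.ProjGenLinGroup (Fin 2) F) := by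
  classical
  have h : ∀ a b c a' b' c' : α, a ≠ b → b ≠ c → a ≠ c → a' ≠ b' → b' ≠ c' → a' ≠ c' →
      ∃! g : G, g • a = a' ∧ g • b = b' ∧ g • c = c' := by
    intro a b c a' b' c' h1 h2 h3' h4 h5 h6
    let u : Fin 3 ↪ α := ⟨![a, b, c], fun i j hij => by
      fin_cases i <;> fin_cases j <;> simp_all [Ne.symm h1, Ne.symm h2, Ne.symm h3']⟩
    let u' : Fin 3 ↪ α := ⟨![a', b', c'], fun i j hij => by
      fin_cases i <;> fin_cases j <;> simp_all [Ne.symm h4, Ne.symm h5, Ne.symm h6]⟩
    obtain ⟨g, hg⟩ := MulAction.exists_smul_eq G u u'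
    refine ⟨g, ⟨DFunLike.congr_fun hg 0, DFunLike.congr_fun hg 1, DFunLike.congr_fun hg 2⟩, fun g' hg' => ?_⟩
    have : g⁻¹ * g' ∈ MulAction.stabilizer G u := by
      rw [MulAction.mem_stabilizer_iff, mul_smul, inv_smul_eq_iff]
      refine Function.Embedding.ext fun i => ?_
      fin_cases i
      · exact hg'.1.trans (DFunLike.congr_fun hg 0).symm
      · exact hg'.2.1.trans (DFunLike.congr_fun hg 1).symm
      · exact hg'.2.2.trans (DFunLike.congr_fun hg 2).symm
    rw [hsharp, Subgroup.mem_bot, inv_mul_eq_one] at this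
    exact this.symm
  have hpos : 2 ∣ 2 ^ f := dvd_pow_self 2 (by omega)
  have hodd : Odd (Fintype.card α) := by rw [hα, Nat.odd_iff]; omega
  have h2le : 2 ≤ 2 ^ f := Nat.le_of_dvd (by positivity) hpos
  obtain ⟨K, hK, hKf, hc, hiso⟩ :=
    CfsgLib.AltGroups.sharply_three_transitive_odd_degree (G := G) (Ω := α) h hodd (by omega)
  exact ⟨K, hK, hKf, by omega, hiso⟩

end Cfsg.Agent.S0727
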