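import Cfsg.Statements.S0730
import Cfsg.Agent.Lib.AltGroups.ZassenhausOddDimension
import Cfsg.Agent.Lib.PermGroups.SharplyKernel

set_option autoImplicit false
open Cfsg

namespace Cfsg.Agent.S0730

open MulAction

/-- The kernel of a point stabiliser in a sharply triply transitive group. -/
theorem exists_kernel {G α : Type*} [Group G] [Finite G] [MulAction G α] [FaithfulSMul G α] [Fintype α]
    (h3 : IsMultiplyPretransitive G α 3)
    (hfix : ∀ g : G, ∀ a b c : α, a ≠ b → b ≠ c → a ≠ c → g • a = a → g • b = b → g • c = c → g = 1)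
    (h4 : 4 ≤ Fintype.card α) (x : α) :
    ∃ (r : ℕ) (F : Subgroup G), r.Prime ∧ (∃ j, Fintype.card α = r ^ j + 1) ∧ F ≤ stabilizer G x ∧
      (F.subgroupOf (stabilizer G x)).Normal ∧ IsMulCommutative F ∧ (∀ u ∈ F, u ^ r = 1) ∧
      ∀ y z : α, y ≠ x → z ≠ x → ∃! u : F, (u : G) • y = z := by
  classical
  set S := stabilizer G x with hS
  let X := SubMulAction.ofStabilizer G x
  have hX : Nat.card X = Fintype.card α - 1 := by
    rw [SubMulAction.nat_card_ofStabilizer_eq, Nat.card_eq_fintype_card]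
  haveI : IsPretransitive G α := by
    haveI := h3
    haveI : IsMultiplyPretransitive G α 2 := isMultiplyPretransitive_of_le (n := 3) (by norm_num)
      (by rw [Nat.card_eq_fintype_card]; omega)
    exact isPretransitive_of_is_two_pretransitive (G := G) (α := α)
  haveI : IsMultiplyPretransitive S X 2 :=
    (SubMulAction.ofStabilizer.isMultiplyPretransitive (n := 2)).mp h3
  have hne : ∀ y : X, (y : α) ≠ x := fun y => SubMulAction.neq_of_mem_ofStabilizer G x
  have htwo : ∀ g : S, ∀ a b : X, a ≠ b → g • a = a → g • b = b → g = 1 := fun g a b hab ha hb =>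
    Subtype.ext (hfix g x a b (hne a).symm (fun h => hab (Subtype.ext h)) (hne b).symm g.2
      (congrArg Subtype.val ha) (congrArg Subtype.val hb))
  haveI : FaithfulSMul S X := by
    obtain ⟨a, b, hab⟩ : ∃ a b : X, a ≠ b := by
      haveI : Nontrivial X := Finite.one_lt_card_iff_nontrivial.mp (by omega)
      exact exists_pair_ne X
    refine ⟨fun {g g'} h => ?_⟩
    refine (inv_mul_eq_one.mp (htwo (g'⁻¹ * g) a b hab ?_ ?_)).symm <;>
      rw [mul_smul, h, inv_smul_smul]
  obtain ⟨r, j, hr, -, hj, K, hKn, hKc, hKp, hKt, hKr, -, -⟩ :=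
    CfsgLib.PermGroups.sharply_two_transitive_kernel (G := S) (α := X) (fun t => by
      refine (Subgroup.eq_bot_iff_forall _).mpr fun g hg => ?_
      have h := fun i => DFunLike.congr_fun (mem_stabilizer_iff.mp hg) i
      exact htwo g (t 0) (t 1) (t.injective.ne (by decide)) (h 0) (h 1)) (by omega)
  refine ⟨r, K.map S.subtype, hr, ⟨j, by omega⟩, Subgroup.map_subtype_le _, ?_, ?_, ?_, ?_⟩
  · rw [Subgroup.subgroupOf, Subgroup.comap_map_eq_self_of_injective S.subtype_injective]
    exact hKn
  · haveI := hKc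
    exact Subgroup.map_isMulCommutative K S.subtype
  · rintro _ ⟨u, hu, rfl⟩
    rw [← map_pow, hKp u hu, map_one]
  · intro y z hy hz
    obtain ⟨k, hk⟩ := exists_smul_eq K (⟨y, hy⟩ : X) (⟨z, hz⟩ : X)
    refine ⟨⟨_, ⟨(k : S), k.2, rfl⟩⟩, congrArg Subtype.val hk, ?_⟩
    rintro ⟨_, u, hu, rfl⟩ h
    have h1 : (⟨u, hu⟩ : K) • (⟨y, hy⟩ : X) = k • (⟨y, hy⟩ : X) := (Subtype.ext h).trans hk.symm
    have h2 : k⁻¹ * ⟨u, hu⟩ ∈ stabilizer K (⟨y, hy⟩ : X) := by
      rw [mem_stabilizer_iff, mul_smul, h1, inv_smul_smul]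
    rw [hKr, Subgroup.mem_bot] at h2
    exact Subtype.ext (congrArg (fun w : K => ((w : S) : G)) (inv_mul_eq_one.mp h2).symm)

/-- A sharply triply transitive group of degree `p^f + 1`, `p` an odd prime and `f` odd, is isomorphic to the projective general linear group of degree 2 over the field with `p^f` elements (for even `f` there is a second, twisted, group). -/
theorem result {α : Type*} [Fintype α] [DecidableEq α] {p f : ℕ} (hp : p.Prime) (hp2 : p ≠ 2) (hfo : Odd f) (hα : Fintype.card α = p ^ f + 1) (G : Subgroup (Equiv.Perm α)) (h3 : MulAction.IsMultiplyPretransitive G α 3) (hsharp : ∀ x : Fin 3 ↪ α, MulAction.stabilizer G x = ⊥) : ∃ (F : Type) (_ : Field F) (_ : Fintype F), Fintype.card F = p ^ f ∧ Nonempty (G ≃* Matrix.ProjGenLinGroup (Fin 2) F) := by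
  classical
  haveI : FaithfulSMul G α := ⟨fun h => Subtype.ext (Equiv.ext h)⟩
  have hq : 3 ≤ p ^ f := le_trans (by have := hp.two_le; omega) (Nat.le_self_pow hfo.pos.ne' p)
  have hfix : ∀ g : G, ∀ a b c : α, a ≠ b → b ≠ c → a ≠ c → g • a = a → g • b = b → g • c = c → g = 1 := by
    intro g a b c hab hbc hac ha hb hc
    let t : Fin 3 ↪ α := ⟨![a, b, c], fun i j hij => by
      fin_cases i <;> fin_cases j <;> simp_all [Ne.symm hab, Ne.symm hbc, Ne.symm hac]⟩
    have : g ∈ MulAction.stabilizer G t := by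
      refine Function.Embedding.ext fun i => ?_
      fin_cases i
      · exact ha
      · exact hb
      · exact hc
    rwa [hsharp, Subgroup.mem_bot] at this
  haveI : Nonempty α := Fintype.card_pos_iff.mp (by omega)
  obtain ⟨x, o, hox⟩ : ∃ x o : α, o ≠ x := by
    obtain ⟨x⟩ : Nonempty α := inferInstance
    exact ⟨x, Fintype.exists_ne_of_one_lt_card (by omega) x⟩
  obtain ⟨r, F, hr, ⟨j, hj⟩, hFle, hFn, hFab, hFp, hreg⟩ := exists_kernel h3 hfix (by omega) x
  obtain rfl : r = p := by
    have h1 : r ∣ p ^ f := by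
      rcases Nat.eq_zero_or_pos j with h | h
      · rw [h, pow_zero, hα] at hj; omega
      · rw [hα, Nat.add_right_cancel_iff] at hj
        exact hj ▸ dvd_pow_self r h.ne'
    exact (Nat.prime_dvd_prime_iff_eq hr hp).mp (hr.dvd_of_dvd_pow h1)
  obtain ⟨A, iA, C, hCi, hCo, hCτ⟩ := CfsgLib.AltGroups.exists_zcoord hox F hFle hFn hFab hreg
  have hA : Nat.card A = r ^ f := by
    have := C.card_eq_finite
    rw [Nat.card_eq_fintype_card (α := α), hα] at this
    omega
  have hGcard : Nat.card G = r ^ f * ((r ^ f) ^ 2 - 1) := by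
    haveI : MulAction.IsPretransitive G (Fin 3 ↪ α) := h3
    obtain ⟨t₀⟩ : Nonempty (Fin 3 ↪ α) := Function.Embedding.nonempty_of_card_le (by rw [Fintype.card_fin]; omega)
    have h := (MulAction.stabilizer G t₀).index_mul_card
    rw [MulAction.index_stabilizer, hsharp, Subgroup.card_bot, mul_one] at h
    replace h : Nat.card (Fin 3 ↪ α) = Nat.card G :=
      ((congrArg Set.ncard (Set.eq_univ_of_forall fun u => h3.exists_smul_eq t₀ u)).trans
        (Set.ncard_univ _)).symm.trans h
    rw [Nat.card_eq_fintype_card, Fintype.card_embedding_eq, Fintype.card_fin, hα] at h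
    rw [← h]
    simp only [Nat.descFactorial_succ, Nat.descFactorial_zero]
    obtain ⟨m, hm⟩ : ∃ m, r ^ f = m + 1 := ⟨r ^ f - 1, by omega⟩
    rw [hm, show (m + 1) ^ 2 - 1 = m * (m + 2) from Nat.sub_eq_of_eq_add (by ring),
      show m + 1 + 1 - 2 = m by omega, show m + 1 + 1 - 1 = m + 1 by omega, Nat.sub_zero]
    ring
  refine CfsgLib.AltGroups.pgl_of_odd_dim hp hp2 hfo C hA ?_ ?_ hfix h3 hGcard
  · intro a
    have hcop : ∀ n : ℕ, C.τ (n • a) = C.τ a ^ n := fun n => by
      induction n with
      | zero => rw [zero_smul, C.τ_zero, pow_zero]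
      | succ n ih => rw [succ_nsmul, C.τ_add, ih, pow_succ]
    exact C.τ_injective (by rw [hcop, hFp _ ((hCτ _).mpr ⟨a, rfl⟩), C.τ_zero])
  · haveI := h3
    haveI : MulAction.IsMultiplyPretransitive G α 2 := MulAction.isMultiplyPretransitive_of_le (n := 3) (by norm_num)
      (by rw [Nat.card_eq_fintype_card]; omega)
    haveI := MulAction.isPretransitive_of_is_two_pretransitive (G := G) (α := α)
    have h1 := C.H.index_mul_card
    have hfix' : ∀ c : α, c ≠ C.inf → c ≠ C.o → ∀ h : C.H, (h : G) • c = c → h = 1 := fun c hc1 hc2 h hh =>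
      Subtype.ext (hfix h C.inf C.o c C.o_ne.symm hc2.symm hc1.symm (C.smul_inf h.2) (C.smul_o h.2) hh)
    have hidx : C.H.index = (r ^ f + 1) * r ^ f := by
      have hS : (MulAction.stabilizer G C.inf).index = r ^ f + 1 := by
        rw [MulAction.index_stabilizer_of_transitive, Nat.card_eq_fintype_card, hα]
      have hrel : C.H.relIndex (MulAction.stabilizer G C.inf) = r ^ f := by
        let o' : SubMulAction.ofStabilizer G C.inf := ⟨C.o, C.o_ne⟩
        haveI : MulAction.IsPretransitive (MulAction.stabilizer G C.inf) (SubMulAction.ofStabilizer G C.inf) :=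
          MulAction.is_one_pretransitive_iff.mp
            ((SubMulAction.ofStabilizer.isMultiplyPretransitive (n := 1)).mp inferInstance)
        have e : C.H.subgroupOf (MulAction.stabilizer G C.inf) =
            MulAction.stabilizer (MulAction.stabilizer G C.inf) o' := by
          ext g
          exact ⟨fun h => Subtype.ext h.2, fun h => ⟨g.2, congrArg Subtype.val h⟩⟩
        rw [Subgroup.relIndex, e, MulAction.index_stabilizer_of_transitive,
          SubMulAction.nat_card_ofStabilizer_eq, Nat.card_eq_fintype_card, hα, Nat.add_sub_cancel]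
      rw [← Subgroup.relIndex_mul_index (show C.H ≤ MulAction.stabilizer G C.inf from inf_le_left), hrel, hS,
        mul_comm]
    rw [hidx, hGcard] at h1
    have e : r ^ f * ((r ^ f) ^ 2 - 1) = (r ^ f + 1) * r ^ f * (r ^ f - 1) := by
      rw [show (r ^ f) ^ 2 - 1 = (r ^ f + 1) * (r ^ f - 1) by simpa using Nat.sq_sub_sq (r ^ f) 1]; ring
    rw [e] at h1
    exact Nat.eq_of_mul_eq_mul_left (Nat.mul_pos (Nat.succ_pos _) (by omega)) h1

end Cfsg.Agent.S0730
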