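import Cfsg.Statements.S0733
import Mathlib.Algebra.Group.Pointwise.Set.Card
import Mathlib.GroupTheory.GroupAction.Pointwise
import Mathlib.Tactic

set_option autoImplicit false
open Cfsg

namespace Cfsg.Agent.S0733
open scoped Pointwise

/-- A permutation group of affine type — generated by the translations of a finite vector space `V` over `ZMod p` together with a group `G₀` of linear automorphisms — is primitive on `V` if and only if `G₀` is irreducible on `V`. -/
theorem result {p : ℕ} [Fact p.Prime] {V : Type*} [AddCommGroup V] [Module (ZMod p) V] [Finite V] [Nontrivial V] (G₀ : Subgroup (V ≃ₗ[ZMod p] V)) (G : Subgroup (Equiv.Perm V)) (hG : ∀ σ : Equiv.Perm V, σ ∈ G ↔ ∃ g ∈ G₀, ∃ b : V, ∀ x : V, σ x = (g : V ≃ₗ[ZMod p] V) x + b) : MulAction.IsPreprimitive G V ↔ ∀ W : Submodule (ZMod p) V, (∀ g ∈ G₀, ∀ v ∈ W, (g : V ≃ₗ[ZMod p] V) v ∈ W) → W = ⊥ ∨ W = ⊤ := by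
  have htr : ∀ v : V, Equiv.addRight v ∈ G := fun v =>
    (hG _).mpr ⟨1, G₀.one_mem, v, fun x => by simp⟩
  have hlin : ∀ g ∈ G₀, (g : V ≃ₗ[ZMod p] V).toEquiv ∈ G := fun g hg =>
    (hG _).mpr ⟨g, hg, 0, fun x => by simp⟩
  haveI hpre : MulAction.IsPretransitive G V :=
    ⟨fun x y => ⟨⟨_, htr (y - x)⟩, show x + (y - x) = y by simp⟩⟩
  constructor
  · intro hp W hW
    have hB : MulAction.IsBlock G (W : Set V) := by
      rw [MulAction.isBlock_iff_smul_eq_of_nonempty]
      rintro ⟨σ, hσ⟩ ⟨z, ⟨w, hw, hz⟩, hzW⟩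
      obtain ⟨g, hg, b, hb⟩ := (hG σ).mp hσ
      change σ w = z at hz
      subst hz
      rw [SetLike.mem_coe, hb] at hzW
      have hbW : b ∈ W := (W.add_mem_iff_right (hW g hg w hw)).mp hzW
      refine Set.eq_of_subset_of_ncard_le ?_ ?_ (Set.toFinite _)
      · rintro _ ⟨u, hu, rfl⟩
        change σ u ∈ W
        rw [hb]
        exact W.add_mem (hW g hg u hu) hbW
      · rw [Set.ncard_smul_set]
    rcases hp.isTrivialBlock_of_isBlock hB with h | h
    · exact Or.inl ((Submodule.eq_bot_iff W).mpr fun x hx => h hx W.zero_mem)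
    · exact Or.inr (SetLike.coe_injective (by simpa using h))
  · intro hirr
    refine MulAction.IsPreprimitive.of_isTrivialBlock_base (0 : V) fun {B} h0 hB => ?_
    have hinv : ∀ σ : G, (σ : Equiv.Perm V) 0 ∈ B → ∀ x ∈ B, (σ : Equiv.Perm V) x ∈ B := by
      intro σ h x hx
      have := MulAction.isBlock_iff_smul_eq_of_mem.mp hB (g := σ) h0 h
      exact this ▸ Set.smul_mem_smul_set hx
    let A : AddSubgroup V :=
      { carrier := B
        zero_mem' := h0
        add_mem' := fun {x y} hx hy => hinv ⟨_, htr y⟩ (by simpa using hy) x hx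
        neg_mem' := fun {x} hx => by
          have := MulAction.isBlock_iff_smul_eq_of_mem.mp hB (g := ⟨_, htr (-x)⟩) hx
            (show x + -x ∈ B by simpa using h0)
          exact this ▸ ⟨0, h0, show (0 : V) + -x = -x by simp⟩ }
    let W : Submodule (ZMod p) V :=
      { A with
        smul_mem' := fun c x hx => by
          obtain ⟨n, rfl⟩ := ZMod.natCast_zmod_surjective (n := p) c
          rw [Nat.cast_smul_eq_nsmul]
          exact A.nsmul_mem hx n }
    rcases hirr W (fun g hg v hv => hinv ⟨_, hlin g hg⟩ (by simpa using h0) v hv) with h | h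
    · left
      intro x hx y hy
      have hx' : x ∈ W := hx
      have hy' : y ∈ W := hy
      rw [h, Submodule.mem_bot] at hx' hy'
      rw [hx', hy']
    · exact Or.inr (Set.eq_univ_iff_forall.mpr fun x => (h ▸ Submodule.mem_top : x ∈ W))

end Cfsg.Agent.S0733
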