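import Cfsg.Statements.S0734


set_option autoImplicit false
open Cfsg

namespace Cfsg.Agent.S0734
open scoped Pointwise

/-- Higman's criterion for primitivity: a transitive action on a finite set is primitive if and only if every non-trivial orbital graph (edges = images of a fixed pair of distinct points) is connected. -/
theorem result {G : Type*} [Group G] {Ω : Type*} [Finite Ω] [MulAction G Ω] [MulAction.IsPretransitive G Ω] [Nontrivial Ω] : MulAction.IsPreprimitive G Ω ↔ ∀ a b : Ω, a ≠ b → (SimpleGraph.fromRel fun x y : Ω => ∃ g : G, g • a = x ∧ g • b = y).Connected := by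
  constructor
  · intro hp a b hab
    set Γ := SimpleGraph.fromRel fun x y : Ω => ∃ g : G, g • a = x ∧ g • b = y with hΓ
    have hadj : ∀ (g : G) (x y : Ω), Γ.Adj x y → Γ.Adj (g • x) (g • y) := by
      intro g x y hxy
      simp only [hΓ, SimpleGraph.fromRel_adj] at hxy ⊢
      refine ⟨fun h => hxy.1 (MulAction.injective g h), ?_⟩
      rcases hxy.2 with ⟨k, h1, h2⟩ | ⟨k, h1, h2⟩
      · exact Or.inl ⟨g * k, by rw [mul_smul, h1], by rw [mul_smul, h2]⟩
      · exact Or.inr ⟨g * k, by rw [mul_smul, h1], by rw [mul_smul, h2]⟩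
    let f : G → Γ →g Γ := fun g => ⟨fun x => g • x, fun h => hadj g _ _ h⟩
    have hB : MulAction.IsBlock G {x | Γ.Reachable a x} := by
      rw [MulAction.isBlock_iff_smul_eq_of_nonempty]
      rintro g ⟨z, ⟨w, hw, rfl⟩, hz⟩
      have hga : Γ.Reachable a (g • a) := (show Γ.Reachable a (g • w) from hz).trans ((SimpleGraph.Reachable.map (f g) hw).symm)
      ext x
      constructor
      · rintro ⟨u, hu, rfl⟩
        exact hga.trans (SimpleGraph.Reachable.map (f g) hu)
      · intro hx
        refine ⟨g⁻¹ • x, ?_, smul_inv_smul g x⟩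
        have := SimpleGraph.Reachable.map (f g⁻¹) (hga.symm.trans hx)
        simpa [f] using this
    rcases hp.isTrivialBlock_of_isBlock hB with h | h
    · refine absurd (h ?_ ?_) hab
      · exact SimpleGraph.Reachable.refl a
      · exact SimpleGraph.Adj.reachable (by simp only [hΓ, SimpleGraph.fromRel_adj]; exact ⟨hab, Or.inl ⟨1, by simp⟩⟩)
    · have : ∀ x, Γ.Reachable a x := fun x => (Set.eq_univ_iff_forall.mp h) x
      have : Nonempty Ω := ⟨a⟩
      exact ⟨fun x y => (‹∀ x, Γ.Reachable a x› x).symm.trans (‹∀ x, Γ.Reachable a x› y)⟩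
  · intro hc
    refine MulAction.IsPreprimitive.mk fun {B} hB => ?_
    rcases B.subsingleton_or_nontrivial with h | ⟨a, ha, b, hb, hab⟩
    · exact Or.inl h
    · right
      obtain ⟨hconn⟩ := hc a b hab
      refine Set.eq_univ_iff_forall.mpr fun x => ?_
      obtain ⟨w⟩ := hconn a x
      have key : ∀ u v : Ω, (SimpleGraph.fromRel fun x y : Ω => ∃ g : G, g • a = x ∧ g • b = y).Walk u v → u ∈ B → v ∈ B := by
        intro u v p
        induction p with
        | nil => exact id
        | @cons u v w hadj _ ih =>
          intro hu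
          apply ih
          rw [SimpleGraph.fromRel_adj] at hadj
          rcases hadj.2 with ⟨g, h1, h2⟩ | ⟨g, h1, h2⟩
          · have : g • B = B := MulAction.isBlock_iff_smul_eq_of_mem.mp hB ha (h1 ▸ hu)
            rw [← this, ← h2]
            exact Set.smul_mem_smul_set hb
          · have : g • B = B := MulAction.isBlock_iff_smul_eq_of_mem.mp hB hb (h2 ▸ hu)
            rw [← this, ← h1]
            exact Set.smul_mem_smul_set ha
      exact key a x w ha

end Cfsg.Agent.S0734
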