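import Cfsg.Statements.S0735
import Mathlib.GroupTheory.Perm.Cycle.Type
import Mathlib.GroupTheory.GroupAction.Primitive
import Mathlib.Tactic

set_option autoImplicit false
open Cfsg

namespace Cfsg.Agent.S0735
open scoped Pointwise

/-- A 2-homogeneous permutation group (transitive on 2-subsets) of even order is doubly transitive; a non-trivial 2-homogeneous group is primitive. -/
theorem result {α : Type*} [Fintype α] [DecidableEq α] (G : Subgroup (Equiv.Perm α)) (h2 : MulAction.IsPretransitive G (Set.powersetCard α 2)) (hα : 3 ≤ Fintype.card α) : (Even (Nat.card G) → MulAction.IsMultiplyPretransitive G α 2) ∧ (G ≠ ⊥ → MulAction.IsPreprimitive G α) := by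
  classical
  have hmove : ∀ a b c d : α, a ≠ b → c ≠ d →
      ∃ g : G, (g • a = c ∧ g • b = d) ∨ (g • a = d ∧ g • b = c) := by
    intro a b c d hab hcd
    let u : Set.powersetCard α 2 := ⟨{a, b}, by rw [Set.powersetCard.mem_iff, Finset.card_pair hab]⟩
    let v : Set.powersetCard α 2 := ⟨{c, d}, by rw [Set.powersetCard.mem_iff, Finset.card_pair hcd]⟩
    obtain ⟨g, hg⟩ := MulAction.exists_smul_eq G u v
    have hg' : ({g • a, g • b} : Finset α) = {c, d} := by
      have := congrArg Subtype.val hg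
      change g • ({a, b} : Finset α) = {c, d} at this
      simpa [Finset.smul_finset_insert, Finset.smul_finset_singleton] using this
    refine ⟨g, ?_⟩
    have hne : g • a ≠ g • b := fun h => hab (MulAction.injective g h)
    have h1 : g • a = c ∨ g • a = d := by
      have : g • a ∈ ({c, d} : Finset α) := hg' ▸ Finset.mem_insert_self _ _
      simpa using this
    have h2 : g • b = c ∨ g • b = d := by
      have : g • b ∈ ({c, d} : Finset α) := hg' ▸ Finset.mem_insert_of_mem (Finset.mem_singleton_self _)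
      simpa using this
    rcases h1 with h1 | h1 <;> rcases h2 with h2 | h2
    · exact absurd (h1.trans h2.symm) hne
    · exact Or.inl ⟨h1, h2⟩
    · exact Or.inr ⟨h1, h2⟩
    · exact absurd (h1.trans h2.symm) hne
  refine ⟨fun heven => ?_, fun hne => ?_⟩
  · obtain ⟨t, ht⟩ := exists_prime_orderOf_dvd_card' (G := G) 2 (even_iff_two_dvd.mp heven)
    have ht2 : t * t = 1 := by
      have := pow_orderOf_eq_one t
      rwa [ht, pow_two] at this
    obtain ⟨x, hx⟩ : ∃ x : α, t • x ≠ x := by
      by_contra h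
      push Not at h
      have : t = 1 := Subtype.ext (Equiv.ext fun x => h x)
      simp [this] at ht
    rw [MulAction.is_two_pretransitive_iff]
    intro a b c d hab hcd
    obtain ⟨g, hg⟩ := hmove a b x (t • x) hab (Ne.symm hx)
    obtain ⟨f, hf⟩ := hmove c d x (t • x) hcd (Ne.symm hx)
    have htt : t • (t • x) = x := by rw [smul_smul, ht2, one_smul]
    rcases hg with ⟨g1, g2⟩ | ⟨g1, g2⟩ <;> rcases hf with ⟨f1, f2⟩ | ⟨f1, f2⟩
    · exact ⟨f⁻¹ * g, by rw [mul_smul, g1, ← f1, inv_smul_smul], by rw [mul_smul, g2, ← f2, inv_smul_smul]⟩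
    · exact ⟨f⁻¹ * t * g, by rw [mul_smul, mul_smul, g1, ← f1, inv_smul_smul],
        by rw [mul_smul, mul_smul, g2, htt, ← f2, inv_smul_smul]⟩
    · exact ⟨f⁻¹ * t * g, by rw [mul_smul, mul_smul, g1, htt, ← f1, inv_smul_smul],
        by rw [mul_smul, mul_smul, g2, ← f2, inv_smul_smul]⟩
    · exact ⟨f⁻¹ * g, by rw [mul_smul, g1, ← f1, inv_smul_smul], by rw [mul_smul, g2, ← f2, inv_smul_smul]⟩
  · obtain ⟨t, x, hx⟩ : ∃ (t : G) (x : α), t • x ≠ x := by
      by_contra h
      push Not at h
      exact hne ((Subgroup.eq_bot_iff_forall _).mpr fun σ hσ => Equiv.ext fun x => h ⟨σ, hσ⟩ x)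
    have hall : ∀ y : α, y ∈ MulAction.orbit G x := by
      intro y
      by_cases hy : y = x
      · rw [hy]; exact MulAction.mem_orbit_self x
      · obtain ⟨g, hg | hg⟩ := hmove x (t • x) x y (Ne.symm hx) (Ne.symm hy)
        · exact ⟨g * t, by simpa [mul_smul] using hg.2⟩
        · exact ⟨g, hg.1⟩
    haveI : MulAction.IsPretransitive G α := ⟨fun a b => by
      obtain ⟨g, hg⟩ := hall a
      obtain ⟨f, hf⟩ := hall b
      exact ⟨f * g⁻¹, by simp only at hg hf; rw [mul_smul, ← hg, inv_smul_smul, hf]⟩⟩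
    refine MulAction.IsPreprimitive.mk fun {B} hB => ?_
    rcases B.subsingleton_or_nontrivial with h | ⟨a, ha, b, hb, hab⟩
    · exact Or.inl h
    · refine Or.inr (Set.eq_univ_iff_forall.mpr fun c => ?_)
      by_cases hc : c = a
      · exact hc ▸ ha
      · obtain ⟨g, hg | hg⟩ := hmove a b a c hab (Ne.symm hc)
        · rw [← MulAction.isBlock_iff_smul_eq_of_mem.mp hB (g := g) ha (hg.1.symm ▸ ha), ← hg.2]
          exact Set.smul_mem_smul_set hb
        · rw [← MulAction.isBlock_iff_smul_eq_of_mem.mp hB (g := g) hb (hg.2.symm ▸ ha), ← hg.1]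
          exact Set.smul_mem_smul_set ha

end Cfsg.Agent.S0735
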