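import Cfsg.Statements.S0739
import Cfsg.Agent.Lib.AltGroups.ZassenhausTransfer
import Cfsg.Agent.Lib.AltGroups.ZassenhausBasic
import Cfsg.Agent.Lib.RealChar.ZassenhausBasic
import Cfsg.Agent.Lib.Frobenius.Kernel
import Cfsg.Agent.Lib.Cores.FPF

set_option autoImplicit false
open Cfsg

namespace Cfsg.Agent.S0739

open MulAction

/-- The two-point stabiliser of odd order is a Z-group of order prime to its index. -/
theorem zgroup_and_coprime {G Ω : Type*} [Group G] [Finite G] [MulAction G Ω] [Fintype Ω]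
    (hZ : Cfsg.IsZassenhausGroup G Ω) {a b : Ω} (hab : a ≠ b)
    (hodd : Odd (Nat.card ↥(stabilizer G a ⊓ stabilizer G b))) :
    IsZGroup ↥(stabilizer G a ⊓ stabilizer G b) ∧
      Nat.Coprime (Nat.card ↥(stabilizer G a ⊓ stabilizer G b)) (stabilizer G a ⊓ stabilizer G b).index := by
  classical
  set H := stabilizer G a ⊓ stabilizer G b with hH
  set S := stabilizer G a with hS
  set H' : Subgroup S := H.subgroupOf S with hH'
  have hle : H ≤ S := inf_le_left
  have hmem : ∀ x : S, x ∈ H' ↔ (x : G) • b = b := fun x =>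
    ⟨fun h => (Subgroup.mem_subgroupOf.mp h).2, fun h => Subgroup.mem_subgroupOf.mpr ⟨x.2, h⟩⟩
  have hF : Cfsg.IsFrobeniusComplement H' := by
    refine ⟨?_, ?_, fun g hg => ?_⟩
    · intro h
      obtain ⟨x, hx, hxa, hxb⟩ := CfsgLib.RealChar.Zassenhaus.exists_ne_one_fix hZ hab
      have : (⟨x, hxa⟩ : S) ∈ H' := (hmem _).mpr hxb
      rw [h, Subgroup.mem_bot] at this
      exact hx (congrArg Subtype.val this)
    · intro h
      obtain ⟨c, hca, hcb⟩ := CfsgLib.RealChar.Zassenhaus.exists_third hZ a b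
      obtain ⟨g, hga, hgb⟩ := CfsgLib.RealChar.Zassenhaus.two_trans hZ hab hca.symm
      have : (⟨g, hga⟩ : S) ∈ H' := h ▸ Subgroup.mem_top _
      exact hcb (hgb.symm.trans ((hmem _).mp this))
    · rw [Subgroup.eq_bot_iff_forall]
      intro x hx
      obtain ⟨hx1, hx2⟩ := Subgroup.mem_inf.mp hx
      rw [CfsgLib.Frobenius.mem_conj_smul, hmem] at hx2
      have hgb : (g : G) • b ≠ b := fun e => hg ((hmem g).mpr e)
      have hga : (g : G) • b ≠ a := fun e => hab.symm (MulAction.injective (g : G) (e.trans g.2.symm))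
      have hfix : (x : G) • ((g : G) • b) = (g : G) • b := by
        have := congrArg ((g : G) • ·) hx2
        simpa [smul_smul, mul_assoc] using this
      exact Subtype.ext (CfsgLib.RealChar.Zassenhaus.three_fixed hZ hab hgb.symm hga.symm x.2
        ((hmem x).mp hx1) hfix)
  have hcardH' : Nat.card H' = Nat.card H := Nat.card_congr (Subgroup.subgroupOfEquivOfLe hle).toEquiv
  obtain ⟨N, -, hN, hc⟩ := CfsgLib.Frobenius.exists_kernel hF
  have hNbot : N ≠ ⊥ := fun h => by
    have h1 := CfsgLib.Frobenius.one_lt_index hF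
    rw [hc.index_eq_card, h, Subgroup.card_bot] at h1
    exact lt_irrefl _ h1
  have hfpf : ∀ h ∈ H', h ≠ 1 → N ⊓ Subgroup.centralizer ({h} : Set S) = ⊥ := fun h hh h1 =>
    le_bot_iff.1 ((inf_le_inf_left N (CfsgLib.Frobenius.centralizer_le hF hh h1)).trans
      hc.disjoint.eq_bot.le)
  have hZ' : IsZGroup H' := by
    refine ⟨fun p hp P => ?_⟩
    haveI := Fact.mk hp
    let R : Subgroup S := (P : Subgroup H').map H'.subtype
    have hRH : R ≤ H' := Subgroup.map_subtype_le _
    rcases CfsgLib.Cores.isCyclic_or_quaternion_of_fpf (P.2.map H'.subtype) hNbot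
      (by rw [Subgroup.normalizer_eq_top N]; exact le_top) (fun x hx => hfpf x (hRH hx)) with h | ⟨rfl, m, hm, ⟨e⟩⟩
    · exact ((P : Subgroup H').equivMapOfInjective H'.subtype H'.subtype_injective).isCyclic.2 h
    · exfalso
      have h1 : Nat.card R ∣ Nat.card H' := Subgroup.card_dvd_of_le hRH
      rw [Nat.card_congr e.toEquiv, Nat.card_eq_fintype_card, QuaternionGroup.card, hcardH'] at h1
      exact (Nat.not_even_iff_odd.mpr hodd) (even_iff_two_dvd.mpr ((Dvd.intro (2 * 2 ^ m) (by ring)).trans h1))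
  haveI := hZ'
  refine ⟨IsZGroup.of_injective (f := (Subgroup.subgroupOfEquivOfLe hle).symm.toMonoidHom)
    (Subgroup.subgroupOfEquivOfLe hle).symm.injective, ?_⟩
  have hn3 := CfsgLib.RealChar.Zassenhaus.three_le_card hZ
  have hidx : H.index = Fintype.card Ω * (Fintype.card Ω - 1) := by
    have h := H.index_mul_card
    rw [CfsgLib.RealChar.Zassenhaus.card_group hZ hab, ← mul_assoc] at h
    exact Nat.eq_of_mul_eq_mul_right Nat.card_pos h
  have hidx' : H'.index = Fintype.card Ω - 1 := by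
    have h := H'.index_mul_card
    rw [hcardH', CfsgLib.RealChar.Zassenhaus.card_stab hZ hab] at h
    exact Nat.eq_of_mul_eq_mul_right Nat.card_pos h
  have hcop := CfsgLib.Frobenius.coprime_card_index hF
  rw [hcardH', hidx'] at hcop
  rw [hidx]
  refine Nat.Coprime.mul_right (Nat.coprime_of_dvd fun q hq h1 h2 => ?_) hcop
  have hmod := CfsgLib.Frobenius.index_modEq_one hF
  rw [hcardH', hidx'] at hmod
  have h3 : q ∣ Fintype.card Ω - 1 - 1 := h1.trans ((Nat.modEq_iff_dvd' (by omega)).mp hmod.symm)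
  have h4 : q ∣ 2 := by
    have h5 := Nat.dvd_sub h2 h3
    rwa [show Fintype.card Ω - (Fintype.card Ω - 1 - 1) = 2 by omega] at h5
  rw [(Nat.prime_dvd_prime_iff_eq hq Nat.prime_two).mp h4] at h1
  exact (Nat.not_even_iff_odd.mpr hodd) (even_iff_two_dvd.mpr h1)

/-- In a finite Zassenhaus group whose two-point stabiliser `H = G_{a,b}` has odd order `d`, and which has no normal `q`-complement for any prime `q ∣ d`, `H` is cyclic, `C_G(H) = H`, and every element swapping `a` and `b` inverts each element of `H`. -/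
theorem result {G Ω : Type*} [Group G] [Finite G] [MulAction G Ω] [Fintype Ω] (hZ : Cfsg.IsZassenhausGroup G Ω) {a b : Ω} (hab : a ≠ b) (hodd : Odd (Nat.card ↥(MulAction.stabilizer G a ⊓ MulAction.stabilizer G b))) (hnil : ∀ q : ℕ, q.Prime → q ∣ Nat.card ↥(MulAction.stabilizer G a ⊓ MulAction.stabilizer G b) → ¬ ∃ N : Subgroup G, N.Normal ∧ N.index = q ^ (Nat.card G).factorization q) : IsCyclic ↥(MulAction.stabilizer G a ⊓ MulAction.stabilizer G b) ∧ Subgroup.centralizer ((MulAction.stabilizer G a ⊓ MulAction.stabilizer G b : Subgroup G) : Set G) = MulAction.stabilizer G a ⊓ MulAction.stabilizer G b ∧ ∀ s : G, s • a = b → s • b = a → ∀ h ∈ MulAction.stabilizer G a ⊓ MulAction.stabilizer G b, s * h * s⁻¹ = h⁻¹ := by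
  classical
  obtain ⟨hzg, hcop⟩ := zgroup_and_coprime hZ hab hodd
  obtain ⟨s₀, hs2, hsa, hsb⟩ := CfsgLib.AltGroups.IsZassenhaus.exists_involution_swap hZ hab
  set H := MulAction.stabilizer G a ⊓ MulAction.stabilizer G b with hH
  have hss : s₀ * s₀ = 1 := by rw [← pow_two, ← hs2, pow_orderOf_eq_one]
  have hsinv : s₀⁻¹ = s₀ := inv_eq_of_mul_eq_one_right hss
  have hinv : ∀ h ∈ H, s₀ * h * s₀ = h⁻¹ := by
    rcases CfsgLib.AltGroups.complement_or_inverted hab hZ.2.2.1 H (fun g => Iff.rfl) hodd hzg hcop hss hsa hsb with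
      ⟨q, hq, hqd, hM⟩ | h
    · exact absurd hM (hnil q hq hqd)
    · exact h
  have hcomm : ∀ h ∈ H, ∀ k ∈ H, h * k = k * h := by
    intro h hh k hk
    have h1 := hinv _ (H.mul_mem hh hk)
    rw [mul_inv_rev, ← hinv h hh, ← hinv k hk] at h1
    have h2 : s₀ * (h * k) * s₀ = s₀ * (k * h) * s₀ := by
      rw [h1]
      calc s₀ * k * s₀ * (s₀ * h * s₀) = s₀ * k * (s₀ * s₀) * h * s₀ := by group
        _ = _ := by rw [hss]; group
    exact mul_left_cancel (mul_right_cancel h2)
  haveI : IsMulCommutative H := ⟨⟨fun x y => Subtype.ext (hcomm x x.2 y y.2)⟩⟩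
  haveI := hzg
  haveI : Group.IsNilpotent H := by
    letI : CommGroup H := { (inferInstance : Group H) with mul_comm := fun x y => Subtype.ext (hcomm x x.2 y y.2) }
    exact CommGroup.isNilpotent
  refine ⟨inferInstance, le_antisymm ?_ ?_, ?_⟩
  · intro g hg
    rw [Subgroup.mem_centralizer_iff] at hg
    obtain ⟨h, hh1, hha, hhb⟩ := CfsgLib.RealChar.Zassenhaus.exists_ne_one_fix hZ hab
    have hhH : h ∈ H := ⟨hha, hhb⟩
    have hfix : ∀ p, h • p = p → p = a ∨ p = b := by
      intro p hp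
      by_contra hcon
      push Not at hcon
      exact hh1 (CfsgLib.RealChar.Zassenhaus.three_fixed hZ hab hcon.2.symm hcon.1.symm hha hhb hp)
    have hga : g • a = a ∨ g • a = b := hfix _ (by rw [smul_smul, hg h hhH, mul_smul, hha])
    have hgb : g • b = a ∨ g • b = b := hfix _ (by rw [smul_smul, hg h hhH, mul_smul, hhb])
    rcases hga with h1 | h1
    · exact ⟨h1, hgb.resolve_left fun e => hab (MulAction.injective g (h1.trans e.symm))⟩
    · exfalso
      have h2 : g • b = a := hgb.resolve_right fun e => hab (MulAction.injective g (h1.trans e.symm))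
      have hk : s₀ * g ∈ H := ⟨by
        show (s₀ * g) • a = a
        rw [mul_smul, h1, hsb], by
        show (s₀ * g) • b = b
        rw [mul_smul, h2, hsa]⟩
      have e1 : g * h * g⁻¹ = h := by rw [← hg h hhH, mul_inv_cancel_right]
      have e2 : g * h * g⁻¹ = h⁻¹ := by
        have : g = s₀ * (s₀ * g) := by rw [← mul_assoc, hss, one_mul]
        rw [this]
        calc s₀ * (s₀ * g) * h * (s₀ * (s₀ * g))⁻¹ = s₀ * ((s₀ * g) * h * (s₀ * g)⁻¹) * s₀⁻¹ := by group
          _ = _ := by rw [hcomm _ hk h hhH, mul_inv_cancel_right, hsinv, hinv h hhH]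
      have h3 : h * h = 1 := mul_eq_one_iff_eq_inv.mpr (e1.symm.trans e2)
      have h4 : orderOf (⟨h, hhH⟩ : H) = 2 :=
        orderOf_eq_prime (Subtype.ext (by rw [pow_two]; exact h3)) fun e => hh1 (congrArg Subtype.val e)
      exact (Nat.not_even_iff_odd.mpr hodd) (even_iff_two_dvd.mpr (h4 ▸ orderOf_dvd_natCard _))
  · intro g hg
    rw [Subgroup.mem_centralizer_iff]
    exact fun h hh => hcomm h hh g hg
  · intro s h1 h2 h hh
    have hk : s₀ * s ∈ H := ⟨by
      show (s₀ * s) • a = a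
      rw [mul_smul, h1, hsb], by
      show (s₀ * s) • b = b
      rw [mul_smul, h2, hsa]⟩
    have : s = s₀ * (s₀ * s) := by rw [← mul_assoc, hss, one_mul]
    rw [this]
    calc s₀ * (s₀ * s) * h * (s₀ * (s₀ * s))⁻¹ = s₀ * ((s₀ * s) * h * (s₀ * s)⁻¹) * s₀⁻¹ := by group
      _ = _ := by rw [hcomm _ hk h hh, mul_inv_cancel_right, hsinv, hinv h hh]

end Cfsg.Agent.S0739
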