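import Cfsg.Statements.S0740
import Cfsg.Agent.Lib.AltGroups.ZassenhausBasic

set_option autoImplicit false
open Cfsg

namespace Cfsg.Agent.S0740

/-- In a finite Zassenhaus group any two points `a ≠ b` are swapped by an involution; every such involution has exactly one fixed point when the degree is odd and 0 or 2 fixed points when the degree is even; and if the two-point stabiliser has even order, some such involution has exactly 2 fixed points. -/
theorem result {G Ω : Type*} [Group G] [Finite G] [MulAction G Ω] [Fintype Ω] (hZ : Cfsg.IsZassenhausGroup G Ω) {a b : Ω} (hab : a ≠ b) : (∃ s : G, orderOf s = 2 ∧ s • a = b ∧ s • b = a) ∧ (∀ s : G, orderOf s = 2 → s • a = b → s • b = a → (Odd (Fintype.card Ω) → Nat.card (MulAction.fixedBy Ω s) = 1) ∧ (Even (Fintype.card Ω) → Nat.card (MulAction.fixedBy Ω s) = 0 ∨ Nat.card (MulAction.fixedBy Ω s) = 2)) ∧ (Even (Fintype.card Ω) → Even (Nat.card ↥(MulAction.stabilizer G a ⊓ MulAction.stabilizer G b)) → ∃ s : G, orderOf s = 2 ∧ s • a = b ∧ s • b = a ∧ Nat.card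 (MulAction.fixedBy Ω s) = 2) := by
  classical
  refine ⟨CfsgLib.AltGroups.IsZassenhaus.exists_involution_swap hZ hab, fun s hs _ _ => ?_, fun hev hH => ?_⟩
  · have hs1 : s ≠ 1 := fun h => by simp [h] at hs
    have h2 := CfsgLib.AltGroups.IsZassenhaus.fixed_le_two hZ hs1
    have hp := CfsgLib.AltGroups.IsZassenhaus.fixed_parity hZ hs
    constructor
    · intro h
      rw [Nat.odd_iff] at h
      omega
    · intro h
      rw [Nat.even_iff] at h
      omega
  · haveI : Fact (Nat.Prime 2) := ⟨Nat.prime_two⟩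
    obtain ⟨h, hh⟩ := exists_prime_orderOf_dvd_card'
      (G := ↥(MulAction.stabilizer G a ⊓ MulAction.stabilizer G b)) 2 (even_iff_two_dvd.mp hH)
    set z : G := h.1 with hz
    have hz2 : orderOf z = 2 := by rw [hz, Subgroup.orderOf_coe, hh]
    have hz1 : z ≠ 1 := fun h => by simp [h] at hz2
    have hza : z • a = a := (Subgroup.mem_inf.mp h.2).1
    have hzb : z • b = b := (Subgroup.mem_inf.mp h.2).2
    have hfix : Nat.card (MulAction.fixedBy Ω z) = 2 := by
      refine le_antisymm (CfsgLib.AltGroups.IsZassenhaus.fixed_le_two hZ hz1) ?_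
      rw [Nat.card_coe_set_eq, ← Set.ncard_pair hab]
      refine Set.ncard_le_ncard ?_ (Set.toFinite _)
      rintro u (rfl | rfl)
      · exact hza
      · exact hzb
    obtain ⟨c, hca, hcb⟩ := CfsgLib.AltGroups.IsZassenhaus.exists_third hZ (a := a) (b := b)
    have hzc : z • c ≠ c := fun hc => hz1
      (CfsgLib.AltGroups.IsZassenhaus.eq_one_of_fix hZ hab (Ne.symm hca) (Ne.symm hcb) hza hzb hc)
    obtain ⟨g, hg1, hg2⟩ := CfsgLib.AltGroups.IsZassenhaus.move hZ (Ne.symm hzc) hab
    have hzz : z • z • c = c := by rw [smul_smul, ← pow_two, ← hz2, pow_orderOf_eq_one, one_smul]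
    refine ⟨g * z * g⁻¹, ?_, ?_, ?_, ?_⟩
    · rw [← hz2]
      exact orderOf_injective (MulAut.conj g).toMonoidHom (MulAut.conj g).injective z
    · rw [mul_smul, mul_smul, ← hg1, inv_smul_smul, hg2]
    · rw [mul_smul, mul_smul, ← hg2, inv_smul_smul, hzz, hg1]
    · rw [← hfix]
      refine Nat.card_congr ((MulAction.toPerm g⁻¹).subtypeEquiv fun x => ?_)
      simp [MulAction.mem_fixedBy, mul_smul, ← eq_inv_smul_iff]

end Cfsg.Agent.S0740
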