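import Cfsg.Statements.S0744
import Mathlib.Tactic
import Mathlib.GroupTheory.GroupAction.Quotient
import Cfsg.Agent.Lib.AltGroups.MultiTrans

set_option autoImplicit false
open Cfsg

namespace Cfsg.Agent.S0744

theorem dvd_card_of_stabilizer {K : Type*} [Group K] [Finite K] {β : Type*} [MulAction K β]
    [Finite β] {m r : ℕ} (hK : Nat.card K = m * r)
    (h : ∀ z : β, Nat.card (MulAction.stabilizer K z) = m) : r ∣ Nat.card β := by
  classical
  haveI := Fintype.ofFinite β
  haveI := Fintype.ofFinite K
  have horb : ∀ z : β, Nat.card (MulAction.orbit K z) = r := by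
    intro z
    have h1 := MulAction.card_orbit_mul_card_stabilizer_eq_card_group K z
    simp only [← Nat.card_eq_fintype_card] at h1
    rw [h z, hK, Nat.mul_comm m r] at h1
    have hm : 0 < m := h z ▸ Nat.card_pos
    exact Nat.eq_of_mul_eq_mul_right hm h1
  rw [Nat.card_congr (MulAction.selfEquivSigmaOrbits K β), Nat.card_sigma]
  exact Finset.dvd_sum fun q _ => by rw [horb]

theorem card_stabilizer_fixing {α : Type*} [DecidableEq α] {G : Subgroup (Equiv.Perm α)}
    (t : Finset α) (z : α) :
    Nat.card (MulAction.stabilizer (fixingSubgroup G (t : Set α)) z) =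
      Nat.card (fixingSubgroup G ((insert z t : Finset α) : Set α)) :=
  Nat.card_congr
    { toFun := fun g => ⟨g.1.1, (mem_fixingSubgroup_iff G).mpr fun w hw => by
        rcases Finset.mem_insert.mp hw with rfl | hw
        · exact g.2
        · exact (mem_fixingSubgroup_iff G).mp g.1.2 w hw⟩
      invFun := fun g => ⟨⟨g.1, (mem_fixingSubgroup_iff G).mpr fun w hw =>
          (mem_fixingSubgroup_iff G).mp g.2 w (Finset.mem_insert_of_mem hw)⟩,
        (mem_fixingSubgroup_iff G).mp g.2 z (Finset.mem_insert_self z t)⟩
      left_inv := fun g => rfl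
      right_inv := fun g => rfl }

/-- If for some `k > 1` the pointwise stabilisers of all `(k-1)`-subsets have the same order `> 1` and those of all `k`-subsets have the same order, then the group is `(k-1)`-transitive. -/
theorem result {α : Type*} [Fintype α] [DecidableEq α] (G : Subgroup (Equiv.Perm α)) {k : ℕ} (hk : 1 < k) (hkn : k ≤ Fintype.card α) (l m : ℕ) (hl : 1 < l) (hkm1 : ∀ s : Finset α, s.card = k - 1 → Nat.card (fixingSubgroup G (s : Set α)) = l) (hkm : ∀ s : Finset α, s.card = k → Nat.card (fixingSubgroup G (s : Set α)) = m) : MulAction.IsMultiplyPretransitive G α (k - 1) := by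
  classical
  apply CfsgLib.AltGroups.isMultiplyPretransitive_of_fixingSubgroup
  suffices H : ∀ d j : ℕ, j + d = k - 2 → ∀ s : Finset α, s.card = j → ∀ x y : α, x ∉ s → y ∉ s →
      ∃ g ∈ fixingSubgroup G (s : Set α), g • x = y by
    intro s hs
    exact H (k - 2 - s.card) s.card (by omega) s rfl
  intro d
  induction d with
  | zero =>
    intro j hj s hs x y hx hy
    set K := fixingSubgroup G (s : Set α) with hKdef
    set O : Set α := MulAction.orbit K x with hO
    have hOs : ∀ z ∈ O, z ∉ s := by
      rintro _ ⟨g, rfl⟩ hz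
      have := (mem_fixingSubgroup_iff G).mp (K.inv_mem g.2) _ hz
      change (g : G)⁻¹ • ((g : G) • x) = (g : G) • x at this
      rw [inv_smul_smul] at this
      change (g : G) • x ∈ s at hz
      rw [← this] at hz
      exact hx hz
    set K' := fixingSubgroup G ((insert x s : Finset α) : Set α) with hK'
    have hxs : (insert x s).card = k - 1 := by rw [Finset.card_insert_of_notMem hx]; omega
    have hl' : Nat.card K' = l := hkm1 _ hxs
    have hst : ∀ z, z ∉ insert x s → Nat.card (MulAction.stabilizer K' z) = m := by
      intro z hz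
      rw [card_stabilizer_fixing]
      exact hkm _ (by rw [Finset.card_insert_of_notMem hz]; omega)
    obtain ⟨w, hw⟩ : ∃ w, w ∉ insert x s := by
      by_contra h
      push Not at h
      have : Fintype.card α ≤ (insert x s).card := Finset.card_le_card (fun z _ => h z)
      omega
    have hml : m ∣ l := by
      rw [← hl', ← hst w hw]
      exact Subgroup.card_subgroup_dvd_card _
    obtain ⟨r, hr⟩ := hml
    have hdvd : ∀ A : SubMulAction K' α, (∀ z ∈ A, z ∉ insert x s) → r ∣ Nat.card A := by
      intro A hA
      refine dvd_card_of_stabilizer (K := K') (by rw [hl', hr]) fun z => ?_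
      have : MulAction.stabilizer K' z = MulAction.stabilizer K' (z : α) := by
        ext g
        simp only [MulAction.mem_stabilizer_iff, Subtype.ext_iff, SetLike.val_smul]
      rw [this]
      exact hst _ (hA z z.2)
    have hr1 : r ≠ 1 := by
      rintro rfl
      have htriv : K' = ⊥ := by
        rw [Subgroup.eq_bot_iff_forall]
        intro g hg
        refine Subtype.ext (Equiv.ext fun z => ?_)
        by_cases hz : z ∈ insert x s
        · exact (mem_fixingSubgroup_iff G).mp hg z hz
        · have h1 := Subgroup.eq_top_of_card_eq _ ((hst z hz).trans (by rw [hl', hr, Nat.mul_one]))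
          exact (show (⟨g, hg⟩ : K') ∈ MulAction.stabilizer K' z by rw [h1]; trivial)
      rw [htriv, Subgroup.card_bot] at hl'
      omega
    by_contra hne
    push Not at hne
    have hK'K : ∀ g : K', (g : G) ∈ K := fun g => (mem_fixingSubgroup_iff G).mpr fun z hz =>
      (mem_fixingSubgroup_iff G).mp g.2 z (Finset.mem_insert_of_mem hz)
    have horbdvd : ∀ z, z ∉ s → z ∉ O → r ∣ Nat.card (MulAction.orbit K z) := by
      intro z hz hzO
      refine hdvd { carrier := MulAction.orbit K z, smul_mem' := fun g u hu => ?_ } fun u hu hu' => ?_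
      · obtain ⟨f, rfl⟩ := hu
        exact ⟨⟨g, hK'K g⟩ * f, mul_smul _ _ _⟩
      · obtain ⟨f, rfl⟩ := hu
        rcases Finset.mem_insert.mp hu' with h | h
        · exact hzO ⟨f⁻¹, by change f⁻¹ • x = z; rw [← h]; exact inv_smul_smul f z⟩
        · have := (mem_fixingSubgroup_iff G).mp (K.inv_mem f.2) _ h
          change (f : G)⁻¹ • ((f : G) • z) = (f : G) • z at this
          rw [inv_smul_smul] at this
          change (f : G) • z ∈ s at h
          rw [← this] at h
          exact hz h
    have hL : ∀ z, z ∉ s → Nat.card (MulAction.orbit K z) * l = Nat.card K := by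
      intro z hz
      have := MulAction.card_orbit_mul_card_stabilizer_eq_card_group K z
      simp only [← Nat.card_eq_fintype_card] at this
      rwa [card_stabilizer_fixing, hkm1 _ (by rw [Finset.card_insert_of_notMem hz]; omega)] at this
    have hyO : y ∉ O := fun ⟨g, hg⟩ => hne g g.2 hg
    have hrdvd : r ∣ Nat.card O := by
      have := horbdvd y hy hyO
      rwa [Nat.eq_of_mul_eq_mul_right (by omega : 0 < l) ((hL y hy).trans (hL x hx).symm)] at this
    have hr' : r ∣ Nat.card (O \ {x} : Set α) := by
      refine hdvd { carrier := O \ {x}, smul_mem' := fun g u hu => ?_ } fun u hu hu' => ?_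
      · obtain ⟨⟨f, rfl⟩, hne'⟩ := hu
        refine ⟨⟨⟨g, hK'K g⟩ * f, mul_smul _ _ _⟩, fun h => hne' ?_⟩
        have hgx : g • x = x := (mem_fixingSubgroup_iff G).mp g.2 x (Finset.mem_insert_self x s)
        exact MulAction.injective g (Eq.trans h hgx.symm)
      · rcases Finset.mem_insert.mp hu' with h | h
        · exact hu.2 h
        · exact hOs u hu.1 h
    rw [Nat.card_coe_set_eq] at hrdvd
    rw [Nat.card_coe_set_eq, Set.ncard_sdiff_singleton_of_mem (MulAction.mem_orbit_self x)] at hr'
    have hpos : 0 < O.ncard := by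
      rw [Set.ncard_pos]
      exact ⟨x, MulAction.mem_orbit_self x⟩
    have h1 : r ∣ 1 := by
      have := Nat.dvd_sub hrdvd hr'
      rwa [show O.ncard - (O.ncard - 1) = 1 by omega] at this
    exact hr1 (Nat.dvd_one.mp h1)
  | succ d ih =>
    intro j hj s hs x y hx hy
    by_cases hxy : x = y
    · exact ⟨1, Subgroup.one_mem _, by simp [hxy]⟩
    obtain ⟨z, hz⟩ : ∃ z, z ∉ insert x (insert y s) := by
      by_contra h
      push Not at h
      have h1 : Fintype.card α ≤ (insert x (insert y s)).card := Finset.card_le_card (fun z _ => h z)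
      rw [Finset.card_insert_of_notMem (by simp [hxy, hx]), Finset.card_insert_of_notMem hy] at h1
      omega
    simp only [Finset.mem_insert, not_or] at hz
    have hc : (insert z s).card = j + 1 := by rw [Finset.card_insert_of_notMem hz.2.2, hs]
    obtain ⟨g, hg, hgx⟩ := ih (j + 1) (by omega) (insert z s) hc x y
      (by simp [hx, Ne.symm hz.1]) (by simp [hy, Ne.symm hz.2.1])
    exact ⟨g, (mem_fixingSubgroup_iff G).mpr fun w hw =>
      (mem_fixingSubgroup_iff G).mp hg w (Finset.mem_insert_of_mem hw), hgx⟩

end Cfsg.Agent.S0744
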