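import Cfsg.Statements.S0745
import Cfsg.Agent.Lib.AltGroups.HomogeneousTools
import Cfsg.Agent.Lib.AltGroups.FixFewClassification
import Cfsg.Agent.S0744

set_option autoImplicit false
open Cfsg

namespace Cfsg.Agent.S0745

open MulAction CfsgLib.AltGroups.MT

theorem arith4 : ∀ d ∈ (24 : ℕ).divisors, ∀ y ∈ (6 : ℕ).divisors, 2 ≤ y → y * d ∣ 24 → y ∣ d + 1 →
    (d, (d + 1) / y) ∈ [(1, 1), (3, 2), (2, 1), (8, 3)] := by decide

theorem arith5 : ∀ d ∈ (120 : ℕ).divisors, ∀ y ∈ (24 : ℕ).divisors, 2 ≤ y → y * d ∣ 120 → y ∣ d + 1 →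
    (d, (d + 1) / y) ∈
      [(1, 1), (3, 2), (5, 3), (15, 8), (2, 1), (5, 2), (8, 3), (20, 7), (3, 1), (15, 4), (5, 1), (15, 2)] := by
  decide +kernel

/-- No sharply 3-transitive group has degree seven. -/
theorem false_seven {α : Type*} [Fintype α] [DecidableEq α] (G : Subgroup (Equiv.Perm α))
    (h3 : IsMultiplyPretransitive G α 3) (hfix : FixFew G α 3) (hn : Fintype.card α = 7)
    (hG : Nat.card G = 210) : False := by
  haveI := h3
  have hsharp : ∀ g : G, ∀ s : Finset α, s.card = 3 → (∀ a ∈ s, g • a = a) → g = 1 := by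
    intro g s hs hg
    have h2 := card_eq_descFactorial_mul h3 s hs
    rw [hG, hn, show (7 : ℕ).descFactorial 3 = 210 from rfl, eq_comm, mul_eq_left₀ (by norm_num),
      Subgroup.card_eq_one, Subgroup.eq_bot_iff_forall] at h2
    exact h2 g ((mem_fixingSubgroup_iff G).mpr fun a ha => hg a ha)
  obtain ⟨S, -, hS⟩ := Finset.exists_subset_card_eq (s := (Finset.univ : Finset α)) (n := 3)
    (by rw [Finset.card_univ]; omega)
  obtain ⟨a, b, c, hab, hac, hbc, rfl⟩ := Finset.card_eq_three.mp hS
  obtain ⟨z, hz⟩ := CfsgLib.AltGroups.exists_smul_eqOn (G := G) (α := α) (k := 3)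
    (by rw [Nat.card_eq_fintype_card]; omega) {a, b, c} hS.le (Equiv.swap b c) (Equiv.injective _).injOn
  have za : z • a = a := (hz a (by simp)).trans (Equiv.swap_apply_of_ne_of_ne hab hac)
  have zb : z • b = c := (hz b (by simp)).trans (Equiv.swap_apply_left b c)
  have zc : z • c = b := (hz c (by simp)).trans (Equiv.swap_apply_right b c)
  have hzz : z * z = 1 := by
    refine hsharp _ {a, b, c} hS fun e he => ?_
    simp only [Finset.mem_insert, Finset.mem_singleton] at he
    rcases he with rfl | rfl | rfl <;> simp [mul_smul, za, zb, zc]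
  have hz1 : z ≠ 1 := fun e => hbc (by rw [← zb, e, one_smul])
  set F := Finset.univ.filter fun e : α => z • e = e with hF
  have haF : a ∈ F := by simp [hF, za]
  have hpar : Fintype.card α % 2 = F.card % 2 :=
    card_modEq_fixed (fun e : α => z • e) (fun e => by rw [smul_smul, hzz, one_smul])
  have hF1 : F.card = 1 := by
    have hle : F.card < 3 := by
      by_contra hh
      obtain ⟨s, hs, hsc⟩ := Finset.exists_subset_card_eq (not_lt.mp hh)
      exact hz1 (hsharp z s hsc fun e he => (Finset.mem_filter.mp (hs he)).2)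
    rw [hn] at hpar
    omega
  have hord : orderOf (z : Equiv.Perm α) = 2 := by
    rw [Subgroup.orderOf_coe]
    exact orderOf_eq_prime (by rw [pow_two]; exact hzz) hz1
  have hsz : Equiv.Perm.sign (z : Equiv.Perm α) = -1 := by
    obtain ⟨m, hm⟩ := Equiv.Perm.cycleType_prime_order (σ := (z : Equiv.Perm α)) (by rw [hord]; norm_num)
    rw [hord] at hm
    have hsupp : (z : Equiv.Perm α).support = Finset.univ \ F := by
      ext e
      simp only [hF, Equiv.Perm.mem_support, Finset.mem_sdiff, Finset.mem_univ, true_and, Finset.mem_filter]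
      rfl
    have h1 := Equiv.Perm.sum_cycleType (z : Equiv.Perm α)
    rw [hm, Multiset.sum_replicate, smul_eq_mul, hsupp,
      Finset.card_sdiff_of_subset (Finset.subset_univ _), Finset.card_univ, hF1, hn] at h1
    rw [Equiv.Perm.sign_of_cycleType, hm, Multiset.sum_replicate, Multiset.card_replicate,
      show m + 1 = 3 by omega]
    rfl
  haveI : IsPretransitive G α := by
    rw [← is_one_pretransitive_iff]
    exact isMultiplyPretransitive_of_le (n := 3) (by omega) (by rw [Nat.card_eq_fintype_card]; omega)
  have h30 : Nat.card (stabilizer G a) = 30 := by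
    have h1 := (stabilizer G a).index_mul_card
    rw [index_stabilizer_of_transitive, hG, Nat.card_eq_fintype_card (α := α), hn] at h1
    omega
  let sg : stabilizer G a →* ℤˣ := Equiv.Perm.sign.comp (G.subtype.comp (stabilizer G a).subtype)
  have hi : sg.ker.index = 2 := by
    rw [Subgroup.index_ker, MonoidHom.range_eq_top.mpr fun ε => ?_, Subgroup.card_top, Nat.card_eq_fintype_card]
    · rfl
    rcases Int.units_eq_one_or ε with rfl | rfl
    exacts [⟨1, map_one _⟩, ⟨⟨z, za⟩, hsz⟩]
  have h15 : Nat.card sg.ker = 15 := by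
    have h1 := sg.ker.index_mul_card
    rw [hi, h30] at h1
    omega
  exact false_of_sylow (K := sg.ker) (β := α) (p := 5) (b := 40) (k := 15) (by norm_num) (by omega) h15
    (by norm_num) (by rw [hn]; rfl) (by decide)


/-- Let `G` have degree `n` and `3 ≤ k ≤ n`; suppose `G` is `(k-2)`-transitive but not `(k-1)`-transitive, and is `(k-1)`-homogeneous and `k`-homogeneous. Then `k = n` and `G` is the alternating group, or `n = 5, k = 4, |G| = 20`, or `n = 6, k = 5, |G| = 120`, or `n = 9, k = 5, |G| ∈ {504, 1512}`. -/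
theorem result {α : Type*} [Fintype α] [DecidableEq α] (G : Subgroup (Equiv.Perm α)) {k : ℕ} (hk : 3 ≤ k) (hkn : k ≤ Fintype.card α) (ht : MulAction.IsMultiplyPretransitive G α (k - 2)) (hnt : ¬ MulAction.IsMultiplyPretransitive G α (k - 1)) (hh1 : MulAction.IsPretransitive G (Set.powersetCard α (k - 1))) (hh : MulAction.IsPretransitive G (Set.powersetCard α k)) : (k = Fintype.card α ∧ G = alternatingGroup α) ∨ (Fintype.card α = 5 ∧ k = 4 ∧ Nat.card G = 20) ∨ (Fintype.card α = 6 ∧ k = 5 ∧ Nat.card G = 120) ∨ (Fintype.card α = 9 ∧ k = 5 ∧ (Nat.card G = 504 ∨ Nat.card G = 1512)) := by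
  classical
  haveI := ht
  -- only the identity fixes `k - 1` points
  obtain ⟨s₁, -, hs₁⟩ := Finset.exists_subset_card_eq (s := (Finset.univ : Finset α)) (n := k - 1)
    (by rw [Finset.card_univ]; omega)
  obtain ⟨s₂, -, hs₂⟩ := Finset.exists_subset_card_eq (s := (Finset.univ : Finset α)) (n := k)
    (by rw [Finset.card_univ]; omega)
  have hl : Nat.card (fixingSubgroup G (s₁ : Set α)) = 1 := by
    by_contra hne
    refine hnt (Cfsg.Agent.S0744.result G (by omega) hkn _ _ ?_ (fun s hs => card_fixing_homog hh1 s s₁ hs hs₁)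
      (fun s hs => card_fixing_homog hh s s₂ hs hs₂))
    have : 0 < Nat.card (fixingSubgroup G (s₁ : Set α)) := Nat.card_pos
    omega
  have hfix : FixFew G α (k - 2) := by
    intro g s hs hg
    obtain ⟨s', hs', hs'c⟩ := Finset.exists_subset_card_eq (show k - 1 ≤ s.card by omega)
    have h1 := card_fixing_homog hh1 s' s₁ hs'c hs₁
    rw [hl, Subgroup.card_eq_one, Subgroup.eq_bot_iff_forall] at h1
    exact h1 g ((mem_fixingSubgroup_iff G).mpr fun a ha => hg a (hs' ha))
  obtain ⟨B, -, hB⟩ := Finset.exists_subset_card_eq (s := (Finset.univ : Finset α)) (n := k - 2)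
    (by rw [Finset.card_univ]; omega)
  obtain ⟨x, hx⟩ : ∃ x, Nat.card (fixingSubgroup G (B : Set α)) = x := ⟨_, rfl⟩
  have hx0 : 0 < x := hx ▸ Nat.card_pos
  obtain ⟨y, hy⟩ := dvd_of_fixFew' hfix B hB
  rw [hx] at hy
  have hG := card_eq_descFactorial_mul ht B hB
  rw [hx] at hG
  obtain ⟨n, hn⟩ : ∃ n, Fintype.card α = n := ⟨_, rfl⟩
  rw [hn] at hy hG hkn
  have hD : n.descFactorial (k - 1) = (n - (k - 2)) * n.descFactorial (k - 2) := by
    rw [show k - 1 = k - 2 + 1 by omega, Nat.descFactorial_succ]
  have hD' : n.descFactorial k = (n - (k - 1)) * ((n - (k - 2)) * n.descFactorial (k - 2)) := by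
    rw [← hD]
    conv_lhs => rw [show k = k - 1 + 1 by omega, Nat.descFactorial_succ]
  have hDpos : 0 < n.descFactorial (k - 2) := Nat.descFactorial_pos.mpr (by omega)
  have hy0 : y ≠ 0 := by rintro rfl; omega
  have hy1 : y ≠ 1 := by
    rintro rfl
    refine hnt (pretransitive_of_card ?_ ?_)
    · intro u
      rw [Subgroup.eq_bot_iff_forall]
      intro g hg
      refine hfix g (Finset.univ.map u) (by simp; omega) fun a ha => ?_
      obtain ⟨i, -, rfl⟩ := Finset.mem_map.mp ha
      exact DFunLike.congr_fun hg i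
    · rw [hG, hn, hD, hy, mul_one, mul_comm]
  have hyk1 : y ∣ (k - 1).factorial := by
    have h1 := Nat.mul_dvd_mul_left (k - 1).factorial (choose_dvd_card (by omega) hh1)
    rw [← Nat.descFactorial_eq_factorial_mul_choose, hn, hD, hG, hy,
      show (k - 1).factorial * (n.descFactorial (k - 2) * x) = x * (k - 1).factorial * n.descFactorial (k - 2)
        from by ring] at h1
    exact Nat.dvd_of_mul_dvd_mul_left hx0 (Nat.dvd_of_mul_dvd_mul_right hDpos h1)
  have hyk : y * (n - (k - 1)) ∣ k.factorial := by
    have h1 := Nat.mul_dvd_mul_left k.factorial (choose_dvd_card (by omega) hh)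
    rw [← Nat.descFactorial_eq_factorial_mul_choose, hn, hD', hG, hy,
      show (n - (k - 1)) * (x * y * n.descFactorial (k - 2)) = x * (y * (n - (k - 1))) * n.descFactorial (k - 2)
        from by ring,
      show k.factorial * (n.descFactorial (k - 2) * x) = x * k.factorial * n.descFactorial (k - 2)
        from by ring] at h1
    exact Nat.dvd_of_mul_dvd_mul_left hx0 (Nat.dvd_of_mul_dvd_mul_right hDpos h1)
  rw [hn]
  have hperm : Nat.card (Equiv.Perm α) = n.factorial := by
    rw [Nat.card_perm, Nat.card_eq_fintype_card, hn]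
  have hindex : Nat.card G * G.index = n.factorial := hperm ▸ G.card_mul_index
  -- degree `k`
  rcases eq_or_ne k n with rfl | hne
  · left
    refine ⟨rfl, Equiv.Perm.eq_alternatingGroup_of_index_eq_two ?_⟩
    have hx2 : x * y = 2 := by omega
    obtain rfl : y = 2 := by
      have := Nat.le_of_dvd (by norm_num) (Dvd.intro_left x hx2)
      omega
    obtain rfl : x = 1 := by omega
    rw [hG, mul_one, ← Nat.factorial_mul_descFactorial (show k - 2 ≤ k by omega),
      show k - (k - 2) = 2 by omega, Nat.factorial_two, mul_comm 2] at hindex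
    exact Nat.eq_of_mul_eq_mul_left hDpos hindex
  rcases Nat.lt_or_ge k 6 with hk6 | hk6
  swap
  · exfalso
    rcases transitive_fixFew (k - 2) (by omega) G α ht hfix with h | ⟨e, h, hG'⟩ | ⟨e, h, hG'⟩ | ⟨e, h, hG'⟩
    · rw [hn] at h
      obtain rfl : n = k + 1 := by omega
      have hx3 : x * y = 3 := by omega
      obtain rfl : y = 3 := by
        rcases (Nat.dvd_prime Nat.prime_three).mp (Dvd.intro_left x hx3) with e | e <;> omega
      obtain rfl : x = 1 := by omega
      rw [hG, mul_one, ← Nat.factorial_mul_descFactorial (show k - 2 ≤ k + 1 by omega),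
        show k + 1 - (k - 2) = 3 by omega, show Nat.factorial 3 = 6 from rfl, mul_comm 6] at hindex
      have h6 : G.index = 6 := Nat.eq_of_mul_eq_mul_left hDpos hindex
      haveI : Nontrivial α := Fintype.one_lt_card_iff_nontrivial.mp (by omega)
      have := CfsgLib.Derangements.card_le_index (Ω := α) (by omega) G
        (fun e => by rw [e, Subgroup.index_top] at h6; omega)
        (fun e => by rw [e, alternatingGroup.index_eq_two] at h6; omega)
      omega
    · obtain rfl : k = 6 := by omega
      have h1 := choose_dvd_card (by omega) hh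
      rw [hG', h] at h1
      exact absurd h1 (by decide +kernel)
    · obtain rfl : k = 7 := by omega
      have h1 := choose_dvd_card (by omega) hh1
      rw [hG', h] at h1
      exact absurd h1 (by decide +kernel)
    · obtain rfl : k = 6 := by omega
      have h1 := choose_dvd_card (by omega) hh
      rw [hG', h] at h1
      exact absurd h1 (by decide +kernel)
  -- the three small values of `k`
  interval_cases k
  · -- `k = 3`
    exfalso
    obtain rfl : y = 2 := by
      have := Nat.le_of_dvd (by norm_num) hyk1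
      norm_num [Nat.factorial] at this
      omega
    have h3 : n - 2 ∣ 3 := Nat.dvd_of_mul_dvd_mul_left (by norm_num : 0 < 2) hyk
    rcases (Nat.dvd_prime Nat.prime_three).mp h3 with h | h
    · omega
    obtain rfl : n = 5 := by omega
    obtain rfl : x = 2 := by omega
    norm_num [Nat.descFactorial, -Nat.card_eq_fintype_card] at hG
    haveI : Fact (Nat.Prime 2) := ⟨Nat.prime_two⟩
    obtain ⟨z, hz⟩ := exists_prime_orderOf_dvd_card' (G := G) 2 (by rw [hG]; norm_num)
    obtain ⟨a, ha⟩ : ∃ a : α, z • a ≠ a := by
      by_contra hcon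
      push Not at hcon
      rw [hfix z Finset.univ (by rw [Finset.card_univ]; omega) fun a _ => hcon a, orderOf_one] at hz
      omega
    have hzz : z * z = 1 := by rw [← pow_two, ← hz, pow_orderOf_eq_one]
    have h1 := two_mul_choose_dvd_card hh1 z hz {a, z • a} (Finset.card_pair ha.symm) (by
      intro e he
      simp only [Finset.mem_insert, Finset.mem_singleton] at he ⊢
      rcases he with rfl | rfl <;> simp [smul_smul, hzz])
    rw [hn, hG] at h1
    exact absurd h1 (by decide)
  · -- `k = 4`
    have hxy : x * y = n - 3 + 1 := by omega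
    have hmem := arith4 (n - 3) (Nat.mem_divisors.mpr ⟨(dvd_mul_left _ _).trans hyk, by norm_num⟩) y
      (Nat.mem_divisors.mpr ⟨hyk1, by norm_num⟩) (by omega) hyk ⟨x, by rw [← hxy, mul_comm]⟩
    rw [← hxy, Nat.mul_div_left _ (by omega)] at hmem
    simp only [List.mem_cons, List.not_mem_nil, or_false, Prod.mk.injEq] at hmem
    rcases hmem with ⟨h1, rfl⟩ | ⟨h1, rfl⟩ | ⟨h1, rfl⟩ | ⟨h1, rfl⟩
    · omega
    · exfalso
      obtain rfl : n = 6 := by omega
      norm_num [Nat.descFactorial, -Nat.card_eq_fintype_card] at hG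
      haveI : Fact (Nat.Prime 2) := ⟨Nat.prime_two⟩
      obtain ⟨⟨z, hzB⟩, hz⟩ := exists_prime_orderOf_dvd_card' (G := fixingSubgroup G (B : Set α)) 2
        (by rw [hx])
      rw [Subgroup.orderOf_mk] at hz
      have hzz : z * z = 1 := by rw [← pow_two, ← hz, pow_orderOf_eq_one]
      obtain ⟨a, ha⟩ : B.Nonempty := Finset.card_pos.mp (by omega)
      have hza : z • a = a := (mem_fixingSubgroup_iff G).mp hzB a ha
      obtain ⟨b, hb⟩ : ∃ b : α, z • b ≠ b := by
        by_contra hcon
        push Not at hcon
        rw [hfix z Finset.univ (by rw [Finset.card_univ]; omega) fun a _ => hcon a, orderOf_one] at hz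
        omega
      have hba : b ≠ a := by rintro rfl; exact hb hza
      have hzba : z • b ≠ a := fun e => hba (MulAction.injective z (e.trans hza.symm))
      have h1 := two_mul_choose_dvd_card hh1 z hz {a, b, z • b}
        (Finset.card_eq_three.mpr ⟨a, b, z • b, hba.symm, hzba.symm, hb.symm, rfl⟩) (by
        intro e he
        simp only [Finset.mem_insert, Finset.mem_singleton] at he ⊢
        rcases he with rfl | rfl | rfl <;> simp [smul_smul, hzz, hza])
      rw [hn, hG] at h1
      exact absurd h1 (by decide)
    · obtain rfl : n = 5 := by omega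
      norm_num [Nat.descFactorial, -Nat.card_eq_fintype_card] at hG
      exact Or.inr (Or.inl ⟨rfl, rfl, hG⟩)
    · exfalso
      obtain rfl : n = 11 := by omega
      norm_num [Nat.descFactorial, -Nat.card_eq_fintype_card] at hG
      haveI : Fact (Nat.Prime 2) := ⟨Nat.prime_two⟩
      obtain ⟨z, hz⟩ := exists_prime_orderOf_dvd_card' (G := G) 2 (by rw [hG]; norm_num)
      have hzz : z * z = 1 := by rw [← pow_two, ← hz, pow_orderOf_eq_one]
      set F := Finset.univ.filter fun e : α => z • e = e with hF
      have hFle : F.card ≤ 2 := by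
        by_contra hh'
        rw [hfix z F (by omega) fun a ha => (Finset.mem_filter.mp ha).2, orderOf_one] at hz
        omega
      obtain ⟨b, hb⟩ : (Finset.univ \ F).Nonempty := Finset.card_pos.mp (by
        rw [Finset.card_sdiff_of_subset (Finset.subset_univ _), Finset.card_univ]; omega)
      obtain ⟨c, hc⟩ : (Finset.univ \ (F ∪ {b, z • b})).Nonempty := Finset.card_pos.mp (by
        rw [Finset.card_sdiff_of_subset (Finset.subset_univ _), Finset.card_univ]
        have := Finset.card_union_le F {b, z • b}
        have := Finset.card_le_two (a := b) (b := z • b)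
        omega)
      simp only [hF, Finset.mem_sdiff, Finset.mem_univ, true_and, Finset.mem_filter, Finset.mem_union,
        Finset.mem_insert, Finset.mem_singleton, not_or] at hb hc
      obtain ⟨hc1, hc2, hc3⟩ := hc
      have hzz' : ∀ e : α, z • z • e = e := fun e => by rw [smul_smul, hzz, one_smul]
      have e1 : z • c ≠ b := fun e => hc3 (by rw [← e, hzz'])
      have e2 : z • c ≠ z • b := fun e => hc2 (MulAction.injective z e)
      have h1 := two_mul_choose_dvd_card hh z hz {b, z • b, c, z • c}
        (by simp [Ne.symm hb, Ne.symm hc2, Ne.symm hc3, Ne.symm hc1, e1.symm, e2.symm]) (by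
        intro e he
        simp only [Finset.mem_insert, Finset.mem_singleton] at he ⊢
        rcases he with rfl | rfl | rfl | rfl <;> simp [hzz'])
      rw [hn, hG] at h1
      exact absurd h1 (by decide)
  · -- `k = 5`
    have hxy : x * y = n - 4 + 1 := by omega
    have hmem := arith5 (n - 4) (Nat.mem_divisors.mpr ⟨(dvd_mul_left _ _).trans hyk, by norm_num⟩) y
      (Nat.mem_divisors.mpr ⟨hyk1, by norm_num⟩) (by omega) hyk ⟨x, by rw [← hxy, mul_comm]⟩
    rw [← hxy, Nat.mul_div_left _ (by omega)] at hmem
    simp only [List.mem_cons, List.not_mem_nil, or_false, Prod.mk.injEq] at hmem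
    rcases hmem with ⟨h1, rfl⟩ | ⟨h1, rfl⟩ | ⟨h1, rfl⟩ | ⟨h1, rfl⟩ | ⟨h1, rfl⟩ | ⟨h1, rfl⟩ | ⟨h1, rfl⟩ |
      ⟨h1, rfl⟩ | ⟨h1, rfl⟩ | ⟨h1, rfl⟩ | ⟨h1, rfl⟩ | ⟨h1, rfl⟩
    · omega
    · exfalso
      obtain rfl : n = 7 := by omega
      norm_num [Nat.descFactorial, -Nat.card_eq_fintype_card] at hG
      exact false_of_sylow_fix (p := 7) (b := 42) (by norm_num) (by omega) (by norm_num) hfix hG (by norm_num)
        (by norm_num) rfl (by decide)
    · obtain rfl : n = 9 := by omega
      norm_num [Nat.descFactorial, -Nat.card_eq_fintype_card] at hG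
      exact Or.inr (Or.inr (Or.inr ⟨rfl, rfl, Or.inr hG⟩))
    · exfalso
      obtain rfl : n = 19 := by omega
      norm_num [Nat.descFactorial, -Nat.card_eq_fintype_card] at hG
      exact false_of_sylow_fix (p := 19) (b := 342) (by norm_num) (by omega) (by norm_num) hfix hG (by norm_num)
        (by norm_num) rfl (by decide +kernel)
    · obtain rfl : n = 6 := by omega
      norm_num [Nat.descFactorial, -Nat.card_eq_fintype_card] at hG
      exact Or.inr (Or.inr (Or.inl ⟨rfl, rfl, hG⟩))
    · exfalso
      obtain rfl : n = 9 := by omega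
      norm_num [Nat.descFactorial, -Nat.card_eq_fintype_card] at hG
      exact false_of_sylow_fix (p := 7) (b := 42) (by norm_num) (by omega) (by norm_num) hfix hG (by norm_num)
        (by norm_num) rfl (by decide +kernel)
    · exfalso
      obtain rfl : n = 12 := by omega
      norm_num [Nat.descFactorial, -Nat.card_eq_fintype_card] at hG
      exact false_of_sylow_fix (p := 11) (b := 110) (by norm_num) (by omega) (by norm_num) hfix hG (by norm_num)
        (by norm_num) rfl (by decide +kernel)
    · exfalso
      obtain rfl : n = 24 := by omega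
      norm_num [Nat.descFactorial, -Nat.card_eq_fintype_card] at hG
      exact false_of_sylow_fix (p := 23) (b := 506) (by norm_num) (by omega) (by norm_num) hfix hG (by norm_num)
        (by norm_num) rfl (by decide +kernel)
    · exfalso
      obtain rfl : n = 7 := by omega
      norm_num [Nat.descFactorial, -Nat.card_eq_fintype_card] at hG
      exact false_seven G ht hfix hn hG
    · exfalso
      obtain rfl : n = 19 := by omega
      norm_num [Nat.descFactorial, -Nat.card_eq_fintype_card] at hG
      exact false_of_sylow_fix (p := 19) (b := 342) (by norm_num) (by omega) (by norm_num) hfix hG (by norm_num)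
        (by norm_num) rfl (by decide +kernel)
    · obtain rfl : n = 9 := by omega
      norm_num [Nat.descFactorial, -Nat.card_eq_fintype_card] at hG
      exact Or.inr (Or.inr (Or.inr ⟨rfl, rfl, Or.inl hG⟩))
    · exfalso
      obtain rfl : n = 19 := by omega
      norm_num [Nat.descFactorial, -Nat.card_eq_fintype_card] at hG
      exact false_of_sylow_fix (p := 19) (b := 342) (by norm_num) (by omega) (by norm_num) hfix hG (by norm_num)
        (by norm_num) rfl (by decide +kernel)

end Cfsg.Agent.S0745
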