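import Cfsg.Statements.S0746
import Cfsg.Agent.S0745
import Cfsg.Agent.S0736

set_option autoImplicit false
open Cfsg

namespace Cfsg.Agent.S0746

open MulAction
open scoped Pointwise

theorem aux {α : Type*} [Fintype α] [DecidableEq α] (G : Subgroup (Equiv.Perm α)) (k : ℕ) :
    2 ≤ k → 2 * k ≤ Fintype.card α → IsPretransitive G (Set.powersetCard α k) →
      IsMultiplyPretransitive G α (k - 1) := by
  induction k with
  | zero => intro hk; omega
  | succ k ih =>
    intro hk hkn hh
    have hh1 : IsPretransitive G (Set.powersetCard α k) := by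
      have := Cfsg.Agent.S0736.result G hk hh (fun q _ hqk => by
        have := Nat.le_of_dvd (by omega) hqk
        omega)
      simpa using this
    rw [Nat.add_sub_cancel]
    rcases Nat.lt_or_ge k 2 with h | h
    · obtain rfl : k = 1 := by omega
      rw [is_one_pretransitive_iff]
      refine ⟨fun a b => ?_⟩
      obtain ⟨g, hg⟩ := hh1.exists_smul_eq
        (⟨{a}, Set.powersetCard.mem_iff.mpr (Finset.card_singleton a)⟩ : Set.powersetCard α 1)
        ⟨{b}, Set.powersetCard.mem_iff.mpr (Finset.card_singleton b)⟩
      refine ⟨g, ?_⟩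
      have hg' : g • ({a} : Finset α) = {b} := congrArg Subtype.val hg
      rw [Finset.smul_finset_singleton, Finset.singleton_inj] at hg'
      exact hg'
    by_contra hnt
    rcases Cfsg.Agent.S0745.result G (k := k + 1) (by omega) (by omega)
      (by rw [show k + 1 - 2 = k - 1 by omega]; exact ih h (by omega) hh1)
      (by rwa [Nat.add_sub_cancel]) (by rwa [Nat.add_sub_cancel]) hh with h' | h' | h' | h' <;> omega


/-- The Livingstone–Wagner Theorem, first form: a `k`-homogeneous group of degree `n` with `4 ≤ 2k ≤ n` is `(k-1)`-transitive. -/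
theorem result {α : Type*} [Fintype α] [DecidableEq α] (G : Subgroup (Equiv.Perm α)) {k : ℕ} (hk : 2 ≤ k) (hkn : 2 * k ≤ Fintype.card α) (hh : MulAction.IsPretransitive G (Set.powersetCard α k)) : MulAction.IsMultiplyPretransitive G α (k - 1) := by
  exact aux G k hk hkn hh

end Cfsg.Agent.S0746
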