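import Cfsg.Statements.S0748
import Cfsg.Agent.S0746
import Cfsg.Agent.Lib.AltGroups.InducesAlternating
import Cfsg.Agent.Lib.AltGroups.NoTransposition

set_option autoImplicit false
open Cfsg

namespace Cfsg.Agent.S0748

open MulAction CfsgLib.AltGroups.MT
open scoped Pointwise

variable {α : Type*} [Fintype α] [DecidableEq α]

/-- If some element induces an odd permutation on a `k`-set, a `k`-homogeneous group in which all
`k`-sets have the alternating group induced is `k`-transitive. -/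
theorem pretransitive_of_odd (G : Subgroup (Equiv.Perm α)) {k : ℕ}
    (hh : IsPretransitive G (Set.powersetCard α k))
    (hA : ∀ D : Finset α, D.card = k → ∀ σ : Equiv.Perm D, Equiv.Perm.sign σ = 1 →
      ∃ g ∈ G, ∀ x : D, g (x : α) = σ x)
    (D₀ : Finset α) (hD₀ : D₀.card = k) (τ : Equiv.Perm D₀) (hτ : Equiv.Perm.sign τ = -1)
    (g₀ : Equiv.Perm α) (hg₀ : g₀ ∈ G) (hg₀τ : ∀ x : D₀, g₀ (x : α) = τ x) :
    IsMultiplyPretransitive G α k := by
  have hall : ∀ σ : Equiv.Perm D₀, ∃ g ∈ G, ∀ x : D₀, g (x : α) = σ x := by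
    intro σ
    rcases Int.units_eq_one_or (Equiv.Perm.sign σ) with h | h
    · exact hA D₀ hD₀ σ h
    · obtain ⟨g, hg, hgσ⟩ := hA D₀ hD₀ (σ * τ⁻¹) (by rw [map_mul, map_inv, h, hτ]; decide)
      refine ⟨g * g₀, G.mul_mem hg hg₀, fun x => ?_⟩
      rw [Equiv.Perm.mul_apply, hg₀τ, hgσ]
      simp
  refine ⟨fun u v => ?_⟩
  -- move both tuples into `D₀`
  have hmove : ∀ u : Fin k ↪ α, ∃ g : G, ∃ e : Fin k ≃ D₀, ∀ i, g • u i = e i := by
    intro u
    obtain ⟨g, hg⟩ := hh.exists_smul_eq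
      (⟨Finset.univ.map u, Set.powersetCard.mem_iff.mpr (by simp)⟩ : Set.powersetCard α k)
      ⟨D₀, Set.powersetCard.mem_iff.mpr hD₀⟩
    have hg' : g • Finset.univ.map u = D₀ := congrArg Subtype.val hg
    have hmem : ∀ i, g • u i ∈ D₀ := fun i => by
      rw [← hg']; exact Finset.smul_mem_smul_finset (Finset.mem_map_of_mem u (Finset.mem_univ i))
    refine ⟨g, Equiv.ofBijective (fun i => ⟨g • u i, hmem i⟩) ((Fintype.bijective_iff_injective_and_card _).mpr
      ⟨fun i j hij => u.injective (MulAction.injective g (congrArg Subtype.val hij)), by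
        rw [Fintype.card_fin, Fintype.card_coe, hD₀]⟩), fun i => rfl⟩
  obtain ⟨g₁, e₁, h₁⟩ := hmove u
  obtain ⟨g₂, e₂, h₂⟩ := hmove v
  obtain ⟨g, hg, hgσ⟩ := hall (e₁.symm.trans e₂)
  refine ⟨g₂⁻¹ * (⟨g, hg⟩ * g₁), Function.Embedding.ext fun i => ?_⟩
  show (g₂⁻¹ * (⟨g, hg⟩ * g₁)) • u i = v i
  rw [mul_smul, mul_smul, h₁, inv_smul_eq_iff, h₂]
  have := hgσ (e₁ i)
  simp only [Equiv.trans_apply, Equiv.symm_apply_apply] at this
  exact this

/-- An element acting on a `k`-set as an involution with three cycles and fixed points induces an odd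
permutation. -/
theorem odd_of_three_cycles (z : Equiv.Perm α) (hz : ∀ e, z (z e) = e) {a b c : α} (F : Finset α)
    (ha : z a ≠ a) (hb : z b ≠ b) (hc : z c ≠ c)
    (hba : b ≠ a ∧ b ≠ z a) (hca : c ≠ a ∧ c ≠ z a) (hcb : c ≠ b ∧ c ≠ z b) (hF : ∀ e ∈ F, z e = e) :
    ∃ D : Finset α, D.card = F.card + 6 ∧ ∃ σ : Equiv.Perm D, Equiv.Perm.sign σ = -1 ∧
      ∀ x : D, z (x : α) = σ x := by
  have hzb : z b ≠ a ∧ z b ≠ z a := ⟨fun e => hba.2 (by rw [← e, hz]), fun e => hba.1 (z.injective e)⟩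
  have hzc : (z c ≠ a ∧ z c ≠ z a) ∧ z c ≠ b ∧ z c ≠ z b :=
    ⟨⟨fun e => hca.2 (by rw [← e, hz]), fun e => hca.1 (z.injective e)⟩,
      fun e => hcb.2 (by rw [← e, hz]), fun e => hcb.1 (z.injective e)⟩
  set S : Finset α := {a, z a, b, z b, c, z c} with hS
  have hScard : S.card = 6 := by
    simp [hS, Ne.symm ha, Ne.symm hb, Ne.symm hc, Ne.symm hba.1, Ne.symm hba.2, Ne.symm hca.1, Ne.symm hca.2,
      Ne.symm hcb.1, Ne.symm hcb.2, Ne.symm hzb.1, Ne.symm hzb.2, Ne.symm hzc.1.1, Ne.symm hzc.1.2,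
      Ne.symm hzc.2.1, Ne.symm hzc.2.2]
  have hdisj : Disjoint S F := by
    rw [Finset.disjoint_left]
    intro e he heF
    have := hF e heF
    simp only [hS, Finset.mem_insert, Finset.mem_singleton] at he
    rcases he with rfl | rfl | rfl | rfl | rfl | rfl
    · exact ha this
    · rw [hz] at this; exact ha this.symm
    · exact hb this
    · rw [hz] at this; exact hb this.symm
    · exact hc this
    · rw [hz] at this; exact hc this.symm
  set D := S ∪ F with hD
  have mem : ∀ e ∈ S, e ∈ D := fun e he => Finset.mem_union_left _ he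
  let A : D := ⟨a, mem a (by simp [hS])⟩
  let A' : D := ⟨z a, mem _ (by simp [hS])⟩
  let B : D := ⟨b, mem b (by simp [hS])⟩
  let B' : D := ⟨z b, mem _ (by simp [hS])⟩
  let C : D := ⟨c, mem c (by simp [hS])⟩
  let C' : D := ⟨z c, mem _ (by simp [hS])⟩
  refine ⟨D, by rw [hD, Finset.card_union_of_disjoint hdisj, hScard, add_comm],
    Equiv.swap A A' * Equiv.swap B B' * Equiv.swap C C', ?_, ?_⟩
  · rw [map_mul, map_mul, Equiv.Perm.sign_swap (by simp [A, A', Ne.symm ha]),
      Equiv.Perm.sign_swap (by simp [B, B', Ne.symm hb]), Equiv.Perm.sign_swap (by simp [C, C', Ne.symm hc])]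
    decide
  · rintro ⟨x, hx⟩
    rw [Equiv.Perm.mul_apply, Equiv.Perm.mul_apply]
    rcases Finset.mem_union.mp hx with h | h
    · simp only [hS, Finset.mem_insert, Finset.mem_singleton] at h
      rcases h with rfl | rfl | rfl | rfl | rfl | rfl <;>
        simp [Equiv.swap_apply_def, A, A', B, B', C, C', hz, ha, Ne.symm ha, hb, Ne.symm hb, hc, Ne.symm hc,
          hba, Ne.symm hba.1, Ne.symm hba.2, hca, Ne.symm hca.1, Ne.symm hca.2, hcb, Ne.symm hcb.1, Ne.symm hcb.2,
          hzb, Ne.symm hzb.1, Ne.symm hzb.2, hzc, Ne.symm hzc.1.1, Ne.symm hzc.1.2, Ne.symm hzc.2.1,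
          Ne.symm hzc.2.2]
    · have hnS : x ∉ S := Finset.disjoint_right.mp hdisj h
      simp only [hS, Finset.mem_insert, Finset.mem_singleton, not_or] at hnS
      simp [Equiv.swap_apply_def, A, A', B, B', C, C', hnS, hF x h]


/-- The Livingstone–Wagner Theorem: a `k`-homogeneous permutation group of degree `n` with `10 ≤ 2k ≤ n` is `k`-transitive. -/
theorem result {α : Type*} [Fintype α] [DecidableEq α] (G : Subgroup (Equiv.Perm α)) {k : ℕ} (hk : 5 ≤ k) (hkn : 2 * k ≤ Fintype.card α) (hh : MulAction.IsPretransitive G (Set.powersetCard α k)) : MulAction.IsMultiplyPretransitive G α k := by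
  classical
  have ht := Cfsg.Agent.S0746.result G (by omega) (by omega) hh
  obtain ⟨Δ, hΔ, hΔA⟩ := CfsgLib.AltGroups.MT.exists_alt G (k := k - 1) (by omega) (by omega) ht
  have hA : ∀ D : Finset α, D.card = k → ∀ σ : Equiv.Perm D, Equiv.Perm.sign σ = 1 →
      ∃ g ∈ G, ∀ x : D, g (x : α) = σ x := by
    intro D hD σ hσ
    obtain ⟨h, hh'⟩ := hh.exists_smul_eq
      (⟨D, Set.powersetCard.mem_iff.mpr hD⟩ : Set.powersetCard α k)
      ⟨Δ, Set.powersetCard.mem_iff.mpr (by omega)⟩
    have hhD : h • D = Δ := congrArg Subtype.val hh'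
    let e : D ≃ Δ := Equiv.ofBijective (fun x => ⟨h • (x : α), hhD ▸ Finset.smul_mem_smul_finset x.2⟩)
      ((Fintype.bijective_iff_injective_and_card _).mpr
        ⟨fun x y hxy => Subtype.ext (MulAction.injective h (congrArg Subtype.val hxy)), by
          rw [Fintype.card_coe, Fintype.card_coe, hD, hΔ]; omega⟩)
    obtain ⟨g, hg, hgσ⟩ := hΔA (e.permCongr σ) (by
      rw [Equiv.Perm.mem_alternatingGroup, Equiv.Perm.sign_permCongr, hσ])
    refine ⟨((h⁻¹ * (⟨g, hg⟩ * h) : G) : Equiv.Perm α), (h⁻¹ * (⟨g, hg⟩ * h) : G).2, fun x => ?_⟩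
    show (h⁻¹ * (⟨g, hg⟩ * h) : G) • (x : α) = σ x
    rw [mul_smul, mul_smul, inv_smul_eq_iff]
    have h1 := hgσ (e x)
    rw [Equiv.permCongr_apply, Equiv.symm_apply_apply] at h1
    exact h1
  by_contra hnt
  have hodd : ∀ D : Finset α, D.card = k → ∀ σ : Equiv.Perm D, Equiv.Perm.sign σ = -1 →
      ∀ g ∈ G, ¬ ∀ x : D, g (x : α) = σ x := fun D hD σ hσ g hg h =>
    hnt (pretransitive_of_odd G hh hA D hD σ hσ g hg h)
  have hno : ∀ g : G, ∀ s : Finset α, s.card = k - 2 → (∀ a ∈ s, g • a = a) →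
      ∀ d e : α, d ∉ s → e ∉ s → d ≠ e → g • d = e → g • e = d → False := by
    intro g s hs hgs d e hd he hde hgd hge
    have hD : (insert d (insert e s)).card = k := by
      rw [Finset.card_insert_of_notMem (by simp [hde, hd]), Finset.card_insert_of_notMem he, hs]; omega
    refine hodd _ hD (Equiv.swap ⟨d, by simp⟩ ⟨e, by simp⟩) (Equiv.Perm.sign_swap (by simp [hde]))
      g.1 g.2 ?_
    rintro ⟨x, hx⟩
    show g • x = _
    rcases Finset.mem_insert.mp hx with rfl | hx'
    · rw [Equiv.swap_apply_left]; exact hgd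
    rcases Finset.mem_insert.mp hx' with rfl | hx''
    · rw [Equiv.swap_apply_right]; exact hge
    · rw [Equiv.swap_apply_of_ne_of_ne ?_ ?_, hgs x hx'']
      · intro h
        exact hd ((show x = d from congrArg Subtype.val h) ▸ hx'')
      · intro h
        exact he ((show x = e from congrArg Subtype.val h) ▸ hx'')
  rcases Nat.lt_or_ge k 6 with h6 | h6
  · obtain rfl : k = 5 := by omega
    exact CfsgLib.AltGroups.MT.false_of_no_transposition G ht (by omega) hno
  -- `k ≥ 6`: an involution with few fixed points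
  haveI := ht
  have hinv : ∀ g : G, g * g = 1 → ∀ s : Finset α, k - 2 ≤ s.card → (∀ a ∈ s, g • a = a) → g = 1 := by
    intro g hg s hs hga
    by_contra hne
    obtain ⟨s', hs', hs'c⟩ := Finset.exists_subset_card_eq hs
    obtain ⟨d, hd⟩ : ∃ d : α, g • d ≠ d := by
      by_contra hcon
      push Not at hcon
      exact hne (FaithfulSMul.eq_of_smul_eq_smul (α := α) fun d => by rw [hcon, one_smul])
    refine hno g s' hs'c (fun a ha => hga a (hs' ha)) d (g • d) (fun h => hd (hga d (hs' h)))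
      (fun h => hd ?_) (Ne.symm hd) rfl (by rw [smul_smul, hg, one_smul])
    have := hga _ (hs' h)
    rw [smul_smul, hg, one_smul] at this
    exact this.symm
  have hfixodd : ∀ B : Finset α, k - 2 ≤ B.card → Odd (Nat.card (fixingSubgroup G (B : Set α))) := by
    intro B hB
    rw [← Nat.not_even_iff_odd]
    intro he
    obtain ⟨⟨z, hz⟩, hzo⟩ := exists_prime_orderOf_dvd_card' (G := fixingSubgroup G (B : Set α)) 2
      (even_iff_two_dvd.mp he)
    rw [Subgroup.orderOf_mk] at hzo
    have h1 : z = 1 := hinv z (by rw [← pow_two, ← hzo, pow_orderOf_eq_one]) B hB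
      fun a ha => (mem_fixingSubgroup_iff G).mp hz a ha
    rw [h1, orderOf_one] at hzo
    omega
  obtain ⟨T, -, hT⟩ := Finset.exists_subset_card_eq (s := (Finset.univ : Finset α)) (n := k - 1)
    (by rw [Finset.card_univ]; omega)
  obtain ⟨r, hr, s, hs, hrs⟩ := Finset.one_lt_card.mp (show 1 < T.card by omega)
  obtain ⟨g, hg⟩ := CfsgLib.AltGroups.exists_smul_eqOn (G := G) (α := α) (k := k - 1)
    (by rw [Nat.card_eq_fintype_card]; omega) T hT.le (Equiv.swap r s) (Equiv.injective _).injOn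
  obtain ⟨z, hzz, -, hz⟩ := exists_involution_lift T (hfixodd T (by omega)) g 1 (by
    intro e he
    rw [hg e he]
    have hmem : Equiv.swap r s e ∈ T := by
      rw [Equiv.swap_apply_def]; split_ifs <;> assumption
    exact ⟨hmem, by rw [hg _ hmem, Equiv.swap_apply_self]⟩) (one_mul 1)
    (fun e he => ⟨by rw [one_smul]; exact he, by rw [one_smul, one_smul]⟩)
  have hzr : z • r = s := by rw [hz r hr, hg r hr, Equiv.swap_apply_left]
  have hz1 : z ≠ 1 := fun e => hrs (by rw [← hzr, e, one_smul])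
  set F₀ := Finset.univ.filter fun e : α => z • e = e with hF₀
  have hF₀le : F₀.card < k - 2 := by
    by_contra hcon
    exact hz1 (hinv z hzz F₀ (by omega) fun a ha => (Finset.mem_filter.mp ha).2)
  have hF₀ge : (T.erase r).erase s ⊆ F₀ := by
    intro e he
    simp only [Finset.mem_erase] at he
    simp only [hF₀, Finset.mem_filter, Finset.mem_univ, true_and]
    rw [hz e he.2.2, hg e he.2.2, Equiv.swap_apply_of_ne_of_ne he.2.1 he.1]
  have hF₀c : k - 3 ≤ F₀.card := by
    have := Finset.card_le_card hF₀ge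
    rw [Finset.card_erase_of_mem (Finset.mem_erase.mpr ⟨hrs.symm, hs⟩), Finset.card_erase_of_mem hr, hT] at this
    omega
  obtain ⟨F, hFF₀, hFc⟩ := Finset.exists_subset_card_eq (s := F₀) (n := k - 6) (by omega)
  have hz2 : ∀ e : α, z • z • e = e := fun e => by rw [smul_smul, hzz, one_smul]
  have hpick : ∀ E : Finset α, F₀.card + E.card < Fintype.card α → ∃ x : α, z • x ≠ x ∧ x ∉ E := by
    intro E hE
    obtain ⟨x, -, hx⟩ := Finset.exists_mem_notMem_of_card_lt_card (s := F₀ ∪ E) (t := (Finset.univ : Finset α))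
      (by rw [Finset.card_univ]; have := Finset.card_union_le F₀ E; omega)
    exact ⟨x, fun h => hx (Finset.mem_union_left _ (by simp [hF₀, h])), fun h => hx (Finset.mem_union_right _ h)⟩
  obtain ⟨a, ha, -⟩ := hpick ∅ (by simp; omega)
  obtain ⟨b, hb, hbE⟩ := hpick {a, z • a} (by
    have := Finset.card_le_two (a := a) (b := z • a); omega)
  obtain ⟨c, hc, hcE⟩ := hpick ({a, z • a} ∪ {b, z • b}) (by
    have := Finset.card_le_two (a := a) (b := z • a)
    have := Finset.card_le_two (a := b) (b := z • b)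
    have := Finset.card_union_le ({a, z • a} : Finset α) {b, z • b}
    omega)
  simp only [Finset.mem_union, Finset.mem_insert, Finset.mem_singleton, not_or] at hbE hcE
  obtain ⟨D, hD, σ, hσ, hzσ⟩ := odd_of_three_cycles (z : Equiv.Perm α) hz2 F ha hb hc hbE hcE.1 hcE.2
    (fun e he => (Finset.mem_filter.mp (hFF₀ he)).2)
  exact hodd D (by omega) σ hσ z.1 z.2 hzσ

end Cfsg.Agent.S0748
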