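import Cfsg.Statements.S0754
import Cfsg.Agent.Lib.Forms.FiniteField

set_option autoImplicit false
open Cfsg

namespace Cfsg.Agent.S0754

/-- In a field F with q^2 elements, every non-zero μ with μ^q = μ (that is, μ in the subfield of order q) has exactly q + 1 solutions λ of λ^(q+1) = μ. -/
theorem result {F : Type*} [Field F] [Fintype F] {q : ℕ} (hF : Fintype.card F = q ^ 2) (μ : F) (hμ : μ ≠ 0) (hμq : μ ^ q = μ) : Nat.card {x : F // x ^ (q + 1) = μ} = q + 1 := by
  classical
  obtain ⟨σ, hσ, hσne, hσ2⟩ := CfsgLib.Forms.exists_conj_of_card_sq hF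
  obtain ⟨c, hc⟩ := CfsgLib.Forms.exists_norm_eq σ hσne hσ2 μ (by rw [hσ, hμq])
  rw [hσ, ← pow_succ] at hc
  have hc0 : c ≠ 0 := by
    rintro rfl
    rw [zero_pow (Nat.succ_ne_zero q)] at hc
    exact hμ hc.symm
  let P : Fˣ →* Fˣ := powMonoidHom (q + 1)
  have e : {x : F // x ^ (q + 1) = μ} ≃ P.ker :=
    { toFun := fun x => ⟨Units.mk0 ((x : F) / c) (div_ne_zero
          (fun h => hμ (by rw [← x.2, h, zero_pow (Nat.succ_ne_zero q)])) hc0),
        by
          apply Units.ext
          simp [P, div_pow, x.2, hc, hμ]⟩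
      invFun := fun u => ⟨(u : Fˣ) * c, by
        have hu : ((u : Fˣ) : F) ^ (q + 1) = 1 := congrArg Units.val u.2
        rw [mul_pow, hu, one_mul, hc]⟩
      left_inv := fun x => Subtype.ext (by simp [div_mul_cancel₀ _ hc0])
      right_inv := fun u => Subtype.ext (Units.ext (by simp [hc0])) }
  rw [Nat.card_congr e, IsCyclic.card_powMonoidHom_ker, Nat.card_units, Nat.card_eq_fintype_card, hF]
  refine Nat.gcd_eq_right ⟨q - 1, ?_⟩
  simpa using Nat.sq_sub_sq q 1

end Cfsg.Agent.S0754
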