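import Cfsg.Statements.S0757


set_option autoImplicit false
open Cfsg

namespace Cfsg.Agent.S0757

/-- The two diagonal forms Σ x_i^2 and Σ_(i<n) x_i^2 + α x_n^2 on F^(n+1), with α a non-square and 2 ≠ 0 in F, are inequivalent quadratic forms (so over a finite field of odd order there are exactly two classes of non-singular symmetric bilinear forms in each dimension). -/
theorem result {F : Type*} [Field F] (h2 : (2 : F) ≠ 0) (n : ℕ) (α : F) (hα : ¬ IsSquare α) : ¬ (QuadraticMap.weightedSumSquares F (fun _ : Fin (n + 1) => (1 : F))).Equivalent (QuadraticMap.weightedSumSquares F (fun i : Fin (n + 1) => if i = Fin.last n then α else (1 : F))) := by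
  rintro ⟨e⟩
  let G : Matrix (Fin (n + 1)) (Fin (n + 1)) F :=
    Matrix.diagonal fun i => if i = Fin.last n then α else 1
  let P := LinearMap.toMatrix (Pi.basisFun F (Fin (n + 1))) (Pi.basisFun F (Fin (n + 1))) e.toLinearEquiv.toLinearMap
  have hP : ∀ i j, ∑ k, G k k * P k i * P k j = if i = j then (1 : F) else 0 := by
    intro i j
    have hQ1 : ∀ v : Fin (n + 1) → F, QuadraticMap.weightedSumSquares F (fun _ => (1 : F)) v = ∑ k, v k * v k :=
      fun v => by simp [QuadraticMap.weightedSumSquares_apply]
    have hQ2 : ∀ v : Fin (n + 1) → F, QuadraticMap.weightedSumSquares F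
        (fun i : Fin (n + 1) => if i = Fin.last n then α else (1 : F)) v = ∑ k, G k k * v k * v k :=
      fun v => by simp [QuadraticMap.weightedSumSquares_apply, G, mul_assoc]
    have hv : ∀ v, ∑ k, G k k * e v k * e v k = ∑ k, v k * v k := fun v => by
      rw [← hQ2, ← hQ1]; exact e.map_app v
    have hPe : ∀ i k, P k i = e (Pi.single i 1) k := fun i k => by
      simp [P, LinearMap.toMatrix_apply]
    have h := hv (Pi.single i 1 + Pi.single j 1)
    have hi := hv (Pi.single i 1)
    have hj := hv (Pi.single j 1)
    have he : e (Pi.single i 1 + Pi.single j 1) = e (Pi.single i 1) + e (Pi.single j 1) :=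
      e.toLinearEquiv.map_add _ _
    rw [he] at h
    simp only [Pi.add_apply, mul_add, add_mul, Finset.sum_add_distrib, hi, hj] at h
    simp only [hPe]
    refine mul_left_cancel₀ h2 ?_
    rcases eq_or_ne i j with rfl | hij
    · rw [if_pos rfl, hi]
      simp [Pi.single_apply]
    · simp [Pi.single_apply, hij, Ne.symm hij] at h
      rw [if_neg hij, mul_zero]
      have hcomm : ∑ k, G k k * e (Pi.single j 1) k * e (Pi.single i 1) k
          = ∑ k, G k k * e (Pi.single i 1) k * e (Pi.single j 1) k :=
        Finset.sum_congr rfl fun k _ => by ring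
      linear_combination h - hcomm
  have hPG : P.transpose * G * P = 1 := by
    ext i j
    rw [Matrix.one_apply, ← hP i j, Matrix.mul_apply]
    refine Finset.sum_congr rfl fun k _ => ?_
    simp [G, Matrix.mul_diagonal, mul_comm, mul_left_comm]
  have hd : P.det * α * P.det = 1 := by
    have h := congrArg Matrix.det hPG
    simpa [G, Matrix.det_mul, Matrix.det_diagonal, Finset.prod_ite_eq'] using h
  apply hα
  refine ⟨(P.det)⁻¹, ?_⟩
  have h0 : P.det ≠ 0 := fun h => by simp [h] at hd
  field_simp
  linear_combination hd

end Cfsg.Agent.S0757
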