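import Cfsg.Statements.S0758
import Cfsg.Agent.Lib.Forms.OddFinite

set_option autoImplicit false
open Cfsg

namespace Cfsg.Agent.S0758

/-- For a finite field F of odd order q and a non-square α: the form x² + y² is isotropic iff q ≡ 1 mod 4, and the form x² + α y² is isotropic iff q ≡ 3 mod 4. -/
theorem result {F : Type*} [Field F] [Fintype F] (h2 : (2 : F) ≠ 0) (α : F) (hα : ¬ IsSquare α) : ((∃ x y : F, (x ≠ 0 ∨ y ≠ 0) ∧ x ^ 2 + y ^ 2 = 0) ↔ Fintype.card F % 4 = 1) ∧ ((∃ x y : F, (x ≠ 0 ∨ y ≠ 0) ∧ x ^ 2 + α * y ^ 2 = 0) ↔ Fintype.card F % 4 = 3) := by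
  have hα0 : α ≠ 0 := fun h => hα (h ▸ IsSquare.zero)
  have hneg : IsSquare (-1 : F) ↔ Fintype.card F % 4 = 1 := by
    rw [FiniteField.isSquare_neg_one_iff]
    have := CfsgLib.Forms.card_mod_four h2
    omega
  have key : ∀ c : F, (∃ x y : F, (x ≠ 0 ∨ y ≠ 0) ∧ x ^ 2 + c * y ^ 2 = 0) ↔ IsSquare (-c) := by
    intro c
    constructor
    · rintro ⟨x, y, hne, h⟩
      have hy : y ≠ 0 := by
        rintro rfl
        rcases hne with hx | hy
        · exact hx (by simpa using h)
        · exact hy rfl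
      exact ⟨x / y, by field_simp; linear_combination -h⟩
    · rintro ⟨r, hr⟩
      exact ⟨r, 1, Or.inr one_ne_zero, by linear_combination -hr⟩
  constructor
  · rw [← hneg, ← key 1]; simp
  · rw [key α]
    constructor
    · intro h
      rcases CfsgLib.Forms.card_mod_four h2 with h1 | h3
      · obtain ⟨r, hr⟩ := hneg.mpr h1
        obtain ⟨s, hs⟩ := h
        have hr0 : r ≠ 0 := fun h0 => by simp [h0] at hr
        exact absurd ⟨s / r, by field_simp; linear_combination (-α) * hr + hs⟩ hα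
      · exact h3
    · intro h3
      rw [show -α = (-1) * α by ring]
      exact CfsgLib.Forms.isSquare_mul_of_not (fun h => by have := hneg.mp h; omega) hα

end Cfsg.Agent.S0758
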