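import Cfsg.Statements.S0759
import Cfsg.Agent.Lib.Forms.OddFinite

set_option autoImplicit false
open Cfsg

namespace Cfsg.Agent.S0759

/-- Type of the orthonormal form: over a finite field of odd order q and for m ≥ 1, the quadratic form Σ_(i<2m) x_i² on F^(2m) admits an m-dimensional subspace on which it vanishes identically if and only if it is not the case that q ≡ 3 (mod 4) and m is odd. -/
theorem result {F : Type*} [Field F] [Fintype F] (h2 : (2 : F) ≠ 0) (m : ℕ) (hm : 1 ≤ m) : (∃ W : Submodule F (Fin (2 * m) → F), Module.finrank F W = m ∧ ∀ w ∈ W, ∑ i, w i ^ 2 = 0) ↔ ¬ (Fintype.card F % 4 = 3 ∧ Odd m) := by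
  classical
  let idx : Fin m ⊕ Fin m ≃ Fin (2 * m) := finSumFinEquiv.trans (finCongr (two_mul m).symm)
  have hneg : IsSquare (-1 : F) ↔ Fintype.card F % 4 = 1 := by
    rw [FiniteField.isSquare_neg_one_iff]
    have := CfsgLib.Forms.card_mod_four h2
    omega
  constructor
  · rintro ⟨W, hWm, hW⟩ ⟨h3, hmodd⟩
    obtain ⟨C, hC⟩ := Submodule.exists_isCompl W
    have hCm : Module.finrank F C = m := by
      have := Submodule.finrank_add_eq_of_isCompl hC
      rw [Module.finrank_fin_fun] at this
      omega
    let b : Module.Basis (Fin m ⊕ Fin m) F (Fin (2 * m) → F) :=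
      ((Module.finBasisOfFinrankEq F W hWm).prod (Module.finBasisOfFinrankEq F C hCm)).map
        (Submodule.prodEquivOfIsCompl W C hC)
    let M : Matrix (Fin m ⊕ Fin m) (Fin m ⊕ Fin m) F := Matrix.of fun i j => b i (idx j)
    let G := M * M.transpose
    have hG : ∀ i j, G i j = ∑ k, b i k * b j k := fun i j => by
      simp only [G, Matrix.mul_apply, Matrix.transpose_apply, M, Matrix.of_apply]
      exact idx.sum_comp fun k => b i k * b j k
    have hbW : ∀ i, b (Sum.inl i) ∈ W := fun i => by simp [b]
    have hG11 : G.toBlocks₁₁ = 0 := by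
      ext i j
      show G (Sum.inl i) (Sum.inl j) = 0
      have hi := hW _ (hbW i)
      have hj := hW _ (hbW j)
      have hij := hW _ (W.add_mem (hbW i) (hbW j))
      simp only [Pi.add_apply, add_sq, Finset.sum_add_distrib, hi, hj, zero_add, add_zero, mul_assoc,
        ← Finset.mul_sum] at hij
      rw [hG]
      exact (mul_eq_zero.mp hij).resolve_left h2
    set A := G.toBlocks₁₂
    set D := G.toBlocks₂₂
    have hG21 : G.toBlocks₂₁ = A.transpose := by
      ext i j
      show G (Sum.inr i) (Sum.inl j) = G (Sum.inl j) (Sum.inr i)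
      simp only [hG, mul_comm]
    let S : Matrix (Fin m ⊕ Fin m) (Fin m ⊕ Fin m) F := Matrix.fromBlocks 0 1 1 0
    have hS : S * Matrix.fromBlocks 1 0 1 1 = Matrix.fromBlocks 1 1 1 0 := by
      simp [S, Matrix.fromBlocks_multiply]
    have hGS : G = S * Matrix.fromBlocks A.transpose D 0 A := by
      rw [← Matrix.fromBlocks_toBlocks G, hG11, hG21]
      simp [S, Matrix.fromBlocks_multiply, A, D]
    have hdetS : S.det = -1 := by
      have h := congrArg Matrix.det hS
      rw [Matrix.det_mul, Matrix.det_fromBlocks_zero₁₂, Matrix.det_fromBlocks_one₁₁] at h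
      simpa [Matrix.det_neg, hmodd.neg_one_pow] using h
    have hdet : M.det * M.det = -1 * (A.det * A.det) := by
      have h := congrArg Matrix.det hGS
      rw [Matrix.det_mul, Matrix.det_mul, hdetS, Matrix.det_fromBlocks_zero₂₁, Matrix.det_transpose] at h
      rwa [Matrix.det_transpose] at h
    have hM : M.det ≠ 0 := by
      have hb := (Pi.basisFun F (Fin (2 * m))).reindex idx.symm |>.isUnit_det b
      rw [Module.Basis.det_apply, isUnit_iff_ne_zero] at hb
      have hMt : ((Pi.basisFun F (Fin (2 * m))).reindex idx.symm).toMatrix b = M.transpose := by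
        ext i j
        simp [M, Module.Basis.toMatrix_apply]
      rwa [hMt, Matrix.det_transpose] at hb
    have hA : A.det ≠ 0 := fun h => hM (by simpa [h] using hdet)
    have : IsSquare (-1 : F) := ⟨M.det / A.det, by field_simp; linear_combination -hdet⟩
    have := hneg.mp this
    omega
  · intro hcond
    obtain ⟨R, hR⟩ : ∃ R : Matrix (Fin m) (Fin m) F, R.transpose * R = -1 := by
      by_cases h1 : Fintype.card F % 4 = 1
      · obtain ⟨i, hi⟩ := hneg.mpr h1
        refine ⟨i • 1, ?_⟩
        rw [Matrix.transpose_smul, Matrix.transpose_one, Matrix.smul_mul, Matrix.mul_smul,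
          Matrix.one_mul, smul_smul, ← hi, neg_one_smul]
      · have h3 : Fintype.card F % 4 = 3 := by
          have := CfsgLib.Forms.card_mod_four h2
          omega
        obtain ⟨k, hk⟩ : Even m := Nat.not_odd_iff_even.mp fun h => hcond ⟨h3, h⟩
        obtain ⟨x, y, hxy⟩ := CfsgLib.Forms.exists_binary_diag_eq h2 one_ne_zero one_ne_zero (-1 : F)
        let e : Fin k ⊕ Fin k ≃ Fin m := finSumFinEquiv.trans (finCongr hk.symm)
        let R₀ : Matrix (Fin k ⊕ Fin k) (Fin k ⊕ Fin k) F :=
          Matrix.fromBlocks (x • 1) (-(y • 1)) (y • 1) (x • 1)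
        have hR₀ : R₀.transpose * R₀ = -1 := by
          simp only [R₀, Matrix.fromBlocks_transpose, Matrix.transpose_smul, Matrix.transpose_neg,
            Matrix.transpose_one, Matrix.fromBlocks_multiply, Matrix.neg_mul, Matrix.mul_neg,
            Matrix.smul_mul, Matrix.mul_smul, Matrix.one_mul, smul_neg, smul_smul, neg_neg]
          rw [← Matrix.fromBlocks_one, Matrix.fromBlocks_neg]
          congr 1
          · rw [← add_smul, show x * x + y * y = -1 by linear_combination hxy, neg_one_smul]
          · simp [mul_comm y x]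
          · simp [mul_comm y x]
          · rw [← add_smul, show y * y + x * x = -1 by linear_combination hxy, neg_one_smul]
        refine ⟨Matrix.reindex e e R₀, ?_⟩
        rw [Matrix.reindex_apply, Matrix.transpose_submatrix, Matrix.submatrix_mul_equiv, hR₀]
        ext i j
        simp [Matrix.one_apply]
    let f : (Fin m → F) →ₗ[F] (Fin (2 * m) → F) :=
      { toFun := fun c k => Sum.elim c (R.mulVec c) (idx.symm k)
        map_add' := fun c d => by
          ext k
          obtain ⟨j, rfl⟩ := idx.surjective k
          rcases j with i | i <;> simp [Matrix.mulVec_add]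
        map_smul' := fun r c => by
          ext k
          obtain ⟨j, rfl⟩ := idx.surjective k
          rcases j with i | i <;> simp [Matrix.mulVec_smul] }
    have hf : Function.Injective f := fun c d h => funext fun i => by
      have := congrFun h (idx (Sum.inl i))
      simpa [f] using this
    refine ⟨LinearMap.range f, by rw [LinearMap.finrank_range_of_inj hf, Module.finrank_fin_fun], ?_⟩
    rintro _ ⟨c, rfl⟩
    show ∑ k, (Sum.elim c (R.mulVec c) (idx.symm k)) ^ 2 = 0
    rw [idx.symm.sum_comp fun j => (Sum.elim c (R.mulVec c) j) ^ 2, Fintype.sum_sum_type]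
    simp only [Sum.elim_inl, Sum.elim_inr, sq]
    show dotProduct c c + dotProduct (R.mulVec c) (R.mulVec c) = 0
    rw [Matrix.dotProduct_mulVec, Matrix.vecMul_mulVec, hR, Matrix.vecMul_neg, Matrix.vecMul_one,
      neg_dotProduct, add_neg_cancel]

end Cfsg.Agent.S0759
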