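import Cfsg.Statements.S0762


set_option autoImplicit false
open Cfsg

namespace Cfsg.Agent.S0762

/-- In characteristic two over a finite field, a quadratic form on a space of dimension at least 3 vanishes on some non-zero vector. -/
theorem result {F V : Type*} [Field F] [Finite F] [CharP F 2] [AddCommGroup V] [Module F V] [FiniteDimensional F V] (Q : QuadraticForm F V) (h3 : 3 ≤ Module.finrank F V) : ∃ v : V, v ≠ 0 ∧ Q v = 0 := by
  obtain ⟨u, hu⟩ : ∃ u : V, u ≠ 0 := by
    have : Nontrivial V := Module.nontrivial_of_finrank_pos (R := F) (by omega)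
    exact exists_ne 0
  by_cases hQu : Q u = 0
  · exact ⟨u, hu, hQu⟩
  let p : V →ₗ[F] F := QuadraticMap.polarBilin Q u
  have hker : 2 ≤ Module.finrank F (LinearMap.ker p) := by
    have h1 := LinearMap.finrank_range_add_finrank_ker p
    have h2 := Submodule.finrank_le (LinearMap.range p)
    rw [Module.finrank_self] at h2
    omega
  obtain ⟨w, hwp, hw⟩ : ∃ w ∈ LinearMap.ker p, w ∉ Submodule.span F {u} := by
    by_contra h
    push Not at h
    have := Submodule.finrank_mono (show LinearMap.ker p ≤ Submodule.span F {u} from h)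
    rw [finrank_span_singleton hu] at this
    omega
  obtain ⟨c, hc⟩ := FiniteField.isSquare_of_char_two (ringChar.eq F 2) (Q w / Q u)
  refine ⟨w + c • u, fun h0 => hw ?_, ?_⟩
  · rw [eq_neg_of_add_eq_zero_left h0, ← neg_smul]
    exact Submodule.smul_mem _ _ (Submodule.mem_span_singleton_self u)
  · have hpol : QuadraticMap.polar Q w u = 0 := by
      rw [QuadraticMap.polar_comm]; exact hwp
    rw [QuadraticMap.map_add Q w (c • u), QuadraticMap.map_smul, QuadraticMap.polar_smul_right, hpol, ← hc,
      smul_zero, add_zero, smul_eq_mul, div_mul_cancel₀ _ hQu]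
    exact CharTwo.add_self_eq_zero _

end Cfsg.Agent.S0762
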