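import Cfsg.Statements.S0763


set_option autoImplicit false
open Cfsg

namespace Cfsg.Agent.S0763

/-- Binary quadratic forms in characteristic two over a finite field: if Q is a quadratic form on a 2-dimensional space whose polar form is non-degenerate, then either there are vectors v, w with Q v = Q w = 0 and polar value 1 (Q is xy in these coordinates), or there are v, w and μ with Q v = 1, Q w = μ, polar value 1 and x² + x + μ without roots in F (Q is x² + xy + μy²). -/
theorem result {F V : Type*} [Field F] [Finite F] [CharP F 2] [AddCommGroup V] [Module F V] (Q : QuadraticForm F V) (h2 : Module.finrank F V = 2) (hQ : (QuadraticMap.polarBilin Q).Nondegenerate) : (∃ v w : V, LinearIndependent F ![v, w] ∧ Q v = 0 ∧ Q w = 0 ∧ QuadraticMap.polar Q v w = 1) ∨ (∃ (v w : V) (μ : F), LinearIndependent F ![v, w] ∧ (∀ x : F, x ^ 2 + x + μ ≠ 0) ∧ Q v = 1 ∧ Q w = μ ∧ QuadraticMap.polar Q v w = 1) := by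
  have hdim : FiniteDimensional F V := Module.finite_of_finrank_eq_succ h2
  have indep : ∀ v w : V, QuadraticMap.polar Q v w = 1 → LinearIndependent F ![v, w] := by
    intro v w h
    rw [LinearIndependent.pair_iff]
    intro s t hst
    have h1 := congrArg (QuadraticMap.polarBilin Q v) hst
    have h2 := congrArg (QuadraticMap.polarBilin Q w) hst
    simp only [map_add, map_smul, map_zero, QuadraticMap.polarBilin_apply_apply, h,
      QuadraticMap.polar_comm Q w v, smul_eq_mul] at h1 h2
    have h0 : ∀ u : V, QuadraticMap.polar Q u u = 0 := fun u => by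
      rw [QuadraticMap.polar_self, two_nsmul, CharTwo.add_self_eq_zero]
    rw [h0] at h1 h2
    simp at h1 h2
    exact ⟨h2, h1⟩
  have partner : ∀ v : V, v ≠ 0 → ∃ w : V, QuadraticMap.polar Q v w = 1 := by
    intro v hv
    obtain ⟨w, hw⟩ : ∃ w, QuadraticMap.polarBilin Q v w ≠ 0 := by
      by_contra h
      push Not at h
      exact hv (hQ.1 v h)
    refine ⟨(QuadraticMap.polarBilin Q v w)⁻¹ • w, ?_⟩
    rw [QuadraticMap.polar_smul_right, smul_eq_mul, ← QuadraticMap.polarBilin_apply_apply,
      inv_mul_cancel₀ hw]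
  by_cases hiso : ∃ v : V, v ≠ 0 ∧ Q v = 0
  · obtain ⟨v, hv, hQv⟩ := hiso
    obtain ⟨w, hw⟩ := partner v hv
    have hp : QuadraticMap.polar Q v (w + Q w • v) = 1 := by
      rw [QuadraticMap.polar_add_right, QuadraticMap.polar_smul_right, hw,
        QuadraticMap.polar_self, hQv]
      simp
    refine Or.inl ⟨v, w + Q w • v, indep _ _ hp, hQv, ?_, hp⟩
    rw [QuadraticMap.map_add Q w (Q w • v), QuadraticMap.map_smul, QuadraticMap.polar_smul_right,
      QuadraticMap.polar_comm Q w v, hw, hQv]
    simp [CharTwo.add_self_eq_zero]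
  · push Not at hiso
    obtain ⟨u, hu⟩ : ∃ u : V, u ≠ 0 := by
      have : Nontrivial V := Module.nontrivial_of_finrank_pos (R := F) (by omega)
      exact exists_ne 0
    obtain ⟨c, hc⟩ := FiniteField.isSquare_of_char_two (ringChar.eq F 2) (Q u)⁻¹
    have hc0 : c ≠ 0 := fun h => by simp [h, hiso u hu] at hc
    have hv0 : c • u ≠ 0 := smul_ne_zero hc0 hu
    have hQv : Q (c • u) = 1 := by
      rw [QuadraticMap.map_smul, smul_eq_mul, ← hc, inv_mul_cancel₀ (hiso u hu)]
    obtain ⟨w, hw⟩ := partner _ hv0
    refine Or.inr ⟨c • u, w, Q w, indep _ _ hw, fun x => ?_, hQv, rfl, hw⟩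
    have hne : x • (c • u) + w ≠ 0 := by
      intro h0
      have h1 := congrArg (QuadraticMap.polar Q (c • u)) h0
      rw [QuadraticMap.polar_add_right, QuadraticMap.polar_smul_right, QuadraticMap.polar_self, hw,
        two_nsmul, CharTwo.add_self_eq_zero, smul_zero, zero_add, QuadraticMap.polar_zero_right] at h1
      exact one_ne_zero h1
    have h := hiso _ hne
    rw [QuadraticMap.map_add Q (x • (c • u)) w, QuadraticMap.map_smul Q x (c • u),
      QuadraticMap.polar_smul_left Q x (c • u) w, hQv, hw] at h
    intro h0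
    apply h
    simp only [smul_eq_mul]
    linear_combination h0

end Cfsg.Agent.S0763
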