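import Cfsg.Statements.S0767
import Cfsg.Agent.Lib.Forms.SympMatrix

set_option autoImplicit false
open Cfsg

namespace Cfsg.Agent.S0767

/-- The root group of a point: T_v(c) T_v(d) = T_v(c + d), and for A in the symplectic group with A v = a v, the conjugate A T_v(c) A⁻¹ is again some T_v(d). -/
theorem result {F : Type*} [Field F] (m : ℕ) (v : Fin m ⊕ Fin m → F) : (∀ c d : F, Cfsg.sympTransvection m v c * Cfsg.sympTransvection m v d = Cfsg.sympTransvection m v (c + d)) ∧ ∀ (A : Matrix (Fin m ⊕ Fin m) (Fin m ⊕ Fin m) F) (a : F), A ∈ Matrix.symplecticGroup (Fin m) F → A.mulVec v = a • v → ∀ c : F, ∃ d : F, A * Cfsg.sympTransvection m v c * A⁻¹ = Cfsg.sympTransvection m v d := by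
  refine ⟨CfsgLib.Forms.sympTransvection_mul v, fun A a hA hv c => ⟨c * a * a, ?_⟩⟩
  rw [CfsgLib.Forms.conj_sympTransvection hA, hv]
  apply Matrix.ext_of_mulVec_single
  intro i
  simp only [CfsgLib.Forms.sympTransvection_mulVec, ← CfsgLib.Omega.sympBilin_apply, map_smul,
    smul_eq_mul, smul_smul]
  ring_nf

end Cfsg.Agent.S0767
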