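import Cfsg.Statements.S0768
import Cfsg.Agent.Lib.Forms.SympBridge
import Cfsg.Agent.Lib.Geometric.SympStab

set_option autoImplicit false
open scoped LinearAlgebra.Projectivization
open Cfsg

namespace Cfsg.Agent.S0768

/-- Primitivity: for m ≥ 1 and F finite, the symplectic group of the form sympForm (as a subgroup of the general linear group) acts primitively on the projective space of F^(2m). -/
theorem result {F : Type*} [Field F] [Finite F] (m : ℕ) (hm : 1 ≤ m) : MulAction.IsPreprimitive ↥(Cfsg.spGL m F) (ℙ F (Fin m ⊕ Fin m → F)) := by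
  have hf := CfsgLib.Geometric.isSymplecticForm_sympForm m F
  have : Nonempty (Fin m ⊕ Fin m) := ⟨Sum.inl ⟨0, hm⟩⟩
  have hact : ∀ (g : ↥(Cfsg.spGL m F)) (v : Fin m ⊕ Fin m → F) (hv : v ≠ 0),
      g • Projectivization.mk F v hv = Projectivization.mk F (CfsgLib.Geometric.ap (g : Matrix.GeneralLinearGroup (Fin m ⊕ Fin m) F) v)
        (CfsgLib.Geometric.ap_ne_zero _ hv) := fun g v hv => rfl
  -- non-zero vectors form one orbit
  have hvec : ∀ u v : Fin m ⊕ Fin m → F, u ≠ 0 → v ≠ 0 →
      ∃ g ∈ Cfsg.spGL m F, CfsgLib.Geometric.ap g u = v := by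
    intro u v hu hv
    obtain ⟨h, -, hi, -, hm⟩ := CfsgLib.Geometric.Symp.exists_move hf (M := (⊤ : Subgroup (Matrix.GeneralLinearGroup (Fin m ⊕ Fin m) F))) (U := ⊥)
      (fun _ _ _ => trivial) (x := u) (y := v) (CfsgLib.Geometric.Symp.mem_perp_bot hf _)
      (CfsgLib.Geometric.Symp.exists_perp_ne hf (by simpa using hu))
      (CfsgLib.Geometric.Symp.exists_perp_ne hf (by simpa using hv))
    exact ⟨h, hi, hm⟩
  have : MulAction.IsPretransitive ↥(Cfsg.spGL m F) (ℙ F (Fin m ⊕ Fin m → F)) := by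
    constructor
    intro x y
    induction x using Projectivization.ind with
    | h u hu =>
      induction y using Projectivization.ind with
      | h v hv =>
        obtain ⟨g, hg, hgu⟩ := hvec u v hu hv
        refine ⟨⟨g, hg⟩, ?_⟩
        rw [hact, Projectivization.mk_eq_mk_iff']
        exact ⟨1, by rw [one_smul]; exact hgu.symm⟩
  let e₁ : Fin m ⊕ Fin m → F := Pi.single (Sum.inl ⟨0, hm⟩) 1
  have he₁ : e₁ ≠ 0 := by simp [e₁]
  let e₂ : Fin m ⊕ Fin m → F := Pi.single (Sum.inr ⟨0, hm⟩) 1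
  have he₂ : e₂ ≠ 0 := by simp [e₂]
  have : Nontrivial (ℙ F (Fin m ⊕ Fin m → F)) := by
    refine ⟨Projectivization.mk F e₁ he₁, Projectivization.mk F e₂ he₂, fun h => ?_⟩
    rw [Projectivization.mk_eq_mk_iff'] at h
    obtain ⟨c, hc⟩ := h
    simpa [e₁, e₂] using congrFun hc (Sum.inl ⟨0, hm⟩)
  rw [← MulAction.isCoatom_stabilizer_iff_preprimitive _ (Projectivization.mk F e₁ he₁)]
  set W : Submodule F (Fin m ⊕ Fin m → F) := Submodule.span F {e₁} with hW
  have hW0 : W ≠ ⊥ := by simpa [hW] using he₁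
  have hWts : Cfsg.Geo.IsTotallySingularFor (Cfsg.sympForm m F) W := by
    intro u hu v hv
    obtain ⟨a, rfl⟩ := Submodule.mem_span_singleton.mp hu
    obtain ⟨b, rfl⟩ := Submodule.mem_span_singleton.mp hv
    rw [hf.bilinear.smul_left, hf.bilinear.smul_right, hf.alternating, mul_zero, mul_zero]
  obtain ⟨hlt, hmax⟩ := CfsgLib.Geometric.Symp.stab_isMaximalIn_of_totallySingular hf hW0 hWts
  have hstab : MulAction.stabilizer ↥(Cfsg.spGL m F) (Projectivization.mk F e₁ he₁)
      = (Cfsg.Geo.subspaceStabilizer W ⊓ Cfsg.spGL m F).subgroupOf (Cfsg.spGL m F) := by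
    ext g
    rw [MulAction.mem_stabilizer_iff, hact, Projectivization.mk_eq_mk_iff', Subgroup.mem_subgroupOf]
    constructor
    · rintro ⟨c, hc⟩
      refine ⟨CfsgLib.Geometric.mem_subspaceStabilizer_of_mapsTo _ _ fun x hx => ?_, g.2⟩
      obtain ⟨a, rfl⟩ := Submodule.mem_span_singleton.mp hx
      rw [CfsgLib.Geometric.ap_smul, ← hc, smul_smul]
      exact Submodule.mem_span_singleton.mpr ⟨_, rfl⟩
    · rintro ⟨hg, -⟩
      exact Submodule.mem_span_singleton.mp (((CfsgLib.Geometric.mem_subspaceStabilizer_iff _ _).mp hg _).mp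
        (Submodule.mem_span_singleton_self e₁))
  rw [hstab]
  refine ⟨fun htop => ?_, fun M hM => ?_⟩
  · rw [Subgroup.subgroupOf_eq_top] at htop
    exact hlt.not_ge htop
  · have hle : Cfsg.Geo.subspaceStabilizer W ⊓ Cfsg.spGL m F ≤ M.map (Cfsg.spGL m F).subtype :=
      fun g hg => ⟨⟨g, hg.2⟩, hM.le hg, rfl⟩
    rcases hmax _ hle (Subgroup.map_subtype_le M) with h | h
    · exfalso
      apply hM.ne
      rw [← Subgroup.comap_map_eq_self_of_injective (Cfsg.spGL m F).subtype_injective M]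
      exact congrArg _ h.symm
    · rw [← Subgroup.comap_map_eq_self_of_injective (Cfsg.spGL m F).subtype_injective M, h]
      exact Subgroup.subgroupOf_self _

end Cfsg.Agent.S0768
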