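import Cfsg.Statements.S0769


set_option autoImplicit false
open Cfsg

namespace Cfsg.Agent.S0769

/-- Order of the Borel subgroup of GL_n(q): the invertible lower-triangular n × n matrices over a field with q elements number q^(n(n-1)/2) (q-1)^n (unitriangular part times the diagonal torus). -/
theorem result {F : Type*} [Field F] [Fintype F] {q : ℕ} (hF : Fintype.card F = q) (n : ℕ) : Nat.card {g : Matrix.GeneralLinearGroup (Fin n) F // ∀ i j : Fin n, i < j → (g : Matrix (Fin n) (Fin n) F) i j = 0} = q ^ (n * (n - 1) / 2) * (q - 1) ^ n := by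
  classical
  have hblock : ∀ M : Matrix (Fin n) (Fin n) F, (∀ i j, i < j → M i j = 0) → M.det = ∏ i, M i i :=
    fun M hM => Matrix.det_of_lowerTriangular M fun i j hij => hM i j hij
  let mk : (Fin n → Fˣ) × ((i : Fin n) → Fin (i : ℕ) → F) → Matrix (Fin n) (Fin n) F :=
    fun p => Matrix.of fun i j =>
      if h : (j : ℕ) < (i : ℕ) then p.2 i ⟨j, h⟩ else if i = j then (p.1 i : F) else 0
  have hmk0 : ∀ p i j, i < j → mk p i j = 0 := fun p i j hij => by
    have h1 := Fin.lt_def.mp hij
    show dite ((j : ℕ) < (i : ℕ)) _ _ = 0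
    rw [dif_neg (by omega), if_neg (ne_of_lt hij)]
  have hmkd : ∀ p i, mk p i i = (p.1 i : F) := fun p i => by simp [mk]
  have hdet : ∀ p, (mk p).det ≠ 0 := fun p => by
    rw [hblock _ (hmk0 p), Finset.prod_ne_zero_iff]
    exact fun i _ => by rw [hmkd]; exact (p.1 i).ne_zero
  have hdiag : ∀ g : {g : Matrix.GeneralLinearGroup (Fin n) F //
      ∀ i j : Fin n, i < j → (g : Matrix (Fin n) (Fin n) F) i j = 0},
      ∀ i, ((g : Matrix.GeneralLinearGroup (Fin n) F) : Matrix (Fin n) (Fin n) F) i i ≠ 0 := by
    intro g i h0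
    have h := (Matrix.isUnit_iff_isUnit_det _).mp (g : Matrix.GeneralLinearGroup (Fin n) F).isUnit
    rw [hblock _ g.2] at h
    exact h.ne_zero (Finset.prod_eq_zero (Finset.mem_univ i) h0)
  let e : {g : Matrix.GeneralLinearGroup (Fin n) F // ∀ i j : Fin n, i < j → (g : Matrix (Fin n) (Fin n) F) i j = 0}
      ≃ (Fin n → Fˣ) × ((i : Fin n) → Fin (i : ℕ) → F) :=
    { toFun := fun g => (fun i => Units.mk0 _ (hdiag g i),
        fun i j => ((g : Matrix.GeneralLinearGroup (Fin n) F) : Matrix (Fin n) (Fin n) F) i (Fin.castLE i.2.le j))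
      invFun := fun p => ⟨Matrix.GeneralLinearGroup.mkOfDetNeZero (mk p) (hdet p), hmk0 p⟩
      left_inv := fun g => by
        apply Subtype.ext
        apply Units.ext
        ext i j
        show mk _ i j = _
        rcases lt_trichotomy (j : ℕ) (i : ℕ) with h | h | h
        · exact dif_pos h
        · obtain rfl : j = i := Fin.ext h
          simp [mk]
        · exact (hmk0 _ i j h).trans (g.2 i j h).symm
      right_inv := fun p => by
        refine Prod.ext (funext fun i => Units.ext (hmkd p i)) (funext fun i => funext fun j => ?_)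
        exact dif_pos (show ((Fin.castLE i.2.le j : Fin n) : ℕ) < (i : ℕ) from j.2) }
  rw [Nat.card_congr e, Nat.card_prod, Nat.card_pi, Nat.card_pi, mul_comm]
  congr 1
  · simp only [Nat.card_eq_fintype_card, Fintype.card_pi, Finset.prod_const, Finset.card_univ,
      Fintype.card_fin, hF, Finset.prod_pow_eq_pow_sum]
    congr 1
    rw [Fin.sum_univ_eq_sum_range fun i => i, Finset.sum_range_id]
  · simp [Fintype.card_units, hF]

end Cfsg.Agent.S0769
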