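import Cfsg.Statements.S0770


set_option autoImplicit false
open Cfsg

namespace Cfsg.Agent.S0770

/-- For a field with at least 3 elements, an invertible matrix normalises the subgroup of invertible diagonal matrices of GL_n if and only if it is monomial (exactly one non-zero entry in each row). -/
theorem result {F : Type*} [Field F] (hF : ∃ a : F, a ≠ 0 ∧ a ≠ 1) (n : ℕ) (g : Matrix.GeneralLinearGroup (Fin n) F) : g ∈ Subgroup.normalizer ((Units.map (Matrix.diagonalRingHom (Fin n) F).toMonoidHom).range : Subgroup (Matrix.GeneralLinearGroup (Fin n) F)) ↔ ∀ i : Fin n, ∃! j : Fin n, (g : Matrix (Fin n) (Fin n) F) i j ≠ 0 := by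
  classical
  set M := (g : Matrix (Fin n) (Fin n) F) with hM
  have hrow : ∀ i, ∃ j, M i j ≠ 0 := by
    intro i
    by_contra h
    push Not at h
    exact ((Matrix.isUnit_iff_isUnit_det M).mp g.isUnit).ne_zero (Matrix.det_eq_zero_of_row_eq_zero i h)
  have hcol : ∀ j, ∃ i, M i j ≠ 0 := by
    intro j
    by_contra h
    push Not at h
    exact ((Matrix.isUnit_iff_isUnit_det M).mp g.isUnit).ne_zero (Matrix.det_eq_zero_of_column_eq_zero j h)
  let dg : (Fin n → Fˣ) → Matrix.GeneralLinearGroup (Fin n) F := fun d =>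
    Units.map (Matrix.diagonalRingHom (Fin n) F).toMonoidHom
      { val := fun i => (d i : F), inv := fun i => ((d i)⁻¹ : Fˣ),
        val_inv := funext fun i => by simp, inv_val := funext fun i => by simp }
  have hdg : ∀ d, (dg d : Matrix (Fin n) (Fin n) F) = Matrix.diagonal fun i => (d i : F) := fun d => rfl
  have hex : ∀ h : Matrix.GeneralLinearGroup (Fin n) F,
      h ∈ (Units.map (Matrix.diagonalRingHom (Fin n) F).toMonoidHom).range ↔ ∃ d, h = dg d := by
    intro h
    refine ⟨?_, fun ⟨d, hd⟩ => ⟨_, hd.symm⟩⟩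
    rintro ⟨u, rfl⟩
    exact ⟨fun i => (MulEquiv.piUnits u) i, Units.ext rfl⟩
  rw [Subgroup.mem_normalizer_iff]
  constructor
  · intro h i
    obtain ⟨j, hj⟩ := hrow i
    refine ⟨j, hj, fun j' hj' => ?_⟩
    by_contra hne
    obtain ⟨a, ha0, ha1⟩ := hF
    obtain ⟨d', hd'⟩ := (hex _).mp ((h (dg (Function.update 1 j (Units.mk0 a ha0)))).mp ((hex _).mpr ⟨_, rfl⟩))
    have heq : M * Matrix.diagonal (fun l => ((Function.update (1 : Fin n → Fˣ) j (Units.mk0 a ha0) l : Fˣ) : F))
        = Matrix.diagonal (fun l => (d' l : F)) * M := by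
      rw [← hdg, ← hdg, hM, ← Units.val_mul, ← Units.val_mul, ← hd', inv_mul_cancel_right]
    have h1 := congrFun (congrFun heq i) j
    have h2 := congrFun (congrFun heq i) j'
    rw [Matrix.mul_diagonal, Matrix.diagonal_mul, mul_comm] at h1 h2
    simp only [Function.update_self, Units.val_mk0] at h1
    rw [Function.update_of_ne hne, Pi.one_apply, Units.val_one] at h2
    have e1 := mul_right_cancel₀ hj h1
    have e2 := mul_right_cancel₀ hj' h2
    exact ha1 (e1.trans e2.symm)
  · intro hmono h
    choose σ hσ hσu using hmono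
    have hsurj : Function.Surjective σ := fun j => by
      obtain ⟨i, hi⟩ := hcol j
      exact ⟨i, (hσu i j hi).symm⟩
    let s : Fin n ≃ Fin n := Equiv.ofBijective σ hsurj.bijective_of_finite
    have key : ∀ d : Fin n → Fˣ, g * dg d = dg (d ∘ s) * g := by
      intro d
      apply Units.ext
      rw [Units.val_mul, Units.val_mul, hdg, hdg, ← hM]
      ext i j
      rw [Matrix.mul_diagonal, Matrix.diagonal_mul, mul_comm]
      by_cases hj : M i j = 0
      · simp [hj]
      · rw [hσu i j hj]; rfl
    rw [hex, hex]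
    constructor
    · rintro ⟨d, rfl⟩
      exact ⟨d ∘ s, by rw [key, mul_inv_cancel_right]⟩
    · rintro ⟨d, hd⟩
      refine ⟨d ∘ s.symm, mul_left_cancel (a := g) ?_⟩
      rw [key, show (d ∘ s.symm) ∘ s = d by ext i; simp, ← hd, inv_mul_cancel_right]

end Cfsg.Agent.S0770
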