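import Cfsg.Statements.S0771
import Cfsg.Agent.Lib.Forms.CoordStab

set_option autoImplicit false
open Cfsg

namespace Cfsg.Agent.S0771

/-- Maximal parabolic of GL_n(q): the stabiliser of the coordinate subspace spanned by the first k basis vectors has order q^(k(n-k)) · |GL_k(q)| · |GL_(n-k)(q)| (unipotent radical of order q^(k(n-k)) and Levi complement GL_k × GL_(n-k)). -/
theorem result {F : Type*} [Field F] [Fintype F] {q : ℕ} (hF : Fintype.card F = q) (n k : ℕ) (hk : k ≤ n) : Nat.card ↥(Cfsg.stabilizing (Cfsg.glToMat (Fin n) F) {v : Fin n → F | ∀ i : Fin n, k ≤ (i : ℕ) → v i = 0}) = q ^ (k * (n - k)) * (∏ i : Fin k, (q ^ k - q ^ (i : ℕ))) * ∏ i : Fin (n - k), (q ^ (n - k) - q ^ (i : ℕ)) := by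
  classical
  obtain ⟨l, rfl⟩ := Nat.exists_eq_add_of_le hk
  rw [Nat.add_sub_cancel_left]
  let e : Fin k ⊕ Fin l ≃ Fin (k + l) := finSumFinEquiv
  have hel : ∀ i : Fin k, (e (Sum.inl i) : ℕ) < k := fun i => by simp [e]
  have her : ∀ i : Fin l, k ≤ (e (Sum.inr i) : ℕ) := fun i => by simp [e]
  let R : Matrix (Fin (k + l)) (Fin (k + l)) F ≃ₐ[F] Matrix (Fin k ⊕ Fin l) (Fin k ⊕ Fin l) F :=
    Matrix.reindexAlgEquiv F F e.symm
  have hR : ∀ M i j, R M i j = M (e i) (e j) := fun M i j => rfl
  have hblock : ∀ g : ↥(CfsgLib.Forms.coordStab (k + l) F k),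
      (R ((g : Matrix.GeneralLinearGroup (Fin (k + l)) F) : Matrix (Fin (k + l)) (Fin (k + l)) F)).toBlocks₂₁ = 0 :=
    fun g => Matrix.ext fun i j => CfsgLib.Forms.mem_coordStab_iff.mp g.2 _ _ (her i) (hel j)
  have hdet : ∀ g : ↥(CfsgLib.Forms.coordStab (k + l) F k),
      IsUnit (R ((g : Matrix.GeneralLinearGroup (Fin (k + l)) F) : Matrix (Fin (k + l)) (Fin (k + l)) F)).toBlocks₁₁.det ∧
      IsUnit (R ((g : Matrix.GeneralLinearGroup (Fin (k + l)) F) : Matrix (Fin (k + l)) (Fin (k + l)) F)).toBlocks₂₂.det := by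
    intro g
    have h := (Matrix.isUnit_iff_isUnit_det _).mp ((g : Matrix.GeneralLinearGroup (Fin (k + l)) F).isUnit.map R)
    rw [← Matrix.fromBlocks_toBlocks (R _), hblock g, Matrix.det_fromBlocks_zero₂₁] at h
    exact IsUnit.mul_iff.mp h
  let E : ↥(CfsgLib.Forms.coordStab (k + l) F k) ≃
      Matrix.GeneralLinearGroup (Fin k) F × Matrix.GeneralLinearGroup (Fin l) F × Matrix (Fin k) (Fin l) F :=
    { toFun := fun g => (((Matrix.isUnit_iff_isUnit_det _).mpr (hdet g).1).unit,
        ((Matrix.isUnit_iff_isUnit_det _).mpr (hdet g).2).unit,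
        (R ((g : Matrix.GeneralLinearGroup (Fin (k + l)) F) : Matrix (Fin (k + l)) (Fin (k + l)) F)).toBlocks₁₂)
      invFun := fun p => ⟨Matrix.GeneralLinearGroup.mkOfDetNeZero
          (R.symm (Matrix.fromBlocks (p.1 : Matrix (Fin k) (Fin k) F) p.2.2 0 (p.2.1 : Matrix (Fin l) (Fin l) F)))
          (by
            intro h0
            have h := (Matrix.isUnit_iff_isUnit_det _).mp
              ((show IsUnit (Matrix.fromBlocks (p.1 : Matrix (Fin k) (Fin k) F) p.2.2 0 (p.2.1 : Matrix (Fin l) (Fin l) F)) by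
                rw [Matrix.isUnit_iff_isUnit_det, Matrix.det_fromBlocks_zero₂₁]
                exact ((Matrix.isUnit_iff_isUnit_det _).mp p.1.isUnit).mul
                  ((Matrix.isUnit_iff_isUnit_det _).mp p.2.1.isUnit)).map R.symm)
            exact h.ne_zero h0),
        by
          rw [CfsgLib.Forms.mem_coordStab_iff]
          intro i j hi hj
          obtain ⟨i, rfl⟩ := e.surjective i
          obtain ⟨j, rfl⟩ := e.surjective j
          rcases i with i | i
          · have := hel i; omega
          · rcases j with j | j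
            · exact congrFun (congrFun (R.apply_symm_apply
                (Matrix.fromBlocks (p.1 : Matrix (Fin k) (Fin k) F) p.2.2 0 (p.2.1 : Matrix (Fin l) (Fin l) F))) (Sum.inr i)) (Sum.inl j)
            · have := her j; omega⟩
      left_inv := fun g => by
        apply Subtype.ext
        apply Units.ext
        show R.symm _ = _
        simp only [IsUnit.unit_spec]
        conv_lhs => rw [← hblock g, Matrix.fromBlocks_toBlocks]
        exact R.symm_apply_apply _
      right_inv := fun p => by
        refine Prod.ext (Units.ext ?_) (Prod.ext (Units.ext ?_) ?_)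
        · show (R (R.symm _)).toBlocks₁₁ = _
          simp
        · show (R (R.symm _)).toBlocks₂₂ = _
          simp
        · show (R (R.symm _)).toBlocks₁₂ = _
          simp }
  rw [Nat.card_congr E, Nat.card_prod, Nat.card_prod, Matrix.card_GL_field, Matrix.card_GL_field, hF]
  rw [show Nat.card (Matrix (Fin k) (Fin l) F) = Nat.card (Fin k → Fin l → F) from rfl, Nat.card_fun,
    Nat.card_fun, Nat.card_fin, Nat.card_fin, Nat.card_eq_fintype_card (α := F), hF, ← pow_mul,
    mul_comm l k]
  ring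

end Cfsg.Agent.S0771
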