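import Cfsg.Statements.S0772
import Cfsg.Agent.Lib.Forms.CoordStab

set_option autoImplicit false
open Cfsg

namespace Cfsg.Agent.S0772

/-- Maximal parabolics are maximal: over a finite field, for 0 < k < n the stabiliser in GL_n of the span of the first k coordinate vectors is a maximal proper subgroup. -/
theorem result {F : Type*} [Field F] [Finite F] (n k : ℕ) (hk0 : 0 < k) (hkn : k < n) : IsCoatom (Cfsg.stabilizing (Cfsg.glToMat (Fin n) F) {v : Fin n → F | ∀ i : Fin n, k ≤ (i : ℕ) → v i = 0}) := by
  classical
  refine ⟨fun htop => ?_, fun H hH => ?_⟩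
  · let a : Fin n := ⟨k, hkn⟩
    let b : Fin n := ⟨0, by omega⟩
    have hab : a ≠ b := by simp [a, b]; omega
    let t := Matrix.GeneralLinearGroup.mkOfDetNeZero (Matrix.transvection a b (1 : F))
      (by rw [Matrix.det_transvection_of_ne _ _ hab]; exact one_ne_zero)
    have ht : t ∈ CfsgLib.Forms.coordStab n F k := by rw [show CfsgLib.Forms.coordStab n F k = ⊤ from htop]; trivial
    have := CfsgLib.Forms.mem_coordStab_iff.mp ht a b (le_refl k) hk0
    simp [t, Matrix.transvection, Matrix.one_apply_ne hab] at this
  · obtain ⟨g, hgH, hg⟩ := SetLike.exists_of_lt hH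
    have hle : CfsgLib.Forms.coordStab n F k ≤ H := hH.le
    change g ∉ CfsgLib.Forms.coordStab n F k at hg
    rw [CfsgLib.Forms.mem_coordStab_iff] at hg
    push Not at hg
    obtain ⟨a, j, ha, hj, haj⟩ := hg
    let T : (x φ : Fin n → F) → φ ⬝ᵥ x = 0 → Matrix.GeneralLinearGroup (Fin n) F := fun x φ h =>
      { val := 1 + Matrix.vecMulVec x φ
        inv := 1 - Matrix.vecMulVec x φ
        val_inv := by
          rw [mul_sub, mul_one, add_mul, one_mul, Matrix.vecMulVec_mul_vecMulVec, h, zero_smul,
            Matrix.vecMulVec_zero]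
          abel
        inv_val := by
          rw [sub_mul, one_mul, mul_add, mul_one, Matrix.vecMulVec_mul_vecMulVec, h, zero_smul,
            Matrix.vecMulVec_zero]
          abel }
    let C : Set (Fin n → F) := {x | ∀ φ h, T x φ h ∈ H}
    have hconj : ∀ u ∈ H, ∀ x ∈ C, ((u : Matrix (Fin n) (Fin n) F).mulVec x) ∈ C := by
      intro u hu x hx φ h
      have h' : Matrix.vecMul φ (u : Matrix (Fin n) (Fin n) F) ⬝ᵥ x = 0 := by rwa [← Matrix.dotProduct_mulVec]
      have heq : T ((u : Matrix (Fin n) (Fin n) F).mulVec x) φ h * u = u * T x _ h' := by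
        apply Units.ext
        show (1 + Matrix.vecMulVec _ φ) * (u : Matrix (Fin n) (Fin n) F) = (u : Matrix (Fin n) (Fin n) F) * (1 + Matrix.vecMulVec x _)
        rw [add_mul, mul_add, one_mul, mul_one, Matrix.vecMulVec_mul, Matrix.mul_vecMulVec]
      rw [eq_mul_inv_of_mul_eq heq]
      exact H.mul_mem (H.mul_mem hu (hx _ h')) (H.inv_mem hu)
    have hlow : ∀ j : Fin n, (j : ℕ) < k → Pi.single j 1 ∈ C := by
      intro j hj φ h
      apply hle
      rw [CfsgLib.Forms.mem_coordStab_iff]
      intro i l hi hl
      have h1 : i ≠ j := fun he => by subst he; omega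
      have h2 : i ≠ l := fun he => by subst he; omega
      simp [T, Matrix.one_apply_ne h2, Matrix.vecMulVec_apply, Pi.single_eq_of_ne h1]
    set v := (g : Matrix (Fin n) (Fin n) F).mulVec (Pi.single j 1) with hv
    have hvC : v ∈ C := hconj g hgH _ (hlow j hj)
    have hva : v a ≠ 0 := by simpa [hv, Matrix.mulVec_single_one] using haj
    have hmove : ∀ w : Fin n → F, ∀ b : Fin n, k ≤ (b : ℕ) → w b ≠ 0 → w ∈ C → Pi.single b 1 ∈ C := by
      intro w b hb hwb hw
      let M : Matrix (Fin n) (Fin n) F := (1 : Matrix (Fin n) (Fin n) F).updateCol b w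
      have hMdet : M.det ≠ 0 := by
        have h1 : M.det = w b := by
          rw [← Matrix.cramer_apply, Matrix.cramer_one]
          rfl
        rwa [h1]
      let u := Matrix.GeneralLinearGroup.mkOfDetNeZero M hMdet
      have huH : u ∈ H := hle (by
        rw [CfsgLib.Forms.mem_coordStab_iff]
        intro i l hi hl
        have h1 : l ≠ b := fun he => by subst he; omega
        have h2 : i ≠ l := fun he => by subst he; omega
        simp [u, M, Matrix.updateCol_ne h1, Matrix.one_apply_ne h2])
      have hu : (u : Matrix (Fin n) (Fin n) F).mulVec (Pi.single b 1) = w := by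
        ext i
        simp [u, M, Matrix.mulVec_single_one]
      have := hconj u⁻¹ (H.inv_mem huH) w hw
      rwa [← hu, Matrix.mulVec_mulVec, ← Units.val_mul, inv_mul_cancel, Units.val_one, Matrix.one_mulVec] at this
    have hhigh : ∀ b : Fin n, Pi.single b 1 ∈ C := by
      intro b
      by_cases hb : (b : ℕ) < k
      · exact hlow b hb
      by_cases hvb : v b = 0
      · have hne : b ≠ a := fun he => hva (he ▸ hvb)
        let t := Matrix.GeneralLinearGroup.mkOfDetNeZero (Matrix.transvection b a (1 : F))
          (by rw [Matrix.det_transvection_of_ne _ _ hne]; exact one_ne_zero)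
        have htH : t ∈ H := hle (CfsgLib.Forms.transvection_mem_coordStab (Or.inr ha) 1 t rfl)
        refine hmove _ b (not_lt.mp hb) ?_ (hconj t htH v hvC)
        simp [t, Matrix.transvection, Matrix.add_mulVec, Matrix.mulVec, dotProduct, Matrix.single, Matrix.one_apply, add_mul, Finset.sum_add_distrib, hvb, hva]
      · exact hmove v b (not_lt.mp hb) hvb hvC
    rw [Subgroup.eq_top_iff']
    intro u
    have key : ∀ u' : Matrix.GeneralLinearGroup (Fin n) F,
        (u' : Matrix (Fin n) (Fin n) F) = (u : Matrix (Fin n) (Fin n) F) → u' ∈ H := by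
      refine Matrix.diagonal_transvection_induction_of_det_ne_zero
        (fun M => ∀ u' : Matrix.GeneralLinearGroup (Fin n) F, (u' : Matrix (Fin n) (Fin n) F) = M → u' ∈ H)
        _ ((Matrix.isUnit_iff_isUnit_det _).mp u.isUnit).ne_zero ?_ ?_ ?_
      · intro D _ u hu
        apply hle
        rw [CfsgLib.Forms.mem_coordStab_iff]
        intro i l hi hl
        have h2 : i ≠ l := fun he => by subst he; omega
        simp [hu, Matrix.diagonal_apply_ne _ h2]
      · intro t u hu
        have h : (t.c • Pi.single t.j (1 : F)) ⬝ᵥ (Pi.single t.i 1 : Fin n → F) = 0 := by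
          simp [Pi.single_eq_of_ne t.hij]
        have : u = T (Pi.single t.i 1) _ h := by
          apply Units.ext
          show (u : Matrix (Fin n) (Fin n) F) = 1 + _
          rw [hu]
          ext i l
          simp [Matrix.TransvectionStruct.toMatrix, Matrix.transvection, Matrix.single, Matrix.vecMulVec_apply, Pi.single_apply, eq_comm, ite_and]
          split_ifs <;> simp_all
        rw [this]
        exact hhigh _ _ h
      · intro A B hA hB hAP hBP u hu
        have h1 := hAP (Matrix.GeneralLinearGroup.mkOfDetNeZero A hA) rfl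
        have h2 := hBP (Matrix.GeneralLinearGroup.mkOfDetNeZero B hB) rfl
        have : u = Matrix.GeneralLinearGroup.mkOfDetNeZero A hA * Matrix.GeneralLinearGroup.mkOfDetNeZero B hB :=
          Units.ext hu
        rw [this]
        exact H.mul_mem h1 h2
    exact key u rfl

end Cfsg.Agent.S0772
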