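import Cfsg.Statements.S0773
import Cfsg.Agent.Lib.Forms.CoordStab

set_option autoImplicit false
open Cfsg

namespace Cfsg.Agent.S0773

/-- The stabilisers in GL_n(F), F finite, of the coordinate subspaces of dimensions k and n − k are isomorphic groups, but when 2k ≠ n (and 0 < k < n) no element of GL_n conjugates one onto the other. -/
theorem result {F : Type*} [Field F] [Finite F] (n k : ℕ) (hk0 : 0 < k) (hkn : k < n) (h2 : 2 * k ≠ n) : Nonempty (↥(Cfsg.stabilizing (Cfsg.glToMat (Fin n) F) {v : Fin n → F | ∀ i : Fin n, k ≤ (i : ℕ) → v i = 0}) ≃* ↥(Cfsg.stabilizing (Cfsg.glToMat (Fin n) F) {v : Fin n → F | ∀ i : Fin n, n - k ≤ (i : ℕ) → v i = 0})) ∧ ∀ g : Matrix.GeneralLinearGroup (Fin n) F, (Cfsg.stabilizing (Cfsg.glToMat (Fin n) F) {v : Fin n → F | ∀ i : Fin n, k ≤ (i : ℕ) → v i = 0}).map (MulAut.conj g).toMonoidHom ≠ Cfsg.stabilizing (Cfsg.glToMat (Fin n) F) {v : Fin n → F | ∀ i : Fin n, n - k ≤ (i : ℕ) → v i = 0} := by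
  classical
  let w := fun M : Matrix (Fin n) (Fin n) F => M.transpose.submatrix Fin.rev Fin.rev
  have hw : ∀ M N, w (M * N) = w N * w M := fun M N => by
    simp only [w, Matrix.transpose_mul]
    exact (Matrix.submatrix_mul_equiv _ _ Fin.rev Fin.revPerm Fin.rev).symm
  have hw1 : w 1 = 1 := by
    ext i j
    simp [w, Matrix.one_apply, eq_comm]
  let θ : Matrix.GeneralLinearGroup (Fin n) F →* Matrix.GeneralLinearGroup (Fin n) F :=
    { toFun := fun g =>
        { val := w (↑g⁻¹ : Matrix (Fin n) (Fin n) F)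
          inv := w (g : Matrix (Fin n) (Fin n) F)
          val_inv := by rw [← hw, ← Units.val_mul, mul_inv_cancel, Units.val_one, hw1]
          inv_val := by rw [← hw, ← Units.val_mul, inv_mul_cancel, Units.val_one, hw1] }
      map_one' := Units.ext (show w _ = _ by rw [inv_one, Units.val_one, hw1])
      map_mul' := fun g h => Units.ext (show w _ = w _ * w _ by rw [mul_inv_rev, Units.val_mul, hw]) }
  have hθ2 : ∀ g, θ (θ g) = g := fun g => Units.ext (by
    show w (w (g : Matrix (Fin n) (Fin n) F)) = _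
    ext i j
    simp [w])
  have hθmem : ∀ (k : ℕ) (g : Matrix.GeneralLinearGroup (Fin n) F), k ≤ n →
      g ∈ CfsgLib.Forms.coordStab n F k → θ g ∈ CfsgLib.Forms.coordStab n F (n - k) := by
    intro k g hk hg
    rw [CfsgLib.Forms.mem_coordStab_iff]
    intro i j hi hj
    show ((↑g⁻¹ : Matrix (Fin n) (Fin n) F)) (Fin.rev j) (Fin.rev i) = 0
    refine CfsgLib.Forms.mem_coordStab_iff.mp (inv_mem hg) _ _ ?_ ?_ <;> simp only [Fin.val_rev] <;> omega
  refine ⟨⟨{
      toFun := fun g => ⟨θ g, hθmem k _ hkn.le g.2⟩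
      invFun := fun g => ⟨θ g, by
        have := hθmem (n - k) _ (Nat.sub_le n k) g.2
        rwa [Nat.sub_sub_self hkn.le] at this⟩
      left_inv := fun g => Subtype.ext (hθ2 g)
      right_inv := fun g => Subtype.ext (hθ2 g)
      map_mul' := fun g h => Subtype.ext (θ.map_mul g h) }⟩, fun g hg => ?_⟩
  have hg' : ∀ h ∈ CfsgLib.Forms.coordStab n F k, g * h * g⁻¹ ∈ CfsgLib.Forms.coordStab n F (n - k) :=
    fun h hh => hg.le (Subgroup.mem_map_of_mem _ hh)
  -- `T` is the preimage of the coordinate subspace under `g`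
  let T : Submodule F (Fin n → F) :=
    { carrier := {v | ∀ i : Fin n, n - k ≤ (i : ℕ) → ((g : Matrix (Fin n) (Fin n) F).mulVec v) i = 0}
      add_mem' := fun {a b} ha hb i hi => by simp [Matrix.mulVec_add, ha i hi, hb i hi]
      zero_mem' := fun i _ => by simp
      smul_mem' := fun c a ha i hi => by simp [Matrix.mulVec_smul, ha i hi] }
  have hinv : ∀ h ∈ CfsgLib.Forms.coordStab n F k, ∀ v ∈ T, (h : Matrix (Fin n) (Fin n) F).mulVec v ∈ T := by
    intro h hh v hv
    have := (hg' h hh ((g : Matrix (Fin n) (Fin n) F).mulVec v)).mp hv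
    intro i hi
    have h2 := this i hi
    rwa [Units.coeHom_apply, Matrix.mulVec_mulVec, ← Units.val_mul, inv_mul_cancel_right, Units.val_mul,
      ← Matrix.mulVec_mulVec] at h2
  have he : ∀ v ∈ T, ∀ i : Fin n, v i ≠ 0 → ∀ a : Fin n, a ≠ i → ((a : ℕ) < k ∨ k ≤ (i : ℕ)) →
      Pi.single a 1 ∈ T := by
    intro v hv i hvi a hai hallow
    let t := Matrix.GeneralLinearGroup.mkOfDetNeZero (Matrix.transvection a i ((v i)⁻¹ : F))
      (by rw [Matrix.det_transvection_of_ne _ _ hai]; exact one_ne_zero)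
    have h := T.sub_mem (hinv t (CfsgLib.Forms.transvection_mem_coordStab hallow _ t rfl) v hv) hv
    have heq : (t : Matrix (Fin n) (Fin n) F).mulVec v - v = Pi.single a 1 := by
      ext l
      rcases eq_or_ne l a with rfl | hla <;>
      simp [t, Matrix.transvection, Matrix.add_mulVec, Matrix.mulVec, dotProduct, Matrix.single, Matrix.one_apply, add_mul, Finset.sum_add_distrib, Pi.single_apply, ite_and, hvi, eq_comm, *]
    rwa [heq] at h
  have he' : ∀ v ∈ T, ∀ i : Fin n, v i ≠ 0 → (∀ a, v a ≠ 0 → (a : ℕ) < k ∨ k ≤ (i : ℕ)) → Pi.single i 1 ∈ T := by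
    intro v hv i hvi hall
    have hrest : ∑ a ∈ Finset.univ.erase i, v a • (Pi.single a (1 : F) : Fin n → F) ∈ T := by
      refine T.sum_mem fun a ha => ?_
      by_cases hva : v a = 0
      · simp [hva]
      · exact T.smul_mem _ (he v hv i hvi a (Finset.ne_of_mem_erase ha) (hall a hva))
    have htot : v = v i • (Pi.single i (1 : F) : Fin n → F) + ∑ a ∈ Finset.univ.erase i, v a • Pi.single a 1 := by
      rw [Finset.add_sum_erase _ (fun a => v a • (Pi.single a (1 : F) : Fin n → F)) (Finset.mem_univ i)]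
      exact pi_eq_sum_univ' v
    have := T.sub_mem hv hrest
    nth_rw 1 [htot] at this
    rw [add_sub_cancel_right] at this
    exact (T.smul_mem_iff hvi).mp this
  have hlast : ∀ v ∈ T, ∀ i : Fin n, k ≤ (i : ℕ) → v i = 0 := by
    intro v hv i hi
    by_contra hvi
    have hall : ∀ a : Fin n, Pi.single a 1 ∈ T := fun a => by
      rcases eq_or_ne a i with rfl | hai
      · exact he' v hv a hvi fun _ _ => Or.inr hi
      · exact he v hv i hvi a hai (Or.inr hi)
    have htop : ∀ u : Fin n → F, u ∈ T := fun u => by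
      rw [pi_eq_sum_univ' u]
      exact T.sum_mem fun a _ => T.smul_mem _ (hall a)
    have := htop ((↑g⁻¹ : Matrix (Fin n) (Fin n) F).mulVec (Pi.single ⟨n - 1, by omega⟩ 1)) ⟨n - 1, by omega⟩
      (by show n - k ≤ n - 1; omega)
    rw [Matrix.mulVec_mulVec, ← Units.val_mul, mul_inv_cancel, Units.val_one, Matrix.one_mulVec,
      Pi.single_eq_same] at this
    exact one_ne_zero this
  have hne : ∀ j : Fin n, (j : ℕ) < k → Pi.single j 1 ∈ T := by
    obtain ⟨v, hv, hv0⟩ : ∃ v ∈ T, v ≠ 0 := by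
      refine ⟨(↑g⁻¹ : Matrix (Fin n) (Fin n) F).mulVec (Pi.single ⟨0, by omega⟩ 1), fun i hi => ?_, ?_⟩
      · simp only [Matrix.mulVec_mulVec, ← Units.val_mul, mul_inv_cancel, Units.val_one, Matrix.one_mulVec]
        exact Pi.single_eq_of_ne (fun h => by rw [h] at hi; simp at hi; omega) _
      · intro h
        have := congrArg ((g : Matrix (Fin n) (Fin n) F).mulVec) h
        rw [Matrix.mulVec_mulVec, ← Units.val_mul, mul_inv_cancel, Units.val_one, Matrix.one_mulVec,
          Matrix.mulVec_zero] at this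
        simpa using congrFun this ⟨0, by omega⟩
    obtain ⟨i, hvi⟩ : ∃ i, v i ≠ 0 := Function.ne_iff.mp hv0
    intro j hj
    rcases eq_or_ne j i with rfl | hji
    · exact he' v hv j hvi fun a ha => Or.inl (by by_contra h; exact ha (hlast v hv a (not_lt.mp h)))
    · exact he v hv i hvi j hji (Or.inl hj)
  have hTeq : ∀ v, v ∈ T ↔ ∀ i : Fin n, k ≤ (i : ℕ) → v i = 0 := by
    refine fun v => ⟨hlast v, fun h => ?_⟩
    rw [pi_eq_sum_univ' v]
    refine T.sum_mem fun a _ => ?_
    by_cases ha : (a : ℕ) < k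
    · exact T.smul_mem _ (hne a ha)
    · simp [h a (not_lt.mp ha)]
  have hcard : ∀ l : ℕ, l ≤ n → Nat.card {v : Fin n → F // ∀ i : Fin n, l ≤ (i : ℕ) → v i = 0} = Nat.card F ^ l := by
    intro l hl
    have e : {v : Fin n → F // ∀ i : Fin n, l ≤ (i : ℕ) → v i = 0} ≃ (Fin l → F) :=
      { toFun := fun v i => v.1 (Fin.castLE hl i)
        invFun := fun u => ⟨fun i => if h : (i : ℕ) < l then u ⟨i, h⟩ else 0,
          fun i hi => dif_neg (not_lt.mpr hi)⟩
        left_inv := fun v => Subtype.ext (funext fun i => by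
          by_cases h : (i : ℕ) < l
          · simp [h]
          · simp [h, v.2 i (not_lt.mp h)])
        right_inv := fun u => funext fun i => by simp }
    rw [Nat.card_congr e, Nat.card_fun, Nat.card_fin]
  have hbij : {v : Fin n → F // ∀ i : Fin n, k ≤ (i : ℕ) → v i = 0}
      ≃ {v : Fin n → F // ∀ i : Fin n, n - k ≤ (i : ℕ) → v i = 0} :=
    { toFun := fun v => ⟨(g : Matrix (Fin n) (Fin n) F).mulVec v, (hTeq v).mpr v.2⟩
      invFun := fun v => ⟨(↑g⁻¹ : Matrix (Fin n) (Fin n) F).mulVec v, (hTeq _).mp fun i hi => by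
        simpa [Matrix.mulVec_mulVec] using v.2 i hi⟩
      left_inv := fun v => Subtype.ext (by simp [Matrix.mulVec_mulVec])
      right_inv := fun v => Subtype.ext (by simp [Matrix.mulVec_mulVec]) }
  have := Nat.card_congr hbij
  rw [hcard k hkn.le, hcard (n - k) (Nat.sub_le n k)] at this
  have := Nat.pow_right_injective (Finite.one_lt_card (α := F)) this
  omega

end Cfsg.Agent.S0773
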