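import Cfsg.Statements.S0774
import Cfsg.Agent.Lib.Forms.FrameCount

set_option autoImplicit false
open Cfsg

open scoped Matrix

namespace Cfsg.Agent.S0774

/-- Borel subgroup of the symplectic group: the elements of Sp_2m(q) stabilising each of the totally isotropic coordinate subspaces ⟨e_0, ..., e_k⟩ (k < m) form a subgroup of order q^(m²) (q − 1)^m. -/
theorem result {F : Type*} [Field F] [Fintype F] {q : ℕ} (hF : Fintype.card F = q) (m : ℕ) : Nat.card ↥(⨅ k : Fin m, Cfsg.stabilizing (Cfsg.spToMat m F) {v : Fin m ⊕ Fin m → F | (∀ i : Fin m, (k : ℕ) < (i : ℕ) → v (Sum.inl i) = 0) ∧ ∀ i : Fin m, v (Sum.inr i) = 0}) = q ^ (m ^ 2) * (q - 1) ^ m := by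
  classical
  subst hF
  let Fl : ℕ → Submodule F (Fin m ⊕ Fin m → F) := fun j =>
    { carrier := {v | (∀ i : Fin m, j ≤ (i : ℕ) → v (Sum.inl i) = 0) ∧ ∀ i : Fin m, v (Sum.inr i) = 0}
      add_mem' := fun ha hb => ⟨fun i hi => by simp [ha.1 i hi, hb.1 i hi],
        fun i => by simp [ha.2 i, hb.2 i]⟩
      zero_mem' := ⟨fun _ _ => rfl, fun _ => rfl⟩
      smul_mem' := fun c x hx => ⟨fun i hi => by simp [hx.1 i hi], fun i => by simp [hx.2 i]⟩ }
  have hmono : ∀ {a b : ℕ}, a ≤ b → Fl a ≤ Fl b := fun hab x hx =>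
    ⟨fun i hi => hx.1 i (hab.trans hi), hx.2⟩
  have hdim : ∀ j, j ≤ m → Module.finrank F (Fl j) = j := by
    intro j hj
    let e : Fl j ≃ₗ[F] (Fin j → F) :=
      { toFun := fun x i => x.1 (Sum.inl (Fin.castLE hj i))
        map_add' := fun _ _ => rfl
        map_smul' := fun _ _ => rfl
        invFun := fun y => ⟨Sum.elim (fun i => if h : (i : ℕ) < j then y ⟨i, h⟩ else 0) 0,
          fun i hi => by simp [not_lt.mpr hi], fun i => rfl⟩
        left_inv := fun x => by
          ext (i | i)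
          · by_cases h : (i : ℕ) < j
            · simp [h]
            · simp [h, x.2.1 i (not_lt.mp h)]
          · simp [x.2.2 i]
        right_inv := fun y => by ext i; simp }
    rw [e.finrank_eq, Module.finrank_fin_fun]
  let v : Fin m → Fin m ⊕ Fin m → F := fun i => Pi.single (Sum.inl i) 1
  have hvmem : ∀ i : Fin m, v i ∈ Fl ((i : ℕ) + 1) := fun i =>
    ⟨fun l hl => Pi.single_eq_of_ne (fun h => by rw [Sum.inl.inj h] at hl; omega) _,
      fun l => Pi.single_eq_of_ne Sum.inr_ne_inl _⟩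
  set S : Set (Fin m → Fin m ⊕ Fin m → F) :=
    {w | LinearIndependent F w ∧ ∀ i : Fin m, w i ∈ Fl ((i : ℕ) + 1)} with hS
  have hiso : ∀ u ∈ Fl m, ∀ w ∈ Fl m, Cfsg.sympForm m F u w = 0 := fun u hu w hw => by
    rw [CfsgLib.Omega.sympForm_eq_sum]
    exact Finset.sum_eq_zero fun i _ => by simp [hu.2 i, hw.2 i]
  have hframe : ∀ w ∈ S, CfsgLib.Forms.IsSympFrame m w := fun w hw =>
    CfsgLib.Forms.isSympFrame_of_mem hiso hw.1 fun i => hmono i.2 (hw.2 i)
  have hvli : LinearIndependent F v := by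
    refine Fintype.linearIndependent_iff.mpr fun g hg i => ?_
    simpa [v, Finset.sum_apply, Pi.single_apply] using congrFun hg (Sum.inl i)
  set H := (⨅ k : Fin m, Cfsg.stabilizing (Cfsg.spToMat m F) {v : Fin m ⊕ Fin m → F |
    (∀ i : Fin m, (k : ℕ) < (i : ℕ) → v (Sum.inl i) = 0) ∧ ∀ i : Fin m, v (Sum.inr i) = 0})
  have hH : ∀ g, g ∈ H ↔ g • v ∈ S := by
    intro g
    constructor
    · intro hg
      refine ⟨(CfsgLib.Forms.isSympFrame_smul g (hframe v ⟨hvli, hvmem⟩)).1, fun i => ?_⟩
      exact ((Subgroup.mem_iInf.mp hg i) (v i)).mp (hvmem i)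
    · intro hg
      refine Subgroup.mem_iInf.mpr fun k => ?_
      have hle : ∀ x ∈ Fl ((k : ℕ) + 1), g • x ∈ Fl ((k : ℕ) + 1) := by
        intro x hx
        have hxs : x = ∑ i : Fin m, x (Sum.inl i) • v i := by
          ext (i | i)
          · simp [v, Finset.sum_apply, Pi.single_apply]
          · simp [v, hx.2 i, Finset.sum_apply]
        rw [hxs, Finset.smul_sum]
        refine Submodule.sum_mem _ fun i _ => ?_
        by_cases hi : (k : ℕ) + 1 ≤ (i : ℕ)
        · rw [hx.1 i hi, zero_smul, smul_zero]; exact Submodule.zero_mem _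
        · rw [smul_comm]
          exact Submodule.smul_mem _ _ (hmono (by omega) (hg.2 i))
      have hsurj : Function.Surjective (fun x : Fl ((k : ℕ) + 1) => (⟨g • (x : Fin m ⊕ Fin m → F),
          hle x x.2⟩ : Fl ((k : ℕ) + 1))) :=
        Finite.surjective_of_injective fun x y h => Subtype.ext (smul_left_cancel g (congrArg Subtype.val h))
      intro x
      refine ⟨fun hx => hle x hx, fun hx => ?_⟩
      obtain ⟨y, hy⟩ := hsurj ⟨g • x, hx⟩
      exact smul_left_cancel g (congrArg Subtype.val hy) ▸ y.2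
  have hc := CfsgLib.Forms.card_mul_prod_frames (hframe v ⟨hvli, hvmem⟩) H S hH hframe
  have hSc : Nat.card S = ∏ j ∈ Finset.range m, (Fintype.card F ^ (j + 1) - Fintype.card F ^ j) := by
    refine CfsgLib.Forms.card_tuples_eq_prod (V := Fin m ⊕ Fin m → F)
      (fun l w => LinearIndependent F w ∧ ∀ i : Fin l, w i ∈ Fl ((i : ℕ) + 1)) _
      ⟨linearIndependent_empty_type, fun i => i.elim0⟩ (fun l w hw => ?_) m fun j hj w hw => ?_
    · exact ⟨hw.1.comp _ (Fin.castSucc_injective _), fun i => hw.2 i.castSucc⟩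
    have hle : Submodule.span F (Set.range w) ≤ Fl j := by
      rw [Submodule.span_le]
      rintro _ ⟨i, rfl⟩
      exact hmono i.2 (hw.2 i)
    have hspan : Submodule.span F (Set.range w) = Fl j :=
      Submodule.eq_of_le_of_finrank_eq hle
        (by rw [finrank_span_eq_card hw.1, Fintype.card_fin, hdim j hj.le])
    have e : {x // LinearIndependent F (Fin.snoc w x : Fin (j + 1) → Fin m ⊕ Fin m → F) ∧
        ∀ i : Fin (j + 1), (Fin.snoc w x : Fin (j + 1) → Fin m ⊕ Fin m → F) i ∈ Fl ((i : ℕ) + 1)} ≃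
        {x // x ∈ Fl (j + 1) ∧ x ∉ Fl j} := Equiv.subtypeEquivRight fun x => by
      constructor
      · intro h
        exact ⟨by simpa using h.2 (Fin.last j), hspan ▸ (linearIndependent_finSnoc.mp h.1).2⟩
      · rintro ⟨h1, h2⟩
        refine ⟨linearIndependent_finSnoc.mpr ⟨hw.1, hspan.symm ▸ h2⟩, fun i => ?_⟩
        induction i using Fin.lastCases with
        | last => simpa using h1
        | cast i => simpa using hw.2 i
    rw [Nat.card_congr e, CfsgLib.Forms.card_mem_not_mem _ _ (hmono (Nat.le_succ j)), hdim j hj.le,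
      hdim (j + 1) hj]
  have hp := CfsgLib.Forms.prod_frames_mul_eq (Fintype.card F) m m le_rfl
  rw [Nat.sub_self, Finset.range_zero, Finset.prod_empty, mul_one] at hp
  have hS' : ∀ l, (∏ j ∈ Finset.range l, (Fintype.card F ^ (j + 1) - Fintype.card F ^ j)) =
      Fintype.card F ^ (l.choose 2) * (Fintype.card F - 1) ^ l := by
    intro l
    induction l with
    | zero => simp
    | succ l ih =>
      have h3 : Fintype.card F ^ (l + 1) - Fintype.card F ^ l =
          Fintype.card F ^ l * (Fintype.card F - 1) := by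
        rw [Nat.mul_sub_left_distrib, mul_one, pow_succ]
      rw [Finset.prod_range_succ, ih, h3, Nat.choose_succ_succ, Nat.choose_one_right, pow_add,
        pow_succ]
      ring
  have hpos : 0 < ∏ j ∈ Finset.range m, (Fintype.card F ^ (2 * m - j) - Fintype.card F ^ j) := by
    refine Finset.prod_pos fun j hj => Nat.sub_pos_of_lt (Nat.pow_lt_pow_right Fintype.one_lt_card ?_)
    have := Finset.mem_range.mp hj
    omega
  refine Nat.eq_of_mul_eq_mul_right hpos (hc.trans ?_)
  rw [hSc, hS', hp]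
  ring

end Cfsg.Agent.S0774
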