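import Cfsg.Statements.S0775
import Cfsg.Agent.Lib.Forms.FrameCount

set_option autoImplicit false
open Cfsg

open scoped Matrix

namespace Cfsg.Agent.S0775

/-- Maximal parabolics of the symplectic group: if W is a k-dimensional subspace of F^(2m) on which the symplectic form vanishes identically, its stabiliser in Sp_2m(q) has order q^(k(k+1)/2 + 2k(m−k)) · |Sp_(2m−2k)(q)| · |GL_k(q)|. -/
theorem result {F : Type*} [Field F] [Fintype F] {q : ℕ} (hF : Fintype.card F = q) (m k : ℕ) (hk : k ≤ m) (W : Submodule F (Fin m ⊕ Fin m → F)) (hWk : Module.finrank F W = k) (hW : ∀ u ∈ W, ∀ v ∈ W, Cfsg.sympForm m F u v = 0) : Nat.card ↥(Cfsg.stabilizing (Cfsg.spToMat m F) (W : Set (Fin m ⊕ Fin m → F))) = q ^ (k * (k + 1) / 2 + 2 * k * (m - k)) * (q ^ ((m - k) ^ 2) * ∏ i ∈ Finset.range (m - k), (q ^ (2 * (i + 1)) - 1)) * ∏ i : Fin k, (q ^ k - q ^ (i : ℕ)) := by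
  classical
  subst hF
  let b := Module.finBasisOfFinrankEq F W hWk
  let v : Fin k → Fin m ⊕ Fin m → F := fun i => (b i : Fin m ⊕ Fin m → F)
  have hvli : LinearIndependent F v := b.linearIndependent.map' W.subtype W.ker_subtype
  have hv := CfsgLib.Forms.isSympFrame_of_mem hW hvli fun i => (b i).2
  set S : Set (Fin k → Fin m ⊕ Fin m → F) := {w | LinearIndependent F w ∧ ∀ i, w i ∈ W} with hS
  set H := Cfsg.stabilizing (Cfsg.spToMat m F) (W : Set (Fin m ⊕ Fin m → F))
  have hH : ∀ g, g ∈ H ↔ g • v ∈ S := by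
    intro g
    refine ⟨fun hg => ⟨(CfsgLib.Forms.isSympFrame_smul g hv).1, fun i => (hg (v i)).mp (b i).2⟩,
      fun hg => ?_⟩
    have hsp : W.map (Matrix.toLin' (g : Matrix (Fin m ⊕ Fin m) (Fin m ⊕ Fin m) F)) = W := by
      have hinj : Function.Injective (Matrix.toLin' (g : Matrix (Fin m ⊕ Fin m) (Fin m ⊕ Fin m) F)) :=
        Matrix.mulVec_injective_iff_isUnit.mpr (CfsgLib.Omega.isUnit_of_mem_symplecticGroup g.2)
      refine Submodule.eq_of_le_of_finrank_eq ?_
        (Submodule.equivMapOfInjective _ hinj W).finrank_eq.symm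
      rintro _ ⟨x, hx, rfl⟩
      have hxs := b.sum_repr ⟨x, hx⟩
      apply_fun Subtype.val at hxs
      rw [Submodule.coe_sum] at hxs
      rw [show x = ∑ i, ((b.repr ⟨x, hx⟩ i • b i : W) : Fin m ⊕ Fin m → F) from hxs.symm, map_sum]
      refine W.sum_mem fun i _ => ?_
      rw [Submodule.coe_smul, map_smul]
      exact W.smul_mem _ (hg.2 i)
    intro x
    refine ⟨fun hx => ?_, fun hx => ?_⟩
    · exact hsp.le ⟨x, hx, rfl⟩
    · obtain ⟨y, hy, he⟩ := hsp.ge hx
      exact (Matrix.mulVec_injective_iff_isUnit.mpr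
        (CfsgLib.Omega.isUnit_of_mem_symplecticGroup g.2) he) ▸ hy
  have hc := CfsgLib.Forms.card_mul_prod_frames hv H S hH
    fun w hw => CfsgLib.Forms.isSympFrame_of_mem hW hw.1 hw.2
  have hSc : Nat.card S = ∏ i : Fin k, (Fintype.card F ^ k - Fintype.card F ^ (i : ℕ)) := by
    have e : S ≃ {s : Fin k → W // LinearIndependent F s} :=
      { toFun := fun w => ⟨fun i => ⟨w.1 i, w.2.2 i⟩, w.2.1.of_comp W.subtype⟩
        invFun := fun s => ⟨fun i => (s.1 i : Fin m ⊕ Fin m → F),
          s.2.map' W.subtype W.ker_subtype, fun i => (s.1 i).2⟩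
        left_inv := fun w => rfl
        right_inv := fun s => rfl }
    rw [Nat.card_congr e, card_linearIndependent hWk.ge, hWk]
  have hp := CfsgLib.Forms.prod_frames_mul_eq (Fintype.card F) m k hk
  have hexp : k * (k + 1) / 2 + 2 * k * (m - k) + (m - k) ^ 2 + k.choose 2 = m ^ 2 := by
    have h1 : k * (k + 1) / 2 + k.choose 2 = k ^ 2 := by
      induction k with
      | zero => rfl
      | succ l ih =>
        clear ih
        rw [Nat.choose_two_right, Nat.add_sub_cancel, sq]
        have e1 : (l + 1) * (l + 1 + 1) = (l + 1) * l + 2 * (l + 1) := by ring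
        have e2 : (l + 1) * (l + 1) = (l + 1) * l + (l + 1) := by ring
        obtain ⟨t, ht⟩ : 2 ∣ (l + 1) * l := by
          rw [mul_comm]; exact (Nat.even_mul_succ_self l).two_dvd
        omega
    obtain ⟨d, rfl⟩ := Nat.exists_eq_add_of_le hk
    rw [Nat.add_sub_cancel_left]
    linear_combination h1
  have hpos : 0 < ∏ j ∈ Finset.range k, (Fintype.card F ^ (2 * m - j) - Fintype.card F ^ j) := by
    refine Finset.prod_pos fun j hj => Nat.sub_pos_of_lt (Nat.pow_lt_pow_right Fintype.one_lt_card ?_)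
    have := Finset.mem_range.mp hj
    omega
  refine Nat.eq_of_mul_eq_mul_right hpos (hc.trans ?_)
  rw [hSc, ← hexp, pow_add, pow_add, mul_assoc (_ * _) (Fintype.card F ^ k.choose 2), ← hp]
  ring

end Cfsg.Agent.S0775
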