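import Cfsg.Statements.S0776
import Cfsg.Agent.Lib.ClassicalLinear.SympBasic
import Cfsg.Agent.Lib.Forms.Symplectic

set_option autoImplicit false
open Cfsg

open scoped Matrix

namespace Cfsg.Agent.S0776

set_option maxHeartbeats 800000 in
/-- If W ≤ F^(2m) is a 2k-dimensional subspace on which the symplectic form is non-degenerate, then the stabiliser of W in Sp_2m(F) is isomorphic to Sp_2k(F) × Sp_(2m−2k)(F). -/
theorem result {F : Type*} [Field F] (m k : ℕ) (hk : k ≤ m) (W : Submodule F (Fin m ⊕ Fin m → F)) (hWk : Module.finrank F W = 2 * k) (hW : ∀ u ∈ W, (∀ v ∈ W, Cfsg.sympForm m F u v = 0) → u = 0) : Nonempty (↥(Cfsg.stabilizing (Cfsg.spToMat m F) (W : Set (Fin m ⊕ Fin m → F))) ≃* Matrix.symplecticGroup (Fin k) F × Matrix.symplecticGroup (Fin (m - k)) F) := by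
  classical
  set B := CfsgLib.Omega.sympBilin m F with hB
  have hrefl : B.IsRefl := (CfsgLib.Forms.sympBilin_isAlt m F).isRefl
  have hres : (B.restrict W).Nondegenerate := by
    refine ⟨fun u hu => ?_, fun u hu => ?_⟩ <;>
      refine Subtype.ext (hW u u.2 fun v hv => ?_)
    · rw [← CfsgLib.Omega.sympBilin_apply]
      exact hu ⟨v, hv⟩
    · rw [← CfsgLib.Omega.sympBilin_apply]
      exact hrefl _ _ (hu ⟨v, hv⟩)
  have hcompl : IsCompl W (B.orthogonal W) :=
    LinearMap.BilinForm.isCompl_orthogonal_of_restrict_nondegenerate hrefl hres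
  set C := B.orthogonal W with hC
  have hWC : ∀ w ∈ W, ∀ x ∈ C, B w x = 0 := fun w hw x hx => hx w hw
  have hresC : (B.restrict C).Nondegenerate := by
    have key : ∀ x : C, (∀ y : C, B x y = 0) → x = 0 := by
      intro x hx
      refine Subtype.ext (CfsgLib.Omega.sympBilin_nondegenerate _ fun z => ?_)
      obtain ⟨a, ha, b, hb, rfl⟩ :=
        Submodule.mem_sup.mp (hcompl.sup_eq_top.ge Submodule.mem_top : z ∈ W ⊔ B.orthogonal W)
      rw [map_add]
      exact (congrArg₂ (· + ·) (hrefl _ _ (hWC _ ha _ x.2)) (hx ⟨b, hb⟩)).trans (add_zero 0)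
    exact ⟨key, fun x hx => key x fun y => hrefl _ _ (hx y)⟩
  have hdimV : Module.finrank F (Fin m ⊕ Fin m → F) = 2 * m := by
    rw [Module.finrank_fintype_fun_eq_card, Fintype.card_sum, Fintype.card_fin, two_mul]
  have hdimC : Module.finrank F C = 2 * (m - k) := by
    have := Submodule.finrank_add_eq_of_isCompl hcompl
    omega
  obtain ⟨e1, he1⟩ := CfsgLib.Forms.alt_isometric (B.restrict W) hres
    (fun x => CfsgLib.Omega.sympBilin_self _) (CfsgLib.Omega.sympBilin k F)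
    (CfsgLib.Forms.sympBilin_nondeg k F) (CfsgLib.Forms.sympBilin_isAlt k F)
    (by rw [hWk, Module.finrank_fintype_fun_eq_card, Fintype.card_sum, Fintype.card_fin, two_mul])
  obtain ⟨e2, he2⟩ := CfsgLib.Forms.alt_isometric (B.restrict C) hresC
    (fun x => CfsgLib.Omega.sympBilin_self _) (CfsgLib.Omega.sympBilin (m - k) F)
    (CfsgLib.Forms.sympBilin_nondeg (m - k) F) (CfsgLib.Forms.sympBilin_isAlt (m - k) F)
    (by rw [hdimC, Module.finrank_fintype_fun_eq_card, Fintype.card_sum, Fintype.card_fin, two_mul])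
  let e : (Fin m ⊕ Fin m → F) ≃ₗ[F] (Fin k ⊕ Fin k → F) × (Fin (m - k) ⊕ Fin (m - k) → F) :=
    (Submodule.prodEquivOfIsCompl W C hcompl).symm.trans (e1.prodCongr e2)
  have hsymm : ∀ p, e.symm p = (e1.symm p.1 : Fin m ⊕ Fin m → F) + (e2.symm p.2 : Fin m ⊕ Fin m → F) :=
    fun p => by simp [e, Submodule.coe_prodEquivOfIsCompl']
  have hform : ∀ u v, sympForm m F u v =
      sympForm k F (e u).1 (e v).1 + sympForm (m - k) F (e u).2 (e v).2 := by
    intro u v
    have hu : u = e.symm (e u) := (e.symm_apply_apply u).symm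
    have hv : v = e.symm (e v) := (e.symm_apply_apply v).symm
    conv_lhs => rw [hu, hv, hsymm, hsymm]
    rw [← CfsgLib.Omega.sympBilin_apply, ← hB, map_add, map_add, LinearMap.add_apply,
      LinearMap.add_apply, hWC _ (e1.symm _).2 _ (e2.symm _).2,
      hrefl _ _ (hWC _ (e1.symm (e v).1).2 _ (e2.symm (e u).2).2), zero_add, add_zero,
      ← CfsgLib.Omega.sympBilin_apply, ← CfsgLib.Omega.sympBilin_apply]
    congr 1
    · exact ((he1 (e1.symm (e u).1) (e1.symm (e v).1)).symm.trans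
        (by rw [e1.apply_symm_apply, e1.apply_symm_apply]))
    · exact ((he2 (e2.symm (e u).2) (e2.symm (e v).2)).symm.trans
        (by rw [e2.apply_symm_apply, e2.apply_symm_apply]))
  have hmemW : ∀ x, x ∈ W ↔ (e x).2 = 0 := by
    intro x
    constructor
    · intro hx
      simp [e, Submodule.prodEquivOfIsCompl_symm_apply_left _ _ hcompl ⟨x, hx⟩]
    · intro hx
      rw [show x = e.symm (e x) from (e.symm_apply_apply x).symm, hsymm, hx, map_zero,
        ZeroMemClass.coe_zero, add_zero]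
      exact (e1.symm _).2
  let L : (Fin k ⊕ Fin k → F) × (Fin (m - k) ⊕ Fin (m - k) → F) →ₗ[F] (Fin m ⊕ Fin m → F) :=
    e.symm.toLinearMap
  let M : Matrix.symplecticGroup (Fin k) F × Matrix.symplecticGroup (Fin (m - k)) F →
      Matrix (Fin m ⊕ Fin m) (Fin m ⊕ Fin m) F := fun p =>
    LinearMap.toMatrix' (L ∘ₗ (LinearMap.prodMap
      (Matrix.toLin' (p.1 : Matrix (Fin k ⊕ Fin k) (Fin k ⊕ Fin k) F))
      (Matrix.toLin' (p.2 : Matrix (Fin (m - k) ⊕ Fin (m - k)) (Fin (m - k) ⊕ Fin (m - k)) F))) ∘ₗ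
      e.toLinearMap)
  have hMe : ∀ p x, e (M p *ᵥ x) =
      ((p.1 : Matrix (Fin k ⊕ Fin k) (Fin k ⊕ Fin k) F) *ᵥ (e x).1,
       (p.2 : Matrix (Fin (m - k) ⊕ Fin (m - k)) (Fin (m - k) ⊕ Fin (m - k)) F) *ᵥ (e x).2) := by
    intro p x
    simp [M, L, LinearMap.toMatrix'_mulVec]
  have hMmem : ∀ p, M p ∈ Matrix.symplecticGroup (Fin m) F := fun p =>
    CfsgLib.Forms.mem_symplecticGroup_iff_form.mpr fun u v => by
      rw [hform, hMe, hMe, CfsgLib.Omega.sympForm_mulVec_of_mem p.1.2,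
        CfsgLib.Omega.sympForm_mulVec_of_mem p.2.2, ← hform]
  set H := Cfsg.stabilizing (Cfsg.spToMat m F) (W : Set (Fin m ⊕ Fin m → F))
  have hMH : ∀ p, (⟨M p, hMmem p⟩ : Matrix.symplecticGroup (Fin m) F) ∈ H := by
    intro p x
    show x ∈ W ↔ M p *ᵥ x ∈ W
    rw [hmemW, hmemW, hMe]
    exact ⟨fun h => by dsimp only; rw [h, Matrix.mulVec_zero], fun h =>
      Matrix.mulVec_injective_iff_isUnit.mpr (CfsgLib.Omega.isUnit_of_mem_symplecticGroup p.2.2)
        (h.trans (Matrix.mulVec_zero _).symm)⟩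
  let Φ : Matrix.symplecticGroup (Fin k) F × Matrix.symplecticGroup (Fin (m - k)) F →* H :=
    MonoidHom.mk' (fun p => ⟨⟨M p, hMmem p⟩, hMH p⟩) fun p p' => by
      refine Subtype.ext (CfsgLib.ClassicalLinear.sp_ext fun x => e.injective ?_)
      show e (M (p * p') *ᵥ x) = e ((M p * M p') *ᵥ x)
      rw [← Matrix.mulVec_mulVec, hMe, hMe, hMe]
      simp [← Matrix.mulVec_mulVec]
  refine ⟨(MulEquiv.ofBijective Φ ⟨fun p p' h => ?_, fun g => ?_⟩).symm⟩
  · have h' : ∀ x, e (M p *ᵥ x) = e (M p' *ᵥ x) := fun x => by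
      rw [show M p = M p' from congrArg (fun g : H => ((g : Matrix.symplecticGroup (Fin m) F) :
        Matrix (Fin m ⊕ Fin m) (Fin m ⊕ Fin m) F)) h]
    refine Prod.ext (CfsgLib.ClassicalLinear.sp_ext fun a => ?_)
      (CfsgLib.ClassicalLinear.sp_ext fun b => ?_)
    · have := congrArg Prod.fst (h' (e.symm (a, 0)))
      rwa [hMe, hMe, e.apply_symm_apply] at this
    · have := congrArg Prod.snd (h' (e.symm (0, b)))
      rwa [hMe, hMe, e.apply_symm_apply] at this
  -- surjectivity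
  obtain ⟨g, hg⟩ := g
  let T : (Fin k ⊕ Fin k → F) × (Fin (m - k) ⊕ Fin (m - k) → F) →ₗ[F]
      (Fin k ⊕ Fin k → F) × (Fin (m - k) ⊕ Fin (m - k) → F) :=
    e.toLinearMap ∘ₗ (Matrix.toLin' (g : Matrix (Fin m ⊕ Fin m) (Fin m ⊕ Fin m) F)) ∘ₗ e.symm.toLinearMap
  have hT : ∀ x, T (e x) = e ((g : Matrix (Fin m ⊕ Fin m) (Fin m ⊕ Fin m) F) *ᵥ x) := fun x => by
    simp [T]
  have hTf : ∀ s t, sympForm k F (T s).1 (T t).1 + sympForm (m - k) F (T s).2 (T t).2 =
      sympForm k F s.1 t.1 + sympForm (m - k) F s.2 t.2 := by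
    intro s t
    obtain ⟨u, rfl⟩ := e.surjective s
    obtain ⟨v, rfl⟩ := e.surjective t
    rw [hT, hT, ← hform, ← hform, CfsgLib.Omega.sympForm_mulVec_of_mem g.2]
  have hT1 : ∀ a, (T (a, 0)).2 = 0 := by
    intro a
    obtain ⟨u, hu⟩ := e.surjective (a, 0)
    rw [← hu, hT, ← hmemW]
    exact (hg u).mp ((hmemW u).mpr (by rw [hu]))
  have hT2 : ∀ b, (T (0, b)).1 = 0 := by
    intro b
    refine CfsgLib.Omega.sympBilin_nondegenerate _ fun a => ?_
    obtain ⟨w, hw⟩ := e.surjective (a, 0)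
    have hw' : (e ((g⁻¹ : Matrix.symplecticGroup (Fin m) F) • w)).2 = 0 :=
      (hmemW _).mp ((H.inv_mem hg w).mp ((hmemW w).mpr (by rw [hw])))
    have key := hTf (e ((g⁻¹ : Matrix.symplecticGroup (Fin m) F) • w)) (0, b)
    rw [hw'] at key
    rw [hT, ← CfsgLib.ClassicalLinear.sp_smul_eq, smul_inv_smul, hw] at key
    simp only [← CfsgLib.Omega.sympBilin_apply, map_zero, LinearMap.zero_apply, add_zero] at key
    exact (CfsgLib.Forms.sympBilin_isAlt k F).isRefl _ _ key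
  let A := LinearMap.toMatrix' (LinearMap.fst F _ _ ∘ₗ T ∘ₗ LinearMap.inl F _ _)
  let D := LinearMap.toMatrix' (LinearMap.snd F _ _ ∘ₗ T ∘ₗ LinearMap.inr F _ _)
  have hA : ∀ a, A *ᵥ a = (T (a, 0)).1 := fun a => by simp [A, LinearMap.toMatrix'_mulVec]
  have hD : ∀ b, D *ᵥ b = (T (0, b)).2 := fun b => by simp [D, LinearMap.toMatrix'_mulVec]
  have hAm : A ∈ Matrix.symplecticGroup (Fin k) F :=
    CfsgLib.Forms.mem_symplecticGroup_iff_form.mpr fun a a' => by
      have key := hTf (a, 0) (a', 0)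
      simp only [hT1, ← CfsgLib.Omega.sympBilin_apply, map_zero, add_zero] at key
      simpa [hA, ← CfsgLib.Omega.sympBilin_apply] using key
  have hDm : D ∈ Matrix.symplecticGroup (Fin (m - k)) F :=
    CfsgLib.Forms.mem_symplecticGroup_iff_form.mpr fun b b' => by
      have key := hTf (0, b) (0, b')
      simp only [hT2, ← CfsgLib.Omega.sympBilin_apply, map_zero, zero_add] at key
      simpa [hD, ← CfsgLib.Omega.sympBilin_apply] using key
  refine ⟨(⟨A, hAm⟩, ⟨D, hDm⟩), Subtype.ext (CfsgLib.ClassicalLinear.sp_ext fun x => e.injective ?_)⟩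
  show e (M _ *ᵥ x) = e ((g : Matrix (Fin m ⊕ Fin m) (Fin m ⊕ Fin m) F) *ᵥ x)
  rw [hMe, hA, hD, ← hT]
  have hsplit : e x = ((e x).1, 0) + (0, (e x).2) := by simp
  conv_rhs => rw [hsplit, map_add]
  refine Prod.ext ?_ ?_
  · simp [hT2]
  · simp [hT1]

end Cfsg.Agent.S0776
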