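import Cfsg.Statements.S0777
import Cfsg.Agent.Lib.Forms.SympMatrix

set_option autoImplicit false
open Cfsg

namespace Cfsg.Agent.S0777

open scoped Matrix

section

variable {F : Type*} [Field F] {m : ℕ}

/-- The position of a vector in a hyperbolic pair. -/
def pos : Bool → Fin m → Fin m ⊕ Fin m
  | false, k => Sum.inl k
  | true, k => Sum.inr k

theorem swap_pos (b : Bool) (k : Fin m) : (pos b k).swap = pos (!b) k := by cases b <;> rfl

theorem pos_inj {b b' : Bool} {k k' : Fin m} (h : pos b k = pos b' k') : b = b' ∧ k = k' := by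
  cases b <;> cases b' <;> simp_all [pos]

theorem pos_isRight (i : Fin m ⊕ Fin m) : pos i.isRight (Sum.elim id id i) = i := by
  cases i <;> rfl

/-- The sign of the form on a hyperbolic pair of standard vectors. -/
def sgn : Fin m ⊕ Fin m → F
  | Sum.inl _ => -1
  | Sum.inr _ => 1

theorem form_single (p r : Fin m ⊕ Fin m) (a b : F) :
    sympForm m F (Pi.single p a) (Pi.single r b) = (Pi.single p.swap (sgn p * a * b) : Fin m ⊕ Fin m → F) r := by
  rw [CfsgLib.Omega.sympForm_eq_sum]
  rcases p with p | p <;> rcases r with r | r <;>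
    simp [Pi.single_apply, sgn, eq_comm, mul_comm] <;> split_ifs <;> simp

/-- The columns of a symplectic monomial matrix. -/
noncomputable def col (p : (Fin m → Bool) × Equiv.Perm (Fin m) × (Fin m → Fˣ)) :
    Fin m ⊕ Fin m → Fin m ⊕ Fin m → F
  | Sum.inl j => Pi.single (pos (p.1 j) (p.2.1 j)) ((p.2.2 j : Fˣ) : F)
  | Sum.inr j => Pi.single (pos (!p.1 j) (p.2.1 j)) (-(sgn (pos (p.1 j) (p.2.1 j))) * (((p.2.2 j)⁻¹ : Fˣ) : F))

/-- A symplectic monomial matrix. -/
noncomputable def mono (p : (Fin m → Bool) × Equiv.Perm (Fin m) × (Fin m → Fˣ)) :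
    Matrix (Fin m ⊕ Fin m) (Fin m ⊕ Fin m) F :=
  Matrix.of fun r c => col p c r

theorem mono_mulVec (p : (Fin m → Bool) × Equiv.Perm (Fin m) × (Fin m → Fˣ)) (i : Fin m ⊕ Fin m) :
    mono p *ᵥ Pi.single i 1 = col p i := by
  rw [Matrix.mulVec_single_one]
  rfl

theorem mono_mem (p : (Fin m → Bool) × Equiv.Perm (Fin m) × (Fin m → Fˣ)) :
    mono p ∈ Matrix.symplecticGroup (Fin m) F := by
  rw [CfsgLib.Forms.mem_symplecticGroup_iff_form]
  have h : (CfsgLib.Omega.sympBilin m F).compl₁₂ (Matrix.toLin' (mono p)) (Matrix.toLin' (mono p)) =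
      CfsgLib.Omega.sympBilin m F := by
    refine LinearMap.ext_basis (Pi.basisFun F _) (Pi.basisFun F _) fun i j => ?_
    simp only [LinearMap.compl₁₂_apply, Pi.basisFun_apply, Matrix.toLin'_apply, mono_mulVec,
      CfsgLib.Omega.sympBilin_apply, form_single]
    rcases i with i | i <;> rcases j with j | j <;>
      simp only [col, form_single, swap_pos, Sum.swap_inl, Sum.swap_inr]
    · rw [Pi.single_eq_of_ne Sum.inl_ne_inr, Pi.single_eq_of_ne fun h => by
        have := pos_inj h
        rw [p.2.1.injective this.2] at this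
        simp at this]
    · by_cases hij : j = i
      · subst hij
        rw [Pi.single_eq_same, Pi.single_eq_same]
        cases p.1 j <;> simp [pos, sgn]
      · rw [Pi.single_eq_of_ne fun h => hij (p.2.1.injective (pos_inj h).2),
          Pi.single_eq_of_ne fun h => hij (Sum.inr.inj h)]
    · by_cases hij : j = i
      · subst hij
        rw [Bool.not_not, Pi.single_eq_same, Pi.single_eq_same]
        cases p.1 j <;> simp [pos, sgn]
      · rw [Bool.not_not, Pi.single_eq_of_ne fun h => hij (p.2.1.injective (pos_inj h).2),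
          Pi.single_eq_of_ne fun h => hij (Sum.inl.inj h)]
    · rw [Pi.single_eq_of_ne Sum.inr_ne_inl, Pi.single_eq_of_ne fun h => by
        have := pos_inj h
        rw [p.2.1.injective this.2] at this
        simp at this]
  intro u v
  have := LinearMap.congr_fun (LinearMap.congr_fun h u) v
  simpa [CfsgLib.Omega.sympBilin_apply] using this

theorem mem_stab_iff (g : Matrix.symplecticGroup (Fin m) F) (i : Fin m ⊕ Fin m) :
    g ∈ stabilizing (spToMat m F)
        ((Submodule.span F {(Pi.single i (1 : F) : Fin m ⊕ Fin m → F)} :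
          Submodule F (Fin m ⊕ Fin m → F)) : Set (Fin m ⊕ Fin m → F)) ↔
      ∃ c : F, (g : Matrix (Fin m ⊕ Fin m) (Fin m ⊕ Fin m) F) *ᵥ Pi.single i 1 = c • Pi.single i 1 := by
  set M := (g : Matrix (Fin m ⊕ Fin m) (Fin m ⊕ Fin m) F) with hM
  have hinj : Function.Injective M.mulVec :=
    Matrix.mulVec_injective_iff_isUnit.mpr (CfsgLib.Omega.isUnit_of_mem_symplecticGroup g.2)
  refine ⟨fun h => ?_, fun ⟨c, hc⟩ v => ?_⟩
  · obtain ⟨c, hc⟩ := Submodule.mem_span_singleton.mp ((h _).mp (Submodule.mem_span_singleton_self _))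
    exact ⟨c, hc.symm⟩
  · show v ∈ Submodule.span F _ ↔ M *ᵥ v ∈ Submodule.span F _
    simp only [Submodule.mem_span_singleton]
    constructor
    · rintro ⟨d, rfl⟩
      exact ⟨d * c, by rw [Matrix.mulVec_smul, hc, smul_smul]⟩
    · rintro ⟨d, hd⟩
      have hc0 : c ≠ 0 := by
        rintro rfl
        rw [zero_smul, ← Matrix.mulVec_zero M] at hc
        have := congrFun (hinj hc) i
        simp at this
      refine ⟨d * c⁻¹, hinj ?_⟩
      show M *ᵥ _ = M *ᵥ v
      rw [Matrix.mulVec_smul, hc, smul_smul, ← hd]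
      congr 1
      field_simp

end


/-- Weyl group of type C_m: for q ≥ 4 the diagonal matrices of Sp_2m(q) form a torus T ≅ (C_(q−1))^m (the elements stabilising every coordinate axis), and the normaliser of T in Sp_2m(q) has order 2^m · m! · (q − 1)^m. -/
theorem result {F : Type*} [Field F] [Fintype F] {q : ℕ} (hF : Fintype.card F = q) (hq : 4 ≤ q) (m : ℕ) : Nat.card ↥(Subgroup.normalizer (⨅ i : Fin m ⊕ Fin m, Cfsg.stabilizing (Cfsg.spToMat m F) ((Submodule.span F {(Pi.single i (1 : F) : Fin m ⊕ Fin m → F)} : Submodule F (Fin m ⊕ Fin m → F)) : Set (Fin m ⊕ Fin m → F)) : Set (Matrix.symplecticGroup (Fin m) F))) = 2 ^ m * Nat.factorial m * (q - 1) ^ m := by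
  classical
  set L : Fin m ⊕ Fin m → Subgroup (Matrix.symplecticGroup (Fin m) F) := fun i =>
    stabilizing (spToMat m F) ((Submodule.span F {(Pi.single i (1 : F) : Fin m ⊕ Fin m → F)} :
      Submodule F (Fin m ⊕ Fin m → F)) : Set (Fin m ⊕ Fin m → F))
  have hT : ∀ t : Matrix.symplecticGroup (Fin m) F, t ∈ (⨅ i, L i) ↔ ∀ i, ∃ c : F,
      (t : Matrix (Fin m ⊕ Fin m) (Fin m ⊕ Fin m) F) *ᵥ Pi.single i 1 = c • Pi.single i 1 := fun t => by
    simp only [Subgroup.mem_iInf, L, mem_stab_iff]
  let Φ : (Fin m → Bool) × Equiv.Perm (Fin m) × (Fin m → Fˣ) → Matrix.symplecticGroup (Fin m) F :=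
    fun p => ⟨mono p, mono_mem p⟩
  have hmul : ∀ (g h : Matrix.symplecticGroup (Fin m) F) (v : Fin m ⊕ Fin m → F),
      ((g * h : Matrix.symplecticGroup (Fin m) F) : Matrix (Fin m ⊕ Fin m) (Fin m ⊕ Fin m) F) *ᵥ v =
      (g : Matrix (Fin m ⊕ Fin m) (Fin m ⊕ Fin m) F) *ᵥ
        ((h : Matrix (Fin m ⊕ Fin m) (Fin m ⊕ Fin m) F) *ᵥ v) := fun g h v => by
    rw [Matrix.mulVec_mulVec]; rfl
  -- monomial matrices normalise the torus
  have hmem : ∀ p, Φ p ∈ Subgroup.normalizer ((⨅ i, L i : Subgroup _) : Set (Matrix.symplecticGroup (Fin m) F)) := by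
    intro p
    let π : Fin m ⊕ Fin m → Fin m ⊕ Fin m := Sum.elim (fun j => pos (p.1 j) (p.2.1 j))
      fun j => pos (!p.1 j) (p.2.1 j)
    have hπ : Function.Surjective π := by
      intro i
      obtain ⟨j, hj⟩ := p.2.1.surjective (Sum.elim id id i)
      rw [← pos_isRight i, ← hj]
      by_cases hb : i.isRight = p.1 j
      · exact ⟨Sum.inl j, by simp [π, hb]⟩
      · exact ⟨Sum.inr j, by simp [π, (Bool.eq_not.mpr hb)]⟩
    have hd : ∀ i, ∃ d : F, d ≠ 0 ∧ (Φ p : Matrix (Fin m ⊕ Fin m) (Fin m ⊕ Fin m) F) *ᵥ Pi.single i 1 =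
        d • Pi.single (π i) 1 := by
      rintro (j | j)
      · exact ⟨p.2.2 j, Units.ne_zero _, by show mono p *ᵥ _ = _; rw [mono_mulVec]; simp [col, π, ← Pi.single_smul, Pi.single_neg]⟩
      · refine ⟨-(sgn (pos (p.1 j) (p.2.1 j))) * (((p.2.2 j)⁻¹ : Fˣ) : F), ?_,
          by show mono p *ᵥ _ = _; rw [mono_mulVec]; simp [col, π, ← Pi.single_smul, Pi.single_neg]⟩
        cases p.1 j <;> simp [pos, sgn]
    have hinj : Function.Injective (Φ p : Matrix (Fin m ⊕ Fin m) (Fin m ⊕ Fin m) F).mulVec :=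
      Matrix.mulVec_injective_iff_isUnit.mpr (CfsgLib.Omega.isUnit_of_mem_symplecticGroup (mono_mem p))
    rw [Subgroup.mem_normalizer_iff]
    intro t
    show t ∈ (⨅ i, L i) ↔ Φ p * t * (Φ p)⁻¹ ∈ (⨅ i, L i)
    rw [hT, hT]
    have key : ∀ i (c : F),
        ((Φ p * t * (Φ p)⁻¹ : Matrix.symplecticGroup (Fin m) F) : Matrix (Fin m ⊕ Fin m) (Fin m ⊕ Fin m) F) *ᵥ
            Pi.single (π i) 1 = c • Pi.single (π i) 1 ↔
        (t : Matrix (Fin m ⊕ Fin m) (Fin m ⊕ Fin m) F) *ᵥ Pi.single i 1 = c • Pi.single i 1 := by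
      intro i c
      obtain ⟨d, hd0, hde⟩ := hd i
      have he : (Pi.single (π i) 1 : Fin m ⊕ Fin m → F) =
          d⁻¹ • ((Φ p : Matrix (Fin m ⊕ Fin m) (Fin m ⊕ Fin m) F) *ᵥ Pi.single i 1) := by
        rw [hde, inv_smul_smul₀ hd0]
      have hcomp : ((Φ p * t * (Φ p)⁻¹ : Matrix.symplecticGroup (Fin m) F) :
            Matrix (Fin m ⊕ Fin m) (Fin m ⊕ Fin m) F) *ᵥ
          ((Φ p : Matrix (Fin m ⊕ Fin m) (Fin m ⊕ Fin m) F) *ᵥ Pi.single i 1) =
          (Φ p : Matrix (Fin m ⊕ Fin m) (Fin m ⊕ Fin m) F) *ᵥ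
            ((t : Matrix (Fin m ⊕ Fin m) (Fin m ⊕ Fin m) F) *ᵥ Pi.single i 1) := by
        rw [← hmul, inv_mul_cancel_right, hmul]
      rw [he, Matrix.mulVec_smul, hcomp, smul_comm c,
        (IsUnit.smul_left_cancel (IsUnit.mk0 _ (inv_ne_zero hd0))), ← Matrix.mulVec_smul]
      exact hinj.eq_iff
    constructor
    · intro h i
      obtain ⟨i, rfl⟩ := hπ i
      obtain ⟨c, hc⟩ := h i
      exact ⟨c, (key i c).mpr hc⟩
    · intro h i
      obtain ⟨c, hc⟩ := h (π i)
      exact ⟨c, (key i c).mp hc⟩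
  -- every element of the normaliser is monomial
  have hsurj : ∀ g ∈ Subgroup.normalizer ((⨅ i, L i : Subgroup _) : Set (Matrix.symplecticGroup (Fin m) F)),
      ∃ p, Φ p = g := by
    intro g hg
    obtain ⟨x, hx0, hx1, hx2⟩ : ∃ x : F, x ≠ 0 ∧ x ≠ 1 ∧ x ≠ -1 := by
      by_contra h
      push Not at h
      have hsub : (Finset.univ : Finset F) ⊆ {0, 1, -1} := fun y _ => by
        simp only [Finset.mem_insert, Finset.mem_singleton]
        tauto
      have hle := (Finset.card_le_card hsub).trans Finset.card_le_three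
      rw [Finset.card_univ] at hle
      omega
    set M := (g : Matrix (Fin m ⊕ Fin m) (Fin m ⊕ Fin m) F) with hM
    have hform := CfsgLib.Omega.sympForm_mulVec_of_mem g.2
    have hinj : Function.Injective M.mulVec :=
      Matrix.mulVec_injective_iff_isUnit.mpr (CfsgLib.Omega.isUnit_of_mem_symplecticGroup g.2)
    have hline : ∀ i, ∃ r c, M *ᵥ Pi.single i 1 = Pi.single r c := by
      intro i
      set v := M *ᵥ Pi.single i 1 with hv
      have heig : ∀ t ∈ (⨅ i, L i), ∃ c : F,
          (t : Matrix (Fin m ⊕ Fin m) (Fin m ⊕ Fin m) F) *ᵥ v = c • v := by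
        intro t ht
        have hconj : g⁻¹ * t * g ∈ (⨅ i, L i) := by
          refine (Subgroup.mem_normalizer_iff.mp hg _).mpr ?_
          rwa [show g * (g⁻¹ * t * g) * g⁻¹ = t by group]
        obtain ⟨c, hc⟩ := (hT _).mp hconj i
        refine ⟨c, ?_⟩
        rw [hv, ← hmul, show t * g = g * (g⁻¹ * t * g) by group, hmul, hc, Matrix.mulVec_smul]
      obtain ⟨r, hr⟩ : ∃ r, v r ≠ 0 := by
        by_contra h
        push Not at h
        have h0 : M *ᵥ Pi.single i 1 = M *ᵥ 0 := by rw [Matrix.mulVec_zero, ← hv]; exact funext h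
        simpa using congrFun (hinj h0) i
      refine ⟨r, v r, funext fun s => ?_⟩
      by_cases hs : s = r
      · subst hs; simp
      rw [Pi.single_eq_of_ne hs]
      by_contra hs0
      let t0 : (Fin m → Bool) × Equiv.Perm (Fin m) × (Fin m → Fˣ) :=
        (fun _ => false, Equiv.refl _, Function.update 1 (Sum.elim id id r) (Units.mk0 x hx0))
      let d : Fin m ⊕ Fin m → F := Sum.elim (fun j => (t0.2.2 j : F)) fun j => (((t0.2.2 j)⁻¹ : Fˣ) : F)
      have ht : ∀ w, (Φ t0 : Matrix (Fin m ⊕ Fin m) (Fin m ⊕ Fin m) F) *ᵥ w = fun l => d l * w l := by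
        have hdiag : mono t0 = Matrix.diagonal d := by
          ext a b
          rcases b with b | b <;>
            simp [mono, col, t0, d, pos, sgn, Matrix.diagonal_apply, Pi.single_apply] <;>
            split_ifs <;> simp_all
        intro w
        show mono t0 *ᵥ w = _
        rw [hdiag]
        exact funext fun l => Matrix.mulVec_diagonal _ _ l
      obtain ⟨c, hc⟩ := heig (Φ t0) ((hT _).mpr fun l => ⟨d l, by
        rw [ht]
        funext l'
        by_cases hl : l' = l
        · subst hl; simp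
        · simp [Pi.single_eq_of_ne hl]⟩)
      rw [ht] at hc
      have h1 : d r = c := mul_right_cancel₀ hr (congrFun hc r)
      have h2 : d s = c := mul_right_cancel₀ hs0 (congrFun hc s)
      have hxx : x ≠ x⁻¹ := by
        intro h
        rcases mul_self_eq_one_iff.mp (show x * x = 1 by nth_rw 2 [h]; exact mul_inv_cancel₀ hx0) with h' | h'
        · exact hx1 h'
        · exact hx2 h'
      have hdd : d r ≠ d s := by
        have hx1' : x⁻¹ ≠ 1 := fun h => hx1 (inv_eq_one.mp h)
        rcases r with r | r <;> rcases s with s | s <;>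
          by_cases hsr : s = r <;>
          first
            | exact absurd (congrArg Sum.inl hsr) hs
            | exact absurd (congrArg Sum.inr hsr) hs
            | simp [d, t0, Function.update_of_ne, hsr, hx1, hx1', hxx, hxx.symm, Ne.symm hx1,
                Ne.symm hx1']
      exact hdd (h1.trans h2.symm)
    choose π c hc using hline
    have hswap : ∀ i i', π i' = (π i).swap ↔ i' = i.swap := by
      intro i i'
      have h1 := hform (Pi.single i 1) (Pi.single i' 1)
      rw [← hM, hc, hc, form_single, form_single, Pi.single_apply, Pi.single_apply] at h1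
      have hne : ∀ l, c l ≠ 0 := fun l hl => by
        have h0 : M *ᵥ Pi.single l 1 = M *ᵥ 0 := by simp [hc, hl]
        simpa using congrFun (hinj h0) l
      have hs : ∀ l : Fin m ⊕ Fin m, (sgn l : F) ≠ 0 := by rintro (l | l) <;> simp [sgn]
      split_ifs at h1 with ha hb
      · exact ⟨fun _ => hb, fun _ => ha⟩
      · exact absurd h1 (mul_ne_zero (mul_ne_zero (hs _) (hne _)) (hne _))
      · rename_i hb
        exact absurd h1.symm (mul_ne_zero (mul_ne_zero (hs _) one_ne_zero) one_ne_zero)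
      · exact ⟨fun h => absurd h ha, fun h => by rename_i hb; exact absurd h hb⟩
    have hπinj : Function.Injective π := fun i i' h => by
      have := (hswap i' i'.swap).mpr rfl
      rw [← h, (hswap i)] at this
      exact (Sum.swap_leftInverse.injective this).symm
    let σ0 : Fin m → Fin m := fun j => Sum.elim id id (π (Sum.inl j))
    let ε : Fin m → Bool := fun j => (π (Sum.inl j)).isRight
    have hpl : ∀ j, π (Sum.inl j) = pos (ε j) (σ0 j) := fun j => (pos_isRight _).symm
    have hpr : ∀ j, π (Sum.inr j) = pos (!ε j) (σ0 j) := fun j => by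
      rw [(hswap (Sum.inl j) (Sum.inr j)).mpr rfl, hpl, swap_pos]
    have hσ : Function.Injective σ0 := by
      intro j k h
      by_cases hb : ε j = ε k
      · exact Sum.inl.inj (hπinj (by rw [hpl, hpl, hb, h]))
      · exact absurd (hπinj (show π (Sum.inl j) = π (Sum.inr k) by
          rw [hpl, hpr, Bool.eq_not.mpr hb, h])) Sum.inl_ne_inr
    have hne : ∀ l, c l ≠ 0 := fun l hl => by
      have h0 : M *ᵥ Pi.single l 1 = M *ᵥ 0 := by simp [hc, hl]
      simpa using congrFun (hinj h0) l
    refine ⟨(ε, Equiv.ofBijective σ0 (Finite.injective_iff_bijective.mp hσ),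
      fun j => Units.mk0 (c (Sum.inl j)) (hne _)), Subtype.ext (Matrix.ext_of_mulVec_single ?_)⟩
    intro i
    show mono _ *ᵥ _ = M *ᵥ _
    rw [mono_mulVec, hc]
    rcases i with j | j
    · rw [hpl]; rfl
    · rw [hpr]
      have h1 := hform (Pi.single (Sum.inl j) 1) (Pi.single (Sum.inr j) 1)
      rw [← hM, hc, hc, form_single, form_single, (hswap (Sum.inl j) (Sum.inr j)).mpr rfl, Sum.swap_inl,
        Pi.single_eq_same, Pi.single_eq_same, hpl] at h1
      simp only [col, Equiv.ofBijective_apply, Units.val_inv_eq_inv_val, Units.val_mk0]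
      congr 1
      have h0 := hne (Sum.inl j)
      generalize ε j = b at h1 ⊢
      cases b <;> simp [pos, sgn] at h1 ⊢ <;> field_simp <;>
        first | linear_combination h1 | linear_combination -h1
  -- counting
  have hinjΦ : Function.Injective Φ := by
    rintro ⟨ε, σ, a⟩ ⟨ε', σ', a'⟩ h
    have hcol : ∀ j, (Pi.single (pos (ε j) (σ j)) (a j : F) : Fin m ⊕ Fin m → F) =
        Pi.single (pos (ε' j) (σ' j)) (a' j : F) := fun j => by
      have := congrArg (fun A : Matrix.symplecticGroup (Fin m) F =>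
        (A : Matrix (Fin m ⊕ Fin m) (Fin m ⊕ Fin m) F) *ᵥ Pi.single (Sum.inl j) 1) h
      simp only [Φ, mono_mulVec] at this
      exact this
    have hp : ∀ j, pos (ε j) (σ j) = pos (ε' j) (σ' j) := fun j => by
      by_contra hne
      have := congrFun (hcol j) (pos (ε j) (σ j))
      rw [Pi.single_eq_same, Pi.single_eq_of_ne hne] at this
      exact Units.ne_zero _ this
    have ha : a = a' := funext fun j => Units.ext (by
      have := congrFun (hcol j) (pos (ε j) (σ j))
      rwa [Pi.single_eq_same, hp, Pi.single_eq_same] at this)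
    rw [funext fun j => (pos_inj (hp j)).1, Equiv.ext fun j => (pos_inj (hp j)).2, ha]
  have e := Equiv.ofBijective (fun p => (⟨Φ p, hmem p⟩ :
    ↥(Subgroup.normalizer ((⨅ i, L i : Subgroup _) : Set (Matrix.symplecticGroup (Fin m) F)))))
    ⟨fun p p' h => hinjΦ (congrArg Subtype.val h), fun ⟨g, hg⟩ => by
      obtain ⟨p, hp⟩ := hsurj g hg
      exact ⟨p, Subtype.ext hp⟩⟩
  rw [Set.iInf_eq_iInter, ← Subgroup.coe_iInf, ← Nat.card_congr e, Nat.card_prod, Nat.card_prod, Nat.card_fun, Nat.card_fun, Nat.card_perm]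
  simp [Nat.card_eq_fintype_card, hF, Fintype.card_units, mul_assoc]

end Cfsg.Agent.S0777
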