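import Cfsg.Statements.S0778
import Cfsg.Agent.Lib.Forms.SympMatrix

set_option autoImplicit false
open Cfsg

namespace Cfsg.Agent.S0778

/-- The elements of Sp_2m(F) stabilising both W = ⟨e_1..e_m⟩ and U = ⟨f_1..f_m⟩ form a subgroup isomorphic to GL_m(F) (block-diagonal matrices diag(X, X^(−ᵀ)) up to the sign convention of J), for m ≥ 1 or m = 0 alike. -/
theorem result {F : Type*} [Field F] (m : ℕ) : Nonempty (↥(Cfsg.stabilizing (Cfsg.spToMat m F) {v : Fin m ⊕ Fin m → F | ∀ i : Fin m, v (Sum.inr i) = 0} ⊓ Cfsg.stabilizing (Cfsg.spToMat m F) {v : Fin m ⊕ Fin m → F | ∀ i : Fin m, v (Sum.inl i) = 0}) ≃* Matrix.GeneralLinearGroup (Fin m) F) := by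
  classical
  let T := fun X : Matrix.GeneralLinearGroup (Fin m) F => Matrix.fromBlocks (X : Matrix (Fin m) (Fin m) F) 0 0
    (Matrix.transpose (↑X⁻¹ : Matrix (Fin m) (Fin m) F))
  have hTmem : ∀ X, T X ∈ Matrix.symplecticGroup (Fin m) F := by
    intro X
    rw [SymplecticGroup.mem_iff]
    simp [T, Matrix.J, Matrix.fromBlocks_transpose, Matrix.fromBlocks_multiply, ← Matrix.transpose_mul]
  let φ : Matrix.GeneralLinearGroup (Fin m) F →* Matrix.symplecticGroup (Fin m) F :=
    { toFun := fun X => ⟨T X, hTmem X⟩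
      map_one' := Subtype.ext (by simp [T, Matrix.fromBlocks_one])
      map_mul' := fun X Y => Subtype.ext (by
        simp [T, Matrix.fromBlocks_multiply, ← Matrix.transpose_mul, Matrix.mul_inv_rev]) }
  have hφ : ∀ X, φ X ∈ Cfsg.stabilizing (Cfsg.spToMat m F) {v : Fin m ⊕ Fin m → F | ∀ i : Fin m, v (Sum.inr i) = 0}
      ⊓ Cfsg.stabilizing (Cfsg.spToMat m F) {v : Fin m ⊕ Fin m → F | ∀ i : Fin m, v (Sum.inl i) = 0} := by
    intro X
    have hfw : ∀ X v, ((∀ i, v (Sum.inr i) = 0) → ∀ i, (T X).mulVec v (Sum.inr i) = 0) ∧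
        ((∀ i, v (Sum.inl i) = 0) → ∀ i, (T X).mulVec v (Sum.inl i) = 0) := by
      intro X v
      constructor <;> intro h i <;>
        simp [T, Matrix.fromBlocks_mulVec, funext h, show v ∘ Sum.inr = fun i => v (Sum.inr i) from rfl,
          show v ∘ Sum.inl = fun i => v (Sum.inl i) from rfl, ← Pi.zero_def]
    have hback : ∀ v, (T X⁻¹).mulVec ((T X).mulVec v) = v := fun v => by
      have h := congrArg Subtype.val (φ.map_mul X⁻¹ X)
      rw [inv_mul_cancel, map_one] at h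
      change 1 = T X⁻¹ * T X at h
      rw [Matrix.mulVec_mulVec, ← h, Matrix.one_mulVec]
    refine ⟨fun v => ⟨(hfw X v).1, fun h => ?_⟩, fun v => ⟨(hfw X v).2, fun h => ?_⟩⟩
    · have := (hfw X⁻¹ _).1 h
      change ∀ i, (T X⁻¹).mulVec ((T X).mulVec v) (Sum.inr i) = 0 at this
      rwa [hback] at this
    · have := (hfw X⁻¹ _).2 h
      change ∀ i, (T X⁻¹).mulVec ((T X).mulVec v) (Sum.inl i) = 0 at this
      rwa [hback] at this
  refine ⟨(MulEquiv.ofBijective (φ.codRestrict _ hφ) ⟨?_, ?_⟩).symm⟩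
  · intro X Y h
    have h' : T X = T Y := congrArg (fun g : Matrix.symplecticGroup (Fin m) F => (g : Matrix (Fin m ⊕ Fin m) (Fin m ⊕ Fin m) F))
      (congrArg Subtype.val h)
    exact Units.ext (Matrix.fromBlocks_inj.mp h').1
  · rintro ⟨g, hgU, hgL⟩
    set M := (g : Matrix (Fin m ⊕ Fin m) (Fin m ⊕ Fin m) F) with hM
    have h21 : M.toBlocks₂₁ = 0 := by
      ext i j
      have := (hgU (Pi.single (Sum.inl j) 1)).mp (fun k => by simp) i
      simpa [Matrix.toBlocks₂₁] using this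
    have h12 : M.toBlocks₁₂ = 0 := by
      ext i j
      have := (hgL (Pi.single (Sum.inr j) 1)).mp (fun k => by simp) i
      simpa [Matrix.toBlocks₁₂] using this
    have hMb : M = Matrix.fromBlocks M.toBlocks₁₁ 0 0 M.toBlocks₂₂ := by
      conv_lhs => rw [← Matrix.fromBlocks_toBlocks M, h12, h21]
    have hrel : M.toBlocks₁₁ * M.toBlocks₂₂.transpose = 1 := by
      have h := SymplecticGroup.mem_iff.mp g.2
      rw [← hM, hMb] at h
      simp [Matrix.J, Matrix.fromBlocks_transpose, Matrix.fromBlocks_multiply, Matrix.fromBlocks_inj] at h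
      exact h.1
    refine ⟨⟨M.toBlocks₁₁, M.toBlocks₂₂.transpose, hrel, mul_eq_one_comm.mp hrel⟩, ?_⟩
    refine Subtype.ext (Subtype.ext ?_)
    show Matrix.fromBlocks M.toBlocks₁₁ 0 0 M.toBlocks₂₂.transpose.transpose = M
    rw [Matrix.transpose_transpose, ← hMb]

end Cfsg.Agent.S0778
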