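import Cfsg.Statements.S0779
import Cfsg.Agent.Lib.Forms.UnitaryForm

set_option autoImplicit false
open Cfsg

namespace Cfsg.Agent.S0779

/-- Unitary transvections: let |F| = q², h the standard Hermitian form Σ x_i y_i^q and v ≠ 0 with h(v, v) = 0. The linear map x ↦ x + c h(x, v) v is an isometry of h if and only if c = 0 or c^(q−1) = −1. -/
theorem result {F : Type*} [Field F] [Fintype F] {q : ℕ} (hF : Fintype.card F = q ^ 2) (n : ℕ) (v : Fin n → F) (hv : v ≠ 0) (hv0 : Cfsg.hermForm n F q v v = 0) (c : F) : (∀ x y : Fin n → F, Cfsg.hermForm n F q ((Cfsg.unitaryTransvection n q v c).mulVec x) ((Cfsg.unitaryTransvection n q v c).mulVec y) = Cfsg.hermForm n F q x y) ↔ (c = 0 ∨ c ^ (q - 1) = -1) := by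
  obtain ⟨σ, hσ, -, hσ2⟩ := CfsgLib.Forms.exists_conj_of_card_sq hF
  have hS := CfsgLib.Forms.hermBundled_isSymm (n := n) hσ2
  set H := CfsgLib.Forms.hermBundled n σ with hH
  have key : ∀ x y, Cfsg.hermForm n F q ((Cfsg.unitaryTransvection n q v c).mulVec x)
      ((Cfsg.unitaryTransvection n q v c).mulVec y)
      = Cfsg.hermForm n F q x y + (c + c ^ q) * (H v x * H y v) := by
    intro x y
    rw [CfsgLib.Forms.unitaryTransvection_mulVec hσ, CfsgLib.Forms.unitaryTransvection_mulVec hσ,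
      ← CfsgLib.Forms.hermBundled_apply hσ, ← CfsgLib.Forms.hermBundled_apply hσ, ← hH, ← hσ c]
    have hvv : H v v = 0 := by rw [hH, CfsgLib.Forms.hermBundled_apply hσ]; exact hv0
    simp only [map_add, map_smulₛₗ, LinearMap.add_apply, LinearMap.smul_apply, smul_eq_mul,
      RingHom.id_apply, hvv, map_mul]
    rw [hS.eq v y]
    ring
  obtain ⟨i, hi⟩ : ∃ i, v i ≠ 0 := Function.ne_iff.mp hv
  have hq : 1 ≤ q := by
    rcases Nat.eq_zero_or_pos q with h | h
    · subst h; exact absurd hF (by simpa using Fintype.card_ne_zero)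
    · exact h
  have hiff : (c + c ^ q = 0) ↔ (c = 0 ∨ c ^ (q - 1) = -1) := by
    have : c + c ^ q = c * (1 + c ^ (q - 1)) := by
      rw [mul_add, mul_one, ← pow_succ', Nat.sub_add_cancel hq]
    rw [this, mul_eq_zero, add_eq_zero_iff_neg_eq, eq_comm (a := (-1 : F))]
  rw [← hiff]
  constructor
  · intro h
    have h1 := h (Pi.single i 1) (Pi.single i 1)
    rw [key, add_eq_left, hH, CfsgLib.Forms.hermBundled_single,
      ← hS.eq v (Pi.single i 1), CfsgLib.Forms.hermBundled_single, hσ2] at h1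
    exact (mul_eq_zero.mp h1).resolve_right (mul_ne_zero (fun h0 => hi ((map_eq_zero σ).mp h0)) hi)
  · intro h x y
    rw [key, h, zero_mul, add_zero]

end Cfsg.Agent.S0779
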