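import Cfsg.Statements.S0782
import Cfsg.Agent.Lib.Forms.HermFrames

set_option autoImplicit false
open Cfsg

open scoped Matrix

namespace Cfsg.Agent.S0782

set_option maxHeartbeats 800000 in
/-- Maximal parabolics of SU_n(q): if W is a k-dimensional subspace of F^n (n ≥ 1, |F| = q²) on which the Hermitian form vanishes, then (q + 1) times the order of its stabiliser in SU_n(q) equals q^(k(2n−3k)) · |GL_k(q²)| · |GU_(n−2k)(q)|, where |GU_m(q)| = q^(m(m−1)/2) Π_(i=1..m) (q^i − (−1)^i). -/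
theorem result {F : Type*} [Field F] [Fintype F] {q : ℕ} (hF : Fintype.card F = q ^ 2) (n k : ℕ) (hn : 1 ≤ n) (hk : 2 * k ≤ n) (W : Submodule F (Fin n → F)) (hWk : Module.finrank F W = k) (hW : ∀ u ∈ W, ∀ v ∈ W, Cfsg.hermForm n F q u v = 0) : (q + 1) * Nat.card ↥((Cfsg.stabilizing (Cfsg.slToMat n F) (W : Set (Fin n → F))).subgroupOf (Cfsg.SU n F q)) = q ^ (k * (2 * n - 3 * k)) * (∏ i : Fin k, ((q ^ 2) ^ k - (q ^ 2) ^ (i : ℕ))) * (q ^ ((n - 2 * k) * ((n - 2 * k) - 1) / 2) * ∏ i ∈ Finset.range (n - 2 * k), (if Even i then q ^ (i + 1) + 1 else q ^ (i + 1) - 1)) := by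
  classical
  have hF' : Nat.card F = q ^ 2 := by rw [Nat.card_eq_fintype_card, hF]
  obtain ⟨c⟩ := CfsgLib.ClassicalForms.exists_conj hF'
  let b := Module.finBasisOfFinrankEq F W hWk
  let v : Fin k → Fin n → F := fun i => (b i : Fin n → F)
  have hvli : LinearIndependent F v := b.linearIndependent.map' W.subtype W.ker_subtype
  have hv : CfsgLib.Forms.IsHermFrame n q v := ⟨hvli, fun i j => hW _ (b i).2 _ (b j).2⟩
  have hspan : ∀ x ∈ W, x ∈ Submodule.span F (Set.range v) := fun x hx => by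
    have hxs := b.sum_repr ⟨x, hx⟩
    apply_fun Subtype.val at hxs
    rw [Submodule.coe_sum] at hxs
    rw [show x = ∑ i, ((b.repr ⟨x, hx⟩ i • b i : W) : Fin n → F) from hxs.symm]
    exact Submodule.sum_mem _ fun i _ => by
      rw [Submodule.coe_smul]
      exact Submodule.smul_mem _ _ (Submodule.subset_span ⟨i, rfl⟩)
  set G := Cfsg.GU n F q
  let act : MulAction G (Fin k → Fin n → F) :=
    { smul := fun g w i => CfsgLib.Geometric.ap (g : GL (Fin n) F) (w i)
      one_smul := fun w => funext fun i => CfsgLib.Geometric.ap_one (w i)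
      mul_smul := fun g h w => funext fun i => CfsgLib.Geometric.ap_mul (g : GL (Fin n) F) h (w i) }
  -- the stabiliser in `GU`
  let H : Subgroup G := (Cfsg.stabilizing (Units.coeHom (Matrix (Fin n) (Fin n) F))
    (W : Set (Fin n → F))).subgroupOf G
  have hHmem : ∀ g : G, g ∈ H ↔ ∀ x, x ∈ W ↔ CfsgLib.Geometric.ap (g : GL (Fin n) F) x ∈ W :=
    fun g => Iff.rfl
  have hH_of : ∀ g : G, (∀ i, CfsgLib.Geometric.ap (g : GL (Fin n) F) (v i) ∈ W) → g ∈ H := by
    intro g hg
    rw [hHmem]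
    have hle : ∀ x ∈ W, CfsgLib.Geometric.ap (g : GL (Fin n) F) x ∈ W := by
      intro x hx
      have : Submodule.span F (Set.range v) ≤
          W.comap (CfsgLib.Geometric.apEquiv (g : GL (Fin n) F)).toLinearMap := by
        rw [Submodule.span_le]
        rintro _ ⟨i, rfl⟩
        exact hg i
      exact this (hspan x hx)
    have hsurj : Function.Surjective (fun x : W => (⟨_, hle x x.2⟩ : W)) :=
      Finite.surjective_of_injective fun x y h =>
        Subtype.ext ((CfsgLib.Geometric.apEquiv (g : GL (Fin n) F)).injective (congrArg Subtype.val h))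
    intro x
    refine ⟨hle x, fun hx => ?_⟩
    obtain ⟨y, hy⟩ := hsurj ⟨_, hx⟩
    exact (CfsgLib.Geometric.apEquiv (g : GL (Fin n) F)).injective (congrArg Subtype.val hy) ▸ y.2
  set P : Set (Fin k → Fin n → F) := {w | CfsgLib.Forms.IsHermFrame n q w}
  set S : Set (Fin k → Fin n → F) := {w | LinearIndependent F w ∧ ∀ i, w i ∈ W}
  have horb : MulAction.orbit G v = P := by
    ext w
    refine ⟨?_, fun hw => ?_⟩
    · rintro ⟨g, rfl⟩
      exact CfsgLib.Forms.isHermFrame_ap g hv
    · obtain ⟨g, hg⟩ := CfsgLib.Forms.exists_gu_map_frame c hv hw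
      exact ⟨g, funext hg⟩
  have hc := CfsgLib.Forms.card_mul_card_orbit_eq v H P S horb
    (fun g => ⟨fun hg => ⟨(CfsgLib.Forms.isHermFrame_ap g hv).1,
      fun i => ((hHmem g).mp hg (v i)).mp (b i).2⟩, fun hg => hH_of g hg.2⟩)
    (fun w hw => ⟨hw.1, fun i j => hW _ (hw.2 i) _ (hw.2 j)⟩)
  have hSc : Nat.card S = ∏ i : Fin k, ((q ^ 2) ^ k - (q ^ 2) ^ (i : ℕ)) := by
    have e : S ≃ {s : Fin k → W // LinearIndependent F s} :=
      { toFun := fun w => ⟨fun i => ⟨w.1 i, w.2.2 i⟩, w.2.1.of_comp W.subtype⟩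
        invFun := fun s => ⟨fun i => (s.1 i : Fin n → F),
          s.2.map' W.subtype W.ker_subtype, fun i => (s.1 i).2⟩
        left_inv := fun w => rfl
        right_inv := fun s => rfl }
    rw [Nat.card_congr e, card_linearIndependent hWk.ge, hWk, hF]
  -- the determinant is onto the norm-one group on the stabiliser
  have honto : ∀ l : F, l * c.σ l = 1 → ∃ g ∈ H, ((CfsgLib.ClassicalForms.guDet n F q g : Fˣ) : F) = l := by
    intro l hl
    have hl0 : l ≠ 0 := left_ne_zero_of_mul_eq_one hl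
    by_cases hk0 : k = 0
    · set i₀ : Fin n := ⟨0, hn⟩
      have hd : Cfsg.hermForm n F q (Pi.single i₀ 1) (Pi.single i₀ 1) = 1 := by
        rw [c.single_right, Pi.single_eq_same]
      refine ⟨CfsgLib.ClassicalForms.pref c (Pi.single i₀ 1) (l - 1)
        (by rw [hd, mul_one, add_sub_cancel]; exact hl0)
        (by rw [hd, map_sub, map_one]; linear_combination hl), hH_of _ fun i => absurd i.2 (by omega), ?_⟩
      rw [CfsgLib.ClassicalForms.det_pref, hd, mul_one, add_sub_cancel]
    -- a torus element in a hyperbolic plane through `W`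
    obtain ⟨μ, hμ0, hμ⟩ : ∃ μ : F, μ ≠ 0 ∧ μ * (c.σ μ)⁻¹ = l := by
      by_cases h1 : l = -1
      · obtain ⟨a, ha⟩ : ∃ a, c.σ a ≠ a := by
          by_contra h
          push Not at h
          exact c.ne (RingHom.ext h)
        refine ⟨a - c.σ a, sub_ne_zero.mpr (Ne.symm ha), ?_⟩
        have hne : c.σ a - a ≠ 0 := sub_ne_zero.mpr ha
        rw [map_sub, c.invol, h1, ← neg_sub (c.σ a) a, neg_mul, mul_inv_cancel₀ hne]
      · have h0 : 1 + l ≠ 0 := fun h => h1 (eq_neg_of_add_eq_zero_right h)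
        refine ⟨1 + l, h0, ?_⟩
        have hσ0 : c.σ (1 + l) ≠ 0 := fun h => h0 (c.eq_zero h)
        rw [map_add, map_one] at hσ0 ⊢
        field_simp
        linear_combination -hl
    obtain ⟨i₁⟩ : Nonempty (Fin k) := ⟨⟨0, Nat.pos_of_ne_zero hk0⟩⟩
    set u := v i₁ with hu
    have huu : Cfsg.hermForm n F q u u = 0 := hv.2 _ _
    obtain ⟨p, hp⟩ := CfsgLib.Forms.orthMap_surjective c hvli (Pi.single i₁ 1)
    have hpv : ∀ i, Cfsg.hermForm n F q p (v i) = (Pi.single i₁ 1 : Fin k → F) i := fun i => congrFun hp i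
    obtain ⟨θ, hθ⟩ := c.exists_trace_one
    have hpu : Cfsg.hermForm n F q p u = 1 := by rw [hu, hpv, Pi.single_eq_same]
    have hup : Cfsg.hermForm n F q u p = 1 := by rw [c.herm_symm, hpu, map_one]
    have hpp : c.σ (Cfsg.hermForm n F q p p) = Cfsg.hermForm n F q p p := (c.herm_symm p p).symm
    set w := p + (-(θ * Cfsg.hermForm n F q p p)) • u with hwdef
    have hwu : Cfsg.hermForm n F q w u = 1 := by
      rw [hwdef, c.add_left, c.smul_left, hpu, huu]; ring
    have huw : Cfsg.hermForm n F q u w = 1 := by rw [c.herm_symm, hwu, map_one]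
    have hww : Cfsg.hermForm n F q w w = 0 := by
      rw [hwdef]
      simp only [c.add_left, c.add_right, c.smul_left, c.smul_right, hpu, hup, huu, map_neg, map_mul, hpp]
      linear_combination -(Cfsg.hermForm n F q p p) * hθ
    have hA : 1 + ((μ - 1) • c.hl w) u ≠ 0 := by simpa [huw] using hμ0
    have hB : 1 + (((c.σ μ)⁻¹ - 1) • c.hl u) w ≠ 0 := by
      simpa [hwu] using fun h => hμ0 (c.eq_zero h)
    set g₀ := CfsgLib.Geometric.dil u ((μ - 1) • c.hl w) hA *
      CfsgLib.Geometric.dil w (((c.σ μ)⁻¹ - 1) • c.hl u) hB with hg₀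
    have hap : ∀ x, CfsgLib.Geometric.ap g₀ x = x + ((μ - 1) * Cfsg.hermForm n F q x w) • u +
        (((c.σ μ)⁻¹ - 1) * Cfsg.hermForm n F q x u) • w := fun x => by
      rw [hg₀, CfsgLib.Geometric.ap_mul, CfsgLib.Geometric.ap_dil, CfsgLib.Geometric.ap_dil]
      simp only [LinearMap.smul_apply, CfsgLib.ClassicalForms.Conj.hl_apply, smul_eq_mul, c.add_left,
        c.smul_left, hww]
      module
    have hg₀G : g₀ ∈ G := by
      intro x y
      show Cfsg.hermForm n F q (CfsgLib.Geometric.ap g₀ x) (CfsgLib.Geometric.ap g₀ y) = _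
      rw [hap, hap]
      simp only [c.add_left, c.add_right, c.smul_left, c.smul_right, map_mul, map_sub, map_one,
        map_inv₀, c.invol, huu, hww, huw, hwu]
      rw [← c.herm_symm y u, ← c.herm_symm y w]
      have hσμ : c.σ μ ≠ 0 := fun h => hμ0 (c.eq_zero h)
      field_simp
      ring
    refine ⟨⟨g₀, hg₀G⟩, hH_of _ fun i => ?_, ?_⟩
    · show CfsgLib.Geometric.ap g₀ (v i) ∈ W
      rw [hap, hu, hv.2 i i₁, mul_zero, zero_smul, add_zero]
      exact W.add_mem (b i).2 (W.smul_mem _ (b i₁).2)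
    · show ((Matrix.GeneralLinearGroup.det g₀ : Fˣ) : F) = l
      rw [CfsgLib.Geometric.coe_det_eq, hg₀, Units.val_mul, Matrix.det_mul,
        CfsgLib.Geometric.det_of_ap _ u _ (CfsgLib.Geometric.ap_dil u _ hA),
        CfsgLib.Geometric.det_of_ap _ w _ (CfsgLib.Geometric.ap_dil w _ hB)]
      simp [huw, hwu, hμ]
  -- the stabiliser in `SU` is the kernel of the determinant
  set D := (CfsgLib.ClassicalForms.guDet n F q).comp H.subtype
  have hrange : Nat.card D.range = q + 1 := by
    rw [← CfsgLib.ClassicalForms.card_norm_one hF']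
    refine Nat.card_congr (Equiv.subtypeEquivRight fun x => ?_)
    constructor
    · rintro ⟨g, rfl⟩
      apply Units.ext
      rw [Units.val_pow_eq_pow_val, Units.val_one, ← c.mul_conj]
      exact CfsgLib.ClassicalForms.det_gu_norm c g.1
    · intro hx
      obtain ⟨g, hg, hdet⟩ := honto x (by
        rw [c.mul_conj, ← Units.val_pow_eq_pow_val, hx, Units.val_one])
      exact ⟨⟨g, hg⟩, Units.ext hdet⟩
  have hker : Nat.card ↥((Cfsg.stabilizing (Cfsg.slToMat n F) (W : Set (Fin n → F))).subgroupOf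
      (Cfsg.SU n F q)) = Nat.card D.ker := by
    refine Nat.card_eq_of_bijective (fun s => (⟨⟨CfsgLib.ClassicalForms.suToGU s.1, s.2⟩, ?_⟩ : D.ker))
      ⟨?_, ?_⟩
    · have : CfsgLib.ClassicalForms.suToGU s.1 ∈ (CfsgLib.ClassicalForms.guDet n F q).ker := by
        rw [← CfsgLib.ClassicalForms.range_suToGU]; exact ⟨_, rfl⟩
      exact this
    · intro s t h
      exact Subtype.ext (CfsgLib.ClassicalForms.suToGU_injective
        (congrArg (fun z : D.ker => (z : H).1) h))
    · rintro ⟨⟨g, hgH⟩, hg⟩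
      have hg' : g ∈ (CfsgLib.ClassicalForms.suToGU (F := F) (n := n) (q := q)).range := by
        rw [CfsgLib.ClassicalForms.range_suToGU]; exact hg
      obtain ⟨s, rfl⟩ := hg'
      exact ⟨⟨s, hgH⟩, rfl⟩
  have hidx : Nat.card H = (q + 1) * Nat.card ↥((Cfsg.stabilizing (Cfsg.slToMat n F)
      (W : Set (Fin n → F))).subgroupOf (Cfsg.SU n F q)) := by
    rw [← D.ker.card_mul_index, Subgroup.index_ker, hrange, hker, mul_comm]
  rw [← hidx]
  have hq := CfsgLib.ClassicalForms.two_le_q hF'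
  have hfac : ∀ i, 0 < CfsgLib.Forms.guFactor q i := fun i => by
    have : 2 ≤ q ^ (i + 1) := hq.trans (Nat.le_self_pow (by omega) q)
    rw [CfsgLib.Forms.guFactor]
    split <;> omega
  have hP := CfsgLib.Forms.card_hermFrames hF' c n k hk
  have hpos : 0 < Nat.card P := by
    show 0 < Nat.card {w : Fin k → Fin n → F | CfsgLib.Forms.IsHermFrame n q w}
    rw [hP]
    exact Finset.prod_pos fun j _ => Nat.mul_pos (pow_pos (by omega) _) (Nat.mul_pos (hfac _) (hfac _))
  refine Nat.eq_of_mul_eq_mul_right hpos (hc.trans ?_)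
  have hexp : k * (2 * n - 3 * k) + (n - 2 * k) * (n - 2 * k - 1) / 2 + k * (k - 1) =
      n * (n - 1) / 2 := by
    have two : ∀ a : ℕ, a * (a - 1) / 2 * 2 = a * (a - 1) := fun a =>
      Nat.div_mul_cancel (Nat.even_mul_pred_self a).two_dvd
    obtain ⟨r, rfl⟩ := Nat.exists_eq_add_of_le hk
    rw [Nat.add_sub_cancel_left, show 2 * (2 * k + r) - 3 * k = k + 2 * r by omega]
    refine Nat.eq_of_mul_eq_mul_right two_pos ?_
    rw [add_mul, add_mul, two, two]
    rcases k with _ | l
    · simp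
    · rw [Nat.add_sub_cancel, show 2 * (l + 1) + r - 1 = 2 * l + 1 + r by omega]
      rcases r with _ | s
      · ring
      · rw [Nat.add_sub_cancel]; ring
  have hid := CfsgLib.Forms.prod_hermFrames_mul_eq q n k hk
  rw [CfsgLib.ClassicalForms.card_gu hF', hSc]
  show _ = _ * Nat.card {w : Fin k → Fin n → F | CfsgLib.Forms.IsHermFrame n q w}
  rw [hP, ← hexp, pow_add, pow_add]
  unfold CfsgLib.Forms.guFactor at hid ⊢
  rw [mul_assoc _ (q ^ (k * (k - 1))), ← hid]
  ring

end Cfsg.Agent.S0782
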