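import Cfsg.Statements.S0783
import Cfsg.Agent.Lib.Forms.FiniteField
import Mathlib

set_option autoImplicit false
open Cfsg

namespace Cfsg.Agent.S0783

/-- PGU_n(q)/PSU_n(q) is cyclic of order (n, q+1): for n ≥ 2 and |F| = q² there is a surjective homomorphism from GU_n(q) onto the cyclic group of order gcd(n, q + 1) whose kernel is generated by the determinant-one elements together with the centre. -/
theorem result {F : Type*} [Field F] [Fintype F] {q : ℕ} (hF : Fintype.card F = q ^ 2) (n : ℕ) (hn : 2 ≤ n) : ∃ φ : ↥(Cfsg.GU n F q) →* Multiplicative (ZMod (Nat.gcd n (q + 1))), Function.Surjective φ ∧ φ.ker = (Matrix.GeneralLinearGroup.det : Matrix.GeneralLinearGroup (Fin n) F →* Fˣ).ker.subgroupOf (Cfsg.GU n F q) ⊔ Subgroup.center ↥(Cfsg.GU n F q) := by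
  classical
  set d := Nat.gcd n (q + 1) with hd
  obtain ⟨s, hs⟩ : d ∣ q + 1 := Nat.gcd_dvd_right n (q + 1)
  obtain ⟨t, ht⟩ : d ∣ n := Nat.gcd_dvd_left n (q + 1)
  have hd0 : 0 < d := Nat.gcd_pos_of_pos_right _ (Nat.succ_pos q)
  obtain ⟨σ, hσ, -, hσ2⟩ := CfsgLib.Forms.exists_conj_of_card_sq hF
  have hq2 : 2 ≤ q := by
    have := Fintype.one_lt_card (α := F)
    rw [hF] at this
    exact (Nat.one_lt_pow_iff two_ne_zero).mp this
  have hherm : ∀ (g : ↥(Cfsg.GU n F q)) (i j : Fin n),
      ∑ l, ((g : Matrix.GeneralLinearGroup (Fin n) F) : Matrix (Fin n) (Fin n) F) l i *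
        σ (((g : Matrix.GeneralLinearGroup (Fin n) F) : Matrix (Fin n) (Fin n) F) l j) =
        if i = j then 1 else 0 := by
    intro g i j
    have h := g.2 (Pi.single i 1) (Pi.single j 1)
    simp only [Units.coeHom_apply, Cfsg.hermForm, Matrix.mulVec_single_one, Matrix.col_apply] at h
    simp only [hσ]
    rw [h, Finset.sum_eq_single i]
    · rcases eq_or_ne i j with rfl | hij
      · simp
      · simp [Pi.single_eq_of_ne hij, hij, zero_pow (by omega : q ≠ 0)]
    · intro l _ hl; simp [Pi.single_eq_of_ne hl]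
    · simp
  let mu : Subgroup Fˣ := (powMonoidHom (q + 1) : Fˣ →* Fˣ).ker
  have hcyc : ∀ (e : ℕ), e ∣ q + 1 → Nat.card (powMonoidHom e : Fˣ →* Fˣ).ker = e := by
    intro e he
    rw [IsCyclic.card_powMonoidHom_ker, Nat.card_units, Nat.card_eq_fintype_card, hF]
    refine Nat.gcd_eq_right (he.trans ⟨q - 1, ?_⟩)
    simpa using Nat.sq_sub_sq q 1
  let D : ↥(Cfsg.GU n F q) →* Fˣ := Matrix.GeneralLinearGroup.det.comp (Cfsg.GU n F q).subtype
  have hDmu : ∀ g, D g ∈ mu := by
    intro g
    set M := ((g : Matrix.GeneralLinearGroup (Fin n) F) : Matrix (Fin n) (Fin n) F) with hM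
    have hmat : M.transpose * M.map σ = 1 := by
      ext i j
      rw [Matrix.mul_apply, Matrix.one_apply, ← hherm g i j]
      rfl
    have h := congrArg Matrix.det hmat
    rw [Matrix.det_mul, Matrix.det_transpose, Matrix.det_one] at h
    rw [← RingHom.mapMatrix_apply, ← RingHom.map_det, hσ, ← pow_succ'] at h
    exact Units.ext (by simpa [D, hM] using h)
  -- diagonal unitary matrices
  let dg : (Fin n → mu) → ↥(Cfsg.GU n F q) := fun c =>
    ⟨Matrix.GeneralLinearGroup.mkOfDetNeZero (Matrix.diagonal fun i => ((c i : Fˣ) : F))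
        (by rw [Matrix.det_diagonal, Finset.prod_ne_zero_iff]; exact fun i _ => Units.ne_zero _),
      fun u v => by
        simp only [Units.coeHom_apply, Cfsg.hermForm]
        refine Finset.sum_congr rfl fun i _ => ?_
        have hc : ((c i : Fˣ) : F) ^ (q + 1) = 1 := by simpa using congrArg Units.val (c i).2
        show Matrix.mulVec (Matrix.diagonal _) u i * (Matrix.mulVec (Matrix.diagonal _) v i) ^ q = _
        rw [Matrix.mulVec_diagonal, Matrix.mulVec_diagonal, mul_pow,
          show ((c i : Fˣ) : F) * u i * (((c i : Fˣ) : F) ^ q * v i ^ q)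
            = ((c i : Fˣ) : F) ^ (q + 1) * (u i * v i ^ q) by ring, hc, one_mul]⟩
  have hdgval : ∀ c, ((dg c : Matrix.GeneralLinearGroup (Fin n) F) : Matrix (Fin n) (Fin n) F)
      = Matrix.diagonal fun i => ((c i : Fˣ) : F) := fun c => rfl
  have hdgD : ∀ c, D (dg c) = ∏ i, (c i : Fˣ) := fun c => Units.ext (by
    show Matrix.det (Matrix.diagonal fun i => ((c i : Fˣ) : F)) = _
    rw [Matrix.det_diagonal, Units.coe_prod])
  -- permutation matrices
  let pm : Equiv.Perm (Fin n) → ↥(Cfsg.GU n F q) := fun π =>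
    ⟨Matrix.GeneralLinearGroup.mkOfDetNeZero (π.permMatrix F)
        (by rw [Matrix.det_permutation]; rcases Int.units_eq_one_or (Equiv.Perm.sign π) with h | h <;> simp [h]),
      fun u v => by
        simp only [Units.coeHom_apply, Cfsg.hermForm]
        show ∑ i, Matrix.mulVec (π.permMatrix F) u i * (Matrix.mulVec (π.permMatrix F) v i) ^ q = _
        rw [Matrix.permMatrix_mulVec, Matrix.permMatrix_mulVec]
        exact Equiv.sum_comp π fun i => u i * v i ^ q⟩
  obtain ⟨ζ, hζ⟩ : ∃ ζ : mu, ((ζ : Fˣ) : F) ≠ 1 := by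
    by_contra h
    push Not at h
    have : Subsingleton mu := ⟨fun a b => Subtype.ext (Units.ext ((h a).trans (h b).symm))⟩
    have := hcyc (q + 1) dvd_rfl
    rw [Nat.card_of_subsingleton (1 : mu)] at this
    omega
  -- central elements are scalar
  have hcent : ∀ z ∈ Subgroup.center ↥(Cfsg.GU n F q), ∃ l : mu,
      D z = (l : Fˣ) ^ n := by
    intro z hz
    set M := ((z : Matrix.GeneralLinearGroup (Fin n) F) : Matrix (Fin n) (Fin n) F) with hM
    have hcomm : ∀ g : ↥(Cfsg.GU n F q),
        ((g : Matrix.GeneralLinearGroup (Fin n) F) : Matrix (Fin n) (Fin n) F) * M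
          = M * ((g : Matrix.GeneralLinearGroup (Fin n) F) : Matrix (Fin n) (Fin n) F) := fun g =>
      congrArg (fun x : ↥(Cfsg.GU n F q) => ((x : Matrix.GeneralLinearGroup (Fin n) F) : Matrix (Fin n) (Fin n) F))
        (Subgroup.mem_center_iff.mp hz g)
    have hoff : ∀ i j, i ≠ j → M i j = 0 := by
      intro i j hij
      have h := congrFun (congrFun (hcomm (dg (Function.update 1 i ζ))) i) j
      rw [hdgval, Matrix.diagonal_mul, Matrix.mul_diagonal, Function.update_self,
        Function.update_of_ne (Ne.symm hij)] at h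
      simp only [Pi.one_apply, OneMemClass.coe_one, Units.val_one, mul_one] at h
      by_contra hne
      exact hζ (mul_right_cancel₀ hne (h.trans (one_mul _).symm))
    let i₀ : Fin n := ⟨0, by omega⟩
    have hdiag : ∀ i, M i i = M i₀ i₀ := by
      intro i
      rcases eq_or_ne i i₀ with rfl | hne
      · rfl
      have h := congrFun (congrFun (hcomm (pm (Equiv.swap i i₀))) i) i₀
      change (((Equiv.swap i i₀).permMatrix F) * M) i i₀ = (M * (Equiv.swap i i₀).permMatrix F) i i₀ at h
      simp [Matrix.mul_apply, Equiv.Perm.permMatrix, PEquiv.toMatrix, Equiv.swap_apply_def, hne] at h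
      rw [Finset.sum_eq_single i (fun l _ hl => by simp [hoff i l (Ne.symm hl)]) (by simp)] at h
      simpa [eq_comm] using h
    have h1 : M i₀ i₀ * σ (M i₀ i₀) = 1 := by
      have h := hherm z i₀ i₀
      rwa [if_pos rfl, Finset.sum_eq_single i₀ (fun l _ hl => by rw [← hM, hoff l i₀ hl, zero_mul]) (by simp),
        ← hM] at h
    let l : Fˣ := ⟨M i₀ i₀, σ (M i₀ i₀), h1, by rw [mul_comm]; exact h1⟩
    refine ⟨⟨l, Units.ext (by
      show (M i₀ i₀) ^ (q + 1) = 1
      rw [pow_succ', ← hσ, h1])⟩, Units.ext ?_⟩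
    show M.det = (M i₀ i₀) ^ n
    rw [show M = Matrix.diagonal fun _ => M i₀ i₀ from Matrix.ext fun i j => by
      rcases eq_or_ne i j with rfl | hij
      · rw [Matrix.diagonal_apply_eq, hdiag]
      · rw [Matrix.diagonal_apply_ne _ hij, hoff i j hij], Matrix.det_diagonal]
    simp
  let mud : Subgroup Fˣ := (powMonoidHom d : Fˣ →* Fˣ).ker
  let ψ : ↥(Cfsg.GU n F q) →* mud := ((powMonoidHom s).comp D).codRestrict mud fun g => by
    show ((D g) ^ s) ^ d = 1
    rw [← pow_mul, mul_comm, ← hs]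
    exact hDmu g
  have hdcard : Nat.card mud = d := hcyc d ⟨s, hs⟩
  have hψ : Function.Surjective ψ := by
    intro x
    let P : mu →* mud := ((powMonoidHom s).comp mu.subtype).codRestrict mud fun g => by
      show ((g : Fˣ) ^ s) ^ d = 1
      rw [← pow_mul, mul_comm, ← hs]
      exact g.2
    have hker : Nat.card P.ker = s := by
      rw [← hcyc s ⟨d, by rw [hs, mul_comm]⟩]
      refine Nat.card_congr
        { toFun := fun g => ⟨((g : mu) : Fˣ), congrArg Subtype.val (MonoidHom.mem_ker.mp g.2)⟩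
          invFun := fun g => ⟨⟨g, ?_⟩, Subtype.ext g.2⟩
          left_inv := fun g => rfl
          right_inv := fun g => rfl }
      show (g : Fˣ) ^ (q + 1) = 1
      rw [hs, mul_comm, pow_mul, show (g : Fˣ) ^ s = 1 from g.2, one_pow]
    have hrange : P.range = ⊤ := by
      apply Subgroup.eq_top_of_card_eq
      have h := Subgroup.card_mul_index P.ker
      rw [Subgroup.index_ker, hker, hcyc (q + 1) dvd_rfl, hs, mul_comm d] at h
      rw [hdcard]
      refine Nat.eq_of_mul_eq_mul_left ?_ h
      rcases Nat.eq_zero_or_pos s with rfl | h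
      · simp at hs
      · exact h
    obtain ⟨c, hc⟩ := MonoidHom.range_eq_top.mp hrange x
    refine ⟨dg (Function.update 1 ⟨0, by omega⟩ c), Subtype.ext ?_⟩
    show (D _) ^ s = _
    rw [hdgD, Finset.prod_eq_single (⟨0, by omega⟩ : Fin n) (fun i _ hi => by simp [Function.update_of_ne hi]) (by simp),
      Function.update_self, ← hc]
    rfl
  let e : mud ≃* Multiplicative (ZMod d) := mulEquivOfCyclicCardEq (by rw [hdcard]; exact (Nat.card_zmod d).symm)
  refine ⟨e.toMonoidHom.comp ψ, e.surjective.comp hψ, ?_⟩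
  rw [show (e.toMonoidHom.comp ψ).ker = ψ.ker from by ext g; simp [MonoidHom.mem_ker]]
  refine le_antisymm (fun g hg => ?_) (sup_le (fun g hg => ?_) fun g hg => ?_)
  · have hg' : (D g) ^ s = 1 := congrArg Subtype.val (MonoidHom.mem_ker.mp hg)
    let P : mu →* (powMonoidHom s : Fˣ →* Fˣ).ker := ((powMonoidHom n).comp mu.subtype).codRestrict _ fun c => by
      show ((c : Fˣ) ^ n) ^ s = 1
      have hsd : d * t * s = (q + 1) * t := by rw [hs]; ring
      rw [← pow_mul, ht, hsd, pow_mul, show (c : Fˣ) ^ (q + 1) = 1 from c.2, one_pow]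
    have hker : Nat.card P.ker = d := by
      rw [← hdcard]
      refine Nat.card_congr
        { toFun := fun c => ⟨((c : mu) : Fˣ), ?_⟩
          invFun := fun c => ⟨⟨c, ?_⟩, Subtype.ext ?_⟩
          left_inv := fun c => rfl
          right_inv := fun c => rfl }
      · show ((c : mu) : Fˣ) ^ d = 1
        exact pow_gcd_eq_one.mpr ⟨congrArg Subtype.val (MonoidHom.mem_ker.mp c.2), (c : mu).2⟩
      · show (c : Fˣ) ^ (q + 1) = 1
        rw [hs, pow_mul, show (c : Fˣ) ^ d = 1 from c.2, one_pow]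
      · show (c : Fˣ) ^ n = 1
        rw [ht, pow_mul, show (c : Fˣ) ^ d = 1 from c.2, one_pow]
    have hrange : P.range = ⊤ := by
      apply Subgroup.eq_top_of_card_eq
      have h := Subgroup.card_mul_index P.ker
      rw [Subgroup.index_ker, hker, hcyc (q + 1) dvd_rfl, hs] at h
      rw [hcyc s ⟨d, by rw [hs, mul_comm]⟩]
      exact Nat.eq_of_mul_eq_mul_left hd0 h
    obtain ⟨c, hc⟩ := MonoidHom.range_eq_top.mp hrange ⟨D g, hg'⟩
    have hc' : (c : Fˣ) ^ n = D g := congrArg Subtype.val hc
    have hzc : dg (fun _ => c) ∈ Subgroup.center ↥(Cfsg.GU n F q) := by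
      rw [Subgroup.mem_center_iff]
      intro h
      refine Subtype.ext (Units.ext ?_)
      show _ * Matrix.diagonal (fun _ : Fin n => ((c : Fˣ) : F)) = Matrix.diagonal (fun _ : Fin n => ((c : Fˣ) : F)) * _
      rw [← Matrix.smul_one_eq_diagonal, Matrix.mul_smul, Matrix.smul_mul, mul_one, one_mul]
    have hrest : g * (dg fun _ => c)⁻¹ ∈ D.ker := by
      rw [MonoidHom.mem_ker, map_mul, map_inv, hdgD, Finset.prod_const, Finset.card_univ, Fintype.card_fin, hc',
        mul_inv_cancel]
    have := Subgroup.mul_mem_sup (show g * (dg fun _ => c)⁻¹ ∈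
      (Matrix.GeneralLinearGroup.det : Matrix.GeneralLinearGroup (Fin n) F →* Fˣ).ker.subgroupOf (Cfsg.GU n F q) from hrest) hzc
    rwa [inv_mul_cancel_right] at this
  · rw [MonoidHom.mem_ker]
    refine Subtype.ext ?_
    show (D g) ^ s = 1
    rw [show D g = 1 from hg, one_pow]
  · obtain ⟨l, hl⟩ := hcent g hg
    rw [MonoidHom.mem_ker]
    refine Subtype.ext ?_
    show (D g) ^ s = 1
    have hsd : d * t * s = (q + 1) * t := by rw [hs]; ring
    rw [hl, ← pow_mul, ht, hsd, pow_mul, show (l : Fˣ) ^ (q + 1) = 1 from l.2, one_pow]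

end Cfsg.Agent.S0783
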