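import Cfsg.Statements.S0784
import Cfsg.Agent.Lib.Parabolic.OrthBasic

set_option autoImplicit false
open Cfsg

namespace Cfsg.Agent.S0784

/-- Reflections: if Q(v) ≠ 0 then the matrix R = 1 − Q(v)⁻¹ · v f(v, ·)ᵀ preserves Q, maps v to −v, fixes each x with f(v, x) = 0, and has determinant −1 (in characteristic two, −1 = 1 and R is the orthogonal transvection of v). -/
theorem result {F : Type*} [Field F] {n : ℕ} (Q : QuadraticForm F (Fin n → F)) (v : Fin n → F) (hv : Q v ≠ 0) : (∀ x, Q ((Cfsg.reflectionMatrix ⇑Q v).mulVec x) = Q x) ∧ (Cfsg.reflectionMatrix ⇑Q v).mulVec v = -v ∧ (∀ x, QuadraticMap.polar ⇑Q v x = 0 → (Cfsg.reflectionMatrix ⇑Q v).mulVec x = x) ∧ (Cfsg.reflectionMatrix ⇑Q v).det = -1 := by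
  refine ⟨CfsgLib.OrthGen.reflection_Q Q hv, ?_, ?_, ?_⟩
  · rw [CfsgLib.OrthGen.reflectionMatrix_mulVec, CfsgLib.OrthGen.pf_self, mul_left_comm,
      inv_mul_cancel₀ hv, mul_one, two_smul, sub_add_eq_sub_sub, sub_self, zero_sub]
  · intro x hx
    rw [CfsgLib.OrthGen.reflectionMatrix_mulVec, show CfsgLib.OrthGen.pf Q v x = 0 from hx, mul_zero,
      zero_smul, sub_zero]
  · rw [Cfsg.reflectionMatrix, sub_eq_add_neg, ← neg_smul, ← Matrix.smul_vecMulVec,
      Matrix.vecMulVec_eq (Fin 1), Matrix.det_one_add_replicateCol_mul_replicateRow, dotProduct_smul,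
      CfsgLib.OrthGen.polarVec_dotProduct, CfsgLib.OrthGen.pf_self, smul_eq_mul]
    field_simp
    ring

end Cfsg.Agent.S0784
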