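import Cfsg.Statements.S0785
import Cfsg.Agent.Lib.Parabolic.OrthBasic
import Cfsg.Agent.S0784

set_option autoImplicit false
open Cfsg

namespace Cfsg.Agent.S0785

/-- det(I) = {±1}: for a quadratic form on F^n whose polar form is non-degenerate, every element of the isometry group has determinant 1 or −1, and as soon as Q takes a non-zero value some isometry has determinant −1. -/
theorem result {F : Type*} [Field F] {n : ℕ} (Q : QuadraticForm F (Fin n → F)) (hQ : (QuadraticMap.polarBilin Q).Nondegenerate) : (∀ g : ↥(Cfsg.isometryGroup F ⇑Q), ((g : Matrix.GeneralLinearGroup (Fin n) F) : Matrix (Fin n) (Fin n) F).det = 1 ∨ ((g : Matrix.GeneralLinearGroup (Fin n) F) : Matrix (Fin n) (Fin n) F).det = -1) ∧ ((∃ v, Q v ≠ 0) → ∃ g : ↥(Cfsg.isometryGroup F ⇑Q), ((g : Matrix.GeneralLinearGroup (Fin n) F) : Matrix (Fin n) (Fin n) F).det = -1) := by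
  constructor
  · intro g
    set M := ((g : Matrix.GeneralLinearGroup (Fin n) F) : Matrix (Fin n) (Fin n) F) with hM
    set G := LinearMap.BilinForm.toMatrix' (QuadraticMap.polarBilin Q) with hG
    have hG0 : G.det ≠ 0 := by
      rw [← Matrix.nondegenerate_iff_det_ne_zero]
      exact LinearMap.BilinForm.nondegenerate_toMatrix'_iff.mpr hQ
    have hMG : M.transpose * G * M = G := by
      have h : LinearMap.BilinForm.comp (QuadraticMap.polarBilin Q) (Matrix.toLin' M) (Matrix.toLin' M)
          = QuadraticMap.polarBilin Q := by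
        refine LinearMap.ext₂ fun x y => ?_
        rw [LinearMap.BilinForm.comp_apply, Matrix.toLin'_apply, Matrix.toLin'_apply]
        exact CfsgLib.OrthGen.pf_act g x y
      have h' := congrArg LinearMap.BilinForm.toMatrix' h
      rwa [LinearMap.BilinForm.toMatrix'_comp, LinearMap.toMatrix'_toLin'] at h'
    have h := congrArg Matrix.det hMG
    rw [Matrix.det_mul, Matrix.det_mul, Matrix.det_transpose] at h
    have h1 : (M.det - 1) * (M.det + 1) = 0 :=
      mul_right_cancel₀ hG0 (by linear_combination h)
    rcases mul_eq_zero.mp h1 with h2 | h2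
    · exact Or.inl (sub_eq_zero.mp h2)
    · exact Or.inr (eq_neg_of_add_eq_zero_left h2)
  · rintro ⟨v, hv⟩
    exact ⟨CfsgLib.OrthGen.refl Q hv, (Cfsg.Agent.S0784.result Q v hv).2.2.2⟩

end Cfsg.Agent.S0785
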