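import Cfsg.Statements.S0786
import Cfsg.Agent.Lib.Forms.OrthRefl

set_option autoImplicit false
open Cfsg

namespace Cfsg.Agent.S0786

/-- Generation by reflections: if F is finite, Q is a quadratic form on F^n with non-degenerate polar form, and (|F|, n) ≠ (2, 4), then the isometry group of Q is generated by the reflections r_v, Q(v) ≠ 0. -/
theorem result {F : Type*} [Field F] [Fintype F] {n : ℕ} (Q : QuadraticForm F (Fin n → F)) (hQ : (QuadraticMap.polarBilin Q).Nondegenerate) (h : Fintype.card F ≠ 2 ∨ n ≠ 4) : Subgroup.closure {g : ↥(Cfsg.isometryGroup F ⇑Q) | ∃ v : Fin n → F, Q v ≠ 0 ∧ ((g : Matrix.GeneralLinearGroup (Fin n) F) : Matrix (Fin n) (Fin n) F) = Cfsg.reflectionMatrix ⇑Q v} = ⊤ := by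
  have hex : (∃ c : F, c ≠ 0 ∧ c ≠ 1) ∨ Fintype.card (Fin n) ≠ 4 := by
    rcases h with h | h
    · left
      classical
      have := Fintype.one_lt_card (α := F)
      have h3 : ({0, 1} : Finset F).card < (Finset.univ : Finset F).card := by
        rw [Finset.card_pair zero_ne_one, Finset.card_univ]; omega
      obtain ⟨c, -, hc⟩ := Finset.exists_mem_notMem_of_card_lt_card h3
      exact ⟨c, by simpa using hc⟩
    · exact Or.inr (by simpa using h)
  rw [← top_le_iff, ← CfsgLib.Forms.reflClosure_eq_top hQ hex, CfsgLib.Forms.reflClosure]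
  apply Subgroup.closure_mono
  rintro _ ⟨v, hv, rfl⟩
  exact ⟨v, hv, rfl⟩

end Cfsg.Agent.S0786
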