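import Cfsg.Statements.S0790
import Cfsg.Agent.Lib.Forms.NegOne
import Cfsg.Agent.S0289

set_option autoImplicit false
open Cfsg

namespace Cfsg.Agent.S0790

/-- −1 ∈ Ω⁺_2m(q) iff q^m ≡ 1 (mod 4), for q odd and m ≥ 1 (so that in the other case SO⁺_2m(q) = 2 × Ω⁺_2m(q)). -/
theorem result {F : Type*} [Field F] [Fintype F] {q : ℕ} (hF : Fintype.card F = q) (hodd : Odd q) (m : ℕ) (hm : 1 ≤ m) : (∃ g : ↥(Cfsg.isometryGroup F (Cfsg.quadFormPlus m F)), g ∈ Cfsg.Omega F (Cfsg.quadFormPlus m F) ∧ ((g : Matrix.GeneralLinearGroup (Fin m ⊕ Fin m) F) : Matrix (Fin m ⊕ Fin m) (Fin m ⊕ Fin m) F) = -1) ↔ q ^ m % 4 = 1 := by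
  obtain ⟨k, rfl⟩ : ∃ k, m = k + 1 := ⟨m - 1, by omega⟩
  set Q := CfsgLib.ClassicalForms.qPlus (k + 1) F with hQdef
  have hval : ∀ x, Q x = Cfsg.quadFormPlus (k + 1) F x := CfsgLib.ClassicalForms.qPlus_apply (k + 1)
  have hfun : Cfsg.quadFormPlus (k + 1) F = ⇑Q := funext fun x => (hval x).symm
  have h2 : (2 : F) ≠ 0 := CfsgLib.ClassicalForms.two_ne_zero_of_odd (by rwa [Nat.card_eq_fintype_card, hF])
  have hQ : (QuadraticMap.polarBilin Q).Nondegenerate :=
    CfsgLib.ClassicalForms.nondeg_iff_polarBilin.mpr (CfsgLib.ClassicalForms.nondeg_qPlus (k + 1))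
  have hsim : ∀ c : F, c ≠ 0 → ∃ φ : (Fin (k + 1) ⊕ Fin (k + 1) → F) → (Fin (k + 1) ⊕ Fin (k + 1) → F),
      Function.Injective φ ∧ ∀ x, Q (φ x) = c * Q x := by
    intro c hc
    refine ⟨fun v => Sum.elim (fun i => c * v (.inl i)) (fun i => v (.inr i)), fun u v h => funext ?_,
      fun x => ?_⟩
    · rintro (i | i)
      · exact mul_left_cancel₀ hc (congrFun h (.inl i))
      · exact congrFun h (.inr i)
    · simp [hval, Cfsg.quadFormPlus, Finset.mul_sum, mul_assoc]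
  set N := Nat.card {x : Fin (k + 1) ⊕ Fin (k + 1) → F // Q x = 1} with hN
  have hz : Nat.card {x : Fin (k + 1) ⊕ Fin (k + 1) → F // Q x = 0} =
      q ^ (2 * (k + 1) - 1) + q ^ (k + 1) - q ^ (k + 1 - 1) := by
    rw [← Cfsg.Agent.S0289.result hF (k + 1) hm]
    exact Nat.card_congr (Equiv.subtypeEquivRight fun x => by rw [hval])
  have hsum := (CfsgLib.Forms.card_sphere_mul hsim one_ne_zero).2
  rw [← hN, hz, Nat.card_eq_fintype_card, hF, Fintype.card_sum, Fintype.card_fin,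
    show 2 * (k + 1) - 1 = 2 * k + 1 by omega, Nat.add_sub_cancel] at hsum
  have hq : 3 ≤ q := by
    have := Fintype.one_lt_card (α := F)
    obtain ⟨r, hr⟩ := hodd
    omega
  have hNval : N = q ^ k * (q ^ (k + 1) - 1) := by
    have h1 : q ^ k ≤ q ^ (2 * k + 1) + q ^ (k + 1) :=
      le_add_left (Nat.pow_le_pow_right (by omega) (Nat.le_succ k))
    have h2 : 1 ≤ q ^ (k + 1) := Nat.one_le_pow _ _ (by omega)
    have h3 : 1 ≤ q := by omega
    zify [h1, h2, h3] at hsum ⊢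
    have hq0 : (q : ℤ) - 1 ≠ 0 := by omega
    apply mul_left_cancel₀ hq0
    linear_combination hsum
  rw [hfun, Cfsg.Omega, CfsgLib.Forms.neg_one_mem_commutator_iff h2 (by simp; omega) hQ
    (fun c hc => (CfsgLib.Forms.card_sphere_mul hsim hc).1), ← hN, hNval]
  simpa using CfsgLib.Forms.even_half_sphere_iff (k := k) (s := false) hodd

end Cfsg.Agent.S0790
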