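import Cfsg.Statements.S0791
import Cfsg.Agent.Lib.Forms.NegOne
import Cfsg.Agent.Lib.Forms.OddFinite
import Cfsg.Agent.S0290

set_option autoImplicit false
open Cfsg

namespace Cfsg.Agent.S0791

/-- −1 ∈ Ω⁻_2m(q) iff q^m ≡ −1 (mod 4), for q odd and m ≥ 1; for the minus-type form quadFormMinus (m−1) with anisotropic binary part. -/
theorem result {F : Type*} [Field F] [Fintype F] {q : ℕ} (hF : Fintype.card F = q) (hodd : Odd q) (m : ℕ) (hm : 1 ≤ m) (a b : F) (hab : ∀ z₁ z₂ : F, z₁ ^ 2 + a * z₁ * z₂ + b * z₂ ^ 2 = 0 → z₁ = 0 ∧ z₂ = 0) : (∃ g : ↥(Cfsg.isometryGroup F (Cfsg.quadFormMinus (m - 1) F a b)), g ∈ Cfsg.Omega F (Cfsg.quadFormMinus (m - 1) F a b) ∧ ((g : Matrix.GeneralLinearGroup ((Fin (m - 1) ⊕ Fin (m - 1)) ⊕ Fin 2) F) : Matrix ((Fin (m - 1) ⊕ Fin (m - 1)) ⊕ Fin 2) ((Fin (m - 1) ⊕ Fin (m - 1)) ⊕ Fin 2) F) = -1) ↔ q ^ m % 4 = 3 := by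
  obtain ⟨k, rfl⟩ : ∃ k, m = k + 1 := ⟨m - 1, by omega⟩
  have hz0 := Cfsg.Agent.S0290.result hF (k + 1) hm a b hab
  rw [Nat.add_sub_cancel] at hz0 ⊢
  set Q := CfsgLib.ClassicalForms.qMinus k F a b with hQdef
  have hval : ∀ x, Q x = Cfsg.quadFormMinus k F a b x := CfsgLib.ClassicalForms.qMinus_apply k a b
  have hfun : Cfsg.quadFormMinus k F a b = ⇑Q := funext fun x => (hval x).symm
  have h2 : (2 : F) ≠ 0 := CfsgLib.ClassicalForms.two_ne_zero_of_odd (by rwa [Nat.card_eq_fintype_card, hF])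
  have hQ : (QuadraticMap.polarBilin Q).Nondegenerate :=
    CfsgLib.ClassicalForms.nondeg_iff_polarBilin.mpr (CfsgLib.ClassicalForms.nondeg_qMinus hab k)
  have hsim : ∀ c : F, c ≠ 0 → ∃ φ : ((Fin k ⊕ Fin k) ⊕ Fin 2 → F) → ((Fin k ⊕ Fin k) ⊕ Fin 2 → F),
      Function.Injective φ ∧ ∀ x, Q (φ x) = c * Q x := by
    intro c hc
    have hD : b - a ^ 2 / 4 ≠ 0 := by
      intro h0
      refine one_ne_zero (hab (-a / 2) 1 ?_).2
      have h4 : (4 : F) ≠ 0 := by
        rw [show (4 : F) = 2 * 2 by norm_num]; exact mul_ne_zero h2 h2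
      field_simp at h0 ⊢
      linear_combination h0
    obtain ⟨u, w₂, huw⟩ := CfsgLib.Forms.exists_binary_diag_eq h2 one_ne_zero hD c
    obtain ⟨w₁, rfl⟩ : ∃ w₁, u = w₁ + a * w₂ / 2 := ⟨u - a * w₂ / 2, by ring⟩
    have hbin : w₁ ^ 2 + a * w₁ * w₂ + b * w₂ ^ 2 = c := by
      rw [← huw]
      have h4 : (4 : F) ≠ 0 := by
        rw [show (4 : F) = 2 * 2 by norm_num]; exact mul_ne_zero h2 h2
      field_simp
      ring
    refine ⟨fun v => Sum.elim (Sum.elim (fun i => c * v (.inl (.inl i))) (fun i => v (.inl (.inr i))))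
      ![v (.inr 0) * w₁ - b * v (.inr 1) * w₂, v (.inr 0) * w₂ + v (.inr 1) * w₁ + a * v (.inr 1) * w₂],
      fun u v h => funext ?_, fun x => ?_⟩
    · have e0 := congrFun h (Sum.inr 0)
      have e1 := congrFun h (Sum.inr 1)
      simp only [Sum.elim_inr, Matrix.cons_val_zero, Matrix.cons_val_one] at e0 e1
      have hA : c * (u (.inr 0) - v (.inr 0)) = 0 := by
        rw [← hbin]
        linear_combination (w₁ + a * w₂) * e0 + b * w₂ * e1
      have hB : c * (u (.inr 1) - v (.inr 1)) = 0 := by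
        rw [← hbin]
        linear_combination (-w₂) * e0 + w₁ * e1
      rintro ((i | i) | i)
      · exact mul_left_cancel₀ hc (congrFun h (.inl (.inl i)))
      · exact congrFun h (.inl (.inr i))
      · fin_cases i
        · exact sub_eq_zero.mp ((mul_eq_zero.mp hA).resolve_left hc)
        · exact sub_eq_zero.mp ((mul_eq_zero.mp hB).resolve_left hc)
    · simp only [hval, Cfsg.quadFormMinus, Sum.elim_inl, Sum.elim_inr, Matrix.cons_val_zero,
        Matrix.cons_val_one, mul_add, Finset.mul_sum, mul_assoc c]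
      congr 1
      rw [← hbin]
      ring
  set N := Nat.card {x : (Fin k ⊕ Fin k) ⊕ Fin 2 → F // Q x = 1} with hN
  have hz : Nat.card {x : (Fin k ⊕ Fin k) ⊕ Fin 2 → F // Q x = 0} =
      q ^ (2 * (k + 1) - 1) + q ^ k - q ^ (k + 1) := by
    rw [← hz0]
    exact Nat.card_congr (Equiv.subtypeEquivRight fun x => by rw [hval])
  have hsum := (CfsgLib.Forms.card_sphere_mul hsim one_ne_zero).2
  rw [← hN, hz, Nat.card_eq_fintype_card, hF, Fintype.card_sum, Fintype.card_sum, Fintype.card_fin,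
    Fintype.card_fin, show 2 * (k + 1) - 1 = 2 * k + 1 by omega] at hsum
  have hq : 3 ≤ q := by
    have := Fintype.one_lt_card (α := F)
    obtain ⟨r, hr⟩ := hodd
    omega
  have hNval : N = q ^ k * (q ^ (k + 1) + 1) := by
    have h1 : q ^ (k + 1) ≤ q ^ (2 * k + 1) + q ^ k :=
      (Nat.pow_le_pow_right (by omega) (by omega)).trans (Nat.le_add_right _ _)
    have h3 : 1 ≤ q := by omega
    zify [h1, h3] at hsum ⊢
    have hq0 : (q : ℤ) - 1 ≠ 0 := by omega
    apply mul_left_cancel₀ hq0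
    linear_combination hsum
  rw [hfun, Cfsg.Omega, CfsgLib.Forms.neg_one_mem_commutator_iff h2 (by simp) hQ
    (fun c hc => (CfsgLib.Forms.card_sphere_mul hsim hc).1), ← hN, hNval]
  simpa using CfsgLib.Forms.even_half_sphere_iff (k := k) (s := true) hodd

end Cfsg.Agent.S0791
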