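import Cfsg.Statements.S0792
import Cfsg.Agent.Lib.Forms.OrthAbel

set_option autoImplicit false
open Cfsg

namespace Cfsg.Agent.S0792

/-- For q odd and Q with non-degenerate polar form on F^n, the determinant-one isometries form the subgroup generated by all products r_u r_v of two reflections (Q(u), Q(v) ≠ 0). -/
theorem result {F : Type*} [Field F] [Fintype F] (h2 : (2 : F) ≠ 0) {n : ℕ} (Q : QuadraticForm F (Fin n → F)) (hQ : (QuadraticMap.polarBilin Q).Nondegenerate) : Cfsg.specialIsometryGroup F ⇑Q = Subgroup.closure {g : ↥(Cfsg.isometryGroup F ⇑Q) | ∃ u v : Fin n → F, Q u ≠ 0 ∧ Q v ≠ 0 ∧ ((g : Matrix.GeneralLinearGroup (Fin n) F) : Matrix (Fin n) (Fin n) F) = Cfsg.reflectionMatrix ⇑Q u * Cfsg.reflectionMatrix ⇑Q v} := by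
  have hex : (∃ c : F, c ≠ 0 ∧ c ≠ 1) ∨ Fintype.card (Fin n) ≠ 4 :=
    Or.inl ⟨-1, by simp, fun h => h2 (by linear_combination -h)⟩
  rw [CfsgLib.Forms.special_eq_closure h2 (CfsgLib.Forms.reflClosure_eq_top hQ hex)]
  congr 1
  ext g
  constructor
  · rintro ⟨u, v, hu, hv, rfl⟩
    exact ⟨u, v, hu, hv, rfl⟩
  · rintro ⟨u, v, hu, hv, h⟩
    exact ⟨u, v, hu, hv, Subtype.ext (Units.ext h)⟩

end Cfsg.Agent.S0792
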