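import Cfsg.Statements.S0796

set_option autoImplicit false
open Cfsg

namespace Cfsg.Agent.S0796

/-- If G is finite and acts faithfully and primitively on X, H is the stabiliser of a point, A is a normal subgroup of H whose normal closure in G is G, then for every non-trivial normal subgroup K of G the quotient G ⧸ K is isomorphic to A ⧸ B for some normal subgroup B of A. -/
theorem result {G X : Type*} [Group G] [Finite G] [MulAction G X] [FaithfulSMul G X] (hprim : MulAction.IsPreprimitive G X) (x : X) (A : Subgroup G) (hA : A ≤ MulAction.stabilizer G x) (hAn : (A.subgroupOf (MulAction.stabilizer G x)).Normal) (hgen : Subgroup.normalClosure (A : Set G) = ⊤) (K : Subgroup G) [K.Normal] (hK : K ≠ ⊥) : ∃ (B : Subgroup A) (_ : B.Normal), Nonempty (G ⧸ K ≃* A ⧸ B) := by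
  have : MulAction.IsPretransitive G X := hprim.toIsPretransitive
  haveI : MulAction.IsQuasiPreprimitive G X := inferInstance
  have hKne : MulAction.fixedPoints K X ≠ Set.univ := by
    intro h
    apply hK
    rw [eq_bot_iff]
    intro k hk
    rw [Subgroup.mem_bot]
    refine FaithfulSMul.eq_of_smul_eq_smul (α := X) fun y => ?_
    rw [one_smul]
    exact (h ▸ Set.mem_univ y : y ∈ MulAction.fixedPoints K X) ⟨k, hk⟩
  haveI : MulAction.IsPretransitive K X :=
    MulAction.IsQuasiPreprimitive.isPretransitive_of_normal hKne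
  -- every element is k * h
  have hKH : ∀ g : G, ∃ k ∈ K, k⁻¹ * g ∈ MulAction.stabilizer G x := fun g => by
    obtain ⟨k, hk⟩ := MulAction.exists_smul_eq K x (g • x)
    refine ⟨k, k.2, ?_⟩
    rw [MulAction.mem_stabilizer_iff, mul_smul, ← hk, Subgroup.smul_def, inv_smul_smul]
  haveI hN : (A ⊔ K).Normal := by
    refine ⟨fun a ha g => ?_⟩
    rw [Subgroup.mem_sup_of_normal_right] at ha
    obtain ⟨a, ha, k₁, hk₁, rfl⟩ := ha
    obtain ⟨k, hk, hh⟩ := hKH g
    set h := k⁻¹ * g with hdef
    have hg : g = k * h := by simp [hdef]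
    have h1 : h * a * h⁻¹ ∈ A := hAn.conj_mem ⟨a, hA ha⟩ ha ⟨h, hh⟩
    have h2 : h * k₁ * h⁻¹ ∈ K := Subgroup.Normal.conj_mem ‹_› k₁ hk₁ h
    have : g * (a * k₁) * g⁻¹ = k * ((h * a * h⁻¹) * (h * k₁ * h⁻¹)) * k⁻¹ := by
      rw [hg]; group
    rw [this]
    exact mul_mem (mul_mem (Subgroup.mem_sup_right hk)
      (mul_mem (Subgroup.mem_sup_left h1) (Subgroup.mem_sup_right h2)))
      (Subgroup.mem_sup_right (inv_mem hk))
  have htop : A ⊔ K = ⊤ := by
    rw [eq_top_iff, ← hgen]
    exact Subgroup.normalClosure_le_normal (fun a ha => Subgroup.mem_sup_left ha)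
  let f : A →* G ⧸ K := (QuotientGroup.mk' K).comp A.subtype
  have hf : Function.Surjective f := by
    intro y
    obtain ⟨g, rfl⟩ := QuotientGroup.mk_surjective y
    have hg : g ∈ A ⊔ K := htop ▸ Subgroup.mem_top g
    rw [Subgroup.mem_sup_of_normal_right] at hg
    obtain ⟨a, ha, k, hk, rfl⟩ := hg
    exact ⟨⟨a, ha⟩, QuotientGroup.eq.mpr (by simpa using hk)⟩
  exact ⟨f.ker, inferInstance, ⟨(QuotientGroup.quotientKerEquivOfSurjective f hf).symm⟩⟩

end Cfsg.Agent.S0796
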