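import Cfsg.Statements.S0800
import Cfsg.Agent.Lib.SL2.Sylow
import Cfsg.Agent.Lib.SL2.Torus

set_option autoImplicit false
open Cfsg

namespace Cfsg.Agent.S0800

/-- Tori of SL_2(q): if g ∈ SL_2(q) has order coprime to the characteristic p, then the order of g divides q − 1 or q + 1. -/
theorem result {F : Type*} [Field F] [Fintype F] {q : ℕ} (hF : Fintype.card F = q) (p : ℕ) [Fact p.Prime] [CharP F p] (g : Matrix.SpecialLinearGroup (Fin 2) F) (hg : Nat.Coprime (orderOf g) p) : orderOf g ∣ q - 1 ∨ orderOf g ∣ q + 1 := by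
  haveI : Finite F := inferInstance
  by_cases ht : CfsgLib.SL2.tr g ^ 2 = 4
  · have h1 : orderOf g ∣ 2 * p := orderOf_dvd_of_pow_eq_one (CfsgLib.SL2.orderOf_dvd_of_tr_sq_eq ht)
    have h2 : orderOf g ∣ 2 := hg.dvd_of_dvd_mul_right h1
    rcases (Nat.dvd_prime Nat.prime_two).mp h2 with h | h
    · rw [h]; exact Or.inl (one_dvd _)
    · rw [h] at hg ⊢
      left
      have hp2 : ringChar F ≠ 2 := by
        rw [ringChar.eq F p]; rintro rfl; exact absurd hg (by decide)
      have := FiniteField.odd_card_of_char_ne_two hp2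
      omega
  · have hmem : g ∈ Subgroup.centralizer ({g} : Set (Matrix.SpecialLinearGroup (Fin 2) F)) :=
      Subgroup.mem_centralizer_singleton_iff.mpr rfl
    have h := Subgroup.orderOf_dvd_natCard _ hmem
    rw [← hF, ← Nat.card_eq_fintype_card]
    rcases CfsgLib.SL2.card_centralizer_or ht with h' | h' <;> rw [h'] at h
    · exact Or.inl h
    · exact Or.inr h

end Cfsg.Agent.S0800
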