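import Cfsg.Statements.S0801
import Cfsg.Agent.Lib.SL2.Dickson.Generation

set_option autoImplicit false
open Cfsg

namespace Cfsg.Agent.S0801

/-- Let F be a finite field of odd characteristic and λ ≠ 0 an element generating F as a field. Then the lower and upper unitriangular matrices with off-diagonal entries 1 and λ generate SL_2(F), unless |F| = 9 and λ² = −1, in which case they generate a subgroup of order 120. -/
theorem result {F : Type*} [Field F] [Fintype F] (h2 : (2 : F) ≠ 0) (lam : F) (hlam : lam ≠ 0) (hgen : Subfield.closure ({lam} : Set F) = ⊤) : (Subgroup.closure {g : Matrix.SpecialLinearGroup (Fin 2) F | (g : Matrix (Fin 2) (Fin 2) F) = !![1, 0; 1, 1] ∨ (g : Matrix (Fin 2) (Fin 2) F) = !![1, lam; 0, 1]} = ⊤ ∧ ¬ (Fintype.card F = 9 ∧ lam ^ 2 = -1)) ∨ (Fintype.card F = 9 ∧ lam ^ 2 = -1 ∧ Nat.card ↥(Subgroup.closure {g : Matrix.SpecialLinearGroup (Fin 2) F | (g : Matrix (Fin 2) (Fin 2) F) = !![1, 0; 1, 1] ∨ (g : Matrix (Fin 2) (Fin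 2) F) = !![1, lam; 0, 1]}) = 120) := by
  classical
  set S := {g : Matrix.SpecialLinearGroup (Fin 2) F | (g : Matrix (Fin 2) (Fin 2) F) = !![1, 0; 1, 1] ∨
    (g : Matrix (Fin 2) (Fin 2) F) = !![1, lam; 0, 1]} with hS
  have hl : CfsgLib.SL2.Dickson.lowS 1 ∈ Subgroup.closure S :=
    Subgroup.subset_closure (Or.inl (CfsgLib.SL2.Dickson.lowS_coe 1))
  have hu : CfsgLib.ClassicalLinear.upS lam ∈ Subgroup.closure S :=
    Subgroup.subset_closure (Or.inr (CfsgLib.ClassicalLinear.upS_coe lam))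
  rcases CfsgLib.SL2.Dickson.generation h2 hlam hgen hl hu with h | ⟨h9, hl2, hc⟩
  · refine Or.inl ⟨h, fun ⟨h9, hl2⟩ => ?_⟩
    obtain ⟨p, hp, hchar, hpdvd⟩ := CfsgLib.SL2.exists_charP (F := F)
    rw [Nat.card_eq_fintype_card, h9] at hpdvd
    have h3 : p = 3 := (Nat.prime_dvd_prime_iff_eq hp Nat.prime_three).1
      (hp.dvd_of_dvd_pow (show p ∣ 3 ^ 2 from hpdvd))
    subst h3
    have hle : Nat.card (Subgroup.closure S) ≤ 120 :=
      CfsgLib.SL2.Dickson.Exceptional.card_closure_le hl2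
    rw [h, Nat.card_congr Subgroup.topEquiv.toEquiv, CfsgLib.SL2.card_SL, Nat.card_eq_fintype_card,
      h9] at hle
    norm_num at hle
  · exact Or.inr ⟨by rw [← Nat.card_eq_fintype_card]; exact h9, hl2, hc⟩

end Cfsg.Agent.S0801
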