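import Cfsg.Statements.S0802
import Cfsg.Agent.Lib.Parabolic.PSLFours.Count
import Cfsg.Agent.Lib.Parabolic.PSLFours.CharTwo
-- import your own Cfsg.Agent.* helpers here

set_option autoImplicit false
open Cfsg

namespace Cfsg.Agent.S0802

lemma alt_four_data : ∃ x u : alternatingGroup (Fin 4), x ≠ 1 ∧ x * x = 1 ∧
    u ^ 3 = 1 ∧ x * (u * x * u⁻¹) = u * x * u⁻¹ * x ∧ u * x * u⁻¹ ≠ x :=
  ⟨⟨Equiv.swap 0 1 * Equiv.swap 2 3, by rw [Equiv.Perm.mem_alternatingGroup]; decide⟩,
    ⟨Equiv.swap 0 1 * Equiv.swap 1 2, by rw [Equiv.Perm.mem_alternatingGroup]; decide⟩,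
    by decide, by decide, by decide, by decide, by decide⟩

/-- PSL_2(p^n) has a subgroup isomorphic to A_4 if and only if it is not the case that p = 2 and n is odd. -/
theorem result {F : Type*} [Field F] [Fintype F] (p n : ℕ) [Fact p.Prime] [CharP F p] (hF : Fintype.card F = p ^ n) : (∃ H : Subgroup (Matrix.ProjectiveSpecialLinearGroup (Fin 2) F), Nonempty (H ≃* alternatingGroup (Fin 4))) ↔ ¬ (p = 2 ∧ Odd n) := by
  classical
  have hq : Nat.card F = p ^ n := by rw [Nat.card_eq_fintype_card, hF]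
  by_cases hp2 : p = 2
  · subst hp2
    have h2 : (2 : F) = 0 := CharTwo.two_eq_zero
    have h4 : ∀ m : ℕ, 2 ^ (2 * m) % 3 = 1 := fun m => by rw [pow_mul, Nat.pow_mod]; norm_num
    constructor
    · rintro ⟨H, ⟨e⟩⟩ ⟨-, hn⟩
      have h3 : ¬ 3 ∣ Nat.card F - 1 := by
        obtain ⟨m, rfl⟩ := hn
        rw [hq, pow_succ]
        have := h4 m
        omega
      obtain ⟨x, u, hx1, hx, hu, hc, hne⟩ : ∃ x u : alternatingGroup (Fin 4), x ≠ 1 ∧ x * x = 1 ∧
          u ^ 3 = 1 ∧ x * (u * x * u⁻¹) = u * x * u⁻¹ * x ∧ u * x * u⁻¹ ≠ x :=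
        alt_four_data
      set f : alternatingGroup (Fin 4) →* Matrix.ProjectiveSpecialLinearGroup (Fin 2) F :=
        H.subtype.comp e.symm.toMonoidHom
      have hf : Function.Injective f := fun a b h => e.symm.injective (Subtype.ext h)
      obtain ⟨X, hX⟩ := CfsgLib.PSLFours.pr_surjective (f x)
      obtain ⟨U, hU⟩ := CfsgLib.PSLFours.pr_surjective (f u)
      have hi := CfsgLib.PSLFours.pr_injective_of_two h2
      refine hne (hf ?_)
      have key := CfsgLib.PSLFours.no_A4_data h2 h3 (x := X) (u := U)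
        (hi (by rw [map_mul, hX, ← map_mul f, hx, map_one, map_one]))
        (fun e => hx1 (hf (by rw [← hX, e, map_one, map_one])))
        (hi (by rw [map_pow, hU, ← map_pow f, hu, map_one, map_one]))
        (hi (by simp only [map_mul, map_inv, hX, hU]; rw [← map_inv, ← map_mul, ← map_mul, ← map_mul,
          ← map_mul, hc]))
      have := congrArg CfsgLib.PSLFours.pr key
      simpa [map_mul, map_inv, hX, hU] using this
    · intro hn
      simp only [true_and, Nat.not_odd_iff_even] at hn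
      obtain ⟨m, rfl⟩ := hn
      have h3 : 3 ∣ Nat.card F - 1 := by
        rw [hq, ← two_mul]
        have := h4 m
        omega
      obtain ⟨w, hw3, hw1⟩ := CfsgLib.PSLFours.exists_root_three h3
      obtain ⟨x, y, u, h, hu, hux, huy, -⟩ := CfsgLib.PSLFours.four_pair_of_root h2 hw3 hw1
      obtain ⟨H, -, -, -, hH⟩ := CfsgLib.PSLFours.exists_A4 h hu hux huy
      exact ⟨H, hH⟩
  · simp only [hp2, false_and, not_false_eq_true, iff_true]
    have h2 : (2 : F) ≠ 0 := fun e => hp2 ((Nat.prime_dvd_prime_iff_eq Fact.out Nat.prime_two).1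
      ((CharP.cast_eq_zero_iff F p 2).1 (by exact_mod_cast e)))
    obtain ⟨a, b, h⟩ := CfsgLib.PSLFours.exists_qp h2 (F := F)
    obtain ⟨hu, hux, huy⟩ := CfsgLib.PSLFours.cyc_data h2 h
    obtain ⟨H, -, -, -, hH⟩ := CfsgLib.PSLFours.exists_A4 (h.isFourPair h2) hu hux huy
    exact ⟨H, hH⟩

end Cfsg.Agent.S0802
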