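import Cfsg.Statements.S0803
import Cfsg.Agent.Lib.Parabolic.PSLFours.Count
import Cfsg.Agent.Lib.Parabolic.PSLFours.CharTwo
import Cfsg.Agent.Lib.SL2.Torus
-- import your own Cfsg.Agent.* helpers here

set_option autoImplicit false
open Cfsg

namespace Cfsg.Agent.S0803

/-- PSL_2(q) has a subgroup isomorphic to S_4 iff q² ≡ 1 (mod 16). -/
theorem result {F : Type*} [Field F] [Fintype F] {q : ℕ} (hF : Fintype.card F = q) : (∃ H : Subgroup (Matrix.ProjectiveSpecialLinearGroup (Fin 2) F), Nonempty (H ≃* Equiv.Perm (Fin 4))) ↔ q ^ 2 % 16 = 1 := by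
  classical
  subst hF
  by_cases hodd : Odd (Fintype.card F)
  · have h2 := CfsgLib.SL2.two_ne_zero_of_odd hodd
    obtain ⟨k, hk⟩ := hodd
    constructor
    · rintro ⟨H, ⟨e⟩⟩
      have h24 : 24 ∣ Nat.card (Matrix.ProjectiveSpecialLinearGroup (Fin 2) F) := by
        have hH : Nat.card H = 24 := by
          rw [Nat.card_congr e.toEquiv, Nat.card_perm, Nat.card_fin]; rfl
        exact hH ▸ H.card_subgroup_dvd_card
      have h3 := CfsgLib.PSLFours.card_psl_mul_two h2 (F := F)
      rw [CfsgLib.SL2.card_SL, Nat.card_eq_fintype_card (α := F)] at h3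
      obtain ⟨c, hc⟩ := h24
      rw [hc] at h3
      have hd : 16 ∣ Fintype.card F * (Fintype.card F ^ 2 - 1) := ⟨3 * c, by omega⟩
      have hcop : Nat.Coprime 16 (Fintype.card F) := by
        rw [show 16 = 2 ^ 4 by norm_num]
        exact Nat.Coprime.pow_left _ (Nat.prime_two.coprime_iff_not_dvd.2 (by omega))
      have hd' := hcop.dvd_of_dvd_mul_left hd
      have : 1 ≤ Fintype.card F ^ 2 := Nat.one_le_pow _ _ Fintype.card_pos
      omega
    · intro h16
      refine CfsgLib.PSLFours.exists_S4 h2 (FiniteField.isSquare_two_iff.2 ?_)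
      have hlt : Fintype.card F % 8 < 8 := Nat.mod_lt _ (by norm_num)
      have e : Fintype.card F = 8 * (Fintype.card F / 8) + Fintype.card F % 8 := by omega
      constructor <;> intro h8 <;> rw [e, h8] at h16 <;> ring_nf at h16 <;> omega
  · rw [Nat.not_odd_iff_even] at hodd
    have h2 : (2 : F) = 0 := by
      have h0 : (Nat.card F : F) = 0 := CfsgLib.SL2.cast_card_zero
      obtain ⟨k, hk⟩ := hodd
      rw [Nat.card_eq_fintype_card] at h0
      obtain ⟨p, hp⟩ := CharP.exists F
      obtain ⟨n, hpp, hn⟩ := FiniteField.card F p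
      haveI : Fact p.Prime := ⟨hpp⟩
      have hp2 : p = 2 := by
        have : 2 ∣ p ^ (n : ℕ) := ⟨k, by omega⟩
        exact ((Nat.prime_dvd_prime_iff_eq Nat.prime_two hpp).1 (Nat.prime_two.dvd_of_dvd_pow this)).symm
      subst hp2
      exact CharTwo.two_eq_zero
    constructor
    · rintro ⟨H, ⟨e⟩⟩
      exfalso
      obtain ⟨g, hg4, hg2⟩ : ∃ g : Equiv.Perm (Fin 4), g ^ 4 = 1 ∧ g ^ 2 ≠ 1 :=
        ⟨Equiv.swap 0 1 * Equiv.swap 1 2 * Equiv.swap 2 3, by decide, by decide⟩
      set f : Equiv.Perm (Fin 4) →* Matrix.ProjectiveSpecialLinearGroup (Fin 2) F :=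
        H.subtype.comp e.symm.toMonoidHom
      have hf : Function.Injective f := fun a b h => e.symm.injective (Subtype.ext h)
      obtain ⟨G, hG⟩ := CfsgLib.PSLFours.pr_surjective (f g)
      have hi := CfsgLib.PSLFours.pr_injective_of_two h2
      refine hg2 (hf ?_)
      have key := CfsgLib.PSLFours.sq_eq_one_of_pow_four h2 (g := G)
        (hi (by rw [map_pow, hG, ← map_pow f, hg4, map_one, map_one]))
      rw [map_pow, ← hG, ← map_pow, key, map_one, map_one]
    · intro h16
      exfalso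
      obtain ⟨k, hk⟩ := hodd
      have : Fintype.card F ^ 2 = 4 * (k * k) := by rw [hk]; ring
      omega

end Cfsg.Agent.S0803
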