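import Cfsg.Statements.S0805
import Cfsg.Agent.Lib.Derangements.PSL2Grow

set_option autoImplicit false
open Cfsg

namespace Cfsg.Agent.S0805

open CfsgLib.Derangements.PSL2

/-- Subfield subgroups: let F be a finite field of odd order q and K a finite field with |K|^m = q, m ≥ 1. Then PSL_2(F) has a subgroup isomorphic to PSL_2(K), and has a subgroup isomorphic to PGL_2(K) if and only if m is even. -/
theorem result {F K : Type*} [Field F] [Fintype F] [Field K] [Fintype K] {q : ℕ} (hF : Fintype.card F = q) (hodd : Odd q) (m : ℕ) (hm : 1 ≤ m) (hK : Fintype.card K ^ m = q) : (∃ H : Subgroup (Matrix.ProjectiveSpecialLinearGroup (Fin 2) F), Nonempty (H ≃* Matrix.ProjectiveSpecialLinearGroup (Fin 2) K)) ∧ ((∃ H : Subgroup (Matrix.ProjectiveSpecialLinearGroup (Fin 2) F), Nonempty (H ≃* Matrix.ProjGenLinGroup (Fin 2) K)) ↔ Even m) := by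
  classical
  subst hF
  have hmF : Fintype.card K ^ m = Nat.card F := by rw [hK, Nat.card_eq_fintype_card]
  obtain ⟨E, hE⟩ := exists_subfield_card (F := F) (by omega : m ≠ 0) hmF
  have h2 : (2 : F) ≠ 0 := CfsgLib.SL2.two_ne_zero_of_odd hodd
  have : Fintype E := Fintype.ofFinite E
  let eK : E ≃+* K := FiniteField.ringEquivOfCardEq (by rw [← Nat.card_eq_fintype_card, hE])
  have hEr : Nat.card E ^ m = Nat.card F := by rw [hE, hmF]
  have hker : Subgroup.center (Matrix.SpecialLinearGroup (Fin 2) E) =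
      ((CfsgLib.SL2.Dickson.proj (F := F)).comp (incl E)).ker := by
    ext g; rw [MonoidHom.mem_ker]; exact (proj_incl_eq_one_iff E g).symm
  refine ⟨⟨_, ⟨(((QuotientGroup.quotientMulEquivOfEq hker).trans
    (QuotientGroup.quotientKerEquivRange _)).symm).trans (CfsgLib.ClassicalLinear.pslCongr eK)⟩⟩, ?_, ?_⟩
  · rintro ⟨H, ⟨f⟩⟩
    by_contra hodd'
    rw [Nat.not_even_iff_odd] at hodd'
    refine not_two_mul_dvd_card h2 hmF hodd' ?_
    have hc : Nat.card (Matrix.ProjGenLinGroup (Fin 2) K) = Fintype.card K * (Fintype.card K ^ 2 - 1) := by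
      rw [CfsgLib.ClassicalLinear.card_PGL]
      exact CfsgLib.ClassicalLinear.card_SL_two rfl
    rw [← hc, ← Nat.card_congr f.toEquiv]
    exact Subgroup.card_subgroup_dvd_card H
  · intro he
    obtain ⟨iso⟩ := sfPSL_equiv_pgl (R := E) fun x hx => isSquare_of_even E hEr he hx
    exact ⟨sfPSL E, ⟨iso.trans (CfsgLib.SL2.Dickson.pglCongr eK)⟩⟩

end Cfsg.Agent.S0805
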