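import Cfsg.Statements.S0806
import Cfsg.Agent.Lib.SL2.Dickson.Index

set_option autoImplicit false
open Cfsg

namespace Cfsg.Agent.S0806

/-- Minimal index (Galois): if q ∉ {2, 3, 5, 7, 9, 11} then every proper subgroup of PSL_2(q) has index ≥ q + 1, and some subgroup has index exactly q + 1. -/
theorem result {F : Type*} [Field F] [Fintype F] {q : ℕ} (hF : Fintype.card F = q) (hq : q ∉ ({2, 3, 5, 7, 9, 11} : Finset ℕ)) : (∀ H : Subgroup (Matrix.ProjectiveSpecialLinearGroup (Fin 2) F), H ≠ ⊤ → q + 1 ≤ H.index) ∧ ∃ H : Subgroup (Matrix.ProjectiveSpecialLinearGroup (Fin 2) F), H.index = q + 1 := by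
  rw [← Nat.card_eq_fintype_card] at hF
  subst hF
  exact ⟨fun H hH => CfsgLib.SL2.Dickson.succ_le_index hq hH,
    _, CfsgLib.SL2.Dickson.index_map_borel⟩

end Cfsg.Agent.S0806
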