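import Cfsg.Statements.S0808
import Cfsg.Agent.Lib.Parabolic.PSLFours.Count
-- import your own Cfsg.Agent.* helpers here

set_option autoImplicit false
open Cfsg

namespace Cfsg.Agent.S0808

/-- Conjugacy classes of four-groups in PSL_2(q), q odd: if q ≡ 3 or 5 (mod 8) all Klein four-subgroups are conjugate; if q ≡ 1 or 7 (mod 8) there are two Klein four-subgroups which are not conjugate, and every Klein four-subgroup is conjugate to one of them. -/
theorem result {F : Type*} [Field F] [Fintype F] {q : ℕ} (hF : Fintype.card F = q) (hodd : Odd q) : ((q % 8 = 3 ∨ q % 8 = 5) → ∀ V W : Subgroup (Matrix.ProjectiveSpecialLinearGroup (Fin 2) F), IsKleinFour V → IsKleinFour W → ∃ g : Matrix.ProjectiveSpecialLinearGroup (Fin 2) F, W = V.map (MulAut.conj g).toMonoidHom) ∧ ((q % 8 = 1 ∨ q % 8 = 7) → ∃ V₁ V₂ : Subgroup (Matrix.ProjectiveSpecialLinearGroup (Fin 2) F), IsKleinFour V₁ ∧ IsKleinFour V₂ ∧ (¬ ∃ g : Matrix.ProjectiveSpecialLinearGroup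 (Fin 2) F, V₂ = V₁.map (MulAut.conj g).toMonoidHom) ∧ ∀ W : Subgroup (Matrix.ProjectiveSpecialLinearGroup (Fin 2) F), IsKleinFour W → (∃ g : Matrix.ProjectiveSpecialLinearGroup (Fin 2) F, W = V₁.map (MulAut.conj g).toMonoidHom) ∨ (∃ g : Matrix.ProjectiveSpecialLinearGroup (Fin 2) F, W = V₂.map (MulAut.conj g).toMonoidHom)) := by
  subst hF
  have h2 := CfsgLib.SL2.two_ne_zero_of_odd hodd
  have hmod : ∀ {r : ℕ}, Fintype.card F % 8 = r → (IsSquare (2 : F) ↔ r ≠ 3 ∧ r ≠ 5) := by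
    intro r hr
    rw [FiniteField.isSquare_two_iff, hr]
  obtain ⟨a, b, h⟩ := CfsgLib.PSLFours.exists_qp h2 (F := F)
  refine ⟨fun hq V W hV hW => ?_, fun hq => ?_⟩
  · have hns : ¬ IsSquare (2 : F) := by
      rcases hq with hq | hq <;> simp [hmod hq]
    have hne : ¬ CfsgLib.PSLFours.Conj2 (a, b) (b, a) :=
      fun e => hns (h.isSquare_two_of_conj2_swap h2 e)
    have key : ∀ W : Subgroup (Matrix.ProjectiveSpecialLinearGroup (Fin 2) F), IsKleinFour W →
        ∃ g, W = (CfsgLib.PSLFours.qFour h2 h).map (MulAut.conj g).toMonoidHom := by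
      intro W hW
      obtain ⟨c, d, h', rfl⟩ := CfsgLib.PSLFours.exists_qFour h2 W
      rcases CfsgLib.PSLFours.conj2_or h2 h h.swap hne (c, d) h' with ⟨g, g1, g2⟩ | ⟨g, g1, g2⟩
      · exact ⟨_, CfsgLib.PSLFours.qFour_map h2 h h' g g1 g2⟩
      · exact ⟨_, (CfsgLib.PSLFours.qFour_map h2 h.swap h' g g1 g2).trans
          (by rw [CfsgLib.PSLFours.qFour_swap])⟩
    obtain ⟨g, rfl⟩ := key V hV
    obtain ⟨k, rfl⟩ := key W hW
    refine ⟨k * g⁻¹, ?_⟩
    rw [Subgroup.map_map]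
    congr 1
    ext x
    simp [mul_assoc]
  · have hsq : IsSquare (2 : F) := by
      rcases hq with hq | hq <;> simp [hmod hq]
    obtain ⟨c, d, h', hne⟩ := CfsgLib.PSLFours.exists_not_conj2 h2 h
    refine ⟨_, _, CfsgLib.PSLFours.isKleinFour_fourSub (h.isFourPair h2),
      CfsgLib.PSLFours.isKleinFour_fourSub (h'.isFourPair h2), ?_, fun W hW => ?_⟩
    · rintro ⟨g, hg⟩
      obtain ⟨g, rfl⟩ := CfsgLib.PSLFours.pr_surjective g
      have hq' : CfsgLib.PSLFours.IsQP (g * a * g⁻¹) (g * b * g⁻¹) :=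
        CfsgLib.PSLFours.isQP_of_conj2 h2 h (p := (g * a * g⁻¹, g * b * g⁻¹)) ⟨g, rfl, rfl⟩
      have hmap := CfsgLib.PSLFours.qFour_map h2 h hq' g rfl rfl
      have he : CfsgLib.PSLFours.qFour h2 hq' = CfsgLib.PSLFours.qFour h2 h' :=
        hmap.trans hg.symm
      have h1 := CfsgLib.PSLFours.conj2_of_mem h2 h' hq'
        (he ▸ CfsgLib.PSLFours.left_mem _) (he ▸ CfsgLib.PSLFours.right_mem _)
      have h0 : CfsgLib.PSLFours.Conj2 (a, b) (g * a * g⁻¹, g * b * g⁻¹) := ⟨g, rfl, rfl⟩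
      rcases h1 with h1 | h1
      · exact hne (h0.trans h1.symm)
      · exact hne (h0.trans (h1.symm.trans (h'.swap.conj2_swap hsq h2)))
    · obtain ⟨x, y, hxy, rfl⟩ := CfsgLib.PSLFours.exists_qFour h2 W
      rcases CfsgLib.PSLFours.conj2_or h2 h h' hne (x, y) hxy with ⟨g, g1, g2⟩ | ⟨g, g1, g2⟩
      · exact Or.inl ⟨_, CfsgLib.PSLFours.qFour_map h2 h hxy g g1 g2⟩
      · exact Or.inr ⟨_, CfsgLib.PSLFours.qFour_map h2 h' hxy g g1 g2⟩

end Cfsg.Agent.S0808
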