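import Cfsg.Statements.S0810
import Cfsg.Agent.Lib.SL2.Dickson.Minimal

set_option autoImplicit false
open Cfsg

namespace Cfsg.Agent.S0810

/-- PSL_2(q) is minimal simple iff q is 2^r (r prime), 3^r (r an odd prime), a prime greater than 5 congruent to 2 or 3 mod 5, or 5. -/
theorem result {F : Type*} [Field F] [Fintype F] {q : ℕ} (hF : Fintype.card F = q) : Cfsg.IsMinimalSimple (Matrix.ProjectiveSpecialLinearGroup (Fin 2) F) ↔ ((∃ r : ℕ, r.Prime ∧ q = 2 ^ r) ∨ (∃ r : ℕ, r.Prime ∧ r ≠ 2 ∧ q = 3 ^ r) ∨ (q.Prime ∧ 5 < q ∧ (q % 5 = 2 ∨ q % 5 = 3)) ∨ q = 5) := by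
  classical
  obtain ⟨p, hchar⟩ := CharP.exists F
  obtain ⟨⟨n, hn⟩, hp, hcard⟩ := FiniteField.card F p
  simp only [PNat.mk_coe] at hcard
  have : Fact p.Prime := ⟨hp⟩
  have hq : q = p ^ n := hF.symm.trans hcard
  have hN : Nat.card F = p ^ n := by rw [Nat.card_eq_fintype_card, hcard]
  constructor
  · rintro ⟨hsimp, hnc, hmin⟩
    have h4 : 4 ≤ q := by
      by_contra hlt
      have := CfsgLib.SL2.Dickson.isSolvable_psl_small (K := F) (by rw [hN, ← hq]; omega)
      exact hnc (IsMulCommutative.of_comm (IsSimpleGroup.comm_iff_isSolvable.2 this))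
    have noSub : ∀ j, j ∣ n → j < n → ¬ 4 ≤ p ^ j := fun j hj hjn h => by
      obtain ⟨H, hH, hs⟩ := CfsgLib.SL2.Dickson.exists_not_solvable_of_subfield hN hj hjn h
      exact hs (hmin H hH)
    have noFive : (q % 5 = 0 ∨ q % 5 = 1 ∨ q % 5 = 4) → q ≤ 5 := fun h => by
      by_contra hlt
      obtain ⟨H, ⟨e⟩⟩ := CfsgLib.SL2.Dickson.exists_alternating_five_subgroup
        (CfsgLib.SL2.Dickson.five_dvd_card_SL (hN.trans hq.symm) h)
      have hH : H ≠ ⊤ := by
        intro htop
        have h1 : Nat.card H = 60 := by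
          rw [Nat.card_congr e.toEquiv, nat_card_alternatingGroup, Nat.card_fin]; rfl
        have h3 := CfsgLib.SL2.Dickson.card_PSL_mul (F := F)
        rw [htop, Nat.card_congr Subgroup.topEquiv.toEquiv] at h1
        rw [h1, hN, ← hq] at h3
        have h7 : 7 ≤ q := by
          rcases h with h | h | h
          all_goals
            rcases Nat.lt_or_ge q 7 with h7 | h7
            · exfalso
              have hpp : IsPrimePow q := ⟨p, n, Nat.prime_iff.1 hp, hn, hq.symm⟩
              have : q = 6 := by omega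
              rw [this, isPrimePow_nat_iff_bounded] at hpp
              revert hpp
              decide
            · exact h7
        rcases CfsgLib.SL2.Dickson.center_card_mem (F := F) with he | ⟨he, -⟩ <;> rw [he] at h3 <;>
          have := Nat.mul_le_mul h7 (Nat.mul_le_mul (show 8 ≤ q + 1 by omega) (show 6 ≤ q - 1 by omega)) <;>
          omega
      have := hmin H hH
      exact CfsgLib.SL2.Dickson.not_isSolvable_alternating_five
        (Group.isSolvable_of_surjective (f := e.toMonoidHom) e.surjective)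
    rcases Nat.lt_or_ge n 2 with hn1 | hn2
    · obtain rfl : n = 1 := by omega
      rw [pow_one] at hq
      by_cases h5 : q = 5
      · exact Or.inr (Or.inr (Or.inr h5))
      · have h6 : 5 < q := by
          have := hp.eq_one_or_self_of_dvd 2
          have hq4 : q ≠ 4 := by rintro rfl; rw [← hq] at hp; norm_num at hp
          omega
        refine Or.inr (Or.inr (Or.inl ⟨hq ▸ hp, h6, ?_⟩))
        by_contra hmod
        have := noFive (by omega)
        omega
    · have hp23 : p = 2 ∨ p = 3 := by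
        by_contra h
        have := noSub 1 (one_dvd n) (by omega)
        have h2 := hp.two_le
        have : p ≠ 4 := by rintro rfl; norm_num at hp
        rw [pow_one] at *
        omega
      have hnp : n.Prime := by
        by_contra hnp
        obtain ⟨j, hj, hj2, hjn⟩ := Nat.exists_dvd_of_not_prime2 hn2 hnp
        refine noSub j hj hjn ?_
        calc 4 = 2 ^ 2 := rfl
          _ ≤ p ^ 2 := Nat.pow_le_pow_left hp.two_le 2
          _ ≤ p ^ j := Nat.pow_le_pow_right hp.pos hj2
      rcases hp23 with rfl | rfl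
      · exact Or.inl ⟨n, hnp, hq⟩
      · refine Or.inr (Or.inl ⟨n, hnp, ?_, hq⟩)
        rintro rfl
        have := noFive (by rw [hq]; norm_num)
        rw [hq] at this
        norm_num at this
  · intro hlist
    have h4 : 4 ≤ q := by
      rcases hlist with ⟨r, hr, rfl⟩ | ⟨r, hr, -, rfl⟩ | ⟨-, h, -⟩ | h
      · exact le_trans (by norm_num) (Nat.pow_le_pow_right two_pos hr.two_le)
      · exact le_trans (by norm_num) (Nat.pow_le_pow_right (by norm_num) hr.two_le)
      · omega
      · omega
    have hns := CfsgLib.SL2.Dickson.not_isSolvable_psl (K := F) (by rw [hN, ← hq]; exact h4)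
    refine ⟨CfsgLib.ClassicalLinear.isSimpleGroup_psl_fin le_rfl (fun _ => by rw [hN, ← hq]; exact h4),
      fun h => hns (Group.isSolvable_of_comm h.is_comm.comm), fun H hH => ?_⟩
    refine CfsgLib.SL2.Dickson.isSolvable_of_ne_top hN ?_ hH
    rw [hq] at hlist
    have hbase : ∀ {a r : ℕ}, a.Prime → r ≠ 0 → p ^ n = a ^ r → p = a ∧ n = r := by
      intro a r ha hr h
      have hpa : p = a := (Nat.prime_dvd_prime_iff_eq hp ha).1
        (hp.dvd_of_dvd_pow (h ▸ dvd_pow_self p (by omega)))
      subst hpa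
      exact ⟨rfl, Nat.pow_right_injective hp.two_le h⟩
    rcases hlist with ⟨r, hr, h⟩ | ⟨r, hr, hr2, h⟩ | ⟨hP, h5, hm⟩ | h
    · obtain ⟨rfl, rfl⟩ := hbase Nat.prime_two hr.ne_zero h
      exact Or.inl ⟨rfl, hr⟩
    · obtain ⟨rfl, rfl⟩ := hbase Nat.prime_three hr.ne_zero h
      exact Or.inr (Or.inl ⟨rfl, hr, hr2⟩)
    · obtain ⟨hp1, hn1⟩ := hbase hP one_ne_zero (pow_one _).symm
      rw [hn1, pow_one] at h5 hm
      exact Or.inr (Or.inr (Or.inl ⟨hn1, h5, hm⟩))
    · obtain ⟨hp1, hn1⟩ := hbase (a := 5) (r := 1) Nat.prime_five one_ne_zero (by rw [h, pow_one])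
      exact Or.inr (Or.inr (Or.inr ⟨hn1, hp1⟩))

end Cfsg.Agent.S0810
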