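import Cfsg.Statements.S0814
import Cfsg.Agent.Lib.Parabolic.SpFourGraph
import Cfsg.Agent.Lib.Parabolic.PSpAutCount
import Cfsg.Agent.S0813

set_option autoImplicit false
open Cfsg

namespace Cfsg.Agent.S0814

open CfsgLib.ReflectionsSpinor.PSpAut CfsgLib.Parabolic.PSpAutCount CfsgLib.Parabolic.SpFour

/-- |Aut(PSp_2m(q))| = gcd(2, q−1) · f · |PSp_2m(q)| for q = p^f, m ≥ 2, (m, q) ≠ (2, 2), with an extra factor 2 exactly when m = 2 and p = 2. -/
theorem result {F : Type*} [Field F] [Fintype F] (p f : ℕ) [Fact p.Prime] (hf : 1 ≤ f) (hF : Fintype.card F = p ^ f) (m : ℕ) (hm : 2 ≤ m) (h22 : m = 2 → 3 ≤ p ^ f) : Nat.card (MulAut (Cfsg.PSp m F)) = (if m = 2 ∧ p = 2 then 2 else 1) * Nat.gcd 2 (p ^ f - 1) * f * Nat.card (Cfsg.PSp m F) := by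
  classical
  have hcard : Nat.card (F ≃+* F) = f := S0813.card_field_aut p f (by rw [Nat.card_eq_fintype_card, hF])
  have hN : Nat.card ((toAutHom (m := m) (F := F)).range × (F ≃+* F)) =
      Nat.gcd 2 (p ^ f - 1) * f * Nat.card (Cfsg.PSp m F) := by
    rw [Nat.card_prod, card_inndiag hm, hcard, hF]; ring
  haveI : CharP F p := by
    obtain ⟨r, hr⟩ := CharP.exists F
    obtain ⟨k, hrp, hk⟩ := FiniteField.card F r
    have : p = r := by
      have hdvd : r ∣ p ^ f := by rw [← hF, hk]; exact dvd_pow_self r k.pos.ne'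
      exact ((Nat.prime_dvd_prime_iff_eq hrp Fact.out).mp (hrp.dvd_of_dvd_pow hdvd)).symm
    exact this ▸ hr
  by_cases hex : m = 2 ∧ p = 2
  · obtain ⟨rfl, rfl⟩ := hex
    let Ψ : Bool × ((toAutHom (m := 2) (F := F)).range × (F ≃+* F)) → MulAut (Cfsg.PSp 2 F) :=
      fun x => if x.1 then starAut F * semiPair x.2 else semiPair x.2
    have hne : ∀ x y, semiPair (m := 2) (F := F) x ≠ starAut F * semiPair y := by
      rintro ⟨⟨_, g, rfl⟩, σ⟩ ⟨⟨_, g', rfl⟩, σ'⟩
      rw [semiPair_eq, semiPair_eq]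
      exact semiAut_ne_starAut_mul g g' σ σ'
    have hinj : Function.Injective Ψ := by
      rintro ⟨a, x⟩ ⟨b, y⟩ h
      cases a <;> cases b <;> simp only [Ψ, if_true, Bool.false_eq_true, if_false] at h
      · rw [semiPair_injective hm h]
      · exact absurd h (hne x y)
      · exact absurd h.symm (hne y x)
      · rw [semiPair_injective hm (mul_left_cancel h)]
    have hsurj : Function.Surjective Ψ := fun φ => by
      obtain ⟨g, σ, h | h⟩ := exists_semiAut_or_star φ <;> obtain ⟨x, hx⟩ := exists_semiPair g σ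
      · exact ⟨(false, x), by simp [Ψ, hx, h]⟩
      · exact ⟨(true, x), by simp [Ψ, hx, h]⟩
    rw [← Nat.card_eq_of_bijective Ψ ⟨hinj, hsurj⟩, Nat.card_prod, hN, if_pos ⟨rfl, rfl⟩,
      Nat.card_eq_fintype_card (α := Bool), Fintype.card_bool]
    ring
  · have h4 : m = 2 → (2 : F) ≠ 0 := fun hm2 h0 => hex ⟨hm2, by
      have h1 : ((2 : ℕ) : F) = 0 := by exact_mod_cast h0
      exact (Nat.prime_dvd_prime_iff_eq Fact.out Nat.prime_two).1 ((CharP.cast_eq_zero_iff F p 2).1 h1)⟩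
    have hsurj : Function.Surjective (semiPair (m := m) (F := F)) := fun φ => by
      obtain ⟨g, σ, rfl⟩ := exists_semiAut hm h4 φ
      exact exists_semiPair g σ
    rw [← Nat.card_eq_of_bijective _ ⟨semiPair_injective hm, hsurj⟩, hN, if_neg hex, one_mul]

end Cfsg.Agent.S0814
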