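import Cfsg.Statements.S0816
import Cfsg.Agent.Lib.Parabolic.POmegaSimilar
import Cfsg.Agent.Lib.Parabolic.POmegaAutArith
import Cfsg.Agent.Lib.ClassicalAut.OrthoStd
import Cfsg.Agent.S0813

set_option autoImplicit false
open Cfsg

namespace Cfsg.Agent.S0816

/-- |Aut(PΩ_(2m+1)(q))| = 2 f · |PΩ_(2m+1)(q)| for q = p^f odd and m ≥ 3 (for the form quadFormOdd). -/
theorem result {F : Type*} [Field F] [Fintype F] (p f : ℕ) [Fact p.Prime] (hf : 1 ≤ f) (hF : Fintype.card F = p ^ f) (hodd : Odd p) (m : ℕ) (hm : 3 ≤ m) : Nat.card (MulAut (Cfsg.POmega F (Cfsg.quadFormOdd m F))) = 2 * f * Nat.card (Cfsg.POmega F (Cfsg.quadFormOdd m F)) := by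
  have hp : p.Prime := Fact.out
  have hcard : Nat.card F = p ^ f := by rw [Nat.card_eq_fintype_card, hF]
  have h2 : (2 : F) ≠ 0 := CfsgLib.ClassicalForms.two_ne_zero_of_odd (hcard ▸ hodd.pow)
  rw [CfsgLib.Parabolic.POmegaAut.card_mulAut_odd hm h2 (CfsgLib.ClassicalAut.Ortho.setupOdd h2 m hm).gamma_top,
    S0813.card_field_aut p f hcard, mul_comm f 2]

end Cfsg.Agent.S0816
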