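import Cfsg.Statements.S0817
import Cfsg.Agent.Lib.Triality.Count
import Cfsg.Agent.Lib.Parabolic.POmegaAutArith
import Cfsg.Agent.Lib.ClassicalAut.OrthoStd
import Cfsg.Agent.S0813

set_option autoImplicit false
open Cfsg

namespace Cfsg.Agent.S0817

/-- |Aut(PΩ⁺_2m(q))| for q = p^f, m ≥ 4: |PΩ⁺_2m(q)| times f, times 3 when m = 4, times 2 if p = 2, and times 8 or 4 if p is odd according as m(q−1)/2 is even or odd. -/
theorem result {F : Type*} [Field F] [Fintype F] (p f : ℕ) [Fact p.Prime] (hf : 1 ≤ f) (hF : Fintype.card F = p ^ f) (m : ℕ) (hm : 4 ≤ m) : Nat.card (MulAut (Cfsg.POmega F (Cfsg.quadFormPlus m F))) = (if m = 4 then 3 else 1) * (if p = 2 then 2 else (if Even (m * (p ^ f - 1) / 2) then 8 else 4)) * f * Nat.card (Cfsg.POmega F (Cfsg.quadFormPlus m F)) := by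
  have hcard : Nat.card F = p ^ f := by rw [Nat.card_eq_fintype_card, hF]
  have hg := CfsgLib.Parabolic.POmegaAut.two_gcd_plus (p := p) Fact.out hf (show 1 ≤ m by omega)
  rw [← hg]
  by_cases h4 : m = 4
  · subst h4
    rw [CfsgLib.Triality.card_mulAut_eight, S0813.card_field_aut p f hcard, hcard, if_pos rfl]
    ring
  · rw [CfsgLib.Parabolic.POmegaAut.card_mulAut_plus hm
        (CfsgLib.ClassicalAut.Ortho.setupPlus m (by omega)).gamma_top,
      S0813.card_field_aut p f hcard, hcard, if_neg h4]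
    ring

end Cfsg.Agent.S0817
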