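import Cfsg.Statements.S0819

set_option autoImplicit false
open Cfsg

namespace Cfsg.Agent.S0819

open Matrix Module

section
variable {F : Type*} [Field F] [Fintype F]

lemma two_eq_zero (hF : Fintype.card F = 4) : (2 : F) = 0 := by
  have h4 : (4 : F) = 0 := by
    have := Nat.cast_card_eq_zero F
    rw [hF] at this; exact_mod_cast this
  exact mul_self_eq_zero.mp (by rw [← h4]; norm_num)

lemma pow_three_eq_one (hF : Fintype.card F = 4) {a : F} (ha : a ≠ 0) : a ^ 3 = 1 := by
  have := FiniteField.pow_card_sub_one_eq_one a ha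
  rwa [hF] at this

lemma eq_one_of_pow {a : F} (hF : Fintype.card F = 4) (ha : a ^ 5 = 1) : a = 1 := by
  have h0 : a ≠ 0 := fun h => by rw [h] at ha; simp at ha
  have h3 := pow_three_eq_one hF h0
  calc a = (a ^ 3) ^ 2 / a ^ 5 := by field_simp
    _ = 1 := by rw [h3, ha]; simp

variable (t : Matrix (Fin 3) (Fin 3) F)

/-- An eigenvector of `t` lies in its fixed space when `t ^ 5 = 1`. -/
lemma fixed_of_eigen (hF : Fintype.card F = 4) (ht : t ^ 5 = 1) {v : Fin 3 → F} (hv : v ≠ 0)
    {m : F} (hm : t *ᵥ v = m • v) : t *ᵥ v = v := by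
  have hpow : ∀ k : ℕ, (t ^ k) *ᵥ v = m ^ k • v := by
    intro k
    induction k with
    | zero => simp
    | succ k ih => rw [pow_succ, ← Matrix.mulVec_mulVec, hm, Matrix.mulVec_smul, ih, smul_smul,
        pow_succ', mul_comm]
  have h5 := hpow 5
  rw [ht, Matrix.one_mulVec] at h5
  have hm5 : m ^ 5 = 1 := smul_left_injective F hv (by simp only; rw [← h5, one_smul])
  rw [hm, eq_one_of_pow hF hm5, one_smul]

lemma finrank_fixed (hF : Fintype.card F = 4) (ht : t ^ 5 = 1) (ht1 : t ≠ 1) :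
    finrank F (LinearMap.ker (t - 1).mulVecLin) = 1 := by
  classical
  let σ : Equiv.Perm (Fin 3 → F) :=
    { toFun := fun v => t *ᵥ v
      invFun := fun v => (t ^ 4) *ᵥ v
      left_inv := fun v => by simp only []; rw [Matrix.mulVec_mulVec, ← pow_succ, ht, Matrix.one_mulVec]
      right_inv := fun v => by simp only []; rw [Matrix.mulVec_mulVec, ← pow_succ', ht, Matrix.one_mulVec] }
  haveI : Fact (Nat.Prime 5) := ⟨by norm_num⟩
  have hσpow : ∀ (k : ℕ) v, (σ ^ k) v = (t ^ k) *ᵥ v := by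
    intro k
    induction k with
    | zero => intro v; simp
    | succ k ih =>
      intro v
      rw [pow_succ, Equiv.Perm.mul_apply, ih, pow_succ, ← Matrix.mulVec_mulVec]
      rfl
  have hσ : σ ^ (5 ^ 1) = 1 := Equiv.ext fun v => by
    rw [pow_one, hσpow, ht, Matrix.one_mulVec, Equiv.Perm.one_apply]
  have hmod := Equiv.Perm.card_compl_support_modEq (p := 5) hσ
  have hK : (σ.supportᶜ).card = 4 ^ finrank F (LinearMap.ker (t - 1).mulVecLin) := by
    rw [← hF, ← Module.card_eq_pow_finrank (K := F) (V := LinearMap.ker (t - 1).mulVecLin)]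
    symm
    refine Fintype.card_of_subtype _ fun v => ?_
    rw [Finset.mem_compl, Equiv.Perm.mem_support, not_not]
    change t *ᵥ v = v ↔ _
    rw [LinearMap.mem_ker, Matrix.mulVecLin_apply, Matrix.sub_mulVec, Matrix.one_mulVec, sub_eq_zero]
  rw [hK, Fintype.card_fun, Fintype.card_fin, hF] at hmod
  have hle := Submodule.finrank_le (LinearMap.ker (t - 1).mulVecLin)
  rw [Module.finrank_fin_fun] at hle
  have h3 : finrank F (LinearMap.ker (t - 1).mulVecLin) ≠ 3 := by
    intro h3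
    apply ht1
    have htop : LinearMap.ker (t - 1).mulVecLin = ⊤ :=
      Submodule.eq_top_of_finrank_eq (by rw [h3, Module.finrank_fin_fun])
    refine Matrix.ext_of_mulVec_single fun i => ?_
    have : Pi.single i (1 : F) ∈ LinearMap.ker (t - 1).mulVecLin := htop ▸ Submodule.mem_top
    rw [LinearMap.mem_ker, Matrix.mulVecLin_apply, Matrix.sub_mulVec, sub_eq_zero] at this
    exact this
  generalize finrank F (LinearMap.ker (t - 1).mulVecLin) = d at hmod hle h3 ⊢
  interval_cases d <;> simp_all [Nat.ModEq]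

/-- An element of order dividing three in the commutant, of determinant one, is scalar. -/
lemma scalar_of_cube (hF : Fintype.card F = 4) (ht : t ^ 5 = 1) (ht1 : t ≠ 1)
    (u : Matrix (Fin 3) (Fin 3) F) (hu : u ^ 3 = 1) (hdet : u.det = 1) (hut : u * t = t * u) :
    ∃ a : F, u = a • (1 : Matrix (Fin 3) (Fin 3) F) := by
  classical
  have h2 := two_eq_zero hF
  have h31 : (3 : F) = 1 := by linear_combination h2
  let P : F → Matrix (Fin 3) (Fin 3) F := fun c => 1 + (c ^ 2) • u + c • (u * u)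
  have hP : ∀ c : F, c ≠ 0 → ∀ x, u *ᵥ (P c *ᵥ x) = c • (P c *ᵥ x) := by
    intro c hc x
    have hc3 := pow_three_eq_one hF hc
    rw [Matrix.mulVec_mulVec, ← Matrix.smul_mulVec]
    congr 1
    have hu3 : u * (u * u) = 1 := by rw [← hu]; simp [pow_succ, mul_assoc]
    simp only [P, mul_add, mul_one, mul_smul_comm, hu3]
    match_scalars
    all_goals (first | linear_combination hc3 | linear_combination -hc3 | ring)
  have hsum : P 1 + ∑ c ∈ (Finset.univ.filter fun c : F => c ≠ 0 ∧ c ≠ 1), P c = 1 := by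
    have hs : P 1 + ∑ c ∈ (Finset.univ.filter fun c : F => c ≠ 0 ∧ c ≠ 1), P c =
        ∑ c ∈ (Finset.univ.erase (0 : F)), P c := by
      rw [← Finset.add_sum_erase (Finset.univ.erase (0 : F)) P (a := 1) (by simp)]
      congr 2; ext c; simp [and_comm]
    rw [hs]
    simp only [P, Finset.sum_add_distrib, ← Finset.sum_smul, Finset.sum_const,
      Finset.card_erase_of_mem (Finset.mem_univ _), Finset.card_univ, hF]
    have e1 : ∑ c ∈ (Finset.univ.erase (0 : F)), c = 0 := by
      rw [Finset.sum_erase (a := (0 : F)) (f := fun c : F => c) _ rfl]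
      simpa using FiniteField.sum_pow_lt_card_sub_one F 1 (by rw [hF]; norm_num)
    have e2 : ∑ c ∈ (Finset.univ.erase (0 : F)), c ^ 2 = 0 := by
      rw [Finset.sum_erase _ (by simp)]
      exact FiniteField.sum_pow_lt_card_sub_one F 2 (by rw [hF]; norm_num)
    rw [e1, e2, zero_smul, zero_smul, add_zero, add_zero, show (4 - 1 : ℕ) = 3 from rfl,
      ← Nat.cast_smul_eq_nsmul F, Nat.cast_ofNat, h31, one_smul]
  -- some eigenspace has dimension at least two
  by_cases hbig : ∃ a : F, a ≠ 0 ∧ 2 ≤ finrank F (LinearMap.ker (u - a • 1).mulVecLin)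
  · obtain ⟨a, ha, hdim⟩ := hbig
    obtain ⟨M, hM⟩ : ∃ M, M = u - a • (1 : Matrix (Fin 3) (Fin 3) F) := ⟨_, rfl⟩
    refine ⟨a, ?_⟩
    by_cases hM0 : M = 0
    · exact sub_eq_zero.mp (hM ▸ hM0)
    exfalso
    have hr : M.rank = 1 := by
      have h1 := LinearMap.finrank_range_add_finrank_ker M.mulVecLin
      rw [Module.finrank_fin_fun] at h1
      rw [← hM] at hdim
      have h5 : M.rank ≠ 0 := fun h => hM0 (by
        rw [Matrix.rank, Submodule.finrank_eq_zero, LinearMap.range_eq_bot] at h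
        exact Matrix.ext_of_mulVec_single fun i => by
          rw [Matrix.zero_mulVec, ← Matrix.mulVecLin_apply, h, LinearMap.zero_apply])
      rw [Matrix.rank] at h5 ⊢
      omega
    have hrange : ∃ x y : Fin 3 → F, M = Matrix.vecMulVec x y := by
      rw [Matrix.rank] at hr
      obtain ⟨v, -, hv⟩ := finrank_eq_one_iff'.mp hr
      have h : ∀ j, ∃ c : F, c • (v : Fin 3 → F) = M *ᵥ Pi.single j 1 := fun j => by
        obtain ⟨c, hc⟩ := hv ⟨M *ᵥ Pi.single j 1, Pi.single j 1, rfl⟩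
        exact ⟨c, by simpa using congrArg Subtype.val hc⟩
      choose w hw using h
      refine ⟨v, w, ?_⟩
      ext i j
      have := congrFun (hw j) i
      simp only [Pi.smul_apply, smul_eq_mul, Matrix.mulVec_single_one, Matrix.col_apply] at this
      rw [Matrix.vecMulVec_apply, mul_comm, this]
    obtain ⟨x, y, hxy⟩ := hrange
    have hu' : u = a • (1 + Matrix.vecMulVec (a⁻¹ • x) y) := by
      rw [smul_add, Matrix.smul_vecMulVec, smul_smul, mul_inv_cancel₀ ha, one_smul, ← hxy, hM]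
      module
    have hyx : y ⬝ᵥ x = 0 := by
      rw [hu', Matrix.det_smul, Fintype.card_fin, pow_three_eq_one hF ha, one_mul,
        Matrix.vecMulVec_eq Unit, Matrix.det_one_add_replicateCol_mul_replicateRow, dotProduct_smul,
        smul_eq_mul, add_eq_left, mul_eq_zero] at hdet
      exact hdet.resolve_left (inv_ne_zero ha)
    have hMM : M * M = 0 := by
      rw [hxy, Matrix.vecMulVec_mul_vecMulVec, hyx, zero_smul, Matrix.vecMulVec_zero]
    have hcube : u ^ 3 = (a ^ 3) • (1 : Matrix (Fin 3) (Fin 3) F) + (3 * a ^ 2) • M := by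
      rw [show u = a • 1 + M by rw [hM]; module]
      simp [pow_succ, mul_add, add_mul, hMM, smul_smul]
      module
    rw [hu, pow_three_eq_one hF ha, one_smul, left_eq_add, h31, one_mul] at hcube
    exact hM0 ((smul_eq_zero.mp hcube).resolve_left (pow_ne_zero 2 ha))
  · exfalso
    push_neg at hbig
    apply ht1
    have hfix : ∀ c : F, c ≠ 0 → ∀ v, u *ᵥ v = c • v → t *ᵥ v = v := by
      intro c hc v hv
      rcases eq_or_ne v 0 with rfl | hv0
      · simp
      have hmem : ∀ w, u *ᵥ w = c • w → w ∈ LinearMap.ker (u - c • 1).mulVecLin := fun w hw => by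
        rw [LinearMap.mem_ker, Matrix.mulVecLin_apply, Matrix.sub_mulVec, Matrix.smul_mulVec,
          Matrix.one_mulVec, hw, sub_self]
      have htv : u *ᵥ (t *ᵥ v) = c • (t *ᵥ v) := by
        rw [Matrix.mulVec_mulVec, hut, ← Matrix.mulVec_mulVec, hv, Matrix.mulVec_smul]
      have hle : finrank F (LinearMap.ker (u - c • 1).mulVecLin) ≤ 1 :=
        Nat.lt_succ_iff.mp (hbig c hc)
      obtain ⟨w, hw⟩ := finrank_le_one_iff.mp hle
      obtain ⟨p, hp⟩ := hw ⟨v, hmem v hv⟩
      obtain ⟨q, hq⟩ := hw ⟨t *ᵥ v, hmem _ htv⟩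
      have hp' : p • (w : Fin 3 → F) = v := congrArg Subtype.val hp
      have hq' : q • (w : Fin 3 → F) = t *ᵥ v := congrArg Subtype.val hq
      have hp0 : p ≠ 0 := fun h => hv0 (by rw [← hp', h, zero_smul])
      refine fixed_of_eigen t hF ht hv0 (m := q / p) ?_
      rw [← hq']
      conv_rhs => rw [← hp']
      rw [smul_smul, div_mul_cancel₀ _ hp0]
    refine Matrix.ext_of_mulVec_single fun i => ?_
    rw [Matrix.one_mulVec]
    conv_lhs => rw [← Matrix.one_mulVec (Pi.single i (1 : F)), ← hsum, Matrix.add_mulVec,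
      Matrix.sum_mulVec, Matrix.mulVec_add, Matrix.mulVec_sum]
    conv_rhs => rw [← Matrix.one_mulVec (Pi.single i (1 : F)), ← hsum, Matrix.add_mulVec,
      Matrix.sum_mulVec]
    congr 1
    · exact hfix 1 one_ne_zero _ (hP 1 one_ne_zero _)
    · refine Finset.sum_congr rfl fun c hc => ?_
      have hc0 := (Finset.mem_filter.mp hc).2.1
      exact hfix c hc0 _ (hP c hc0 _)

end

/-- No element of PSL_3(4) has order 15. -/
theorem result {F : Type*} [Field F] [Fintype F] (hF : Fintype.card F = 4) (g : Matrix.ProjectiveSpecialLinearGroup (Fin 3) F) : orderOf g ≠ 15 := by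
  intro hg
  obtain ⟨G, rfl⟩ := QuotientGroup.mk'_surjective _ g
  have hmk : ∀ k, G ^ k ∈ Subgroup.center (Matrix.SpecialLinearGroup (Fin 3) F) → 15 ∣ k := fun k hk => by
    rw [← hg]
    refine orderOf_dvd_of_pow_eq_one ?_
    rw [← map_pow, QuotientGroup.mk'_apply, (QuotientGroup.eq_one_iff _).mpr hk]
  have h15 : G ^ 15 ∈ Subgroup.center (Matrix.SpecialLinearGroup (Fin 3) F) := by
    have := pow_orderOf_eq_one (QuotientGroup.mk' (Subgroup.center (Matrix.SpecialLinearGroup (Fin 3) F)) G)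
    rwa [hg, ← map_pow, QuotientGroup.mk'_apply, QuotientGroup.eq_one_iff] at this
  obtain ⟨r, hr, hrG⟩ := Matrix.SpecialLinearGroup.mem_center_iff.mp h15
  rw [Fintype.card_fin] at hr
  have hA : ∀ k, ((G ^ k : Matrix.SpecialLinearGroup (Fin 3) F) : Matrix (Fin 3) (Fin 3) F) =
      (G : Matrix (Fin 3) (Fin 3) F) ^ k := fun k => Matrix.SpecialLinearGroup.coe_pow G k
  rw [hA] at hrG
  obtain ⟨A, hAdef⟩ : ∃ A, A = (G : Matrix (Fin 3) (Fin 3) F) := ⟨_, rfl⟩
  rw [← hAdef] at hrG hA
  have h45 : A ^ 45 = 1 := by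
    rw [show (45 : ℕ) = 15 * 3 from rfl, pow_mul, ← hrG, ← map_pow, hr, map_one]
  have ht : (A ^ 9) ^ 5 = 1 := by rw [← pow_mul]; exact h45
  have ht1 : A ^ 9 ≠ 1 := fun h => by
    have hG9 : G ^ 9 = 1 := Subtype.ext (by rw [hA, h, Matrix.SpecialLinearGroup.coe_one])
    have := hmk 9 (by rw [hG9]; exact one_mem _)
    omega
  have hu : (A ^ 15) ^ 3 = 1 := by rw [← pow_mul]; exact h45
  have hdetA : A.det = 1 := hAdef ▸ G.2
  have hcomm : ∀ a b : ℕ, A ^ a * A ^ b = A ^ b * A ^ a := fun a b => by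
    rw [← pow_add, ← pow_add, add_comm]
  have hK := finrank_fixed (A ^ 9) hF ht ht1
  obtain ⟨v, hv0, hv⟩ := finrank_eq_one_iff'.mp hK
  have hfix : (A ^ 9) *ᵥ (v : Fin 3 → F) = v := by
    have := v.2
    rwa [LinearMap.mem_ker, Matrix.mulVecLin_apply, Matrix.sub_mulVec, Matrix.one_mulVec,
      sub_eq_zero] at this
  have hv' : (v : Fin 3 → F) ≠ 0 := fun h => hv0 (Subtype.ext h)
  have hmem : (A ^ 5) *ᵥ (v : Fin 3 → F) ∈ LinearMap.ker (A ^ 9 - 1).mulVecLin := by
    rw [LinearMap.mem_ker, Matrix.mulVecLin_apply, Matrix.sub_mulVec, Matrix.one_mulVec, sub_eq_zero,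
      Matrix.mulVec_mulVec, hcomm, ← Matrix.mulVec_mulVec, hfix]
  obtain ⟨l, hl⟩ := hv ⟨_, hmem⟩
  have hl' : (A ^ 5) *ᵥ (v : Fin 3 → F) = l • (v : Fin 3 → F) := (congrArg Subtype.val hl).symm
  have h15v : (A ^ 15) *ᵥ (v : Fin 3 → F) = (l ^ 3) • (v : Fin 3 → F) := by
    rw [show A ^ 15 = A ^ 5 * (A ^ 5 * A ^ 5) by rw [← pow_add, ← pow_add], ← Matrix.mulVec_mulVec,
      ← Matrix.mulVec_mulVec, hl', Matrix.mulVec_smul, hl', Matrix.mulVec_smul, Matrix.mulVec_smul,
      hl', smul_smul, smul_smul]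
    congr 1; ring
  have hl0 : l ≠ 0 := fun h => hv' (by
    rw [h, zero_smul] at hl'
    have := congrArg (fun w => (A ^ 40) *ᵥ w) hl'
    simpa [Matrix.mulVec_mulVec, ← pow_add, h45] using this)
  rw [pow_three_eq_one hF hl0, one_smul, ← hrG, Matrix.scalar_apply] at h15v
  have hr1 : r = 1 := by
    obtain ⟨i, hi⟩ := Function.ne_iff.mp hv'
    have := congrFun h15v i
    rw [Matrix.mulVec_diagonal] at this
    exact (mul_eq_right₀ hi).mp this
  rw [hr1, map_one] at hrG
  have h5 : (A ^ 5) ^ 3 = 1 := by rw [← pow_mul]; exact hrG.symm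
  obtain ⟨a, ha⟩ := scalar_of_cube (A ^ 9) hF ht ht1 (A ^ 5) h5
    (by rw [Matrix.det_pow, hdetA, one_pow]) (hcomm _ _)
  have : 15 ∣ 5 := hmk 5 (Matrix.SpecialLinearGroup.mem_center_iff.mpr ⟨a, by
    rw [Fintype.card_fin]
    have := congrArg Matrix.det ha
    rw [Matrix.det_pow, hdetA, one_pow, Matrix.det_smul, Matrix.det_one, mul_one, Fintype.card_fin] at this
    exact this.symm, by rw [hA, ha, Matrix.scalar_apply, Matrix.smul_one_eq_diagonal]⟩)
  omega

end Cfsg.Agent.S0819
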