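import Cfsg.Statements.S0839

set_option autoImplicit false
open Cfsg

namespace Cfsg.Agent.S0839

open Matrix in
lemma exists_eq_vecMulVec_of_rank_eq_one {F : Type*} [Field F] {ι : Type} [Fintype ι] [DecidableEq ι]
    (A : Matrix ι ι F) (hA : A.rank = 1) :
    ∃ v w : ι → F, A = Matrix.vecMulVec v w := by
  rw [Matrix.rank] at hA
  obtain ⟨v, -, hv⟩ := finrank_eq_one_iff'.mp hA
  have h : ∀ j, ∃ c : F, c • (v : ι → F) = A *ᵥ Pi.single j 1 := fun j => by
    obtain ⟨c, hc⟩ := hv ⟨A *ᵥ Pi.single j 1, Pi.single j 1, rfl⟩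
    exact ⟨c, by simpa using congrArg Subtype.val hc⟩
  choose w hw using h
  refine ⟨v, w, ?_⟩
  ext i j
  have := congrFun (hw j) i
  simp only [Pi.smul_apply, smul_eq_mul, Matrix.mulVec_single_one, Matrix.col_apply] at this
  rw [Matrix.vecMulVec_apply, mul_comm, this]

open Matrix in
lemma exists_sl_first_row {F : Type*} [Field F] {n : ℕ} (w : Fin (n + 2) → F) (hw : w ≠ 0) :
    ∃ g : Matrix.SpecialLinearGroup (Fin (n + 2)) F,
      (g : Matrix (Fin (n + 2)) (Fin (n + 2)) F) 0 = w := by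
  obtain ⟨j, hj⟩ := Function.ne_iff.mp hw
  rw [Pi.zero_apply] at hj
  set M : Matrix (Fin (n + 2)) (Fin (n + 2)) F :=
    (Matrix.updateRow 1 j w).submatrix (Equiv.swap 0 j) id with hM
  have hrow : M 0 = w := by
    ext k
    simp [hM]
  have hdet : M.det ≠ 0 := by
    have h1 : M.det = Equiv.Perm.sign (Equiv.swap 0 j) * (Matrix.updateRow 1 j w).det :=
      Matrix.det_permute _ _
    have h2 : (Matrix.updateRow (1 : Matrix (Fin (n + 2)) (Fin (n + 2)) F) j w).det = w j := by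
      rw [← Matrix.det_transpose, ← Matrix.updateCol_transpose, Matrix.transpose_one,
        ← Matrix.cramer_apply, Matrix.cramer_one]
      simp
    rw [h1, h2]
    exact mul_ne_zero (by rcases Int.units_eq_one_or (Equiv.Perm.sign (Equiv.swap 0 j)) with h | h <;>
      simp [h]) hj
  refine ⟨⟨M.updateRow 1 (M.det⁻¹ • M 1), ?_⟩, ?_⟩
  · rw [Matrix.det_updateRow_smul, Matrix.updateRow_eq_self, inv_mul_cancel₀ hdet]
  · change (M.updateRow 1 (M.det⁻¹ • M 1)) 0 = w
    rw [Matrix.updateRow_ne (by simp [Fin.ext_iff]), hrow]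

/-- Every transvection t ∈ SL_(n+2)(F) (rank(t − 1) = 1, (t − 1)² = 0) is conjugate in SL_(n+2)(F) to 1 + v·e_0ᵀ for some column vector v with v_0 = 0 (the group A of matrices that are the identity except in the first column below the diagonal); the dimension is written n + 2 ≥ 2. -/
theorem result {F : Type*} [Field F] (n : ℕ) (t : Matrix.SpecialLinearGroup (Fin (n + 2)) F) (ht : Cfsg.IsTransvection (t : Matrix (Fin (n + 2)) (Fin (n + 2)) F)) : ∃ (g : Matrix.SpecialLinearGroup (Fin (n + 2)) F) (v : Fin (n + 2) → F), v 0 = 0 ∧ ((g⁻¹ * t * g : Matrix.SpecialLinearGroup (Fin (n + 2)) F) : Matrix (Fin (n + 2)) (Fin (n + 2)) F) = 1 + Matrix.vecMulVec v (Pi.single 0 1) := by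
  obtain ⟨v, w, hvw⟩ := exists_eq_vecMulVec_of_rank_eq_one _ ht.1
  have hne : (t : Matrix (Fin (n + 2)) (Fin (n + 2)) F) - 1 ≠ 0 := fun h => by
    have := ht.1; rw [h, Matrix.rank_zero] at this; exact zero_ne_one this
  have hw : w ≠ 0 := fun h => hne (by rw [hvw, h]; simp)
  have hwv : dotProduct w v = 0 := by
    have h2 := ht.2
    rw [hvw, Matrix.vecMulVec_mul_vecMulVec] at h2
    by_contra h
    apply hne
    rw [hvw]
    rw [Matrix.vecMulVec_smul] at h2
    exact (smul_eq_zero.mp h2).resolve_left h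
  obtain ⟨M, hM⟩ := exists_sl_first_row w hw
  refine ⟨M⁻¹, Matrix.mulVec (M : Matrix (Fin (n + 2)) (Fin (n + 2)) F) v, ?_, ?_⟩
  · rw [Matrix.mulVec, hM, hwv]
  · have hinv : (M : Matrix (Fin (n + 2)) (Fin (n + 2)) F) *
        ((M⁻¹ : Matrix.SpecialLinearGroup (Fin (n + 2)) F) : Matrix _ _ F) = 1 := by
      rw [← Matrix.SpecialLinearGroup.coe_mul, mul_inv_cancel, Matrix.SpecialLinearGroup.coe_one]
    rw [inv_inv, Matrix.SpecialLinearGroup.coe_mul, Matrix.SpecialLinearGroup.coe_mul,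
      eq_add_of_sub_eq' hvw, mul_add, add_mul, mul_one, hinv, Matrix.mul_vecMulVec,
      Matrix.vecMulVec_mul]
    congr 2
    rw [← hM, show (M : Matrix (Fin (n + 2)) (Fin (n + 2)) F) 0 = Matrix.row (M : Matrix (Fin (n + 2)) (Fin (n + 2)) F) 0 from rfl,
      ← Matrix.single_one_vecMul 0 (M : Matrix (Fin (n + 2)) (Fin (n + 2)) F),
      Matrix.vecMul_vecMul, hinv, Matrix.vecMul_one]

end Cfsg.Agent.S0839
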