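import Cfsg.Statements.S0820
import Cfsg.Agent.S0839

set_option autoImplicit false
open Cfsg

namespace Cfsg.Agent.S0820

open Matrix in
lemma lift_involution {F : Type*} [Field F] [Fintype F] (hF : Fintype.card F = 4)
    (x : Matrix.ProjectiveSpecialLinearGroup (Fin 3) F) (hx : orderOf x = 2) :
    ∃ (X : Matrix.SpecialLinearGroup (Fin 3) F) (v : Fin 3 → F),
      QuotientGroup.mk' (Subgroup.center _) X = x ∧ v 0 = 0 ∧ v ≠ 0 ∧
      ∃ g : Matrix.SpecialLinearGroup (Fin 3) F,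
        ((g⁻¹ * X * g : Matrix.SpecialLinearGroup (Fin 3) F) : Matrix (Fin 3) (Fin 3) F) =
          1 + Matrix.vecMulVec v (Pi.single 0 1) := by
  have h4 : (4 : F) = 0 := by
    have := Nat.cast_card_eq_zero F
    rw [hF] at this; exact_mod_cast this
  have h2 : (2 : F) = 0 := mul_self_eq_zero.mp (by rw [← h4]; norm_num)
  obtain ⟨X, rfl⟩ := QuotientGroup.mk'_surjective _ x
  have hc : X ^ 2 ∈ Subgroup.center (Matrix.SpecialLinearGroup (Fin 3) F) := by
    have := pow_orderOf_eq_one (QuotientGroup.mk' (Subgroup.center (Matrix.SpecialLinearGroup (Fin 3) F)) X)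
    rwa [hx, ← map_pow, QuotientGroup.mk'_apply, QuotientGroup.eq_one_iff] at this
  obtain ⟨r, hr, hrX⟩ := Matrix.SpecialLinearGroup.mem_center_iff.mp hc
  rw [Fintype.card_fin] at hr
  obtain ⟨Y, hYd⟩ : ∃ Y, Y = X * X ^ 2 := ⟨_, rfl⟩
  have hY2 : Y * Y = 1 := by
    have e6 : Y * Y = (X ^ 2) ^ 3 := by rw [hYd]; simp [pow_succ, mul_assoc]
    apply Subtype.ext
    rw [e6, Matrix.SpecialLinearGroup.coe_pow, ← hrX, ← map_pow, hr, map_one,
      Matrix.SpecialLinearGroup.coe_one]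
  have hYx : QuotientGroup.mk' (Subgroup.center _) Y = QuotientGroup.mk' (Subgroup.center _) X := by
    rw [hYd, map_mul, QuotientGroup.mk'_apply (Subgroup.center _) (X ^ 2),
      (QuotientGroup.eq_one_iff _).mpr hc, mul_one]
  have hY1 : Y ≠ 1 := fun h => by
    rw [← hYx, h, map_one, orderOf_one] at hx; exact absurd hx (by norm_num)
  obtain ⟨N, hN⟩ : ∃ N, N = (Y : Matrix (Fin 3) (Fin 3) F) - 1 := ⟨_, rfl⟩
  have hN2 : N * N = 0 := by
    have hc' := congrArg (fun Z : Matrix.SpecialLinearGroup (Fin 3) F => (Z : Matrix (Fin 3) (Fin 3) F)) hY2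
    simp only [Matrix.SpecialLinearGroup.coe_mul, Matrix.SpecialLinearGroup.coe_one] at hc'
    rw [hN, sub_mul, mul_sub, mul_one, one_mul, hc']
    ext i j
    simp only [Matrix.sub_apply, Matrix.zero_apply]
    linear_combination ((1 : Matrix (Fin 3) (Fin 3) F) i j - (Y : Matrix (Fin 3) (Fin 3) F) i j) * h2
  have hN0 : N ≠ 0 := fun h => hY1 (Subtype.ext (by
    rw [Matrix.SpecialLinearGroup.coe_one]; exact sub_eq_zero.mp (hN ▸ h)))
  have hrank : N.rank = 1 := by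
    have hle : LinearMap.range N.mulVecLin ≤ LinearMap.ker N.mulVecLin := by
      rintro _ ⟨w, rfl⟩
      rw [LinearMap.mem_ker, Matrix.mulVecLin_apply, Matrix.mulVecLin_apply, Matrix.mulVec_mulVec,
        hN2, Matrix.zero_mulVec]
    have h1 := LinearMap.finrank_range_add_finrank_ker N.mulVecLin
    have h3 := Submodule.finrank_mono hle
    have h5 : N.rank ≠ 0 := fun h => hN0 (by
      rw [Matrix.rank, Submodule.finrank_eq_zero, LinearMap.range_eq_bot] at h
      exact Matrix.ext_of_mulVec_single fun i => by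
        rw [Matrix.zero_mulVec, ← Matrix.mulVecLin_apply, h, LinearMap.zero_apply])
    rw [Module.finrank_fin_fun] at h1
    rw [Matrix.rank] at h5 ⊢
    omega
  obtain ⟨g, v, hv0, hgv⟩ := Cfsg.Agent.S0839.result 1 Y ⟨hN ▸ hrank, hN ▸ hN2⟩
  refine ⟨Y, v, hYx, hv0, fun h => hY1 ?_, g, hgv⟩
  have hh : g⁻¹ * Y * g = 1 := Subtype.ext (by
    rw [hgv, h, Matrix.zero_vecMulVec, add_zero, Matrix.SpecialLinearGroup.coe_one])
  calc Y = g * (g⁻¹ * Y * g) * g⁻¹ := by group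
    _ = 1 := by rw [hh, mul_one, mul_inv_cancel]

open Matrix in
lemma conj_normal_form {F : Type*} [Field F] (v : Fin 3 → F) (hv0 : v 0 = 0) (hv : v ≠ 0) :
    ∃ M : Matrix.SpecialLinearGroup (Fin 3) F,
      (M : Matrix (Fin 3) (Fin 3) F) * (1 + Matrix.vecMulVec (Pi.single 1 1) (Pi.single 0 1)) =
        (1 + Matrix.vecMulVec v (Pi.single 0 1)) * (M : Matrix (Fin 3) (Fin 3) F) := by
  obtain ⟨a, b, hab⟩ : ∃ a b : F, v 1 * b - a * v 2 = 1 := by
    by_cases h1 : v 1 = 0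
    · have h2 : v 2 ≠ 0 := fun h2 => hv (funext fun i => by fin_cases i <;> assumption)
      exact ⟨-(v 2)⁻¹, 0, by field_simp; ring⟩
    · exact ⟨0, (v 1)⁻¹, by field_simp; ring⟩
  refine ⟨⟨!![1, 0, 0; 0, v 1, a; 0, v 2, b], ?_⟩, ?_⟩
  · rw [Matrix.det_fin_three]; simp; linear_combination hab
  · simp only [mul_add, add_mul, mul_one, one_mul, Matrix.mul_vecMulVec, Matrix.vecMulVec_mul]
    congr 2
    · ext i; fin_cases i <;> simp [hv0]
    · ext i; fin_cases i <;> simp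

/-- Any two elements of order 2 of PSL_3(4) are conjugate. -/
theorem result {F : Type*} [Field F] [Fintype F] (hF : Fintype.card F = 4) (x y : Matrix.ProjectiveSpecialLinearGroup (Fin 3) F) (hx : orderOf x = 2) (hy : orderOf y = 2) : IsConj x y := by
  obtain ⟨X, v, rfl, hv0, hv, g, hg⟩ := lift_involution hF x hx
  obtain ⟨Y, w, rfl, hw0, hw, k, hk⟩ := lift_involution hF y hy
  obtain ⟨M, hM⟩ := conj_normal_form v hv0 hv
  obtain ⟨M', hM'⟩ := conj_normal_form w hw0 hw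
  refine MonoidHom.map_isConj _ (isConj_iff.mpr ⟨k * M' * M⁻¹ * g⁻¹, ?_⟩)
  have key : ∀ {Z u : Matrix.SpecialLinearGroup (Fin 3) F},
      (u : Matrix (Fin 3) (Fin 3) F) * (1 + Matrix.vecMulVec (Pi.single 1 1) (Pi.single 0 1)) =
        (Z : Matrix (Fin 3) (Fin 3) F) * (u : Matrix (Fin 3) (Fin 3) F) →
      ((u⁻¹ * Z * u : Matrix.SpecialLinearGroup (Fin 3) F) : Matrix (Fin 3) (Fin 3) F) =
        1 + Matrix.vecMulVec (Pi.single 1 1) (Pi.single 0 1) := by
    intro Z u hu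
    rw [mul_assoc, Matrix.SpecialLinearGroup.coe_mul, Matrix.SpecialLinearGroup.coe_mul, ← hu,
      ← mul_assoc, ← Matrix.SpecialLinearGroup.coe_mul, inv_mul_cancel,
      Matrix.SpecialLinearGroup.coe_one, one_mul]
  have e : M⁻¹ * (g⁻¹ * X * g) * M = M'⁻¹ * (k⁻¹ * Y * k) * M' := by
    apply Subtype.ext
    rw [key (by rw [hg]; exact hM), key (by rw [hk]; exact hM')]
  calc k * M' * M⁻¹ * g⁻¹ * X * (k * M' * M⁻¹ * g⁻¹)⁻¹
      = k * M' * (M⁻¹ * (g⁻¹ * X * g) * M) * M'⁻¹ * k⁻¹ := by group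
    _ = k * M' * (M'⁻¹ * (k⁻¹ * Y * k) * M') * M'⁻¹ * k⁻¹ := by rw [e]
    _ = Y := by group

end Cfsg.Agent.S0820
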