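import Cfsg.Statements.S0821
import Cfsg.Agent.Lib.Parabolic.PSpInvolutions
import Cfsg.Agent.Lib.Parabolic.POmegaInvolutions
import Cfsg.Agent.Lib.ClassicalForms.Ortho.POmega

set_option autoImplicit false
open Cfsg

namespace Cfsg.Agent.S0821

/-- PSp_2m(q) ≇ PΩ_(2m+1)(q) for q odd and m ≥ 3 (they have the same order). -/
theorem result {F : Type*} [Field F] [Fintype F] (hodd : Odd (Fintype.card F)) (m : ℕ) (hm : 3 ≤ m) : IsEmpty (Cfsg.PSp m F ≃* Cfsg.POmega F (Cfsg.quadFormOdd m F)) := by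
  have h2 : (2 : F) ≠ 0 :=
    CfsgLib.ClassicalForms.two_ne_zero_of_odd (by rwa [Nat.card_eq_fintype_card])
  refine ⟨fun e => ?_⟩
  have hc := CfsgLib.ClassicalForms.commutator_qOdd (F := F) h2 (m := m) (by omega)
  let e' := e.trans (CfsgLib.ClassicalForms.pOmegaEquiv (CfsgLib.ClassicalForms.qOdd m F)
    (CfsgLib.ClassicalForms.qOdd_apply m) hc)
  obtain ⟨x, hord, hinj⟩ := CfsgLib.POmegaInv.exists_involutions h2
    (CfsgLib.ClassicalForms.nondeg_qOdd h2 m) (m := m) (by omega)
    (CfsgLib.ClassicalForms.finrank_qOdd m) hc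
  have hy : ∀ i, orderOf (e'.symm (x i)) = 2 := fun i => by rw [MulEquiv.orderOf_eq]; exact hord i
  choose T hT hTt using fun i => CfsgLib.PSpInv.exists_hasType h2 (by omega) (hy i)
  have hle : Fintype.card (Fin m) ≤ Fintype.card (Fin (m / 2 + 1)) := by
    refine Fintype.card_le_of_injective (fun i => (⟨T i, Nat.lt_succ_of_le (hT i)⟩ : Fin (m / 2 + 1))) ?_
    intro i j hij
    have hij' : T i = T j := congrArg Fin.val hij
    apply hinj
    have hconj := CfsgLib.PSpInv.isConj_of_hasType h2 (hTt i) (hij' ▸ hTt j)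
    have := e'.toMonoidHom.map_isConj hconj
    simpa using this
  simp at hle
  omega

end Cfsg.Agent.S0821
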