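import Cfsg.Statements.S0823
import Cfsg.Agent.Lib.Parabolic.SmallIso.Heart
import Cfsg.Agent.Lib.ClassicalForms.Ortho.Standard
-- import your own Cfsg.Agent.* helpers here

set_option autoImplicit false
open Cfsg

namespace Cfsg.Agent.S0823

abbrev Z := ZMod 3
abbrev I := Unit ⊕ (Fin 1 ⊕ Fin 1)
abbrev Q := Cfsg.quadFormOdd 1 Z

local instance : Fact (Nat.Prime 3) := ⟨Nat.prime_three⟩

/-- Numbering of the coordinates. -/
def idx : I → Fin 3
  | .inl _ => 0
  | .inr (.inl _) => 1
  | .inr (.inr _) => 2

def E : Matrix (Fin 4) I Z := fun a l => (!![0, 0, 2; 0, 1, 0; 1, 1, 2; 2, 1, 2] : Matrix (Fin 4) (Fin 3) Z) a (idx l)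

def P : Matrix I (Fin 4) Z := fun l a => (!![0, 0, 2, 1; 2, 0, 2, 2; 0, 1, 1, 1] : Matrix (Fin 3) (Fin 4) Z) (idx l) a

theorem neg_mem : (-1 : Matrix.GeneralLinearGroup I Z) ∈ Cfsg.isometryGroup Z Q := fun u _ => by
  show Q (((-1 : Matrix.GeneralLinearGroup I Z) : Matrix I I Z).mulVec u) = Q u
  rw [Units.val_neg, Units.val_one, Matrix.neg_mulVec, Matrix.one_mulVec]
  simp [Q, Cfsg.quadFormOdd]

/-- Minus the identity. -/
def negI : Cfsg.isometryGroup Z Q := ⟨-1, neg_mem⟩

theorem det_negI : Matrix.GeneralLinearGroup.det (negI : Matrix.GeneralLinearGroup I Z) = -1 := by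
  apply Units.ext
  show ((-1 : Matrix.GeneralLinearGroup I Z) : Matrix I I Z).det = -1
  rw [Units.val_neg, Units.val_one, Matrix.det_neg, Matrix.det_one]
  decide

theorem negI_comm (x : Cfsg.isometryGroup Z Q) : negI * x = x * negI :=
  Subtype.ext (by simp [negI])

theorem negI_sq : negI * negI = 1 := Subtype.ext (by simp [negI])

theorem exists_hom : ∃ φ : Equiv.Perm (Fin 4) →* Cfsg.isometryGroup Z Q,
    Function.Injective φ ∧ (∀ g, φ g ≠ negI) ∧
      ∀ i j, i ≠ j → Matrix.GeneralLinearGroup.det
        (φ (Equiv.swap i j) : Matrix.GeneralLinearGroup I Z) = -1 := by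
  obtain ⟨φ, hφ⟩ := CfsgLib.SmallIso.exists_isometry_hom E P Q 0
    (by decide +kernel) (by decide +kernel)
    (by unfold CfsgLib.SmallIso.heartMat; decide +kernel)
    (by unfold CfsgLib.SmallIso.heartMat Q Cfsg.quadFormOdd; decide +kernel)
  refine ⟨φ, CfsgLib.SmallIso.injective_of_rows E φ (fun g => (hφ g).2) (by decide +kernel)
    (by decide +kernel), fun g hg => ?_, fun i j hij => ?_⟩
  · have h := (hφ g).1
    rw [hg] at h
    have key : ∀ g : Equiv.Perm (Fin 4), CfsgLib.SmallIso.heartMat E P g ≠ -1 := by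
      unfold CfsgLib.SmallIso.heartMat; decide +kernel
    exact key g.symm (h.symm.trans (by simp [negI]))
  · apply Units.ext
    rw [Matrix.GeneralLinearGroup.val_det_apply, (hφ _).1, Equiv.symm_swap]
    revert i j
    unfold CfsgLib.SmallIso.heartMat
    decide +kernel

/-- SO_3(3) ≅ S_4: the determinant-one isometries of the form x_0² + x_1y_1 over the field with 3 elements form a group isomorphic to the symmetric group on 4 letters. -/
theorem result {F : Type*} [Field F] [Fintype F] (hF : Fintype.card F = 3) : Nonempty (↥(Cfsg.specialIsometryGroup F (Cfsg.quadFormOdd 1 F)) ≃* Equiv.Perm (Fin 4)) := by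
  classical
  obtain ⟨φ, hinj, hne, hdet⟩ := exists_hom
  set S := Cfsg.specialIsometryGroup Z Q
  let d : Cfsg.isometryGroup Z Q →* Zˣ :=
    Matrix.GeneralLinearGroup.det.comp (Cfsg.isometryGroup Z Q).subtype
  have hS : ∀ x, x ∈ S ↔ d x = 1 := fun x => Iff.rfl
  have hsgn : ∀ g, d (φ g) = Units.map (Int.castRingHom Z).toMonoidHom (Equiv.Perm.sign g) := by
    intro g
    induction g using Equiv.Perm.swap_induction_on with
    | one => simp
    | swap_mul f x y hxy ih =>
      rw [map_mul, map_mul, map_mul, map_mul, ih]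
      congr 1
      rw [Equiv.Perm.sign_swap hxy]
      exact (hdet x y hxy).trans (Units.ext (by simp))
  -- twist by the sign
  let tw : ℤˣ →* Cfsg.isometryGroup Z Q :=
    { toFun := fun s => if s = 1 then 1 else negI
      map_one' := if_pos rfl
      map_mul' := fun s t => by
        rcases Int.units_eq_one_or s with rfl | rfl <;> rcases Int.units_eq_one_or t with rfl | rfl <;>
          simp [negI_sq] }
  let ψ : Equiv.Perm (Fin 4) →* Cfsg.isometryGroup Z Q :=
    MonoidHom.mk' (fun g => tw (Equiv.Perm.sign g) * φ g) fun g h => by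
      rw [map_mul, map_mul, map_mul, mul_assoc, mul_assoc, ← mul_assoc (tw (Equiv.Perm.sign h)),
        ← mul_assoc (φ g)]
      congr 2
      simp only [tw, MonoidHom.coe_mk, OneHom.coe_mk]
      split_ifs with h1
      · rw [one_mul, mul_one]
      · exact negI_comm _
  have hmem : ∀ g, ψ g ∈ S := fun g => by
    rw [hS]
    show d (tw (Equiv.Perm.sign g) * φ g) = 1
    rw [map_mul, hsgn]
    rcases Int.units_eq_one_or (Equiv.Perm.sign g) with h | h <;> rw [h]
    · rw [map_one, map_one, map_one, one_mul]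
    · simp only [tw, MonoidHom.coe_mk, OneHom.coe_mk, if_neg (show ¬ ((-1 : ℤˣ) = 1) by decide)]
      rw [show d negI = -1 from det_negI]
      exact Units.ext (by simp)
  have hψ : Function.Injective ψ := (injective_iff_map_eq_one _).2 fun g hg => by
    have hg' : tw (Equiv.Perm.sign g) * φ g = 1 := hg
    rcases Int.units_eq_one_or (Equiv.Perm.sign g) with h | h <;> rw [h] at hg'
    · rw [map_one, one_mul] at hg'
      exact hinj (hg'.trans (map_one φ).symm)
    · simp only [tw, MonoidHom.coe_mk, OneHom.coe_mk, if_neg (show ¬ ((-1 : ℤˣ) = 1) by decide)] at hg'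
      exact absurd ((inv_eq_of_mul_eq_one_right hg').symm.trans
        (inv_eq_of_mul_eq_one_right negI_sq)) (hne g)
  have hO : Nat.card (Cfsg.isometryGroup Z Q) = 48 := by
    rw [Nat.card_congr (CfsgLib.ClassicalForms.isoMat _
      (CfsgLib.ClassicalForms.qOdd_apply (F := Z) 1)).toEquiv]
    have := CfsgLib.ClassicalForms.card_orth_qOdd (F := Z) (by decide) 1
    rw [Nat.card_zmod] at this
    norm_num at this
    exact_mod_cast this
  have hcard : Nat.card S ≤ 24 := by
    have h2 : Function.Injective (fun p : S × Bool => if p.2 then (p.1 : Cfsg.isometryGroup Z Q)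
        else negI * p.1) := by
      rintro ⟨x, e⟩ ⟨y, f⟩ h
      have hd : ∀ z : S, d (negI * z) = -1 := fun z => by
        rw [map_mul, (hS _).1 z.2, mul_one]; exact det_negI
      have hne1 : (-1 : Zˣ) ≠ 1 := by decide
      cases e <;> cases f <;> simp only [if_true, if_false, Bool.false_eq_true] at h
      · exact Prod.ext (Subtype.ext (mul_left_cancel h)) rfl
      · exact absurd ((hd x).symm.trans ((congrArg d h).trans ((hS _).1 y.2))) hne1
      · exact absurd ((hd y).symm.trans ((congrArg d h.symm).trans ((hS _).1 x.2))) hne1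
      · exact Prod.ext (Subtype.ext h) rfl
    have h3 := Nat.card_le_card_of_injective _ h2
    rw [Nat.card_prod, hO, Nat.card_eq_fintype_card (α := Bool), Fintype.card_bool] at h3
    omega
  have hψS : Function.Injective (ψ.codRestrict S hmem) :=
    fun a b h => hψ (congrArg Subtype.val h)
  have hbij : Function.Bijective (ψ.codRestrict S hmem) :=
    hψS.bijective_of_nat_card_le (by rw [Nat.card_perm, Nat.card_fin]; exact hcard)
  let e := (ZMod.ringEquivOfPrime F Nat.prime_three hF).symm
  let T := CfsgLib.SmallIso.isoCongr e (Cfsg.quadFormOdd 1 F) Q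
    (fun v => by simp [Q, Cfsg.quadFormOdd])
  have hT : (Cfsg.specialIsometryGroup F (Cfsg.quadFormOdd 1 F)).map T.toMonoidHom = S := by
    ext x
    obtain ⟨y, rfl⟩ := T.surjective x
    rw [Subgroup.mem_map_equiv, MulEquiv.symm_apply_apply, hS]
    show Matrix.GeneralLinearGroup.det (y : Matrix.GeneralLinearGroup I F) = 1 ↔
      Matrix.GeneralLinearGroup.det (T y : Matrix.GeneralLinearGroup I Z) = 1
    rw [Units.ext_iff, Units.ext_iff, Matrix.GeneralLinearGroup.val_det_apply,
      Matrix.GeneralLinearGroup.val_det_apply, Units.val_one, Units.val_one,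
      show ((T y : Matrix.GeneralLinearGroup I Z) : Matrix I I Z)
        = e.toRingHom.mapMatrix (((y : Matrix.GeneralLinearGroup I F) : Matrix I I F)) from rfl,
      ← RingHom.map_det]
    exact ⟨fun h => by rw [h, map_one], fun h => e.injective (h.trans (map_one e).symm)⟩
  exact ⟨((T.subgroupMap _).trans (MulEquiv.subgroupCongr hT)).trans
    (MulEquiv.ofBijective _ hbij).symm⟩

end Cfsg.Agent.S0823
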