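import Cfsg.Statements.S0824
import Cfsg.Agent.Lib.Parabolic.SmallIso.Heart
import Cfsg.Agent.Lib.ClassicalForms.Ortho.Standard
-- import your own Cfsg.Agent.* helpers here

set_option autoImplicit false
open Cfsg

namespace Cfsg.Agent.S0824

abbrev Z := ZMod 2
abbrev I := (Fin 1 ⊕ Fin 1) ⊕ Fin 2

/-- Numbering of the coordinates. -/
def idx : I → Fin 4
  | .inl (.inl _) => 0
  | .inl (.inr _) => 1
  | .inr i => ⟨2 + i.val, by omega⟩

def E : Matrix (Fin 5) I Z := fun a l => (!![1, 1, 1, 0; 1, 1, 1, 1; 1, 1, 0, 1; 1, 0, 0, 0; 0, 1, 0, 0] : Matrix (Fin 5) (Fin 4) Z) a (idx l)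

def P : Matrix I (Fin 5) Z := fun l a => (!![1, 1, 1, 0, 1; 1, 1, 1, 1, 0; 0, 1, 1, 0, 0; 1, 1, 0, 0, 0] : Matrix (Fin 4) (Fin 5) Z) (idx l) a

theorem exists_hom : ∃ φ : Equiv.Perm (Fin 5) →* Cfsg.isometryGroup Z (Cfsg.quadFormMinus 1 Z 1 1),
    Function.Injective φ := by
  obtain ⟨φ, hφ⟩ := CfsgLib.SmallIso.exists_isometry_hom E P (Cfsg.quadFormMinus 1 Z 1 1) 0
    (by decide +kernel) (by decide +kernel)
    (by unfold CfsgLib.SmallIso.heartMat; decide +kernel)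
    (by unfold CfsgLib.SmallIso.heartMat Cfsg.quadFormMinus; decide +kernel)
  exact ⟨φ, CfsgLib.SmallIso.injective_of_rows E φ (fun g => (hφ g).2) (by decide +kernel)
    (by decide +kernel)⟩

theorem card_iso : Nat.card (Cfsg.isometryGroup Z (Cfsg.quadFormMinus 1 Z 1 1)) = 120 := by
  have h : CfsgLib.ClassicalForms.Aniso (1 : Z) 1 := by
    unfold CfsgLib.ClassicalForms.Aniso; decide
  rw [Nat.card_congr (CfsgLib.ClassicalForms.isoMat _
    (CfsgLib.ClassicalForms.qMinus_apply 1 (1 : Z) 1)).toEquiv]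
  have := CfsgLib.ClassicalForms.card_orth_qMinus h 1
  rw [Nat.card_zmod] at this
  norm_num at this
  exact_mod_cast this

/-- O⁻_4(2) ≅ S_5: the isometry group of the form x y + z_1² + z_1 z_2 + z_2² over the field with 2 elements is isomorphic to the symmetric group on 5 letters. -/
theorem result {F : Type*} [Field F] [Fintype F] (hF : Fintype.card F = 2) : Nonempty (↥(Cfsg.isometryGroup F (Cfsg.quadFormMinus 1 F 1 1)) ≃* Equiv.Perm (Fin 5)) := by
  obtain ⟨φ, hφ⟩ := exists_hom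
  let e := (ZMod.ringEquivOfPrime F Nat.prime_two hF).symm
  refine ⟨(CfsgLib.SmallIso.isoCongr e (Cfsg.quadFormMinus 1 F 1 1) (Cfsg.quadFormMinus 1 Z 1 1)
    (fun v => by simp [Cfsg.quadFormMinus])).trans (MulEquiv.ofBijective φ
      ((Nat.bijective_iff_injective_and_card φ).2 ⟨hφ, ?_⟩)).symm⟩
  rw [card_iso, Nat.card_perm, Nat.card_fin]
  rfl

end Cfsg.Agent.S0824
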