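import Cfsg.Statements.S0825
import Cfsg.Agent.Lib.Parabolic.SmallIso.Heart
import Cfsg.Agent.Lib.ClassicalForms.Ortho.Standard
-- import your own Cfsg.Agent.* helpers here

set_option autoImplicit false
open Cfsg

namespace Cfsg.Agent.S0825

abbrev Z := ZMod 2
abbrev I := Fin 3 ⊕ Fin 3

/-- Numbering of the coordinates. -/
def idx : I → Fin 6
  | .inl i => ⟨i.val, by omega⟩
  | .inr i => ⟨3 + i.val, by omega⟩

def E : Matrix (Fin 8) I Z := fun a l => (!![0, 0, 0, 0, 0, 0; 0, 0, 1, 0, 0, 1; 0, 1, 0, 0, 1, 1; 0, 1, 1, 1, 1, 0; 1, 1, 1, 0, 1, 0; 1, 0, 1, 1, 0, 0; 1, 0, 0, 1, 1, 1; 1, 1, 0, 1, 0, 1] : Matrix (Fin 8) (Fin 6) Z) a (idx l)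

def P : Matrix I (Fin 8) Z := fun l a => (!![0, 0, 0, 1, 0, 1, 1, 1; 0, 0, 1, 1, 1, 0, 1, 0; 0, 1, 1, 0, 0, 0, 1, 1; 0, 0, 0, 0, 1, 1, 1, 1; 0, 0, 1, 1, 1, 0, 0, 1; 0, 1, 0, 1, 1, 1, 0, 0] : Matrix (Fin 6) (Fin 8) Z) (idx l) a

theorem exists_hom : ∃ φ : Equiv.Perm (Fin 8) →* Cfsg.isometryGroup Z (Cfsg.quadFormPlus 3 Z),
    Function.Injective φ := by
  obtain ⟨φ, hφ⟩ := CfsgLib.SmallIso.exists_isometry_hom E P (Cfsg.quadFormPlus 3 Z) 0
    (by decide +kernel) (by decide +kernel)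
    (by unfold CfsgLib.SmallIso.heartMat; decide +kernel)
    (by unfold CfsgLib.SmallIso.heartMat Cfsg.quadFormPlus; decide +kernel)
  exact ⟨φ, CfsgLib.SmallIso.injective_of_rows E φ (fun g => (hφ g).2) (by decide +kernel)
    (by decide +kernel)⟩

theorem card_iso : Nat.card (Cfsg.isometryGroup Z (Cfsg.quadFormPlus 3 Z)) = 40320 := by
  rw [Nat.card_congr (CfsgLib.ClassicalForms.isoMat _
    (CfsgLib.ClassicalForms.qPlus_apply (F := Z) 3)).toEquiv]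
  have := CfsgLib.ClassicalForms.card_orth_qPlus (F := Z) 3 (by norm_num)
  rw [Nat.card_zmod] at this
  norm_num [Finset.prod_range_succ] at this
  exact_mod_cast this

/-- O⁺_6(2) ≅ S_8: the isometry group of the hyperbolic form x_1y_1 + x_2y_2 + x_3y_3 over the field with 2 elements is isomorphic to the symmetric group on 8 letters. -/
theorem result {F : Type*} [Field F] [Fintype F] (hF : Fintype.card F = 2) : Nonempty (↥(Cfsg.isometryGroup F (Cfsg.quadFormPlus 3 F)) ≃* Equiv.Perm (Fin 8)) := by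
  obtain ⟨φ, hφ⟩ := exists_hom
  let e := (ZMod.ringEquivOfPrime F Nat.prime_two hF).symm
  refine ⟨(CfsgLib.SmallIso.isoCongr e (Cfsg.quadFormPlus 3 F) (Cfsg.quadFormPlus 3 Z)
    (fun v => by simp [Cfsg.quadFormPlus])).trans (MulEquiv.ofBijective φ
      ((Nat.bijective_iff_injective_and_card φ).2 ⟨hφ, ?_⟩)).symm⟩
  rw [card_iso, Nat.card_perm, Nat.card_fin]
  rfl

end Cfsg.Agent.S0825
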