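import Cfsg.Statements.S0826
import Cfsg.Agent.Lib.Forms.SympBridge
import Cfsg.Agent.Lib.Forms.Symplectic
-- import your own Cfsg.Agent.* helpers here

set_option autoImplicit false
open Cfsg

namespace Cfsg.Agent.S0826

section
variable {α : Type} [Fintype α] [DecidableEq α] (z : α)

local notation "K" => ZMod 2

/-- Even vectors vanishing at `z`: representatives of the heart of the permutation module. -/
def heartMap : (α → K) →ₗ[K] K × K := (∑ a, LinearMap.proj a).prod (LinearMap.proj z)

def heart : Submodule K (α → K) := LinearMap.ker (heartMap z)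

lemma mem_heart {u : α → K} : u ∈ heart z ↔ ∑ a, u a = 0 ∧ u z = 0 := by
  simp [heart, heartMap, LinearMap.mem_ker, Prod.ext_iff]

/-- Normalise at `z` by adding a multiple of the all-one vector. -/
def norm0 (u : α → K) : α → K := fun a => u a + u z

lemma add_self_zmod (x : K) : x + x = 0 := CharTwo.add_self_eq_zero x

variable (hα : Even (Fintype.card α))
include hα

omit [DecidableEq α] in
lemma card_cast : ((Fintype.card α : ℕ) : K) = 0 := by
  obtain ⟨k, hk⟩ := hα
  rw [hk, Nat.cast_add, CharTwo.add_self_eq_zero]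

lemma norm0_mem {u : α → K} (hu : ∑ a, u a = 0) : norm0 z u ∈ heart z := by
  rw [mem_heart]
  exact ⟨by simp [norm0, Finset.sum_add_distrib, hu, card_cast hα], add_self_zmod _⟩

/-- The action of a permutation on the heart. -/
def act (π : Equiv.Perm α) : heart z →ₗ[K] heart z where
  toFun u := ⟨norm0 z (fun a => u.1 (π.symm a)),
    norm0_mem z hα (((Equiv.sum_comp π.symm u.1)).trans ((mem_heart z).1 u.2).1)⟩
  map_add' u v := Subtype.ext (funext fun a => by simp [norm0]; ring)
  map_smul' c u := Subtype.ext (funext fun a => by simp [norm0]; ring)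

lemma act_apply (π : Equiv.Perm α) (u : heart z) (a : α) :
    (act z hα π u).1 a = u.1 (π.symm a) + u.1 (π.symm z) := rfl

lemma act_one : act z hα 1 = LinearMap.id := LinearMap.ext fun u => Subtype.ext (funext fun a => by
  rw [act_apply]
  show u.1 a + u.1 z = u.1 a
  rw [((mem_heart z).1 u.2).2, add_zero])

lemma act_mul (π σ : Equiv.Perm α) : act z hα (π * σ) = (act z hα π).comp (act z hα σ) :=
  LinearMap.ext fun u => Subtype.ext (funext fun a => by
    rw [LinearMap.comp_apply, act_apply, act_apply, act_apply, act_apply]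
    show u.1 (σ.symm (π.symm a)) + u.1 (σ.symm (π.symm z)) = _
    linear_combination -(add_self_zmod (u.1 (σ.symm z))))

/-- The action as a linear automorphism. -/
def actEquiv (π : Equiv.Perm α) : heart z ≃ₗ[K] heart z :=
  { act z hα π with
    invFun := act z hα π⁻¹
    left_inv := fun u => by
      show (act z hα π⁻¹).comp (act z hα π) u = u
      rw [← act_mul, inv_mul_cancel, act_one]; rfl
    right_inv := fun u => by
      show (act z hα π).comp (act z hα π⁻¹) u = u
      rw [← act_mul, mul_inv_cancel, act_one]; rfl }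

/-- The dot product on the heart. -/
noncomputable def dot : LinearMap.BilinForm K (heart z) :=
  LinearMap.mk₂ K (fun u v => ∑ a, u.1 a * v.1 a)
    (fun u u' v => by simp [add_mul, Finset.sum_add_distrib])
    (fun c u v => by simp [Finset.mul_sum, mul_assoc])
    (fun u v v' => by simp [mul_add, Finset.sum_add_distrib])
    (fun c u v => by simp [Finset.mul_sum, mul_left_comm])

lemma dot_act (π : Equiv.Perm α) (u v : heart z) :
    dot z (act z hα π u) (act z hα π v) = dot z u v := by
  simp only [dot, LinearMap.mk₂_apply, act_apply]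
  rw [← Equiv.sum_comp π.symm (fun a => u.1 a * v.1 a)]
  simp only [add_mul, mul_add, Finset.sum_add_distrib, ← Finset.mul_sum, ← Finset.sum_mul,
    Equiv.sum_comp π.symm, ((mem_heart z).1 u.2).1, ((mem_heart z).1 v.2).1, Finset.sum_const,
    Finset.card_univ, nsmul_eq_mul, card_cast hα]
  simp

lemma dot_alt : (dot z).IsAlt := fun u => by
  simp only [dot, LinearMap.mk₂_apply]
  have h : ∀ x : K, x * x = x := by decide
  simpa [h] using ((mem_heart z).1 u.2).1

lemma dot_nondeg : (dot z).Nondegenerate := by
  suffices h : ∀ u, (∀ v, dot z u v = 0) → u = 0 from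
    ⟨h, fun v hv => h v fun u => by rw [← LinearMap.IsAlt.neg (dot_alt z hα), hv u, neg_zero]⟩
  intro u hu
  obtain ⟨hsum, huz⟩ := (mem_heart z).1 u.2
  have hconst : ∀ i j, i ≠ z → j ≠ z → u.1 i = u.1 j := by
    intro i j hi hj
    have hm : (Pi.single i 1 + Pi.single j 1 : α → K) ∈ heart z := by
      rw [mem_heart]
      simp [Finset.sum_add_distrib, add_self_zmod, Ne.symm hi, Ne.symm hj]
    have h := hu ⟨_, hm⟩
    simp only [dot, LinearMap.mk₂_apply, Pi.add_apply, mul_add, Finset.sum_add_distrib] at h
    rw [Finset.sum_eq_single i (fun b _ hb => by simp [hb]) (by simp),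
      Finset.sum_eq_single j (fun b _ hb => by simp [hb]) (by simp)] at h
    simp only [Pi.single_eq_same, mul_one] at h
    exact (CharTwo.add_eq_zero.1 h)
  refine Subtype.ext (funext fun i => ?_)
  show u.1 i = 0
  by_cases hi : i = z
  · rw [hi, huz]
  · rw [← Finset.add_sum_erase _ u.1 (Finset.mem_univ z), huz, zero_add,
      Finset.sum_congr rfl (fun j hj => hconst j i (Finset.ne_of_mem_erase hj) hi),
      Finset.sum_const, Finset.card_erase_of_mem (Finset.mem_univ z), Finset.card_univ,
      nsmul_eq_mul, Nat.cast_sub (Fintype.card_pos_iff.2 ⟨z⟩), card_cast hα] at hsum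
    simpa using hsum

lemma finrank_heart (h2 : 2 ≤ Fintype.card α) :
    Module.finrank K (heart z) + 2 = Fintype.card α := by
  obtain ⟨i, hi⟩ : ∃ i, i ≠ z := Fintype.exists_ne_of_one_lt_card (by omega) z
  have hs : Function.Surjective (heartMap (α := α) z) := fun p =>
    ⟨Pi.single z p.2 + Pi.single i (p.1 + p.2), Prod.ext
      (by simp [heartMap, Finset.sum_add_distrib]
          linear_combination (add_self_zmod p.2)) (by simp [heartMap, Ne.symm hi])⟩
  have h := LinearMap.finrank_range_add_finrank_ker (heartMap (α := α) z)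
  rw [LinearMap.range_eq_top.2 hs, finrank_top, Module.finrank_prod, Module.finrank_self,
    Module.finrank_fintype_fun_eq_card] at h
  rw [heart]
  omega

lemma eq_one_of_act (h5 : 5 ≤ Fintype.card α) (π : Equiv.Perm α)
    (h : act z hα π = LinearMap.id) : π = 1 := by
  -- pairs avoiding `z` are sent to pairs
  have key : ∀ i j, i ≠ z → j ≠ z → i ≠ j → π i = i ∨ π i = j := by
    intro i j hi hj hij
    have hm : (Pi.single i 1 + Pi.single j 1 : α → K) ∈ heart z := by
      rw [mem_heart]
      simp [Finset.sum_add_distrib, add_self_zmod, Ne.symm hi, Ne.symm hj]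
    have h1 := fun a => congrFun (congrArg Subtype.val (LinearMap.congr_fun h ⟨_, hm⟩)) a
    simp only [act_apply, LinearMap.id_apply, Pi.add_apply] at h1
    by_contra hne
    push Not at hne
    have h2 := h1 (π i)
    rw [Equiv.symm_apply_apply, Pi.single_eq_same, Pi.single_eq_of_ne hij,
      Pi.single_eq_of_ne hne.1, Pi.single_eq_of_ne hne.2, add_zero] at h2
    -- so the constant is 1; look at a fifth point
    set c := (Pi.single i 1 : α → K) (π.symm z) + (Pi.single j 1 : α → K) (π.symm z) with hc
    have hc1 : c = 1 := by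
      rw [add_comm] at h2
      exact (CharTwo.add_eq_zero.1 (by simpa using h2))
    obtain ⟨a, ha⟩ : ∃ a, a ∉ ({i, j, π i, π j} : Finset α) := by
      by_contra hcon
      push Not at hcon
      have := Finset.card_le_card (show (Finset.univ : Finset α) ⊆ {i, j, π i, π j} from
        fun a _ => hcon a)
      have h4 : ({i, j, π i, π j} : Finset α).card ≤ 4 := Finset.card_le_four
      rw [Finset.card_univ] at this
      omega
    simp only [Finset.mem_insert, Finset.mem_singleton, not_or] at ha
    have h3 := h1 a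
    have e1 : π.symm a ≠ i := fun e => ha.2.2.1 (by rw [← e, Equiv.apply_symm_apply])
    have e2 : π.symm a ≠ j := fun e => ha.2.2.2 (by rw [← e, Equiv.apply_symm_apply])
    rw [Pi.single_eq_of_ne e1, Pi.single_eq_of_ne e2, Pi.single_eq_of_ne ha.1,
      Pi.single_eq_of_ne ha.2.1, add_zero, zero_add, hc1] at h3
    exact one_ne_zero h3
  have hfix : ∀ i, i ≠ z → π i = i := by
    intro i hi
    obtain ⟨j, k, hj, hk, hjk, hji, hki⟩ : ∃ j k, j ≠ z ∧ k ≠ z ∧ j ≠ k ∧ j ≠ i ∧ k ≠ i := by
      have hc : 1 < ((Finset.univ.erase z).erase i).card := by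
        rw [Finset.card_erase_of_mem (by simp [hi]), Finset.card_erase_of_mem (Finset.mem_univ z),
          Finset.card_univ]
        omega
      obtain ⟨j, hj, k, hk, hjk⟩ := Finset.one_lt_card.1 hc
      simp only [Finset.mem_erase] at hj hk
      exact ⟨j, k, hj.2.1, hk.2.1, hjk, hj.1, hk.1⟩
    rcases key i j hi hj (Ne.symm hji) with h1 | h1
    · exact h1
    · rcases key i k hi hk (Ne.symm hki) with h2 | h2
      · exact h2
      · exact absurd (h1.symm.trans h2) hjk
  refine Equiv.ext fun i => ?_
  by_cases hi : i = z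
  · subst hi
    by_contra hne
    exact hne (π.injective (hfix _ hne))
  · exact hfix i hi

end

/-- S_2n ≤ Sp_(2n−2)(2) for n ≥ 3: there is an injective homomorphism from the symmetric group on 2n letters into the symplectic group of degree 2n − 2 over the field with two elements. -/
theorem result (n : ℕ) (hn : 3 ≤ n) : ∃ f : Equiv.Perm (Fin (2 * n)) →* Matrix.symplecticGroup (Fin (n - 1)) (ZMod 2), Function.Injective f := by
  classical
  obtain ⟨z⟩ : Nonempty (Fin (2 * n)) := ⟨⟨0, by omega⟩⟩
  have hα : Even (Fintype.card (Fin (2 * n))) := by simp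
  have hd := finrank_heart z hα (by simp; omega)
  rw [Fintype.card_fin] at hd
  obtain ⟨e, he⟩ := CfsgLib.Forms.alt_isometric (dot z) (dot_nondeg z hα) (dot_alt z hα)
    (CfsgLib.Omega.sympBilin (n - 1) (ZMod 2)) (CfsgLib.Forms.sympBilin_nondeg _ _)
    (CfsgLib.Forms.sympBilin_isAlt _ _)
    (by rw [Module.finrank_fintype_fun_eq_card, Fintype.card_sum, Fintype.card_fin]; omega)
  let T : Equiv.Perm (Fin (2 * n)) →
      ((Fin (n - 1) ⊕ Fin (n - 1) → ZMod 2) ≃ₗ[ZMod 2] (Fin (n - 1) ⊕ Fin (n - 1) → ZMod 2)) :=
    fun π => (e.symm.trans (actEquiv z hα π)).trans e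
  have hT : ∀ π u, T π u = e (act z hα π (e.symm u)) := fun π u => rfl
  have hTs : ∀ π u v, Cfsg.sympForm (n - 1) (ZMod 2) (T π u) (T π v)
      = Cfsg.sympForm (n - 1) (ZMod 2) u v := fun π u v => by
    rw [hT, hT, ← CfsgLib.Omega.sympBilin_apply, he, dot_act, ← he, LinearEquiv.apply_symm_apply,
      LinearEquiv.apply_symm_apply, CfsgLib.Omega.sympBilin_apply]
  refine ⟨MonoidHom.mk' (fun π => CfsgLib.Forms.spOfEquiv (T π) (hTs π)) fun π σ => ?_, ?_⟩
  · refine Subtype.ext (Matrix.ext_of_mulVec_single fun i => ?_)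
    rw [Submonoid.coe_mul, ← Matrix.mulVec_mulVec, CfsgLib.Forms.spOfEquiv_mulVec,
      CfsgLib.Forms.spOfEquiv_mulVec, CfsgLib.Forms.spOfEquiv_mulVec, hT, hT, hT, act_mul,
      LinearMap.comp_apply, LinearEquiv.symm_apply_apply]
  · refine (injective_iff_map_eq_one _).2 fun π hπ => eq_one_of_act z hα (by simp; omega) π ?_
    refine LinearMap.ext fun u => e.injective ?_
    have h1 := congrArg (fun A : Matrix.symplecticGroup (Fin (n - 1)) (ZMod 2) =>
      Matrix.mulVec A.1 (e u)) hπ
    simp only [MonoidHom.mk'_apply, CfsgLib.Forms.spOfEquiv_mulVec, OneMemClass.coe_one,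
      Matrix.one_mulVec, hT, LinearEquiv.symm_apply_apply] at h1
    simpa using h1

end Cfsg.Agent.S0826
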