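import Cfsg.Statements.S0828
import Cfsg.Agent.Lib.Parabolic.TILines
import Cfsg.Agent.Lib.Omega.SympForm
-- import your own Cfsg.Agent.* helpers here

set_option autoImplicit false
open Cfsg

namespace Cfsg.Agent.S0828

/-- The symplectic generalised quadrangle over a field with q elements: the number of 2-dimensional subspaces of F^4 on which the symplectic form vanishes is (q + 1)(q² + 1), and every non-zero vector lies in exactly q + 1 of them. -/
theorem result {F : Type*} [Field F] [Fintype F] {q : ℕ} (hF : Fintype.card F = q) : Nat.card {W : Submodule F (Fin 2 ⊕ Fin 2 → F) // Module.finrank F W = 2 ∧ ∀ u ∈ W, ∀ v ∈ W, Cfsg.sympForm 2 F u v = 0} = (q + 1) * (q ^ 2 + 1) ∧ ∀ v : Fin 2 ⊕ Fin 2 → F, v ≠ 0 → Nat.card {W : Submodule F (Fin 2 ⊕ Fin 2 → F) // Module.finrank F W = 2 ∧ v ∈ W ∧ ∀ u ∈ W, ∀ w ∈ W, Cfsg.sympForm 2 F u w = 0} = q + 1 := by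
  classical
  have hn : Nat.card F = q := by rw [Nat.card_eq_fintype_card, hF]
  have hq : 2 ≤ q := hF ▸ Fintype.one_lt_card
  set B := CfsgLib.Omega.sympBilin 2 F with hB
  have hR : ∀ v w : Fin 2 ⊕ Fin 2 → F, Cfsg.sympForm 2 F v v = 0 → Cfsg.sympForm 2 F v w = 0 →
      Cfsg.sympForm 2 F w v = 0 → Cfsg.sympForm 2 F w w = 0 →
      ∀ u ∈ (F ∙ v : Submodule F (Fin 2 ⊕ Fin 2 → F)) ⊔ (F ∙ w),
        ∀ u' ∈ (F ∙ v : Submodule F (Fin 2 ⊕ Fin 2 → F)) ⊔ (F ∙ w), Cfsg.sympForm 2 F u u' = 0 := by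
    intro v w h1 h2 h3 h4 u hu u' hu'
    simp only [← CfsgLib.Omega.sympBilin_apply] at *
    simp only [Submodule.mem_sup, Submodule.mem_span_singleton] at hu hu'
    obtain ⟨_, ⟨a, rfl⟩, _, ⟨b, rfl⟩, rfl⟩ := hu
    obtain ⟨_, ⟨a', rfl⟩, _, ⟨b', rfl⟩, rfl⟩ := hu'
    simp [h1, h2, h3, h4]
  have h0 : ∀ v, Cfsg.sympForm 2 F v v = 0 := fun v => by
    rw [← CfsgLib.Omega.sympBilin_apply, CfsgLib.Omega.sympBilin_self]
  have hp : ∀ v : Fin 2 ⊕ Fin 2 → F, v ≠ 0 → Nat.card {W : Submodule F (Fin 2 ⊕ Fin 2 → F) //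
      Module.finrank F W = 2 ∧ v ∈ W ∧ ∀ u ∈ W, ∀ w ∈ W, Cfsg.sympForm 2 F u w = 0} = q + 1 := by
    intro v hv
    have h1 := CfsgLib.TILines.card_through_mul
      (fun u w : Fin 2 ⊕ Fin 2 → F => Cfsg.sympForm 2 F u w = 0) hR hv (h0 v)
    have h2 : Nat.card {w : Fin 2 ⊕ Fin 2 → F // Cfsg.sympForm 2 F v w = 0 ∧
        Cfsg.sympForm 2 F w v = 0 ∧ Cfsg.sympForm 2 F w w = 0} = q ^ 3 := by
      have hiff : ∀ w, w ∈ LinearMap.ker (B v) ↔ (Cfsg.sympForm 2 F v w = 0 ∧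
          Cfsg.sympForm 2 F w v = 0 ∧ Cfsg.sympForm 2 F w w = 0) := by
        intro w
        rw [LinearMap.mem_ker, hB, CfsgLib.Omega.sympBilin_apply]
        refine ⟨fun h => ⟨h, ?_, h0 w⟩, fun h => h.1⟩
        rw [CfsgLib.Omega.sympForm_eq_sum] at h ⊢
        rw [← neg_eq_zero, ← Finset.sum_neg_distrib, ← h]
        exact Finset.sum_congr rfl fun i _ => by ring
      rw [← Nat.card_congr (Equiv.subtypeEquivRight hiff)]
      have hs : Function.Surjective (B v) := LinearMap.surjective fun h =>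
        hv (CfsgLib.Omega.sympBilin_nondegenerate v fun w => by rw [← hB, h, LinearMap.zero_apply])
      have h3 := LinearMap.finrank_range_add_finrank_ker (B v)
      rw [LinearMap.range_eq_top.2 hs, finrank_top, Module.finrank_self,
        Module.finrank_fintype_fun_eq_card] at h3
      simp only [Fintype.card_sum, Fintype.card_fin] at h3
      show Nat.card (LinearMap.ker (B v)) = _
      rw [Module.natCard_eq_pow_finrank (K := F), hn]
      congr 1
      omega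
    rw [h2, hn] at h1
    have hle : q ≤ q ^ 2 := Nat.le_self_pow two_ne_zero _
    have h4 : (q + 1) * (q ^ 2 - q) + q = q ^ 3 := by
      zify [hle]; ring
    have h5 : 0 < q ^ 2 - q := Nat.sub_pos_of_lt (lt_self_pow₀ (by omega) (by omega))
    exact Nat.eq_of_mul_eq_mul_right h5 (by omega)
  refine ⟨?_, hp⟩
  have h1 := CfsgLib.TILines.card_lines_mul
    (fun u w : Fin 2 ⊕ Fin 2 → F => Cfsg.sympForm 2 F u w = 0) (q + 1) (fun v hv _ => hp v hv)
  have h2 : Nat.card {v : Fin 2 ⊕ Fin 2 → F // v ≠ 0 ∧ Cfsg.sympForm 2 F v v = 0} = q ^ 4 - 1 := by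
    rw [Nat.card_congr (Equiv.subtypeEquivRight (fun v => (and_iff_left (h0 v)))),
      Nat.card_eq_fintype_card, Fintype.card_subtype_compl, Fintype.card_fun, hF,
      Fintype.card_subtype_eq]
    simp
  rw [h2, hn] at h1
  have h5 : 0 < q ^ 2 - 1 := Nat.sub_pos_of_lt (Nat.one_lt_pow two_ne_zero (by omega))
  refine Nat.eq_of_mul_eq_mul_right h5 (h1.trans ?_)
  have h6 : 1 ≤ q ^ 2 := Nat.one_le_pow _ _ (by omega)
  have h7 : 1 ≤ q ^ 4 := Nat.one_le_pow _ _ (by omega)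
  zify [h6, h7]
  ring

end Cfsg.Agent.S0828
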