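import Cfsg.Statements.S0831
import Cfsg.Agent.Lib.Parabolic.MaxSingular
import Cfsg.Agent.Lib.ClassicalForms.Ortho.Generation
-- import your own Cfsg.Agent.* helpers here

set_option autoImplicit false
open Cfsg

namespace Cfsg.Agent.S0831

/-- The two families of maximal totally singular subspaces of the hyperbolic quadric: for the form Σ x_i y_i on F^(2m), m ≥ 1, and m-dimensional subspaces U, W, X on which it vanishes, the parities of m − dim(U ∩ W), m − dim(W ∩ X) and m − dim(U ∩ X) sum to an even number (so 'even codimension of the intersection' is an equivalence relation), and there exist two such subspaces meeting in codimension 1 (so there are exactly two classes). -/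
theorem result {F : Type*} [Field F] (m : ℕ) (hm : 1 ≤ m) : (∀ U W X : Submodule F (Fin m ⊕ Fin m → F), (Module.finrank F U = m ∧ ∀ w ∈ U, Cfsg.quadFormPlus m F w = 0) → (Module.finrank F W = m ∧ ∀ w ∈ W, Cfsg.quadFormPlus m F w = 0) → (Module.finrank F X = m ∧ ∀ w ∈ X, Cfsg.quadFormPlus m F w = 0) → Even ((m - Module.finrank F ↥(U ⊓ W)) + (m - Module.finrank F ↥(W ⊓ X)) + (m - Module.finrank F ↥(U ⊓ X)))) ∧ ∃ U W : Submodule F (Fin m ⊕ Fin m → F), (Module.finrank F U = m ∧ ∀ w ∈ U, Cfsg.quadFormPlus m F w = 0) ∧ (Module.finrank F W = m ∧ ∀ w ∈ W, Cfsg.quadFormPlus m F w = 0) ∧ Module.finrank F ↥(U ⊓ W) + 1 = m := by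
  open CfsgLib.ClassicalForms CfsgLib.MaxSingular in
  obtain ⟨U, W, ⟨hU, hUm⟩, ⟨hW, hWm⟩, hUW⟩ := exists_adjacent (F := F) hm
  refine ⟨fun U W X hU hW hX => ?_, U, W, ⟨hUm, fun w hw => ?_⟩, ⟨hWm, fun w hw => ?_⟩, hUW⟩
  · open CfsgLib.ClassicalForms CfsgLib.MaxSingular in
    exact parity_sum (nondeg_qPlus m) (finrank_qPlus m) _ U W X
      (fun w hw => by rw [qPlus_apply]; exact hU.2 w hw) hU.1
      (fun w hw => by rw [qPlus_apply]; exact hW.2 w hw) hW.1
      (fun w hw => by rw [qPlus_apply]; exact hX.2 w hw) hX.1 rfl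
  · rw [← CfsgLib.ClassicalForms.qPlus_apply]; exact hU w hw
  · rw [← CfsgLib.ClassicalForms.qPlus_apply]; exact hW w hw

end Cfsg.Agent.S0831
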