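import Cfsg.Statements.S0832
import Cfsg.Agent.Lib.Parabolic.MaxSingular
import Cfsg.Agent.Lib.ClassicalForms.Ortho.Generation
-- import your own Cfsg.Agent.* helpers here

set_option autoImplicit false
open Cfsg

namespace Cfsg.Agent.S0832

/-- For the form Σ x_i y_i on F^(2m) over a finite field, m ≥ 1: an (m−1)-dimensional subspace on which the form vanishes is contained in exactly two m-dimensional subspaces on which it vanishes. -/
theorem result {F : Type*} [Field F] [Finite F] (m : ℕ) (hm : 1 ≤ m) (U : Submodule F (Fin m ⊕ Fin m → F)) (hU : Module.finrank F U + 1 = m ∧ ∀ u ∈ U, Cfsg.quadFormPlus m F u = 0) : Nat.card {W : Submodule F (Fin m ⊕ Fin m → F) // Module.finrank F W = m ∧ (∀ w ∈ W, Cfsg.quadFormPlus m F w = 0) ∧ U ≤ W} = 2 := by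
  open CfsgLib.ClassicalForms CfsgLib.MaxSingular in
  obtain ⟨W₁, W₂, hne, hiff⟩ := exactly_two (nondeg_qPlus (F := F) m) (finrank_qPlus m)
    (coordMap_spec (F := F) fun _ : Fin m => true).1 (coordMap_spec _).2
    (U := U) (fun w hw => by rw [qPlus_apply]; exact hU.2 w hw) hU.1
  refine (Nat.card_coe_set_eq {W : Submodule F (Fin m ⊕ Fin m → F) | Module.finrank F W = m ∧
    (∀ w ∈ W, Cfsg.quadFormPlus m F w = 0) ∧ U ≤ W}).trans ?_
  rw [show {W : Submodule F (Fin m ⊕ Fin m → F) | Module.finrank F W = m ∧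
    (∀ w ∈ W, Cfsg.quadFormPlus m F w = 0) ∧ U ≤ W} = {W₁, W₂} from ?_]
  · exact Set.ncard_pair hne
  ext W
  simp only [Set.mem_setOf_eq, Set.mem_insert_iff, Set.mem_singleton_iff, ← hiff W,
    CfsgLib.MaxSingular.TS, CfsgLib.ClassicalForms.qPlus_apply]

end Cfsg.Agent.S0832
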