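import Cfsg.Statements.S0833
import Cfsg.Agent.Lib.Forms.Symplectic

set_option autoImplicit false
open Cfsg

namespace Cfsg.Agent.S0833

open Module TensorProduct

lemma tmul_apply {F U W : Type*} [Field F] [AddCommGroup U] [Module F U] [AddCommGroup W]
    [Module F W] (B₁ : LinearMap.BilinForm F U) (B₂ : LinearMap.BilinForm F W) (u u' : U)
    (w w' : W) : (B₁.tmul B₂) (u ⊗ₜ[F] w) (u' ⊗ₜ[F] w') = B₁ u u' * B₂ w w' := by
  rw [LinearMap.BilinForm.tensorDistrib_tmul, smul_eq_mul, mul_comm]

/-- The partner index in a symplectic basis. -/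
def star {m : ℕ} : Fin m ⊕ Fin m → Fin m ⊕ Fin m := Sum.swap

lemma symp_apply {F V : Type*} [Field F] [AddCommGroup V] [Module F V]
    (B : LinearMap.BilinForm F V) (hA : B.IsAlt) {m : ℕ} (b : Basis (Fin m ⊕ Fin m) F V)
    (h1 : ∀ i j : Fin m, B (b (Sum.inl i)) (b (Sum.inr j)) = if i = j then 1 else 0)
    (h2 : ∀ i j : Fin m, B (b (Sum.inl i)) (b (Sum.inl j)) = 0)
    (h3 : ∀ i j : Fin m, B (b (Sum.inr i)) (b (Sum.inr j)) = 0) (i : Fin m ⊕ Fin m) :
    ∃ s : F, s ≠ 0 ∧ ∀ j, B (b j) (b (star i)) = if j = i then s else 0 := by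
  rcases i with i | i
  · refine ⟨1, one_ne_zero, fun j => ?_⟩
    rcases j with j | j
    · simp [star, h1]
    · simp [star, h3]
  · refine ⟨-1, neg_ne_zero.mpr one_ne_zero, fun j => ?_⟩
    rcases j with j | j
    · simp [star, h2]
    · rw [show star (Sum.inr i) = Sum.inl i from rfl, ← hA.neg_eq, h1]
      simp only [Sum.inr.injEq]
      by_cases h : i = j
      · subst h; simp
      · simp [h, Ne.symm h]

/-- If B₁, B₂ are non-degenerate alternating forms on U (dim 2k) and W (dim 2l), then B₁ ⊗ B₂ on U ⊗ W is symmetric, non-degenerate, and vanishes identically on some subspace of dimension 2kl (half of dim U ⊗ W). -/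
theorem result {F U W : Type*} [Field F] [Fintype F] [AddCommGroup U] [Module F U] [FiniteDimensional F U] [AddCommGroup W] [Module F W] [FiniteDimensional F W] (B₁ : LinearMap.BilinForm F U) (B₂ : LinearMap.BilinForm F W) (h₁ : B₁.Nondegenerate) (h₂ : B₂.Nondegenerate) (hA₁ : B₁.IsAlt) (hA₂ : B₂.IsAlt) (k l : ℕ) (hU : Module.finrank F U = 2 * k) (hW : Module.finrank F W = 2 * l) : (B₁.tmul B₂).IsSymm ∧ (B₁.tmul B₂).Nondegenerate ∧ (∃ X : Submodule F (TensorProduct F U W), Module.finrank F X = 2 * k * l ∧ ∀ x ∈ X, ∀ y ∈ X, (B₁.tmul B₂) x y = 0) := by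
  obtain ⟨m, b, e1, e2, e3⟩ := CfsgLib.Forms.exists_symplectic_basis B₁ h₁ hA₁
  obtain ⟨m', c, f1, f2, f3⟩ := CfsgLib.Forms.exists_symplectic_basis B₂ h₂ hA₂
  have hm : m = k := by
    have := Module.finrank_eq_card_basis b
    simp [hU] at this; omega
  have hm' : m' = l := by
    have := Module.finrank_eq_card_basis c
    simp [hW] at this; omega
  subst hm hm'
  have hsym : ∀ x y, (B₁.tmul B₂) x y = (B₁.tmul B₂) y x := by
    intro x y
    induction x using TensorProduct.induction_on with
    | zero => simp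
    | add a a' ha ha' => simp [ha, ha']
    | tmul u w =>
      induction y using TensorProduct.induction_on with
      | zero => simp
      | add a a' ha ha' => simp [ha, ha']
      | tmul u' w' => rw [tmul_apply, tmul_apply, ← hA₁.neg_eq, ← hA₂.neg_eq, neg_mul_neg]
  refine ⟨⟨hsym⟩, ?_, ?_⟩
  · obtain ⟨bb, hbb⟩ : ∃ bb, bb = b.tensorProduct c := ⟨_, rfl⟩
    have hbi : ∀ i j, bb (i, j) = b i ⊗ₜ[F] c j := fun i j => by rw [hbb, Basis.tensorProduct_apply]
    have key : ∀ x, (∀ y, (B₁.tmul B₂) x y = 0) → x = 0 := by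
      intro x hx
      refine bb.ext_elem fun ⟨i, j⟩ => ?_
      obtain ⟨s, hs, hsb⟩ := symp_apply B₁ hA₁ b e1 e2 e3 i
      obtain ⟨t, ht, htc⟩ := symp_apply B₂ hA₂ c f1 f2 f3 j
      have h := hx (b (star i) ⊗ₜ[F] c (star j))
      rw [← bb.sum_repr x, map_sum, LinearMap.sum_apply,
        Finset.sum_eq_single (i, j) (fun p _ hp => by
          obtain ⟨i', j'⟩ := p
          rw [map_smul, LinearMap.smul_apply, hbi, tmul_apply, hsb, htc]
          rw [Ne, Prod.mk.injEq, not_and_or] at hp
          rcases hp with hp | hp <;> simp [hp])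
          (fun h => absurd (Finset.mem_univ _) h),
        map_smul, LinearMap.smul_apply, hbi, tmul_apply, hsb, htc, if_pos rfl, if_pos rfl,
        smul_eq_mul] at h
      simpa using (mul_eq_zero.mp h).resolve_right (mul_ne_zero hs ht)
    exact ⟨key, fun y hy => key y fun x => by rw [hsym]; exact hy x⟩
  · obtain ⟨v, hv⟩ : ∃ v : Fin m × (Fin m' ⊕ Fin m') → TensorProduct F U W,
        ∀ p, v p = b (Sum.inl p.1) ⊗ₜ[F] c p.2 := ⟨_, fun p => rfl⟩
    have hli : LinearIndependent F v := by
      have h := (b.tensorProduct c).linearIndependent.comp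
        (fun p : Fin m × (Fin m' ⊕ Fin m') => ((Sum.inl p.1 : Fin m ⊕ Fin m), p.2))
        (fun p q h => by simpa [Prod.ext_iff] using h)
      have hv' : v = ⇑(b.tensorProduct c) ∘ fun p => ((Sum.inl p.1 : Fin m ⊕ Fin m), p.2) := by
        funext p
        rw [hv, Function.comp_apply, Basis.tensorProduct_apply]
      rw [hv']
      exact h
    refine ⟨Submodule.span F (Set.range v), ?_, ?_⟩
    · rw [finrank_span_eq_card hli]
      simp; ring
    · intro x hx y hy
      induction hx using Submodule.span_induction with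
      | zero => simp
      | add a a' _ _ ha ha' => simp [ha, ha']
      | smul r a _ ha => simp [ha]
      | mem x hx =>
        induction hy using Submodule.span_induction with
        | zero => simp
        | add a a' _ _ ha ha' => simp [ha, ha']
        | smul r a _ ha => simp [ha]
        | mem y hy =>
          obtain ⟨p, rfl⟩ := hx
          obtain ⟨q, rfl⟩ := hy
          rw [hv, hv, tmul_apply, e2, zero_mul]

end Cfsg.Agent.S0833
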