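import Cfsg.Statements.S0835
import Cfsg.Agent.Lib.Parabolic.TensorForms

set_option autoImplicit false
open Cfsg

namespace Cfsg.Agent.S0835

/-- Over a finite field with 2 ≠ 0: if B₁ on U (dim 2k, k ≥ 1) is non-degenerate symmetric of minus type (no totally isotropic k-subspace) and B₂ on W (dim 2l + 1) is non-degenerate symmetric, then B₁ ⊗ B₂ (dimension 2k(2l+1)) admits no totally isotropic subspace of dimension k(2l+1) (minus type). -/
theorem result {F U W : Type*} [Field F] [Fintype F] [AddCommGroup U] [Module F U] [FiniteDimensional F U] [AddCommGroup W] [Module F W] [FiniteDimensional F W] (h2 : (2 : F) ≠ 0) (B₁ : LinearMap.BilinForm F U) (B₂ : LinearMap.BilinForm F W) (h₁ : B₁.Nondegenerate) (h₂ : B₂.Nondegenerate) (hS₁ : B₁.IsSymm) (hS₂ : B₂.IsSymm) (k l : ℕ) (hk : 1 ≤ k) (hU : Module.finrank F U = 2 * k) (hW : Module.finrank F W = 2 * l + 1) (hm₁ : ¬ (∃ X : Submodule F (U), Module.finrank F X = k ∧ ∀ x ∈ X, ∀ y ∈ X,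 (B₁) x y = 0)) : ¬ (∃ X : Submodule F (TensorProduct F U W), Module.finrank F X = k * (2 * l + 1) ∧ ∀ x ∈ X, ∀ y ∈ X, (B₁.tmul B₂) x y = 0) := by
  obtain ⟨b, c, hS, hN, hdet⟩ := CfsgLib.DiagForms.exists_disc_tmul h2 h₁ h₂ hS₁ hS₂
  rintro ⟨X, hX, hiso⟩
  have hdim : Module.finrank F (TensorProduct F U W) = 2 * (k * (2 * l + 1)) := by
    rw [Module.finrank_tensorProduct, hU, hW]; ring
  obtain ⟨r, hr⟩ := CfsgLib.DiagForms.isSquare_disc_of_isotropic_half hS hdim (b.tensorProduct c) X hX hiso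
  rw [hdet] at hr
  refine hm₁ ((CfsgLib.DiagForms.exists_isotropic_half_iff h2 hS₁ h₁ hU b).mpr ?_)
  have hP0 := CfsgLib.DiagForms.det_ne_zero h₁ b
  have hP'0 := CfsgLib.DiagForms.det_ne_zero h₂ c
  generalize (LinearMap.BilinForm.toMatrix b B₁).det = P at *
  generalize (LinearMap.BilinForm.toMatrix c B₂).det = P' at *
  rw [hW, hU] at hr
  refine ⟨r / (((-1 : F) ^ k * P) ^ l * P' ^ k), ?_⟩
  rw [div_mul_div_comm, eq_div_iff, ← hr]
  · ring
  · have : ((-1 : F) ^ k * P) ^ l * P' ^ k ≠ 0 :=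
      mul_ne_zero (pow_ne_zero _ (mul_ne_zero (pow_ne_zero _ (neg_ne_zero.mpr one_ne_zero)) hP0))
        (pow_ne_zero _ hP'0)
    exact mul_ne_zero this this

end Cfsg.Agent.S0835
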