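import Cfsg.Statements.S0836

set_option autoImplicit false
open Cfsg

namespace Cfsg.Agent.S0836

open Matrix Matrix.SpecialLinearGroup in
lemma commutator_diag_transvection {F : Type*} [Field F] {ι : Type*} [Fintype ι] [DecidableEq ι]
    {i j : ι} (hij : i ≠ j) {a : F} (ha : a ≠ 0) (b : F) :
    diag2n hij a ha * Matrix.SpecialLinearGroup.transvection hij b =
      Matrix.SpecialLinearGroup.transvection hij (a * a * b) * diag2n hij a ha := by
  apply Subtype.ext
  ext k l
  rw [Matrix.SpecialLinearGroup.coe_mul, Matrix.SpecialLinearGroup.coe_mul, diag2n_coe]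
  simp only [Matrix.diagonal_mul, Matrix.mul_diagonal, transvection_coe]
  simp only [Matrix.add_apply, Matrix.one_apply, Matrix.single_apply]
  by_cases hk : k = i <;> by_cases hl : l = j
  · subst hk; subst hl
    simp [hij, hij.symm]
    field_simp
  all_goals (by_cases hkl : k = l <;> simp_all [eq_comm])

/-- For i ≠ j and any scalar c, the elementary transvection 1 + c E_ij is a commutator ⁅g, h⁆ of two elements of SL_n(F) provided n ≥ 3, or n = 2 and F contains x ≠ 0 with x² ≠ 1. -/
theorem result {F : Type*} [Field F] (n : ℕ) (hn : 3 ≤ n ∨ (n = 2 ∧ ∃ x : F, x ≠ 0 ∧ x ^ 2 ≠ 1)) (i j : Fin n) (hij : i ≠ j) (c : F) (t : Matrix.SpecialLinearGroup (Fin n) F) (ht : (t : Matrix (Fin n) (Fin n) F) = Matrix.transvection i j c) : t ∈ commutatorSet (Matrix.SpecialLinearGroup (Fin n) F) := by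
  have ht' : t = Matrix.SpecialLinearGroup.transvection hij c := Subtype.ext ht
  subst ht'
  rcases hn with hn | ⟨-, x, hx, hx2⟩
  · obtain ⟨k, hki, hkj⟩ : ∃ k : Fin n, k ≠ i ∧ k ≠ j := by
      by_contra h
      push_neg at h
      have hsub : (Finset.univ : Finset (Fin n)) ⊆ {i, j} := by
        intro k _
        rcases eq_or_ne k i with rfl | hk
        · simp
        · simp [h k hk]
      have := (Finset.card_le_card hsub).trans Finset.card_le_two
      simp at this
      omega
    refine ⟨Matrix.SpecialLinearGroup.transvection (Ne.symm hki) c,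
      Matrix.SpecialLinearGroup.transvection hkj 1, ?_⟩
    rw [commutatorElement_def, Matrix.SpecialLinearGroup.transvection_inv,
      Matrix.SpecialLinearGroup.transvection_inv]
    apply Subtype.ext
    simp [Matrix.SpecialLinearGroup.transvection_coe, mul_add, add_mul, ← Matrix.single_neg,
      Matrix.single_mul_single_same, Matrix.single_mul_single_of_ne, hij, hij.symm, hki, hki.symm,
      hkj, hkj.symm]
    abel
  · refine ⟨Matrix.SpecialLinearGroup.diag2n hij x hx,
      Matrix.SpecialLinearGroup.transvection hij (c / (x * x - 1)), ?_⟩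
    have hne : x * x - 1 ≠ 0 := sub_ne_zero.mpr (by rwa [pow_two] at hx2)
    rw [commutatorElement_def, commutator_diag_transvection, mul_assoc, mul_assoc,
      mul_inv_cancel_left, Matrix.SpecialLinearGroup.transvection_inv,
      ← Matrix.SpecialLinearGroup.transvection_add]
    congr 1
    field_simp
    ring

end Cfsg.Agent.S0836
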