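import Cfsg.Statements.S0837
import Cfsg.Agent.Lib.ClassicalForms.Unitary.Basic
import Cfsg.Agent.Lib.Forms.Hermitian
import Cfsg.Agent.Lib.Forms.UnitaryForm
-- import your own Cfsg.Agent.* helpers here

set_option autoImplicit false
open Cfsg

namespace Cfsg.Agent.S0837

open CfsgLib.ClassicalForms CfsgLib.Geometric in
lemma exists_split {F : Type*} [Field F] [Finite F] {q n k : ℕ} (c : Conj F q)
    (hk : k ≤ n) (W : Submodule F (Fin n → F)) (hWk : Module.finrank F W = k)
    (hW : ∀ u ∈ W, (∀ v ∈ W, Cfsg.hermForm n F q u v = 0) → u = 0) :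
    ∃ Φ : ((Fin k → F) × (Fin (n - k) → F)) ≃ₗ[F] (Fin n → F),
      (∀ z z', Cfsg.hermForm n F q (Φ z) (Φ z')
        = Cfsg.hermForm k F q z.1 z'.1 + Cfsg.hermForm (n - k) F q z.2 z'.2) ∧
      ∀ z, Φ z ∈ W ↔ z.2 = 0 := by
  classical
  set B := CfsgLib.Forms.hermBundled n c.σ with hB
  have hap : ∀ u v, B v u = Cfsg.hermForm n F q u v :=
    fun u v => CfsgLib.Forms.hermBundled_apply c.apply u v
  have hS := CfsgLib.Forms.hermBundled_isSymm (n := n) c.invol
  obtain ⟨a, haW, ha⟩ := CfsgLib.Forms.exists_orthonormal_family c.σ c.ne c.invol B hS k W hWk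
    fun w hw h => hW w hw fun v hv => by
      rw [← hap, ← hS.eq w v, h v hv, map_zero]
  set La : (Fin k → F) →ₗ[F] (Fin n → F) := Fintype.linearCombination F a with hLa
  have hLaW : ∀ x, La x ∈ W := fun x => by
    rw [hLa, Fintype.linearCombination_apply]
    exact Submodule.sum_mem _ fun i _ => W.smul_mem _ (haW i)
  -- the orthogonal space
  set Wp : Submodule F (Fin n → F) := LinearMap.ker (LinearMap.pi fun i => B (a i)) with hWp
  have hWpmem : ∀ x, x ∈ Wp ↔ ∀ i, B (a i) x = 0 := fun x => by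
    rw [hWp, LinearMap.mem_ker]
    exact ⟨fun h i => congrFun h i, fun h => funext h⟩
  have hBa : ∀ i x, B (a i) (La x) = x i := fun i x => by
    rw [hLa, Fintype.linearCombination_apply, map_sum, Finset.sum_eq_single i]
    · simp [ha]
    · intro j _ hj; simp [ha, Ne.symm hj]
    · simp
  have hdec : ∀ x, x - La (fun i => B (a i) x) ∈ Wp := fun x => (hWpmem _).2 fun i => by
    rw [map_sub, hBa, sub_self]
  have hWpd : Module.finrank F Wp = n - k := by
    have hs : Function.Surjective (LinearMap.pi fun i => B (a i) :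
        (Fin n → F) →ₗ[F] (Fin k → F)) := fun x => ⟨La x, funext fun i => hBa i x⟩
    have h := LinearMap.finrank_range_add_finrank_ker
      (LinearMap.pi fun i => B (a i) : (Fin n → F) →ₗ[F] (Fin k → F))
    rw [LinearMap.range_eq_top.2 hs, finrank_top, Module.finrank_fin_fun,
      Module.finrank_fin_fun] at h
    rw [hWp]; omega
  have hperp : ∀ w ∈ Wp, ∀ x, B w (La x) = 0 ∧ B (La x) w = 0 := fun w hw x => by
    have h2 : B (La x) w = 0 := by
      rw [hLa, Fintype.linearCombination_apply, map_sum, LinearMap.sum_apply]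
      refine Finset.sum_eq_zero fun i _ => ?_
      rw [map_smulₛₗ, LinearMap.smul_apply, (hWpmem w).1 hw i, smul_zero]
    exact ⟨by rw [← hS.eq (La x) w, h2, map_zero], h2⟩
  obtain ⟨b, hbW, hb⟩ := CfsgLib.Forms.exists_orthonormal_family c.σ c.ne c.invol B hS (n - k) Wp
    hWpd fun w hw h => (CfsgLib.Forms.hermBundled_nondegenerate (n := n) c.invol).1 w fun x => by
      rw [← sub_add_cancel x (La fun i => B (a i) x), map_add, h _ (hdec x), (hperp w hw _).1,
        add_zero]
  set Lb : (Fin (n - k) → F) →ₗ[F] (Fin n → F) := Fintype.linearCombination F b with hLb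
  have hLbW : ∀ x, Lb x ∈ Wp := fun x => by
    rw [hLb, Fintype.linearCombination_apply]
    exact Submodule.sum_mem _ fun i _ => Wp.smul_mem _ (hbW i)
  have hBb : ∀ i x, B (b i) (Lb x) = x i := fun i x => by
    rw [hLb, Fintype.linearCombination_apply, map_sum, Finset.sum_eq_single i]
    · simp [hb]
    · intro j _ hj; simp [hb, Ne.symm hj]
    · simp
  have hinj : Function.Injective (La.coprod Lb) := by
    rw [← LinearMap.ker_eq_bot, Submodule.eq_bot_iff]
    intro z hz
    rw [LinearMap.mem_ker, LinearMap.coprod_apply] at hz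
    refine Prod.ext (funext fun i => ?_) (funext fun i => ?_)
    · have := congrArg (B (a i)) hz
      rwa [map_add, hBa, (hWpmem _).1 (hLbW _) i, add_zero, map_zero] at this
    · have := congrArg (B (b i)) hz
      rwa [map_add, hBb, (hperp _ (hbW i) _).1, zero_add, map_zero] at this
  have hbij : Function.Bijective (La.coprod Lb) := ⟨hinj,
    (LinearMap.injective_iff_surjective_of_finrank_eq_finrank (by
      rw [Module.finrank_prod, Module.finrank_fin_fun, Module.finrank_fin_fun,
        Module.finrank_fin_fun]; omega)).1 hinj⟩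
  refine ⟨LinearEquiv.ofBijective (La.coprod Lb) hbij, fun z z' => ?_, fun z => ?_⟩
  · simp only [LinearEquiv.ofBijective_apply, LinearMap.coprod_apply, c.add_left, c.add_right]
    have h1 : Cfsg.hermForm n F q (La z.1) (La z'.1) = Cfsg.hermForm k F q z.1 z'.1 := by
      rw [← hap, hLa, Fintype.linearCombination_apply F a z'.1, map_sum, LinearMap.sum_apply,
        c.herm_apply]
      refine Finset.sum_congr rfl fun i _ => ?_
      rw [map_smulₛₗ, LinearMap.smul_apply, hBa, smul_eq_mul, mul_comm]
    have h2 : Cfsg.hermForm n F q (Lb z.2) (Lb z'.2) = Cfsg.hermForm (n - k) F q z.2 z'.2 := by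
      rw [← hap, hLb, Fintype.linearCombination_apply F b z'.2, map_sum, LinearMap.sum_apply,
        c.herm_apply]
      refine Finset.sum_congr rfl fun i _ => ?_
      rw [map_smulₛₗ, LinearMap.smul_apply, hBb, smul_eq_mul, mul_comm]
    rw [h1, h2, show Cfsg.hermForm n F q (La z.1) (Lb z'.2) = 0 from
        (hap _ _).symm.trans (hperp _ (hLbW _) _).1,
      show Cfsg.hermForm n F q (Lb z.2) (La z'.1) = 0 from
        (hap _ _).symm.trans (hperp _ (hLbW _) _).2]
    ring
  · simp only [LinearEquiv.ofBijective_apply, LinearMap.coprod_apply]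
    refine ⟨fun h => ?_, fun h => by rw [h, map_zero, add_zero]; exact hLaW _⟩
    have h' : Lb z.2 ∈ W := by simpa using W.sub_mem h (hLaW z.1)
    have h0 : Lb z.2 = 0 := by
      refine hW _ h' fun v hv => ?_
      have hspan : v = La (fun i => B (a i) v) := by
        have h3 : v - La (fun i => B (a i) v) ∈ W := W.sub_mem hv (hLaW _)
        have h4 : v - La (fun i => B (a i) v) = 0 := by
          by_contra hne
          -- a nonzero vector of `W` orthogonal to an orthonormal family spanning `W`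
          have hsurj : LinearMap.range La = W := by
            refine Submodule.eq_of_le_of_finrank_eq (by rintro _ ⟨x, rfl⟩; exact hLaW x) ?_
            rw [LinearMap.finrank_range_of_inj (fun x y e => funext fun i => by
              rw [← hBa i x, ← hBa i y, e]), Module.finrank_fin_fun, hWk]
          obtain ⟨x, hx⟩ := hsurj.ge h3
          apply hne
          have hx0 : x = 0 := funext fun i => by
            rw [← hBa i x, hx, (hWpmem _).1 (hdec v) i, Pi.zero_apply]
          rw [← hx, hx0, map_zero]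
        exact sub_eq_zero.1 h4
      rw [hspan, ← hap]
      exact (hperp _ (hLbW _) _).2
    funext i
    rw [← hBb i z.2, h0, map_zero, Pi.zero_apply]


/-- If W ≤ F^n (|F| = q²) is a k-dimensional subspace on which the Hermitian form Σ x_i y_i^q is non-degenerate, then the stabiliser of W in GU_n(q) is isomorphic to GU_k(q) × GU_(n−k)(q). -/
theorem result {F : Type*} [Field F] [Fintype F] {q : ℕ} (hF : Fintype.card F = q ^ 2) (n k : ℕ) (hk : k ≤ n) (W : Submodule F (Fin n → F)) (hWk : Module.finrank F W = k) (hW : ∀ u ∈ W, (∀ v ∈ W, Cfsg.hermForm n F q u v = 0) → u = 0) : Nonempty (↥((Cfsg.stabilizing (Cfsg.glToMat (Fin n) F) (W : Set (Fin n → F))).subgroupOf (Cfsg.GU n F q)) ≃* ↥(Cfsg.GU k F q) × ↥(Cfsg.GU (n - k) F q)) := by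
  classical
  obtain ⟨c⟩ := CfsgLib.ClassicalForms.exists_conj (F := F) (q := q)
    (by rw [Nat.card_eq_fintype_card, hF])
  obtain ⟨Φ, hΦ, hΦW⟩ := exists_split c hk W hWk hW
  open CfsgLib.Geometric in
  let fwd : Cfsg.GU k F q × Cfsg.GU (n - k) F q → Cfsg.GU n F q := fun p =>
    CfsgLib.ClassicalForms.guOfEquiv
      ((Φ.symm.trans ((Matrix.GeneralLinearGroup.toLin (p.1 : GL (Fin k) F)).toLinearEquiv.prodCongr
        (Matrix.GeneralLinearGroup.toLin (p.2 : GL (Fin (n - k)) F)).toLinearEquiv)).trans Φ)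
      (fun u v => by
        obtain ⟨u, rfl⟩ := Φ.surjective u
        obtain ⟨v, rfl⟩ := Φ.surjective v
        simp only [LinearEquiv.trans_apply, LinearEquiv.symm_apply_apply, hΦ]
        rw [← p.1.2 u.1 v.1, ← p.2.2 u.2 v.2]
        rfl)
  open CfsgLib.Geometric in
  have hfwd : ∀ p z, ap (fwd p : GL (Fin n) F) (Φ z)
      = Φ (ap (p.1 : GL (Fin k) F) z.1, ap (p.2 : GL (Fin (n - k)) F) z.2) := by
    intro p z
    simp only [fwd]
    rw [CfsgLib.ClassicalForms.ap_guOfEquiv]
    simp only [LinearEquiv.trans_apply, LinearEquiv.symm_apply_apply]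
    rfl
  open CfsgLib.Geometric in
  let Ψ : Cfsg.GU k F q × Cfsg.GU (n - k) F q →*
      (Cfsg.stabilizing (Cfsg.glToMat (Fin n) F) (W : Set (Fin n → F))).subgroupOf (Cfsg.GU n F q) :=
    MonoidHom.mk' (fun p => ⟨fwd p, by
      rw [Subgroup.mem_subgroupOf]
      intro x
      obtain ⟨z, rfl⟩ := Φ.surjective x
      show Φ z ∈ W ↔ ap (fwd p : GL (Fin n) F) (Φ z) ∈ W
      rw [hfwd, hΦW, hΦW]
      refine ⟨fun h => by rw [h]; simp [ap], fun h => ?_⟩
      have := congrArg (ap (p.2⁻¹ : Cfsg.GU (n - k) F q).1) h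
      rw [← ap_mul, ← Subgroup.coe_mul, inv_mul_cancel, Subgroup.coe_one, ap_one] at this
      rw [this]; simp [ap]⟩)
      (fun p p' => Subtype.ext (CfsgLib.ClassicalForms.gu_ext fun x => by
        obtain ⟨z, rfl⟩ := Φ.surjective x
        show ap (fwd (p * p') : GL (Fin n) F) (Φ z)
          = ap ((fwd p : GL (Fin n) F) * (fwd p' : GL (Fin n) F)) (Φ z)
        rw [ap_mul, hfwd, hfwd, hfwd]
        simp [ap_mul]))
  refine ⟨(MulEquiv.ofBijective Ψ ⟨?_, ?_⟩).symm⟩
  · intro p p' h
    open CfsgLib.Geometric in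
    have key : ∀ z, ap (fwd p : GL (Fin n) F) (Φ z) = ap (fwd p' : GL (Fin n) F) (Φ z) := fun z => by
      rw [show fwd p = fwd p' from congrArg Subtype.val h]
    refine Prod.ext (CfsgLib.ClassicalForms.gu_ext fun x => ?_)
      (CfsgLib.ClassicalForms.gu_ext fun y => ?_)
    · have h1 := key (x, 0)
      rw [hfwd, hfwd] at h1
      exact congrArg Prod.fst (Φ.injective h1)
    · have h1 := key (0, y)
      rw [hfwd, hfwd] at h1
      exact congrArg Prod.snd (Φ.injective h1)
  · open CfsgLib.Geometric in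
    intro g
    have hg : ∀ x, x ∈ W ↔ ap ((g : Cfsg.GU n F q) : GL (Fin n) F) x ∈ W := g.2
    set G : GL (Fin n) F := ((g : Cfsg.GU n F q) : GL (Fin n) F) with hG
    have hGh : ∀ u v, Cfsg.hermForm n F q (ap G u) (ap G v) = Cfsg.hermForm n F q u v := (g : Cfsg.GU n F q).2
    set L := ((Φ.trans (Matrix.GeneralLinearGroup.toLin G).toLinearEquiv).trans Φ.symm) with hL
    have hLap : ∀ z, Φ (L z) = ap G (Φ z) := fun z => by
      simp only [hL, LinearEquiv.trans_apply, LinearEquiv.apply_symm_apply]; rfl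
    have hh : ∀ z z', Cfsg.hermForm k F q (L z).1 (L z').1 + Cfsg.hermForm (n - k) F q (L z).2 (L z').2
        = Cfsg.hermForm k F q z.1 z'.1 + Cfsg.hermForm (n - k) F q z.2 z'.2 := fun z z' => by
      rw [← hΦ, ← hΦ, hLap, hLap, hGh]
    have h1 : ∀ x, (L (x, 0)).2 = 0 := fun x =>
      (hΦW _).1 (by rw [hLap]; exact (hg _).1 ((hΦW _).2 rfl))
    have h2 : ∀ y, (L (0, y)).1 = 0 := fun y => c.ext_right fun v => by
      obtain ⟨z, hz⟩ := L.surjective (v, 0)
      have hz2 : z.2 = 0 := by
        refine (hΦW z).1 ((hg _).2 ?_)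
        rw [← hLap, hz]
        exact (hΦW _).2 rfl
      have := hh (0, y) z
      rw [hz, hz2] at this
      simpa [c.zero_left, c.zero_right] using this
    let A : (Fin k → F) →ₗ[F] (Fin k → F) :=
      (LinearMap.fst F _ _).comp (L.toLinearMap.comp (LinearMap.inl F _ _))
    let C : (Fin (n - k) → F) →ₗ[F] (Fin (n - k) → F) :=
      (LinearMap.snd F _ _).comp (L.toLinearMap.comp (LinearMap.inr F _ _))
    have hA : Function.Injective A := by
      rw [← LinearMap.ker_eq_bot, Submodule.eq_bot_iff]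
      intro x hx
      have : L (x, 0) = L 0 := by
        rw [map_zero]; exact Prod.ext hx (h1 x)
      exact congrArg Prod.fst (L.injective this)
    have hC : Function.Injective C := by
      rw [← LinearMap.ker_eq_bot, Submodule.eq_bot_iff]
      intro y hy
      have : L (0, y) = L 0 := by
        rw [map_zero]; exact Prod.ext (h2 y) hy
      exact congrArg Prod.snd (L.injective this)
    refine ⟨(CfsgLib.ClassicalForms.guOfEquiv (LinearEquiv.ofInjectiveEndo A hA) (fun u v => by
        have := hh (u, 0) (v, 0)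
        simp only [h1, c.zero_left, add_zero] at this
        simpa [A] using this),
      CfsgLib.ClassicalForms.guOfEquiv (LinearEquiv.ofInjectiveEndo C hC) (fun u v => by
        have := hh (0, u) (0, v)
        simp only [h2, c.zero_left, zero_add] at this
        simpa [C] using this)), ?_⟩
    refine Subtype.ext (CfsgLib.ClassicalForms.gu_ext fun x => ?_)
    obtain ⟨z, rfl⟩ := Φ.surjective x
    show ap (fwd _ : GL (Fin n) F) (Φ z) = ap G (Φ z)
    rw [hfwd, ← hLap]
    congr 1
    rw [CfsgLib.ClassicalForms.ap_guOfEquiv, CfsgLib.ClassicalForms.ap_guOfEquiv]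
    have hz : L z = L (z.1, 0) + L (0, z.2) := by rw [← map_add, Prod.mk_add_mk, add_zero, zero_add]
    refine Prod.ext ?_ ?_
    · rw [hz, Prod.fst_add, h2, add_zero]; rfl
    · rw [hz, Prod.snd_add, h1, zero_add]; rfl

end Cfsg.Agent.S0837
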