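import Cfsg.Statements.S0838
import Cfsg.Agent.Lib.Parabolic.DiagForms

set_option autoImplicit false
open Cfsg

namespace Cfsg.Agent.S0838

/-- Over a finite field with 2 ≠ 0 and n odd: two quadratic forms Q₁, Q₂ on F^n with non-degenerate polar forms are similar — there are an invertible linear map g and a scalar c ≠ 0 with Q₂ (g v) = c · Q₁ v for all v. -/
theorem result {F : Type*} [Field F] [Fintype F] (h2 : (2 : F) ≠ 0) {n : ℕ} (hn : Odd n) (Q₁ Q₂ : QuadraticForm F (Fin n → F)) (h₁ : (QuadraticMap.polarBilin Q₁).Nondegenerate) (h₂ : (QuadraticMap.polarBilin Q₂).Nondegenerate) : ∃ (g : (Fin n → F) ≃ₗ[F] (Fin n → F)) (c : F), c ≠ 0 ∧ ∀ v, Q₂ (g v) = c * Q₁ v := by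
  obtain ⟨d₁, hd₁⟩ : ∃ d, d = (LinearMap.BilinForm.toMatrix (Pi.basisFun F (Fin n))
    (QuadraticMap.polarBilin Q₁)).det := ⟨_, rfl⟩
  obtain ⟨d₂, hd₂⟩ : ∃ d, d = (LinearMap.BilinForm.toMatrix (Pi.basisFun F (Fin n))
    (QuadraticMap.polarBilin Q₂)).det := ⟨_, rfl⟩
  have hd₁0 : d₁ ≠ 0 := hd₁ ▸ CfsgLib.DiagForms.det_ne_zero h₁ _
  have hd₂0 : d₂ ≠ 0 := hd₂ ▸ CfsgLib.DiagForms.det_ne_zero h₂ _
  have hc : d₁ * d₂ ≠ 0 := mul_ne_zero hd₁0 hd₂0
  obtain ⟨B, hB⟩ : ∃ B : LinearMap.BilinForm F (Fin n → F),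
      B = (d₁ * d₂) • QuadraticMap.polarBilin Q₁ := ⟨_, rfl⟩
  have hmat : (LinearMap.BilinForm.toMatrix (Pi.basisFun F (Fin n)) B).det = (d₁ * d₂) ^ n * d₁ := by
    rw [hB, map_smul, Matrix.det_smul, Fintype.card_fin, hd₁]
  have hBn : B.Nondegenerate := by
    rw [LinearMap.BilinForm.nondegenerate_iff_det_ne_zero (Pi.basisFun F (Fin n)), hmat]
    exact mul_ne_zero (pow_ne_zero _ hc) hd₁0
  have hBs : B.IsSymm := ⟨fun x y => by
    rw [hB]; simp [QuadraticMap.polar_comm]⟩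
  obtain ⟨e, he⟩ := CfsgLib.DiagForms.isometric_of_isSquare h2 hBs hBn
    (⟨fun x y => QuadraticMap.polar_comm _ x y⟩ : LinearMap.BilinForm.IsSymm (QuadraticMap.polarBilin Q₂))
    h₂ (Pi.basisFun F (Fin n)) (Pi.basisFun F (Fin n)) rfl (by
      rw [hmat, ← hd₂]
      obtain ⟨k, rfl⟩ := hn
      exact ⟨(d₁ * d₂) ^ (k + 1), by ring⟩)
  refine ⟨e, d₁ * d₂, hc, fun v => ?_⟩
  have h := he v v
  rw [hB] at h
  simp only [LinearMap.smul_apply, QuadraticMap.polarBilin_apply_apply, QuadraticMap.polar_self,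
    smul_eq_mul, two_nsmul] at h
  refine mul_left_cancel₀ h2 ?_
  linear_combination h

end Cfsg.Agent.S0838
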