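import Cfsg.Statements.S0840
import Cfsg.Agent.Lib.CharTheory.Degree

set_option autoImplicit false
set_option linter.style.haveILetI false
open scoped ComplexConjugate
open Cfsg

namespace Cfsg.Agent.S0840

theorem classSum_mul {G : Type*} [Group G] [Fintype G] (χ : IrrCharacter G) (a c : G)
    [DecidablePred (IsConj a)] :
    ∑ x ∈ Finset.univ.filter (IsConj a), (χ : G → ℂ) (x * c)
      = (Nat.card {x : G // IsConj a x} : ℂ) * (χ : G → ℂ) a * (χ : G → ℂ) c / (χ : G → ℂ) 1 := by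
  classical
  obtain ⟨n, ρ, hρ, hchar⟩ := χ.2
  obtain ⟨k, -, hk, hkdeg⟩ := CfsgLib.CharTheory.exists_classSum_eq_smul ρ a
  have h1 : (χ : G → ℂ) 1 ≠ 0 := CfsgLib.CharTheory.apply_one_ne_zero_of_isIrr χ.2
  rw [← hchar] at h1 ⊢
  have hsum : ∑ x ∈ Finset.univ.filter (IsConj a), ρ.character (x * c) = k * ρ.character c := by
    simp only [Representation.character, map_mul]
    rw [← map_sum, ← Finset.sum_mul]
    rw [show (∑ x ∈ Finset.univ.filter (IsConj a), ρ x) = k • LinearMap.id by convert hk]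
    rw [smul_mul_assoc, map_smul, smul_eq_mul]
    rfl
  rw [hsum, CfsgLib.CharTheory.card_isConj, ← hkdeg, Representation.char_one]
  rw [Representation.char_one] at h1
  field_simp

theorem result {G : Type*} [Group G] [Finite G] (a b c : G) : (Nat.card {p : G × G // IsConj a p.1 ∧ IsConj b p.2 ∧ p.1 * p.2 = c} : ℂ) = (Nat.card {x : G // IsConj a x} : ℂ) * (Nat.card {x : G // IsConj b x} : ℂ) / (Nat.card G : ℂ) * ∑ᶠ χ : Cfsg.IrrCharacter G, (χ : G → ℂ) a * (χ : G → ℂ) b * conj ((χ : G → ℂ) c) / (χ : G → ℂ) 1 := by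
  classical
  letI : Fintype G := Fintype.ofFinite G
  letI : Fintype (IrrCharacter G) := Fintype.ofFinite _
  rw [finsum_eq_sum_of_fintype]
  have hcount : Nat.card {p : G × G // IsConj a p.1 ∧ IsConj b p.2 ∧ p.1 * p.2 = c}
      = ((Finset.univ.filter (IsConj a)).filter fun x => IsConj b (x⁻¹ * c)).card := by
    rw [Finset.filter_filter, ← Fintype.card_subtype, ← Nat.card_eq_fintype_card]
    exact Nat.card_congr
      { toFun := fun p => ⟨p.1.1, p.2.1, by
          rw [inv_mul_eq_iff_eq_mul.mpr p.2.2.2.symm]; exact p.2.2.1⟩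
        invFun := fun x => ⟨(x.1, x.1⁻¹ * c), x.2.1, x.2.2, mul_inv_cancel_left _ _⟩
        left_inv := fun p => Subtype.ext (Prod.ext rfl
          (inv_mul_eq_iff_eq_mul.mpr p.2.2.2.symm))
        right_inv := fun x => rfl }
  set Bc := Nat.card (Subgroup.centralizer ({b} : Set G)) with hBc
  have hB : (Bc : ℂ) * (Nat.card {x : G // IsConj b x} : ℂ) = Nat.card G := by
    rw [hBc, CfsgLib.CharTheory.card_isConj]
    exact_mod_cast Subgroup.card_mul_index _
  have hBc0 : (Bc : ℂ) ≠ 0 := Nat.cast_ne_zero.2 Nat.card_pos.ne'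
  have hG0 : (Nat.card G : ℂ) ≠ 0 := Nat.cast_ne_zero.2 Nat.card_pos.ne'
  have key : (Bc : ℂ) * (Nat.card {p : G × G // IsConj a p.1 ∧ IsConj b p.2 ∧ p.1 * p.2 = c} : ℂ)
      = ∑ χ : IrrCharacter G, (χ : G → ℂ) b * ∑ x ∈ Finset.univ.filter (IsConj a),
          conj ((χ : G → ℂ) (x⁻¹ * c)) := by
    simp only [Finset.mul_sum]
    rw [Finset.sum_comm]
    simp only [CfsgLib.CharTheory.sum_mul_conj]
    rw [Finset.sum_congr rfl (g := fun x : G => if IsConj b (x⁻¹ * c) then
        (Nat.card (Subgroup.centralizer ({b} : Set G)) : ℂ) else 0) (fun x _ => by congr 1),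
      ← Finset.sum_filter]
    rw [Finset.sum_const, nsmul_eq_mul, hcount, hBc]
    ring
  have hterm : ∀ χ : IrrCharacter G,
      (χ : G → ℂ) b * ∑ x ∈ Finset.univ.filter (IsConj a), conj ((χ : G → ℂ) (x⁻¹ * c))
        = (Nat.card {x : G // IsConj a x} : ℂ) *
          ((χ : G → ℂ) a * (χ : G → ℂ) b * conj ((χ : G → ℂ) c) / (χ : G → ℂ) 1) := by
    intro χ
    have h2 : ∀ x : G, conj ((χ : G → ℂ) (x⁻¹ * c)) = (χ : G → ℂ) (x * c⁻¹) := by
      intro x
      rw [← CfsgLib.CharTheory.IsIrrCharacter.inv χ.2, mul_inv_rev, inv_inv]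
      have := CfsgLib.CharTheory.IsIrrCharacter.isClassFunction χ.2 (c⁻¹ * x) x
      rw [← this]
      group
    simp only [h2]
    rw [classSum_mul χ a c⁻¹, CfsgLib.CharTheory.IsIrrCharacter.inv χ.2]
    ring
  rw [Finset.sum_congr rfl fun χ _ => hterm χ, ← Finset.mul_sum] at key
  apply mul_left_cancel₀ hBc0
  rw [key, ← mul_assoc]
  congr 1
  rw [← hB]
  have hne : (Nat.card {x : G // IsConj b x} : ℂ) ≠ 0 := by
    intro h0
    rw [h0, mul_zero] at hB
    exact hG0 hB.symm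
  field_simp

end Cfsg.Agent.S0840
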