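import Cfsg.Statements.S0841
import Mathlib.Tactic.Ring

set_option autoImplicit false
open Cfsg

namespace Cfsg.Agent.S0841

theorem result {G : Type*} [Group G] (hG : commutator G ≤ Subgroup.center G) (x y : G) (n : ℕ) : (x * y) ^ n = x ^ n * y ^ n * (y⁻¹ * x⁻¹ * y * x) ^ (n * (n - 1) / 2) := by
  set c := y⁻¹ * x⁻¹ * y * x with hc
  have hcz : c ∈ Subgroup.center G := by
    apply hG
    rw [commutator_def]
    simpa [commutatorElement_def, hc, mul_assoc] using
      Subgroup.commutator_mem_commutator (Subgroup.mem_top y⁻¹) (Subgroup.mem_top x⁻¹)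
  have hcomm : ∀ g : G, g * c = c * g := fun g => Subgroup.mem_center_iff.1 hcz g
  have hcpow : ∀ (g : G) (k : ℕ), g * c ^ k = c ^ k * g := fun g k => (Commute.pow_right (hcomm g) k).eq
  have hyx : y * x = x * y * c := by simp [hc, mul_assoc]
  have hyn : ∀ k : ℕ, y ^ k * x = x * y ^ k * c ^ k := by
    intro k
    induction k with
    | zero => simp
    | succ k ih =>
      calc y ^ (k + 1) * x = y ^ k * (y * x) := by rw [pow_succ, mul_assoc]
        _ = (y ^ k * x) * (y * c) := by rw [hyx]; simp only [mul_assoc]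
        _ = x * y ^ k * (c ^ k * y * c) := by rw [ih]; simp only [mul_assoc]
        _ = x * y ^ k * (y * c ^ (k + 1)) := by rw [← hcpow y k, pow_succ]; simp only [mul_assoc]
        _ = x * y ^ (k + 1) * c ^ (k + 1) := by rw [pow_succ y]; simp only [mul_assoc]
  induction n with
  | zero => simp
  | succ n ih =>
    have hT : (n + 1) * (n + 1 - 1) / 2 = n + n * (n - 1) / 2 := by
      have h1 : (n + 1) * (n + 1 - 1) = n * 2 + n * (n - 1) := by
        cases n with
        | zero => rfl
        | succ k => simp only [Nat.add_sub_cancel]; ring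
      rw [h1, Nat.add_comm, Nat.add_mul_div_right _ _ two_pos, Nat.add_comm]
    rw [hT, pow_succ, ih]
    set T := n * (n - 1) / 2
    calc x ^ n * y ^ n * c ^ T * (x * y) = x ^ n * y ^ n * (x * y * c ^ T) := by
          rw [hcpow (x * y) T]; simp only [mul_assoc]
      _ = x ^ n * (y ^ n * x) * (y * c ^ T) := by simp only [mul_assoc]
      _ = x ^ n * x * y ^ n * (c ^ n * y) * c ^ T := by rw [hyn]; simp only [mul_assoc]
      _ = x ^ (n + 1) * y ^ (n + 1) * c ^ (n + T) := by
          rw [← hcpow y n, pow_succ, pow_succ, pow_add]; simp only [mul_assoc]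

end Cfsg.Agent.S0841
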