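import Cfsg.Statements.S0850
import Cfsg.Agent.Lib.Frobenius.Induce
import Mathlib.GroupTheory.Sylow
import Mathlib.GroupTheory.PGroup

set_option autoImplicit false
open Cfsg

namespace Cfsg.Agent.S0850

theorem coprime_card_index {G : Type*} [Group G] [Finite G] (K : Subgroup G)
    (hC : ∀ k ∈ K, k ≠ 1 → Subgroup.centralizer ({k} : Set G) ≤ K) :
    Nat.Coprime (Nat.card K) K.index := by
  refine Nat.coprime_of_dvd fun q hq hqK hqi => ?_
  have := Fact.mk hq
  obtain ⟨y, hy⟩ := exists_prime_orderOf_dvd_card' q hqK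
  have hyG : orderOf (y : G) = q := by rwa [Subgroup.orderOf_coe]
  have hy1 : (y : G) ≠ 1 := fun h => hq.ne_one (by rw [← hyG, h, orderOf_one])
  have hp : IsPGroup q (Subgroup.zpowers (y : G)) :=
    IsPGroup.of_card (n := 1) (by rw [Nat.card_zpowers, hyG, pow_one])
  obtain ⟨Q, hQ⟩ := hp.exists_le_sylow
  have hyQ : (y : G) ∈ Q := hQ (Subgroup.mem_zpowers _)
  have : Nontrivial Q := ⟨⟨⟨y, hyQ⟩, 1, fun h => hy1 (congrArg Subtype.val h)⟩⟩
  have := Q.2.center_nontrivial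
  obtain ⟨⟨z, hz⟩, hz1⟩ := exists_ne (1 : Subgroup.center Q)
  have hzc : ∀ w : G, w ∈ Q → w * z = z * w := fun w hw =>
    congrArg Subtype.val (Subgroup.mem_center_iff.1 hz ⟨w, hw⟩)
  have hz1' : (z : G) ≠ 1 := fun h => hz1 (Subtype.ext (Subtype.ext h))
  have hzK : (z : G) ∈ K := hC y y.2 hy1 (Subgroup.mem_centralizer_singleton_iff.2 (hzc y hyQ).symm)
  have hQK : (Q : Subgroup G) ≤ K := fun w hw =>
    hC z hzK hz1' (Subgroup.mem_centralizer_singleton_iff.2 (hzc w hw))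
  exact Q.not_dvd_index (hqi.trans (Subgroup.index_dvd_of_le hQK))

theorem result {G : Type*} [Group G] [Fintype G] (K : Subgroup G) (hTI : ∀ g : G, g ∉ Subgroup.normalizer (K : Set G) → ∀ k ∈ K, g * k * g⁻¹ ∈ K → k = 1) (hlt : K < Subgroup.normalizer (K : Set G)) (hC : ∀ k ∈ K, k ≠ 1 → Subgroup.centralizer ({k} : Set G) ≤ K) : (∀ x ∈ Subgroup.normalizer (K : Set G), x ∉ K → ∀ g : G, g * x * g⁻¹ ∉ K) ∧ ∀ (ϑ : Subgroup.normalizer (K : Set G) → ℂ), Cfsg.IsClassFunction (Subgroup.normalizer (K : Set G)) ϑ → (∀ x : Subgroup.normalizer (K : Set G), (x : G) ∉ K → ϑ x = 0) → ϑ 1 = 0 → ∀ x : Subgroup.normalizer (K : Set G), Cfsg.indFun (Subgroup.normalizer (K : Set G)) ϑ x = ϑ x := by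
  classical
  set N := Subgroup.normalizer (K : Set G) with hN
  have hKN : K ≤ N := hlt.le
  have part1 : ∀ x ∈ N, x ∉ K → ∀ g : G, g * x * g⁻¹ ∉ K := by
    intro x hx hxK g hgx
    have : (K.subgroupOf N).Normal := Subgroup.normal_in_normalizer
    have h1 : orderOf x ∣ Nat.card K := by
      have : orderOf (g * x * g⁻¹) ∣ Nat.card K := Subgroup.orderOf_dvd_natCard K hgx
      have he : orderOf (g * x * g⁻¹) = orderOf x := by
        rw [← MulAut.conj_apply, MulEquiv.orderOf_eq]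
      rwa [he] at this
    let xb : N ⧸ K.subgroupOf N := QuotientGroup.mk ⟨x, hx⟩
    have h2 : orderOf xb ∣ K.index :=
      (orderOf_dvd_natCard xb).trans (Subgroup.relIndex_dvd_index_of_le hKN)
    have h3 : orderOf xb ∣ Nat.card K := by
      refine dvd_trans ?_ h1
      have := orderOf_map_dvd (QuotientGroup.mk' (K.subgroupOf N)) (⟨x, hx⟩ : N)
      rwa [Subgroup.orderOf_mk] at this
    have h4 : orderOf xb = 1 :=
      Nat.eq_one_of_dvd_coprimes (coprime_card_index K hC) h3 h2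
    rw [orderOf_eq_one_iff, QuotientGroup.eq_one_iff, Subgroup.mem_subgroupOf] at h4
    exact hxK h4
  refine ⟨part1, fun ϑ hϑ hv h1 x => ?_⟩
  refine CfsgLib.Frobenius.indFun_coe_of_vanish N ϑ hϑ x fun g hg => ?_
  by_cases hm : g⁻¹ * x * g ∈ N
  swap
  · exact CfsgLib.Frobenius.extendByZero_of_not_mem N ϑ hm
  rw [CfsgLib.Frobenius.extendByZero_of_mem N ϑ hm]
  by_cases hk : g⁻¹ * x * g ∈ K
  swap
  · exact hv _ hk
  by_cases hxK : (x : G) ∈ K
  · have h0 : g⁻¹ * x * g = 1 := hTI g hg _ hk (by simpa [mul_assoc] using hxK)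
    rw [show (⟨g⁻¹ * x * g, hm⟩ : N) = 1 from Subtype.ext h0, h1]
  · exact absurd (by simpa using hk) (part1 x x.2 hxK g⁻¹)

end Cfsg.Agent.S0850
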