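import Cfsg.Statements.S0851
import Cfsg.Agent.Lib.Coherence.TIFN
import Cfsg.Agent.Lib.Frobenius.Exceptional
import Cfsg.Agent.Lib.CharTheory.Ito

set_option autoImplicit false
set_option linter.style.haveILetI false
open Cfsg CfsgLib.CharTheory CfsgLib.CyclicTI CfsgLib.CyclicTI.Frob CfsgLib.Coherence.TIFN

namespace Cfsg.Agent.S0851

theorem result {G : Type*} [Group G] [Fintype G] (K : Subgroup G) (hTI : ∀ g : G, g ∉ Subgroup.normalizer (K : Set G) → ∀ k ∈ K, g * k * g⁻¹ ∈ K → k = 1) (hlt : K < Subgroup.normalizer (K : Set G)) (hC : ∀ k ∈ K, k ≠ 1 → Subgroup.centralizer ({k} : Set G) ≤ K) (hab : ∀ a ∈ K, ∀ b ∈ K, a * b = b * a) : (Nat.card {χ : Cfsg.IrrCharacter (Subgroup.normalizer (K : Set G)) // ∃ k : Subgroup.normalizer (K : Set G), (k : G) ∈ K ∧ (χ : ↥(Subgroup.normalizer (K : Set G)) → ℂ) k ≠ (χ : ↥(Subgroup.normalizer (K : Set G)) → ℂ) 1} = 1 ∧ ∃ p : ℕ, p.Prime ∧ Cfsg.IsElementaryAbelian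 p K ∧ Nat.card K = (K.subgroupOf (Subgroup.normalizer (K : Set G))).index + 1) ∨ ∃ (ε : ℂ) (f : {χ : Cfsg.IrrCharacter (Subgroup.normalizer (K : Set G)) // ∃ k : Subgroup.normalizer (K : Set G), (k : G) ∈ K ∧ (χ : ↥(Subgroup.normalizer (K : Set G)) → ℂ) k ≠ (χ : ↥(Subgroup.normalizer (K : Set G)) → ℂ) 1} → Cfsg.IrrCharacter G), (ε = 1 ∨ ε = -1) ∧ Function.Injective f ∧ ∀ χ ξ, Cfsg.indFun (Subgroup.normalizer (K : Set G)) ((χ.1 : ↥(Subgroup.normalizer (K : Set G)) → ℂ) - (ξ.1 : ↥(Subgroup.normalizer (K : Set G)) → ℂ)) = ε • ((f χ : G → ℂ) - (f ξ : G → ℂ)) := by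
  classical
  refine Or.inr ?_
  rcases isEmpty_or_nonempty {χ : Cfsg.IrrCharacter (Subgroup.normalizer (K : Set G)) // ∃ k : Subgroup.normalizer (K : Set G), (k : G) ∈ K ∧ (χ : ↥(Subgroup.normalizer (K : Set G)) → ℂ) k ≠ (χ : ↥(Subgroup.normalizer (K : Set G)) → ℂ) 1} with h | h
  · exact ⟨1, isEmptyElim, Or.inl rfl, fun a => isEmptyElim a, fun a => isEmptyElim a⟩
  letI : Fintype ↥(Subgroup.normalizer (K : Set G)) := Fintype.ofFinite _
  set H := K.subgroupOf (Subgroup.normalizer (K : Set G)) with hH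
  have hKC := kernelCond hC
  have hmem : ∀ χ : {χ : Cfsg.IrrCharacter (Subgroup.normalizer (K : Set G)) // ∃ k : Subgroup.normalizer (K : Set G), (k : G) ∈ K ∧ (χ : ↥(Subgroup.normalizer (K : Set G)) → ℂ) k ≠ (χ : ↥(Subgroup.normalizer (K : Set G)) → ℂ) 1}, (χ.1 : ↥(Subgroup.normalizer (K : Set G)) → ℂ) ∈ charSet H := fun χ => by
    rw [hH, charSet_eq_setOf]
    exact ⟨χ.1.2, χ.2⟩
  have hdeg : ∀ χ ∈ charSet H, (χ : ↥(Subgroup.normalizer (K : Set G)) → ℂ) 1 = (H.index : ℂ) := by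
    intro χ hχ
    rw [charSet_eq hKC] at hχ
    obtain ⟨θ, hθ, -, -, rfl⟩ := hχ
    rw [indFun_one_eq, apply_one_eq_one_of_comm (fun a b => Subtype.ext (Subtype.ext
      (hab _ (Subgroup.mem_subgroupOf.1 a.2) _ (Subgroup.mem_subgroupOf.1 b.2)))) hθ, mul_one]
  obtain ⟨ε, hε, θ, hθ, hinj, hsub⟩ := CfsgLib.Frobenius.exists_exceptional
    (Subgroup.normalizer (K : Set G)) (K : Set G)
    (fun x hx s hs hsx => hTI x⁻¹ (fun h' => hx (by simpa using (Subgroup.normalizer (K : Set G)).inv_mem h'))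
      s hs (by simpa using hsx))
    (fun χ : {χ : Cfsg.IrrCharacter (Subgroup.normalizer (K : Set G)) // ∃ k : Subgroup.normalizer (K : Set G), (k : G) ∈ K ∧ (χ : ↥(Subgroup.normalizer (K : Set G)) → ℂ) k ≠ (χ : ↥(Subgroup.normalizer (K : Set G)) → ℂ) 1} => (χ.1 : ↥(Subgroup.normalizer (K : Set G)) → ℂ))
    (fun χ => χ.1.2) (fun a b hab' => Subtype.ext (Subtype.ext hab'))
    (fun a b x hx => by
      have hxH : x ∉ H := fun h' => hx (Subgroup.mem_subgroupOf.1 h')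
      rw [eq_zero_off hKC (hmem a) hxH, eq_zero_off hKC (hmem b) hxH])
    (fun a b => by rw [hdeg _ (hmem a), hdeg _ (hmem b)])
  refine ⟨ε, fun χ => ⟨θ χ, hθ χ⟩, hε, fun a b hab' => hinj (congrArg Subtype.val hab'),
    fun a b => ?_⟩
  rw [CfsgLib.Frobenius.indFun_sub]
  exact hsub a b

end Cfsg.Agent.S0851
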