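import Cfsg.Statements.S0852
import Cfsg.Agent.Lib.Coherence.TIFN

set_option autoImplicit false
set_option linter.style.haveILetI false
open Cfsg CfsgLib.CharTheory

namespace Cfsg.Agent.S0852

theorem result {G : Type*} [Group G] [Fintype G] (K : Subgroup G) (hTI : ∀ g : G, g ∉ Subgroup.normalizer (K : Set G) → ∀ k ∈ K, g * k * g⁻¹ ∈ K → k = 1) (hlt : K < Subgroup.normalizer (K : Set G)) (hC : ∀ k ∈ K, k ≠ 1 → Subgroup.centralizer ({k} : Set G) ≤ K) [Fintype ↥(Subgroup.normalizer (K : Set G))] (S : Set (↥(Subgroup.normalizer (K : Set G)) → ℂ)) (hS : S = {χ : ↥(Subgroup.normalizer (K : Set G)) → ℂ | Cfsg.IsIrrCharacter ↥(Subgroup.normalizer (K : Set G)) χ ∧ ∃ k : ↥(Subgroup.normalizer (K : Set G)), (k : G) ∈ K ∧ χ k ≠ χ 1}) (htwo : ∃ χ ∈ S, ∃ ξ ∈ S, χ ≠ ξ) (star : (↥(Subgroup.normalizer (K : Set G)) → ℂ) → (G → ℂ)) (hstar : Cfsg.IsLinearIsometryOn (Cfsg.zspan S) star) (hext : ∀ α ∈ Cfsg.zspanOn S ({1}ᶜ : Set ↥(Subgroup.normalizer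 (K : Set G))), star α = Cfsg.indFun (Subgroup.normalizer (K : Set G)) α) (ψ : G → ℂ) (hψ : Cfsg.IsIrrCharacter G ψ) : (∃ χ ∈ S, ψ = star χ ∨ ψ = -star χ) ↔ ∃ a ∈ K, ∃ b ∈ K, a ≠ 1 ∧ b ≠ 1 ∧ ψ a ≠ ψ b := by
  classical
  subst hS
  rw [← CfsgLib.Coherence.TIFN.charSet_eq_setOf] at hstar hext htwo ⊢
  set H := K.subgroupOf (Subgroup.normalizer (K : Set G)) with hH
  have hKC := CfsgLib.Coherence.TIFN.kernelCond hC
  set T := (CfsgLib.Coherence.TIFN.finite_charSet (H := H)).toFinset with hTdef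
  obtain ⟨C, hval⟩ := CfsgLib.Coherence.TIFN.apply_of_gen hC hstar hext
    (CfsgLib.CyclicTI.gen_of_irr hψ) T (Set.Finite.coe_toFinset _)
  constructor
  · rintro ⟨χ, hχ, hψχ⟩
    obtain ⟨C', hshift⟩ := CfsgLib.Coherence.TIFN.exists_shift hC hstar hext hχ
    obtain ⟨a, ha, b, hb, ha1, hb1, hne⟩ :=
      CfsgLib.Coherence.TIFN.not_const_off_one hKC htwo hχ
    refine ⟨a, Subgroup.mem_subgroupOf.1 ha, b, Subgroup.mem_subgroupOf.1 hb,
      fun h => ha1 (Subtype.ext h), fun h => hb1 (Subtype.ext h), fun h => hne ?_⟩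
    have h' : star χ (a : G) = star χ (b : G) := by
      rcases hψχ with e | e
      · rw [← e]; exact h
      · rw [e] at h; simpa using h
    rw [hshift a (Subgroup.mem_subgroupOf.1 ha) ha1, hshift b (Subgroup.mem_subgroupOf.1 hb) hb1]
      at h'
    exact add_right_cancel h'
  · rintro ⟨a, ha, b, hb, ha1, hb1, hne⟩
    by_contra hno
    push Not at hno
    have hz : ∀ χ ∈ T, classInner ψ (star χ) = 0 := fun χ hχ => by
      rw [hTdef, Set.Finite.mem_toFinset] at hχ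
      obtain ⟨h1, h2⟩ := hno χ hχ
      have hgen := hstar.2.2.2 _ (Submodule.subset_span hχ)
      have hn : classInner (star χ) (star χ) = 1 := by
        rw [CfsgLib.Coherence.TIFN.inner_map hstar hχ hχ, if_pos rfl]
      rcases exists_sign_irr_of_norm_one hgen hn with h | h
      · exact classInner_eq_zero_of_ne hψ h h1
      · have h3 := classInner_eq_zero_of_ne hψ h h2
        rw [CfsgLib.CyclicTI.inner_neg_right, neg_eq_zero] at h3
        exact h3
    have hKN : K ≤ Subgroup.normalizer (K : Set G) := hlt.le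
    have ea := hval ⟨a, hKN ha⟩ ha (fun h => ha1 (congrArg Subtype.val h))
    have eb := hval ⟨b, hKN hb⟩ hb (fun h => hb1 (congrArg Subtype.val h))
    rw [Finset.sum_eq_zero fun χ hχ => by rw [hz χ hχ, zero_mul], zero_add] at ea eb
    exact hne (ea.trans eb.symm)

end Cfsg.Agent.S0852
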