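import Cfsg.Statements.S0855
import Cfsg.Agent.Lib.CharTheory.Ito
import Cfsg.Agent.Lib.CharTheory.Degree
import Cfsg.Agent.Lib.Clifford.Extension

set_option autoImplicit false
set_option linter.style.haveILetI false
open Cfsg CfsgLib.CharTheory CfsgLib.Clifford

namespace Cfsg.Agent.S0855

universe u

/-- All irreducible degrees are powers of `p`. -/
def PPowDegrees (p : ℕ) (G : Type u) [Group G] : Prop :=
  ∀ χ : IrrCharacter G, ∃ k : ℕ, (χ : G → ℂ) 1 = (p : ℂ) ^ k

theorem eq_one_of_ne {G : Type u} [Group G] [Finite G] {p : ℕ} (hp : p.Prime) (h : PPowDegrees p G)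
    (hperf : commutator G = ⊤) (g : G) : g = 1 := by
  classical
  letI : Fintype G := Fintype.ofFinite G
  letI : Fintype (IrrCharacter G) := Fintype.ofFinite _
  by_contra hg
  have hsum := sum_degree_mul g
  rw [if_neg hg, ← Finset.add_sum_erase _ _ (Finset.mem_univ (trivIrr G))] at hsum
  simp only [trivIrr_apply, one_mul] at hsum
  have hone : ∀ χ : IrrCharacter G, (χ : G → ℂ) 1 = 1 → χ = trivIrr G := fun χ h1 => by
    obtain ⟨μ, hμ⟩ := exists_hom_of_degree_one χ.2 h1
    refine Subtype.ext (funext fun x => ?_)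
    rw [hμ, trivIrr_apply]
    have : commutator G ≤ μ.ker := Abelianization.commutator_subset_ker μ
    rw [hperf] at this
    show (μ x : ℂ) = 1
    rw [MonoidHom.mem_ker.1 (this (Subgroup.mem_top x)), Units.val_one]
  have hdiv : ∀ χ ∈ Finset.univ.erase (trivIrr G), ∃ z : ℂ, IsIntegral ℤ z ∧
      (χ : G → ℂ) 1 * (χ : G → ℂ) g = (p : ℂ) * z := fun χ hχ => by
    obtain ⟨k, hk⟩ := h χ
    cases k with
    | zero => exact absurd (hone χ (by rw [hk, pow_zero])) (Finset.mem_erase.1 hχ).1
    | succ j =>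
      refine ⟨(p : ℂ) ^ j * (χ : G → ℂ) g, ?_, by rw [hk, pow_succ]; ring⟩
      exact ((isIntegral_algebraMap (R := ℤ) (A := ℂ) (x := (p : ℤ))).pow j).mul
        (IsCharacter.isIntegral (IsIrrCharacter.isCharacter χ.2) g)
  choose! z hz hzv using hdiv
  rw [Finset.sum_congr rfl hzv, ← Finset.mul_sum] at hsum
  have hint : IsIntegral ℤ ((1 : ℕ) / (p : ℂ)) := by
    have : ((1 : ℕ) : ℂ) / (p : ℂ) = -∑ χ ∈ Finset.univ.erase (trivIrr G), z χ := by
      rw [div_eq_iff (Nat.cast_ne_zero.2 hp.ne_zero), Nat.cast_one, neg_mul]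
      linear_combination hsum
    rw [this]
    exact (IsIntegral.sum _ hz).neg
  exact hp.ne_one (Nat.dvd_one.1 (dvd_of_isIntegral_natCast_div hp.ne_zero hint))

theorem exists_over {G : Type u} [Group G] [Fintype G] (N : Subgroup G) [Fintype N]
    (θ : IrrCharacter N) :
    ∃ χ : IrrCharacter G, classInner (fun n : N => (χ : G → ℂ) n) (θ : N → ℂ) ≠ 0 := by
  classical
  letI : Fintype (IrrCharacter G) := Fintype.ofFinite _
  by_contra hc
  push Not at hc
  have h := congrFun (eq_sum_classInner (CfsgLib.Frobenius.indFun_isClassFunction N (θ : N → ℂ))) 1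
  have h0 : ∀ χ : IrrCharacter G, classInner (indFun N (θ : N → ℂ)) (χ : G → ℂ) = 0 := fun χ => by
    rw [CfsgLib.Frobenius.classInner_indFun N _ _ (IsIrrCharacter.isClassFunction χ.2),
      classInner_conj_symm, hc χ, map_zero]
  simp only [h0, zero_smul, Finset.sum_const_zero, Pi.zero_apply,
    CfsgLib.Frobenius.indFun_one] at h
  exact mul_ne_zero (Nat.cast_ne_zero.2 Subgroup.index_ne_zero_of_finite)
    (apply_one_ne_zero_of_isIrr θ.2) h

theorem degree_data {G : Type u} [Group G] [Fintype G] (N : Subgroup G) [N.Normal] [Fintype N]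
    {p : ℕ} (hp : p.Prime) (h : PPowDegrees p G) (θ : IrrCharacter N) :
    ∃ d : ℕ, (θ : N → ℂ) 1 = d ∧ ∃ k : ℕ, (inertia N (θ : N → ℂ)).index * d ∣ p ^ k := by
  classical
  obtain ⟨χ, hχ⟩ := exists_over N θ
  obtain ⟨k, hk⟩ := h χ
  obtain ⟨d, -, hd⟩ := exists_degree_of_isIrr θ.2
  obtain ⟨a, ha⟩ := IsCharacter.exists_classInner_eq_nat
    (CfsgLib.Coherence.isCharacter_comp (IsIrrCharacter.isCharacter χ.2) N.subtype) θ
  have h1 := apply_one_eq N χ.2 θ.2 hχ
  rw [hk, show classInner (fun n : N => (χ : G → ℂ) n) (θ : N → ℂ) = (a : ℂ) from ha,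
    card_conjOrbit N _ (inertia N (θ : N → ℂ)) (mem_inertia N _), hd] at h1
  refine ⟨d, hd, k, ⟨a, ?_⟩⟩
  have h2 : p ^ k = a * (inertia N (θ : N → ℂ)).index * d := by exact_mod_cast h1
  rw [h2]; ring

theorem ppow_normal {G : Type u} [Group G] [Finite G] {p : ℕ} (hp : p.Prime) (h : PPowDegrees p G)
    (N : Subgroup G) [N.Normal] : PPowDegrees p N := fun θ => by
  classical
  letI : Fintype G := Fintype.ofFinite G
  letI : Fintype N := Fintype.ofFinite _
  obtain ⟨d, hd, k, hk⟩ := degree_data N hp h θ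
  obtain ⟨j, -, hj⟩ := (Nat.dvd_prime_pow hp).1 (dvd_trans (dvd_mul_left d _) hk)
  exact ⟨j, by rw [hd, hj, Nat.cast_pow]⟩

theorem mem_iff_coprime {G : Type u} [Group G] [Finite G] {p k : ℕ} (A : Subgroup G) [A.Normal]
    (hA : Nat.Coprime (Nat.card A) p) (hk : A.index = p ^ k) (x : G) :
    x ∈ A ↔ Nat.Coprime (orderOf x) p := by
  refine ⟨fun hx => hA.coprime_dvd_left (A.orderOf_dvd_natCard hx), fun hx => ?_⟩
  have h1 : orderOf (QuotientGroup.mk x : G ⧸ A) ∣ orderOf x := orderOf_map_dvd (QuotientGroup.mk' A) x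
  have h2 : orderOf (QuotientGroup.mk x : G ⧸ A) ∣ p ^ k := hk ▸ orderOf_dvd_natCard _
  exact (QuotientGroup.eq_one_iff x).1 (orderOf_eq_one_iff.1
    (Nat.eq_one_of_dvd_coprimes (hx.pow_right k) h1 h2))

/-- A normal `p`-complement of a normal subgroup is normal. -/
theorem map_normal {G : Type u} [Group G] [Finite G] {p k : ℕ} (M : Subgroup G) [M.Normal]
    (A : Subgroup M) [A.Normal] (hA : Nat.Coprime (Nat.card A) p) (hk : A.index = p ^ k) :
    (A.map M.subtype).Normal := by
  refine ⟨?_⟩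
  rintro _ ⟨a, ha, rfl⟩ g
  refine ⟨MulAut.conjNormal g a, (mem_iff_coprime A hA hk _).2 ?_, MulAut.conjNormal_apply g a⟩
  rw [MulEquiv.orderOf_eq]
  exact (mem_iff_coprime A hA hk a).1 ha

theorem comm_of_ppow_of_coprime {G : Type u} [Group G] [Finite G] {p : ℕ} (hp : p.Prime)
    (h : PPowDegrees p G) (hG : Nat.Coprime (Nat.card G) p) : commutator G = ⊥ := by
  classical
  letI : Fintype G := Fintype.ofFinite G
  letI : Fintype (IrrCharacter G) := Fintype.ofFinite _
  have h1 : ∀ χ : IrrCharacter G, (χ : G → ℂ) 1 = 1 := fun χ => by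
    obtain ⟨d, -, hdvd, hd⟩ := IsIrrCharacter.exists_degree_dvd χ.2
    obtain ⟨k, hk⟩ := h χ
    have hdk : d = p ^ k := by rw [hd] at hk; exact_mod_cast hk
    cases k with
    | zero => simp [hk]
    | succ j =>
      exact absurd (Nat.eq_one_of_dvd_coprimes hG.symm dvd_rfl
        ((dvd_pow_self p j.succ_ne_zero).trans (hdk ▸ hdvd))) hp.ne_one
  have hc := card_linear (G := G)
  rw [Nat.card_congr (Equiv.subtypeUnivEquiv h1)] at hc
  have hs := sum_degree_sq (G := G)
  simp only [h1, one_pow, Finset.sum_const, Finset.card_univ, nsmul_eq_mul, mul_one,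
    Fintype.card_eq_nat_card] at hs
  have hs' : Nat.card (IrrCharacter G) = Nat.card G := by exact_mod_cast hs
  rw [hs', ← (commutator G).card_mul_index] at hc
  refine Subgroup.card_eq_one.1 ?_
  exact Nat.eq_of_mul_eq_mul_right (Nat.pos_of_ne_zero Subgroup.index_ne_zero_of_finite)
    (hc.trans (one_mul _).symm)

theorem exists_complement {p : ℕ} (hp : p.Prime) (n : ℕ) :
    ∀ (G : Type u) [Group G] [Finite G], Nat.card G = n → PPowDegrees p G →
      ∃ A : Subgroup G, A.Normal ∧ (∀ a ∈ A, ∀ b ∈ A, a * b = b * a) ∧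
        Nat.Coprime (Nat.card A) p ∧ ∃ k : ℕ, A.index = p ^ k := by
  induction n using Nat.strong_induction_on with
  | _ n ih =>
  intro G _ _ hn h
  classical
  by_cases hperf : commutator G = ⊤
  · have h1 := eq_one_of_ne hp h hperf
    haveI : Subsingleton G := ⟨fun a b => by rw [h1 a, h1 b]⟩
    exact ⟨⊤, inferInstance, fun a _ b _ => Subsingleton.elim _ _,
      by rw [Nat.card_eq_one_iff_unique.2 ⟨inferInstance, inferInstance⟩]; exact Nat.coprime_one_left p,
      0, by simp⟩
  haveI hNn : (commutator G).Normal := inferInstance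
  let Q := G ⧸ commutator G
  haveI : IsMulCommutative Q := inferInstanceAs (IsMulCommutative (Abelianization G))
  set m := ordCompl[p] (commutator G).index with hm
  set a := (commutator G).index.factorization p with ha
  have hidx : p ^ a * m = (commutator G).index := Nat.ordProj_mul_ordCompl_eq_self _ _
  have hcomm : ∀ x y : Q, x * y = y * x := fun x y => IsMulCommutative.is_comm.comm x y
  let M : Subgroup G :=
    { carrier := {g | (g : Q) ^ m = 1}
      one_mem' := one_pow m
      mul_mem' := fun {x y} hx hy => by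
        have hx' : (x : Q) ^ m = 1 := hx
        have hy' : (y : Q) ^ m = 1 := hy
        show ((x * y : G) : Q) ^ m = 1
        rw [QuotientGroup.mk_mul, Commute.mul_pow (hcomm _ _), hx', hy', one_mul]
      inv_mem' := fun {x} hx => by
        have hx' : (x : Q) ^ m = 1 := hx
        show ((x⁻¹ : G) : Q) ^ m = 1
        rw [QuotientGroup.mk_inv, inv_pow, hx', inv_one] }
  have hMn : M.Normal := ⟨fun x hx g => by
    show ((g * x * g⁻¹ : G) : Q) ^ m = 1
    rw [QuotientGroup.mk_mul, QuotientGroup.mk_mul, QuotientGroup.mk_inv, hcomm (g : Q),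
      mul_inv_cancel_right]
    exact hx⟩
  haveI := Fact.mk hp
  have hMidx : ∃ j, M.index = p ^ j := by
    refine IsPGroup.exists_card_eq (G := G ⧸ M) fun q => ?_
    obtain ⟨g, rfl⟩ := QuotientGroup.mk_surjective q
    refine ⟨a, ?_⟩
    rw [← QuotientGroup.mk_pow, QuotientGroup.eq_one_iff]
    show ((g ^ p ^ a : G) : Q) ^ m = 1
    rw [QuotientGroup.mk_pow, ← pow_mul, hidx]
    exact pow_card_eq_one'
  by_cases hMtop : M = ⊤
  swap
  · have hlt : Nat.card M < n := by
      rw [← hn, ← M.index_mul_card]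
      exact lt_mul_of_one_lt_left Nat.card_pos (M.one_lt_index_of_ne_top hMtop)
    obtain ⟨A, hAn, hAc, hAp, k, hAk⟩ := ih _ hlt M rfl (ppow_normal hp h M)
    obtain ⟨j, hj⟩ := hMidx
    refine ⟨A.map M.subtype, map_normal M A hAp hAk, ?_, ?_, k + j, ?_⟩
    · rintro _ ⟨x, hx, rfl⟩ _ ⟨y, hy, rfl⟩
      exact congrArg Subtype.val (hAc x hx y hy)
    · rwa [Subgroup.card_map_of_injective M.subtype_injective]
    · rw [Subgroup.index_map_subtype, hAk, hj, pow_add]
  -- the quotient by the commutator has order prime to `p`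
  have hcop : Nat.Coprime (commutator G).index p := by
    refine Nat.Coprime.symm (hp.coprime_iff_not_dvd.2 fun hd => ?_)
    obtain ⟨q, hq⟩ := exists_prime_orderOf_dvd_card' (G := Q) p hd
    obtain ⟨g, rfl⟩ := QuotientGroup.mk_surjective q
    have hg : (g : Q) ^ m = 1 := (hMtop ▸ Subgroup.mem_top g : g ∈ M)
    have h1 := orderOf_dvd_of_pow_eq_one hg
    rw [hq] at h1
    exact Nat.not_dvd_ordCompl hp Subgroup.index_ne_zero_of_finite h1
  have hlt : Nat.card (commutator G) < n := by
    rw [← hn, ← (commutator G).index_mul_card]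
    exact lt_mul_of_one_lt_left Nat.card_pos ((commutator G).one_lt_index_of_ne_top hperf)
  obtain ⟨A, hAn, hAc, hAp, k, hAk⟩ := ih _ hlt (commutator G) rfl (ppow_normal hp h _)
  have hA : A = ⊤ := by
    by_contra hne
    haveI : Nontrivial ((commutator G) ⧸ A) := by
      rw [QuotientGroup.nontrivial_iff]
      exact hne
    have hP : IsPGroup p ((commutator G) ⧸ A) := IsPGroup.of_card hAk
    haveI : Group.IsNilpotent ((commutator G) ⧸ A) := hP.isNilpotent
    have hne2 : commutator ((commutator G) ⧸ A) ≠ ⊤ := fun htop => by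
      obtain ⟨i, hi⟩ := Subgroup.nilpotent_iff_lowerCentralSeries.1
        ‹Group.IsNilpotent ((commutator G) ⧸ A)›
      have : ∀ i, (⊤ : Subgroup ((commutator G) ⧸ A)).lowerCentralSeries i = ⊤ := fun i => by
        induction i with
        | zero => rfl
        | succ i hi => rw [Subgroup.lowerCentralSeries_succ, hi, ← commutator_def, htop]
      exact top_ne_bot ((this i).symm.trans hi)
    haveI : Nontrivial (Abelianization ((commutator G) ⧸ A)) :=
      QuotientGroup.nontrivial_iff.2 hne2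
    obtain ⟨x, hx⟩ := exists_ne (1 : Abelianization ((commutator G) ⧸ A))
    haveI : Finite (Abelianization ((commutator G) ⧸ A)) :=
      inferInstanceAs (Finite (((commutator G) ⧸ A) ⧸ commutator ((commutator G) ⧸ A)))
    obtain ⟨φ, hφ⟩ := CommGroup.exists_apply_ne_one_of_hasEnoughRootsOfUnity _ ℂ hx
    obtain ⟨y, rfl⟩ := QuotientGroup.mk_surjective x
    obtain ⟨z, rfl⟩ := QuotientGroup.mk_surjective y
    let lam : commutator G →* ℂˣ := (φ.comp Abelianization.of).comp (QuotientGroup.mk' A)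
    have hlam : lam ≠ 1 := fun h1 => hφ (DFunLike.congr_fun h1 z)
    letI : Fintype G := Fintype.ofFinite G
    letI : Fintype (commutator G) := Fintype.ofFinite _
    obtain ⟨d, -, j, hj⟩ := degree_data (commutator G) hp h
      ⟨linFun lam, isIrrCharacter_linear lam⟩
    have hT : inertia (commutator G) (linFun lam) = ⊤ := by
      rw [← Subgroup.index_eq_one]
      refine Nat.eq_one_of_dvd_coprimes (hcop.pow_right j) ?_ (dvd_trans (dvd_mul_right _ _) hj)
      exact Subgroup.index_dvd_of_le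
        (le_inertia _ (IsIrrCharacter.isClassFunction (isIrrCharacter_linear lam)))
    have hord : orderOf lam ∣ p ^ k := orderOf_dvd_of_pow_eq_one (MonoidHom.ext fun w => by
      rw [MonoidHom.pow_apply, ← map_pow]
      show φ (Abelianization.of ((QuotientGroup.mk' A) (w ^ p ^ k))) = 1
      rw [QuotientGroup.mk'_apply, (QuotientGroup.eq_one_iff _).2 (hAk ▸ A.pow_index_mem w), map_one,
        map_one])
    obtain ⟨μ, ⟨hμ, -⟩, -⟩ := exists_unique_extension_linear (lam := lam)
      (fun g n => Units.ext (congrFun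
        ((mem_inertia (commutator G) (linFun lam) g).1 (hT ▸ Subgroup.mem_top g)) n :))
      ((hcop.pow_right k).coprime_dvd_right hord)
    refine hlam (MonoidHom.ext fun w => ?_)
    rw [← hμ w]
    exact MonoidHom.mem_ker.1 (Abelianization.commutator_subset_ker μ w.2)
  subst hA
  rw [Subgroup.card_top] at hAp
  have hG : Nat.Coprime (Nat.card G) p := by
    rw [← (commutator G).card_mul_index]
    exact hAp.mul_left hcop
  have hbot := comm_of_ppow_of_coprime hp h hG
  refine ⟨⊤, inferInstance, fun x _ y _ => ?_, by rwa [Subgroup.card_top], 0, by simp⟩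
  have hxy : x * y * x⁻¹ * y⁻¹ ∈ commutator G := by
    rw [commutator_def]
    exact Subgroup.commutator_mem_commutator (Subgroup.mem_top x) (Subgroup.mem_top y)
  rw [hbot, Subgroup.mem_bot, mul_inv_eq_one, mul_inv_eq_iff_eq_mul] at hxy
  exact hxy

theorem result {G : Type*} [Group G] [Finite G] (p : ℕ) (hp : p.Prime) : (∀ χ : Cfsg.IrrCharacter G, ∃ k : ℕ, (χ : G → ℂ) 1 = (p : ℂ) ^ k) ↔ ∃ A : Subgroup G, A.Normal ∧ (∀ a ∈ A, ∀ b ∈ A, a * b = b * a) ∧ Nat.Coprime (Nat.card A) p ∧ ∃ k : ℕ, A.index = p ^ k := by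
  constructor
  · exact fun h => exists_complement hp _ G rfl h
  · rintro ⟨A, hAn, hAc, -, k, hk⟩ χ
    obtain ⟨d, hd, hdvd⟩ := exists_degree_dvd_index_of_abelian χ.2 A hAc
    obtain ⟨j, -, hj⟩ := (Nat.dvd_prime_pow hp).1 (hk ▸ hdvd)
    exact ⟨j, by rw [hd, hj, Nat.cast_pow]⟩

end Cfsg.Agent.S0855
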