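import Cfsg.Statements.S0857
import Cfsg.Agent.Lib.Clifford.Basic
import Cfsg.Agent.Lib.CharTheory.Ito
import Cfsg.Agent.Lib.CharTheory.Linear

set_option autoImplicit false
set_option linter.style.haveILetI false
open Cfsg CfsgLib.CharTheory CfsgLib.Clifford CfsgLib.Frobenius
open scoped ComplexConjugate

namespace Cfsg.Agent.S0857

section Aux

variable {K : Type*} [Group K] [Fintype K] (L : Subgroup K) [hL : L.Normal] [Fintype L]
  {ϑ : K → ℂ} {φ : L → ℂ}

/-- If only `L` fixes the constituent, the restriction is the sum of the orbit. -/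
theorem res_eq_sum_of_inertia (hϑ : IsIrrCharacter K ϑ) (hφ : IsIrrCharacter L φ)
    (h0 : classInner (fun x : L => ϑ x) φ ≠ 0)
    (hT : ∀ k : K, k ∈ L ↔ conjChar L φ k = φ) :
    (fun x : L => ϑ x) = ∑ η ∈ conjOrbit L φ, η := by
  obtain ⟨ψ, hψ, -, hmult⟩ := exists_indFun_inertia_eq hφ hT le_rfl hϑ h0
  have hψφ : ψ = φ := by
    by_contra hne
    exact h0 (hmult.symm.trans (classInner_eq_zero_of_ne hψ hφ hne))
  have h1 : classInner (fun x : L => ϑ x) φ = 1 := by
    rw [← hmult, hψφ]
    exact classInner_self_of_isIrr hφ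
  have h := res_eq L hϑ hφ h0
  rwa [h1, one_smul] at h

/-- If `ϑ` vanishes off `L`, the square of the multiplicity is the index. -/
theorem sq_eq_index (hϑ : IsIrrCharacter K ϑ) (hφ : IsIrrCharacter L φ) {e : ℕ}
    (hres : (fun x : L => ϑ x) = (e : ℂ) • φ) (hsupp : ∀ k : K, ϑ k ≠ 0 → k ∈ L) :
    e ^ 2 = L.index := by
  classical
  have hK : ∑ k : K, ϑ k * conj (ϑ k) = (Nat.card K : ℂ) := by
    have h := classInner_self_of_isIrr hϑ
    rw [classInner] at h
    field_simp at h
    exact h
  have hLs : ∑ x : L, ϑ x * conj (ϑ x) = (Nat.card K : ℂ) := by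
    rw [← hK, ← Finset.sum_subtype (Finset.univ.filter fun k : K => k ∈ L) (by simp)
      (fun k => ϑ k * conj (ϑ k))]
    refine Finset.sum_subset (Finset.subset_univ _) fun k _ hk => ?_
    by_cases h : ϑ k = 0
    · simp [h]
    · exact absurd (Finset.mem_filter.2 ⟨Finset.mem_univ _, hsupp k h⟩) hk
  have h2 : classInner (fun x : L => ϑ x) (fun x : L => ϑ x) = (L.index : ℂ) := by
    rw [classInner, hLs, ← L.card_mul_index, Nat.cast_mul, ← mul_assoc,
      inv_mul_cancel₀ (Nat.cast_ne_zero.2 Nat.card_pos.ne'), one_mul]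
  rw [hres, classInner_smul_left, classInner_smul_right, classInner_self_of_isIrr hφ, map_natCast,
    mul_one, ← Nat.cast_mul] at h2
  rw [sq]
  exact_mod_cast h2

/-- If the support generates modulo `L` and `K / L` is abelian, the restriction is irreducible. -/
theorem multiplicity_eq_one (hab : commutator K ≤ L) (hϑ : IsIrrCharacter K ϑ)
    (hφ : IsIrrCharacter L φ) {e : ℕ} (he : e ≠ 0) (hres : (fun x : L => ϑ x) = (e : ℂ) • φ)
    (hgen : Subgroup.closure ({k : K | ϑ k ≠ 0} ∪ (L : Set K)) = ⊤) : e = 1 := by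
  classical
  letI : Fintype (IrrCharacter K) := Fintype.ofFinite _
  have hQ : commutator (K ⧸ L) = ⊥ := by
    rw [eq_bot_iff, commutator_def, ← Subgroup.map_top_of_surjective _
      (QuotientGroup.mk'_surjective L), ← Subgroup.map_commutator, ← commutator_def,
      Subgroup.map_le_iff_le_comap, MonoidHom.comap_bot, QuotientGroup.ker_mk']
    exact hab
  haveI : Finite ((K ⧸ L) →* ℂˣ) := Finite.of_equiv _ linearEquivHom
  letI : Fintype ((K ⧸ L) →* ℂˣ) := Fintype.ofFinite _
  have hcard : Fintype.card ((K ⧸ L) →* ℂˣ) = L.index := by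
    rw [Fintype.card_eq_nat_card, ← Nat.card_congr linearEquivHom, card_linear, hQ,
      Subgroup.index_bot, Subgroup.index_eq_card]
  let tw : ((K ⧸ L) →* ℂˣ) → IrrCharacter K := fun μ =>
    ⟨(fun k : K => ((μ.comp (QuotientGroup.mk' L)) k : ℂ)) * ϑ,
      isIrrCharacter_mul_of_norm hϑ
        (IsIrrCharacter.isCharacter (isIrrCharacter_linear (μ.comp (QuotientGroup.mk' L))))
        (fun k => norm_eq_one_of_pow_eq_one' (m := Nat.card K) Nat.card_pos.ne' (by
          rw [← Units.val_pow_eq_pow_val, ← map_pow, pow_card_eq_one', map_one, Units.val_one]))⟩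
  have htw : Function.Injective tw := by
    intro μ ν h
    have hle : Subgroup.closure ({k : K | ϑ k ≠ 0} ∪ (L : Set K))
        ≤ MonoidHom.eqLocus (μ.comp (QuotientGroup.mk' L)) (ν.comp (QuotientGroup.mk' L)) := by
      refine (Subgroup.closure_le _).2 fun k hk => ?_
      rcases hk with hk | hk
      · exact Units.ext (mul_right_cancel₀ hk (congrFun (congrArg Subtype.val h) k))
      · show μ (QuotientGroup.mk' L k) = ν (QuotientGroup.mk' L k)
        rw [QuotientGroup.mk'_apply, (QuotientGroup.eq_one_iff k).2 hk, map_one, map_one]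
    refine MonoidHom.ext fun q => ?_
    obtain ⟨k, rfl⟩ := QuotientGroup.mk'_surjective L q
    exact hle (hgen ▸ Subgroup.mem_top k)
  obtain ⟨m, hm⟩ := IsCharacter.exists_sum
    (isCharacter_indFun L φ (IsIrrCharacter.isCharacter hφ))
  have hmtw : ∀ μ, m (tw μ) = e := fun μ => by
    have e1 : classInner (indFun L φ) (tw μ : K → ℂ) = (m (tw μ) : ℂ) := by
      rw [hm]; exact classInner_sum_irr _ _
    have e2 : (fun x : L => (tw μ : K → ℂ) x) = (e : ℂ) • φ := by
      rw [← hres]
      funext x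
      show (μ (QuotientGroup.mk' L (x : K)) : ℂ) * ϑ x = ϑ x
      rw [QuotientGroup.mk'_apply, (QuotientGroup.eq_one_iff (x : K)).2 x.2, map_one,
        Units.val_one, one_mul]
    rw [classInner_indFun L φ _ (IsIrrCharacter.isClassFunction (tw μ).2), e2,
      classInner_smul_right, classInner_self_of_isIrr hφ, map_natCast, mul_one] at e1
    exact_mod_cast e1.symm
  have hdeg : ∀ χ : IrrCharacter K, ∃ d : ℕ, 0 < d ∧ (χ : K → ℂ) 1 = d :=
    fun χ => exists_degree_of_isIrr χ.2
  choose d hdpos hd using hdeg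
  obtain ⟨t, ht0, ht⟩ := exists_degree_of_isIrr hφ
  have hdtw : ∀ μ, d (tw μ) = e * t := fun μ => by
    have h := congrFun hres (1 : L)
    have h1 : (tw μ : K → ℂ) 1 = (e : ℂ) * (t : ℂ) := by
      show ((μ (QuotientGroup.mk' L 1)) : ℂ) * ϑ 1 = _
      rw [map_one, map_one, Units.val_one, one_mul, ← ht]
      simpa using h
    rw [hd] at h1
    exact_mod_cast h1
  have htot : L.index * t = ∑ χ, m χ * d χ := by
    have h := congrFun hm 1
    rw [indFun_one, ht] at h
    simp only [Finset.sum_apply, Pi.smul_apply, smul_eq_mul, hd] at h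
    exact_mod_cast h
  have hle : L.index * (e * (e * t)) ≤ L.index * t := by
    rw [htot]
    refine le_trans (le_of_eq ?_)
      (Finset.sum_le_sum_of_subset (Finset.subset_univ (Finset.univ.image tw)))
    rw [Finset.sum_image htw.injOn, Finset.sum_congr rfl fun μ _ => by rw [hmtw, hdtw],
      Finset.sum_const, Finset.card_univ, hcard, smul_eq_mul]
  have h2 : (e * e) * t ≤ 1 * t := by
    rw [one_mul, mul_assoc]
    exact Nat.le_of_mul_le_mul_left hle (Nat.pos_of_ne_zero Subgroup.index_ne_zero_of_finite)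
  have h3 : e * e ≤ 1 := Nat.le_of_mul_le_mul_right h2 ht0
  nlinarith [Nat.pos_of_ne_zero he]

end Aux

theorem result {G : Type*} [Group G] [Fintype G] (K L : Subgroup G) [hK : K.Normal] [L.Normal] (hLK : L < K) (hchief : ∀ M : Subgroup G, M.Normal → L ≤ M → M ≤ K → M = L ∨ M = K) (hab : ⁅K, K⁆ ≤ L) (ϑ : K → ℂ) (hϑ : Cfsg.IsIrrCharacter K ϑ) (hinv : ∀ (g : G) (n : K), ϑ ⟨g * n * g⁻¹, hK.conj_mem (n : G) n.2 g⟩ = ϑ n) : Cfsg.IsIrrCharacter L (fun x : L => ϑ ⟨(x : G), hLK.le x.2⟩) ∨ (∃ (φ : L → ℂ) (e : ℕ), Cfsg.IsIrrCharacter L φ ∧ (fun x : L => ϑ ⟨(x : G), hLK.le x.2⟩) = (e : ℂ) • φ ∧ e ^ 2 = L.relIndex K) ∨ (∃ F : Finset (L → ℂ), (∀ φ ∈ F, Cfsg.IsIrrCharacter L φ) ∧ F.card = L.relIndex K ∧ (fun x : L => ϑ ⟨(x : G), hLK.le x.2⟩) = ∑ φ ∈ F, φ) := by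
  classical
  letI : Fintype K := Fintype.ofFinite _
  set L' : Subgroup K := L.subgroupOf K with hL'
  haveI : L'.Normal := inferInstance
  letI : Fintype L' := Fintype.ofFinite _
  let ε : L' ≃* L := Subgroup.subgroupOfEquivOfLe hLK.le
  have hidx : L'.index = L.relIndex K := rfl
  have habK : commutator K ≤ L' := by
    intro x hx
    rw [hL', Subgroup.mem_subgroupOf]
    refine hab ?_
    rw [← Subgroup.map_subtype_commutator]
    exact Subgroup.mem_map_of_mem _ hx
  -- the restriction through `ε`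
  have hback : ∀ η : L' → ℂ, (fun x : L' => ϑ x) = η →
      (fun x : L => ϑ ⟨(x : G), hLK.le x.2⟩) = fun x => η (ε.symm x) := fun η h =>
    funext fun x => congrFun h (ε.symm x)
  obtain ⟨⟨φ, hφ⟩, h0⟩ := exists_constituent L' (IsIrrCharacter.isCharacter hϑ)
    (apply_one_ne_zero_of_isIrr hϑ)
  -- the inertia group of `φ` in `K`
  set S : Subgroup K := inertia L' φ with hS
  have hLS : L' ≤ S := le_inertia L' (IsIrrCharacter.isClassFunction hφ)
  haveI hSn : S.Normal := Subgroup.Normal.of_commutator_le K (habK.trans hLS)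
  have hmemS : ∀ k : K, k ∈ S ↔ conjChar L' φ k = φ := fun k => mem_inertia L' φ k
  set M : Subgroup G := S.map K.subtype with hM
  have hLM : L ≤ M := fun x hx => ⟨⟨x, hLK.le hx⟩, hLS (Subgroup.mem_subgroupOf.2 hx), rfl⟩
  have hMK : M ≤ K := Subgroup.map_subtype_le S
  have hMn : M.Normal := by
    refine ⟨?_⟩
    rintro _ ⟨s, hs, rfl⟩ g
    have hcl : ∀ k : K, (∀ n : L', φ ⟨k * n * k⁻¹, Subgroup.Normal.conj_mem inferInstance _ n.2 k⟩
        = φ n) → k ∈ S := fun k h => (hmemS k).2 (funext h)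
    let c : K ≃* K := MulAut.conjNormal g
    have hc : ∀ k : K, (c k : G) = g * k * g⁻¹ := fun k => MulAut.conjNormal_apply g k
    have hcL : ∀ n : L', c n ∈ L' := fun n => by
      show (c (n : K) : G) ∈ L
      rw [hc]
      exact (inferInstance : L.Normal).conj_mem _ (Subgroup.mem_subgroupOf.1 n.2) g
    -- the conjugate of `φ` by `g`
    let φg : L' → ℂ := fun n => φ ⟨c n, hcL n⟩
    let α : L' ≃* L' :=
      { toFun := fun n => ⟨c n, hcL n⟩
        invFun := fun n => ⟨c.symm n, by
          show ((MulAut.conjNormal g).symm (n : K) : G) ∈ L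
          rw [MulAut.conjNormal_symm_apply]
          simpa using (inferInstance : L.Normal).conj_mem _ (Subgroup.mem_subgroupOf.1 n.2) g⁻¹⟩
        left_inv := fun n => Subtype.ext (c.symm_apply_apply _)
        right_inv := fun n => Subtype.ext (c.apply_symm_apply _)
        map_mul' := fun a b => Subtype.ext (map_mul c (a : K) (b : K)) }
    have hφg : IsIrrCharacter L' φg := isIrrCharacter_comp_mulEquiv hφ α
    have h0g : classInner (fun x : L' => ϑ x) φg ≠ 0 := by
      have h := classInner_comp_mulEquiv α (fun x : L' => ϑ x) φ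
      rw [show (fun a : L' => ϑ (α a : K)) = fun x : L' => ϑ x from funext fun x => by
        show ϑ (c (x : K)) = ϑ x
        rw [← hinv g (x : K)]
        exact congrArg ϑ (Subtype.ext (hc _))] at h
      show classInner (fun x : L' => ϑ x) (fun a => φ (α a)) ≠ 0
      rw [h]
      exact h0
    obtain ⟨k0, hk0⟩ := exists_conj_of_constituents L' hϑ hφ hφg h0 h0g
    refine ⟨c s, ?_, hc s⟩
    refine (hmemS _).2 ?_
    have hs' : conjChar L' φg s = φg := by
      rw [hk0, conjChar_conjChar, show k0 * s = (k0 * s * k0⁻¹) * k0 by group,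
        ← conjChar_conjChar, (hmemS _).1 (hSn.conj_mem s hs k0)]
    funext n
    have h := congrFun hs' (α.symm n)
    simp only [conjChar_apply, φg] at h
    rw [conjChar_apply]
    refine Eq.trans (Eq.trans (congrArg φ (Subtype.ext ?_)) h) (congrArg φ (α.apply_symm_apply n))
    show c s * (n : K) * (c s)⁻¹ = c (s * (α.symm n : K) * s⁻¹)
    rw [map_mul, map_mul, map_inv]
    congr 2
    exact (c.apply_symm_apply _).symm
  rcases hchief M hMn hLM hMK with hML | hMK'
  · -- regular orbit
    refine Or.inr (Or.inr ?_)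
    have hST : ∀ k : K, k ∈ L' ↔ conjChar L' φ k = φ := fun k => by
      rw [← hmemS]
      refine ⟨fun h => hLS h, fun h => ?_⟩
      rw [hL', Subgroup.mem_subgroupOf, ← hML]
      exact ⟨k, h, rfl⟩
    have hsum := res_eq_sum_of_inertia L' hϑ hφ h0 hST
    refine ⟨(conjOrbit L' φ).image fun η x => η (ε.symm x), fun η hη => ?_, ?_, ?_⟩
    · obtain ⟨η', hη', rfl⟩ := Finset.mem_image.1 hη
      obtain ⟨k, rfl⟩ := (mem_conjOrbit L').1 hη'
      exact isIrrCharacter_comp_mulEquiv (isIrrCharacter_conjChar L' hφ k) ε.symm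
    · rw [Finset.card_image_of_injective _ fun a b h => funext fun y => by
        simpa using congrFun h (ε y), card_conjOrbit L' φ L' hST, hidx]
    · rw [Finset.sum_image fun a _ b _ h => funext fun y => by simpa using congrFun h (ε y),
        hback _ hsum]
      funext x
      simp [Finset.sum_apply]
  · -- invariant constituent
    have hall : ∀ k : K, conjChar L' φ k = φ := fun k => by
      have : (k : G) ∈ M := hMK'.symm ▸ k.2
      obtain ⟨k', hk', he⟩ := this
      rw [show k = k' from Subtype.ext he.symm]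
      exact (hmemS k').1 hk'
    obtain ⟨e, he⟩ := IsCharacter.exists_classInner_eq_nat
      (CfsgLib.Coherence.isCharacter_comp (IsIrrCharacter.isCharacter hϑ) L'.subtype) ⟨φ, hφ⟩
    have he' : classInner (fun x : L' => ϑ x) φ = (e : ℂ) := he
    have hres := res_eq_of_invariant L' hϑ hφ hall h0
    rw [he'] at hres
    have he0 : e ≠ 0 := fun h => h0 (by rw [he', h, Nat.cast_zero])
    set M2 : Subgroup G := Subgroup.closure ({x : G | ∃ h : x ∈ K, ϑ ⟨x, h⟩ ≠ 0} ∪ (L : Set G))
      with hM2
    have hM2n : M2.Normal := by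
      refine ⟨fun x hx g => ?_⟩
      have : M2 ≤ M2.comap (MulAut.conj g).toMonoidHom := by
        refine (Subgroup.closure_le _).2 fun y hy => Subgroup.subset_closure ?_
        rcases hy with ⟨hy, hne⟩ | hy
        · exact Or.inl ⟨hK.conj_mem y hy g, fun h => hne ((hinv g ⟨y, hy⟩).symm.trans h)⟩
        · exact Or.inr (Subgroup.Normal.conj_mem inferInstance y hy g)
      exact this hx
    have hM2K : M2 ≤ K := by
      refine (Subgroup.closure_le _).2 fun y hy => ?_
      rcases hy with ⟨hy, -⟩ | hy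
      · exact hy
      · exact hLK.le hy
    rcases hchief M2 hM2n (fun x hx => Subgroup.subset_closure (Or.inr hx)) hM2K with h | h
    · refine Or.inr (Or.inl ⟨fun x => φ (ε.symm x), e, isIrrCharacter_comp_mulEquiv hφ ε.symm,
        hback _ hres, ?_⟩)
      rw [← hidx]
      refine sq_eq_index L' hϑ hφ hres fun k hk => ?_
      rw [hL', Subgroup.mem_subgroupOf, ← h]
      exact Subgroup.subset_closure (Or.inl ⟨k.2, hk⟩)
    · refine Or.inl ?_
      have h1 : e = 1 := by
        refine multiplicity_eq_one L' habK hϑ hφ he0 hres ?_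
        apply Subgroup.map_injective K.subtype_injective
        rw [MonoidHom.map_closure, ← MonoidHom.range_eq_map, Subgroup.range_subtype]
        refine le_antisymm ((Subgroup.closure_le _).2 ?_) (h.symm.le.trans ?_)
        · rintro _ ⟨k, -, rfl⟩
          exact k.2
        · refine (Subgroup.closure_le _).2 fun y hy => Subgroup.subset_closure ?_
          rcases hy with ⟨hy, hne⟩ | hy
          · exact ⟨⟨y, hy⟩, Or.inl hne, rfl⟩
          · exact ⟨⟨y, hLK.le hy⟩, Or.inr hy, rfl⟩
      rw [hback _ hres, h1, Nat.cast_one, one_smul]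
      exact isIrrCharacter_comp_mulEquiv hφ ε.symm

end Cfsg.Agent.S0857
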