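import Cfsg.Statements.S0858
import Cfsg.Agent.S0857
import Cfsg.Agent.Lib.Brauer.IndCalc
import Mathlib.GroupTheory.Solvable

set_option autoImplicit false
set_option linter.style.haveILetI false
open Cfsg CfsgLib.CharTheory CfsgLib.Clifford CfsgLib.Frobenius

namespace Cfsg.Agent.S0858

universe u

/-- The chief-factor hypothesis passes to subgroups containing `N`. -/
theorem chief_subgroup {G : Type u} [Group G] {N : Subgroup G}
    (hchief : ∀ (H K L : Subgroup G), N ≤ L → L < K → K ≤ H → (∀ h ∈ H, ∀ k ∈ K, h * k * h⁻¹ ∈ K) → (∀ h ∈ H, ∀ l ∈ L, h * l * h⁻¹ ∈ L) → (∀ M : Subgroup G, L ≤ M → M ≤ K → (∀ h ∈ H, ∀ m ∈ M, h * m * h⁻¹ ∈ M) → M = L ∨ M = K) → ¬ IsSquare (L.relIndex K))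
    {T : Subgroup G} (hNT : N ≤ T) :
    ∀ (H K L : Subgroup T), N.subgroupOf T ≤ L → L < K → K ≤ H → (∀ h ∈ H, ∀ k ∈ K, h * k * h⁻¹ ∈ K) → (∀ h ∈ H, ∀ l ∈ L, h * l * h⁻¹ ∈ L) → (∀ M : Subgroup T, L ≤ M → M ≤ K → (∀ h ∈ H, ∀ m ∈ M, h * m * h⁻¹ ∈ M) → M = L ∨ M = K) → ¬ IsSquare (L.relIndex K) := by
  intro H K L hNL hLK hKH hK hL hM
  have hinj : Function.Injective T.subtype := T.subtype_injective
  have hconj : ∀ (A : Subgroup T), (∀ h ∈ H, ∀ k ∈ A, h * k * h⁻¹ ∈ A) →
      ∀ h ∈ H.map T.subtype, ∀ k ∈ A.map T.subtype, h * k * h⁻¹ ∈ A.map T.subtype := by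
    rintro A hA _ ⟨h, hh, rfl⟩ _ ⟨k, hk, rfl⟩
    exact ⟨h * k * h⁻¹, hA h hh k hk, by simp⟩
  rw [← Subgroup.relIndex_map_map_of_injective L K hinj]
  refine hchief (H.map T.subtype) _ _ (fun n hn => ⟨⟨n, hNT hn⟩, hNL hn, rfl⟩)
    ((Subgroup.map_lt_map_iff_of_injective hinj).2 hLK) (Subgroup.map_mono hKH) (hconj K hK)
    (hconj L hL) fun M hLM hMK hMH => ?_
  have hMT : M ≤ T := hMK.trans (Subgroup.map_subtype_le K)
  have hMeq : (M.subgroupOf T).map T.subtype = M := Subgroup.map_subgroupOf_eq_of_le hMT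
  have hLM' : L ≤ M.subgroupOf T := fun x hx => hLM ⟨x, hx, rfl⟩
  have hMK' : M.subgroupOf T ≤ K := fun x hx => by
    obtain ⟨y, hy, he⟩ := hMK hx
    rwa [show x = y from Subtype.ext he.symm]
  rcases hM (M.subgroupOf T) hLM' hMK' (fun h hh m hm => by
      rw [Subgroup.mem_subgroupOf] at hm ⊢
      exact hMH (h : G) ⟨h, hh, rfl⟩ (m : G) hm) with h | h
  · exact Or.inl (by rw [← hMeq, h])
  · exact Or.inr (by rw [← hMeq, h])

theorem aux (n : ℕ) : ∀ {G : Type u} [Group G] [Fintype G] (N : Subgroup G) [N.Normal],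
    Nat.card G = n → Group.IsSolvable (G ⧸ N) →
    (∀ (H K L : Subgroup G), N ≤ L → L < K → K ≤ H → (∀ h ∈ H, ∀ k ∈ K, h * k * h⁻¹ ∈ K) → (∀ h ∈ H, ∀ l ∈ L, h * l * h⁻¹ ∈ L) → (∀ M : Subgroup G, L ≤ M → M ≤ K → (∀ h ∈ H, ∀ m ∈ M, h * m * h⁻¹ ∈ M) → M = L ∨ M = K) → ¬ IsSquare (L.relIndex K)) →
    ∀ (χ : G → ℂ), IsIrrCharacter G χ →
    ∃ (H : Subgroup G) (hNH : N ≤ H) (ψ : H → ℂ), IsIrrCharacter H ψ ∧ indFun H ψ = χ ∧
      IsIrrCharacter N (fun n : N => ψ ⟨(n : G), hNH n.2⟩) := by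
  induction n using Nat.strong_induction_on with
  | _ n ih =>
    intro G _ _ N _ hn hsolv hchief χ hχ
    classical
    by_cases hN : IsIrrCharacter N (fun x : N => χ x)
    · refine ⟨⊤, le_top, fun x => χ x, ?_, CfsgLib.Brauer.indFun_top
        (IsIrrCharacter.isClassFunction hχ), hN⟩
      exact isIrrCharacter_comp_mulEquiv hχ Subgroup.topEquiv
    -- a minimal normal subgroup over `N` with irreducible restriction
    obtain ⟨K, ⟨hKn, hNK, hK⟩, hKmin⟩ :=
      (Set.toFinite {K : Subgroup G | K.Normal ∧ N ≤ K ∧ IsIrrCharacter K (fun x : K => χ x)}).exists_minimal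
        ⟨⊤, inferInstance, le_top, isIrrCharacter_comp_mulEquiv hχ Subgroup.topEquiv⟩
    haveI := hKn
    have hNK' : N < K := lt_of_le_of_ne hNK fun h => hN (by subst h; exact hK)
    -- a maximal normal subgroup below `K`
    obtain ⟨L, ⟨hLn, hNL, hLK⟩, hLmax⟩ :=
      (Set.toFinite {L : Subgroup G | L.Normal ∧ N ≤ L ∧ L < K}).exists_maximal
        ⟨N, inferInstance, le_rfl, hNK'⟩
    haveI := hLn
    have hchiefKL : ∀ M : Subgroup G, M.Normal → L ≤ M → M ≤ K → M = L ∨ M = K := by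
      intro M hM hLM hMK
      rcases hMK.eq_or_lt with h | h
      · exact Or.inr h
      · exact Or.inl (le_antisymm (hLmax ⟨hM, hNL.trans hLM, h⟩ hLM) hLM)
    haveI : Group.IsSolvable (G ⧸ L) :=
      Group.isSolvable_of_surjective (G := G ⧸ N)
        (f := QuotientGroup.map N L (MonoidHom.id G) (by simpa using hNL))
        (fun q => by
          obtain ⟨g, rfl⟩ := QuotientGroup.mk_surjective q
          exact ⟨(g : G ⧸ N), rfl⟩)
    have hab : ⁅K, K⁆ ≤ L := by
      haveI : (⁅K, K⁆ ⊔ L).Normal := Subgroup.sup_normal _ _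
      rcases hchiefKL (⁅K, K⁆ ⊔ L) inferInstance le_sup_right
        (sup_le (Subgroup.commutator_le_self K) hLK.le) with h | h
      · exact le_sup_left.trans h.le
      · exfalso
        set P := K.map (QuotientGroup.mk' L) with hP
        have hPne : P ≠ ⊥ := fun hb => by
          rw [hP, Subgroup.map_eq_bot_iff, QuotientGroup.ker_mk'] at hb
          exact hLK.not_ge hb
        have hlt := Group.IsSolvable.commutator_lt_of_ne_bot hPne
        refine hlt.ne ?_
        rw [hP, ← Subgroup.map_commutator]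
        conv_rhs => rw [← h, Subgroup.map_sup, (Subgroup.map_eq_bot_iff L).2
          (QuotientGroup.ker_mk' L).ge, sup_bot_eq]
    have hsq : ¬ IsSquare (L.relIndex K) :=
      hchief ⊤ K L hNL hLK le_top (fun h _ k hk => hKn.conj_mem k hk h)
        (fun h _ l hl => hLn.conj_mem l hl h) fun M hLM hMK hM =>
          hchiefKL M ⟨fun m hm g => hM g (Subgroup.mem_top g) m hm⟩ hLM hMK
    rcases S0857.result K L hLK hchiefKL hab (fun x : K => χ x) hK
      (fun g x => IsIrrCharacter.isClassFunction hχ (x : G) g) with h | ⟨φ, e, -, -, he⟩ |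
        ⟨F, hF, hFcard, hres⟩
    · exact absurd (hKmin ⟨hLn, hNL, h⟩ hLK.le) hLK.not_ge
    · exact absurd ⟨e, by rw [← he, sq]⟩ hsq
    -- the sum of distinct characters
    have hres' : (fun x : L => χ x) = ∑ η ∈ F, η := hres
    have hinner : ∀ η ∈ F, classInner (fun x : L => χ x) η = 1 := fun η hη => by
      rw [hres', classInner_sum_left, Finset.sum_eq_single η (fun b hb hne =>
        classInner_eq_zero_of_ne (hF b hb) (hF η hη) hne) (fun h => absurd hη h)]
      exact classInner_self_of_isIrr (hF η hη)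
    have hF1 : 1 < F.card := by
      have h1 : L.relIndex K ≠ 1 := fun h => hLK.not_ge (Subgroup.relIndex_eq_one.1 h)
      have h0 : L.relIndex K ≠ 0 := Subgroup.index_ne_zero_of_finite
      omega
    obtain ⟨φ, hφF, η, hηF, hne⟩ := Finset.one_lt_card.1 hF1
    have hφ0 : classInner (fun x : L => χ x) φ ≠ 0 := by rw [hinner φ hφF]; exact one_ne_zero
    set T := inertia L φ with hT
    have hLT : L ≤ T := le_inertia L (IsIrrCharacter.isClassFunction (hF φ hφF))
    have hTtop : T ≠ ⊤ := by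
      intro e
      have hinv : ∀ g : G, conjChar L φ g = φ := fun g =>
        (mem_inertia L φ g).1 (by rw [← hT, e]; exact Subgroup.mem_top g)
      have h := res_eq_of_invariant L hχ (hF φ hφF) hinv hφ0
      have h1 := hinner η hηF
      rw [h, classInner_smul_left, classInner_eq_zero_of_ne (hF φ hφF) (hF η hηF) hne,
        mul_zero] at h1
      exact zero_ne_one h1
    letI : Fintype T := Fintype.ofFinite T
    obtain ⟨ψ, hψ, hind, -⟩ :=
      exists_indFun_inertia_eq (hF φ hφF) (mem_inertia L φ) hLT hχ hφ0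
    have hlt : Nat.card T < n := by
      rw [← hn]
      exact lt_of_le_of_ne (Subgroup.card_le_card_group T)
        fun h => hTtop (Subgroup.card_eq_iff_eq_top T |>.1 h)
    have hNT : N ≤ T := hNL.trans hLT
    haveI := hsolv
    haveI : Group.IsSolvable (T ⧸ N.subgroupOf T) :=
      Group.isSolvable_of_isSolvable_injective
        (f := QuotientGroup.map (N.subgroupOf T) N T.subtype le_rfl) (by
          rw [← MonoidHom.ker_eq_bot_iff, eq_bot_iff]
          intro q hq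
          obtain ⟨g, rfl⟩ := QuotientGroup.mk_surjective q
          exact (QuotientGroup.eq_one_iff g).2 ((QuotientGroup.eq_one_iff (g : G)).1 hq))
    obtain ⟨H, hNH, ψ', hψ', hind', hres''⟩ :=
      ih (Nat.card T) hlt (N.subgroupOf T) rfl inferInstance (chief_subgroup hchief hNT) ψ hψ
    letI : Fintype H := Fintype.ofFinite _
    let ε := H.equivMapOfInjective T.subtype T.subtype_injective
    have hNH' : N ≤ H.map T.subtype := fun x hx => ⟨⟨x, hNT hx⟩, hNH hx, rfl⟩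
    refine ⟨H.map T.subtype, hNH', fun k => ψ' (ε.symm k),
      isIrrCharacter_comp_mulEquiv hψ' ε.symm, ?_, ?_⟩
    · rw [← CfsgLib.Brauer.indFun_indFun_map T H ψ', hind', hind]
    · have h := isIrrCharacter_comp_mulEquiv hres'' (Subgroup.subgroupOfEquivOfLe hNT).symm
      have he : (fun x : N => ψ' (ε.symm ⟨(x : G), hNH' x.2⟩))
          = fun x : N => ψ' ⟨_, hNH ((Subgroup.subgroupOfEquivOfLe hNT).symm x).2⟩ := funext fun x =>
        congrArg ψ' (ε.symm_apply_eq.2 (Subtype.ext rfl))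
      rw [he]
      exact h

theorem result {G : Type*} [Group G] [Fintype G] (N : Subgroup G) [N.Normal] (hsolv : Group.IsSolvable (G ⧸ N)) (hchief : ∀ (H K L : Subgroup G), N ≤ L → L < K → K ≤ H → (∀ h ∈ H, ∀ k ∈ K, h * k * h⁻¹ ∈ K) → (∀ h ∈ H, ∀ l ∈ L, h * l * h⁻¹ ∈ L) → (∀ M : Subgroup G, L ≤ M → M ≤ K → (∀ h ∈ H, ∀ m ∈ M, h * m * h⁻¹ ∈ M) → M = L ∨ M = K) → ¬ IsSquare (L.relIndex K)) (χ : G → ℂ) (hχ : Cfsg.IsIrrCharacter G χ) : ∃ (H : Subgroup G) (hNH : N ≤ H) (ψ : H → ℂ), Cfsg.IsIrrCharacter H ψ ∧ Cfsg.indFun H ψ = χ ∧ Cfsg.IsIrrCharacter N (fun n : N => ψ ⟨(n : G), hNH n.2⟩) :=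
  aux (Nat.card G) N rfl hsolv hchief χ hχ

end Cfsg.Agent.S0858
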