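import Cfsg.Statements.S1488
import Mathlib.GroupTheory.QuotientGroup.Basic
import Mathlib.GroupTheory.Coset.Card
import Mathlib.Tactic

set_option autoImplicit false
open Cfsg

namespace Cfsg.Agent.S1488

/-- Let A be a normal subgroup of the finite group G contained in the subgroup H, let θ be a function on H and θ₁ a function on the image of H in G ⧸ A whose composite with the projection is θ. Then the function induced from θ₁ to G ⧸ A, composed with the projection G → G ⧸ A, equals the function induced from θ to G. -/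
theorem result {G : Type*} [Group G] [Fintype G] (A H : Subgroup G) [A.Normal] (hAH : A ≤ H) [Fintype (G ⧸ A)] [Fintype ↥(H.map (QuotientGroup.mk' A))] (θ : H → ℂ) (θ₁ : ↥(H.map (QuotientGroup.mk' A)) → ℂ) (hθ : ∀ x : H, θ₁ ⟨QuotientGroup.mk' A x, Subgroup.mem_map_of_mem _ x.2⟩ = θ x) (g : G) : Cfsg.indFun (H.map (QuotientGroup.mk' A)) θ₁ (QuotientGroup.mk' A g) = Cfsg.indFun H θ g := by
  classical
  have hmemA : ∀ x : G, (QuotientGroup.mk' A) x ∈ H.map (QuotientGroup.mk' A) ↔ x ∈ H := by
    intro x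
    refine ⟨?_, fun hx => Subgroup.mem_map_of_mem _ hx⟩
    rintro ⟨y, hy, e⟩
    have : y⁻¹ * x ∈ A := (QuotientGroup.eq (s := A)).1 e
    simpa using H.mul_mem hy (hAH this)
  have hext : ∀ x : G, Cfsg.extendByZero (H.map (QuotientGroup.mk' A)) θ₁ ((QuotientGroup.mk' A) x) = Cfsg.extendByZero H θ x := by
    intro x
    by_cases hx : x ∈ H
    · have h1 := Subtype.val_injective.extend_apply θ₁ 0
        (⟨QuotientGroup.mk' A x, Subgroup.mem_map_of_mem _ hx⟩ : H.map (QuotientGroup.mk' A))
      have h2 := Subtype.val_injective.extend_apply θ 0 (⟨x, hx⟩ : H)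
      exact h1.trans ((hθ ⟨x, hx⟩).trans h2.symm)
    · rw [Cfsg.extendByZero, Cfsg.extendByZero, Function.extend_apply', Function.extend_apply']
      · simp
      · rintro ⟨a, rfl⟩; exact hx a.2
      · rintro ⟨a, ha⟩; exact hx ((hmemA x).1 (ha ▸ a.2))
  have hsum : ∑ x : G, Cfsg.extendByZero H θ (x⁻¹ * g * x) =
      (Nat.card A : ℂ) * ∑ y : G ⧸ A, Cfsg.extendByZero (H.map (QuotientGroup.mk' A)) θ₁ (y⁻¹ * (QuotientGroup.mk' A) g * y) := by
    rw [← Finset.sum_fiberwise (s := Finset.univ) (g := fun x => (QuotientGroup.mk' A) x)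
      (f := fun x => Cfsg.extendByZero H θ (x⁻¹ * g * x)), Finset.mul_sum]
    refine Finset.sum_congr rfl fun y _ => ?_
    obtain ⟨x₀, hx₀⟩ := QuotientGroup.mk'_surjective A y
    subst hx₀
    rw [Finset.sum_congr rfl (fun x hx => show Cfsg.extendByZero H θ (x⁻¹ * g * x) =
        Cfsg.extendByZero (H.map (QuotientGroup.mk' A)) θ₁ (((QuotientGroup.mk' A) x₀)⁻¹ * (QuotientGroup.mk' A) g * (QuotientGroup.mk' A) x₀) by
      rw [← hext, map_mul, map_mul, map_inv, (Finset.mem_filter.1 hx).2]),
      Finset.sum_const, nsmul_eq_mul]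
    congr 1
    rw [← Fintype.card_subtype, ← Nat.card_eq_fintype_card]
    norm_cast
    refine (Nat.card_congr ?_).symm
    refine ((Equiv.mulLeft x₀).subtypeEquiv (p := fun a => a ∈ A) (q := fun x => (QuotientGroup.mk' A) x = (QuotientGroup.mk' A) x₀) ?_)
    intro a
    show a ∈ A ↔ (QuotientGroup.mk' A) (x₀ * a) = (QuotientGroup.mk' A) x₀
    rw [map_mul, mul_eq_left, QuotientGroup.mk'_apply, QuotientGroup.eq_one_iff]
  have hcard : Nat.card H = Nat.card A * Nat.card (H.map (QuotientGroup.mk' A)) := by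
    let f : H →* H.map (QuotientGroup.mk' A) := (QuotientGroup.mk' A).subgroupMap H
    have hf : Function.Surjective f := (QuotientGroup.mk' A).subgroupMap_surjective H
    have hk : Nat.card f.ker = Nat.card A := by
      refine Nat.card_congr ((Equiv.subtypeSubtypeEquivSubtypeInter (fun x => x ∈ H)
        (fun x => (QuotientGroup.mk' A) x = 1)).trans (Equiv.subtypeEquivRight fun x => ?_) |> fun e =>
          (Equiv.subtypeEquivRight (fun x : H => ?_)).trans e)
      · rw [MonoidHom.mem_ker, Subtype.ext_iff]; rfl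
      · rw [QuotientGroup.mk'_apply, QuotientGroup.eq_one_iff]
        exact ⟨fun h => h.2, fun h => ⟨hAH h, h⟩⟩
    rw [Subgroup.card_eq_card_quotient_mul_card_subgroup f.ker, hk,
      Nat.card_congr (QuotientGroup.quotientKerEquivOfSurjective f hf).toEquiv, mul_comm]
  rw [Cfsg.indFun, Cfsg.indFun, hsum, hcard]
  have hA : (Nat.card A : ℂ) ≠ 0 := Nat.cast_ne_zero.2 Nat.card_pos.ne'
  push_cast
  field_simp

end Cfsg.Agent.S1488
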