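import Cfsg.Statements.S0859
import Cfsg.Agent.S1488
import Cfsg.Agent.Lib.Clifford.Basic
import Cfsg.Agent.Lib.CharTheory.Ito
import Cfsg.Agent.Lib.CharTheory.Linear
import Cfsg.Agent.Lib.Brauer.IndCalc
import Mathlib.GroupTheory.Solvable
import Mathlib.GroupTheory.Nilpotent

set_option autoImplicit false
set_option linter.style.haveILetI false
open Cfsg CfsgLib.CharTheory CfsgLib.Clifford CfsgLib.Frobenius
open scoped commutatorElement

namespace Cfsg.Agent.S0859

universe u

/-- All `p`-subgroups of `N` are commutative. -/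
def AbSyl {G : Type u} [Group G] (N : Subgroup G) : Prop :=
  ∀ (p : ℕ), p.Prime → ∀ Q : Subgroup G, Q ≤ N → IsPGroup p Q → ∀ a ∈ Q, ∀ b ∈ Q, a * b = b * a

theorem abSyl_of_sylow {G : Type u} [Group G] (N : Subgroup G)
    (hab : ∀ (p : ℕ) [Fact p.Prime] (P : Sylow p N), ∀ a ∈ P, ∀ b ∈ P, a * b = b * a) :
    AbSyl N := by
  intro p hp Q hQ hQp a ha b hb
  haveI := Fact.mk hp
  have hQ' : IsPGroup p (Q.subgroupOf N) :=
    hQp.of_equiv (Subgroup.subgroupOfEquivOfLe hQ).symm
  obtain ⟨P, hP⟩ := hQ'.exists_le_sylow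
  have h := hab p P ⟨a, hQ ha⟩ (hP (Subgroup.mem_subgroupOf.2 ha)) ⟨b, hQ hb⟩
    (hP (Subgroup.mem_subgroupOf.2 hb))
  exact congrArg Subtype.val h

theorem abSyl_subgroupOf {G : Type u} [Group G] {N : Subgroup G} (h : AbSyl N) (T : Subgroup G) :
    AbSyl (N.subgroupOf T) := by
  intro p hp Q hQ hQp a ha b hb
  refine Subtype.ext ?_
  exact h p hp (Q.map T.subtype) (fun x ⟨y, hy, e⟩ => e ▸ Subgroup.mem_subgroupOf.1 (hQ hy))
    (hQp.map _) a ⟨a, ha, rfl⟩ b ⟨b, hb, rfl⟩

theorem abSyl_map {G : Type u} [Group G] [Finite G] {Q : Type u} [Group Q] {N : Subgroup G}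
    (h : AbSyl N) (f : G →* Q) : AbSyl (N.map f) := by
  intro p hp R hR hRp a ha b hb
  haveI := Fact.mk hp
  have hRp' : IsPGroup p (R.subgroupOf (N.map f)) :=
    hRp.of_equiv (Subgroup.subgroupOfEquivOfLe hR).symm
  obtain ⟨P, hP⟩ := hRp'.exists_le_sylow
  obtain ⟨P₀, rfl⟩ := Sylow.mapSurjective_surjective (f.subgroupMap_surjective N) p P
  obtain ⟨x, hx, hxa⟩ := hP (Subgroup.mem_subgroupOf.2 ha : ⟨a, hR ha⟩ ∈ R.subgroupOf (N.map f))
  obtain ⟨y, hy, hyb⟩ := hP (Subgroup.mem_subgroupOf.2 hb : ⟨b, hR hb⟩ ∈ R.subgroupOf (N.map f))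
  have hc := h p hp ((P₀ : Subgroup N).map N.subtype) (Subgroup.map_subtype_le _) (P₀.2.map _)
    x ⟨x, hx, rfl⟩ y ⟨y, hy, rfl⟩
  have e1 : f x = a := congrArg Subtype.val hxa
  have e2 : f y = b := congrArg Subtype.val hyb
  rw [← e1, ← e2, ← map_mul, ← map_mul, hc]

/-- A group of class at most two with commutative Sylow subgroups is commutative. -/
theorem comm_of_commutator_le_center {B : Type u} [Group B] [Finite B]
    (hc : commutator B ≤ Subgroup.center B) (h : AbSyl (⊤ : Subgroup B)) (a b : B) :
    a * b = b * a := by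
  have hn : ∀ (p : ℕ) [Fact p.Prime] (P : Sylow p B), (P : Subgroup B).Normal := by
    haveI : Group.IsNilpotent (B ⧸ Subgroup.center B) := by
      letI : CommGroup (B ⧸ Subgroup.center B) :=
        { (inferInstance : Group (B ⧸ Subgroup.center B)) with
          mul_comm := fun x y => by
            obtain ⟨x, rfl⟩ := QuotientGroup.mk_surjective x
            obtain ⟨y, rfl⟩ := QuotientGroup.mk_surjective y
            rw [← QuotientGroup.mk_mul, ← QuotientGroup.mk_mul, QuotientGroup.eq]
            refine hc ?_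
            rw [show (x * y)⁻¹ * (y * x) = ⁅y⁻¹, x⁻¹⁆ by rw [commutatorElement_def]; group]
            exact Subgroup.commutator_mem_commutator (Subgroup.mem_top _) (Subgroup.mem_top _) }
      infer_instance
    haveI : Group.IsNilpotent B := Group.of_quotient_center_nilpotent inferInstance
    intro p _ P
    infer_instance
  let e := Sylow.directProductOfNormal (G := B) (fun {p} _ P => hn p P)
  obtain ⟨x, rfl⟩ := e.surjective a
  obtain ⟨y, rfl⟩ := e.surjective b
  rw [← map_mul, ← map_mul]
  congr 1
  funext p P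
  exact Subtype.ext (h p (Nat.prime_of_mem_primeFactors p.2) P le_top P.2 _ (x p P).2 _ (y p P).2)

/-- Constituents of constituents are constituents. -/
theorem constituent_trans {X Y : Type u} [Group X] [Fintype X] [Group Y] [Fintype Y] (f : Y →* X)
    {φ : X → ℂ} (hφ : IsCharacter X φ) {ψ : X → ℂ} (hψ : IsIrrCharacter X ψ)
    (h : classInner φ ψ ≠ 0) {η : Y → ℂ} (hη : IsIrrCharacter Y η)
    (h' : classInner (fun y => ψ (f y)) η ≠ 0) : classInner (fun y => φ (f y)) η ≠ 0 := by
  classical
  letI : Fintype (IrrCharacter X) := Fintype.ofFinite _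
  obtain ⟨m, hm⟩ := IsCharacter.exists_sum hφ
  have hk : ∀ χ : IrrCharacter X, ∃ k : ℕ, classInner (fun y => (χ : X → ℂ) (f y)) η = k :=
    fun χ => IsCharacter.exists_classInner_eq_nat
      (CfsgLib.Coherence.isCharacter_comp (IsIrrCharacter.isCharacter χ.2) f) ⟨η, hη⟩
  choose k hk using hk
  have hm0 : m ⟨ψ, hψ⟩ ≠ 0 := fun h0 => h (by
    rw [hm, show classInner (∑ χ : IrrCharacter X, (m χ : ℂ) • (χ : X → ℂ)) ψ
      = (m ⟨ψ, hψ⟩ : ℂ) from classInner_sum_irr _ ⟨ψ, hψ⟩, h0, Nat.cast_zero])
  have e : classInner (fun y => φ (f y)) η = ((∑ χ, m χ * k χ : ℕ) : ℂ) := by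
    have e1 : (fun y => φ (f y))
        = ∑ χ : IrrCharacter X, (m χ : ℂ) • fun y => (χ : X → ℂ) (f y) := by
      funext y
      simp [hm, Finset.sum_apply]
    simp only [e1, classInner_sum_left, classInner_smul_left, hk, Nat.cast_sum, Nat.cast_mul]
  rw [e, Nat.cast_ne_zero]
  intro h0
  have := Finset.sum_eq_zero_iff.1 h0 ⟨ψ, hψ⟩ (Finset.mem_univ _)
  rcases Nat.mul_eq_zero.1 this with h1 | h1
  · exact hm0 h1
  · exact h' (by rw [hk ⟨ψ, hψ⟩, h1, Nat.cast_zero])

/-- A character with a constituent of full degree is that constituent. -/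
theorem eq_of_constituent_degree {X : Type u} [Group X] [Fintype X] {φ : X → ℂ}
    (hφ : IsCharacter X φ) {η : X → ℂ} (hη : IsIrrCharacter X η) (h : classInner φ η ≠ 0)
    (h1 : φ 1 = η 1) : φ = η := by
  classical
  letI : Fintype (IrrCharacter X) := Fintype.ofFinite _
  obtain ⟨m, hm⟩ := IsCharacter.exists_sum hφ
  let η' : IrrCharacter X := ⟨η, hη⟩
  have hdeg : ∀ χ : IrrCharacter X, ∃ d : ℕ, 0 < d ∧ (χ : X → ℂ) 1 = d :=
    fun χ => exists_degree_of_isIrr χ.2
  choose d hdpos hd using hdeg
  have hm0 : m η' ≠ 0 := fun h0 => h (by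
    rw [hm, show classInner (∑ χ : IrrCharacter X, (m χ : ℂ) • (χ : X → ℂ)) η
      = (m η' : ℂ) from classInner_sum_irr _ η', h0, Nat.cast_zero])
  have htot : d η' = ∑ χ, m χ * d χ := by
    have e := congrFun hm 1
    rw [h1, show η 1 = (d η' : ℂ) from hd η'] at e
    simp only [Finset.sum_apply, Pi.smul_apply, smul_eq_mul, hd] at e
    exact_mod_cast e
  rw [← Finset.add_sum_erase _ _ (Finset.mem_univ η')] at htot
  have hle : d η' ≤ m η' * d η' :=
    Nat.le_mul_of_pos_left _ (Nat.pos_of_ne_zero hm0)
  have hrest : ∑ χ ∈ Finset.univ.erase η', m χ * d χ = 0 := by omega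
  have hm1 : m η' = 1 := by
    refine Nat.eq_of_mul_eq_mul_right (hdpos η') ?_
    rw [one_mul]
    omega
  rw [hm, Finset.sum_eq_single η' (fun χ _ hne => ?_)
    (fun h => absurd (Finset.mem_univ _) h), hm1, Nat.cast_one, one_smul]
  rcases Nat.mul_eq_zero.1 (Finset.sum_eq_zero_iff.1 hrest χ
    (Finset.mem_erase.2 ⟨hne, Finset.mem_univ _⟩)) with h2 | h2
  · rw [h2, Nat.cast_zero, zero_smul]
  · exact absurd h2 (hdpos χ).ne'

/-- In a faithful setting, an invariant abelian normal subgroup is central. -/
theorem central_of_invariant {G : Type u} [Group G] [Fintype G] {χ : G → ℂ}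
    (hχ : IsIrrCharacter G χ) (hfaith : ∀ g : G, χ g = χ 1 → g = 1) (A : Subgroup G) [A.Normal]
    [Fintype A] {lam : A → ℂ} (hlam : IsIrrCharacter A lam) (hl1 : lam 1 = 1)
    (h0 : classInner (fun a : A => χ a) lam ≠ 0) (hinv : ∀ g : G, conjChar A lam g = lam) :
    A ≤ Subgroup.center G := by
  obtain ⟨μ, hμ⟩ := exists_hom_of_degree_one hlam hl1
  have hres := res_eq_of_invariant A hχ hlam hinv h0
  intro a ha
  rw [Subgroup.mem_center_iff]
  intro g
  let c : A := ⟨g * a * g⁻¹, (inferInstance : A.Normal).conj_mem a ha g⟩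
  have h1 : (μ c : ℂ) = μ ⟨a, ha⟩ := by
    have := congrFun (hinv g) ⟨a, ha⟩
    rw [hμ] at this
    exact this
  have h3 : lam (c * (⟨a, ha⟩ : A)⁻¹) = lam 1 := by
    rw [hμ]
    simp only [map_mul, map_inv, map_one, Units.ext h1, mul_inv_cancel, Units.val_one]
  have h4 := congrFun hres (c * (⟨a, ha⟩ : A)⁻¹)
  have h5 := congrFun hres 1
  rw [Pi.smul_apply, h3] at h4
  rw [Pi.smul_apply] at h5
  have h6 := hfaith (g * a * g⁻¹ * a⁻¹) (h4.trans h5.symm)
  calc g * a = g * a * g⁻¹ * a⁻¹ * (a * g) := by group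
    _ = a * g := by rw [h6, one_mul]

theorem aux (n : ℕ) : ∀ {G : Type u} [Group G] [Fintype G] (N : Subgroup G) [N.Normal],
    Nat.card G = n → Group.IsSolvable G → AbSyl N → ∀ (χ : G → ℂ), IsIrrCharacter G χ →
    IsIrrCharacter N (fun x : N => χ x) →
    ∃ (U : Subgroup G) (lam : U → ℂ), IsCharacter U lam ∧ lam 1 = 1 ∧ indFun U lam = χ := by
  induction n using Nat.strong_induction_on with
  | _ n ih =>
    intro G _ _ N _ hn hsolv hab χ hχ hN
    classical
    haveI := hsolv
    by_cases hd1 : χ 1 = 1
    · exact ⟨⊤, fun x => χ x,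
        CfsgLib.Coherence.isCharacter_comp (IsIrrCharacter.isCharacter hχ) (Subgroup.subtype ⊤), hd1,
        CfsgLib.Brauer.indFun_top (IsIrrCharacter.isClassFunction hχ)⟩
    obtain ⟨K, hKn, hKmem, -⟩ := exists_kernel (IsIrrCharacter.isCharacter hχ)
    haveI := hKn
    by_cases hKbot : K = ⊥
    swap
    · -- pass to the faithful quotient
      obtain ⟨ψ, hψ, hψχ⟩ := exists_descend hχ K (fun g hg => (hKmem g).1 hg)
      letI : Fintype (G ⧸ K) := Fintype.ofFinite _
      have hlt : Nat.card (G ⧸ K) < n := by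
        rw [← hn, ← K.card_mul_index, Subgroup.index_eq_card]
        exact lt_mul_left Nat.card_pos (K.one_lt_card_iff_ne_bot.2 hKbot)
      set N' := N.map (QuotientGroup.mk' K) with hN'
      haveI : N'.Normal := Subgroup.Normal.map inferInstance _ (QuotientGroup.mk'_surjective K)
      have hN'irr : IsIrrCharacter N' (fun x : N' => ψ x) := by
        let f : N →* N' := (QuotientGroup.mk' K).subgroupMap N
        have hf : Function.Surjective f := (QuotientGroup.mk' K).subgroupMap_surjective N
        obtain ⟨ψ', hψ', hval⟩ := exists_descend hN f.ker (fun g hg => by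
          have h1 : (((g : G) : G ⧸ K)) = 1 := congrArg Subtype.val (MonoidHom.mem_ker.1 hg)
          show χ g = χ ((1 : N) : G)
          rw [hψχ, h1, Subgroup.coe_one, hψχ, QuotientGroup.mk_one])
        let e := QuotientGroup.quotientKerEquivOfSurjective f hf
        have h := isIrrCharacter_comp_mulEquiv hψ' e.symm
        have he : (fun x : N' => ψ x) = fun x => ψ' (e.symm x) := funext fun x => by
          obtain ⟨y, rfl⟩ := hf x
          rw [show e.symm (f y) = (y : N ⧸ f.ker) from e.symm_apply_eq.2 rfl, ← hval]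
          exact (hψχ y).symm
        rw [he]
        exact h
      obtain ⟨U, lam, hlam, hlam1, hind⟩ := ih _ hlt N' rfl inferInstance
        (abSyl_map hab (QuotientGroup.mk' K)) ψ hψ hN'irr
      set U' := U.comap (QuotientGroup.mk' K) with hU'
      have hmap : U'.map (QuotientGroup.mk' K) = U :=
        Subgroup.map_comap_eq_self_of_surjective (QuotientGroup.mk'_surjective K) U
      let f : U' →* U := (QuotientGroup.mk' K).subgroupComap U
      refine ⟨U', fun x => lam (f x), CfsgLib.Coherence.isCharacter_comp hlam f, ?_, funext fun g => ?_⟩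
      · show lam (f 1) = 1
        rw [map_one, hlam1]
      letI : Fintype ↥(U'.map (QuotientGroup.mk' K)) := Fintype.ofFinite _
      rw [← S1488.result K U' (fun x hx => by
          rw [hU', Subgroup.mem_comap, QuotientGroup.mk'_apply, (QuotientGroup.eq_one_iff x).2 hx]
          exact U.one_mem) (fun x => lam (f x))
        (fun y => lam ⟨y, hmap.le y.2⟩) (fun x => rfl) g,
        CfsgLib.Brauer.indFun_congr hmap (fun y => lam ⟨y, hmap.le y.2⟩) lam (fun g hg hg' => rfl),
        hind, hψχ]
      rfl
    -- the faithful case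
    have hfaith : ∀ g : G, χ g = χ 1 → g = 1 := fun g hg =>
      Subgroup.mem_bot.1 (hKbot ▸ (hKmem g).2 hg)
    by_cases hall : ∀ A : Subgroup G, A.Normal → A ≤ N → (∀ a ∈ A, ∀ b ∈ A, a * b = b * a) →
        A ≤ Subgroup.center G
    · -- `N` is abelian, so `χ` is linear
      exfalso
      refine hd1 ?_
      have hNcomm : ∀ a b : N, a * b = b * a := by
        by_contra hne
        let D : ℕ → Subgroup G := fun k => (derivedSeries N k).map N.subtype
        have hex : ∃ k, D k ≤ Subgroup.center G := by
          obtain ⟨m, hm⟩ := (inferInstance : Group.IsSolvable N)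
          exact ⟨m, by simp [D, hm]⟩
        have hspec := Nat.find_spec hex
        have hkpos : Nat.find hex ≠ 0 := fun h0 => by
          rw [h0] at hspec
          refine hne fun a b => Subtype.ext ?_
          exact (Subgroup.mem_center_iff.1 (hspec ⟨b, Subgroup.mem_top b, rfl⟩) a)
        obtain ⟨j, hj⟩ := Nat.exists_eq_succ_of_ne_zero hkpos
        rw [hj] at hspec
        refine Nat.find_min hex (show j < Nat.find hex by omega) ?_
        have hDn : (D j).Normal := inferInstance
        refine hall (D j) hDn (Subgroup.map_subtype_le _) ?_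
        have hc : commutator (D j) ≤ Subgroup.center (D j) := by
          intro x hx
          rw [Subgroup.mem_center_iff]
          intro y
          have hx' : (x : G) ∈ Subgroup.center G := by
            refine hspec ?_
            show (x : G) ∈ (derivedSeries N (j + 1)).map N.subtype
            rw [derivedSeries_succ, Subgroup.map_commutator]
            have h := Subgroup.mem_map_of_mem (D j).subtype hx
            rw [Subgroup.map_subtype_commutator] at h
            exact h
          exact Subtype.ext (Subgroup.mem_center_iff.1 hx' y)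
        have hb : AbSyl (⊤ : Subgroup (D j)) := fun p hp Q _ hQp a ha b hb => Subtype.ext
          (hab p hp (Q.map (D j).subtype)
            (fun x hx => Subgroup.map_subtype_le _ (Subgroup.map_subtype_le _ hx)) (hQp.map _)
            a ⟨a, ha, rfl⟩ b ⟨b, hb, rfl⟩)
        intro a ha b hb'
        exact congrArg Subtype.val (comm_of_commutator_le_center hc hb ⟨a, ha⟩ ⟨b, hb'⟩)
      simpa using apply_one_eq_one_of_comm hNcomm hN
    -- a noncentral abelian normal subgroup inside `N`
    push Not at hall
    obtain ⟨A, hAn, hAN, hAab, hAc⟩ := hall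
    haveI := hAn
    letI : Fintype A := Fintype.ofFinite _
    obtain ⟨⟨l, hl⟩, h0⟩ := exists_constituent A (IsIrrCharacter.isCharacter hχ)
      (apply_one_ne_zero_of_isIrr hχ)
    have hl1 : l 1 = 1 :=
      apply_one_eq_one_of_comm (fun a b => Subtype.ext (hAab a a.2 b b.2)) hl
    set T := inertia A l with hTdef
    have hTtop : T ≠ ⊤ := fun e => hAc (central_of_invariant hχ hfaith A hl hl1 h0
      fun g => (mem_inertia A l g).1 (by rw [← hTdef, e]; exact Subgroup.mem_top g))
    have hAT : A ≤ T := le_inertia A (IsIrrCharacter.isClassFunction hl)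
    letI : Fintype T := Fintype.ofFinite T
    obtain ⟨ψ, hψ, hind, hmult⟩ := exists_indFun_inertia_eq hl (mem_inertia A l) hAT hχ h0
    have hψl : classInner (fun a : A => ψ ⟨(a : G), hAT a.2⟩) l ≠ 0 := by rw [hmult]; exact h0
    have hψres := res_eq_of_invariant_of_le hAT hl (fun g hg => (mem_inertia A l g).1 hg) hψ hψl
    have hlt : Nat.card T < n := by
      rw [← hn]
      exact lt_of_le_of_ne (Subgroup.card_le_card_group T)
        fun h => hTtop (Subgroup.card_eq_iff_eq_top T |>.1 h)
    -- the restriction of `ψ` to `T ⊓ N` is irreducible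
    have hψN : IsIrrCharacter (N.subgroupOf T) (fun x : N.subgroupOf T => ψ x) := by
      letI : Fintype N := Fintype.ofFinite _
      letI : Fintype (N.subgroupOf T) := Fintype.ofFinite _
      letI : Fintype (T.subgroupOf N) := Fintype.ofFinite _
      letI : Fintype (A.subgroupOf N) := Fintype.ofFinite _
      let σ : T.subgroupOf N ≃* N.subgroupOf T :=
        { toFun := fun x => ⟨⟨((x : N) : G), Subgroup.mem_subgroupOf.1 x.2⟩,
            Subgroup.mem_subgroupOf.2 (x : N).2⟩
          invFun := fun x => ⟨⟨((x : T) : G), Subgroup.mem_subgroupOf.1 x.2⟩,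
            Subgroup.mem_subgroupOf.2 (x : T).2⟩
          left_inv := fun _ => rfl
          right_inv := fun _ => rfl
          map_mul' := fun _ _ => rfl }
      have hψχ : classInner (fun t : T => χ t) ψ ≠ 0 := fun hz => by
        have h := classInner_self_of_isIrr hχ
        nth_rewrite 1 [← hind] at h
        rw [classInner_indFun T ψ _ (IsIrrCharacter.isClassFunction hχ), classInner_conj_symm, hz,
          map_zero] at h
        exact zero_ne_one h
      have hχT : IsCharacter T (fun t : T => χ t) :=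
        CfsgLib.Coherence.isCharacter_comp (IsIrrCharacter.isCharacter hχ) T.subtype
      obtain ⟨⟨η, hη⟩, hηψ⟩ := exists_constituent (N.subgroupOf T)
        (IsIrrCharacter.isCharacter hψ) (apply_one_ne_zero_of_isIrr hψ)
      have hηχ : classInner (fun x : N.subgroupOf T => χ (x : T)) η ≠ 0 :=
        constituent_trans (N.subgroupOf T).subtype hχT hψ hψχ hη hηψ
      have hηirr1 : IsIrrCharacter (T.subgroupOf N) (fun x => η (σ x)) :=
        isIrrCharacter_comp_mulEquiv hη σ
      have hηθ : classInner (fun x : T.subgroupOf N => χ ((x : N) : G)) (fun x => η (σ x)) ≠ 0 := by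
        have h := classInner_comp_mulEquiv σ (fun x : N.subgroupOf T => χ (x : T)) η
        exact fun hz => hηχ (h.symm.trans hz)
      -- everything inside `N`
      let εA : A.subgroupOf N ≃* A := Subgroup.subgroupOfEquivOfLe hAN
      let l1 : A.subgroupOf N → ℂ := fun x => l (εA x)
      have hl1irr : IsIrrCharacter (A.subgroupOf N) l1 := isIrrCharacter_comp_mulEquiv hl εA
      have hT1 : ∀ x : N, x ∈ T.subgroupOf N ↔ conjChar (A.subgroupOf N) l1 x = l1 := by
        intro x
        rw [Subgroup.mem_subgroupOf]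
        refine (mem_inertia A l (x : G)).trans ?_
        constructor
        · intro h
          funext y
          exact congrFun h (εA y)
        · intro h
          funext a
          exact congrFun h (εA.symm a)
      have hA1 : A.subgroupOf N ≤ T.subgroupOf N := fun x hx => hAT hx
      let inj : A →* N.subgroupOf T :=
        { toFun := fun a => ⟨⟨(a : G), hAT a.2⟩, Subgroup.mem_subgroupOf.2 (hAN a.2)⟩
          map_one' := rfl
          map_mul' := fun _ _ => rfl }
      -- `η` lies over `l`
      have hηl : classInner (fun a : A => η (inj a)) l ≠ 0 := by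
        intro hz
        obtain ⟨⟨μ, hμ⟩, hμ0⟩ := exists_constituent (⊤ : Subgroup A)
          (CfsgLib.Coherence.isCharacter_comp (IsIrrCharacter.isCharacter hη) inj)
          (show η (inj 1) ≠ 0 by rw [map_one]; exact apply_one_ne_zero_of_isIrr hη)
        let μ' : A → ℂ := fun a => μ (Subgroup.topEquiv.symm a)
        have hμ' : IsIrrCharacter A μ' := isIrrCharacter_comp_mulEquiv hμ Subgroup.topEquiv.symm
        have h1 : classInner (fun a : A => η (inj a)) μ' ≠ 0 := by
          rw [← classInner_comp_mulEquiv (Subgroup.topEquiv (G := A))]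
          have e1 : (fun x : (⊤ : Subgroup A) => μ' (Subgroup.topEquiv x)) = μ :=
            funext fun x => congrArg μ (Subgroup.topEquiv.symm_apply_apply x)
          rw [e1]
          exact hμ0
        have h2 : classInner (fun a : A => ψ ⟨(a : G), hAT a.2⟩) μ' ≠ 0 :=
          constituent_trans inj
            (CfsgLib.Coherence.isCharacter_comp (IsIrrCharacter.isCharacter hψ)
              (N.subgroupOf T).subtype) hη hηψ hμ' h1
        rw [hψres, classInner_smul_left] at h2
        by_cases he : l = μ'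
        · exact h1 (by rw [← he]; exact hz)
        · exact h2 (by rw [classInner_eq_zero_of_ne hl hμ' he, mul_zero])
      have hη1l : classInner (fun y : A.subgroupOf N => η (σ ⟨(y : N), hA1 y.2⟩)) l1
          = classInner (fun a : A => η (inj a)) l :=
        classInner_comp_mulEquiv εA (fun a : A => η (inj a)) l
      obtain ⟨hirr, hmult1⟩ := isIrrCharacter_indFun_inertia hl1irr hT1 hA1 hηirr1
        (by rw [hη1l]; exact hηl)
      have hθeq : indFun (T.subgroupOf N) (fun x => η (σ x)) = fun x : N => χ x := by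
        by_contra hne
        have h := classInner_eq_zero_of_ne hirr hN hne
        rw [classInner_indFun _ _ _ (IsIrrCharacter.isClassFunction hN), classInner_conj_symm] at h
        exact hηθ (by simpa using h)
      rw [hθeq, hη1l, show classInner (fun y : A.subgroupOf N => χ ((y : N) : G)) l1
        = classInner (fun a : A => χ a) l from
          classInner_comp_mulEquiv εA (fun a : A => χ a) l] at hmult1
      -- degrees
      have hdegψ : ψ 1 = classInner (fun a : A => χ a) l := by
        have h := congrFun hψres 1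
        rw [hmult, Pi.smul_apply, hl1, smul_eq_mul, mul_one] at h
        exact h
      have hdegη : η 1 = classInner (fun a : A => η (inj a)) l := by
        have hinvη : ∀ g ∈ T.subgroupOf N, conjChar (A.subgroupOf N) l1 g = l1 :=
          fun g hg => (hT1 g).1 hg
        have h := congrFun (res_eq_of_invariant_of_le hA1 hl1irr hinvη hηirr1
          (by rw [hη1l]; exact hηl)) 1
        rw [hη1l, Pi.smul_apply, show l1 1 = 1 by show l (εA 1) = 1; rw [map_one, hl1],
          smul_eq_mul, mul_one] at h
        rw [← h]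
        exact congrArg η (map_one σ).symm
      have key := eq_of_constituent_degree (φ := fun x : N.subgroupOf T => ψ x)
        (CfsgLib.Coherence.isCharacter_comp (IsIrrCharacter.isCharacter hψ) (N.subgroupOf T).subtype)
        hη hηψ (by show ψ ((1 : N.subgroupOf T) : T) = η 1; rw [Subgroup.coe_one, hdegψ, hdegη, hmult1])
      rw [key]
      exact hη
    obtain ⟨U, lam, hlam, hlam1, hindU⟩ :=
      ih _ hlt (N.subgroupOf T) rfl inferInstance (abSyl_subgroupOf hab T) ψ hψ hψN
    let ε := U.equivMapOfInjective T.subtype T.subtype_injective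
    refine ⟨U.map T.subtype, fun k => lam (ε.symm k),
      CfsgLib.Coherence.isCharacter_comp hlam ε.symm.toMonoidHom,
      show lam (ε.symm 1) = 1 by rw [map_one, hlam1], ?_⟩
    rw [← CfsgLib.Brauer.indFun_indFun_map T U lam, hindU, hind]

theorem result {G : Type*} [Group G] [Fintype G] [Group.IsSolvable G] (N : Subgroup G) [N.Normal] (hab : ∀ (p : ℕ) [Fact p.Prime] (P : Sylow p N), ∀ a ∈ P, ∀ b ∈ P, a * b = b * a) (hrel : ∀ χ : G → ℂ, Cfsg.IsIrrCharacter G χ → ∃ (H : Subgroup G) (hNH : N ≤ H) (ψ : H → ℂ), Cfsg.IsIrrCharacter H ψ ∧ Cfsg.indFun H ψ = χ ∧ Cfsg.IsIrrCharacter N (fun n : N => ψ ⟨(n : G), hNH n.2⟩)) (χ : G → ℂ) (hχ : Cfsg.IsIrrCharacter G χ) : ∃ (U : Subgroup G) (lam : U → ℂ), Cfsg.IsCharacter U lam ∧ lam 1 = 1 ∧ Cfsg.indFun U lam = χ := by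
  classical
  obtain ⟨H, hNH, ψ, hψ, hind, hres⟩ := hrel χ hχ
  letI : Fintype H := Fintype.ofFinite _
  obtain ⟨U, lam, hlam, hlam1, hindU⟩ := aux (Nat.card H) (N.subgroupOf H) rfl inferInstance
    (abSyl_subgroupOf (abSyl_of_sylow N hab) H) ψ hψ
    (isIrrCharacter_comp_mulEquiv hres (Subgroup.subgroupOfEquivOfLe hNH))
  let ε := U.equivMapOfInjective H.subtype H.subtype_injective
  refine ⟨U.map H.subtype, fun k => lam (ε.symm k),
    CfsgLib.Coherence.isCharacter_comp hlam ε.symm.toMonoidHom,
      show lam (ε.symm 1) = 1 by rw [map_one, hlam1], ?_⟩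
  rw [← CfsgLib.Brauer.indFun_indFun_map H U lam, hindU, hind]

end Cfsg.Agent.S0859
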