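import Cfsg.Statements.S0860
import Cfsg.Agent.Lib.CharTheory.Orthogonality

set_option autoImplicit false
set_option linter.style.haveILetI false
open scoped ComplexConjugate
open Cfsg

namespace Cfsg.Agent.S0860

theorem result {G : Type*} [Group G] [Finite G] {A : Type*} [Group A] [MulAction A (Cfsg.IrrCharacter G)] [MulAction A (ConjClasses G)] (hcompat : ∀ (a : A) (χ : Cfsg.IrrCharacter G) (g g' : G), ConjClasses.mk g' = a • ConjClasses.mk g → ((a • χ : Cfsg.IrrCharacter G) : G → ℂ) g' = (χ : G → ℂ) g) (a : A) : Nat.card {χ : Cfsg.IrrCharacter G // a • χ = χ} = Nat.card {C : ConjClasses G // a • C = C} := by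
  classical
  letI : Fintype G := Fintype.ofFinite G
  letI : Fintype (IrrCharacter G) := Fintype.ofFinite _
  letI : Fintype (ConjClasses G) := Fintype.ofFinite _
  let r : G → G := fun g => (a⁻¹ • ConjClasses.mk g).out
  have hr : ∀ g, ConjClasses.mk (r g) = a⁻¹ • ConjClasses.mk g := fun g => Quotient.out_eq _
  have hval : ∀ (χ : IrrCharacter G) (g : G),
      ((a • χ : IrrCharacter G) : G → ℂ) g = (χ : G → ℂ) (r g) := fun χ g =>
    hcompat a χ (r g) g (by rw [hr, smul_inv_smul])
  have hiff : ∀ g, IsConj (r g) g ↔ a • ConjClasses.mk g = ConjClasses.mk g := fun g => by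
    rw [← ConjClasses.mk_eq_mk_iff_isConj, hr, inv_smul_eq_iff, eq_comm]
  have h1 : (Nat.card {χ : IrrCharacter G // a • χ = χ} : ℂ)
      = ∑ χ : IrrCharacter G, classInner ((a • χ : IrrCharacter G) : G → ℂ) (χ : G → ℂ) := by
    rw [Nat.card_eq_fintype_card, Fintype.card_subtype, ← Finset.sum_boole]
    refine Finset.sum_congr rfl fun χ _ => ?_
    rw [CfsgLib.CharTheory.classInner_irrCharacter]
  have hG0 : (Nat.card G : ℂ) ≠ 0 := Nat.cast_ne_zero.2 Nat.card_pos.ne'
  have hcl : ∀ g : G, ((Finset.univ.filter fun x : G => ConjClasses.mk x = ConjClasses.mk g).card : ℂ)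
      * (Nat.card (Subgroup.centralizer ({g} : Set G)) : ℂ) = Nat.card G := fun g => by
    have e : (Finset.univ.filter fun x : G => ConjClasses.mk x = ConjClasses.mk g).card
        = Nat.card {x : G // IsConj g x} := by
      rw [Nat.card_eq_fintype_card, Fintype.card_subtype]
      congr 1
      ext x
      simp only [Finset.mem_filter, Finset.mem_univ, true_and, ConjClasses.mk_eq_mk_iff_isConj]
      exact isConj_comm
    rw [e, CfsgLib.CharTheory.card_isConj, mul_comm]
    exact_mod_cast Subgroup.card_mul_index _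
  have h2 : (Nat.card {C : ConjClasses G // a • C = C} : ℂ) * Nat.card G
      = ∑ g : G, if a • ConjClasses.mk g = ConjClasses.mk g then
          (Nat.card (Subgroup.centralizer ({g} : Set G)) : ℂ) else 0 := by
    rw [Nat.card_eq_fintype_card, Fintype.card_subtype, ← Finset.sum_boole, Finset.sum_mul]
    conv_rhs => rw [← Finset.sum_fiberwise Finset.univ ConjClasses.mk]
    refine Finset.sum_congr rfl fun C _ => ?_
    obtain ⟨g, rfl⟩ := ConjClasses.exists_rep C
    have hx : ∀ x ∈ Finset.univ.filter (fun x : G => ConjClasses.mk x = ConjClasses.mk g),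
        (Nat.card (Subgroup.centralizer ({x} : Set G)) : ℂ)
          = Nat.card (Subgroup.centralizer ({g} : Set G)) := by
      intro x hx
      have e := hcl x
      rw [(Finset.mem_filter.1 hx).2, ← hcl g] at e
      refine mul_left_cancel₀ (fun h0 => hG0 ?_) e
      rw [← hcl g, h0, zero_mul]
    rw [Finset.sum_congr rfl (g := fun _ => if a • ConjClasses.mk g = ConjClasses.mk g then
        (Nat.card (Subgroup.centralizer ({g} : Set G)) : ℂ) else 0) (fun x hxm => by
      rw [(Finset.mem_filter.1 hxm).2, hx x hxm]), Finset.sum_const, nsmul_eq_mul]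
    split_ifs with hfix
    · rw [one_mul]; exact (hcl g).symm
    · rw [zero_mul, mul_zero]
  have h3 : (Nat.card {χ : IrrCharacter G // a • χ = χ} : ℂ)
      = (Nat.card {C : ConjClasses G // a • C = C} : ℂ) := by
    rw [h1]
    apply mul_right_cancel₀ hG0
    rw [h2, Finset.sum_mul]
    simp only [classInner, hval, mul_comm _ (Nat.card G : ℂ), ← mul_assoc, mul_inv_cancel₀ hG0,
      one_mul]
    rw [Finset.sum_comm]
    refine Finset.sum_congr rfl fun g _ => ?_
    rw [CfsgLib.CharTheory.sum_mul_conj]
    by_cases hc : IsConj (r g) g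
    · rw [if_pos hc, if_pos ((hiff g).1 hc)]
      have hh : Nat.card (Subgroup.centralizer ({r g} : Set G))
          = Nat.card (Subgroup.centralizer ({g} : Set G)) := by
        obtain ⟨y, hy⟩ := isConj_iff.1 hc
        have e1 := hcl (r g)
        have e2 := hcl g
        rw [ConjClasses.mk_eq_mk_iff_isConj.2 hc, ← e2] at e1
        refine (Nat.cast_inj (R := ℂ)).1 (mul_left_cancel₀ (fun h0 => hG0 ?_) e1)
        rw [← e2, h0, zero_mul]
      rw [hh]
    · rw [if_neg hc, if_neg fun h => hc ((hiff g).2 h)]
  exact_mod_cast h3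

end Cfsg.Agent.S0860
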