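import Cfsg.Statements.S0861
import Cfsg.Agent.Lib.Clifford.NonVanish
import Cfsg.Agent.Lib.CharTheory.Ito
import Cfsg.Agent.Lib.CharTheory.Linear

set_option autoImplicit false
set_option linter.style.haveILetI false
open Cfsg CfsgLib.CharTheory
open scoped ComplexConjugate

namespace Cfsg.Agent.S0861

theorem result {G : Type*} [Group G] [Finite G] (p : ℕ) [Fact p.Prime] (P : Sylow p G) [(P : Subgroup G).Normal] (hab : ∀ a ∈ P, ∀ b ∈ P, a * b = b * a) (g : G) (hg : g ∈ P) (hC : Subgroup.centralizer ({g} : Set G) = P) : Nat.card (Cfsg.IrrCharacter G) ≤ Nat.card P ∧ (Nat.card (Cfsg.IrrCharacter G) = Nat.card P → commutator G ≤ P) := by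
  classical
  letI : Fintype G := Fintype.ofFinite G
  letI : Fintype (IrrCharacter G) := Fintype.ofFinite _
  haveI : NeZero (orderOf g) := ⟨(orderOf_pos g).ne'⟩
  set n := orderOf g with hn
  have hgn : g ^ n = 1 := pow_orderOf_eq_one g
  have hpp : p.Prime := Fact.out
  have hnv : ∀ χ : IrrCharacter G, (χ : G → ℂ) g ≠ 0 := fun χ => by
    obtain ⟨d, hd, hdvd⟩ := exists_degree_dvd_index_of_abelian χ.2 (P : Subgroup G) hab
    obtain ⟨k, hk⟩ := P.2 ⟨g, hg⟩
    exact CfsgLib.Clifford.apply_ne_zero_of_pow_prime_pow (IsIrrCharacter.isCharacter χ.2) hpp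
      (k := k) (by simpa using congrArg Subtype.val hk) hd (fun h => P.not_dvd_index (h.trans hdvd))
  -- the column sums at the powers of `g`
  have hcol : ∀ u : (ZMod n)ˣ, ∑ χ : IrrCharacter G, ‖(χ : G → ℂ) (g ^ (u : ZMod n).val)‖ ^ 2
      = (Nat.card P : ℝ) := by
    intro u
    have hcent : Subgroup.centralizer ({g ^ (u : ZMod n).val} : Set G) = (P : Subgroup G) := by
      rw [← hC]
      ext x
      simp only [Subgroup.mem_centralizer_singleton_iff]
      refine ⟨fun h => ?_, fun h => (Commute.pow_right (show Commute x g from h) _).eq⟩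
      have e : g = (g ^ (u : ZMod n).val) ^ ((u⁻¹ : (ZMod n)ˣ) : ZMod n).val := by
        rw [← pow_mul, pow_eq_pow_mod _ hgn, ← ZMod.val_mul, ← Units.val_mul, mul_inv_cancel,
          Units.val_one]
        rcases eq_or_ne n 1 with h1 | h1
        · have : g = 1 := orderOf_eq_one_iff.1 h1
          simp [this]
        · haveI : Fact (1 < n) := ⟨by have := NeZero.pos n; omega⟩
          rw [ZMod.val_one, pow_one]
      rw [e]
      exact (Commute.pow_right (show Commute x (g ^ (u : ZMod n).val) from h) _).eq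
    have h1 := sum_mul_conj (g ^ (u : ZMod n).val) (g ^ (u : ZMod n).val)
    rw [if_pos (IsConj.refl _), hcent] at h1
    have h2 : ∀ χ : IrrCharacter G, (χ : G → ℂ) (g ^ (u : ZMod n).val)
        * conj ((χ : G → ℂ) (g ^ (u : ZMod n).val))
        = ((‖(χ : G → ℂ) (g ^ (u : ZMod n).val)‖ ^ 2 : ℝ) : ℂ) := fun χ => by
      rw [Complex.mul_conj']; push_cast; rfl
    simp only [h2, ← Complex.ofReal_sum] at h1
    exact_mod_cast h1
  have hrow : ∀ χ : IrrCharacter G, (Fintype.card (ZMod n)ˣ : ℝ)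
      ≤ ∑ u : (ZMod n)ˣ, ‖(χ : G → ℂ) (g ^ (u : ZMod n).val)‖ ^ 2 := fun χ =>
    CfsgLib.Jordan.totient_le_sum_norm_sq (IsIrrCharacter.isCharacter χ.2) hgn (hnv χ)
  set φ := Fintype.card (ZMod n)ˣ with hφ
  have hφ0 : (0 : ℝ) < (φ : ℝ) := by exact_mod_cast Fintype.card_pos
  have htot : ∑ χ : IrrCharacter G, ∑ u : (ZMod n)ˣ, ‖(χ : G → ℂ) (g ^ (u : ZMod n).val)‖ ^ 2
      = (φ : ℝ) * Nat.card P := by
    rw [Finset.sum_comm, Finset.sum_congr rfl fun u _ => hcol u, Finset.sum_const, Finset.card_univ,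
      nsmul_eq_mul]
  have hle : Nat.card (IrrCharacter G) ≤ Nat.card P := by
    have h := Finset.sum_le_sum (s := Finset.univ) fun χ _ => hrow χ
    rw [htot, Finset.sum_const, Finset.card_univ, nsmul_eq_mul, mul_comm,
      mul_le_mul_iff_right₀ hφ0, Fintype.card_eq_nat_card] at h
    exact_mod_cast h
  refine ⟨hle, fun heq => ?_⟩
  have heach : ∀ χ : IrrCharacter G, (φ : ℝ)
      = ∑ u : (ZMod n)ˣ, ‖(χ : G → ℂ) (g ^ (u : ZMod n).val)‖ ^ 2 := fun χ => by
    refine (Finset.sum_eq_sum_iff_of_le fun χ _ => hrow χ).1 ?_ χ (Finset.mem_univ _)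
    rw [htot, Finset.sum_const, Finset.card_univ, nsmul_eq_mul, Fintype.card_eq_nat_card, heq,
      mul_comm]
  -- the characters of the quotient are linear
  have hlin : ∀ ψ : IrrCharacter (G ⧸ (P : Subgroup G)), (ψ : (G ⧸ (P : Subgroup G)) → ℂ) 1 = 1 := by
    intro ψ
    obtain ⟨d, hdpos, hd⟩ := exists_degree_of_isIrr ψ.2
    let χ : IrrCharacter G := ⟨_, isIrrCharacter_comp ψ.2
      (QuotientGroup.mk'_surjective (P : Subgroup G))⟩
    have hval : ∀ t : ℕ, (χ : G → ℂ) (g ^ t) = (d : ℂ) := fun t => by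
      show (ψ : (G ⧸ (P : Subgroup G)) → ℂ) (QuotientGroup.mk' (P : Subgroup G) (g ^ t)) = _
      rw [QuotientGroup.mk'_apply, (QuotientGroup.eq_one_iff _).2 (pow_mem hg t), hd]
    have h := heach χ
    simp only [hval, Complex.norm_natCast, Finset.sum_const, Finset.card_univ, nsmul_eq_mul] at h
    have hd1 : (d : ℝ) ^ 2 = 1 := mul_left_cancel₀ hφ0.ne' (h.symm.trans (mul_one _).symm)
    have : d = 1 := by
      have h2 : d ^ 2 = 1 := by exact_mod_cast hd1
      exact (Nat.pow_eq_one.1 h2).resolve_right two_ne_zero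
    rw [hd, this, Nat.cast_one]
  have hc : commutator (G ⧸ (P : Subgroup G)) = ⊥ := by
    letI : Fintype (IrrCharacter (G ⧸ (P : Subgroup G))) := Fintype.ofFinite _
    have hcl := card_linear (G := G ⧸ (P : Subgroup G))
    rw [Nat.card_congr (Equiv.subtypeUnivEquiv hlin)] at hcl
    letI : Fintype (G ⧸ (P : Subgroup G)) := Fintype.ofFinite _
    have hs := sum_degree_sq (G := G ⧸ (P : Subgroup G))
    simp only [hlin, one_pow, Finset.sum_const, Finset.card_univ, nsmul_eq_mul, mul_one,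
      Fintype.card_eq_nat_card] at hs
    have hs' : Nat.card (IrrCharacter (G ⧸ (P : Subgroup G))) = Nat.card (G ⧸ (P : Subgroup G)) := by
      exact_mod_cast hs
    rw [hs', ← (commutator (G ⧸ (P : Subgroup G))).card_mul_index] at hcl
    exact Subgroup.card_eq_one.1 (Nat.eq_of_mul_eq_mul_right
      (Nat.pos_of_ne_zero Subgroup.index_ne_zero_of_finite) (hcl.trans (one_mul _).symm))
  intro x hx
  have h1 : (QuotientGroup.mk' (P : Subgroup G)) x ∈ commutator (G ⧸ (P : Subgroup G)) := by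
    have h2 : (commutator G).map (QuotientGroup.mk' (P : Subgroup G))
        ≤ commutator (G ⧸ (P : Subgroup G)) := by
      rw [commutator_def, commutator_def, Subgroup.map_commutator]
      exact Subgroup.commutator_mono le_top le_top
    exact h2 (Subgroup.mem_map_of_mem _ hx)
  rw [hc, Subgroup.mem_bot] at h1
  exact (QuotientGroup.eq_one_iff x).1 h1

end Cfsg.Agent.S0861
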