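import Cfsg.Statements.S0864
import Cfsg.Agent.Lib.Clifford.Extension

set_option autoImplicit false
open Cfsg CfsgLib.Clifford

namespace Cfsg.Agent.S0864

theorem result {G : Type*} [Group G] [Finite G] (N : Subgroup G) [hN : N.Normal] (lam : N → ℂ) (hlam : Cfsg.IsCharacter N lam ∧ lam 1 = 1) (hinv : ∀ (g : G) (n : N), lam ⟨g * n * g⁻¹, hN.conj_mem (n : G) n.2 g⟩ = lam n) (hsyl : ∀ p : ℕ, p.Prime → p ∣ orderOf lam → ∃ (H : Subgroup G) (hNH : N ≤ H) (ν : H → ℂ), Nat.Coprime H.index p ∧ (∃ k : ℕ, N.relIndex H = p ^ k) ∧ Cfsg.IsCharacter H ν ∧ ν 1 = 1 ∧ ∀ n : N, ν ⟨(n : G), hNH n.2⟩ = lam n) : ∃ μ : G → ℂ, Cfsg.IsCharacter G μ ∧ μ 1 = 1 ∧ ∀ n : N, μ n = lam n := by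
  obtain ⟨l, rfl⟩ := exists_linFun_of_isCharacter hlam.1 hlam.2
  obtain ⟨μ, hμ⟩ := exists_extension_linear (lam := l) (fun g n => Units.ext (hinv g n))
    (fun p hp hpo => by
      obtain ⟨H, hNH, ν, hi, -, hν, hν1, hνn⟩ := hsyl p hp (by rwa [orderOf_linFun])
      obtain ⟨m, rfl⟩ := exists_linFun_of_isCharacter hν hν1
      exact ⟨H, hNH, m, fun hd => hp.ne_one (Nat.eq_one_of_dvd_coprimes hi hd dvd_rfl),
        fun n => Units.ext (hνn n)⟩)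
  exact ⟨linFun μ, isCharacter_linFun μ, by simp [linFun_apply], fun n => congrArg Units.val (hμ n)⟩

end Cfsg.Agent.S0864
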