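import Cfsg.Statements.S0865
import Cfsg.Agent.Lib.Clifford.Extension

set_option autoImplicit false
open Cfsg CfsgLib.Clifford

namespace Cfsg.Agent.S0865

theorem result {G : Type*} [Group G] [Finite G] (N : Subgroup G) [hN : N.Normal] (lam : N → ℂ) (hlam : Cfsg.IsCharacter N lam ∧ lam 1 = 1) (hinv : ∀ (g : G) (n : N), lam ⟨g * n * g⁻¹, hN.conj_mem (n : G) n.2 g⟩ = lam n) (hcop : Nat.Coprime N.index (orderOf lam)) : ∃ μ : G → ℂ, (Cfsg.IsCharacter G μ ∧ μ 1 = 1 ∧ (∀ n : N, μ n = lam n) ∧ orderOf μ = orderOf lam) ∧ ∀ μ' : G → ℂ, Cfsg.IsCharacter G μ' ∧ μ' 1 = 1 → (∀ n : N, μ' n = lam n) → Nat.Coprime N.index (orderOf μ') → μ' = μ := by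
  obtain ⟨l, rfl⟩ := exists_linFun_of_isCharacter hlam.1 hlam.2
  rw [orderOf_linFun] at hcop
  obtain ⟨μ, ⟨hμ, ho⟩, huniq⟩ :=
    exists_unique_extension_linear (lam := l) (fun g n => Units.ext (hinv g n)) hcop
  refine ⟨linFun μ, ⟨isCharacter_linFun μ, by simp [linFun_apply],
    fun n => congrArg Units.val (hμ n), by rw [orderOf_linFun, orderOf_linFun, ho]⟩, ?_⟩
  rintro μ' ⟨h1, h2⟩ h3 h4
  obtain ⟨m, rfl⟩ := exists_linFun_of_isCharacter h1 h2
  rw [orderOf_linFun] at h4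
  exact congrArg linFun (huniq m (fun n => Units.ext (h3 n)) h4)

end Cfsg.Agent.S0865
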