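import Cfsg.Statements.S0867
import Cfsg.Agent.Lib.Clifford.Extension

set_option autoImplicit false
open Cfsg CfsgLib.Clifford CfsgLib.CharTheory

namespace Cfsg.Agent.S0867

theorem result {G : Type*} [Group G] [Finite G] (N : Subgroup G) [hN : N.Normal] (ϑ : N → ℂ) (hϑ : Cfsg.IsIrrCharacter N ϑ) (hinv : ∀ (g : G) (n : N), ϑ ⟨g * n * g⁻¹, hN.conj_mem (n : G) n.2 g⟩ = ϑ n) (d : ℕ) (hd : ϑ 1 = d) (hcop : Nat.Coprime N.index (Cfsg.detOrder ϑ * d)) : ∃ χ : G → ℂ, (Cfsg.IsIrrCharacter G χ ∧ (∀ n : N, χ n = ϑ n) ∧ Cfsg.detOrder χ = Cfsg.detOrder ϑ) ∧ ∀ χ' : G → ℂ, Cfsg.IsIrrCharacter G χ' → (∀ n : N, χ' n = ϑ n) → Nat.Coprime N.index (Cfsg.detOrder χ') → χ' = χ := by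
  obtain ⟨hcopo, hcopd⟩ : Nat.Coprime N.index (detOrder ϑ) ∧ Nat.Coprime N.index d :=
    Nat.coprime_mul_iff_right.1 hcop
  obtain ⟨l, hl⟩ := exists_detChar_eq (IsIrrCharacter.isCharacter hϑ)
  rw [Cfsg.detOrder, hl, orderOf_linFun] at hcopo
  -- the determinant is invariant
  have hlinv : ∀ (g : G) (n : N), l ⟨g * n * g⁻¹, hN.conj_mem (n : G) n.2 g⟩ = l n := by
    intro g n
    obtain ⟨k, ρ, hρ, rfl⟩ := hϑ
    let σ : Representation ℂ N (Fin k → ℂ) :=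
      ρ.comp (MulAut.conjNormal g : MulAut N).toMonoidHom
    have hσ : σ.character = ρ.character := funext fun x =>
      (congrArg ρ.character (Subtype.ext (MulAut.conjNormal_apply g x))).trans (hinv g x)
    have h1 := detChar_eq σ hσ
    rw [detChar_eq ρ rfl] at h1 hl
    have h2 := (linFun_injective h1).symm.trans (linFun_injective hl)
    have h3 : detHom ρ = l := linFun_injective hl
    rw [← h3]
    refine Units.ext ?_
    have h4 := congrFun h1 n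
    rw [linFun_apply, linFun_apply] at h4
    rw [h4, detHom_apply, detHom_apply]
    exact congrArg (fun x => LinearMap.det (ρ x)) (Subtype.ext (MulAut.conjNormal_apply g n).symm)
  obtain ⟨μ, ⟨hμ, hμo⟩, huniq⟩ := exists_unique_extension_linear hlinv hcopo
  have hμN : ∀ n : N, (μ n : ℂ) = detChar ϑ n := fun n => by rw [hl, hμ]; rfl
  obtain ⟨η, hη, hηθ⟩ := exists_extension_of_det hϑ hinv hd hcopd μ hμN
  obtain ⟨χ, ⟨hχ, hχθ, hχdet⟩, hχuniq⟩ :=
    existsUnique_extension_det hϑ hd hcopd hη hηθ μ hμN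
  refine ⟨χ, ⟨hχ, hχθ, by rw [Cfsg.detOrder, Cfsg.detOrder, hχdet, hl, orderOf_linFun,
    orderOf_linFun, hμo]⟩, fun χ' hχ' hχ'θ hc => ?_⟩
  obtain ⟨m, hm⟩ := exists_detChar_eq (IsIrrCharacter.isCharacter hχ')
  rw [Cfsg.detOrder, hm, orderOf_linFun] at hc
  have hmμ : m = μ := huniq m (fun n => Units.ext (by
    rw [← linFun_apply, ← hm, detChar_restrict N (IsIrrCharacter.isCharacter hχ') hχ'θ, hl]; rfl)) hc
  exact hχuniq χ' ⟨hχ', hχ'θ, by rw [hm, hmμ]⟩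

end Cfsg.Agent.S0867
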