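import Cfsg.Statements.S0868
import Cfsg.Agent.Lib.Clifford.Gallagher

set_option autoImplicit false
open scoped ComplexConjugate
open Cfsg CfsgLib.Clifford CfsgLib.CharTheory

namespace Cfsg.Agent.S0868

theorem result {G : Type*} [Group G] [Fintype G] (N : Subgroup G) [N.Normal] [Fintype N] (χ : G → ℂ) (hχ : Cfsg.IsIrrCharacter G χ) (hχN : Cfsg.IsIrrCharacter N (fun n : N => χ n)) (ψ : G → ℂ) (hψ : Cfsg.IsIrrCharacter G ψ) (η : G → ℂ) (hη : η = fun g => (Nat.card N : ℂ)⁻¹ * ∑ n : N, ψ ((n : G) * g) * conj (χ ((n : G) * g))) : (Cfsg.classInner (fun n : N => ψ n) (fun n : N => χ n) ≠ 0 → Cfsg.IsIrrCharacter G η) ∧ (Cfsg.classInner (fun n : N => ψ n) (fun n : N => χ n) = 0 → η = 0) ∧ (ψ = χ → η = fun _ => 1) := by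
  set θ : N → ℂ := fun n => χ n with hθ
  have heta : η = cosetAvg N (ψ * fun g => conj (χ g)) := hη
  refine ⟨fun hne => ?_, fun hz => ?_, fun he => ?_⟩
  · have hinv : ∀ g : G, conjChar N θ g = θ := fun g => funext fun n =>
      IsIrrCharacter.isClassFunction hχ n g
    have hb := gallagher_bijOn (φ := fun _ => 1) isIrrCharacter_one (fun g => rfl) hinv
      (by simpa [Pi.mul_def, hθ] using hχN) hχ (fun n => rfl)
    have hover : classInner (indFun N ((fun _ => 1) * θ)) ψ ≠ 0 := by
      rw [show ((fun _ : N => (1 : ℂ)) * θ) = θ by simp [Pi.mul_def],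
        CfsgLib.Frobenius.classInner_indFun N θ ψ (IsIrrCharacter.isClassFunction hψ),
        classInner_conj_symm]
      exact fun h => hne ((map_eq_zero _).1 h)
    obtain ⟨β, ⟨hβ, hβe⟩, hβψ⟩ := hb.surjOn ⟨hψ, hover⟩
    have : η = β := by
      funext g
      have h1 := congrFun (cosetAvg_mul_conj_self (N := N) hχ hχN) g
      simp only [cosetAvg, Pi.mul_apply] at h1
      simp only [hη, ← hβψ, Pi.mul_apply, apply_mul_of_over_one hβ hβe, mul_assoc, ← Finset.mul_sum]
      rw [mul_left_comm, h1, mul_one]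
    rw [this]
    exact hβ
  · rw [heta]
    refine eq_zero_of_isCharacter_apply_one (isCharacter_cosetAvg N
      (CfsgLib.CharTheory.isCharacter_mul (IsIrrCharacter.isCharacter hψ)
        (CfsgLib.CharTheory.isCharacter_conj (IsIrrCharacter.isCharacter hχ)))) ?_
    rw [cosetAvg_one]
    simpa [classInner, hθ] using hz
  · rw [heta, he]
    exact cosetAvg_mul_conj_self (N := N) hχ hχN

end Cfsg.Agent.S0868
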