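import Cfsg.Statements.S0869
import Cfsg.Agent.Lib.Brauer.Banaschewski

set_option autoImplicit false
open Cfsg

namespace Cfsg.Agent.S0869

theorem result {S : Type*} [Finite S] [Nonempty S] (R : AddSubgroup (S → ℤ)) (hmul : ∀ f ∈ R, ∀ g ∈ R, f * g ∈ R) (h1 : (1 : S → ℤ) ∉ R) : ∃ (x : S) (p : ℕ), p.Prime ∧ ∀ f ∈ R, (p : ℤ) ∣ f x := by
  by_contra h
  push Not at h
  exact h1 (CfsgLib.Brauer.one_mem_of_forall_exists R hmul fun p hp x => h x p hp)

end Cfsg.Agent.S0869
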