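import Cfsg.Statements.S0871
import Cfsg.Agent.Lib.RealChar.Solomon

set_option autoImplicit false
open Cfsg

namespace Cfsg.Agent.S0871


/-- Let x be an element of the finite group G and p a prime. Then there is a subgroup H having a cyclic normal subgroup C of order prime to p and p-power index in H, such that the value at x of the function induced from the constant function 1 on H is a natural number not divisible by p. -/
theorem result {G : Type*} [Group G] [Fintype G] (x : G) (p : ℕ) (hp : p.Prime) : ∃ H : Subgroup G, (∃ C : Subgroup G, C ≤ H ∧ H ≤ Subgroup.normalizer (C : Set G) ∧ IsCyclic C ∧ Nat.Coprime (Nat.card C) p ∧ ∃ k : ℕ, C.relIndex H = p ^ k) ∧ ∃ n : ℕ, Cfsg.indFun H (fun _ => 1) x = (n : ℂ) ∧ ¬ p ∣ n := by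
  obtain ⟨H, hH, hx⟩ := CfsgLib.RealChar.exists_quasiElem_not_dvd_cosetFix p hp x
  exact ⟨H, hH, _, CfsgLib.RealChar.indFun_one_eq_cosetFix H x, hx⟩

end Cfsg.Agent.S0871
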