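import Cfsg.Statements.S0873

set_option autoImplicit false
open Cfsg

namespace Cfsg.Agent.S0873

theorem exists_fixed_in_coset {G : Type*} [Group G] [Finite G] (p : ℕ) [Fact p.Prime] (C P K : Subgroup G)
    [hK : K.Normal] (hKC : K ≤ C) (hP : IsPGroup p P) (hcop : Nat.Coprime (Nat.card C) p) (c : G) (hc : c ∈ C)
    (hfix : ∀ g ∈ P, g * c * g⁻¹ * c⁻¹ ∈ K) :
    ∃ d : G, d * c⁻¹ ∈ K ∧ d ∈ Subgroup.centralizer (P : Set G) := by
  let S := {d : G // d * c⁻¹ ∈ K}
  letI actS : MulAction P S :=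
    { smul := fun g d => ⟨(g : G) * d.1 * (g : G)⁻¹, by
        have h1 := hK.conj_mem _ d.2 (g : G)
        have h2 := hfix _ g.2
        have h3 : (g : G) * d.1 * (g : G)⁻¹ * c⁻¹
            = ((g : G) * (d.1 * c⁻¹) * (g : G)⁻¹) * ((g : G) * c * (g : G)⁻¹ * c⁻¹) := by group
        rw [h3]; exact K.mul_mem h1 h2⟩
      one_smul := fun d => Subtype.ext (by show (1 : G) * d.1 * (1 : G)⁻¹ = d.1; simp)
      mul_smul := fun g h d => Subtype.ext (by
        show ((g : G) * (h : G)) * d.1 * ((g : G) * (h : G))⁻¹ = (g : G) * ((h : G) * d.1 * (h : G)⁻¹) * (g : G)⁻¹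
        group) }
  have hcard : Nat.card S = Nat.card K :=
    Nat.card_congr (Equiv.subtypeEquiv (Equiv.mulRight c⁻¹) (fun d => by simp [Equiv.mulRight]))
  have hp : p.Prime := Fact.out
  have hnd : ¬ p ∣ Nat.card S := by
    rw [hcard]; intro hd
    have h1 : p ∣ Nat.card C := hd.trans (Subgroup.card_dvd_of_le hKC)
    exact hp.ne_one (Nat.eq_one_of_dvd_coprimes hcop h1 dvd_rfl)
  obtain ⟨d, hd⟩ := hP.nonempty_fixed_point_of_prime_not_dvd_card S hnd
  refine ⟨d.1, d.2, ?_⟩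
  rw [Subgroup.mem_centralizer_iff]
  intro g hg
  have : (g : G) * d.1 * (g : G)⁻¹ = d.1 := congrArg Subtype.val (hd ⟨g, hg⟩)
  calc g * d.1 = (g * d.1 * g⁻¹) * g := by group
    _ = d.1 * g := by rw [this]

theorem linear_mul {C : Type*} [Group C] {lam : C → ℂ} (h : Cfsg.IsCharacter C lam) (h1 : lam 1 = 1)
    (a b : C) : lam (a * b) = lam a * lam b := by
  obtain ⟨n, ρ, hρ⟩ := h
  have hn : n = 1 := by
    have := congrFun hρ 1
    rw [h1] at this
    simpa using this
  subst hn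
  have key : ∀ x : C, lam x = LinearMap.toMatrix' (ρ x) 0 0 := by
    intro x
    rw [← hρ]
    change LinearMap.trace ℂ _ (ρ x) = _
    rw [LinearMap.trace_eq_matrix_trace ℂ (Pi.basisFun ℂ (Fin 1)), LinearMap.toMatrix_eq_toMatrix']
    exact Matrix.trace_fin_one _
  rw [key, key, key, map_mul, Module.End.mul_eq_comp, LinearMap.toMatrix'_comp]
  simp [Matrix.mul_apply]

/-- Let C be a normal subgroup of the finite group G of order prime to p and P a p-subgroup with C ⊔ P = G. Let λ be a character of C of degree 1 invariant under conjugation by G and equal to 1 at every element of C centralized by P. Then λ is identically 1. -/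
theorem result {G : Type*} [Group G] [Finite G] (p : ℕ) [Fact p.Prime] (C P : Subgroup G) [hC : C.Normal] (hP : IsPGroup p P) (hcop : Nat.Coprime (Nat.card C) p) (hCP : C ⊔ P = ⊤) (lam : C → ℂ) (hlam : Cfsg.IsCharacter C lam ∧ lam 1 = 1) (hinv : ∀ (g : G) (c : C), lam ⟨g * c * g⁻¹, hC.conj_mem (c : G) c.2 g⟩ = lam c) (hker : ∀ c : C, (c : G) ∈ Subgroup.centralizer (P : Set G) → lam c = 1) : lam = fun _ => 1 := by
  obtain ⟨hl, h1⟩ := hlam
  have hm : ∀ a b : C, lam (a * b) = lam a * lam b := linear_mul hl h1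
  have hne : ∀ a : C, lam a ≠ 0 := by
    intro a h0
    have := hm a a⁻¹
    simp [h0, h1] at this
  let φ : C →* ℂ := { toFun := lam, map_one' := h1, map_mul' := hm }
  let K : Subgroup G := φ.ker.map C.subtype
  have memK : ∀ x : C, lam x = 1 → (x : G) ∈ K := fun x hx => ⟨x, hx, rfl⟩
  haveI : K.Normal := by
    constructor
    rintro _ ⟨x, hx, rfl⟩ g
    refine ⟨⟨g * x * g⁻¹, hC.conj_mem (x : G) x.2 g⟩, ?_, rfl⟩
    show lam _ = 1
    rw [hinv]; exact hx
  funext c
  have hfix : ∀ g ∈ P, g * (c : G) * g⁻¹ * (c : G)⁻¹ ∈ K := by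
    intro g _
    refine memK (⟨g * c * g⁻¹, hC.conj_mem (c : G) c.2 g⟩ * c⁻¹) ?_
    rw [hm, hinv, ← hm]; simpa using h1
  obtain ⟨d, ⟨k, hk, hkd⟩, hdP⟩ :=
    exists_fixed_in_coset p C P K (Subgroup.map_subtype_le _) hP hcop (c : G) c.2 hfix
  have hkd' : (k : G) = d * (c : G)⁻¹ := hkd
  have hd : d = ((k * c : C) : G) := by
    rw [Subgroup.coe_mul, hkd']; group
  have h2 := hker (k * c) (hd ▸ hdP)
  rw [hm] at h2
  have hk' : lam k = 1 := hk
  simpa [hk'] using h2

end Cfsg.Agent.S0873
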