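import Cfsg.Statements.S0874
import Cfsg.Agent.Lib.Brauer.Induction

set_option autoImplicit false
open Cfsg

namespace Cfsg.Agent.S0874

theorem result {G : Type*} [Group G] [Fintype G] (p : ℕ) (hp : p.Prime) : ∃ (m : ℤ) (l : List ((E : Subgroup G) × ((E → ℂ) × ℤ))), ¬ (p : ℤ) ∣ m ∧ (∀ t ∈ l, Cfsg.IsElementary p t.1 ∧ Cfsg.IsCharacter t.1 t.2.1) ∧ (fun _ : G => (m : ℂ)) = (l.map fun t => (t.2.2 : ℂ) • Cfsg.indFun t.1 t.2.1).sum := by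
  obtain ⟨m, hm, hmem⟩ := CfsgLib.Brauer.exists_const_mem_elemSpan (G := G) p hp
  let F : ((E : Subgroup G) × (E → ℂ)) → G → ℂ := fun i => Cfsg.indFun i.1 i.2
  let P : ((E : Subgroup G) × (E → ℂ)) → Prop :=
    fun i => Cfsg.IsElementary p i.1 ∧ Cfsg.IsCharacter i.1 i.2
  have hsub : (fun _ : G => (m : ℂ)) ∈ AddSubgroup.closure {g | ∃ i, P i ∧ g = F i} := by
    refine AddSubgroup.closure_mono ?_ hmem
    rintro f ⟨E, ψ, ⟨q, hq, -, hE⟩, hψ, rfl⟩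
    obtain rfl : q = p := hq
    exact ⟨⟨E, ψ⟩, ⟨hE, hψ⟩, rfl⟩
  obtain ⟨l, hl, heq⟩ := CfsgLib.Brauer.exists_list_of_mem_closure F P hsub
  refine ⟨m, l.map fun t => ⟨t.1.1, (t.1.2, t.2)⟩, hm, fun t ht => ?_, ?_⟩
  · obtain ⟨s, hs, rfl⟩ := List.mem_map.1 ht
    exact hl s hs
  · rw [heq, List.map_map]
    rfl

end Cfsg.Agent.S0874
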