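import Cfsg.Statements.S0875
import Cfsg.Agent.Lib.RealChar.PiSection

set_option autoImplicit false
open Cfsg

namespace Cfsg.Agent.S0875


/-- Let G be a finite group of order m * n with m and n coprime, and g an element whose order is coprime to m. Every x in G factors uniquely as x = u * v with u, v commuting, the order of u coprime to n and the order of v coprime to m; let ϑ be the function on G equal to n at those x whose factor v is conjugate to g and equal to 0 elsewhere. Then ϑ is a linear combination of the irreducible characters of G with algebraic-integer coefficients. -/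
theorem result {G : Type*} [Group G] [Fintype G] (m n : ℕ) (hmn : Nat.card G = m * n) (hcop : Nat.Coprime m n) (g : G) (hg : Nat.Coprime (orderOf g) m) (ϑ : G → ℂ) (hϑ1 : ∀ x : G, (∃ v : G, IsConj v g ∧ (∃ u : G, x = u * v ∧ Commute u v ∧ Nat.Coprime (orderOf u) n ∧ Nat.Coprime (orderOf v) m)) → ϑ x = n) (hϑ0 : ∀ x : G, (¬ ∃ v : G, IsConj v g ∧ (∃ u : G, x = u * v ∧ Commute u v ∧ Nat.Coprime (orderOf u) n ∧ Nat.Coprime (orderOf v) m)) → ϑ x = 0) : ∃ c : Cfsg.IrrCharacter G → ℂ, (∀ χ, c χ ∈ Cfsg.AlgInt) ∧ ϑ = ∑ᶠ χ : Cfsg.IrrCharacter G, c χ • (χ : G → ℂ) := by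
  classical
  obtain ⟨k, hk⟩ := CfsgLib.RealChar.exists_isPiExp hcop.symm
  have hG : Nat.card G ∣ n * m := by rw [hmn, mul_comm]
  have hgn : ∀ v : G, Nat.Coprime (orderOf v) m → v ^ n = 1 := fun v hv =>
    orderOf_dvd_iff_pow_eq_one.mp (hv.dvd_of_dvd_mul_right ((orderOf_dvd_natCard v).trans hG))
  have hiff : ∀ x : G, IsConj (x ^ k) g ↔
      ∃ v : G, IsConj v g ∧ (∃ u : G, x = u * v ∧ Commute u v ∧ Nat.Coprime (orderOf u) n ∧
        Nat.Coprime (orderOf v) m) := by
    intro x
    constructor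
    · intro h
      refine ⟨x ^ k, h, x * (x ^ k)⁻¹, by group,
        ((Commute.self_pow x k).mul_left (Commute.refl _).inv_left), ?_, ?_⟩
      · refine Nat.Coprime.coprime_dvd_left (orderOf_dvd_of_pow_eq_one ?_) hcop
        have h1 : (x ^ m) ^ k = x ^ m := hk.pow_eq_self (by
          rw [← pow_mul, mul_comm, ← orderOf_dvd_iff_pow_eq_one]
          exact (orderOf_dvd_natCard x).trans hG)
        rw [(Commute.self_pow x k).inv_right.mul_pow, inv_pow, ← pow_mul, mul_comm k, pow_mul, h1,
          mul_inv_cancel]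
      · exact Nat.Coprime.coprime_dvd_left (orderOf_dvd_of_pow_eq_one (hk.pow_pow_eq_one hG x)) hcop.symm
    · rintro ⟨v, hv, u, rfl, hcomm, hu, hvm⟩
      have hum : u ^ m = 1 :=
        orderOf_dvd_iff_pow_eq_one.mp (hu.dvd_of_dvd_mul_left ((orderOf_dvd_natCard u).trans hG))
      rwa [hcomm.mul_pow, hk.pow_eq_one hum, hk.pow_eq_self (hgn v hvm), one_mul]
  have hθ : ϑ = CfsgLib.RealChar.sectionFun n k {v | IsConj v g} := by
    funext x
    simp only [CfsgLib.RealChar.sectionFun, Set.mem_setOf_eq]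
    split_ifs with h
    · exact hϑ1 x ((hiff x).mp h)
    · exact hϑ0 x fun h' => h ((hiff x).mpr h')
  obtain ⟨c, hc, hceq⟩ := CfsgLib.RealChar.exists_algInt_sectionFun_eq_finsum hk hG {v | IsConj v g}
    fun x t hx => (isConj_iff.mpr ⟨t⁻¹, by group⟩ : IsConj (t * x * t⁻¹) x).trans hx
  exact ⟨c, hc, hθ.trans hceq⟩

end Cfsg.Agent.S0875
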