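import Cfsg.Statements.S0876
import Cfsg.Agent.Lib.RealChar.PiSection
import Cfsg.Agent.Lib.Blocks.LocalRing
import Cfsg.Agent.Lib.Blocks.RootsOfUnity

set_option autoImplicit false
open Cfsg

namespace Cfsg.Agent.S0876

open CfsgLib.Blocks in
theorem char_congr {G : Type*} [Group G] [Finite G] {p : ℕ} {M : Ideal Cfsg.AlgInt}
    (hM : Cfsg.IsPModular p M) {n j k : ℕ} (hk : CfsgLib.RealChar.IsPiExp n (p ^ j) k)
    (hG : Nat.card G ∣ n * p ^ j) {χ : G → ℂ} (hχ : Cfsg.IsCharacter G χ) (x : G) :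
    Cfsg.MemLocalIdeal M (χ x - χ (x ^ k)) := by
  haveI := isPrime_of_isPModular hM
  obtain ⟨d, ρ, rfl⟩ := hχ
  obtain ⟨ι, hι, b, μ, -, hμ, -, hchar⟩ := CfsgLib.CharTheory.exists_eigenbasis ρ x
  have h1 : ρ.character x = ∑ i, μ i := by simpa using hchar 1
  rw [h1, hchar k, ← Finset.sum_sub_distrib]
  refine memLocalIdeal_sum fun i _ => ?_
  have hn : orderOf x ≠ 0 := (orderOf_pos x).ne'
  have hμ0 : μ i ≠ 0 := fun h => by have := hμ i; rw [h, zero_pow hn] at this; exact zero_ne_one this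
  have hN : (μ i ^ p ^ j) ^ n = 1 := by
    obtain ⟨t, ht⟩ := (orderOf_dvd_natCard x).trans hG
    rw [← pow_mul, mul_comm, ht, pow_mul, hμ i, one_pow]
  have hfix : (μ i ^ p ^ j) ^ k = μ i ^ p ^ j := by
    conv_rhs => rw [← pow_one (μ i ^ p ^ j)]
    exact pow_eq_pow_of_modEq hk.1 hN
  have hz : (μ i * (μ i ^ k)⁻¹) ^ p ^ j = 1 := by
    rw [mul_pow, inv_pow, ← pow_mul (μ i) k, mul_comm k, pow_mul, hfix, mul_inv_cancel₀ (pow_ne_zero _ hμ0)]
  have hring : MemLocalRing M (μ i ^ k) :=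
    memLocalRing_of_isIntegral ((isIntegral_of_pow_eq_one hn (hμ i)).pow k)
  have h2 : μ i - μ i ^ k = μ i ^ k * (μ i * (μ i ^ k)⁻¹ - 1) := by
    rw [mul_sub, mul_one, ← mul_assoc, mul_comm _ (μ i), mul_assoc, mul_inv_cancel₀ (pow_ne_zero _ hμ0), mul_one]
  rw [h2]
  exact memLocalIdeal_mul_left hring (memLocalIdeal_sub_one_of_pow_prime_pow hM hz)

/-- Let G be a finite group, p a prime and M a maximal ideal of the ring of algebraic integers containing p. Let x, y be elements with p-parts a and b (so a⁻¹ * x and b⁻¹ * y are their p-regular parts). Then a⁻¹ * x and b⁻¹ * y are conjugate in G if and only if, for every irreducible character χ, the difference χ x - χ y lies in the local ideal at M. -/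
theorem result {G : Type*} [Group G] [Finite G] (p : ℕ) (M : Ideal Cfsg.AlgInt) (hM : Cfsg.IsPModular p M) (x y a b : G) (ha : Cfsg.IsPPart p x a) (hb : Cfsg.IsPPart p y b) : IsConj (a⁻¹ * x) (b⁻¹ * y) ↔ ∀ χ : Cfsg.IrrCharacter G, Cfsg.MemLocalIdeal M ((χ : G → ℂ) x - (χ : G → ℂ) y) := by
  open CfsgLib.Blocks in
  classical
  haveI := isPrime_of_isPModular hM
  haveI := Fintype.ofFinite G
  have hp : p.Prime := hM.1
  set j := (Nat.card G).factorization p with hj
  set n := Nat.card G / p ^ j with hn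
  have hcard : Nat.card G = n * p ^ j := by rw [mul_comm]; exact (Nat.ordProj_mul_ordCompl_eq_self _ _).symm
  have hnp : Nat.Coprime p n := Nat.coprime_ordCompl hp Nat.card_pos.ne'
  obtain ⟨k, hk⟩ := CfsgLib.RealChar.exists_isPiExp (hnp.symm.pow_right j)
  have hG : Nat.card G ∣ n * p ^ j := dvd_of_eq hcard
  have part : ∀ z c : G, Cfsg.IsPPart p z c → z ^ k = c⁻¹ * z ∧ (c⁻¹ * z) ^ n = 1 := by
    rintro z c ⟨w, rfl, hcomm, ⟨i, hi⟩, hw⟩
    rw [inv_mul_cancel_left]
    have hcp : c ^ p ^ j = 1 := by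
      refine orderOf_dvd_iff_pow_eq_one.mp (Nat.Coprime.dvd_of_dvd_mul_left ?_ ((orderOf_dvd_natCard c).trans hG))
      rw [hi]; exact hnp.pow_left i
    have hwn : w ^ n = 1 :=
      orderOf_dvd_iff_pow_eq_one.mp ((((Nat.Prime.coprime_iff_not_dvd hp).mpr hw).symm.pow_right j).dvd_of_dvd_mul_right
        ((orderOf_dvd_natCard w).trans hG))
    exact ⟨by rw [hcomm.mul_pow, hk.pow_eq_one hcp, hk.pow_eq_self hwn, one_mul], hwn⟩
  obtain ⟨hx, -⟩ := part x a ha
  obtain ⟨hy, hyn⟩ := part y b hb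
  rw [← hx, ← hy]
  constructor
  · intro hconj χ
    have e1 := char_congr hM hk hG (CfsgLib.CharTheory.IsIrrCharacter.isCharacter χ.2) x
    have e2 := char_congr hM hk hG (CfsgLib.CharTheory.IsIrrCharacter.isCharacter χ.2) y
    rw [← CfsgLib.CharTheory.irr_apply_eq_of_isConj hconj χ] at e2
    have := memLocalIdeal_sub e1 e2
    simpa using this
  · intro h
    obtain ⟨c, hc, hceq⟩ := CfsgLib.RealChar.exists_algInt_sectionFun_eq_finsum hk hG
      {v | IsConj v (y ^ k)}
      fun x t hx => (isConj_iff.mpr ⟨t⁻¹, by group⟩ : IsConj (t * x * t⁻¹) x).trans hx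
    haveI := Fintype.ofFinite (Cfsg.IrrCharacter G)
    by_contra hne
    have hdiff : Cfsg.MemLocalIdeal M (CfsgLib.RealChar.sectionFun n k {v | IsConj v (y ^ k)} x
        - CfsgLib.RealChar.sectionFun n k {v | IsConj v (y ^ k)} y) := by
      rw [hceq, finsum_eq_sum_of_fintype, Finset.sum_apply, Finset.sum_apply, ← Finset.sum_sub_distrib]
      refine memLocalIdeal_sum fun χ _ => ?_
      rw [Pi.smul_apply, Pi.smul_apply, smul_eq_mul, smul_eq_mul, ← mul_sub]
      exact memLocalIdeal_mul_left (memLocalRing_of_isIntegral (hc χ)) (h χ)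
    simp only [CfsgLib.RealChar.sectionFun, Set.mem_setOf_eq, if_neg hne, if_pos (IsConj.refl _),
      zero_sub] at hdiff
    have := memLocalIdeal_neg hdiff
    rw [neg_neg, memLocalIdeal_natCast_iff hM] at this
    exact (Nat.Prime.coprime_iff_not_dvd hp).mp hnp this

end Cfsg.Agent.S0876
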