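import Cfsg.Statements.S0879
import Cfsg.Agent.Lib.RealChar.ZassenhausBasic

set_option autoImplicit false
open Cfsg

namespace Cfsg.Agent.S0879

open MulAction CfsgLib.RealChar.Zassenhaus in
theorem mem_normalizer_of_perm {G Ω : Type*} [Group G] [MulAction G Ω] {a b : Ω} {g : G}
    (h : (g • a = a ∧ g • b = b) ∨ (g • a = b ∧ g • b = a)) :
    g ∈ Subgroup.normalizer ((stabilizer G a ⊓ stabilizer G b : Subgroup G) : Set G) := by
  rw [Subgroup.mem_normalizer_iff]
  intro x
  have e : ∀ c : Ω, ((g * x * g⁻¹) • (g • c) = g • c ↔ x • c = c) := by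
    intro c
    rw [mul_smul, mul_smul, inv_smul_smul, smul_left_cancel_iff]
  rw [mem_inf_stab, mem_inf_stab, ← e a, ← e b]
  rcases h with ⟨ha, hb⟩ | ⟨ha, hb⟩ <;> rw [ha, hb]
  exact and_comm

/-- Let G be a Zassenhaus group on the finite set Ω and E the stabilizer of two distinct points a, b. Then an element outside the normalizer of E conjugates no non-identity element of E into E, and E has index 2 in its normalizer. -/
theorem result {G Ω : Type*} [Group G] [Finite G] [MulAction G Ω] [Fintype Ω] (hZ : Cfsg.IsZassenhausGroup G Ω) {a b : Ω} (hab : a ≠ b) : (∀ g : G, g ∉ Subgroup.normalizer ((MulAction.stabilizer G a ⊓ MulAction.stabilizer G b : Subgroup G) : Set G) → ∀ x ∈ (MulAction.stabilizer G a ⊓ MulAction.stabilizer G b : Subgroup G), g * x * g⁻¹ ∈ (MulAction.stabilizer G a ⊓ MulAction.stabilizer G b : Subgroup G) → x = 1) ∧ ((MulAction.stabilizer G a ⊓ MulAction.stabilizer G b : Subgroup G).subgroupOf (Subgroup.normalizer ((MulAction.stabilizer G a ⊓ MulAction.stabilizer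 G b : Subgroup G) : Set G))).index = 2 := by
  open MulAction CfsgLib.RealChar.Zassenhaus in
  set E := (stabilizer G a ⊓ stabilizer G b : Subgroup G) with hE
  have hfix : ∀ x ∈ E, x ≠ 1 → ∀ c : Ω, x • c = c → c = a ∨ c = b := by
    intro x hx hx1 c hc
    by_contra hcon
    push Not at hcon
    exact hx1 (CfsgLib.RealChar.Zassenhaus.three_fixed hZ hab (Ne.symm hcon.2) (Ne.symm hcon.1)
      hx.1 hx.2 hc)
  have perm : ∀ g : G, ∀ x ∈ E, x ≠ 1 → g * x * g⁻¹ ∈ E →
      (g • a = a ∧ g • b = b) ∨ (g • a = b ∧ g • b = a) := by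
    intro g x hx hx1 hgx
    have hne : g * x * g⁻¹ ≠ 1 := fun h => hx1 (conj_eq_one_iff.mp h)
    have ha := hfix _ hgx hne (g • a)
      (by rw [mul_smul, mul_smul, inv_smul_smul]; exact congrArg (g • ·) hx.1)
    have hb := hfix _ hgx hne (g • b)
      (by rw [mul_smul, mul_smul, inv_smul_smul]; exact congrArg (g • ·) hx.2)
    have hne' : g • a ≠ g • b := fun h => hab (MulAction.injective g h)
    rcases ha with ha | ha <;> rcases hb with hb | hb
    · exact absurd (ha.trans hb.symm) hne'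
    · exact Or.inl ⟨ha, hb⟩
    · exact Or.inr ⟨ha, hb⟩
    · exact absurd (ha.trans hb.symm) hne'
  obtain ⟨x0, hx0, hxa, hxb⟩ := CfsgLib.RealChar.Zassenhaus.exists_ne_one_fix hZ hab
  have hnorm : ∀ g, g ∈ Subgroup.normalizer (E : Set G) →
      (g • a = a ∧ g • b = b) ∨ (g • a = b ∧ g • b = a) := fun g hg =>
    perm g x0 ⟨hxa, hxb⟩ hx0 ((Subgroup.mem_normalizer_iff.mp hg x0).mp ⟨hxa, hxb⟩)
  refine ⟨fun g hg x hx hgx => ?_, ?_⟩
  · by_contra hx1
    exact hg (mem_normalizer_of_perm (perm g x hx hx1 hgx))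
  · rw [Subgroup.index_eq_two_iff]
    obtain ⟨t, hta, htb⟩ := CfsgLib.RealChar.Zassenhaus.two_trans hZ hab hab.symm
    refine ⟨⟨t, mem_normalizer_of_perm (Or.inr ⟨hta, htb⟩)⟩, fun k => ?_⟩
    show Xor' ((k : G) * t ∈ E) ((k : G) ∈ E)
    rcases hnorm k k.2 with ⟨ka, kb⟩ | ⟨ka, kb⟩
    · refine Or.inr ⟨⟨ka, kb⟩, fun h => ?_⟩
      have : ((k : G) * t) • a = a := h.1
      rw [mul_smul, hta, kb] at this
      exact hab this.symm
    · refine Or.inl ⟨⟨?_, ?_⟩, fun h => ?_⟩
      · show ((k : G) * t) • a = a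
        rw [mul_smul, hta, kb]
      · show ((k : G) * t) • b = b
        rw [mul_smul, htb, ka]
      · have : (k : G) • a = a := h.1
        rw [ka] at this
        exact hab this.symm

end Cfsg.Agent.S0879
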