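import Cfsg.Statements.S0881
import Cfsg.Agent.Lib.RealChar.ZassenhausInduced

set_option autoImplicit false
open Cfsg

namespace Cfsg.Agent.S0881


/-- Let G be a finite simple Zassenhaus group on Ω with n points, a ≠ b points with two-point stabilizer E of odd order less than n - 2, and let H be the subgroup of the stabilizer of a consisting of the identity and the elements fixing no point other than a (given here as a subgroup of the stabilizer of order one less than the number of points whose non-identity elements fix only a; it is the Frobenius kernel of the stabilizer). Let μ be a character of degree 1 of the stabilizer of a that is identically 1 on H but not identically 1. Then the function induced from μ to G is an irreducible character of G, and it takes the value 1 at every non-identity element of H. -/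
theorem result {G Ω : Type*} [Group G] [Fintype G] [MulAction G Ω] [Fintype Ω] (hZ : Cfsg.IsZassenhausGroup G Ω) {a b : Ω} (hab : a ≠ b) [IsSimpleGroup G] (hodd : Odd (Nat.card ↥(MulAction.stabilizer G a ⊓ MulAction.stabilizer G b : Subgroup G))) (hlt : Nat.card ↥(MulAction.stabilizer G a ⊓ MulAction.stabilizer G b : Subgroup G) < Fintype.card Ω - 2) (H : Subgroup G) (hHa : H ≤ MulAction.stabilizer G a) (hHcard : Nat.card H + 1 = Fintype.card Ω) (hHfix : ∀ u ∈ H, u ≠ 1 → ∀ c : Ω, u • c = c → c = a) (μ : MulAction.stabilizer G a → ℂ) (hμ : Cfsg.IsCharacter (MulAction.stabilizer G a) μ ∧ μ 1 = 1) (hμH : ∀ u : MulAction.stabilizer G a, (u : G) ∈ H → μ u = 1) (hμne : μ ≠ fun _ => 1) : Cfsg.IsIrrCharacter G (Cfsg.indFun (MulAction.stabilizer G a) μ) ∧ ∀ u ∈ H, u ≠ 1 → Cfsg.indFun (MulAction.stabilizer G a) μ u = 1 := by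
  classical
  haveI := Fintype.ofFinite (MulAction.stabilizer G a)
  obtain ⟨⟨m, ρ, hρ⟩, hμ1⟩ := hμ
  have hm : Module.finrank ℂ (Fin m → ℂ) = 1 := by
    have h : (Module.finrank ℂ (Fin m → ℂ) : ℂ) = 1 := by
      rw [← ρ.char_one, hρ, hμ1]
    exact_mod_cast h
  obtain ⟨f, rfl⟩ : ∃ f : MulAction.stabilizer G a →* ℂˣ, μ = fun y => (f y : ℂ) :=
    CfsgLib.CharTheory.exists_hom_of_degree_one
      ⟨m, ρ, CfsgLib.CharTheory.isIrreducible_of_finrank_eq_one ρ hm, hρ⟩ hμ1
  have hfH : ∀ u : MulAction.stabilizer G a, (u : G) ∈ H → f u = 1 :=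
    fun u hu => Units.ext (hμH u hu)
  have hf : f ≠ 1 := fun h => hμne (funext fun y => by rw [h]; rfl)
  refine ⟨(CfsgLib.CharTheory.isIrrCharacter_iff_norm_one
    (CfsgLib.Frobenius.isCharacter_indFun _ _ ⟨m, ρ, hρ⟩)).mpr
    (CfsgLib.RealChar.Zassenhaus.classInner_indFun_linear hZ hab hodd H hHa hHcard hHfix f hfH hf),
    fun u hu hu1 => ?_⟩
  have h := CfsgLib.RealChar.Zassenhaus.indFun_linear_apply hZ hab hodd f ⟨u, hHa hu⟩
  haveI : IsEmpty {c : Ω // c ≠ a ∧ u • c = c} := ⟨fun c => c.2.1 (hHfix u hu hu1 c c.2.2)⟩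
  rw [Nat.card_of_isEmpty, Nat.cast_zero, zero_mul, add_zero, hfH ⟨u, hHa hu⟩ hu] at h
  simpa using h

end Cfsg.Agent.S0881
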