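import Cfsg.Statements.S0892
import Cfsg.Agent.Lib.RealChar.AltCover

set_option autoImplicit false
open Cfsg

namespace Cfsg.Agent.S0892


/-- Let n ≥ 4 with n ≠ 6 and n ≠ 7, and let Γ be a finite group with a subgroup Z contained in both the centre and the commutator subgroup of Γ such that Γ / Z is isomorphic to the alternating group on n letters. Then Z has order at most 2. -/
theorem result (n : ℕ) (hn : 4 ≤ n) (h6 : n ≠ 6) (h7 : n ≠ 7) {Γ : Type*} [Group Γ] [Finite Γ] (Z : Subgroup Γ) [Z.Normal] (hZc : Z ≤ Subgroup.center Γ) (hZd : Z ≤ commutator Γ) (e : Γ ⧸ Z ≃* alternatingGroup (Fin n)) : Nat.card Z ≤ 2 := by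
  let π : Γ →* alternatingGroup (Fin n) := e.toMonoidHom.comp (QuotientGroup.mk' Z)
  have hker : π.ker = Z := by
    ext x
    rw [MonoidHom.mem_ker]
    show e (QuotientGroup.mk' Z x) = 1 ↔ _
    rw [map_eq_one_iff e e.injective]
    exact QuotientGroup.eq_one_iff x
  rw [← hker]
  exact CfsgLib.RealChar.AltCover.card_ker_le_two hn h6 h7 π
    (e.surjective.comp (QuotientGroup.mk'_surjective Z)) (hker ▸ hZc) (hker ▸ hZd)

end Cfsg.Agent.S0892
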