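import Cfsg.Statements.S0894
import Cfsg.Agent.Lib.RealChar.Extraspecial

set_option autoImplicit false
open Cfsg

namespace Cfsg.Agent.S0894


/-- Let P be an extraspecial p-group of order p ^ (2 * n + 1). Then every irreducible character of P has degree 1 or p ^ n, and exactly p - 1 of them have degree p ^ n. -/
theorem result {P : Type*} [Group P] [Finite P] (p n : ℕ) [Fact p.Prime] (hP : Cfsg.IsExtraspecial p P) (hcard : Nat.card P = p ^ (2 * n + 1)) : (∀ χ : Cfsg.IrrCharacter P, (χ : P → ℂ) 1 = 1 ∨ (χ : P → ℂ) 1 = (p : ℂ) ^ n) ∧ Nat.card {χ : Cfsg.IrrCharacter P // (χ : P → ℂ) 1 = (p : ℂ) ^ n} = p - 1 := by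
  haveI := Fintype.ofFinite P
  have hn : n ≠ 0 := by
    rintro rfl
    have : Nat.card (Subgroup.center P) = Nat.card P := by rw [hP.2, hcard]; ring
    obtain ⟨x, y, hxy⟩ := CfsgLib.PGroups.IsExtraspecial.exists_not_commute hP
    have htop := Subgroup.eq_top_of_card_eq _ this
    exact hxy (Subgroup.mem_center_iff.mp (htop ▸ Subgroup.mem_top y) x)
  refine ⟨fun χ => ?_, CfsgLib.RealChar.Extraspecial.card_nonlinear hP hn hcard⟩
  rcases CfsgLib.RealChar.Extraspecial.degree_cases hP hcard χ.2 with ⟨h, -⟩ | ⟨h, -⟩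
  · exact Or.inl h
  · exact Or.inr h

end Cfsg.Agent.S0894
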