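import Cfsg.Statements.S0900
import Cfsg.Agent.Lib.RealChar.CliffordInvariant

set_option autoImplicit false
open Cfsg

namespace Cfsg.Agent.S0900

open scoped ComplexConjugate in
theorem norm_res_iff {G : Type*} [Group G] [Fintype G] (N : Subgroup G) [Fintype N] (χ : G → ℂ)
    (hχ : Cfsg.IsIrrCharacter G χ) :
    Cfsg.classInner (fun n : N => χ n) (fun n : N => χ n) = (N.index : ℂ) ↔ ∀ g : G, g ∉ N → χ g = 0 := by
  classical
  have h1 := CfsgLib.CharTheory.classInner_self_of_isIrr hχ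
  simp only [Cfsg.classInner, Complex.mul_conj] at h1 ⊢
  rw [inv_mul_eq_iff_eq_mul₀ (Nat.cast_ne_zero.mpr Nat.card_pos.ne'), ← Complex.ofReal_sum] at h1 ⊢
  rw [mul_one] at h1
  have h2 : ∑ g : G, Complex.normSq (χ g) = (Nat.card G : ℝ) := by exact_mod_cast h1
  have h3 : ((Nat.card N : ℂ) * (N.index : ℂ)) = (((Nat.card G : ℝ)) : ℂ) := by
    rw [← Nat.cast_mul, N.card_mul_index]; simp
  rw [h3, Complex.ofReal_inj, ← h2]
  have h4 : ∑ g : G, Complex.normSq (χ g) = ∑ n : N, Complex.normSq (χ n)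
      + ∑ g ∈ Finset.univ.filter (fun g => g ∉ N), Complex.normSq (χ g) := by
    rw [← Finset.sum_filter_add_sum_filter_not Finset.univ (fun g => g ∈ N)]
    congr 1
    exact Finset.sum_subtype _ (by simp) (fun g => Complex.normSq (χ g))
  rw [h4, left_eq_add, Finset.sum_eq_zero_iff_of_nonneg fun g _ => Complex.normSq_nonneg _]
  simp

/-- Let N be a normal subgroup of the finite group G, χ an irreducible character of G and ϑ an irreducible character of N having nonzero inner product with the restriction of χ. Consider: (a) the restriction of χ to N is e • ϑ for a natural number e with e ^ 2 equal to the index of N; (b) χ vanishes outside N and ϑ is invariant under conjugation by G; (c) ϑ is invariant and every irreducible character of G having nonzero inner product with the function induced from ϑ equals χ. Then (a) ↔ (b) and (a) ↔ (c). -/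
theorem result {G : Type*} [Group G] [Fintype G] (N : Subgroup G) [hN : N.Normal] [Fintype N] (χ : G → ℂ) (hχ : Cfsg.IsIrrCharacter G χ) (ϑ : N → ℂ) (hϑ : Cfsg.IsIrrCharacter N ϑ) (hcon : Cfsg.classInner (fun n : N => χ n) ϑ ≠ 0) : ((∃ e : ℕ, (fun n : N => χ n) = (e : ℂ) • ϑ ∧ e ^ 2 = N.index) ↔ ((∀ g : G, g ∉ N → χ g = 0) ∧ ∀ (g : G) (n : N), ϑ ⟨g * n * g⁻¹, hN.conj_mem (n : G) n.2 g⟩ = ϑ n)) ∧ ((∃ e : ℕ, (fun n : N => χ n) = (e : ℂ) • ϑ ∧ e ^ 2 = N.index) ↔ (∀ (g : G) (n : N), ϑ ⟨g * n * g⁻¹, hN.conj_mem (n : G) n.2 g⟩ = ϑ n ∧ ∀ ψ : G → ℂ, Cfsg.IsIrrCharacter G ψ → Cfsg.classInner (Cfsg.indFun N ϑ) ψ ≠ 0 → ψ = χ)) := by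
  classical
  haveI := Fintype.ofFinite (Cfsg.IrrCharacter G)
  open CfsgLib.CharTheory CfsgLib.RealChar in
  obtain ⟨a, ha⟩ := CfsgLib.CharTheory.IsCharacter.exists_sum
    (CfsgLib.Frobenius.isCharacter_indFun N ϑ (CfsgLib.CharTheory.IsIrrCharacter.isCharacter hϑ))
  have hnorm : ∀ e : ℕ, (fun n : N => χ n) = (e : ℂ) • ϑ →
      Cfsg.classInner (fun n : N => χ n) (fun n : N => χ n) = ((e ^ 2 : ℕ) : ℂ) := by
    intro e he
    rw [he, CfsgLib.CharTheory.classInner_smul_left, CfsgLib.CharTheory.classInner_smul_right,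
      CfsgLib.CharTheory.classInner_self_of_isIrr hϑ, map_natCast]
    push_cast
    ring
  have hinvA : (∃ e : ℕ, (fun n : N => χ n) = (e : ℂ) • ϑ ∧ e ^ 2 = N.index) →
      ∀ (g : G) (n : N), ϑ ⟨g * n * g⁻¹, hN.conj_mem (n : G) n.2 g⟩ = ϑ n := by
    rintro ⟨e, he, he2⟩ g n
    have he0 : (e : ℂ) ≠ 0 := by
      intro h
      rw [Nat.cast_eq_zero] at h
      subst h
      exact Subgroup.index_ne_zero_of_finite (by simpa using he2.symm)
    refine mul_left_cancel₀ he0 ?_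
    have e1 : χ (g * n * g⁻¹) = (e : ℂ) * ϑ ⟨g * n * g⁻¹, hN.conj_mem (n : G) n.2 g⟩ :=
      congrFun he ⟨g * n * g⁻¹, hN.conj_mem (n : G) n.2 g⟩
    have e2 : χ n = (e : ℂ) * ϑ n := congrFun he n
    rw [← e1, ← e2]
    exact CfsgLib.CharTheory.IsIrrCharacter.isClassFunction hχ n g
  have hmult : (∀ (g : G) (n : N), ϑ ⟨g * n * g⁻¹, hN.conj_mem (n : G) n.2 g⟩ = ϑ n) →
      ∀ ψ : Cfsg.IrrCharacter G, (a ψ : ℂ) = Cfsg.classInner ϑ (fun n : N => (ψ : G → ℂ) n) := by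
    intro _ ψ
    rw [← CfsgLib.RealChar.classInner_indFun_irr, ha, CfsgLib.CharTheory.classInner_sum_irr]
  have hsum : (∀ (g : G) (n : N), ϑ ⟨g * n * g⁻¹, hN.conj_mem (n : G) n.2 g⟩ = ϑ n) →
      ∑ ψ, a ψ * a ψ = N.index := by
    intro hinv
    have h1 : Cfsg.classInner (Cfsg.indFun N ϑ) (Cfsg.indFun N ϑ) = (N.index : ℂ) := by
      rw [CfsgLib.Frobenius.classInner_indFun N ϑ _ (CfsgLib.Frobenius.indFun_isClassFunction N ϑ)]
      have : (fun n : N => Cfsg.indFun N ϑ n) = (N.index : ℂ) • ϑ := funext fun n =>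
        CfsgLib.RealChar.indFun_apply_of_invariant N ϑ
          (CfsgLib.RealChar.conjFun_eq_of_invariant N ϑ hinv) n
      rw [this, CfsgLib.CharTheory.classInner_smul_right, CfsgLib.CharTheory.classInner_self_of_isIrr hϑ,
        map_natCast, mul_one]
    rw [ha] at h1
    simp only [CfsgLib.CharTheory.classInner_sum_right, CfsgLib.CharTheory.classInner_smul_right,
      CfsgLib.CharTheory.classInner_sum_irr, map_natCast, ← Nat.cast_mul, ← Nat.cast_sum, Nat.cast_inj] at h1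
    exact h1
  refine ⟨⟨fun hA => ⟨?_, hinvA hA⟩, fun hB => ?_⟩, ⟨fun hA g n => ⟨hinvA hA g n, ?_⟩, fun hC => ?_⟩⟩
  · obtain ⟨e, he, he2⟩ := hA
    exact (norm_res_iff N χ hχ).mp (by rw [hnorm e he, he2])
  · obtain ⟨e, -, he, -⟩ := CfsgLib.RealChar.exists_res_eq_nsmul N hχ hϑ
      (CfsgLib.RealChar.conjFun_eq_of_invariant N ϑ hB.2) hcon
    refine ⟨e, he, ?_⟩
    exact_mod_cast ((hnorm e he).symm.trans ((norm_res_iff N χ hχ).mpr hB.1))
  · intro ψ hψ hψne
    obtain ⟨e, he, he2⟩ := hA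
    have hinv := hinvA ⟨e, he, he2⟩
    have hχm : a ⟨χ, hχ⟩ = e := by
      have := hmult hinv ⟨χ, hχ⟩
      rw [he, CfsgLib.CharTheory.classInner_smul_right, CfsgLib.CharTheory.classInner_self_of_isIrr hϑ,
        map_natCast, mul_one] at this
      exact_mod_cast this
    by_contra hne
    have hs := hsum hinv
    rw [← Finset.add_sum_erase _ _ (Finset.mem_univ (⟨χ, hχ⟩ : Cfsg.IrrCharacter G)), hχm, ← pow_two,
      he2, Nat.add_eq_left, Finset.sum_eq_zero_iff] at hs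
    have := hs ⟨ψ, hψ⟩ (Finset.mem_erase.mpr ⟨fun h => hne (congrArg Subtype.val h), Finset.mem_univ _⟩)
    apply hψne
    rw [ha]
    exact (CfsgLib.CharTheory.classInner_sum_irr (fun φ => (a φ : ℂ)) ⟨ψ, hψ⟩).trans
      (by rw [mul_self_eq_zero.mp this, Nat.cast_zero])
  · have hinv : ∀ (g : G) (n : N), ϑ ⟨g * n * g⁻¹, hN.conj_mem (n : G) n.2 g⟩ = ϑ n := fun g n => (hC g n).1
    obtain ⟨e, -, he, -⟩ := CfsgLib.RealChar.exists_res_eq_nsmul N hχ hϑ
      (CfsgLib.RealChar.conjFun_eq_of_invariant N ϑ hinv) hcon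
    refine ⟨e, he, ?_⟩
    have hχm : a ⟨χ, hχ⟩ = e := by
      have := hmult hinv ⟨χ, hχ⟩
      rw [he, CfsgLib.CharTheory.classInner_smul_right, CfsgLib.CharTheory.classInner_self_of_isIrr hϑ,
        map_natCast, mul_one] at this
      exact_mod_cast this
    rw [← hsum hinv, Finset.sum_eq_single (⟨χ, hχ⟩ : Cfsg.IrrCharacter G) _ (fun h => absurd (Finset.mem_univ _) h),
      hχm, pow_two]
    intro ψ _ hne
    by_contra h
    refine hne (Subtype.ext ((hC 1 1).2 ψ ψ.2 ?_))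
    rw [ha, CfsgLib.CharTheory.classInner_sum_irr]
    exact_mod_cast fun h' : a ψ = 0 => h (by rw [h', mul_zero])

end Cfsg.Agent.S0900
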