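import Cfsg.Statements.S0901
import Cfsg.Agent.Lib.Blocks.RootsOfUnity

set_option autoImplicit false
open Cfsg

namespace Cfsg.Agent.S0901

/-- Let M be a maximal ideal of the ring of algebraic integers containing the prime p, and let U be the set of complex roots of unity of order prime to p. Then reduction modulo M is injective on U, and every algebraic integer not in M is congruent modulo M to an element of U (so U maps bijectively onto the nonzero residues). -/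
theorem result (p : ℕ) [Fact p.Prime] (M : Ideal Cfsg.AlgInt) (hM : Cfsg.IsPModular p M) : (∀ ε₁ ε₂ : Cfsg.AlgInt, (∃ m : ℕ, ¬ p ∣ m ∧ (ε₁ : ℂ) ^ m = 1) → (∃ m : ℕ, ¬ p ∣ m ∧ (ε₂ : ℂ) ^ m = 1) → ε₁ - ε₂ ∈ M → ε₁ = ε₂) ∧ (∀ a : Cfsg.AlgInt, a ∉ M → ∃ ε : Cfsg.AlgInt, (∃ m : ℕ, ¬ p ∣ m ∧ (ε : ℂ) ^ m = 1) ∧ a - ε ∈ M) := by
  haveI := CfsgLib.Blocks.isPrime_of_isPModular hM
  refine ⟨?_, CfsgLib.Blocks.exists_root_of_unity_sub_mem hM⟩
  rintro ε₁ ε₂ ⟨m, hm, h1⟩ ⟨n, hn, h2⟩ h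
  exact Subtype.ext (CfsgLib.Blocks.eq_of_sub_mem_of_pow_eq_one hM hm hn h1 h2
    (by simpa using (CfsgLib.Blocks.memLocalIdeal_coe_iff _).mpr h))

end Cfsg.Agent.S0901
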