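import Cfsg.Statements.S0903
import Cfsg.Agent.Lib.Blocks.GroupRing

set_option autoImplicit false
open Cfsg

namespace Cfsg.Agent.S0903

/-- Let P be a p-subgroup of the finite group G, let c centralize P and let g, h ∈ G. The number of pairs (x, y) with x conjugate to g, y conjugate to h and x * y = c is congruent modulo p to the number of such pairs in which x and y both centralize P. (This is why the Brauer map on class sums is multiplicative.) -/
theorem result {G : Type*} [Group G] [Finite G] (p : ℕ) [Fact p.Prime] (P : Subgroup G) (hP : IsPGroup p P) (c : G) (hc : c ∈ Subgroup.centralizer (P : Set G)) (g h : G) : Nat.card {xy : G × G // IsConj g xy.1 ∧ IsConj h xy.2 ∧ xy.1 * xy.2 = c} ≡ Nat.card {xy : G × G // IsConj g xy.1 ∧ IsConj h xy.2 ∧ xy.1 * xy.2 = c ∧ xy.1 ∈ Subgroup.centralizer (P : Set G) ∧ xy.2 ∈ Subgroup.centralizer (P : Set G)} [MOD p] := by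
  classical
  haveI := Fintype.ofFinite G
  rw [← ZMod.natCast_eq_natCast_iff]
  let f : G → ZMod p := fun x => if IsConj g x ∧ IsConj h (x⁻¹ * c) then 1 else 0
  let C := Subgroup.centralizer (P : Set G)
  have e1 : Nat.card {xy : G × G // IsConj g xy.1 ∧ IsConj h xy.2 ∧ xy.1 * xy.2 = c} =
      (Finset.univ.filter fun x : G => IsConj g x ∧ IsConj h (x⁻¹ * c)).card := by
    rw [← Fintype.card_coe, ← Nat.card_eq_fintype_card]
    exact Nat.card_congr
      { toFun := fun u => ⟨u.1.1, by
          obtain ⟨⟨x, y⟩, hx, hy, rfl⟩ := u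
          simpa [inv_mul_cancel_left] using And.intro hx hy⟩
        invFun := fun v => ⟨(v.1, v.1⁻¹ * c), by
          have hv := (Finset.mem_filter.mp v.2).2
          exact ⟨hv.1, hv.2, mul_inv_cancel_left _ _⟩⟩
        left_inv := fun u => by
          obtain ⟨⟨x, y⟩, hx, hy, rfl⟩ := u
          simp
        right_inv := fun v => rfl }
  have e2 : Nat.card {xy : G × G // IsConj g xy.1 ∧ IsConj h xy.2 ∧ xy.1 * xy.2 = c ∧
      xy.1 ∈ Subgroup.centralizer (P : Set G) ∧ xy.2 ∈ Subgroup.centralizer (P : Set G)} =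
      ((Finset.univ.filter fun x : G => x ∈ C).filter
        fun x : G => IsConj g x ∧ IsConj h (x⁻¹ * c)).card := by
    rw [← Fintype.card_coe, ← Nat.card_eq_fintype_card]
    exact Nat.card_congr
      { toFun := fun u => ⟨u.1.1, by
          obtain ⟨⟨x, y⟩, hx, hy, rfl, hxC, hyC⟩ := u
          simp only [Finset.mem_filter, Finset.mem_univ, true_and, inv_mul_cancel_left]
          exact ⟨hxC, hx, hy⟩⟩
        invFun := fun v => ⟨(v.1, v.1⁻¹ * c), by
          have hv := Finset.mem_filter.mp v.2
          have hvC := (Finset.mem_filter.mp hv.1).2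
          exact ⟨hv.2.1, hv.2.2, mul_inv_cancel_left _ _, hvC,
            C.mul_mem (C.inv_mem hvC) hc⟩⟩
        left_inv := fun u => by
          obtain ⟨⟨x, y⟩, hx, hy, rfl, hxC, hyC⟩ := u
          simp
        right_inv := fun v => rfl }
  rw [e1, e2]
  have key := CfsgLib.Blocks.sum_eq_sum_centralizer (p := p)
    (fun a : ZMod p => by rw [nsmul_eq_mul, ZMod.natCast_self, zero_mul]) P hP f (by
      intro q hq x
      have hc' : q * c * q⁻¹ = c := by
        rw [Subgroup.mem_centralizer_iff.mp hc q hq, mul_inv_cancel_right]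
      have e : (q * x * q⁻¹)⁻¹ * c = q * (x⁻¹ * c) * q⁻¹ := by
        conv_lhs => rw [← hc']
        group
      show (if _ then _ else _) = (if _ then _ else _)
      rw [e, CfsgLib.Blocks.isConj_conj_iff, CfsgLib.Blocks.isConj_conj_iff])
  simpa [f, C, Finset.sum_ite] using key

end Cfsg.Agent.S0903
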