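import Cfsg.Statements.S0905
import Cfsg.Agent.Lib.Blocks.GroupRing
import Cfsg.Agent.Lib.Cores.PCore
import Mathlib.Algebra.Algebra.ZMod

set_option autoImplicit false
open Cfsg

namespace Cfsg.Agent.S0905

/-- Let F be a field of characteristic p and let g be an element of the finite group G no conjugate of which centralizes O_p(G). Then the class sum of g is a nilpotent element of the group algebra F[G]. -/
theorem result {G : Type*} [Group G] [Finite G] (p : ℕ) [Fact p.Prime] (F : Type*) [Field F] [CharP F p] (g : G) (hg : ∀ x : G, IsConj g x → x ∉ Subgroup.centralizer (Cfsg.pCore p G : Set G)) : IsNilpotent (∑ᶠ x ∈ ConjClasses.carrier (ConjClasses.mk g), MonoidAlgebra.single x (1 : F) : MonoidAlgebra F G) := by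
  classical
  haveI := Fintype.ofFinite G
  have hN : IsPGroup p (Cfsg.pCore p G) := CfsgLib.Cores.isPGroup_pCore p G
  have h1 : IsNilpotent (CfsgLib.Blocks.classSum (ZMod p) g) :=
    CfsgLib.Blocks.isNilpotent_of_eq_zero_on_centralizer (Cfsg.pCore p G) hN
      (CfsgLib.Blocks.isClassElem_classSum g) fun x hx =>
        CfsgLib.Blocks.coeff_classSum_of_not_isConj fun h => hg x h hx
  have h2 := h1.map (MonoidAlgebra.mapRingHom G (ZMod.castHom (dvd_refl p) F))
  rw [CfsgLib.Blocks.map_classSum, CfsgLib.Blocks.classSum_eq_sum] at h2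
  convert h2 using 1
  rw [finsum_mem_eq_finite_toFinset_sum _ (Set.toFinite _)]
  refine Finset.sum_congr (Finset.ext fun x => ?_) fun _ _ => rfl
  rw [Set.Finite.mem_toFinset, ConjClasses.mem_carrier_iff_mk_eq, ConjClasses.mk_eq_mk_iff_isConj]
  simp only [Finset.mem_filter]
  exact ⟨fun h => ⟨Finset.mem_univ _, h.symm⟩, fun h => h.2.symm⟩

end Cfsg.Agent.S0905
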