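import Cfsg.Statements.S0911
import Cfsg.Agent.Lib.Blocks.Defect

set_option autoImplicit false
open Cfsg

namespace Cfsg.Agent.S0911

/-- The min–max Theorem for defect classes. Let B be a block of the finite group G relative to a maximal ideal M of the algebraic integers containing the prime p, let g represent a defect class of B and let D be a Sylow p-subgroup of the centralizer of g (viewed in G). For any h: (a) if the idempotent coefficient of B at h is a local integer outside the local ideal, then some conjugate of D contains a Sylow p-subgroup of the centralizer of h; (b) if the central character of some member of B at h is outside the local ideal, then some conjugate of D is contained in a Sylow p-subgroup of the centralizer of h. -/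
theorem result {G : Type*} [Group G] [Finite G] (p : ℕ) [Fact p.Prime] (M : Ideal Cfsg.AlgInt) (hM : Cfsg.IsPModular p M) (B : Set (Cfsg.IrrCharacter G)) (hB : Cfsg.IsPBlock M B) (g : G) (hg : Cfsg.IsDefectClass M B g) (D : Sylow p (Subgroup.centralizer ({g} : Set G))) (h : G) : (Cfsg.MemLocalRing M (Cfsg.blockCoeff B h) → ¬ Cfsg.MemLocalIdeal M (Cfsg.blockCoeff B h) → ∃ (x : G) (Q : Sylow p (Subgroup.centralizer ({h} : Set G))), (Q : Subgroup (Subgroup.centralizer ({h} : Set G))).map (Subgroup.centralizer ({h} : Set G)).subtype ≤ ((D : Subgroup (Subgroup.centralizer ({g} : Set G))).map (Subgroup.centralizer ({g} : Set G)).subtype).map (MulAut.conj x).toMonoidHom) ∧ ((∃ χ ∈ B, ¬ Cfsg.MemLocalIdeal M (Cfsg.centralChar (χ : G → ℂ) h)) → ∃ (x : G) (Q : Sylow p (Subgroup.centralizer ({h} : Set G))), ((D : Subgroup (Subgroup.centralizer ({g} : Set G))).map (Subgroup.centralizer ({g} : Set G)).subtype).map (MulAut.conj x).toMonoidHom ≤ (Q : Subgroup (Subgroup.centralizer ({h} : Set G))).map (Subgroup.centralizer ({h} : Set G)).subtype)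 := by
  haveI := CfsgLib.Blocks.isPrime_of_isPModular hM
  obtain ⟨χ, hχ⟩ := CfsgLib.Blocks.isPBlock_nonempty hB
  constructor
  · intro _ hh
    obtain ⟨Q⟩ := (inferInstance : Nonempty (Sylow p (Subgroup.centralizer ({h} : Set G))))
    obtain ⟨a, ha⟩ := CfsgLib.Blocks.exists_conj_le_sylow hM hB hh hχ (hg.2.2 χ hχ)
      (CfsgLib.Blocks.isPGroup_sylow_map Q) (CfsgLib.Blocks.sylow_map_le Q) D
    refine ⟨a⁻¹, Q, ?_⟩
    have := Subgroup.map_mono (f := (MulAut.conj a⁻¹).toMonoidHom) ha
    rwa [CfsgLib.Blocks.map_conj_map_conj, inv_mul_cancel, CfsgLib.Blocks.map_conj_one] at this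
  · rintro ⟨ψ, hψ, hne⟩
    obtain ⟨a, S, hS⟩ := CfsgLib.Blocks.exists_conj_le_of_support hM hB hg.2.1 hψ hne
      (CfsgLib.Blocks.isPGroup_sylow_map D) (CfsgLib.Blocks.sylow_map_le D)
    exact ⟨a, S, hS⟩

end Cfsg.Agent.S0911
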