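import Cfsg.Statements.S0921
import Cfsg.Agent.Lib.Blocks.DefectZero
-- import your own Cfsg.Agent.* helpers here

set_option autoImplicit false
open Cfsg

namespace Cfsg.Agent.S0921

/-- Let N = O_p'(G) be the largest normal subgroup of the finite group G of order prime to p, and fix a maximal ideal M of the algebraic integers containing p. If two irreducible characters χ, ψ of G lie in the same block relative to M, then an irreducible character of N occurs in the restriction of χ exactly when it occurs in the restriction of ψ. -/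
theorem result {G : Type*} [Group G] [Finite G] (p : ℕ) [Fact p.Prime] (M : Ideal Cfsg.AlgInt) (hM : Cfsg.IsPModular p M) [Fintype G] (χ ψ : Cfsg.IrrCharacter G) (h : Cfsg.SameBlock M (χ : G → ℂ) (ψ : G → ℂ)) (θ : Cfsg.IrrCharacter (Cfsg.pPrimeCore p G)) [Fintype (Cfsg.pPrimeCore p G)] : Cfsg.classInner (fun n : Cfsg.pPrimeCore p G => (χ : G → ℂ) n) (θ : Cfsg.pPrimeCore p G → ℂ) ≠ 0 ↔ Cfsg.classInner (fun n : Cfsg.pPrimeCore p G => (ψ : G → ℂ) n) (θ : Cfsg.pPrimeCore p G → ℂ) ≠ 0 := by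
  classical
  haveI := CfsgLib.Blocks.isPrime_of_isPModular hM
  haveI := Fintype.ofFinite (Cfsg.IrrCharacter (Cfsg.pPrimeCore p G))
  have key : ∀ a b : Cfsg.IrrCharacter G, Cfsg.SameBlock M (a : G → ℂ) (b : G → ℂ) →
      Cfsg.classInner (fun n : Cfsg.pPrimeCore p G => (a : G → ℂ) n)
        (θ : Cfsg.pPrimeCore p G → ℂ) ≠ 0 →
      Cfsg.classInner (fun n : Cfsg.pPrimeCore p G => (b : G → ℂ) n)
        (θ : Cfsg.pPrimeCore p G → ℂ) ≠ 0 := by
    intro a b hab ha
    obtain ⟨η, hη⟩ := CfsgLib.BlockLocal.exists_constituent (Cfsg.pPrimeCore p G) b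
    obtain ⟨g, θ', hθ', rfl⟩ := (CfsgLib.BlockLocal.mem_orbitSet _).mp
      (CfsgLib.BlockLocal.mem_orbitSet_of_constituent _ (CfsgLib.Blocks.isPBlock_blockOf (M := M) θ)
        hab (CfsgLib.Blocks.mem_blockOf_self θ) ha hη)
    rw [CfsgLib.Blocks.blockOf_eq_singleton_of_full hM θ (fun hdvd =>
      CfsgLib.Cores.not_dvd_card_pPrimeCore (G := G) (p := p)
        (hdvd.trans (Nat.div_dvd_of_dvd (CfsgLib.Blocks.charDegree_dvd_card θ))))] at hθ'
    rw [Set.mem_singleton_iff.mp hθ', CfsgLib.BlockLocal.classInner_res_conjIrr] at hη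
    exact hη
  exact ⟨key χ ψ h, key ψ χ (CfsgLib.Blocks.sameBlock_symm h)⟩

end Cfsg.Agent.S0921
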