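import Cfsg.Statements.S0926
import Cfsg.Agent.Lib.Blocks.Sections
-- import your own Cfsg.Agent.* helpers here

set_option autoImplicit false
open Cfsg

namespace Cfsg.Agent.S0926

/-- Let B be a block of the finite group G with defect group D (relative to a maximal ideal M of the algebraic integers containing p), let χ ∈ B have height zero, and let x be a p-element. Then some conjugate of x lies in D if and only if χ does not vanish on the whole p-section of x (the elements whose p-part is conjugate to x). -/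
theorem result {G : Type*} [Group G] [Finite G] (p : ℕ) [Fact p.Prime] (M : Ideal Cfsg.AlgInt) (hM : Cfsg.IsPModular p M) (B : Set (Cfsg.IrrCharacter G)) (hB : Cfsg.IsPBlock M B) (D : Subgroup G) (hD : Cfsg.IsDefectGroup p M B D) (χ : Cfsg.IrrCharacter G) (hχ : χ ∈ B) (h0 : Cfsg.blockHeight p B (χ : G → ℂ) = 0) (x : G) (hx : ∃ k : ℕ, orderOf x = p ^ k) : (∃ g : G, g * x * g⁻¹ ∈ D) ↔ ∃ u : G, (∃ z : G, Cfsg.IsPPart p u z ∧ IsConj x z) ∧ (χ : G → ℂ) u ≠ 0 := by
  haveI := CfsgLib.Blocks.isPrime_of_isPModular hM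
  constructor
  · rintro ⟨g, hg⟩
    obtain ⟨k, hk⟩ := hx
    obtain ⟨y, hy, S, rfl⟩ := hD
    have hc : Commute (g * x * g⁻¹) y :=
      Subgroup.mem_centralizer_singleton_iff.mp (CfsgLib.Blocks.sylow_map_le S hg)
    have hord : ∃ k : ℕ, orderOf (g * x * g⁻¹) = p ^ k :=
      ⟨k, by rw [← MulAut.conj_apply, MulEquiv.orderOf_eq, hk]⟩
    refine ⟨g * x * g⁻¹ * y, ⟨g * x * g⁻¹, CfsgLib.Blocks.isPPart_mul hc hord
      (CfsgLib.Blocks.not_dvd_orderOf_of_isDefectClass hM hB hy), isConj_iff.mpr ⟨g, rfl⟩⟩,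
      fun h0' => ?_⟩
    refine CfsgLib.Blocks.not_memLocalIdeal_irr_mul_of_blockHeight_eq_zero hM hB hy hc hord hχ h0 ?_
    rw [h0']
    exact CfsgLib.Blocks.memLocalIdeal_zero
  · rintro ⟨u, ⟨z, hz, hxz⟩, hne⟩
    by_contra hno
    push Not at hno
    apply hne
    refine CfsgLib.Blocks.irr_eq_zero_of_isPPart_notMem hM χ hz fun E hE hzE => ?_
    rw [← CfsgLib.Blocks.eq_blockOf_of_mem hB hχ] at hE
    obtain ⟨a, ha⟩ := CfsgLib.Blocks.isDefectGroup_conj_exists hM hB hE hD
    obtain ⟨c, hc⟩ := isConj_iff.mp hxz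
    refine hno (a * c) ?_
    rw [← ha]
    exact ⟨z, hzE, by simp [← hc, mul_assoc]⟩

end Cfsg.Agent.S0926
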