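import Cfsg.Statements.S0938
import Cfsg.Agent.Lib.BlockLocal.KernelSupport

set_option autoImplicit false
open Cfsg

namespace Cfsg.Agent.S0938

/-- Let B be a block of the finite group G relative to a maximal ideal M of the algebraic integers containing the prime p, and let χ ∈ B. Then the kernel of B (the set of g with ψ g = ψ 1 for all ψ ∈ B) is a normal subgroup of order prime to p contained in the kernel of χ, and it contains every normal subgroup of order prime to p on which χ takes the value χ(1); that is, it is O_p' of the kernel of χ. -/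
theorem result {G : Type*} [Group G] [Finite G] (p : ℕ) [Fact p.Prime] (M : Ideal Cfsg.AlgInt) (hM : Cfsg.IsPModular p M) (B : Set (Cfsg.IrrCharacter G)) (hB : Cfsg.IsPBlock M B) (χ : Cfsg.IrrCharacter G) (hχ : χ ∈ B) : ∃ K : Subgroup G, K.Normal ∧ (K : Set G) = Cfsg.blockKer B ∧ ¬ p ∣ Nat.card K ∧ (∀ g ∈ K, (χ : G → ℂ) g = (χ : G → ℂ) 1) ∧ ∀ N : Subgroup G, N.Normal → ¬ p ∣ Nat.card N → (∀ g ∈ N, (χ : G → ℂ) g = (χ : G → ℂ) 1) → N ≤ K := by
  classical
  haveI := CfsgLib.Blocks.isPrime_of_isPModular hM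
  haveI := Fintype.ofFinite G
  haveI := Fintype.ofFinite (Cfsg.IrrCharacter G)
  let K : Subgroup G := ⨅ ψ : B, CfsgLib.Correspondences.charKer
    (CfsgLib.CharTheory.IsIrrCharacter.isCharacter ψ.1.2)
  have hK : ∀ g, g ∈ K ↔ g ∈ Cfsg.blockKer B := fun g => by
    simp only [K, Subgroup.mem_iInf, CfsgLib.Correspondences.mem_charKer]
    exact ⟨fun h ψ hψ => h ⟨ψ, hψ⟩, fun h ψ => h ψ.1 ψ.2⟩
  refine ⟨K, ?_, Set.ext hK, ?_, fun g hg => ((hK g).1 hg) χ hχ, ?_⟩
  · exact Subgroup.normal_iInf_normal fun ψ => CfsgLib.Correspondences.charKer_normal _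
  · intro hdvd
    obtain ⟨u, hu⟩ := exists_prime_orderOf_dvd_card' p hdvd
    have hw := CfsgLib.BlockLocal.weakOrth_mul hM B hB 1 (u : G)
      (by rw [orderOf_one]; exact (Fact.out : p.Prime).not_dvd_one)
      (by rw [Subgroup.orderOf_coe, hu])
    rw [finsum_mem_eq_finite_toFinset_sum _ (Set.toFinite _)] at hw
    rw [Finset.sum_congr rfl (g := fun ψ : Cfsg.IrrCharacter G =>
      (((Cfsg.charDegree (ψ : G → ℂ)) ^ 2 : ℕ) : ℂ))] at hw
    · rw [← Nat.cast_sum, Nat.cast_eq_zero, Finset.sum_eq_zero_iff] at hw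
      have h0 := hw χ (by simpa using hχ)
      exact CfsgLib.BlockLocal.charDegree_irr_ne_zero χ (by simpa using h0)
    · intro ψ hψ
      rw [((hK u).1 u.2) ψ (by simpa using hψ), Nat.cast_pow, CfsgLib.BlockLocal.coe_charDegree]
      ring
  · intro N hNn hNp hNχ g hg
    rw [hK]
    intro ψ hψ
    exact CfsgLib.BlockLocal.apply_eq_one_of_sameBlock hM N hNp
      (CfsgLib.Blocks.sameBlock_of_mem hB hχ hψ) hNχ g hg

end Cfsg.Agent.S0938
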