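import Cfsg.Statements.S0941
import Cfsg.Agent.Lib.BlockLocal.KernelSupport
import Cfsg.Agent.Lib.CharTheory.Inflation
-- import your own Cfsg.Agent.* helpers here

set_option autoImplicit false
open Cfsg

namespace Cfsg.Agent.S0941

/-- Let P be a normal p-subgroup of the finite group G such that the index of C_G(P) is a power of p, and fix a maximal ideal M of the algebraic integers containing p. Then (i) two irreducible characters of G ⧸ P lie in the same block if and only if their inflations to G do, and (ii) every block of G contains the inflation of some irreducible character of G ⧸ P; so inflation induces a bijection between the blocks of G ⧸ P and the blocks of G. -/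
theorem result {G : Type*} [Group G] [Finite G] (p : ℕ) [Fact p.Prime] (M : Ideal Cfsg.AlgInt) (hM : Cfsg.IsPModular p M) (P : Subgroup G) [P.Normal] (hP : IsPGroup p P) (hC : ∃ k : ℕ, (Subgroup.centralizer (P : Set G)).index = p ^ k) : (∀ χ ψ : Cfsg.IrrCharacter (G ⧸ P), Cfsg.SameBlock M (χ : G ⧸ P → ℂ) (ψ : G ⧸ P → ℂ) ↔ Cfsg.SameBlock M ((χ : G ⧸ P → ℂ) ∘ QuotientGroup.mk) ((ψ : G ⧸ P → ℂ) ∘ QuotientGroup.mk)) ∧ ∀ B : Set (Cfsg.IrrCharacter G), Cfsg.IsPBlock M B → ∃ χ : Cfsg.IrrCharacter (G ⧸ P), ∃ θ ∈ B, (θ : G → ℂ) = (χ : G ⧸ P → ℂ) ∘ QuotientGroup.mk := by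
  classical
  haveI := CfsgLib.Blocks.isPrime_of_isPModular hM
  haveI := Fintype.ofFinite G
  haveI := Fintype.ofFinite P
  haveI := Fintype.ofFinite (G ⧸ P)
  haveI := Fintype.ofFinite (Cfsg.IrrCharacter G)
  have hreg : ∀ g : G, ¬ p ∣ orderOf g → g ∈ Subgroup.centralizer (P : Set G) := fun g hg =>
    CfsgLib.BlockLocal.mem_of_p_regular hC hg
  have hppow : ∀ d ∈ P, ∃ k : ℕ, orderOf d = p ^ k := fun d hd => by
    obtain ⟨k, hk⟩ := IsPGroup.iff_orderOf.mp hP ⟨d, hd⟩
    exact ⟨k, by rw [← hk, ← Subgroup.orderOf_coe]⟩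
  refine ⟨fun χ ψ => ⟨fun h g => ?_, fun h => ?_⟩, fun B hB => ?_⟩
  · -- inflation preserves congruence of central characters
    obtain ⟨t, ht⟩ : (Subgroup.centralizer ({(g : G ⧸ P)} : Set (G ⧸ P))).index ∣
        (Subgroup.centralizer ({g} : Set G)).index := by
      rw [← Subgroup.index_comap_of_surjective _ (QuotientGroup.mk'_surjective P)]
      refine Subgroup.index_dvd_of_le fun c hc => ?_
      rw [Subgroup.mem_comap, Subgroup.mem_centralizer_singleton_iff]
      exact congrArg (QuotientGroup.mk' P) (Subgroup.mem_centralizer_singleton_iff.mp hc)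
    have e : ∀ φ : Cfsg.IrrCharacter (G ⧸ P),
        Cfsg.centralChar ((φ : G ⧸ P → ℂ) ∘ QuotientGroup.mk) g =
          (t : ℂ) * Cfsg.centralChar (φ : G ⧸ P → ℂ) (g : G ⧸ P) := fun φ => by
      rw [CfsgLib.Blocks.centralChar_apply, CfsgLib.Blocks.centralChar_apply, Function.comp_apply,
        Function.comp_apply, ht, QuotientGroup.mk_one, Nat.cast_mul]
      ring
    rw [e, e, ← mul_sub]
    exact CfsgLib.Blocks.memLocalIdeal_mul_left (CfsgLib.Blocks.memLocalRing_natCast t) (h _)
  · -- descent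
    have hB0 := CfsgLib.Blocks.isPBlock_blockOf (M := M) χ
    by_contra hns
    set a : G → ℂ := fun g => if p ∣ orderOf g then 0
      else Cfsg.blockCoeff (Cfsg.blockOf M (χ : G ⧸ P → ℂ)) (g : G ⧸ P) with ha
    have hac : Cfsg.IsClassFunction G a := fun g c => by
      simp only [ha]
      rw [show orderOf (c * g * c⁻¹) = orderOf g from (MulAut.conj c).orderOf_eq g,
        QuotientGroup.mk_mul, QuotientGroup.mk_mul, QuotientGroup.mk_inv,
        CfsgLib.Blocks.blockCoeff_conj]
    have haS : ∀ g, Cfsg.MemLocalRing M (a g) := fun g => by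
      simp only [ha]
      split_ifs
      · exact CfsgLib.Blocks.memLocalRing_of_memLocalIdeal CfsgLib.Blocks.memLocalIdeal_zero
      · exact CfsgLib.Blocks.memLocalRing_blockCoeff hB0 _
    have hsum : ∀ f : G ⧸ P → ℂ, ∑ g : G, a g * f (g : G ⧸ P) =
        ∑ q : G ⧸ P, Cfsg.blockCoeff (Cfsg.blockOf M (χ : G ⧸ P → ℂ)) q * f q := by
      intro f
      refine Finset.sum_bij_ne_zero (fun (g : G) _ _ => (g : G ⧸ P)) (fun _ _ _ => Finset.mem_univ _)
        ?_ ?_ ?_
      · intro u _ hu v _ hv huv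
        have hr : ∀ x : G, a x * f (x : G ⧸ P) ≠ 0 → ¬ p ∣ orderOf x := fun x hx hd =>
          hx (by simp [ha, hd])
        have hmem : u⁻¹ * v ∈ P := QuotientGroup.eq.mp huv
        have hcomm : Commute u (u⁻¹ * v) :=
          (Subgroup.mem_centralizer_iff.mp (hreg u (hr u hu)) _ hmem).symm
        exact inv_mul_eq_one.mp ((CfsgLib.BlockLocal.not_dvd_orderOf_mul_iff (p := p) hcomm
          (hppow _ hmem) (hr u hu)).mp (by rw [mul_inv_cancel_left]; exact hr v hv))
      · intro q _ hq
        have hqr : ¬ p ∣ orderOf q := fun hd => hq (by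
          rw [CfsgLib.Blocks.blockCoeff_eq_zero_of_dvd_orderOf hM hB0 hd, zero_mul])
        obtain ⟨g, rfl⟩ := QuotientGroup.mk'_surjective P q
        obtain ⟨x, y, rfl, hc, ⟨k, hk⟩, hy⟩ := CfsgLib.Blocks.exists_isPPart p g
        have hx1 : QuotientGroup.mk' P x = 1 := by
          obtain ⟨j, -, hj⟩ := (Nat.dvd_prime_pow (Fact.out : p.Prime)).mp
            ((orderOf_map_dvd (QuotientGroup.mk' P) x).trans (dvd_of_eq hk))
          exact (CfsgLib.Blocks.isPPart_eq_one_iff (g := QuotientGroup.mk' P (x * y))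
            ⟨QuotientGroup.mk' P y, (map_mul _ x y).symm, hc.map _, ⟨j, hj⟩,
              fun hd => hy (hd.trans (orderOf_map_dvd _ y))⟩).mpr hqr
        rw [map_mul, hx1, one_mul] at hq
        refine ⟨y, Finset.mem_univ _, ?_, by rw [map_mul, hx1, one_mul]; rfl⟩
        rw [ha]
        simp only [if_neg hy]
        exact hq
      · intro g _ hg
        have hgr : ¬ p ∣ orderOf g := fun hd => hg (by simp [ha, hd])
        simp [ha, hgr]
    have key := CfsgLib.BlockLocal.memLocalIdeal_sum_sub_of_sameBlock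
      (χ := (χ : G ⧸ P → ℂ) ∘ QuotientGroup.mk) (ψ := (ψ : G ⧸ P → ℂ) ∘ QuotientGroup.mk)
      (fun g c => by
        simp only [Function.comp_apply, QuotientGroup.mk_mul, QuotientGroup.mk_inv]
        exact CfsgLib.CharTheory.IsIrrCharacter.isClassFunction χ.2 _ _)
      (fun g c => by
        simp only [Function.comp_apply, QuotientGroup.mk_mul, QuotientGroup.mk_inv]
        exact CfsgLib.CharTheory.IsIrrCharacter.isClassFunction ψ.2 _ _)
      h hac haS
    simp only [Function.comp_apply, QuotientGroup.mk_one] at key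
    rw [hsum, hsum, CfsgLib.BlockLocal.sum_blockCoeff_mul_div,
      CfsgLib.BlockLocal.sum_blockCoeff_mul_div, if_pos (CfsgLib.Blocks.mem_blockOf_self χ),
      if_neg (show ψ ∉ Cfsg.blockOf M (χ : G ⧸ P → ℂ) from hns), sub_zero] at key
    exact CfsgLib.Blocks.not_memLocalIdeal_one key
  · -- every block has a character trivial on `P`
    have h1 : ∑ u : P, Cfsg.blockCoeff B (u : G) = Cfsg.blockCoeff B (1 : G) := by
      rw [Finset.sum_eq_single (1 : P)]
      · rfl
      · intro u _ hu
        refine CfsgLib.Blocks.blockCoeff_eq_zero_of_dvd_orderOf hM hB ?_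
        obtain ⟨k, hk⟩ := hppow u u.2
        rw [hk]
        refine dvd_pow_self p fun h0 => hu (Subtype.ext ?_)
        rw [h0, pow_zero] at hk
        exact orderOf_eq_one_iff.mp hk
      · simp
    obtain ⟨θ, hθ, hθsum⟩ : ∃ θ ∈ B, ∑ u : P, (θ : G → ℂ) u ≠ 0 := by
      by_contra hcon
      push Not at hcon
      have h2 : Cfsg.blockCoeff B (1 : G) = 0 := by
        rw [← h1]
        simp only [CfsgLib.Blocks.blockCoeff_eq_sum B]
        rw [← Finset.mul_sum, Finset.sum_comm, Finset.sum_eq_zero, mul_zero]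
        intro φ _
        by_cases hφ : φ ∈ B
        · simp only [if_pos hφ, ← Finset.mul_sum, ← map_sum, hcon φ hφ, map_zero, mul_zero]
        · simp [hφ]
      rw [CfsgLib.Blocks.blockCoeff_eq_sum B, mul_eq_zero, or_iff_right
        (inv_ne_zero (Nat.cast_ne_zero.2 Nat.card_pos.ne'))] at h2
      obtain ⟨φ, hφ⟩ := CfsgLib.Blocks.isPBlock_nonempty hB
      have h3 : ((∑ ψ : Cfsg.IrrCharacter G,
          if ψ ∈ B then Cfsg.charDegree (ψ : G → ℂ) ^ 2 else 0 : ℕ) : ℂ) = 0 := by
        rw [Nat.cast_sum, ← h2]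
        refine Finset.sum_congr rfl fun ψ _ => ?_
        split_ifs
        · rw [← CfsgLib.CharTheory.IsIrrCharacter.inv ψ.2, inv_one, Nat.cast_pow,
            CfsgLib.BlockLocal.coe_charDegree, pow_two]
        · exact Nat.cast_zero
      rw [Nat.cast_eq_zero, Finset.sum_eq_zero_iff] at h3
      have h4 := h3 φ (Finset.mem_univ _)
      rw [if_pos hφ] at h4
      exact CfsgLib.BlockLocal.charDegree_irr_ne_zero φ (pow_eq_zero_iff (by norm_num) |>.mp h4)
    have hker : ∀ x ∈ P, (θ : G → ℂ) x = (θ : G → ℂ) 1 := by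
      by_contra hcon
      push Not at hcon
      exact hθsum (CfsgLib.Correspondences.sum_normal_eq_zero θ.2 P hcon)
    obtain ⟨φ, hφ, hφθ⟩ := CfsgLib.CharTheory.exists_descend θ.2 P hker
    exact ⟨⟨φ, hφ⟩, θ, hθ, funext hφθ⟩

end Cfsg.Agent.S0941
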