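import Mathlib.Analysis.Complex.Polynomial.Basic
import Mathlib.Tactic
import Cfsg.Statements.S0943
-- import your own Cfsg.Agent.* helpers here

set_option autoImplicit false
open Cfsg

namespace Cfsg.Agent.S0943

theorem false_of_irreducible_zero {G : Type*} [Group G] (ρ : Representation ℂ G (Fin 0 → ℂ))
    [Representation.IsIrreducible ρ] : False := by
  haveI := (Representation.irreducible_iff_isSimpleModule_asModule ρ).1 inferInstance
  haveI := IsSimpleModule.nontrivial (MonoidAlgebra ℂ G) ρ.asModule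
  exact not_nontrivial (Fin 0 → ℂ) (inferInstanceAs (Nontrivial ρ.asModule))

theorem classSum_scalar {G : Type*} [Group G] [Fintype G] {n : ℕ}
    (ρ : Representation ℂ G (Fin n → ℂ)) [Representation.IsIrreducible ρ] (u : G) :
    ∃ a : ℂ, (∑ x : G, ρ (x * u * x⁻¹)) = a • (1 : Module.End ℂ (Fin n → ℂ)) ∧
      a * n = (Nat.card G : ℂ) * ρ.character u := by
  set S : Module.End ℂ (Fin n → ℂ) := ∑ x : G, ρ (x * u * x⁻¹) with hS
  have hcomm : ∀ g : G, S * ρ g = ρ g * S := by
    intro g
    rw [hS, Finset.sum_mul, Finset.mul_sum]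
    rw [← Equiv.sum_comp (Equiv.mulLeft g) (fun x => ρ (x * u * x⁻¹) * ρ g)]
    refine Finset.sum_congr rfl fun x _ => ?_
    rw [← map_mul, ← map_mul]
    congr 1
    simp only [Equiv.coe_mulLeft]
    group
  let f : Representation.IntertwiningMap ρ ρ := ⟨S, fun g => hcomm g⟩
  obtain ⟨a, ha⟩ := (Representation.IsIrreducible.algebraMap_intertwiningMap_bijective_of_isAlgClosed (ρ := ρ)).2 f
  have hSa : S = a • (1 : Module.End ℂ (Fin n → ℂ)) := by
    have := congrArg (fun w : Representation.IntertwiningMap ρ ρ => w.toLinearMap) ha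
    exact this.symm.trans (by rfl)
  refine ⟨a, hSa, ?_⟩
  have h := congrArg (LinearMap.trace ℂ (Fin n → ℂ)) hSa
  rw [map_smul, LinearMap.trace_one, Module.finrank_fin_fun, smul_eq_mul] at h
  rw [← h, hS, map_sum]
  have : ∀ x : G, LinearMap.trace ℂ (Fin n → ℂ) (ρ (x * u * x⁻¹)) = ρ.character u :=
    fun x => Representation.char_conj ρ u x
  rw [Finset.sum_congr rfl fun x _ => this x, Finset.sum_const, Finset.card_univ,
    ← Nat.card_eq_fintype_card, nsmul_eq_mul]

/-- Let χ be an irreducible character of the finite group G and u, v ∈ G. If χ (x * y) = χ (u * v) whenever x is conjugate to u and y is conjugate to v, then χ u * χ v = χ 1 * χ (u * v). (Multiply the class sums of u and v and apply the central character of χ.) -/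
theorem result {G : Type*} [Group G] [Finite G] (χ : Cfsg.IrrCharacter G) (u v : G) (hc : ∀ x y : G, IsConj u x → IsConj v y → (χ : G → ℂ) (x * y) = (χ : G → ℂ) (u * v)) : (χ : G → ℂ) u * (χ : G → ℂ) v = (χ : G → ℂ) 1 * (χ : G → ℂ) (u * v) := by
  classical
  obtain ⟨n, ρ, hρ, hχ⟩ := χ.2
  haveI := hρ
  haveI := Fintype.ofFinite G
  have hn : (n : ℂ) ≠ 0 := by
    intro h
    have hn0 : n = 0 := Nat.cast_eq_zero.1 h
    subst hn0
    exact false_of_irreducible_zero ρ
  obtain ⟨a, ha, ha'⟩ := classSum_scalar ρ u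
  obtain ⟨b, hb, hb'⟩ := classSum_scalar ρ v
  have hG : (Nat.card G : ℂ) ≠ 0 := Nat.cast_ne_zero.2 Nat.card_pos.ne'
  have key : a * (b * (n : ℂ)) = (Nat.card G : ℂ) * ((Nat.card G : ℂ) * ρ.character (u * v)) := by
    calc a * (b * (n : ℂ)) = LinearMap.trace ℂ (Fin n → ℂ)
          ((∑ x : G, ρ (x * u * x⁻¹)) * (∑ y : G, ρ (y * v * y⁻¹))) := by
          rw [ha, hb, smul_mul_smul_comm, one_mul, map_smul, LinearMap.trace_one,
            Module.finrank_fin_fun, smul_eq_mul, mul_assoc]
      _ = ∑ _x : G, ∑ _y : G, ρ.character (u * v) := by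
          rw [Finset.sum_mul_sum, map_sum]
          refine Finset.sum_congr rfl fun x _ => ?_
          rw [map_sum]
          refine Finset.sum_congr rfl fun y _ => ?_
          rw [← map_mul, hχ]
          show ρ.character _ = _
          rw [hχ]
          exact hc _ _ (isConj_iff.2 ⟨x, rfl⟩) (isConj_iff.2 ⟨y, rfl⟩)
      _ = _ := by
          rw [Finset.sum_const, Finset.sum_const, Finset.card_univ, ← Nat.card_eq_fintype_card,
            nsmul_eq_mul, nsmul_eq_mul]
  rw [← hχ, Representation.char_one, Module.finrank_fin_fun]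
  rw [← hχ] at hc
  apply mul_left_cancel₀ (mul_ne_zero hG hG)
  linear_combination (n : ℂ) * key - (n : ℂ) * b * ha' - (Nat.card G : ℂ) * ρ.character u * hb'

end Cfsg.Agent.S0943
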