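import Cfsg.Statements.S0944
-- import your own Cfsg.Agent.* helpers here

set_option autoImplicit false
open Cfsg

namespace Cfsg.Agent.S0944

/-- Let χ be an irreducible character of the finite group G and u an involution. Then χ u is a rational integer n with n ≡ χ 1 (mod 2). -/
theorem result {G : Type*} [Group G] [Finite G] (χ : Cfsg.IrrCharacter G) (u : G) (hu : orderOf u = 2) : ∃ n : ℤ, (χ : G → ℂ) u = (n : ℂ) ∧ (2 : ℤ) ∣ (Cfsg.charDegree (χ : G → ℂ) : ℤ) - n := by
  obtain ⟨n, ρ, hρ, hχ⟩ := χ.2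
  set f : Module.End ℂ (Fin n → ℂ) := (2 : ℂ)⁻¹ • (1 + ρ u) with hf
  have hu2 : ρ u * ρ u = 1 := by
    rw [← map_mul, ← pow_two, ← hu, pow_orderOf_eq_one, map_one]
  have hidem : f * f = f := by
    rw [hf, smul_mul_smul_comm, add_mul, mul_add, mul_add, hu2, one_mul, mul_one, one_mul,
      show (1 : Module.End ℂ (Fin n → ℂ)) + ρ u + (ρ u + 1) = (2 : ℂ) • (1 + ρ u) by
        rw [two_smul]; abel,
      smul_smul]
    norm_num
  have htr := (LinearMap.IsIdempotentElem.isProj_range f hidem).trace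
  rw [hf, map_smul, map_add, LinearMap.trace_one, Module.finrank_fin_fun, smul_eq_mul] at htr
  rw [← hf] at htr
  set k := Module.finrank ℂ (LinearMap.range f)
  refine ⟨2 * (k : ℤ) - n, ?_, ?_⟩
  · rw [← hχ]
    show LinearMap.trace ℂ _ (ρ u) = _
    push_cast
    linear_combination (2 : ℂ) * htr
  · have hdeg : Cfsg.charDegree (χ : G → ℂ) = n := by
      rw [Cfsg.charDegree, ← hχ, Representation.char_one, Module.finrank_fin_fun, Complex.natCast_re,
        Nat.floor_natCast]
    rw [hdeg]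
    exact ⟨(n : ℤ) - k, by ring⟩

end Cfsg.Agent.S0944
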