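import Cfsg.Statements.S0946
import Cfsg.Agent.Lib.BlockLocal.Homocyclic

set_option autoImplicit false
open Cfsg

namespace Cfsg.Agent.S0946

/-- Let P be a Sylow 2-subgroup of the finite group G isomorphic to Z/2^m × Z/2^m with m ≥ 1. Then either P has a normal complement in G, or all involutions of G are conjugate. -/
theorem result {G : Type*} [Group G] [Finite G] (P : Sylow 2 G) (m : ℕ) (hm : 1 ≤ m) (e : (P : Subgroup G) ≃* Multiplicative (ZMod (2 ^ m) × ZMod (2 ^ m))) : (∃ N : Subgroup G, N.Normal ∧ Subgroup.IsComplement' N (P : Subgroup G)) ∨ ∀ s t : G, orderOf s = 2 → orderOf t = 2 → IsConj s t := by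
  classical
  have hcomm : IsMulCommutative (P : Subgroup G) :=
    ⟨⟨fun a b => e.injective (by rw [map_mul, map_mul, mul_comm])⟩⟩
  open scoped IsMulCommutative in
  set f := (P : Subgroup G).normalizerMonoidHom with hf
  by_cases h : Subgroup.normalizer (P : Set G) ≤ Subgroup.centralizer (P : Set G)
  · left
    exact ⟨(MonoidHom.transferSylow P h).ker, MonoidHom.normal_ker _,
      MonoidHom.ker_transferSylow_isComplement' P h⟩
  · right
    obtain ⟨n, hnN, hnC⟩ := SetLike.not_le_iff_exists.1 h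
    have hne : f ⟨n, hnN⟩ ≠ 1 := by
      intro h1
      rw [← MonoidHom.mem_ker, hf, Subgroup.normalizerMonoidHom_ker, Subgroup.mem_subgroupOf] at h1
      exact hnC h1
    obtain ⟨-, -, htr⟩ := CfsgLib.BlockLocal.aut_homocyclic_odd hm e _
      (CfsgLib.BlockLocal.odd_orderOf_normalizerMonoidHom P ⟨n, hnN⟩) hne
    have hmove : ∀ s : G, orderOf s = 2 → ∃ x : (P : Subgroup G), orderOf x = 2 ∧ IsConj s (x : G) := by
      intro s hs
      have hsP : IsPGroup 2 (Subgroup.zpowers s) := IsPGroup.of_card (n := 1) (by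
        rw [Nat.card_zpowers, hs, pow_one])
      obtain ⟨Q, hQ⟩ := hsP.exists_le_sylow
      obtain ⟨c, hc⟩ := MulAction.exists_smul_eq G Q P
      have hmem : c * s * c⁻¹ ∈ (P : Subgroup G) := by
        rw [← hc]
        exact Subgroup.smul_mem_pointwise_smul _ (MulAut.conj c) _ (hQ (Subgroup.mem_zpowers s))
      refine ⟨⟨_, hmem⟩, ?_, isConj_iff.2 ⟨c, rfl⟩⟩
      rw [← Subgroup.orderOf_coe]
      show orderOf (MulAut.conj c s) = 2
      rw [MulEquiv.orderOf_eq, hs]
    intro s t hs ht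
    obtain ⟨a, ha, hsa⟩ := hmove s hs
    obtain ⟨b, hb, htb⟩ := hmove t ht
    refine hsa.trans (IsConj.trans ?_ htb.symm)
    rcases htr a b ha hb with h | h | h
    · rw [h]
    · rw [← h]; exact isConj_iff.2 ⟨n, rfl⟩
    · rw [← h]; exact (isConj_iff.2 ⟨n, rfl⟩).trans (isConj_iff.2 ⟨n, rfl⟩)

end Cfsg.Agent.S0946
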