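import Cfsg.Statements.S0953
import Cfsg.Agent.Lib.BlockLocal.DefectCount
import Cfsg.Agent.Lib.BrauerPairs.BridgeDefect
import Cfsg.Agent.Lib.Blocks.Induced
-- import your own Cfsg.Agent.* helpers here

set_option autoImplicit false
open Cfsg

namespace Cfsg.Agent.S0953

/-- Let P be a Sylow p-subgroup of the finite group G with normalizer N, and fix a maximal ideal M of the algebraic integers containing p. The number of blocks of G having P as a defect group equals the number of conjugacy classes of N consisting of elements of order prime to p that centralize P. -/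
theorem result {G : Type*} [Group G] [Finite G] (p : ℕ) [Fact p.Prime] (M : Ideal Cfsg.AlgInt) (hM : Cfsg.IsPModular p M) (P : Sylow p G) : Nat.card {B : Set (Cfsg.IrrCharacter G) // Cfsg.IsPBlock M B ∧ Cfsg.IsDefectGroup p M B (P : Subgroup G)} = Nat.card {C : ConjClasses (Subgroup.normalizer ((P : Subgroup G) : Set G)) // ∀ n : Subgroup.normalizer ((P : Subgroup G) : Set G), ConjClasses.mk n = C → ¬ p ∣ orderOf n ∧ (n : G) ∈ Subgroup.centralizer ((P : Subgroup G) : Set G)} := by
  classical
  haveI := CfsgLib.Blocks.isPrime_of_isPModular hM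
  haveI := Fintype.ofFinite G
  set a := (Nat.card G).factorization p with ha
  rw [Nat.card_congr (Equiv.subtypeEquivRight (q := fun B : Set (Cfsg.IrrCharacter G) =>
    Cfsg.IsPBlock M B ∧ a ≤ Cfsg.blockDefect p B) fun B => by
      constructor
      · rintro ⟨hB, hD⟩
        exact ⟨hB, (CfsgLib.BlockLocal.isDefectGroup_sylow_iff hM P hB ⟨_, hD⟩).1 hD⟩
      · rintro ⟨hB, hd⟩
        exact ⟨hB, (CfsgLib.BlockLocal.isDefectGroup_sylow_iff hM P hB
          (CfsgLib.BrauerPairs.exists_isDefectGroup hM hB)).2 hd⟩)]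
  haveI : Finite (ConjClasses G) := Finite.of_surjective _ ConjClasses.mk_surjective
  haveI : Finite (ConjClasses (Subgroup.normalizer ((P : Subgroup G) : Set G))) :=
    Finite.of_surjective _ ConjClasses.mk_surjective
  set cond : ConjClasses (Subgroup.normalizer ((P : Subgroup G) : Set G)) → Prop := fun C =>
    ∀ n : Subgroup.normalizer ((P : Subgroup G) : Set G), ConjClasses.mk n = C →
      ¬ p ∣ orderOf n ∧ (n : G) ∈ Subgroup.centralizer ((P : Subgroup G) : Set G) with hcond
  refine le_antisymm ?_ ?_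
  · refine (CfsgLib.BlockLocal.card_blocks_le_card_classes hM a).trans ?_
    have hrep : ∀ C : {C : ConjClasses G // ∃ g : G, ConjClasses.mk g = C ∧ Cfsg.IsPRegular p g ∧
        a ≤ (Nat.card (Subgroup.centralizer ({g} : Set G))).factorization p},
        ∃ K : {K // cond K}, ∀ n : Subgroup.normalizer ((P : Subgroup G) : Set G),
          ConjClasses.mk n = K.1 → ConjClasses.mk (n : G) = C.1 := by
      rintro ⟨C, g, rfl, hgr, hgd⟩
      obtain ⟨c, hc⟩ := CfsgLib.BlockLocal.exists_conj_mem_centralizer P hgd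
      let n0 : Subgroup.normalizer ((P : Subgroup G) : Set G) :=
        ⟨c * g * c⁻¹, Subgroup.centralizer_le_normalizer _ hc⟩
      have hn0 : ¬ p ∣ orderOf n0 := by
        rw [← Subgroup.orderOf_coe, show ((n0 : G)) = MulAut.conj c g from rfl,
          (MulAut.conj c).orderOf_eq]
        exact hgr
      refine ⟨⟨ConjClasses.mk n0, fun n hn => ?_⟩, fun n hn => ?_⟩
      · obtain ⟨d, hd⟩ := isConj_iff.1 (ConjClasses.mk_eq_mk_iff_isConj.1 hn.symm)
        subst hd
        refine ⟨?_, ?_⟩
        · rw [show d * n0 * d⁻¹ = MulAut.conj d n0 from rfl, (MulAut.conj d).orderOf_eq]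
          exact hn0
        · push_cast
          exact (CfsgLib.Blocks.conj_mem_centralizer_iff_of_mem_normalizer d.2 _).2 hc
      · obtain ⟨d, hd⟩ := isConj_iff.1 (ConjClasses.mk_eq_mk_iff_isConj.1 hn.symm)
        subst hd
        refine ConjClasses.mk_eq_mk_iff_isConj.2 (isConj_iff.2 ⟨(c⁻¹ * (d : G)⁻¹), ?_⟩)
        push_cast
        simp only [n0]
        group
    choose f hf using hrep
    refine Nat.card_le_card_of_injective f fun C C' e => Subtype.ext ?_
    obtain ⟨n, hn⟩ := ConjClasses.exists_rep (f C).1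
    rw [← hf C n hn, hf C' n (e ▸ hn)]
  · haveI := Fintype.ofFinite {K // cond K}
    haveI := Fintype.ofFinite {B : Set (Cfsg.IrrCharacter G) //
      Cfsg.IsPBlock M B ∧ a ≤ Cfsg.blockDefect p B}
    rw [Nat.card_eq_fintype_card, Nat.card_eq_fintype_card]
    choose ψ hψ using fun B : {B : Set (Cfsg.IrrCharacter G) //
      Cfsg.IsPBlock M B ∧ a ≤ Cfsg.blockDefect p B} => CfsgLib.Blocks.isPBlock_nonempty B.2.1
    choose n hn using fun K : {K // cond K} => ConjClasses.exists_rep K.1
    have hreg : ∀ K, ¬ p ∣ orderOf (n K : G) := fun K => by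
      rw [Subgroup.orderOf_coe]
      exact (K.2 (n K) (hn K)).1
    have hcen : ∀ K, (n K : G) ∈ Subgroup.centralizer ((P : Subgroup G) : Set G) := fun K =>
      (K.2 (n K) (hn K)).2
    refine CfsgLib.BlockLocal.card_le_of_mul_eq_one
      (Matrix.of fun (K : {K // cond K}) (B : {B : Set (Cfsg.IrrCharacter G) //
          Cfsg.IsPBlock M B ∧ a ≤ Cfsg.blockDefect p B}) =>
        CfsgLib.Blocks.red M ⟨Cfsg.blockCoeff B.1 (n K : G),
          CfsgLib.Blocks.memLocalRing_blockCoeff B.2.1 _⟩)
      (Matrix.of fun (B : {B : Set (Cfsg.IrrCharacter G) //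
          Cfsg.IsPBlock M B ∧ a ≤ Cfsg.blockDefect p B}) (K : {K // cond K}) =>
        CfsgLib.Blocks.red M ⟨Cfsg.centralChar (ψ B : G → ℂ) (n K : G),
          CfsgLib.Blocks.memLocalRing_centralChar _ _⟩)
      (Matrix.ext fun K K' => ?_)
    have hiff : IsConj (n K : G) (n K' : G) ↔ K = K' := by
      refine ⟨fun h => Subtype.ext ?_, fun h => h ▸ IsConj.refl _⟩
      obtain ⟨g, hg⟩ := isConj_iff.1 h
      have hmem : (g⁻¹)⁻¹ * (n K : G) * g⁻¹ ∈ Subgroup.centralizer ((P : Subgroup G) : Set G) := by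
        rw [inv_inv, hg]
        exact hcen K'
      obtain ⟨m, hm, e⟩ := P.conj_eq_normalizer_conj_of_mem_centralizer _ g⁻¹ (hcen K) hmem
      rw [inv_inv, hg] at e
      rw [← hn K, ← hn K', ConjClasses.mk_eq_mk_iff_isConj, isConj_iff]
      refine ⟨⟨m, hm⟩⁻¹, Subtype.ext ?_⟩
      push_cast
      rw [inv_inv, e]
    have key := CfsgLib.BlockLocal.memLocalIdeal_sum_full_sub hM P (h := (n K' : G)) (hcen K)
      (hreg K) (hreg K') ψ hψ
    rw [Matrix.mul_apply, Matrix.one_apply]
    simp only [Matrix.of_apply, ← map_mul, ← map_sum]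
    rw [show (if K = K' then (1 : CfsgLib.Blocks.Res M) else 0) = CfsgLib.Blocks.red M
      (if IsConj (n K : G) (n K' : G) then 1 else 0) by
        simp only [hiff]
        split_ifs <;> simp,
      CfsgLib.Blocks.red_eq_red_iff, AddSubmonoidClass.coe_finsetSum]
    have e : ∀ (q : Prop) [Decidable q],
        ((if q then 1 else 0 : CfsgLib.Blocks.locRing M) : ℂ) = if q then 1 else 0 := by
      intro q _
      split_ifs <;> rfl
    rw [e]
    exact key

end Cfsg.Agent.S0953
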