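import Cfsg.Statements.S0954
import Cfsg.Agent.Lib.BlockLocal.KernelSupport

set_option autoImplicit false
open Cfsg

namespace Cfsg.Agent.S0954

/-- Let N be a normal subgroup of the finite group G of order prime to p and of p-power index (a normal p-complement), and fix a maximal ideal M of the algebraic integers containing p. Then two irreducible characters χ, ψ of G lie in the same block if and only if some irreducible character of N has nonzero inner product with both the restriction of χ and the restriction of ψ. -/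
theorem result {G : Type*} [Group G] [Fintype G] (p : ℕ) [Fact p.Prime] (M : Ideal Cfsg.AlgInt) (hM : Cfsg.IsPModular p M) (N : Subgroup G) [N.Normal] [Fintype N] (hN : ¬ p ∣ Nat.card N) (hidx : ∃ k : ℕ, N.index = p ^ k) (χ ψ : Cfsg.IrrCharacter G) : Cfsg.SameBlock M (χ : G → ℂ) (ψ : G → ℂ) ↔ ∃ θ : Cfsg.IrrCharacter N, Cfsg.classInner (fun n : N => (χ : G → ℂ) n) (θ : N → ℂ) ≠ 0 ∧ Cfsg.classInner (fun n : N => (ψ : G → ℂ) n) (θ : N → ℂ) ≠ 0 := by
  classical
  haveI := CfsgLib.Blocks.isPrime_of_isPModular hM
  haveI := Fintype.ofFinite (Cfsg.IrrCharacter N)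
  open CfsgLib.BlockLocal CfsgLib.Blocks CfsgLib.CharTheory in
  constructor
  · intro h
    obtain ⟨θ, hθ⟩ := exists_constituent N χ
    obtain ⟨η, hη⟩ := exists_constituent N ψ
    set S := orbitSet N ({θ} : Set (Cfsg.IrrCharacter N)) with hSdef
    have hS : ∀ g : G, ∀ η ∈ S, conjIrr N g η ∈ S := fun g η => conjIrr_mem_orbitSet N g
    have hloc : ∀ x, Cfsg.MemLocalRing M (Cfsg.extendByZero N (coeffSet S) x) := by
      intro x
      by_cases hx : x ∈ N
      · rw [CfsgLib.Frobenius.extendByZero_of_mem _ _ hx, coeffSet]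
        exact memLocalRing_mul (memLocalRing_inv_natCast hM hN)
          (memLocalRing_sum fun η _ => memLocalRing_mul (CfsgLib.BlockLocal.memLocalRing_irr η _)
            (CfsgLib.BlockLocal.memLocalRing_irr η _))
      · rw [CfsgLib.Frobenius.extendByZero_of_not_mem _ _ hx]
        exact memLocalRing_of_memLocalIdeal memLocalIdeal_zero
    have key := memLocalIdeal_sum_sub_of_sameBlock (IsIrrCharacter.isClassFunction χ.2)
      (IsIrrCharacter.isClassFunction ψ.2) h (isClassFunction_extend_coeffSet N S hS) hloc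
    rw [sum_extend_coeffSet_div N S hS hθ, sum_extend_coeffSet_div N S hS hη,
      if_pos (mem_orbitSet_self N (Set.mem_singleton θ))] at key
    by_cases hηS : η ∈ S
    · obtain ⟨g, θ', hθ', rfl⟩ := (mem_orbitSet N).1 hηS
      rw [Set.mem_singleton_iff.1 hθ', classInner_res_conjIrr] at hη
      exact ⟨θ, hθ, hη⟩
    · rw [if_neg hηS, sub_zero] at key
      exact absurd key not_memLocalIdeal_one
  · rintro ⟨θ, h1, h2⟩
    have hB := isPBlock_blockOf (M := M) χ
    have e1 := sum_blockCoeff_constituent hM N hidx hB h1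
    have e2 := sum_blockCoeff_constituent hM N hidx hB h2
    rw [if_pos (mem_blockOf_self χ)] at e1
    by_contra hnot
    rw [if_neg (show ψ ∉ Cfsg.blockOf M (χ : G → ℂ) from hnot)] at e2
    exact one_ne_zero (e1.symm.trans e2)

end Cfsg.Agent.S0954
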