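import Cfsg.Statements.S0957
-- import your own Cfsg.Agent.* helpers here

set_option autoImplicit false
open Cfsg

namespace Cfsg.Agent.S0957

/-- If all orbits of a finite action have cardinality divisible by `m`, so does the set. -/
theorem dvd_card_of_dvd_orbits {P X : Type*} [Group P] [MulAction P X] [Finite X] (m : ℕ)
    (h : ∀ x : X, m ∣ Nat.card (MulAction.orbit P x)) : m ∣ Nat.card X := by
  have := Fintype.ofFinite (Quotient (MulAction.orbitRel P X))
  rw [Nat.card_congr (MulAction.selfEquivSigmaOrbits P X), Nat.card_sigma]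
  exact Finset.dvd_sum fun q _ => h q.out

/-- Let P be a Sylow p-subgroup of the finite group G, let g, h ∈ G and let p ^ d be the order of a Sylow p-subgroup of the centralizer of g. Then the number of pairs (y, z) with y conjugate to g, z conjugate to h and z * y⁻¹ ∈ P is divisible by the order of P divided by p ^ d. -/
theorem result {G : Type*} [Group G] [Finite G] (p : ℕ) [Fact p.Prime] (P : Sylow p G) (g h : G) (S : Sylow p (Subgroup.centralizer ({g} : Set G))) : Nat.card P / Nat.card S ∣ Nat.card {yz : G × G // IsConj g yz.1 ∧ IsConj h yz.2 ∧ yz.2 * yz.1⁻¹ ∈ (P : Subgroup G)} := by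
  classical
  let X := {yz : G × G // IsConj g yz.1 ∧ IsConj h yz.2 ∧ yz.2 * yz.1⁻¹ ∈ (P : Subgroup G)}
  letI act : MulAction (P : Subgroup G) X :=
    { smul := fun u x => ⟨((u : G) * x.1.1 * (u : G)⁻¹, (u : G) * x.1.2 * (u : G)⁻¹),
        ⟨x.2.1.trans (isConj_iff.2 ⟨u, rfl⟩), x.2.2.1.trans (isConj_iff.2 ⟨u, rfl⟩), by
          have := mul_mem (mul_mem u.2 x.2.2.2) (inv_mem u.2)
          convert this using 1
          group⟩⟩
      one_smul := fun x => Subtype.ext (Prod.ext (by show _ * _ * _ = _; simp) (by show _ * _ * _ = _; simp))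
      mul_smul := fun u v x => Subtype.ext (Prod.ext
        (by show (((u * v : (P : Subgroup G)) : G)) * _ * _ = _ * (_ * _ * _) * _; simp [mul_assoc])
        (by show (((u * v : (P : Subgroup G)) : G)) * _ * _ = _ * (_ * _ * _) * _; simp [mul_assoc])) }
  refine dvd_card_of_dvd_orbits (P := (P : Subgroup G)) _ (fun x => ?_)
  rw [Nat.card_coe_set_eq, ← MulAction.index_stabilizer]
  -- the stabilizer embeds into the centralizer of a conjugate of g
  obtain ⟨c, hc⟩ := isConj_iff.1 x.2.1
  let K : Subgroup G := Subgroup.centralizer ({g} : Set G)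
  let f : MulAction.stabilizer (P : Subgroup G) x →* K :=
    { toFun := fun u => ⟨c⁻¹ * ((u : (P : Subgroup G)) : G) * c, by
        have hu : ((u : (P : Subgroup G)) : G) * x.1.1 * ((u : (P : Subgroup G)) : G)⁻¹ = x.1.1 :=
          congrArg (fun y : X => y.1.1) u.2
        show c⁻¹ * _ * c ∈ Subgroup.centralizer ({g} : Set G)
        rw [Subgroup.mem_centralizer_singleton_iff]
        rw [← hc] at hu
        apply mul_left_cancel (a := c)
        apply mul_right_cancel (b := c⁻¹)
        have hu' := mul_inv_eq_iff_eq_mul.1 hu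
        simp only [mul_assoc, mul_inv_cancel_left, inv_mul_cancel_left, mul_inv_cancel, mul_one] at hu' ⊢
        exact hu'⟩
      map_one' := Subtype.ext (by simp)
      map_mul' := fun u v => Subtype.ext (by simp [mul_assoc]) }
  have hf : Function.Injective f := fun u v huv =>
    Subtype.ext (Subtype.ext (mul_left_cancel (mul_right_cancel (congrArg Subtype.val huv))))
  have hstab : IsPGroup p (MulAction.stabilizer (P : Subgroup G) x) := P.2.to_subgroup _
  obtain ⟨S', hS'⟩ := (hstab.of_surjective f.rangeRestrict f.rangeRestrict_surjective).exists_le_sylow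
  have h1 : Nat.card (MulAction.stabilizer (P : Subgroup G) x) ∣ Nat.card S := by
    rw [Nat.card_congr (f.ofInjective hf).toEquiv, ← Nat.card_congr (Sylow.equiv S' S).toEquiv]
    exact Subgroup.card_dvd_of_le hS'
  have h2 := (MulAction.stabilizer (P : Subgroup G) x).index_mul_card
  obtain ⟨k, hk⟩ := h1
  refine ⟨k, ?_⟩
  have hpos : 0 < Nat.card (MulAction.stabilizer (P : Subgroup G) x) := Nat.card_pos
  have hdvd : Nat.card S ∣ Nat.card P := by
    obtain ⟨T, hT⟩ := ((S.2.map K.subtype)).exists_le_sylow
    have := Subgroup.card_dvd_of_le hT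
    rw [Subgroup.card_map_of_injective K.subtype_injective] at this
    rwa [← Nat.card_congr (Sylow.equiv T P).toEquiv]
  obtain ⟨l, hl⟩ := hdvd
  have hSpos : 0 < Nat.card S := Nat.card_pos
  rw [hl, Nat.mul_div_cancel_left _ hSpos]
  rw [hl, hk, mul_comm _ (Nat.card (MulAction.stabilizer (P : Subgroup G) x))] at h2
  apply Nat.eq_of_mul_eq_mul_left hpos
  calc _ = Nat.card (MulAction.stabilizer (P : Subgroup G) x) * k * l := h2
    _ = _ := by ring

end Cfsg.Agent.S0957
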