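import Cfsg.Statements.S0960
import Cfsg.Agent.Lib.DefectOne.Principal

set_option autoImplicit false
open Cfsg

namespace Cfsg.Agent.S0960

/-- Let p be an odd prime and G a finite group whose Sylow p-subgroup P has order p; let e be the index of C_G(P) in N_G(P) (a divisor of p − 1) and fix a maximal ideal M of the algebraic integers containing p. Then the principal block of G consists of exactly e + (p - 1) / e irreducible characters, and the degree d of each of them satisfies d ≡ 1, d ≡ -1, d ≡ e or d ≡ -e modulo p. -/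
theorem result {G : Type*} [Group G] [Finite G] (p : ℕ) [Fact p.Prime] (M : Ideal Cfsg.AlgInt) (hM : Cfsg.IsPModular p M) (hodd : p ≠ 2) (P : Sylow p G) (hP : Nat.card P = p) (e : ℕ) (he : (Subgroup.centralizer ((P : Subgroup G) : Set G)).relIndex (Subgroup.normalizer ((P : Subgroup G) : Set G)) = e) : Nat.card (Cfsg.principalBlock M G) = e + (p - 1) / e ∧ ∀ χ ∈ Cfsg.principalBlock M G, ((Cfsg.charDegree (χ : G → ℂ) : ℤ) ≡ 1 [ZMOD p] ∨ (Cfsg.charDegree (χ : G → ℂ) : ℤ) ≡ -1 [ZMOD p] ∨ (Cfsg.charDegree (χ : G → ℂ) : ℤ) ≡ (e : ℤ) [ZMOD p] ∨ (Cfsg.charDegree (χ : G → ℂ) : ℤ) ≡ -(e : ℤ) [ZMOD p]) := by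
  haveI := Fintype.ofFinite G
  haveI := CfsgLib.Blocks.isPrime_of_isPModular hM
  have hG := CfsgLib.DefectOne.exactPrime_of_sylow P hP
  obtain ⟨S, hS⟩ := CfsgLib.DefectOne.exists_sect_sylow P hP
  have he' : CfsgLib.DefectOne.rowE S (CfsgLib.CharTheory.trivIrr S.V) = e := by
    rw [← CfsgLib.DefectOne.rowE_trivIrr S hG, CfsgLib.DefectOne.Sect.N, hS]
    exact he
  obtain ⟨θ, hθ, hθe, hsub, hfix, hY, hcard, -⟩ :=
    CfsgLib.DefectOne.exists_exceptional hG S hM (CfsgLib.CharTheory.trivIrr S.V)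
  obtain ⟨δ, hδ, hδ1⟩ := CfsgLib.DefectOne.exists_sign hG S hM (CfsgLib.CharTheory.trivIrr S.V)
  rw [CfsgLib.DefectOne.principalBlock_eq hG S hM]
  refine ⟨by rw [hcard, he'], fun χ hχ => ?_⟩
  have hs := hδ1 χ hχ
  have hs0 : δ χ ≠ 0 := by omega
  by_cases hχY : χ ∈ CfsgLib.DefectOne.galOrb hG θ
  · have h := CfsgLib.DefectOne.degree_principal S hG hM (hδ χ) hs0
    rw [CfsgLib.DefectOne.galStab_eq hG hχY, hθe, he'] at h
    rcases hs with h1 | h1 <;> rw [h1] at h
    · exact Or.inr (Or.inr (Or.inr (by simpa using h)))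
    · exact Or.inr (Or.inr (Or.inl (by simpa using h)))
  · have h := CfsgLib.DefectOne.degree_principal_fixed S hG hM (hfix χ hχ hχY) (hδ χ) hs0
    rcases hs with h1 | h1 <;> rw [h1] at h
    · exact Or.inl h
    · exact Or.inr (Or.inl h)

end Cfsg.Agent.S0960
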