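import Cfsg.Statements.S0961
import Cfsg.Agent.Lib.BrauerCharacters.PRegular
import Cfsg.Agent.Lib.Brauer.CharRing
import Cfsg.Agent.Lib.Frobenius.Induce

set_option autoImplicit false
open Cfsg

namespace Cfsg.Agent.S0961

open CfsgLib.BrauerCharacters in
theorem isCharacter_permCnt {G : Type*} [Group G] [Fintype G] (U : Subgroup G) :
    Cfsg.IsCharacter G (fun g => (permCnt U g : ℂ)) := by
  classical
  have h : (fun g => (permCnt U g : ℂ)) = Cfsg.indFun U (fun _ : U => (1 : ℂ)) := by
    funext g
    have hs := congrArg (fun z : ℤ => (z : ℂ)) (sum_conj_mem_ite U g)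
    simp only [Int.cast_sum, Int.cast_mul, Int.cast_natCast] at hs
    have hU : (Nat.card U : ℂ) ≠ 0 := Nat.cast_ne_zero.2 Nat.card_pos.ne'
    have : ∀ x : G, Cfsg.extendByZero U (fun _ : U => (1 : ℂ)) (x⁻¹ * g * x) =
        (((if x⁻¹ * g * x ∈ U then 1 else 0) : ℤ) : ℂ) := by
      intro x
      by_cases hx : x⁻¹ * g * x ∈ U
      · rw [if_pos hx, Int.cast_one, CfsgLib.Frobenius.extendByZero_of_mem _ _ hx]
      · rw [if_neg hx, Int.cast_zero, CfsgLib.Frobenius.extendByZero_of_not_mem _ _ hx]
    rw [Cfsg.indFun, Finset.sum_congr rfl fun x _ => this x, hs, ← mul_assoc, inv_mul_cancel₀ hU,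
      one_mul]
  rw [h]
  exact CfsgLib.Frobenius.isCharacter_indFun U _ CfsgLib.Brauer.isCharacter_const_one

/-- Let χ be an irreducible character of the finite group G and let p ^ a be the largest power of the prime p dividing the order of G. Then the function equal to p ^ a * χ x at elements x of order prime to p and to 0 elsewhere is a generalized character (a difference of characters). -/
theorem result {G : Type*} [Group G] [Finite G] (p : ℕ) [Fact p.Prime] (χ : Cfsg.IrrCharacter G) : Cfsg.IsGeneralizedCharacter G (fun x : G => if p ∣ orderOf x then 0 else ((p ^ (Nat.card G).factorization p : ℕ) : ℂ) * (χ : G → ℂ) x) := by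
  classical
  haveI := Fintype.ofFinite G
  have hχ : Cfsg.IsGeneralizedCharacter G (χ : G → ℂ) := by
    obtain ⟨n, ρ, -, h⟩ := χ.2
    exact CfsgLib.Brauer.isGeneralizedCharacter_of_isCharacter ⟨n, ρ, h⟩
  have hw : Cfsg.IsGeneralizedCharacter G
      (fun x => (CfsgLib.BrauerCharacters.pRegWeight p G x : ℂ)) := by
    have key : ∀ f ∈ CfsgLib.BrauerCharacters.permSpan G,
        (fun x => (f x : ℂ)) ∈ CfsgLib.Brauer.virtualChars G := by
      intro f hf
      induction hf using Submodule.span_induction with
      | mem φ hφ =>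
        obtain ⟨U, rfl⟩ := hφ
        exact CfsgLib.Brauer.isGeneralizedCharacter_of_isCharacter (isCharacter_permCnt U)
      | zero =>
        have : (fun x : G => (((0 : G → ℤ) x : ℤ) : ℂ)) = 0 := by funext x; simp
        rw [this]; exact zero_mem _
      | add a b _ _ ha hb =>
        have : (fun x : G => (((a + b) x : ℤ) : ℂ)) =
            (fun x => (a x : ℂ)) + fun x => (b x : ℂ) := by funext x; simp
        rw [this]; exact add_mem ha hb
      | smul c a _ ha =>
        have : (fun x : G => (((c • a) x : ℤ) : ℂ)) = c • fun x => (a x : ℂ) := by funext x; simp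
        rw [this]; exact zsmul_mem ha c
    exact key _ (CfsgLib.BrauerCharacters.pRegWeight_mem_permSpan p)
  have h := CfsgLib.Brauer.isGeneralizedCharacter_mul hw hχ
  convert h using 1
  funext x
  simp only [Pi.mul_apply, CfsgLib.BrauerCharacters.pRegWeight]
  split_ifs <;> simp

end Cfsg.Agent.S0961
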