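import Cfsg.Statements.S0963
import Cfsg.Agent.Lib.BlockLocal.Covering

set_option autoImplicit false
open Cfsg

namespace Cfsg.Agent.S0963

open Finset in
theorem sum_mul_eq_zero_of_classes {G : Type*} [Group G] [Fintype G] (a φ : G → ℂ)
    (ha : Cfsg.IsClassFunction G a)
    (hφ : ∀ g : G, a g ≠ 0 → ∀ _ : DecidablePred (IsConj g),
      ∑ x ∈ univ.filter (IsConj g), φ x = 0) :
    ∑ x, a x * φ x = 0 := by
  classical
  haveI : Finite (ConjClasses G) := Finite.of_surjective _ ConjClasses.mk_surjective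
  haveI := Fintype.ofFinite (ConjClasses G)
  rw [← sum_fiberwise_of_maps_to (fun x (_ : x ∈ univ) => mem_univ (ConjClasses.mk x))]
  refine sum_eq_zero fun C _ => ?_
  obtain ⟨g, rfl⟩ := C.exists_rep
  have hset : univ.filter (fun x : G => ConjClasses.mk x = ConjClasses.mk g) =
      univ.filter (IsConj g) :=
    filter_congr fun x _ => by rw [ConjClasses.mk_eq_mk_iff_isConj, isConj_comm]
  rw [hset, sum_congr rfl (g := fun x => a g * φ x) (fun x hx => by
    obtain ⟨c, rfl⟩ := isConj_iff.1 (mem_filter.1 hx).2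
    rw [ha]), ← mul_sum]
  by_cases hg : a g = 0
  · rw [hg, zero_mul]
  · rw [hφ g hg inferInstance, mul_zero]

/-- Let N be a normal subgroup of the finite group G, χ an irreducible character of G and θ an irreducible character of N. Then θ occurs in the restriction of χ to N if and only if, for every n ∈ N, the central character of χ at n (class size in G times χ n over χ 1) equals the sum of θ m / θ 1 over the elements m of N conjugate in G to n. -/
theorem result {G : Type*} [Group G] [Fintype G] (N : Subgroup G) [N.Normal] [Fintype N] (χ : Cfsg.IrrCharacter G) (θ : Cfsg.IrrCharacter N) : Cfsg.classInner (fun n : N => (χ : G → ℂ) n) (θ : N → ℂ) ≠ 0 ↔ ∀ n : N, Cfsg.centralChar (χ : G → ℂ) (n : G) = Cfsg.inducedCentralChar N (θ : N → ℂ) (n : G) := by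
  classical
  open CfsgLib.BlockLocal in
  constructor
  · intro h n
    let a : G → ℂ := fun x => if IsConj (n : G) x then 1 else 0
    have ha : Cfsg.IsClassFunction G a := fun x c => by
      have hc : IsConj (n : G) (c * x * c⁻¹) ↔ IsConj (n : G) x :=
        ⟨fun h => h.trans (isConj_iff.2 ⟨c⁻¹, by group⟩), fun h => h.trans (isConj_iff.2 ⟨c, rfl⟩)⟩
      simp only [a, hc]
    have ha0 : ∀ x ∉ N, a x = 0 := fun x hx => if_neg fun hc => hx (by
      obtain ⟨c, hc⟩ := isConj_iff.1 hc
      exact hc ▸ Subgroup.Normal.conj_mem inferInstance _ n.2 c)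
    have hkey := sum_mul_div_eq_of_constituent N h ha ha0
    have h1 : ∑ x, a x * (χ : G → ℂ) x =
        ∑ x ∈ Finset.univ.filter (IsConj (n : G)), (χ : G → ℂ) x := by
      rw [Finset.sum_filter]
      exact Finset.sum_congr rfl fun x _ => by simp only [a, ite_mul, one_mul, zero_mul]
    rw [← sum_conj_eq_centralChar (CfsgLib.CharTheory.IsIrrCharacter.isClassFunction χ.2),
      ← Finset.sum_div, ← h1, hkey, Cfsg.inducedCentralChar,
      finsum_mem_eq_toFinset_sum, Finset.sum_div]
    simp [a, Finset.sum_filter, ite_div]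
  · intro h
    by_contra h0
    have ha := isClassFunction_orbitFun N (θ : N → ℂ)
    have hzero : ∑ x, orbitFun N (θ : N → ℂ) x *
        (Cfsg.extendByZero N (fun k : N => (θ : N → ℂ) k / (θ : N → ℂ) 1) x -
          (χ : G → ℂ) x / (χ : G → ℂ) 1) = 0 := by
      refine sum_mul_eq_zero_of_classes _ _ ha fun g hg _ => ?_
      have hgN : g ∈ N := by_contra fun hgN => hg (orbitFun_eq_zero N _ hgN)
      rw [Finset.sum_sub_distrib, sum_conj_extend_eq_inducedCentralChar,
        sum_conj_eq_centralChar (CfsgLib.CharTheory.IsIrrCharacter.isClassFunction χ.2),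
        h ⟨g, hgN⟩, sub_self]
    have hE : ∑ x, orbitFun N (θ : N → ℂ) x *
        Cfsg.extendByZero N (fun k : N => (θ : N → ℂ) k / (θ : N → ℂ) 1) x =
        (∑ n : N, orbitFun N (θ : N → ℂ) n * (θ : N → ℂ) n) / (θ : N → ℂ) 1 := by
      rw [sum_eq_sum_subgroup N (fun x hx => by rw [orbitFun_eq_zero N _ hx, zero_mul]),
        Finset.sum_div]
      exact Finset.sum_congr rfl fun n _ => by
        rw [CfsgLib.Frobenius.extendByZero_coe, mul_div_assoc]
    haveI := Fintype.ofFinite (Cfsg.IrrCharacter N)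
    obtain ⟨m, hm, hm'⟩ := res_eq_sum N χ
    have hχ0 : ∑ x, orbitFun N (θ : N → ℂ) x * ((χ : G → ℂ) x / (χ : G → ℂ) 1) = 0 := by
      rw [sum_eq_sum_subgroup N (fun x hx => by rw [orbitFun_eq_zero N _ hx, zero_mul])]
      simp only [hm, Finset.sum_div, Finset.mul_sum]
      rw [Finset.sum_comm]
      refine Finset.sum_eq_zero fun η _ => ?_
      by_cases hη : ∃ g : G, (η : N → ℂ) = CfsgLib.Frobenius.conjTwist N g (θ : N → ℂ)
      · obtain ⟨g, hg⟩ := hη
        have hmz : (m η : ℂ) = 0 := by
          rw [← hm' η, hg, classInner_res_conjTwist]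
          exact h0
        simp [hmz]
      · haveI : IsEmpty {g : G // (η : N → ℂ) = CfsgLib.Frobenius.conjTwist N g (θ : N → ℂ)} :=
          ⟨fun g => hη ⟨g.1, g.2⟩⟩
        have hs : ∑ n : N, orbitFun N (θ : N → ℂ) n * (η : N → ℂ) n = 0 := by
          rw [sum_orbitFun_mul, Nat.card_of_isEmpty (α := {g : G //
            (η : N → ℂ) = CfsgLib.Frobenius.conjTwist N g (θ : N → ℂ)}), Nat.cast_zero, mul_zero]
        calc _ = ((m η : ℂ) / (χ : G → ℂ) 1) *
              ∑ n : N, orbitFun N (θ : N → ℂ) n * (η : N → ℂ) n := by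
              rw [Finset.mul_sum]; exact Finset.sum_congr rfl fun n _ => by ring
          _ = 0 := by rw [hs, mul_zero]
    simp only [mul_sub, Finset.sum_sub_distrib, hE, hχ0, sub_zero, sum_orbitFun_mul] at hzero
    rw [div_eq_zero_iff, mul_eq_zero] at hzero
    rcases hzero with (hN | hg) | h1
    · exact (Nat.cast_ne_zero.2 Nat.card_pos.ne') hN
    · have hpos : 0 < Nat.card {g : G // (θ : N → ℂ) =
          CfsgLib.Frobenius.conjTwist N g (θ : N → ℂ)} := by
        refine @Nat.card_pos _ ⟨⟨1, ?_⟩⟩ _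
        funext n
        simp [CfsgLib.Frobenius.conjTwist]
      exact hpos.ne' (Nat.cast_eq_zero.1 hg)
    · exact CfsgLib.CharTheory.apply_one_ne_zero_of_isIrr θ.2 h1

end Cfsg.Agent.S0963
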