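import Cfsg.Statements.S0965
import Cfsg.Agent.Lib.BlockLocal.BlockCover

set_option autoImplicit false
open Cfsg

namespace Cfsg.Agent.S0965

/-- Let N be a normal subgroup of the finite group G and let B, b be blocks of G and of N relative to a maximal ideal M of the algebraic integers containing the prime p. Then some χ ∈ B has a constituent in b on restriction to N if and only if, for all χ ∈ B, θ ∈ b and n ∈ N, the central character of χ at n is congruent modulo the local ideal at M to the sum of θ m / θ 1 over the elements m ∈ N conjugate in G to n. -/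
theorem result {G : Type*} [Group G] [Fintype G] (p : ℕ) [Fact p.Prime] (M : Ideal Cfsg.AlgInt) (hM : Cfsg.IsPModular p M) (N : Subgroup G) [N.Normal] [Fintype N] (B : Set (Cfsg.IrrCharacter G)) (hB : Cfsg.IsPBlock M B) (b : Set (Cfsg.IrrCharacter N)) (hb : Cfsg.IsPBlock M b) : (∃ χ ∈ B, ∃ θ ∈ b, Cfsg.classInner (fun n : N => (χ : G → ℂ) n) (θ : N → ℂ) ≠ 0) ↔ ∀ χ ∈ B, ∀ θ ∈ b, ∀ n : N, Cfsg.MemLocalIdeal M (Cfsg.centralChar (χ : G → ℂ) (n : G) - Cfsg.inducedCentralChar N (θ : N → ℂ) (n : G)) := by
  classical
  haveI := CfsgLib.Blocks.isPrime_of_isPModular hM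
  haveI := Fintype.ofFinite (Cfsg.IrrCharacter N)
  open CfsgLib.BlockLocal CfsgLib.Blocks in
  constructor
  · rintro ⟨χ₀, hχ₀, θ₀, hθ₀, hcon⟩ χ hχ θ hθ n
    have h1 := sameBlock_of_mem hB hχ hχ₀ (n : G)
    have h2 := memLocalIdeal_inducedCentralChar_sub N (sameBlock_of_mem hb hθ₀ hθ) (n : G)
    rw [centralChar_eq_inducedCentralChar N hcon n] at h1
    have h3 := memLocalIdeal_add h1 h2
    rwa [sub_add_sub_cancel] at h3
  · intro h
    obtain ⟨χ, hχ⟩ := isPBlock_nonempty hB
    obtain ⟨θ, hθ⟩ := isPBlock_nonempty hb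
    have hS : ∀ g : G, ∀ η ∈ orbitSet N b, conjIrr N g η ∈ orbitSet N b :=
      fun g η => conjIrr_mem_orbitSet N g
    set a := Cfsg.extendByZero N (coeffSet (orbitSet N b)) with ha
    have hcls := isClassFunction_extend_coeffSet N _ hS
    have hloc := memLocalRing_extend_coeffSet N _ (orbitSet_closed N hb)
    have ha0 : ∀ x ∉ N, a x = 0 := fun x hx => CfsgLib.Frobenius.extendByZero_of_not_mem _ _ hx
    obtain ⟨η, hη⟩ := exists_constituent N χ
    have key : η ∈ orbitSet N b := by
      by_contra hη'
      have hχval := sum_extend_coeffSet_div N _ hS hη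
      rw [if_neg hη', Finset.sum_div] at hχval
      have hθval : (∑ n : N, a n * (θ : N → ℂ) n) / (θ : N → ℂ) 1 = 1 := by
        simp only [ha, CfsgLib.Frobenius.extendByZero_coe]
        rw [sum_coeffSet_mul_div, if_pos (mem_orbitSet_self N hθ)]
      have hmem : MemLocalIdeal M (∑ x, a x * (if x ∈ N then (χ : G → ℂ) x / (χ : G → ℂ) 1 -
          Cfsg.extendByZero N (fun k : N => (θ : N → ℂ) k / (θ : N → ℂ) 1) x else 0)) := by
        refine memLocalIdeal_sum_mul_of_classes a _ hcls hloc fun g _ => ?_
        by_cases hg : g ∈ N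
        · have hin : ∀ x ∈ Finset.univ.filter (IsConj g), x ∈ N := fun x hx => by
            obtain ⟨c, rfl⟩ := isConj_iff.1 (Finset.mem_filter.1 hx).2
            exact Subgroup.Normal.conj_mem inferInstance g hg c
          rw [Finset.sum_congr rfl (fun x hx => if_pos (hin x hx)), Finset.sum_sub_distrib,
            sum_conj_extend_eq_inducedCentralChar,
            sum_conj_eq_centralChar (CfsgLib.CharTheory.IsIrrCharacter.isClassFunction χ.2)]
          exact h χ hχ θ hθ ⟨g, hg⟩
        · rw [Finset.sum_eq_zero]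
          · exact memLocalIdeal_zero
          · intro x hx
            refine if_neg fun hxN => hg ?_
            obtain ⟨c, rfl⟩ := isConj_iff.1 (Finset.mem_filter.1 hx).2
            have := Subgroup.Normal.conj_mem inferInstance _ hxN c⁻¹
            simpa [mul_assoc] using this
      have hval : ∑ x, a x * (if x ∈ N then (χ : G → ℂ) x / (χ : G → ℂ) 1 -
          Cfsg.extendByZero N (fun k : N => (θ : N → ℂ) k / (θ : N → ℂ) 1) x else 0) = -1 := by
        have h1 : ∀ x, a x * (if x ∈ N then (χ : G → ℂ) x / (χ : G → ℂ) 1 -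
            Cfsg.extendByZero N (fun k : N => (θ : N → ℂ) k / (θ : N → ℂ) 1) x else 0) =
            a x * (χ : G → ℂ) x / (χ : G → ℂ) 1 -
              a x * Cfsg.extendByZero N (fun k : N => (θ : N → ℂ) k / (θ : N → ℂ) 1) x := by
          intro x
          by_cases hx : x ∈ N
          · rw [if_pos hx, mul_sub, mul_div_assoc]
          · simp [if_neg hx, ha0 x hx]
        rw [Finset.sum_congr rfl fun x _ => h1 x, Finset.sum_sub_distrib, hχval,
          sum_eq_sum_subgroup N (a := fun x => a x *
            Cfsg.extendByZero N (fun k : N => (θ : N → ℂ) k / (θ : N → ℂ) 1) x)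
            (fun x hx => by simp [ha0 x hx]), zero_sub]
        congr 1
        rw [← hθval, Finset.sum_div]
        exact Finset.sum_congr rfl fun n _ => by
          rw [CfsgLib.Frobenius.extendByZero_coe, mul_div_assoc]
      rw [hval] at hmem
      have := memLocalIdeal_neg hmem
      rw [neg_neg] at this
      exact not_memLocalIdeal_one this
    obtain ⟨g, θ', hθ', rfl⟩ := (mem_orbitSet N).1 key
    refine ⟨χ, hχ, θ', hθ', ?_⟩
    rwa [classInner_res_conjIrr] at hη

end Cfsg.Agent.S0965
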