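import Cfsg.Statements.S0966
import Cfsg.Agent.Lib.BlockLocal.KernelSupport
import Cfsg.Agent.Lib.BlockLocal.NormalInduce

set_option autoImplicit false
open Cfsg

namespace Cfsg.Agent.S0966

/-- Let N be a normal subgroup of p-power index in the finite group G and b a block of N relative to a maximal ideal M of the algebraic integers containing p. Then there is exactly one block B of G containing a character whose restriction to N has a constituent in b. -/
theorem result {G : Type*} [Group G] [Fintype G] (p : ℕ) [Fact p.Prime] (M : Ideal Cfsg.AlgInt) (hM : Cfsg.IsPModular p M) (N : Subgroup G) [N.Normal] [Fintype N] (hidx : ∃ k : ℕ, N.index = p ^ k) (b : Set (Cfsg.IrrCharacter N)) (hb : Cfsg.IsPBlock M b) : ∃! B : Set (Cfsg.IrrCharacter G), Cfsg.IsPBlock M B ∧ ∃ χ ∈ B, ∃ θ ∈ b, Cfsg.classInner (fun n : N => (χ : G → ℂ) n) (θ : N → ℂ) ≠ 0 := by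
  classical
  haveI := CfsgLib.Blocks.isPrime_of_isPModular hM
  open CfsgLib.BlockLocal CfsgLib.Blocks CfsgLib.CharTheory in
  obtain ⟨θ₀, hθ₀⟩ := isPBlock_nonempty hb
  obtain ⟨χ₀, hcon₀⟩ := CfsgLib.BlockLocal.exists_over N θ₀
  refine ⟨Cfsg.blockOf M (χ₀ : G → ℂ), ⟨CfsgLib.Blocks.isPBlock_blockOf χ₀, χ₀,
    CfsgLib.Blocks.mem_blockOf_self χ₀, θ₀, hθ₀, hcon₀⟩, ?_⟩
  rintro B ⟨hB, χ, hχ, θ, hθ, hcon⟩
  have hB0 := CfsgLib.Blocks.isPBlock_blockOf (M := M) χ₀
  refine CfsgLib.Blocks.isPBlock_eq_of_mem hB hB0 (χ := χ₀) ?_ (CfsgLib.Blocks.mem_blockOf_self χ₀)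
  by_contra hnot
  have h1 := CfsgLib.BlockLocal.sum_blockCoeff_constituent hM N hidx hB hcon
  have h2 := CfsgLib.BlockLocal.sum_blockCoeff_constituent hM N hidx hB hcon₀
  rw [if_pos hχ] at h1
  rw [if_neg hnot] at h2
  have h := CfsgLib.BlockLocal.memLocalIdeal_sum_sub_of_sameBlock
    (CfsgLib.CharTheory.IsIrrCharacter.isClassFunction θ.2)
    (CfsgLib.CharTheory.IsIrrCharacter.isClassFunction θ₀.2)
    (CfsgLib.Blocks.sameBlock_of_mem hb hθ hθ₀)
    (a := fun n : N => Cfsg.blockCoeff B (n : G))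
    (fun x c => by
      simp only [Subgroup.coe_mul, Subgroup.coe_inv]
      exact CfsgLib.Blocks.blockCoeff_conj B c x)
    (fun n => CfsgLib.Blocks.memLocalRing_blockCoeff hB n)
  rw [h1, h2, sub_zero] at h
  exact CfsgLib.Blocks.not_memLocalIdeal_one h

end Cfsg.Agent.S0966
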