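import Cfsg.Statements.S0967
import Cfsg.Agent.Lib.BlockLocal.BlockCover
import Cfsg.Agent.Lib.CharTheory.Inflation
import Cfsg.Agent.Lib.Correspondences.CharKer

set_option autoImplicit false
open Cfsg

namespace Cfsg.Agent.S0967

/-- Let N be a normal subgroup of the finite group G of order prime to p and fix a maximal ideal M of the algebraic integers containing p. If χ is an irreducible character of G ⧸ N and ψ lies in the block of its inflation χ ∘ (quotient map), then ψ is itself inflated from an irreducible character ψ' of G ⧸ N lying in the block of χ. (Over a normal p'-subgroup, blocks of the quotient are whole blocks of G.) -/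
theorem result {G : Type*} [Group G] [Finite G] (p : ℕ) [Fact p.Prime] (M : Ideal Cfsg.AlgInt) (hM : Cfsg.IsPModular p M) (N : Subgroup G) [N.Normal] (hN : ¬ p ∣ Nat.card N) (χ : Cfsg.IrrCharacter (G ⧸ N)) (ψ : Cfsg.IrrCharacter G) (hψ : ψ ∈ Cfsg.blockOf M ((χ : G ⧸ N → ℂ) ∘ QuotientGroup.mk)) : ∃ ψ' : Cfsg.IrrCharacter (G ⧸ N), (ψ : G → ℂ) = (ψ' : G ⧸ N → ℂ) ∘ QuotientGroup.mk ∧ Cfsg.SameBlock M (χ : G ⧸ N → ℂ) (ψ' : G ⧸ N → ℂ) := by
  classical
  haveI := CfsgLib.Blocks.isPrime_of_isPModular hM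
  haveI := Fintype.ofFinite G
  haveI := Fintype.ofFinite N
  haveI := Fintype.ofFinite (G ⧸ N)
  open CfsgLib.BlockLocal CfsgLib.Blocks CfsgLib.CharTheory in
  have hinf : Cfsg.IsIrrCharacter G ((χ : G ⧸ N → ℂ) ∘ QuotientGroup.mk) :=
    CfsgLib.CharTheory.isIrrCharacter_comp χ.2 (f := QuotientGroup.mk' N) (QuotientGroup.mk'_surjective N)
  set χi : Cfsg.IrrCharacter G := ⟨_, hinf⟩ with hχi
  have hsame : Cfsg.SameBlock M (χi : G → ℂ) (ψ : G → ℂ) := hψ
  have hχc := CfsgLib.CharTheory.IsIrrCharacter.isClassFunction χi.2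
  have hψc := CfsgLib.CharTheory.IsIrrCharacter.isClassFunction ψ.2
  have hN0 : (Nat.card N : ℂ) ≠ 0 := Nat.cast_ne_zero.2 Nat.card_pos.ne'
  have htriv : ∀ x ∈ N, (ψ : G → ℂ) x = (ψ : G → ℂ) 1 := by
    by_contra hcon
    push Not at hcon
    let a : G → ℂ := fun x => if x ∈ N then (Nat.card N : ℂ)⁻¹ else 0
    have ha : Cfsg.IsClassFunction G a := fun x c => by
      have hc : c * x * c⁻¹ ∈ N ↔ x ∈ N :=
        ⟨fun h => by simpa [mul_assoc] using Subgroup.Normal.conj_mem inferInstance _ h c⁻¹,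
          fun h => Subgroup.Normal.conj_mem inferInstance _ h c⟩
      simp only [a, hc]
    have haS : ∀ x, Cfsg.MemLocalRing M (a x) := fun x => by
      simp only [a]
      split_ifs
      · exact CfsgLib.Blocks.memLocalRing_inv_natCast hM hN
      · exact CfsgLib.Blocks.memLocalRing_of_memLocalIdeal CfsgLib.Blocks.memLocalIdeal_zero
    have h := CfsgLib.BlockLocal.memLocalIdeal_sum_sub_of_sameBlock hχc hψc hsame ha haS
    have hsum : ∀ f : G → ℂ, ∑ x, a x * f x = (Nat.card N : ℂ)⁻¹ * ∑ n : N, f n := by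
      intro f
      rw [CfsgLib.BlockLocal.sum_eq_sum_subgroup N (a := fun x => a x * f x)
        (fun x hx => by simp [a, hx]), Finset.mul_sum]
      exact Finset.sum_congr rfl fun n _ => by simp [a]
    rw [hsum, hsum, CfsgLib.Correspondences.sum_normal_eq_zero ψ.2 N hcon,
      mul_zero, zero_div, sub_zero] at h
    have hval : ∑ n : N, (χi : G → ℂ) n = (Nat.card N : ℂ) * (χi : G → ℂ) 1 := by
      rw [Finset.sum_congr rfl (g := fun _ => (χi : G → ℂ) 1) (fun n _ => by
        show (χ : G ⧸ N → ℂ) ((n : G) : G ⧸ N) = (χ : G ⧸ N → ℂ) ((1 : G) : G ⧸ N)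
        rw [(QuotientGroup.eq_one_iff (n : G)).2 n.2, QuotientGroup.mk_one]), Finset.sum_const,
        Finset.card_univ, ← Nat.card_eq_fintype_card, nsmul_eq_mul]
    rw [hval, ← mul_assoc, inv_mul_cancel₀ hN0, one_mul,
      div_self (CfsgLib.CharTheory.apply_one_ne_zero_of_isIrr χi.2)] at h
    exact CfsgLib.Blocks.not_memLocalIdeal_one h
  obtain ⟨ψ', hψ', hψeq⟩ := CfsgLib.CharTheory.exists_descend ψ.2 N htriv
  refine ⟨⟨ψ', hψ'⟩, funext hψeq, ?_⟩
  intro q
  obtain ⟨g, rfl⟩ := QuotientGroup.mk_surjective q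
  let a : G → ℂ := fun x => if IsConj (g : G ⧸ N) (x : G ⧸ N) then (Nat.card N : ℂ)⁻¹ else 0
  have ha : Cfsg.IsClassFunction G a := fun x c => by
    have hc : IsConj (g : G ⧸ N) ((c * x * c⁻¹ : G) : G ⧸ N) ↔ IsConj (g : G ⧸ N) (x : G ⧸ N) := by
      have hx : IsConj (x : G ⧸ N) ((c * x * c⁻¹ : G) : G ⧸ N) :=
        isConj_iff.2 ⟨(c : G ⧸ N), by simp⟩
      exact ⟨fun h => h.trans hx.symm, fun h => h.trans hx⟩
    simp only [a, hc]
  have haS : ∀ x, Cfsg.MemLocalRing M (a x) := fun x => by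
    simp only [a]
    split_ifs
    · exact CfsgLib.Blocks.memLocalRing_inv_natCast hM hN
    · exact CfsgLib.Blocks.memLocalRing_of_memLocalIdeal CfsgLib.Blocks.memLocalIdeal_zero
  have h := CfsgLib.BlockLocal.memLocalIdeal_sum_sub_of_sameBlock hχc hψc hsame ha haS
  have key : ∀ f : G ⧸ N → ℂ, Cfsg.IsClassFunction (G ⧸ N) f →
      (∑ x : G, a x * f (x : G ⧸ N)) / f 1 = Cfsg.centralChar f (g : G ⧸ N) := by
    intro f hf
    rw [← CfsgLib.BlockLocal.sum_conj_eq_centralChar hf, ← Finset.sum_div]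
    congr 1
    rw [← Finset.sum_fiberwise_of_maps_to (s := Finset.univ) (t := Finset.univ)
      (g := fun x : G => (x : G ⧸ N)) (fun x _ => Finset.mem_univ _)
      (fun x : G => a x * f (x : G ⧸ N)), Finset.sum_filter]
    refine Finset.sum_congr rfl fun y _ => ?_
    rw [Finset.sum_congr rfl (g := fun _ : G => (if IsConj (g : G ⧸ N) y then (Nat.card N : ℂ)⁻¹ else 0) * f y)
      (fun x hx => by simp only [a, (Finset.mem_filter.1 hx).2]), Finset.sum_const, nsmul_eq_mul]
    have hcard : (Finset.univ.filter fun x : G => (x : G ⧸ N) = y).card = Nat.card N := by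
      obtain ⟨y0, rfl⟩ := QuotientGroup.mk_surjective y
      rw [← Fintype.card_subtype, ← Nat.card_eq_fintype_card]
      exact Nat.card_congr
        { toFun := fun x => ⟨y0⁻¹ * x.1, QuotientGroup.eq.1 x.2.symm⟩
          invFun := fun n => ⟨y0 * n, QuotientGroup.eq.2 (by simp)⟩
          left_inv := fun x => Subtype.ext (by simp)
          right_inv := fun n => Subtype.ext (by simp) }
    rw [hcard]
    split_ifs
    · rw [← mul_assoc, mul_inv_cancel₀ hN0, one_mul]
    · simp
  rw [← key _ (CfsgLib.CharTheory.IsIrrCharacter.isClassFunction χ.2),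
    ← key _ (CfsgLib.CharTheory.IsIrrCharacter.isClassFunction hψ')]
  convert h using 2
  · rfl
  · simp only [hψeq]
    rfl

end Cfsg.Agent.S0967
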