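import Cfsg.Statements.S0986
import Mathlib
-- import your own Cfsg.Agent.* helpers here

set_option autoImplicit false
open Cfsg

namespace Cfsg.Agent.S0986

open Subgroup in
theorem main {G : Type*} [Group G] [Finite G] (p : ℕ) [hp : Fact p.Prime] (P Q : Sylow p G) (hPQ : P ≠ Q)
    (hmax : ∀ P' Q' : Sylow p G, P' ≠ Q' → Nat.card ↥((P' : Subgroup G) ⊓ (Q' : Subgroup G)) ≤
      Nat.card ↥((P : Subgroup G) ⊓ (Q : Subgroup G))) :
    1 < Nat.card (Sylow p ↥(normalizer (((P : Subgroup G) ⊓ (Q : Subgroup G) : Subgroup G) : Set G))) ∧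
    (∀ S T : Sylow p ↥(normalizer (((P : Subgroup G) ⊓ (Q : Subgroup G) : Subgroup G) : Set G)), S ≠ T →
      (S : Subgroup _) ⊓ (T : Subgroup _) = ((P : Subgroup G) ⊓ (Q : Subgroup G)).subgroupOf
        (normalizer (((P : Subgroup G) ⊓ (Q : Subgroup G) : Subgroup G) : Set G))) ∧
    ∀ S : Sylow p ↥(normalizer (((P : Subgroup G) ⊓ (Q : Subgroup G) : Subgroup G) : Set G)),
      ∃! T : Sylow p G, (S : Subgroup _).map (normalizer (((P : Subgroup G) ⊓ (Q : Subgroup G) :
        Subgroup G) : Set G)).subtype ≤ (T : Subgroup G) := by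
  set D := (P : Subgroup G) ⊓ (Q : Subgroup G) with hD
  set N := normalizer (D : Set G) with hN
  have hnc : ∀ R : Sylow p G, D < (R : Subgroup G) → D < (R : Subgroup G) ⊓ N := by
    intro R hR
    have := IsPGroup.isNilpotent (G := ↥(R : Subgroup G)) R.isPGroup'
    have h1 : D.subgroupOf (R : Subgroup G) < ⊤ := lt_top_iff_ne_top.mpr fun h =>
      not_le_of_gt hR (subgroupOf_eq_top.mp h)
    obtain ⟨⟨x, hx⟩, hxn, hxd⟩ := SetLike.exists_of_lt (Group.normalizerCondition_of_isNilpotent _ h1)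
    refine lt_of_le_of_ne (le_inf hR.le le_normalizer) fun he => hxd ?_
    rw [← subgroupOf_normalizer_eq hR.le, mem_subgroupOf] at hxn
    rw [mem_subgroupOf, he]
    exact ⟨hx, hxn⟩
  have hDP : D < (P : Subgroup G) := lt_of_le_of_ne inf_le_left fun h => hPQ (Sylow.ext
    (eq_of_le_of_card_ge (h ▸ inf_le_right) (Nat.card_congr (Sylow.equiv P Q).toEquiv).ge))
  have hDQ : D < (Q : Subgroup G) := lt_of_le_of_ne inf_le_right fun h => hPQ (Sylow.ext
    (eq_of_le_of_card_ge (h ▸ inf_le_left) (Nat.card_congr (Sylow.equiv P Q).toEquiv).le)).symm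
  have hP' := hnc P hDP
  have hQ' := hnc Q hDQ
  have hlt : ∀ H : Subgroup G, D < H → Nat.card ↥D < Nat.card ↥H := fun H hH => by
    by_contra hc
    exact hH.ne (eq_of_le_of_card_ge hH.le (not_lt.mp hc))
  have hpgD : IsPGroup p ↥(D.subgroupOf N) :=
    (P.isPGroup'.to_le inf_le_left).of_equiv (subgroupOfEquivOfLe le_normalizer).symm
  have hnorm : (D.subgroupOf N).Normal := normal_in_normalizer
  have hDS : ∀ S : Sylow p N, D.subgroupOf N ≤ (S : Subgroup N) := fun S => hpgD.le_sylow_of_normal S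
  have hmapD : ∀ S : Sylow p N, D ≤ (S : Subgroup N).map N.subtype := fun S x hx =>
    ⟨⟨x, le_normalizer hx⟩, hDS S hx, rfl⟩
  have hPN : IsPGroup p ↥(((P : Subgroup G) ⊓ N).subgroupOf N) :=
    (P.isPGroup'.to_le inf_le_left).of_equiv (subgroupOfEquivOfLe inf_le_right).symm
  obtain ⟨S₁, hS₁⟩ := hPN.exists_le_sylow
  have hcardS : ∀ S : Sylow p N, Nat.card ↥D < Nat.card ↥((S : Subgroup N).map N.subtype) := by
    intro S
    refine lt_of_lt_of_le (hlt _ hP') ?_
    rw [card_map_of_injective N.subtype_injective, Nat.card_congr (Sylow.equiv S S₁).toEquiv,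
      ← Nat.card_congr (subgroupOfEquivOfLe (inf_le_right : (P : Subgroup G) ⊓ N ≤ N)).toEquiv]
    exact card_le_of_le hS₁
  have huniq : ∀ S : Sylow p N, ∃! T : Sylow p G, (S : Subgroup N).map N.subtype ≤ (T : Subgroup G) := by
    intro S
    obtain ⟨T, hT⟩ := (S.isPGroup'.map N.subtype).exists_le_sylow
    refine ⟨T, hT, fun T' hT' => ?_⟩
    by_contra hne
    exact absurd (hmax T' T hne) (not_le.mpr (lt_of_lt_of_le (hcardS S) (card_le_of_le (le_inf hT' hT))))
  refine ⟨?_, ?_, huniq⟩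
  · rw [Finite.one_lt_card_iff_nontrivial]
    by_contra hn
    rw [not_nontrivial_iff_subsingleton] at hn
    have hQN : IsPGroup p ↥(((Q : Subgroup G) ⊓ N).subgroupOf N) :=
      (Q.isPGroup'.to_le inf_le_left).of_equiv (subgroupOfEquivOfLe inf_le_right).symm
    obtain ⟨S₂, hS₂⟩ := hQN.exists_le_sylow
    obtain ⟨T, hT, -⟩ := huniq S₁
    have h1 : (P : Subgroup G) ⊓ N ≤ (T : Subgroup G) := fun x hx => hT ⟨⟨x, hx.2⟩, hS₁ hx, rfl⟩
    have h2 : (Q : Subgroup G) ⊓ N ≤ (T : Subgroup G) := fun x hx =>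
      hT ⟨⟨x, hx.2⟩, Subsingleton.elim S₂ S₁ ▸ hS₂ hx, rfl⟩
    have hTP : T = P := by
      by_contra hne
      exact absurd (hmax T P hne) (not_le.mpr (lt_of_lt_of_le (hlt _ hP') (card_le_of_le (le_inf h1 inf_le_left))))
    have hTQ : T = Q := by
      by_contra hne
      exact absurd (hmax T Q hne) (not_le.mpr (lt_of_lt_of_le (hlt _ hQ') (card_le_of_le (le_inf h2 inf_le_left))))
    exact hPQ (hTP.symm.trans hTQ)
  · intro S T hST
    refine le_antisymm ?_ (le_inf (hDS S) (hDS T))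
    obtain ⟨S', hS', -⟩ := huniq S
    obtain ⟨T', hT', -⟩ := huniq T
    have hne : S' ≠ T' := by
      intro he
      have hk : IsPGroup p ↥((S' : Subgroup G).subgroupOf N) :=
        (S'.isPGroup'.to_le (inf_le_left (b := N))).of_equiv
          (((MulEquiv.subgroupCongr (inf_subgroupOf_right (S' : Subgroup G) N).symm).trans
            (subgroupOfEquivOfLe inf_le_right)).symm)
      have hS2 : (S : Subgroup N) ≤ (S' : Subgroup G).subgroupOf N := fun x hx => hS' ⟨x, hx, rfl⟩
      have hT2 : (T : Subgroup N) ≤ (S' : Subgroup G).subgroupOf N := fun x hx => he ▸ hT' ⟨x, hx, rfl⟩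
      exact hST (Sylow.ext ((S.is_maximal' hk hS2).symm.trans (T.is_maximal' hk hT2)))
    have hDle : D ≤ (S' : Subgroup G) ⊓ (T' : Subgroup G) :=
      le_inf ((hmapD S).trans hS') ((hmapD T).trans hT')
    have heq := eq_of_le_of_card_ge hDle (hmax S' T' hne)
    intro x hx
    show (x : G) ∈ D
    rw [heq]
    exact ⟨hS' ⟨x, hx.1, rfl⟩, hT' ⟨x, hx.2, rfl⟩⟩

/-- Let P and Q be distinct Sylow p-subgroups of a finite group G chosen so that the order of P ∩ Q is as large as possible among intersections of two distinct Sylow p-subgroups, and let N be the normalizer of P ∩ Q. Then N has more than one Sylow p-subgroup, any two distinct Sylow p-subgroups of N intersect exactly in P ∩ Q, and each Sylow p-subgroup of N lies in exactly one Sylow p-subgroup of G. -/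
theorem result {G : Type*} [Group G] [Finite G] (p : ℕ) [Fact p.Prime] (P Q : Sylow p G) (hPQ : P ≠ Q) (hmax : ∀ P' Q' : Sylow p G, P' ≠ Q' → Nat.card ↥((P' : Subgroup G) ⊓ (Q' : Subgroup G)) ≤ Nat.card ↥((P : Subgroup G) ⊓ (Q : Subgroup G))) : 1 < Nat.card (Sylow p ↥(Subgroup.normalizer (((P : Subgroup G) ⊓ (Q : Subgroup G) : Subgroup G) : Set G))) ∧ (∀ S T : Sylow p ↥(Subgroup.normalizer (((P : Subgroup G) ⊓ (Q : Subgroup G) : Subgroup G) : Set G)), S ≠ T → (S : Subgroup _) ⊓ (T : Subgroup _) = ((P : Subgroup G) ⊓ (Q : Subgroup G)).subgroupOf (Subgroup.normalizer (((P : Subgroup G) ⊓ (Q : Subgroup G) : Subgroup G) : Set G))) ∧ ∀ S : Sylow p ↥(Subgroup.normalizer (((P : Subgroup G) ⊓ (Q : Subgroup G) : Subgroup G) : Set G)), ∃! T : Sylow p G, (S : Subgroup _).map (Subgroup.normalizer (((P : Subgroup G) ⊓ (Q : Subgroup G) : Subgroup G) : Set G)).subtype ≤ (T : Subgroup G) := by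
  exact main p P Q hPQ hmax

end Cfsg.Agent.S0986
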