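import Cfsg.Statements.S0987
import Cfsg.Agent.Lib.SmallGroups.Counting
-- import your own Cfsg.Agent.* helpers here

set_option autoImplicit false
open Cfsg

namespace Cfsg.Agent.S0987

open Subgroup CfsgLib.SmallGroups in
theorem main {G : Type*} [Group G] [Finite G] (p q r : ℕ) (hp : p.Prime) (hq : q.Prime) [hr : Fact r.Prime]
    (hpq : p < q) (hqr : q < r) (hG : Nat.card G = p * q * r) (R : Sylow r G) : (R : Subgroup G).Normal := by
  have hp2 := hp.two_le
  have hndr : ∀ k, k = p ∨ k = q → ¬ r ∣ k := fun k hk hd => by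
    have := Nat.le_of_dvd (by omega) hd; omega
  have hrm : ¬ r ∣ p * q := fun h => by
    rcases hr.out.dvd_mul.mp h with h | h
    · exact hndr p (Or.inl rfl) h
    · exact hndr q (Or.inr rfl) h
  have hn : Nat.card G = r ^ 1 * (p * q) := by rw [hG]; ring
  have hRc : Nat.card ↥(R : Subgroup G) = r := by simpa using card_sylow_eq hn hrm R
  have hmem := card_sylow_mem hn hrm
  rw [Finset.mem_filter, Nat.mem_divisors] at hmem
  obtain ⟨⟨hdvd, -⟩, hmod⟩ := hmem
  suffices h1 : Nat.card (Sylow r G) = 1 by
    rw [← normalizer_eq_top_iff, ← index_eq_one]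
    exact R.card_eq_index_normalizer.symm.trans h1
  by_contra hne
  have hnr : Nat.card (Sylow r G) = p * q := by
    obtain ⟨a, b, ha, hb, hab⟩ := (Nat.dvd_mul).mp hdvd
    rcases (Nat.dvd_prime hp).mp ha with rfl | rfl <;> rcases (Nat.dvd_prime hq).mp hb with rfl | rfl
    · omega
    · rw [← hab, one_mul, Nat.mod_eq_of_lt hqr] at hmod; omega
    · rw [← hab, mul_one, Nat.mod_eq_of_lt (hpq.trans hqr)] at hmod; omega
    · exact hab.symm
  have : Fact q.Prime := ⟨hq⟩
  have hqm : ¬ q ∣ p * r := fun h => by
    rcases hq.dvd_mul.mp h with h | h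
    · have := Nat.le_of_dvd hp.pos h; omega
    · have := (Nat.prime_dvd_prime_iff_eq hq hr.out).mp h; omega
  have hnq' : Nat.card G = q ^ 1 * (p * r) := by rw [hG]; ring
  obtain ⟨Q⟩ := (inferInstance : Nonempty (Sylow q G))
  have hQc : Nat.card ↥(Q : Subgroup G) = q := by simpa using card_sylow_eq hnq' hqm Q
  by_cases hnq : Nat.card (Sylow q G) = 1
  · have hQn : (Q : Subgroup G).Normal := by
      rw [← normalizer_eq_top_iff, ← index_eq_one]
      exact Q.card_eq_index_normalizer.symm.trans hnq
    have hcop : Nat.Coprime (Nat.card ↥(R : Subgroup G)) (Nat.card ↥(Q : Subgroup G)) := by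
      rw [hRc, hQc]; exact (Nat.coprime_primes hr.out hq).mpr (by omega)
    have hH : Nat.card ↥((R : Subgroup G) ⊔ (Q : Subgroup G)) = r * q := by
      have hdis : Disjoint (R : Subgroup G) (Q : Subgroup G) := disjoint_of_coprime_natCard hcop
      rw [show r * q = Nat.card ↥(R : Subgroup G) * Nat.card ↥(Q : Subgroup G) by rw [hRc, hQc],
        ← Nat.card_prod]
      refine Nat.card_congr (Equiv.ofBijective (fun z : ↥(R : Subgroup G) × ↥(Q : Subgroup G) =>
        (⟨(z.1 : G) * z.2, mul_mem_sup z.1.2 z.2.2⟩ : ↥((R : Subgroup G) ⊔ (Q : Subgroup G)))) ⟨?_, ?_⟩).symm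
      · intro a b hab
        exact mul_injective_of_disjoint hdis (congrArg Subtype.val hab)
      · rintro ⟨g, hg⟩
        have hg' : g ∈ (↑((R : Subgroup G) ⊔ (Q : Subgroup G)) : Set G) := hg
        rw [mul_normal] at hg'
        obtain ⟨a, ha, b, hb, rfl⟩ := hg'
        exact ⟨(⟨a, ha⟩, ⟨b, hb⟩), rfl⟩
    set H := (R : Subgroup G) ⊔ (Q : Subgroup G) with hHdef
    have hidx : H.index = p := by
      have := H.card_mul_index
      rw [hH, hG] at this
      exact Nat.eq_of_mul_eq_mul_left (Nat.mul_pos hr.out.pos hq.pos) (this.trans (by ring))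
    have hHn : H.Normal := by
      refine normal_of_index_eq_minFac_card ?_
      rw [hidx, hG]
      have hmin : (p * q * r).minFac ∣ p * q * r := Nat.minFac_dvd _
      have hmp : (p * q * r).minFac ≤ p := Nat.minFac_le_of_dvd hp.two_le (by rw [mul_assoc]; exact dvd_mul_right p (q * r))
      have hpr : (p * q * r).minFac.Prime := Nat.minFac_prime (fun h1 => by
        have := Nat.eq_one_of_mul_eq_one_right (mul_assoc p q r ▸ h1)
        omega)
      rcases hpr.dvd_mul.mp hmin with h | h
      · rcases hpr.dvd_mul.mp h with h | h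
        · exact ((Nat.prime_dvd_prime_iff_eq hpr hp).mp h).symm
        · have := (Nat.prime_dvd_prime_iff_eq hpr hq).mp h; omega
      · have := (Nat.prime_dvd_prime_iff_eq hpr hr.out).mp h; omega
    let R' : Sylow r H := R.subtype le_sup_left
    have hRH : Nat.card (Sylow r H) = 1 := by
      have hm := card_sylow_mem (G := H) (p := r) (a := 1) (m := q) (by rw [hH, pow_one]) (hndr q (Or.inr rfl))
      rw [Finset.mem_filter, Nat.mem_divisors] at hm
      rcases (Nat.dvd_prime hq).mp hm.1.1 with h | h
      · exact h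
      · have h2 := hm.2
        rw [h, Nat.mod_eq_of_lt hqr] at h2
        omega
    have hfr := Sylow.normalizer_sup_eq_top' (N := H) R le_sup_left
    have hle : H ≤ normalizer ((R : Subgroup G) : Set G) := by
      have h1 : (normalizer ((R' : Subgroup H) : Set H)) = ⊤ := by
        rw [← index_eq_one]
        exact R'.card_eq_index_normalizer.symm.trans hRH
      rw [Sylow.coe_subtype, normalizer_eq_top_iff] at h1
      exact (normal_subgroupOf_iff_le_normalizer le_sup_left).mp h1
    have hfr' : normalizer ((R : Subgroup G) : Set G) ⊔ H = ⊤ := hfr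
    rw [sup_eq_left.mpr hle, ← index_eq_one] at hfr'
    replace hfr : p * q = 1 := hnr.symm.trans (R.card_eq_index_normalizer.trans hfr')
    have := Nat.eq_one_of_mul_eq_one_right hfr
    omega
  · have hmq := card_sylow_mem hnq' hqm
    rw [Finset.mem_filter, Nat.mem_divisors] at hmq
    obtain ⟨⟨hdq, -⟩, hmodq⟩ := hmq
    have hnq_ge : r ≤ Nat.card (Sylow q G) := by
      obtain ⟨a, b, ha, hb, hab⟩ := (Nat.dvd_mul).mp hdq
      rcases (Nat.dvd_prime hp).mp ha with rfl | rfl <;> rcases (Nat.dvd_prime hr.out).mp hb with rfl | rfl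
      · omega
      · omega
      · rw [← hab, mul_one, Nat.mod_eq_of_lt hpq] at hmodq; omega
      · rw [← hab]; exact Nat.le_mul_of_pos_left _ hp.pos
    classical
    have : Fintype G := Fintype.ofFinite G
    have h1 := card_orderOf_eq_prime R hRc
    have h2 := card_orderOf_eq_prime Q hQc
    rw [Nat.card_eq_fintype_card, Fintype.card_subtype] at h1 h2
    rw [hnr] at h1
    have hdis : Disjoint (Finset.univ.filter fun g : G => orderOf g = r) (Finset.univ.filter fun g : G => orderOf g = q) := by
      rw [Finset.disjoint_filter]; intro g _ h h'; omega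
    have hne1 : Disjoint ((Finset.univ.filter fun g : G => orderOf g = r) ∪ (Finset.univ.filter fun g : G => orderOf g = q)) {1} := by
      rw [Finset.disjoint_singleton_right]; simp; omega
    have hle := Finset.card_le_univ (((Finset.univ.filter fun g : G => orderOf g = r) ∪ (Finset.univ.filter fun g : G => orderOf g = q)) ∪ {1})
    rw [Finset.card_union_of_disjoint hne1, Finset.card_union_of_disjoint hdis, h1, h2, Finset.card_singleton,
      ← Nat.card_eq_fintype_card, hG] at hle
    obtain ⟨r', hr'⟩ : ∃ r', r = r' + 1 := ⟨r - 1, by omega⟩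
    obtain ⟨q', hq''⟩ : ∃ q', q = q' + 1 := ⟨q - 1, by omega⟩
    rw [show r - 1 = r' by omega, show q - 1 = q' by omega] at hle
    have h3 : r * q' ≤ Nat.card (Sylow q G) * q' := Nat.mul_le_mul_right _ hnq_ge
    have h4 : (q + 1) * p ≤ r * q' := Nat.mul_le_mul (by omega) (by omega)
    have h5 : p * q * r = p * q * r' + p * q := by rw [hr']; ring
    have h6 : (q + 1) * p = p * q + p := by ring
    omega

/-- If a finite group has order pqr for primes p < q < r, then its Sylow r-subgroups are normal. -/
theorem result {G : Type*} [Group G] [Finite G] (p q r : ℕ) (hp : p.Prime) (hq : q.Prime) [Fact r.Prime] (hpq : p < q) (hqr : q < r) (hG : Nat.card G = p * q * r) (R : Sylow r G) : (R : Subgroup G).Normal := by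
  exact main p q r hp hq hpq hqr hG R

end Cfsg.Agent.S0987
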