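import Cfsg.Statements.S0989
import Cfsg.Agent.Lib.SmallGroups.Counting
-- import your own Cfsg.Agent.* helpers here

set_option autoImplicit false
open Cfsg

namespace Cfsg.Agent.S0989

open Subgroup in
theorem main {α : Type*} [Fintype α] [DecidableEq α] (p : ℕ) [hp : Fact p.Prime]
    (hα : Fintype.card α = p ∨ Fintype.card α = p + 1) (P : Sylow p (Equiv.Perm α)) :
    Nat.card ↥(normalizer ((P : Subgroup (Equiv.Perm α)) : Set (Equiv.Perm α))) = p * (p - 1) := by
  set n := Fintype.card α with hn
  have hp2 := hp.out.two_le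
  obtain ⟨m, hm, hmp⟩ : ∃ m, n.factorial = p ^ 1 * m ∧ ¬ p ∣ m := by
    have hpf : p.factorial = p * (p - 1).factorial :=
      (Nat.mul_factorial_pred hp.out.ne_zero).symm
    rcases hα with h | h
    · exact ⟨(p - 1).factorial, by rw [h, pow_one, hpf], fun hd => by
        have := hp.out.dvd_factorial.mp hd; omega⟩
    · refine ⟨(p + 1) * (p - 1).factorial, by rw [h, pow_one, Nat.factorial_succ, hpf]; ring, fun hd => ?_⟩
      rcases hp.out.dvd_mul.mp hd with hd | hd
      · exact hp.out.not_dvd_one ((Nat.dvd_add_right dvd_rfl).mp hd)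
      · have := hp.out.dvd_factorial.mp hd; omega
  have hcardS : Nat.card (Equiv.Perm α) = p ^ 1 * m := by
    rw [Nat.card_perm, Nat.card_eq_fintype_card, ← hn, hm]
  have hP : Nat.card ↥(P : Subgroup (Equiv.Perm α)) = p := by
    simpa using CfsgLib.SmallGroups.card_sylow_eq hcardS hmp P
  have hcount := CfsgLib.SmallGroups.card_orderOf_eq_prime P hP
  have hiff : ∀ g : Equiv.Perm α, orderOf g = p ↔ g.cycleType = {p} := by
    intro g
    refine ⟨fun h => ?_, fun h => ?_⟩
    · obtain ⟨k, hk⟩ := Equiv.Perm.cycleType_prime_order (σ := g) (h ▸ hp.out)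
      rw [h] at hk
      have hs := Equiv.Perm.sum_cycleType_le g
      rw [hk, Multiset.sum_replicate, smul_eq_mul, ← hn] at hs
      have : k = 0 := by
        by_contra hk0
        have : 2 * p ≤ (k + 1) * p := Nat.mul_le_mul_right _ (by omega)
        rcases hα with h' | h' <;> omega
      rw [hk, this]; rfl
    · rw [← Equiv.Perm.lcm_cycleType, h, Multiset.lcm_singleton, normalize_eq]
  rw [Nat.card_congr (Equiv.subtypeEquivRight hiff), Nat.card_eq_fintype_card, Fintype.card_subtype] at hcount
  have hmul := Equiv.Perm.card_of_cycleType_mul_eq (α := α) ({p} : Multiset ℕ)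
  rw [if_pos ⟨by simp only [Multiset.sum_singleton]; omega, by simp [hp2]⟩, hcount] at hmul
  have hfac : (n - p).factorial = 1 := by
    rcases hα with h | h <;> simp [h]
  simp only [Multiset.sum_singleton, Multiset.prod_singleton, Multiset.toFinset_singleton,
    Finset.prod_singleton, Multiset.count_singleton_self, Nat.factorial_one, mul_one, ← hn, hfac,
    one_mul] at hmul
  have hN := CfsgLib.SmallGroups.card_sylow_mul_card_normalizer P
  rw [Nat.card_perm, Nat.card_eq_fintype_card (α := α), ← hn, ← hmul] at hN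
  have hpos : 0 < Nat.card (Sylow p (Equiv.Perm α)) := Finite.card_pos_iff.mpr ⟨P⟩
  refine Nat.eq_of_mul_eq_mul_left hpos (hN.trans ?_)
  ring

/-- In the symmetric group on p or p + 1 letters, p a prime, the normalizer of a Sylow p-subgroup has order p * (p - 1). -/
theorem result {α : Type*} [Fintype α] [DecidableEq α] (p : ℕ) [Fact p.Prime] (hα : Fintype.card α = p ∨ Fintype.card α = p + 1) (P : Sylow p (Equiv.Perm α)) : Nat.card ↥(Subgroup.normalizer ((P : Subgroup (Equiv.Perm α)) : Set (Equiv.Perm α))) = p * (p - 1) := by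
  exact main p hα P

end Cfsg.Agent.S0989
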