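import Cfsg.Statements.S0990
-- import your own Cfsg.Agent.* helpers here

set_option autoImplicit false
open Cfsg

namespace Cfsg.Agent.S0990

open Subgroup in
theorem main {α : Type*} [Fintype α] [DecidableEq α] (hα : 2 ≤ Fintype.card α) (p : ℕ) [hp' : Fact p.Prime]
    (hp : p ≠ 2) (P : Sylow p (Equiv.Perm α)) :
    (P : Subgroup (Equiv.Perm α)) ≤ alternatingGroup α ∧
      2 * Nat.card ↥(normalizer ((((P : Subgroup (Equiv.Perm α)).subgroupOf (alternatingGroup α) :
        Subgroup ↥(alternatingGroup α)) : Set ↥(alternatingGroup α)))) =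
      Nat.card ↥(normalizer ((P : Subgroup (Equiv.Perm α)) : Set (Equiv.Perm α))) := by
  have hle : (P : Subgroup (Equiv.Perm α)) ≤ alternatingGroup α := by
    intro g hg
    rw [Equiv.Perm.mem_alternatingGroup]
    obtain ⟨k, hk⟩ := P.isPGroup' ⟨g, hg⟩
    have hk' : g ^ p ^ k = 1 := congrArg Subtype.val hk
    have h1 : Equiv.Perm.sign g ^ p ^ k = 1 := by rw [← map_pow, hk', map_one]
    rcases Int.units_eq_one_or (Equiv.Perm.sign g) with h | h
    · exact h
    · rw [h, (hp'.out.odd_of_ne_two hp).pow.neg_one_pow] at h1
      exact absurd h1 (by decide)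
  refine ⟨hle, ?_⟩
  have : Nontrivial α := Fintype.one_lt_card_iff_nontrivial.mp (by omega)
  set N := normalizer ((P : Subgroup (Equiv.Perm α)) : Set (Equiv.Perm α))
  have hfr : N ⊔ alternatingGroup α = ⊤ := Sylow.normalizer_sup_eq_top' P hle
  have hrel : (alternatingGroup α).relIndex N = 2 := by
    rw [← relIndex_sup_right (H := N), hfr, relIndex_top_right, alternatingGroup.index_eq_two]
  rw [← subgroupOf_normalizer_eq hle]
  have hc := ((alternatingGroup α).subgroupOf N).index_mul_card
  have h1 : Nat.card ↥(N.subgroupOf (alternatingGroup α)) = Nat.card ↥((alternatingGroup α).subgroupOf N) := by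
    rw [← inf_subgroupOf_right, Nat.card_congr (subgroupOfEquivOfLe inf_le_right).toEquiv,
      ← inf_subgroupOf_right (alternatingGroup α) N,
      Nat.card_congr (subgroupOfEquivOfLe inf_le_right).toEquiv, inf_comm]
  rw [h1, ← hc]
  exact congrArg (· * _) hrel.symm

/-- Let p be an odd prime and P a Sylow p-subgroup of the symmetric group on a finite set with at least two elements. Then P is contained in the alternating group, and twice the order of the normalizer of P inside the alternating group equals the order of the normalizer of P in the symmetric group. -/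
theorem result {α : Type*} [Fintype α] [DecidableEq α] (hα : 2 ≤ Fintype.card α) (p : ℕ) [Fact p.Prime] (hp : p ≠ 2) (P : Sylow p (Equiv.Perm α)) : (P : Subgroup (Equiv.Perm α)) ≤ alternatingGroup α ∧ 2 * Nat.card ↥(Subgroup.normalizer ((((P : Subgroup (Equiv.Perm α)).subgroupOf (alternatingGroup α) : Subgroup ↥(alternatingGroup α)) : Set ↥(alternatingGroup α)))) = Nat.card ↥(Subgroup.normalizer ((P : Subgroup (Equiv.Perm α)) : Set (Equiv.Perm α))) := by
  exact main hα p hp P

end Cfsg.Agent.S0990
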