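import Cfsg.Statements.S0995
import Cfsg.Agent.Lib.SmallGroups.Counting
-- import your own Cfsg.Agent.* helpers here

set_option autoImplicit false
open Cfsg

namespace Cfsg.Agent.S0995

open CfsgLib.SmallGroups Subgroup in
theorem main {G : Type*} [Group G] [Finite G] (p : ℕ) [hp : Fact p.Prime] (z : G) (hz : orderOf z = p)
    (hC : centralizer ({z} : Set G) = zpowers z) :
    ∃ n t : ℕ, t = Nat.card {c : ConjClasses G // ∃ g : G, ConjClasses.mk g = c ∧ orderOf g = p} ∧
      t ∣ p - 1 ∧ Nat.card (Sylow p G) = 1 + n * p ∧ Nat.card G * t = (p - 1) * p * (1 + n * p) := by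
  classical
  have hzc : Nat.card ↥(zpowers z) = p := by rw [Nat.card_zpowers, hz]
  obtain ⟨P, hzP⟩ := (IsPGroup.of_card (p := p) (n := 1) (by rw [hzc, pow_one]) : IsPGroup p ↥(zpowers z)).exists_le_sylow
  have hzmem : z ∈ (P : Subgroup G) := hzP (mem_zpowers z)
  have hPz : (P : Subgroup G) = zpowers z := by
    refine le_antisymm ?_ hzP
    have : Nontrivial ↥(P : Subgroup G) := ⟨⟨z, hzmem⟩, 1, fun h => by
      have h' : z = 1 := congrArg Subtype.val h
      rw [h', orderOf_one] at hz; exact hp.out.ne_one hz.symm⟩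
    obtain ⟨⟨w, hw⟩, hwc, hw1⟩ := (Subgroup.nontrivial_iff_exists_ne_one _).mp
      (P.isPGroup'.center_nontrivial)
    have hwz : w ∈ centralizer ({z} : Set G) := mem_centralizer_singleton.mpr
      (congrArg Subtype.val (mem_center_iff.mp hwc ⟨z, hzmem⟩)).symm
    rw [hC] at hwz
    have hw1' : (⟨w, hwz⟩ : ↥(zpowers z)) ≠ 1 := fun h => hw1 (Subtype.ext (congrArg Subtype.val h : w = 1))
    obtain ⟨k, hk⟩ := mem_zpowers_iff.mp
      (mem_zpowers_of_prime_card hzc (g' := ⟨z, mem_zpowers z⟩) hw1')
    have hk' : w ^ k = z := congrArg Subtype.val hk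
    intro u hu
    rw [← hC, mem_centralizer_singleton]
    have hcu : Commute u w := congrArg Subtype.val (mem_center_iff.mp hwc ⟨u, hu⟩)
    rw [← hk']
    exact (hcu.zpow_right k).eq
  have hP : Nat.card ↥(P : Subgroup G) = p := by rw [hPz, hzc]
  obtain ⟨d, hd⟩ : p ∣ Nat.card ↥(normalizer ((P : Subgroup G) : Set G)) :=
    (dvd_of_eq hP.symm).trans (card_dvd_of_le le_normalizer)
  have hG := card_sylow_mul_card_normalizer P
  rw [hd] at hG
  set np := Nat.card (Sylow p G) with hnp
  set t := Nat.card {c : ConjClasses G // ∃ g : G, ConjClasses.mk g = c ∧ orderOf g = p}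
  have hcent : ∀ g : G, orderOf g = p → Nat.card ↥(centralizer ({g} : Set G)) = p := by
    intro g hg
    have hgc : Nat.card ↥(zpowers g) = p := by rw [Nat.card_zpowers, hg]
    obtain ⟨Q, hQ⟩ := (IsPGroup.of_card (p := p) (n := 1) (by rw [hgc, pow_one]) : IsPGroup p ↥(zpowers g)).exists_le_sylow
    obtain ⟨c, hc⟩ := MulAction.exists_smul_eq G Q P
    have hgP : c * g * c⁻¹ ∈ (P : Subgroup G) := by
      rw [← hc, Sylow.coe_subgroup_smul, mem_pointwise_smul_iff_inv_smul_mem]
      simpa [MulAut.smul_def, mul_assoc] using hQ (mem_zpowers g)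
    rw [hPz] at hgP
    have hne : (⟨c * g * c⁻¹, hgP⟩ : ↥(zpowers z)) ≠ 1 := fun h => by
      have h' : c * g * c⁻¹ = 1 := congrArg Subtype.val h
      have : g = 1 := by simpa using h'
      rw [this, orderOf_one] at hg; exact hp.out.ne_one hg.symm
    obtain ⟨k, hk⟩ := mem_zpowers_iff.mp (mem_zpowers_of_prime_card hzc (g' := ⟨z, mem_zpowers z⟩) hne)
    have hk' : (c * g * c⁻¹) ^ k = z := congrArg Subtype.val hk
    have heq : centralizer ({c * g * c⁻¹} : Set G) = zpowers z := by
      refine le_antisymm (fun u hu => ?_) (fun u hu => ?_)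
      · rw [← hC, mem_centralizer_singleton]
        rw [mem_centralizer_singleton] at hu
        rw [← hk']
        exact ((show Commute u (c * g * c⁻¹) from hu).zpow_right k).eq
      · rw [mem_centralizer_singleton]
        obtain ⟨i, rfl⟩ := mem_zpowers_iff.mp hu
        obtain ⟨j, hj⟩ := mem_zpowers_iff.mp hgP
        rw [← hj]
        exact ((Commute.refl z).zpow_zpow i j).eq
    have h1 := card_isConj_mul_card_centralizer g
    have h2 := card_isConj_mul_card_centralizer (c * g * c⁻¹)
    rw [heq, hzc] at h2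
    have he : Nat.card {x : G // IsConj g x} = Nat.card {x : G // IsConj (c * g * c⁻¹) x} :=
      Nat.card_congr (Equiv.subtypeEquivRight fun x =>
        ⟨fun h => (isConj_iff.mpr ⟨c, rfl⟩ : IsConj g (c * g * c⁻¹)).symm.trans h,
         fun h => (isConj_iff.mpr ⟨c, rfl⟩ : IsConj g (c * g * c⁻¹)).trans h⟩)
    rw [← h2, he] at h1
    exact Nat.eq_of_mul_eq_mul_left (Finite.card_pos_iff.mpr ⟨⟨_, IsConj.refl _⟩⟩) h1
  have hcount : t * (np * d) = np * (p - 1) := by
    rw [← card_orderOf_eq_prime P hP]
    have e : {g : G // orderOf g = p} ≃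
        Σ c : {c : ConjClasses G // ∃ g : G, ConjClasses.mk g = c ∧ orderOf g = p},
          {g : G // ConjClasses.mk g = c.1} :=
      { toFun := fun g => ⟨⟨ConjClasses.mk g.1, g.1, rfl, g.2⟩, g.1, rfl⟩
        invFun := fun a => ⟨a.2.1, by
          obtain ⟨⟨c, g, hg, hgo⟩, x, hx⟩ := a
          obtain ⟨w, hw⟩ := isConj_iff.mp (ConjClasses.mk_eq_mk_iff_isConj.mp (hg.trans hx.symm))
          show orderOf x = p
          rw [← hw, ← hgo]
          exact MulEquiv.orderOf_eq (MulAut.conj w) g⟩
        left_inv := fun _ => rfl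
        right_inv := by
          rintro ⟨⟨c, hc⟩, x, hx⟩
          simp only at hx
          subst hx
          rfl }
    have : Fintype {c : ConjClasses G // ∃ g : G, ConjClasses.mk g = c ∧ orderOf g = p} := Fintype.ofFinite _
    rw [Nat.card_congr e, Nat.card_sigma, Finset.sum_const_nat (m := np * d) (fun c _ => ?_),
      Finset.card_univ, ← Nat.card_eq_fintype_card]
    obtain ⟨_, g, rfl, hg⟩ := c
    have h1 := card_isConj_mul_card_centralizer g
    rw [hcent g hg, ← hG] at h1
    refine Eq.trans (Nat.card_congr (Equiv.subtypeEquivRight fun x => ?_)) (Nat.eq_of_mul_eq_mul_right hp.out.pos (h1.trans (by ring)))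
    exact ConjClasses.mk_eq_mk_iff_isConj.trans isConj_comm
  have hnp0 : 0 < np := Finite.card_pos_iff.mpr ⟨P⟩
  have htd : t * d = p - 1 := Nat.eq_of_mul_eq_mul_left hnp0 (by rw [← hcount]; ring)
  have hmod : np % p = 1 := by
    have h : np % p = 1 % p := card_sylow_modEq_one p G
    rwa [Nat.mod_eq_of_lt hp.out.one_lt] at h
  refine ⟨np / p, t, rfl, ⟨d, htd.symm⟩, ?_, ?_⟩
  · have := Nat.div_add_mod np p
    rw [hmod, mul_comm] at this
    omega
  · have := Nat.div_add_mod np p
    rw [hmod, mul_comm p] at this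
    rw [← hG, show 1 + np / p * p = np by omega, ← htd]
    ring

/-- Let G be a finite perfect group containing an element z of prime order p whose centralizer is the cyclic group it generates. Let t be the number of conjugacy classes of elements of order p. Then t divides p - 1, the number of Sylow p-subgroups has the form 1 + n * p, and |G| * t = (p - 1) * p * (1 + n * p). -/
theorem result {G : Type*} [Group G] [Finite G] (hperf : commutator G = ⊤) (p : ℕ) [Fact p.Prime] (z : G) (hz : orderOf z = p) (hC : Subgroup.centralizer ({z} : Set G) = Subgroup.zpowers z) : ∃ n t : ℕ, t = Nat.card {c : ConjClasses G // ∃ g : G, ConjClasses.mk g = c ∧ orderOf g = p} ∧ t ∣ p - 1 ∧ Nat.card (Sylow p G) = 1 + n * p ∧ Nat.card G * t = (p - 1) * p * (1 + n * p) := by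
  exact main p z hz hC

end Cfsg.Agent.S0995
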