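import Cfsg.Statements.S1009
-- import your own Cfsg.Agent.* helpers here

set_option autoImplicit false
open Cfsg

namespace Cfsg.Agent.S1009

open Subgroup Pointwise in
theorem main {G : Type*} [Group G] [Finite G] (p : ℕ) [Fact p.Prime]
    (hab : ∀ P : Sylow p G, IsMulCommutative ↥(P : Subgroup G)) :
    ∃ P Q : Sylow p G, (P : Subgroup G) ⊓ (Q : Subgroup G) = ⨅ R : Sylow p G, (R : Subgroup G) := by
  classical
  have : Fintype (Sylow p G) := Fintype.ofFinite _
  obtain ⟨⟨P, Q⟩, -, hmin'⟩ := Finset.exists_min_image Finset.univ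
    (fun a : Sylow p G × Sylow p G => Nat.card ↥((a.1 : Subgroup G) ⊓ (a.2 : Subgroup G)))
    Finset.univ_nonempty
  have hmin := fun a => hmin' a (Finset.mem_univ a)
  refine ⟨P, Q, le_antisymm (le_iInf fun R => ?_) (le_inf (iInf_le _ P) (iInf_le _ Q))⟩
  set D := (P : Subgroup G) ⊓ (Q : Subgroup G) with hD
  set C := centralizer (D : Set G)
  have hle : ∀ S : Sylow p G, D ≤ (S : Subgroup G) → (S : Subgroup G) ≤ C := fun S hS x hx => by
    rw [mem_centralizer_iff]
    intro y hy
    have := hab S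
    exact congrArg Subtype.val (mul_comm' (⟨y, hS hy⟩ : ↥(S : Subgroup G)) ⟨x, hx⟩)
  have hPC := hle P inf_le_left
  have hQC := hle Q inf_le_right
  have hpg : IsPGroup p ↥(((R : Subgroup G) ⊓ C).subgroupOf C) :=
    (R.isPGroup'.to_le inf_le_left).of_equiv (subgroupOfEquivOfLe inf_le_right).symm
  obtain ⟨S, hS⟩ := hpg.exists_le_sylow
  obtain ⟨c, hc⟩ := MulAction.exists_smul_eq C (Q.subtype hQC) S
  have hRC : (R : Subgroup G) ⊓ C ≤ ((c : G) • Q : Sylow p G) := by
    intro x hx
    have h1 : (⟨x, hx.2⟩ : C) ∈ (S : Subgroup C) := hS hx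
    rw [← hc, Sylow.coe_subgroup_smul, mem_pointwise_smul_iff_inv_smul_mem] at h1
    rw [Sylow.coe_subgroup_smul, mem_pointwise_smul_iff_inv_smul_mem]
    simpa [MulAut.smul_def, Sylow.coe_subtype, mem_subgroupOf] using h1
  have hconj : ∀ a : Subgroup G, ∀ x : G, x ∈ MulAut.conj (c : G) • a ↔ (c : G)⁻¹ * x * c ∈ a := by
    intro a x
    rw [mem_pointwise_smul_iff_inv_smul_mem]
    simp [MulAut.smul_def]
  have hcD : ∀ x : G, (c : G)⁻¹ * x * c ∈ D → x ∈ D := fun x hx => by
    have h1 := mem_centralizer_iff.mp c.2 _ hx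
    have : x = (c : G)⁻¹ * x * c := by
      calc x = (c : G) * ((c : G)⁻¹ * x * c) * (c : G)⁻¹ := by group
        _ = ((c : G)⁻¹ * x * c) * c * (c : G)⁻¹ := by rw [← h1]
        _ = _ := by group
    rwa [this]
  have hsub : (((c : G) • P : Sylow p G) : Subgroup G) ⊓ (R : Subgroup G) ≤ D := by
    rintro x ⟨hx1, hx2⟩
    have hx1' : (c : G)⁻¹ * x * c ∈ (P : Subgroup G) := by
      have h1 : x ∈ (((c : G) • P : Sylow p G) : Subgroup G) := hx1
      rwa [Sylow.coe_subgroup_smul, hconj] at h1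
    have hxC : x ∈ C := by
      have := C.mul_mem (C.mul_mem c.2 (hPC hx1')) (C.inv_mem c.2)
      have he : (c : G) * ((c : G)⁻¹ * x * c) * (c : G)⁻¹ = x := by group
      rwa [he] at this
    have hxQ := hRC ⟨hx2, hxC⟩
    rw [Sylow.coe_subgroup_smul, hconj] at hxQ
    exact hcD x ⟨hx1', hxQ⟩
  have := eq_of_le_of_card_ge hsub (hmin ((c : G) • P, R))
  exact this ▸ inf_le_right

/-- Brodkey's Theorem: if a finite group has abelian Sylow p-subgroups, then there are two Sylow p-subgroups whose intersection equals the intersection of all Sylow p-subgroups. -/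
theorem result {G : Type*} [Group G] [Finite G] (p : ℕ) [Fact p.Prime] (hab : ∀ P : Sylow p G, IsMulCommutative ↥(P : Subgroup G)) : ∃ P Q : Sylow p G, (P : Subgroup G) ⊓ (Q : Subgroup G) = ⨅ R : Sylow p G, (R : Subgroup G) := by
  exact main p hab

end Cfsg.Agent.S1009
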