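import Cfsg.Statements.S1013
import Cfsg.Agent.Lib.SmallGroups.Basic
-- import your own Cfsg.Agent.* helpers here

set_option autoImplicit false
open Cfsg

namespace Cfsg.Agent.S1013

open CfsgLib.SmallGroups Subgroup MulAction

theorem main {α : Type*} [Fintype α] [DecidableEq α] {p : ℕ} [hp : Fact p.Prime] (hα : Fintype.card α = p)
    (G : Subgroup (Equiv.Perm α)) [IsPretransitive ↥G α] (P : Sylow p ↥G) (hn : 1 < Nat.card (Sylow p ↥G))
    (ht : (((P : Subgroup ↥G).subgroupOf (normalizer ((P : Subgroup ↥G) : Set ↥G))).index).Prime) :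
    IsSimpleGroup ↥G := by
  classical
  set N := normalizer ((P : Subgroup ↥G) : Set ↥G) with hN
  have : Nontrivial ↥G := by
    by_contra h
    rw [not_nontrivial_iff_subsingleton] at h
    have := (Finite.card_le_one_iff_subsingleton (α := Sylow p ↥G)).mpr
      ⟨fun A B => Sylow.ext (Subsingleton.elim _ _)⟩
    omega
  have hne : Nonempty α := Fintype.card_pos_iff.mp (hα ▸ hp.out.pos)
  have hαc : Nat.card α = p := by rw [Nat.card_eq_fintype_card, hα]
  have htrans : ∀ M : Subgroup ↥G, M.Normal → M ≠ ⊥ → p ∣ Nat.card ↥M := by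
    intro M hM hMb
    obtain ⟨a⟩ := hne
    have hcases : ∀ b : α, Nat.card (orbit ↥M b) = 1 ∨ Nat.card (orbit ↥M b) = p := fun b => by
      have hblock : IsBlock ↥G (orbit ↥M b) := IsBlock.orbit_of_normal b
      have hd := hblock.ncard_dvd_card ⟨b, mem_orbit_self b⟩
      rw [← Nat.card_coe_set_eq, hαc] at hd
      exact (Nat.dvd_prime hp.out).mp hd
    by_cases hex : ∃ b : α, Nat.card (orbit ↥M b) = p
    · obtain ⟨b, hb⟩ := hex
      rw [← hb, Nat.card_coe_set_eq, ← index_stabilizer]
      exact index_dvd_card _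
    · exfalso
      apply hMb
      rw [eq_bot_iff]
      intro m hm
      rw [mem_bot]
      apply Subtype.ext
      apply Equiv.ext
      intro b
      have h1 := (hcases b).resolve_right (fun h => hex ⟨b, h⟩)
      obtain ⟨hs⟩ := Nat.card_eq_one_iff_unique.mp h1
      exact congrArg Subtype.val
        (hs.elim (⟨(⟨m, hm⟩ : ↥M) • b, mem_orbit _ _⟩ : orbit ↥M b) ⟨b, mem_orbit_self b⟩)
  have hPp : Nat.card ↥(P : Subgroup ↥G) = p := by
    obtain ⟨n, hn'⟩ := P.isPGroup'.exists_card_eq
    have hd : p ^ n ∣ p.factorial := by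
      rw [← hn', show p.factorial = Nat.card (Equiv.Perm α) by rw [Nat.card_perm, hαc]]
      exact (card_subgroup_dvd_card _).trans (card_subgroup_dvd_card G)
    have hn1 : n ≤ 1 := by
      by_contra h
      have h2 : p ^ 2 ∣ p.factorial := (pow_dvd_pow p (by omega)).trans hd
      rw [← Nat.mul_factorial_pred hp.out.ne_zero, pow_two] at h2
      have := hp.out.dvd_factorial.mp (Nat.dvd_of_mul_dvd_mul_left hp.out.pos h2)
      have := hp.out.pos
      omega
    have hn0 : n ≠ 0 := fun h0 => by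
      rw [h0, pow_zero] at hn'
      have hb : (P : Subgroup ↥G) = ⊥ := card_eq_one.mp hn'
      have hdvd := htrans ⊤ inferInstance (by simp)
      rw [card_top] at hdvd
      exact P.ne_bot_of_dvd_card hdvd hb
    rw [hn', show n = 1 by omega, pow_one]
  refine ⟨fun M hM => ?_⟩
  by_contra hcon
  push Not at hcon
  obtain ⟨hMb, hMt⟩ := hcon
  have hpM := htrans M hM hMb
  obtain ⟨⟨y, hyM⟩, hy⟩ := exists_prime_orderOf_dvd_card' (G := ↥M) p hpM
  have hy' : orderOf y = p := (Subgroup.orderOf_coe _).trans hy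
  have hzc : Nat.card ↥(zpowers y) = p := by rw [Nat.card_zpowers, hy']
  obtain ⟨Q, hQ⟩ := (IsPGroup.of_card (p := p) (n := 1) (by rw [hzc, pow_one]) :
    IsPGroup p ↥(zpowers y)).exists_le_sylow
  have hQe : zpowers y = (Q : Subgroup ↥G) := eq_of_le_of_card_ge hQ
    (by rw [hzc]; exact ((Nat.card_congr (Sylow.equiv Q P).toEquiv).trans hPp).le)
  have hQM : (Q : Subgroup ↥G) ≤ M := hQe ▸ zpowers_le.mpr hyM
  have hPM : (P : Subgroup ↥G) ≤ M := by
    obtain ⟨g, rfl⟩ := MulAction.exists_smul_eq ↥G Q P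
    intro x hx
    rw [Sylow.coe_subgroup_smul, mem_pointwise_smul_iff_inv_smul_mem] at hx
    have := hM.conj_mem _ (hQM hx) g
    simpa [MulAut.smul_def, mul_assoc] using this
  let K := M ⊓ N
  have hKP : (P : Subgroup ↥G) ≤ K := le_inf hPM le_normalizer
  have hKN : K ≠ N := fun he => by
    have hNM : N ≤ M := he ▸ inf_le_left
    have hfr := Sylow.normalizer_sup_eq_top' (N := M) P hPM
    exact hMt (top_le_iff.mp (hfr.symm.le.trans (sup_le hNM le_rfl)))
  have hKP' : K ≤ (P : Subgroup ↥G) := by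
    have h := relIndex_mul_relIndex (P : Subgroup ↥G) K N hKP inf_le_right
    rcases ht.eq_one_or_self_of_dvd _ (Dvd.intro _ h : (P : Subgroup ↥G).relIndex K ∣ _) with h1 | h1
    · exact relIndex_eq_one.mp h1
    · exfalso
      apply hKN
      have hpos : (P : Subgroup ↥G).relIndex N ≠ 0 := ht.ne_zero
      have h1' : K.relIndex N = 1 := by
        have h1'' : (P : Subgroup ↥G).relIndex K = (P : Subgroup ↥G).relIndex N := h1
        rw [h1''] at h
        exact (mul_eq_left₀ hpos).mp h
      exact le_antisymm inf_le_right (relIndex_eq_one.mp h1')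
  let P' : Sylow p ↥M := P.subtype hPM
  have hcomm : IsMulCommutative ↥(P' : Subgroup ↥M) := by
    have : IsCyclic ↥(P' : Subgroup ↥M) := isCyclic_of_prime_card
      ((Nat.card_congr (subgroupOfEquivOfLe hPM).toEquiv).trans hPp)
    exact ⟨⟨fun a b => IsCyclic.commGroup.mul_comm a b⟩⟩
  have hle : normalizer ((P' : Subgroup ↥M) : Set ↥M) ≤ centralizer ((P' : Subgroup ↥M) : Set ↥M) := by
    refine le_trans ?_ (P' : Subgroup ↥M).le_centralizer
    intro m hm
    have hm' : (m : ↥G) ∈ N := le_normalizer_map M.subtype (H := (P' : Subgroup ↥M)) |>.trans_eq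
      (by rw [Sylow.coe_subtype, subgroupOf_map_subtype, inf_eq_left.mpr hPM]) (mem_map_of_mem M.subtype hm)
    exact hKP' ⟨m.2, hm'⟩
  set f := MonoidHom.transferSylow P' hle
  have hcompl := MonoidHom.ker_transferSylow_isComplement' P' hle
  have hndvd := MonoidHom.not_dvd_card_ker_transferSylow P' hle
  have hker : ∀ m : ↥M, m ∈ f.ker ↔ ¬ p ∣ orderOf m := by
    intro m
    refine ⟨fun h hd => hndvd (hd.trans (Subgroup.orderOf_dvd_natCard _ h)), fun h => ?_⟩
    rw [MonoidHom.mem_ker]
    have h1 : orderOf (f m) ∣ orderOf m := orderOf_map_dvd f m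
    obtain ⟨k, hk⟩ := P'.isPGroup' (f m)
    obtain ⟨j, -, hj⟩ := (Nat.dvd_prime_pow hp.out).mp (orderOf_dvd_of_pow_eq_one hk)
    rw [← orderOf_eq_one_iff, hj]
    rcases j with _ | j
    · rfl
    · exact absurd ((dvd_pow_self p (Nat.succ_ne_zero j)).trans (hj ▸ h1)) h
  let K' : Subgroup ↥G := f.ker.map M.subtype
  have hK'n : K'.Normal := by
    refine ⟨?_⟩
    rintro _ ⟨m, hm, rfl⟩ g
    refine ⟨⟨g * (m : ↥G) * g⁻¹, hM.conj_mem _ m.2 g⟩, (hker _).mpr ?_, rfl⟩
    have := (hker m).mp hm
    rw [← Subgroup.orderOf_coe] at this ⊢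
    rwa [show orderOf (g * (m : ↥G) * g⁻¹) = orderOf (m : ↥G) from MulEquiv.orderOf_eq (MulAut.conj g) (m : ↥G)]
  have hK'b : K' = ⊥ := by
    by_contra hb
    have := htrans K' hK'n hb
    rw [card_map_of_injective M.subtype_injective] at this
    exact hndvd this
  have hkb : f.ker = ⊥ := map_injective M.subtype_injective (hK'b.trans (Subgroup.map_bot _).symm)
  rw [show (MonoidHom.transferSylow P' hle).ker = ⊥ from hkb, isComplement'_bot_left] at hcompl
  have hMP : M ≤ (P : Subgroup ↥G) := fun x hx => by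
    have : (⟨x, hx⟩ : ↥M) ∈ (P' : Subgroup ↥M) := hcompl ▸ mem_top _
    exact this
  have hPn : (P : Subgroup ↥G).Normal := le_antisymm hMP hPM ▸ hM
  have := P.card_eq_index_normalizer
  have htop : N = ⊤ := normalizer_eq_top_iff.mpr hPn
  have h1 : Nat.card (Sylow p ↥G) = N.index := this
  rw [htop, index_top] at h1
  omega

/-- Let G be a transitive permutation group of prime degree p having more than one Sylow p-subgroup, and suppose a Sylow p-subgroup P has prime index in its normalizer. Then G is simple. -/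
theorem result {α : Type*} [Fintype α] [DecidableEq α] {p : ℕ} [Fact p.Prime] (hα : Fintype.card α = p) (G : Subgroup (Equiv.Perm α)) [MulAction.IsPretransitive ↥G α] (P : Sylow p ↥G) (hn : 1 < Nat.card (Sylow p ↥G)) (ht : (((P : Subgroup ↥G).subgroupOf (Subgroup.normalizer ((P : Subgroup ↥G) : Set ↥G))).index).Prime) : IsSimpleGroup ↥G := by
  exact main hα G P hn ht

end Cfsg.Agent.S1013
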