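import Cfsg.Statements.S1014
import Cfsg.Agent.Lib.SmallGroups.Action
-- import your own Cfsg.Agent.* helpers here

set_option autoImplicit false
open Cfsg

namespace Cfsg.Agent.S1014

open CfsgLib.SmallGroups MulAction Subgroup in
theorem key {G : Type*} [Group G] [Finite G] [IsSimpleGroup G] (h : Nat.card G = 1104) : False := by
  have hG := not_isMulCommutative_of_card_eq h (by norm_num)
  have : Fact (Nat.Prime 23) := ⟨by norm_num⟩
  have hn := card_sylow_mem (p := 23) (a := 1) (m := 48) (by rw [h]; norm_num) (by norm_num)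
  rw [show (Nat.divisors 48).filter (fun d => d % 23 = 1) = {1, 24} by decide] at hn
  simp only [Finset.mem_insert, Finset.mem_singleton] at hn
  have h1 := one_lt_card_sylow hG (p := 23) (h ▸ by norm_num)
  obtain ⟨P⟩ := (inferInstance : Nonempty (Sylow 23 G))
  obtain ⟨c, e, hC, hN, he, hed, hprod⟩ := sylow_prime_data hG (m := 48) (by rw [h]) (by norm_num) P
  have h24 : Nat.card (Sylow 23 G) = 24 := by omega
  rw [h24] at hprod
  obtain ⟨rfl, rfl⟩ : c = 1 ∧ e = 2 := by
    have hce : c * e = 2 := by omega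
    have := Nat.le_of_dvd (by norm_num) (⟨c, by linarith⟩ : e ∣ 2)
    constructor <;> nlinarith
  set N := normalizer ((P : Subgroup G) : Set G) with hNdef
  have : Fact (Nat.Prime 2) := ⟨Nat.prime_two⟩
  obtain ⟨⟨t, htN⟩, ht⟩ := exists_prime_orderOf_dvd_card' (G := N) 2 (by rw [hN]; norm_num)
  have ht2 : orderOf t = 2 := by rw [← ht, ← Subgroup.orderOf_coe]
  have hP : Nat.card ↥(P : Subgroup G) = 23 := card_sylow_eq (a := 1) (m := 48) (by rw [h]; norm_num)
    (by norm_num) P
  have htC : t ∉ centralizer ((P : Subgroup G) : Set G) := fun hc => by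
    have := Subgroup.orderOf_dvd_natCard _ hc
    rw [ht2, hC] at this
    omega
  have hle := card_fixedBy_le_card_orbits (α := G ⧸ N) (P : Subgroup G) hP htN htC
  have h4 := four_dvd_moved (α := G ⧸ N) hG (g := t) (by rw [← ht2]; exact pow_orderOf_eq_one t)
  have hidx : Nat.card (G ⧸ N) = 24 := by rw [← index_eq_card, hNdef]; exact P.card_eq_index_normalizer.symm.trans h24
  have hpos : 0 < Nat.card (fixedBy (G ⧸ N) t) := Finite.card_pos_iff.mpr
    ⟨⟨((1 : G) : G ⧸ N), (mk_mem_fixedBy_iff t 1).mpr (by simpa using htN)⟩⟩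
  have horb : Nat.card (orbitRel.Quotient ↥(P : Subgroup G) (G ⧸ N)) * 23 = 24 + (23 - 1) :=
    (card_orbits_sylow_cosets P hP).trans (congrArg (· + (23 - 1)) h24)
  rw [hidx] at h4
  have h2 : Nat.card (fixedBy (G ⧸ N) t) ≤ 2 := le_trans hle (le_of_eq (Nat.eq_of_mul_eq_mul_right (by norm_num) (horb.trans (by norm_num : 24 + (23 - 1) = 2 * 23))))
  omega

/-- No finite simple group has order 1104 = 2^4 * 3 * 23. -/
theorem result {G : Type*} [Group G] [Finite G] [IsSimpleGroup G] : Nat.card G ≠ 1104 := by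
  exact fun h => key h

end Cfsg.Agent.S1014
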