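import Cfsg.Statements.S1016
import Cfsg.Agent.Lib.SmallGroups.CentralInvolution
import Cfsg.Agent.Lib.SmallGroups.InvolutionCentralizer
import Cfsg.Agent.Lib.SmallGroups.Action
-- import your own Cfsg.Agent.* helpers here

set_option autoImplicit false
open Cfsg

namespace Cfsg.Agent.S1016

open Subgroup MulAction CfsgLib.SmallGroups
open scoped Pointwise

universe u

variable {G : Type u} [Group G] [Finite G] [IsSimpleGroup G]

theorem centralizer_le (h : Nat.card G = 1440) [Fact (Nat.Prime 5)] (P : Sylow 5 G)
    (h36 : Nat.card (Sylow 5 G) = 36) (hN : Nat.card ↥(normalizer ((P : Subgroup G) : Set G)) = 2 ^ 3 * 5)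
    {t : G} (ht : orderOf t = 2) (hPt : (P : Subgroup G) ≤ centralizer ({t} : Set G))
    (hW : 2 ^ 3 ∣ Nat.card ↥(normalizer ((P : Subgroup G) : Set G) ⊓ centralizer ({t} : Set G) : Subgroup G)) :
    centralizer ({t} : Set G) ≤ normalizer ((P : Subgroup G) : Set G) := by
  have hG := not_isMulCommutative_of_card_eq h (by norm_num)
  obtain ⟨hmod, hdvd, hle, hmul⟩ := relIndex_normalizer_centralizer P hPt
  have htop := centralizer_ne_top hG (t := t) (fun h1 => by rw [h1, orderOf_one] at ht; exact absurd ht (by norm_num))
  set N := normalizer ((P : Subgroup G) : Set G) with hNdef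
  set C := centralizer ({t} : Set G) with hCdef
  have h5 : 5 ∣ Nat.card ↥(N ⊓ C : Subgroup G) := by
    have := card_dvd_of_le (le_inf le_normalizer hPt : (P : Subgroup G) ≤ N ⊓ C)
    rwa [card_sylow_eq (p := 5) (a := 1) (m := 288) (by rw [h]; norm_num) (by norm_num) P, pow_one] at this
  have h40 : Nat.card ↥(N ⊓ C : Subgroup G) = 40 :=
    Nat.dvd_antisymm ((card_dvd_of_le inf_le_left).trans (dvd_of_eq (hN.trans (by norm_num))))
      (Nat.Coprime.mul_dvd_of_dvd_of_dvd (show Nat.Coprime 8 5 by norm_num) (by simpa using hW) h5)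
  rw [h40] at hmul
  rw [h36] at hle
  have hCd : N.relIndex C * 40 ∣ 1440 := by rw [hmul, ← h]; exact card_subgroup_dvd_card C
  have hmem : N.relIndex C = 1 ∨ N.relIndex C = 6 ∨ N.relIndex C = 36 := by
    have hd : N.relIndex C ∣ 36 := (Nat.mul_dvd_mul_iff_right (show 0 < 40 by norm_num)).mp (by simpa using hCd)
    have hall : ∀ i ∈ Finset.range 37, i ∣ 36 → i % 5 = 1 → i = 1 ∨ i = 6 ∨ i = 36 := by decide
    exact hall _ (Finset.mem_range.mpr (by omega)) hd (by omega)
  rcases hmem with h1 | h1 | h1
  · exact relIndex_eq_one.mp h1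
  all_goals
    exfalso
    refine absurd ?_ (not_le.mpr (index_gt (k := 6) hG htop (by rw [h]; decide)))
    have h' := card_mul_index C
    rw [← hmul, h1, h] at h'
    omega

theorem key (h : Nat.card G = 1440) : False := by
  classical
  have hG := not_isMulCommutative_of_card_eq h (by norm_num)
  have : Fact (Nat.Prime 5) := ⟨by norm_num⟩
  have : Fact (Nat.Prime 3) := ⟨by norm_num⟩
  have : Fact (Nat.Prime 2) := ⟨Nat.prime_two⟩
  have hn := card_sylow_mem (p := 5) (a := 1) (m := 288) (by rw [h]; norm_num) (by norm_num)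
  rw [show (Nat.divisors 288).filter (fun d => d % 5 = 1) = {1, 6, 16, 36, 96} by decide] at hn
  simp only [Finset.mem_insert, Finset.mem_singleton] at hn
  have h1 := one_lt_card_sylow hG (p := 5) (h ▸ by norm_num)
  obtain ⟨P⟩ := (inferInstance : Nonempty (Sylow 5 G))
  obtain ⟨c, e, hC, hN, he, hed, hprod⟩ := sylow_prime_data hG (m := 288) (by rw [h]) (by norm_num) P
  have he4 : e = 2 ∨ e = 4 := by
    have := Nat.le_of_dvd (by norm_num) hed
    interval_cases e <;> omega
  obtain ⟨g₀, hg₀⟩ := exists_smul_sylow_ne hG (p := 5) (h ▸ by norm_num) P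
  rcases hn with hn | hn | hn | hn | hn
  · omega
  · have h' := two_mul_card_dvd_factorial_card_sylow hG (p := 5) (h ▸ by norm_num)
    rw [hn, h] at h'
    exact absurd h' (by decide)
  · rw [hn] at hprod
    obtain ⟨rfl, rfl⟩ : c = 9 ∧ e = 2 := by rcases he4 with rfl | rfl <;> omega
    obtain ⟨R₀, hR₀⟩ := Sylow.exists_subgroup_card_pow_prime 3 (n := 2)
      (G := ↥(centralizer ((P : Subgroup G) : Set G))) (by rw [hC]; norm_num)
    set R := R₀.map (centralizer ((P : Subgroup G) : Set G)).subtype with hR
    have hRcard : Nat.card R = 9 := by rw [hR, card_map_of_injective (subtype_injective _), hR₀]; norm_num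
    have hd := card_dvd_card_add_of_fixedBy_eq (α := Sylow 5 G) R (f := 1) fun g hg hg1 => by
      have hlt : Nat.card (fixedBy (Sylow 5 G) g) < 16 := hn ▸ card_fixedBy_lt hg₀ hg1
      have h5 : Nat.card (fixedBy (Sylow 5 G) g) % 5 = 1 :=
        card_fixedBy_sylow_modEq_one P (map_subtype_le _ hg)
      have hp3 : IsPGroup 3 (zpowers g) :=
        (IsPGroup.of_card (n := 2) (hRcard.trans (by norm_num))).to_le (zpowers_le.mpr hg)
      have h3 : 16 % 3 = Nat.card (fixedBy (Sylow 5 G) g) % 3 := hn ▸ card_modEq_card_fixedBy hp3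
      omega
    rw [hRcard, hn] at hd
    norm_num at hd
  · rw [hn] at hprod
    rcases he4 with rfl | rfl
    · obtain rfl : c = 4 := by omega
      exact false_of_central_involutions P (s := 2) (w := 3) (v := 5) (m := 45) (r := 5) (by rw [h]; norm_num)
        (by norm_num) (hN.trans (by norm_num)) (by norm_num) (by rw [hC]; norm_num) (by norm_num) (by norm_num)
        fun t ht hPt hW => centralizer_le h P hn (hN.trans (by norm_num)) ht hPt hW
    · obtain rfl : c = 2 := by omega
      set N := normalizer ((P : Subgroup G) : Set G) with hNdef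
      set CP := centralizer ((P : Subgroup G) : Set G) with hCP
      have hCN : CP ≤ N := centralizer_le_normalizer _
      have hPcard : Nat.card ↥(P : Subgroup G) = 5 := by
        simpa using card_sylow_eq (p := 5) (a := 1) (m := 288) (by rw [h]; norm_num) (by norm_num) P
      obtain ⟨⟨u, huC⟩, hu⟩ := exists_prime_orderOf_dvd_card' (G := CP) 2 (by rw [hC]; norm_num)
      have hu2 : orderOf u = 2 := (Subgroup.orderOf_coe _).trans hu
      -- the centraliser of `P` is commutative with one involution
      have hcomm : ∀ a ∈ CP, ∀ b ∈ CP, a * b = b * a := by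
        have hle : (P : Subgroup G).subgroupOf CP ≤ center CP := fun y hy =>
          mem_center_iff.mpr fun a => Subtype.ext (mem_centralizer_iff.mp a.2 _ hy).symm
        have hPc : (P : Subgroup G) ≤ CP := by
          have : IsCyclic ↥(P : Subgroup G) := isCyclic_of_prime_card hPcard
          have : IsMulCommutative ↥(P : Subgroup G) := ⟨⟨fun a b => IsCyclic.commGroup.mul_comm a b⟩⟩
          exact (P : Subgroup G).le_centralizer
        have hq : Nat.card (↥CP ⧸ center CP) = 1 ∨ Nat.card (↥CP ⧸ center CP) = 2 := by
          have h5 : 5 ∣ Nat.card (center CP) := by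
            have := card_dvd_of_le hle
            rwa [Nat.card_congr (subgroupOfEquivOfLe hPc).toEquiv, hPcard] at this
          have h10 := card_eq_card_quotient_mul_card_subgroup (center CP)
          rw [hC] at h10
          obtain ⟨k, hk⟩ := h5
          have hd : Nat.card (↥CP ⧸ center CP) ∣ 2 := ⟨k, by rw [hk] at h10; nlinarith⟩
          have := Nat.le_of_dvd (by norm_num) hd
          have := Nat.card_pos (α := ↥CP ⧸ center CP)
          omega
        have : IsCyclic (↥CP ⧸ center CP) := by
          rcases hq with hq | hq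
          · have := (Nat.card_eq_one_iff_unique.mp hq).1
            exact isCyclic_of_subsingleton
          · exact isCyclic_of_prime_card (p := 2) hq
        intro a ha b hb
        exact congrArg Subtype.val (commutative_of_cyclic_center_quotient (QuotientGroup.mk' (center CP))
          (QuotientGroup.ker_mk' _).le ⟨a, ha⟩ ⟨b, hb⟩)
      have huniq : ∀ x ∈ CP, orderOf x = 2 → x = u := by
        intro x hx hx2
        have hp : IsPGroup 2 ↥(zpowers u ⊔ zpowers x) :=
          (IsPGroup.of_card (n := 1) (by rw [Nat.card_zpowers, hu2, pow_one])).to_sup_of_normal_right'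
            (IsPGroup.of_card (n := 1) (by rw [Nat.card_zpowers, hx2, pow_one])) (zpowers_le.mpr
              (mem_normalizer_iff.mpr fun z => ⟨fun hz => by
                obtain ⟨i, rfl⟩ := mem_zpowers_iff.mp hz
                rw [hcomm u huC _ (CP.zpow_mem hx i), mul_inv_cancel_right]; exact hz, fun hz => by
                obtain ⟨i, hi⟩ := mem_zpowers_iff.mp hz
                have hzC : z = u⁻¹ * x ^ i * u := by rw [hi]; group
                rw [hzC, mul_assoc, ← hcomm u huC _ (CP.zpow_mem hx i), inv_mul_cancel_left]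
                exact zpow_mem_zpowers x i⟩))
        obtain ⟨k, hk⟩ := hp.exists_card_eq
        have hd := card_dvd_of_le (sup_le (zpowers_le.mpr huC) (zpowers_le.mpr hx) : zpowers u ⊔ zpowers x ≤ CP)
        rw [hk, hC] at hd
        have hk1 : k ≤ 1 := by
          by_contra hk2
          have h4 : 2 ^ 2 ∣ 5 * 2 := (pow_dvd_pow 2 (by omega : 2 ≤ k)).trans hd
          norm_num at h4
        have he : zpowers u = zpowers u ⊔ zpowers x := eq_of_le_of_card_ge le_sup_left (by
          rw [hk, Nat.card_zpowers, hu2]
          exact (Nat.pow_le_pow_right (by norm_num) hk1).trans (le_of_eq (pow_one 2)))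
        obtain ⟨i, hi⟩ := mem_zpowers_iff.mp (he.symm ▸ mem_sup_right (mem_zpowers x) : x ∈ zpowers u)
        have hu1 : u ^ i = u ^ (i % 2) := by rw [← zpow_mod_orderOf u i, hu2]; rfl
        rcases Int.emod_two_eq_zero_or_one i with h2 | h2 <;> rw [h2] at hu1
        · rw [hi, zpow_zero] at hu1
          rw [hu1, orderOf_one] at hx2
          exact absurd hx2 (by norm_num)
        · rw [← hi, hu1, zpow_one]
      have hNu : N ≤ centralizer ({u} : Set G) := by
        intro g hg
        rw [mem_centralizer_singleton]
        have hmem : g * u * g⁻¹ ∈ CP := mem_centralizer_iff.mpr fun y hy => by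
          have hy' : g⁻¹ * y * g ∈ (P : Subgroup G) := (mem_normalizer_iff''.mp hg y).mp hy
          calc y * (g * u * g⁻¹) = g * (g⁻¹ * y * g * u) * g⁻¹ := by group
            _ = g * (u * (g⁻¹ * y * g)) * g⁻¹ := by rw [mem_centralizer_iff.mp huC _ hy']
            _ = g * u * g⁻¹ * y := by group
        have he : g * u * g⁻¹ = u := huniq _ hmem (by
          rw [← hu2]; exact orderOf_injective (MulAut.conj g).toMonoidHom (MulAut.conj g).injective u)
        exact mul_inv_eq_iff_eq_mul.mp he
      have hCu : centralizer ({u} : Set G) = N := le_antisymm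
        (centralizer_le h P hn (hN.trans (by norm_num)) hu2
          (fun y hy => mem_centralizer_singleton.mpr (mem_centralizer_iff.mp huC y hy))
          (by rw [inf_of_le_left hNu, hN]; norm_num)) hNu
      have hf := card_fixedBy_centralizer_le u
      rw [hCu, card_fixedBy_cosets_normalizer] at hf
      -- at most eleven involutions in `N`
      have hinv : Nat.card {x : G // x ∈ N ∧ IsConj u x} ≤ 11 := by
        have hord : ∀ x, IsConj u x → orderOf x = 2 := fun x hx => by
          obtain ⟨g, rfl⟩ := isConj_iff.mp hx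
          exact (orderOf_injective (MulAut.conj g).toMonoidHom (MulAut.conj g).injective u).trans hu2
        obtain ⟨⟨y, hy⟩, hy5⟩ := exists_prime_orderOf_dvd_card' (G := ↥(P : Subgroup G)) 5 (dvd_of_eq hPcard.symm)
        have hy5' : orderOf y = 5 := (Subgroup.orderOf_coe _).trans hy5
        have hzy : zpowers y = (P : Subgroup G) := eq_of_le_of_card_ge (zpowers_le.mpr hy)
          (by rw [hPcard, Nat.card_zpowers, hy5'])
        have hconj : ∀ x ∈ N, orderOf x = 2 → x ∉ CP → x * y * x⁻¹ = y⁻¹ := by
          intro x hx hx2 hxC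
          have hm : x * y * x⁻¹ ∈ zpowers y := hzy ▸ (mem_normalizer_iff.mp hx y).mp hy
          obtain ⟨i, hi, hie⟩ : ∃ i < 5, y ^ i = x * y * x⁻¹ := by
            obtain ⟨i, hi⟩ := mem_zpowers_iff.mp hm
            refine ⟨(i % 5).toNat, ?_, ?_⟩
            · omega
            · rw [← zpow_natCast, Int.toNat_of_nonneg (Int.emod_nonneg _ (by norm_num)), ← hi,
                ← zpow_mod_orderOf y i, hy5']; rfl
          have hxx : x * x = 1 := by rw [← pow_two, ← hx2, pow_orderOf_eq_one]
          have h2 : y ^ (i * i) = y := by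
            rw [pow_mul, hie, conj_pow, hie]
            calc x * (x * y * x⁻¹) * x⁻¹ = (x * x) * y * (x * x)⁻¹ := by group
              _ = y := by rw [hxx]; group
          have h3 : i * i % 5 = 1 := by
            have h' : y ^ (i * i) = y ^ 1 := by rw [h2, pow_one]
            rw [pow_eq_pow_iff_modEq, hy5'] at h'
            exact h'
          interval_cases i
          · omega
          · exfalso
            rw [pow_one] at hie
            refine hxC (mem_centralizer_iff.mpr fun z hz => ?_)
            obtain ⟨j, rfl⟩ := mem_zpowers_iff.mp (hzy.symm ▸ hz : z ∈ zpowers y)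
            exact ((show Commute y x from (mul_inv_eq_iff_eq_mul.mp hie.symm).symm).zpow_left j).eq
          · omega
          · omega
          · rw [← hie]
            refine eq_inv_of_mul_eq_one_left ?_
            rw [← pow_succ, show 4 + 1 = orderOf y from hy5'.symm, pow_orderOf_eq_one]
        by_cases hex : ∃ x₀ ∈ N, orderOf x₀ = 2 ∧ x₀ ∉ CP
        · obtain ⟨x₀, hx₀, hx₀2, hx₀C⟩ := hex
          refine le_trans (Nat.card_le_card_of_injective
            (fun x : {x : G // x ∈ N ∧ IsConj u x} => if hxC : (x : G) ∈ CP then (none : Option CP) else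
              some ⟨x₀⁻¹ * (x : G), mem_centralizer_iff.mpr fun z hz => ?_⟩) ?_) ?_
          · obtain ⟨j, rfl⟩ := mem_zpowers_iff.mp (hzy.symm ▸ hz : z ∈ zpowers y)
            refine (Commute.zpow_left (show Commute y (x₀⁻¹ * (x : G)) from ?_) j).eq
            have ha := hconj x x.2.1 (hord _ x.2.2) hxC
            have hb := hconj x₀ hx₀ hx₀2 hx₀C
            show y * (x₀⁻¹ * (x : G)) = x₀⁻¹ * (x : G) * y
            calc y * (x₀⁻¹ * (x : G)) = x₀⁻¹ * (x₀ * y * x₀⁻¹) * x := by group
              _ = x₀⁻¹ * ((x : G) * y * (x : G)⁻¹) * x := by rw [ha, hb]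
              _ = x₀⁻¹ * (x : G) * y := by group
          · intro a b hab
            simp only at hab
            split_ifs at hab with ha hb hb
            · exact Subtype.ext ((huniq _ ha (hord _ a.2.2)).trans (huniq _ hb (hord _ b.2.2)).symm)
            · exact Subtype.ext (mul_left_cancel (congrArg Subtype.val (Option.some.inj hab)))
          · rw [Finite.card_option, hC]
        · push Not at hex
          refine le_trans (Finite.card_le_one_iff_subsingleton.mpr ⟨fun a b => Subtype.ext ?_⟩) (by norm_num)
          exact (huniq _ (hex a a.2.1 (hord _ a.2.2)) (hord _ a.2.2)).trans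
            (huniq _ (hex b b.2.1 (hord _ b.2.2)) (hord _ b.2.2)).symm
      have h5 : Nat.card (fixedBy (Sylow 5 G) u) % 5 = 1 := card_fixedBy_sylow_modEq_one P huC
      have h2 : 36 % 2 = Nat.card (fixedBy (Sylow 5 G) u) % 2 :=
        hn ▸ card_modEq_card_fixedBy (IsPGroup.of_card (n := 1) (by rw [Nat.card_zpowers, hu2, pow_one]))
      have h4 := four_dvd_moved (α := Sylow 5 G) hG (g := u) (hu2 ▸ pow_orderOf_eq_one u)
      rw [hn] at h4
      omega
  · rw [hn] at hprod
    rcases he4 with rfl | rfl <;> omega

/-- No finite simple group has order 1440 = 2^5 * 3^2 * 5. -/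
theorem result {G : Type*} [Group G] [Finite G] [IsSimpleGroup G] : Nat.card G ≠ 1440 := by
  exact fun h => key h

end Cfsg.Agent.S1016
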