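import Cfsg.Statements.S1026
import Cfsg.Agent.Lib.Chevalley.Unipotent

set_option autoImplicit false
open Cfsg

namespace Cfsg.Agent.S1026

/-- Every element of `U` has a unique expression `∏_{r ∈ Φ⁺} x_r(t_r)`, the product over the positive roots in increasing index order (the coefficient family `t`, supported on the positive roots, exists and is unique); and conversely every such ordered product is the matrix of an element of `U`. -/
theorem result {F : Type*} [Field F] (D : Cfsg.Lie.ChevalleyDatum) (hD : D ∈ [Cfsg.Lie.chevG2, Cfsg.Lie.chevB2, Cfsg.Lie.chevD4, Cfsg.Lie.chevF4, Cfsg.Lie.chevE6, Cfsg.Lie.chevE7, Cfsg.Lie.chevE8]) :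
    (∀ g : GL D.Idx F, g ∈ D.posUnipotent F →
      ∃! t : ℕ → F, (∀ r, ¬ D.IsPosRoot r → t r = 0) ∧
        (g : Matrix D.Idx D.Idx F) = D.wordMat F (D.posRoots.map fun r => (r, t r))) ∧
    (∀ t : ℕ → F, ∃ g : GL D.Idx F, g ∈ D.posUnipotent F ∧
      (g : Matrix D.Idx D.Idx F) = D.wordMat F (D.posRoots.map fun r => (r, t r))) := by
  obtain ⟨A, hS⟩ := CfsgLib.Chevalley.exists_std hD
  obtain ⟨hs, hset, -⟩ := hS.posList
  have hc : CfsgLib.Chevalley.IsClosedRoots D {r | r ∈ D.posRoots} := hset ▸ hS.isClosed_pos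
  have hU : D.posUnipotent F = CfsgLib.Chevalley.rootsU D F {r | r ∈ D.posRoots} := by
    rw [hset]; rfl
  have hmat : ∀ t : ℕ → F,
      ((CfsgLib.Chevalley.prodU hS.cert D.posRoots t : GL D.Idx F) : Matrix D.Idx D.Idx F) =
        D.wordMat F (D.posRoots.map fun r => (r, t r)) := fun t => by
    rw [CfsgLib.Chevalley.wordMat_eq_prod hS.cert, List.map_map]; rfl
  refine ⟨fun g hg => ?_, fun t => ⟨_, hU ▸ CfsgLib.Chevalley.prodU_mem hS.cert t, hmat t⟩⟩
  rw [hU] at hg
  obtain ⟨t, ht, rfl⟩ := CfsgLib.Chevalley.exists_prodU hS hs hc hg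
  have hmem : ∀ r, r ∈ D.posRoots ↔ D.IsPosRoot r := fun r => Set.ext_iff.1 hset r
  refine ⟨t, ⟨fun r hr => ht r fun h => hr ((hmem r).1 h), hmat t⟩, ?_⟩
  rintro t' ⟨h0, h⟩
  rw [← hmat t'] at h
  funext r
  by_cases hr : r ∈ D.posRoots
  · exact (CfsgLib.Chevalley.prodU_injOn hS hs hc (Units.ext h) r hr).symm
  · rw [h0 r (fun h => hr ((hmem r).2 h)), ht r hr]

end Cfsg.Agent.S1026
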