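import Cfsg.Statements.S1030
import Cfsg.Agent.Lib.Chevalley.SL2
import Cfsg.Agent.Lib.Chevalley.ExtraData

set_option autoImplicit false
open Cfsg

namespace Cfsg.Agent.S1030

/-- There is a homomorphism `SL₂(F) → GL` with image `⟨X_r, X_{-r}⟩` sending `[[1,t],[0,1]]` to `x_r(t)` and `[[1,0],[t,1]]` to `x_{-r}(t)`. -/
theorem result {F : Type*} [Field F] (D : Cfsg.Lie.ChevalleyDatum) (hD : D ∈ [Cfsg.Lie.chevG2, Cfsg.Lie.chevB2, Cfsg.Lie.chevD4, Cfsg.Lie.chevF4, Cfsg.Lie.chevE6, Cfsg.Lie.chevE7, Cfsg.Lie.chevE8]) (r : ℕ) (hr : r < D.nroots) :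
    ∃ φ : Matrix.SpecialLinearGroup (Fin 2) F →* GL D.Idx F,
      φ.range = D.rootSubgroup F r ⊔ D.rootSubgroup F (D.neg r) ∧
      ∀ (g : Matrix.SpecialLinearGroup (Fin 2) F) (t : F),
        ((g : Matrix (Fin 2) (Fin 2) F) = !![1, t; 0, 1] → ((φ g : GL D.Idx F) : Matrix D.Idx D.Idx F) = D.x F r t) ∧
        ((g : Matrix (Fin 2) (Fin 2) F) = !![1, 0; t, 1] → ((φ g : GL D.Idx F) : Matrix D.Idx D.Idx F) = D.x F (D.neg r) t) := by
  classical
  obtain ⟨A, h⟩ := CfsgLib.Chevalley.exists_full hD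
  have R : CfsgLib.Chevalley.SLRel (fun t : F => CfsgLib.Chevalley.xG h.cert r t)
      (fun t : F => CfsgLib.Chevalley.xG h.cert (D.neg r) t) :=
    CfsgLib.Chevalley.slRel_root (F := F) h ⟨r, hr⟩
  refine ⟨R.hom, le_antisymm ?_ (sup_le ?_ ?_), fun g t => ⟨fun hg => ?_, fun hg => ?_⟩⟩
  · rintro _ ⟨g, rfl⟩
    have hx : ∀ t, CfsgLib.Chevalley.xG h.cert r t ∈ D.rootSubgroup F r ⊔ D.rootSubgroup F (D.neg r) :=
      fun t => Subgroup.mem_sup_left (CfsgLib.Chevalley.xG_mem_rootSubgroup h.cert r t)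
    have hy : ∀ t, CfsgLib.Chevalley.xG h.cert (D.neg r) t ∈
        D.rootSubgroup F r ⊔ D.rootSubgroup F (D.neg r) :=
      fun t => Subgroup.mem_sup_right (CfsgLib.Chevalley.xG_mem_rootSubgroup h.cert (D.neg r) t)
    show CfsgLib.Chevalley.slFun (F := F) _ _ g ∈ _
    unfold CfsgLib.Chevalley.slFun CfsgLib.Chevalley.slH CfsgLib.Chevalley.slN
    split_ifs
    · exact mul_mem (mul_mem (mul_mem (mul_mem (hx _) (hy _)) (hx _))
        (mul_mem (mul_mem (hx _) (hy _)) (hx _))) (hx _)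
    · exact mul_mem (mul_mem (hx _) (mul_mem (mul_mem (hx _) (hy _)) (hx _))) (hx _)
  · intro g hg
    obtain ⟨t, rfl⟩ := (CfsgLib.Chevalley.mem_rootSubgroup_iff h.cert).1 hg
    refine ⟨CfsgLib.Chevalley.slX t, ?_⟩
    show CfsgLib.Chevalley.slFun (F := F) _ _ _ = _
    simp [CfsgLib.Chevalley.slFun, R.h_one]
  · intro g hg
    obtain ⟨t, rfl⟩ := (CfsgLib.Chevalley.mem_rootSubgroup_iff h.cert).1 hg
    refine ⟨CfsgLib.Chevalley.slY t, ?_⟩
    have hW : R.hom CfsgLib.Chevalley.slW = CfsgLib.Chevalley.slN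
        (fun t : F => CfsgLib.Chevalley.xG h.cert r t)
        (fun t : F => CfsgLib.Chevalley.xG h.cert (D.neg r) t) 1 := by
      show CfsgLib.Chevalley.slFun (F := F) _ _ _ = _
      simp [CfsgLib.Chevalley.slFun, R.x_zero]
    have hX : ∀ s : F, R.hom (CfsgLib.Chevalley.slX s) = CfsgLib.Chevalley.xG h.cert r s := fun s => by
      show CfsgLib.Chevalley.slFun (F := F) _ _ _ = _
      simp [CfsgLib.Chevalley.slFun, R.h_one]
    have hW4 : R.hom CfsgLib.Chevalley.slW * (R.hom CfsgLib.Chevalley.slW * R.hom CfsgLib.Chevalley.slW *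
        R.hom CfsgLib.Chevalley.slW) = 1 := by
      rw [← map_mul, ← map_mul, ← map_mul, show CfsgLib.Chevalley.slW * (CfsgLib.Chevalley.slW *
        CfsgLib.Chevalley.slW * CfsgLib.Chevalley.slW) = (1 : Matrix.SpecialLinearGroup (Fin 2) F) by
          apply Subtype.ext
          simp only [CfsgLib.Chevalley.slW_coe, Matrix.SpecialLinearGroup.coe_mul,
            Matrix.SpecialLinearGroup.coe_one]
          ext i j
          fin_cases i <;> fin_cases j <;> simp [Matrix.mul_apply, Fin.sum_univ_two], map_one]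
    rw [CfsgLib.Chevalley.slY_eq, map_mul, map_mul, map_mul, map_mul, hX,
      eq_inv_of_mul_eq_one_right hW4, hW, R.conjx 1 (-t) one_ne_zero]
    simp
  · show ((CfsgLib.Chevalley.slFun (F := F) _ _ g : GL D.Idx F) : Matrix D.Idx D.Idx F) = _
    simp [CfsgLib.Chevalley.slFun, hg, R.h_one]
  · have e : g = CfsgLib.Chevalley.slY t := Subtype.ext hg
    show ((CfsgLib.Chevalley.slFun (F := F) _ _ g : GL D.Idx F) : Matrix D.Idx D.Idx F) = _
    by_cases ht : t = 0
    · subst ht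
      simp [CfsgLib.Chevalley.slFun, hg, R.h_one, R.x_zero,
        CfsgLib.Chevalley.x_zero h.cert (D.neg r)]
    · have h1 := R.n_alt (-t⁻¹) (neg_ne_zero.2 (inv_ne_zero ht))
      rw [inv_neg, inv_inv, neg_neg] at h1
      simp only [CfsgLib.Chevalley.slFun, hg]
      simp only [Matrix.of_apply, Matrix.cons_val', Matrix.cons_val_zero, Matrix.cons_val_one,
        Matrix.empty_val', Matrix.cons_val_fin_one, if_neg ht]
      have key : CfsgLib.Chevalley.xG h.cert r (1 / t) *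
          CfsgLib.Chevalley.slN (fun t : F => CfsgLib.Chevalley.xG h.cert r t)
            (fun t : F => CfsgLib.Chevalley.xG h.cert (D.neg r) t) (-t⁻¹) *
          CfsgLib.Chevalley.xG h.cert r (1 / t) = CfsgLib.Chevalley.xG h.cert (D.neg r) t := by
        have hx := R.x_neg t⁻¹
        simp only [CfsgLib.Chevalley.slN, inv_neg, inv_inv, neg_neg, one_div] at hx ⊢
        rw [hx]
        group
      exact congrArg Units.val key

end Cfsg.Agent.S1030
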