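import Cfsg.Statements.S1034
import Cfsg.Agent.Lib.Chevalley.Weyl
import Cfsg.Agent.Lib.Chevalley.ExtraData

set_option autoImplicit false
open Cfsg

namespace Cfsg.Agent.S1034

/-- Every element of `H` is a product `h_{p_1}(c_1) ⋯ h_{p_l}(c_l)` over the fundamental roots, with non-zero `c_i`. -/
theorem result {F : Type*} [Field F] (D : Cfsg.Lie.ChevalleyDatum) (hD : D ∈ [Cfsg.Lie.chevG2, Cfsg.Lie.chevB2, Cfsg.Lie.chevD4, Cfsg.Lie.chevF4, Cfsg.Lie.chevE6, Cfsg.Lie.chevE7, Cfsg.Lie.chevE8]) (g : GL D.Idx F) (hg : g ∈ D.diagonalSubgroup F) :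
    ∃ c : ℕ → F, (∀ i < D.rank, c i ≠ 0) ∧
      (g : Matrix D.Idx D.Idx F) = D.wordMat F ((List.range D.rank).flatMap fun i => D.hWord (D.simple i) (c i)) := by
  obtain ⟨A, h⟩ := CfsgLib.Chevalley.exists_full hD
  rw [CfsgLib.Chevalley.diagonalSubgroup_eq_range h] at hg
  obtain ⟨c, rfl⟩ := hg
  classical
  refine ⟨fun i => if hi : i < D.rank then (c ⟨i, hi⟩ : F) else 1,
    fun i hi => by simp only [dif_pos hi]; exact (c ⟨i, hi⟩).ne_zero, ?_⟩
  have key : ∀ n ≤ D.rank,
      D.wordMat F ((List.range n).flatMap fun i =>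
        D.hWord (D.simple i) (if hi : i < D.rank then (c ⟨i, hi⟩ : F) else 1)) =
      ((CfsgLib.Chevalley.torusHom D F (fun j => if (j : ℕ) < n then c j else 1) : GL D.Idx F) :
        Matrix D.Idx D.Idx F) := by
    intro n
    induction n with
    | zero =>
      intro _
      rw [show (fun j : Fin D.rank => if (j : ℕ) < 0 then c j else 1) = 1 from
        funext fun j => if_neg (Nat.not_lt_zero _), map_one]
      simp [Cfsg.Lie.ChevalleyDatum.wordMat]
    | succ n ih =>
      intro hn
      have e : (fun j : Fin D.rank => if (j : ℕ) < n + 1 then c j else 1) =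
          (fun j : Fin D.rank => if (j : ℕ) < n then c j else 1) *
            Pi.mulSingle ⟨n, hn⟩ (c ⟨n, hn⟩) := by
        funext j
        by_cases hj : j = ⟨n, hn⟩
        · subst hj; simp
        · have : (j : ℕ) ≠ n := fun e => hj (Fin.ext e)
          rw [Pi.mul_apply, Pi.mulSingle_eq_of_ne hj, mul_one]
          exact if_congr (by omega) rfl rfl
      rw [List.range_succ, List.flatMap_append, e, map_mul,
        CfsgLib.Chevalley.torusHom_mulSingle h.cert, Units.val_mul, CfsgLib.Chevalley.coe_hG,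
        ← ih (Nat.le_of_lt hn)]
      simp only [Cfsg.Lie.ChevalleyDatum.wordMat, List.map_append, List.prod_append,
        List.flatMap_cons, List.flatMap_nil, List.append_nil, dif_pos (show n < D.rank from hn),
        Cfsg.Lie.ChevalleyDatum.hMat]
  rw [key D.rank le_rfl]
  congr 2
  funext j
  rw [if_pos j.isLt]

end Cfsg.Agent.S1034
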