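import Cfsg.Statements.S1039
import Cfsg.Agent.Lib.Chevalley.WeylIso
import Cfsg.Agent.Lib.Chevalley.ExtraData
import Cfsg.Agent.Lib.Twisted.CoxeterB2
import Cfsg.Agent.Lib.Twisted.CoxeterG2
import Cfsg.Agent.Lib.Twisted.CoxeterD4
import Cfsg.Agent.Lib.Twisted.CoxeterF4
import Cfsg.Agent.Lib.Twisted.CoxeterE6
import Cfsg.Agent.Lib.Twisted.CoxeterE7
import Cfsg.Agent.Lib.Twisted.CoxeterE8


set_option autoImplicit false
open Cfsg

namespace Cfsg.Agent.S1039

/-- `N/H ≅ W`: there is a surjective homomorphism from `N` onto the Coxeter group of the type (Mathlib's Coxeter matrix G₂, B₂, F₄, E₆, E₇, E₈, nodes numbered as the fundamental roots) with kernel `H`, mapping each `n_{p_i}` to the `i`-th simple reflection. -/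
theorem result {F : Type*} [Field F]
    (p : Cfsg.Lie.ChevalleyDatum × (Σ n : ℕ, CoxeterMatrix (Fin n)))
    (hp : p ∈ [(Cfsg.Lie.chevG2, ⟨2, CoxeterMatrix.G₂⟩), (Cfsg.Lie.chevB2, ⟨2, CoxeterMatrix.B 2⟩), (Cfsg.Lie.chevD4, ⟨4, Cfsg.Lie.coxeterD4⟩), (Cfsg.Lie.chevF4, ⟨4, CoxeterMatrix.F₄⟩),
      (Cfsg.Lie.chevE6, ⟨6, CoxeterMatrix.E₆⟩), (Cfsg.Lie.chevE7, ⟨7, CoxeterMatrix.E₇⟩), (Cfsg.Lie.chevE8, ⟨8, CoxeterMatrix.E₈⟩)]) :
    ∃ φ : ↥(p.1.monomialSubgroup F) →* p.2.2.Group, Function.Surjective φ ∧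
      φ.ker = (p.1.diagonalSubgroup F).subgroupOf (p.1.monomialSubgroup F) ∧
      ∀ (i : Fin p.2.1) (g : ↥(p.1.monomialSubgroup F)),
        ((g : GL p.1.Idx F) : Matrix p.1.Idx p.1.Idx F) = p.1.nMat F (p.1.simple i) 1 → φ g = p.2.2.simple i := by
  obtain ⟨A, h⟩ : ∃ A, CfsgLib.Chevalley.Full p.1 A := CfsgLib.Chevalley.exists_full (by
    simp only [List.mem_cons, List.not_mem_nil, or_false] at hp ⊢
    rcases hp with rfl | rfl | rfl | rfl | rfl | rfl | rfl <;> simp)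
  simp only [List.mem_cons, List.not_mem_nil, or_false] at hp
  rcases hp with rfl | rfl | rfl | rfl | rfl | rfl | rfl
  · exact CfsgLib.Chevalley.monomial_quot_equiv h (by decide +kernel) CfsgLib.Twisted.Cox.towerG2
  · exact CfsgLib.Chevalley.monomial_quot_equiv h (by decide +kernel) CfsgLib.Twisted.Cox.towerB2
  · exact CfsgLib.Chevalley.monomial_quot_equiv h (by decide +kernel) CfsgLib.Twisted.Cox.towerD4
  · exact CfsgLib.Chevalley.monomial_quot_equiv h (by decide +kernel) CfsgLib.Twisted.Cox.towerF4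
  · exact CfsgLib.Chevalley.monomial_quot_equiv h (by decide +kernel) CfsgLib.Twisted.Cox.towerE6
  · exact CfsgLib.Chevalley.monomial_quot_equiv h (by decide +kernel) CfsgLib.Twisted.Cox.towerE7
  · exact CfsgLib.Chevalley.monomial_quot_equiv h (by decide +kernel) CfsgLib.Twisted.Cox.towerE8

end Cfsg.Agent.S1039
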