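import Cfsg.Statements.S1044
import Cfsg.Agent.Lib.Chevalley.Core
import Cfsg.Agent.Lib.Chevalley.ExtraData

set_option autoImplicit false
open Cfsg

namespace Cfsg.Agent.S1044

/-- For a fundamental root `p` the set `B ∪ B n_p B` is (the carrier of) a subgroup of the general linear group. -/
theorem result {F : Type*} [Field F] (D : Cfsg.Lie.ChevalleyDatum) (hD : D ∈ [Cfsg.Lie.chevG2, Cfsg.Lie.chevB2, Cfsg.Lie.chevD4, Cfsg.Lie.chevF4, Cfsg.Lie.chevE6, Cfsg.Lie.chevE7, Cfsg.Lie.chevE8]) (i : ℕ) (hi : i < D.rank) (n : GL D.Idx F)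
    (hn : (n : Matrix D.Idx D.Idx F) = D.nMat F (D.simple i) 1) :
    ∃ P : Subgroup (GL D.Idx F), (P : Set (GL D.Idx F)) =
      (D.borelSubgroup F : Set (GL D.Idx F)) ∪ DoubleCoset.doubleCoset n (D.borelSubgroup F : Set (GL D.Idx F)) (D.borelSubgroup F) := by
  obtain ⟨A, h⟩ := CfsgLib.Chevalley.exists_full hD
  obtain rfl : n = CfsgLib.Chevalley.nG h.cert (D.simple i) 1 :=
    Units.ext (hn.trans (CfsgLib.Chevalley.coe_nG h.cert _ _).symm)
  set s := CfsgLib.Chevalley.nG h.cert (D.simple i) (1 : F) with hs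
  set B := D.borelSubgroup F
  have hsq : s * s ∈ B := Subgroup.mem_sup_right (CfsgLib.Chevalley.nG_simple_sq h ⟨i, hi⟩)
  have hsinv : s⁻¹ = s * (s * s)⁻¹ := by group
  have hmid : ∀ b ∈ B, s * b * s ∈ B ∨ s * b * s ∈ DoubleCoset.doubleCoset s (B : Set (GL D.Idx F)) B := by
    intro b hb
    obtain ⟨u, hu, t, ht, rfl⟩ := (CfsgLib.Chevalley.mem_borel_iff h).1 hb
    have hn := CfsgLib.Chevalley.nG_simple_mem_monomial (F := F) h ⟨i, hi⟩
    have hw : s⁻¹ * t * s ∈ B := by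
      have := CfsgLib.Chevalley.monomial_conj_diagonal h (Subgroup.inv_mem _ hn) ht
      rw [inv_inv] at this
      exact Subgroup.mem_sup_right this
    obtain ⟨x, hx, y, hy, h1⟩ := CfsgLib.Chevalley.rank_one_step h ⟨i, hi⟩ hu hn
    have e : s * (u * t) * s = s * u * s * (s⁻¹ * t * s) := by group
    rcases h1 with h1 | h1
    · left
      rw [e]
      exact Subgroup.mul_mem _ (h1 ▸ Subgroup.mul_mem _ (Subgroup.mul_mem _ hx hsq) hy) hw
    · right
      rw [e, DoubleCoset.mem_doubleCoset]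
      exact ⟨x, hx, y * (s⁻¹ * t * s), Subgroup.mul_mem _ hy hw,
        (congrArg (· * (s⁻¹ * t * s)) h1).trans (mul_assoc _ _ _)⟩
  refine ⟨{ carrier := (B : Set (GL D.Idx F)) ∪ DoubleCoset.doubleCoset s (B : Set (GL D.Idx F)) B
            one_mem' := Or.inl (Subgroup.one_mem _)
            mul_mem' := ?_
            inv_mem' := ?_ }, rfl⟩
  · intro a b ha hb
    rcases ha with ha | ha <;> rcases hb with hb | hb
    · exact Or.inl (Subgroup.mul_mem _ ha hb)
    · obtain ⟨x, hx, y, hy, rfl⟩ := DoubleCoset.mem_doubleCoset.1 hb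
      exact Or.inr (DoubleCoset.mem_doubleCoset.2 ⟨a * x, Subgroup.mul_mem _ ha hx, y, hy, by group⟩)
    · obtain ⟨x, hx, y, hy, rfl⟩ := DoubleCoset.mem_doubleCoset.1 ha
      exact Or.inr (DoubleCoset.mem_doubleCoset.2 ⟨x, hx, y * b, Subgroup.mul_mem _ hy hb, by group⟩)
    · obtain ⟨x, hx, y, hy, rfl⟩ := DoubleCoset.mem_doubleCoset.1 ha
      obtain ⟨x', hx', y', hy', rfl⟩ := DoubleCoset.mem_doubleCoset.1 hb
      rw [show x * s * y * (x' * s * y') = x * (s * (y * x') * s) * y' by group]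
      rcases hmid _ (Subgroup.mul_mem _ hy hx') with h1 | h1
      · exact Or.inl (Subgroup.mul_mem _ (Subgroup.mul_mem _ hx h1) hy')
      · obtain ⟨z, hz, w, hw, e⟩ := DoubleCoset.mem_doubleCoset.1 h1
        rw [e]
        exact Or.inr (DoubleCoset.mem_doubleCoset.2
          ⟨x * z, Subgroup.mul_mem _ hx hz, w * y', Subgroup.mul_mem _ hw hy', by group⟩)
  · intro a ha
    rcases ha with ha | ha
    · exact Or.inl (Subgroup.inv_mem _ ha)
    · obtain ⟨x, hx, y, hy, rfl⟩ := DoubleCoset.mem_doubleCoset.1 ha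
      refine Or.inr (DoubleCoset.mem_doubleCoset.2
        ⟨y⁻¹, Subgroup.inv_mem _ hy, (s * s)⁻¹ * x⁻¹,
          Subgroup.mul_mem _ (Subgroup.inv_mem _ hsq) (Subgroup.inv_mem _ hx), ?_⟩)
      group

end Cfsg.Agent.S1044
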