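import Cfsg.Statements.S1045
import Cfsg.Agent.Lib.Chevalley.Generation
import Cfsg.Agent.Lib.Chevalley.ExtraData

set_option autoImplicit false
open Cfsg

namespace Cfsg.Agent.S1045

/-- For a fundamental root `p`, the subgroup `U_p` generated by the `X_s`, `s` positive and `s ≠ p`, is normalised by `X_p` and `X_{-p}`, and `U = U_p ⊔ X_p`. -/
theorem result {F : Type*} [Field F] (D : Cfsg.Lie.ChevalleyDatum) (hD : D ∈ [Cfsg.Lie.chevG2, Cfsg.Lie.chevB2, Cfsg.Lie.chevD4, Cfsg.Lie.chevF4, Cfsg.Lie.chevE6, Cfsg.Lie.chevE7, Cfsg.Lie.chevE8]) (i : ℕ) (hi : i < D.rank) :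
    D.rootSubgroup F (D.simple i) ⊔ D.rootSubgroup F (D.neg (D.simple i)) ≤
        Subgroup.normalizer (Subgroup.closure {g : GL D.Idx F | ∃ (s : ℕ) (t : F), D.IsPosRoot s ∧ s ≠ D.simple i ∧
          (g : Matrix D.Idx D.Idx F) = D.x F s t} : Set (GL D.Idx F)) ∧
      Subgroup.closure {g : GL D.Idx F | ∃ (s : ℕ) (t : F), D.IsPosRoot s ∧ s ≠ D.simple i ∧
          (g : Matrix D.Idx D.Idx F) = D.x F s t} ⊔ D.rootSubgroup F (D.simple i) = D.posUnipotent F := by
  obtain ⟨A, h⟩ := CfsgLib.Chevalley.exists_full hD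
  rw [CfsgLib.Chevalley.Up_eq]
  have key : ∀ r, r = D.simple i ∨ r = D.neg (D.simple i) →
      D.rootSubgroup F r ≤ Subgroup.normalizer
        (CfsgLib.Chevalley.rootsU D F (CfsgLib.Chevalley.posButSimple D i) : Set (GL D.Idx F)) := by
    intro r hr
    refine CfsgLib.Chevalley.le_normalizer_of_conj_mem fun g hg => ?_
    obtain ⟨t, rfl⟩ := (CfsgLib.Chevalley.mem_rootSubgroup_iff h.cert).1 hg
    refine CfsgLib.Chevalley.xG_conj_rootsU h.toStd ?_ (fun s hs => hs.1.1)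
      (h.posButSimple_absorb hi hr) t
    rcases hr with rfl | rfl
    · exact h.cert.wf.simple_lt i hi
    · exact h.cert.wf.neg_lt _ (h.cert.wf.simple_lt i hi)
  refine ⟨sup_le (key _ (Or.inl rfl)) (key _ (Or.inr rfl)), le_antisymm (sup_le ?_ ?_) ?_⟩
  · rw [CfsgLib.Chevalley.posUnipotent_eq]
    exact CfsgLib.Chevalley.rootsU_mono fun s hs => hs.1
  · intro g hg
    obtain ⟨t, rfl⟩ := (CfsgLib.Chevalley.mem_rootSubgroup_iff h.cert).1 hg
    exact CfsgLib.Chevalley.xG_mem_rootsU (S := {r | D.IsPosRoot r}) h.cert (h.simple_pos hi) t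
  · intro g hg
    obtain ⟨t, v, hv, rfl⟩ := CfsgLib.Chevalley.exists_split_simple h hi hg
    exact Subgroup.mul_mem _
      (Subgroup.mem_sup_right (CfsgLib.Chevalley.xG_mem_rootSubgroup h.cert _ t))
      (Subgroup.mem_sup_left hv)

end Cfsg.Agent.S1045
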