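import Cfsg.Statements.S1061
import Cfsg.Agent.Lib.Chevalley.OrderD4

set_option autoImplicit false
open Cfsg

namespace Cfsg.Agent.S1061

/-- `gcd(2, q-1)² · |D₄(q)| = q¹² (q² - 1)(q⁴ - 1)(q⁴ - 1)(q⁶ - 1)`. -/
theorem result {F : Type*} [Field F] [Fintype F] {q : ℕ} (hq : Fintype.card F = q) : Nat.gcd 2 (q - 1) ^ 2 * Nat.card ↥(Cfsg.Lie.chevD4.group F) = q ^ 12 * (q ^ 2 - 1) * (q ^ 4 - 1) * (q ^ 4 - 1) * (q ^ 6 - 1) := by
  subst hq
  have h := CfsgLib.Chevalley.cardD4 (F := F)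
  rw [Nat.gcd_comm]
  simp only [List.map_cons, List.map_nil, List.prod_cons, List.prod_nil, mul_one, one_mul] at h
  rw [pow_two]
  rw [h, show Cfsg.Lie.chevD4.nroots / 2 = 12 from rfl]
  simp only [mul_assoc]

end Cfsg.Agent.S1061
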