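import Cfsg.Statements.S1079
import Cfsg.Agent.Lib.SteinbergPres.RepE6
import Cfsg.Agent.Lib.SteinbergPres.RepE7

set_option autoImplicit false
open Cfsg

namespace Cfsg.Agent.S1079

/-- `|Z(Ḡ)| = gcd(3, q-1)` for E₆ and `gcd(2, q-1)` for E₇ over a field with `q` elements (the centre is dual to the weight lattice modulo the root lattice). -/
theorem result {K : Type*} [Field K] [Fintype K] {q : ℕ} (hq : Fintype.card K = q)
    (p : Cfsg.Lie.ChevalleyDatum × ℕ) (hp : p ∈ [(Cfsg.Lie.chevE6, 3), (Cfsg.Lie.chevE7, 2)]) :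
    Nat.card (Subgroup.center (p.1.SteinbergGroup K)) = Nat.gcd p.2 (q - 1) := by
  subst hq
  have hmem : p.1 ∈ [Cfsg.Lie.chevG2, Cfsg.Lie.chevB2, Cfsg.Lie.chevD4, Cfsg.Lie.chevF4, Cfsg.Lie.chevE6,
      Cfsg.Lie.chevE7, Cfsg.Lie.chevE8] := by
    simp only [List.mem_cons, List.not_mem_nil, or_false] at hp ⊢
    rcases hp with rfl | rfl <;> simp
  obtain ⟨A, h⟩ := CfsgLib.Chevalley.exists_full hmem
  simp only [List.mem_cons, List.not_mem_nil, or_false] at hp
  rcases hp with rfl | rfl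
  exacts [CfsgLib.SteinbergPres.cardCenterE6 h K, CfsgLib.SteinbergPres.cardCenterE7 h K]

end Cfsg.Agent.S1079
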