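import Cfsg.Statements.S1080
import Cfsg.Agent.Eqn.Chevalley

set_option autoImplicit false
open Cfsg

namespace Cfsg.Agent.S1080

theorem xMat_map {F : Type*} [Field F] (D : Cfsg.Lie.ChevalleyDatum) (f : F ≃+* F) (r : Fin D.nroots) (t : F) :
    (D.xMat F r t).map f = D.xMat F r (f t) := by
  ext i k
  simp only [Matrix.map_apply, Cfsg.Lie.ChevalleyDatum.xMat, Matrix.of_apply]
  rcases k with j | s <;> rcases i with i | v <;> dsimp only <;> split_ifs <;>
    simp [map_list_sum, List.map_map, Function.comp_def]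

/-- the entrywise map of `f` on invertible matrices -/
def glMap {F : Type*} [Field F] (D : Cfsg.Lie.ChevalleyDatum) (f : F ≃+* F) : GL D.Idx F ≃* GL D.Idx F :=
  Units.mapEquiv f.mapMatrix.toMulEquiv

theorem glMap_val {F : Type*} [Field F] (D : Cfsg.Lie.ChevalleyDatum) (f : F ≃+* F) (g : GL D.Idx F) :
    (glMap D f g : Matrix D.Idx D.Idx F) = (g : Matrix D.Idx D.Idx F).map f := rfl

theorem map_group_le {F : Type*} [Field F] (D : Cfsg.Lie.ChevalleyDatum) (f : F ≃+* F) :
    (D.group F).map (glMap D f).toMonoidHom ≤ D.group F := by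
  rw [Cfsg.Lie.ChevalleyDatum.group, MonoidHom.map_closure, Subgroup.closure_le]
  rintro _ ⟨g, ⟨r, t, hg⟩, rfl⟩
  exact Subgroup.subset_closure ⟨r, f t, by rw [MulEquiv.coe_toMonoidHom, glMap_val, hg, xMat_map]⟩

theorem map_group_eq {F : Type*} [Field F] (D : Cfsg.Lie.ChevalleyDatum) (f : F ≃+* F) :
    (D.group F).map (glMap D f).toMonoidHom = D.group F := by
  refine le_antisymm (map_group_le D f) fun g hg => ?_
  refine ⟨glMap D f.symm g, map_group_le D f.symm ⟨g, hg, rfl⟩, ?_⟩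
  apply Units.ext
  ext i k
  simp [MulEquiv.coe_toMonoidHom, glMap_val]

/-- Field automorphisms: for every field automorphism `f` there is a group automorphism sending each `x_r(t)` to `x_r(f t)`. -/
theorem result {F : Type*} [Field F] (D : Cfsg.Lie.ChevalleyDatum) (hD : D ∈ [Cfsg.Lie.chevG2, Cfsg.Lie.chevB2, Cfsg.Lie.chevD4, Cfsg.Lie.chevF4, Cfsg.Lie.chevE6, Cfsg.Lie.chevE7, Cfsg.Lie.chevE8]) (f : F ≃+* F) :
    ∃ α : ↥(D.group F) ≃* ↥(D.group F), ∀ (g : ↥(D.group F)) (r : ℕ) (t : F), r < D.nroots →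
      ((g : GL D.Idx F) : Matrix D.Idx D.Idx F) = D.x F r t → ((α g : GL D.Idx F) : Matrix D.Idx D.Idx F) = D.x F r (f t) := by
  refine ⟨((glMap D f).subgroupMap (D.group F)).trans (MulEquiv.subgroupCongr (map_group_eq D f)), ?_⟩
  intro g r t hr hg
  show (glMap D f (g : GL D.Idx F) : Matrix D.Idx D.Idx F) = _
  rw [glMap_val, hg, Cfsg.Lie.ChevalleyDatum.x, dif_pos hr, Cfsg.Lie.ChevalleyDatum.x, dif_pos hr, xMat_map]

end Cfsg.Agent.S1080
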