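import Cfsg.Statements.S1084
import Cfsg.Agent.Lib.Chevalley.E6Cubic.Adjoint

set_option autoImplicit false
open Cfsg

namespace Cfsg.Agent.S1084

/-- E₆ via the 27-dimensional cubic form: for a finite field with at least three elements, (isometries of the cubic form) / centre ≅ the Chevalley group E₆(F). -/
theorem result {F : Type*} [Field F] [Fintype F] (hF : 3 ≤ Fintype.card F) : Nonempty (Cfsg.Lie.E6 F ≃* ↥(Cfsg.Lie.chevE6.group F)) := by
  classical
  refine CfsgLib.Chevalley.E6Cubic.nonempty_equiv ?_
  obtain ⟨s, hs⟩ : ∃ s, s ∈ ((Finset.univ.erase (0 : F)).erase 1) := by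
    refine Finset.card_pos.1 ?_
    rw [Finset.card_erase_of_mem (by simp), Finset.card_erase_of_mem (Finset.mem_univ _), Finset.card_univ]
    omega
  simp only [Finset.mem_erase] at hs
  exact ⟨s, hs.2.1, hs.1⟩

end Cfsg.Agent.S1084
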