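import Cfsg.Statements.S1095
import Cfsg.Agent.Lib.Twisted.RootData

set_option autoImplicit false
open Cfsg

namespace Cfsg.Agent.S1095

/-- `n_p` (p = p_{i+1} fundamental) is the signed monomial matrix `h_{p_j} ↦ h_{p_j} - A_{p_j,p} h_p`, `e_s ↦ η_s e_{w_p(s)}`, with `η_s = ±1`, `η_p = η_{-p} = -1`, `η_s η_{w_p(s)} = (-1)^{A_{p,s}}`, `η_s η_{-s} = 1`. -/
theorem result {F : Type*} [Field F] (D : Cfsg.Lie.ChevalleyDatum) (hD : D ∈ [Cfsg.Lie.chevG2, Cfsg.Lie.chevB2, Cfsg.Lie.chevD4, Cfsg.Lie.chevF4, Cfsg.Lie.chevE6, Cfsg.Lie.chevE7, Cfsg.Lie.chevE8]) (i : ℕ) (hi : i < D.rank) :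
    ∃ η : ℕ → ℤ, (∀ s < D.nroots, η s = 1 ∨ η s = -1) ∧ η (D.simple i) = -1 ∧ η (D.neg (D.simple i)) = -1 ∧
      (∀ s < D.nroots, η s * η (D.reflectRoot i s) = (-1) ^ (D.cartan i s).natAbs ∧ η s * η (D.neg s) = 1) ∧
      D.nMat F (D.simple i) 1 = Matrix.of (fun (row col : D.Idx) =>
        Sum.elim
          (fun j' : Fin D.rank => Sum.elim
            (fun j : Fin D.rank => (if j' = j then (1 : F) else 0) - (if (j' : ℕ) = i then ((D.cartan j (D.simple i) : ℤ) : F) else 0))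
            (fun _ => (0 : F)) col)
          (fun s' : Fin D.nroots => Sum.elim
            (fun _ => (0 : F))
            (fun s : Fin D.nroots => if (s' : ℕ) = D.reflectRoot i s then ((η s : ℤ) : F) else 0) col)
          row) := by
  obtain ⟨_, _, σ, η, _, _, C⟩ := CfsgLib.Twisted.hasRootCert_of_mem hD
  have hA := C.isAut hi
  have hp := C.simple_lt hi
  have spec := CfsgLib.Twisted.checkSimple_spec (C.simple i hi)
  have href := spec.2.2.2.2.2.2.2.2.2.1
  have heta := spec.2.2.2.2.2.2.2.2.2.2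
  refine ⟨η i, hA.sign, heta, by rw [hA.sign_neg _ hp, heta], fun s hs => ⟨?_, ?_⟩, ?_⟩
  · rw [(href s hs).1, (href s hs).2]
    split
    · next h => rw [Even.neg_one_pow (Nat.even_iff.2 h)]
    · next h => rw [Odd.neg_one_pow (Nat.odd_iff.2 (by omega))]
  · rw [hA.sign_neg s hs]
    rcases hA.sign s hs with h | h <;> rw [h] <;> rfl
  · rw [CfsgLib.Twisted.nMat_simple (C.simple i hi)]
    ext row col
    rcases row with k | v <;> rcases col with j | s <;>
      simp only [CfsgLib.Twisted.autMat, Matrix.of_apply, Sum.elim_inl, Sum.elim_inr]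
    · simp only [CfsgLib.Twisted.reflN, Int.cast_sub, Int.cast_ite, Int.cast_one, Int.cast_zero,
        ← Fin.ext_iff]
    · rw [(href s s.isLt).1]

end Cfsg.Agent.S1095
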