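import Cfsg.Statements.S1100
import Cfsg.Agent.Lib.Chevalley.Bruhat
import Cfsg.Agent.Lib.Chevalley.ExtraData

set_option autoImplicit false
open Cfsg

namespace Cfsg.Agent.S1100

/-- Canonical form `g = b n_w u` (`b ∈ B`, `u ∈ U_w⁻ = ⟨X_r : r > 0, n_w X_r n_w⁻¹ ≤ V⟩`): such a decomposition exists for every element of the group; the coset `n_w H` is determined by `g`; and for a fixed representative `n_w` the factors `b`, `u` are unique. -/
theorem result {F : Type*} [Field F] (D : Cfsg.Lie.ChevalleyDatum) (hD : D ∈ [Cfsg.Lie.chevG2, Cfsg.Lie.chevB2, Cfsg.Lie.chevD4, Cfsg.Lie.chevF4, Cfsg.Lie.chevE6, Cfsg.Lie.chevE7, Cfsg.Lie.chevE8]) :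
    (∀ g ∈ D.group F, ∃ b ∈ D.borelSubgroup F, ∃ n ∈ D.monomialSubgroup F,
      ∃ u ∈ Subgroup.closure {x : GL D.Idx F | ∃ (r : ℕ) (t : F), D.IsPosRoot r ∧
            (D.rootSubgroup F r).map (MulAut.conj n).toMonoidHom ≤ D.negUnipotent F ∧ (x : Matrix D.Idx D.Idx F) = D.x F r t},
        g = b * n * u) ∧
    (∀ (b b' n n' u u' : GL D.Idx F), b ∈ D.borelSubgroup F → b' ∈ D.borelSubgroup F →
      n ∈ D.monomialSubgroup F → n' ∈ D.monomialSubgroup F →
      u ∈ Subgroup.closure {x : GL D.Idx F | ∃ (r : ℕ) (t : F), D.IsPosRoot r ∧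
            (D.rootSubgroup F r).map (MulAut.conj n).toMonoidHom ≤ D.negUnipotent F ∧ (x : Matrix D.Idx D.Idx F) = D.x F r t} →
      u' ∈ Subgroup.closure {x : GL D.Idx F | ∃ (r : ℕ) (t : F), D.IsPosRoot r ∧
            (D.rootSubgroup F r).map (MulAut.conj n').toMonoidHom ≤ D.negUnipotent F ∧ (x : Matrix D.Idx D.Idx F) = D.x F r t} →
      b * n * u = b' * n' * u' → n⁻¹ * n' ∈ D.diagonalSubgroup F ∧ (n = n' → b = b' ∧ u = u')) := by
  classical
  obtain ⟨A, h⟩ := CfsgLib.Chevalley.exists_full hD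
  have hset : ∀ {n : GL D.Idx F} {σ η}, CfsgLib.Chevalley.Acts h.cert n σ η →
      Subgroup.closure {x : GL D.Idx F | ∃ (r : ℕ) (t : F), D.IsPosRoot r ∧
        (D.rootSubgroup F r).map (MulAut.conj n).toMonoidHom ≤ D.negUnipotent F ∧
          (x : Matrix D.Idx D.Idx F) = D.x F r t} =
      CfsgLib.Chevalley.rootsU D F (CfsgLib.Chevalley.invSet D σ) := by
    intro n σ η hA
    refine congrArg Subgroup.closure (Set.ext fun x => ⟨?_, ?_⟩)
    · rintro ⟨r, t, hr, hle, hx⟩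
      refine ⟨r, t, ⟨hr, ⟨r, hr.1⟩, rfl, ?_⟩, hx⟩
      refine (h.pos.pos_or_neg (σ ⟨r, hr.1⟩).isLt).resolve_left fun hp => ?_
      have hm := hle (Subgroup.mem_map_of_mem _
        (CfsgLib.Chevalley.xG_mem_rootSubgroup h.cert r (1 : F)))
      change n * CfsgLib.Chevalley.xG h.cert r 1 * n⁻¹ ∈ D.negUnipotent F at hm
      have e := hA.conj ⟨r, hr.1⟩ 1
      rw [e] at hm
      have hb : CfsgLib.Chevalley.xG h.cert (σ ⟨r, hr.1⟩).1 (η ⟨r, hr.1⟩ * 1) ∈
          D.borelSubgroup F ⊓ D.negUnipotent F :=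
        ⟨Subgroup.mem_sup_left (CfsgLib.Chevalley.xG_mem_rootsU
          (S := {r | D.IsPosRoot r}) h.cert hp _), hm⟩
      rw [CfsgLib.Chevalley.borel_inf_negUnipotent h, Subgroup.mem_bot] at hb
      have := CfsgLib.Chevalley.xG_injective h.cert (σ ⟨r, hr.1⟩).isLt
        (hb.trans (CfsgLib.Chevalley.xG_zero h.cert _).symm)
      exact hA.ne_zero _ (by simpa using this)
    · rintro ⟨r, t, ⟨hr, s, rfl, hns⟩, hx⟩
      refine ⟨_, t, hr, ?_, hx⟩
      rintro _ ⟨g, hg, rfl⟩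
      obtain ⟨u, rfl⟩ := (CfsgLib.Chevalley.mem_rootSubgroup_iff h.cert).1 hg
      change n * CfsgLib.Chevalley.xG h.cert s.1 u * n⁻¹ ∈ D.negUnipotent F
      rw [hA.conj]
      exact CfsgLib.Chevalley.xG_mem_rootsU (S := {r | D.IsNegRoot r}) h.cert hns _
  refine ⟨fun g hg => ?_, ?_⟩
  · obtain ⟨u, hu, n, hn, σ, η, hA, u', hu', rfl⟩ := CfsgLib.Chevalley.exists_canonical h hg
    exact ⟨u, Subgroup.mem_sup_left hu, n, hn, u', by rw [hset hA]; exact hu', rfl⟩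
  · intro b b' n n' u u' hb hb' hn hn' hu hu' e
    obtain ⟨σ, η, hA⟩ := CfsgLib.Chevalley.exists_acts h hn
    obtain ⟨τ, θ, hB⟩ := CfsgLib.Chevalley.exists_acts h hn'
    rw [hset hA] at hu
    rw [hset hB] at hu'
    obtain ⟨v, hv, t, ht, rfl⟩ := (CfsgLib.Chevalley.mem_borel_iff h).1 hb
    obtain ⟨v', hv', t', ht', rfl⟩ := (CfsgLib.Chevalley.mem_borel_iff h).1 hb'
    obtain ⟨c, hc⟩ : t ∈ (CfsgLib.Chevalley.torusHom D F).range := by
      rw [← CfsgLib.Chevalley.diagonalSubgroup_eq_range h]; exact ht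
    obtain ⟨c', hc'⟩ : t' ∈ (CfsgLib.Chevalley.torusHom D F).range := by
      rw [← CfsgLib.Chevalley.diagonalSubgroup_eq_range h]; exact ht'
    have A1 := (CfsgLib.Chevalley.acts_torus (F := F) h.cert c).mul hA
    have A2 := (CfsgLib.Chevalley.acts_torus (F := F) h.cert c').mul hB
    rw [one_mul, hc] at A1
    rw [one_mul, hc'] at A2
    obtain ⟨e1, e2, e3⟩ := CfsgLib.Chevalley.canonical_unique h hv hv'
      (Subgroup.mul_mem _ (CfsgLib.Chevalley.diagonal_le_monomial ht) hn)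
      (Subgroup.mul_mem _ (CfsgLib.Chevalley.diagonal_le_monomial ht') hn') A1 A2 hu hu'
      (by simpa only [mul_assoc] using e)
    refine ⟨?_, fun hnn => ?_⟩
    · have : n⁻¹ * n' = n⁻¹ * (t'⁻¹ * t) * (n⁻¹)⁻¹ := by
        rw [show n' = t'⁻¹ * (t * n) by rw [e2, inv_mul_cancel_left]]
        group
      rw [this]
      exact CfsgLib.Chevalley.monomial_conj_diagonal h (Subgroup.inv_mem _ hn)
        (Subgroup.mul_mem _ (Subgroup.inv_mem _ ht') ht)
    · subst hnn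
      exact ⟨by rw [e1, mul_right_cancel e2], e3⟩

end Cfsg.Agent.S1100
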