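import Cfsg.Statements.S1118
import Cfsg.Agent.Lib.RankOne.Structure

set_option autoImplicit false
open Cfsg

namespace Cfsg.Agent.S1118

/-- In the rank-one set-up (`G` finite and doubly transitive on `Ω`, `t` an involution moving `a`, `Q` normal in `G_a` with `G_a = Q D`, `Q ⊓ D = 1` for the two-point stabiliser `D = G_a ⊓ G_{t • a}`, `|Q|` even, `|D|` odd), the normaliser of a subset of `Q` containing a non-identity element lies in `G_a`; consequently `N_G(Q) = N_G(G_a) = G_a`. -/
theorem result {G Ω : Type*} [Group G] [Finite G] [MulAction G Ω] {a : Ω} {t : G} {Q : Subgroup G}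
    (hS : Cfsg.IsRankOneSetup G Ω a t Q) :
    (∀ X : Set G, X ⊆ (Q : Set G) → (∃ x ∈ X, x ≠ 1) → Subgroup.normalizer X ≤ MulAction.stabilizer G a) ∧
      Subgroup.normalizer (Q : Set G) = MulAction.stabilizer G a ∧
      Subgroup.normalizer (MulAction.stabilizer G a : Set G) = MulAction.stabilizer G a := by
  have key : ∀ X : Set G, X ⊆ (Q : Set G) → (∃ x ∈ X, x ≠ 1) →
      Subgroup.normalizer X ≤ MulAction.stabilizer G a := by
    rintro X hX ⟨x, hx, hx1⟩ g hg
    have h1 : g⁻¹ * x * g ∈ Q := by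
      refine hX ?_
      have := (Subgroup.mem_set_normalizer_iff.1 hg (g⁻¹ * x * g)).2
      refine this ?_
      simpa [mul_assoc] using hx
    have h2 : (g⁻¹ * x * g) • a = a := CfsgLib.RankOne.Q_fix hS h1
    rw [mul_smul, mul_smul, inv_smul_eq_iff] at h2
    exact CfsgLib.RankOne.fixed_eq hS (hX hx) hx1 h2
  obtain ⟨s, hs, hs1, -⟩ := CfsgLib.RankOne.Q_ne_bot hS
  refine ⟨key, le_antisymm (key _ subset_rfl ⟨s, hs, hs1⟩) fun h hh => ?_, ?_⟩
  · rw [Subgroup.mem_normalizer_iff]
    refine fun x => ⟨fun hx => CfsgLib.RankOne.conj_mem_Q hS hh hx, fun hx => ?_⟩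
    simpa [mul_assoc] using CfsgLib.RankOne.conj_inv_mem_Q hS hh hx
  · refine le_antisymm (fun g hg => ?_) Subgroup.le_normalizer
    have hsg : g⁻¹ * s * g ∈ MulAction.stabilizer G a := by
      refine (Subgroup.mem_normalizer_iff.1 hg _).2 ?_
      simpa [mul_assoc] using hS.le hs
    rw [MulAction.mem_stabilizer_iff, mul_smul, mul_smul, inv_smul_eq_iff] at hsg
    exact CfsgLib.RankOne.fixed_eq hS hs hs1 hsg

end Cfsg.Agent.S1118
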