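import Cfsg.Statements.S1125
import Cfsg.Agent.Lib.RankOne.Structure

set_option autoImplicit false
open Cfsg

namespace Cfsg.Agent.S1125

/-- In the rank-one set-up (`G` finite and doubly transitive on `Ω`, `t` an involution moving `a`, `Q` normal in `G_a` with `G_a = Q D`, `Q ⊓ D = 1` for the two-point stabiliser `D = G_a ⊓ G_{t • a}`, `|Q|` even, `|D|` odd), let `X ⊆ D` fix at least three points of `Ω`. Then `C_G(X)` is doubly transitive on the fixed-point set of `X`, `|C_Q(X)|` is even, and `C_{G_a}(X) = C_Q(X) C_D(X)`. -/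
theorem result {G Ω : Type*} [Group G] [Finite G] [MulAction G Ω] {a : Ω} {t : G} {Q : Subgroup G}
    (hS : Cfsg.IsRankOneSetup G Ω a t Q)
    (X : Set G) (hX : X ⊆ ((MulAction.stabilizer G a ⊓ MulAction.stabilizer G (t • a)) : Set G))
    (h3 : ∃ b c d : Ω, b ≠ c ∧ b ≠ d ∧ c ≠ d ∧ ∀ x ∈ X, x • b = b ∧ x • c = c ∧ x • d = d) :
    (∀ b₁ b₂ c₁ c₂ : Ω, (∀ x ∈ X, x • b₁ = b₁ ∧ x • b₂ = b₂ ∧ x • c₁ = c₁ ∧ x • c₂ = c₂) →
        b₁ ≠ b₂ → c₁ ≠ c₂ → ∃ g ∈ Subgroup.centralizer X, g • b₁ = c₁ ∧ g • b₂ = c₂) ∧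
      Even (Nat.card ↥(Subgroup.centralizer X ⊓ Q)) ∧
      (Subgroup.centralizer X ⊓ Q) ⊔ (Subgroup.centralizer X ⊓ (MulAction.stabilizer G a ⊓ MulAction.stabilizer G (t • a))) = Subgroup.centralizer X ⊓ MulAction.stabilizer G a := by
  obtain ⟨b, c, d, hbc, hbd, hcd, hfix⟩ := h3
  have h3' : ∃ b c d : Ω, b ≠ c ∧ b ≠ d ∧ c ≠ d ∧ ∀ x ∈ X, x • b = b ∧ x • c = c ∧ x • d = d :=
    ⟨b, c, d, hbc, hbd, hcd, hfix⟩
  obtain ⟨s, hs, hsQ, hsC⟩ := CfsgLib.RankOne.exists_involution_centralizing hS hX h3'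
  refine ⟨fun b₁ b₂ c₁ c₂ h hb hc => CfsgLib.RankOne.centralizer_two_transitive hS hbc hbd hcd hfix b₁ b₂ c₁ c₂ h hb hc,
    ?_, ?_⟩
  · rw [even_iff_two_dvd]
    have h1 : orderOf (⟨s, hsC, hsQ⟩ : ↥(Subgroup.centralizer X ⊓ Q)) = 2 :=
      orderOf_eq_prime (by rw [pow_two]; exact Subtype.ext hs.2.2)
        (fun e => hs.2.1 (congrArg Subtype.val e))
    exact h1 ▸ orderOf_dvd_natCard _
  · refine le_antisymm (sup_le ?_ ?_) ?_
    · exact inf_le_inf_left _ hS.le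
    · exact inf_le_inf_left _ inf_le_left
    · rintro g ⟨hgC, hga⟩
      have hne : g • t • a ≠ a := fun e =>
        CfsgLib.RankOne.ta_ne hS (MulAction.injective g (e.trans hga.symm))
      obtain ⟨q, hq, hqa⟩ := CfsgLib.RankOne.exists_Q_map hS hne
      have hqC : q ∈ Subgroup.centralizer X := by
        rw [Subgroup.mem_centralizer_iff]
        intro x hx
        have e : x * q * x⁻¹ = q := by
          refine CfsgLib.RankOne.Q_inj hS (CfsgLib.RankOne.conj_mem_Q hS (hX hx).1 hq) hq (CfsgLib.RankOne.ta_ne hS) ?_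
          rw [mul_smul, mul_smul, inv_smul_eq_iff.2 (Eq.symm (hX hx).2), hqa, ← mul_smul,
            Subgroup.mem_centralizer_iff.1 hgC x hx, mul_smul, show x • t • a = t • a from (hX hx).2]
        rwa [mul_inv_eq_iff_eq_mul] at e
      have hd : q⁻¹ * g ∈ MulAction.stabilizer G a ⊓ MulAction.stabilizer G (t • a) := by
        refine ⟨(MulAction.stabilizer G a).mul_mem (Subgroup.inv_mem _ (hS.le hq)) hga, ?_⟩
        show (q⁻¹ * g) • t • a = t • a
        rw [mul_smul, ← hqa, inv_smul_smul]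
      have e : g = q * (q⁻¹ * g) := by group
      rw [e]
      exact Subgroup.mul_mem_sup ⟨hqC, hq⟩
        ⟨Subgroup.mul_mem _ (Subgroup.inv_mem _ hqC) hgC, hd⟩

end Cfsg.Agent.S1125
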