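import Cfsg.Statements.S1139
import Cfsg.Agent.Lib.SuzukiTwo.OrderSq

set_option autoImplicit false
open Cfsg

namespace Cfsg.Agent.S1139

/-- A Suzuki 2-group `P` with `|P| = |Z(P)|²` is of type A: for some finite field `F` with `|F| = |Z(P)|` and some field automorphism `φ ≠ 1` of odd order, `P` is isomorphic to the group of lower unitriangular matrices with rows `(1,0,0)`, `(x,1,0)`, `(y, φ x, 1)`. -/
theorem result {P : Type*} [Group P] (hP : Cfsg.IsSuzukiTwoGroup P)
    (hcard : Nat.card P = Nat.card (Subgroup.center P) ^ 2) :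
    ∃ (F : Type) (_ : Field F) (_ : Fintype F) (φ : F ≃+* F), Fintype.card F = Nat.card (Subgroup.center P) ∧
      φ ≠ RingEquiv.refl F ∧ Odd (orderOf φ) ∧ Nonempty (P ≃* Cfsg.suzukiTypeA F (φ : F →+* F)) := by
  classical
  obtain ⟨K, hT⟩ := CfsgLib.SuzukiTwo.exists_torus hP
  obtain ⟨F, _, _, _, η, κ, hC⟩ := hT.exists_coord
  have := hT.finite
  have hq := CfsgLib.SuzukiTwo.card_center hT hC
  obtain ⟨φ, π, ι, hne, hodd, hπ, hι, hc, hk, hsq⟩ :=
    CfsgLib.SuzukiTwo.exists_typeA_coord hT hC (by rw [hcard, hq])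
  obtain ⟨n, -, hn⟩ := FiniteField.card F 2
  letI : Fintype (GaloisField 2 n) := Fintype.ofFinite _
  have hcardF' : Fintype.card (GaloisField 2 n) = Fintype.card F := by
    rw [← Nat.card_eq_fintype_card, GaloisField.card 2 n n.ne_zero, hn]
  let e : F ≃+* GaloisField 2 n := FiniteField.ringEquivOfCardEq hcardF'.symm
  let conj : (F ≃+* F) →* (GaloisField 2 n ≃+* GaloisField 2 n) := MonoidHom.mk'
    (fun f => e.symm.trans (f.trans e))
    (fun f g => by
      ext x
      show e (f (g (e.symm x))) = e (f (e.symm (e (g (e.symm x)))))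
      rw [e.symm_apply_apply])
  have hconj : Function.Injective conj := by
    intro f g h
    ext x
    have := DFunLike.congr_fun h (e x)
    have : e (f (e.symm (e x))) = e (g (e.symm (e x))) := this
    rw [e.symm_apply_apply] at this
    exact e.injective this
  have hone : conj 1 = 1 := map_one conj
  refine ⟨GaloisField 2 n, inferInstance, inferInstance, conj φ, by rw [hcardF', hq],
    fun h => hne (hconj (h.trans hone.symm)), by rw [orderOf_injective conj hconj]; exact hodd, ?_⟩
  refine CfsgLib.SuzukiTwo.nonempty_iso_typeA _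
    ((e.toAddMonoidHom.toMultiplicative).comp π)
    (ι.comp (e.symm.toAddMonoidHom.toMultiplicative)) ?_ ?_ (fun z a => hc _ a) ?_ (fun a => ?_)
  · intro z
    obtain ⟨a, ha⟩ := hπ (Multiplicative.ofAdd (e.symm z.toAdd))
    refine ⟨a, ?_⟩
    apply Multiplicative.toAdd.injective
    show e (π a).toAdd = z.toAdd
    rw [ha, toAdd_ofAdd, e.apply_symm_apply]
  · intro z w h
    exact Multiplicative.toAdd.injective (e.symm.injective (congrArg Multiplicative.toAdd (hι h)))
  · ext a
    constructor
    · intro h
      have h1 : π a = 1 := by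
        apply Multiplicative.toAdd.injective
        apply e.injective
        have h2 := congrArg Multiplicative.toAdd (MonoidHom.mem_ker.1 h)
        simpa using h2
      obtain ⟨z, hz⟩ : a ∈ ι.range := hk ▸ h1
      refine ⟨Multiplicative.ofAdd (e z.toAdd), ?_⟩
      show ι (Multiplicative.ofAdd (e.symm (e z.toAdd))) = a
      rw [e.symm_apply_apply]
      exact hz
    · rintro ⟨z, rfl⟩
      have h1 : π (ι (Multiplicative.ofAdd (e.symm z.toAdd))) = 1 :=
        MonoidHom.mem_ker.1 (hk ▸ ⟨_, rfl⟩)
      apply Multiplicative.toAdd.injective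
      show e (π (ι (Multiplicative.ofAdd (e.symm z.toAdd)))).toAdd = 0
      rw [h1]
      exact map_zero e
  · show a * a = ι (Multiplicative.ofAdd (e.symm (e (π a).toAdd * e (φ (e.symm (e (π a).toAdd))))))
    rw [e.symm_apply_apply, ← map_mul, e.symm_apply_apply]
    exact hsq a

end Cfsg.Agent.S1139
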