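import Cfsg.Statements.S1142
import Cfsg.Agent.Lib.FeitHigman.Polygon

set_option autoImplicit false
open Cfsg

namespace Cfsg.Agent.S1142

/-- Feit–Higman: if a finite group has a (B,N)-pair of rank 2, its Weyl group `N/(B ⊓ N)` has order 4, 6, 8, 12 or 16. -/
theorem result {G : Type*} [Group G] [Finite G] (P : Cfsg.BNPair G)
    (h2 : P.rank = 2) :
    ((P.B ⊓ P.N).subgroupOf P.N).index ∈ ({4, 6, 8, 12, 16} : Set ℕ) := by
  obtain ⟨x, y, hxy, he⟩ := Nat.card_eq_two_iff.1 (show Nat.card P.S = 2 from h2)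
  have h : CfsgLib.BNPair.Duo P (x : G) (y : G) := ⟨x.2, y.2, fun e => hxy (Subtype.ext e),
    fun z hz => by
      have := he.symm ▸ (Set.mem_univ (⟨z, hz⟩ : P.S))
      rcases this with e | e
      · exact Or.inl (congrArg Subtype.val e)
      · exact Or.inr (congrArg Subtype.val e)⟩
  rw [h.index_eq]
  rcases CfsgLib.FeitHigman.maxLen_mem h with e | e | e | e | e <;> rw [e] <;> simp

end Cfsg.Agent.S1142
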