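import Cfsg.Statements.S1166
import Cfsg.Agent.Lib.RankOne.Structure

set_option autoImplicit false
open Cfsg

namespace Cfsg.Agent.S1166

/-- In the rank-one set-up (`G` finite and doubly transitive on `Ω`, `t` an involution moving `a`, `Q` normal in `G_a` with `G_a = Q D`, `Q ⊓ D = 1` for the two-point stabiliser `D = G_a ⊓ G_{t • a}`, `|Q|` even, `|D|` odd), with `t x t = g_x h_x t f_x` and `t y t = g_y h_y t f_y` (`g, f ∈ Q`, `h ∈ D`) for `x, y ∈ Q ∖ 1` with `x y ≠ 1`: then `z = f_x g_y ≠ 1`, and if `t z t = g_z h_z t f_z` and `t (x y) t = g' h' t f'` then `f' = (t h_y t)⁻¹ f_z (t h_y t) f_y` and `h' = h_x h_z h_y` (H6). -/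
theorem result {G Ω : Type*} [Group G] [Finite G] [MulAction G Ω] {a : Ω} {t : G} {Q : Subgroup G}
    (hS : Cfsg.IsRankOneSetup G Ω a t Q)
    (x y gx hx fx gy hy fy : G) (hxQ : x ∈ Q) (hx1 : x ≠ 1) (hyQ : y ∈ Q) (hy1 : y ≠ 1) (hxy : x * y ≠ 1)
    (hgx : gx ∈ Q) (hhx : hx ∈ (MulAction.stabilizer G a ⊓ MulAction.stabilizer G (t • a))) (hfx : fx ∈ Q) (ex : t * x * t = gx * hx * t * fx)
    (hgy : gy ∈ Q) (hhy : hy ∈ (MulAction.stabilizer G a ⊓ MulAction.stabilizer G (t • a))) (hfy : fy ∈ Q) (ey : t * y * t = gy * hy * t * fy) :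
    fx * gy ≠ 1 ∧
      ∀ gz hz fz g' h' f' : G, gz ∈ Q → hz ∈ (MulAction.stabilizer G a ⊓ MulAction.stabilizer G (t • a)) → fz ∈ Q → t * (fx * gy) * t = gz * hz * t * fz →
        g' ∈ Q → h' ∈ (MulAction.stabilizer G a ⊓ MulAction.stabilizer G (t • a)) → f' ∈ Q → t * (x * y) * t = g' * h' * t * f' →
          f' = (t * hy * t)⁻¹ * fz * (t * hy * t) * fy ∧ h' = hx * hz * hy := by
  have hD : ∀ {d : G}, d ∈ CfsgLib.RankOne.twoPoint G a t → t * d * t ∈ CfsgLib.RankOne.twoPoint G a t := fun {d} hd => by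
    have := CfsgLib.RankOne.twoPoint_conj hS hd
    rwa [CfsgLib.RankOne.t_inv hS] at this
  have exy : t * (x * y) * t = gx * hx * (t * (fx * gy)) * hy * t * fy := by
    calc t * (x * y) * t = t * x * (t * t) * y * t := by rw [hS.mul_self]; group
      _ = (t * x * t) * (t * y * t) := by group
      _ = _ := by rw [ex, ey]; group
  refine ⟨fun h0 => hxy ?_, fun gz hz fz g' h' f' hgz hhz hfz ez hg' hh' hf' exy' => ?_⟩
  · have e : t * (x * y) * t = gx * hx * (t * hy * t) * fy := by rw [exy, h0]; group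
    have e2 : (t * (x * y) * t) • a = a := by
      rw [e, mul_smul, mul_smul, mul_smul gx, CfsgLib.RankOne.Q_fix hS hfy,
        show (t * hy * t) • a = a from (hD hhy).1, show hx • a = a from hhx.1, CfsgLib.RankOne.Q_fix hS hgx]
    rw [mul_smul, mul_smul] at e2
    refine CfsgLib.RankOne.eq_one_of_fix hS (Q.mul_mem hxQ hyQ) (CfsgLib.RankOne.ta_ne hS) ?_
    rw [← CfsgLib.RankOne.tta hS ((x * y) • t • a), e2]
  · have htz : t * (fx * gy) = gz * hz * t * fz * t := by
      rw [← ez, mul_assoc _ t t, hS.mul_self, mul_one]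
    have hc := hD hhy
    have etc : t * (t * hy * t) = hy * t := by
      rw [← mul_assoc, ← mul_assoc, hS.mul_self, one_mul]
    have e2 : t * (x * y) * t = (gx * (hx * gz * hx⁻¹)) * (hx * hz * hy) * t *
        ((t * hy * t)⁻¹ * fz * (t * hy * t) * fy) := by
      rw [exy, htz]
      calc gx * hx * (gz * hz * t * fz * t) * hy * t * fy
          = gx * (hx * gz * hx⁻¹) * (hx * hz) *
              (t * (t * hy * t)) * ((t * hy * t)⁻¹ * fz * (t * hy * t) * fy) := by group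
        _ = _ := by rw [etc]; group
    obtain ⟨-, h1, h2⟩ := CfsgLib.RankOne.canonical_D_unique hS hg'
      (Q.mul_mem hgx (CfsgLib.RankOne.conj_mem_Q hS hhx.1 hgz)) hh'
      (Subgroup.mul_mem _ (Subgroup.mul_mem _ hhx hhz) hhy) hf'
      (Q.mul_mem (CfsgLib.RankOne.conj_inv_mem_Q hS hc.1 hfz) hfy) (exy'.symm.trans e2)
    exact ⟨h2, h1⟩

end Cfsg.Agent.S1166
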