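import Cfsg.Statements.S1167
import Cfsg.Agent.Lib.SharplyEven.SimpleZassenhaus
-- import your own Cfsg.Agent.* helpers here

set_option autoImplicit false
open Cfsg

namespace Cfsg.Agent.S1167

private theorem even_card_of_involutive {α : Type*} [Fintype α] {f : α → α} (hf : Function.Involutive f)
    (h : ∀ x, f x ≠ x) : Even (Fintype.card α) := by
  classical
  have h1 := Equiv.Perm.two_dvd_card_support (σ := hf.toPerm f) (Equiv.ext fun x => by simp [sq, hf x])
  have hs : (hf.toPerm f).support = Finset.univ := Finset.eq_univ_of_forall fun x => by simp [h x]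
  rw [hs, Finset.card_univ] at h1
  exact even_iff_two_dvd.2 h1

/-- Let `G` be a finite simple Zassenhaus group on `Ω`, `U` a normal subgroup of `G_a` regular on `Ω` minus `a` which is an abelian 2-group, and `v` an involution with `v • a ≠ a`. Then there is a unique `u₀ ∈ U`, `u₀ ≠ 1`, with `v u₀ v = u₀ v u₀`. -/
theorem result {G Ω : Type*} [Group G] [Finite G] [MulAction G Ω] [Finite Ω]
    (hZ : Cfsg.IsZassenhausGroup G Ω) [IsSimpleGroup G] {a : Ω}
    (U : Subgroup G) (hUle : U ≤ MulAction.stabilizer G a)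
    (hUn : ∀ h ∈ MulAction.stabilizer G a, ∀ u ∈ U, h * u * h⁻¹ ∈ U)
    (hreg : ∀ c d : Ω, c ≠ a → d ≠ a → ∃! u : U, (u : G) • c = d)
    (hU2 : IsPGroup 2 U) (hUab : ∀ u ∈ U, ∀ u' ∈ U, u * u' = u' * u)
    (v : G) (hv1 : v ≠ 1) (hv2 : v * v = 1) (hva : v • a ≠ a) :
    ∃! u₀ : G, u₀ ∈ U ∧ u₀ ≠ 1 ∧ v * u₀ * v = u₀ * v * u₀ := by
  classical
  haveI := Fintype.ofFinite Ω
  haveI := Fintype.ofFinite G
  set b := v • a with hb
  have hvb : v • b = a := by rw [hb, ← mul_smul, hv2, one_smul]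
  obtain ⟨hc, hf⟩ := CfsgLib.SharplyEven.SimpleZassenhaus.eq_kernel hZ (Ne.symm hva) U hUle hUn hreg
  have h3 := CfsgLib.RealChar.Zassenhaus.three_le_card hZ
  have hev : Even (Nat.card U) := by
    obtain ⟨k, hk⟩ := IsPGroup.iff_card.1 hU2
    rw [hk]; refine Nat.even_pow.2 ⟨even_two, ?_⟩
    rintro rfl
    rw [pow_zero] at hk
    omega
  haveI : Fact (Nat.Prime 2) := ⟨Nat.prime_two⟩
  have hn : (U.subgroupOf (MulAction.stabilizer G a)).Normal := ⟨fun u hu g => hUn g g.2 u hu⟩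
  have hab : IsMulCommutative U := ⟨⟨fun p q => Subtype.ext (hUab p p.2 q q.2)⟩⟩
  have hd := (CfsgLib.AltGroups.zassenhaus_abelian_kernel hZ hva U hUle hn hab hreg).resolve_right (by
    rintro ⟨h, -⟩
    obtain ⟨r, hr⟩ := hev
    omega)
  haveI := (CfsgLib.AltGroups.sharply_three_transitive_of_card hZ hva hd).1
  have emb : ∀ x y z : Ω, x ≠ y → y ≠ z → x ≠ z → Function.Injective ![x, y, z] := by
    intro x y z hxy hyz hxz i j hij
    fin_cases i <;> fin_cases j <;>
      first | rfl | exact absurd hij hxy | exact absurd hij.symm hxy | exact absurd hij hyz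
            | exact absurd hij.symm hyz | exact absurd hij hxz | exact absurd hij.symm hxz
  have hfixne : ∀ {u : G}, u ∈ U → u ≠ 1 → u • b ≠ b := fun hu hu1 e => hva (hf _ hu hu1 b e)
  have hne : ∀ {u : G}, u ∈ U → u • b ≠ a := fun {u} hu e =>
    hva (MulAction.injective u (e.trans (MulAction.mem_stabilizer_iff.1 (hUle hu)).symm))
  have helem : ∀ u ∈ U, u * u = 1 := by
    intro u hu
    by_cases hu1 : u = 1
    · rw [hu1, one_mul]
    obtain ⟨w, hw⟩ := exists_prime_orderOf_dvd_card' (G := U) 2 (even_iff_two_dvd.1 hev)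
    have hw' : orderOf (w : G) = 2 := by rw [Subgroup.orderOf_coe, hw]
    have hw1 : (w : G) ≠ 1 := by intro e; rw [e, orderOf_one] at hw'; omega
    obtain ⟨g, hg⟩ := MulAction.exists_smul_eq G (α := Fin 3 ↪ Ω)
      ⟨![a, b, (w : G) • b], emb _ _ _ (Ne.symm hva) (Ne.symm (hfixne w.2 hw1)) (Ne.symm (hne w.2))⟩
      ⟨![a, b, u • b], emb _ _ _ (Ne.symm hva) (Ne.symm (hfixne hu hu1)) (Ne.symm (hne hu))⟩
    have g0 : g • a = a := DFunLike.congr_fun hg 0
    have g1 : g • b = b := DFunLike.congr_fun hg 1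
    have g2 : g • (w : G) • b = u • b := DFunLike.congr_fun hg 2
    have hconj : g * w * g⁻¹ = u := by
      refine congrArg Subtype.val ((hreg b _ hva (hne hu)).unique (y₁ := ⟨_, hUn g g0 w w.2⟩) (y₂ := ⟨u, hu⟩) ?_ rfl)
      show (g * w * g⁻¹) • b = u • b
      rw [mul_smul, mul_smul, inv_smul_eq_iff.2 g1.symm, g2]
    have hww : (w : G) * w = 1 := by rw [← sq, ← hw', pow_orderOf_eq_one]
    calc u * u = g * ((w : G) * w) * g⁻¹ := by rw [← hconj]; group
      _ = 1 := by rw [hww, mul_one, mul_inv_cancel]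
  -- the fixed point of `v`
  obtain ⟨c, hvc⟩ : ∃ c : Ω, v • c = c := by
    by_contra h
    push Not at h
    have hinv : Function.Involutive (v • · : Ω → Ω) := fun x => by
      show v • v • x = x
      rw [← mul_smul, hv2, one_smul]
    have h2 := even_card_of_involutive hinv h
    obtain ⟨r, hr⟩ := hev
    obtain ⟨r', hr'⟩ := h2
    omega
  have hca : c ≠ a := by
    rintro rfl
    exact hva hvc
  have hcb : c ≠ b := by
    rintro rfl
    exact hva (hvc.symm.trans hvb)
  have huniq : ∀ x, v • x = x → x = c := by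
    intro x hx
    by_contra hxc
    haveI := hZ.1
    obtain ⟨g, hg1, hg2⟩ := MulAction.is_two_pretransitive_iff.1 hZ.2.1 hxc (Ne.symm hva)
    have hmem : g * v * g⁻¹ ∈ MulAction.stabilizer G a ⊓ MulAction.stabilizer G b := by
      refine ⟨?_, ?_⟩
      · show (g * v * g⁻¹) • a = a
        rw [mul_smul, mul_smul]
        rw [inv_smul_eq_iff.2 hg1.symm, hx, hg1]
      · show (g * v * g⁻¹) • b = b
        rw [mul_smul, mul_smul, inv_smul_eq_iff.2 hg2.symm, hvc, hg2]
    have ho : orderOf (g * v * g⁻¹) = 2 := by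
      rw [orderOf_eq_prime_iff]
      refine ⟨?_, fun e => hv1 ?_⟩
      · rw [sq, show g * v * g⁻¹ * (g * v * g⁻¹) = g * (v * v) * g⁻¹ by group, hv2, mul_one, mul_inv_cancel]
      · calc v = g⁻¹ * (g * v * g⁻¹) * g := by group
          _ = 1 := by rw [e, mul_one, inv_mul_cancel]
    have := Subgroup.orderOf_dvd_natCard _ hmem
    rw [ho] at this
    obtain ⟨r, hr⟩ := hev
    obtain ⟨r', hr'⟩ := this
    omega
  obtain ⟨⟨u, hu⟩, hub, -⟩ := hreg b c hva hca
  change u • b = c at hub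
  have hua : u • a = a := hUle hu
  have huc : u • c = b := by rw [← hub, ← mul_smul, helem u hu, one_smul]
  refine ⟨u, ⟨hu, fun e => hcb (by rw [← hub, e, one_smul]), ?_⟩, ?_⟩
  · refine (inv_mul_eq_one.1 (hZ.2.2.1 ((u * v * u)⁻¹ * (v * u * v)) a b c (Ne.symm hva) hcb.symm hca.symm ?_ ?_ ?_)).symm
    · rw [mul_smul, inv_smul_eq_iff, mul_smul, mul_smul, mul_smul, mul_smul, ← hb, hub, hvc, hua, ← hb, hub]
    · rw [mul_smul, inv_smul_eq_iff, mul_smul, mul_smul, mul_smul, mul_smul, hvb, hua, ← hb, hub, hvc, huc]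
    · rw [mul_smul, inv_smul_eq_iff, mul_smul, mul_smul, mul_smul, mul_smul, hvc, huc, hvb, hua]
  · rintro x ⟨hx, -, hxe⟩
    have h1 := congrArg (· • a) hxe
    simp only [mul_smul, (MulAction.mem_stabilizer_iff.1 (hUle hx)), ← hb] at h1
    have h2 := huniq _ h1
    exact congrArg Subtype.val ((hreg b c hva hca).unique (y₁ := ⟨x, hx⟩) (y₂ := ⟨u, hu⟩) h2 hub)

end Cfsg.Agent.S1167
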