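import Cfsg.Statements.S1176
import Cfsg.Agent.Lib.TwoFusion.IsolatedInvolution

set_option autoImplicit false
open Cfsg
open scoped commutatorElement

namespace Cfsg.Agent.S1176

/-- Let x₀ be an involution of the finite group G and D its conjugacy class. Assume (a) for each x ∈ D the subgroup W(x) generated by the members of D commuting with x is a 2-group of nilpotency class at most 2, and (b) the product of two distinct commuting members of D again lies in D. Then for all x, y ∈ D, if xy has even order greater than 2, its order is 4. -/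
theorem result {G : Type*} [Group G] [Finite G] (x₀ : G) (hx₀ : orderOf x₀ = 2) (ha : ∀ x : G, IsConj x₀ x → IsPGroup 2 ↥(Subgroup.closure {y : G | IsConj x₀ y ∧ Commute y x}) ∧ ⁅⁅Subgroup.closure {y : G | IsConj x₀ y ∧ Commute y x}, Subgroup.closure {y : G | IsConj x₀ y ∧ Commute y x}⁆, Subgroup.closure {y : G | IsConj x₀ y ∧ Commute y x}⁆ = ⊥) (hb : ∀ x y : G, IsConj x₀ x → IsConj x₀ y → x ≠ y → Commute x y → IsConj x₀ (x * y)) (x y : G) (hx : IsConj x₀ x) (hy : IsConj x₀ y) (heven : Even (orderOf (x * y))) (hgt : 2 < orderOf (x * y)) : orderOf (x * y) = 4 := by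
  have : Fact (Nat.Prime 2) := ⟨Nat.prime_two⟩
  have hxo : orderOf x = 2 := (CfsgLib.Involutions.orderOf_eq_of_isConj hx).symm.trans hx₀
  have hyo : orderOf y = 2 := (CfsgLib.Involutions.orderOf_eq_of_isConj hy).symm.trans hx₀
  obtain ⟨q, hq⟩ := heven
  set r := x * y with hr
  have hq0 : 0 < q := by omega
  have hqo : orderOf (r ^ q) = 2 := by
    rw [orderOf_pow, hq, Nat.gcd_eq_right ⟨2, by omega⟩, show q + q = 2 * q by ring,
      Nat.mul_div_cancel _ hq0]
  have hix : Commute (r ^ q) x := by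
    have h1 := CfsgLib.Involutions.conj_zpow_mul_eq hxo hyo (q : ℤ)
    rw [← hr] at h1
    have h2 : r ^ (-(q : ℤ)) = r ^ (q : ℤ) := by
      rw [zpow_eq_zpow_iff_modEq, hq, Int.modEq_iff_dvd]
      exact ⟨1, by push_cast; ring⟩
    rw [h2, zpow_natCast] at h1
    exact (mul_inv_eq_iff_eq_mul.1 h1).symm
  have hiy : Commute (r ^ q) y := by
    have h1 : Commute (r ^ q) r := (Commute.self_pow r q).symm
    have h2 : y = x * r := by
      rw [hr, ← mul_assoc, CfsgLib.Involutions.mul_self_eq_one hxo, one_mul]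
    rw [h2]; exact hix.mul_right h1
  have hiD : IsConj x₀ (r ^ q) := by
    rcases Nat.even_or_odd q with ⟨p, hp⟩ | ⟨p, hp⟩
    · have hconj : IsConj x₀ (r ^ q * x) := hx.trans (isConj_iff.2 ⟨r ^ p, by
        have h1 := CfsgLib.Involutions.mul_zpow_eq hxo hyo (-(p : ℤ))
        rw [← hr, zpow_neg, neg_neg, zpow_natCast] at h1
        rw [mul_assoc, h1, ← mul_assoc, ← pow_add, ← hp]⟩)
      have h2 := hb _ _ hconj hx (fun he => by
        rw [mul_eq_right] at he; rw [he, orderOf_one] at hqo; omega)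
        (hix.mul_left (Commute.refl x))
      rwa [mul_assoc, CfsgLib.Involutions.mul_self_eq_one hxo, mul_one] at h2
    · have hconj : IsConj x₀ (r ^ q * x) := by
        refine hy.trans (isConj_iff.2 ⟨r ^ (p + 1), ?_⟩)
        have h2 : y = x * r := by
          rw [hr, ← mul_assoc, CfsgLib.Involutions.mul_self_eq_one hxo, one_mul]
        have h3 : x * r = r⁻¹ * x := by
          have := CfsgLib.Involutions.mul_zpow_eq hxo hyo 1
          simpa [← hr] using this
        have h1 := CfsgLib.Involutions.mul_zpow_eq hxo hyo (-((p + 1 : ℕ) : ℤ))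
        rw [← hr, zpow_neg, neg_neg, zpow_natCast] at h1
        rw [h2, h3, mul_assoc, mul_assoc, h1, ← mul_assoc, ← mul_assoc,
          show r ^ (p + 1) * r⁻¹ = r ^ p by rw [pow_succ, mul_inv_cancel_right], ← pow_add]
        congr 2; omega
      have h2 := hb _ _ hconj hx (fun he => by
        rw [mul_eq_right] at he; rw [he, orderOf_one] at hqo; omega)
        (hix.mul_left (Commute.refl x))
      rwa [mul_assoc, CfsgLib.Involutions.mul_self_eq_one hxo, mul_one] at h2
  obtain ⟨hP, hcl⟩ := ha _ hiD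
  set W := Subgroup.closure {t : G | IsConj x₀ t ∧ Commute t (r ^ q)}
  have hxW : x ∈ W := Subgroup.subset_closure ⟨hx, hix.symm⟩
  have hyW : y ∈ W := Subgroup.subset_closure ⟨hy, hiy.symm⟩
  have h4 := Subgroup.commutator_mem_commutator (Subgroup.commutator_mem_commutator hxW hyW) hxW
  rw [hcl, Subgroup.mem_bot] at h4
  have h5 : r ^ 4 = 1 := by
    have e1 : ⁅x, y⁆ = r * r := by
      rw [commutatorElement_def, CfsgLib.Involutions.inv_eq_self hxo,
        CfsgLib.Involutions.inv_eq_self hyo, hr, mul_assoc]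
    have e2 : x * (r * r) * x⁻¹ = r⁻¹ * r⁻¹ := by
      rw [show x * (r * r) * x⁻¹ = (x * r * x⁻¹) * (x * r * x⁻¹) by group, hr,
        CfsgLib.Involutions.conj_mul_eq_inv hxo hyo]
    rw [e1, commutatorElement_def] at h4
    calc r ^ 4 = r * r * (x * (r * r) * x⁻¹)⁻¹ := by rw [e2]; group
      _ = r * r * x * (r * r)⁻¹ * x⁻¹ := by group
      _ = 1 := h4
  have h6 := Nat.le_of_dvd (by norm_num) (orderOf_dvd_of_pow_eq_one h5)
  obtain ⟨d, hd⟩ := orderOf_dvd_of_pow_eq_one h5
  interval_cases h7 : orderOf r <;> omega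

end Cfsg.Agent.S1176
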