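import Cfsg.Statements.S1177
import Cfsg.Agent.Lib.TwoFusion.IsolatedInvolution

set_option autoImplicit false
open Cfsg

namespace Cfsg.Agent.S1177

/-- Let A be a nontrivial elementary abelian 2-subgroup of a finite group G which is a T.I. set (each conjugate of A meets A trivially or equals A) and which does not commute elementwise with any conjugate of A other than A itself. Then for every a ∈ A, a ≠ 1, every conjugate of A contained in C_G(a) is equal to A (A is weakly closed in C_G(a)). -/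
theorem result {G : Type*} [Group G] [Finite G] (A : Subgroup G) (hA : Cfsg.IsElementaryAbelian 2 A) (hA1 : A ≠ ⊥) (hTI : ∀ g : G, A.map (MulAut.conj g).toMonoidHom ⊓ A = ⊥ ∨ A.map (MulAut.conj g).toMonoidHom = A) (hb : ∀ g : G, (∀ a ∈ A, ∀ b ∈ A.map (MulAut.conj g).toMonoidHom, a * b = b * a) → A.map (MulAut.conj g).toMonoidHom = A) (a : G) (ha : a ∈ A) (ha1 : a ≠ 1) (g : G) (hg : A.map (MulAut.conj g).toMonoidHom ≤ Subgroup.centralizer ({a} : Set G)) : A.map (MulAut.conj g).toMonoidHom = A := by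
  have : Fact (Nat.Prime 2) := ⟨Nat.prime_two⟩
  set B := A.map (MulAut.conj g).toMonoidHom with hB
  have hAp : IsPGroup 2 A := fun u => ⟨1, Subtype.ext (by simpa using hA.2 u u.2)⟩
  have key : ∀ (u : G) (B' : Subgroup G), B' = A.map (MulAut.conj u).toMonoidHom →
      ∀ n, n ∈ Subgroup.normalizer (B' : Set G) ∨ B'.map (MulAut.conj n).toMonoidHom ⊓ B' = ⊥ := by
    intro u B' hB' n
    by_cases hn : B'.map (MulAut.conj n).toMonoidHom = B'
    · exact Or.inl (Subgroup.mem_normalizer_iff_map_conj_eq.2 hn)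
    refine Or.inr ?_
    have hcomp : ∀ v w : G, (A.map (MulAut.conj v).toMonoidHom).map (MulAut.conj w).toMonoidHom =
        A.map (MulAut.conj (w * v)).toMonoidHom := fun v w => by
      rw [Subgroup.map_map]; congr 1; ext; simp [mul_assoc]
    rcases hTI (u⁻¹ * n * u) with h | h
    · have h2 := congrArg (Subgroup.map (MulAut.conj u).toMonoidHom) h
      rw [Subgroup.map_inf _ _ _ (MulEquiv.injective _), Subgroup.map_bot, hcomp, ← hB',
        show u * (u⁻¹ * n * u) = n * u by group, ← hcomp, ← hB'] at h2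
      exact h2
    · exfalso
      apply hn
      have h2 := congrArg (Subgroup.map (MulAut.conj u).toMonoidHom) h
      rw [hcomp, ← hB', show u * (u⁻¹ * n * u) = n * u by group, ← hcomp, ← hB'] at h2
      exact h2
  have hBA : B ≤ Subgroup.normalizer (A : Set G) := by
    intro b hb'
    rcases key 1 A (by ext; simp) b with h | h
    · exact h
    exfalso
    apply ha1
    rw [← Subgroup.mem_bot, ← h]
    refine ⟨⟨a, ha, ?_⟩, ha⟩
    have h2 := Subgroup.mem_centralizer_singleton_iff.1 (hg hb')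
    show b * a * b⁻¹ = a
    rw [h2, mul_inv_cancel_right]
  have hBp : IsPGroup 2 B := hAp.map _
  have hPp : IsPGroup 2 ↥(B ⊔ A) := hBp.to_sup_of_normal_right' hAp hBA
  by_contra hne
  -- `A` normalizes `B`
  have hAB : A ≤ Subgroup.normalizer (B : Set G) := by
    by_contra hcon
    set P := B ⊔ A with hP
    set N : Subgroup P := (Subgroup.normalizer (B : Set G)).subgroupOf P with hN
    have hNne : N ≠ ⊤ := fun h => hcon (le_sup_right.trans (Subgroup.subgroupOf_eq_top.1 h))
    have := hPp.isNilpotent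
    obtain ⟨w, hw, hwN⟩ := SetLike.exists_of_lt
      (Group.normalizerCondition_of_isNilpotent N hNne.lt_top)
    set B' := B.map (MulAut.conj (w : G)).toMonoidHom with hB'
    have hwN' : (w : G) ∉ Subgroup.normalizer (B : Set G) := hwN
    have hB'N : ∀ t ∈ B', t ∈ Subgroup.normalizer (B : Set G) := by
      rintro _ ⟨t, ht, rfl⟩
      have htP : t ∈ P := le_sup_left (b := A) ht
      have h1 := (Subgroup.mem_normalizer_iff.1 hw ⟨t, htP⟩).1 (Subgroup.le_normalizer ht)
      exact h1
    have hBN' : ∀ t ∈ B, t ∈ Subgroup.normalizer (B' : Set G) := by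
      intro t ht
      have htP : t ∈ P := le_sup_left (b := A) ht
      have h1 := (Subgroup.mem_normalizer_iff.1 (inv_mem hw) ⟨t, htP⟩).1 (Subgroup.le_normalizer ht)
      have h2 : (w : G)⁻¹ * t * (w : G) ∈ Subgroup.normalizer (B : Set G) := by
        simpa [hN, Subgroup.mem_subgroupOf] using h1
      rw [Subgroup.mem_normalizer_iff_map_conj_eq] at h2 ⊢
      rw [hB', Subgroup.map_map]
      conv_rhs => rw [← h2, Subgroup.map_map]
      congr 1; ext; simp [mul_assoc]
    have hinf : B' ⊓ B = ⊥ := (key g B rfl w).resolve_left hwN'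
    have hcomm : ∀ s ∈ B, ∀ t ∈ B', s * t = t * s := by
      intro s hs t ht
      have hm : s * t * s⁻¹ * t⁻¹ ∈ B' ⊓ B := by
        refine ⟨B'.mul_mem ((Subgroup.mem_normalizer_iff.1 (hBN' s hs) t).1 ht) (B'.inv_mem ht), ?_⟩
        rw [show s * t * s⁻¹ * t⁻¹ = s * (t * s⁻¹ * t⁻¹) by group]
        exact B.mul_mem hs ((Subgroup.mem_normalizer_iff.1 (hB'N t ht) _).1 (B.inv_mem hs))
      rw [hinf, Subgroup.mem_bot, mul_inv_eq_one, mul_inv_eq_iff_eq_mul] at hm
      exact hm
    have hB'g : B' = (A.map (MulAut.conj g).toMonoidHom).map (MulAut.conj (w : G)).toMonoidHom := rfl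
    have heq := hb (g⁻¹ * (w : G) * g) fun s hs t ht => by
      obtain ⟨t', ht', rfl⟩ := ht
      have h1 := hcomm (g * s * g⁻¹) ⟨s, hs, rfl⟩ ((w : G) * (g * t' * g⁻¹) * (w : G)⁻¹)
        ⟨_, ⟨t', ht', rfl⟩, rfl⟩
      have h2 := congrArg (fun u => g⁻¹ * u * g) h1
      simpa [mul_assoc] using h2
    apply hwN'
    rw [Subgroup.mem_normalizer_iff_map_conj_eq]
    have h3 := congrArg (Subgroup.map (MulAut.conj g).toMonoidHom) heq
    rw [Subgroup.map_map] at h3
    rw [hB, Subgroup.map_map]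
    refine Eq.trans ?_ h3
    congr 1; ext; simp [mul_assoc]
  have hinf : B ⊓ A = ⊥ := (hTI g).resolve_right hne
  refine hne (hb g fun s hs t ht => ?_)
  have hm : s * t * s⁻¹ * t⁻¹ ∈ B ⊓ A := by
    refine ⟨B.mul_mem ((Subgroup.mem_normalizer_iff.1 (hAB hs) t).1 ht) (B.inv_mem ht), ?_⟩
    rw [show s * t * s⁻¹ * t⁻¹ = s * (t * s⁻¹ * t⁻¹) by group]
    exact A.mul_mem hs ((Subgroup.mem_normalizer_iff.1 (hBA ht) _).1 (A.inv_mem hs))
  rw [hinf, Subgroup.mem_bot, mul_inv_eq_one, mul_inv_eq_iff_eq_mul] at hm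
  exact hm

end Cfsg.Agent.S1177
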