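import Cfsg.Statements.S1178
import Cfsg.Agent.Lib.TwoFusion.IsolatedInvolution

set_option autoImplicit false
open Cfsg

namespace Cfsg.Agent.S1178

/-- Let A be a subgroup of a Sylow 2-subgroup S of the finite group G which is weakly closed in S. If a conjugate g A g⁻¹ commutes elementwise with A, then g A g⁻¹ = A. -/
theorem result {G : Type*} [Group G] [Finite G] (S : Sylow 2 G) (A : Subgroup G) (hW : Cfsg.IsWeaklyClosed A (S : Subgroup G)) (g : G) (hc : ∀ a ∈ A, ∀ b ∈ A.map (MulAut.conj g).toMonoidHom, a * b = b * a) : A.map (MulAut.conj g).toMonoidHom = A := by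
  have : Fact (Nat.Prime 2) := ⟨Nat.prime_two⟩
  set B := A.map (MulAut.conj g).toMonoidHom with hB
  have hAp : IsPGroup 2 A := S.2.to_le hW.1
  have hBA : B ≤ Subgroup.normalizer (A : Set G) := fun b hb => by
    rw [Subgroup.mem_normalizer_iff]
    intro t
    constructor
    · intro ht
      rwa [← hc t ht b hb, mul_inv_cancel_right]
    · intro ht
      have h1 := hc _ ht b hb
      rw [show b * t * b⁻¹ * b = b * t by group] at h1
      exact (mul_left_cancel h1 : t = b * t * b⁻¹) ▸ ht
  obtain ⟨R, hR⟩ := ((hAp.map (MulAut.conj g).toMonoidHom).to_sup_of_normal_right' hAp hBA).exists_le_sylow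
  obtain ⟨h, hh⟩ := MulAction.exists_smul_eq G R S
  have hfix : ∀ u : G, A.map (MulAut.conj u).toMonoidHom ≤ R →
      A.map (MulAut.conj (h * u)).toMonoidHom = A := fun u hu => hW.2 _ (by
    rintro _ ⟨t, ht, rfl⟩
    rw [← hh, Sylow.coe_subgroup_smul]
    have := Subgroup.smul_mem_pointwise_smul _ (MulAut.conj h) _ (hu ⟨t, ht, rfl⟩)
    simpa [mul_assoc] using this)
  have h1 := hfix g (le_sup_left.trans hR)
  have h2 := hfix 1 (by
    rw [map_one]
    refine le_trans ?_ (le_sup_right.trans hR)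
    rintro _ ⟨t, ht, rfl⟩; exact ht)
  have h3 := congrArg (Subgroup.map (MulAut.conj h⁻¹).toMonoidHom) (h1.trans h2.symm)
  rw [Subgroup.map_map, Subgroup.map_map] at h3
  rw [hB]
  refine Eq.trans (Eq.trans ?_ h3) ?_
  · congr 1; ext; simp [mul_assoc]
  · ext; simp [mul_assoc]

end Cfsg.Agent.S1178
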