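import Cfsg.Statements.S1181
import Cfsg.Agent.Lib.TwoFusion.IsolatedInvolution

set_option autoImplicit false
open Cfsg

namespace Cfsg.Agent.S1181

/-- Let z be an isolated involution of the finite group G and N a normal subgroup with z ∉ N. Then the centralizer of zN in G/N is the image of C_G(z), and zN is an isolated involution of G/N. -/
theorem result {G : Type*} [Group G] [Finite G] (z : G) (hz : Cfsg.IsIsolatedInvolution z) (N : Subgroup G) [N.Normal] (hzN : z ∉ N) : Subgroup.centralizer ({(QuotientGroup.mk z : G ⧸ N)} : Set (G ⧸ N)) = (Subgroup.centralizer ({z} : Set G)).map (QuotientGroup.mk' N) ∧ Cfsg.IsIsolatedInvolution (QuotientGroup.mk z : G ⧸ N) := by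
  have : Fact (Nat.Prime 2) := ⟨Nat.prime_two⟩
  have hiso := CfsgLib.TwoGroupTricks.isolated_quotient (p := 2)
    (CfsgLib.TwoFusion.orderOf_pow_two hz) hz.2 N
  refine ⟨le_antisymm ?_ ?_, ⟨?_, hiso⟩⟩
  · intro q
    induction q using QuotientGroup.induction_on with
    | H g =>
      intro hq
      rw [Subgroup.mem_centralizer_singleton_iff] at hq
      have hzmem : z ∈ N ⊔ Subgroup.zpowers z := Subgroup.mem_sup_right (Subgroup.mem_zpowers z)
      have hgz : g * z * g⁻¹ ∈ N ⊔ Subgroup.zpowers z := by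
        have h1 : (g * z * g⁻¹) * z⁻¹ ∈ N := by
          rw [← QuotientGroup.eq_one_iff, QuotientGroup.mk_mul, QuotientGroup.mk_mul,
            QuotientGroup.mk_mul, QuotientGroup.mk_inv, QuotientGroup.mk_inv, hq,
            mul_inv_cancel_right, mul_inv_cancel]
        have := mul_mem (Subgroup.mem_sup_left (T := Subgroup.zpowers z) h1) hzmem
        rwa [inv_mul_cancel_right] at this
      obtain ⟨l, hl, hlz⟩ := CfsgLib.TwoGroupTricks.exists_mem_conj_eq (p := 2)
        (CfsgLib.TwoFusion.orderOf_pow_two hz) hz.2 hzmem hgz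
      rw [Subgroup.mem_sup_of_normal_left] at hl
      obtain ⟨k, hk, w, hw, rfl⟩ := hl
      obtain ⟨i, rfl⟩ := Subgroup.mem_zpowers_iff.1 hw
      have hc : Commute (k * z ^ i * g) z := mul_inv_eq_iff_eq_mul.1 hlz
      refine ⟨(z ^ i)⁻¹ * (k * z ^ i * g), ?_, ?_⟩
      · exact Subgroup.mem_centralizer_singleton_iff.2
          (((Commute.self_zpow z i).symm.inv_left).mul_left hc).eq
      · have hk1 : (QuotientGroup.mk k : G ⧸ N) = 1 := (QuotientGroup.eq_one_iff k).2 hk
        simp [hk1, mul_assoc]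
  · rintro _ ⟨c, hc, rfl⟩
    rw [Subgroup.mem_centralizer_singleton_iff, QuotientGroup.mk'_apply, ← QuotientGroup.mk_mul,
      ← QuotientGroup.mk_mul, Subgroup.mem_centralizer_singleton_iff.1 hc]
  · refine orderOf_eq_prime ?_ fun h => hzN ((QuotientGroup.eq_one_iff z).1 h)
    rw [← QuotientGroup.mk_pow, ← hz.1, pow_orderOf_eq_one, QuotientGroup.mk_one]

end Cfsg.Agent.S1181
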