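import Cfsg.Statements.S1183
import Cfsg.Agent.Lib.TwoFusion.IsolatedInvolution
import Cfsg.Agent.Lib.Transfer.Fusion

set_option autoImplicit false
open Cfsg

namespace Cfsg.Agent.S1183

/-- Let z be an isolated involution of the finite group G and C = C_G(z). Then the subgroup of G generated by its elements of odd order is all of G if and only if the subgroup of C generated by its elements of odd order is all of C. -/
theorem result {G : Type*} [Group G] [Finite G] (z : G) (hz : Cfsg.IsIsolatedInvolution z) : Cfsg.pResidual 2 G = ⊤ ↔ Cfsg.pResidual 2 ↥(Subgroup.centralizer ({z} : Set G)) = ⊤ := by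
  have : Fact (Nat.Prime 2) := ⟨Nat.prime_two⟩
  set C := Subgroup.centralizer ({z} : Set G) with hC
  obtain ⟨P, hP⟩ := (CfsgLib.TwoGroupTricks.isPGroup_zpowers (p := 2)
    (CfsgLib.TwoFusion.orderOf_pow_two hz)).exists_le_sylow
  have hPC : (P : Subgroup G) ≤ C :=
    CfsgLib.TwoGroupTricks.le_centralizer_of_mem hz.2 P.2 (hP (Subgroup.mem_zpowers z))
  have hcom : ∀ t ∈ (P : Subgroup G), Commute t z := fun t ht =>
    Subgroup.mem_centralizer_singleton_iff.1 (hPC ht)
  have hctrl : ∀ x ∈ (P : Subgroup G), ∀ u : G, u * x * u⁻¹ ∈ (P : Subgroup G) →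
      ∃ w ∈ C, w * x * w⁻¹ = u * x * u⁻¹ := fun x hx u hu => by
    obtain ⟨c, -, hc, he⟩ := CfsgLib.TwoFusion.exists_commute_conj hz (H := ⊤)
      (Subgroup.le_normalizer (Subgroup.mem_top z)) (hcom x hx) (hcom _ hu) (Subgroup.mem_top u) rfl
    exact ⟨c, Subgroup.mem_centralizer_singleton_iff.2 hc.eq, he⟩
  have heq := CfsgLib.Transfer.subgroupOf_pResidual_eq_of_focal_le P hPC
    ((CfsgLib.Transfer.focalSubgroup_le_commutator_of_control hctrl).trans
      (Subgroup.commutator_mono hPC le_rfl))
  constructor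
  · intro h
    rw [← heq, h, Subgroup.top_subgroupOf]
  · intro h
    rw [h, Subgroup.subgroupOf_eq_top] at heq
    rw [← top_le_iff]
    exact (CfsgLib.Transfer.sylow_sup_pResidual_eq_top P).ge.trans (sup_le (hPC.trans heq) le_rfl)

end Cfsg.Agent.S1183
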