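import Cfsg.Statements.S1184
import Cfsg.Agent.Lib.TwoFusion.IsolatedInvolution

set_option autoImplicit false
open Cfsg

namespace Cfsg.Agent.S1184

/-- Let z be an isolated involution of the finite group G. If s and t are distinct conjugates of z, then st does not commute with z. -/
theorem result {G : Type*} [Group G] [Finite G] (z : G) (hz : Cfsg.IsIsolatedInvolution z) (g h : G) (hne : g * z * g⁻¹ ≠ h * z * h⁻¹) : ¬ Commute (g * z * g⁻¹ * (h * z * h⁻¹)) z := by
  have : Fact (Nat.Prime 2) := ⟨Nat.prime_two⟩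
  intro hcomm
  set a := g * z * g⁻¹ with ha
  set b := h * z * h⁻¹ with hb
  have hza := CfsgLib.TwoFusion.isolated_conj hz g
  have hzb := CfsgLib.TwoFusion.isolated_conj hz h
  rw [← ha] at hza
  rw [← hb] at hzb
  set p := a * b with hp
  have hinv : a * p * a⁻¹ = p⁻¹ := CfsgLib.Involutions.conj_mul_eq_inv hza.1 hzb.1
  have hN : ∀ t : G, t * p * t⁻¹ ∈ Subgroup.zpowers p → t⁻¹ * p * t ∈ Subgroup.zpowers p →
      t ∈ Subgroup.normalizer ((Subgroup.zpowers p : Subgroup G) : Set G) := by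
    intro t h1 h2
    rw [Subgroup.mem_normalizer_iff]
    intro u
    constructor
    · intro hu
      obtain ⟨i, rfl⟩ := Subgroup.mem_zpowers_iff.1 hu
      rw [← conj_zpow]; exact Subgroup.zpow_mem _ h1 i
    · intro hu
      obtain ⟨i, hi⟩ := Subgroup.mem_zpowers_iff.1 hu
      have : u = (t⁻¹ * p * t) ^ i := by
        rw [show t⁻¹ * p * t = t⁻¹ * p * t⁻¹⁻¹ by group, conj_zpow, hi]; group
      rw [this]; exact Subgroup.zpow_mem _ h2 i
  have haN : a ∈ Subgroup.normalizer ((Subgroup.zpowers p : Subgroup G) : Set G) := by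
    refine hN a ?_ ?_
    · rw [hinv]; exact inv_mem (Subgroup.mem_zpowers p)
    · have h3 : a⁻¹ * p * a = p⁻¹ := by
        rw [CfsgLib.Involutions.inv_eq_self hza.1]
        have := hinv; rwa [CfsgLib.Involutions.inv_eq_self hza.1] at this
      rw [h3]; exact inv_mem (Subgroup.mem_zpowers p)
  have hzNm : z ∈ Subgroup.normalizer ((Subgroup.zpowers p : Subgroup G) : Set G) := by
    refine hN z ?_ ?_
    · rw [← hcomm.eq, mul_inv_cancel_right]; exact Subgroup.mem_zpowers p
    · rw [mul_assoc, hcomm.eq, ← mul_assoc, inv_mul_cancel, one_mul]; exact Subgroup.mem_zpowers p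
  obtain ⟨l, hl, he⟩ := CfsgLib.TwoGroupTricks.exists_mem_conj_eq (p := 2)
    (CfsgLib.TwoFusion.orderOf_pow_two hz) hz.2 hzNm haN
  have he' : l * a * l⁻¹ = z := by
    rw [ha]; conv_rhs => rw [← he]
    group
  obtain ⟨i, hi⟩ := Subgroup.mem_zpowers_iff.1
    ((Subgroup.mem_normalizer_iff.1 hl p).1 (Subgroup.mem_zpowers p))
  have h4 : Commute (l * a * l⁻¹) (l * p * l⁻¹) := by
    rw [he', ← hi]; exact (hcomm.symm.zpow_right i)
  have h5 : Commute a p := by
    have := h4.map (MulAut.conj l⁻¹).toMonoidHom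
    simpa [mul_assoc] using this
  rw [h5.eq, mul_inv_cancel_right] at hinv
  have h6 : Commute a b := by
    rw [hp, mul_inv_rev, CfsgLib.Involutions.inv_eq_self hza.1,
      CfsgLib.Involutions.inv_eq_self hzb.1] at hinv
    exact hinv
  have h7 : b = h * g⁻¹ * a * (h * g⁻¹)⁻¹ := by rw [ha, hb]; group
  exact hne (((hza.2 (h * g⁻¹) (h7 ▸ h6)).symm).trans h7.symm)

end Cfsg.Agent.S1184
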