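import Cfsg.Statements.S1185
import Cfsg.Agent.Lib.TwoFusion.IsolatedInvolution

set_option autoImplicit false
open Cfsg

namespace Cfsg.Agent.S1185

/-- Let z be an isolated involution of the finite group G with centralizer C. Then for every g ∈ G there is exactly one element k in the coset gC that has odd order and is inverted by z. -/
theorem result {G : Type*} [Group G] [Finite G] (z : G) (hz : Cfsg.IsIsolatedInvolution z) (g : G) : ∃! k : G, (Odd (orderOf k) ∧ z * k * z⁻¹ = k⁻¹) ∧ g⁻¹ * k ∈ Subgroup.centralizer ({z} : Set G) := by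
  have hc : IsConj z (g * z * g⁻¹) := isConj_iff.2 ⟨g, rfl⟩
  set t := g * z * g⁻¹ with ht
  have htz : IsConj z (t * z * z) := by rwa [mul_assoc, CfsgLib.TwoFusion.mul_self hz, mul_one]
  obtain ⟨ho, hi⟩ := CfsgLib.TwoFusion.inverted_of_isConj hz htz
  refine ⟨CfsgLib.TwoFusion.oddRoot (t * z), ⟨⟨CfsgLib.TwoFusion.odd_oddRoot ho, ?_⟩, ?_⟩, ?_⟩
  · rw [CfsgLib.TwoFusion.conj_oddRoot, hi, CfsgLib.TwoFusion.inv_oddRoot]
  · rw [Subgroup.mem_centralizer_singleton_iff]
    set r := CfsgLib.TwoFusion.oddRoot (t * z) with hr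
    have h1 : z * r * z⁻¹ = r⁻¹ := by
      rw [hr, CfsgLib.TwoFusion.conj_oddRoot, hi, CfsgLib.TwoFusion.inv_oddRoot]
    have h2 : r * r = t * z := by rw [← pow_two, hr, CfsgLib.TwoFusion.oddRoot_sq ho]
    have h3 : r * z * r⁻¹ = t := by
      calc r * z * r⁻¹ = r * z * (z * r * z⁻¹) := by rw [h1]
        _ = r * (z * z) * r * z⁻¹ := by group
        _ = t := by rw [CfsgLib.TwoFusion.mul_self hz, mul_one, h2, mul_inv_cancel_right]
    calc g⁻¹ * r * z = g⁻¹ * (r * z * r⁻¹) * r := by group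
      _ = z * (g⁻¹ * r) := by rw [h3, ht]; group
  · rintro k ⟨⟨hk, hki⟩, hgk⟩
    refine CfsgLib.TwoFusion.eq_of_sq_eq hk (CfsgLib.TwoFusion.odd_oddRoot ho) ?_
    rw [CfsgLib.TwoFusion.oddRoot_sq ho]
    have h3 := Subgroup.mem_centralizer_singleton_iff.1 hgk
    have h4 : z * k⁻¹ * z⁻¹ = k := by
      have h5 := congrArg (fun u => u⁻¹) hki
      simp only [mul_inv_rev, inv_inv, ← mul_assoc] at h5
      exact h5
    calc k ^ 2 = k * (z * k⁻¹ * z⁻¹) := by rw [h4, pow_two]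
      _ = g * (g⁻¹ * k * z) * k⁻¹ * z⁻¹ := by group
      _ = t * z⁻¹ := by rw [h3, ht]; group
      _ = t * z := by rw [CfsgLib.TwoFusion.inv_self hz]

end Cfsg.Agent.S1185
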