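import Cfsg.Statements.S1186
import Cfsg.Agent.Lib.TwoFusion.IsolatedInvolution
import Cfsg.Agent.S1185

set_option autoImplicit false
open Cfsg

namespace Cfsg.Agent.S1186

/-- Let z be an isolated involution of the finite group G, C = C_G(z), K the set of elements of odd order inverted by z, and s an involution of C. Then |G| = |C| · |C_K(sz)| · |C_K(s)|. -/
theorem result {G : Type*} [Group G] [Finite G] (z : G) (hz : Cfsg.IsIsolatedInvolution z) (s : G) (hs : orderOf s = 2) (hsz : Commute s z) : Nat.card G = Nat.card (Subgroup.centralizer ({z} : Set G)) * Nat.card {k : G // Odd (orderOf k) ∧ z * k * z⁻¹ = k⁻¹ ∧ Commute k (s * z)} * Nat.card {k : G // Odd (orderOf k) ∧ z * k * z⁻¹ = k⁻¹ ∧ Commute k s} := by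
  classical
  let I := {k : G // Odd (orderOf k) ∧ z * k * z⁻¹ = k⁻¹}
  have hs1 : s * s = 1 := by rw [← pow_two, ← hs, pow_orderOf_eq_one]
  have hsi : s⁻¹ = s := inv_eq_of_mul_eq_one_left hs1
  have hzz := CfsgLib.TwoFusion.mul_self hz
  have hzi := CfsgLib.TwoFusion.inv_self hz
  let σ : MulAut G := MulAut.conj s
  have hσσ : ∀ k, σ (σ k) = k := fun k => by
    show s * (s * k * s⁻¹) * s⁻¹ = k
    rw [hsi, show s * (s * k * s) * s = (s * s) * k * (s * s) by group, hs1, one_mul, mul_one]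
  have hσz : σ z = z := by show s * z * s⁻¹ = z; rw [hsz.eq, mul_inv_cancel_right]
  -- the coset space is in bijection with the inverted elements of odd order
  have hinj : ∀ k k' : I, (k.1)⁻¹ * k'.1 ∈ Subgroup.centralizer ({z} : Set G) → k = k' := by
    rintro ⟨k, hk, hki⟩ ⟨k', hk', hki'⟩ hm
    apply Subtype.ext
    refine CfsgLib.TwoFusion.eq_of_sq_eq hk hk' ?_
    have hsq : ∀ u : G, z * u * z⁻¹ = u⁻¹ → u ^ 2 = u * z * u⁻¹ * z := fun u hu => by
      have h5 := congrArg (fun v => v⁻¹) hu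
      simp only [mul_inv_rev, inv_inv, ← mul_assoc, hzi] at h5
      rw [show u * z * u⁻¹ * z = u * (z * u⁻¹ * z) by group, h5, pow_two]
    rw [hsq k hki, hsq k' hki']
    have h3 := Subgroup.mem_centralizer_singleton_iff.1 hm
    congr 1
    calc k * z * k⁻¹ = k * (z * (k⁻¹ * k')) * k'⁻¹ := by group
      _ = k' * z * k'⁻¹ := by rw [← h3]; group
  have hcardI : Nat.card G = Nat.card (Subgroup.centralizer ({z} : Set G)) * Nat.card I := by
    rw [← (Subgroup.centralizer ({z} : Set G)).card_mul_index]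
    congr 1
    refine (Nat.card_congr (Equiv.ofBijective (fun k : I =>
      (QuotientGroup.mk k.1 : G ⧸ Subgroup.centralizer ({z} : Set G))) ⟨fun k k' he => ?_, ?_⟩)).symm
    · exact hinj k k' (QuotientGroup.eq.1 he)
    · intro q
      induction q using QuotientGroup.induction_on with
      | H g =>
        obtain ⟨k, ⟨hk, hkc⟩, -⟩ := S1185.result z hz g
        exact ⟨⟨k, hk⟩, (QuotientGroup.eq.2 hkc).symm⟩
  rw [hcardI, mul_assoc]
  congr 1
  -- decomposition `k = a b a`
  let A := {k : G // Odd (orderOf k) ∧ z * k * z⁻¹ = k⁻¹ ∧ Commute k s}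
  let B := {k : G // Odd (orderOf k) ∧ z * k * z⁻¹ = k⁻¹ ∧ Commute k (s * z)}
  have hσA : ∀ a : A, σ a.1 = a.1 := fun a => by
    show s * a.1 * s⁻¹ = a.1; rw [← a.2.2.2.eq, mul_inv_cancel_right]
  have hσB : ∀ b : B, σ b.1 = b.1⁻¹ := fun b => by
    have h4 : (s * z) * b.1 * (s * z)⁻¹ = b.1 := by rw [← b.2.2.2.eq, mul_inv_cancel_right]
    show s * b.1 * s⁻¹ = b.1⁻¹
    have h5 : s * (z * b.1 * z⁻¹) * s⁻¹ = b.1 :=
      (by group : s * (z * b.1 * z⁻¹) * s⁻¹ = (s * z) * b.1 * (s * z)⁻¹).trans h4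
    rw [b.2.2.1] at h5
    rw [show s * b.1 * s⁻¹ = (s * b.1⁻¹ * s⁻¹)⁻¹ by group, h5]
  have hmem : ∀ (a : A) (b : B), IsConj z (a.1 * b.1 * a.1 * z) := fun a b => by
    refine (CfsgLib.TwoFusion.isConj_mul_right hz b.2.1 b.2.2.1).trans (isConj_iff.2 ⟨a.1, ?_⟩)
    rw [← a.2.2.1]
    calc a.1 * (b.1 * z) * (z * a.1 * z⁻¹) = a.1 * b.1 * (z * z) * a.1 * z⁻¹ := by group
      _ = a.1 * b.1 * a.1 * z := by
        rw [hzz, mul_one]; exact congrArg (fun t => a.1 * b.1 * a.1 * t) hzi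
  let f : B × A → I := fun p => ⟨p.2.1 * p.1.1 * p.2.1,
    CfsgLib.TwoFusion.inverted_of_isConj hz (hmem p.2 p.1)⟩
  have hmid : ∀ (a : A) (b : B), (a.1 * a.1 * (a.1 * b.1 * a.1)⁻¹) ^ 2 =
      σ (a.1 * b.1 * a.1) * (a.1 * b.1 * a.1)⁻¹ := fun a b => by
    rw [map_mul, map_mul, hσA, hσB, pow_two]
    group
  have hf : Function.Bijective f := by
    constructor
    · rintro ⟨b, a⟩ ⟨b', a'⟩ he
      have hk : a.1 * b.1 * a.1 = a'.1 * b'.1 * a'.1 := congrArg Subtype.val he
      have hodd : ∀ (a : A) (b : B), Odd (orderOf (a.1 * a.1 * (a.1 * b.1 * a.1)⁻¹)) := by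
        intro a b
        have h1 : IsConj z (a.1 * a.1 * z) := isConj_iff.2 ⟨a.1, by
          calc a.1 * z * a.1⁻¹ = a.1 * z * (z * a.1 * z⁻¹) := by rw [a.2.2.1]
            _ = a.1 * (z * z) * a.1 * z⁻¹ := by group
            _ = a.1 * a.1 * z := by
              rw [hzz, mul_one]; exact congrArg (fun t => a.1 * a.1 * t) hzi⟩
        have h2 := CfsgLib.TwoFusion.odd_mul_of_isConj hz h1 (hmem a b)
        have h3 : (a.1 * b.1 * a.1 * z) = (a.1 * b.1 * a.1 * z)⁻¹ :=
          (CfsgLib.Involutions.inv_eq_self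
            ((CfsgLib.Involutions.orderOf_eq_of_isConj (hmem a b)).symm.trans hz.1)).symm
        rw [h3, show a.1 * a.1 * z * (a.1 * b.1 * a.1 * z)⁻¹ = a.1 * a.1 * (a.1 * b.1 * a.1)⁻¹ by
          group] at h2
        exact h2
      have h4 := CfsgLib.TwoFusion.eq_of_sq_eq (hodd a b) (hodd a' b')
        (by rw [hmid, hmid, hk])
      rw [hk] at h4
      have h5 : a.1 = a'.1 := CfsgLib.TwoFusion.eq_of_sq_eq a.2.1 a'.2.1 (by
        rw [pow_two, pow_two]; exact mul_right_cancel h4)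
      rw [h5] at hk
      exact Prod.ext (Subtype.ext (mul_left_cancel (mul_right_cancel hk))) (Subtype.ext h5)
    · rintro ⟨k, hk, hki⟩
      have hσk : IsConj z (σ k * z) := by
        have := σ.toMonoidHom.map_isConj (CfsgLib.TwoFusion.isConj_mul_right hz hk hki)
        simpa [hσz] using this
      have hkz := CfsgLib.TwoFusion.isConj_mul_right hz hk hki
      have hkzi : (k * z)⁻¹ = k * z := CfsgLib.Involutions.inv_eq_self
        ((CfsgLib.Involutions.orderOf_eq_of_isConj hkz).symm.trans hz.1)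
      set d := σ k * k⁻¹ with hd
      have hdodd : Odd (orderOf d) := by
        have h1 := CfsgLib.TwoFusion.odd_mul_of_isConj hz hσk hkz
        rw [← hkzi, show σ k * z * (k * z)⁻¹ = d by rw [hd]; group] at h1
        exact h1
      set q := CfsgLib.TwoFusion.oddRoot d with hq
      have hq2 : q * q = d := by rw [← pow_two, hq, CfsgLib.TwoFusion.oddRoot_sq hdodd]
      have hσd : σ d = d⁻¹ := by rw [hd, map_mul, map_inv, hσσ, mul_inv_rev, inv_inv]
      have hσq : σ q = q⁻¹ := by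
        rw [hq, CfsgLib.TwoFusion.map_oddRoot, hσd, CfsgLib.TwoFusion.inv_oddRoot]
      have hσe : σ (q * k) = q * k := by
        rw [map_mul, hσq, show σ k = q * q * k by rw [hq2, hd, inv_mul_cancel_right]]
        group
      have hdkz : (k * z) * d * (k * z)⁻¹ = d⁻¹ := by
        have key : ∀ u v : G, u * u = 1 → v * v = 1 →
            u * (v * u⁻¹) * u⁻¹ = (v * u⁻¹)⁻¹ := fun u v hu hv => by
          rw [mul_inv_rev, inv_inv, inv_eq_of_mul_eq_one_left hv, inv_eq_of_mul_eq_one_left hu,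
            mul_assoc u, mul_assoc v, hu, mul_one]
        have hd' : d = σ k * z * (k * z)⁻¹ := by rw [hd]; group
        rw [hd']
        exact key _ _
          (CfsgLib.Involutions.mul_self_eq_one
            ((CfsgLib.Involutions.orderOf_eq_of_isConj hkz).symm.trans hz.1))
          (CfsgLib.Involutions.mul_self_eq_one
            ((CfsgLib.Involutions.orderOf_eq_of_isConj hσk).symm.trans hz.1))
      have hez : IsConj z (q * k * z) := by
        have hr : (k * z) * CfsgLib.TwoFusion.oddRoot q * (k * z)⁻¹ =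
            (CfsgLib.TwoFusion.oddRoot q)⁻¹ := by
          rw [CfsgLib.TwoFusion.conj_oddRoot, hq, CfsgLib.TwoFusion.conj_oddRoot, hdkz,
            CfsgLib.TwoFusion.inv_oddRoot, CfsgLib.TwoFusion.inv_oddRoot]
        set r := CfsgLib.TwoFusion.oddRoot q with hr'
        refine hkz.trans (isConj_iff.2 ⟨r, ?_⟩)
        have hrr : r * r = q := by
          rw [← pow_two, hr', CfsgLib.TwoFusion.oddRoot_sq (CfsgLib.TwoFusion.odd_oddRoot hdodd)]
        calc r * (k * z) * r⁻¹ = r * (k * z) * ((k * z) * r * (k * z)⁻¹) := by rw [hr]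
          _ = r * ((k * z) * (k * z)⁻¹) * r * (k * z)⁻¹ := by nth_rw 2 [hkzi]; group
          _ = q * k * z := by rw [mul_inv_cancel, mul_one, hrr, hkzi, mul_assoc]
      obtain ⟨heo, hei⟩ := CfsgLib.TwoFusion.inverted_of_isConj hz hez
      set a := CfsgLib.TwoFusion.oddRoot (q * k) with ha
      have haa : a * a = q * k := by rw [← pow_two, ha, CfsgLib.TwoFusion.oddRoot_sq heo]
      have hai : z * a * z⁻¹ = a⁻¹ := by
        rw [ha, CfsgLib.TwoFusion.conj_oddRoot, hei, CfsgLib.TwoFusion.inv_oddRoot]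
      have hσa : σ a = a := by rw [ha, CfsgLib.TwoFusion.map_oddRoot, hσe]
      have hbz : IsConj z (a⁻¹ * k * a⁻¹ * z) := hkz.trans (isConj_iff.2 ⟨a⁻¹, by
        rw [inv_inv]
        have h1 : z * a = a⁻¹ * z := by rw [← hai, inv_mul_cancel_right]
        rw [mul_assoc _ _ a, mul_assoc k z a, h1]; group⟩)
      obtain ⟨hbo, hbi⟩ := CfsgLib.TwoFusion.inverted_of_isConj hz hbz
      have hbσ : σ (a⁻¹ * k * a⁻¹) = (a⁻¹ * k * a⁻¹)⁻¹ := by
        have h2 : σ k = q * q * k := by rw [hq2, hd, inv_mul_cancel_right]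
        have h3 : q * q * k = a * a * k⁻¹ * (a * a) := by rw [haa]; group
        rw [map_mul, map_mul, map_inv, hσa, h2, h3]; group
      refine ⟨(⟨_, hbo, hbi, ?_⟩, ⟨a, CfsgLib.TwoFusion.odd_oddRoot heo, hai, ?_⟩), Subtype.ext ?_⟩
      · set b := a⁻¹ * k * a⁻¹
        have h1 : (s * z) * b * (s * z)⁻¹ = b := by
          rw [show (s * z) * b * (s * z)⁻¹ = s * (z * b * z⁻¹) * s⁻¹ by group, hbi]
          exact (map_inv σ b).trans (by rw [hbσ, inv_inv])
        exact (mul_inv_eq_iff_eq_mul.1 h1).symm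
      · exact (mul_inv_eq_iff_eq_mul.1 (show s * a * s⁻¹ = a from hσa)).symm
      · show a * (a⁻¹ * k * a⁻¹) * a = k
        group
  rw [← Nat.card_prod]
  exact (Nat.card_congr (Equiv.ofBijective f hf)).symm

end Cfsg.Agent.S1186
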