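import Cfsg.Statements.S1228
import Cfsg.Agent.Lib.TwoFusion.ElemCent

set_option autoImplicit false
open Cfsg

namespace Cfsg.Agent.S1228

/-- Let G be a finite group with a Sylow 2-subgroup T that is neither cyclic nor normal, such that the centralizer of every involution is an elementary abelian 2-group; put H = N_G(T), let u be an involution outside H and D = H ∩ uHu⁻¹. Then N_G(D) = D ⊔ ⟨u⟩, and a coset gH is fixed by every element of D exactly when gH = H or gH = uH. -/
theorem result {G : Type*} [Group G] [Finite G] (T : Sylow 2 G) (hnc : ¬ IsCyclic (T : Subgroup G)) (hnn : ¬ (T : Subgroup G).Normal) (hC : ∀ t : G, orderOf t = 2 → IsMulCommutative (Subgroup.centralizer ({t} : Set G)) ∧ ∀ c ∈ Subgroup.centralizer ({t} : Set G), c ^ 2 = 1) (u : G) (hu : orderOf u = 2) (huH : u ∉ Subgroup.normalizer ((T : Subgroup G) : Set G)) : Subgroup.normalizer ((Subgroup.normalizer ((T : Subgroup G) : Set G) ⊓ (Subgroup.normalizer ((T : Subgroup G) : Set G)).map (MulAut.conj u).toMonoidHom : Subgroup G) : Set G)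 = (Subgroup.normalizer ((T : Subgroup G) : Set G) ⊓ (Subgroup.normalizer ((T : Subgroup G) : Set G)).map (MulAut.conj u).toMonoidHom) ⊔ Subgroup.zpowers u ∧ ∀ g : G, ((∀ d ∈ Subgroup.normalizer ((T : Subgroup G) : Set G) ⊓ (Subgroup.normalizer ((T : Subgroup G) : Set G)).map (MulAut.conj u).toMonoidHom, d • (QuotientGroup.mk g : G ⧸ Subgroup.normalizer ((T : Subgroup G) : Set G)) = QuotientGroup.mk g) ↔ (QuotientGroup.mk g : G ⧸ Subgroup.normalizer ((T : Subgroup G) : Set G)) = QuotientGroup.mk 1 ∨ (QuotientGroup.mk g : G ⧸ Subgroup.normalizer ((T : Subgroup G) : Set G)) = QuotientGroup.mk u) := by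
  classical
  have E : CfsgLib.TwoFusion.ElemCentHyp T := ⟨hnc, hnn, hC⟩
  set x : G ⧸ Subgroup.normalizer ((T : Subgroup G) : Set G) := QuotientGroup.mk 1 with hxdef
  have hux : u • x ≠ x := fun h => huH (CfsgLib.TwoFusion.ElemCentHyp.smul_pt_eq_iff.mp h)
  have hmk : (QuotientGroup.mk u : G ⧸ Subgroup.normalizer ((T : Subgroup G) : Set G)) = u • x := by
    rw [hxdef, MulAction.Quotient.smul_mk, smul_eq_mul, mul_one]
  set D := E.twoPoint u with hD
  have hfix : ∀ d ∈ D, d • x = x ∧ d • u • x = u • x := fun d hd => E.mem_twoPoint.mp hd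
  show Subgroup.normalizer (D : Set G) = D ⊔ Subgroup.zpowers u ∧ _
  refine ⟨le_antisymm ?_ (sup_le Subgroup.le_normalizer ?_), fun g => ⟨fun h => ?_, ?_⟩⟩
  · intro g hg
    have hfixg : ∀ (w : G ⧸ Subgroup.normalizer ((T : Subgroup G) : Set G)), (∀ d ∈ D, d • w = w) → ∀ d ∈ D, d • g • w = g • w := by
      intro w hw d hd
      calc d • g • w = g • (g⁻¹ * d * g) • w := by rw [← mul_smul, ← mul_smul]; congr 1; group
        _ = g • w := by rw [hw _ ((Subgroup.mem_normalizer_iff''.mp hg d).mp hd)]
    rcases E.fix_twoPoint hu hux (hfixg x fun d hd => (hfix d hd).1) with h | h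
    · rcases E.fix_twoPoint hu hux (hfixg (u • x) fun d hd => (hfix d hd).2) with h' | h'
      · exact absurd (smul_left_cancel g (h'.trans h.symm)) hux
      · exact Subgroup.mem_sup_left (E.mem_twoPoint.mpr ⟨h, h'⟩)
    · have h2 : u * g ∈ D := by
        refine E.mem_twoPoint.mpr ⟨?_, ?_⟩
        · rw [mul_smul, h, CfsgLib.TwoFusion.smul_swap hu rfl]
        · rcases E.fix_twoPoint hu hux (hfixg (u • x) fun d hd => (hfix d hd).2) with h' | h'
          · rw [mul_smul, h']
          · exact absurd (smul_left_cancel g (h'.trans h.symm)) hux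
      have h3 := Subgroup.mul_mem_sup (Subgroup.mem_zpowers u) h2
      rw [← mul_assoc, CfsgLib.Involutions.mul_self_eq_one hu, one_mul, sup_comm] at h3
      exact h3
  · rw [Subgroup.zpowers_le, Subgroup.mem_normalizer_iff]
    intro d
    refine ⟨fun hd => ?_, fun hd => ?_⟩
    · rw [(E.inverts_and_card hu hux).1 d hd]
      exact inv_mem hd
    · have h2 := (E.inverts_and_card hu hux).1 _ hd
      rw [CfsgLib.Involutions.inv_eq_self hu] at h2 hd
      have h3 : u * (u * d * u) * u = d := by
        calc u * (u * d * u) * u = (u * u) * d * (u * u) := by group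
          _ = d := by rw [CfsgLib.Involutions.mul_self_eq_one hu, one_mul, mul_one]
      rw [h3] at h2
      rw [h2]
      exact inv_mem hd
  · rw [hmk]
    exact E.fix_twoPoint hu hux h
  · rintro (h | h) d hd <;> rw [h]
    · exact (hfix d hd).1
    · rw [hmk]; exact (hfix d hd).2

end Cfsg.Agent.S1228
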