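import Cfsg.Statements.S1231

set_option autoImplicit false
open Cfsg

namespace Cfsg.Agent.S1231

/-- Let H be a subgroup of the finite group G, p a prime, k ≥ 1, and P a Sylow p-subgroup of H whose p-rank is at least k. Then N_G(X) ≤ H for every subgroup X of P of p-rank at least k if and only if H ∩ gHg⁻¹ has p-rank less than k for every g ∉ H. -/
theorem result {G : Type*} [Group G] [Finite G] {p : ℕ} [Fact p.Prime] (k : ℕ) (hk : 1 ≤ k) (H : Subgroup G) (P : Sylow p ↥H) (hP : ¬ Cfsg.PRankLE p (k - 1) ↥(P : Subgroup ↥H)) : (∀ X : Subgroup G, X ≤ (P : Subgroup ↥H).map H.subtype → ¬ Cfsg.PRankLE p (k - 1) ↥X → Subgroup.normalizer (X : Set G) ≤ H) ↔ (∀ g : G, g ∉ H → Cfsg.PRankLE p (k - 1) ↥(H ⊓ H.map (MulAut.conj g).toMonoidHom)) := by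
  classical
  constructor
  · intro hX g hg
    by_contra hr
    set I := H ⊓ H.map (MulAut.conj g).toMonoidHom with hI
    obtain ⟨A, hA, hAp, hAc⟩ : ∃ A : Subgroup ↥I,
        IsMulCommutative A ∧ (∀ a ∈ A, a ^ p = 1) ∧ p ^ (k - 1) < Nat.card A := by
      simpa [Cfsg.PRankLE] using hr
    have hAP : IsPGroup p A := fun a => ⟨1, by rw [pow_one]; exact Subtype.ext (hAp a a.2)⟩
    obtain ⟨Q, hQ⟩ := hAP.exists_le_sylow
    -- conjugate a Sylow subgroup of the intersection into `P`
    have hQp : IsPGroup p (((Q : Subgroup I).map I.subtype).subgroupOf H) :=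
      (Q.2.map _).comap_of_injective H.subtype H.subtype_injective
    obtain ⟨R, hR⟩ := hQp.exists_le_sylow
    obtain ⟨h, hh⟩ := MulAction.exists_smul_eq H R P
    set f : G →* G := (MulAut.conj (h : G)).toMonoidHom
    have hf : Function.Injective f := (MulAut.conj (h : G)).injective
    set V : Subgroup G := ((Q : Subgroup I).map I.subtype).map f with hV
    have hVP : V ≤ (P : Subgroup H).map H.subtype := by
      rintro _ ⟨x, hx, rfl⟩
      obtain ⟨y, hy, rfl⟩ := id hx
      have h1 : (⟨(y : G), y.2.1⟩ : H) ∈ (R : Subgroup H) :=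
        hR (show (⟨(y : G), y.2.1⟩ : H) ∈ ((Q : Subgroup I).map I.subtype).subgroupOf H from
          ⟨y, hy, rfl⟩)
      refine ⟨h * ⟨(y : G), y.2.1⟩ * h⁻¹, ?_, by simp [f]⟩
      rw [← hh]
      exact Subgroup.smul_mem_pointwise_smul _ (MulAut.conj h) _ h1
    have hVrank : ¬ Cfsg.PRankLE p (k - 1) V := by
      intro hle
      let B : Subgroup G := (A.map I.subtype).map f
      have hBV : B ≤ V := Subgroup.map_mono (Subgroup.map_mono hQ)
      have hB : IsMulCommutative (B.subgroupOf V) := by
        constructor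
        constructor
        rintro ⟨⟨a, _⟩, ha⟩ ⟨⟨b, _⟩, hb⟩
        obtain ⟨a1, ⟨a', ha', hax⟩, hax'⟩ := id ha
        obtain ⟨b1, ⟨b', hb', hbx⟩, hbx'⟩ := id hb
        have : a' * b' = b' * a' :=
          congrArg Subtype.val (hA.is_comm.comm ⟨a', ha'⟩ ⟨b', hb'⟩)
        apply Subtype.ext
        apply Subtype.ext
        show a * b = b * a
        replace hax' : f a1 = a := hax'
        replace hbx' : f b1 = b := hbx'
        rw [← hax', ← hbx', ← hax, ← hbx, ← map_mul, ← map_mul, ← map_mul, ← map_mul, this]
      have := hle (B.subgroupOf V) hB (by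
        rintro ⟨a, _⟩ ha
        obtain ⟨a1, ⟨a', ha', hax⟩, hax'⟩ := id ha
        replace hax' : f a1 = a := hax'
        apply Subtype.ext
        show a ^ p = 1
        rw [← hax', ← hax, ← map_pow, ← map_pow, hAp a' ha', map_one, map_one])
      rw [Nat.card_congr (Subgroup.subgroupOfEquivOfLe hBV).toEquiv,
        Subgroup.card_map_of_injective hf, Subgroup.card_map_of_injective I.subtype_injective]
        at this
      omega
    have hNV := hX V hVP hVrank
    -- `g' = h g` is outside `H`, and `H'` is the corresponding conjugate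
    set g' : G := (h : G) * g with hg'
    have hg'H : g' ∉ H := fun hc => hg (by simpa [g'] using mul_mem (inv_mem h.2) hc)
    set H' : Subgroup G := H.map (MulAut.conj g').toMonoidHom with hH'
    have hVH' : V ≤ H' := by
      rintro _ ⟨_, ⟨y, _, rfl⟩, rfl⟩
      obtain ⟨z, hz, hz'⟩ := y.2.2
      exact ⟨z, hz, by simp [f, g', ← hz', mul_assoc]⟩
    have hcardV : Nat.card V = p ^ (Nat.card I).factorization p := by
      rw [hV, Subgroup.card_map_of_injective hf, Subgroup.card_map_of_injective I.subtype_injective]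
      exact Q.card_eq_multiplicity
    obtain ⟨W, hW⟩ : ∃ W : Sylow p H', V.subgroupOf H' ≤ W :=
      ((Q.2.map _).map f).comap_of_injective H'.subtype H'.subtype_injective |>.exists_le_sylow
    have hWeq : (W : Subgroup H') = V.subgroupOf H' := by
      by_contra hne
      have hlt : V.subgroupOf H' < (W : Subgroup H') := lt_of_le_of_ne hW (Ne.symm hne)
      haveI := W.2.isNilpotent
      have hlt' : (V.subgroupOf H').subgroupOf (W : Subgroup H') < ⊤ := by
        rw [lt_top_iff_ne_top, Ne, Subgroup.subgroupOf_eq_top]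
        exact fun hc => hne (le_antisymm hc hW)
      obtain ⟨⟨w, hwW⟩, hwN, hwV⟩ := SetLike.exists_of_lt
        ((Group.normalizerCondition_of_isNilpotent _) hlt')
      have hwN' : (w : G) ∈ Subgroup.normalizer (V : Set G) := by
        rw [Subgroup.mem_normalizer_iff] at hwN ⊢
        intro v
        constructor
        · intro hv
          exact (hwN ⟨⟨v, hVH' hv⟩, hW (show (⟨v, hVH' hv⟩ : H') ∈ V.subgroupOf H' from hv)⟩).mp hv
        · intro hv
          have hv1 : v ∈ H' := by
            have := mul_mem (mul_mem (inv_mem w.2) (hVH' hv)) w.2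
            simpa [mul_assoc] using this
          have hv2 : (⟨v, hv1⟩ : H') ∈ (W : Subgroup H') := by
            have h3 : w * ⟨v, hv1⟩ * w⁻¹ ∈ (W : Subgroup H') := hW hv
            have := mul_mem (mul_mem (inv_mem hwW) h3) hwW
            simpa [mul_assoc] using this
          exact (hwN ⟨⟨v, hv1⟩, hv2⟩).mpr hv
      have hwH : (w : G) ∈ H := hNV hwN'
      -- `V` together with `w` is a larger p-subgroup of `h I h⁻¹`
      set Y : Subgroup G := V ⊔ Subgroup.zpowers (w : G) with hY
      have hYW : Y ≤ (W : Subgroup H').map H'.subtype := by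
        refine sup_le ?_ (Subgroup.zpowers_le.mpr ⟨w, hwW, rfl⟩)
        intro v hv
        exact ⟨⟨v, hVH' hv⟩, hW hv, rfl⟩
      have hYp : IsPGroup p Y := (W.2.map _).to_le hYW
      have hYI : Y ≤ I.map f := by
        intro y hy
        have hy1 : y ∈ H' := Subgroup.map_subtype_le _ (hYW hy)
        have hy2 : y ∈ H := (sup_le (hVP.trans (Subgroup.map_subtype_le _))
          (Subgroup.zpowers_le.mpr hwH)) hy
        obtain ⟨z, hz, rfl⟩ := hy1
        refine ⟨g * z * g⁻¹, ⟨?_, z, hz, rfl⟩, by simp [f, g', mul_assoc]⟩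
        have := mul_mem (mul_mem (inv_mem h.2) hy2) h.2
        simpa [g', mul_assoc] using this
      have hdvd : Nat.card Y ∣ Nat.card I := by
        refine (Subgroup.card_dvd_of_le hYI).trans ?_
        rw [Subgroup.card_map_of_injective hf]
      obtain ⟨j, hj⟩ := hYp.exists_card_eq
      have hle : j ≤ (Nat.card I).factorization p :=
        ((Fact.out : p.Prime).pow_dvd_iff_le_factorization Nat.card_pos.ne').mp (hj ▸ hdvd)
      have hYeq : V = Y := Subgroup.eq_of_le_of_card_ge le_sup_left (by
        rw [hj, hcardV]; exact Nat.pow_le_pow_right (Fact.out : p.Prime).pos hle)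
      exact hwV (show (w : G) ∈ V from hYeq ▸ Subgroup.mem_sup_right (Subgroup.mem_zpowers _))
    set P₀ : Subgroup G := (P : Subgroup H).map H.subtype with hP₀
    have hP₀card : Nat.card P₀ = p ^ (Nat.card H).factorization p := by
      rw [hP₀, Subgroup.card_map_of_injective H.subtype_injective]
      exact P.card_eq_multiplicity
    have hcard' : Nat.card H' = Nat.card H :=
      Subgroup.card_map_of_injective (MulAut.conj g').injective
    have hVP₀ : V = P₀ := Subgroup.eq_of_le_of_card_ge hVP (by
      have h1 : Nat.card (W : Subgroup H') = Nat.card V := by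
        rw [hWeq]; exact Nat.card_congr (Subgroup.subgroupOfEquivOfLe hVH').toEquiv
      rw [hP₀card, ← h1, W.card_eq_multiplicity, hcard'])
    let e : H ≃* H' := H.equivMapOfInjective _ (MulAut.conj g').injective
    let P' : Sylow p H' := Sylow.ofCard ((P : Subgroup H).map e.toMonoidHom) (by
      rw [Subgroup.card_map_of_injective e.injective, hcard', P.card_eq_multiplicity])
    obtain ⟨x, hx⟩ := MulAction.exists_smul_eq H' P' W
    have hxg : (x : G) * g' ∈ H := by
      apply hX P₀ le_rfl (hVP₀ ▸ hVrank)
      have hle : P₀.map (MulAut.conj ((x : G) * g')).toMonoidHom ≤ P₀ := by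
        rintro _ ⟨_, ⟨y, hy, rfl⟩, rfl⟩
        have h1 : x * e y * x⁻¹ ∈ (W : Subgroup H') := by
          rw [← hx]
          exact Subgroup.smul_mem_pointwise_smul _ (MulAut.conj x) _ ⟨y, hy, rfl⟩
        rw [hWeq, Subgroup.mem_subgroupOf, hVP₀] at h1
        have e1 : ((e y : H') : G) = g' * (y : G) * g'⁻¹ := rfl
        simp only [Subgroup.coe_mul, Subgroup.coe_inv, e1] at h1
        simpa [mul_assoc] using h1
      have heq := Subgroup.eq_of_le_of_card_ge hle
        (le_of_eq (Subgroup.card_map_of_injective (MulAut.conj _).injective).symm)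
      rw [Subgroup.mem_normalizer_iff]
      intro a
      constructor
      · intro ha
        exact hle ⟨a, ha, rfl⟩
      · intro ha
        rw [← heq] at ha
        obtain ⟨b, hb, hb'⟩ := ha
        obtain rfl : b = a := (MulAut.conj ((x : G) * g')).injective hb'
        exact hb
    obtain ⟨z, hz, hz'⟩ := x.2
    apply hg'H
    rw [← hz'] at hxg
    simp only [MulEquiv.coe_toMonoidHom, MulAut.conj_apply] at hxg
    have : g' * z ∈ H := by simpa [mul_assoc] using hxg
    simpa using mul_mem this (inv_mem hz)
  · intro hg X hXP hXr g hgN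
    by_contra hgH
    apply hXr
    have hle : X ≤ H ⊓ H.map (MulAut.conj g).toMonoidHom := by
      intro x hx
      refine ⟨Subgroup.map_subtype_le _ (hXP hx), g⁻¹ * x * g, ?_, by simp [mul_assoc]⟩
      exact Subgroup.map_subtype_le _ (hXP ((Subgroup.mem_normalizer_iff''.mp hgN x).mp hx))
    intro A hA hAp
    have := hg g hgH (A.map (Subgroup.inclusion hle)) inferInstance (by
      rintro _ ⟨a, ha, rfl⟩; rw [← map_pow, hAp a ha, map_one])
    rwa [Subgroup.card_map_of_injective (Subgroup.inclusion_injective hle)] at this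

end Cfsg.Agent.S1231
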