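import Cfsg.Statements.S1233
import Cfsg.Agent.Lib.TwoFusion.SelfCentTwoBound
import Cfsg.Agent.Lib.TwoFusion.QuatCentralProduct

set_option autoImplicit false
open Cfsg

namespace Cfsg.Agent.S1233

/-- Let S be a finite 2-group and Q a subgroup of order 32 generated by two elementwise-commuting subgroups Q₁, Q₂ each isomorphic to the quaternion group of order 8 (so Q = Q₁ ∗ Q₂). If C_S(Q) ≤ Q, then every section of S has 2-rank at most 4. -/
theorem result {S : Type*} [Group S] [Finite S] (hS : IsPGroup 2 S) (Q Q₁ Q₂ : Subgroup S) (e₁ : Q₁ ≃* QuaternionGroup 2) (e₂ : Q₂ ≃* QuaternionGroup 2) (hcomm : ∀ a ∈ Q₁, ∀ b ∈ Q₂, a * b = b * a) (hQ : Q₁ ⊔ Q₂ = Q) (hQ32 : Nat.card Q = 32) (hC : Subgroup.centralizer (Q : Set S) ≤ Q) : Cfsg.SectionalPRankLE 2 4 S := by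
  classical
  let φ₁ : QuaternionGroup 2 →* S := Q₁.subtype.comp e₁.symm.toMonoidHom
  let φ₂ : QuaternionGroup 2 →* S := Q₂.subtype.comp e₂.symm.toMonoidHom
  have hm₁ : ∀ a, φ₁ a ∈ Q₁ := fun a => (e₁.symm a).2
  have hm₂ : ∀ a, φ₂ a ∈ Q₂ := fun a => (e₂.symm a).2
  have hinj₁ : Function.Injective φ₁ := Subtype.val_injective.comp e₁.symm.injective
  have hinj₂ : Function.Injective φ₂ := Subtype.val_injective.comp e₂.symm.injective
  have hc : ∀ a b, Commute (φ₁ a) (φ₂ b) := fun a b => hcomm _ (hm₁ a) _ (hm₂ b)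
  let f : CfsgLib.TwoFusion.QuatProd.M →* S := φ₁.noncommCoprod φ₂ hc
  have hfx : ∀ x, f x = φ₁ x.1 * φ₂ x.2 := fun x => rfl
  have hr₁ : φ₁.range = Q₁ := le_antisymm (by rintro _ ⟨a, rfl⟩; exact hm₁ a)
    fun a ha => ⟨e₁ ⟨a, ha⟩, by simp [φ₁]⟩
  have hr₂ : φ₂.range = Q₂ := le_antisymm (by rintro _ ⟨a, rfl⟩; exact hm₂ a)
    fun a ha => ⟨e₂ ⟨a, ha⟩, by simp [φ₂]⟩
  have hr : f.range = Q := by
    show (φ₁.noncommCoprod φ₂ hc).range = Q
    rw [MonoidHom.noncommCoprod_range, hr₁, hr₂, hQ]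
  have hk : Nat.card f.ker = 2 := by
    have h := f.ker.card_mul_index
    rw [Subgroup.index_ker, hr, hQ32] at h
    have hM : Nat.card CfsgLib.TwoFusion.QuatProd.M = 64 := by
      rw [Nat.card_prod, Nat.card_eq_fintype_card, QuaternionGroup.card]
    rw [hM] at h
    omega
  have hkle : ∀ x ∈ f.ker, x = 1 ∨ x = CfsgLib.TwoFusion.QuatProd.ker2 := by
    intro x hx
    have h : φ₁ x.1 * φ₂ x.2 = 1 := by rw [← hfx]; exact hx
    have h1 : ∀ y, x.1 * y = y * x.1 := fun y => hinj₁ (by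
      rw [map_mul, map_mul, mul_eq_one_iff_eq_inv.1 h, ← map_inv]
      exact (hc y _).eq.symm)
    have h2 : ∀ y, x.2 * y = y * x.2 := fun y => hinj₂ (by
      rw [map_mul, map_mul, mul_eq_one_iff_eq_inv'.1 h, ← map_inv]
      exact (hc _ y).eq)
    rcases CfsgLib.TwoFusion.QuatProd.ker_cases x h1 h2 with e | e | e | e
    · exact Or.inl e
    · rw [e] at h
      simp only [map_one, mul_one] at h
      exact absurd (hinj₁ (h.trans (map_one φ₁).symm)) (by decide)
    · rw [e] at h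
      simp only [map_one, one_mul] at h
      exact absurd (hinj₂ (h.trans (map_one φ₂).symm)) (by decide)
    · exact Or.inr e
  have hk2 : CfsgLib.TwoFusion.QuatProd.ker2 ∈ f.ker := by
    by_contra hne
    have : f.ker = ⊥ := by
      rw [Subgroup.eq_bot_iff_forall]
      intro x hx
      rcases hkle x hx with e | e
      · exact e
      · exact absurd (e ▸ hx) hne
    rw [this, Subgroup.card_bot] at hk
    omega
  have hf : CfsgLib.TwoFusion.QuatProd.Faithful f := by
    intro x y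
    constructor
    · intro h
      rcases hkle (y * x⁻¹) (by rw [MonoidHom.mem_ker, map_mul, map_inv, h, mul_inv_cancel]) with e | e
      · exact Or.inl (mul_inv_eq_one.1 e)
      · exact Or.inr (mul_inv_eq_iff_eq_mul.1 e)
    · rintro (rfl | rfl)
      · rfl
      · rw [map_mul, MonoidHom.mem_ker.1 hk2, one_mul]
  obtain ⟨A, hA8, hA2, hAC⟩ := CfsgLib.TwoFusion.QuatProd.exists_self_centralizing hS hf
    fun x hx => hr ▸ hC (Subgroup.mem_centralizer_iff.2 fun q hq => by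
      obtain ⟨m, rfl⟩ := (hr ▸ hq : q ∈ f.range)
      exact (hx m).eq.symm)
  exact CfsgLib.TwoFusion.SelfCent.sectional_rank_four hS A hA2 hA8 hAC

end Cfsg.Agent.S1233
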