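import Cfsg.Statements.S1234
import Cfsg.Agent.Lib.TwoFusion.SelfCentTwoBound

set_option autoImplicit false
open Cfsg

namespace Cfsg.Agent.S1234

/-- Let S be a finite 2-group and Q ≤ S a subgroup of order 32 having an elementary abelian subgroup E of order 16 and an involution s ∉ E whose centralizer in E has order 4 (so Q ≅ (Z₂ × Z₂) ≀ Z₂). If C_S(Z(Q)) = Q, then every section of S has 2-rank at most 4. -/
theorem result {S : Type*} [Group S] [Finite S] (hS : IsPGroup 2 S) (Q E : Subgroup S) (hEQ : E ≤ Q) (hE : Cfsg.IsElementaryAbelian 2 E) (hE16 : Nat.card E = 16) (hQ32 : Nat.card Q = 32) (s : S) (hsQ : s ∈ Q) (hsE : s ∉ E) (hs : orderOf s = 2) (hfix : Nat.card ↥(E ⊓ Subgroup.centralizer ({s} : Set S)) = 4) (hC : Subgroup.centralizer (((Subgroup.center Q).map Q.subtype : Subgroup S) : Set S) = Q) : Cfsg.SectionalPRankLE 2 4 S := by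
  classical
  have hE2 : ∀ e ∈ E, e * e = 1 := fun e he => by
    have := hE.2 e he
    rwa [pow_two] at this
  have hEc : ∀ e ∈ E, ∀ f ∈ E, Commute e f := fun e he f hf => by
    have hinv : ∀ g ∈ E, g⁻¹ = g := fun g hg => inv_eq_of_mul_eq_one_right (hE2 g hg)
    show e * f = f * e
    conv_lhs => rw [← hinv e he, ← hinv f hf]
    rw [← mul_inv_rev, hinv _ (mul_mem hf he)]
  have hs2 : s * s = 1 := by rw [← pow_two, ← hs, pow_orderOf_eq_one]
  set V := E ⊓ Subgroup.centralizer ({s} : Set S) with hV
  have hVmem : ∀ e, e ∈ V ↔ e ∈ E ∧ Commute e s := fun e => by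
    rw [hV, Subgroup.mem_inf, Subgroup.mem_centralizer_singleton_iff]
    exact ⟨fun h => ⟨h.1, h.2⟩, fun h => ⟨h.1, h.2⟩⟩
  -- every element of `Q` lies in `E ∪ E s`
  have hidx : (E.subgroupOf Q).index = 2 := by
    have h1 := (E.subgroupOf Q).card_mul_index
    rw [Nat.card_congr (Subgroup.subgroupOfEquivOfLe hEQ).toEquiv, hE16, hQ32] at h1
    omega
  have hsplit : ∀ q ∈ Q, q ∈ E ∨ q * s ∈ E := fun q hq => by
    by_cases h : q ∈ E
    · exact Or.inl h
    · have := Subgroup.mul_mem_iff_of_index_two hidx (a := ⟨q, hq⟩) (b := ⟨s, hsQ⟩)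
      simp only [Subgroup.mem_subgroupOf, Subgroup.coe_mul] at this
      exact Or.inr (this.2 (iff_of_false h hsE))
  have hqs : ∀ q, q = q * s * s := fun q => by rw [mul_assoc, hs2, mul_one]
  -- the centre of `Q` is `V`
  set Z := (Subgroup.center Q).map Q.subtype with hZ
  have hZmem : ∀ z, z ∈ Z ↔ z ∈ Q ∧ ∀ q ∈ Q, Commute q z := by
    intro z
    constructor
    · rintro ⟨w, hw, rfl⟩
      refine ⟨w.2, fun q hq => ?_⟩
      exact congrArg Subtype.val (Subgroup.mem_center_iff.1 hw ⟨q, hq⟩)
    · rintro ⟨hzQ, hz⟩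
      exact ⟨⟨z, hzQ⟩, Subgroup.mem_center_iff.2 fun q => Subtype.ext (hz q q.2).eq, rfl⟩
  have hVZ : V ≤ Z := fun v hv => by
    obtain ⟨hvE, hvs⟩ := (hVmem v).1 hv
    refine (hZmem v).2 ⟨hEQ hvE, fun q hq => ?_⟩
    rcases hsplit q hq with h | h
    · exact hEc q h v hvE
    · rw [hqs q]
      exact (hEc _ h v hvE).mul_left hvs.symm
  have hcQ : ∀ x, (∀ v ∈ V, Commute x v) → (∀ z ∈ Z, Commute x z) := by
    intro x hx z hz
    obtain ⟨hzQ, hzc⟩ := (hZmem z).1 hz
    rcases hsplit z hzQ with h | h
    · exact hx z ((hVmem z).2 ⟨h, (hzc s hsQ).symm⟩)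
    · -- `s` would be central
      exfalso
      have hsc : ∀ e ∈ E, Commute e s := fun e he => by
        have h1 := hzc e (hEQ he)
        rw [hqs z] at h1
        have h2 := (hEc e he (z * s) h).inv_right.mul_right h1
        rwa [inv_mul_cancel_left] at h2
      have hVE : E ≤ V := fun e he => (hVmem e).2 ⟨he, hsc e he⟩
      have := Subgroup.card_le_of_le hVE
      rw [hE16, hfix] at this
      omega
  -- the elementary abelian group of order eight
  let A : Subgroup S :=
    { carrier := {x | x ∈ V ∨ x * s ∈ V}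
      one_mem' := Or.inl (one_mem V)
      mul_mem' := by
        rintro x y (hx | hx) (hy | hy)
        · exact Or.inl (mul_mem hx hy)
        · exact Or.inr (by rw [mul_assoc]; exact mul_mem hx hy)
        · refine Or.inr ?_
          have hys := ((hVmem y).1 hy).2
          rw [mul_assoc, hys.eq, ← mul_assoc]
          exact mul_mem hx hy
        · refine Or.inl ?_
          have hys := ((hVmem _).1 hy).2
          have e : x * y = (x * s) * (y * s) := by
            rw [mul_assoc x s (y * s), ← hys.eq, ← hqs y]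
          rw [e]
          exact mul_mem hx hy
      inv_mem' := by
        rintro x (hx | hx)
        · exact Or.inl (inv_mem hx)
        · refine Or.inr ?_
          have hxs := ((hVmem _).1 hx).2
          have e : x⁻¹ * s = (x * s)⁻¹ := by
            have h1 : (x * s)⁻¹ * s = s * (x * s)⁻¹ := hxs.inv_left.eq
            calc x⁻¹ * s = s * (x * s)⁻¹ * s := by group
              _ = s * ((x * s)⁻¹ * s) := by group
              _ = s * s * (x * s)⁻¹ := by rw [h1, mul_assoc]
              _ = _ := by rw [hs2, one_mul]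
          rw [e]
          exact inv_mem hx }
  have hAmem : ∀ x, x ∈ A ↔ x ∈ V ∨ x * s ∈ V := fun x => Iff.rfl
  have hsA : s ∈ A := Or.inr (by rw [hs2]; exact one_mem V)
  refine CfsgLib.TwoFusion.SelfCent.sectional_rank_four hS A ?_ ?_ ?_
  · rintro a (ha | ha)
    · exact hE2 a ((hVmem a).1 ha).1
    · obtain ⟨h1, h2⟩ := (hVmem _).1 ha
      rw [hqs a, show a * s * s * (a * s * s) = a * s * (s * (a * s)) * s by group, ← h2.eq,
        show a * s * (a * s * s) * s = (a * s * (a * s)) * (s * s) by group, hE2 _ h1, hs2, mul_one]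
  · have hcarr : (A : Set S) = (V : Set S) ∪ (fun v => v * s) '' (V : Set S) := by
      ext x
      simp only [SetLike.mem_coe, hAmem, Set.mem_union, Set.mem_image]
      constructor
      · rintro (h | h)
        · exact Or.inl h
        · exact Or.inr ⟨x * s, h, (hqs x).symm⟩
      · rintro (h | ⟨v, hv, rfl⟩)
        · exact Or.inl h
        · exact Or.inr (by rwa [← hqs v])
    have hdisj : Disjoint (V : Set S) ((fun v => v * s) '' (V : Set S)) := by
      rw [Set.disjoint_left]
      rintro x hx ⟨v, hv, rfl⟩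
      have := mul_mem (inv_mem hv) (SetLike.mem_coe.1 hx)
      rw [inv_mul_cancel_left] at this
      exact hsE ((hVmem s).1 this).1
    have h1 := Nat.card_coe_set_eq (A : Set S)
    rw [hcarr, Set.ncard_union_eq hdisj, Set.ncard_image_of_injective _
      (mul_left_injective s)] at h1
    have h3 : (V : Set S).ncard = 4 := (Nat.card_coe_set_eq (V : Set S)).symm.trans hfix
    have h4 : Nat.card A = 8 := by
      refine Eq.trans ?_ (h1.trans (by rw [h3]))
      exact Nat.card_congr (Equiv.setCongr hcarr)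
    exact h4
  · intro x hx
    have hxQ : x ∈ Q := by
      rw [← hC]
      exact Subgroup.mem_centralizer_iff.2 fun z hz =>
        ((hcQ x (fun v hv => hx v (Or.inl hv)) z hz).eq).symm
    have hxs := hx s hsA
    rcases hsplit x hxQ with h | h
    · exact Or.inl ((hVmem x).2 ⟨h, hxs⟩)
    · exact Or.inr ((hVmem _).2 ⟨h, hxs.mul_left (Commute.refl s)⟩)

end Cfsg.Agent.S1234
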