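import Cfsg.Statements.S1236
import Cfsg.Agent.Lib.TwoFusion.DihedralKlein
import Cfsg.Agent.Lib.TwoGroups.QuasiDihedralFacts

set_option autoImplicit false
open Cfsg

namespace Cfsg.Agent.S1236

/-- Let R be a finite group, t a central involution of R such that R ⧸ ⟨t⟩ is dihedral (of order ≥ 4) or quasi-dihedral, and A ≤ R an elementary abelian subgroup of order 8 containing t. Then C_R(A) = A. -/
theorem result {R : Type*} [Group R] [Finite R] (t : R) (ht : orderOf t = 2) (htz : t ∈ Subgroup.center R) [(Subgroup.zpowers t).Normal] (hq : (∃ m : ℕ, 2 ≤ m ∧ Nonempty (R ⧸ Subgroup.zpowers t ≃* DihedralGroup m)) ∨ Cfsg.IsQuasiDihedral (R ⧸ Subgroup.zpowers t)) (A : Subgroup R) (hA : Cfsg.IsElementaryAbelian 2 A) (hA8 : Nat.card A = 8) (htA : t ∈ A) : Subgroup.centralizer (A : Set R) = A := by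
  classical
  let π : R →* R ⧸ Subgroup.zpowers t := QuotientGroup.mk' _
  haveI := hA.1
  have hker : π.ker = Subgroup.zpowers t := QuotientGroup.ker_mk' _
  have hle : Subgroup.zpowers t ≤ A := Subgroup.zpowers_le.mpr htA
  set U : Subgroup (R ⧸ Subgroup.zpowers t) := A.map π with hUdef
  have hUA : U.comap π = A := by
    rw [hUdef, Subgroup.comap_map_eq, hker, sup_eq_left.mpr hle]
  have hUcard : Nat.card U = 4 := by
    have h1 := (Subgroup.zpowers t).subgroupOf A |>.card_mul_index
    rw [Nat.card_congr (Subgroup.subgroupOfEquivOfLe hle).toEquiv, Nat.card_zpowers, ht, hA8,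
      show ((Subgroup.zpowers t).subgroupOf A).index = Nat.card U from
        (congrArg (fun K : Subgroup R => K.relIndex A) hker.symm).trans (Subgroup.relIndex_ker (K := A) π)] at h1
    omega
  have hUsq : ∀ g ∈ U, g * g = 1 := by
    rintro _ ⟨a, ha, rfl⟩
    rw [← map_mul, ← pow_two, hA.2 a ha, map_one]
  haveI : Nontrivial U := Finite.one_lt_card_iff_nontrivial.mp (by omega)
  have hexp : Monoid.exponent U = 2 := by
    apply (Monoid.exponent_eq_prime_iff Nat.prime_two).mpr
    intro g hg
    refine orderOf_eq_prime ?_ hg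
    rw [pow_two]
    exact Subtype.ext (hUsq g g.2)
  have hU : IsKleinFour U := ⟨hUcard, hexp⟩
  have key : Subgroup.centralizer (U : Set (R ⧸ Subgroup.zpowers t)) = U := by
    rcases hq with ⟨m, hm, ⟨e⟩⟩ | hq
    · haveI : NeZero m := ⟨by omega⟩
      have hU' : IsKleinFour (U.map e.toMonoidHom) := ⟨by
        rw [Subgroup.card_map_of_injective e.injective, hUcard],
        (Monoid.exponent_eq_of_mulEquiv (e.subgroupMap U)).symm.trans hexp⟩
      have h := CfsgLib.TwoFusion.centralizer_klein_dihedral hU'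
      refine le_antisymm (fun g hg => ?_) (fun g hg u hu => ?_)
      · have : e g ∈ U.map e.toMonoidHom := by
          rw [← h, Subgroup.mem_centralizer_iff]
          rintro _ ⟨u, hu, rfl⟩
          show e u * e g = e g * e u
          rw [← map_mul, ← map_mul, Subgroup.mem_centralizer_iff.mp hg u hu]
        obtain ⟨u, hu, hue⟩ := this
        exact e.injective hue ▸ hu
      · exact congrArg Subtype.val
          ((IsKleinFour.isMulCommutative (G := U)).is_comm.comm ⟨u, hu⟩ ⟨g, hg⟩)
    · obtain ⟨k, x, y, h⟩ := CfsgLib.TwoGroups.exists_sdGen hq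
      exact h.centralizer_klein hU
  refine le_antisymm (fun g hg => ?_) (fun g hg a ha => ?_)
  · rw [← hUA, Subgroup.mem_comap, ← key, Subgroup.mem_centralizer_iff]
    rintro _ ⟨a, ha, rfl⟩
    rw [← map_mul, ← map_mul, Subgroup.mem_centralizer_iff.mp hg a ha]
  · exact congrArg Subtype.val (mul_comm' (⟨a, ha⟩ : A) ⟨g, hg⟩)

end Cfsg.Agent.S1236
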