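import Cfsg.Statements.S1241
import Cfsg.Agent.Lib.TwoFusion.TransferMod

set_option autoImplicit false
open Cfsg

namespace Cfsg.Agent.S1241

/-- Let G be a finite group, p a prime, H a subgroup of index prime to p, K a subgroup of H normal in H with H/K commutative, and g ∈ H ∖ K an element of p-power order such that for all integers m and all a ∈ G with a g^m a⁻¹ ∈ H one has a g^m a⁻¹ ∈ g^m K. Then g ∉ G'. -/
theorem result {G : Type*} [Group G] [Finite G] {p : ℕ} [Fact p.Prime] (H K : Subgroup G) (hHK : K ≤ H) (hKn : (K.subgroupOf H).Normal) (hab : ∀ x ∈ H, ∀ y ∈ H, x * y * x⁻¹ * y⁻¹ ∈ K) (hidx : Nat.Coprime p H.index) (g : G) (hgH : g ∈ H) (hgK : g ∉ K) (hgp : ∃ k : ℕ, orderOf g = p ^ k) (hctrl : ∀ (m : ℤ) (a : G), a * g ^ m * a⁻¹ ∈ H → (a * g ^ m * a⁻¹) * (g ^ m)⁻¹ ∈ K) : g ∉ commutator G := by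
  classical
  haveI := hKn
  let _ : CommGroup (↥H ⧸ K.subgroupOf H) :=
    { (inferInstance : Group (↥H ⧸ K.subgroupOf H)) with
      mul_comm := by
        intro x y
        obtain ⟨x, rfl⟩ := QuotientGroup.mk_surjective x
        obtain ⟨y, rfl⟩ := QuotientGroup.mk_surjective y
        rw [← QuotientGroup.mk_mul, ← QuotientGroup.mk_mul, QuotientGroup.eq_iff_div_mem,
          Subgroup.mem_subgroupOf]
        have := hab (x : G) x.2 (y : G) y.2
        simpa [div_eq_mul_inv, mul_assoc] using this }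
  let φ : ↥H →* ↥H ⧸ K.subgroupOf H := QuotientGroup.mk' _
  intro hg
  refine CfsgLib.TwoFusion.transfer_ne_one_of_controlled (Fact.out : p.Prime) hidx φ g hgH hgp ?_ ?_
    (CfsgLib.TwoFusion.eq_one_of_mem_commutator φ.transfer hg)
  · intro h
    exact hgK (Subgroup.mem_subgroupOf.mp ((QuotientGroup.eq_one_iff _).mp h))
  · intro m a h
    rw [← map_pow]
    simp only [φ, QuotientGroup.mk'_apply]
    rw [QuotientGroup.eq_iff_div_mem, Subgroup.mem_subgroupOf]
    have := hctrl m a (by simpa using h)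
    simpa [div_eq_mul_inv] using this

end Cfsg.Agent.S1241
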