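import Cfsg.Statements.S1242
import Cfsg.Agent.Lib.TwoFusion.TransferMod

set_option autoImplicit false
open Cfsg

namespace Cfsg.Agent.S1242

open scoped commutatorElement

/-- Let G be a finite group, p a prime and H a subgroup of index prime to p such that any two elements of H of p-power order that are conjugate in G are conjugate in H. Then (O^p(G)·G') ∩ H = O^p(H)·H', where O^p denotes the subgroup generated by the elements of order prime to p. -/
theorem result {G : Type*} [Group G] [Finite G] {p : ℕ} [Fact p.Prime] (H : Subgroup G) (hidx : Nat.Coprime p H.index) (hfus : ∀ g ∈ H, (∃ k : ℕ, orderOf g = p ^ k) → ∀ a : G, a * g * a⁻¹ ∈ H → ∃ h ∈ H, h * g * h⁻¹ = a * g * a⁻¹) : (Cfsg.pResidual p G ⊔ commutator G) ⊓ H = (Cfsg.pResidual p ↥H ⊔ commutator ↥H).map H.subtype := by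
  classical
  have hp : p.Prime := Fact.out
  set M : Subgroup ↥H := Cfsg.pResidual p ↥H ⊔ commutator ↥H with hMdef
  apply le_antisymm
  · haveI hMn : M.Normal := ⟨fun n hn g => by
      have h1 : ⁅g, n⁆ ∈ M := Subgroup.mem_sup_right
        (Subgroup.commutator_mem_commutator (Subgroup.mem_top g) (Subgroup.mem_top n))
      have := mul_mem h1 hn
      simpa [commutatorElement_def, mul_assoc] using this⟩
    let _ : CommGroup (↥H ⧸ M) :=
      { (inferInstance : Group (↥H ⧸ M)) with
        mul_comm := by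
          intro x y
          obtain ⟨x, rfl⟩ := QuotientGroup.mk_surjective x
          obtain ⟨y, rfl⟩ := QuotientGroup.mk_surjective y
          rw [← QuotientGroup.mk_mul, ← QuotientGroup.mk_mul, QuotientGroup.eq_iff_div_mem]
          apply le_sup_right (a := Cfsg.pResidual p ↥H)
          have : x * y / (y * x) = ⁅x, y⁆ := by
            simp [div_eq_mul_inv, commutatorElement_def, mul_assoc]
          rw [this]
          exact Subgroup.commutator_mem_commutator (Subgroup.mem_top x) (Subgroup.mem_top y) }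
    let φ : ↥H →* ↥H ⧸ M := QuotientGroup.mk' M
    have hA : IsPGroup p (↥H ⧸ M) := by
      intro x
      obtain ⟨x, rfl⟩ := QuotientGroup.mk_surjective x
      refine ⟨(orderOf x).factorization p, ?_⟩
      rw [← QuotientGroup.mk_pow, QuotientGroup.eq_one_iff]
      apply Subgroup.mem_sup_left
      apply Subgroup.subset_closure
      show Nat.Coprime _ p
      rw [orderOf_pow_of_dvd (pow_ne_zero _ hp.ne_zero) (Nat.ordProj_dvd _ _)]
      exact (Nat.coprime_ordCompl hp (orderOf_pos x).ne').symm
    have hkill : Cfsg.pResidual p G ⊔ commutator G ≤ φ.transfer.ker := by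
      refine sup_le ?_ (fun g hg => CfsgLib.TwoFusion.eq_one_of_mem_commutator φ.transfer hg)
      unfold Cfsg.pResidual
      rw [Subgroup.closure_le]
      intro g hg
      rw [SetLike.mem_coe, MonoidHom.mem_ker, ← orderOf_eq_one_iff]
      obtain ⟨k, hk⟩ := IsPGroup.iff_orderOf.mp hA (φ.transfer g)
      have h1 : Nat.Coprime (orderOf g) (p ^ k) := Nat.Coprime.pow_right k hg
      exact Nat.eq_one_of_dvd_coprimes h1 (orderOf_map_dvd _ g) (hk ▸ dvd_rfl)
    rintro x ⟨hxR, hxH⟩
    refine ⟨⟨x, hxH⟩, ?_, rfl⟩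
    set a := (orderOf x).factorization p with ha
    set N := orderOf x / p ^ a with hN
    have hdvd : p ^ a ∣ orderOf x := Nat.ordProj_dvd _ _
    have hNdvd : N ∣ orderOf x := Nat.div_dvd_of_dvd hdvd
    have hcop : Nat.Coprime p N := Nat.coprime_ordCompl hp (orderOf_pos x).ne'
    have hy : φ (⟨x, hxH⟩ ^ N) = 1 := by
      by_contra hne
      refine CfsgLib.TwoFusion.transfer_ne_one_of_controlled hp hidx φ (x ^ N)
        (H.pow_mem hxH N) ⟨a, ?_⟩ hne ?_
        (hkill (Subgroup.pow_mem _ hxR N))
      · rw [orderOf_pow_of_dvd (Nat.ne_of_gt (Nat.div_pos (Nat.le_of_dvd (orderOf_pos x) hdvd)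
          (pow_pos hp.pos _))) hNdvd]
        exact Nat.div_div_self hdvd (orderOf_pos x).ne'
      · intro m b hb
        obtain ⟨h, hh, he⟩ := hfus ((x ^ N) ^ m) (H.pow_mem (H.pow_mem hxH N) m)
          (by
            have hd : orderOf ((x ^ N) ^ m) ∣ p ^ a := by
              refine (orderOf_pow_dvd _).trans ?_
              apply orderOf_dvd_of_pow_eq_one
              rw [← pow_mul, Nat.div_mul_cancel hdvd, pow_orderOf_eq_one]
            obtain ⟨j, _, hj⟩ := (Nat.dvd_prime_pow hp).mp hd
            exact ⟨j, hj⟩) b hb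
        have e : (⟨b * (x ^ N) ^ m * b⁻¹, hb⟩ : ↥H) =
            ⟨h, hh⟩ * ⟨x ^ N, H.pow_mem hxH N⟩ ^ m * (⟨h, hh⟩)⁻¹ := by
          apply Subtype.ext; simp [he]
        rw [e, map_mul, map_mul, map_pow, map_inv, mul_comm (φ ⟨h, hh⟩), mul_inv_cancel_right]
    apply (QuotientGroup.eq_one_iff _).mp
    show φ ⟨x, hxH⟩ = 1
    rw [map_pow] at hy
    rw [← orderOf_eq_one_iff]
    obtain ⟨k, hk⟩ := IsPGroup.iff_orderOf.mp hA (φ ⟨x, hxH⟩)
    exact Nat.eq_one_of_dvd_coprimes (Nat.Coprime.pow_left k hcop) (hk ▸ dvd_rfl)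
      (orderOf_dvd_of_pow_eq_one hy)
  · rw [Subgroup.map_sup]
    apply sup_le
    · refine le_inf (le_trans ?_ le_sup_left) ((Subgroup.map_subtype_le _))
      rw [Cfsg.pResidual, MonoidHom.map_closure, Subgroup.closure_le]
      rintro _ ⟨g, hg, rfl⟩
      apply Subgroup.subset_closure
      show Nat.Coprime _ p
      rw [Subgroup.subtype_apply, Subgroup.orderOf_coe]
      exact hg
    · refine le_inf (le_trans ?_ le_sup_right) (Subgroup.map_subtype_le _)
      rw [commutator_def, commutator_def, Subgroup.map_commutator]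
      exact Subgroup.commutator_mono le_top le_top

end Cfsg.Agent.S1242
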