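import Cfsg.Statements.S1243

set_option autoImplicit false
open Cfsg

namespace Cfsg.Agent.S1243

/-- Let T be a Sylow p-subgroup of the finite group G and W ≤ T a subgroup weakly closed in T. If d and g d g⁻¹ both centralize W, then g d g⁻¹ = h d h⁻¹ for some h ∈ N_G(W). -/
theorem result {G : Type*} [Group G] [Finite G] {p : ℕ} [Fact p.Prime] (T : Sylow p G) (W : Subgroup G) (hW : Cfsg.IsWeaklyClosed W (T : Subgroup G)) (d g : G) (hd : d ∈ Subgroup.centralizer (W : Set G)) (hgd : g * d * g⁻¹ ∈ Subgroup.centralizer (W : Set G)) : ∃ h ∈ Subgroup.normalizer (W : Set G), h * d * h⁻¹ = g * d * g⁻¹ := by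
  classical
  obtain ⟨hWT, hweak⟩ := hW
  set e := g * d * g⁻¹ with he
  set C : Subgroup G := Subgroup.centralizer ({e} : Set G) with hCdef
  have hWC : W ≤ C := by
    intro w hw
    rw [hCdef, Subgroup.mem_centralizer_singleton_iff]
    exact Subgroup.mem_centralizer_iff.mp hgd w hw
  set W' : Subgroup G := W.map (MulAut.conj g).toMonoidHom with hW'
  have hW'C : W' ≤ C := by
    rintro _ ⟨w, hw, rfl⟩
    rw [hCdef, Subgroup.mem_centralizer_singleton_iff]
    have := Subgroup.mem_centralizer_iff.mp hd w hw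
    simp only [MulEquiv.coe_toMonoidHom, MulAut.conj_apply, he]
    calc g * w * g⁻¹ * (g * d * g⁻¹) = g * (w * d) * g⁻¹ := by group
      _ = g * (d * w) * g⁻¹ := by rw [this]
      _ = _ := by group
  have hTp : IsPGroup p (T : Subgroup G) := T.2
  have hWp : IsPGroup p (W.subgroupOf C) := (hTp.to_le hWT).comap_of_injective C.subtype C.subtype_injective
  have hW'p : IsPGroup p (W'.subgroupOf C) :=
    ((hTp.to_le hWT).map _).comap_of_injective C.subtype C.subtype_injective
  obtain ⟨R, hR⟩ := hWp.exists_le_sylow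
  obtain ⟨R', hR'⟩ := hW'p.exists_le_sylow
  obtain ⟨c, hc⟩ := MulAction.exists_smul_eq C R' R
  have hRG : IsPGroup p ((R : Subgroup C).map C.subtype) := R.2.map _
  obtain ⟨T', hT'⟩ := hRG.exists_le_sylow
  obtain ⟨k, hk⟩ := MulAction.exists_smul_eq G T' T
  have key : ∀ x ∈ (R : Subgroup C).map C.subtype, k * x * k⁻¹ ∈ (T : Subgroup G) := by
    intro x hx
    have := Subgroup.smul_mem_pointwise_smul x (MulAut.conj k) _ (hT' hx)
    rw [← hk]
    simpa [Sylow.coe_subgroup_smul, MulAut.smul_def] using this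
  have k1 : W.map (MulAut.conj k).toMonoidHom = W := by
    apply hweak
    rintro _ ⟨w, hw, rfl⟩
    exact key w ⟨⟨w, hWC hw⟩, hR (show (⟨w, hWC hw⟩ : C) ∈ W.subgroupOf C from hw), rfl⟩
  have k2 : W.map (MulAut.conj (k * c * g)).toMonoidHom = W := by
    apply hweak
    rintro _ ⟨w, hw, rfl⟩
    have hw' : g * w * g⁻¹ ∈ W' := ⟨w, hw, rfl⟩
    have h1 : (⟨g * w * g⁻¹, hW'C hw'⟩ : C) ∈ (R' : Subgroup C) :=
      hR' (show (⟨g * w * g⁻¹, hW'C hw'⟩ : C) ∈ W'.subgroupOf C from hw')
    have h2 : c * ⟨g * w * g⁻¹, hW'C hw'⟩ * c⁻¹ ∈ (R : Subgroup C) := by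
      rw [← hc]
      exact Subgroup.smul_mem_pointwise_smul _ (MulAut.conj c) _ h1
    have := key _ ⟨_, h2, rfl⟩
    simpa [mul_assoc] using this
  have n1 : k ∈ Subgroup.normalizer (W : Set G) := by
    rw [Subgroup.mem_normalizer_iff]
    intro w
    constructor
    · intro hw
      have h := Subgroup.mem_map_of_mem (MulAut.conj k).toMonoidHom hw
      rw [k1] at h
      exact h
    · intro hw
      rw [← k1] at hw
      obtain ⟨v, hv, hv'⟩ := hw
      obtain rfl : v = w := (MulAut.conj k).injective hv'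
      exact hv
  have n2 : k * c * g ∈ Subgroup.normalizer (W : Set G) := by
    rw [Subgroup.mem_normalizer_iff]
    intro w
    constructor
    · intro hw
      have h := Subgroup.mem_map_of_mem (MulAut.conj (k * c * g)).toMonoidHom hw
      rw [k2] at h
      exact h
    · intro hw
      rw [← k2] at hw
      obtain ⟨v, hv, hv'⟩ := hw
      obtain rfl : v = w := (MulAut.conj (k * (c : G) * g)).injective hv'
      exact hv
  refine ⟨(c : G) * g, ?_, ?_⟩
  · have := mul_mem (inv_mem n1) n2
    simpa [mul_assoc] using this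
  · have hcc : (c : G) * e = e * c := Subgroup.mem_centralizer_singleton_iff.mp c.2
    calc (c : G) * g * d * ((c : G) * g)⁻¹ = c * e * (c : G)⁻¹ := by rw [he]; group
      _ = e := by rw [hcc]; group

end Cfsg.Agent.S1243
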