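import Cfsg.Statements.S1244
import Cfsg.Agent.Lib.TwoFusion.TransferMod

set_option autoImplicit false
open Cfsg

namespace Cfsg.Agent.S1244

/-- Let G be a finite group with no subgroup of index 2 whose Sylow 2-subgroup S is commutative, and let R ≤ S be a subgroup whose 2-rank is exactly one less than the 2-rank r of S. Then every involution of S is conjugate, by an element of N_G(S), to an element of R. -/
theorem result {G : Type*} [Group G] [Finite G] (hG : ∀ H : Subgroup G, H.index ≠ 2) (S : Sylow 2 G) (hS : IsMulCommutative (S : Subgroup G)) (r : ℕ) (hr1 : 1 ≤ r) (hSr : Cfsg.PRankLE 2 r (S : Subgroup G) ∧ ¬ Cfsg.PRankLE 2 (r - 1) (S : Subgroup G)) (R : Subgroup G) (hRS : R ≤ S) (hRr : Cfsg.PRankLE 2 (r - 1) R ∧ (r = 1 ∨ ¬ Cfsg.PRankLE 2 (r - 2) R)) (t : G) (ht : orderOf t = 2) (htS : t ∈ S) : ∃ n ∈ Subgroup.normalizer ((S : Subgroup G) : Set G), n * t * n⁻¹ ∈ R := by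
  classical
  haveI : Fact (Nat.Prime 2) := ⟨Nat.prime_two⟩
  by_contra hcon
  push_neg at hcon
  haveI := hS
  set S₀ : Subgroup G := (S : Subgroup G) with hS₀
  have hSp : IsPGroup 2 S₀ := S.2
  set N : Subgroup G := Subgroup.normalizer (S₀ : Set G) with hN
  have hmemN : ∀ n ∈ N, ∀ s ∈ S₀, n * s * n⁻¹ ∈ S₀ := fun n hn s hs =>
    (Subgroup.mem_normalizer_iff.mp hn s).mp hs
  -- the subgroup generated by the commutators with the normalizer
  let D : Subgroup S₀ := Subgroup.closure
    {x : S₀ | ∃ n ∈ N, ∃ s : S₀, (x : G) = n * s * n⁻¹ * (s : G)⁻¹}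
  haveI : D.Normal := D.normal_of_comm
  let _ : CommGroup (S₀ ⧸ D) :=
    { (inferInstance : Group (S₀ ⧸ D)) with
      mul_comm := by
        intro x y
        obtain ⟨x, rfl⟩ := QuotientGroup.mk_surjective x
        obtain ⟨y, rfl⟩ := QuotientGroup.mk_surjective y
        rw [← QuotientGroup.mk_mul, ← QuotientGroup.mk_mul, mul_comm' x y] }
  let φ : S₀ →* S₀ ⧸ D := QuotientGroup.mk' D
  have hD : ∀ s : S₀, s ∈ D := by
    intro s
    by_contra hs
    have hne : φ s ≠ 1 := fun h => hs ((QuotientGroup.eq_one_iff s).mp h)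
    obtain ⟨k, hk⟩ := IsPGroup.iff_orderOf.mp hSp s
    have hco : Nat.Coprime 2 S₀.index :=
      Nat.prime_two.coprime_iff_not_dvd.mpr S.not_dvd_index
    obtain ⟨K, hK⟩ := CfsgLib.TwoFusion.exists_index_two (hSp.to_quotient D) φ.transfer
      (CfsgLib.TwoFusion.transfer_ne_one_of_controlled Nat.prime_two hco φ (s : G) s.2
        ⟨k, by rw [Subgroup.orderOf_coe, hk]⟩ hne (fun m a h => by
          obtain ⟨n, hn, hn'⟩ := Sylow.conj_eq_normalizer_conj_of_mem S ((s : G) ^ m) a⁻¹
            (S₀.pow_mem s.2 m) (by rw [inv_inv]; exact h)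
          rw [← map_pow]
          simp only [φ, QuotientGroup.mk'_apply]
          rw [QuotientGroup.eq_iff_div_mem]
          apply Subgroup.subset_closure
          refine ⟨n⁻¹, inv_mem hn, ⟨(s : G) ^ m, S₀.pow_mem s.2 m⟩, ?_⟩
          have e : a * (s : G) ^ m * a⁻¹ = n⁻¹ * (s : G) ^ m * n := by simpa using hn'
          simp [div_eq_mul_inv, e]))
    exact hG K hK
  -- the norm map of the odd group N / C
  let C : Subgroup N := (Subgroup.centralizer (S₀ : Set G)).subgroupOf N
  have hSC : S₀.subgroupOf N ≤ C := by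
    intro x hx
    rw [Subgroup.mem_subgroupOf, Subgroup.mem_centralizer_iff]
    intro y hy
    exact congrArg Subtype.val (mul_comm' (⟨y, hy⟩ : S₀) ⟨x, hx⟩)
  have hodd : Odd (Nat.card (N ⧸ C)) := by
    rw [← Subgroup.index_eq_card, ← Nat.not_even_iff_odd, even_iff_two_dvd]
    intro h2
    have h3 : (S₀.subgroupOf N).index ∣ S₀.index := Subgroup.relIndex_dvd_index_of_le Subgroup.le_normalizer
    exact S.not_dvd_index ((h2.trans (Subgroup.index_dvd_of_le hSC)).trans h3)
  haveI : Fintype (N ⧸ C) := Fintype.ofFinite _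
  let act : N → S₀ → S₀ := fun n s => ⟨n * s * (n : G)⁻¹, hmemN n n.2 s s.2⟩
  have act_eq : ∀ n n' : N, (n : N ⧸ C) = n' → ∀ s, act n s = act n' s := by
    intro n n' h s
    have hc := QuotientGroup.eq.mp h
    rw [Subgroup.mem_subgroupOf, Subgroup.mem_centralizer_iff] at hc
    have := hc s s.2
    apply Subtype.ext
    simp only [Subgroup.coe_mul, Subgroup.coe_inv] at this
    show (n : G) * s * (n : G)⁻¹ = n' * s * (n' : G)⁻¹
    calc (n : G) * s * (n : G)⁻¹
        = n * ((s : G) * ((n : G)⁻¹ * n')) * (n' : G)⁻¹ := by group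
      _ = n * ((n : G)⁻¹ * n' * s) * (n' : G)⁻¹ := by rw [this]
      _ = _ := by group
  let _ : CommGroup S₀ := { (inferInstance : Group S₀) with mul_comm := mul_comm' }
  let ν : S₀ →* S₀ :=
    { toFun := fun s => ∏ q : N ⧸ C, act q.out s
      map_one' := Finset.prod_eq_one (fun q _ => Subtype.ext (by simp [act]))
      map_mul' := fun x y => by
        rw [← Finset.prod_mul_distrib]
        exact Finset.prod_congr rfl (fun q _ => Subtype.ext (by simp [act, mul_assoc])) }
  have hν : ∀ s, ν s = 1 := by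
    intro s
    refine Subgroup.closure_induction (p := fun x _ => ν x = 1) ?_ (map_one ν)
      (fun x y _ _ hx hy => by rw [map_mul, hx, hy, one_mul])
      (fun x _ hx => by rw [map_inv, hx, inv_one]) (hD s)
    rintro x ⟨n, hn, u, hx⟩
    have h1 : x = act ⟨n, hn⟩ u * u⁻¹ := Subtype.ext (by simp [act, hx])
    rw [h1, map_mul, map_inv, mul_inv_eq_one]
    refine Fintype.prod_equiv (Equiv.ofBijective (fun q : N ⧸ C => ((q.out * ⟨n, hn⟩ : N) : N ⧸ C))
      ?_) _ _ ?_
    · haveI : C.Normal := by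
        constructor
        intro x hx y
        rw [Subgroup.mem_subgroupOf, Subgroup.mem_centralizer_iff] at hx ⊢
        intro z hz
        have h2 := hx ((y : G)⁻¹ * z * y)
          ((Subgroup.mem_normalizer_iff''.mp y.2 z).mp hz)
        simp only [Subgroup.coe_mul, Subgroup.coe_inv]
        calc z * ((y : G) * x * (y : G)⁻¹) = y * ((y : G)⁻¹ * z * y * x) * (y : G)⁻¹ := by group
          _ = y * (x * ((y : G)⁻¹ * z * y)) * (y : G)⁻¹ := by rw [h2]
          _ = _ := by group
      have : (fun q : N ⧸ C => ((q.out * ⟨n, hn⟩ : N) : N ⧸ C)) =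
          fun q => q * ((⟨n, hn⟩ : N) : N ⧸ C) := by
        funext q
        rw [QuotientGroup.mk_mul, QuotientGroup.out_eq']
      rw [this]
      exact (Group.mulRight_bijective _)
    · intro q
      rw [Equiv.ofBijective_apply]
      rw [act_eq _ (q.out * ⟨n, hn⟩) (QuotientGroup.out_eq' _) u]
      exact Subtype.ext (by simp [act, mul_assoc])
  -- the elementary abelian subgroup of elements squaring to one
  let V : Subgroup S₀ :=
    { carrier := {x | x ^ 2 = 1}
      one_mem' := one_pow 2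
      mul_mem' := fun {a b} ha hb => by
        rw [Set.mem_ofPred_eq] at *; rw [mul_pow, ha, hb, one_mul]
      inv_mem' := fun {a} ha => by rw [Set.mem_ofPred_eq] at *; rw [inv_pow, ha, inv_one] }
  have hVr : Nat.card V ≤ 2 ^ r := hSr.1 V inferInstance (fun a ha => ha)
  have hVlow : r = 1 ∨ 2 ^ (r - 2) < Nat.card (V ⊓ R.subgroupOf S₀ : Subgroup S₀) := by
    rcases hRr.2 with h | h
    · exact Or.inl h
    · right
      obtain ⟨A, hA, hAp, hAc⟩ : ∃ A : Subgroup R,
          IsMulCommutative A ∧ (∀ a ∈ A, a ^ 2 = 1) ∧ 2 ^ (r - 2) < Nat.card A := by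
        simpa [Cfsg.PRankLE] using h
      refine lt_of_lt_of_le hAc ?_
      rw [← Subgroup.card_map_of_injective (Subgroup.inclusion_injective hRS) (K := A)]
      apply Subgroup.card_le_of_le
      rintro _ ⟨a, ha, rfl⟩
      exact ⟨by show _ ^ 2 = 1; rw [← map_pow, hAp a ha, map_one], a.2⟩
  set W : Subgroup S₀ := V ⊓ R.subgroupOf S₀ with hW
  have hrel : W.relIndex V ≤ 2 := by
    have hmul : Nat.card W * W.relIndex V = Nat.card V :=
      by rw [← Subgroup.relIndex_bot_left, ← Subgroup.relIndex_bot_left V]; exact Subgroup.relIndex_mul_relIndex _ _ _ bot_le inf_le_left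
    obtain ⟨i, hi⟩ := (hSp.to_subgroup V).exists_card_eq
    obtain ⟨j, hj⟩ := (hSp.to_subgroup W).exists_card_eq
    obtain ⟨l, hl⟩ : ∃ l, W.relIndex V = 2 ^ l := by
      have hd : W.relIndex V ∣ 2 ^ i := hi ▸ Dvd.intro_left _ hmul
      obtain ⟨l, _, hl⟩ := (Nat.dvd_prime_pow Nat.prime_two).mp hd
      exact ⟨l, hl⟩
    rw [hj, hl, hi, ← pow_add] at hmul
    have hil : j + l = i := Nat.pow_right_injective le_rfl hmul
    have hir : i ≤ r := (Nat.pow_le_pow_iff_right (by norm_num)).mp (hi ▸ hVr)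
    rcases hVlow with h | h
    · rw [hl]
      exact (Nat.pow_le_pow_right (by norm_num) (by omega : l ≤ 1)).trans_eq (pow_one 2)
    · rw [hj] at h
      have hjr : r - 2 < j := (Nat.pow_lt_pow_iff_right (by norm_num)).mp h
      rw [hl]
      exact (Nat.pow_le_pow_right (by norm_num) (by omega : l ≤ 1)).trans_eq (pow_one 2)
  have htV : (⟨t, htS⟩ : S₀) ∈ V := Subtype.ext (by simpa [← ht] using pow_orderOf_eq_one t)
  have hout : ∀ n : N, act n ⟨t, htS⟩ ∈ V ∧ act n ⟨t, htS⟩ ∉ W := fun n => by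
    refine ⟨?_, fun h => hcon n n.2 h.2⟩
    apply Subtype.ext
    have : t ^ 2 = 1 := ht ▸ pow_orderOf_eq_one t
    simp [act, conj_pow, this]
  have hrel2 : (W.subgroupOf V).index = 2 := by
    have h0 : W.relIndex V ≠ 0 := Subgroup.index_ne_zero_of_finite
    have h1 : W.relIndex V ≠ 1 := fun h =>
      (hout 1).2 (Subgroup.relIndex_eq_one.mp h (hout 1).1)
    show W.relIndex V = 2
    omega
  have hprod : ∀ T : Finset (N ⧸ C), (∏ q ∈ T, (⟨_, (hout q.out).1⟩ : V)) ∈ W.subgroupOf V ↔
      Even T.card := by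
    intro T
    induction T using Finset.induction_on with
    | empty => simp
    | insert q T hq ih =>
      rw [Finset.prod_insert hq, Subgroup.mul_mem_iff_of_index_two hrel2, ih,
        Finset.card_insert_of_notMem hq, Nat.even_add_one]
      simp [Subgroup.mem_subgroupOf, (hout q.out).2]
  have h1 : (∏ q : N ⧸ C, (⟨_, (hout q.out).1⟩ : V)) = 1 := by
    apply V.subtype_injective
    rw [map_prod, map_one]
    exact hν ⟨t, htS⟩
  have := (hprod Finset.univ).mp (h1 ▸ one_mem _)
  rw [Finset.card_univ, ← Nat.card_eq_fintype_card] at this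
  exact (Nat.not_even_iff_odd.mpr hodd) this

end Cfsg.Agent.S1244
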