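import Cfsg.Statements.S1247
import Cfsg.Agent.Lib.TwoFusion.BenderMax

set_option autoImplicit false
open Cfsg

namespace Cfsg.Agent.S1247

/-- Let G be a non-abelian finite simple group, A a maximal subgroup, F = F*(A) its generalized Fitting subgroup (viewed in G), and S ≤ F a subgroup subnormal in F with C_F(S) ≤ S. Let B be any subgroup of G containing S. Then (a) for every prime q not dividing |F(A)|, O_q(B) ∩ A = 1; and (b) for every prime p dividing |F(A)|, O_p(B) commutes elementwise with the subgroup of F generated by its elements of order prime to p. -/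
theorem result {G : Type*} [Group G] [Finite G] [IsSimpleGroup G] (hna : ¬ IsMulCommutative G) (A : Subgroup G) (hA : IsCoatom A) (S : Subgroup G) (hSF : S ≤ (Cfsg.generalizedFittingSubgroup ↥A).map A.subtype) (hSsn : (S.subgroupOf ((Cfsg.generalizedFittingSubgroup ↥A).map A.subtype)).IsSubnormal) (hSC : (Cfsg.generalizedFittingSubgroup ↥A).map A.subtype ⊓ Subgroup.centralizer (S : Set G) ≤ S) (B : Subgroup G) (hSB : S ≤ B) : (∀ q : ℕ, q.Prime → ¬ q ∣ Nat.card (Cfsg.fittingSubgroup ↥A) → (Cfsg.pCore q ↥B).map B.subtype ⊓ A = ⊥) ∧ (∀ p : ℕ, p.Prime → p ∣ Nat.card (Cfsg.fittingSubgroup ↥A) → ∀ x ∈ (Cfsg.pCore p ↥B).map B.subtype, ∀ y ∈ (Cfsg.pResidual p ↥(Cfsg.generalizedFittingSubgroup ↥A)).map ((Cfsg.generalizedFittingSubgroup ↥A).subtype) , x * (A.subtype y) = (A.subtype y) * x) := by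
  set F := Cfsg.generalizedFittingSubgroup A with hFdef
  set FG := F.map A.subtype with hFG
  have hFA : FG ≤ A := Subgroup.map_subtype_le F
  have hSA : S ≤ A := hSF.trans hFA
  set T := S.subgroupOf A with hT
  have hTS : T.map A.subtype = S := Subgroup.map_subgroupOf_eq_of_le hSA
  have hTF : T ≤ F := by
    intro t ht
    obtain ⟨u, hu, he⟩ := hSF (Subgroup.mem_subgroupOf.1 ht)
    rwa [← Subtype.ext he]
  have hTsn : T.IsSubnormal := by
    have hF' : FG.subgroupOf A = F := Subgroup.comap_map_eq_self_of_injective A.subtype_injective F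
    have h2 : (Subgroup.inclusion hFA).range = F := by rw [Subgroup.inclusion_range, hF']
    have e : T.subgroupOf F = (S.subgroupOf FG).map
        ((Subgroup.inclusion hFA).rangeRestrict.comp (MonoidHom.id _) |> fun g =>
          (MulEquiv.subgroupCongr h2).toMonoidHom.comp g) := by
      ext g
      constructor
      · intro hg
        exact ⟨⟨(g : A), ⟨g, g.2, rfl⟩⟩, Subgroup.mem_subgroupOf.1 (Subgroup.mem_subgroupOf.1 hg),
          Subtype.ext (Subtype.ext rfl)⟩
      · rintro ⟨u, hu, rfl⟩
        exact hu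
    have hs : (T.subgroupOf F).IsSubnormal := by
      rw [e]
      exact hSsn.map ((MulEquiv.subgroupCongr h2).surjective.comp (MonoidHom.rangeRestrict_surjective _))
    have h3 := hs.trans' (inferInstance : F.Normal).isSubnormal
    rwa [Subgroup.map_subgroupOf_eq_of_le hTF] at h3
  have hTC : F ⊓ Subgroup.centralizer (T : Set A) ≤ T := by
    intro x hx
    refine Subgroup.mem_subgroupOf.2 (hSC ⟨Subgroup.mem_map_of_mem A.subtype hx.1, fun s hs => ?_⟩)
    exact congrArg Subtype.val (Subgroup.mem_centralizer_iff.1 hx.2 ⟨s, hSA hs⟩ hs)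
  have hnorm : ∀ r : ℕ, T.map A.subtype ≤
      Subgroup.normalizer (((Cfsg.pCore r B).map B.subtype : Subgroup G) : Set G) := fun r => by
    rw [hTS]
    exact hSB.trans (Subgroup.le_normalizer.trans
      (CfsgLib.Cores.normalizer_le_normalizer_map_subtype B _))
  refine ⟨fun q hq hqd => ?_, fun p hp hpd => ?_⟩
  · haveI : Fact q.Prime := ⟨hq⟩
    exact (CfsgLib.TwoFusion.bender_maximal hna A hA T hTF hTsn hTC _
      ((CfsgLib.Cores.isPGroup_pCore q B).map _) (hnorm q)).1 hqd
  · haveI : Fact p.Prime := ⟨hp⟩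
    intro x hx y hy
    have key := (CfsgLib.TwoFusion.bender_maximal hna A hA T hTF hTsn hTC _
      ((CfsgLib.Cores.isPGroup_pCore p B).map _) (hnorm p)).2 hpd
    have hle : (Cfsg.pResidual p F).map F.subtype ≤
        (Subgroup.centralizer ({x} : Set G)).comap A.subtype := by
      rw [Subgroup.map_le_iff_le_comap, Cfsg.pResidual, Subgroup.closure_le]
      intro g hg
      refine Subgroup.mem_centralizer_singleton_iff.2 ?_
      exact (key (g : A) g.2 (by rw [Subgroup.orderOf_coe]; exact hg) x hx).eq.symm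
    exact (Subgroup.mem_centralizer_singleton_iff.1 (hle hy)).symm

end Cfsg.Agent.S1247
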