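import Cfsg.Statements.S1248
import Cfsg.Agent.Lib.InvChar.UnitaryFourType

set_option autoImplicit false
open Cfsg

namespace Cfsg.Agent.S1248

/-- Let F be a field with 16 elements and S a Sylow 2-subgroup of PSU(3) over F (the unitary group U₃(4)). Then |S| = 64; the centre Z(S) is a Klein four-group and coincides with the subgroup generated by the involutions of S and with the derived subgroup; and every element of S ⧸ Z(S) squares to the identity, S ⧸ Z(S) having order 16. -/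
theorem result {F : Type*} [Field F] [Fintype F] (hF : Fintype.card F = 16) (S : Sylow 2 (Cfsg.PSU 3 F 4)) : Nat.card S = 64 ∧ IsKleinFour (Subgroup.center (S : Subgroup (Cfsg.PSU 3 F 4))) ∧ Subgroup.center (S : Subgroup (Cfsg.PSU 3 F 4)) = Subgroup.closure {x : (S : Subgroup (Cfsg.PSU 3 F 4)) | orderOf x = 2} ∧ Subgroup.center (S : Subgroup (Cfsg.PSU 3 F 4)) = commutator (S : Subgroup (Cfsg.PSU 3 F 4)) ∧ Nat.card ((S : Subgroup (Cfsg.PSU 3 F 4)) ⧸ Subgroup.center (S : Subgroup (Cfsg.PSU 3 F 4))) = 16 ∧ ∀ x : (S : Subgroup (Cfsg.PSU 3 F 4)) ⧸ Subgroup.center (S : Subgroup (Cfsg.PSU 3 F 4)), x ^ 2 = 1 := by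
  have : Fact (Nat.Prime 2) := ⟨Nat.prime_two⟩
  obtain ⟨h64, h4, hsq, hz2, hinv, -⟩ := CfsgLib.InvChar.UnitaryFour.isUnitaryType hF S
  obtain ⟨e, he⟩ := CfsgLib.InvChar.UnitaryFour.exists_param hF S
  refine ⟨h64, ⟨h4, ?_⟩, ?_, ?_, ?_, ?_⟩
  · have hn : Nontrivial (Subgroup.center (S : Subgroup (Cfsg.PSU 3 F 4))) :=
      Finite.one_lt_card_iff_nontrivial.1 (by rw [h4]; norm_num)
    refine Monoid.exponent_eq_prime_iff Nat.prime_two |>.2 fun z hz => orderOf_eq_prime ?_ hz
    exact Subtype.ext (by rw [pow_two]; exact hz2 z.1 z.2)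
  · refine le_antisymm (fun z hz => ?_) ((Subgroup.closure_le _).2 fun z hz => ?_)
    · by_cases hz1 : z = 1
      · rw [hz1]; exact one_mem _
      · exact Subgroup.subset_closure (orderOf_eq_prime (by rw [pow_two]; exact hz2 z hz) hz1)
    · have h : orderOf z = 2 := hz
      refine hinv z ?_
      have := pow_orderOf_eq_one z
      rwa [h, pow_two] at this
  · refine le_antisymm (fun z hz => ?_) ?_
    · obtain ⟨s, t, hst⟩ := CfsgLib.InvChar.UnitaryFour.exists_cm_eq hF e he hz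
      have hzst : z = (s⁻¹ * t⁻¹ * s * t) := by
        rw [mul_assoc (s⁻¹ * t⁻¹) s t, hst]; group
      rw [hzst, show s⁻¹ * t⁻¹ * s * t = s⁻¹ * t⁻¹ * (s⁻¹)⁻¹ * (t⁻¹)⁻¹ by simp]
      exact Subgroup.commutator_mem_commutator (Subgroup.mem_top s⁻¹) (Subgroup.mem_top t⁻¹)
    · rw [commutator_def, Subgroup.commutator_le]
      intro a _ b _
      have h := CfsgLib.InvChar.SymThree.IsUnitaryType.cm_center
        (CfsgLib.InvChar.UnitaryFour.isUnitaryType hF S) a⁻¹ b⁻¹
      simpa [CfsgLib.InvChar.SymThree.cm, commutatorElement_def] using h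
  · have h := Subgroup.card_eq_card_quotient_mul_card_subgroup
      (Subgroup.center (S : Subgroup (Cfsg.PSU 3 F 4)))
    rw [h4] at h
    have h64' : Nat.card ↥(S : Subgroup (Cfsg.PSU 3 F 4)) = 64 := h64
    omega
  · intro x
    obtain ⟨g, rfl⟩ := QuotientGroup.mk_surjective x
    rw [pow_two, ← QuotientGroup.mk_mul, QuotientGroup.eq_one_iff]
    exact hsq g

end Cfsg.Agent.S1248
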