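import Cfsg.Statements.S1253
import Cfsg.Agent.Lib.TwoFusion.IsolatedInvariant
import Cfsg.Agent.S0215

set_option autoImplicit false
open Cfsg

namespace Cfsg.Agent.S1253

/-- Let z be an isolated involution of the finite group G with centralizer C, p an odd prime and P a Sylow p-subgroup of G normalized by z. Then P ∩ C has p-power-free index in C (it is a Sylow p-subgroup of C), and |P : C_P(z)| equals the number of elements x ∈ P with z x z⁻¹ = x⁻¹. -/
theorem result {G : Type*} [Group G] [Finite G] (z : G) (hz : Cfsg.IsIsolatedInvolution z) {p : ℕ} [Fact p.Prime] (hp : p ≠ 2) (P : Sylow p G) (hzP : z ∈ Subgroup.normalizer ((P : Subgroup G) : Set G)) : ¬ p ∣ ((P : Subgroup G) ⊓ Subgroup.centralizer ({z} : Set G)).relIndex (Subgroup.centralizer ({z} : Set G)) ∧ ((P : Subgroup G) ⊓ Subgroup.centralizer ({z} : Set G)).relIndex (P : Subgroup G) = Nat.card {x : G // x ∈ P ∧ z * x * z⁻¹ = x⁻¹} := by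
  haveI : Fact (Nat.Prime p) := inferInstance
  have hodd : Odd (Nat.card (P : Subgroup G)) := by
    obtain ⟨k, hk⟩ := P.2.exists_card_eq
    rw [hk]; exact ((Fact.out : p.Prime).odd_of_ne_two hp).pow
  exact ⟨CfsgLib.TwoFusion.not_dvd_relIndex_centralizer
      (fun H _ _ Q t ht htQ hiso => Cfsg.Agent.S0215.result Q t ht htQ hiso) hz P hzP,
    CfsgLib.TwoFusion.relIndex_eq_card_inverted (CfsgLib.TwoFusion.mul_self hz) P hodd hzP⟩

end Cfsg.Agent.S1253
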