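import Cfsg.Statements.S1256
import Cfsg.Agent.Lib.TwoFusion.DihedralFusion

set_option autoImplicit false
open Cfsg

namespace Cfsg.Agent.S1256

/-- Let X be a finite group whose Sylow 2-subgroup S is dihedral of order 2m ≥ 4. If |S| = 4, any two Klein four-subgroups of X are conjugate; if |S| > 4, there are Klein four-subgroups U₁, U₂ of X that are not conjugate, and every Klein four-subgroup of X is conjugate to U₁ or to U₂. -/
theorem result {X : Type*} [Group X] [Finite X] (S : Sylow 2 X) (m : ℕ) (hm : 2 ≤ m) (eS : (S : Subgroup X) ≃* DihedralGroup m) : (Nat.card S = 4 → ∀ U V : Subgroup X, IsKleinFour U → IsKleinFour V → (∃ x : X, U.map (MulAut.conj x).toMonoidHom = V)) ∧ (4 < Nat.card S → ∃ U₁ U₂ : Subgroup X, IsKleinFour U₁ ∧ IsKleinFour U₂ ∧ ¬ (∃ x : X, U₁.map (MulAut.conj x).toMonoidHom = U₂) ∧ ∀ V : Subgroup X, IsKleinFour V → (∃ x : X, V.map (MulAut.conj x).toMonoidHom = U₁) ∨ (∃ x : X, V.map (MulAut.conj x).toMonoidHom = U₂))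 := by
  classical
  obtain ⟨k, rfl, ⟨δ⟩⟩ := CfsgLib.TwoFusion.exists_dihedralSylow S hm eS
  have hS : Nat.card S = 2 * 2 ^ k := (Nat.card_congr eS.toEquiv).trans DihedralGroup.nat_card
  have hk := δ.pos
  refine ⟨fun h4 U V hU hV => ?_, fun h4 => ?_⟩
  · have hk1 : k - 1 = 0 := by
      rw [hS] at h4
      rcases Nat.lt_or_ge 1 k with h | h
      · have : 2 ^ 2 ≤ 2 ^ k := Nat.pow_le_pow_right (by norm_num) h
        omega
      · omega
    obtain ⟨x, i, -, hx⟩ := δ.klein_conj hU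
    obtain ⟨y, i', -, hy⟩ := δ.klein_conj hV
    rw [hk1, δ.shape_zero] at hx hy
    refine ⟨y⁻¹ * x, ?_⟩
    rw [show U.map (MulAut.conj (y⁻¹ * x)).toMonoidHom =
      (U.map (MulAut.conj x).toMonoidHom).map (MulAut.conj y⁻¹).toMonoidHom by
        rw [Subgroup.map_map]; congr 1; ext; simp [mul_assoc],
      hx, ← hy, Subgroup.map_map]
    convert Subgroup.map_id V
    ext; simp [mul_assoc]
  · have hk2 : 1 ≤ k - 1 := by
      rw [hS] at h4
      rcases Nat.lt_or_ge 1 k with h | h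
      · omega
      · have : 2 ^ k ≤ 2 ^ 1 := Nat.pow_le_pow_right (by norm_num) h
        omega
    refine ⟨δ.shape (k - 1) 0, δ.shape (k - 1) 1, δ.shape_isKleinFour 0, δ.shape_isKleinFour 1,
      fun ⟨x, hx⟩ => δ.not_conj (k - 1) hk2 le_rfl x hx, fun V hV => ?_⟩
    obtain ⟨x, i, hi, hx⟩ := δ.klein_conj hV
    rcases hi with rfl | rfl
    · exact Or.inl ⟨x, hx⟩
    · exact Or.inr ⟨x, hx⟩

end Cfsg.Agent.S1256
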