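import Cfsg.Statements.S1260
import Cfsg.Agent.Lib.Cores.Components

set_option autoImplicit false
open Cfsg

namespace Cfsg.Agent.S1260

/-- Let H be a subnormal subgroup of the finite group G and K a subgroup of H. Then K is a component of H if and only if K, viewed in G, is a component of G. -/
theorem result {G : Type*} [Group G] [Finite G] (H : Subgroup G) (hH : H.IsSubnormal) (K : Subgroup ↥H) : Cfsg.IsComponent K ↔ Cfsg.IsComponent (K.map H.subtype) := by
  refine ⟨CfsgLib.Cores.isComponent_map_subtype hH, fun h => ?_⟩
  have := CfsgLib.Cores.isComponent_subgroupOf (M := H) h (Subgroup.map_subtype_le _)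
  rwa [← Subgroup.comap_map_eq_self_of_injective H.subtype_injective K]

end Cfsg.Agent.S1260
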