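import Cfsg.Statements.S1262
import Cfsg.Agent.Lib.Cores.Components

set_option autoImplicit false
open Cfsg

namespace Cfsg.Agent.S1262

/-- Let L be a component of the finite group G and H a solvable subgroup normalized by L. Then ⁅L, H⁆ = 1. -/
theorem result {G : Type*} [Group G] [Finite G] (L H : Subgroup G) (hL : Cfsg.IsComponent L) (hsolv : Group.IsSolvable ↥H) (hinv : L ≤ Subgroup.normalizer (H : Set G)) : ⁅L, H⁆ = ⊥ := by
  haveI := hsolv
  have hLM : L ≤ L ⊔ H := le_sup_left
  have hHM : H ≤ L ⊔ H := le_sup_right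
  have hn : L ⊔ H ≤ Subgroup.normalizer (H : Set G) := sup_le hinv Subgroup.le_normalizer
  haveI hN : (H.subgroupOf (L ⊔ H)).Normal :=
    (Subgroup.normal_subgroupOf_iff_le_normalizer hHM).2 hn
  haveI : Group.IsSolvable ↥(H.subgroupOf (L ⊔ H)) :=
    Group.isSolvable_of_isSolvable_injective (f := (Subgroup.subgroupOfEquivOfLe hHM).toMonoidHom)
      (Subgroup.subgroupOfEquivOfLe hHM).injective
  have hc := CfsgLib.Cores.isComponent_subgroupOf hL hLM
  exact CfsgLib.Cores.commutator_eq_bot_of_subgroupOf hLM hHM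
    ((CfsgLib.Cores.le_or_commutator_eq_bot hc hN.isSubnormal).resolve_left
      (CfsgLib.Cores.not_le_of_isSolvable hc))

end Cfsg.Agent.S1262
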