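import Cfsg.Statements.S1281
import Cfsg.Agent.Lib.Balance.CentralizerCore

set_option autoImplicit false
open Cfsg

namespace Cfsg.Agent.S1281

/-- Let θ be a solvable A-signalizer functor on the finite group G (A a noncyclic elementary abelian p-subgroup) and N a normal subgroup of order prime to p. Then for all non-identity a, b ∈ A, the image of θ a in G / N meets the centralizer of the image of b inside the image of θ b. -/
theorem result {G : Type*} [Group G] [Finite G] (p : ℕ) [Fact p.Prime] (A : Subgroup G) (hA : Cfsg.IsElementaryAbelian p A) (hA2 : p ^ 2 ≤ Nat.card ↥A) (θ : G → Subgroup G) (hθ : Cfsg.IsSolvableSignalizerFunctor p A θ) (N : Subgroup G) [N.Normal] (hN : ¬ p ∣ Nat.card ↥N) (a b : G) (ha : a ∈ A) (ha1 : a ≠ 1) (hb : b ∈ A) (hb1 : b ≠ 1) : (θ a).map (QuotientGroup.mk' N) ⊓ Subgroup.centralizer {QuotientGroup.mk' N b} ≤ (θ b).map (QuotientGroup.mk' N) := by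
  rintro _ ⟨⟨x, hx, rfl⟩, hxb⟩
  have hcomm : Commute (QuotientGroup.mk' N b) (QuotientGroup.mk' N x) :=
    CfsgLib.Balance.mem_centralizer_singleton.1 hxb
  have hz : Subgroup.zpowers b ≤ A := Subgroup.zpowers_le.2 hb
  have hnt := hz.trans (CfsgLib.Balance.theta_normalized hθ.1 ha ha1)
  have hP : IsPGroup p ↥(Subgroup.zpowers b) := (CfsgLib.Balance.elemAb_isPGroup hA).to_le hz
  have hnN : Subgroup.zpowers b ≤ Subgroup.normalizer ((N ⊓ θ a : Subgroup G) : Set G) :=
    CfsgLib.Balance.le_normalizer_inf (by rw [Subgroup.normalizer_eq_top (H := N)]; exact le_top)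
      hnt
  obtain ⟨c, hc, hcx⟩ := CfsgLib.Balance.exists_centralizer_lift hP
    (fun h => hN (h.trans (Subgroup.card_dvd_of_le inf_le_left))) hnN x (fun y hy => by
      refine ⟨?_, (θ a).mul_mem ((θ a).inv_mem hx) (CfsgLib.CoprimeAction.conj_mem (hnt hy) hx)⟩
      obtain ⟨i, rfl⟩ := Subgroup.mem_zpowers_iff.1 hy
      show x⁻¹ * (b ^ i * x * (b ^ i)⁻¹) ∈ N
      rw [← QuotientGroup.eq_one_iff]
      show QuotientGroup.mk' N (x⁻¹ * (b ^ i * x * (b ^ i)⁻¹)) = 1
      rw [map_mul, map_mul, map_mul, map_inv, map_inv, map_zpow, (hcomm.zpow_left i).eq]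
      group)
  refine ⟨c, hθ.1.2.2.2 a ha ha1 b hb hb1 ⟨?_, ?_⟩, ?_⟩
  · have := mul_mem hx hcx.2
    rwa [mul_inv_cancel_left] at this
  · exact CfsgLib.Balance.mem_centralizer_singleton.2
      (Subgroup.mem_centralizer_iff.1 hc b (Subgroup.mem_zpowers b))
  · exact (QuotientGroup.eq.2 hcx.1).symm

end Cfsg.Agent.S1281
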