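import Cfsg.Statements.S1286

set_option autoImplicit false
open Cfsg

namespace Cfsg.Agent.S1286

/-- The transposition (3 4). -/
def tA : Equiv.Perm (Fin 5) := Equiv.swap 3 4
/-- The transposition (0 1). -/
def tB : Equiv.Perm (Fin 5) := Equiv.swap 0 1
/-- A 3-cycle on 0, 1, 2. -/
def cX : Equiv.Perm (Fin 5) := Equiv.swap 0 1 * Equiv.swap 1 2
/-- A 3-cycle on 2, 3, 4. -/
def cY : Equiv.Perm (Fin 5) := Equiv.swap 2 3 * Equiv.swap 3 4

/-- The four-group. -/
def fourA : Subgroup (Equiv.Perm (Fin 5)) where
  carrier := {g | g = 1 ∨ g = tA ∨ g = tB ∨ g = tA * tB}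
  one_mem' := Or.inl rfl
  mul_mem' := by
    rintro a b (rfl | rfl | rfl | rfl) (rfl | rfl | rfl | rfl) <;>
      simp only [Set.mem_setOf_eq] <;> decide
  inv_mem' := by
    rintro a (rfl | rfl | rfl | rfl) <;> simp only [Set.mem_setOf_eq] <;> decide

/-- The group generated by the first 3-cycle. -/
def threeX : Subgroup (Equiv.Perm (Fin 5)) where
  carrier := {g | g = 1 ∨ g = cX ∨ g = cX * cX}
  one_mem' := Or.inl rfl
  mul_mem' := by
    rintro a b (rfl | rfl | rfl) (rfl | rfl | rfl) <;> simp only [Set.mem_setOf_eq] <;> decide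
  inv_mem' := by
    rintro a (rfl | rfl | rfl) <;> simp only [Set.mem_setOf_eq] <;> decide

/-- The group generated by the second 3-cycle. -/
def threeY : Subgroup (Equiv.Perm (Fin 5)) where
  carrier := {g | g = 1 ∨ g = cY ∨ g = cY * cY}
  one_mem' := Or.inl rfl
  mul_mem' := by
    rintro a b (rfl | rfl | rfl) (rfl | rfl | rfl) <;> simp only [Set.mem_setOf_eq] <;> decide
  inv_mem' := by
    rintro a (rfl | rfl | rfl) <;> simp only [Set.mem_setOf_eq] <;> decide

/-- The signalizer functor. -/
def theta (g : Equiv.Perm (Fin 5)) : Subgroup (Equiv.Perm (Fin 5)) :=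
  if g = tA then threeX else if g = tB then threeY else ⊥

theorem mem_fourA {g : Equiv.Perm (Fin 5)} :
    g ∈ fourA ↔ g = 1 ∨ g = tA ∨ g = tB ∨ g = tA * tB := Iff.rfl

theorem mem_threeX {g : Equiv.Perm (Fin 5)} : g ∈ threeX ↔ g = 1 ∨ g = cX ∨ g = cX * cX := Iff.rfl

theorem mem_threeY {g : Equiv.Perm (Fin 5)} : g ∈ threeY ↔ g = 1 ∨ g = cY ∨ g = cY * cY := Iff.rfl

theorem comm_three {H : Subgroup (Equiv.Perm (Fin 5))} (c : Equiv.Perm (Fin 5))
    (hH : ∀ g, g ∈ H → g = 1 ∨ g = c ∨ g = c * c) : Group.IsSolvable ↥H := by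
  refine Group.isSolvable_of_comm fun a b => ?_
  apply Subtype.ext
  simp only [Subgroup.coe_mul]
  rcases hH a a.2 with h | h | h <;> rcases hH b b.2 with h' | h' | h' <;> rw [h, h'] <;> group

theorem odd_three {H : Subgroup (Equiv.Perm (Fin 5))} (c : Equiv.Perm (Fin 5))
    (hH : ∀ g, g ∈ H → g = 1 ∨ g = c ∨ g = c * c) (hc : c ^ 3 = 1) : ¬ 2 ∣ Nat.card ↥H := by
  intro h
  obtain ⟨g, hg⟩ := exists_prime_orderOf_dvd_card' 2 h
  have h3 : g ^ 3 = 1 := by
    apply Subtype.ext
    rw [SubmonoidClass.coe_pow, OneMemClass.coe_one]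
    rcases hH g g.2 with e | e | e <;> rw [e]
    · exact one_pow 3
    · exact hc
    · rw [← sq, ← pow_mul, pow_mul', hc, one_pow]
  have := orderOf_dvd_of_pow_eq_one h3
  rw [hg] at this
  norm_num at this


/-- There exist a finite group X, an elementary abelian subgroup A of order 4 and a solvable A-signalizer functor θ on X for the prime 2 which is not complete. -/
theorem result : ∃ (X : Type) (_ : Group X) (_ : Finite X) (A : Subgroup X) (θ : X → Subgroup X), Cfsg.IsElementaryAbelian 2 A ∧ Nat.card ↥A = 4 ∧ Cfsg.IsSolvableSignalizerFunctor 2 A θ ∧ ¬ Cfsg.IsCompleteSignalizerFunctor 2 A θ := by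
  refine ⟨Equiv.Perm (Fin 5), inferInstance, inferInstance, fourA, theta, ?_, ?_, ?_, ?_⟩
  · refine ⟨⟨⟨fun a b => Subtype.ext ?_⟩⟩, fun a ha => ?_⟩
    · simp only [Subgroup.coe_mul]
      rcases mem_fourA.1 a.2 with h | h | h | h <;> rcases mem_fourA.1 b.2 with h' | h' | h' | h' <;>
        rw [h, h'] <;> decide
    · rcases mem_fourA.1 ha with rfl | rfl | rfl | rfl <;> decide
  · have hset : (fourA : Set (Equiv.Perm (Fin 5))) =
        (({1, tA, tB, tA * tB} : Finset (Equiv.Perm (Fin 5))) : Set (Equiv.Perm (Fin 5))) := by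
      ext g
      simp [mem_fourA]
    rw [show Nat.card ↥fourA = Nat.card ↥(fourA : Set (Equiv.Perm (Fin 5))) from rfl, hset,
      Nat.card_coe_set_eq, Set.ncard_coe_finset]
    decide
  · have hne : tB ≠ tA := by decide
    have hne' : tA * tB ≠ tA ∧ tA * tB ≠ tB := by decide
    have htA : theta tA = threeX := if_pos rfl
    have htB : theta tB = threeY := by rw [theta, if_neg hne, if_pos rfl]
    have htC : theta (tA * tB) = ⊥ := by rw [theta, if_neg hne'.1, if_neg hne'.2]
    refine ⟨⟨fun a ha ha1 x hx => ?_, fun a ha ha1 => ?_, fun a ha ha1 b hb x hx => ?_,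
      fun a ha ha1 b hb hb1 x hx => ?_⟩, fun a ha ha1 => ?_⟩
    · rw [Subgroup.mem_centralizer_singleton_iff]
      rcases mem_fourA.1 ha with rfl | rfl | rfl | rfl
      · exact absurd rfl ha1
      · rw [htA] at hx
        rcases mem_threeX.1 hx with rfl | rfl | rfl <;> decide
      · rw [htB] at hx
        rcases mem_threeY.1 hx with rfl | rfl | rfl <;> decide
      · rw [htC, Subgroup.mem_bot] at hx
        subst hx; simp
    · rcases mem_fourA.1 ha with rfl | rfl | rfl | rfl
      · exact absurd rfl ha1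
      · rw [htA]; exact odd_three cX (fun g => mem_threeX.1) (by decide)
      · rw [htB]; exact odd_three cY (fun g => mem_threeY.1) (by decide)
      · rw [htC, Subgroup.card_bot]; norm_num
    · rcases mem_fourA.1 ha with rfl | rfl | rfl | rfl
      · exact absurd rfl ha1
      · rw [htA] at hx ⊢
        rw [mem_threeX]
        rcases mem_threeX.1 hx with rfl | rfl | rfl <;>
          rcases mem_fourA.1 hb with rfl | rfl | rfl | rfl <;> decide
      · rw [htB] at hx ⊢
        rw [mem_threeY]
        rcases mem_threeY.1 hx with rfl | rfl | rfl <;>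
          rcases mem_fourA.1 hb with rfl | rfl | rfl | rfl <;> decide
      · rw [htC, Subgroup.mem_bot] at hx ⊢
        subst hx; simp
    · obtain ⟨hx1, hx2⟩ := hx
      have hc : x * b = b * x := Subgroup.mem_centralizer_singleton_iff.1 hx2
      rcases mem_fourA.1 ha with rfl | rfl | rfl | rfl
      · exact absurd rfl ha1
      · rw [htA] at hx1
        rcases mem_fourA.1 hb with rfl | rfl | rfl | rfl
        · exact absurd rfl hb1
        · rw [htA]; exact hx1
        all_goals
          rcases mem_threeX.1 hx1 with rfl | rfl | rfl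
          · exact one_mem _
          all_goals exact absurd hc (by decide)
      · rw [htB] at hx1
        rcases mem_fourA.1 hb with rfl | rfl | rfl | rfl
        · exact absurd rfl hb1
        · rcases mem_threeY.1 hx1 with rfl | rfl | rfl
          · exact one_mem _
          all_goals exact absurd hc (by decide)
        · rw [htB]; exact hx1
        · rcases mem_threeY.1 hx1 with rfl | rfl | rfl
          · exact one_mem _
          all_goals exact absurd hc (by decide)
      · rw [htC] at hx1
        rw [Subgroup.mem_bot.1 hx1]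
        exact one_mem _
    · rcases mem_fourA.1 ha with rfl | rfl | rfl | rfl
      · exact absurd rfl ha1
      · rw [htA]; exact comm_three cX fun g => mem_threeX.1
      · rw [htB]; exact comm_three cY fun g => mem_threeY.1
      · rw [htC]; exact Group.isSolvable_of_comm fun a b => Subsingleton.elim _ _
  · rintro ⟨-, X, -, hX2, hX⟩
    have hA1 : tA ∈ fourA := Or.inr (Or.inl rfl)
    have hB1 : tB ∈ fourA := Or.inr (Or.inr (Or.inl rfl))
    have hx : cX ∈ X := by
      have h : cX ∈ theta tA := by rw [theta, if_pos rfl]; exact Or.inr (Or.inl rfl)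
      rw [← hX tA hA1 (by decide)] at h
      exact h.1
    have hy : cY ∈ X := by
      have h : cY ∈ theta tB := by
        rw [theta, if_neg (by decide), if_pos rfl]; exact Or.inr (Or.inl rfl)
      rw [← hX tB hB1 (by decide)] at h
      exact h.1
    have hw : cX * cY * cX * (cY * cY) ∈ X := mul_mem (mul_mem (mul_mem hx hy) hx) (mul_mem hy hy)
    have ho : orderOf (cX * cY * cX * (cY * cY)) = 2 := orderOf_eq_prime (by decide) (by decide)
    exact hX2 (ho ▸ Subgroup.orderOf_dvd_natCard X hw)

end Cfsg.Agent.S1286
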