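import Cfsg.Statements.S1303
import Cfsg.Agent.Lib.Balance.Local
import Cfsg.Agent.Lib.PSolvable.HallHigman

set_option autoImplicit false
open Cfsg

namespace Cfsg.Agent.S1303

local notation "SL23" => Matrix.SpecialLinearGroup (Fin 2) (ZMod 3)

set_option maxRecDepth 100000

theorem involution_central : ∀ t : SL23, t * t = 1 → ∀ g : SL23, g * t = t * g := by
  decide +kernel

theorem three_conj : ∀ x : SL23, x ^ 3 = 1 →
    (∀ g : SL23, (x * (g * x * g⁻¹)) ^ 3 = 1) → x = 1 := by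
  decide +kernel

theorem pow24 : ∀ x : SL23, x ^ 8 = 1 ∨ x ^ 3 = 1 ∨ x ^ 6 = 1 := by
  decide +kernel

theorem four_closed : ∀ x : SL23, x ^ 4 = 1 → ∀ y : SL23, y ^ 4 = 1 → (x * y) ^ 4 = 1 := by
  decide +kernel

theorem four_centralizer : ∀ g : SL23, (∀ x : SL23, x ^ 4 = 1 → x * g = g * x) → g ^ 4 = 1 := by
  decide +kernel

/-- The quaternion subgroup of SL(2,3). -/
def quat : Subgroup SL23 where
  carrier := {x | x ^ 4 = 1}
  one_mem' := one_pow 4
  mul_mem' := fun hx hy => four_closed _ hx _ hy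
  inv_mem' := fun {x} hx => by
    show x⁻¹ ^ 4 = 1
    rw [inv_pow, show x ^ 4 = 1 from hx, inv_one]

theorem mem_quat {x : SL23} : x ∈ quat ↔ x ^ 4 = 1 := Iff.rfl

instance quat_normal_inst : quat.Normal := ⟨fun n hn g => by
  rw [mem_quat, conj_pow, mem_quat.1 hn]; group⟩

/-- An element of order 3. -/
def shear : SL23 := ⟨!![1, 1; 0, 1], Matrix.det_fin_two_of _ _ _ _ |>.trans (by decide)⟩

theorem core_eq_bot : Cfsg.pPrimeCore 2 SL23 = ⊥ := by
  rw [eq_bot_iff]
  intro x hx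
  have hodd := CfsgLib.Cores.card_pPrimeCore_coprime (G := SL23) 2
  have key : ∀ y ∈ Cfsg.pPrimeCore 2 SL23, y ^ 3 = 1 := by
    intro y hy
    have hd : Nat.Coprime (orderOf y) 2 :=
      hodd.coprime_dvd_left (Subgroup.orderOf_dvd_natCard _ hy)
    have h24 : orderOf y ∣ 8 ∨ orderOf y ∣ 3 ∨ orderOf y ∣ 6 :=
      (pow24 y).imp orderOf_dvd_of_pow_eq_one
        (fun h => h.imp orderOf_dvd_of_pow_eq_one orderOf_dvd_of_pow_eq_one)
    refine orderOf_dvd_iff_pow_eq_one.1 ?_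
    rcases h24 with h | h | h
    · have h1 := Nat.eq_one_of_dvd_coprimes (Nat.Coprime.pow_right 3 hd) dvd_rfl
        (show orderOf y ∣ 2 ^ 3 from h)
      rw [h1]; exact one_dvd 3
    · exact h
    · exact hd.dvd_of_dvd_mul_left (show orderOf y ∣ 2 * 3 from h)
  exact Subgroup.mem_bot.2 (three_conj x (key x hx) fun g =>
    key _ (mul_mem hx ((Cfsg.pPrimeCore_normal 2 SL23).conj_mem x hx g)))


/-- The group X = SL(2, 3): it is 2-constrained, O_{2'}(X) = 1, its centre A = Z(X) contains every involution of X = C_X(A), and X has a subgroup of order 3 (normalized by A) not contained in O_{2'}(X). -/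
theorem result : Cfsg.IsPConstrained 2 (Matrix.SpecialLinearGroup (Fin 2) (ZMod 3)) ∧ Cfsg.pPrimeCore 2 (Matrix.SpecialLinearGroup (Fin 2) (ZMod 3)) = ⊥ ∧ (∀ t : Matrix.SpecialLinearGroup (Fin 2) (ZMod 3), orderOf t = 2 → t ∈ Subgroup.center (Matrix.SpecialLinearGroup (Fin 2) (ZMod 3))) ∧ ∃ Q : Subgroup (Matrix.SpecialLinearGroup (Fin 2) (ZMod 3)), Nat.card ↥Q = 3 ∧ ¬ (Q ≤ Cfsg.pPrimeCore 2 (Matrix.SpecialLinearGroup (Fin 2) (ZMod 3))) := by
  refine ⟨?_, core_eq_bot, fun t ht => ?_, ?_⟩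
  · rw [CfsgLib.PSolvable.isPConstrained_iff_of_pPrimeCore_eq_bot core_eq_bot]
    have hq : IsPGroup 2 ↥quat := fun x => ⟨2, Subtype.ext (by simpa using mem_quat.1 x.2)⟩
    have hle : quat ≤ Cfsg.pCore 2 (Matrix.SpecialLinearGroup (Fin 2) (ZMod 3)) :=
      CfsgLib.Cores.le_pCore hq
    exact fun g hg => hle (mem_quat.2 (four_centralizer g fun x hx =>
      Subgroup.mem_centralizer_iff.1 hg x (hle (mem_quat.2 hx))))
  · rw [Subgroup.mem_center_iff]
    exact involution_central t ((sq t).symm.trans (orderOf_dvd_iff_pow_eq_one.1 ht.dvd))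
  · refine ⟨Subgroup.zpowers shear, ?_, ?_⟩
    · rw [Nat.card_zpowers]
      exact orderOf_eq_prime (by decide +kernel) (by decide +kernel)
    · rw [core_eq_bot, le_bot_iff, Subgroup.zpowers_eq_bot]
      decide +kernel

end Cfsg.Agent.S1303
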