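import Cfsg.Statements.S1304
import Mathlib

set_option autoImplicit false
open Cfsg

namespace Cfsg.Agent.S1304

/-- Let X be a perfect group and α an automorphism of X with α(x) x⁻¹ central for every x. Then α is the identity. -/
theorem result {X : Type*} [Group X] (hperf : commutator X = ⊤) (α : X ≃* X) (h : ∀ x : X, α x * x⁻¹ ∈ Subgroup.center X) : ∀ x : X, α x = x := by
  intro x
  have key : ∀ a b : X, α (a * b * a⁻¹ * b⁻¹) = a * b * a⁻¹ * b⁻¹ := by
    intro a b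
    obtain ⟨z, hz, hza⟩ : ∃ z ∈ Subgroup.center X, α a = z * a :=
      ⟨α a * a⁻¹, h a, by group⟩
    obtain ⟨w, hw, hwb⟩ : ∃ w ∈ Subgroup.center X, α b = w * b :=
      ⟨α b * b⁻¹, h b, by group⟩
    have hz' := Subgroup.mem_center_iff.mp hz
    have hw' := Subgroup.mem_center_iff.mp hw
    simp only [map_mul, map_inv, hza, hwb, mul_inv_rev]
    calc z * a * (w * b) * (a⁻¹ * z⁻¹) * (b⁻¹ * w⁻¹)
        = z * ((a * w) * b * a⁻¹ * z⁻¹) * b⁻¹ * w⁻¹ := by group
      _ = z * (w * a * b * a⁻¹ * z⁻¹) * b⁻¹ * w⁻¹ := by rw [hw' a]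
      _ = (z * (w * a * b * a⁻¹)) * z⁻¹ * b⁻¹ * w⁻¹ := by group
      _ = (w * a * b * a⁻¹ * z) * z⁻¹ * b⁻¹ * w⁻¹ := by rw [hz' (w * a * b * a⁻¹)]
      _ = w * (a * b * a⁻¹ * b⁻¹) * w⁻¹ := by group
      _ = _ := by rw [← hw' (a * b * a⁻¹ * b⁻¹)]; group
  have hle : commutator X ≤ MonoidHom.eqLocus α.toMonoidHom (MonoidHom.id X) := by
    rw [commutator_def, Subgroup.commutator_le]
    intro a _ b _
    exact key a b
  exact hle (hperf ▸ Subgroup.mem_top x)

end Cfsg.Agent.S1304
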