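import Cfsg.Statements.S1306
import Cfsg.Agent.Lib.Cores.Components
import Cfsg.Agent.Lib.StronglyPEmbedded.Helpers

set_option autoImplicit false
set_option linter.style.haveILetI false
open Cfsg

namespace Cfsg.Agent.S1306

/-- Let G be finite, x an involution and L ≤ C_G(x) a component of C_G(x). Suppose L is a component of C_G(y) for every involution y ∈ C_G(L), and ⁅L, g L g⁻¹⁆ ≠ 1 whenever g L g⁻¹ ≠ L. Then L is a standard subgroup of G. -/
theorem result {G : Type*} [Group G] [Finite G] (x : G) (hx : orderOf x = 2) (L : Subgroup G) (hLx : L ≤ Subgroup.centralizer ({x} : Set G)) (hL : Cfsg.IsComponent (L.subgroupOf (Subgroup.centralizer ({x} : Set G)))) (hne : ∀ y : G, orderOf y = 2 → y ∈ Subgroup.centralizer (L : Set G) → L ≤ Subgroup.centralizer ({y} : Set G) ∧ Cfsg.IsComponent (L.subgroupOf (Subgroup.centralizer ({y} : Set G)))) (hnc : ∀ g : G, L.map (MulAut.conj g).toMonoidHom ≠ L → ⁅L, L.map (MulAut.conj g).toMonoidHom⁆ ≠ ⊥) : Cfsg.IsStandardSubgroup L := by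
  set C := Subgroup.centralizer (L : Set G) with hCdef
  have hxC : x ∈ C := Subgroup.mem_centralizer_iff.mpr fun l hl =>
    (Subgroup.mem_centralizer_singleton_iff.mp (hLx hl))
  have key : ∀ g z : G, orderOf z = 2 → z ∈ C → g * z * g⁻¹ ∈ C →
      L.map (MulAut.conj g).toMonoidHom = L := by
    intro g z hz hzC hgz
    set y := g * z * g⁻¹
    have hy : orderOf y = 2 := by
      rw [← hz]; exact orderOf_injective (MulAut.conj g).toMonoidHom (MulAut.conj g).injective z
    obtain ⟨hLy, hLyc⟩ := hne y hy hgz
    obtain ⟨hLz, hLzc⟩ := hne z hz hzC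
    set L' := L.map (MulAut.conj g).toMonoidHom
    have hL'y : L' ≤ Subgroup.centralizer ({y} : Set G) := by
      rintro _ ⟨l, hl, rfl⟩
      rw [Subgroup.mem_centralizer_singleton_iff]
      have := congrArg (MulAut.conj g) (Subgroup.mem_centralizer_singleton_iff.mp (hLz hl))
      simpa [y] using this
    have hCmap : (Subgroup.centralizer ({z} : Set G)).map (MulAut.conj g).toMonoidHom =
        Subgroup.centralizer ({y} : Set G) := by
      ext u
      rw [Subgroup.mem_map_equiv, Subgroup.mem_centralizer_singleton_iff,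
        Subgroup.mem_centralizer_singleton_iff]
      constructor
      · intro h
        have := congrArg (MulAut.conj g) h
        simpa [y, mul_assoc] using this
      · intro h
        have := congrArg (MulAut.conj g).symm h
        simpa [y, mul_assoc] using this
    let e : ↥(Subgroup.centralizer ({z} : Set G)) ≃* ↥(Subgroup.centralizer ({y} : Set G)) :=
      ((MulAut.conj g).subgroupMap _).trans (MulEquiv.subgroupCongr hCmap)
    have hmap : (L.subgroupOf (Subgroup.centralizer ({z} : Set G))).map e.toMonoidHom =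
        L'.subgroupOf (Subgroup.centralizer ({y} : Set G)) := by
      apply Subgroup.map_injective (Subgroup.subtype_injective _)
      rw [Subgroup.map_subgroupOf_eq_of_le hL'y, Subgroup.map_map]
      show _ = L.map (MulAut.conj g).toMonoidHom
      rw [show (Subgroup.centralizer ({y} : Set G)).subtype.comp e.toMonoidHom =
          (MulAut.conj g).toMonoidHom.comp (Subgroup.centralizer ({z} : Set G)).subtype from rfl,
        ← Subgroup.map_map, Subgroup.map_subgroupOf_eq_of_le hLz]
    have hL'c : Cfsg.IsComponent (L'.subgroupOf (Subgroup.centralizer ({y} : Set G))) :=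
      hmap ▸ CfsgLib.Cores.isComponent_map_equiv hLzc e
    by_contra hne'
    refine hnc g hne' (CfsgLib.Cores.commutator_eq_bot_of_subgroupOf hLy hL'y
      (CfsgLib.Cores.commutator_components_eq_bot hLyc hL'c fun h => hne' ?_))
    have := congrArg (Subgroup.map (Subgroup.centralizer ({y} : Set G)).subtype) h
    rw [Subgroup.map_subgroupOf_eq_of_le hLy, Subgroup.map_subgroupOf_eq_of_le hL'y] at this
    exact this.symm
  refine ⟨(CfsgLib.Cores.isQuasisimple_subgroupOf hLx).mp hL.2, ⟨?_, fun g hg => ?_⟩, hnc, ?_⟩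
  · have h := orderOf_dvd_natCard (⟨x, hxC⟩ : C)
    rw [Subgroup.orderOf_mk, hx] at h
    exact even_iff_two_dvd.mpr h
  · by_contra hodd
    rw [Nat.not_odd_iff_even, even_iff_two_dvd] at hodd
    haveI : Fact (Nat.Prime 2) := ⟨Nat.prime_two⟩
    obtain ⟨⟨y, hy⟩, hyo⟩ := exists_prime_orderOf_dvd_card'
      (G := ↥(C ⊓ C.map (MulAut.conj g).toMonoidHom)) 2 hodd
    rw [Subgroup.orderOf_mk] at hyo
    obtain ⟨hyC, z, hzC, rfl⟩ := hy
    have hz : orderOf z = 2 := by
      rw [← hyo]; exact (orderOf_injective _ (MulAut.conj g).injective z).symm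
    refine hg ?_
    refine CfsgLib.StronglyPEmbedded.normalizer_le_normalizer_centralizer L ?_
    exact Subgroup.mem_normalizer_iff_map_conj_eq.mpr (key g z hz hzC hyC)
  · refine le_antisymm (CfsgLib.StronglyPEmbedded.normalizer_le_normalizer_centralizer L) fun g hg => ?_
    exact Subgroup.mem_normalizer_iff_map_conj_eq.mpr
      (key g x hx hxC ((Subgroup.mem_normalizer_iff.mp hg x).mp hxC))

end Cfsg.Agent.S1306
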