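import Cfsg.Statements.S1307
import Cfsg.Agent.Lib.Involutions.BrauerSuzuki
import Cfsg.Agent.Lib.TwoGroups.RankOne
import Cfsg.Agent.Lib.Cores.Quasisimple
import Cfsg.Agent.Lib.Cores.PCore

set_option autoImplicit false
open Cfsg

namespace Cfsg.Agent.S1307

open Cfsg Subgroup in
/-- In a quasisimple group of even order and 2-rank 1 the Sylow 2-subgroups are generalized quaternion
and their involution is central. -/
theorem quaternion_of_rank_one {H : Type*} [Group H] [Finite H] (hq : IsQuasisimple H)
    (heven : Even (Nat.card H)) (hrk : PRankLE 2 1 H) :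
    ∃ t : H, orderOf t = 2 ∧ t ∈ Subgroup.center H ∧
      ∃ S : Sylow 2 H, ∃ n : ℕ, Nonempty (↥(S : Subgroup H) ≃* QuaternionGroup (2 ^ (n + 1))) := by
  haveI : Fact (Nat.Prime 2) := ⟨Nat.prime_two⟩
  obtain ⟨P⟩ := (Sylow.nonempty : Nonempty (Sylow 2 H))
  obtain ⟨t, htP, ht⟩ := CfsgLib.Involutions.exists_involution_mem_sylow P heven
  -- commuting involutions are equal
  have hcomm : ∀ a b : H, orderOf a = 2 → orderOf b = 2 → a * b = b * a → a = b := by
    intro a b ha hb hab
    by_contra hne
    have ha2 : a ^ 2 = 1 := by rw [← ha]; exact pow_orderOf_eq_one a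
    have hb2 : b ^ 2 = 1 := by rw [← hb]; exact pow_orderOf_eq_one b
    set A := Subgroup.closure ({a, b} : Set H) with hA
    haveI hAc : IsMulCommutative A := Subgroup.isMulCommutative_closure (by
      rintro x (rfl | rfl) y (rfl | rfl) <;> first | rfl | exact hab | exact hab.symm)
    have hA2 : ∀ x ∈ A, x ^ 2 = 1 := by
      intro x hx
      refine Subgroup.closure_induction (p := fun x _ => x ^ 2 = 1) ?_ (one_pow _) ?_ ?_ hx
      · rintro y (rfl | rfl) <;> assumption
      · intro y z hy hz h1 h2
        have hc : Commute y z := by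
          have := (mul_comm' (⟨y, hy⟩ : A) ⟨z, hz⟩)
          exact congrArg Subtype.val this
        rw [hc.mul_pow, h1, h2, one_mul]
      · intro y _ h1; rw [inv_pow, h1, inv_one]
    have h3 := hrk A hAc hA2
    haveI : Fintype H := Fintype.ofFinite H
    classical
    have hcard : 3 ≤ Nat.card A := by
      have hsub : ({1, a, b} : Set H) ⊆ (A : Set H) := by
        rintro y (rfl | rfl | rfl)
        · exact one_mem A
        · exact Subgroup.subset_closure (by simp)
        · exact Subgroup.subset_closure (by simp)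
      have h1a : (1 : H) ≠ a := fun h => by simp [← h] at ha
      have h1b : (1 : H) ≠ b := fun h => by simp [← h] at hb
      have h1 : Set.ncard ({1, a, b} : Set H) = 3 := by
        rw [Set.ncard_eq_three]; exact ⟨1, a, b, h1a, h1b, hne, rfl⟩
      rw [← SetLike.coe_sort_coe, Nat.card_coe_set_eq, ← h1]
      exact Set.ncard_le_ncard hsub
    omega
  -- one involution in `P`
  have huniq : CfsgLib.TwoGroups.UniqueOrderP 2 (P : Subgroup H) := by
    rw [CfsgLib.TwoGroups.uniqueOrderP_iff_unique_involution]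
    haveI : Nontrivial (P : Subgroup H) :=
      ⟨⟨⟨t, htP⟩, 1, fun h => by simp [Subtype.ext_iff] at h; simp [h] at ht⟩⟩
    haveI : Nontrivial (Subgroup.center (P : Subgroup H)) := P.2.center_nontrivial
    obtain ⟨z, hz⟩ := exists_prime_orderOf_dvd_card' (G := Subgroup.center (P : Subgroup H)) 2
      (by
        obtain ⟨n, hn⟩ := IsPGroup.iff_card.1 (P.2.to_subgroup (Subgroup.center (P : Subgroup H)))
        rw [hn]
        refine dvd_pow_self 2 ?_
        rintro rfl
        rw [pow_zero] at hn
        exact absurd (Finite.one_lt_card (α := Subgroup.center (P : Subgroup H))) (by omega))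
    have key : ∀ a : (P : Subgroup H), orderOf a = 2 → a = (z : (P : Subgroup H)) := by
      intro a ha
      apply Subtype.ext
      refine hcomm _ _ (by rw [Subgroup.orderOf_coe, ha])
        (by rw [Subgroup.orderOf_coe, Subgroup.orderOf_coe, hz]) ?_
      exact congrArg Subtype.val (Subgroup.mem_center_iff.1 z.2 a)
    intro a b ha hb
    rw [key a ha, key b hb]
  have hiso : ∀ g : H, g * t * g⁻¹ ∈ P → g * t * g⁻¹ = t := by
    intro g hg
    have := (CfsgLib.TwoGroups.uniqueOrderP_iff_unique_involution.1 huniq) ⟨g * t * g⁻¹, hg⟩ ⟨t, htP⟩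
      (by rw [← Subgroup.orderOf_coe]; exact (CfsgLib.Involutions.orderOf_conj g t).trans ht)
      (by rw [← Subgroup.orderOf_coe]; exact ht)
    exact congrArg Subtype.val this
  haveI := hq.1
  haveI : (oddCore H).Normal := by unfold oddCore; infer_instance
  have hO : oddCore H ≤ Subgroup.center H :=
    (CfsgLib.Cores.normal_eq_top_or_le_center hq (oddCore H)).resolve_left (fun h =>
      Nat.not_even_iff_odd.2 (CfsgLib.Cores.oddCore_eq_top_iff.1 h) heven)
  have hc : ∀ g : H, t * g * t⁻¹ * g⁻¹ ∈ Subgroup.center H := fun g =>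
    hO (CfsgLib.Involutions.zstar_isolated P ht hiso g)
  have htc : t ∈ Subgroup.center H := by
    let f : H →* Subgroup.center H :=
      { toFun := fun g => ⟨t * g * t⁻¹ * g⁻¹, hc g⟩
        map_one' := Subtype.ext (by simp)
        map_mul' := fun g h => by
          apply Subtype.ext
          have hh : (t * h * t⁻¹ * h⁻¹) * g⁻¹ = g⁻¹ * (t * h * t⁻¹ * h⁻¹) :=
            (Subgroup.mem_center_iff.1 (hc h) g⁻¹).symm
          calc t * (g * h) * t⁻¹ * (g * h)⁻¹
              = t * g * t⁻¹ * ((t * h * t⁻¹ * h⁻¹) * g⁻¹) := by group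
            _ = t * g * t⁻¹ * (g⁻¹ * (t * h * t⁻¹ * h⁻¹)) := by rw [hh]
            _ = t * g * t⁻¹ * g⁻¹ * (t * h * t⁻¹ * h⁻¹) := by group }
    rw [Subgroup.mem_center_iff]
    intro g
    have hker : commutator H ≤ f.ker := by
      rw [commutator_def, Subgroup.commutator_le]
      intro a _ b _
      rw [MonoidHom.mem_ker, map_commutatorElement, commutatorElement_eq_one_iff_mul_comm]
      exact Subtype.ext (Subgroup.mem_center_iff.1 (f b).2 (f a : H))
    rw [Group.isPerfect_def.1 hq.1] at hker
    have h1 : t * g * t⁻¹ * g⁻¹ = 1 := congrArg Subtype.val (hker (Subgroup.mem_top g))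
    exact (mul_inv_eq_iff_eq_mul.1 (mul_inv_eq_one.1 h1)).symm
  refine ⟨t, ht, htc, P, ?_⟩
  rcases CfsgLib.TwoGroups.isCyclic_or_quaternion P.2 huniq with hcyc | ⟨-, m, hm, e⟩
  · exfalso
    have hmf : (Nat.card H).minFac = 2 := (Nat.minFac_eq_two_iff _).2 (even_iff_two_dvd.1 heven)
    have hle : commutator H ≤ (MonoidHom.transferSylow P (hcyc.normalizer_le_centralizer hmf)).ker := by
      letI : CommGroup (P : Subgroup H) := hcyc.commGroup
      exact Abelianization.commutator_subset_ker _
    rw [Group.isPerfect_def.1 hq.1] at hle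
    have hK := hcyc.isComplement' hmf
    rw [eq_top_iff.2 hle, Subgroup.isComplement'_top_left] at hK
    have : t ∈ (⊥ : Subgroup H) := hK ▸ htP
    rw [Subgroup.mem_bot] at this
    rw [this, orderOf_one] at ht
    omega
  · exact ⟨m - 1, by rwa [Nat.sub_add_cancel hm]⟩

/-- Let G be finite, x an involution and L ≤ C_G(x) a component of C_G(x) of even order and 2-rank 1, such that L is a component of C_G(y) for every involution y ∈ C_G(L). Then some involution of L is a classical involution of G. -/
theorem result {G : Type*} [Group G] [Finite G] (x : G) (hx : orderOf x = 2) (L : Subgroup G) (hLx : L ≤ Subgroup.centralizer ({x} : Set G)) (hL : Cfsg.IsComponent (L.subgroupOf (Subgroup.centralizer ({x} : Set G)))) (heven : Even (Nat.card ↥L)) (hrk : Cfsg.PRankLE 2 1 ↥L) (hne : ∀ y : G, orderOf y = 2 → y ∈ Subgroup.centralizer (L : Set G) → L ≤ Subgroup.centralizer ({y} : Set G) ∧ Cfsg.IsComponent (L.subgroupOf (Subgroup.centralizer ({y} : Set G)))) : ∃ t ∈ L, Cfsg.IsClassicalInvolution t := by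
  have hq : Cfsg.IsQuasisimple ↥L :=
    (CfsgLib.Cores.isQuasisimple_congr (Subgroup.subgroupOfEquivOfLe hLx)).1 hL.2
  obtain ⟨t, ht, htc, hS⟩ := quaternion_of_rank_one hq heven hrk
  have ht' : orderOf (t : G) = 2 := by rw [Subgroup.orderOf_coe, ht]
  have htC : (t : G) ∈ Subgroup.centralizer (L : Set G) := by
    intro l hl
    exact congrArg Subtype.val (Subgroup.mem_center_iff.1 htc ⟨l, hl⟩)
  obtain ⟨h1, h2⟩ := hne t ht' htC
  exact ⟨t, t.2, ht', L, h1, t.2, h2.1, hS⟩

end Cfsg.Agent.S1307
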