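import Cfsg.Statements.S1314
import Cfsg.Agent.Lib.Cores.Basic

set_option autoImplicit false
set_option linter.style.haveILetI false
open Cfsg

open scoped commutatorElement

namespace Cfsg.Agent.S1314

/-- Let x be an involution of a group G and L a perfect subgroup with ⁅L, x L x⁻¹⁆ = 1. Then l ↦ l (x l x⁻¹) is a group homomorphism π from L to G whose kernel is central in L and whose image lies in C_G(x); and the commutator subgroup of C_{L ⊔ xLx⁻¹}(x) equals the image of π. -/
theorem result {G : Type*} [Group G] [Finite G] (x : G) (hx : orderOf x = 2) (L : Subgroup G) (hperf : ⁅L, L⁆ = L) (hcomm : ⁅L, L.map (MulAut.conj x).toMonoidHom⁆ = ⊥) : ∃ π : ↥L →* G, (∀ l : ↥L, π l = (l : G) * (x * (l : G) * x⁻¹)) ∧ π.ker ≤ Subgroup.center ↥L ∧ π.range ≤ Subgroup.centralizer ({x} : Set G) ∧ ⁅(L ⊔ L.map (MulAut.conj x).toMonoidHom) ⊓ Subgroup.centralizer ({x} : Set G), (L ⊔ L.map (MulAut.conj x).toMonoidHom) ⊓ Subgroup.centralizer ({x} : Set G)⁆ = π.range := by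
  set L' := L.map (MulAut.conj x).toMonoidHom with hL'
  have hxx : x * x = 1 := by
    have := pow_orderOf_eq_one x
    rwa [hx, pow_two] at this
  have hxi : x⁻¹ = x := inv_eq_of_mul_eq_one_left hxx
  have hx2 : ∀ g : G, x * (x * g) = g := fun g => by rw [← mul_assoc, hxx, one_mul]
  have hc : ∀ a ∈ L, ∀ b ∈ L, a * (x * b * x⁻¹) = x * b * x⁻¹ * a := fun a ha b hb =>
    (Subgroup.mem_centralizer_iff.mp (Subgroup.commutator_eq_bot_iff_le_centralizer.mp hcomm ha)
      (x * b * x⁻¹) ⟨b, hb, rfl⟩).symm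
  let π : ↥L →* G :=
    { toFun := fun l => (l : G) * (x * (l : G) * x⁻¹)
      map_one' := by simp
      map_mul' := fun a b => by
        simp only [Subgroup.coe_mul]
        calc (a : G) * b * (x * (a * b) * x⁻¹)
            = (a : G) * ((b : G) * (x * a * x⁻¹)) * (x * b * x⁻¹) := by group
          _ = (a : G) * ((x * a * x⁻¹) * b) * (x * b * x⁻¹) := by rw [hc b b.2 a a.2]
          _ = _ := by group }
  have hπ : ∀ l : ↥L, π l = (l : G) * (x * (l : G) * x⁻¹) := fun l => rfl
  have hfix : ∀ a ∈ L, (x * (a * (x * a * x⁻¹)) * x⁻¹) = a * (x * a * x⁻¹) := by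
    intro a ha
    rw [hc a ha a ha]
    conv_rhs => rw [← hc a ha a ha]
    simp [mul_assoc, hxi, hx2, hxx]
  have hrange : π.range ≤ Subgroup.centralizer ({x} : Set G) := by
    rintro _ ⟨a, rfl⟩
    rw [Subgroup.mem_centralizer_singleton_iff]
    have h := hfix a a.2
    calc π a * x = (x * π a * x⁻¹) * x := by rw [hπ, h]
      _ = x * π a := by group
  refine ⟨π, hπ, ?_, hrange, ?_⟩
  · intro l hl
    rw [MonoidHom.mem_ker, hπ] at hl
    rw [Subgroup.mem_center_iff]
    intro m
    refine Subtype.ext ?_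
    simp only [Subgroup.coe_mul]
    have h1 : (l : G) = (x * (l : G) * x⁻¹)⁻¹ := eq_inv_of_mul_eq_one_left hl
    rw [h1]
    have h2 := hc m m.2 l l.2
    calc (m : G) * (x * l * x⁻¹)⁻¹ = (x * l * x⁻¹)⁻¹ * ((x * l * x⁻¹) * m) * (x * l * x⁻¹)⁻¹ := by group
      _ = (x * l * x⁻¹)⁻¹ * (m * (x * l * x⁻¹)) * (x * l * x⁻¹)⁻¹ := by rw [h2]
      _ = _ := by group
  · set D := (L ⊔ L') ⊓ Subgroup.centralizer ({x} : Set G)
    have hπD : π.range ≤ D := by
      refine le_inf ?_ hrange
      rintro _ ⟨a, rfl⟩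
      exact Subgroup.mul_mem_sup a.2 ⟨a, a.2, rfl⟩
    have hperf' : ⁅π.range, π.range⁆ = π.range := by
      have := congrArg (Subgroup.map π) (show ⁅(⊤ : Subgroup ↥L), ⊤⁆ = ⊤ by
        apply Subgroup.map_injective L.subtype_injective
        rw [Subgroup.map_commutator, ← MonoidHom.range_eq_map, Subgroup.range_subtype, hperf])
      rwa [Subgroup.map_commutator, ← MonoidHom.range_eq_map] at this
    refine le_antisymm ?_ (hperf'.ge.trans (Subgroup.commutator_mono hπD hπD))
    -- every element of `D` is an element of the range times a central element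
    have hdec : ∀ d ∈ D, ∃ r ∈ π.range, ∃ z, (∀ e ∈ D, z * e = e * z) ∧ d = r * z := by
      rintro d ⟨hd, hdx⟩
      have hn : L ≤ Subgroup.normalizer (L' : Set G) :=
        (Subgroup.commutator_eq_bot_iff_le_centralizer.mp hcomm).trans
          (Subgroup.centralizer_le_normalizer _)
      have hd' : d ∈ ((L ⊔ L' : Subgroup G) : Set G) := hd
      rw [Subgroup.coe_mul_of_left_le_normalizer_right L L' hn] at hd'
      obtain ⟨a, ha, _, ⟨b, hb, rfl⟩, hab⟩ := hd'
      replace hab : a * (x * b * x⁻¹) = d := hab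
      subst hab
      have hfx : x * (a * (x * b * x⁻¹)) * x⁻¹ = a * (x * b * x⁻¹) := by
        rw [← Subgroup.mem_centralizer_singleton_iff.mp hdx]; group
      have hswap : x * a * x⁻¹ * b = a * (x * b * x⁻¹) := by
        rw [← hfx]; simp [mul_assoc, hxi, hx2, hxx]
      set z := b⁻¹ * a with hz
      -- `z` equals `(x (a b⁻¹) x⁻¹)`, so it lies in both factors
      have hzL : z ∈ L := L.mul_mem (L.inv_mem hb) ha
      have hzL' : z = x * (a * b⁻¹) * x⁻¹ := by
        have h1 : b * (x * a * x⁻¹) = a * (x * b * x⁻¹) := by rw [hc b hb a ha, hswap]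
        calc z = b⁻¹ * (a * (x * b * x⁻¹)) * (x * b * x⁻¹)⁻¹ := by rw [hz]; group
          _ = b⁻¹ * (b * (x * a * x⁻¹)) * (x * b * x⁻¹)⁻¹ := by rw [h1]
          _ = _ := by group
      have hzc : ∀ e ∈ L ⊔ L', z * e = e * z := by
        have hle : L ⊔ L' ≤ Subgroup.centralizer ({z} : Set G) := by
          refine sup_le (fun e he => ?_) ?_
          · rw [Subgroup.mem_centralizer_singleton_iff, hzL']
            exact hc e he _ (L.mul_mem ha (L.inv_mem hb))
          · rintro _ ⟨e, he, rfl⟩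
            rw [Subgroup.mem_centralizer_singleton_iff]
            exact (hc z hzL e he).symm
        intro e he
        exact (Subgroup.mem_centralizer_singleton_iff.mp (hle he)).symm
      refine ⟨b * (x * b * x⁻¹), ⟨⟨b, hb⟩, rfl⟩, z, fun e he => hzc e he.1, ?_⟩
      calc a * (x * b * x⁻¹) = b * (z * (x * b * x⁻¹)) := by rw [hz]; group
        _ = b * (x * b * x⁻¹ * z) := by
            rw [hzc (x * b * x⁻¹) (Subgroup.mem_sup_right ⟨b, hb, rfl⟩)]
        _ = _ := (mul_assoc _ _ _).symm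
    refine Subgroup.commutator_le.mpr fun d hd e he => ?_
    obtain ⟨r, hr, z, hz, rfl⟩ := hdec d hd
    obtain ⟨s, hs, w, hw, rfl⟩ := hdec e he
    have hzs : z * s = s * z := hz s (hπD hs)
    have hzw : z * w = w * z := by
      have h1 : z * (s * w) = s * w * z := hz _ he
      rw [← mul_assoc, hzs, mul_assoc, mul_assoc] at h1
      exact mul_left_cancel h1
    have hwr : w * r = r * w := hw r (hπD hr)
    have key : ⁅r * z, s * w⁆ = ⁅r, s⁆ := by
      have hzs' : Commute z s := hzs
      have hzw' : Commute z w := hzw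
      have hwr' : Commute w r := hwr
      rw [commutatorElement_def, commutatorElement_def, mul_inv_rev, mul_inv_rev]
      calc r * z * (s * w) * (z⁻¹ * r⁻¹) * (w⁻¹ * s⁻¹)
          = r * (z * (s * w) * z⁻¹) * r⁻¹ * w⁻¹ * s⁻¹ := by group
        _ = r * (s * w) * r⁻¹ * w⁻¹ * s⁻¹ := by
            rw [(hzs'.mul_right hzw').eq]; group
        _ = r * s * (w * r⁻¹) * w⁻¹ * s⁻¹ := by group
        _ = r * s * (r⁻¹ * w) * w⁻¹ * s⁻¹ := by rw [hwr'.inv_right.eq]
        _ = r * s * r⁻¹ * s⁻¹ := by group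
    rw [key]
    exact π.range.mul_mem (π.range.mul_mem (π.range.mul_mem hr hs) (π.range.inv_mem hr)) (π.range.inv_mem hs)

end Cfsg.Agent.S1314
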