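import Cfsg.Statements.S1315
import Cfsg.Agent.Lib.Signalizer.IntrinsicMain

set_option autoImplicit false
open Cfsg

namespace Cfsg.Agent.S1315

/-- Let G be finite and J ≠ K subgroups, each containing exactly one involution, z(J) resp. z(K), each a 2-component of the centralizer of its involution, with J / O(J) and K / O(K) both isomorphic to SL(2, F) for one finite field F of odd order, or both non-split double covers of A7. Then (i) every 2-element of K of order at least 4 centralizing z(J) normalizes J; (ii) if z(J) normalizes K then z(K) normalizes J. -/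
theorem result {G : Type*} [Group G] [Finite G] (J K : Subgroup G) (hJK : J ≠ K) (zJ zK : G) (hzJ : zJ ∈ J ∧ orderOf zJ = 2 ∧ ∀ t ∈ J, orderOf t = 2 → t = zJ) (hzK : zK ∈ K ∧ orderOf zK = 2 ∧ ∀ t ∈ K, orderOf t = 2 → t = zK) (hJ : J ≤ Subgroup.centralizer ({zJ} : Set G) ∧ Cfsg.IsPComponent 2 (J.subgroupOf (Subgroup.centralizer ({zJ} : Set G)))) (hK : K ≤ Subgroup.centralizer ({zK} : Set G) ∧ Cfsg.IsPComponent 2 (K.subgroupOf (Subgroup.centralizer ({zK} : Set G)))) (htype : (∃ (F : Type) (_ : Field F) (_ : Fintype F), Odd (Fintype.card F) ∧ Nonempty (↥J ⧸ Cfsg.oddCore ↥J ≃* Matrix.SpecialLinearGroup (Fin 2) F) ∧ Nonempty (↥K ⧸ Cfsg.oddCore ↥K ≃* Matrix.SpecialLinearGroup (Fin 2) F)) ∨ (Cfsg.IsNonsplitDoubleCover (↥J ⧸ Cfsg.oddCore ↥J) ↥(alternatingGroup (Fin 7)) ∧ Cfsg.IsNonsplitDoubleCover (↥K ⧸ Cfsg.oddCore ↥K) ↥(alternatingGroup (Fin 7)))) : (∀ y ∈ K, IsPGroup 2 ↥(Subgroup.zpowers y) → 4 ≤ orderOf y → y * zJ =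 zJ * y → y ∈ Subgroup.normalizer (J : Set G)) ∧ (zJ ∈ Subgroup.normalizer (K : Set G) → zK ∈ Subgroup.normalizer (J : Set G)) := by
  have hJ' : CfsgLib.Signalizer.Intrinsic zJ J := ⟨hzJ.2.1, hzJ.1, hzJ.2.2, hJ⟩
  have hK' : CfsgLib.Signalizer.Intrinsic zK K := ⟨hzK.2.1, hzK.1, hzK.2.2, hK⟩
  exact ⟨fun y hy h2 h4 hc => CfsgLib.Signalizer.mem_normalizer_of_orderOf hJ' hK' hy
      (CfsgLib.Signalizer.isTwoElt_of_isPGroup h2 (Subgroup.mem_zpowers y)) h4 hc,
    CfsgLib.Signalizer.mem_normalizer_of_mem_normalizer hJ' hK'⟩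

end Cfsg.Agent.S1315
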