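import Cfsg.Statements.S1316
import Cfsg.Agent.Lib.Cores.GenFitting
import Cfsg.Agent.Lib.Cores.PerfectCore

set_option autoImplicit false
set_option linter.style.haveILetI false
open Cfsg

namespace Cfsg.Agent.S1316

/-- For a finite group X, E(X) equals the intersection of the derived series of F*(X) (its last term). -/
theorem result {X : Type*} [Group X] [Finite X] : (⨅ n : ℕ, (derivedSeries ↥(Cfsg.generalizedFittingSubgroup X) n).map (Cfsg.generalizedFittingSubgroup X).subtype) = Cfsg.layer X := by
  set F := Cfsg.generalizedFittingSubgroup X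
  refine le_antisymm ?_ (le_iInf fun n => ?_)
  · have hFn : (Cfsg.fittingSubgroup X).Normal := CfsgLib.Cores.fittingSubgroup_normal X
    have hLn : (Cfsg.layer X).Normal := inferInstance
    haveI := CfsgLib.Cores.isNilpotent_fittingSubgroup (G := X)
    obtain ⟨n, hn⟩ := (Group.isSolvable_def (G := ↥(Cfsg.fittingSubgroup X))).mp inferInstance
    refine (iInf_le _ n).trans ?_
    let f : ↥F →* X ⧸ Cfsg.layer X := (QuotientGroup.mk' (Cfsg.layer X)).comp F.subtype
    let g : ↥(Cfsg.fittingSubgroup X) →* X ⧸ Cfsg.layer X :=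
      (QuotientGroup.mk' (Cfsg.layer X)).comp (Cfsg.fittingSubgroup X).subtype
    have hfg : f.range = g.range := by
      simp only [f, g, MonoidHom.range_comp, Subgroup.range_subtype]
      show (Cfsg.layer X ⊔ Cfsg.fittingSubgroup X).map _ = _
      rw [Subgroup.map_sup, QuotientGroup.map_mk'_self, bot_sup_eq]
    have hbot : (derivedSeries ↥F n).map f = ⊥ := by
      rw [eq_bot_iff]
      have h1 : (derivedSeries ↥F n).map f.rangeRestrict ≤ derivedSeries f.range n :=
        map_derivedSeries_le_derivedSeries _ n
      have h2 : derivedSeries f.range n = ⊥ := by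
        rw [hfg]
        rw [← map_derivedSeries_eq g.rangeRestrict_surjective n, hn, Subgroup.map_bot]
      intro y hy
      obtain ⟨x, hx, rfl⟩ := hy
      have : f.rangeRestrict x ∈ derivedSeries f.range n := h1 ⟨x, hx, rfl⟩
      rw [h2, Subgroup.mem_bot] at this
      exact Subgroup.mem_bot.mpr (congrArg Subtype.val this)
    rintro _ ⟨x, hx, rfl⟩
    have : f x ∈ (derivedSeries ↥F n).map f := ⟨x, hx, rfl⟩
    rw [hbot, Subgroup.mem_bot] at this
    exact (QuotientGroup.eq_one_iff _).mp this
  · have hle : Cfsg.layer X ≤ F := le_sup_left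
    have hp : ⁅(Cfsg.layer X).subgroupOf F, (Cfsg.layer X).subgroupOf F⁆ = (Cfsg.layer X).subgroupOf F := by
      apply Subgroup.map_injective F.subtype_injective
      rw [Subgroup.map_commutator, Subgroup.map_subgroupOf_eq_of_le hle, CfsgLib.Cores.commutator_layer_self]
    rw [← Subgroup.map_subgroupOf_eq_of_le hle]
    exact Subgroup.map_mono ((CfsgLib.Cores.le_perfectCore hp).trans (CfsgLib.Cores.perfectCore_le_derivedSeries n))

end Cfsg.Agent.S1316
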