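import Cfsg.Statements.S1317
import Cfsg.Agent.Lib.Cores.GenFitting

set_option autoImplicit false
set_option linter.style.haveILetI false
open Cfsg

namespace Cfsg.Agent.S1317

/-- For a finite group X, the centre of the layer E(X) is F(X) ∩ E(X). -/
theorem result {X : Type*} [Group X] [Finite X] : (Subgroup.center ↥(Cfsg.layer X)).map (Cfsg.layer X).subtype = Cfsg.fittingSubgroup X ⊓ Cfsg.layer X := by
  have hc := CfsgLib.Cores.fittingSubgroup_le_centralizer_layer (G := X)
  refine le_antisymm (le_inf ?_ (Subgroup.map_subtype_le _)) ?_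
  · haveI : ((Subgroup.center ↥(Cfsg.layer X)).map (Cfsg.layer X).subtype).Normal :=
      CfsgLib.Cores.normal_map_subtype _ _
    refine CfsgLib.Cores.le_fittingSubgroup
      (CfsgLib.Cores.isNilpotent_of_commutator_le_centralizer ?_)
    refine (Subgroup.commutator_le_self _).trans ?_
    rintro _ ⟨a, ha, rfl⟩
    rw [Subgroup.mem_centralizer_iff]
    rintro _ ⟨b, hb, rfl⟩
    exact congrArg Subtype.val (Subgroup.mem_center_iff.mp ha b)
  · rintro x ⟨hx, hxE⟩
    refine ⟨⟨x, hxE⟩, Subgroup.mem_center_iff.mpr fun y => Subtype.ext ?_, rfl⟩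
    exact Subgroup.mem_centralizer_iff.mp (hc hx) y y.2

end Cfsg.Agent.S1317
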