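import Cfsg.Statements.S1318
import Cfsg.Agent.Lib.Cores.GenFitting

set_option autoImplicit false
set_option linter.style.haveILetI false
open Cfsg

namespace Cfsg.Agent.S1318

open Cfsg in
/-- `S = F(S)E(S)` and `F(S) = F(X) ∩ S` for `S` subnormal in `F*(X)`. -/
theorem decomp {X : Type*} [Group X] [Finite X] (S : Subgroup X)
    (hS : S ≤ generalizedFittingSubgroup X)
    (hsn : (S.subgroupOf (generalizedFittingSubgroup X)).IsSubnormal) :
    (fittingSubgroup ↥S).map S.subtype = fittingSubgroup X ⊓ S ∧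
      fittingSubgroup ↥S ⊔ layer ↥S = ⊤ := by
  have hSs : S.IsSubnormal :=
    Subgroup.IsSubnormal.trans hS hsn
      (inferInstance : (generalizedFittingSubgroup X).Normal).isSubnormal
  have hF : (fittingSubgroup ↥S).map S.subtype = fittingSubgroup X ⊓ S :=
    CfsgLib.Cores.map_subtype_fittingSubgroup_eq hSs
  refine ⟨hF, ?_⟩
  -- components inside and outside of `S`
  set E₁ : Subgroup X := sSup {K : Subgroup X | IsComponent K ∧ K ≤ S}
  set E₂ : Subgroup X := sSup {K : Subgroup X | IsComponent K ∧ ¬ K ≤ S}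
  have hE₁S : E₁ ≤ S := sSup_le fun K hK => hK.2
  have hSc : S ≤ Subgroup.centralizer (E₂ : Set X) :=
    Subgroup.le_centralizer_iff.mp
      (sSup_le fun K hK => CfsgLib.Cores.le_centralizer_of_not_le hK.1 hSs hK.2)
  have h12 : E₁ ≤ Subgroup.centralizer (E₂ : Set X) := hE₁S.trans hSc
  have hlay : layer X = E₁ ⊔ E₂ := by
    refine le_antisymm (CfsgLib.Cores.layer_le_iff.mpr fun K hK => ?_)
      (sup_le (sSup_le fun K hK => CfsgLib.Cores.le_layer hK.1)
        (sSup_le fun K hK => CfsgLib.Cores.le_layer hK.1))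
    by_cases hKS : K ≤ S
    · exact (le_sSup (by exact ⟨hK, hKS⟩) : K ≤ E₁).trans le_sup_left
    · exact (le_sSup (by exact ⟨hK, hKS⟩) : K ≤ E₂).trans le_sup_right
  have hmain : S ≤ (fittingSubgroup X ⊓ S) ⊔ E₁ := by
    intro s hs
    have hs' : s ∈ layer X ⊔ fittingSubgroup X := hS hs
    obtain ⟨e, he, f, hf, rfl⟩ := Subgroup.mem_sup_of_normal_left.mp hs'
    rw [hlay] at he
    have he' : e ∈ (E₁ ⊔ E₂ : Subgroup X) := he
    have hnorm : E₁ ≤ Subgroup.normalizer (E₂ : Set X) :=
      h12.trans (Subgroup.centralizer_le_normalizer _)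
    obtain ⟨a, ha, b, hb, rfl⟩ : ∃ a ∈ E₁, ∃ b ∈ E₂, a * b = e := by
      have := Subgroup.coe_mul_of_left_le_normalizer_right E₁ E₂ hnorm
      have he'' : e ∈ ((E₁ ⊔ E₂ : Subgroup X) : Set X) := he'
      rw [this] at he''
      exact he''
    have hbf : b * f ∈ S := by
      have h1 := S.mul_mem (S.inv_mem (hE₁S ha)) hs
      simpa [mul_assoc] using h1
    have hcent : ∀ {x : X}, x ∈ fittingSubgroup X → x ∈ Subgroup.centralizer (E₂ : Set X) := by
      intro x hx
      have hle : E₂ ≤ layer X := hlay ▸ le_sup_right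
      exact Subgroup.centralizer_le hle (CfsgLib.Cores.fittingSubgroup_le_centralizer_layer hx)
    have hb2 : b ∈ E₂ ⊓ Subgroup.centralizer (E₂ : Set X) := by
      refine ⟨hb, ?_⟩
      have h2 := Subgroup.mul_mem _ (hSc hbf) (Subgroup.inv_mem _ (hcent hf))
      simpa using h2
    -- `b` is central in the layer, hence in the Fitting subgroup
    have hbc : b ∈ Subgroup.centralizer (layer X : Set X) := by
      have : layer X ≤ Subgroup.centralizer ({b} : Set X) := by
        rw [hlay]
        refine sup_le (fun x hx => ?_) (fun x hx => ?_) <;> rw [Subgroup.mem_centralizer_singleton_iff]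
        · exact (Subgroup.mem_centralizer_iff.mp (h12 hx) b hb).symm
        · exact (Subgroup.mem_centralizer_iff.mp hb2.2 x hx)
      rw [Subgroup.mem_centralizer_iff]
      intro x hx
      exact (Subgroup.mem_centralizer_singleton_iff.mp (this hx))
    haveI : (layer X ⊓ Subgroup.centralizer (layer X : Set X)).Normal := inferInstance
    have hle2 : layer X ⊓ Subgroup.centralizer (layer X : Set X) ≤ fittingSubgroup X :=
      CfsgLib.Cores.le_fittingSubgroup (CfsgLib.Cores.isNilpotent_of_commutator_le_centralizer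
        ((Subgroup.commutator_le_self _).trans (inf_le_right.trans
          (Subgroup.centralizer_le inf_le_left))))
    have hbF : b ∈ fittingSubgroup X := hle2 ⟨(hlay ▸ (le_sup_right : E₂ ≤ E₁ ⊔ E₂)) hb, hbc⟩
    rw [mul_assoc]
    exact mul_mem (Subgroup.mem_sup_right ha)
      (Subgroup.mem_sup_left ⟨Subgroup.mul_mem _ hbF hf, hbf⟩)
  apply Subgroup.map_injective S.subtype_injective
  rw [← MonoidHom.range_eq_map, Subgroup.range_subtype, Subgroup.map_sup, hF]
  refine le_antisymm (sup_le inf_le_right (Subgroup.map_subtype_le _)) (hmain.trans (sup_le_sup le_rfl ?_))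
  refine sSup_le fun K hK => ?_
  rw [← Subgroup.map_subgroupOf_eq_of_le hK.2]
  exact Subgroup.map_mono (CfsgLib.Cores.le_layer (CfsgLib.Cores.isComponent_subgroupOf hK.1 hK.2))


/-- Let X be finite and S ≤ F*(X) a subgroup subnormal in F*(X). Then F(S) = F(X) ∩ S (inside X) and S = F(S)E(S). -/
theorem result {X : Type*} [Group X] [Finite X] (S : Subgroup X) (hS : S ≤ Cfsg.generalizedFittingSubgroup X) (hsn : (S.subgroupOf (Cfsg.generalizedFittingSubgroup X)).IsSubnormal) : (Cfsg.fittingSubgroup ↥S).map S.subtype = Cfsg.fittingSubgroup X ⊓ S ∧ Cfsg.fittingSubgroup ↥S ⊔ Cfsg.layer ↥S = ⊤ := by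
  exact decomp S hS hsn

end Cfsg.Agent.S1318
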