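import Cfsg.Statements.S1320
import Cfsg.Agent.S1318

set_option autoImplicit false
open Cfsg

namespace Cfsg.Agent.S1320

/-- Let B be a normal subgroup of the finite group A. Then F*(A) ∩ B = F*(B). -/
theorem result {A : Type*} [Group A] [Finite A] (B : Subgroup A) [B.Normal] : Cfsg.generalizedFittingSubgroup A ⊓ B = (Cfsg.generalizedFittingSubgroup ↥B).map B.subtype := by
  set S := Cfsg.generalizedFittingSubgroup A ⊓ B with hSdef
  haveI hSn : S.Normal := Subgroup.normal_inf_normal _ _
  refine le_antisymm ?_ (le_inf ?_ (Subgroup.map_subtype_le _))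
  · have hBsn : S.IsSubnormal := hSn.isSubnormal
    obtain ⟨h1, h2⟩ := Cfsg.Agent.S1318.decomp S inf_le_left hBsn.subgroupOf
    have hSB : S ≤ B := inf_le_right
    have hsn : (S.subgroupOf B).IsSubnormal := hBsn.subgroupOf
    let e : ↥(S.subgroupOf B) ≃* ↥S := Subgroup.subgroupOfEquivOfLe hSB
    have h3 : Cfsg.fittingSubgroup ↥(S.subgroupOf B) ⊔ Cfsg.layer ↥(S.subgroupOf B) = ⊤ := by
      apply Subgroup.map_injective (f := e.toMonoidHom) e.injective
      rw [Subgroup.map_sup, CfsgLib.Cores.map_fittingSubgroup_equiv,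
        CfsgLib.Cores.map_layer_equiv, h2, Subgroup.map_top_of_surjective _ e.surjective]
    have h4 : S.subgroupOf B ≤ Cfsg.generalizedFittingSubgroup ↥B := by
      have := congrArg (Subgroup.map (S.subgroupOf B).subtype) h3
      rw [Subgroup.map_sup, ← MonoidHom.range_eq_map, Subgroup.range_subtype] at this
      rw [← this]
      exact sup_le ((CfsgLib.Cores.map_subtype_fittingSubgroup_le hsn).trans le_sup_right)
        ((CfsgLib.Cores.map_subtype_layer_le hsn).trans le_sup_left)
    rw [← Subgroup.map_subgroupOf_eq_of_le hSB]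
    exact Subgroup.map_mono h4
  · have hBs : B.IsSubnormal := (inferInstance : B.Normal).isSubnormal
    rw [Cfsg.generalizedFittingSubgroup, Cfsg.generalizedFittingSubgroup, Subgroup.map_sup]
    exact sup_le_sup (CfsgLib.Cores.map_subtype_layer_le hBs)
      (CfsgLib.Cores.map_subtype_fittingSubgroup_le hBs)

end Cfsg.Agent.S1320
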