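import Cfsg.Statements.S1321
import Cfsg.Agent.Lib.Cores.GenFitting
import Cfsg.Agent.Lib.CoprimeAction.Basic

set_option autoImplicit false
open Cfsg

namespace Cfsg.Agent.S1321

/-- Let X be finite and U ≤ X. Then E(X) is generated by C_{E(X)}(U) together with ⁅E(X), U⁆ (indeed it is their product, ⁅E(X), U⁆ being normal in E(X)). -/
theorem result {X : Type*} [Group X] [Finite X] (U : Subgroup X) : Cfsg.layer X = (Cfsg.layer X ⊓ Subgroup.centralizer (U : Set X)) ⊔ ⁅Cfsg.layer X, U⁆ ∧ ⁅Cfsg.layer X, U⁆ ≤ Cfsg.layer X := by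
  set E := Cfsg.layer X
  have hU : U ≤ Subgroup.normalizer (E : Set X) := by
    rw [Subgroup.normalizer_eq_top]; exact le_top
  have hle : ⁅E, U⁆ ≤ E := CfsgLib.CoprimeAction.commutator_le_left hU
  refine ⟨le_antisymm (CfsgLib.Cores.layer_le_iff.mpr fun K hK => ?_) (sup_le inf_le_left hle), hle⟩
  have hKE : K ≤ E := CfsgLib.Cores.le_layer hK
  by_cases hc : K ≤ ⁅E, U⁆
  · exact hc.trans le_sup_right
  refine le_trans (le_inf hKE ?_) le_sup_left
  have hN : E ≤ Subgroup.normalizer ((⁅E, U⁆ : Subgroup X) : Set X) :=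
    le_sup_left.trans (CfsgLib.CoprimeAction.sup_le_normalizer_commutator U E)
  have hsn : (⁅E, U⁆).IsSubnormal :=
    Subgroup.IsSubnormal.step _ E hle (inferInstance : E.Normal).isSubnormal
      ((Subgroup.normal_subgroupOf_iff_le_normalizer hle).2 hN)
  have h0 : ⁅K, ⁅E, U⁆⁆ = ⊥ := (CfsgLib.Cores.le_or_commutator_eq_bot hK hsn).resolve_left hc
  have h1 : ⁅⁅K, U⁆, K⁆ = ⊥ := by
    rw [Subgroup.commutator_comm, ← le_bot_iff, ← h0]
    exact Subgroup.commutator_mono le_rfl (Subgroup.commutator_mono hKE le_rfl)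
  have h2 : ⁅⁅U, K⁆, K⁆ = ⊥ := by rwa [Subgroup.commutator_comm U K]
  have h3 := Subgroup.commutator_commutator_eq_bot_of_rotate h1 h2
  rw [CfsgLib.Cores.commutator_self_eq_of_isComponent hK] at h3
  exact Subgroup.commutator_eq_bot_iff_le_centralizer.mp h3

end Cfsg.Agent.S1321
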