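import Cfsg.Statements.S1326
import Cfsg.Agent.Lib.Cores.GenFitting

set_option autoImplicit false
set_option linter.style.haveILetI false
open Cfsg

namespace Cfsg.Agent.S1326

/-- For a finite group X: the Fitting subgroup contains its centralizer if and only if the layer of X is trivial. -/
theorem result {X : Type*} [Group X] [Finite X] : Subgroup.centralizer (Cfsg.fittingSubgroup X : Set X) ≤ Cfsg.fittingSubgroup X ↔ Cfsg.layer X = ⊥ := by
  constructor
  · intro h
    refine CfsgLib.Cores.layer_eq_bot_iff.mpr fun K hK => ?_
    haveI := CfsgLib.Cores.isNilpotent_fittingSubgroup (G := X)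
    refine CfsgLib.Cores.not_le_of_isSolvable (S := Cfsg.fittingSubgroup X) hK ?_
    exact ((CfsgLib.Cores.le_layer hK).trans (Subgroup.commutator_eq_bot_iff_le_centralizer.mp
      CfsgLib.Cores.commutator_layer_fittingSubgroup)).trans h
  · intro h
    have := CfsgLib.Cores.centralizer_generalizedFittingSubgroup_le (G := X)
    rwa [Cfsg.generalizedFittingSubgroup, h, bot_sup_eq] at this

end Cfsg.Agent.S1326
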