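import Cfsg.Statements.S1327
import Cfsg.Agent.Lib.PSolvable.HallHigman
import Cfsg.Agent.Lib.LBalance.PComponent
import Cfsg.Agent.Lib.Cores.GenFitting

set_option autoImplicit false
set_option linter.style.haveILetI false
open Cfsg

namespace Cfsg.Agent.S1327

/-- A finite group X is p-constrained if and only if its p-layer L_{p'}(X) is trivial (equivalently X / O_{p'}(X) has trivial layer). -/
theorem result {X : Type*} [Group X] [Finite X] (p : ℕ) [Fact p.Prime] : Cfsg.IsPConstrained p X ↔ Cfsg.pLayer p X = ⊥ := by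
  rw [CfsgLib.PSolvable.isPConstrained_iff]
  set Q := X ⧸ Cfsg.pPrimeCore p X
  have hO : Cfsg.pPrimeCore p Q = ⊥ := CfsgLib.Cores.pPrimeCore_quotient_pPrimeCore p
  have hF : Cfsg.fittingSubgroup Q = Cfsg.pCore p Q := by
    refine le_antisymm ?_ (CfsgLib.Cores.pCore_le_fittingSubgroup p)
    rw [CfsgLib.Cores.fittingSubgroup_eq_iSup_pCore]
    refine iSup_le fun r => ?_
    haveI : Fact (r : ℕ).Prime := ⟨Nat.prime_of_mem_primeFactors r.2⟩
    rcases eq_or_ne (r : ℕ) p with hr | hr
    · rw [hr]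
    · refine le_trans ?_ (bot_le : ⊥ ≤ Cfsg.pCore p Q)
      rw [← hO]
      obtain ⟨n, hn⟩ := IsPGroup.iff_card.mp (CfsgLib.Cores.isPGroup_pCore (r : ℕ) Q)
      refine CfsgLib.Cores.le_pPrimeCore ?_
      rw [hn]
      exact ((Nat.coprime_primes Fact.out Fact.out).mpr hr).pow_left n
  constructor
  · intro h
    rw [Cfsg.pLayer, sSup_eq_bot]
    intro K hK
    exfalso
    haveI := CfsgLib.Cores.isNilpotent_fittingSubgroup (G := Q)
    have hK' := hK.2.1
    refine CfsgLib.Cores.not_le_of_isSolvable (S := Cfsg.fittingSubgroup Q) hK' ?_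
    refine ((CfsgLib.Cores.le_layer hK').trans (Subgroup.commutator_eq_bot_iff_le_centralizer.mp
      CfsgLib.Cores.commutator_layer_fittingSubgroup)).trans ?_
    rw [hF]
    exact h
  · intro h
    have hl : Cfsg.layer Q = ⊥ := by
      rw [← CfsgLib.LBalance.map_pLayer, h, Subgroup.map_bot]
    have := CfsgLib.Cores.centralizer_generalizedFittingSubgroup_le (G := Q)
    rwa [Cfsg.generalizedFittingSubgroup, hl, bot_sup_eq, hF] at this

end Cfsg.Agent.S1327
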