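import Cfsg.Statements.S1328
import Cfsg.Agent.Lib.Balance.ComponentNormal
import Cfsg.Agent.Lib.Cores.GenFitting

set_option autoImplicit false
set_option linter.style.haveILetI false
open Cfsg

open scoped commutatorElement

namespace Cfsg.Agent.S1328

/-- Let G be finite, H ≤ G with O(H) = 1, t an involution of G normalizing H, and Y a nontrivial subgroup of O(C_H(t)). Then some component E of H is normalized by t and by Y and centralized by neither t nor Y. -/
theorem result {G : Type*} [Group G] [Finite G] (H : Subgroup G) (hO : Cfsg.oddCore ↥H = ⊥) (t : G) (ht : orderOf t = 2) (htH : t ∈ Subgroup.normalizer (H : Set G)) (Y : Subgroup G) (hY1 : Y ≠ ⊥) (hY : Y ≤ (Cfsg.oddCore ↥(H ⊓ Subgroup.centralizer ({t} : Set G))).map (H ⊓ Subgroup.centralizer ({t} : Set G)).subtype) : ∃ E : Subgroup ↥H, Cfsg.IsComponent E ∧ (E.map H.subtype).map (MulAut.conj t).toMonoidHom = E.map H.subtype ∧ Y ≤ Subgroup.normalizer ((E.map H.subtype : Subgroup G) : Set G) ∧ ¬ (t ∈ Subgroup.centralizer ((E.map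 H.subtype : Subgroup G) : Set G)) ∧ ¬ (Y ≤ Subgroup.centralizer ((E.map H.subtype : Subgroup G) : Set G)) := by
  haveI : Fact (Nat.Prime 2) := ⟨Nat.prime_two⟩
  set X := H ⊔ Subgroup.zpowers t with hX
  have hHX : H ≤ X := le_sup_left
  have htX : t ∈ X := Subgroup.mem_sup_right (Subgroup.mem_zpowers t)
  set H' : Subgroup ↥X := H.subgroupOf X
  haveI hH'n : H'.Normal := (Subgroup.normal_subgroupOf_iff_le_normalizer hHX).mpr
    (sup_le Subgroup.le_normalizer (Subgroup.zpowers_le.mpr htH))
  set t' : ↥X := ⟨t, htX⟩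
  have ht' : orderOf t' = 2 := by rw [Subgroup.orderOf_mk]; exact ht
  set q : ↥X →* ↥X ⧸ H' := QuotientGroup.mk' H'
  have hq : ∀ y : ↥X, q y = 1 ∨ q y = q t' := by
    intro y
    have hy : (y : G) ∈ ((H ⊔ Subgroup.zpowers t : Subgroup G) : Set G) := y.2
    rw [Subgroup.coe_mul_of_right_le_normalizer_left H _ (Subgroup.zpowers_le.mpr htH)] at hy
    obtain ⟨h, hh, _, ⟨k, rfl⟩, he⟩ := hy
    have hyy : y = (⟨h, hHX hh⟩ : ↥X) * t' ^ k := Subtype.ext (by simpa [t'] using he.symm)
    have hh1 : q ⟨h, hHX hh⟩ = 1 := (QuotientGroup.eq_one_iff _).mpr hh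
    rw [hyy, map_mul, hh1, one_mul, map_zpow]
    rcases Int.even_or_odd k with ⟨j, hj⟩ | ⟨j, hj⟩
    · left
      rw [← map_zpow, hj, ← two_mul, zpow_mul]
      rw [show t' ^ (2 : ℤ) = 1 by rw [zpow_ofNat, ← ht', pow_orderOf_eq_one]]
      simp
    · right
      rw [← map_zpow, hj, zpow_add, zpow_mul,
        show t' ^ (2 : ℤ) = 1 by rw [zpow_ofNat, ← ht', pow_orderOf_eq_one]]
      simp
  have hO' : Cfsg.oddCore ↥X = ⊥ := by
    set O := Cfsg.oddCore ↥X
    have hOH : O ≤ H' := by
      intro y hy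
      obtain ⟨n, hn⟩ : Odd (orderOf y) := CfsgLib.Cores.odd_card_oddCore.of_dvd_nat
        (by simpa using orderOf_dvd_natCard (⟨y, hy⟩ : O))
      have h2 : q y ^ 2 = 1 := by
        rcases hq y with h | h <;> rw [h]
        · simp
        · rw [← map_pow, ← ht', pow_orderOf_eq_one, map_one]
      rw [← QuotientGroup.eq_one_iff]
      show q y = 1
      have h3 : q y ^ orderOf y = 1 := by rw [← map_pow, pow_orderOf_eq_one, map_one]
      rwa [hn, pow_succ, pow_mul, h2, one_pow, one_mul] at h3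
    let e : ↥H' ≃* ↥H := Subgroup.subgroupOfEquivOfLe hHX
    have h1 : O.subgroupOf H' ≤ Cfsg.oddCore ↥H' := by
      haveI : (O.subgroupOf H').Normal := inferInstance
      refine CfsgLib.Cores.le_oddCore ?_
      rw [Nat.card_congr (Subgroup.subgroupOfEquivOfLe hOH).toEquiv]
      exact CfsgLib.Cores.odd_card_oddCore
    have h2 : Cfsg.oddCore ↥H' = ⊥ := by
      apply Subgroup.map_injective (f := e.toMonoidHom) e.injective
      rw [CfsgLib.Cores.map_pPrimeCore_equiv, Subgroup.map_bot]
      exact hO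
    rw [← Subgroup.map_subgroupOf_eq_of_le hOH, eq_bot_iff]
    exact (Subgroup.map_mono (h1.trans h2.le)).trans (Subgroup.map_bot _).le
  set D := H ⊓ Subgroup.centralizer ({t} : Set G)
  set OD := (Cfsg.oddCore ↥D).map D.subtype
  have hODD : OD ≤ D := Subgroup.map_subtype_le _
  have hODX : OD ≤ X := hODD.trans (inf_le_left.trans hHX)
  have hsub : OD.subgroupOf X ≤ Cfsg.centralizerPPrimeCore 2 t' := by
    refine CfsgLib.Balance.le_centralizerPPrimeCore ?_ ?_ ?_
    · intro y hy
      rw [Subgroup.mem_centralizer_singleton_iff]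
      exact Subtype.ext (Subgroup.mem_centralizer_singleton_iff.mp (hODD hy).2)
    · intro c hc
      have hct : (c : G) ∈ Subgroup.centralizer ({t} : Set G) :=
        Subgroup.mem_centralizer_singleton_iff.mpr
          (congrArg Subtype.val (Subgroup.mem_centralizer_singleton_iff.mp hc))
      have hcH : (c : G) ∈ Subgroup.normalizer (H : Set G) :=
        (sup_le Subgroup.le_normalizer (Subgroup.zpowers_le.mpr htH)) c.2
      have hcD : (c : G) ∈ Subgroup.normalizer (D : Set G) :=
        Subgroup.mem_normalizer_iff.mpr fun u => and_congr (Subgroup.mem_normalizer_iff.mp hcH u)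
          (Subgroup.mem_normalizer_iff.mp (Subgroup.le_normalizer hct) u)
      have h1 := CfsgLib.Cores.normalizer_le_normalizer_map_subtype D (Cfsg.oddCore ↥D) hcD
      rw [Subgroup.mem_normalizer_iff]
      intro u
      exact Subgroup.mem_normalizer_iff.mp h1 (u : G)
    · rw [Nat.card_congr (Subgroup.subgroupOfEquivOfLe hODX).toEquiv,
        Subgroup.card_map_of_injective D.subtype_injective]
      exact CfsgLib.Cores.card_pPrimeCore_coprime 2
  set Y' := Y.subgroupOf X
  have hY' : Y' ≤ Cfsg.centralizerPPrimeCore 2 t' :=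
    le_trans (fun y hy => hY hy) hsub
  have hYX : Y ≤ X := hY.trans hODX
  -- some component is not centralised by `Y`
  obtain ⟨L, hL, hLY⟩ : ∃ L : Subgroup ↥X, Cfsg.IsComponent L ∧
      ¬ Y' ≤ Subgroup.centralizer (L : Set ↥X) := by
    by_contra hall
    push Not at hall
    apply hY1
    have h1 : Y' ≤ Subgroup.centralizer (Cfsg.generalizedFittingSubgroup ↥X : Set ↥X) := by
      rw [Subgroup.le_centralizer_iff, Cfsg.generalizedFittingSubgroup]
      refine sup_le (CfsgLib.Cores.layer_le_iff.mpr fun L hL =>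
        Subgroup.le_centralizer_iff.mp (hall L hL)) ?_
      rw [CfsgLib.Cores.fittingSubgroup_eq_iSup_pCore]
      refine iSup_le fun r => ?_
      haveI : Fact (r : ℕ).Prime := ⟨Nat.prime_of_mem_primeFactors r.2⟩
      rcases eq_or_ne (r : ℕ) 2 with hr | hr
      · rw [hr, Subgroup.le_centralizer_iff]
        exact hY'.trans (CfsgLib.Balance.centralizerPPrimeCore_le_centralizer_pCore ht')
      · refine le_trans ?_ (bot_le : ⊥ ≤ Subgroup.centralizer (Y' : Set ↥X))
        rw [← hO']
        obtain ⟨n, hn⟩ := IsPGroup.iff_card.mp (CfsgLib.Cores.isPGroup_pCore (r : ℕ) ↥X)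
        refine CfsgLib.Cores.le_pPrimeCore ?_
        rw [hn]
        exact ((Nat.coprime_primes Fact.out Nat.prime_two).mpr hr).pow_left n
    have h2 : IsPGroup 2 ↥Y' := by
      refine (CfsgLib.Cores.isPGroup_pCore 2 ↥X).to_le ?_
      refine h1.trans ?_
      rw [CfsgLib.Cores.centralizer_generalizedFittingSubgroup_eq]
      refine (Subgroup.map_subtype_le _).trans ?_
      rw [CfsgLib.Cores.fittingSubgroup_eq_iSup_pCore]
      refine iSup_le fun r => ?_
      haveI : Fact (r : ℕ).Prime := ⟨Nat.prime_of_mem_primeFactors r.2⟩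
      rcases eq_or_ne (r : ℕ) 2 with hr | hr
      · rw [hr]
      · refine le_trans ?_ (bot_le : ⊥ ≤ Cfsg.pCore 2 ↥X)
        rw [← hO']
        obtain ⟨n, hn⟩ := IsPGroup.iff_card.mp (CfsgLib.Cores.isPGroup_pCore (r : ℕ) ↥X)
        refine CfsgLib.Cores.le_pPrimeCore ?_
        rw [hn]
        exact ((Nat.coprime_primes Fact.out Nat.prime_two).mpr hr).pow_left n
    obtain ⟨n, hn⟩ := IsPGroup.iff_card.mp h2
    have hcop : (Nat.card Y').Coprime 2 :=
      (CfsgLib.Balance.coprime_card_centralizerPPrimeCore 2 t').coprime_dvd_left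
        (Subgroup.card_dvd_of_le hY')
    have h1 : Nat.card Y' = 1 := by
      rcases n with _ | n
      · simpa using hn
      · rw [hn] at hcop
        exact absurd ((Nat.coprime_pow_left_iff (Nat.succ_pos n) 2 2).mp hcop) (by decide)
    rw [← Subgroup.map_subgroupOf_eq_of_le hYX]
    show Y'.map X.subtype = ⊥
    rw [Subgroup.eq_bot_of_card_eq Y' h1, Subgroup.map_bot]
  have hLt : ⁅L, Subgroup.zpowers t'⁆ = L := by
    by_contra hne
    refine hLY (le_trans hY' ?_)
    rw [Subgroup.le_centralizer_iff, ← Subgroup.commutator_eq_bot_iff_le_centralizer]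
    exact CfsgLib.Balance.commutator_component_core_eq_bot hO' ht' hL hne
  have htL : t' ∈ Subgroup.normalizer (L : Set ↥X) := by
    refine CfsgLib.CoprimeAction.mem_normalizer_of_conj_mem fun l hl => ?_
    have h1 : ⁅l⁻¹, t'⁆ ∈ L := hLt ▸ Subgroup.commutator_mem_commutator (L.inv_mem hl) (Subgroup.mem_zpowers t')
    rw [commutatorElement_def] at h1
    have h2 := L.mul_mem hl h1
    simpa [mul_assoc] using h2
  have hLH : L ≤ H' := by
    rw [← CfsgLib.Cores.commutator_self_eq_of_isComponent hL, Subgroup.commutator_le]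
    intro a _ b _
    rw [← QuotientGroup.eq_one_iff]
    show q ⁅a, b⁆ = 1
    rw [map_commutatorElement, commutatorElement_eq_one_iff_commute]
    rcases hq a with h | h <;> rcases hq b with h' | h' <;> rw [h, h'] <;>
      first | exact Commute.refl _ | exact Commute.one_left _ | exact Commute.one_right _
  refine ⟨(L.map X.subtype).subgroupOf H, ?_, ?_⟩
  · have h1 := CfsgLib.Cores.isComponent_map_equiv (CfsgLib.Cores.isComponent_subgroupOf hL hLH)
      (Subgroup.subgroupOfEquivOfLe hHX)
    convert h1 using 1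
    ext ⟨u, hu⟩
    constructor
    · intro h
      rw [Subgroup.mem_subgroupOf] at h
      obtain ⟨v, hv, hvu⟩ := h
      have hvH : v ∈ H' := hLH hv
      exact ⟨⟨v, hvH⟩, hv, Subtype.ext hvu⟩
    · rintro ⟨v, hv, hvu⟩
      rw [Subgroup.mem_subgroupOf]
      exact ⟨(v : ↥X), hv, congrArg Subtype.val hvu⟩
  rw [Subgroup.map_subgroupOf_eq_of_le
    (show L.map X.subtype ≤ H from fun u ⟨v, hv, hvu⟩ => hvu ▸ hLH hv)]
  refine ⟨?_, ?_, ?_, ?_⟩
  · rw [Subgroup.map_map]
    conv_rhs => rw [← Subgroup.mem_normalizer_iff_map_conj_eq.mp htL, Subgroup.map_map]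
    rfl
  · intro y hy
    have h1 := hY' (show (⟨y, hYX hy⟩ : ↥X) ∈ Y' from hy)
    have h2 := Subgroup.mem_normalizer_iff_map_conj_eq.mp
      (CfsgLib.Balance.centralizerPPrimeCore_le_normalizer_component hO' ht' hL h1)
    rw [Subgroup.mem_normalizer_iff_map_conj_eq, Subgroup.map_map]
    conv_rhs => rw [← h2, Subgroup.map_map]
    rfl
  · intro hc
    apply CfsgLib.Cores.ne_bot_of_isComponent hL
    rw [← hLt, Subgroup.commutator_eq_bot_iff_le_centralizer, CfsgLib.Balance.centralizer_zpowers_eq]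
    intro l hl
    rw [Subgroup.mem_centralizer_singleton_iff]
    exact Subtype.ext (Subgroup.mem_centralizer_iff.mp hc (l : G) ⟨l, hl, rfl⟩)
  · intro hc
    refine hLY fun y hy => Subgroup.mem_centralizer_iff.mpr fun l hl => Subtype.ext ?_
    exact Subgroup.mem_centralizer_iff.mp (hc hy) (l : G) ⟨l, hl, rfl⟩

end Cfsg.Agent.S1328
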