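import Cfsg.Statements.S1330
import Cfsg.Agent.S0205
import Cfsg.Agent.Lib.Signalizer.CoreSeparatedFunctor

set_option autoImplicit false
open Cfsg

namespace Cfsg.Agent.S1330

/-- Let A₁, A₂ be core-separated four-subgroups of the finite group G and A = A₁A₂. For a ∈ G put O_a = O(C_G(a)) and θ a = ⋂_{i=1,2} ( ⁅O_a, A_i⁆ · (O_a ∩ O(C_G(A_i))) ). Then θ is an A-signalizer functor for the prime 2. -/
theorem result {G : Type*} [Group G] [Finite G] (A₁ A₂ : Subgroup G) (hcs : Cfsg.IsCoreSeparated A₁ A₂) : Cfsg.IsSignalizerFunctor 2 (A₁ ⊔ A₂) (fun a => (⁅Cfsg.centralizerPPrimeCore 2 a, A₁⁆ ⊔ (Cfsg.centralizerPPrimeCore 2 a ⊓ ((Cfsg.oddCore ↥(Subgroup.centralizer ((A₁ : Subgroup G) : Set G))).map (Subgroup.centralizer ((A₁ : Subgroup G) : Set G)).subtype))) ⊓ (⁅Cfsg.centralizerPPrimeCore 2 a, A₂⁆ ⊔ (Cfsg.centralizerPPrimeCore 2 a ⊓ ((Cfsg.oddCore ↥(Subgroup.centralizer ((A₂ : Subgroup G) : Set G))).map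 (Subgroup.centralizer ((A₂ : Subgroup G) : Set G)).subtype)))) := by
  exact CfsgLib.Signalizer.CoreSep.isSignalizerFunctor_of_coreSeparated (fun Y hY => Cfsg.Agent.S0205.result hY) hcs

end Cfsg.Agent.S1330
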