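import Cfsg.Statements.S1331
import Cfsg.Agent.Lib.Signalizer.Generation

set_option autoImplicit false
set_option linter.style.haveILetI false
open Cfsg

namespace Cfsg.Agent.S1331

/-- Let θ be a solvable A-signalizer functor on the finite group G for the prime p, A elementary abelian of rank at least 3, X a member of the family of θ, and B ≤ A with |B| ≥ p². Then X is generated by the subgroups X ∩ ⋂_{d ∈ D, d ≠ 1} θ d, D ranging over the subgroups of index p in B. -/
theorem result {G : Type*} [Group G] [Finite G] (p : ℕ) [Fact p.Prime] (A : Subgroup G) (hA : Cfsg.IsElementaryAbelian p A) (hA3 : p ^ 3 ≤ Nat.card ↥A) (θ : G → Subgroup G) (hθ : Cfsg.IsSolvableSignalizerFunctor p A θ) (X : Subgroup G) (hX : X ∈ Cfsg.signalizerFamily p A θ) (B : Subgroup G) (hB : B ≤ A) (hB2 : p ^ 2 ≤ Nat.card ↥B) : X = ⨆ D : {D : Subgroup G // D ≤ B ∧ D.relIndex B = p}, X ⊓ Cfsg.signalizerInf (D : Subgroup G) θ := by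
  obtain ⟨hXs, hXp, hXinv, hXθ⟩ := hX
  refine le_antisymm ?_ (iSup_le fun _ => inf_le_left)
  have hBel := CfsgLib.Signalizer.isElementaryAbelian_of_le hA hB
  refine CfsgLib.Signalizer.le_of_hyperplanes hBel hB2
    (fun b hb => CfsgLib.CoprimeAction.mem_normalizer_of_conj_mem (hXinv b (hB hb))) hXp
    fun D hD hDc => ?_
  refine le_iSup_of_le ⟨D, hD, ?_⟩ (le_inf inf_le_left ?_)
  · have h := Subgroup.card_mul_index (D.subgroupOf B)
    rw [Nat.card_congr (Subgroup.subgroupOfEquivOfLe hD).toEquiv, ← hDc, mul_comm p] at h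
    exact Nat.eq_of_mul_eq_mul_left Nat.card_pos h
  · refine le_iInf fun ⟨d, hd, hd1⟩ => le_trans (inf_le_inf le_rfl ?_) (hXθ d (hB (hD hd)) hd1)
    exact Subgroup.centralizer_le (by simpa using hd)

end Cfsg.Agent.S1331
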