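import Cfsg.Statements.S1335
import Mathlib
import Cfsg.Prelude.Def_CaseTheorems

set_option autoImplicit false
open Cfsg

namespace Cfsg.Agent.S1335

/-- Let H be a subgroup of the finite group G, p a prime, k ≥ 1, P a Sylow p-subgroup of H of p-rank at least k, and suppose N_G(X) ≤ H for every subgroup X ≤ P of p-rank at least k. Then P is a Sylow p-subgroup of G. -/
theorem result {G : Type*} [Group G] [Finite G] {p : ℕ} [Fact p.Prime] (k : ℕ) (hk : 1 ≤ k) (H : Subgroup G) (P : Sylow p ↥H) (hP : ¬ Cfsg.PRankLE p (k - 1) ↥(P : Subgroup ↥H)) (hΓ : (∀ X : Subgroup G, X ≤ (P : Subgroup ↥H).map H.subtype → ¬ Cfsg.PRankLE p (k - 1) ↥X → Subgroup.normalizer (X : Set G) ≤ H)) : ∃ Q : Sylow p G, (Q : Subgroup G) = (P : Subgroup ↥H).map H.subtype := by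
  set P' : Subgroup G := (P : Subgroup ↥H).map H.subtype with hP'
  have hrk : ¬ Cfsg.PRankLE p (k - 1) ↥P' := by
    intro hle
    refine hP fun A hA hexp => ?_
    let e := (P : Subgroup ↥H).equivMapOfInjective H.subtype H.subtype_injective
    have h1 := hle (A.map e.toMonoidHom) (by
      constructor
      constructor
      rintro ⟨_, a, ha, rfl⟩ ⟨_, b, hb, rfl⟩
      have hab : (⟨a, ha⟩ : A) * ⟨b, hb⟩ = ⟨b, hb⟩ * ⟨a, ha⟩ := mul_comm' _ _
      exact Subtype.ext (by
        show e a * e b = e b * e a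
        rw [← map_mul, ← map_mul]
        exact congrArg e (congrArg Subtype.val hab))) (by
      rintro _ ⟨a, ha, rfl⟩
      show (e a) ^ p = 1
      rw [← map_pow, hexp a ha, map_one])
    refine le_of_eq_of_le ?_ h1
    exact Nat.card_congr (A.equivMapOfInjective e.toMonoidHom e.injective).toEquiv
  have hN : Subgroup.normalizer (P' : Set G) ≤ H := hΓ P' le_rfl hrk
  have hpP : IsPGroup p P' := P.isPGroup'.map H.subtype
  obtain ⟨Q, hQ⟩ := hpP.exists_le_sylow
  refine ⟨Q, le_antisymm ?_ hQ⟩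
  by_contra hne
  have hnil := Q.isPGroup'.isNilpotent
  have hlt : P'.subgroupOf Q < ⊤ :=
    lt_top_iff_ne_top.mpr fun h => hne (Subgroup.subgroupOf_eq_top.mp h)
  obtain ⟨u, hu, hu'⟩ := SetLike.exists_of_lt (Group.normalizerCondition_of_isNilpotent _ hlt)
  rw [Subgroup.mem_subgroupOf] at hu'
  have huN : (u : G) ∈ Subgroup.normalizer (P' : Set G) := by
    rw [Subgroup.mem_normalizer_iff] at hu ⊢
    intro x
    constructor
    · intro hx
      exact (hu ⟨x, hQ hx⟩).mp hx
    · intro hx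
      have hxQ : x ∈ (Q : Subgroup G) := by
        have := Q.mul_mem (Q.mul_mem (Q.inv_mem u.2) (hQ hx)) u.2
        simpa [mul_assoc] using this
      exact (hu ⟨x, hxQ⟩).mpr hx
  set R : Subgroup G := (Q : Subgroup G) ⊓ Subgroup.normalizer (P' : Set G) with hR
  have hRH : R ≤ H := inf_le_right.trans hN
  have hRp : IsPGroup p (R.subgroupOf H) :=
    (Q.isPGroup'.to_le inf_le_left).of_equiv (Subgroup.subgroupOfEquivOfLe hRH).symm
  have hPR : (P : Subgroup ↥H) ≤ R.subgroupOf H := by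
    intro x hx
    exact ⟨hQ (Subgroup.mem_map_of_mem _ hx), Subgroup.le_normalizer (Subgroup.mem_map_of_mem _ hx)⟩
  have heq := P.is_maximal' hRp hPR
  apply hu'
  have hmem : (⟨u, hRH ⟨u.2, huN⟩⟩ : H) ∈ (P : Subgroup ↥H) := by
    show _ ∈ P.toSubgroup
    rw [← heq]
    exact ⟨u.2, huN⟩
  exact Subgroup.mem_map_of_mem H.subtype hmem

end Cfsg.Agent.S1335
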