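import Cfsg.Statements.S1336
import Cfsg.Agent.Lib.ThompsonJ.ElemAbelian

set_option autoImplicit false
set_option linter.unusedSectionVars false
set_option linter.style.haveILetI false
open Cfsg

namespace Cfsg.Agent.S1336

variable {G : Type*} [Group G]

/-- A vertex of the commuting graph. -/
def Vert (p : ℕ) (E : Subgroup G) : Prop := IsElementaryAbelian p E ∧ p ^ 1 ≤ Nat.card ↥E

/-- An edge of the commuting graph. -/
def Edge (p : ℕ) (A B : Subgroup G) : Prop :=
  IsElementaryAbelian p A ∧ p ^ 1 ≤ Nat.card ↥A ∧ IsElementaryAbelian p B ∧ p ^ 1 ≤ Nat.card ↥B ∧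
    ∀ a ∈ A, ∀ b ∈ B, a * b = b * a

variable [Finite G] {p : ℕ} [hp : Fact p.Prime]

theorem exists_mem_of_vert {E : Subgroup G} (h : Vert p E) : ∃ x ∈ E, orderOf x = p := by
  have h1 : 1 < Nat.card ↥E := hp.out.one_lt.trans_le (by simpa using h.2)
  haveI : Nontrivial ↥E := Finite.one_lt_card_iff_nontrivial.mp h1
  obtain ⟨⟨x, hx⟩, hx1⟩ := exists_ne (1 : ↥E)
  exact ⟨x, hx, orderOf_eq_prime (h.1.2 x hx) fun h0 => hx1 (Subtype.ext h0)⟩

theorem vert_zpowers {x : G} (hx : orderOf x = p) : Vert p (Subgroup.zpowers x) :=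
  ⟨CfsgLib.ThompsonJ.isElementaryAbelian_zpowers (by rw [← hx]; exact pow_orderOf_eq_one x),
    by rw [Nat.card_zpowers, hx, pow_one]⟩

theorem vert_map {E : Subgroup G} (g : G) (h : Vert p E) :
    Vert p (E.map (MulAut.conj g).toMonoidHom) := by
  refine ⟨⟨?_, ?_⟩, ?_⟩
  · haveI := h.1.1
    exact Subgroup.map_isMulCommutative E _
  · rintro _ ⟨a, ha, rfl⟩
    rw [← map_pow, h.1.2 a ha, map_one]
  · rw [Nat.card_congr (E.equivMapOfInjective _ (MulAut.conj g).injective).toEquiv.symm]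
    exact h.2

theorem edge_symm {A B : Subgroup G} (h : Edge p A B) : Edge p B A :=
  ⟨h.2.2.1, h.2.2.2.1, h.1, h.2.1, fun a ha b hb => (h.2.2.2.2 b hb a ha).symm⟩

theorem rtg_symm {A B : Subgroup G} (h : Relation.ReflTransGen (Edge p) A B) :
    Relation.ReflTransGen (Edge p) B A := by
  induction h with
  | refl => exact .refl
  | tail _ h2 ih => exact .head (edge_symm h2) ih

theorem edge_map {A B : Subgroup G} (g : G) (h : Edge p A B) :
    Edge p (A.map (MulAut.conj g).toMonoidHom) (B.map (MulAut.conj g).toMonoidHom) := by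
  refine ⟨(vert_map g ⟨h.1, h.2.1⟩).1, (vert_map g ⟨h.1, h.2.1⟩).2,
    (vert_map g ⟨h.2.2.1, h.2.2.2.1⟩).1, (vert_map g ⟨h.2.2.1, h.2.2.2.1⟩).2, ?_⟩
  rintro _ ⟨a, ha, rfl⟩ _ ⟨b, hb, rfl⟩
  rw [← map_mul, h.2.2.2.2 a ha b hb, map_mul]

theorem rtg_map {A B : Subgroup G} (g : G) (h : Relation.ReflTransGen (Edge p) A B) :
    Relation.ReflTransGen (Edge p) (A.map (MulAut.conj g).toMonoidHom)
      (B.map (MulAut.conj g).toMonoidHom) :=
  Relation.ReflTransGen.lift (fun A : Subgroup G => A.map (MulAut.conj g).toMonoidHom)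
    (fun {_ _} h => edge_map g h) _ _ h

theorem map_conj_mul (g k : G) (E : Subgroup G) :
    E.map (MulAut.conj (g * k)).toMonoidHom =
      (E.map (MulAut.conj k).toMonoidHom).map (MulAut.conj g).toMonoidHom := by
  rw [Subgroup.map_map]
  congr 1
  ext x
  simp [mul_assoc]

theorem map_conj_one (E : Subgroup G) : E.map (MulAut.conj (1 : G)).toMonoidHom = E := by
  ext x
  simp

theorem map_conj_zpowers (g x : G) :
    (Subgroup.zpowers x).map (MulAut.conj g).toMonoidHom = Subgroup.zpowers (g * x * g⁻¹) :=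
  MonoidHom.map_zpowers _ x

/-- The stabiliser of the component of `E`. -/
def compStab (p : ℕ) [Fact p.Prime] (E : Subgroup G) : Subgroup G where
  carrier := {g | Relation.ReflTransGen (Edge p) E (E.map (MulAut.conj g).toMonoidHom)}
  one_mem' := by
    show Relation.ReflTransGen (Edge p) E (E.map (MulAut.conj (1 : G)).toMonoidHom)
    rw [map_conj_one]
  mul_mem' := by
    intro a b ha hb
    show Relation.ReflTransGen (Edge p) E (E.map (MulAut.conj (a * b)).toMonoidHom)
    rw [map_conj_mul]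
    exact ha.trans (rtg_map a hb)
  inv_mem' := by
    intro a ha
    show Relation.ReflTransGen (Edge p) E (E.map (MulAut.conj a⁻¹).toMonoidHom)
    have h := rtg_map (p := p) a⁻¹ ha
    rw [← map_conj_mul, inv_mul_cancel, map_conj_one] at h
    exact rtg_symm h

/-- Let G be finite and p prime. Then G has a proper subgroup H with p ∣ |H| and p ∤ |H ∩ gHg⁻¹| for every g ∉ H (a strongly p-embedded subgroup) if and only if G is not 1-connected for p. -/
theorem result {G : Type*} [Group G] [Finite G] (p : ℕ) [Fact p.Prime] : (∃ H : Subgroup G, H ≠ ⊤ ∧ p ∣ Nat.card ↥H ∧ ∀ g : G, g ∉ H → ¬ p ∣ Nat.card ↥(H ⊓ H.map (MulAut.conj g).toMonoidHom)) ↔ ¬ Cfsg.IsKConnected p 1 G := by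
  constructor
  · rintro ⟨H, hH, hpH, hTI⟩ hconn
    obtain ⟨⟨x, hxH⟩, hx⟩ := exists_prime_orderOf_dvd_card' p hpH
    rw [Subgroup.orderOf_mk] at hx
    have hinter : ∀ y g : G, orderOf y = p → y ∈ H → g⁻¹ * y * g ∈ H → g ∈ H := by
      intro y g hy hyH hyg
      by_contra hg
      have hmem : y ∈ H ⊓ H.map (MulAut.conj g).toMonoidHom :=
        ⟨hyH, g⁻¹ * y * g, hyg, by simp [mul_assoc]⟩
      have hd := Subgroup.orderOf_dvd_natCard _ hmem
      rw [hy] at hd
      exact hTI g hg hd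
    have hinv : ∀ A B : Subgroup G, Edge p A B → A ≤ H → B ≤ H := by
      intro A B h hA b hb
      obtain ⟨a, ha, hao⟩ := exists_mem_of_vert ⟨h.1, h.2.1⟩
      refine hinter a b hao (hA ha) ?_
      rw [mul_assoc, h.2.2.2.2 a ha b hb, inv_mul_cancel_left]
      exact hA ha
    obtain ⟨g, hg⟩ : ∃ g : G, g ∉ H := by
      by_contra h
      push Not at h
      exact hH (Subgroup.eq_top_iff' H |>.mpr h)
    have hgo : orderOf (g * x * g⁻¹) = p := by
      rw [← hx]
      exact (MulEquiv.orderOf_eq (MulAut.conj g) x)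
    have hV := vert_zpowers hx
    have hW := vert_zpowers hgo
    have hr : Relation.ReflTransGen (Edge p) (Subgroup.zpowers x) (Subgroup.zpowers (g * x * g⁻¹)) :=
      hconn _ _ hV.1 hV.2 hW.1 hW.2
    have hle : Subgroup.zpowers (g * x * g⁻¹) ≤ H := by
      generalize Subgroup.zpowers (g * x * g⁻¹) = B at hr
      induction hr with
      | refl => exact Subgroup.zpowers_le.mpr hxH
      | tail _ h2 ih => exact hinv _ _ h2 ih
    refine hg (hinter _ g hgo (hle (Subgroup.mem_zpowers _)) ?_)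
    simpa [mul_assoc] using hxH
  · intro hconn
    have hpG : p ∣ Nat.card G := by
      by_contra hpG
      apply hconn
      intro E E' hE hE2 _ _
      obtain ⟨x, -, hx⟩ := exists_mem_of_vert (p := p) ⟨hE, hE2⟩
      exact absurd (hx ▸ orderOf_dvd_natCard x) hpG
    let P₀ : Sylow p G := default
    haveI : Nontrivial ↥(P₀ : Subgroup G) :=
      (Subgroup.nontrivial_iff_ne_bot _).mpr (P₀.ne_bot_of_dvd_card hpG)
    haveI : Nontrivial ↥(Subgroup.center ↥(P₀ : Subgroup G)) := P₀.isPGroup'.center_nontrivial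
    have hpZ : p ∣ Nat.card ↥(Subgroup.center ↥(P₀ : Subgroup G)) := by
      rcases (P₀.isPGroup'.to_subgroup (Subgroup.center _)).card_eq_or_dvd with h | h
      · exact absurd h Finite.one_lt_card.ne'
      · exact h
    obtain ⟨⟨⟨z, hzP⟩, hzc⟩, hz⟩ := exists_prime_orderOf_dvd_card' p hpZ
    rw [Subgroup.orderOf_mk, Subgroup.orderOf_mk] at hz
    have hcom : ∀ y ∈ (P₀ : Subgroup G), y * z = z * y := fun y hy =>
      congrArg Subtype.val (Subgroup.mem_center_iff.mp hzc ⟨y, hy⟩)
    set H := compStab p (Subgroup.zpowers z) with hHdef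
    have hPH : (P₀ : Subgroup G) ≤ H := by
      intro y hy
      show Relation.ReflTransGen (Edge p) _ _
      rw [map_conj_zpowers, hcom y hy, mul_inv_cancel_right]
    have hR : ∀ x ∈ H, orderOf x = p →
        Relation.ReflTransGen (Edge p) (Subgroup.zpowers z) (Subgroup.zpowers x) := by
      intro x hxH hx
      have hpg : IsPGroup p ↥((Subgroup.zpowers x).subgroupOf H) := by
        refine IsPGroup.of_equiv ?_
          (Subgroup.subgroupOfEquivOfLe (Subgroup.zpowers_le.mpr hxH)).symm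
        exact IsPGroup.of_card (n := 1) (by rw [Nat.card_zpowers, hx, pow_one])
      obtain ⟨U, hU⟩ := hpg.exists_le_sylow
      obtain ⟨k, hk⟩ := MulAction.exists_smul_eq ↥H U (P₀.subtype hPH)
      have hmem : (k : G) * x * (k : G)⁻¹ ∈ (P₀ : Subgroup G) := by
        have h1 : k * ⟨x, hxH⟩ * k⁻¹ ∈ ((k • U : Sylow p ↥H) : Subgroup ↥H) := by
          rw [Sylow.coe_subgroup_smul, Subgroup.mem_pointwise_smul_iff_inv_smul_mem]
          have := hU (show (⟨x, hxH⟩ : ↥H) ∈ (Subgroup.zpowers x).subgroupOf H from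
            Subgroup.mem_zpowers x)
          simpa [MulAut.conj_apply, mul_assoc] using this
        rw [hk, Sylow.coe_subtype] at h1
        exact h1
      have hy : orderOf ((k : G) * x * (k : G)⁻¹) = p := by
        rw [← hx]; exact MulEquiv.orderOf_eq (MulAut.conj (k : G)) x
      have he : Edge p (Subgroup.zpowers z) (Subgroup.zpowers ((k : G) * x * (k : G)⁻¹)) := by
        refine ⟨(vert_zpowers hz).1, (vert_zpowers hz).2, (vert_zpowers hy).1, (vert_zpowers hy).2, ?_⟩
        rintro _ ⟨i, rfl⟩ _ ⟨j, rfl⟩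
        exact (Commute.zpow_zpow (hcom _ hmem).symm i j).eq
      have h2 := rtg_map (p := p) ((k : G)⁻¹) (Relation.ReflTransGen.single he)
      rw [map_conj_zpowers ((k : G)⁻¹) ((k : G) * x * (k : G)⁻¹), inv_inv,
        show (k : G)⁻¹ * ((k : G) * x * (k : G)⁻¹) * k = x by group] at h2
      exact (inv_mem k.2 : (k : G)⁻¹ ∈ H).trans h2
    refine ⟨H, ?_, (dvd_of_eq hz.symm).trans (Subgroup.orderOf_dvd_natCard _ (hPH hzP)), ?_⟩
    · intro htop
      apply hconn
      intro E E' hE hE2 hE' hE2'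
      obtain ⟨x, hxE, hx⟩ := exists_mem_of_vert (p := p) ⟨hE, hE2⟩
      obtain ⟨x', hxE', hx'⟩ := exists_mem_of_vert (p := p) ⟨hE', hE2'⟩
      have e1 : Edge p E (Subgroup.zpowers x) := by
        refine ⟨hE, hE2, (vert_zpowers hx).1, (vert_zpowers hx).2, fun a ha b hb => ?_⟩
        haveI := hE.1
        exact congrArg Subtype.val (mul_comm' (⟨a, ha⟩ : ↥E) ⟨b, Subgroup.zpowers_le.mpr hxE hb⟩)
      have e2 : Edge p (Subgroup.zpowers x') E' := by
        refine ⟨(vert_zpowers hx').1, (vert_zpowers hx').2, hE', hE2', fun a ha b hb => ?_⟩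
        haveI := hE'.1
        exact congrArg Subtype.val (mul_comm' (⟨a, Subgroup.zpowers_le.mpr hxE' ha⟩ : ↥E') ⟨b, hb⟩)
      exact (Relation.ReflTransGen.head e1 (rtg_symm (hR x (htop ▸ Subgroup.mem_top x) hx))).trans
        ((hR x' (htop ▸ Subgroup.mem_top x') hx').tail e2)
    · intro g hg hd
      obtain ⟨⟨y, hy0⟩, hy⟩ := exists_prime_orderOf_dvd_card' p hd
      rw [Subgroup.orderOf_mk] at hy
      obtain ⟨hyH, hyg⟩ := Subgroup.mem_inf.mp hy0
      obtain ⟨y', hy'H, hyy⟩ := hyg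
      have hyy' : g * y' * g⁻¹ = y := hyy
      have hy' : orderOf y' = p := by
        rw [← hy, ← hyy']; exact (MulEquiv.orderOf_eq (MulAut.conj g) y').symm
      have h2 := rtg_map (p := p) g (hR y' hy'H hy')
      rw [map_conj_zpowers g y', hyy'] at h2
      exact hg ((hR y hyH hy).trans (rtg_symm h2))

end Cfsg.Agent.S1336
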