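import Cfsg.Statements.S1337
import Cfsg.Agent.Lib.Signalizer.RankGraph
import Cfsg.Agent.Lib.ThompsonJ.ElemAbelian

set_option autoImplicit false
set_option linter.style.haveILetI false
open Cfsg

namespace Cfsg.Agent.S1337

/-- Let P be a finite p-group of p-rank greater than 2. Then P has a normal elementary abelian subgroup U of order p², and for every elementary abelian X ≤ P with |X| ≥ p²: X is joined to U by a chain of pairwise commuting elementary abelian subgroups of order ≥ p² if and only if C_P(X) has p-rank greater than 2. -/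
theorem result {P : Type*} [Group P] [Finite P] (p : ℕ) [Fact p.Prime] (hP : IsPGroup p P) (hrk : ¬ Cfsg.PRankLE p 2 P) : ∃ U : Subgroup P, U.Normal ∧ Cfsg.IsElementaryAbelian p U ∧ Nat.card ↥U = p ^ 2 ∧ ∀ X : Subgroup P, Cfsg.IsElementaryAbelian p X → p ^ 2 ≤ Nat.card ↥X → (Relation.ReflTransGen (fun A B : Subgroup P => Cfsg.IsElementaryAbelian p A ∧ p ^ 2 ≤ Nat.card ↥A ∧ Cfsg.IsElementaryAbelian p B ∧ p ^ 2 ≤ Nat.card ↥B ∧ ∀ a ∈ A, ∀ b ∈ B, a * b = b * a) X U ↔ ¬ Cfsg.PRankLE p 2 ↥(Subgroup.centralizer (X : Set P))) := by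
  have hp2 : p ^ 2 < p ^ 3 := Nat.pow_lt_pow_right (Fact.out : p.Prime).one_lt (by norm_num)
  obtain ⟨U, hUn, hUe, hU⟩ := CfsgLib.Signalizer.exists_normal_elemAb_sq hP hrk
  refine ⟨U, hUn, hUe, hU, fun X hX hX2 => ?_⟩
  haveI := hUn
  have hcomU : ∀ E : Subgroup P, Cfsg.IsElementaryAbelian p E → p ^ 2 < Nat.card ↥E →
      p ^ 2 ≤ Nat.card ↥(E ⊓ Subgroup.centralizer (U : Set P)) := by
    intro E hE hEc
    have hidx : (Subgroup.centralizer (U : Set P)).index ≤ p := by
      simpa using CfsgLib.PGroups.index_centralizer_le hP 2 U hUn hU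
    have hrel : (E ⊓ Subgroup.centralizer (U : Set P)).relIndex E ≤ p := by
      rw [Subgroup.inf_relIndex_left]
      refine le_trans (Subgroup.relIndex_le_of_le_right le_top ?_) ?_
      · rw [Subgroup.relIndex_top_right]; exact Subgroup.index_ne_zero_of_finite
      · rwa [Subgroup.relIndex_top_right]
    have h := Subgroup.relIndex_mul_relIndex ⊥ (E ⊓ Subgroup.centralizer (U : Set P)) E bot_le inf_le_left
    rw [Subgroup.relIndex_bot_left, Subgroup.relIndex_bot_left] at h
    obtain ⟨k, hk⟩ := IsPGroup.iff_card.mp (hP.to_subgroup E)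
    have hk3 : 3 ≤ k := by
      rw [hk] at hEc
      exact (Nat.pow_lt_pow_iff_right (Fact.out : p.Prime).one_lt).mp hEc
    refine Nat.le_of_mul_le_mul_right (c := p) ?_ (Fact.out : p.Prime).pos
    calc p ^ 2 * p = p ^ 3 := (pow_succ p 2).symm
      _ ≤ p ^ k := Nat.pow_le_pow_right (Fact.out : p.Prime).pos hk3
      _ = _ := hk.symm.trans h.symm
      _ ≤ _ := Nat.mul_le_mul_left _ hrel
  rw [CfsgLib.Signalizer.rank_centralizer_iff]
  constructor
  · intro hchain
    rcases hchain.cases_head with rfl | ⟨B, ⟨-, -, hB, hB2, hXB⟩, hrest⟩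
    · -- the normal subgroup itself
      obtain ⟨E, hE, hEc⟩ : ∃ E : Subgroup P, Cfsg.IsElementaryAbelian p E ∧ p ^ 2 < Nat.card ↥E := by
        unfold Cfsg.PRankLE at hrk
        push Not at hrk
        obtain ⟨A, h1, h2, h3⟩ := hrk
        exact ⟨A, ⟨h1, h2⟩, h3⟩
      by_cases hle : E ⊓ Subgroup.centralizer (X : Set P) ≤ X
      · refine ⟨E, hE, hEc, ?_⟩
        have heq : E ⊓ Subgroup.centralizer (X : Set P) = X :=
          Subgroup.eq_of_le_of_card_ge hle (hU ▸ hcomU E hE hEc)
        intro e he
        rw [Subgroup.mem_centralizer_iff]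
        intro x hx
        have hxE : x ∈ E ⊓ Subgroup.centralizer (X : Set P) := heq.symm ▸ hx
        exact CfsgLib.Signalizer.mul_comm_of_isElementaryAbelian hE hxE.1 he
      · refine ⟨(E ⊓ Subgroup.centralizer (X : Set P)) ⊔ X, CfsgLib.ThompsonJ.isElementaryAbelian_sup
          (CfsgLib.Signalizer.isElementaryAbelian_of_le hE inf_le_left) hX inf_le_right, ?_,
          sup_le inf_le_right fun x hx => Subgroup.mem_centralizer_iff.mpr fun y hy =>
            CfsgLib.Signalizer.mul_comm_of_isElementaryAbelian hX hy hx⟩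
        by_contra hlt
        push Not at hlt
        refine hle (le_sup_left.trans (Subgroup.eq_of_le_of_card_ge (le_sup_right : X ≤ _) ?_).ge)
        exact hlt.trans hX2
    · -- otherwise `X` is not isolated
      by_contra hcon
      push Not at hcon
      have key : ∀ Y Z : Subgroup P, Relation.ReflTransGen (fun A B : Subgroup P =>
          Cfsg.IsElementaryAbelian p A ∧ p ^ 2 ≤ Nat.card ↥A ∧ Cfsg.IsElementaryAbelian p B ∧
          p ^ 2 ≤ Nat.card ↥B ∧ ∀ a ∈ A, ∀ b ∈ B, a * b = b * a) Y Z → Y = X → Z = X := by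
        intro Y Z h
        induction h with
        | refl => exact id
        | tail _ h2 ih =>
          intro hY
          have hb := ih hY
          subst hb
          obtain ⟨-, -, hC, hC2, hcom⟩ := h2
          rename_i c _
          have hc : _ ≤ Subgroup.centralizer (c : Set P) := fun x hx =>
            Subgroup.mem_centralizer_iff.mpr fun y hy => (hcom x hx y hy).symm
          have hsup := CfsgLib.ThompsonJ.isElementaryAbelian_sup hX hC hc
          have hcard : ¬ p ^ 2 < Nat.card ↥(_ ⊔ c : Subgroup P) := fun hlt =>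
            hcon _ hsup hlt (sup_le
              (fun x hx => Subgroup.mem_centralizer_iff.mpr fun y hy =>
                CfsgLib.Signalizer.mul_comm_of_isElementaryAbelian hX hy hx)
              (fun x hx => Subgroup.mem_centralizer_iff.mpr fun y hy => hcom y hy x hx))
          exact (Subgroup.eq_of_le_of_card_ge (le_sup_right (a := _) (b := c))
            ((not_lt.mp hcard).trans hC2)).trans
            (Subgroup.eq_of_le_of_card_ge le_sup_left ((not_lt.mp hcard).trans hX2)).symm
      have hUX : U = X := key X U hchain rfl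
      subst hUX
      obtain ⟨E, hE, hEc⟩ : ∃ E : Subgroup P, Cfsg.IsElementaryAbelian p E ∧ p ^ 2 < Nat.card ↥E := by
        unfold Cfsg.PRankLE at hrk
        push Not at hrk
        obtain ⟨A, h1, h2, h3⟩ := hrk
        exact ⟨A, ⟨h1, h2⟩, h3⟩
      set D := E ⊓ Subgroup.centralizer (U : Set P) with hD
      have hsup := CfsgLib.ThompsonJ.isElementaryAbelian_sup
        (CfsgLib.Signalizer.isElementaryAbelian_of_le hE inf_le_left : Cfsg.IsElementaryAbelian p D)
        hX inf_le_right
      have hUU : U ≤ Subgroup.centralizer (U : Set P) := fun x hx =>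
        Subgroup.mem_centralizer_iff.mpr fun y hy =>
          CfsgLib.Signalizer.mul_comm_of_isElementaryAbelian hX hy hx
      have hle : D ≤ U := by
        have h1 := not_lt.mp fun hlt => hcon _ hsup hlt (sup_le inf_le_right hUU)
        exact le_sup_left.trans (Subgroup.eq_of_le_of_card_ge le_sup_right (h1.trans hX2)).ge
      have heq : D = U := Subgroup.eq_of_le_of_card_ge hle (hU ▸ hcomU E hE hEc)
      refine hcon E hE hEc fun e he => Subgroup.mem_centralizer_iff.mpr fun x hx => ?_
      have hxD : x ∈ D := heq.symm ▸ hx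
      exact CfsgLib.Signalizer.mul_comm_of_isElementaryAbelian hE hxD.1 he
  · rintro ⟨E, hE, hEc, hEX⟩
    set D := E ⊓ Subgroup.centralizer (U : Set P)
    have hD : Cfsg.IsElementaryAbelian p D := CfsgLib.Signalizer.isElementaryAbelian_of_le hE inf_le_left
    refine .head (b := E) ⟨hX, hX2, hE, hEc.le, fun a ha b hb =>
      Subgroup.mem_centralizer_iff.mp (hEX hb) a ha⟩ (.head (b := D) ⟨hE, hEc.le, hD, hcomU E hE hEc,
      fun a ha b hb => CfsgLib.Signalizer.mul_comm_of_isElementaryAbelian hE ha hb.1⟩ (.single ?_))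
    exact ⟨hD, hcomU E hE hEc, hUe, hU.ge, fun a ha b hb =>
      (Subgroup.mem_centralizer_iff.mp ha.2 b hb).symm⟩

end Cfsg.Agent.S1337
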