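import Cfsg.Statements.S1338
import Cfsg.Agent.Lib.Signalizer.RankGraph
import Cfsg.Agent.Lib.ThompsonJ.ElemAbelian
import Cfsg.Agent.Lib.PGroups.ElemAbFour
import Cfsg.Agent.S1337

set_option autoImplicit false
set_option linter.style.haveILetI false
open Cfsg

namespace Cfsg.Agent.S1338

/-- No elementary abelian subgroup of order nine is maximal. -/
theorem exists_large_centralising {P : Type*} [Group P] [Finite P] (hP : IsPGroup 3 P)
    {V : Subgroup P} [V.Normal] (hV : IsElementaryAbelian 3 V) (hV4 : Nat.card ↥V = 3 ^ 4)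
    {X : Subgroup P} (hX : IsElementaryAbelian 3 X) (hX2 : 3 ^ 2 ≤ Nat.card ↥X) :
    ∃ E : Subgroup P, IsElementaryAbelian 3 E ∧ 3 ^ 2 < Nat.card ↥E ∧
      E ≤ Subgroup.centralizer (X : Set P) := by
  haveI : Fact (Nat.Prime 3) := ⟨Nat.prime_three⟩
  have hXX : X ≤ Subgroup.centralizer (X : Set P) := fun x hx =>
    Subgroup.mem_centralizer_iff.mpr fun y hy =>
      CfsgLib.Signalizer.mul_comm_of_isElementaryAbelian hX hy hx
  by_cases hbig : 3 ^ 2 < Nat.card ↥X
  · exact ⟨X, hX, hbig, hXX⟩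
  by_contra hcon
  push Not at hcon
  set W := V ⊓ Subgroup.centralizer (X : Set P) with hW
  have hWX : W ≤ X := by
    have hsup := CfsgLib.ThompsonJ.isElementaryAbelian_sup
      (CfsgLib.Signalizer.isElementaryAbelian_of_le hV inf_le_left : IsElementaryAbelian 3 W)
      hX inf_le_right
    have h1 := not_lt.mp fun hlt => hcon _ hsup hlt (sup_le inf_le_right hXX)
    exact le_sup_left.trans (Subgroup.eq_of_le_of_card_ge le_sup_right (h1.trans hX2)).ge
  by_cases hXV : X ≤ V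
  · refine hcon V hV (by rw [hV4]; norm_num) fun v hv => Subgroup.mem_centralizer_iff.mpr
      fun x hx => CfsgLib.Signalizer.mul_comm_of_isElementaryAbelian hV (hXV hx) hv
  have hW3 : Nat.card ↥W ≤ 3 := by
    obtain ⟨k, hk⟩ := IsPGroup.iff_card.mp (hP.to_subgroup W)
    by_contra hlt
    rw [hk] at hlt
    have hk2 : 2 ≤ k := by
      by_contra h
      exact hlt ((Nat.pow_le_pow_right (by norm_num) (by omega : k ≤ 1)).trans_eq (pow_one 3))
    have : Nat.card ↥X ≤ Nat.card ↥W := by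
      rw [hk]
      exact (not_lt.mp hbig).trans (Nat.pow_le_pow_right (by norm_num) hk2)
    exact hXV ((Subgroup.eq_of_le_of_card_ge hWX this).ge.trans inf_le_left)
  -- conjugation by `x` on `V` has fixed points in `W`
  have hcom : ∀ a ∈ V, ∀ b ∈ V, a * b = b * a := fun a ha b hb =>
    CfsgLib.Signalizer.mul_comm_of_isElementaryAbelian hV ha hb
  have hconj : ∀ (x : P), ∀ v ∈ V, x * v * x⁻¹ ∈ V := fun x v hv =>
    (inferInstance : V.Normal).conj_mem v hv x
  -- a generator outside `V`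
  obtain ⟨x, hx, hxV⟩ := SetLike.not_le_iff_exists.mp hXV
  obtain ⟨z, hzW, hz1, hzc⟩ : ∃ z ∈ X, z ≠ 1 ∧ z ∈ Subgroup.center P ⊓ V := by
    obtain ⟨z, hzV, hz1, hzc⟩ := CfsgLib.TwoGroups.exists_mem_center_of_normal hP
      (N := V) (fun h => by rw [h, Subgroup.card_bot] at hV4; norm_num at hV4)
    exact ⟨z, hWX ⟨hzV, Subgroup.mem_centralizer_iff.mpr fun y _ => Subgroup.mem_center_iff.mp hzc y⟩,
      hz1, hzc, hzV⟩
  have hXgen : X ≤ Subgroup.zpowers z ⊔ Subgroup.zpowers x := by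
    have hle : Subgroup.zpowers z ⊔ Subgroup.zpowers x ≤ X :=
      sup_le (Subgroup.zpowers_le.mpr hzW) (Subgroup.zpowers_le.mpr hx)
    refine (Subgroup.eq_of_le_of_card_ge hle ?_).ge
    refine (not_lt.mp hbig).trans ?_
    obtain ⟨k, hk⟩ := IsPGroup.iff_card.mp (hP.to_subgroup (Subgroup.zpowers z ⊔ Subgroup.zpowers x))
    rw [hk]
    refine Nat.pow_le_pow_right (by norm_num) ?_
    by_contra hlt
    have hz : Nat.card ↥(Subgroup.zpowers z) = 3 := by
      rw [Nat.card_zpowers, CfsgLib.Signalizer.orderOf_eq_of_mem hX hzW hz1]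
    have heq := Subgroup.eq_of_le_of_card_ge
      (le_sup_left : Subgroup.zpowers z ≤ Subgroup.zpowers z ⊔ Subgroup.zpowers x)
      (by rw [hk, hz]; exact (Nat.pow_le_pow_right (by norm_num) (by omega : k ≤ 1)).trans_eq (pow_one 3))
    exact hxV ((Subgroup.zpowers_le.mpr hzc.2) (heq.ge (Subgroup.mem_sup_right (Subgroup.mem_zpowers x))))
  have hfix : ∀ v ∈ V, x * v = v * x → v ∈ W := by
    intro v hv hxv
    refine ⟨hv, ?_⟩
    have hle : X ≤ Subgroup.centralizer ({v} : Set P) := hXgen.trans (sup_le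
      (Subgroup.zpowers_le.mpr (Subgroup.mem_centralizer_singleton_iff.mpr
        (Subgroup.mem_center_iff.mp hzc.1 v).symm))
      (Subgroup.zpowers_le.mpr (Subgroup.mem_centralizer_singleton_iff.mpr hxv)))
    exact Subgroup.mem_centralizer_iff.mpr fun y hy =>
      Subgroup.mem_centralizer_singleton_iff.mp (hle hy)
  let D : ↥V →* ↥V :=
    { toFun := fun v => ⟨x * v * x⁻¹ * (v : P)⁻¹, mul_mem (hconj x v v.2) (inv_mem v.2)⟩
      map_one' := Subtype.ext (by simp)
      map_mul' := fun a b => Subtype.ext (by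
        show x * ((a : P) * b) * x⁻¹ * ((a : P) * b)⁻¹ =
          x * a * x⁻¹ * (a : P)⁻¹ * (x * b * x⁻¹ * (b : P)⁻¹)
        calc x * ((a : P) * b) * x⁻¹ * ((a : P) * b)⁻¹
            = x * a * x⁻¹ * ((x * b * x⁻¹ * (b : P)⁻¹) * (a : P)⁻¹) := by group
          _ = _ := by
            rw [hcom _ (mul_mem (hconj x b b.2) (inv_mem b.2)) _ (inv_mem a.2), mul_assoc (x * a * x⁻¹)]) }
  have hker : Nat.card ↥D.ker ≤ 3 := by
    refine le_trans (Nat.card_le_card_of_injective (fun v => (⟨((v : ↥V) : P),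
      hfix _ (v : ↥V).2 (mul_inv_eq_iff_eq_mul.mp (mul_inv_eq_one.mp
        (congrArg Subtype.val v.2 : x * ((v : ↥V) : P) * x⁻¹ * ((v : ↥V) : P)⁻¹ = 1)))⟩ : W))
      fun a b h => Subtype.ext (Subtype.ext (congrArg (fun w : W => (w : P)) h))) hW3
  have hD3 : (D.comp (D.comp D)).ker = ⊤ := by
    refine eq_top_iff.mpr fun v _ => ?_
    rw [MonoidHom.mem_ker]
    let c : MulAut ↥V := MulAut.conjNormal x
    have hDc : ∀ u : ↥V, D u = c u * u⁻¹ := fun u => Subtype.ext rfl
    have hc3 : ∀ u : ↥V, c (c (c u)) = u := fun u => by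
      apply Subtype.ext
      have hx3 := hX.2 x hx
      show x * (x * (x * (u : P) * x⁻¹) * x⁻¹) * x⁻¹ = u
      calc x * (x * (x * (u : P) * x⁻¹) * x⁻¹) * x⁻¹ = x * x * x * u * (x * x * x)⁻¹ := by group
        _ = u := by rw [show x * x * x = x ^ 3 by rw [pow_succ, pow_two], hx3]; group
    haveI := hV.1
    letI : CommGroup ↥V := { (inferInstance : Group ↥V) with mul_comm := fun a b => mul_comm' a b }
    have h3 : ∀ u : ↥V, u ^ 3 = 1 := fun u => Subtype.ext (by simpa using hV.2 u u.2)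
    show D (D (D v)) = 1
    rw [hDc, hDc, hDc]
    simp only [map_mul, map_inv, hc3, mul_inv_rev, inv_inv]
    calc _ = (c v) ^ 3 * ((c (c v))⁻¹) ^ 3 := by
          simp only [pow_succ, pow_zero, one_mul]
          simp [mul_assoc, mul_comm, mul_left_comm]
      _ = 1 := by rw [h3, h3, one_mul]
  have hcard : ∀ f : ↥V →* ↥V, Nat.card ↥(D.comp f).ker ≤ 3 * Nat.card ↥f.ker := by
    intro f
    let g : ↥(D.comp f).ker →* ↥D.ker := (f.comp (D.comp f).ker.subtype).codRestrict D.ker fun u => u.2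
    have h1 := Subgroup.card_mul_index g.ker
    rw [Subgroup.index_ker] at h1
    have h2 : Nat.card ↥g.ker ≤ Nat.card ↥f.ker := by
      refine Nat.card_le_card_of_injective (fun u => (⟨(u : ↥(D.comp f).ker).1,
        congrArg Subtype.val u.2⟩ : f.ker)) fun a b h => Subtype.ext (Subtype.ext ?_)
      exact congrArg (fun w : f.ker => (w : ↥V)) h
    rw [← h1, mul_comm 3]
    exact Nat.mul_le_mul h2 ((Subgroup.card_le_card_group _).trans hker)
  have hh := (hcard (D.comp D)).trans (Nat.mul_le_mul_left 3 ((hcard D).trans (Nat.mul_le_mul_left 3 hker)))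
  rw [hD3, Subgroup.card_top, hV4] at hh
  norm_num at hh

/-- A finite 3-group of 3-rank at least 4 is 2-connected for the prime 3: its commuting graph on elementary abelian subgroups of order ≥ 9 is connected. -/
theorem result {P : Type*} [Group P] [Finite P] (hP : IsPGroup 3 P) (hrk : ¬ Cfsg.PRankLE 3 3 P) : Cfsg.IsKConnected 3 2 P := by
  haveI : Fact (Nat.Prime 3) := ⟨Nat.prime_three⟩
  have hrk2 : ¬ Cfsg.PRankLE 3 2 P := fun h => hrk fun A h1 h2 => (h A h1 h2).trans (by norm_num)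
  obtain ⟨U, -, -, -, hiff⟩ := Cfsg.Agent.S1337.result 3 hP hrk2
  unfold Cfsg.PRankLE at hrk
  push Not at hrk
  obtain ⟨A, hAc, hAp, hA⟩ := hrk
  obtain ⟨k, hk⟩ := IsPGroup.iff_card.mp (hP.to_subgroup A)
  have hk4 : 4 ≤ k := by
    rw [hk] at hA
    exact (Nat.pow_lt_pow_iff_right (by norm_num)).mp hA
  haveI := hAc
  obtain ⟨E, hE, hE4⟩ : ∃ E : Subgroup P, Cfsg.IsElementaryAbelian 3 E ∧ Nat.card ↥E = 3 ^ 4 := by
    obtain ⟨E', -, -, hE'⟩ := CfsgLib.PGroups.exists_normal_card_le (hP.to_subgroup A)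
      (N := (⊤ : Subgroup A)) (m := k) (k := 4) (by rw [Subgroup.card_top, hk]) hk4
    exact ⟨E'.map A.subtype, CfsgLib.Signalizer.isElementaryAbelian_of_le ⟨hAc, hAp⟩
      (Subgroup.map_subtype_le _), by rw [Subgroup.card_map_of_injective A.subtype_injective, hE']⟩
  obtain ⟨V, hVn, hV, hV4⟩ := CfsgLib.PGroups.exists_normal_elemAb_four (by norm_num) hP hE hE4
  have hall : ∀ X : Subgroup P, Cfsg.IsElementaryAbelian 3 X → 3 ^ 2 ≤ Nat.card ↥X →
      Relation.ReflTransGen (fun A B : Subgroup P => Cfsg.IsElementaryAbelian 3 A ∧ 3 ^ 2 ≤ Nat.card ↥A ∧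
        Cfsg.IsElementaryAbelian 3 B ∧ 3 ^ 2 ≤ Nat.card ↥B ∧ ∀ a ∈ A, ∀ b ∈ B, a * b = b * a) X U :=
    fun X hX hX2 => (hiff X hX hX2).mpr (CfsgLib.Signalizer.rank_centralizer_iff.mpr
      (exists_large_centralising hP hV hV4 hX hX2))
  intro X Y hX hX2 hY hY2
  refine (hall X hX hX2).trans ?_
  have h := hall Y hY hY2
  clear hY hY2
  induction h using Relation.ReflTransGen.head_induction_on with
  | refl => exact .refl
  | head h1 _ ih => exact ih.tail ⟨h1.2.2.1, h1.2.2.2.1, h1.1, h1.2.1, fun a ha b hb => (h1.2.2.2.2 b hb a ha).symm⟩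

end Cfsg.Agent.S1338
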