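import Cfsg.Statements.S1344
import Cfsg.Agent.Lib.Signalizer.ExtendedTwoLayer
import Cfsg.Agent.Lib.LBalance.PComponent
import Cfsg.Agent.Lib.Cores.GenFitting
import Cfsg.Agent.Lib.PSolvable.HallHigman

set_option autoImplicit false
set_option linter.style.haveILetI false
open Cfsg
open scoped Pointwise

namespace Cfsg.Agent.S1344

/-- An element of a hull, fixing a component which contains a non-central element, normalises it. -/
theorem mem_normalizer_of_commute {Y : Type*} [Group Y] [Finite Y] {B : Subgroup Y}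
    (hB : IsComponent B) {g y : Y} (hy : y ∈ B) (hgy : g * y = y * g)
    (hnc : ∃ b ∈ B, y * b ≠ b * y) : g ∈ Subgroup.normalizer (B : Set Y) := by
  rw [Subgroup.mem_normalizer_iff_map_conj_eq]
  by_contra hne
  have hB' : IsComponent (B.map (MulAut.conj g).toMonoidHom) :=
    CfsgLib.Cores.isComponent_map_equiv hB (MulAut.conj g)
  have hy' : y ∈ B.map (MulAut.conj g).toMonoidHom :=
    ⟨y, hy, by simp [hgy]⟩
  obtain ⟨b, hb, hyb⟩ := hnc
  exact hyb (Subgroup.mem_centralizer_iff.mp
    (CfsgLib.Cores.le_centralizer_of_isComponent_ne hB' hB hne hy') b hb).symm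

/-- A component of a group without odd core has a non-central 2-element. -/
theorem exists_noncentral_two_element {Y : Type*} [Group Y] [Finite Y]
    (hO : pPrimeCore 2 Y = ⊥) {B : Subgroup Y} (hB : IsComponent B) :
    ∃ y ∈ B, (∃ k : ℕ, y ^ 2 ^ k = 1) ∧ ∃ b ∈ B, y * b ≠ b * y := by
  haveI : Fact (Nat.Prime 2) := ⟨Nat.prime_two⟩
  by_contra h
  push Not at h
  have hle : B ≤ Subgroup.centralizer (B : Set Y) := by
    refine (CfsgLib.LBalance.pElemClosure_of_isComponent hO hB).ge.trans
      (CfsgLib.LBalance.pElemClosure_le_iff.mpr ?_)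
    rintro y hy ⟨k, hk⟩
    exact Subgroup.mem_centralizer_iff.mpr fun b hb => (h y hy ⟨k, hk⟩ b hb).symm
  refine CfsgLib.Cores.center_ne_top_of_isQuasisimple hB.2 (eq_top_iff.mpr fun b _ => ?_)
  rw [Subgroup.mem_center_iff]
  intro c
  exact Subtype.ext (Subgroup.mem_centralizer_iff.mp (hle b.2) _ c.2)

/-- Let K be a 2-component of the finite group X. Then K ≤ L*_{2'}(X) and K is normal in L*_{2'}(X). -/
theorem result {X : Type*} [Group X] [Finite X] (K : Subgroup X) (hK : Cfsg.IsPComponent 2 K) : K ≤ Cfsg.extendedTwoLayer X ∧ (K.subgroupOf (Cfsg.extendedTwoLayer X)).Normal := by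
  haveI : Fact (Nat.Prime 2) := ⟨Nat.prime_two⟩
  have hKL : K ≤ Cfsg.extendedTwoLayer X :=
    ((CfsgLib.LBalance.le_pLayer hK).trans le_sup_left).trans le_sup_left
  refine ⟨hKL, (Subgroup.normal_subgroupOf_iff_le_normalizer hKL).mpr ?_⟩
  set π := QuotientGroup.mk' (pPrimeCore 2 X) with hπ
  set B := K.map π with hBdef
  have hB : IsComponent B := hK.2.1
  have hred : ∀ g : X, π g ∈ Subgroup.normalizer (B : Set (X ⧸ pPrimeCore 2 X)) →
      g ∈ Subgroup.normalizer (K : Set X) := by
    intro g hg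
    rw [CfsgLib.LBalance.isPComponent_eq hK]
    refine CfsgLib.LBalance.normalizer_le_normalizer_pElemClosure _ ?_
    rw [Subgroup.mem_normalizer_iff]
    intro y
    simp only [Subgroup.mem_comap, map_mul, map_inv]
    exact Subgroup.mem_normalizer_iff.mp hg (π y)
  obtain ⟨T⟩ : Nonempty (Sylow 2 ↥(CfsgLib.Signalizer.twoLayerHull X)) := inferInstance
  -- the hull normalises every component of the quotient
  have hW : ∀ w ∈ CfsgLib.Signalizer.twoLayerHull X,
      π w ∈ Subgroup.normalizer (B : Set (X ⧸ pPrimeCore 2 X)) := by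
    suffices h : CfsgLib.Signalizer.twoLayerHull X ≤
        (Subgroup.normalizer (B : Set (X ⧸ pPrimeCore 2 X))).comap π from h
    rw [← Subgroup.map_le_iff_le_comap, Subgroup.map_sup]
    refine sup_le ?_ ?_
    · rw [CfsgLib.LBalance.map_pLayer]
      exact CfsgLib.Cores.layer_le_normalizer hB
    · rw [CfsgLib.PSolvable.map_mk'_pPrimePCore]
      refine le_trans ?_ (Subgroup.centralizer_le_normalizer _)
      intro a ha
      rw [Subgroup.mem_centralizer_iff]
      intro b hb
      exact Subgroup.mem_centralizer_iff.mp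
        (CfsgLib.Cores.fittingSubgroup_le_centralizer_layer
          (CfsgLib.Cores.pCore_le_fittingSubgroup 2 ha)) b (CfsgLib.Cores.le_layer hB hb)
  -- a non-central element of `B` covered by `T`
  obtain ⟨y, hy, hT, hync⟩ : ∃ y ∈ B, y ∈ (CfsgLib.Signalizer.hullSylow T).map π ∧
      ∃ b ∈ B, y * b ≠ b * y := by
    obtain ⟨b, hb, ⟨k, hk⟩, c, hc, hbc⟩ := exists_noncentral_two_element
      (CfsgLib.Cores.pPrimeCore_quotient_pPrimeCore (G := X) 2) hB
    have hbW : b ∈ (CfsgLib.Signalizer.twoLayerHull X).map π := by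
      refine Subgroup.map_mono le_sup_left ?_
      rw [CfsgLib.LBalance.map_pLayer]
      exact CfsgLib.Cores.le_layer hB hb
    obtain ⟨x, hxW, rfl⟩ := hbW
    obtain ⟨j, m, hm, hj⟩ := CfsgLib.LBalance.exists_pElement_mul (p := 2) x
    have hx2 : IsPGroup 2 ↥((Subgroup.zpowers (x ^ m)).subgroupOf
        (CfsgLib.Signalizer.twoLayerHull X)) := by
      refine IsPGroup.of_equiv ?_
        (Subgroup.subgroupOfEquivOfLe (Subgroup.zpowers_le.mpr (pow_mem hxW m))).symm
      obtain ⟨i, -, hi⟩ := (Nat.dvd_prime_pow Nat.prime_two).mp (orderOf_dvd_of_pow_eq_one hj)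
      exact IsPGroup.of_card (n := i) (by rw [Nat.card_zpowers, hi])
    obtain ⟨U, hU⟩ := hx2.exists_le_sylow
    obtain ⟨w, hw⟩ := MulAction.exists_smul_eq ↥(CfsgLib.Signalizer.twoLayerHull X) U T
    have hmem : w * ⟨x ^ m, pow_mem hxW m⟩ * w⁻¹ ∈
        ((T : Sylow 2 ↥(CfsgLib.Signalizer.twoLayerHull X)) : Subgroup _) := by
      rw [← hw, Sylow.coe_subgroup_smul, Subgroup.mem_pointwise_smul_iff_inv_smul_mem]
      have := hU (show (⟨x ^ m, pow_mem hxW m⟩ : ↥(CfsgLib.Signalizer.twoLayerHull X)) ∈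
        (Subgroup.zpowers (x ^ m)).subgroupOf _ from Subgroup.mem_zpowers _)
      simpa [MulAut.conj_apply, mul_assoc] using this
    have hn := hW (w : X) w.2
    refine ⟨π w * π (x ^ m) * (π w)⁻¹, ?_, ⟨_, Subgroup.mem_map_of_mem _ hmem, by simp⟩, ?_⟩
    · rw [map_pow]
      exact (Subgroup.mem_normalizer_iff.mp hn _).mp (pow_mem hb m)
    · refine ⟨π w * c * (π w)⁻¹, (Subgroup.mem_normalizer_iff.mp hn _).mp hc, fun h => hbc ?_⟩
      have h1 : π (x ^ m) * c = c * π (x ^ m) := by
        have h2 : π w * (π (x ^ m) * c) * (π w)⁻¹ = π w * (c * π (x ^ m)) * (π w)⁻¹ := by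
          simpa [mul_assoc] using h
        exact mul_left_cancel (mul_right_cancel h2)
      rw [map_pow] at h1
      have hmem' : π x ∈ Subgroup.centralizer ({c} : Set (X ⧸ pPrimeCore 2 X)) :=
        CfsgLib.LBalance.mem_of_pow_mem_of_coprime hk
          (Subgroup.mem_centralizer_singleton_iff.mpr h1) hm
      exact Subgroup.mem_centralizer_singleton_iff.mp hmem'
  rw [CfsgLib.Signalizer.extendedTwoLayer_eq T]
  refine sup_le (sup_le (fun g hg => hred g (hW g (le_sup_left (a := pLayer 2 X) hg))) ?_) ?_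
  · intro g hg
    refine hred g ?_
    rw [show π g = 1 from (QuotientGroup.eq_one_iff g).mpr hg]
    exact one_mem _
  · intro g hg
    refine hred g (mem_normalizer_of_commute hB hy ?_ hync)
    obtain ⟨t, ht, rfl⟩ := hT
    obtain ⟨⟨g', hg'⟩, -, rfl⟩ := hg
    rw [← map_mul, ← map_mul]
    exact congrArg π (Subgroup.mem_centralizer_iff.mp hg' t ht).symm

end Cfsg.Agent.S1344
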