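import Cfsg.Statements.S1348
import Cfsg.Agent.Lib.Signalizer.LinearBlock

set_option autoImplicit false
set_option linter.style.haveILetI false
open Cfsg

namespace Cfsg.Agent.S1348

/-- Let F be a finite field of odd order, n ≥ 7 odd, and t ∈ SL(n, F) the diagonal matrix with entries −1, …, −1, 1. Then E(C(t)) is a standard subgroup of SL(n, F). -/
theorem result {F : Type*} [Field F] [Fintype F] [DecidableEq F] (hF : Odd (Fintype.card F)) (n : ℕ) (hn : 7 ≤ n) (hodd : Odd n) (t : Matrix.SpecialLinearGroup (Fin n) F) (ht : (t : Matrix (Fin n) (Fin n) F) = Matrix.diagonal (fun i : Fin n => if (i : ℕ) + 1 = n then (1 : F) else -1)) : Cfsg.IsStandardSubgroup ((Cfsg.layer ↥(Subgroup.centralizer ({t} : Set (Matrix.SpecialLinearGroup (Fin n) F)))).map (Subgroup.centralizer ({t} : Set (Matrix.SpecialLinearGroup (Fin n) F))).subtype) := by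
  classical
  haveI : Fact (Nat.Prime 2) := ⟨Nat.prime_two⟩
  have hne := CfsgLib.Signalizer.neg_one_ne_one hF
  set q : Fin n := ⟨n - 1, by omega⟩ with hqdef
  have hq : ∀ i : Fin n, (i : ℕ) + 1 = n ↔ i = q := fun i => by
    rw [hqdef, Fin.ext_iff]; simp only; omega
  set d : Fin n → F := fun i => if (i : ℕ) + 1 = n then 1 else -1 with hd
  have hdc : ∀ i, i ≠ q → d i = -1 := fun i hi => if_neg fun e => hi ((hq i).mp e)
  have hdq : d q = 1 := if_pos ((hq q).mpr rfl)
  set C := Subgroup.centralizer ({t} : Set (Matrix.SpecialLinearGroup (Fin n) F)) with hCdef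
  set B := CfsgLib.Signalizer.blockSL (F := F) q with hB
  set L := B.range with hL
  have hsplit : ∀ g ∈ C, CfsgLib.Signalizer.Split q (g : Matrix (Fin n) (Fin n) F) := by
    intro g hg
    refine CfsgLib.Signalizer.split_of_commute_diagonal (d := d)
      (fun i hi => by rw [hdc i hi, hdq]; exact hne) ?_
    have := congrArg (fun u : Matrix.SpecialLinearGroup (Fin n) F => (u : Matrix (Fin n) (Fin n) F))
      (Subgroup.mem_centralizer_singleton_iff.mp hg)
    simpa [ht] using this
  have hmemC : ∀ g : (Matrix.SpecialLinearGroup (Fin n) F), (g : Matrix (Fin n) (Fin n) F) * Matrix.diagonal d =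
      Matrix.diagonal d * (g : Matrix (Fin n) (Fin n) F) → g ∈ C := by
    intro g hg
    rw [Subgroup.mem_centralizer_singleton_iff]
    apply Subtype.ext
    simpa [ht] using hg
  have hLC : L ≤ C := by
    rintro _ ⟨A, rfl⟩
    exact hmemC _ (CfsgLib.Signalizer.blockMat_commute_diagonal hdc A.1)
  have hCL : C ≤ Subgroup.normalizer (L : Set (Matrix.SpecialLinearGroup (Fin n) F)) := by
    have key : ∀ g ∈ C, ∀ x ∈ L, g * x * g⁻¹ ∈ L := by
      rintro g hg _ ⟨A, rfl⟩
      obtain ⟨A', hA'⟩ := CfsgLib.Signalizer.exists_blockSL_conj (hsplit g hg) (hsplit g⁻¹ (inv_mem hg))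
        (congrArg Subtype.val (mul_inv_cancel g)) A
      exact ⟨A', Subtype.ext hA'⟩
    intro g hg
    refine Subgroup.mem_normalizer_iff.mpr fun x => ⟨key g hg x, fun h => ?_⟩
    simpa [mul_assoc] using key g⁻¹ (inv_mem hg) _ h
  have hcard : Fintype.card {i : Fin n // i ≠ q} = n - 1 := by
    rw [Fintype.card_subtype_compl, Fintype.card_fin, Fintype.card_subtype_eq]
  haveI : Nontrivial {i : Fin n // i ≠ q} := Fintype.one_lt_card_iff_nontrivial.mp (by omega)
  have hLq : Cfsg.IsQuasisimple ↥L := CfsgLib.Signalizer.isQuasisimple_map_injective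
    (CfsgLib.Signalizer.isQuasisimple_sl (Or.inl (by omega))) CfsgLib.Signalizer.blockSL_injective
  have hι : ∀ i : Fin n, i ≠ q → ∃ j, j ≠ q ∧ j ≠ i := fun i hi => by
    obtain ⟨⟨j, hj⟩, hj'⟩ := exists_ne (⟨i, hi⟩ : {i : Fin n // i ≠ q})
    exact ⟨j, hj, fun e => hj' (Subtype.ext e)⟩
  have hZ : ∀ g ∈ Subgroup.centralizer (L : Set (Matrix.SpecialLinearGroup (Fin n) F)), ∀ _u : Unit,
      (g : Matrix (Fin n) (Fin n) F) = Matrix.diagonal (fun i => (g : Matrix (Fin n) (Fin n) F) i i) ∧
      ∀ i j, i ≠ q → j ≠ q → (g : Matrix (Fin n) (Fin n) F) i i = (g : Matrix (Fin n) (Fin n) F) j j :=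
    fun g hg _ => CfsgLib.Signalizer.eq_diagonal_of_commute hι fun A =>
      congrArg Subtype.val (Subgroup.mem_centralizer_iff.mp hg _ ⟨A, rfl⟩).symm
  have hZC : Subgroup.centralizer (L : Set (Matrix.SpecialLinearGroup (Fin n) F)) ≤ C := fun g hg => hmemC g (by
    rw [(hZ g hg ()).1, Matrix.diagonal_mul_diagonal, Matrix.diagonal_mul_diagonal]
    exact congrArg _ (funext fun i => mul_comm _ _))
  have hZab : ∀ a ∈ Subgroup.centralizer (L : Set (Matrix.SpecialLinearGroup (Fin n) F)), ∀ b ∈ Subgroup.centralizer (L : Set (Matrix.SpecialLinearGroup (Fin n) F)),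
      a * b = b * a := fun a ha b hb => by
    apply Subtype.ext
    show (a : Matrix (Fin n) (Fin n) F) * b = b * a
    rw [(hZ a ha ()).1, (hZ b hb ()).1, Matrix.diagonal_mul_diagonal, Matrix.diagonal_mul_diagonal]
    exact congrArg _ (funext fun i => mul_comm _ _)
  have htZ : t ∈ Subgroup.centralizer (L : Set (Matrix.SpecialLinearGroup (Fin n) F)) := Subgroup.mem_centralizer_iff.mpr fun x hx =>
    Subgroup.mem_centralizer_singleton_iff.mp (hLC hx)
  have hlayer : (Cfsg.layer ↥C).map C.subtype = L := by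
    haveI : (L.subgroupOf C).Normal := (Subgroup.normal_subgroupOf_iff_le_normalizer hLC).mpr hCL
    rw [CfsgLib.Signalizer.layer_eq_of_normal (L := L.subgroupOf C)
      ((CfsgLib.Cores.isQuasisimple_subgroupOf hLC).2 hLq) ?_, Subgroup.map_subgroupOf_eq_of_le hLC]
    intro a ha b hb
    have h' : ∀ x : ↥C, x ∈ Subgroup.centralizer (L.subgroupOf C : Set ↥C) →
        (x : (Matrix.SpecialLinearGroup (Fin n) F)) ∈ Subgroup.centralizer (L : Set (Matrix.SpecialLinearGroup (Fin n) F)) := fun x hx =>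
      Subgroup.mem_centralizer_iff.mpr fun y hy => congrArg Subtype.val
        (Subgroup.mem_centralizer_iff.mp hx ⟨y, hLC hy⟩ hy)
    exact Subtype.ext (hZab _ (h' a ha) _ (h' b hb))
  rw [hlayer]
  -- the unique involution centralising `L`
  have ht2 : t ^ 2 = 1 := by
    apply Subtype.ext
    show (t : Matrix (Fin n) (Fin n) F) ^ 2 = 1
    rw [ht, pow_two, Matrix.diagonal_mul_diagonal, ← Matrix.diagonal_one]
    exact congrArg _ (funext fun i => by simp only [hd]; split_ifs <;> simp)
  have ht1 : t ≠ 1 := by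
    intro e
    have := congrFun (congrFun (congrArg Subtype.val e) ⟨0, by omega⟩) ⟨0, by omega⟩
    have h0 : ¬ (1 : ℕ) = n := by omega
    simp [ht, hd, h0] at this
    exact hne this
  have huniq : ∀ g ∈ Subgroup.centralizer (L : Set (Matrix.SpecialLinearGroup (Fin n) F)), g ^ 2 = 1 → g ≠ 1 → g = t := by
    intro g hg hg2 hg1
    obtain ⟨hdiag, hconst⟩ := hZ g hg ()
    set e : Fin n → F := fun i => (g : Matrix (Fin n) (Fin n) F) i i with he
    have hsq : ∀ i, e i = 1 ∨ e i = -1 := by
      intro i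
      have h2 : (g : Matrix (Fin n) (Fin n) F) ^ 2 = 1 := by simpa using congrArg Subtype.val hg2
      rw [pow_two, hdiag, Matrix.diagonal_mul_diagonal] at h2
      have h3 := congrFun (congrFun h2 i) i
      simp only [Matrix.diagonal_apply_eq, Matrix.one_apply_eq] at h3
      exact mul_self_eq_one_iff.mp h3
    set i₀ : Fin n := ⟨0, by omega⟩
    have hi₀ : i₀ ≠ q := fun e => by simp [i₀, hqdef, Fin.ext_iff] at e; omega
    have hprod : e q * e i₀ ^ (n - 1) = 1 := by
      have := g.2
      rw [hdiag, Matrix.det_diagonal, ← Finset.mul_prod_erase _ _ (Finset.mem_univ q),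
        Finset.prod_congr rfl (fun i hi => hconst i i₀ (Finset.mem_erase.mp hi).1 hi₀),
        Finset.prod_const, Finset.card_erase_of_mem (Finset.mem_univ q), Finset.card_univ,
        Fintype.card_fin] at this
      exact this
    have hev : Even (n - 1) := by obtain ⟨k, hk⟩ := hodd; exact ⟨k, by omega⟩
    have heq : e q = 1 := by
      rcases hsq i₀ with h | h
      · rwa [h, one_pow, mul_one] at hprod
      · rwa [h, hev.neg_one_pow, mul_one] at hprod
    apply Subtype.ext
    rw [ht, hdiag]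
    refine congrArg _ (funext fun i => ?_)
    by_cases hi : i = q
    · show e i = _
      rw [hi, hdq, heq]
    · show e i = _
      rw [hdc i hi, show e i = e i₀ from hconst i i₀ hi hi₀]
      refine (hsq i₀).resolve_left fun h => hg1 ?_
      apply Subtype.ext
      show (g : Matrix (Fin n) (Fin n) F) = 1
      rw [hdiag, ← Matrix.diagonal_one]
      refine congrArg _ (funext fun j => ?_)
      by_cases hj : j = q
      · rw [hj]; exact heq
      · exact (hconst j i₀ hj hi₀).trans h
  have hNZ : Subgroup.normalizer (Subgroup.centralizer (L : Set (Matrix.SpecialLinearGroup (Fin n) F)) : Set (Matrix.SpecialLinearGroup (Fin n) F)) ≤ C := by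
    intro g hg
    have h1 : g * t * g⁻¹ ∈ Subgroup.centralizer (L : Set (Matrix.SpecialLinearGroup (Fin n) F)) :=
      (Subgroup.mem_normalizer_iff.mp hg t).mp htZ
    have h2 := huniq _ h1 (by rw [conj_pow, ht2]; group) (fun h => ht1 (conj_eq_one_iff.mp h))
    rw [Subgroup.mem_centralizer_singleton_iff]
    exact mul_inv_eq_iff_eq_mul.mp h2
  have hLN : Subgroup.normalizer (L : Set (Matrix.SpecialLinearGroup (Fin n) F)) ≤
      Subgroup.normalizer (Subgroup.centralizer (L : Set (Matrix.SpecialLinearGroup (Fin n) F)) : Set (Matrix.SpecialLinearGroup (Fin n) F)) := by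
    intro g hg
    have key : ∀ h ∈ Subgroup.normalizer (L : Set (Matrix.SpecialLinearGroup (Fin n) F)), ∀ z ∈ Subgroup.centralizer (L : Set (Matrix.SpecialLinearGroup (Fin n) F)),
        h * z * h⁻¹ ∈ Subgroup.centralizer (L : Set (Matrix.SpecialLinearGroup (Fin n) F)) := by
      intro h hh z hz
      rw [Subgroup.mem_centralizer_iff]
      intro x hx
      have hx' : h⁻¹ * x * h ∈ L := (Subgroup.mem_normalizer_iff''.mp hh x).mp hx
      have := Subgroup.mem_centralizer_iff.mp hz _ hx'
      calc x * (h * z * h⁻¹) = h * ((h⁻¹ * x * h) * z) * h⁻¹ := by group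
        _ = h * (z * (h⁻¹ * x * h)) * h⁻¹ := by rw [this]
        _ = _ := by group
    refine Subgroup.mem_normalizer_iff.mpr fun z => ⟨key g hg z, fun h => ?_⟩
    simpa [mul_assoc] using key g⁻¹ (inv_mem hg) _ h
  refine ⟨hLq, ⟨?_, ?_⟩, ?_, le_antisymm hLN (hNZ.trans hCL)⟩
  · rw [even_iff_two_dvd, ← orderOf_eq_prime ht2 ht1]
    exact Subgroup.orderOf_dvd_natCard _ htZ
  · intro g hg
    by_contra hodd'
    rw [Nat.not_odd_iff_even, even_iff_two_dvd] at hodd'
    obtain ⟨⟨z, hz⟩, hzo⟩ := exists_prime_orderOf_dvd_card' 2 hodd'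
    rw [Subgroup.orderOf_mk] at hzo
    obtain ⟨hz1, z', hz', hzz⟩ := Subgroup.mem_inf.mp hz
    have hz'o : orderOf z' = 2 := by
      rw [← hzo, ← hzz]; exact (MulEquiv.orderOf_eq (MulAut.conj g) z').symm
    have e1 := huniq z hz1 (hzo ▸ pow_orderOf_eq_one z) (fun h => by simp [h] at hzo)
    have e2 := huniq z' hz' (hz'o ▸ pow_orderOf_eq_one z') (fun h => by simp [h] at hz'o)
    have e3 : g * t * g⁻¹ = t := by rw [← e2, e2]; exact (e2 ▸ hzz).trans e1
    exact hg (hLN (hCL (Subgroup.mem_centralizer_singleton_iff.mpr (mul_inv_eq_iff_eq_mul.mp e3))))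
  · intro g _ hbot
    rw [Subgroup.commutator_comm, Subgroup.commutator_eq_bot_iff_le_centralizer] at hbot
    refine CfsgLib.Cores.center_ne_top_of_isQuasisimple hLq (eq_top_iff.mpr fun x _ => ?_)
    rw [Subgroup.mem_center_iff]
    intro y
    apply Subtype.ext
    have := hZab _ (hbot ⟨(y : (Matrix.SpecialLinearGroup (Fin n) F)), y.2, rfl⟩) _ (hbot ⟨(x : (Matrix.SpecialLinearGroup (Fin n) F)), x.2, rfl⟩)
    exact (MulAut.conj g).injective ((map_mul _ _ _).trans (this.trans (map_mul _ _ _).symm))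

end Cfsg.Agent.S1348
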