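import Cfsg.Statements.S1374
import Cfsg.Agent.Lib.BGAppendix.Support
import Cfsg.Agent.Lib.BGAppendix.PrimeActionCent

set_option autoImplicit false
open Cfsg

namespace Cfsg.Agent.S1374

/-- Let G be a minimal simple group of odd order, M a maximal subgroup and x a non-identity element of M_σ. Then C_M(x) has order coprime to its index in C_G(x), and C_G(x) has a normal subgroup R complementing C_M(x) such that for every conjugate gMg⁻¹ containing x there is exactly one r ∈ R with rMr⁻¹ = gMg⁻¹. -/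
theorem result {G : Type*} [Group G] [Finite G] (hG : Cfsg.IsMinSimpleOddOrder G)
    (M : Subgroup G) (hM : IsCoatom M) (x : G) (hx : x ∈ Cfsg.sigmaCore M) (hx1 : x ≠ 1) :
    (Nat.card ↥(M ⊓ Subgroup.centralizer ({x} : Set G))).Coprime ((M ⊓ Subgroup.centralizer ({x} : Set G)).relIndex (Subgroup.centralizer ({x} : Set G))) ∧
      ∃ R : Subgroup G, Subgroup.centralizer ({x} : Set G) ≤ Subgroup.normalizer (R : Set G) ∧ Cfsg.IsComplIn (M ⊓ Subgroup.centralizer ({x} : Set G)) R (Subgroup.centralizer ({x} : Set G)) ∧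
        ∀ g : G, x ∈ M.map (MulAut.conj g).toMonoidHom → ∃! r : G, r ∈ R ∧ M.map (MulAut.conj r).toMonoidHom = M.map (MulAut.conj g).toMonoidHom := by
  by_cases hxM : Subgroup.centralizer ({x} : Set G) ≤ M
  · rw [inf_eq_right.mpr hxM, Subgroup.relIndex_self]
    refine ⟨Nat.coprime_one_right _, ⊥, fun c _ => ?_,
      ⟨le_rfl, bot_le, inf_bot_eq _, fun c hc => ⟨c, hc, 1, one_mem _, (mul_one c).symm⟩⟩,
      fun g hg => ⟨1, ⟨one_mem _, ?_⟩, fun r hr => Subgroup.mem_bot.mp hr.1⟩⟩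
    · exact Subgroup.mem_normalizer_iff.mpr fun z => by
        simp only [Subgroup.mem_bot]
        exact ⟨fun h => by simp [h], fun h => conj_eq_one_iff.mp h⟩
    · rw [(CfsgLib.BGAppendix.conj_of_mem_conj hG hM hx hx1 hg).1 hxM]
      exact Subgroup.mem_normalizer_iff_map_conj_eq.mp (Subgroup.le_normalizer (one_mem M))
  obtain ⟨N, h⟩ := CfsgLib.BGAppendix.exists_supportData hG hM hx hx1 hxM
  obtain ⟨hc, hn⟩ := h.centralizer_compl
  refine ⟨?_, _, hn, hc, fun g hg => ?_⟩
  · have hcard := CfsgLib.BGAppendix.card_sup_eq_mul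
      (M ⊓ Subgroup.centralizer ({x} : Set G))
      (Cfsg.sigmaCore N ⊓ Subgroup.centralizer ({x} : Set G)) (hc.1.trans hn) hc.2.2.1
    have hsup : (M ⊓ Subgroup.centralizer ({x} : Set G)) ⊔
        (Cfsg.sigmaCore N ⊓ Subgroup.centralizer ({x} : Set G)) =
        Subgroup.centralizer ({x} : Set G) :=
      le_antisymm (sup_le hc.1 hc.2.1) fun c hcc => by
        obtain ⟨a, ha, b, hb, rfl⟩ := hc.2.2.2 c hcc
        exact mul_mem (Subgroup.mem_sup_left ha) (Subgroup.mem_sup_right hb)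
    rw [hsup] at hcard
    have hrel := Subgroup.relIndex_mul_relIndex ⊥ _ _ bot_le hc.1
    rw [Subgroup.relIndex_bot_left, Subgroup.relIndex_bot_left, hcard] at hrel
    rw [Nat.eq_of_mul_eq_mul_left Nat.card_pos hrel]
    refine Nat.coprime_of_dvd fun r hr h1 h2 => ?_
    exact CfsgLib.BGAppendix.not_mem_sigma_of_dvd_compl hG h.coatom h.compl hr
      (h1.trans (Subgroup.card_dvd_of_le (le_inf inf_le_left (inf_le_right.trans h.centralizer_le))))
      (CfsgLib.BGAppendix.piSubgroup_sigmaCore N r hr (h2.trans (Subgroup.card_dvd_of_le inf_le_left)))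
  · obtain ⟨r, hr, hgr⟩ := (CfsgLib.BGAppendix.conj_of_mem_conj hG hM hx hx1 hg).2 N h
    exact ⟨r, ⟨hr, hgr.symm⟩, fun s hs => h.conj_inj hG hM hs.1.1 hr.1 (hs.2.trans hgr)⟩

end Cfsg.Agent.S1374
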