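import Cfsg.Statements.S1382
import Cfsg.Agent.Lib.BGMainTypes.Facts
import Cfsg.Agent.Lib.BGTypes.NonTI
-- import your own Cfsg.Agent.* helpers here

set_option autoImplicit false
open Cfsg

namespace Cfsg.Agent.S1382

/-- Let G be a minimal simple group of odd order and M a maximal subgroup with standard factorisation M = K U M_σ. Then M is of Type III or of Type IV if and only if K ≠ 1, U = 1 and M_F ≠ M_σ. -/
theorem result {G : Type*} [Group G] [Finite G] (hG : Cfsg.IsMinSimpleOddOrder G)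
    (M : Subgroup G) (hM : IsCoatom M) (K U : Subgroup G) (hKU : Cfsg.IsSigmaDecomposition M K U) :
    (Cfsg.IsOfTypeIII M ∨ Cfsg.IsOfTypeIV M) ↔ (K ≠ ⊥ ∧ U = ⊥ ∧ Cfsg.fittingHallOf M ≠ Cfsg.sigmaCore M) := by
  exact (CfsgLib.BGMainTypes.type_iff hG hM hKU (CfsgLib.BGMainTypes.mainFacts_of hG (CfsgLib.BGTypes.nonTIFacts hG) M K U hM hKU)).2.2.1

end Cfsg.Agent.S1382
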