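import Cfsg.Statements.S1389
import Cfsg.Agent.Lib.BGTypes.CoreSets
import Cfsg.Agent.Lib.BGTypes.NonTI
import Cfsg.Agent.Lib.BGTau.Sigma

set_option autoImplicit false
open Cfsg

namespace Cfsg.Agent.S1389

/-- Let G be a minimal simple group of odd order and M a maximal subgroup, and let M_s be M' if M is of Type III or IV and M_F otherwise. Then N_G(P) ≤ M for every nontrivial Sylow subgroup P of M_s, and both M_F and M_s have order coprime to their index in G. -/
theorem result {G : Type*} [Group G] [Finite G] (hG : Cfsg.IsMinSimpleOddOrder G)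
    (M : Subgroup G) (hM : IsCoatom M) :
    (∀ (p : ℕ), p.Prime → ∀ (P : Sylow p ↥(Cfsg.typeCore M)), (P : Subgroup ↥(Cfsg.typeCore M)) ≠ ⊥ →
        Subgroup.normalizer ((((P : Subgroup ↥(Cfsg.typeCore M)).map (Cfsg.typeCore M).subtype : Subgroup G)) : Set G) ≤ M) ∧
      (Nat.card (Cfsg.fittingHallOf M)).Coprime (Cfsg.fittingHallOf M).index ∧
      (Nat.card (Cfsg.typeCore M)).Coprime (Cfsg.typeCore M).index := by
  open CfsgLib CfsgLib.BGTypes CfsgLib.BGAppendix in
  have hMs := typeCore_eq hG (nonTIFacts hG) hM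
  have hH := CfsgLib.BGSigma.isPiHallOf_sigmaCore hG hM
  have hHG := CfsgLib.BGSigma.isPiHall_sigmaCore hG hM
  refine ⟨fun p hp P hP => ?_, ?_, ?_⟩
  · haveI := Fact.mk hp
    revert P hP
    generalize Cfsg.typeCore M = C at hMs ⊢
    subst hMs
    intro P hP
    have hd : p ∣ Nat.card (Cfsg.sigmaCore M) := by
      obtain ⟨n, hn⟩ := IsPGroup.iff_card.mp P.isPGroup'
      refine (dvd_pow_self p fun e => hP (Subgroup.card_eq_one.mp (by rw [hn, e, pow_zero]))).trans
        (hn ▸ Subgroup.card_subgroup_dvd_card _)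
    refine CfsgLib.BGTau.normalizer_sylow_le (hH.2.1 p hp hd) (P.isPGroup'.map _)
      ((Subgroup.map_subtype_le _).trans hH.1) fun h => ?_
    rw [← Subgroup.relIndex_mul_index (Subgroup.map_subtype_le (P : Subgroup (Cfsg.sigmaCore M)))] at h
    rcases hp.dvd_mul.mp h with h | h
    · rw [Subgroup.relIndex, Subgroup.subgroupOf,
        Subgroup.comap_map_eq_self_of_injective (Cfsg.sigmaCore M).subtype_injective] at h
      exact P.not_dvd_index h
    · exact hHG.2 p hp (hH.2.1 p hp hd) h
  · refine Nat.coprime_of_dvd fun p hp h1 h2 => ?_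
    rw [← Subgroup.relIndex_mul_index (fittingHallOf_le M)] at h2
    rcases hp.dvd_mul.mp h2 with h2 | h2
    · exact hp.ne_one (Nat.eq_one_of_dvd_coprimes (coprime_card_relIndex_fittingHallOf M) h1 h2)
    · have hσ := hH.2.1 p hp (h1.trans (Subgroup.card_dvd_of_le (BGAppendix.fittingHallOf_le_sigmaCore hG hM)))
      exact hHG.2 p hp hσ (h2.trans (Subgroup.index_dvd_of_le hH.1))
  · rw [hMs]
    exact Nat.coprime_of_dvd fun p hp h1 h2 => hHG.2 p hp (hH.2.1 p hp h1) h2

end Cfsg.Agent.S1389
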