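import Cfsg.Statements.S1413
import Cfsg.Agent.Lib.BGSigma.SylowNormalizer

set_option autoImplicit false
open Cfsg

namespace Cfsg.Agent.S1413

/-- Let G be a minimal simple group of odd order, p a prime and P a Sylow p-subgroup. (c) If Q ≤ P and xQx⁻¹ ≤ P then xQx⁻¹ = yQy⁻¹ for some y ∈ N_G(P). (d) For every Q ≤ P, p does not divide the index of N_P(Q) in N_G(Q). (e) If R is a p-subgroup and Q ≤ P ∩ R is normal in N_G(P), then Q is normal in N_G(R). -/
theorem result {G : Type*} [Group G] [Finite G] (hG : Cfsg.IsMinSimpleOddOrder G) (p : ℕ) [Fact p.Prime] (P : Sylow p G) :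
    (∀ (Q : Subgroup G) (x : G), Q ≤ (P : Subgroup G) → Q.map (MulAut.conj x).toMonoidHom ≤ (P : Subgroup G) →
        ∃ y ∈ Subgroup.normalizer ((P : Subgroup G) : Set G), Q.map (MulAut.conj x).toMonoidHom = Q.map (MulAut.conj y).toMonoidHom) ∧
      (∀ Q : Subgroup G, Q ≤ (P : Subgroup G) →
        ¬ p ∣ ((P : Subgroup G) ⊓ Subgroup.normalizer (Q : Set G)).relIndex (Subgroup.normalizer (Q : Set G))) ∧
      (∀ (R Q : Subgroup G), IsPGroup p R → Q ≤ (P : Subgroup G) ⊓ R →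
        Subgroup.normalizer ((P : Subgroup G) : Set G) ≤ Subgroup.normalizer (Q : Set G) →
        Subgroup.normalizer (R : Set G) ≤ Subgroup.normalizer (Q : Set G)) := by
  refine ⟨fun Q x hQ hxQ => ?_, fun Q hQ => CfsgLib.BGSigma.not_dvd_relIndex_normalizer hG P hQ,
    fun R Q hR hQPR hNQ => ?_⟩
  · obtain ⟨y, hy, hyq⟩ := CfsgLib.BGSigma.sylow_fusion hG P Q x hQ fun q hq => hxQ ⟨q, hq, rfl⟩
    refine ⟨y, hy, ?_⟩
    ext z
    constructor
    · rintro ⟨q, hq, rfl⟩
      exact ⟨q, hq, (hyq q hq).symm⟩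
    · rintro ⟨q, hq, rfl⟩
      exact ⟨q, hq, hyq q hq⟩
  · obtain ⟨g, -, hg⟩ := CfsgLib.BGSigma.exists_conj_mem_sylow_top P hR
    have key : ∀ a : G, (∀ q ∈ Q, a * q * a⁻¹ ∈ (P : Subgroup G)) →
        a ∈ Subgroup.normalizer (Q : Set G) := fun a ha => by
      obtain ⟨y, hy, hyq⟩ := CfsgLib.BGSigma.sylow_fusion hG P Q a (fun q hq => (hQPR hq).1) ha
      refine CfsgLib.CoprimeAction.mem_normalizer_of_conj_mem fun q hq => ?_
      rw [hyq q hq]
      exact (Subgroup.mem_normalizer_iff.mp (hNQ hy) q).mp hq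
    have hgN : g ∈ Subgroup.normalizer (Q : Set G) := key g fun q hq => hg q (hQPR hq).2
    intro n hn
    have := mul_mem (inv_mem hgN) (key (g * n) fun q hq => by
      have h2 := hg _ ((Subgroup.mem_normalizer_iff.mp hn q).mp (hQPR hq).2)
      simpa [mul_assoc] using h2)
    simpa using this

end Cfsg.Agent.S1413
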