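import Cfsg.Statements.S1441
-- import your own Cfsg.Agent.* helpers here

set_option autoImplicit false
open Cfsg

namespace Cfsg.Agent.S1441

/-- Let G be a finite group, H a solvable subgroup and A a subgroup normalizing H. Suppose there is a chain H = H₀ ≥ H₁ ≥ ⋯ ≥ H_n = 1 of subgroups normal in H and normalized by A such that A acts trivially on each factor H_{i-1}/H_i (that is, [H_{i-1}, A] ≤ H_i). Then every prime dividing the index of C_A(H) in A divides the order of H. -/
theorem result {G : Type*} [Group G] [Finite G] (H A : Subgroup G) (hH : Group.IsSolvable H) (hA : (A ≤ Subgroup.normalizer (H : Set G)))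
    (n : ℕ) (c : Fin (n + 1) → Subgroup G) (hc0 : c 0 = H) (hcn : c (Fin.last n) = ⊥) (hanti : Antitone c)
    (hcN : ∀ i, H ≤ Subgroup.normalizer ((c i : Subgroup G) : Set G)) (hcA : ∀ i, A ≤ Subgroup.normalizer ((c i : Subgroup G) : Set G))
    (htriv : ∀ i : Fin n, ⁅c i.castSucc, A⁆ ≤ c i.succ) :
    ∀ p : ℕ, p.Prime → p ∣ (A ⊓ Subgroup.centralizer (H : Set G)).relIndex A → p ∣ Nat.card H := by
  intro p hp hdvd
  by_contra hpH
  haveI := Fact.mk hp
  obtain ⟨P⟩ : Nonempty (Sylow p A) := inferInstance
  have key : ∀ a : A, a ∈ (P : Subgroup A) → ∀ i : Fin (n + 1), ∀ x ∈ c i, (a : G) * x = x * a := by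
    intro a ha i
    induction i using Fin.reverseInduction with
    | last => intro x hx; rw [hcn, Subgroup.mem_bot] at hx; simp [hx]
    | cast i ih =>
      intro x hx
      obtain ⟨k, hk⟩ := P.isPGroup' ⟨a, ha⟩
      have hk' : (a : G) ^ (p ^ k) = 1 := by
        have := congrArg (fun z : (P : Subgroup A) => ((z : A) : G)) hk
        simpa using this
      have hy : x⁻¹ * a * x * (a : G)⁻¹ ∈ c i.succ := by
        refine htriv i ?_
        have := Subgroup.commutator_mem_commutator (inv_mem hx) a.2
        simpa [commutatorElement_def] using this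
      set y := x⁻¹ * a * x * (a : G)⁻¹ with hy_def
      have hfix : (a : G) * y = y * a := ih y hy
      have hstep : (a : G) * x * (a : G)⁻¹ = x * y := by rw [hy_def]; group
      have hpow : ∀ m : ℕ, (a : G) ^ m * x * ((a : G) ^ m)⁻¹ = x * y ^ m := by
        intro m
        induction m with
        | zero => simp
        | succ m ihm =>
          have h2 : (a : G) * y ^ m * (a : G)⁻¹ = y ^ m := by
            rw [(Commute.pow_right (hfix : Commute (a : G) y) m).eq]; group
          calc (a : G) ^ (m + 1) * x * ((a : G) ^ (m + 1))⁻¹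
              = a * ((a : G) ^ m * x * ((a : G) ^ m)⁻¹) * (a : G)⁻¹ := by rw [pow_succ']; group
            _ = (a * x * (a : G)⁻¹) * (a * y ^ m * (a : G)⁻¹) := by rw [ihm]; group
            _ = x * y ^ (m + 1) := by rw [hstep, h2, pow_succ', mul_assoc]
      have h1 : y ^ (p ^ k) = 1 := by
        have := hpow (p ^ k)
        simpa [hk'] using this
      have hyH : y ∈ H := hc0 ▸ hanti (Fin.zero_le _) hy
      have h3 : orderOf y ∣ Nat.card H := Subgroup.orderOf_dvd_natCard _ hyH
      have hcop : Nat.Coprime (p ^ k) (Nat.card H) :=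
        Nat.Coprime.pow_left k ((Nat.Prime.coprime_iff_not_dvd hp).mpr hpH)
      have h4 : orderOf y = 1 :=
        Nat.eq_one_of_dvd_one (hcop ▸ Nat.dvd_gcd (orderOf_dvd_of_pow_eq_one h1) h3)
      have hy1 : y = 1 := orderOf_eq_one_iff.mp h4
      have := hstep
      rw [hy1, mul_one] at this
      calc (a : G) * x = a * x * (a : G)⁻¹ * a := by group
        _ = x * a := by rw [this]
  have hle : (P : Subgroup A) ≤ (A ⊓ Subgroup.centralizer (H : Set G)).subgroupOf A := by
    intro a ha
    rw [Subgroup.mem_subgroupOf, Subgroup.mem_inf]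
    refine ⟨a.2, Subgroup.mem_centralizer_iff.mpr fun x hx => ?_⟩
    exact (key a ha 0 x (by rw [hc0]; exact hx)).symm
  exact P.not_dvd_index (hdvd.trans (Subgroup.index_dvd_of_le hle))

end Cfsg.Agent.S1441
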