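-- Statement S1445: Cfsg.odd_solvable_prime_action_commutator_le_fitting
import Cfsg.Statements.S1445
import Cfsg.Agent.Lib.BGTypes.PrimeActionFitting
import Cfsg.Agent.Lib.BGTypes.FPFPlug

set_option autoImplicit false
open Cfsg

namespace Cfsg.Agent.S1445

open CfsgLib.BGTypes

/-- Let G be a solvable group of odd order, K a normal subgroup and R a subgroup with G = KR and the orders of K and R coprime. Suppose K ∩ C_G(x) = K ∩ C_G(R) for every non-identity x ∈ R, and F(K) ∩ C_G(R) = 1. Then [K, R] is contained in the Fitting subgroup of K. -/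
theorem result {G : Type*} [Group G] [Finite G] [Group.IsSolvable G] (hodd : Odd (Nat.card G)) (K R : Subgroup G) [K.Normal] (hKR : K ⊔ R = ⊤) (hcop : (Nat.card K).Coprime (Nat.card R))
    (hprime : ∀ x ∈ R, x ≠ 1 → K ⊓ Subgroup.centralizer ({x} : Set G) = (K ⊓ Subgroup.centralizer (R : Set G)))
    (hF : Cfsg.fittingOf K ⊓ Subgroup.centralizer (R : Set G) = ⊥) :
    ⁅K, R⁆ ≤ Cfsg.fittingOf K := by
  refine commutator_le_fittingOf_of_prime_action inferInstance hcop hprime hF ?_
  intro p q _ _ L x _ hxr _ hLq hpq hxp hxq hxL hLL _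
  set A := Subgroup.zpowers x with hA
  set B := L ⊔ A with hB
  intro V _ _ _ θ hexp hfix hirr
  have hxB : x ∈ B := (le_sup_right : A ≤ B) (Subgroup.mem_zpowers x)
  have hzB : Subgroup.zpowers (⟨x, hxB⟩ : B) = A.subgroupOf B := by
    apply Subgroup.map_injective B.subtype_injective
    rw [MonoidHom.map_zpowers, Subgroup.map_subgroupOf_eq_of_le le_sup_right]
    rfl
  refine trivial_of_fpf_irreducible p q hpq (Nat.card (L.subgroupOf B)) B (L.subgroupOf B) ⟨x, hxB⟩
    (hodd.of_dvd_nat (Subgroup.card_subgroup_dvd_card B)) ?_ ?_ ?_ ?_ ?_ ?_ ?_ le_rfl V θ hexp ?_ hirr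
  · exact Subgroup.normal_subgroupOf_of_le_normalizer (sup_le Subgroup.le_normalizer hxL)
  · rw [hzB, ← Subgroup.subgroupOf_sup le_sup_left le_sup_right]
    exact Subgroup.subgroupOf_self _
  · exact hLq.of_equiv (Subgroup.subgroupOfEquivOfLe le_sup_left).symm
  · rwa [Subgroup.orderOf_mk]
  · rwa [Subgroup.orderOf_mk]
  · rwa [Subgroup.orderOf_mk]
  · apply Subgroup.map_injective B.subtype_injective
    rw [hzB, Subgroup.map_commutator, Subgroup.map_subgroupOf_eq_of_le le_sup_left,
      Subgroup.map_subgroupOf_eq_of_le le_sup_right, hLL]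
  · rw [hzB]; exact hfix

end Cfsg.Agent.S1445
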