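import Cfsg.Statements.S1454
import Cfsg.Agent.Lib.BGAppendix.RankTwoStructure
import Cfsg.Agent.Lib.BGAppendix.FittingRankTwo

set_option autoImplicit false
open Cfsg

namespace Cfsg.Agent.S1454

/-- Let G be a finite group, p an odd prime, R a narrow p-subgroup and A a solvable subgroup of odd order normalizing R with A ∩ C_G(R) = 1. Then [A, A] ≤ O_p(A) and the index of O_p(A) in A is coprime to p; if R has an elementary abelian subgroup of order p ^ 3 then the order of every element of A of order coprime to p divides p − 1; and if the order of A is a prime not dividing p(p − 1), then 2·#A divides p + 1, and if in addition [R, A] = R and R is non-abelian then #R = p ^ 3. -/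
theorem result {G : Type*} [Group G] [Finite G] (p : ℕ) [Fact p.Prime] (hp : p ≠ 2) (R A : Subgroup G) (hR : IsPGroup p R) (hRn : Cfsg.IsNarrow p R)
    (hA : (A ≤ Subgroup.normalizer (R : Set G))) (hAs : Group.IsSolvable A) (hAodd : Odd (Nat.card A)) (hfaith : A ⊓ Subgroup.centralizer (R : Set G) = ⊥) :
    (commutator ↥A ≤ Cfsg.pCore p ↥A ∧ ((Cfsg.pCore p ↥A).index).Coprime p) ∧
      (¬ Cfsg.PRankLE p 2 R → ∀ a ∈ A, (orderOf a).Coprime p → orderOf a ∣ p - 1) ∧
      ((Nat.card A).Prime → ¬ Nat.card A ∣ p * (p - 1) →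
        2 * Nat.card A ∣ p + 1 ∧ (⁅R, A⁆ = R → ¬ IsMulCommutative R → Nat.card R = p ^ 3)) := by
  haveI := hAs
  set φ := CfsgLib.BGAppendix.conjAction hA
  have hinj : Function.Injective φ := CfsgLib.BGAppendix.conjAction_injective hA hfaith
  have hs := CfsgLib.BGAppendix.SmallAut.of_isNarrow hR hRn
  obtain ⟨hc, hprimes⟩ := CfsgLib.BGAppendix.action_facts hAodd hp hR hs φ hinj
  have hle : commutator ↥A ≤ Cfsg.pCore p ↥A := CfsgLib.Cores.le_pCore hc
  have hcore : ((Cfsg.pCore p ↥A).index).Coprime p := by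
    obtain ⟨P⟩ := (inferInstance : Nonempty (Sylow p A))
    haveI : (P : Subgroup A).Normal :=
      Subgroup.Normal.of_commutator_le _ (hle.trans (CfsgLib.Cores.pCore_le_sylow P))
    rw [CfsgLib.Cores.pCore_eq_sylow_of_normal P, Nat.coprime_comm,
      (Fact.out : p.Prime).coprime_iff_not_dvd]
    exact P.not_dvd_index
  have hbig : ¬ Cfsg.PRankLE p 2 R → ∀ a ∈ A, (orderOf a).Coprime p → orderOf a ∣ p - 1 := by
    intro hr a ha hca
    obtain ⟨E, hE, hE2, hmax⟩ := CfsgLib.BGAppendix.exists_max_sq_of_isNarrow hR hRn hr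
    have h := (CfsgLib.BGAppendix.aut_of_max_sq hp hR hr hE hE2 hmax φ hinj).2 ⟨a, ha⟩
    rw [Subgroup.orderOf_mk] at h
    exact h hca
  refine ⟨⟨hle, hcore⟩, hbig, fun hq hqp => ?_⟩
  haveI := Fact.mk hq
  have hpP : p.Prime := Fact.out
  have hqne : Nat.card A ≠ p := fun h => hqp (h ▸ dvd_mul_right _ _)
  have hcop : (Nat.card A).Coprime p := (Nat.coprime_primes hq hpP).2 hqne
  have hr : Cfsg.PRankLE p 2 R := by
    by_contra hr
    obtain ⟨a, ha⟩ := exists_prime_orderOf_dvd_card' (G := A) (Nat.card A) dvd_rfl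
    have := hbig hr a a.2 (by rw [Subgroup.orderOf_coe, ha]; exact hcop)
    rw [Subgroup.orderOf_coe, ha] at this
    exact hqp (this.trans (dvd_mul_left _ _))
  refine ⟨?_, fun hRA hnab => CfsgLib.BGAppendix.card_eq_cube_of_prime hp hR hr φ hAodd
    (CfsgLib.BGAppendix.coprime_card_of_coprime_prime hR hcop)
    (CfsgLib.BGAppendix.fpf_of_commutator_eq hA hRA) hnab hq hqp⟩
  rcases CfsgLib.BGAppendix.prime_dvd_of_rank_two hp hR hr φ hinj hq dvd_rfl with h | h | h
  · exact absurd h hqne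
  · exact absurd (h.trans (dvd_mul_left _ _)) hqp
  · exact (Nat.coprime_two_left.2 hAodd).mul_dvd_of_dvd_of_dvd
      (even_iff_two_dvd.1 ((CfsgLib.PGroups.odd_prime hp).add_one)) h

end Cfsg.Agent.S1454
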