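import Cfsg.Statements.S1456
import Cfsg.Agent.Lib.BGAppendix.FittingRankTwo

set_option autoImplicit false
open Cfsg

namespace Cfsg.Agent.S1456

/-- Let G be a solvable group of odd order, p a prime, and E an elementary abelian p-subgroup of the Fitting subgroup F(G) such that F(G) ∩ C_G(E) has no elementary abelian subgroup of order q ^ 3 for any prime q. Then the derived subgroup of G is contained in F(G). -/
theorem result {G : Type*} [Group G] [Finite G] [Group.IsSolvable G] (hodd : Odd (Nat.card G)) (p : ℕ) [Fact p.Prime] (E : Subgroup G) (hE : E ≤ Cfsg.fittingSubgroup G) (hEe : Cfsg.IsElementaryAbelian p E)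
    (hr : Cfsg.RankLE 2 ↥(Cfsg.fittingSubgroup G ⊓ Subgroup.centralizer (E : Set G))) :
    commutator G ≤ Cfsg.fittingSubgroup G := by
  refine CfsgLib.BGAppendix.commutator_le_fittingSubgroup hodd fun r hr' hrG => ?_
  haveI := Fact.mk hr'
  have hFr : Cfsg.pCore r G ≤ Cfsg.fittingSubgroup G := CfsgLib.Cores.pCore_le_fittingSubgroup r
  have hEp : E ≤ Cfsg.pCore p G := by
    intro e he
    refine CfsgLib.BGAppendix.le_of_primePow_elements (K := E) (L := Cfsg.pCore p G) ?_ he
    intro q hq _ y hy hj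
    obtain ⟨u, hu, v, hv, rfl⟩ : ∃ u ∈ Cfsg.pCore p G, ∃ v ∈ Cfsg.pPrimeCore p G, u * v = y := by
      have hle : Cfsg.fittingSubgroup G ≤ Cfsg.pCore p G ⊔ Cfsg.pPrimeCore p G := by
        rw [CfsgLib.Cores.fittingSubgroup_eq_iSup_pCore]
        refine iSup_le fun s => ?_
        haveI : Fact (s : ℕ).Prime := ⟨Nat.prime_of_mem_primeFactors s.2⟩
        by_cases hs : (s : ℕ) = p
        · rw [hs]; exact le_sup_left
        · exact le_trans (CfsgLib.Cores.le_pPrimeCore_of_not_dvd Fact.out
            (CfsgLib.BGUniqueness.not_dvd_of_isPGroup hs (CfsgLib.Cores.isPGroup_pCore _ G)))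
            le_sup_right
      exact Subgroup.mem_sup_of_normal_left.1 (hle (hE hy))
    have h1 := hEe.2 _ hy
    rw [(CfsgLib.Cores.commute_pCore_pPrimeCore hu hv).mul_pow] at h1
    have h2 : v ^ p ∈ Cfsg.pCore p G ⊓ Cfsg.pPrimeCore p G :=
      ⟨by rw [eq_inv_of_mul_eq_one_right h1]; exact Subgroup.inv_mem _ (Subgroup.pow_mem _ hu _),
        Subgroup.pow_mem _ hv _⟩
    rw [disjoint_iff.1 CfsgLib.Cores.disjoint_pCore_pPrimeCore, Subgroup.mem_bot] at h2
    have hv1 : v = 1 := by
      have hcop : (orderOf v).Coprime p := (CfsgLib.Cores.card_pPrimeCore_coprime p).coprime_dvd_left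
        (Subgroup.orderOf_dvd_natCard _ hv)
      exact orderOf_eq_one_iff.1
        (Nat.eq_one_of_dvd_coprimes hcop dvd_rfl (orderOf_dvd_of_pow_eq_one h2))
    rw [hv1, mul_one]
    exact hu
  by_cases hrp : r = p
  · subst hrp
    refine CfsgLib.BGAppendix.SmallAut.of_centralizer (CfsgLib.Cores.isPGroup_pCore r G)
      (CfsgLib.BGUniqueness.elemAb_subgroupOf hEe (Cfsg.pCore r G)) ?_
    let f : ↥(Subgroup.centralizer ((E.subgroupOf (Cfsg.pCore r G) : Subgroup _) : Set _)) →*
        ↥(Cfsg.fittingSubgroup G ⊓ Subgroup.centralizer (E : Set G)) :=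
      { toFun := fun x => ⟨((x : Cfsg.pCore r G) : G), hFr (x : Cfsg.pCore r G).2,
          Subgroup.mem_centralizer_iff.2 fun a ha => congrArg Subtype.val
            (Subgroup.mem_centralizer_iff.1 x.2 (⟨a, hEp ha⟩ : Cfsg.pCore r G) ha)⟩
        map_one' := rfl
        map_mul' := fun _ _ => rfl }
    refine CfsgLib.BGUniqueness.pRankLE_of_injective (f := f) (fun a b h => ?_) (hr r hr')
    exact Subtype.ext (Subtype.ext (congrArg (fun z : ↥(Cfsg.fittingSubgroup G ⊓
      Subgroup.centralizer (E : Set G)) => (z : G)) h))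
  · refine Or.inl (CfsgLib.BGUniqueness.pRankLE_of_le (le_inf hFr fun x hx => ?_) (hr r hr'))
    exact Subgroup.mem_centralizer_iff.2 fun a ha =>
      (CfsgLib.Cores.commute_pCore_of_ne hrp hx (hEp ha)).symm.eq

end Cfsg.Agent.S1456
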