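import Cfsg.Statements.S1458
import Cfsg.Agent.Lib.BGTypes.CenterThompson
import Cfsg.Agent.Lib.BGAppendix.QuadraticOdd

set_option autoImplicit false
open Cfsg
open scoped commutatorElement

namespace Cfsg.Agent.S1458

theorem normal_case {G : Type*} [Group G] [Finite G] [Group.IsSolvable G] (hodd : Odd (Nat.card G))
    {p : ℕ} [Fact p.Prime] (hp : p ≠ 2) (S : Sylow p G) (hO : Cfsg.pPrimeCore p G = ⊥) :
    (Cfsg.centerThompsonOf p (S : Subgroup G)).Normal := by
  have h : Cfsg.centerThompsonOf p (S : Subgroup G) ≤ Cfsg.pCore p G := by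
    refine CfsgLib.BGAppendix.le_pCore_of_abelian_normal_in_sylow hodd hO S
      (inf_le_left.trans (CfsgLib.ThompsonJ.thompsonSubgroupOf_le p _))
      (IsMulCommutative.of_setLike_mul_comm fun a ha b hb =>
        Subgroup.mem_centralizer_iff.mp hb.2 a ha.1) ?_
    exact (Subgroup.le_normalizer.trans
      (CfsgLib.ThompsonJ.normalizer_le_normalizer_thompsonSubgroupOf p _)).trans
      (CfsgLib.BGTypes.normalizer_le_normalizer_inf_centralizer _)
  have hn := CfsgLib.BGTypes.centerThompson_inf_normal hp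
    (fun P _ hP a ha => CfsgLib.BGAppendix.mk_mem_pCore_of_quadratic hodd hp hP ha) S
    (Cfsg.pCore p G) (hBn := Cfsg.pCore_normal p G) (CfsgLib.Cores.isPGroup_pCore p G)
  rwa [inf_eq_left.mpr h] at hn

/-- Let G be a solvable group of odd order, p a prime and S a Sylow p-subgroup of G. Then the subgroup generated by the centre of the Thompson subgroup of S and O_{p'}(G) is normal in G. -/
theorem result {G : Type*} [Group G] [Finite G] [Group.IsSolvable G] (hodd : Odd (Nat.card G)) (p : ℕ) [Fact p.Prime] (S : Sylow p G) :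
    (Cfsg.centerThompsonOf p (S : Subgroup G) ⊔ Cfsg.pPrimeCore p G).Normal := by
  have hO : (Cfsg.pPrimeCore p G).Normal := inferInstance
  by_cases hp : p = 2
  · have hS : (S : Subgroup G) = ⊥ := by
      rw [Subgroup.eq_bot_iff_forall]
      intro x hx
      obtain ⟨k, hk⟩ := IsPGroup.iff_orderOf.mp S.2 ⟨x, hx⟩
      rw [Subgroup.orderOf_mk] at hk
      rcases Nat.eq_zero_or_pos k with rfl | hk0
      · exact orderOf_eq_one_iff.mp (by rw [hk, pow_zero])
      · have h2 : 2 ∣ Nat.card G := (dvd_pow_self 2 hk0.ne').trans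
          ((hk.trans (by rw [hp])) ▸ orderOf_dvd_natCard x)
        exact absurd hodd (Nat.not_odd_iff_even.mpr (even_iff_two_dvd.mpr h2))
    have hZ : Cfsg.centerThompsonOf p (S : Subgroup G) = ⊥ := le_bot_iff.mp
      ((inf_le_left.trans (CfsgLib.ThompsonJ.thompsonSubgroupOf_le p _)).trans hS.le)
    rw [hZ, bot_sup_eq]
    exact hO
  let O := Cfsg.pPrimeCore p G
  let f := QuotientGroup.mk' O
  have hfs : Function.Surjective f := QuotientGroup.mk'_surjective O
  let φ := f.comp (S : Subgroup G).subtype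
  have hinj : Function.Injective φ := by
    rw [← MonoidHom.ker_eq_bot_iff, eq_bot_iff]
    intro s hs
    obtain ⟨k, hk⟩ := IsPGroup.iff_card.mp S.2
    have hc : (Nat.card (S : Subgroup G)).Coprime (Nat.card O) := by
      rw [hk]
      exact (CfsgLib.Cores.card_pPrimeCore_coprime (G := G) p).symm.pow_left k
    have h0 : (s : G) ∈ (S : Subgroup G) ⊓ O := ⟨s.2, (QuotientGroup.eq_one_iff _).mp hs⟩
    rw [(Subgroup.disjoint_of_coprime_natCard hc).eq_bot, Subgroup.mem_bot] at h0
    exact Subgroup.mem_bot.mpr (Subtype.ext h0)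
  let J₀ := Cfsg.thompsonSubgroup p (S : Subgroup G)
  have h1 : (J₀ ⊓ Subgroup.centralizer (J₀ : Set (S : Subgroup G))).map (S : Subgroup G).subtype =
      Cfsg.centerThompsonOf p (S : Subgroup G) :=
    CfsgLib.ThompsonJ.map_inf_centralizer (S : Subgroup G).subtype_injective J₀
  have h2 : Cfsg.thompsonSubgroupOf p (S.mapSurjective hfs : Subgroup (G ⧸ O)) = J₀.map φ := by
    rw [show J₀ = Cfsg.thompsonSubgroupOf p ⊤ from (CfsgLib.ThompsonJ.thompsonSubgroupOf_top p _).symm,
      CfsgLib.ThompsonJ.map_thompsonSubgroupOf hinj, Sylow.coe_mapSurjective, ← Subgroup.map_map,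
      ← MonoidHom.range_eq_map, Subgroup.range_subtype]
  have hmap : Cfsg.centerThompsonOf p (S.mapSurjective hfs : Subgroup (G ⧸ O)) =
      (Cfsg.centerThompsonOf p (S : Subgroup G)).map f := by
    rw [CfsgLib.ThompsonJ.centerThompsonOf_def, h2, ← CfsgLib.ThompsonJ.map_inf_centralizer hinj,
      ← h1, Subgroup.map_map]
  have hn := normal_case (Odd.of_dvd_nat hodd (Subgroup.card_quotient_dvd_card O)) hp
    (S.mapSurjective hfs) (CfsgLib.Cores.pPrimeCore_quotient_pPrimeCore p)
  rw [hmap] at hn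
  have h3 := hn.comap f
  rwa [Subgroup.comap_map_eq, QuotientGroup.ker_mk'] at h3

end Cfsg.Agent.S1458
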