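import Cfsg.Statements.S1460
import Cfsg.Agent.Lib.CoprimeAction.Basic
import Cfsg.Prelude.Def_OddOrderLocal

set_option autoImplicit false
open Cfsg

namespace Cfsg.Agent.S1460

/-- Let G be a finite solvable group, K a normal subgroup and U a subgroup with G = KU, and H ≤ U a subgroup whose order is coprime to that of K. Then H ∩ G' = H ∩ U'; N_G(H) is generated by K ∩ C_G(H) and U ∩ N_G(H); and if gHg⁻¹ ≤ U for some g ∈ G then g = u c with u ∈ U and c ∈ K ∩ C_G(H). -/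
theorem result {G : Type*} [Group G] [Finite G] [Group.IsSolvable G] (K U H : Subgroup G) [K.Normal] (hKU : K ⊔ U = ⊤) (hH : H ≤ U) (hcop : (Nat.card H).Coprime (Nat.card K)) :
    H ⊓ commutator G = H ⊓ ⁅U, U⁆ ∧
      Subgroup.normalizer (H : Set G) = (K ⊓ Subgroup.centralizer (H : Set G)) ⊔ (U ⊓ Subgroup.normalizer (H : Set G)) ∧
      ∀ g : G, H.map (MulAut.conj g).toMonoidHom ≤ U → ∃ u ∈ U, ∃ c ∈ K ⊓ Subgroup.centralizer (H : Set G), g = u * c := by
  have hHK : H ⊓ K = ⊥ := Subgroup.inf_eq_bot_of_coprime hcop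
  have hfac : ∀ g : G, ∃ u ∈ U, ∃ k ∈ K, u * k = g := by
    intro g
    have hg : g ∈ U ⊔ K := by rw [sup_comm, hKU]; trivial
    rw [← SetLike.mem_coe, Subgroup.coe_mul_of_left_le_normalizer_right U K
      (by rw [Subgroup.normalizer_eq_top_iff.mpr ‹K.Normal›]; exact le_top)] at hg
    exact hg
  have hconj : ∀ g : G, H.map (MulAut.conj g).toMonoidHom ≤ U →
      ∃ u ∈ U, ∃ c ∈ K ⊓ Subgroup.centralizer (H : Set G), g = u * c := by
    intro g hg
    obtain ⟨u, hu, k, hk, rfl⟩ := hfac g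
    have hkU : ∀ h ∈ H, k * h * k⁻¹ ∈ U := by
      intro h hh
      have h1 : u * k * h * (u * k)⁻¹ ∈ U := hg ⟨h, hh, rfl⟩
      have := U.mul_mem (U.mul_mem (U.inv_mem hu) h1) hu
      simpa [mul_assoc] using this
    let N := K ⊓ U
    have hHN : H ≤ Subgroup.normalizer (N : Set G) := by
      intro x hx
      refine Subgroup.mem_normalizer_iff.mpr fun y => and_congr ?_ ?_
      · exact Subgroup.mem_normalizer_iff.mp
          ((Subgroup.normalizer_eq_top_iff.mpr ‹K.Normal›).ge (Subgroup.mem_top x)) y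
      · exact Subgroup.mem_normalizer_iff.mp (Subgroup.le_normalizer (hH hx)) y
    have hB : H.map (MulAut.conj k).toMonoidHom ≤ N ⊔ H := by
      rintro _ ⟨h, hh, rfl⟩
      show k * h * k⁻¹ ∈ N ⊔ H
      have h1 : k * h * k⁻¹ * h⁻¹ ∈ N := by
        refine ⟨?_, U.mul_mem (hkU h hh) (U.inv_mem (hH hh))⟩
        rw [show k * h * k⁻¹ * h⁻¹ = k * (h * k⁻¹ * h⁻¹) by group]
        exact K.mul_mem hk (‹K.Normal›.conj_mem _ (K.inv_mem hk) h)
      have h2 := Subgroup.mul_mem_sup h1 hh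
      rwa [inv_mul_cancel_right] at h2
    obtain ⟨n, hn, hle⟩ := CfsgLib.CoprimeAction.exists_le_conj_of_coprime hHN hB
      (by rw [Subgroup.card_map_of_injective (MulAut.conj k).injective]
          exact hcop.coprime_dvd_right (Subgroup.card_dvd_of_le inf_le_left))
      (Or.inl inferInstance)
    refine ⟨u * n, U.mul_mem hu hn.2, n⁻¹ * k, ⟨K.mul_mem (K.inv_mem hn.1) hk,
      Subgroup.mem_centralizer_iff.mpr fun h hh => ?_⟩, by group⟩
    have h1 := CfsgLib.CoprimeAction.mem_conj_iff.mp (hle ⟨h, hh, rfl⟩)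
    have hcK : n⁻¹ * k ∈ K := K.mul_mem (K.inv_mem hn.1) hk
    have h2 : (n⁻¹ * k) * h * (n⁻¹ * k)⁻¹ * h⁻¹ ∈ H ⊓ K := by
      refine ⟨H.mul_mem ?_ (H.inv_mem hh), ?_⟩
      · simpa [mul_assoc] using h1
      · rw [show (n⁻¹ * k) * h * (n⁻¹ * k)⁻¹ * h⁻¹ = (n⁻¹ * k) * (h * (n⁻¹ * k)⁻¹ * h⁻¹) by group]
        exact K.mul_mem hcK (‹K.Normal›.conj_mem _ (K.inv_mem hcK) h)
    rw [hHK, Subgroup.mem_bot, mul_inv_eq_one] at h2
    exact (mul_inv_eq_iff_eq_mul.mp h2).symm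
  refine ⟨le_antisymm ?_ ?_, le_antisymm ?_ ?_, hconj⟩
  · rintro h ⟨hh, hG⟩
    refine ⟨hh, ?_⟩
    let f := QuotientGroup.mk' K
    have htop : (⊤ : Subgroup G).map f = U.map f := by
      refine le_antisymm ?_ (Subgroup.map_mono le_top)
      rintro _ ⟨g, -, rfl⟩
      obtain ⟨u, hu, k, hk, rfl⟩ := hfac g
      exact ⟨u, hu, (QuotientGroup.eq).mpr (by rwa [inv_mul_cancel_left])⟩
    have h1 : f h ∈ (⁅U, U⁆).map f := by
      rw [Subgroup.map_commutator, ← htop, ← Subgroup.map_commutator]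
      exact Subgroup.mem_map_of_mem _ hG
    obtain ⟨v, hv, hvh⟩ := h1
    have hk : v⁻¹ * h ∈ K := (QuotientGroup.eq).mp hvh
    have hvU : v ∈ U := Subgroup.commutator_le_self U hv
    let D := (⁅U, U⁆).subgroupOf U
    have hDn : D.Normal := Subgroup.normal_subgroupOf_of_le_normalizer
      (Subgroup.le_normalizer.trans (CfsgLib.CoprimeAction.normalizer_le_normalizer_commutator U))
    let π := QuotientGroup.mk' D
    have e1 : π ⟨v⁻¹ * h, U.mul_mem (U.inv_mem hvU) (hH hh)⟩ = π ⟨h, hH hh⟩ := by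
      rw [show (⟨v⁻¹ * h, U.mul_mem (U.inv_mem hvU) (hH hh)⟩ : U) = ⟨v, hvU⟩⁻¹ * ⟨h, hH hh⟩ from rfl,
        map_mul, map_inv, show π ⟨v, hvU⟩ = 1 from (QuotientGroup.eq_one_iff _).mpr hv, inv_one, one_mul]
    have o1 : π ⟨h, hH hh⟩ ^ Nat.card H = 1 := by
      rw [← map_pow, show (⟨h, hH hh⟩ : U) ^ Nat.card H = 1 from
        Subtype.ext (show h ^ Nat.card H = 1 from congrArg Subtype.val (pow_card_eq_one' (x := (⟨h, hh⟩ : H)))), map_one]
    have o2 : π ⟨h, hH hh⟩ ^ Nat.card K = 1 := by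
      rw [← e1, ← map_pow, show (⟨v⁻¹ * h, U.mul_mem (U.inv_mem hvU) (hH hh)⟩ : U) ^ Nat.card K = 1 from
        Subtype.ext (show (v⁻¹ * h) ^ Nat.card K = 1 from congrArg Subtype.val (pow_card_eq_one' (x := (⟨v⁻¹ * h, hk⟩ : K)))), map_one]
    have o3 := pow_gcd_eq_one.2 ⟨o1, o2⟩
    rw [hcop.gcd_eq_one, pow_one] at o3
    exact (QuotientGroup.eq_one_iff (N := D) (⟨h, hH hh⟩ : U)).mp o3
  · exact inf_le_inf_left _ (Subgroup.commutator_mono le_top le_top)
  · intro g hg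
    obtain ⟨u, hu, c, hc, rfl⟩ := hconj g (le_of_eq_of_le (Subgroup.mem_normalizer_iff_map_conj_eq.mp hg) hH)
    have hcN : c ∈ Subgroup.normalizer (H : Set G) := Subgroup.centralizer_le_normalizer _ hc.2
    refine mul_mem (Subgroup.mem_sup_right ⟨hu, ?_⟩) (Subgroup.mem_sup_left hc)
    have := mul_mem hg (inv_mem hcN)
    rwa [mul_inv_cancel_right] at this
  · exact sup_le (inf_le_right.trans (Subgroup.centralizer_le_normalizer _)) inf_le_right

end Cfsg.Agent.S1460
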