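import Cfsg.Statements.S1462
import Cfsg.Agent.Lib.BGTypes.PLengthOne
import Cfsg.Agent.S1443
import Cfsg.Prelude.Def_OddOrderLocal

set_option autoImplicit false
open Cfsg

namespace Cfsg.Agent.S1462

/-- Let G be a finite solvable group, p an odd prime with G = O_{p',p,p'}(G), E an elementary abelian p-subgroup contained in no larger elementary abelian p-subgroup of G, and L a subgroup of order coprime to p normalized by E. Then L ≤ O_{p'}(G). -/
theorem result {G : Type*} [Group G] [Finite G] [Group.IsSolvable G] (p : ℕ) [Fact p.Prime] (hp : p ≠ 2) (hpl : Cfsg.PLengthLE p 1 G) (E L : Subgroup G) (hE : Cfsg.IsElementaryAbelian p E)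
    (hEmax : ∀ B : Subgroup G, Cfsg.IsElementaryAbelian p B → E ≤ B → B = E) (hL : (Nat.card L).Coprime p) (hEL : E ≤ Subgroup.normalizer (L : Set G)) :
    L ≤ Cfsg.pPrimeCore p G := by
  let O := pPrimeCore p G
  let f := QuotientGroup.mk' O
  have hfs : Function.Surjective f := QuotientGroup.mk'_surjective O
  let P := pCore p (G ⧸ O)
  have hPp : IsPGroup p P := CfsgLib.Cores.isPGroup_pCore p _
  have hEp : IsPGroup p E := fun a => ⟨1, Subtype.ext (by simpa using hE.2 a a.2)⟩
  have hle : ∀ Q : Subgroup G, IsPGroup p Q → Q.map f ≤ P := fun Q hQ => by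
    show Q.map f ≤ pCore p (G ⧸ pPrimeCore p G)
    rw [← CfsgLib.PSolvable.map_mk'_pPrimePCore]
    exact Subgroup.map_mono (CfsgLib.BGTypes.isPGroup_le_pPrimePCore hpl hQ)
  have hEP : E.map f ≤ P := hle E hEp
  have hEe : IsElementaryAbelian p (E.map f) := by
    have := hE.1
    refine ⟨Subgroup.map_isMulCommutative E f, ?_⟩
    rintro _ ⟨e, he, rfl⟩
    rw [← map_pow, hE.2 e he, map_one]
  have hcopL : (Nat.card (L.map f)).Coprime p := hL.coprime_dvd_left (Subgroup.card_map_dvd L f)
  have hdis : L.map f ⊓ P = ⊥ := by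
    obtain ⟨k, hk⟩ := IsPGroup.iff_card.mp hPp
    exact Subgroup.inf_eq_bot_of_coprime (hk ▸ hcopL.pow_right k)
  have hPnorm : P.Normal := pCore_normal p _
  have hLE : ∀ l ∈ L.map f, ∀ e ∈ E.map f, l * e = e * l := by
    intro l hl e he
    have h1 : l * e * l⁻¹ * e⁻¹ ∈ L.map f ⊓ P := by
      refine ⟨?_, P.mul_mem (hPnorm.conj_mem e (hEP he) l) (P.inv_mem (hEP he))⟩
      obtain ⟨e0, he0, rfl⟩ := he
      obtain ⟨l0, hl0, rfl⟩ := hl
      refine ⟨l0 * (e0 * l0⁻¹ * e0⁻¹), L.mul_mem hl0
        ((Subgroup.mem_normalizer_iff.mp (hEL he0) _).mp (inv_mem hl0)), ?_⟩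
      simp [f, mul_assoc]
    rw [hdis, Subgroup.mem_bot, mul_inv_eq_one] at h1
    exact mul_inv_eq_iff_eq_mul.mp h1
  have hfix : ∀ x ∈ P ⊓ Subgroup.centralizer (E.map f : Set (G ⧸ O)), orderOf x = p →
      L.map f ≤ Subgroup.centralizer ({x} : Set (G ⧸ O)) := by
    intro x hx hxo
    suffices hxE : x ∈ E.map f from fun l hl =>
      Subgroup.mem_centralizer_singleton_iff.mpr (hLE l hl x hxE)
    let B := E.map f ⊔ Subgroup.zpowers x
    have hBc : IsMulCommutative B := by
      haveI := hEe.1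
      refine IsMulCommutative.of_setLike_mul_comm fun a ha b hb => ?_
      have hB : B ≤ Subgroup.centralizer (B : Set (G ⧸ O)) := by
        refine sup_le ?_ ?_ <;> rw [Subgroup.le_centralizer_iff] <;> refine sup_le ?_ ?_
        · exact Subgroup.le_centralizer_iff.mp (Subgroup.le_centralizer (E.map f))
        · exact Subgroup.zpowers_le.mpr hx.2
        · rw [Subgroup.le_centralizer_iff]
          exact Subgroup.zpowers_le.mpr hx.2
        · haveI : IsMulCommutative (Subgroup.zpowers x) := inferInstance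
          exact Subgroup.le_centralizer _
      exact (Subgroup.mem_centralizer_iff.mp (hB hb)) a ha
    have hBe : IsElementaryAbelian p B := by
      refine ⟨hBc, fun b hb => ?_⟩
      letI : CommGroup B := { (inferInstance : Group B) with mul_comm := hBc.is_comm.comm }
      let K : Subgroup B := (powMonoidHom p : B →* B).ker
      have h1 : (⊤ : Subgroup B) ≤ K := by
        have e1 : (E.map f).subgroupOf B ⊔ (Subgroup.zpowers x).subgroupOf B = ⊤ := by
          rw [← Subgroup.subgroupOf_sup le_sup_left le_sup_right]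
          exact Subgroup.subgroupOf_self B
        rw [← e1, sup_le_iff]
        constructor
        · intro e he
          exact Subtype.ext (hEe.2 _ he)
        · rintro ⟨e, he'⟩ he
          obtain ⟨i, rfl⟩ := Subgroup.mem_zpowers_iff.mp he
          refine Subtype.ext ?_
          show (x ^ i) ^ p = 1
          rw [← zpow_natCast, ← zpow_mul, mul_comm, zpow_mul, zpow_natCast,
            orderOf_dvd_iff_pow_eq_one.mp hxo.dvd, one_zpow]
      exact congrArg Subtype.val (h1 (x := ⟨b, hb⟩) trivial)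
    have hBp : IsPGroup p B := fun a => ⟨1, Subtype.ext (by simpa using hBe.2 a a.2)⟩
    let X := B.comap f
    have hEX : E ≤ X := fun e he => show f e ∈ B from le_sup_left (a := E.map f) ⟨e, he, rfl⟩
    obtain ⟨T, hT⟩ := (hEp.of_equiv (Subgroup.subgroupOfEquivOfLe hEX).symm).exists_le_sylow
    let T' := (T : Subgroup X).map X.subtype
    have hT'p : IsPGroup p T' := T.2.map _
    have hinj : Function.Injective (f.comp T'.subtype) := by
      rw [← MonoidHom.ker_eq_bot_iff, eq_bot_iff]
      intro t ht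
      have : (t : G) ∈ T' ⊓ O := ⟨t.2, (QuotientGroup.eq_one_iff _).mp ht⟩
      rw [CfsgLib.BGTypes.inf_pPrimeCore_eq_bot hT'p, Subgroup.mem_bot] at this
      exact Subgroup.mem_bot.mpr (Subtype.ext this)
    have hT'B : ∀ t : T', f t ∈ B := by
      rintro ⟨_, t, -, rfl⟩
      exact t.2
    have hT'e : IsElementaryAbelian p T' := by
      refine ⟨IsMulCommutative.of_setLike_mul_comm fun a ha b hb => ?_, fun a ha => ?_⟩
      · have h1 : (f.comp T'.subtype) (⟨a, ha⟩ * ⟨b, hb⟩) = (f.comp T'.subtype) (⟨b, hb⟩ * ⟨a, ha⟩) := by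
          rw [map_mul, map_mul]
          exact congrArg Subtype.val (hBc.is_comm.comm ⟨_, hT'B ⟨a, ha⟩⟩ ⟨_, hT'B ⟨b, hb⟩⟩)
        exact congrArg Subtype.val (hinj h1)
      · have h1 : (f.comp T'.subtype) (⟨a, ha⟩ ^ p) = (f.comp T'.subtype) 1 := by
          rw [map_pow, map_one]
          exact hBe.2 _ (hT'B ⟨a, ha⟩)
        exact congrArg Subtype.val (hinj h1)
    have hET : E ≤ T' := fun e he => ⟨⟨e, hEX he⟩, hT he, rfl⟩
    have hTE := hEmax T' hT'e hET
    let g : X →* B := f.subgroupComap B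
    have hg : Function.Surjective g := fun b => by
      obtain ⟨y, hy⟩ := hfs b
      exact ⟨⟨y, show f y ∈ B from hy ▸ b.2⟩, Subtype.ext hy⟩
    have hTtop : (T : Subgroup X).map g = ⊤ :=
      (T.mapSurjective hg).3 (hBp.of_equiv Subgroup.topEquiv.symm) le_top |>.symm
    obtain ⟨t, ht, hgt⟩ : (⟨x, le_sup_right (a := E.map f) (Subgroup.mem_zpowers x)⟩ : B) ∈
        (T : Subgroup X).map g := hTtop ▸ Subgroup.mem_top _
    exact ⟨t, hTE ▸ Subgroup.mem_map_of_mem _ ht, congrArg Subtype.val hgt⟩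
  have hAP : L.map f ≤ Subgroup.centralizer (P : Set (G ⧸ O)) :=
    S1443.result p hp P (E.map f) (L.map f) hPp hEP hEe
      (by rw [Subgroup.normalizer_eq_top_iff.mpr hPnorm]; exact le_top) hcopL hfix
  have hCP : Subgroup.centralizer (P : Set (G ⧸ O)) ≤ P :=
    CfsgLib.PSolvable.centralizer_pCore_le
      (CfsgLib.PSolvable.isPSolvable_quotient CfsgLib.PSolvable.isPSolvable_of_isSolvable _)
      (CfsgLib.Cores.pPrimeCore_quotient_pPrimeCore p)
  have hbot : L.map f = ⊥ := le_bot_iff.mp (hdis ▸ le_inf le_rfl (hAP.trans hCP))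
  exact fun l hl => (QuotientGroup.eq_one_iff l).mp (Subgroup.mem_bot.mp (hbot ▸ ⟨l, hl, rfl⟩ : f l ∈ (⊥ : Subgroup (G ⧸ O))))

end Cfsg.Agent.S1462
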