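import Cfsg.Statements.S1463
import Cfsg.Agent.Lib.BGAppendix.GL2Odd
import Cfsg.Agent.Lib.BGAppendix.OddCAGroup

set_option autoImplicit false
open scoped MatrixGroups
open Cfsg

namespace Cfsg.Agent.S1463

open Matrix CfsgLib.BGAppendix in
open scoped commutatorElement in
theorem not_dvd {F : Type*} [Field F] (p : ℕ) [Fact p.Prime] [CharP F p] (hp : p ≠ 2)
    (H : Subgroup (GL (Fin 2) F)) [Finite H] (hodd : Odd (Nat.card H))
    (hirr : ∀ v : Fin 2 → F, v ≠ 0 → ∃ g ∈ H,
      (g : Matrix (Fin 2) (Fin 2) F).mulVec v ∉ Submodule.span F {v}) :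
    ¬ p ∣ Nat.card H := by
  intro hdvd
  have h2 : (2 : F) ≠ 0 := by
    rw [← Nat.cast_two, Ne, CharP.cast_eq_zero_iff F p]
    exact fun h => hp ((Nat.prime_dvd_prime_iff_eq Fact.out Nat.prime_two).mp h)
  have hpodd : Odd p := (Fact.out : p.Prime).odd_of_ne_two hp
  let φ : H →* Matrix (Fin 2) (Fin 2) F := (Units.coeHom _).comp H.subtype
  have φinj : Function.Injective φ := Units.val_injective.comp H.subtype_injective
  let δ : H →* Fˣ := (Matrix.GeneralLinearGroup.det).comp H.subtype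
  set S : Subgroup H := δ.ker
  have hδ : ∀ a : H, ((δ a : Fˣ) : F) = (φ a).det := fun a => rfl
  have hS : ∀ a : H, a ∈ S ↔ (φ a).det = 1 := fun a => by
    rw [MonoidHom.mem_ker, ← hδ, ← Units.val_eq_one]
  have hinv : ∀ h : H, φ h * φ h⁻¹ = 1 := fun h => by rw [← map_mul, mul_inv_cancel, map_one]
  have hinv' : ∀ h : H, φ h⁻¹ * φ h = 1 := fun h => by rw [← map_mul, inv_mul_cancel, map_one]
  have hoddS : Odd (Nat.card S) := hodd.of_dvd_nat (Subgroup.card_subgroup_dvd_card S)
  have hpow : ∀ a : H, φ a ^ Nat.card H = 1 := fun a => by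
    rw [← map_pow, pow_card_eq_one', map_one]
  have hns : ∀ a ∈ S, a ≠ 1 → ∀ c : F, φ a ≠ c • 1 := by
    intro a ha ha1 c hc
    have hd := (hS a).1 ha
    have hn := hpow a
    rw [hc] at hd hn
    rw [Matrix.det_smul, Matrix.det_one, mul_one, Fintype.card_fin, pow_two] at hd
    have hcn : c ^ Nat.card H = 1 := by
      rw [smul_pow, one_pow] at hn
      simpa using congrFun (congrFun hn 0) 0
    obtain ⟨k, hk⟩ := hodd
    have hc1 : c = 1 := by
      rw [hk, pow_succ, pow_mul, pow_two, hd, one_pow, one_mul] at hcn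
      exact hcn
    exact ha1 (φinj (by rw [hc, hc1, one_smul, map_one]))
  have htr : ∀ a : H, a ^ p = 1 → (φ a).trace = 2 := by
    intro a ha
    have hnil : IsNilpotent (φ a - 1) := ⟨p, by
      rw [sub_pow_char_of_commute (p := p) (Commute.one_right (φ a)), ← map_pow, ha, map_one, one_pow,
        sub_self]⟩
    have h := (Matrix.isNilpotent_trace_of_isNilpotent hnil).eq_zero
    rw [Matrix.trace_sub, Matrix.trace_one, sub_eq_zero] at h
    simpa using h
  have hsq : ∀ a ∈ S, a ^ p ≠ 1 → (φ a).trace ^ 2 ≠ 4 := by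
    intro a ha hap h
    have hd := (hS a).1 ha
    rcases mul_eq_zero.1 (show ((φ a).trace - 2) * ((φ a).trace + 2) = 0 by
      linear_combination h) with h | h
    · exact hap (φinj (by rw [map_pow,
        GL2.pow_char_eq_one (GL2.sub_one_mul_self hd (sub_eq_zero.1 h)), map_one]))
    · have h1 : (-φ a) ^ p = 1 := GL2.pow_char_eq_one <| GL2.sub_one_mul_self
        (by rw [Matrix.det_neg, hd]; simp) (by rw [Matrix.trace_neg]; linear_combination -h)
      rw [hpodd.neg_pow, neg_eq_iff_eq_neg] at h1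
      have h3 := congrArg (· ^ Nat.card H) h1
      simp only [← pow_mul, mul_comm p, hodd.neg_one_pow] at h3
      rw [pow_mul, hpow, one_pow] at h3
      have h4 := congrFun (congrFun h3 0) 0
      simp at h4
      exact h2 (by linear_combination h4)
  have htr_conj : ∀ a g : H, (φ (g * a * g⁻¹)).trace = (φ a).trace := fun a g => by
    rw [map_mul, map_mul, Matrix.trace_mul_cycle, hinv', one_mul]
  -- conjugates of a unipotent element commuting with it fix its line
  have hline : ∀ x n : H, x ∈ S → x ^ p = 1 → x ≠ 1 → Commute x (n * x * n⁻¹) →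
      ∀ v : Fin 2 → F, v ≠ 0 → (φ x - 1) *ᵥ v = 0 → ∃ c : F, φ n *ᵥ v = c • v := by
    intro x n hx hxp hx1 hc v hv hxv
    obtain ⟨a, b, hab⟩ := GL2.exists_smul_add (g := φ x) (v := φ (n * x * n⁻¹))
      (by rw [← map_mul, ← map_mul, hc.eq]) (hns x hx hx1)
    have ha : a = 1 - b := by
      have e1 := htr _ (show (n * x * n⁻¹) ^ p = 1 by rw [conj_pow, hxp]; simp)
      rw [hab, Matrix.trace_add, Matrix.trace_smul, Matrix.trace_smul, htr x hxp] at e1
      simp at e1
      exact mul_left_cancel₀ h2 (by linear_combination e1)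
    have hb : b ≠ 0 := by
      intro hb
      rw [ha, hb] at hab
      simp at hab
      exact hx1 (conj_eq_one_iff.1 (φinj (by simpa using hab)))
    refine GL2.exists_eq_smul_of_mulVec_eq_zero
      (fun h => hns x hx hx1 1 (by rw [one_smul, sub_eq_zero.1 h])) hv hxv ?_
    have hkey : b • ((φ x - 1) * φ n) = φ n * (φ x - 1) := by
      have e2 : φ n * φ x = φ (n * x * n⁻¹) * φ n := by rw [← map_mul, ← map_mul]; congr 1; group
      rw [mul_sub, e2, hab, ha, add_mul, smul_mul_assoc, smul_mul_assoc, one_mul, mul_one, sub_mul,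
        one_mul]
      module
    have h0 : b • ((φ x - 1) *ᵥ (φ n *ᵥ v)) = 0 := by
      rw [Matrix.mulVec_mulVec, ← Matrix.smul_mulVec, hkey, ← Matrix.mulVec_mulVec, hxv,
        Matrix.mulVec_zero]
    exact (smul_eq_zero.1 h0).resolve_left hb
  have hexv : ∀ x : H, x ∈ S → x ^ p = 1 →
      ∃ v ≠ (0 : Fin 2 → F), (φ x - 1) *ᵥ v = 0 := by
    intro x hx hxp
    refine Matrix.exists_mulVec_eq_zero_iff.2 ?_
    have hd := (hS x).1 hx
    have ht := htr x hxp
    simp [Matrix.det_fin_two, Matrix.trace_fin_two] at hd ht ⊢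
    linear_combination hd - ht
  -- the hypotheses of the counting lemma for `S`
  have hcom : ∀ {a b : S}, Commute a b → φ a * φ b = φ b * φ a := fun {a b} h => by
    rw [← map_mul, ← map_mul, ← Subgroup.coe_mul, h.eq, Subgroup.coe_mul]
  have hcom' : ∀ {a b : S}, φ a * φ b = φ b * φ a → Commute a b := fun {a b} h =>
    Subtype.ext (φinj (by rw [Subgroup.coe_mul, Subgroup.coe_mul, map_mul, map_mul, h]))
  have hne : ∀ {a : S}, a ≠ 1 → (a : H) ≠ 1 := fun h h' => h (Subtype.ext h')
  have hexp : ∀ {a : S}, a ^ p = 1 → (a : H) ^ p = 1 := fun {a} h => by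
    rw [← SubmonoidClass.coe_pow, h, OneMemClass.coe_one]
  have hexp' : ∀ {a : S}, a ^ p ≠ 1 → (a : H) ^ p ≠ 1 := fun {a} h h' =>
    h (Subtype.ext (by rw [SubmonoidClass.coe_pow, h', OneMemClass.coe_one]))
  have hall : ∀ x y : S, x ^ p = 1 → y ^ p = 1 → Commute x y := by
    refine fun x y => commute_of_pow_eq_one hoddS ?_ ?_ ?_ ?_
    · intro a b c hb hab hbc
      exact hcom' (GL2.commute_of_commute_nonscalar (hns b b.2 (hne hb)) (hcom hab).symm
        (hcom hbc))
    · intro x y hx1 hxp hxy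
      by_contra hy
      obtain ⟨a, b, hab⟩ := GL2.exists_smul_add (hcom hxy) (hns x x.2 (hne hx1))
      have ht := htr x (hexp hxp)
      have hd := (hS x).1 x.2
      have hdy := (hS y).1 y.2
      refine hsq y y.2 (hexp' hy) ?_
      rw [hab] at hdy ⊢
      simp [Matrix.det_fin_two, Matrix.trace_fin_two] at hdy hd ht ⊢
      linear_combination b ^ 2 * (φ x 0 0 + φ x 1 1 + 2) * ht + 4 * hdy - 4 * b ^ 2 * hd
    · intro x g hxp hc
      have hx1 : (x : H) ≠ 1 := fun h => hexp' hxp (by rw [h, one_pow])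
      have hd : (φ (x : H)).det = 1 := (hS x).1 x.2
      have hd' : (φ ((g : H) * x * (g : H)⁻¹)).det = (φ (x : H)).det := by
        rw [hd]; exact (hS _).1 (g * x * g⁻¹).2
      rcases GL2.eq_or_of_trace_det h2 (hcom hc) (hns x x.2 hx1) (htr_conj x g) hd'
          (by rw [hd, mul_one]; exact hsq x x.2 (hexp' hxp)) with e | e
      · exact mul_inv_eq_iff_eq_mul.1 (show g * x * g⁻¹ = x from Subtype.ext (φinj e))
      · have e' : (g : H) * (g * x * (g : H)⁻¹) * (g : H)⁻¹ = x := φinj <| by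
          have e : φ ((g : H) * x * (g : H)⁻¹) = (φ (x : H)).trace • 1 - φ (x : H) := e
          rw [map_mul φ ((g : H) * (g * x * (g : H)⁻¹)), map_mul φ (g : H), e, mul_sub, sub_mul,
            mul_smul_comm, smul_mul_assoc, mul_one, hinv, ← map_mul, ← map_mul, e, sub_sub_cancel]
        have h2' : Commute (g ^ 2) x := by
          refine Subtype.ext ?_
          show (g : H) ^ 2 * (x : H) = (x : H) * (g : H) ^ 2
          calc (g : H) ^ 2 * x = g * ((g : H) * x * (g : H)⁻¹) * (g : H)⁻¹ * (g : H) ^ 2 := by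
                simp [pow_two, mul_assoc]
            _ = x * (g : H) ^ 2 := by rw [e']
        obtain ⟨k, hk⟩ := hoddS
        have hh : g = (g ^ 2) ^ (k + 1) := by
          rw [← pow_mul, show 2 * (k + 1) = Nat.card S + 1 by omega, pow_succ, pow_card_eq_one',
            one_mul]
        rw [hh]
        exact h2'.pow_left _
    · intro x n g hx1 hxp hn hg
      obtain ⟨v, hv, hxv⟩ := hexv x x.2 (hexp hxp)
      obtain ⟨α, hα⟩ := hline x n x.2 (hexp hxp) (hne hx1) (congrArg Subtype.val hn.eq) v hv hxv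
      obtain ⟨β, hβ⟩ := hline x g x.2 (hexp hxp) (hne hx1) (congrArg Subtype.val hg.eq) v hv hxv
      have hc : φ ((⁅n, g⁆ : S) : H) * (φ (g : H) * φ (n : H)) = φ (n : H) * φ (g : H) := by
        rw [← map_mul, ← map_mul, ← map_mul, ← Subgroup.coe_mul, ← Subgroup.coe_mul,
          ← Subgroup.coe_mul, commutatorElement_def]
        congr 2; group
      have hne0 : α * β ≠ 0 := by
        intro h0
        have h1 := congrArg (fun w => (φ (g : H)⁻¹ * φ (n : H)⁻¹) *ᵥ w)
          (show (φ (n : H) * φ (g : H)) *ᵥ v = 0 by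
            rw [← Matrix.mulVec_mulVec, hβ, Matrix.mulVec_smul, hα, smul_smul, mul_comm, h0,
              zero_smul])
        simp only [Matrix.mulVec_mulVec, Matrix.mulVec_zero] at h1
        rw [mul_assoc, ← mul_assoc (φ (n : H)⁻¹), hinv', one_mul, hinv', Matrix.one_mulVec] at h1
        exact hv h1
      have hfix : φ ((⁅n, g⁆ : S) : H) *ᵥ v = v := by
        have h1 := congrArg (fun M => M *ᵥ v) hc
        simp only [← Matrix.mulVec_mulVec, hα, hβ, Matrix.mulVec_smul, smul_smul] at h1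
        rw [mul_comm β α] at h1
        exact smul_right_injective (Fin 2 → F) hne0 h1
      have hd := (hS _).1 (⁅n, g⁆ : S).2
      have hdet1 : (φ ((⁅n, g⁆ : S) : H) - 1).det = 0 := Matrix.exists_mulVec_eq_zero_iff.1
        ⟨v, hv, by rw [Matrix.sub_mulVec, hfix, Matrix.one_mulVec, sub_self]⟩
      have ht : (φ ((⁅n, g⁆ : S) : H)).trace = 2 := by
        simp [Matrix.det_fin_two, Matrix.trace_fin_two] at hd hdet1 ⊢
        linear_combination hd - hdet1
      exact Subtype.ext (φinj (by rw [SubmonoidClass.coe_pow, map_pow,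
        GL2.pow_char_eq_one (GL2.sub_one_mul_self hd ht), OneMemClass.coe_one, map_one]))
  obtain ⟨x, hx⟩ := exists_prime_orderOf_dvd_card' p hdvd
  have hxp : x ^ p = 1 := hx ▸ pow_orderOf_eq_one x
  have hx1 : x ≠ 1 := fun h => by
    rw [h, orderOf_one] at hx
    exact (Fact.out : p.Prime).ne_one hx.symm
  have hxS : x ∈ S := by
    rw [hS]
    have h1 : (φ x).det ^ p = 1 := by rw [← Matrix.det_pow, ← map_pow, hxp, map_one, Matrix.det_one]
    exact frobenius_inj F p (by simpa [frobenius_def] using h1)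
  obtain ⟨v, hv, hxv⟩ := hexv x hxS hxp
  obtain ⟨g, hg, hgv⟩ := hirr v hv
  have hS' : (⟨g, hg⟩ : H) * x * (⟨g, hg⟩ : H)⁻¹ ∈ S := (MonoidHom.normal_ker δ).conj_mem x hxS _
  obtain ⟨c, hc⟩ := hline x ⟨g, hg⟩ hxS hxp hx1
    (congrArg Subtype.val (hall ⟨x, hxS⟩ ⟨_, hS'⟩ (Subtype.ext hxp)
      (Subtype.ext (by
        show ((⟨g, hg⟩ : H) * x * (⟨g, hg⟩ : H)⁻¹) ^ p = 1
        rw [conj_pow, hxp]; simp))).eq) v hv hxv
  exact hgv (Submodule.mem_span_singleton.2 ⟨c, hc.symm⟩)

/-- Let F be a field of odd characteristic p and H a finite subgroup of odd order of GL(2, F) that leaves no 1-dimensional subspace of F² invariant. Then p does not divide the order of H. -/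
theorem result {F : Type*} [Field F] (p : ℕ) [Fact p.Prime] [CharP F p] (hp : p ≠ 2)
    (H : Subgroup (GL (Fin 2) F)) [Finite H] (hodd : Odd (Nat.card H))
    (hirr : ∀ v : Fin 2 → F, v ≠ 0 → ∃ g ∈ H, (g : Matrix (Fin 2) (Fin 2) F).mulVec v ∉ Submodule.span F {v}) :
    ¬ p ∣ Nat.card H := by
  exact not_dvd p hp H hodd hirr

end Cfsg.Agent.S1463
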