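import Cfsg.Statements.S1466
import Cfsg.Agent.Lib.BGTypes.Puig

set_option autoImplicit false
open Cfsg

namespace Cfsg.Agent.S1466

/-- Let p be a prime and R a nontrivial finite p-group. Then for every i > 0, Z(R) ≤ C_R(L_i(R)) ≤ L_i(R); likewise Z(R) ≤ C_R(L_*(R)) ≤ L_*(R) and Z(R) ≤ C_R(L(R)) ≤ L(R); and L(R) ≠ 1, L_*(R) ≠ 1. -/
theorem result {R : Type*} [Group R] [Finite R] (p : ℕ) [Fact p.Prime] (hR : IsPGroup p R) [Nontrivial R] :
    (∀ i : ℕ, 0 < i → Subgroup.center R ≤ Subgroup.centralizer ((Cfsg.puigSeq R i : Subgroup R) : Set R) ∧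
        Subgroup.centralizer ((Cfsg.puigSeq R i : Subgroup R) : Set R) ≤ Cfsg.puigSeq R i) ∧
      (Subgroup.center R ≤ Subgroup.centralizer ((Cfsg.puigLower R : Subgroup R) : Set R) ∧ Subgroup.centralizer ((Cfsg.puigLower R : Subgroup R) : Set R) ≤ Cfsg.puigLower R) ∧
      (Subgroup.center R ≤ Subgroup.centralizer ((Cfsg.puigSubgroup R : Subgroup R) : Set R) ∧ Subgroup.centralizer ((Cfsg.puigSubgroup R : Subgroup R) : Set R) ≤ Cfsg.puigSubgroup R) ∧
      Cfsg.puigSubgroup R ≠ ⊥ ∧ Cfsg.puigLower R ≠ ⊥ := by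
  have hc := CfsgLib.BGTypes.centralizer_puigStep_le hR
  refine ⟨fun i hi => ?_, ⟨Subgroup.center_le_centralizer _, ?_⟩, ⟨Subgroup.center_le_centralizer _, ?_⟩, ?_, ?_⟩
  · obtain ⟨j, rfl⟩ : ∃ j, i = j + 1 := ⟨i - 1, by omega⟩
    exact ⟨Subgroup.center_le_centralizer _, (hc _).1⟩
  · rw [← CfsgLib.BGTypes.puigStep_puigSubgroup]
    exact (hc _).1
  · rw [← CfsgLib.BGTypes.puigStep_puigLower]
    exact (hc _).1
  · rw [← CfsgLib.BGTypes.puigStep_puigLower]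
    exact (hc _).2 inferInstance
  · rw [← CfsgLib.BGTypes.puigStep_puigSubgroup]
    exact (hc _).2 inferInstance

end Cfsg.Agent.S1466
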