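import Cfsg.Statements.S1478
import Cfsg.Agent.Lib.BGTypes.CNMinSimple

set_option autoImplicit false
open Cfsg

namespace Cfsg.Agent.S1478

/-- Let G be a minimal simple group of odd order in which every non-identity element has nilpotent centralizer. Then no subgroup of G is a three-step group with respect to any prime. -/
theorem result {G : Type*} [Group G] [Finite G] (hG : Cfsg.IsMinSimpleOddOrder G) (hCN : Cfsg.IsCNGroup G) :
    ∀ (H : Subgroup G) (p : ℕ), ¬ Cfsg.IsThreeStepGroup p ↥H := by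
  intro H p hH3
  obtain ⟨hF1, A, hA1, -, -, hAp, hFAn, hFAtop, ⟨n, hn⟩, hfpf, -⟩ := hH3
  have hsimple := hG.2.1
  -- `H` is proper, hence solvable
  have hHtop : H ≠ ⊤ := by
    intro h
    subst h
    have hn' : ((Cfsg.pCore p (⊤ : Subgroup G)).map (⊤ : Subgroup G).subtype).Normal :=
      CfsgLib.Cores.normal_map_subtype (⊤ : Subgroup G) _
    rcases Subgroup.Normal.eq_bot_or_eq_top hn' with e | e
    · exact hF1 ((Subgroup.map_eq_bot_iff_of_injective _ (⊤ : Subgroup G).subtype_injective).mp e)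
    · refine hFAtop (top_le_iff.mp (le_trans ?_ le_sup_left))
      intro y _
      obtain ⟨w, hw, hwy⟩ := e.ge (Subgroup.mem_top (y : G))
      rwa [← Subtype.ext hwy]
  have hsol : Group.IsSolvable H := hG.2.2.2 H hHtop
  let F := Cfsg.pCore p H
  have hFp : IsPGroup p F := CfsgLib.Cores.isPGroup_pCore p H
  have hn0 : n ≠ 0 := by
    rintro rfl
    exact hFAtop (Subgroup.index_eq_one.mp (by simpa using hn))
  obtain ⟨r, hr, N, hNn, hNc, hNp, hN1, hNF⟩ := CfsgLib.BGTypes.exists_normal_abelian_pGroup_le hF1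
  obtain ⟨x, hx, hx1⟩ := (Subgroup.bot_or_exists_ne_one N).resolve_left hN1
  have hxG : (x : G) ≠ 1 := fun e => hx1 (Subtype.ext e)
  obtain ⟨M, hM, hxM⟩ := CfsgLib.BGTypes.exists_closed_of_ne_one hG hCN hxG
  have hNM : ∀ y ∈ N, (y : G) ∈ M := fun y hy => hM.centralizer_le _ hxM hxG
    (Subgroup.mem_centralizer_singleton_iff.mpr
      (congrArg Subtype.val (congrArg Subtype.val (hNc.is_comm.comm (⟨y, hy⟩ : N) ⟨x, hx⟩))))
  have hHM : H ≤ Subgroup.normalizer (M : Set G) := fun g hg =>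
    hM.mem_normalizer hxM hxG (hNM _ (hNn.conj_mem x hx ⟨g, hg⟩))
  let W := M.subgroupOf H
  have hWn : W.Normal := Subgroup.normal_subgroupOf_of_le_normalizer hHM
  have hrp : r ∣ p ∧ r ∣ Nat.card M := by
    obtain ⟨i, hi⟩ := IsPGroup.iff_orderOf.mp hNp ⟨x, hx⟩
    rw [Subgroup.orderOf_mk] at hi
    have hi0 : i ≠ 0 := fun e => hx1 (orderOf_eq_one_iff.mp (by rw [hi, e, pow_zero]))
    obtain ⟨k, hk⟩ := hFp ⟨x, hNF hx⟩
    have hk' : orderOf x ∣ p ^ k := orderOf_dvd_of_pow_eq_one (congrArg Subtype.val hk)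
    refine ⟨(hr.out).dvd_of_dvd_pow ((hi ▸ dvd_pow_self r hi0).trans hk'), ?_⟩
    refine dvd_trans (hi ▸ dvd_pow_self r hi0) ?_
    rw [← Subgroup.orderOf_coe]
    exact Subgroup.orderOf_dvd_natCard M hxM
  -- `W` is a `p`-group
  have hWp : ∀ w ∈ W, ∀ s : ℕ, s.Prime → orderOf w = s → s ∣ p := by
    intro w hw s hs hws
    by_contra hsp
    have hcop : s.Coprime p := hs.coprime_iff_not_dvd.mpr hsp
    have hwFA : w ∈ Cfsg.pCore p H ⊔ A := by
      have := hFAn
      refine (QuotientGroup.eq_one_iff (N := Cfsg.pCore p H ⊔ A) w).mp (orderOf_eq_one_iff.mp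
        (Nat.eq_one_of_dvd_coprimes (hcop.pow_right n)
          (hws ▸ orderOf_map_dvd (QuotientGroup.mk' (Cfsg.pCore p H ⊔ A)) w)
          (hn ▸ (orderOf_dvd_natCard _).trans (Subgroup.index_eq_card _).symm.dvd)))
    obtain ⟨f, hf, a, ha, hfa⟩ := Subgroup.mem_sup_of_normal_left.mp hwFA
    have hcW : ∀ c ∈ W, c ∈ F → w * c = c * w := by
      intro c hc hcF
      refine Subtype.ext (CfsgLib.BGTypes.commute_of_mem_nilpotent hM.nilpotent hw hc ?_)
      obtain ⟨k, hk⟩ := hFp ⟨c, hcF⟩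
      rw [Subgroup.orderOf_coe, Subgroup.orderOf_coe, hws]
      exact (hcop.pow_right k).coprime_dvd_right (orderOf_dvd_of_pow_eq_one (congrArg Subtype.val hk))
    have hcomm : ∀ u ∈ F, w * u = u * w := by
      intro u hu
      have hc1 : w⁻¹ * (u * w * u⁻¹) ∈ W := W.mul_mem (W.inv_mem hw) (hWn.conj_mem w hw u)
      have hc2 : w⁻¹ * (u * w * u⁻¹) ∈ F := by
        have h1 := F.mul_mem ((Cfsg.pCore_normal p H).conj_mem u hu w⁻¹) (F.inv_mem hu)
        simpa [mul_assoc] using h1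
      have hco : Commute w (w⁻¹ * (u * w * u⁻¹)) := hcW _ hc1 hc2
      have h1 : (w⁻¹ * (u * w * u⁻¹)) ^ s = 1 := by
        have h2 : (u * w * u⁻¹) ^ s = 1 := by
          rw [conj_pow, ← hws, pow_orderOf_eq_one, mul_one, mul_inv_cancel]
        have h3 := hco.mul_pow s
        rw [mul_inv_cancel_left, h2, ← hws, pow_orderOf_eq_one, one_mul] at h3
        rw [← hws]; exact h3.symm
      obtain ⟨k, hk⟩ := hFp ⟨_, hc2⟩
      have h4 : w⁻¹ * (u * w * u⁻¹) = 1 := orderOf_eq_one_iff.mp (Nat.eq_one_of_dvd_coprimes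
        (hcop.pow_right k) (orderOf_dvd_of_pow_eq_one h1)
        (orderOf_dvd_of_pow_eq_one (congrArg Subtype.val hk)))
      exact eq_mul_inv_iff_mul_eq.mp (inv_mul_eq_one.mp h4)
    have haw : a = f⁻¹ * w := by rw [← hfa, inv_mul_cancel_left]
    by_cases ha1 : a = 1
    · have hwF : w ∈ F := by rw [← hfa, ha1, mul_one]; exact hf
      obtain ⟨k, hk⟩ := hFp ⟨w, hwF⟩
      exact hs.ne_one (Nat.eq_one_of_dvd_coprimes (hcop.pow_right k) dvd_rfl
        (hws ▸ orderOf_dvd_of_pow_eq_one (congrArg Subtype.val hk)))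
    · have haf : f ∈ F ⊓ Subgroup.centralizer ({a} : Set H) := by
        refine ⟨hf, Subgroup.mem_centralizer_singleton_iff.mpr ?_⟩
        rw [haw]
        calc f * (f⁻¹ * w) = f⁻¹ * (f * w) := by group
          _ = f⁻¹ * (w * f) := by rw [hcomm f hf]
          _ = f⁻¹ * w * f := by group
      rw [hfpf a ha ha1, Subgroup.mem_bot] at haf
      rw [haf, one_mul] at hfa
      have hxa : x ∈ F ⊓ Subgroup.centralizer ({a} : Set H) :=
        ⟨hNF hx, Subgroup.mem_centralizer_singleton_iff.mpr (by rw [hfa]; exact (hcomm x (hNF hx)).symm)⟩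
      rw [hfpf a ha ha1, Subgroup.mem_bot] at hxa
      exact hx1 hxa
  have hWF : W ≤ F := by
    refine CfsgLib.Cores.le_pCore (N := W) fun w => ⟨orderOf (w : H), Subtype.ext ?_⟩
    rw [SubmonoidClass.coe_pow, OneMemClass.coe_one, ← orderOf_dvd_iff_pow_eq_one]
    have hp0 : p ≠ 0 := fun h => Subgroup.index_ne_zero_of_finite (H := Cfsg.pCore p H ⊔ A)
      (by rw [hn, h, zero_pow hn0])
    rw [← Nat.factorization_le_iff_dvd (orderOf_pos _).ne' (pow_ne_zero _ hp0), Nat.factorization_pow]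
    intro s
    by_cases hs : s ∈ (orderOf (w : H)).primeFactors
    · have hsp := hWp _ (W.pow_mem w.2 (orderOf (w : H) / s)) s (Nat.prime_of_mem_primeFactors hs)
        (orderOf_pow_orderOf_div (orderOf_pos _).ne' (Nat.dvd_of_mem_primeFactors hs))
      have h1 : 0 < p.factorization s := (Nat.prime_of_mem_primeFactors hs).factorization_pos_of_dvd hp0 hsp
      have h2 : (orderOf (w : H)).factorization s < orderOf (w : H) :=
        Nat.factorization_lt s (orderOf_pos _).ne'
      rw [Finsupp.smul_apply, smul_eq_mul]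
      exact h2.le.trans (Nat.le_mul_of_pos_right _ h1)
    · rw [← Nat.support_factorization, Finsupp.notMem_support_iff] at hs
      rw [hs]; exact Nat.zero_le _
  have : Fact r.Prime := hr
  let P : Sylow r H := default
  have hPF : (P : Subgroup H) ≤ F := fun y hy => hWF (by
    obtain ⟨i, hi⟩ := IsPGroup.iff_orderOf.mp P.2 ⟨y, hy⟩
    rw [Subgroup.orderOf_mk, ← Subgroup.orderOf_coe] at hi
    exact CfsgLib.BGTypes.mem_of_mem_normalizer_of_dvd
      (CfsgLib.BGTypes.coprime_card_index_of_max hCN hM.nilpotent hM.maximal) (hHM y.2) hi hrp.2)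
  refine P.not_dvd_index ((hrp.1.trans (hn ▸ dvd_pow_self p hn0)).trans ?_)
  exact Subgroup.index_dvd_of_le (hPF.trans le_sup_left)

end Cfsg.Agent.S1478
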