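import Cfsg.Statements.S1480
import Cfsg.Agent.Lib.BGTypes.InvariantPPrime
import Cfsg.Agent.Lib.BGAppendix.Transitivity
import Cfsg.Agent.Lib.BGAppendix.Basic
import Cfsg.Agent.Lib.BGUniqueness.Rank

set_option autoImplicit false
open Cfsg

namespace Cfsg.Agent.S1480


open scoped commutatorElement
open CfsgLib

variable {G : Type*} [Group G] [Finite G] {p : ℕ} [Fact p.Prime]

theorem centralizer_singleton_le_normalizer (a : G) :
    Subgroup.centralizer ({a} : Set G) ≤ Subgroup.normalizer (Subgroup.zpowers a : Set G) := by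
  refine fun x hx => Subgroup.centralizer_le_normalizer _ ?_
  rw [Subgroup.mem_centralizer_iff]
  intro y hy
  obtain ⟨i, rfl⟩ := Subgroup.mem_zpowers_iff.mp hy
  exact (Commute.zpow_left (Subgroup.mem_centralizer_singleton_iff.mp hx).symm i)

theorem orderOf_eq_of_elem {A : Subgroup G} (hA : IsElementaryAbelian p A) {x : G} (hx : x ∈ A)
    (hx1 : x ≠ 1) : orderOf x = p :=
  orderOf_eq_prime (hA.2 x hx) hx1

theorem exists_centralizer_not_le {A : Subgroup G} (hA : IsElementaryAbelian p A)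
    (hcard : Nat.card A = p ^ 3) {q : ℕ} [Fact q.Prime] (hpq : p ≠ q) {X D : Subgroup G}
    (hX : IsPGroup q X) (hAX : A ≤ Subgroup.normalizer (X : Set G)) (h : ¬ X ≤ D) :
    ∃ B : Subgroup G, B ≤ A ∧ p ^ 2 ≤ Nat.card B ∧
      ¬ X ⊓ Subgroup.centralizer (B : Set G) ≤ D := by
  haveI := hA.1
  have hp := (Fact.out : p.Prime)
  have hpA : IsPGroup p A := BGUniqueness.elemAb_isPGroup hA
  have hnc : ¬ IsCyclic A := (BGUniqueness.elemAb_not_isCyclic_iff hA).mpr
    (hcard ▸ Nat.pow_le_pow_right hp.pos (by omega))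
  obtain ⟨a, haA, ha1, haX⟩ : ∃ a ∈ A, a ≠ 1 ∧ ¬ X ⊓ Subgroup.centralizer ({a} : Set G) ≤ D := by
    by_contra hcon
    push Not at hcon
    exact h (CoprimeAction.le_of_centralizers hnc hAX (IsPGroup.coprime_card_of_ne p q hpq _ _ hpA hX) hcon)
  have hAa : A ≤ Subgroup.centralizer ({a} : Set G) := fun x hx =>
    Subgroup.mem_centralizer_singleton_iff.mpr (BGUniqueness.elemAb_comm hA hx haA)
  obtain ⟨W, ⟨hWA, haW⟩, hWmax⟩ := ({W : Subgroup G | W ≤ A ∧ a ∉ W}).toFinite.exists_maximal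
    ⟨⊥, bot_le, fun h => ha1 (Subgroup.mem_bot.mp h)⟩
  have hza : Subgroup.zpowers a ≤ A := Subgroup.zpowers_le.mpr haA
  have hWn : Subgroup.zpowers a ≤ Subgroup.normalizer (W : Set G) := fun z hz =>
    Subgroup.centralizer_le_normalizer _ (Subgroup.mem_centralizer_iff.mpr fun w hw =>
      BGUniqueness.elemAb_comm hA (hWA hw) (hza hz))
  have hWd : Subgroup.zpowers a ⊓ W = ⊥ := by
    rw [eq_bot_iff]
    intro z hz
    by_contra hz1
    refine haW ?_
    have hz' : Subgroup.zpowers z = Subgroup.zpowers a :=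
      Subgroup.eq_of_le_of_card_ge (Subgroup.zpowers_le.mpr hz.1) (le_of_eq (by
        rw [Nat.card_zpowers, Nat.card_zpowers, orderOf_eq_of_elem hA haA ha1,
          orderOf_eq_of_elem hA (hWA hz.2) (fun h => hz1 (h ▸ Subgroup.one_mem _))]))
    exact Subgroup.zpowers_le.mpr hz.2 (hz' ▸ Subgroup.mem_zpowers a)
  have hWsup : Subgroup.zpowers a ⊔ W = A := by
    refine le_antisymm (sup_le hza hWA) fun x hx => ?_
    by_cases hxW : x ∈ W
    · exact Subgroup.mem_sup_right hxW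
    have haWx : a ∈ W ⊔ Subgroup.zpowers x := by
      by_contra hn
      exact hxW (hWmax ⟨sup_le hWA (Subgroup.zpowers_le.mpr hx), hn⟩ le_sup_left
        (Subgroup.mem_sup_right (Subgroup.mem_zpowers x)))
    have hn : Subgroup.zpowers x ≤ Subgroup.normalizer (W : Set G) := fun z hz =>
      Subgroup.centralizer_le_normalizer _ (Subgroup.mem_centralizer_iff.mpr fun w hw =>
        BGUniqueness.elemAb_comm hA (hWA hw) (Subgroup.zpowers_le.mpr hx hz))
    rw [← SetLike.mem_coe, Subgroup.coe_mul_of_right_le_normalizer_left _ _ hn] at haWx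
    obtain ⟨w, hw, y, hy, hwy⟩ := haWx
    have hy1 : y ≠ 1 := fun h => haW (by rw [← hwy, h]; simpa using hw)
    have hy' : Subgroup.zpowers y = Subgroup.zpowers x :=
      Subgroup.eq_of_le_of_card_ge (Subgroup.zpowers_le.mpr hy) (le_of_eq (by
        rw [Nat.card_zpowers, Nat.card_zpowers,
          orderOf_eq_of_elem hA hx (fun h => hxW (h ▸ W.one_mem)),
          orderOf_eq_of_elem hA (Subgroup.zpowers_le.mpr hx hy) hy1]))
    have hyS : y ∈ Subgroup.zpowers a ⊔ W := by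
      have hy2 : y = w⁻¹ * a := eq_inv_mul_iff_mul_eq.mpr hwy
      rw [hy2]
      exact mul_mem (Subgroup.mem_sup_right (W.inv_mem hw))
        (Subgroup.mem_sup_left (Subgroup.mem_zpowers a))
    exact Subgroup.zpowers_le.mpr hyS (hy' ▸ Subgroup.mem_zpowers x)
  have hWcard : Nat.card W = p ^ 2 := by
    have := BGAppendix.card_sup_eq_mul _ _ hWn hWd
    rw [hWsup, hcard, Nat.card_zpowers, orderOf_eq_of_elem hA haA ha1, pow_succ'] at this
    exact (Nat.eq_of_mul_eq_mul_left hp.pos this).symm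
  have hWe := BGUniqueness.elemAb_mono hA hWA
  haveI := hWe.1
  obtain ⟨b, hbW, hb1, hbX⟩ : ∃ b ∈ W, b ≠ 1 ∧
      ¬ (X ⊓ Subgroup.centralizer ({a} : Set G)) ⊓ Subgroup.centralizer ({b} : Set G) ≤ D := by
    by_contra hcon
    push Not at hcon
    refine haX (CoprimeAction.le_of_centralizers ((BGUniqueness.elemAb_not_isCyclic_iff hWe).mpr
      hWcard.ge) ?_ (IsPGroup.coprime_card_of_ne p q hpq _ _ (hpA.to_le hWA) (hX.to_le inf_le_left)) hcon)
    exact BGAppendix.le_normalizer_inf (hWA.trans hAX) ((hWA.trans hAa).trans Subgroup.le_normalizer)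
  refine ⟨Subgroup.zpowers a ⊔ Subgroup.zpowers b, sup_le hza (Subgroup.zpowers_le.mpr (hWA hbW)), ?_, fun hle => hbX (le_trans ?_ hle)⟩
  · obtain ⟨n, hn⟩ := BGUniqueness.elemAb_card (BGUniqueness.elemAb_mono hA
      (sup_le hza (Subgroup.zpowers_le.mpr (hWA hbW))))
    have hlt : Subgroup.zpowers a < Subgroup.zpowers a ⊔ Subgroup.zpowers b := by
      refine lt_of_le_of_ne le_sup_left fun h => hb1 ?_
      have : b ∈ Subgroup.zpowers a ⊓ W :=
        ⟨h.symm ▸ Subgroup.mem_sup_right (Subgroup.mem_zpowers b), hbW⟩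
      rwa [hWd, Subgroup.mem_bot] at this
    have h1 : Nat.card ↥(Subgroup.zpowers a) < Nat.card ↥(Subgroup.zpowers a ⊔ Subgroup.zpowers b) :=
      Set.Finite.card_lt_card (Set.toFinite _) hlt
    rw [Nat.card_zpowers, orderOf_eq_of_elem hA haA ha1, hn] at h1
    rw [hn]
    refine Nat.pow_le_pow_right hp.pos ?_
    by_contra hn2
    exact absurd h1 (not_lt.mpr ((Nat.pow_le_pow_right hp.pos (by omega : n ≤ 1)).trans (le_of_eq (pow_one p))))
  · rintro x ⟨⟨hxX, hxa⟩, hxb⟩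
    refine ⟨hxX, ?_⟩
    have : Subgroup.zpowers a ⊔ Subgroup.zpowers b ≤ Subgroup.centralizer ({x} : Set G) :=
      sup_le (Subgroup.zpowers_le.mpr (Subgroup.mem_centralizer_singleton_iff.mpr
          (Subgroup.mem_centralizer_singleton_iff.mp hxa).symm))
        (Subgroup.zpowers_le.mpr (Subgroup.mem_centralizer_singleton_iff.mpr
          (Subgroup.mem_centralizer_singleton_iff.mp hxb).symm))
    exact Subgroup.mem_centralizer_iff.mpr fun y hy => Subgroup.mem_centralizer_singleton_iff.mp (this hy)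

theorem le_core_of_invariant
    (hloc : ∀ T : Subgroup G, IsPGroup p T → T ≠ ⊥ → Cfsg.IsPConstrained p ↥(Subgroup.normalizer (T : Set G)))
    (h2 : p = 2 → ∀ P : Subgroup G, IsPGroup p P → ∀ a ∈ P, ∀ b ∈ P, ∀ c ∈ P,
      ⁅a, b⁆ * c = c * ⁅a, b⁆)
    {E Y : Subgroup G} (hE : IsPGroup p E) (hEc : IsMulCommutative E)
    (hfull : ∀ x ∈ Subgroup.centralizer (E : Set G), IsPGroup p (Subgroup.zpowers x) → x ∈ E)
    {a : G} (haE : a ∈ E) (ha1 : a ≠ 1) (hY : (Nat.card Y).Coprime p)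
    (hEY : E ≤ Subgroup.normalizer (Y : Set G))
    (hYN : Y ≤ Subgroup.normalizer (Subgroup.zpowers a : Set G)) :
    Y ≤ (pPrimeCore p ↥(Subgroup.normalizer (Subgroup.zpowers a : Set G))).map
      (Subgroup.normalizer (Subgroup.zpowers a : Set G)).subtype := by
  have hz : IsPGroup p (Subgroup.zpowers a) := hE.to_le (Subgroup.zpowers_le.mpr haE)
  have hcons := hloc _ hz (fun h => ha1 (Subgroup.zpowers_eq_bot.mp h))
  let N := Subgroup.normalizer (Subgroup.zpowers a : Set G)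
  haveI := hEc
  have hEN : E ≤ N := by
    refine le_trans (fun x hx => ?_) (centralizer_singleton_le_normalizer a)
    exact Subgroup.mem_centralizer_singleton_iff.mpr
      (congrArg Subtype.val (hEc.is_comm.comm ⟨x, hx⟩ ⟨a, haE⟩))
  have hmap : ∀ x : N, Subgroup.zpowers (x : G) = (Subgroup.zpowers x).map N.subtype := fun x =>
    (MonoidHom.map_zpowers N.subtype x).symm
  refine Cores.le_map_subtype_of_subgroupOf_le hYN (BGTypes.le_pPrimeCore_of_invariant hcons
    (E := E.subgroupOf N) (hE.of_equiv (Subgroup.subgroupOfEquivOfLe hEN).symm) inferInstance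
    (fun x hx hxp => ?_) (by rwa [Nat.card_congr (Subgroup.subgroupOfEquivOfLe hYN).toEquiv]) ?_ ?_)
  · refine hfull x (Subgroup.mem_centralizer_iff.mpr fun e he => ?_) (hmap x ▸ hxp.map N.subtype)
    exact congrArg Subtype.val (Subgroup.mem_centralizer_iff.mp hx ⟨e, hEN he⟩ he)
  · intro e he
    refine Subgroup.mem_normalizer_iff.mpr fun n => ?_
    exact Subgroup.mem_normalizer_iff.mp (hEY he) (n : G)
  · intro hp P hP a ha b hb c hc
    exact Subtype.ext (h2 hp (P.map N.subtype) (hP.map _) _ ⟨a, ha, rfl⟩ _ ⟨b, hb, rfl⟩ _ ⟨c, hc, rfl⟩)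

/-- Let G be a finite group and p a prime such that the normalizer of every nontrivial p-subgroup of G is p-constrained; if p = 2 assume also that the Sylow 2-subgroups of G have nilpotency class at most 2. Let E be an abelian p-subgroup containing an elementary abelian subgroup of order p ^ 3 and containing every element of p-power order of C_G(E). Then for every prime q ≠ p, any two maximal E-invariant q-subgroups of G are conjugate by an element of O_{p'}(C_G(E)). -/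
theorem result {G : Type*} [Group G] [Finite G] (p : ℕ) [Fact p.Prime]
    (hloc : ∀ T : Subgroup G, IsPGroup p T → T ≠ ⊥ → Cfsg.IsPConstrained p ↥(Subgroup.normalizer (T : Set G)))
    (h2 : p = 2 → ∀ S : Sylow p G, Group.IsNilpotent (S : Subgroup G) ∧ Group.nilpotencyClass (S : Subgroup G) ≤ 2)
    (E : Subgroup G) (hEp : IsPGroup p E) (hEc : IsMulCommutative E) (hE3 : ¬ Cfsg.PRankLE p 2 E)
    (hEfull : ∀ x ∈ Subgroup.centralizer (E : Set G), IsPGroup p (Subgroup.zpowers x) → x ∈ E)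
    (q : ℕ) [Fact q.Prime] (hqp : q ≠ p) :
    ∀ Q₁ ∈ Cfsg.maxInvSubgroups ⊤ E {q}, ∀ Q₂ ∈ Cfsg.maxInvSubgroups ⊤ E {q},
        ∃ k ∈ Cfsg.piCoreOf (Cfsg.primesNotDvd p) (Subgroup.centralizer (E : Set G)), Q₂ = Q₁.map (MulAut.conj k).toMonoidHom := by
  have hp := (Fact.out : p.Prime)
  have hEcen : E ≤ Subgroup.centralizer (E : Set G) := by haveI := hEc; exact Subgroup.le_centralizer E
  have h2' : p = 2 → ∀ P : Subgroup G, IsPGroup p P → ∀ a ∈ P, ∀ b ∈ P, ∀ c ∈ P,
      ⁅a, b⁆ * c = c * ⁅a, b⁆ := by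
    intro hp2 P hP a ha b hb c hc
    obtain ⟨S, hPS⟩ := hP.exists_le_sylow
    obtain ⟨hn, hcl⟩ := h2 hp2 S
    haveI := hn
    have htop : Subgroup.upperCentralSeries (S : Subgroup G) 2 = ⊤ :=
      top_le_iff.mp (le_trans (Subgroup.upperCentralSeries_nilpotencyClass).ge
        (Subgroup.upperCentralSeries_mono _ hcl))
    have h1 : (⟨a, hPS ha⟩ : (S : Subgroup G)) ∈ Subgroup.upperCentralSeries (S : Subgroup G) (1 + 1) := by
      rw [htop]; trivial
    have h3 := Subgroup.mem_upperCentralSeries_succ_iff.mp h1 ⟨b, hPS hb⟩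
    rw [Subgroup.upperCentralSeries_one] at h3
    exact (congrArg Subtype.val (Subgroup.mem_center_iff.mp h3 ⟨c, hPS hc⟩)).symm
  obtain ⟨H, hHC, hHn, hHp, hH⟩ := BGTypes.exists_centralizer_pPrime_part hEp hEc hEfull
  have hHπ : H ≤ Cfsg.piCoreOf (Cfsg.primesNotDvd p) (Subgroup.centralizer (E : Set G)) := by
    refine BGAppendix.le_piCoreOf hHC hHn fun r hr hrd => ⟨hr, fun hrp => ?_⟩
    rw [(Nat.prime_dvd_prime_iff_eq hr hp).mp hrp] at hrd
    exact hp.not_dvd_one ((Nat.dvd_gcd hrd dvd_rfl).trans (dvd_of_eq hHp))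
  obtain ⟨A, hAE, hAe, hAcard⟩ := BGUniqueness.not_pRankLE_subgroup_iff.mp hE3
  suffices key : ∀ n : ℕ, ∀ Q₁ ∈ Cfsg.maxInvSubgroups ⊤ E {q}, ∀ Q₂ ∈ Cfsg.maxInvSubgroups ⊤ E {q},
      Nat.card G ≤ Nat.card ↥(Q₁ ⊓ Q₂) + n → ∃ k ∈ H, Q₂ = Q₁.map (MulAut.conj k).toMonoidHom by
    intro Q₁ hQ₁ Q₂ hQ₂
    obtain ⟨k, hk, he⟩ := key (Nat.card G) Q₁ hQ₁ Q₂ hQ₂ (by omega)
    exact ⟨k, hHπ hk, he⟩
  intro n
  induction n using Nat.strong_induction_on with
  | _ n ih =>
    intro Q₁ hQ₁ Q₂ hQ₂ hn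
    obtain ⟨⟨hp₁, hn₁⟩, hm₁⟩ := BGAppendix.mem_maxInv_iff.mp hQ₁
    obtain ⟨⟨hp₂, hn₂⟩, hm₂⟩ := BGAppendix.mem_maxInv_iff.mp hQ₂
    by_cases he : Q₁ = Q₂
    · exact ⟨1, one_mem _, by rw [BGAppendix.map_conj_one, he]⟩
    obtain ⟨D, hD⟩ : ∃ D, D = Q₁ ⊓ Q₂ := ⟨_, rfl⟩
    rw [← hD] at hn
    have hD1 : D ≤ Q₁ := hD.trans_le inf_le_left
    have hD2 : D ≤ Q₂ := hD.trans_le inf_le_right
    have hDp : IsPGroup q D := hp₁.to_le hD1
    have hED : E ≤ Subgroup.normalizer (D : Set G) := hD ▸ BGAppendix.le_normalizer_inf hn₁ hn₂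
    let X₁ := Q₁ ⊓ Subgroup.normalizer (D : Set G)
    let X₂ := Q₂ ⊓ Subgroup.normalizer (D : Set G)
    have hX₁ : D < X₁ := BGAppendix.lt_inf_normalizer hp₁ (lt_of_le_of_ne hD1 fun e =>
      he (hm₁ Q₂ hp₂ hn₂ (e ▸ hD2)).symm)
    have hX₂ : D < X₂ := BGAppendix.lt_inf_normalizer hp₂ (lt_of_le_of_ne hD2 fun e =>
      he (hm₂ Q₁ hp₁ hn₁ (e ▸ hD1)))
    have hEN : E ≤ Subgroup.normalizer ((Subgroup.normalizer (D : Set G) : Subgroup G) : Set G) :=
      hED.trans Subgroup.le_normalizer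
    obtain ⟨B₁, hB₁A, hB₁c, hB₁⟩ := exists_centralizer_not_le hAe hAcard hqp.symm (hp₁.to_le inf_le_left)
      (hAE.trans (BGAppendix.le_normalizer_inf hn₁ hEN)) hX₁.not_ge
    obtain ⟨B₂, hB₂A, hB₂c, hB₂⟩ := exists_centralizer_not_le hAe hAcard hqp.symm (hp₂.to_le inf_le_left)
      (hAE.trans (BGAppendix.le_normalizer_inf hn₂ hEN)) hX₂.not_ge
    obtain ⟨a, ⟨haB₁, haB₂⟩, ha1⟩ : ∃ a ∈ B₁ ⊓ B₂, a ≠ 1 := by
      by_contra hcon
      push Not at hcon
      have hbot : B₁ ⊓ B₂ = ⊥ := eq_bot_iff.mpr fun x hx => Subgroup.mem_bot.mpr (hcon x hx)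
      have hc := BGAppendix.card_sup_eq_mul B₁ B₂ (fun z hz => Subgroup.centralizer_le_normalizer _
        (Subgroup.mem_centralizer_iff.mpr fun w hw =>
          BGUniqueness.elemAb_comm hAe (hB₂A hw) (hB₁A hz))) hbot
      have h4 : p ^ 2 * p ^ 2 ≤ p ^ 3 := by
        calc p ^ 2 * p ^ 2 ≤ Nat.card B₁ * Nat.card B₂ := Nat.mul_le_mul hB₁c hB₂c
          _ = Nat.card ↥(B₁ ⊔ B₂) := hc.symm
          _ ≤ Nat.card A := Nat.le_of_dvd Nat.card_pos (Subgroup.card_dvd_of_le (sup_le hB₁A hB₂A))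
          _ = p ^ 3 := hAcard
      rw [← pow_add] at h4
      exact absurd h4 (not_le.mpr (Nat.pow_lt_pow_right hp.one_lt (by norm_num)))
    have haE : a ∈ E := hAE (hB₁A haB₁)
    let T₁ := X₁ ⊓ Subgroup.centralizer ({a} : Set G)
    let T₂ := X₂ ⊓ Subgroup.centralizer ({a} : Set G)
    have hT₁ : ¬ T₁ ≤ D := fun h => hB₁ (le_trans (inf_le_inf_left _
      (Subgroup.centralizer_le (Set.singleton_subset_iff.mpr haB₁))) h)
    have hT₂ : ¬ T₂ ≤ D := fun h => hB₂ (le_trans (inf_le_inf_left _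
      (Subgroup.centralizer_le (Set.singleton_subset_iff.mpr haB₂))) h)
    have hEa : E ≤ Subgroup.centralizer ({a} : Set G) := fun e he' =>
      Subgroup.mem_centralizer_singleton_iff.mpr ((Subgroup.mem_centralizer_iff.mp (hEcen he')) a haE).symm
    let N := Subgroup.normalizer (Subgroup.zpowers a : Set G)
    let O := (Cfsg.pPrimeCore p N).map N.subtype
    have hcopq : ∀ T : Subgroup G, IsPGroup q T → (Nat.card T).Coprime p := fun T hT => by
      obtain ⟨i, hi⟩ := IsPGroup.iff_card.mp hT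
      exact hi ▸ ((Nat.coprime_primes Fact.out hp).mpr hqp).pow_left i
    have hT₁n : E ≤ Subgroup.normalizer (T₁ : Set G) := BGAppendix.le_normalizer_inf
      (BGAppendix.le_normalizer_inf hn₁ hEN) (hEa.trans Subgroup.le_normalizer)
    have hT₂n : E ≤ Subgroup.normalizer (T₂ : Set G) := BGAppendix.le_normalizer_inf
      (BGAppendix.le_normalizer_inf hn₂ hEN) (hEa.trans Subgroup.le_normalizer)
    have hT₁p : IsPGroup q T₁ := hp₁.to_le (inf_le_left.trans inf_le_left)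
    have hT₂p : IsPGroup q T₂ := hp₂.to_le (inf_le_left.trans inf_le_left)
    let K := O ⊓ Subgroup.normalizer (D : Set G)
    have hT₁K : T₁ ≤ K := le_inf (le_core_of_invariant hloc h2' hEp hEc hEfull haE ha1 (hcopq _ hT₁p)
      hT₁n (inf_le_right.trans (centralizer_singleton_le_normalizer a))) (inf_le_left.trans inf_le_right)
    have hT₂K : T₂ ≤ K := le_inf (le_core_of_invariant hloc h2' hEp hEc hEfull haE ha1 (hcopq _ hT₂p)
      hT₂n (inf_le_right.trans (centralizer_singleton_le_normalizer a))) (inf_le_left.trans inf_le_right)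
    have hEK : E ≤ Subgroup.normalizer (K : Set G) := by
      refine BGAppendix.le_normalizer_inf ?_ hEN
      exact (hEa.trans (centralizer_singleton_le_normalizer a)).trans
        (Subgroup.le_normalizer.trans (Cores.normalizer_le_normalizer_map_subtype N _))
    have hKp : (Nat.card K).Coprime p := by
      refine Nat.Coprime.coprime_dvd_left (Subgroup.card_dvd_of_le (inf_le_left : K ≤ O)) ?_
      rw [Subgroup.card_map_of_injective N.subtype_injective]
      exact Cores.card_pPrimeCore_coprime p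
    have hc : (Nat.card E).Coprime (Nat.card K) := by
      obtain ⟨i, hi⟩ := IsPGroup.iff_card.mp hEp
      exact hi ▸ hKp.symm.pow_left i
    have hsolv : Group.IsSolvable E := Group.isSolvable_of_comm fun x y => hEc.is_comm.comm x y
    obtain ⟨P₁, hP₁T, hP₁E⟩ := CoprimeAction.exists_invariant_sylow_ge hEK hc (Or.inl hsolv) hT₁K hT₁p hT₁n
    obtain ⟨P₂, hP₂T, hP₂E⟩ := CoprimeAction.exists_invariant_sylow_ge hEK hc (Or.inl hsolv) hT₂K hT₂p hT₂n
    obtain ⟨c, hcC, hcP⟩ := CoprimeAction.invariant_sylow_conj hEK hc (Or.inl hsolv) P₁ P₂ hP₁E hP₂E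
    let R₂ := (P₂ : Subgroup K).map K.subtype
    have hconj : ((P₁ : Subgroup K).map K.subtype).map (MulAut.conj (c : G)).toMonoidHom = R₂ := by
      show _ = (P₂ : Subgroup K).map K.subtype
      rw [← hcP]
      refine Eq.trans ?_ (CoprimeAction.map_conj_subtype c _).symm
      rfl
    have hcH : (c : G) ∈ H := hH c hcC (Nat.Coprime.coprime_dvd_left
      (by rw [Subgroup.orderOf_coe]; exact orderOf_dvd_natCard c) hKp)
    have hR₂D : R₂ ≤ Subgroup.normalizer (D : Set G) := (Subgroup.map_subtype_le _).trans inf_le_right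
    have hRD : IsPGroup q ↥(R₂ ⊔ D) := IsPGroup.to_sup_of_normal_right' (P₂.2.map _) hDp hR₂D
    have hRDn : E ≤ Subgroup.normalizer ((R₂ ⊔ D : Subgroup G) : Set G) := by
      intro e he'
      refine Subgroup.mem_normalizer_iff_map_conj_eq.mpr ?_
      rw [Subgroup.map_sup, Subgroup.mem_normalizer_iff_map_conj_eq.mp (hP₂E he'),
        Subgroup.mem_normalizer_iff_map_conj_eq.mp (hED he')]
    obtain ⟨M, hM, hRM⟩ := BGAppendix.exists_maxInv_ge hRD hRDn
    have hcN : (c : G) ∈ Subgroup.normalizer (E : Set G) := Subgroup.centralizer_le_normalizer _ hcC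
    have step : ∀ P₁ ∈ Cfsg.maxInvSubgroups ⊤ E {q}, ∀ P₂ ∈ Cfsg.maxInvSubgroups ⊤ E {q},
        Nat.card D < Nat.card ↥(P₁ ⊓ P₂) → ∃ k ∈ H, P₂ = P₁.map (MulAut.conj k).toMonoidHom := by
      intro P₁ hP₁ P₂ hP₂ hlt
      have hle : Nat.card ↥(P₁ ⊓ P₂) ≤ Nat.card G :=
        Nat.le_of_dvd Nat.card_pos (Subgroup.card_subgroup_dvd_card _)
      exact ih (n - 1) (by omega) P₁ hP₁ P₂ hP₂ (by omega)
    have hlt₁ : Nat.card D < Nat.card ↥(D ⊔ T₁) :=
      Set.Finite.card_lt_card (Set.toFinite _) (left_lt_sup.mpr hT₁)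
    have hlt₂ : Nat.card D < Nat.card ↥(D ⊔ T₂) :=
      Set.Finite.card_lt_card (Set.toFinite _) (left_lt_sup.mpr hT₂)
    have hDc : D.map (MulAut.conj (c : G)).toMonoidHom = D :=
      Subgroup.mem_normalizer_iff_map_conj_eq.mp c.2.2
    obtain ⟨u, hu, hMu⟩ := step _ (BGAppendix.map_conj_mem_maxInv hcN hQ₁) M hM (by
      rw [← Subgroup.card_map_of_injective (K := D ⊔ T₁) (f := (MulAut.conj (c : G)).toMonoidHom)
        (MulAut.conj (c : G)).injective] at hlt₁
      refine hlt₁.trans_le (Nat.le_of_dvd Nat.card_pos (Subgroup.card_dvd_of_le (le_inf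
        (Subgroup.map_mono (sup_le hD1 (inf_le_left.trans inf_le_left))) ?_)))
      rw [Subgroup.map_sup, hDc]
      exact sup_le (le_sup_right.trans hRM)
        (((Subgroup.map_mono hP₁T).trans hconj.le).trans (le_sup_left.trans hRM)))
    obtain ⟨v, hv, hQv⟩ := step M hM Q₂ hQ₂ (hlt₂.trans_le (Nat.le_of_dvd Nat.card_pos
      (Subgroup.card_dvd_of_le (le_inf (sup_le (le_sup_right.trans hRM) (hP₂T.trans (le_sup_left.trans hRM)))
        (sup_le hD2 (inf_le_left.trans inf_le_left))))))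
    exact ⟨v * (u * c), mul_mem hv (mul_mem hu hcH),
      by rw [hQv, hMu, BGAppendix.map_conj_map, BGAppendix.map_conj_map, mul_assoc]⟩

end Cfsg.Agent.S1480
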