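-- Statement S1481: Cfsg.maximal_local_fitting_two_primes_unique_invariant_sylow
import Cfsg.Statements.S1481
import Cfsg.Agent.Lib.BGTypes.FittingUniqueness
import Cfsg.Agent.S1442

set_option autoImplicit false
set_option linter.style.haveILetI false
open Cfsg

namespace Cfsg.Agent.S1481

open CfsgLib CfsgLib.BGUniqueness

/-- Let G be a finite group and H a local subgroup (the normalizer of a nontrivial subgroup of prime-power order) not properly contained in any local subgroup; let F = F(H), suppose at least two primes divide #F, put X = H ∩ C_G(F), let M ≤ F with F ∩ C_G(M) ≤ M, and let R be a solvable subgroup normalized by M and by X. Then for every prime q not dividing #F there is exactly one maximal M-invariant q-subgroup of R, and it is a Sylow q-subgroup of the largest normal subgroup of R of order coprime to #F. -/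
theorem result {G : Type*} [Group G] [Finite G] (H : Subgroup G) (hH : Cfsg.IsLocalSubgroup H) (hHmax : ∀ L : Subgroup G, Cfsg.IsLocalSubgroup L → H ≤ L → L = H)
    (hF2 : 2 ≤ (Nat.card (Cfsg.fittingOf H)).primeFactors.card)
    (M : Subgroup G) (hM : M ≤ Cfsg.fittingOf H) (hCM : Cfsg.fittingOf H ⊓ Subgroup.centralizer (M : Set G) ≤ M)
    (R : Subgroup G) (hR : Group.IsSolvable R) (hMR : M ≤ Subgroup.normalizer (R : Set G))
    (hXR : H ⊓ Subgroup.centralizer (Cfsg.fittingOf H : Set G) ≤ Subgroup.normalizer (R : Set G))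
    (q : ℕ) [Fact q.Prime] (hq : ¬ q ∣ Nat.card (Cfsg.fittingOf H)) :
    ∃! Q : Subgroup G, Q ∈ Cfsg.maxInvSubgroups R M {q} ∧
      (∀ Q' : Subgroup G, Q' ∈ Cfsg.maxInvSubgroups R M {q} →
        Q' ≤ Cfsg.piCoreOf (Cfsg.primesNotDvd (Nat.card (Cfsg.fittingOf H))) R ∧
        ¬ q ∣ Q'.relIndex (Cfsg.piCoreOf (Cfsg.primesNotDvd (Nat.card (Cfsg.fittingOf H))) R)) := by
  obtain ⟨r₀, hr₀, s₀, hs₀, hne⟩ := Finset.one_lt_card.mp hF2
  have hr₀' := Nat.prime_of_mem_primeFactors hr₀
  have hs₀' := Nat.prime_of_mem_primeFactors hs₀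
  have hr₀d := Nat.dvd_of_mem_primeFactors hr₀
  have hs₀d := Nat.dvd_of_mem_primeFactors hs₀
  have hC : ∀ r : ℕ, r.Prime → r ∣ Nat.card (fittingOf H) →
      Subgroup.centralizer (zIn r H : Set G) ≤ H := fun r hr hd => by
    haveI := Fact.mk hr
    exact (Subgroup.centralizer_le_normalizer _).trans (hHmax _
      ⟨r, zIn r H, hr, zIn_isPGroup r H, zIn_ne_bot (opIn_ne_bot hd), rfl⟩
      (le_normalizer_zIn r H)).le
  have hzM : ∀ r : ℕ, r.Prime → zIn r H ≤ M := fun r hr => by
    haveI := Fact.mk hr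
    exact zIn_le_of_centralizer_le hM hCM r
  have hMH : M ≤ H := hM.trans (fittingOf_le H)
  haveI hRs : Group.IsSolvable R := hR
  haveI hMs : Group.IsSolvable M :=
    haveI := isNilpotent_fittingOf H
    CfsgLib.BGUniqueness.isSolvable_of_le hM inferInstance
  -- invariant subgroups of `R` of order prime to `F` meet `H` trivially
  have hmeet : ∀ Y : Subgroup G, Y ≤ R → M ≤ Subgroup.normalizer (Y : Set G) →
      (Nat.card Y).Coprime (Nat.card (fittingOf H)) → Y ⊓ H = ⊥ := by
    intro Y hYR hMY hYc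
    set Y' := Y ⊓ H with hY'
    have hc : (Nat.card Y').Coprime (Nat.card (fittingOf H)) := coprime_card_of_le hYc inf_le_left
    have hdisj : Y' ⊓ fittingOf H = ⊥ := Subgroup.inf_eq_bot_of_coprime hc
    have hY'H : Y' ≤ Subgroup.normalizer (fittingOf H : Set G) :=
      inf_le_right.trans (le_normalizer_fittingOf H)
    have hMY' : M ≤ Subgroup.normalizer (Y' : Set G) :=
      BGAppendix.le_normalizer_inf hMY (hMH.trans Subgroup.le_normalizer)
    have hMC : M ≤ Subgroup.centralizer (Y' : Set G) := by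
      intro a ha
      refine Subgroup.mem_centralizer_iff.mpr fun y hy => ?_
      have h1 : y * a * y⁻¹ * a⁻¹ ∈ Y' ⊓ fittingOf H :=
        ⟨commutator_mem_left hy (hMY' ha), commutator_mem_right (hM ha) (hY'H hy)⟩
      rw [hdisj, Subgroup.mem_bot] at h1
      calc y * a = (y * a * y⁻¹ * a⁻¹) * a * y := by group
        _ = a * y := by rw [h1, one_mul]
    have hM' : M ≤ fittingOf H ⊓ Subgroup.centralizer (Y' : Set G) := le_inf hM hMC
    have hYF := Cfsg.Agent.S1442.result (fittingOf H) Y' (isNilpotent_fittingOf H) hY'H hc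
      ((inf_le_inf_left _ (Subgroup.centralizer_le (SetLike.coe_subset_coe.mpr hM'))).trans
        (hCM.trans hM'))
    set X₀ := H ⊓ Subgroup.centralizer (fittingOf H : Set G) with hX₀
    set W := R ⊓ X₀ with hW
    have h1 : fittingOf W ≤ fittingOf X₀ :=
      le_fittingOf ((fittingOf_le W).trans inf_le_right)
        ((BGAppendix.le_normalizer_inf hXR Subgroup.le_normalizer).trans
          (normalizer_le_normalizer_fittingOf W)) (isNilpotent_fittingOf W)
    have h2 : fittingOf X₀ ≤ fittingOf H :=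
      le_fittingOf ((fittingOf_le X₀).trans inf_le_left)
        ((le_normalizer_inf_centralizer Subgroup.le_normalizer (le_normalizer_fittingOf H)).trans
          (normalizer_le_normalizer_fittingOf X₀)) (isNilpotent_fittingOf X₀)
    have h3 : W ≤ fittingOf H := by
      refine le_trans (le_trans (le_inf le_rfl ?_)
        (centralizer_fittingOf_le (CfsgLib.BGUniqueness.isSolvable_of_le inf_le_left hR))) (h1.trans h2)
      exact (inf_le_right.trans inf_le_right).trans
        (Subgroup.centralizer_le (SetLike.coe_subset_coe.mpr (h1.trans h2)))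
    rw [← le_bot_iff, ← hdisj]
    exact le_inf le_rfl ((le_inf (inf_le_left.trans hYR) (le_inf inf_le_right hYF)).trans h3)
  haveI hXs : Group.IsSolvable ↥(R ⊔ M) := Balance.isSolvable_sup hMR
  set O := piCoreOf (primesNotDvd (Nat.card (fittingOf H))) R with hO
  have hOR : O ≤ R := BGAppendix.piCoreOf_le _ _
  -- every invariant `q`-subgroup lies in the core
  have hQO : ∀ Q : Subgroup G, Q ≤ R → M ≤ Subgroup.normalizer (Q : Set G) → IsPGroup q Q →
      Q ≤ O := by
    intro Q hQR hMQ hQ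
    have hQc : (Nat.card Q).Coprime (Nat.card (fittingOf H)) := coprime_card_of_pGroup hQ hq
    have h1 := BGTypes.le_piCoreOf_of_zIn_invariant hne ⟨hr₀', hr₀d⟩ ⟨hs₀', hs₀d⟩ hC hXs
      (fun r hr => (hzM r hr).trans le_sup_right) (hQR.trans le_sup_left) hQc
      (fun r hr => (hzM r hr).trans hMQ) (fun s hs hsd => by
        rw [← le_bot_iff, ← hmeet Q hQR hMQ hQc]
        exact inf_le_inf_left _ (hC s hs hsd))
    exact (le_inf h1 hQR).trans (BGAppendix.piCoreOf_inf_le le_sup_left)
  have hOc : (Nat.card O).Coprime (Nat.card (fittingOf H)) :=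
    piSubgroup_primesNotDvd_iff_coprime.mp (BGAppendix.piSubgroup_piCoreOf _ _)
  have hMO : M ≤ Subgroup.normalizer (O : Set G) :=
    hMR.trans (BGAppendix.normalizer_le_normalizer_piCoreOf _ _)
  have hfix : O ⊓ Subgroup.centralizer (M : Set G) = ⊥ := by
    rw [← le_bot_iff, ← hmeet O hOR hMO hOc]
    exact inf_le_inf_left _ ((Subgroup.centralizer_le
      (SetLike.coe_subset_coe.mpr (hzM r₀ hr₀'))).trans (hC r₀ hr₀' hr₀d))
  have hcop : (Nat.card M).Coprime (Nat.card O) :=
    (hOc.coprime_dvd_right (Subgroup.card_dvd_of_le hM)).symm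
  obtain ⟨P, -, hP⟩ := CoprimeAction.exists_invariant_sylow_ge hMO hcop (Or.inl hMs)
    (p := q) (U := ⊥) bot_le IsPGroup.of_bot
    (fun a _ => Subgroup.mem_normalizer_iff.mpr fun y => by simp [Subgroup.mem_bot])
  set S := (P : Subgroup O).map O.subtype with hS
  have htop : ∀ Q : Subgroup G, Q ≤ R → M ≤ Subgroup.normalizer (Q : Set G) → IsPGroup q Q →
      Q ≤ S := by
    intro Q hQR hMQ hQ
    obtain ⟨P', hQP', hP'⟩ := CoprimeAction.exists_invariant_sylow_ge hMO hcop (Or.inl hMs)
      (hQO Q hQR hMQ hQ) hQ hMQ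
    obtain ⟨c, hc, hceq⟩ := CoprimeAction.invariant_sylow_conj hMO hcop (Or.inl hMs) P P' hP hP'
    have hc1 : (c : G) ∈ (⊥ : Subgroup G) := hfix ▸ Subgroup.mem_inf.mpr ⟨c.2, hc⟩
    have hc2 : c = 1 := Subtype.ext (Subgroup.mem_bot.mp hc1)
    rw [hc2, map_one, one_smul] at hceq
    rw [hS, hceq]
    exact hQP'
  have hSinv : S ∈ invSubgroups R M {q} :=
    ⟨(Subgroup.map_subtype_le _).trans hOR,
      BGAppendix.piSubgroup_singleton_iff.mpr (P.isPGroup'.map _), hP⟩
  have hmax : ∀ Q : Subgroup G, Q ∈ maxInvSubgroups R M {q} → Q = S := fun Q hQ =>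
    (hQ.2 S hSinv (htop Q hQ.1.1 hQ.1.2.2 (BGAppendix.piSubgroup_singleton_iff.mp hQ.1.2.1))).symm
  refine ⟨S, ⟨⟨hSinv, fun T hT hST => le_antisymm
    (htop T hT.1 hT.2.2 (BGAppendix.piSubgroup_singleton_iff.mp hT.2.1)) hST⟩, ?_⟩,
    fun Q hQ => hmax Q hQ.1⟩
  intro Q hQ
  rw [hmax Q hQ]
  refine ⟨Subgroup.map_subtype_le _, ?_⟩
  show ¬ q ∣ (((P : Subgroup O).map O.subtype).subgroupOf O).index
  rw [show ((P : Subgroup O).map O.subtype).subgroupOf O = (P : Subgroup O) from
    Subgroup.comap_map_eq_self_of_injective O.subtype_injective _]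
  exact P.not_dvd_index

end Cfsg.Agent.S1481
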