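-- Statement S1482: Cfsg.minsimple_odd_fitting_overgroup_of_center_uniqueness
import Cfsg.Statements.S1482
import Cfsg.Agent.Lib.BGUniqueness.Bender

set_option autoImplicit false
set_option linter.style.haveILetI false
open Cfsg

namespace Cfsg.Agent.S1482

open CfsgLib.BGUniqueness

/-- Let G be a minimal simple group of odd order, H a maximal subgroup whose Fitting subgroup F has at least two prime divisors, and M a subgroup of F containing the centre of F such that the only M-invariant subgroup of G of order coprime to #F is the trivial one. Then H is the only maximal subgroup of G containing M. -/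
theorem result {G : Type*} [Group G] [Finite G] (hG : Cfsg.IsMinSimpleOddOrder G) (H : Subgroup G) (hH : IsCoatom H) (hF2 : 2 ≤ (Nat.card (Cfsg.fittingOf H)).primeFactors.card)
    (M : Subgroup G) (hM : M ≤ Cfsg.fittingOf H) (hZM : Cfsg.fittingOf H ⊓ Subgroup.centralizer (Cfsg.fittingOf H : Set G) ≤ M)
    (hinv : ∀ Y ∈ Cfsg.invSubgroups ⊤ M (Cfsg.primesNotDvd (Nat.card (Cfsg.fittingOf H))), Y = ⊥) :
    ∀ L : Subgroup G, IsCoatom L → M ≤ L → L = H := by
  intro L hL hML
  have hHs := isSolvable_of_ne_top hG hH.1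
  have hLs := isSolvable_of_ne_top hG hL.1
  obtain ⟨r₀, hr₀, s₀, hs₀, hne⟩ := Finset.one_lt_card.mp hF2
  have hr₀' := Nat.prime_of_mem_primeFactors hr₀
  have hs₀' := Nat.prime_of_mem_primeFactors hs₀
  have hr₀d := Nat.dvd_of_mem_primeFactors hr₀
  have hs₀d := Nat.dvd_of_mem_primeFactors hs₀
  have hzM : ∀ r : ℕ, r.Prime → zIn r H ≤ M := fun r hr => by
    haveI := Fact.mk hr
    exact (le_inf ((zIn_le r H).trans (opIn_le_fittingOf r H))
      (zIn_le_centralizer_fittingOf r H)).trans hZM
  -- the prime cores of `L` lie in `H`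
  have hπ : ∀ t : ℕ, t.Prime → ¬ t ∣ Nat.card (fittingOf H) → opIn t L = ⊥ := fun t ht hd => by
    haveI := Fact.mk ht
    refine hinv _ ⟨le_top, ?_, hML.trans (le_normalizer_opIn t L)⟩
    exact piSubgroup_primesNotDvd_iff_coprime.mpr (coprime_card_of_pGroup (isPGroup_opIn t L) hd)
  have hLH : ∀ t : ℕ, t.Prime → opIn t L ≤ H := by
    intro t ht
    haveI := Fact.mk ht
    by_cases hd : t ∣ Nat.card (fittingOf H)
    · obtain ⟨s, hst, hs, hsd⟩ := exists_ne_prime hne ⟨hr₀', hr₀d⟩ ⟨hs₀', hs₀d⟩ t
      haveI := Fact.mk hs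
      have h1 := zIn_le_centralizer_pGroup hG hH hst.symm (opIn_ne_bot hd) (isPGroup_opIn t L)
        (((hzM t ht).trans hML).trans (le_normalizer_opIn t L))
        (((hzM s hs).trans hML).trans (le_normalizer_opIn t L))
      exact (Subgroup.le_centralizer_iff.mp h1).trans (centralizer_zIn_le hG hH (opIn_ne_bot hsd))
    · rw [hπ t ht hd]; exact bot_le
  -- `O_a(F(H)) ∩ L` centralises `O_b(L)` for `b ≠ a`
  have hmeet : ∀ a b : ℕ, a.Prime → b.Prime → a ≠ b →
      opIn a H ⊓ L ≤ Subgroup.centralizer (opIn b L : Set G) := by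
    intro a b ha hb hab
    haveI := Fact.mk ha
    haveI := Fact.mk hb
    refine le_centralizer_of_disjoint (inf_le_right.trans (le_normalizer_opIn b L)) ?_ ?_
    · intro y hy
      exact CfsgLib.CoprimeAction.mem_normalizer_of_conj_mem fun x hx =>
        ⟨CfsgLib.CoprimeAction.conj_mem (le_normalizer_opIn a H (hLH b hb hy)) hx.1,
          CfsgLib.CoprimeAction.conj_mem (Subgroup.le_normalizer (H := L) (opIn_le b L hy)) hx.2⟩
    · exact le_bot_iff.mp ((inf_le_inf_right _ inf_le_left).trans
        (Subgroup.inf_eq_bot_of_coprime (coprime_card_opIn hab H L)).le)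
  -- every prime of `F(H)` divides the order of `F(L)`
  have hin : ∀ a : ℕ, a.Prime → a ∣ Nat.card (fittingOf H) → opIn a L ≠ ⊥ := by
    intro a ha had e
    haveI := Fact.mk ha
    have h1 : opIn a H ⊓ L ≤ Subgroup.centralizer (fittingOf L : Set G) := by
      rw [Subgroup.le_centralizer_iff]
      refine fittingOf_le_of_opIn_le fun t ht _ => ?_
      rw [Subgroup.le_centralizer_iff]
      rcases eq_or_ne a t with rfl | hat
      · rw [e]
        exact fun x _ => Subgroup.mem_centralizer_iff.mpr fun y hy => by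
          rw [SetLike.mem_coe, Subgroup.mem_bot] at hy; simp [hy]
      · exact hmeet a t ha ht hat
    have h2 : opIn a H ⊓ L ≤ fittingOf L :=
      (le_inf inf_le_right h1).trans (centralizer_fittingOf_le hLs)
    have h3 : opIn a H ⊓ L ≤ opIn a L :=
      le_opIn_of_le_fittingOf ((isPGroup_opIn a H).to_le inf_le_left) h2
    apply zIn_ne_bot (opIn_ne_bot had)
    rw [← le_bot_iff, ← e]
    exact (le_inf (zIn_le a H) ((hzM a ha).trans hML)).trans h3
  have hnormL : ∀ a : ℕ, a.Prime → a ∣ Nat.card (fittingOf H) →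
      Subgroup.normalizer (opIn a L : Set G) = L := fun a ha had =>
    normalizer_eq_of_coatom hG hL (opIn_le a L) (hin a ha had) (le_normalizer_opIn a L)
  -- cross centralisation
  have hcross : ∀ a b : ℕ, a.Prime → b.Prime → a ≠ b →
      opIn b L ≤ Subgroup.centralizer (opIn a H : Set G) := by
    intro a b ha hb hab
    haveI := Fact.mk ha
    haveI := Fact.mk hb
    by_cases had : a ∣ Nat.card (fittingOf H)
    · refine CfsgLib.CoprimeAction.pxq (p := a) (isPGroup_opIn a L)
        (not_dvd_iff_coprime.mp (not_dvd_card_of_ne hab L)) (isPGroup_opIn a H)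
        (opIn_le_centralizer hab L) ((hLH a ha).trans (le_normalizer_opIn a H))
        ((hLH b hb).trans (le_normalizer_opIn a H)) ?_
      refine le_trans (le_inf inf_le_left ?_) (hmeet a b ha hb hab)
      exact inf_le_right.trans ((Subgroup.centralizer_le_normalizer _).trans (hnormL a ha had).le)
    · have : opIn a H = ⊥ := by
        by_contra h
        exact had (dvd_card_fittingOf_of_opIn_ne_bot h)
      rw [this]
      exact fun x _ => Subgroup.mem_centralizer_iff.mpr fun y hy => by
        rw [SetLike.mem_coe, Subgroup.mem_bot] at hy; simp [hy]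
  have hFH : fittingOf L ≤ H := fittingOf_le_of_opIn_le fun t ht _ => hLH t ht
  have hFL : fittingOf H ≤ L := fittingOf_le_of_opIn_le fun t ht _ => by
    obtain ⟨b, hbt, hb, hbd⟩ := exists_ne_prime hne ⟨hr₀', hr₀d⟩ ⟨hs₀', hs₀d⟩ t
    exact ((Subgroup.le_centralizer_iff.mp (hcross t b ht hb hbt.symm)).trans
      (Subgroup.centralizer_le_normalizer _)).trans (hnormL b hb hbd).le
  haveI := Fact.mk hr₀'
  haveI := Fact.mk hs₀'
  exact eq_of_mutual_fitting hG hH hL hne (opIn_ne_bot hr₀d) (opIn_ne_bot hs₀d)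
    (hin r₀ hr₀' hr₀d) (hin s₀ hs₀' hs₀d) hFL hFH hcross

end Cfsg.Agent.S1482
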