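import Cfsg.Statements.S1483
import Cfsg.Agent.Lib.BGTypes.CNMinSimple

set_option autoImplicit false
open Cfsg

namespace Cfsg.Agent.S1483

/-- Let G be a minimal simple group of odd order in which every non-identity element has nilpotent centralizer. Then any two nilpotent subgroups each contained in no larger nilpotent subgroup are either conjugate or of coprime orders; and for primes p, q, r: if some elements x, y ≠ 1 of p-power and q-power order commute, and some elements y', z ≠ 1 of q-power and r-power order commute, then some elements of p-power and r-power order, both ≠ 1, commute. -/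
theorem result {G : Type*} [Group G] [Finite G] (hG : Cfsg.IsMinSimpleOddOrder G) (hCN : Cfsg.IsCNGroup G) :
    (∀ H₁ H₂ : Subgroup G, (Group.IsNilpotent ↥H₁ ∧ ∀ L : Subgroup G, Group.IsNilpotent L → H₁ ≤ L → L = H₁) → (Group.IsNilpotent ↥H₂ ∧ ∀ L : Subgroup G, Group.IsNilpotent L → H₂ ≤ L → L = H₂) → (∃ g : G, H₂ = H₁.map (MulAut.conj g).toMonoidHom) ∨ (Nat.card H₁).Coprime (Nat.card H₂)) ∧
      ∀ (p q r : ℕ), p.Prime → q.Prime → r.Prime → ∀ (x y y' z : G), x ≠ 1 → y ≠ 1 → y' ≠ 1 → z ≠ 1 →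
        IsPGroup p (Subgroup.zpowers x) → IsPGroup q (Subgroup.zpowers y) → IsPGroup q (Subgroup.zpowers y') → IsPGroup r (Subgroup.zpowers z) →
        x * y = y * x → y' * z = z * y' →
        ∃ x' z' : G, x' ≠ 1 ∧ z' ≠ 1 ∧ IsPGroup p (Subgroup.zpowers x') ∧ IsPGroup r (Subgroup.zpowers z') ∧ x' * z' = z' * x' := by
  refine ⟨fun H₁ H₂ h₁ h₂ => ?_, ?_⟩
  · by_cases hc : (Nat.card H₁).Coprime (Nat.card H₂)
    · exact Or.inr hc
    · obtain ⟨p, hp, hd1, hd2⟩ := Nat.Prime.not_coprime_iff_dvd.mp hc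
      exact Or.inl (CfsgLib.BGTypes.exists_conj_of_dvd hG hCN
        (CfsgLib.BGTypes.isClosedNilpotent_of_max hG hCN h₁.1 h₁.2)
        (CfsgLib.BGTypes.isClosedNilpotent_of_max hG hCN h₂.1 h₂.2) hp hd1 hd2)
  intro p q r hp hq hr x y y' z hx hy hy' hz hxp hyq hy'q hzr hxy hyz
  by_cases hpr : p = r
  · exact ⟨x, x, hx, hx, hxp, hpr ▸ hxp, rfl⟩
  have hdvd : ∀ {K : Subgroup G} {s : ℕ}, s.Prime → ∀ {u : G}, u ∈ K → u ≠ 1 →
      IsPGroup s (Subgroup.zpowers u) → s ∣ Nat.card K := by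
    intro K s hs u huK hu1 hus
    have : Fact s.Prime := ⟨hs⟩
    refine dvd_trans ?_ (Subgroup.card_dvd_of_le (Subgroup.zpowers_le.mpr huK))
    exact hus.card_eq_or_dvd.resolve_left fun e => hu1
      (Subgroup.zpowers_eq_bot.mp (Subgroup.eq_bot_of_card_eq _ e))
  obtain ⟨M₁, hM₁, hyM₁⟩ := CfsgLib.BGTypes.exists_closed_of_ne_one hG hCN hy
  obtain ⟨M₂, hM₂, hy'M₂⟩ := CfsgLib.BGTypes.exists_closed_of_ne_one hG hCN hy'
  have hxM₁ : x ∈ M₁ := hM₁.centralizer_le y hyM₁ hy (Subgroup.mem_centralizer_singleton_iff.mpr hxy)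
  have hzM₂ : z ∈ M₂ := hM₂.centralizer_le y' hy'M₂ hy' (Subgroup.mem_centralizer_singleton_iff.mpr hyz.symm)
  obtain ⟨g, hg⟩ := CfsgLib.BGTypes.exists_conj_of_dvd hG hCN hM₂ hM₁ hq (hdvd hq hy'M₂ hy' hy'q)
    (hdvd hq hyM₁ hy hyq)
  have : Fact p.Prime := ⟨hp⟩
  have : Fact r.Prime := ⟨hr⟩
  have hz' : MulAut.conj g z ∈ M₁ := hg ▸ ⟨z, hzM₂, rfl⟩
  obtain ⟨i, hi⟩ := IsPGroup.iff_card.mp hxp
  obtain ⟨j, hj⟩ := IsPGroup.iff_card.mp hzr
  rw [Nat.card_zpowers] at hi hj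
  refine ⟨x, MulAut.conj g z, hx, fun e => hz ((MulAut.conj g).injective (e.trans (map_one _).symm)),
    hxp, IsPGroup.of_card (n := j) (by rw [Nat.card_zpowers, MulEquiv.orderOf_eq, hj]), ?_⟩
  refine CfsgLib.BGTypes.commute_of_mem_nilpotent hM₁.nilpotent hxM₁ hz' ?_
  rw [MulEquiv.orderOf_eq, hi, hj]
  exact ((Nat.coprime_primes hp hr).mpr hpr).pow i j

end Cfsg.Agent.S1483
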