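import Cfsg.Statements.S1484
import Cfsg.Agent.Lib.BGTypes.CNMinSimple

set_option autoImplicit false
open Cfsg

namespace Cfsg.Agent.S1484

/-- Let G be a minimal simple group of odd order in which every non-identity element has nilpotent centralizer, and M₁, …, M_k maximal subgroups, pairwise non-conjugate, such that every maximal subgroup is conjugate to some M_i. Let H_i be the largest normal nilpotent Hall subgroup of M_i. Then the orders of the H_i are pairwise coprime, their product is the order of G, and every element of G is conjugate to an element of some H_i. -/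
theorem result {G : Type*} [Group G] [Finite G] (hG : Cfsg.IsMinSimpleOddOrder G) (hCN : Cfsg.IsCNGroup G) (k : ℕ) (Mrep : Fin k → Subgroup G) (hmax : ∀ i, IsCoatom (Mrep i))
    (hnc : ∀ i j, i ≠ j → ∀ g : G, Mrep j ≠ (Mrep i).map (MulAut.conj g).toMonoidHom) (hall : ∀ M : Subgroup G, IsCoatom M → ∃ i, ∃ g : G, M = (Mrep i).map (MulAut.conj g).toMonoidHom) :
    (∀ i j, i ≠ j → (Nat.card (Cfsg.fittingHallOf (Mrep i))).Coprime (Nat.card (Cfsg.fittingHallOf (Mrep j)))) ∧
      ∏ i, Nat.card (Cfsg.fittingHallOf (Mrep i)) = Nat.card G ∧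
      ∀ x : G, ∃ i, ∃ g : G, g * x * g⁻¹ ∈ Cfsg.fittingHallOf (Mrep i) := by
  have hK : ∀ i, ∃ K : Subgroup G, CfsgLib.BGTypes.IsClosedNilpotent K ∧
      Mrep i = Subgroup.normalizer (K : Set G) :=
    fun i => CfsgLib.BGTypes.exists_closed_of_coatom hG hCN (hmax i)
  choose K hKc hKn using hK
  have hF : ∀ i, Cfsg.fittingHallOf (Mrep i) = K i := fun i => by
    rw [hKn i]; exact CfsgLib.BGTypes.fittingHallOf_normalizer hG hCN (hKc i)
  simp only [hF]
  -- every closed subgroup is conjugate to some `K i`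
  have hclosed : ∀ M : Subgroup G, CfsgLib.BGTypes.IsClosedNilpotent M →
      ∃ i, ∃ g : G, M = (K i).map (MulAut.conj g).toMonoidHom := by
    intro M hM
    obtain ⟨i, g, hg⟩ := hall _ (CfsgLib.BGTypes.isCoatom_normalizer hG hCN hM)
    refine ⟨i, g, hM.eq_of_normalizer_eq ((hKc i).map g) ?_⟩
    rw [hg, hKn i, Subgroup.map_equiv_normalizer_eq]
  have hcop : ∀ i j, i ≠ j → (Nat.card (K i)).Coprime (Nat.card (K j)) := by
    intro i j hij
    by_contra hc
    obtain ⟨p, hp, hd1, hd2⟩ := Nat.Prime.not_coprime_iff_dvd.mp hc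
    obtain ⟨g, hg⟩ := CfsgLib.BGTypes.exists_conj_of_dvd hG hCN (hKc i) (hKc j) hp hd1 hd2
    apply hnc i j hij g
    rw [hKn i, hKn j, hg, ← Subgroup.map_equiv_normalizer_eq]
  have hsimple := hG.2.1
  have hne : ∃ x : G, x ≠ 1 := exists_ne 1
  refine ⟨hcop, Nat.dvd_antisymm ?_ ?_, ?_⟩
  · have key : ∀ s : Finset (Fin k), ∏ i ∈ s, Nat.card (K i) ∣ Nat.card G := by
      intro s
      induction s using Finset.induction_on with
      | empty => simp
      | insert a t ha ih =>
        rw [Finset.prod_insert ha]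
        exact (Nat.Coprime.prod_right fun j hj => hcop a j fun e => ha (e ▸ hj)).mul_dvd_of_dvd_of_dvd
          (Subgroup.card_subgroup_dvd_card _) ih
    exact key Finset.univ
  · rw [Nat.dvd_iff_prime_pow_dvd_dvd]
    intro p n hp hpn
    rcases Nat.eq_zero_or_pos n with rfl | hn
    · simp
    have : Fact p.Prime := ⟨hp⟩
    let P : Sylow p G := default
    have hpG : p ∣ Nat.card G := (dvd_pow_self p hn.ne').trans hpn
    obtain ⟨x, hx, hx1⟩ := (Subgroup.bot_or_exists_ne_one (P : Subgroup G)).resolve_left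
      (P.ne_bot_of_dvd_card hpG)
    obtain ⟨M, hM, hxM⟩ := CfsgLib.BGTypes.exists_closed_of_ne_one hG hCN hx1
    obtain ⟨a, ha⟩ := IsPGroup.iff_orderOf.mp P.2 ⟨x, hx⟩
    rw [Subgroup.orderOf_mk] at ha
    have hpx : p ∣ orderOf x := by
      rcases Nat.eq_zero_or_pos a with rfl | ha0
      · exact absurd (orderOf_eq_one_iff.mp (by rw [ha, pow_zero])) hx1
      · exact ha ▸ dvd_pow_self p ha0.ne'
    obtain ⟨Q, hQ⟩ := CfsgLib.BGTypes.exists_sylow_le_closed hG hCN hM
      (hpx.trans (Subgroup.orderOf_dvd_natCard M hxM))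
    obtain ⟨i, g, hi⟩ := hclosed M hM
    have h1 : p ^ n ∣ Nat.card M :=
      (Q.pow_dvd_card_of_pow_dvd_card hpn).trans (Subgroup.card_dvd_of_le hQ)
    rw [hi, Subgroup.card_map_of_injective (MulAut.conj g).injective] at h1
    exact h1.trans (Finset.dvd_prod_of_mem _ (Finset.mem_univ i))
  · intro x
    have main : ∀ y : G, y ≠ 1 → ∃ i, ∃ g : G, g * y * g⁻¹ ∈ K i := by
      intro y hy
      obtain ⟨M, hM, hyM⟩ := CfsgLib.BGTypes.exists_closed_of_ne_one hG hCN hy
      obtain ⟨i, g, hi⟩ := hclosed M hM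
      rw [hi] at hyM
      obtain ⟨w, hw, rfl⟩ := hyM
      exact ⟨i, g⁻¹, by simpa [mul_assoc] using hw⟩
    by_cases hx : x = 1
    · obtain ⟨y, hy⟩ := hne
      obtain ⟨i, -, -⟩ := main y hy
      exact ⟨i, 1, by simp [hx]⟩
    · exact main x hx

end Cfsg.Agent.S1484
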