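import Cfsg.Statements.S1487
import Cfsg.Agent.Lib.Coherence.Constituent
import Cfsg.Agent.Lib.Frobenius.Induce

set_option autoImplicit false
open Cfsg

namespace Cfsg.Agent.S1487

/-- Let A ≤ H be normal subgroups of the finite group G and θ an irreducible character of H. Then θ takes the value θ 1 on all of A if and only if the function induced from θ to G takes its value at 1 on all of A. -/
theorem result {G : Type*} [Group G] [Fintype G] (A H : Subgroup G) [A.Normal] [H.Normal] (hAH : A ≤ H) (θ : H → ℂ) (hθ : Cfsg.IsIrrCharacter H θ) : (∀ a : H, (a : G) ∈ A → θ a = θ 1) ↔ (∀ a : G, a ∈ A → Cfsg.indFun H θ a = Cfsg.indFun H θ 1) := by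
  have hcard : (Nat.card H : ℂ) ≠ 0 := Nat.cast_ne_zero.2 Nat.card_pos.ne'
  have hθc := CfsgLib.CharTheory.IsIrrCharacter.isCharacter hθ
  have hmem : ∀ (a : G), a ∈ A → ∀ x : G, x⁻¹ * a * x ∈ A := fun a ha x => by
    simpa using (inferInstance : A.Normal).conj_mem a ha x⁻¹
  have hone : ∀ x : G, Cfsg.extendByZero H θ (x⁻¹ * 1 * x) = θ 1 := fun x => by
    simpa using CfsgLib.Frobenius.extendByZero_coe H θ 1
  constructor
  · intro h a ha
    simp only [Cfsg.indFun]
    congr 1
    refine Finset.sum_congr rfl fun x _ => ?_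
    rw [hone x, CfsgLib.Frobenius.extendByZero_of_mem H θ (hAH (hmem a ha x))]
    exact h _ (hmem a ha x)
  · intro h a ha
    letI : Fintype H := Fintype.ofFinite _
    have h' := h a ha
    simp only [Cfsg.indFun, Finset.sum_congr rfl fun x _ => hone x] at h'
    have hsum := mul_left_cancel₀ (inv_ne_zero hcard) h'
    refine CfsgLib.Coherence.apply_eq_of_re_eq hθc (le_antisymm
      (CfsgLib.Coherence.apply_re_le hθc a) (not_lt.1 fun hlt => ?_))
    have hlt' : (∑ x : G, Cfsg.extendByZero H θ (x⁻¹ * a * x)).re < (∑ _x : G, θ 1).re := by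
      simp only [Complex.re_sum]
      refine Finset.sum_lt_sum (fun x _ => ?_) ⟨1, Finset.mem_univ _, ?_⟩
      · rw [CfsgLib.Frobenius.extendByZero_of_mem H θ (hAH (hmem a ha x))]
        exact CfsgLib.Coherence.apply_re_le hθc _
      · simpa [CfsgLib.Frobenius.extendByZero_coe] using hlt
    rw [hsum] at hlt'
    exact lt_irrefl _ hlt'

end Cfsg.Agent.S1487
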