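import Cfsg.Statements.S1489
import Cfsg.Agent.Lib.Clifford.Basic

set_option autoImplicit false
set_option linter.style.haveILetI false
open Cfsg

namespace Cfsg.Agent.S1489

theorem constituent {G : Type*} [Group G] [Fintype G] (H T : Subgroup G) [Fintype H] [Fintype T] (hHT : H ≤ T)
    (θ : H → ℂ) (ψ : T → ℂ) (hψ : Cfsg.IsClassFunction T ψ)
    (h : Cfsg.classInner (Cfsg.indFun (H.subgroupOf T) (fun x => θ ⟨(x : T), Subgroup.mem_subgroupOf.mp x.2⟩)) ψ ≠ 0) :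
    Cfsg.classInner (fun n : H => ψ ⟨(n : G), hHT n.2⟩) θ ≠ 0 := by
  letI : Fintype (H.subgroupOf T) := Fintype.ofFinite _
  intro h0
  apply h
  rw [CfsgLib.Frobenius.classInner_indFun _ _ _ hψ, CfsgLib.CharTheory.classInner_conj_symm]
  have e := CfsgLib.Clifford.classInner_comp_mulEquiv (Subgroup.subgroupOfEquivOfLe hHT)
    (fun n : H => ψ ⟨(n : G), hHT n.2⟩) θ
  rw [h0] at e
  exact (congrArg _ e).trans (map_zero _)

theorem result {G : Type*} [Group G] [Fintype G] (H T : Subgroup G) [hN : H.Normal] [Fintype T] (θ : H → ℂ) (hθ : Cfsg.IsIrrCharacter H θ) (hT : ∀ g : G, g ∈ T ↔ ∀ h : H, θ ⟨g * h * g⁻¹, hN.conj_mem h h.2 g⟩ = θ h) (hHT : H ≤ T) (ψ ψ' : T → ℂ) (hψ : Cfsg.IsIrrCharacter T ψ) (hψ' : Cfsg.IsIrrCharacter T ψ') (hc : Cfsg.classInner (Cfsg.indFun (H.subgroupOf T) (fun x => θ ⟨(x : T), Subgroup.mem_subgroupOf.mp x.2⟩)) ψ ≠ 0) (hc' : Cfsg.classInner (Cfsg.indFun (H.subgroupOf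 T) (fun x => θ ⟨(x : T), Subgroup.mem_subgroupOf.mp x.2⟩)) ψ' ≠ 0) : Cfsg.IsIrrCharacter G (Cfsg.indFun T ψ) ∧ (Cfsg.indFun T ψ = Cfsg.indFun T ψ' → ψ = ψ') := by
  letI : Fintype H := Fintype.ofFinite _
  have hT' : ∀ g : G, g ∈ T ↔ CfsgLib.Clifford.conjChar H θ g = θ :=
    fun g => (hT g).trans (CfsgLib.Clifford.conjChar_eq_self_iff H θ g).symm
  have h := constituent H T hHT θ ψ (CfsgLib.CharTheory.IsIrrCharacter.isClassFunction hψ) hc
  have h' := constituent H T hHT θ ψ' (CfsgLib.CharTheory.IsIrrCharacter.isClassFunction hψ') hc'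
  exact ⟨(CfsgLib.Clifford.isIrrCharacter_indFun_inertia hθ hT' hHT hψ h).1,
    CfsgLib.Clifford.indFun_inertia_injective hθ hT' hHT hψ hψ' h h'⟩

end Cfsg.Agent.S1489
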