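import Cfsg.Statements.S1493
import Cfsg.Agent.Lib.Coherence.Galois

set_option autoImplicit false
open Cfsg

namespace Cfsg.Agent.S1493

/-- Let G be a finite group of order a * b with a and b coprime, let k be coprime to a, and let χ be a character of G. Then there is a character χ' of G such that χ'(g) = χ(g ^ k) whenever the order of g divides a and χ'(g) = χ(g) whenever the order of g is coprime to a; moreover χ' is irreducible if χ is. -/
theorem result {G : Type*} [Group G] [Finite G] (a b k : ℕ) (hab : Nat.card G = a * b) (hcop : Nat.Coprime a b) (hk : Nat.Coprime k a) (χ : G → ℂ) (hχ : Cfsg.IsCharacter G χ) : ∃ χ' : G → ℂ, Cfsg.IsCharacter G χ' ∧ (Cfsg.IsIrrCharacter G χ → Cfsg.IsIrrCharacter G χ') ∧ (∀ g : G, orderOf g ∣ a → χ' g = χ (g ^ k)) ∧ (∀ g : G, Nat.Coprime (orderOf g) a → χ' g = χ g) := by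
  classical
  letI : Fintype G := Fintype.ofFinite _
  have hG : 0 < a * b := hab ▸ Nat.card_pos
  obtain ⟨k', hka, hkb⟩ := Nat.chineseRemainder hcop k 1
  have hk' : Nat.Coprime k' (a * b) := by
    refine Nat.Coprime.mul_right ?_ ?_
    · rwa [Nat.Coprime, hka.gcd_eq]
    · rw [Nat.Coprime, hkb.gcd_eq, Nat.gcd_one_left]
  haveI : NeZero (a * b) := ⟨hG.ne'⟩
  obtain ⟨σ, hσ⟩ := CfsgLib.CharDegreesTheory.exists_ringAut_complex (a * b) k' hk'
  have hval : ∀ g : G, σ (χ g) = χ (g ^ k') := fun g =>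
    CfsgLib.Coherence.ringAut_apply_character hχ σ k' g fun z hz => hσ z (by
      obtain ⟨c, hc⟩ := hab ▸ (orderOf_dvd_natCard g)
      rw [hc, pow_mul, hz, one_pow])
  refine ⟨fun g => σ (χ g), CfsgLib.Coherence.isCharacter_ringAut hχ σ,
    fun h => CfsgLib.Coherence.isIrrCharacter_ringAut h σ, fun g hg => ?_, fun g hg => ?_⟩
  · show σ (χ g) = _
    rw [hval, pow_eq_pow_iff_modEq.2 (hka.of_dvd hg)]
  · show σ (χ g) = _
    have hb : orderOf g ∣ b := hg.dvd_of_dvd_mul_left (hab ▸ orderOf_dvd_natCard g)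
    rw [hval, pow_eq_pow_iff_modEq.2 (hkb.of_dvd hb), pow_one]

end Cfsg.Agent.S1493
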