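import Cfsg.Statements.S1499
import Cfsg.Agent.Lib.Coherence.Dade

set_option autoImplicit false
open Cfsg

namespace Cfsg.Agent.S1499

/-- Under the Dade hypothesis for (A, L, H), let a, b ∈ A. If an element of the coset a·H(a) is conjugate in G to an element of b·H(b), then a and b are conjugate by an element of L. Moreover the set normaliser of the coset a·H(a) is the centraliser of a. -/
theorem result {G : Type*} [Group G] [Finite G] (A : Set G) (L : Subgroup G) (H : G → Subgroup G) (hD : Cfsg.DadeHypothesis A L H) (a b : G) (ha : a ∈ A) (hb : b ∈ A) : ((∃ u ∈ H a, ∃ v ∈ H b, ∃ g : G, g * (a * u) * g⁻¹ = b * v) → ∃ x ∈ L, x * a * x⁻¹ = b) ∧ Subgroup.normalizer ((fun u : G => a * u) '' (H a : Set G)) = Subgroup.centralizer ({a} : Set G) := by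
  refine ⟨fun ⟨u, hu, v, hv, g, h⟩ => CfsgLib.Coherence.dade_cosets_fusion hD ha hb hu hv h, ?_⟩
  have hcomm : ∀ c ∈ Subgroup.centralizer ({a} : Set G), c * a * c⁻¹ = a := fun c hc =>
    mul_inv_eq_iff_eq_mul.2 (Subgroup.mem_centralizer_singleton_iff.1 hc)
  have hfwd : ∀ c ∈ Subgroup.centralizer ({a} : Set G), ∀ w ∈ (fun u : G => a * u) '' (H a : Set G),
      c * w * c⁻¹ ∈ (fun u : G => a * u) '' (H a : Set G) := by
    rintro c hc w ⟨u, hu, rfl⟩
    refine ⟨c * u * c⁻¹, hD.conj_mem_H a ha c hc u hu, ?_⟩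
    show a * (c * u * c⁻¹) = c * (a * u) * c⁻¹
    conv_lhs => rw [← hcomm c hc]
    group
  ext n
  rw [Subgroup.mem_set_normalizer_iff]
  constructor
  · intro h
    obtain ⟨v, hv, he⟩ := (h a).1 ⟨1, (H a).one_mem, mul_one a⟩
    have h1 := (CfsgLib.Coherence.dade_conj_parts hD ha ha (H a).one_mem hv (g := n)
      (by rw [mul_one]; exact he.symm)).1
    exact Subgroup.mem_centralizer_singleton_iff.2 (mul_inv_eq_iff_eq_mul.1 h1)
  · intro hc w
    refine ⟨hfwd n hc w, fun hw => ?_⟩
    have := hfwd n⁻¹ ((Subgroup.centralizer _).inv_mem hc) _ hw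
    simpa [mul_assoc] using this

end Cfsg.Agent.S1499
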