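import Cfsg.Statements.S1504
import Cfsg.Agent.Lib.Coherence.CyclicTI

set_option autoImplicit false
open Cfsg

namespace Cfsg.Agent.S1504

/-- Let W₁, W₂ be subgroups of a finite group with W₁ ⊓ W₂ = ⊥ whose elements commute, and W = W₁ ⊔ W₂. For linear characters φ, ψ of W with φ trivial on W₂ and ψ trivial on W₁, the function (1 − φ)(1 − ψ) vanishes on W₁ ∪ W₂; and the family of these functions, indexed by pairs (φ, ψ) with φ ≠ 1 ≠ ψ, is linearly independent over ℂ. -/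
theorem result {G : Type*} [Group G] [Finite G] (W₁ W₂ : Subgroup G) (hdisj : W₁ ⊓ W₂ = ⊥) (hcomm : ∀ a ∈ W₁, ∀ b ∈ W₂, a * b = b * a) : (∀ φ ψ : ↥(W₁ ⊔ W₂) →* ℂˣ, (∀ w : ↥(W₁ ⊔ W₂), (w : G) ∈ W₂ → φ w = 1) → (∀ w : ↥(W₁ ⊔ W₂), (w : G) ∈ W₁ → ψ w = 1) → ∀ w : ↥(W₁ ⊔ W₂), ((w : G) ∈ W₁ ∨ (w : G) ∈ W₂) → (1 - (φ w : ℂ) - (ψ w : ℂ) + (φ w : ℂ) * (ψ w : ℂ)) = 0) ∧ LinearIndependent ℂ (fun p : {p : (↥(W₁ ⊔ W₂) →* ℂˣ) × (↥(W₁ ⊔ W₂) →* ℂˣ) // p.1 ≠ 1 ∧ p.2 ≠ 1 ∧ (∀ w : ↥(W₁ ⊔ W₂), (w : G) ∈ W₂ → p.1 w = 1) ∧ (∀ w : ↥(W₁ ⊔ W₂), (w : G) ∈ W₁ → p.2 w = 1)} => fun w : ↥(W₁ ⊔ W₂) => 1 - (p.1.1 w : ℂ) - (p.1.2 w : ℂ) + (p.1.1 w : ℂ) * (p.1.2 w : ℂ)) := by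
  classical
  letI : Fintype ↥(W₁ ⊔ W₂) := Fintype.ofFinite _
  open CfsgLib.Coherence in
  refine ⟨fun φ ψ hφ hψ w hw => alphaFun_eq_zero (φ := φ) (ψ := ψ) hφ hψ hw, ?_⟩
  rw [linearIndependent_iff']
  intro s g hg p hp
  obtain ⟨⟨φ₀, ψ₀⟩, h1, h2, h3, h4⟩ := p
  open CfsgLib.Coherence in
  have key := congrArg (fun f => classInner f (fun w : ↥(W₁ ⊔ W₂) => ((φ₀ * ψ₀ : _ →* ℂˣ) w : ℂ))) hg
  simp only [CfsgLib.Coherence.inner_sum_left, CfsgLib.Coherence.inner_zero_left,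
    CfsgLib.Coherence.inner_smul_left] at key
  rw [Finset.sum_eq_single_of_mem _ hp] at key
  · open CfsgLib.Coherence in
    have h := inner_alphaFun_linear φ₀ ψ₀ (φ₀ * ψ₀)
    have n1 : (1 : ↥(W₁ ⊔ W₂) →* ℂˣ) ≠ φ₀ * ψ₀ := fun e => h1
      (CfsgLib.Coherence.dual_mul_inj hcomm h3 (one_mem _) h4 (one_mem _)
        (e.symm.trans (CfsgLib.Coherence.dual_one_mul _).symm)).1
    have n2 : φ₀ ≠ φ₀ * ψ₀ := fun e => h2
      (CfsgLib.Coherence.dual_mul_inj hcomm h3 h3 h4 (one_mem _)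
        (e.symm.trans (CfsgLib.Coherence.dual_mul_one _).symm)).2
    have n3 : ψ₀ ≠ φ₀ * ψ₀ := fun e => h1
      (CfsgLib.Coherence.dual_mul_inj hcomm h3 (one_mem _) h4 h4
        (e.symm.trans (CfsgLib.Coherence.dual_one_mul _).symm)).1
    rw [if_neg n1, if_neg n2, if_neg n3, if_pos rfl] at h
    change g _ * Cfsg.classInner (CfsgLib.Coherence.alphaFun φ₀ ψ₀) _ = 0 at key
    rw [h] at key
    simpa using key
  · rintro ⟨⟨φ, ψ⟩, k1, k2, k3, k4⟩ - hne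
    have h := CfsgLib.Coherence.inner_alphaFun_linear φ ψ (φ₀ * ψ₀)
    have n1 : (1 : ↥(W₁ ⊔ W₂) →* ℂˣ) ≠ φ₀ * ψ₀ := fun e => h1
      (CfsgLib.Coherence.dual_mul_inj hcomm h3 (one_mem _) h4 (one_mem _)
        (e.symm.trans (CfsgLib.Coherence.dual_one_mul _).symm)).1
    have n2 : φ ≠ φ₀ * ψ₀ := fun e => h2
      (CfsgLib.Coherence.dual_mul_inj hcomm h3 k3 h4 (one_mem _)
        (e.symm.trans (CfsgLib.Coherence.dual_mul_one _).symm)).2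
    have n3 : ψ ≠ φ₀ * ψ₀ := fun e => h1
      (CfsgLib.Coherence.dual_mul_inj hcomm h3 (one_mem _) h4 k4
        (e.symm.trans (CfsgLib.Coherence.dual_one_mul _).symm)).1
    have n4 : φ * ψ ≠ φ₀ * ψ₀ := fun e => hne (Subtype.ext (Prod.ext
      (CfsgLib.Coherence.dual_mul_inj hcomm k3 h3 k4 h4 e).1
      (CfsgLib.Coherence.dual_mul_inj hcomm k3 h3 k4 h4 e).2))
    rw [if_neg n1, if_neg n2, if_neg n3, if_neg n4] at h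
    show g _ * Cfsg.classInner (CfsgLib.Coherence.alphaFun φ ψ) _ = 0
    rw [h]; ring

end Cfsg.Agent.S1504
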