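import Cfsg.Statements.S1507
import Cfsg.Agent.Lib.Coherence.CyclicTI

set_option autoImplicit false
open Cfsg

namespace Cfsg.Agent.S1507

open Classical in
/-- Let W₁, W₂ ≤ G form a self-normalising cyclic subgroup W = W₁ ⊔ W₂ of odd order with Nat.card W₁ < Nat.card W₂, and χ an orthonormal family of irreducible characters of G up to sign, indexed by the linear characters ω of W, with χ_1 = 1, χ_ω = ω on W outside W₁ ∪ W₂, and the induction identity for (1 − φ)(1 − ψ). Let θ be a class function of G vanishing on W outside W₁ ∪ W₂, and suppose fewer than 2 · Nat.card W₁ linear characters ω of W have ⟨θ, χ ω⟩ ≠ 0. Then one of: all ⟨θ, χ ω⟩ vanish; or there are ψ₀ and a with ⟨θ, χ ω⟩ = a when ω ψ₀⁻¹ is trivial on W₂ and 0 otherwise; or there are φ₀ and a with ⟨θ, χ ω⟩ = a when ω φ₀⁻¹ is trivial on W₁ and 0 otherwise. -/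
theorem result {G : Type*} [Group G] [Fintype G] (W₁ W₂ : Subgroup G) (hW : Cfsg.IsSelfNormalizingCyclic W₁ W₂) (hodd : Odd (Nat.card ↥(W₁ ⊔ W₂))) (χ : (↥(W₁ ⊔ W₂) →* ℂˣ) → (G → ℂ)) (hχ : Cfsg.IsCyclicTIFamily W₁ W₂ χ) (hlt : Nat.card W₁ < Nat.card W₂) (θ : G → ℂ) (hθ : Cfsg.IsClassFunction G θ) (hθV : ∀ w : ↥(W₁ ⊔ W₂), (w : G) ∉ W₁ → (w : G) ∉ W₂ → θ w = 0) (hfew : Nat.card {ω : ↥(W₁ ⊔ W₂) →* ℂˣ // Cfsg.classInner θ (χ ω) ≠ 0} < 2 * Nat.card W₁) : (∀ ω, Cfsg.classInner θ (χ ω) = 0) ∨ (∃ (ψ₀ : ↥(W₁ ⊔ W₂) →* ℂˣ) (a : ℂ), ∀ ω, Cfsg.classInner θ (χ ω) = if (∀ w : ↥(W₁ ⊔ W₂), (w : G) ∈ W₂ → (ω * ψ₀⁻¹) w = 1) then a else 0) ∨ (∃ (φ₀ : ↥(W₁ ⊔ W₂) →* ℂˣ) (a : ℂ), ∀ ω, Cfsg.classInner θ (χ ω) = if (∀ w : ↥(W₁ ⊔ W₂), (w : G) ∈ W₁ → (ω * φ₀⁻¹) w = 1) then a else 0) := by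
  classical
  have hcomm := hW.2.2.2.1
  have hdisj := hW.2.2.1
  have hab := CfsgLib.Coherence.isMulCommutative_of_snc hW
  have hm : 2 ≤ Nat.card W₁ := (Subgroup.one_lt_card_iff_ne_bot W₁).2 hW.1
  have ho1 : Odd (Nat.card W₁) := hodd.of_dvd_nat (Subgroup.card_dvd_of_le le_sup_left)
  have ho2 : Odd (Nat.card W₂) := hodd.of_dvd_nat (Subgroup.card_dvd_of_le le_sup_right)
  have hn : Nat.card W₁ + 2 ≤ Nat.card W₂ := by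
    obtain ⟨a, ha⟩ := ho1
    obtain ⟨b, hb⟩ := ho2
    omega
  -- translate "`ω * ρ₀⁻¹` is trivial on a factor"
  have htr : ∀ (K : Subgroup G) (p q r : ↥(W₁ ⊔ W₂) →* ℂˣ),
      p ∈ CfsgLib.Coherence.dualTriv (W₁ ⊔ W₂) K →
      ((∀ w : ↥(W₁ ⊔ W₂), (w : G) ∈ K → (p * q * r⁻¹) w = 1) ↔
        ∀ w : ↥(W₁ ⊔ W₂), (w : G) ∈ K → q w = r w) := by
    intro K p q r hp
    refine forall_congr' fun w => imp_congr_right fun hw => ?_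
    rw [MonoidHom.mul_apply, MonoidHom.mul_apply, MonoidHom.inv_apply, hp w hw, one_mul,
      mul_inv_eq_one]
  have hext : ∀ (K K' : Subgroup G) (q r : ↥(W₁ ⊔ W₂) →* ℂˣ),
      (∀ s : ↥(W₁ ⊔ W₂) →* ℂˣ, s ∈ CfsgLib.Coherence.dualTriv (W₁ ⊔ W₂) K →
        s ∈ CfsgLib.Coherence.dualTriv (W₁ ⊔ W₂) K' → s = 1) →
      q ∈ CfsgLib.Coherence.dualTriv (W₁ ⊔ W₂) K' → r ∈ CfsgLib.Coherence.dualTriv (W₁ ⊔ W₂) K' →
      ((∀ w : ↥(W₁ ⊔ W₂), (w : G) ∈ K → q w = r w) ↔ q = r) := by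
    intro K K' q r hone hq hr
    refine ⟨fun h => ?_, fun h w _ => h ▸ rfl⟩
    have := hone (q * r⁻¹) (fun w hw => by
      rw [MonoidHom.mul_apply, MonoidHom.inv_apply, h w hw, mul_inv_cancel])
      (mul_mem hq (inv_mem hr))
    refine MonoidHom.ext fun w => mul_inv_eq_one.1 ?_
    simpa [MonoidHom.mul_apply] using DFunLike.congr_fun this w
  rcases CfsgLib.Coherence.coeff_trichotomy hW hχ hm hn hθ hθV hfew with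
    h | ⟨ψ₀, hψ₀, a, h⟩ | ⟨φ₀, hφ₀, a, h⟩
  · exact Or.inl h
  · refine Or.inr (Or.inl ⟨ψ₀, a, fun ω => ?_⟩)
    obtain ⟨φ, hφ, ψ, hψ, rfl⟩ := CfsgLib.Coherence.exists_dual_mul_eq hcomm hdisj hab ω
    have hiff : (∀ w : ↥(W₁ ⊔ W₂), (w : G) ∈ W₂ → (φ * ψ * ψ₀⁻¹) w = 1) ↔ ψ = ψ₀ :=
      (htr W₂ φ ψ ψ₀ hφ).trans (hext W₂ W₁ ψ ψ₀
        (fun s s2 s1 => CfsgLib.Coherence.eq_one_of_mem_dualTriv_both hcomm s1 s2) hψ hψ₀)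
    split_ifs with hc
    · exact (h φ hφ ψ hψ).1 (hiff.1 hc)
    · exact (h φ hφ ψ hψ).2 fun e => hc (hiff.2 e)
  · refine Or.inr (Or.inr ⟨φ₀, a, fun ω => ?_⟩)
    obtain ⟨φ, hφ, ψ, hψ, rfl⟩ := CfsgLib.Coherence.exists_dual_mul_eq hcomm hdisj hab ω
    have hsw : φ * ψ = ψ * φ := MonoidHom.ext fun w => mul_comm _ _
    have hiff : (∀ w : ↥(W₁ ⊔ W₂), (w : G) ∈ W₁ → (φ * ψ * φ₀⁻¹) w = 1) ↔ φ = φ₀ := by
      rw [hsw]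
      exact (htr W₁ ψ φ φ₀ hψ).trans (hext W₁ W₂ φ φ₀
        (fun s s1 s2 => CfsgLib.Coherence.eq_one_of_mem_dualTriv_both hcomm s1 s2) hφ hφ₀)
    split_ifs with hc
    · exact (h φ hφ ψ hψ).1 (hiff.1 hc)
    · exact (h φ hφ ψ hψ).2 fun e => hc (hiff.2 e)

end Cfsg.Agent.S1507
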