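import Cfsg.Statements.S1509
import Cfsg.Agent.Lib.Coherence.Signed
import Cfsg.Agent.Lib.Frobenius.Induce

set_option autoImplicit false
open Cfsg

namespace Cfsg.Agent.S1509

/-- Let α, β, γ, δ be functions on a finite group X each of which is an irreducible character or the negative of one, and u, v nonzero real numbers. Suppose ⟨α, β⟩ = ⟨γ, δ⟩ = 0, ⟨α − β, uγ − vδ⟩ = 0, α 1 = β 1 and u γ 1 = v δ 1. Then also ⟨α, γ⟩ = ⟨α, δ⟩ = ⟨β, γ⟩ = ⟨β, δ⟩ = 0. -/
theorem result {X : Type*} [Group X] [Fintype X] (α β γ δ : X → ℂ) (hα : Cfsg.IsIrrCharacter X α ∨ Cfsg.IsIrrCharacter X (-α)) (hβ : Cfsg.IsIrrCharacter X β ∨ Cfsg.IsIrrCharacter X (-β)) (hγ : Cfsg.IsIrrCharacter X γ ∨ Cfsg.IsIrrCharacter X (-γ)) (hδ : Cfsg.IsIrrCharacter X δ ∨ Cfsg.IsIrrCharacter X (-δ)) (u v : ℝ) (hu : u ≠ 0) (hv : v ≠ 0) (hab : Cfsg.classInner α β = 0) (hcd : Cfsg.classInner γ δ = 0) (hmix : Cfsg.classInner (α - β) ((u : ℂ) • γ - (v : ℂ) • δ) = 0) (h1 : α 1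 = β 1) (h2 : (u : ℂ) * γ 1 = (v : ℂ) * δ 1) : Cfsg.classInner α γ = 0 ∧ Cfsg.classInner α δ = 0 ∧ Cfsg.classInner β γ = 0 ∧ Cfsg.classInner β δ = 0 := by
  have hs := fun {a b : X → ℂ} (ha : Cfsg.IsIrrCharacter X a ∨ Cfsg.IsIrrCharacter X (-a))
    (hb : Cfsg.IsIrrCharacter X b ∨ Cfsg.IsIrrCharacter X (-b)) =>
    CfsgLib.Coherence.signed_inner ha hb
  have hu' : (u : ℂ) ≠ 0 := by exact_mod_cast hu
  have hv' : (v : ℂ) ≠ 0 := by exact_mod_cast hv
  simp only [CfsgLib.Coherence.inner_sub_left, CfsgLib.Coherence.inner_sub_right,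
    CfsgLib.Coherence.inner_smul_right, Complex.conj_ofReal] at hmix
  have a1 := CfsgLib.Coherence.signed_apply_one_ne_zero hα
  have b1 := CfsgLib.Coherence.signed_apply_one_ne_zero hβ
  have key : ∀ (A B C D : X → ℂ) (p q : ℂ), p ≠ 0 → q ≠ 0 →
      (Cfsg.IsIrrCharacter X A ∨ Cfsg.IsIrrCharacter X (-A)) →
      (Cfsg.IsIrrCharacter X B ∨ Cfsg.IsIrrCharacter X (-B)) →
      (Cfsg.IsIrrCharacter X C ∨ Cfsg.IsIrrCharacter X (-C)) →
      (Cfsg.IsIrrCharacter X D ∨ Cfsg.IsIrrCharacter X (-D)) →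
      Cfsg.classInner A B = 0 → Cfsg.classInner C D = 0 → A 1 = B 1 → p * C 1 = q * D 1 →
      p * (Cfsg.classInner A C - Cfsg.classInner B C)
        = q * (Cfsg.classInner A D - Cfsg.classInner B D) →
      Cfsg.classInner A C = 0 := by
    intro A B C D p q hp hq hA hB hC hD hAB hCD e1 e2 e3
    by_contra hne
    obtain ⟨s, hCs, hACs⟩ : ∃ s : ℂ, C = s • A ∧ Cfsg.classInner A C = s := by
      rcases hs hA hC with h | ⟨e, h⟩ | ⟨e, h⟩
      · exact absurd h hne
      · exact ⟨1, by rw [e, one_smul], h⟩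
      · exact ⟨-1, by rw [e, neg_one_smul], h⟩
    have hs0 : s ≠ 0 := hACs ▸ hne
    have hBC : Cfsg.classInner B C = 0 := by
      rw [hCs, CfsgLib.Coherence.inner_smul_right, CfsgLib.Frobenius.classInner_comm, hAB]; simp
    have hAD : Cfsg.classInner A D = 0 := by
      have := hCD
      rw [hCs, CfsgLib.Coherence.inner_smul_left, mul_eq_zero] at this
      exact this.resolve_left hs0
    rw [hBC, hACs, hAD] at e3
    obtain ⟨t, hDt, hBDt⟩ : ∃ t : ℂ, D = t • B ∧ Cfsg.classInner B D = t := by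
      rcases hs hB hD with h | ⟨e, h⟩ | ⟨e, h⟩
      · rw [h] at e3
        simp at e3
        exact absurd (e3.resolve_left hp) hs0
      · exact ⟨1, by rw [e, one_smul], h⟩
      · exact ⟨-1, by rw [e, neg_one_smul], h⟩
    rw [hBDt] at e3
    rw [hCs, hDt] at e2
    simp only [Pi.smul_apply, smul_eq_mul, ← e1] at e2
    have hA1 := CfsgLib.Coherence.signed_apply_one_ne_zero hA
    have e4 : p * s = q * t := mul_right_cancel₀ hA1 (by linear_combination e2)
    have : p * s = 0 := by linear_combination (e3 + e4) / 2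
    exact mul_ne_zero hp hs0 this
  have hba : Cfsg.classInner β α = 0 := by
    rw [CfsgLib.Frobenius.classInner_comm, hab]; simp
  have hdc : Cfsg.classInner δ γ = 0 := by
    rw [CfsgLib.Frobenius.classInner_comm, hcd]; simp
  refine ⟨key α β γ δ u v hu' hv' hα hβ hγ hδ hab hcd h1 h2 (by linear_combination hmix),
    key α β δ γ v u hv' hu' hα hβ hδ hγ hab hdc h1 h2.symm (by linear_combination -hmix),
    key β α γ δ u v hu' hv' hβ hα hγ hδ hba hcd h1.symm h2 (by linear_combination -hmix),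
    key β α δ γ v u hv' hu' hβ hα hδ hγ hba hdc h1.symm h2.symm (by linear_combination hmix)⟩

end Cfsg.Agent.S1509
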