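import Cfsg.Statements.S1514
import Cfsg.Agent.Lib.Coherence.Signed
import Cfsg.Agent.S1509

set_option autoImplicit false
open Cfsg

namespace Cfsg.Agent.S1514

/-- Let S be a nonempty set of irreducible characters of the finite group L, closed under complex conjugation and containing no real-valued member, and τ a linear isometry on the integer combinations of S vanishing at 1, with values virtual characters of G vanishing at 1. Then there is a choice R making (S, τ, R) a coherence system. -/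
theorem result {L : Type*} [Group L] [Fintype L] {G : Type*} [Group G] [Fintype G] (S : Set (L → ℂ)) (hS : S.Nonempty) (hirr : ∀ χ ∈ S, Cfsg.IsIrrCharacter L χ) (hconj : ∀ χ ∈ S, Cfsg.conjFun χ ∈ S ∧ Cfsg.conjFun χ ≠ χ) (τ : (L → ℂ) → (G → ℂ)) (hτ : Cfsg.IsLinearIsometryOn (Cfsg.zspanOn S {1}ᶜ) τ) (hτ1 : ∀ α ∈ Cfsg.zspanOn S {1}ᶜ, τ α 1 = 0) : ∃ R : (L → ℂ) → Finset (G → ℂ), Cfsg.IsCoherenceSystem S τ R := by
  classical
  open CfsgLib.Coherence CfsgLib.CharTheory in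
  have hmem : ∀ χ ∈ S, χ - Cfsg.conjFun χ ∈ Cfsg.zspanOn S {1}ᶜ := by
    intro χ hχ
    refine ⟨Submodule.sub_mem _ (Submodule.subset_span hχ) (Submodule.subset_span (hconj χ hχ).1), ?_⟩
    intro x hx
    obtain rfl : x = 1 := by simpa using hx
    obtain ⟨n, -, hn⟩ := CfsgLib.CharTheory.exists_degree_of_isIrr (hirr χ hχ)
    simp [Cfsg.conjFun, hn]
  have hne : ∀ {a b : L → ℂ}, Cfsg.IsIrrCharacter L a → Cfsg.IsIrrCharacter L b →
      Cfsg.classInner a b = 0 → a ≠ b := by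
    rintro a b ha hb h rfl
    rw [CfsgLib.CharTheory.classInner_self_of_isIrr ha] at h
    exact one_ne_zero h
  have hdec : ∀ χ ∈ S, ∃ s : Finset (G → ℂ), s.card = 2 ∧ τ (χ - Cfsg.conjFun χ) = ∑ α ∈ s, α ∧
      (∀ α ∈ s, Cfsg.IsIrrCharacter G α ∨ Cfsg.IsIrrCharacter G (-α)) ∧
      ∀ α ∈ s, ∀ β ∈ s, Cfsg.classInner α β = if α = β then 1 else 0 := by
    intro χ hχ
    refine CfsgLib.Coherence.exists_signed_decomp (hτ.2.2.2 _ (hmem χ hχ)) (by norm_num) ?_
    rw [hτ.2.2.1 _ (hmem χ hχ) _ (hmem χ hχ)]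
    have hc := hirr _ (hconj χ hχ).1
    simp only [CfsgLib.Coherence.inner_sub_left, CfsgLib.Coherence.inner_sub_right,
      CfsgLib.CharTheory.classInner_self_of_isIrr (hirr χ hχ),
      CfsgLib.CharTheory.classInner_self_of_isIrr hc,
      CfsgLib.CharTheory.classInner_eq_zero_of_ne hc (hirr χ hχ) (hconj χ hχ).2,
      CfsgLib.CharTheory.classInner_eq_zero_of_ne (hirr χ hχ) hc (hconj χ hχ).2.symm]
    norm_num
  choose R hR using hdec
  refine ⟨fun χ => if h : χ ∈ S then R χ h else ∅,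
    hS, fun χ hχ => CfsgLib.CharTheory.IsIrrCharacter.isCharacter (hirr χ hχ),
    fun χ hχ => (hconj χ hχ).1, fun χ hχ => (hconj χ hχ).2, hτ, hτ1,
    fun χ hχ φ hφ h => CfsgLib.CharTheory.classInner_eq_zero_of_ne (hirr χ hχ) (hirr φ hφ) h,
    ?_, ?_, ?_, ?_⟩
  · intro χ hχ α hα β hβ
    simp only [dif_pos hχ] at hα hβ
    exact (hR χ hχ).2.2.2 α hα β hβ
  · intro χ hχ α hα
    simp only [dif_pos hχ] at hα
    exact CfsgLib.Coherence.signed_isGeneralized ((hR χ hχ).2.2.1 α hα)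
  · intro χ hχ
    simp only [dif_pos hχ]
    exact (hR χ hχ).2.1
  · intro χ hχ φ hφ h1 h2 α hα β hβ
    simp only [dif_pos hχ] at hβ
    simp only [dif_pos hφ] at hα
    obtain ⟨hcφ, hsφ, hirφ, hoφ⟩ := hR φ hφ
    obtain ⟨hcχ, hsχ, hirχ, hoχ⟩ := hR χ hχ
    obtain ⟨α₁, α₂, hαne, hφs⟩ := Finset.card_eq_two.1 hcφ
    obtain ⟨β₁, β₂, hβne, hχs⟩ := Finset.card_eq_two.1 hcχ
    rw [hφs, Finset.sum_pair hαne] at hsφ
    rw [hχs, Finset.sum_pair hβne] at hsχ
    have eφ : α₁ 1 + α₂ 1 = 0 := by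
      have := hτ1 _ (hmem φ hφ)
      rwa [hsφ] at this
    have eχ : β₁ 1 + β₂ 1 = 0 := by
      have := hτ1 _ (hmem χ hχ)
      rwa [hsχ] at this
    have hmix : Cfsg.classInner (α₁ + α₂) (β₁ + β₂) = 0 := by
      rw [← hsφ, ← hsχ, hτ.2.2.1 _ (hmem φ hφ) _ (hmem χ hχ)]
      have hf := hirr φ hφ
      have hf' := hirr _ (hconj φ hφ).1
      have hx := hirr χ hχ
      have hx' := hirr _ (hconj χ hχ).1
      have n1 := hne hf hx h1
      have n2 := hne hf hx' h2
      have hcc : ∀ a : L → ℂ, Cfsg.conjFun (Cfsg.conjFun a) = a := fun a => funext fun x =>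
        Complex.conj_conj (a x)
      have n3 : Cfsg.conjFun φ ≠ χ := fun e => n2 (by rw [← e, hcc])
      have n4 : Cfsg.conjFun φ ≠ Cfsg.conjFun χ := fun e => n1 (by rw [← hcc φ, e, hcc])
      simp only [CfsgLib.Coherence.inner_sub_left, CfsgLib.Coherence.inner_sub_right, h1, h2,
        CfsgLib.CharTheory.classInner_eq_zero_of_ne hf' hx n3,
        CfsgLib.CharTheory.classInner_eq_zero_of_ne hf' hx' n4, sub_zero]
    have m1 : α₁ ∈ R φ hφ := hφs ▸ Finset.mem_insert_self α₁ _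
    have m2 : α₂ ∈ R φ hφ := hφs ▸ Finset.mem_insert_of_mem (Finset.mem_singleton_self α₂)
    have k1 : β₁ ∈ R χ hχ := hχs ▸ Finset.mem_insert_self β₁ _
    have k2 : β₂ ∈ R χ hχ := hχs ▸ Finset.mem_insert_of_mem (Finset.mem_singleton_self β₂)
    obtain ⟨g1, g2, g3, g4⟩ := Cfsg.Agent.S1509.result α₁ (-α₂) β₁ (-β₂) (hirφ _ m1)
      (CfsgLib.Coherence.signed_neg (hirφ _ m2)) (hirχ _ k1)
      (CfsgLib.Coherence.signed_neg (hirχ _ k2)) 1 1 one_ne_zero one_ne_zero
      (by rw [CfsgLib.Coherence.inner_neg_right, hoφ _ m1 _ m2, if_neg hαne, neg_zero])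
      (by rw [CfsgLib.Coherence.inner_neg_right, hoχ _ k1 _ k2, if_neg hβne, neg_zero])
      (by simp only [Complex.ofReal_one, one_smul, sub_neg_eq_add]; exact hmix)
      (by simp only [Pi.neg_apply]; linear_combination eφ)
      (by simp only [Pi.neg_apply, Complex.ofReal_one, one_mul]; linear_combination eχ)
    rw [CfsgLib.Coherence.inner_neg_right, neg_eq_zero] at g2
    rw [CfsgLib.Coherence.inner_neg_left, neg_eq_zero] at g3
    rw [CfsgLib.Coherence.inner_neg_left, CfsgLib.Coherence.inner_neg_right, neg_neg] at g4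
    rw [hφs, Finset.mem_insert, Finset.mem_singleton] at hα
    rw [hχs, Finset.mem_insert, Finset.mem_singleton] at hβ
    rcases hα with rfl | rfl <;> rcases hβ with rfl | rfl
    exacts [g1, g2, g3, g4]

end Cfsg.Agent.S1514
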