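import Cfsg.Statements.S1515
import Cfsg.Agent.Lib.Coherence.Signed

set_option autoImplicit false
open Cfsg

namespace Cfsg.Agent.S1515

/-- Let (S, τ, R) be a coherence system from L to G, χ ∈ S, and ψ an integer combination of S with ⟨χ, ψ⟩ = ⟨conj χ, ψ⟩ = 0. Let τ₁ be a linear isometry on the integer combinations of χ − ψ and χ − conj χ, with virtual-character values, agreeing with τ on integer multiples of χ − conj χ. Then the sum over α ∈ R χ of the squared absolute values of ⟨τ₁(χ − ψ), α⟩ is at least ⟨χ, χ⟩; and if ⟨τ₁(χ − ψ), τ₁(χ − ψ)⟩ minus that sum is at least ⟨ψ, ψ⟩, then the sum equals ⟨χ, χ⟩ and every ⟨τ₁(χ − ψ), α⟩ with α ∈ R χ is 0 or 1. -/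
theorem result {L : Type*} [Group L] [Fintype L] {G : Type*} [Group G] [Fintype G] (S : Set (L → ℂ)) (τ : (L → ℂ) → (G → ℂ)) (R : (L → ℂ) → Finset (G → ℂ)) (hS : Cfsg.IsCoherenceSystem S τ R) (χ : L → ℂ) (hχ : χ ∈ S) (ψ : L → ℂ) (hψ : ψ ∈ Cfsg.zspan S) (h1 : Cfsg.classInner χ ψ = 0) (h2 : Cfsg.classInner (Cfsg.conjFun χ) ψ = 0) (τ₁ : (L → ℂ) → (G → ℂ)) (hτ₁ : Cfsg.IsLinearIsometryOn (Cfsg.zspan {χ - ψ, χ - Cfsg.conjFun χ}) τ₁) (hagree : ∀ n : ℤ, τ₁ (n • (χ - Cfsg.conjFun χ)) = τ (n • (χ - Cfsg.conjFun χ))) : (Cfsg.classInner χ χ).re ≤ ∑ α ∈ R χ, ‖Cfsg.classInner (τ₁ (χ - ψ)) α‖ ^ 2 ∧ ((Cfsg.classInner ψ ψ).re ≤ (Cfsg.classInner (τ₁ (χ - ψ)) (τ₁ (χ - ψ))).re - ∑ α ∈ R χ, ‖Cfsg.classInner (τ₁ (χ - ψ)) α‖ ^ 2 → (∑ α ∈ R χ, ‖Cfsg.classInner (τ₁ (χ - ψ)) α‖ ^ 2 = (Cfsg.classInner χ χ).re ∧ ∀ α ∈ R χ, Cfsg.classInner (τ₁ (χ - ψ)) α = 0 ∨ Cfsg.classInner (τ₁ (χ - ψ)) α = 1))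 := by
  classical
  have hcm : Cfsg.conjFun χ ∈ S := hS.conj_mem χ hχ
  have hm1 : χ - ψ ∈ Cfsg.zspan {χ - ψ, χ - Cfsg.conjFun χ} := Submodule.subset_span (by simp)
  have hm2 : χ - Cfsg.conjFun χ ∈ Cfsg.zspan {χ - ψ, χ - Cfsg.conjFun χ} :=
    Submodule.subset_span (by simp)
  have hm3 : χ - Cfsg.conjFun χ ∈ Cfsg.zspanOn S {1}ᶜ := by
    refine ⟨Submodule.sub_mem _ (Submodule.subset_span hχ) (Submodule.subset_span hcm), ?_⟩
    intro x hx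
    obtain rfl : x = 1 := by simpa using hx
    obtain ⟨n, hn⟩ := CfsgLib.CharTheory.exists_degree_of_isCharacter (hS.isCharacter χ hχ)
    simp [Cfsg.conjFun, hn]
  have hag : τ₁ (χ - Cfsg.conjFun χ) = ∑ α ∈ R χ, α := by
    have := hagree 1
    rw [one_smul] at this
    rw [this, hS.sum_eq χ hχ]
  have hχc : Cfsg.classInner χ (Cfsg.conjFun χ) = 0 :=
    hS.orthogonal χ hχ _ hcm (hS.conj_ne χ hχ).symm
  have hχc' : Cfsg.classInner (Cfsg.conjFun χ) χ = 0 :=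
    hS.orthogonal _ hcm χ hχ (hS.conj_ne χ hχ)
  have hψχ : Cfsg.classInner ψ χ = 0 := by
    rw [CfsgLib.CharTheory.classInner_conj_symm, h1, map_zero]
  have hψc : Cfsg.classInner ψ (Cfsg.conjFun χ) = 0 := by
    rw [CfsgLib.CharTheory.classInner_conj_symm, h2, map_zero]
  set Φ := τ₁ (χ - ψ)
  have hsum : ∑ α ∈ R χ, Cfsg.classInner Φ α = Cfsg.classInner χ χ := by
    rw [← CfsgLib.Coherence.inner_sum_right, ← hag, hτ₁.2.2.1 _ hm1 _ hm2]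
    simp only [CfsgLib.Coherence.inner_sub_left, CfsgLib.Coherence.inner_sub_right, hχc, hψχ, hψc,
      sub_zero]
  have hint : ∀ α ∈ R χ, ∃ z : ℤ, Cfsg.classInner Φ α = z := fun α hα =>
    CfsgLib.CharTheory.exists_classInner_eq_int (hτ₁.2.2.2 _ hm1) (hS.virtual χ hχ α hα)
  choose! z hz using hint
  have hnorm : ∀ α ∈ R χ, ‖Cfsg.classInner Φ α‖ ^ 2 = ((z α * z α : ℤ) : ℝ) := by
    intro α hα
    rw [hz α hα, Complex.norm_intCast, sq_abs]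
    push_cast; ring
  have hre : (Cfsg.classInner χ χ).re = ((∑ α ∈ R χ, z α : ℤ) : ℝ) := by
    rw [← hsum, Finset.sum_congr rfl hz, Complex.re_sum]
    simp
  have hsq : ∀ α ∈ R χ, z α ≤ z α * z α := fun α _ => by
    rcases le_or_gt (z α) 0 with h | h <;> nlinarith
  rw [Finset.sum_congr rfl hnorm, ← Int.cast_sum]
  refine ⟨by rw [hre]; exact_mod_cast Finset.sum_le_sum hsq, fun hle => ?_⟩
  have htot : (Cfsg.classInner Φ Φ).re = (Cfsg.classInner χ χ).re + (Cfsg.classInner ψ ψ).re := by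
    rw [hτ₁.2.2.1 _ hm1 _ hm1, ← Complex.add_re]
    simp only [CfsgLib.Coherence.inner_sub_left, CfsgLib.Coherence.inner_sub_right, h1, hψχ]
    simp
  rw [htot, hre] at hle
  have hle' : ∑ α ∈ R χ, z α * z α ≤ ∑ α ∈ R χ, z α := by
    have : ((∑ α ∈ R χ, z α * z α : ℤ) : ℝ) ≤ ((∑ α ∈ R χ, z α : ℤ) : ℝ) := by linarith
    exact_mod_cast this
  have heq := le_antisymm hle' (Finset.sum_le_sum hsq)
  refine ⟨by rw [hre, heq], fun α hα => ?_⟩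
  have hz01 : z α * z α = z α := ((Finset.sum_eq_sum_iff_of_le hsq).1 heq.symm α hα).symm
  rcases eq_or_ne (z α) 0 with h0 | h0
  · exact Or.inl (by rw [hz α hα, h0]; simp)
  · refine Or.inr ?_
    rw [hz α hα, mul_left_cancel₀ h0 (hz01.trans (mul_one (z α)).symm)]
    simp

end Cfsg.Agent.S1515
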