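import Cfsg.Statements.S1522
import Cfsg.Agent.S1521
import Cfsg.Agent.Lib.CyclicTI.OutsideZ

set_option autoImplicit false
open Cfsg

namespace Cfsg.Agent.S1522

/-- Let K be a nilpotent normal subgroup of the finite group L of odd order with [K,K] < K < L and L/[K,K] a Frobenius group with kernel K/[K,K] (elements of K outside [K,K] are centralised modulo [K,K] only from inside K); let (S, τ, R) be a coherence system from L to G with S the functions induced from non-principal irreducible characters of K. Let Z be a nontrivial normal subgroup of L contained in the centre of K, and suppose every member of S outside S(Z) is an irreducible character of L. Then S minus S(Z) is the set of irreducible characters χ of L with χ z ≠ χ 1 for some z ∈ Z, and it is coherent. -/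
theorem result {L : Type*} [Group L] [Fintype L] {G : Type*} [Group G] [Fintype G] (K : Subgroup L) [hK : K.Normal] (hsolv : Group.IsSolvable K) (τ : (L → ℂ) → (G → ℂ)) (R : (L → ℂ) → Finset (G → ℂ)) (hS : Cfsg.IsCoherenceSystem (Cfsg.inducedIrrAbove K ⊥) τ R) (hodd : Odd (Nat.card L)) (hnil : Group.IsNilpotent K) (hH₁K : ⁅K, K⁆ < K) (hKL : K < ⊤) (hfrob : ∀ k ∈ K, k ∉ ⁅K, K⁆ → ∀ x : L, x * k * x⁻¹ * k⁻¹ ∈ ⁅K, K⁆ → x ∈ K) (Z : Subgroup L) [Z.Normal] (hZ1 : Z ≠ ⊥) (hZK : Z ≤ K) (hZc : ∀ z ∈ Z, ∀ k ∈ K, z * k = k * z) (hirr : ∀ χ ∈ Cfsg.inducedIrrAbove K ⊥ \ Cfsg.inducedIrrAbove K Z, Cfsg.IsIrrCharacter L χ) : Cfsg.inducedIrrAbove K ⊥ \ Cfsg.inducedIrrAbove K Z = {χ | Cfsg.IsIrrCharacter L χ ∧ ∃ z ∈ Z, χ z ≠ χ 1} ∧ Cfsg.IsCoherent (Cfsg.inducedIrrAbove K ⊥ \ Cfsg.inducedIrrAbove K Z) {1}ᶜ τ := by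
  classical
  refine ⟨CfsgLib.CyclicTI.OutsideZ.eq_setOf K Z hZK hirr, ?_⟩
  have hbK : ((⊥ : Subgroup L).subgroupOf K).Normal := inferInstance
  by_cases hpp : ∃ p m : ℕ, p.Prime ∧ (⊥ : Subgroup L).relIndex K = p ^ m
  · obtain ⟨p, m, hp, hm⟩ := hpp
    rw [Subgroup.relIndex_bot_left] at hm
    have : Fact p.Prime := ⟨hp⟩
    have hH : IsPGroup p K := IsPGroup.of_card hm
    have hr1 : ⁅K, K⁆.relIndex K ≠ 1 := fun h => hH₁K.not_ge (Subgroup.relIndex_eq_one.1 h)
    have hrm : ⁅K, K⁆.relIndex K ∣ p ^ m := hm ▸ Subgroup.index_dvd_card _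
    obtain ⟨i, -, hi⟩ := (Nat.dvd_prime_pow hp).1 hrm
    have hi0 : i ≠ 0 := fun h => hr1 (by rw [hi, h, pow_zero])
    have hm0 : m ≠ 0 := fun h => hr1 (Nat.dvd_one.1 (by rw [h, pow_zero] at hrm; exact hrm))
    have hp2 : p ≠ 2 := fun h => by
      have : 2 ∣ Nat.card L := by
        rw [← h]
        exact (dvd_pow_self p hm0).trans (hm ▸ K.card_subgroup_dvd_card)
      exact (Nat.not_even_iff_odd.2 hodd) (even_iff_two_dvd.2 this)
    have hcop : K.index.Coprime p := by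
      obtain ⟨t, ht⟩ := CfsgLib.CyclicTI.index_dvd_relIndex_sub_one K ⁅K, K⁆ K hH₁K.le hH₁K.le
        (fun n hn k hk => Subgroup.commutator_mem_commutator hk hn)
        (fun n hn hn' x hx => hfrob n hn hn' x hx)
      refine (Nat.coprime_pow_right_iff (Nat.pos_of_ne_zero hi0) _ _).1 ?_
      have : 1 ≤ p ^ i := Nat.one_le_pow _ _ hp.pos
      rw [hi] at ht
      rw [show p ^ i = 1 + K.index * t by omega, Nat.coprime_add_mul_left_right]
      exact Nat.coprime_one_right _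
    have hsub : Cfsg.zspanOn (CfsgLib.CyclicTI.OutsideZ.outSet K Z) ({1}ᶜ : Set L)
        ⊆ Cfsg.zspanOn (Cfsg.inducedIrrAbove K ⊥) ({1}ᶜ : Set L) :=
      fun α hα => ⟨Submodule.span_mono Set.sdiff_subset hα.1, hα.2⟩
    exact CfsgLib.CyclicTI.OutsideZ.coherent K Z hp2 hH hcop hodd hZ1 hZK hZc hirr
      (CfsgLib.CyclicTI.IrrSet.iso_mono Set.sdiff_subset hS.isometry)
      (fun α hα => hS.map_one α (hsub hα))
  · have hnil' : Group.IsNilpotent (↥K ⧸ (⊥ : Subgroup L).subgroupOf K) := by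
      have := hnil
      infer_instance
    have hc := Cfsg.Agent.S1521.result K hsolv τ R hS hodd ⊥ bot_le hnil' ⁅K, K⁆ (sup_bot_eq _).symm
      hH₁K hKL hfrob (Or.inr (Or.inr (Or.inl hpp)))
    obtain ⟨X, hX⟩ : ∃ X : Finset (L → ℂ),
        (↑X : Set (L → ℂ)) = CfsgLib.CyclicTI.OutsideZ.outSet K Z :=
      ⟨(CfsgLib.CyclicTI.OutsideZ.finite K Z).toFinset, Set.Finite.coe_toFinset _⟩
    have hsum := CfsgLib.CyclicTI.OutsideZ.sum_sq K Z hirr X hX
    obtain ⟨φ, hφ⟩ : X.Nonempty := by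
      by_contra h
      rw [Finset.not_nonempty_iff_eq_empty.1 h, Finset.sum_empty, zero_add] at hsum
      have he : 0 < K.index := Nat.pos_of_ne_zero Subgroup.index_ne_zero_of_finite
      have e := (Z.subgroupOf K).card_mul_index
      rw [Nat.card_congr (Subgroup.subgroupOfEquivOfLe hZK).toEquiv] at e
      change Nat.card Z * Z.relIndex K = Nat.card K at e
      rw [← Nat.eq_of_mul_eq_mul_left he hsum] at e
      have h0 : 0 < Z.relIndex K := Nat.pos_of_ne_zero Subgroup.index_ne_zero_of_finite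
      exact hZ1 (Subgroup.card_eq_one.1 (Nat.eq_of_mul_eq_mul_right h0 (e.trans (one_mul _).symm)))
    rw [← Finset.mem_coe, hX] at hφ
    refine CfsgLib.CyclicTI.isCoherent_mono Set.sdiff_subset hc
      (CfsgLib.CyclicTI.CohSys.exists_zero_comb hS Set.sdiff_subset hφ
        ⟨CfsgLib.CyclicTI.conjFun_mem_inducedIrrAbove K hφ.1, fun h => hφ.2 ?_⟩)
    have := CfsgLib.CyclicTI.conjFun_mem_inducedIrrAbove K h
    rwa [CfsgLib.CyclicTI.conjFun_conjFun] at this

end Cfsg.Agent.S1522
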