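import Cfsg.Statements.S1525
import Cfsg.Agent.Lib.Coherence.Dade
import Mathlib.Algebra.Order.Chebyshev
import Mathlib.Analysis.Complex.Basic
-- import your own Cfsg.Agent.* helpers here

set_option autoImplicit false
open Cfsg

namespace Cfsg.Agent.S1525

/-- Under the Dade hypothesis for (A, L, H), let χ be a class function of G and let ψ be a function on L whose value at each a ∈ A is the average of χ over the coset a·H(a). Then (1/|G|) Σ |χ g|² over the elements g of G conjugate into some coset a·H(a) with a ∈ A is at least (1/|L|) Σ_{a ∈ A ∩ L} |ψ a|². -/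
theorem result {G : Type*} [Group G] [Fintype G] (A : Set G) (L : Subgroup G) [Fintype L] (H : G → Subgroup G) (hD : Cfsg.DadeHypothesis A L H) (χ : G → ℂ) (hχ : Cfsg.IsClassFunction G χ) (ψ : L → ℂ) (hψ : ∀ a : L, (a : G) ∈ A → ψ a = (Nat.card (H a) : ℂ)⁻¹ * ∑ᶠ u ∈ (H a : Set G), χ (a * u)) : (Nat.card L : ℝ)⁻¹ * ∑ᶠ a ∈ {a : L | (a : G) ∈ A}, ‖ψ a‖ ^ 2 ≤ (Nat.card G : ℝ)⁻¹ * ∑ᶠ g ∈ {g : G | ∃ a ∈ A, ∃ u ∈ H a, ∃ x : G, x * g * x⁻¹ = a * u}, ‖χ g‖ ^ 2 := by
  classical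
  set w : L → ℂ := fun a => if (a : G) ∈ A then 1 else 0 with hw
  have hwc : Cfsg.IsClassFunction L w := by
    intro g x
    have hiff : ((x * g * x⁻¹ : L) : G) ∈ A ↔ (g : G) ∈ A := by
      constructor
      · intro h
        have h2 := hD.conj_mem (x : G)⁻¹ (inv_mem x.2) _ h
        simpa [mul_assoc] using h2
      · intro h
        simpa using hD.conj_mem (x : G) x.2 _ h
    show (if ((x * g * x⁻¹ : L) : G) ∈ A then (1 : ℂ) else 0) = if (g : G) ∈ A then 1 else 0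
    exact if_congr hiff rfl rfl
  let f : G → ℂ := fun g => ((‖χ g‖ ^ 2 : ℝ) : ℂ)
  have hf : Cfsg.IsClassFunction G f := fun g x => by simp [f, hχ g x]
  have key := CfsgLib.Coherence.dadeIsometry_sum_mul hD hwc hf
  have hτ : ∀ g : G, Cfsg.dadeIsometry A L H w g =
      if g ∈ {g : G | ∃ a ∈ A, ∃ u ∈ H a, ∃ x : G, x * g * x⁻¹ = a * u} then 1 else 0 := by
    intro g
    split_ifs with hg
    · obtain ⟨a, ha, u, hu, x, hx⟩ := hg
      rw [CfsgLib.Coherence.dadeIsometry_apply hD hwc (a := ⟨a, hD.subset ha⟩) ha hu hx]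
      simp [hw, ha]
    · exact CfsgLib.Coherence.dadeIsometry_apply_zero fun a ha x u hu he =>
        hg ⟨a, ha, u, hu, x, he⟩
  have hLHS : (∑ g : G, Cfsg.dadeIsometry A L H w g * f g) =
      ((∑ᶠ g ∈ {g : G | ∃ a ∈ A, ∃ u ∈ H a, ∃ x : G, x * g * x⁻¹ = a * u}, ‖χ g‖ ^ 2 : ℝ) : ℂ) := by
    rw [finsum_mem_eq_finite_toFinset_sum _ (Set.toFinite _), Complex.ofReal_sum]
    simp only [hτ, ite_mul, one_mul, zero_mul, ← Finset.sum_filter]
    exact Finset.sum_congr (by ext g; simp) fun g _ => rfl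
  have hRHS : (∑ a : L, if (a : G) ∈ A then w a * ((Nat.card (H (a : G)) : ℂ)⁻¹ *
      ∑ u : H (a : G), f ((a : G) * u)) else 0) =
      ((∑ a ∈ Finset.univ.filter (fun a : L => (a : G) ∈ A), (Nat.card (H (a : G)) : ℝ)⁻¹ *
        ∑ u : H (a : G), ‖χ ((a : G) * u)‖ ^ 2 : ℝ) : ℂ) := by
    rw [← Finset.sum_filter, Complex.ofReal_sum]
    refine Finset.sum_congr rfl fun a ha => ?_
    simp only [Finset.mem_filter, Finset.mem_univ, true_and] at ha
    simp [hw, ha, f]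
  rw [hLHS, hRHS, ← Complex.ofReal_natCast, ← Complex.ofReal_natCast, ← Complex.ofReal_mul,
    ← Complex.ofReal_mul, Complex.ofReal_inj] at key
  rw [finsum_mem_eq_finite_toFinset_sum _ (Set.toFinite {a : L | (a : G) ∈ A})]
  have hfin : (Set.toFinite {a : L | (a : G) ∈ A}).toFinset =
      Finset.univ.filter (fun a : L => (a : G) ∈ A) := by ext a; simp
  rw [hfin]
  have hbound : ∀ a ∈ Finset.univ.filter (fun a : L => (a : G) ∈ A),
      ‖ψ a‖ ^ 2 ≤ (Nat.card (H (a : G)) : ℝ)⁻¹ * ∑ u : H (a : G), ‖χ ((a : G) * u)‖ ^ 2 := by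
    intro a ha
    simp only [Finset.mem_filter, Finset.mem_univ, true_and] at ha
    rw [hψ a ha, finsum_mem_eq_finite_toFinset_sum _ (Set.toFinite _),
      Finset.sum_subtype (p := fun u => u ∈ H (a : G)) (F := inferInstance) _ (fun u => by simp),
      norm_mul, norm_inv, Complex.norm_natCast, mul_pow]
    have hc : (0 : ℝ) < Nat.card (H (a : G)) := Nat.cast_pos.2 Nat.card_pos
    have h1 : ‖∑ u : H (a : G), χ ((a : G) * u)‖ ^ 2 ≤
        (Nat.card (H (a : G)) : ℝ) * ∑ u : H (a : G), ‖χ ((a : G) * u)‖ ^ 2 := by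
      calc ‖∑ u : H (a : G), χ ((a : G) * u)‖ ^ 2
          ≤ (∑ u : H (a : G), ‖χ ((a : G) * u)‖) ^ 2 :=
            pow_le_pow_left₀ (norm_nonneg _) (norm_sum_le _ _) 2
        _ ≤ _ := by
            have := sq_sum_le_card_mul_sum_sq (s := (Finset.univ : Finset (H (a : G))))
              (f := fun u => ‖χ ((a : G) * u)‖)
            rwa [Finset.card_univ, ← Nat.card_eq_fintype_card] at this
    calc ((Nat.card (H (a : G)) : ℝ)⁻¹) ^ 2 * ‖∑ u : H (a : G), χ ((a : G) * u)‖ ^ 2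
        ≤ ((Nat.card (H (a : G)) : ℝ)⁻¹) ^ 2 * ((Nat.card (H (a : G)) : ℝ) *
            ∑ u : H (a : G), ‖χ ((a : G) * u)‖ ^ 2) :=
          mul_le_mul_of_nonneg_left h1 (sq_nonneg _)
      _ = _ := by rw [← mul_assoc]; congr 1; field_simp
  have hL : (0 : ℝ) < Nat.card L := Nat.cast_pos.2 Nat.card_pos
  have hG : (0 : ℝ) < Nat.card G := Nat.cast_pos.2 Nat.card_pos
  refine (mul_le_mul_of_nonneg_left (Finset.sum_le_sum hbound) (inv_nonneg.2 hL.le)).trans (le_of_eq ?_)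
  rw [inv_mul_eq_div, inv_mul_eq_div, div_eq_div_iff hL.ne' hG.ne']
  linear_combination -key

end Cfsg.Agent.S1525
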