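import Cfsg.Statements.S1527
import Mathlib
-- import your own Cfsg.Agent.* helpers here

set_option autoImplicit false
open Cfsg

namespace Cfsg.Agent.S1527

/-- Let G be a finite group and H i (i in a finite index type) subgroups of pairwise coprime orders, each of whose underlying sets is a TI-subset of G, such that every non-identity element of G is conjugate to an element of some H i. Then Nat.card G − 1 = Σ_i [G : N_G(H i)] · (Nat.card (H i) − 1). -/
theorem result {G : Type*} [Group G] [Finite G] {ι : Type*} [Fintype ι] (H : ι → Subgroup G) (hcop : ∀ i j, i ≠ j → Nat.Coprime (Nat.card (H i)) (Nat.card (H j))) (hTI : ∀ i, Cfsg.IsTISubset (H i : Set G)) (hcover : ∀ g : G, g ≠ 1 → ∃ i, ∃ x : G, x * g * x⁻¹ ∈ H i) : Nat.card G - 1 = ∑ i, (Subgroup.normalizer (H i : Set G)).index * (Nat.card (H i) - 1) := by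
  classical
  haveI : Fintype G := Fintype.ofFinite G
  let N : ι → Subgroup G := fun i => Subgroup.normalizer (H i : Set G)
  let F : (Σ i, (G ⧸ N i) × {h : H i // h ≠ 1}) → {g : G // g ≠ 1} := fun s =>
    ⟨s.2.1.out * (s.2.2.1 : G) * s.2.1.out⁻¹, by
      intro h
      exact s.2.2.2 (Subtype.ext (conj_eq_one_iff.mp h))⟩
  have hinj : Function.Injective F := by
    rintro ⟨i, a, ⟨h, hh⟩⟩ ⟨j, b, ⟨k, hk⟩⟩ he
    have he' : a.out * (h : G) * a.out⁻¹ = b.out * (k : G) * b.out⁻¹ := congrArg Subtype.val he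
    have hh' : (h : G) ≠ 1 := fun x => hh (Subtype.ext x)
    have hk' : (b.out⁻¹ * a.out) * (h : G) * (b.out⁻¹ * a.out)⁻¹ = (k : G) := by
      calc _ = b.out⁻¹ * (a.out * (h : G) * a.out⁻¹) * b.out := by group
        _ = _ := by rw [he']; group
    have hij : i = j := by
      by_contra hne
      apply hh'
      have h1 : orderOf (h : G) ∣ Nat.card (H i) :=
        Subgroup.orderOf_dvd_natCard _ h.2
      have h2 : orderOf (h : G) ∣ Nat.card (H j) := by
        have hsame : orderOf ((b.out⁻¹ * a.out) * (h : G) * (b.out⁻¹ * a.out)⁻¹) = orderOf (h : G) :=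
          (SemiconjBy.orderOf_eq (b.out⁻¹ * a.out)
            (show SemiconjBy (b.out⁻¹ * a.out) (h : G) _ from (inv_mul_cancel_right _ _).symm)).symm
        rw [← hsame, hk']
        exact Subgroup.orderOf_dvd_natCard _ k.2
      exact orderOf_eq_one_iff.mp (Nat.eq_one_of_dvd_coprimes (hcop i j hne) h1 h2)
    subst hij
    have hm : b.out⁻¹ * a.out ∈ N i := by
      by_contra hm
      exact hh' (hTI i _ hm _ h.2 (by rw [hk']; exact k.2))
    have hba : b = a := by
      rw [← b.out_eq', ← a.out_eq']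
      exact (QuotientGroup.eq).mpr hm
    subst hba
    have : h = k := Subtype.ext (by simpa using he')
    subst this
    rfl
  have hsurj : Function.Surjective F := by
    rintro ⟨g, hg⟩
    obtain ⟨i, x, hx⟩ := hcover g hg
    obtain ⟨n, hn⟩ := QuotientGroup.mk_out_eq_mul (N i) x⁻¹
    have hmem : (n : G)⁻¹ * (x * g * x⁻¹) * n ∈ H i :=
      (Subgroup.mem_normalizer_iff''.mp n.2 _).mp hx
    refine ⟨⟨i, (x⁻¹ : G), ⟨⟨_, hmem⟩, ?_⟩⟩, ?_⟩
    · intro h
      apply hg
      have h1 : (n : G)⁻¹ * (x * g * x⁻¹) * n = 1 := congrArg Subtype.val h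
      calc g = x⁻¹ * ((n : G) * ((n : G)⁻¹ * (x * g * x⁻¹) * n) * (n : G)⁻¹) * x := by group
        _ = 1 := by rw [h1]; group
    · apply Subtype.ext
      show _ * ((n : G)⁻¹ * (x * g * x⁻¹) * n) * _ = g
      rw [hn]
      group
  have hcard := Nat.card_congr (Equiv.ofBijective F ⟨hinj, hsurj⟩)
  rw [Nat.card_sigma] at hcard
  have e1 : Nat.card {g : G // g ≠ 1} = Nat.card G - 1 := by
    rw [Nat.card_eq_fintype_card, Fintype.card_subtype_compl, Nat.card_eq_fintype_card]
    simp
  rw [← e1, ← hcard]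
  refine Finset.sum_congr rfl (fun i _ => ?_)
  rw [Nat.card_prod, Subgroup.index]
  congr 1
  haveI : Fintype (H i) := Fintype.ofFinite _
  rw [Nat.card_eq_fintype_card, Fintype.card_subtype_compl, Nat.card_eq_fintype_card]
  simp

end Cfsg.Agent.S1527
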