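import Cfsg.Statements.S1532
import Cfsg.Agent.Lib.CyclicTI.TIInd
import Cfsg.Agent.Lib.CyclicTI.OutsideZ

set_option autoImplicit false
open Cfsg

namespace Cfsg.Agent.S1532

/-- Let G be a finite group, p an odd prime and P a Sylow p-subgroup that is non-abelian, whose underlying set is a TI-subset of G, with P properly contained in its set normaliser N and C_G(x) ≤ P for every non-identity x ∈ P. Let Z be a nontrivial subgroup of the centre of P normalised by N. Then the set of irreducible characters χ of N with χ z ≠ χ 1 for some z ∈ Z is coherent for the map induced by induction from N to G. -/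
theorem result {G : Type*} [Group G] [Fintype G] (p : ℕ) [Fact p.Prime] (hp : p ≠ 2) (P : Sylow p G) (hna : ¬ IsMulCommutative (P : Subgroup G)) (hTI : Cfsg.IsTISubset ((P : Subgroup G) : Set G)) (hlt : (P : Subgroup G) < Subgroup.normalizer ((P : Subgroup G) : Set G)) (hC : ∀ k ∈ (P : Subgroup G), k ≠ 1 → Subgroup.centralizer ({k} : Set G) ≤ (P : Subgroup G)) [Fintype ↥(Subgroup.normalizer ((P : Subgroup G) : Set G))] (Z : Subgroup G) (hZ1 : Z ≠ ⊥) (hZP : ∀ z ∈ Z, z ∈ (P : Subgroup G) ∧ ∀ y ∈ (P : Subgroup G), z * y = y * z) (hZn : ∀ x ∈ Subgroup.normalizer ((P : Subgroup G) : Set G), ∀ z ∈ Z, x * z * x⁻¹ ∈ Z) : Cfsg.IsCoherent {χ : ↥(Subgroup.normalizer ((P : Subgroup G) : Set G)) → ℂ | Cfsg.IsIrrCharacter ↥(Subgroup.normalizer ((P : Subgroup G) : Set G)) χ ∧ ∃ z : ↥(Subgroup.normalizer ((P : Subgroup G) : Set G)), (z : G) ∈ Z ∧ χ z ≠ χ 1} {1}ᶜ (fun α => Cfsg.indFun (Subgroup.normalizer ((P : Subgroup G) : Set G)) α) := by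
  classical
  open CfsgLib.CyclicTI in
  set H := (P : Subgroup G).subgroupOf (Subgroup.normalizer ((P : Subgroup G) : Set G)) with hH
  set Z' := Z.subgroupOf (Subgroup.normalizer ((P : Subgroup G) : Set G)) with hZ'
  have hHn : H.Normal := CfsgLib.CyclicTI.TIInd.subgroupOf_normal fun x hx h hh =>
    (Subgroup.mem_normalizer_iff.1 hx h).1 hh
  have : Z'.Normal := CfsgLib.CyclicTI.TIInd.subgroupOf_normal hZn
  have hKC : CfsgLib.CyclicTI.Frob.KernelCond H :=
    CfsgLib.CyclicTI.TIInd.kernelCond fun k hk hk1 => inf_le_right.trans (hC k hk hk1)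
  have hPL : (P : Subgroup G) ≤ (Subgroup.normalizer ((P : Subgroup G) : Set G)) := Subgroup.le_normalizer
  have hPp : IsPGroup p H := P.2.of_equiv (Subgroup.subgroupOfEquivOfLe hPL).symm
  have hZH : Z' ≤ H := fun z hz => (hZP _ hz).1
  have hP1 : (P : Subgroup G) ≠ ⊥ := fun h => hZ1 (eq_bot_iff.2 fun z hz => by
    have := (hZP z hz).1
    rwa [h] at this)
  have hcop : H.index.Coprime p := by
    obtain ⟨k, hk⟩ := IsPGroup.iff_card.1 hPp
    have h := CfsgLib.CyclicTI.Frob.coprime_index hKC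
    rw [hk] at h
    refine (Nat.coprime_pow_right_iff (Nat.pos_of_ne_zero fun h0 => ?_) _ _).1 h
    subst h0
    rw [pow_zero, Subgroup.card_eq_one, hH, Subgroup.subgroupOf_eq_bot] at hk
    exact hP1 (disjoint_self.1 (hk.mono_right hPL))
  have hodd : Odd (Nat.card (Subgroup.normalizer ((P : Subgroup G) : Set G))) := by
    rw [← H.card_mul_index, Nat.odd_mul]
    obtain ⟨k, hk⟩ := IsPGroup.iff_card.1 hPp
    refine ⟨hk ▸ ((Fact.out : p.Prime).odd_of_ne_two hp).pow, Nat.not_even_iff_odd.1 fun he => hna ?_⟩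
    exact ⟨⟨fun a b => Subtype.ext (congrArg (fun z : (Subgroup.normalizer ((P : Subgroup G) : Set G)) => (z : G))
      (CfsgLib.CyclicTI.Frob.commute_of_even hKC he (a := ⟨a, hPL a.2⟩) (b := ⟨b, hPL b.2⟩)
        a.2 b.2))⟩⟩
  have hirr : ∀ χ ∈ CfsgLib.CyclicTI.OutsideZ.outSet H Z', IsIrrCharacter (Subgroup.normalizer ((P : Subgroup G) : Set G)) χ := fun χ hχ =>
    CfsgLib.CyclicTI.Frob.irr_of_mem hKC hχ.1
  have hiso := CfsgLib.CyclicTI.TIInd.isometry (P : Subgroup G) (Subgroup.normalizer ((P : Subgroup G) : Set G)) hTI le_rfl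
    (S := CfsgLib.CyclicTI.OutsideZ.outSet H Z') Set.sdiff_subset
  have hres := CfsgLib.CyclicTI.OutsideZ.coherent H Z' hp hPp hcop hodd
    (fun h => hZ1 (by
      rw [hZ', Subgroup.subgroupOf_eq_bot] at h
      exact disjoint_self.1 (h.mono_right fun z hz => hPL (hZP z hz).1)))
    hZH (fun z hz k hk => Subtype.ext ((hZP _ hz).2 _ hk)) hirr hiso.1 hiso.2
  rw [CfsgLib.CyclicTI.OutsideZ.eq_setOf H Z' hZH hirr] at hres
  convert hres using 3
  exact ⟨fun ⟨z, h1, h2⟩ => ⟨z, h1, h2⟩, fun ⟨z, h1, h2⟩ => ⟨z, h1, h2⟩⟩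

end Cfsg.Agent.S1532
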