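import Cfsg.Statements.S1533
import Cfsg.Agent.Lib.CyclicTI.TIAlternatives

set_option autoImplicit false
open Cfsg

namespace Cfsg.Agent.S1533

/-- Let G be a finite group, p an odd prime, and P a nontrivial Sylow p-subgroup whose underlying set is a TI-subset of G, with P properly contained in its set normaliser N and C_G(x) ≤ P for every non-identity x ∈ P. Let S be the set of irreducible characters χ of N with χ x ≠ χ 1 for some x ∈ P. Then either S has exactly one member, P is elementary abelian and Nat.card P = [N:P] + 1; or (S, N minus 1, induction to G) is coherent. -/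
theorem result {G : Type*} [Group G] [Fintype G] (p : ℕ) [Fact p.Prime] (hp : p ≠ 2) (P : Sylow p G) (hP1 : (P : Subgroup G) ≠ ⊥) (hTI : Cfsg.IsTISubset ((P : Subgroup G) : Set G)) (hlt : (P : Subgroup G) < Subgroup.normalizer ((P : Subgroup G) : Set G)) (hC : ∀ k ∈ (P : Subgroup G), k ≠ 1 → Subgroup.centralizer ({k} : Set G) ≤ (P : Subgroup G)) [Fintype ↥(Subgroup.normalizer ((P : Subgroup G) : Set G))] : (Nat.card {χ : ↥(Subgroup.normalizer ((P : Subgroup G) : Set G)) → ℂ // Cfsg.IsIrrCharacter ↥(Subgroup.normalizer ((P : Subgroup G) : Set G)) χ ∧ ∃ x : ↥(Subgroup.normalizer ((P : Subgroup G) : Set G)), (x : G) ∈ (P : Subgroup G) ∧ χ x ≠ χ 1} = 1 ∧ Cfsg.IsElementaryAbelian p (P : Subgroup G) ∧ Nat.card (P : Subgroup G) = ((P : Subgroup G).subgroupOf (Subgroup.normalizer ((P : Subgroup G) : Set G))).index + 1) ∨ Cfsg.IsCoherent {χ : ↥(Subgroup.normalizer ((P : Subgroup G) : Set G)) → ℂ | Cfsg.IsIrrCharacter ↥(Subgroup.normalizer ((P : Subgroup G)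 : Set G)) χ ∧ ∃ x : ↥(Subgroup.normalizer ((P : Subgroup G) : Set G)), (x : G) ∈ (P : Subgroup G) ∧ χ x ≠ χ 1} {1}ᶜ (fun α => Cfsg.indFun (Subgroup.normalizer ((P : Subgroup G) : Set G)) α) := by
  classical
  have hn : ((P : Subgroup G).subgroupOf (Subgroup.normalizer ((P : Subgroup G) : Set G))).Normal :=
    CfsgLib.CyclicTI.TIInd.subgroupOf_normal fun x hx h hh => (Subgroup.mem_normalizer_iff.1 hx h).1 hh
  have hPL := hlt.le
  have hKC : CfsgLib.CyclicTI.Frob.KernelCond
      ((P : Subgroup G).subgroupOf (Subgroup.normalizer ((P : Subgroup G) : Set G))) :=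
    CfsgLib.CyclicTI.TIInd.kernelCond fun k hk hk1 => inf_le_right.trans (hC k hk hk1)
  have hnil : Group.IsNilpotent
      ((P : Subgroup G).subgroupOf (Subgroup.normalizer ((P : Subgroup G) : Set G))) :=
    (P.2.of_equiv (Subgroup.subgroupOfEquivOfLe hPL).symm).isNilpotent
  rcases CfsgLib.CyclicTI.TIKernel.alternatives (P : Subgroup G) _ hPL hP1 hlt.ne hnil hKC hTI rfl with
    ⟨h1, h2, q, hq, hcomm, hexp⟩ | ⟨h2, -⟩ | h
  · refine Or.inl ⟨h1, ⟨hcomm, fun a ha => ?_⟩, h2⟩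
    obtain ⟨b, hb, hb1⟩ := (Subgroup.bot_or_exists_ne_one _).resolve_left hP1
    have hord : orderOf b = q := by
      have : Fact q.Prime := ⟨hq⟩
      exact orderOf_eq_prime (hexp b hb) hb1
    obtain ⟨k, hk⟩ := P.2 ⟨b, hb⟩
    have hd : q ∣ p ^ k := hord ▸ orderOf_dvd_of_pow_eq_one (congrArg Subtype.val hk)
    rw [← (Nat.prime_dvd_prime_iff_eq hq Fact.out).1 (hq.dvd_of_dvd_pow hd)]
    exact hexp a ha
  · exfalso
    obtain ⟨m, hm⟩ := IsPGroup.iff_card.1 h2
    obtain ⟨n, hn'⟩ := IsPGroup.iff_card.1 P.2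
    have hn0 : n ≠ 0 := fun h => hP1 (Subgroup.card_eq_one.1 (by rw [hn', h, pow_zero]))
    have hd : p ∣ 2 ^ m := by rw [← hm, hn']; exact dvd_pow_self p hn0
    exact hp ((Nat.prime_dvd_prime_iff_eq Fact.out Nat.prime_two).1 ((Fact.out : p.Prime).dvd_of_dvd_pow hd))
  · exact Or.inr h

end Cfsg.Agent.S1533
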