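import Cfsg.Statements.S1553
import Cfsg.Agent.Lib.GolayStructure.OctadStab

set_option autoImplicit false
open scoped Pointwise
open Cfsg

namespace Cfsg.Agent.S1553

/-- The stabiliser of an octad in the group of the length-24 code induces on the octad exactly its alternating group. -/
theorem result (o : Finset Cfsg.GolayPt) (ho : o ∈ Cfsg.octads) : {e : Equiv.Perm ↥o | ∃ g : Equiv.Perm Cfsg.GolayPt, g ∈ Cfsg.M24 ∧ ∃ h : (∀ x, g x ∈ o ↔ x ∈ o), g.subtypePerm h = e} = (alternatingGroup ↥o : Set (Equiv.Perm ↥o)) := by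
  rw [← CfsgLib.GolayStructure.octadRestrict_range ho]
  ext e
  constructor
  · rintro ⟨g, hg, h, rfl⟩
    refine ⟨⟨g, CfsgLib.GolayStructure.mem_octadGroup.2 ⟨hg, ?_⟩⟩, rfl⟩
    ext q
    rw [Finset.mem_smul_finset]
    constructor
    · rintro ⟨r, hr, rfl⟩
      exact (h r).2 hr
    · intro hq
      exact ⟨g.symm q, (h _).1 (by rwa [Equiv.apply_symm_apply]), g.apply_symm_apply q⟩
  · rintro ⟨g, rfl⟩
    exact ⟨g.1, (CfsgLib.GolayStructure.mem_octadGroup.1 g.2).1,
      CfsgLib.GolayStructure.octad_mem_iff g.2, rfl⟩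

end Cfsg.Agent.S1553
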