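import Cfsg.Statements.S1562
import Cfsg.Agent.Lib.GolayStructure.TriadInv

set_option autoImplicit false
open scoped Pointwise
open Cfsg

namespace Cfsg.Agent.S1562

/-- Orbits of a triad stabiliser on the triads disjoint from it: the 210 triads inside a common octad with it form one orbit and the remaining 1120 another. -/
theorem result (T : Finset Cfsg.GolayPt) (hT : T.card = 3) : {U : Finset Cfsg.GolayPt | U.card = 3 ∧ Disjoint T U ∧ (∃ o ∈ Cfsg.octads, T ∪ U ⊆ o)}.ncard = 210 ∧ {U : Finset Cfsg.GolayPt | U.card = 3 ∧ Disjoint T U ∧ ¬ (∃ o ∈ Cfsg.octads, T ∪ U ⊆ o)}.ncard = 1120 ∧ ∀ U U' : Finset Cfsg.GolayPt, U.card = 3 → U'.card = 3 → Disjoint T U → Disjoint T U' → ((∃ o ∈ Cfsg.octads, T ∪ U ⊆ o) ↔ (∃ o ∈ Cfsg.octads, T ∪ U' ⊆ o)) → ∃ g : Equiv.Perm Cfsg.GolayPt, g ∈ Cfsg.M24 ∧ g • T = T ∧ g • U = U' := by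
  open CfsgLib.GolayStructure in
  refine ⟨?_, ?_, ?_⟩
  · refine Eq.trans ?_ (ncard_triadTag hT).1
    congr 1
    ext U
    simp only [Set.mem_ofPred_eq, triads, triadTag_eq_iff.1, InOctad]
  · refine Eq.trans ?_ (ncard_triadTag hT).2
    congr 1
    ext U
    simp only [Set.mem_ofPred_eq, triads, triadTag_eq_iff.2, InOctad]
  · intro U U' hU hU' hd hd' hiff
    have htag : triadTag T U = triadTag T U' := by
      by_cases h : InOctad T U
      · rw [(triadTag_of_disjoint hd).1 h, (triadTag_of_disjoint hd').1 (hiff.1 h)]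
      · rw [(triadTag_of_disjoint hd).2 h,
          (triadTag_of_disjoint hd').2 fun h' => h (hiff.2 h')]
    obtain ⟨g, h1, h2⟩ := triad_related hT hU hU' htag
    exact ⟨g.1, g.2, h1, h2⟩

end Cfsg.Agent.S1562
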