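import Cfsg.Statements.S1567
import Cfsg.Agent.Lib.Leech.Norm

set_option autoImplicit false
open Cfsg

namespace Cfsg.Agent.S1567

open CfsgLib.Leech

/-- The minimal vectors. -/
def minSet : Set (GolayPt → ℤ) := {x | x ∈ Cfsg.leechLattice ∧ Cfsg.sqNorm x = 32}

/-- `4 e_i + 4 ε e_j`. -/
def fourPair (i j : GolayPt) (ε : ℤ) : GolayPt → ℤ :=
  fun k => 4 * ((if k = i then 1 else 0) + ε * (if k = j then 1 else 0))

theorem fourPair_mem {i j : GolayPt} (hij : i ≠ j) {ε : ℤ} (hε : ε = 1 ∨ ε = -1) :
    fourPair i j ε ∈ minSet := by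
  constructor
  · have he : fourPair i j ε =
        mkVec 0 0 (fun k => (if k = i then 1 else 0) + ε * (if k = j then 1 else 0)) := by
      funext k; simp [fourPair, mkVec, bitVec]
    rw [he]
    refine mkVec_mem golayCode.zero_mem ?_
    rw [sub_zero, Finset.sum_add_distrib, ← Finset.mul_sum]
    simp only [Finset.sum_ite_eq', Finset.mem_univ, if_true]
    rcases hε with rfl | rfl <;> norm_num
  · have hsq : ∀ k, fourPair i j ε k ^ 2 =
        16 * (if k = i then 1 else 0) + 16 * (if k = j then 1 else 0) := by
      intro k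
      unfold fourPair
      by_cases hi : k = i
      · subst hi
        simp [hij]
      · by_cases hj : k = j
        · subst hj
          rcases hε with rfl | rfl <;> simp [hi]
        · simp [hi, hj]
    simp only [sqNorm, hsq, Finset.sum_add_distrib, ← Finset.mul_sum, Finset.sum_ite_eq',
      Finset.mem_univ, if_true]
    norm_num

/-- The vector `(-3, 1^23)`. -/
def oddVec : GolayPt → ℤ := fun k => if k = none then -3 else 1

theorem oddVec_eq : oddVec = mkVec 1 0 (fun k => if k = none then -1 else 0) := by
  funext k; by_cases h : k = none <;> simp [oddVec, mkVec, bitVec, h]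

theorem oddVec_mem : oddVec ∈ minSet := by
  constructor
  · rw [oddVec_eq]
    refine mkVec_mem golayCode.zero_mem ?_
    simp
  · simp only [sqNorm, oddVec]
    decide

theorem basis_weight : ∀ b ∈ CfsgLib.Golay.basisMasks, CfsgLib.Golay.inCode b = true ∧
    sqNorm (mkVec 0 (CfsgLib.Golay.wordOf b) 0) = 32 := by
  decide +kernel

theorem four_mem {u : GolayPt → ℤ} (hu : (2 : ℤ) ∣ ∑ i, u i) :
    (fun i => 4 * u i) ∈ AddSubgroup.closure minSet := by
  have hd : ∀ i : GolayPt, (fun k => (4 : ℤ) * ((if k = i then 1 else 0) - (if k = none then 1 else 0)))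
      ∈ AddSubgroup.closure minSet := by
    intro i
    by_cases hi : i = none
    · subst hi
      convert (AddSubgroup.closure minSet).zero_mem using 1
      funext k; simp
    · have he : (fun k => (4 : ℤ) * ((if k = i then 1 else 0) - (if k = none then 1 else 0))) =
          fourPair i none (-1) := by
        funext k; by_cases hk : k = none <;> simp [fourPair, hk, sub_eq_add_neg]
      rw [he]
      exact AddSubgroup.subset_closure (fourPair_mem hi (Or.inr rfl))
  have h8 : (fun k : GolayPt => (8 : ℤ) * (if k = none then 1 else 0)) ∈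
      AddSubgroup.closure minSet := by
    have hne : (none : GolayPt) ≠ some 0 := by simp
    convert (AddSubgroup.closure minSet).add_mem
      (AddSubgroup.subset_closure (fourPair_mem hne (Or.inl rfl)))
      (AddSubgroup.subset_closure (fourPair_mem hne (Or.inr rfl))) using 1
    funext k; by_cases hk : k = none <;> by_cases hj : k = some 0 <;> simp_all [fourPair]
  obtain ⟨q, hq⟩ := hu
  have hdec : (fun i => 4 * u i) =
      (∑ i : GolayPt, u i • fun k => (4 : ℤ) * ((if k = i then 1 else 0) - (if k = none then 1 else 0)))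
        + q • fun k : GolayPt => (8 : ℤ) * (if k = none then 1 else 0) := by
    funext k
    simp only [Pi.add_apply, Finset.sum_apply, Pi.smul_apply, smul_eq_mul, mul_sub, mul_ite,
      mul_one, mul_zero, Finset.sum_sub_distrib, Finset.sum_ite_eq, Finset.mem_univ, if_true]
    by_cases hk : k = none
    · subst hk
      simp only [if_true, ← Finset.sum_mul, hq]
      ring
    · simp [hk]
      ring
  rw [hdec]
  exact (AddSubgroup.closure minSet).add_mem
    ((AddSubgroup.closure minSet).sum_mem fun i _ => (AddSubgroup.closure minSet).zsmul_mem (hd i) _)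
    ((AddSubgroup.closure minSet).zsmul_mem h8 _)

theorem exists_mem {m : ℤ} (hm : m = 0 ∨ m = 1) {c : GolayPt → ZMod 2} (hc : c ∈ golayCode) :
    ∃ w, mkVec m c w ∈ AddSubgroup.closure minSet := by
  have h0 : ∃ w, mkVec 0 c w ∈ AddSubgroup.closure minSet := by
    rw [CfsgLib.Golay.golayCode_eq_maskCode] at hc
    obtain ⟨n, hn, rfl⟩ := hc
    refine CfsgLib.Golay.spanMasks_induction
      (P := fun v => ∃ w, mkVec 0 v w ∈ AddSubgroup.closure minSet) ?_ ?_ ?_ hn
    · refine ⟨0, ?_⟩
      convert (AddSubgroup.closure minSet).zero_mem using 1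
      funext k; simp [mkVec, bitVec]
    · rintro v w ⟨a, ha⟩ ⟨b, hb⟩
      have := (AddSubgroup.closure minSet).add_mem ha hb
      rw [mkVec_add, add_zero] at this
      exact ⟨_, this⟩
    · intro b hb
      obtain ⟨h1, h2⟩ := basis_weight b hb
      refine ⟨0, AddSubgroup.subset_closure ⟨mkVec_mem ?_ (by simp), h2⟩⟩
      rw [CfsgLib.Golay.golayCode_eq_maskCode]
      exact ⟨b, CfsgLib.Golay.inCode_iff.1 h1, rfl⟩
  obtain ⟨w, hw⟩ := h0
  rcases hm with rfl | rfl
  · exact ⟨w, hw⟩
  · have := (AddSubgroup.closure minSet).add_mem (AddSubgroup.subset_closure oddVec_mem) hw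
    rw [oddVec_eq, mkVec_add, add_zero, zero_add] at this
    exact ⟨_, this⟩

/-- The rank-24 lattice is the additive subgroup generated by its 196560 minimal vectors. -/
theorem result : AddSubgroup.closure {x : Cfsg.GolayPt → ℤ | x ∈ Cfsg.leechLattice ∧ Cfsg.sqNorm x = 32} = Cfsg.leechLattice := by
  show AddSubgroup.closure minSet = _
  refine le_antisymm ((AddSubgroup.closure_le _).2 fun x hx => hx.1) fun x hx => ?_
  obtain ⟨m, hm, c, hc, z, rfl, -⟩ := mem_leechLattice_iff.1 hx
  obtain ⟨w, hw⟩ := exists_mem hm hc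
  have hwL : mkVec m c w ∈ leechLattice :=
    (AddSubgroup.closure_le _).2 (fun x (hx : x ∈ minSet) => hx.1) hw
  have hd : (fun i => 4 * (z i - w i)) ∈ leechLattice := by
    convert leechLattice.sub_mem hx hwL using 1
    funext i; simp [mkVec]; ring
  have hu : (2 : ℤ) ∣ ∑ i, (z i - w i) := by
    obtain ⟨m', hpar, hsum, -⟩ := mem_leechLattice_iff_mem_leechSet.1 hd
    have h1 := (hpar none).eq
    have h2 := hsum.eq
    simp only [← Finset.mul_sum] at h1 h2
    omega
  have := (AddSubgroup.closure minSet).add_mem (four_mem hu) hw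
  convert this using 1
  funext i; simp [mkVec]; ring

end Cfsg.Agent.S1567
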