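import Cfsg.Statements.S1568
import Cfsg.Agent.Lib.Leech.Layers

set_option autoImplicit false
open Cfsg

namespace Cfsg.Agent.S1568

open CfsgLib.Leech
open scoped Classical

/-- The vectors of sum of squares 48 with residues `m + 2 c`. -/
def block (m : ℤ) (c : GolayPt → ZMod 2) : Set (GolayPt → ℤ) :=
  {x | HasResidues m c x ∧ ∑ i, x i ≡ 4 * m [ZMOD 8] ∧ sqNorm x = ((48 : ℕ) : ℤ)}

theorem ncard_block (m : ℤ) (c : GolayPt → ZMod 2) : (block m c).ncard = blockCount m c 48 := rfl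

/-- The union of the blocks over a set of code words. -/
def blocks (m : ℤ) (T : Finset golayCode) : Set (GolayPt → ℤ) :=
  {x | ∃ c ∈ T, x ∈ block m (c : GolayPt → ZMod 2)}

theorem block_subset {m : ℤ} (hm : m = 0 ∨ m = 1) {c : GolayPt → ZMod 2} (hc : c ∈ golayCode) :
    block m c ⊆ layer 48 := fun x hx =>
  ⟨mem_leechLattice_iff_residues.2 ⟨m, hm, c, hc, hx.1, hx.2.1⟩, by simpa using hx.2.2⟩

theorem blocks_finite {m : ℤ} (hm : m = 0 ∨ m = 1) (T : Finset golayCode) : (blocks m T).Finite :=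
  (layer_finite 48).subset fun _ ⟨c, _, hx⟩ => block_subset hm c.2 hx

theorem ncard_blocks {m : ℤ} (hm : m = 0 ∨ m = 1) (T : Finset golayCode) :
    (blocks m T).ncard = ∑ c ∈ T, blockCount m (c : GolayPt → ZMod 2) 48 := by
  have hu : blocks m T = ⋃ c : T, block m ((c : golayCode) : GolayPt → ZMod 2) := by
    ext x
    simp [blocks]
  rw [hu, Set.ncard_iUnion_of_finite
    (fun (c : ↥T) => (layer_finite 48).subset (block_subset hm (c : golayCode).2))
    (fun (a b : ↥T) hab => Set.disjoint_left.2 fun x hx hx' =>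
      hab (Subtype.ext (Subtype.ext (hx.1.unique hm hm hx'.1).2))),
    finsum_eq_sum_of_fintype, ← Finset.sum_coe_sort T]
  rfl

/-- The code words of a given weight. -/
noncomputable def codeOf (k : ℕ) : Finset golayCode :=
  Finset.univ.filter fun c => (support₂ (c : GolayPt → ZMod 2)).card = k

theorem ncard_even_blocks (k : ℕ) (hk : k = 8 ∨ k = 12) :
    (blocks 0 (codeOf k)).ncard = if k = 8 then 3108864 else 5275648 := by
  rw [ncard_blocks (Or.inl rfl), Finset.sum_congr rfl fun (c : golayCode) (hc : c ∈ codeOf k) =>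
    (blockCount_zero (c : GolayPt → ZMod 2) c.2 (Or.inr (Or.inl rfl))).trans (congrArg (blockSize 48) (Finset.mem_filter.1 hc).2),
    Finset.sum_const, smul_eq_mul, codeOf, ncard_code_weight]
  have hw := weight_count_values
  simp only [List.map_cons, List.map_nil, List.cons.injEq, and_true] at hw
  rcases hk with rfl | rfl <;> simp [hw, blockSize]

theorem ncard_odd_blocks : (blocks 1 Finset.univ).ncard = 8388608 := by
  rw [ncard_blocks (Or.inr rfl), Finset.sum_congr rfl fun (c : golayCode) _ =>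
    blockCount_one (c : GolayPt → ZMod 2) c.2 (Or.inr (Or.inl rfl)),
    Finset.sum_const, smul_eq_mul, Finset.card_univ, ← Nat.card_eq_fintype_card, card_golayCode]
  norm_num

theorem sum_sub_bit {c : GolayPt → ZMod 2} {x : GolayPt → ℤ} (hn : sqNorm x = 48) :
    ∑ i, (x i ^ 2 - 4 * bitVec c i) = 48 - 4 * ((support₂ c).card : ℤ) := by
  rw [Finset.sum_sub_distrib, ← Finset.mul_sum, bitVec_sum, ← hn]
  rfl

/-- Shape of a vector in an even block. -/
theorem even_block {c : GolayPt → ZMod 2} (hc : c ∈ golayCode) {x : GolayPt → ℤ}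
    (hx : x ∈ block 0 c) :
    ((support₂ c).card = 12 ∧ ∀ i, x i = 0 ∨ x i = 2 ∨ x i = -2) ∨
      ((support₂ c).card = 8 ∧ (∃ i, |x i| = 4) ∧ ∀ i, |x i| ≠ 3 ∧ |x i| ≠ 5) := by
  have hn : sqNorm x = 48 := by simpa using hx.2.2
  have hev : ∀ i, x i % 2 = 0 := fun i => by
    have := hx.1 i
    rcases bitVec_cases c i with h | h <;> rw [h] at this <;> omega
  have h35 : ∀ i, |x i| ≠ 3 ∧ |x i| ≠ 5 := fun i => by
    have := hev i
    constructor <;> intro h <;> rcases abs_choice (x i) with e | e <;> omega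
  have hres : ∀ i, bitVec c i = 0 ∧ x i % 4 = 0 ∨ bitVec c i = 1 ∧ x i % 4 = 2 := fun i => by
    have := hx.1 i
    rcases bitVec_cases c i with h | h <;> rw [h] at this
    · exact Or.inl ⟨h, by omega⟩
    · exact Or.inr ⟨h, by omega⟩
  have hnn : ∀ i, 0 ≤ x i ^ 2 - 4 * bitVec c i := fun i => by
    rcases hres i with ⟨h, h'⟩ | ⟨h, h'⟩ <;> rw [h]
    · nlinarith
    · have : x i ≤ -2 ∨ 2 ≤ x i := by omega
      rcases this with h2 | h2 <;> nlinarith
  have hsum := sum_sub_bit (c := c) hn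
  have hle : ∀ i, x i ^ 2 - 4 * bitVec c i ≤ 48 - 4 * ((support₂ c).card : ℤ) := fun i =>
    hsum ▸ Finset.single_le_sum (fun j _ => hnn j) (Finset.mem_univ i)
  have hne : blockCount 0 c 48 ≠ 0 := by
    rw [← ncard_block]
    exact (Set.ncard_ne_zero_of_mem hx
      ((layer_finite 48).subset (block_subset (Or.inl rfl) hc)))
  rw [blockCount_zero c hc (Or.inr (Or.inl rfl))] at hne
  rcases card_mem_weights hc with hw | hw | hw | hw | hw
  · simp [blockSize, hw] at hne
  · refine Or.inr ⟨hw, ?_, h35⟩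
    by_contra hno
    simp only [not_exists] at hno
    have h0 : ∀ i, x i ^ 2 - 4 * bitVec c i = 0 := fun i => by
      have h1 := hle i
      rw [hw] at h1
      push_cast at h1
      rcases hres i with ⟨h, h'⟩ | ⟨h, h'⟩ <;> rw [h] at h1 ⊢
      · have : -4 ≤ x i ∧ x i ≤ 4 := by constructor <;> nlinarith
        have h3 := hno i
        have : x i = 0 ∨ x i = 4 ∨ x i = -4 := by omega
        rcases this with e | e | e <;> simp [e] at h3 ⊢
      · have : -4 ≤ x i ∧ x i ≤ 4 := by constructor <;> nlinarith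
        have : x i = 2 ∨ x i = -2 := by omega
        rcases this with e | e <;> simp [e]
    rw [Finset.sum_eq_zero (fun i _ => h0 i), hw] at hsum
    norm_num at hsum
  · refine Or.inl ⟨hw, fun i => ?_⟩
    have h1 := hle i
    rw [hw] at h1
    push_cast at h1
    have h2 := hnn i
    rcases hres i with ⟨h, h'⟩ | ⟨h, h'⟩ <;> rw [h] at h1 h2
    · left
      nlinarith
    · right
      have : -2 ≤ x i ∧ x i ≤ 2 := by constructor <;> nlinarith
      omega
  · simp [blockSize, hw] at hne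
  · simp [blockSize, hw] at hne

/-- Shape of a vector in an odd block. -/
theorem odd_block {c : GolayPt → ZMod 2} {x : GolayPt → ℤ} (hx : x ∈ block 1 c) :
    (∀ i, |x i| ≠ 0 ∧ |x i| ≠ 2 ∧ |x i| ≠ 4) ∧
    (((∃ i, |x i| = 5) ∧ ¬ ∃ i j k, i ≠ j ∧ j ≠ k ∧ i ≠ k ∧ |x i| = 3 ∧ |x j| = 3 ∧ |x k| = 3) ∨
      ((¬ ∃ i, |x i| = 5) ∧ ∃ i j k, i ≠ j ∧ j ≠ k ∧ i ≠ k ∧ |x i| = 3 ∧ |x j| = 3 ∧ |x k| = 3)) := by
  have hn : sqNorm x = 48 := by simpa using hx.2.2
  have hodd : ∀ i, x i % 2 = 1 := fun i => by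
    have := hx.1 i
    omega
  refine ⟨fun i => by have := hodd i; rcases abs_choice (x i) with e | e <;> omega, ?_⟩
  have hnn : ∀ i, 0 ≤ x i ^ 2 - 1 := fun i => by
    have : x i ≤ -1 ∨ 1 ≤ x i := by have := hodd i; omega
    rcases this with h | h <;> nlinarith
  have hsum : ∑ i, (x i ^ 2 - 1) = 24 := by
    rw [Finset.sum_sub_distrib, show ∑ i, x i ^ 2 = 48 from hn]
    simp [GolayPt]
  have hval : ∀ i, |x i| = 1 ∨ |x i| = 3 ∨ |x i| = 5 := fun i => by
    have h1 : x i ^ 2 - 1 ≤ 24 := hsum ▸ Finset.single_le_sum (fun j _ => hnn j) (Finset.mem_univ i)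
    have : -5 ≤ x i ∧ x i ≤ 5 := by constructor <;> nlinarith
    have := hodd i
    have := abs_nonneg (x i)
    rcases abs_choice (x i) with e | e <;> omega
  by_cases h5 : ∃ i, |x i| = 5
  · refine Or.inl ⟨h5, ?_⟩
    rintro ⟨a, b, d, -, -, -, ha, -, -⟩
    obtain ⟨i, hi⟩ := h5
    have hai : a ≠ i := fun h => by rw [h, hi] at ha; norm_num at ha
    have h1 := Finset.add_sum_erase Finset.univ (fun j => x j ^ 2 - 1) (Finset.mem_univ i)
    have h2 := Finset.single_le_sum (fun j _ => hnn j)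
      (Finset.mem_erase.2 ⟨hai, Finset.mem_univ a⟩)
    rw [hsum] at h1
    have ei : x i ^ 2 = 25 := by rw [← sq_abs, hi]; norm_num
    have ea : x a ^ 2 = 9 := by rw [← sq_abs, ha]; norm_num
    simp only [ea] at h2
    simp only [ei] at h1
    linarith
  · refine Or.inr ⟨h5, ?_⟩
    simp only [not_exists] at h5
    have hg : ∀ i, x i ^ 2 - 1 = if |x i| = 3 then 8 else 0 := fun i => by
      rw [← sq_abs]
      rcases hval i with e | e | e
      · simp [e]
      · simp [e]
      · exact absurd e (h5 i)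
    simp only [hg, Finset.sum_ite, Finset.sum_const_zero, add_zero, Finset.sum_const,
      nsmul_eq_mul] at hsum
    have hcard : (Finset.univ.filter fun i => |x i| = 3).card = 3 := by omega
    obtain ⟨i, j, k, hij, hik, hjk, hs⟩ := Finset.card_eq_three.1 hcard
    have hm : ∀ a ∈ ({i, j, k} : Finset GolayPt), |x a| = 3 := fun a ha => by
      rw [← hs] at ha; exact (Finset.mem_filter.1 ha).2
    exact ⟨i, j, k, hij, hjk, hik, hm i (by simp), hm j (by simp), hm k (by simp)⟩

theorem layer_cases {x : GolayPt → ℤ} (hx : x ∈ layer 48) :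
    (∃ c : golayCode, x ∈ block 0 (c : GolayPt → ZMod 2)) ∨
      ∃ c : golayCode, x ∈ block 1 (c : GolayPt → ZMod 2) := by
  obtain ⟨h, hn⟩ := hx
  obtain ⟨m, rfl | rfl, c, hc, hr, hs⟩ := mem_leechLattice_iff_residues.1 h
  · exact Or.inl ⟨⟨c, hc⟩, hr, hs, by simpa using hn⟩
  · exact Or.inr ⟨⟨c, hc⟩, hr, hs, by simpa using hn⟩

theorem set_A : {x : GolayPt → ℤ | x ∈ leechLattice ∧ sqNorm x = 48 ∧
    ∀ i, x i = 0 ∨ x i = 2 ∨ x i = -2} = blocks 0 (codeOf 12) := by
  ext x
  simp only [Set.mem_ofPred_eq]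
  constructor
  · rintro ⟨h1, h2, h3⟩
    rcases layer_cases ⟨h1, h2⟩ with ⟨c, hc⟩ | ⟨c, hc⟩
    · rcases even_block c.2 hc with ⟨hw, -⟩ | ⟨-, ⟨i, hi⟩, -⟩
      · exact ⟨c, Finset.mem_filter.2 ⟨Finset.mem_univ _, hw⟩, hc⟩
      · rcases h3 i with e | e | e <;> rw [e] at hi <;> norm_num at hi
    · obtain ⟨h4, h5, -⟩ := (odd_block hc).1 none
      rcases h3 none with e | e | e <;> rw [e] at h4 h5 <;> simp at h4 h5
  · rintro ⟨c, hc, hx⟩
    have hl := block_subset (Or.inl rfl) c.2 hx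
    refine ⟨hl.1, hl.2, ?_⟩
    rcases even_block c.2 hx with ⟨-, h⟩ | ⟨hw, -⟩
    · exact h
    · rw [codeOf, Finset.mem_filter] at hc
      omega

theorem set_C : {x : GolayPt → ℤ | x ∈ leechLattice ∧ sqNorm x = 48 ∧ ∃ i, |x i| = 4} =
    blocks 0 (codeOf 8) := by
  ext x
  simp only [Set.mem_ofPred_eq]
  constructor
  · rintro ⟨h1, h2, i, hi⟩
    rcases layer_cases ⟨h1, h2⟩ with ⟨c, hc⟩ | ⟨c, hc⟩
    · rcases even_block c.2 hc with ⟨-, h⟩ | ⟨hw, -⟩
      · rcases h i with e | e | e <;> rw [e] at hi <;> norm_num at hi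
      · exact ⟨c, Finset.mem_filter.2 ⟨Finset.mem_univ _, hw⟩, hc⟩
    · exact absurd hi ((odd_block hc).1 i).2.2
  · rintro ⟨c, hc, hx⟩
    have hl := block_subset (Or.inl rfl) c.2 hx
    refine ⟨hl.1, hl.2, ?_⟩
    rcases even_block c.2 hx with ⟨hw, -⟩ | ⟨-, h, -⟩
    · rw [codeOf, Finset.mem_filter] at hc
      omega
    · exact h

/-- The vectors with a coordinate of absolute value 5. -/
def setFive : Set (GolayPt → ℤ) :=
  {x | x ∈ leechLattice ∧ sqNorm x = 48 ∧ ∃ i, |x i| = 5}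

theorem setFive_subset : setFive ⊆ blocks 1 Finset.univ := by
  rintro x ⟨h1, h2, i, hi⟩
  rcases layer_cases ⟨h1, h2⟩ with ⟨c, hc⟩ | ⟨c, hc⟩
  · rcases even_block c.2 hc with ⟨-, h⟩ | ⟨-, -, h⟩
    · rcases h i with e | e | e <;> rw [e] at hi <;> norm_num at hi
    · exact absurd hi (h i).2
  · exact ⟨c, Finset.mem_univ _, hc⟩

theorem set_B : {x : GolayPt → ℤ | x ∈ leechLattice ∧ sqNorm x = 48 ∧
    ∃ i j k, i ≠ j ∧ j ≠ k ∧ i ≠ k ∧ |x i| = 3 ∧ |x j| = 3 ∧ |x k| = 3} =
      blocks 1 Finset.univ \ setFive := by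
  ext x
  simp only [Set.mem_ofPred_eq, Set.mem_sdiff]
  constructor
  · rintro ⟨h1, h2, h3⟩
    rcases layer_cases ⟨h1, h2⟩ with ⟨c, hc⟩ | ⟨c, hc⟩
    · obtain ⟨i, -, -, -, -, -, hi, -, -⟩ := h3
      rcases even_block c.2 hc with ⟨-, h⟩ | ⟨-, -, h⟩
      · rcases h i with e | e | e <;> rw [e] at hi <;> norm_num at hi
      · exact absurd hi (h i).1
    · refine ⟨⟨c, Finset.mem_univ _, hc⟩, fun h5 => ?_⟩
      rcases (odd_block hc).2 with ⟨-, h⟩ | ⟨h, -⟩
      · exact h h3
      · exact h h5.2.2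
  · rintro ⟨⟨c, -, hx⟩, h5⟩
    have hl := block_subset (Or.inr rfl) c.2 hx
    refine ⟨hl.1, hl.2, ?_⟩
    rcases (odd_block hx).2 with ⟨h, -⟩ | ⟨-, h⟩
    · exact absurd ⟨hl.1, hl.2, h⟩ h5
    · exact h

/-- The vector `(±5, ±1^23)` with signs given by a code word. -/
def fiveVec (p : golayCode × GolayPt) : GolayPt → ℤ := fun j =>
  (if j = p.2 then 5 else 1) * (if (p.1 : GolayPt → ZMod 2) j = 0 then 1 else -1)

theorem abs_fiveVec (p : golayCode × GolayPt) (j : GolayPt) :
    |fiveVec p j| = if j = p.2 then 5 else 1 := by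
  unfold fiveVec
  split_ifs <;> norm_num

theorem fiveVec_injective : Function.Injective fiveVec := by
  intro p q h
  have hi : p.2 = q.2 := by
    by_contra hne
    have := congrArg abs (congrFun h p.2)
    rw [abs_fiveVec, abs_fiveVec, if_pos rfl, if_neg hne] at this
    norm_num at this
  refine Prod.ext (Subtype.ext (funext fun j => ?_)) hi
  have hj := congrFun h j
  simp only [fiveVec, hi] at hj
  revert hj
  rcases zmod2_cases ((p.1 : GolayPt → ZMod 2) j) with a | a <;>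
    rcases zmod2_cases ((q.1 : GolayPt → ZMod 2) j) with b | b <;>
    simp only [a, b, one_ne_zero, if_true, if_false, implies_true] <;>
    split_ifs <;> norm_num

theorem range_fiveVec : Set.range fiveVec = setFive := by
  ext x
  constructor
  · rintro ⟨⟨⟨c, hc⟩, i⟩, rfl⟩
    have hsq : sqNorm (fiveVec (⟨c, hc⟩, i)) = 48 := by
      have : ∀ j, fiveVec (⟨c, hc⟩, i) j ^ 2 = 1 + if j = i then 24 else 0 := fun j => by
        rw [← sq_abs, abs_fiveVec]
        dsimp only
        split_ifs <;> norm_num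
      simp only [sqNorm, this, Finset.sum_add_distrib, Finset.sum_ite_eq', Finset.mem_univ, if_true]
      simp [GolayPt]
    refine ⟨?_, hsq, i, by rw [abs_fiveVec, if_pos rfl]⟩
    have he : fiveVec (⟨c, hc⟩, i) = mkVec 1 c (fun j => -bitVec c j +
        if j = i then 1 - 2 * bitVec c i else 0) := by
      funext j
      simp only [fiveVec, mkVec]
      by_cases hj : j = i
      · subst hj
        rcases zmod2_cases (c j) with a | a <;> simp [bitVec, a]
      · rcases zmod2_cases (c j) with a | a <;> simp [bitVec, a, hj]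
    rw [he]
    refine mkVec_mem hc ?_
    rw [Finset.sum_add_distrib, Finset.sum_neg_distrib, bitVec_sum]
    simp only [Finset.sum_ite_eq', Finset.mem_univ, if_true]
    obtain ⟨q, hq⟩ := four_dvd_card hc
    rw [hq]
    push_cast
    omega
  · intro hx
    obtain ⟨c, -, hb⟩ := setFive_subset hx
    obtain ⟨-, hn, i, hi⟩ := hx
    refine ⟨(c, i), funext fun j => ?_⟩
    have hone : ∀ k, k ≠ i → |x k| = 1 := by
      intro k hk
      have h1 := Finset.add_sum_erase Finset.univ (fun j => x j ^ 2) (Finset.mem_univ i)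
      have hodd : ∀ j, 1 ≤ x j ^ 2 := fun j => by
        have := hb.1 j
        have : x j ≤ -1 ∨ 1 ≤ x j := by omega
        rcases this with h | h <;> nlinarith
      have h2 := Finset.add_sum_erase (Finset.univ.erase i) (fun j => x j ^ 2)
        (Finset.mem_erase.2 ⟨hk, Finset.mem_univ k⟩)
      have h3 : ∑ _j ∈ (Finset.univ.erase i).erase k, (1 : ℤ) ≤
          ∑ j ∈ (Finset.univ.erase i).erase k, x j ^ 2 := Finset.sum_le_sum fun j _ => hodd j
      rw [Finset.sum_const, Finset.card_erase_of_mem (Finset.mem_erase.2 ⟨hk, Finset.mem_univ k⟩),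
        Finset.card_erase_of_mem (Finset.mem_univ i), Finset.card_univ,
        show Fintype.card GolayPt = 24 by simp [GolayPt], nsmul_eq_mul] at h3
      push_cast at h3
      have ei : x i ^ 2 = 25 := by rw [← sq_abs, hi]; norm_num
      simp only [ei] at h1
      change _ = sqNorm x at h1
      rw [hn] at h1
      have : x k ^ 2 ≤ 1 := by linarith
      have h4 : -1 ≤ x k ∧ x k ≤ 1 := by constructor <;> nlinarith
      have := hb.1 k
      have := abs_nonneg (x k)
      rcases abs_choice (x k) with e | e <;> omega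
    have habs : |x j| = if j = i then 5 else 1 := by
      split_ifs with h
      · rw [h]; exact hi
      · exact hone j h
    have hr := hb.1 j
    simp only [fiveVec, bitVec] at hr ⊢
    rcases zmod2_cases ((c : GolayPt → ZMod 2) j) with a | a <;>
      simp only [a, one_ne_zero, if_true, if_false] at hr ⊢ <;>
      split_ifs at habs ⊢ <;> rcases abs_choice (x j) with e | e <;> omega

theorem ncard_five : setFive.ncard = 98304 := by
  rw [← range_fiveVec, Set.ncard_range_of_injective fiveVec_injective, Nat.card_prod,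
    card_golayCode]
  simp [GolayPt]

/-- Shape census of the lattice vectors of sum of squares 48 (customary norm 6): the four families (2^12, 0^12), (±3^3, ±1^21), (±4, ±2^8, 0^15) and (±5, ±1^23) have 5275648, 8290304, 3108864 and 98304 members. -/
theorem result : {x : Cfsg.GolayPt → ℤ | x ∈ Cfsg.leechLattice ∧ Cfsg.sqNorm x = 48 ∧ ∀ i, x i = 0 ∨ x i = 2 ∨ x i = -2}.ncard = 5275648 ∧ {x : Cfsg.GolayPt → ℤ | x ∈ Cfsg.leechLattice ∧ Cfsg.sqNorm x = 48 ∧ ∃ i j k, i ≠ j ∧ j ≠ k ∧ i ≠ k ∧ |x i| = 3 ∧ |x j| = 3 ∧ |x k| = 3}.ncard = 8290304 ∧ {x : Cfsg.GolayPt → ℤ | x ∈ Cfsg.leechLattice ∧ Cfsg.sqNorm x = 48 ∧ ∃ i, |x i| = 4}.ncard = 3108864 ∧ {x : Cfsg.GolayPt → ℤ | x ∈ Cfsg.leechLattice ∧ Cfsg.sqNorm x = 48 ∧ ∃ i, |x i| = 5}.ncard = 98304 := by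
  refine ⟨?_, ?_, ?_, ncard_five⟩
  · rw [set_A, ncard_even_blocks 12 (Or.inr rfl)]; rfl
  · rw [set_B, Set.ncard_sdiff setFive_subset ((blocks_finite (Or.inr rfl) _).subset setFive_subset),
      ncard_odd_blocks, ncard_five]
  · rw [set_C, ncard_even_blocks 8 (Or.inl rfl)]; rfl

end Cfsg.Agent.S1568
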