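import Cfsg.Statements.S1570
import Cfsg.Agent.Lib.Leech.Frame

set_option autoImplicit false
open Cfsg

namespace Cfsg.Agent.S1570

/-- Every congruence class of the lattice modulo twice the lattice contains a vector of customary norm at most 8. -/
theorem result (x : Cfsg.GolayPt → ℤ) (hx : x ∈ Cfsg.leechLattice) : ∃ y ∈ Cfsg.leechLattice, Cfsg.sqNorm y ≤ 64 ∧ ∃ z ∈ Cfsg.leechLattice, x - y = 2 • z := by
  obtain ⟨y, hy, z, hz⟩ := CfsgLib.Leech.exists_small_representative ⟨x, hx⟩
  exact ⟨y, y.2, hy, z, z.2, by simpa using congrArg Subtype.val hz⟩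

end Cfsg.Agent.S1570
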