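import Cfsg.Statements.S1571
import Cfsg.Agent.Lib.Leech.Order
import Cfsg.Agent.Lib.Leech.FrameLattice

set_option autoImplicit false
open scoped Pointwise
open Cfsg

namespace Cfsg.Agent.S1571

/-- The stabiliser of the standard cross in the automorphism group of the lattice is the monomial group of the code: each of its elements acts as a signed permutation with permutation part in the code's group and sign set a codeword, and it has order 4096 · 244823040. -/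
theorem result : (∀ g : ↥Cfsg.Co0, (∀ v : ↥Cfsg.leechLattice, (v : Cfsg.GolayPt → ℤ) ∈ Cfsg.stdCross → ((g • v : ↥Cfsg.leechLattice) : Cfsg.GolayPt → ℤ) ∈ Cfsg.stdCross) → ∃ f ∈ Cfsg.golayMonomialMaps, ∀ v : ↥Cfsg.leechLattice, ((g • v : ↥Cfsg.leechLattice) : Cfsg.GolayPt → ℤ) = f (v : Cfsg.GolayPt → ℤ)) ∧ Nat.card {g : ↥Cfsg.Co0 // (∀ v : ↥Cfsg.leechLattice, (v : Cfsg.GolayPt → ℤ) ∈ Cfsg.stdCross → ((g • v : ↥Cfsg.leechLattice) : Cfsg.GolayPt → ℤ) ∈ Cfsg.stdCross)} = 4096 * 244823040 := by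
  have hstd : ∀ v : ↥Cfsg.leechLattice, (v : Cfsg.GolayPt → ℤ) ∈ Cfsg.stdCross ↔
      Cfsg.sqNorm (v : Cfsg.GolayPt → ℤ) = 64 ∧ CfsgLib.Fischer2.CongTwo v CfsgLib.Fischer2.vecA := by
    intro v
    constructor
    · rintro ⟨i, s, hs, hv⟩
      refine ⟨?_, CfsgLib.Fischer2.congTwo_vecA_of_four_mul v i ?_ fun q hq => ?_⟩
      · rw [hv, CfsgLib.Leech.sqNorm_single]; rcases hs with rfl | rfl <;> norm_num
      · show |(v : Cfsg.GolayPt → ℤ) i| = 8
        rw [hv, Pi.single_eq_same]; rcases hs with rfl | rfl <;> norm_num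
      · show (v : Cfsg.GolayPt → ℤ) q = 0
        rw [hv, Pi.single_eq_of_ne hq]
    · rintro ⟨hn, hc⟩
      obtain ⟨p, hp, h0⟩ := CfsgLib.Fischer2.axis_of_congTwo_vecA hn hc
      refine ⟨p, (v : Cfsg.GolayPt → ℤ) p, ?_, funext fun q => ?_⟩
      · rcases abs_choice ((v : Cfsg.GolayPt → ℤ) p) with e | e <;>
          (rw [CfsgLib.Fischer2.coordVec, e] at hp; omega)
      · by_cases hq : q = p
        · rw [hq, Pi.single_eq_same]
        · rw [Pi.single_eq_of_ne hq]; exact h0 q hq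
  have hP : ∀ g : ↥Cfsg.Co0, (∀ v : ↥Cfsg.leechLattice, (v : Cfsg.GolayPt → ℤ) ∈ Cfsg.stdCross →
      ((g • v : ↥Cfsg.leechLattice) : Cfsg.GolayPt → ℤ) ∈ Cfsg.stdCross) ↔
      g ∈ MulAction.stabilizer ↥Cfsg.Co0 (CfsgLib.Leech.crossOf CfsgLib.Fischer2.vecA) := by
    intro g
    rw [CfsgLib.Leech.mem_stabilizer_crossOf]
    constructor
    · intro h
      exact ((hstd _).1 (h CfsgLib.Fischer2.vecA ((hstd _).2
        ⟨CfsgLib.Leech.sqNorm_vecA, CfsgLib.Fischer2.CongTwo.refl _⟩))).2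
    · intro h v hv
      obtain ⟨hn, hc⟩ := (hstd v).1 hv
      exact (hstd _).2 ⟨by rw [CfsgLib.Leech.sqNorm_smul, hn], (hc.smul g).trans h⟩
  refine ⟨fun g hg => ?_, ?_⟩
  · obtain ⟨d, σ, rfl⟩ := CfsgLib.Fischer2.exists_monomial
      (CfsgLib.Leech.mem_stabilizer_crossOf.1 ((hP g).1 hg))
    refine ⟨Cfsg.signedPerm (σ : Equiv.Perm Cfsg.GolayPt) (Cfsg.support₂ (d : Cfsg.GolayPt → ZMod 2)),
      ⟨σ, σ.2, _, ⟨d, d.2, rfl⟩, rfl⟩, fun v => funext fun i => ?_⟩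
    rw [mul_smul, CfsgLib.Leech.signAut_apply, CfsgLib.Leech.permAut_apply]
    by_cases h : (d : Cfsg.GolayPt → ZMod 2) i = 0 <;> simp [Cfsg.signedPerm, Cfsg.support₂, h]
  · rw [← CfsgLib.Leech.card_stabilizer_crossOf]
    exact Nat.card_congr (Equiv.subtypeEquivRight hP)

end Cfsg.Agent.S1571
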