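import Cfsg.Statements.S1572
import Cfsg.Agent.Lib.GolayStructure.CrossMaximal
import Cfsg.Agent.Lib.Leech.FrameLattice

set_option autoImplicit false
open scoped Pointwise
open Cfsg

namespace Cfsg.Agent.S1572

/-- The stabiliser of the standard cross is a maximal proper subgroup of the lattice's automorphism group. -/
theorem result (H : Subgroup ↥Cfsg.Co0) (hH : (H : Set ↥Cfsg.Co0) = {g : ↥Cfsg.Co0 | (∀ v : ↥Cfsg.leechLattice, (v : Cfsg.GolayPt → ℤ) ∈ Cfsg.stdCross → ((g • v : ↥Cfsg.leechLattice) : Cfsg.GolayPt → ℤ) ∈ Cfsg.stdCross)}) : IsCoatom H := by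
  have hstd : ∀ v : ↥Cfsg.leechLattice, (v : Cfsg.GolayPt → ℤ) ∈ Cfsg.stdCross ↔
      Cfsg.sqNorm (v : Cfsg.GolayPt → ℤ) = 64 ∧ CfsgLib.Fischer2.CongTwo v CfsgLib.Fischer2.vecA := by
    intro v
    constructor
    · rintro ⟨i, s, hs, hv⟩
      refine ⟨?_, CfsgLib.Fischer2.congTwo_vecA_of_four_mul v i ?_ fun q hq => ?_⟩
      · rw [hv, CfsgLib.Leech.sqNorm_single]; rcases hs with rfl | rfl <;> norm_num
      · show |(v : Cfsg.GolayPt → ℤ) i| = 8
        rw [hv, Pi.single_eq_same]; rcases hs with rfl | rfl <;> norm_num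
      · show (v : Cfsg.GolayPt → ℤ) q = 0
        rw [hv, Pi.single_eq_of_ne hq]
    · rintro ⟨hn, hc⟩
      obtain ⟨p, hp, h0⟩ := CfsgLib.Fischer2.axis_of_congTwo_vecA hn hc
      refine ⟨p, (v : Cfsg.GolayPt → ℤ) p, ?_, funext fun q => ?_⟩
      · rcases abs_choice ((v : Cfsg.GolayPt → ℤ) p) with e | e <;>
          (rw [CfsgLib.Fischer2.coordVec, e] at hp; omega)
      · by_cases hq : q = p
        · rw [hq, Pi.single_eq_same]
        · rw [Pi.single_eq_of_ne hq]; exact h0 q hq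
  have hP : ∀ g : ↥Cfsg.Co0, (∀ v : ↥Cfsg.leechLattice, (v : Cfsg.GolayPt → ℤ) ∈ Cfsg.stdCross →
      ((g • v : ↥Cfsg.leechLattice) : Cfsg.GolayPt → ℤ) ∈ Cfsg.stdCross) ↔
      g ∈ MulAction.stabilizer ↥Cfsg.Co0 (CfsgLib.Leech.crossOf CfsgLib.Fischer2.vecA) := by
    intro g
    rw [CfsgLib.Leech.mem_stabilizer_crossOf]
    constructor
    · intro h
      exact ((hstd _).1 (h CfsgLib.Fischer2.vecA ((hstd _).2
        ⟨CfsgLib.Leech.sqNorm_vecA, CfsgLib.Fischer2.CongTwo.refl _⟩))).2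
    · intro h v hv
      obtain ⟨hn, hc⟩ := (hstd v).1 hv
      exact (hstd _).2 ⟨by rw [CfsgLib.Leech.sqNorm_smul, hn], (hc.smul g).trans h⟩
  have hH' : H = CfsgLib.GolayStructure.monoGroup := by
    ext g
    rw [← SetLike.mem_coe, hH]
    exact hP g
  rw [hH']
  exact CfsgLib.GolayStructure.isCoatom_monoGroup

end Cfsg.Agent.S1572
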