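import Cfsg.Statements.S1579
import Cfsg.Agent.Lib.Leech.Pairs

set_option autoImplicit false
open Cfsg

namespace Cfsg.Agent.S1579

/-- The stabiliser of a vector of customary norm 6 is transitive on the 552 minimal vectors that complete it to a sum of two minimal vectors. -/
theorem result (u v v' : ↥Cfsg.leechLattice) (hu : Cfsg.sqNorm (u : Cfsg.GolayPt → ℤ) = 48) (hv : Cfsg.sqNorm (v : Cfsg.GolayPt → ℤ) = 32 ∧ Cfsg.sqNorm ((u - v) : Cfsg.GolayPt → ℤ) = 32) (hv' : Cfsg.sqNorm (v' : Cfsg.GolayPt → ℤ) = 32 ∧ Cfsg.sqNorm ((u - v') : Cfsg.GolayPt → ℤ) = 32) : ∃ g : ↥Cfsg.Co0, g • u = u ∧ g • v = v' := by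
  have hdot : ∀ z : ↥Cfsg.leechLattice, Cfsg.sqNorm (z : Cfsg.GolayPt → ℤ) = 32 →
      Cfsg.sqNorm ((u - z) : Cfsg.GolayPt → ℤ) = 32 →
      Cfsg.dotInt (z : Cfsg.GolayPt → ℤ) ((u - z) : Cfsg.GolayPt → ℤ) = -8 := by
    intro z h1 h2
    have h3 := CfsgLib.Leech.sqNorm_add (z : Cfsg.GolayPt → ℤ) ((u : Cfsg.GolayPt → ℤ) - (z : Cfsg.GolayPt → ℤ))
    rw [add_sub_cancel] at h3
    linarith
  obtain ⟨g, hg, hg'⟩ := CfsgLib.Leech.pair_transitive (w := u - v) (w' := u - v') hv.1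
    hv.2 hv'.1 hv'.2 (Or.inr (Or.inl rfl)) (hdot v hv.1 hv.2) (hdot v' hv'.1 hv'.2)
  refine ⟨g, ?_, hg⟩
  have h := CfsgLib.Leech.smul_add_co0 g v (u - v)
  rw [hg, hg', add_sub_cancel, add_sub_cancel] at h
  exact h

end Cfsg.Agent.S1579
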