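import Cfsg.Statements.S1588
import Cfsg.Agent.Lib.GolayStructure.MatrixLattice

set_option autoImplicit false
open Matrix
open Cfsg

namespace Cfsg.Agent.S1588

/-- Second step of the characterisation: under the vector counts of the rank-24 lattice, the norm-8 vectors fall into congruence classes of exactly 48 modulo twice the lattice. -/
theorem result (B : Matrix (Fin 24) (Fin 24) ℤ) (hsymm : B.IsSymm) (hpos : ∀ x : Fin 24 → ℤ, x ≠ 0 → 0 < x ⬝ᵥ (B *ᵥ x)) (heven : ∀ x : Fin 24 → ℤ, (2 : ℤ) ∣ x ⬝ᵥ (B *ᵥ x)) (h2 : ∀ x : Fin 24 → ℤ, x ⬝ᵥ (B *ᵥ x) ≠ 2) (h4 : {x : Fin 24 → ℤ | x ⬝ᵥ (B *ᵥ x) = 4}.ncard = 196560) (h6 : {x : Fin 24 → ℤ | x ⬝ᵥ (B *ᵥ x) = 6}.ncard = 16773120) (h8 : {x : Fin 24 → ℤ | x ⬝ᵥ (B *ᵥ x) = 8}.ncard = 398034000) (x : Fin 24 → ℤ) (hx : x ⬝ᵥ (B *ᵥ x) = 8) : {y : Fin 24 → ℤ | y ⬝ᵥ (B *ᵥ y) = 8 ∧ ∀ i, (2 : ℤ) ∣ (x - y) i}.ncard = 48 := by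
  have h := (CfsgLib.GolayStructure.frame_count (CfsgLib.GolayStructure.gramForm_symm hsymm)
    (CfsgLib.GolayStructure.gramForm_min hpos heven h2) (CfsgLib.GolayStructure.gramForm_orth_card B)
    (fun v i => (v i : ZMod 2)) CfsgLib.GolayStructure.zmod_two_eq_iff (by simp) h4 h6 h8).1 x hx
  simpa only [CfsgLib.GolayStructure.exists_two_smul_iff, CfsgLib.GolayStructure.gramForm_apply]
    using h

end Cfsg.Agent.S1588
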