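import Cfsg.Statements.S1589
import Cfsg.Agent.Lib.GolayStructure.IndexOdd

set_option autoImplicit false
open scoped Pointwise
open Cfsg

namespace Cfsg.Agent.S1589

open CfsgLib.GolayStructure

theorem odd_index {H : Subgroup ↥Cfsg.M24}
    (hN : Nat.card H = 967680 ∨ Nat.card H = 322560 ∨ Nat.card H = 138240) :
    (∃ o ∈ octads, H ≤ MulAction.stabilizer M24 o) ∨
      Nat.card H = 138240 ∧ ∃ S ∈ sextets, H = MulAction.stabilizer M24 S := by
  obtain ⟨S, hSH, hS⟩ := exists_subgroup_two (H := H)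
    (by rcases hN with h | h | h <;> rw [h] <;> norm_num)
  obtain ⟨O, hO, hfix⟩ := exists_fixed_octad hS
  rcases stab_or_transitive hS hSH hO hfix with h | h
  · exact Or.inl ⟨O, hO, fun g hg => h g hg⟩
  · exact Or.inr (transitive_eq_sextet hS hSH hO hfix h hN)

/-- Subgroups of the group of the length-24 code of index 759, 276 and 1771 are exactly the octad, duad and sextet stabilisers, and no subgroup has index 253. -/
theorem result : (∀ H : Subgroup ↥Cfsg.M24, H.index = 759 → ∃ o ∈ Cfsg.octads, H = MulAction.stabilizer Cfsg.M24 o) ∧ (∀ H : Subgroup ↥Cfsg.M24, H.index = 276 → ∃ s : Finset Cfsg.GolayPt, s.card = 2 ∧ H = MulAction.stabilizer Cfsg.M24 s) ∧ (∀ H : Subgroup ↥Cfsg.M24, H.index = 1771 → ∃ S ∈ Cfsg.sextets, H = MulAction.stabilizer Cfsg.M24 S) ∧ ∀ H : Subgroup ↥Cfsg.M24, H.index ≠ 253 := by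
  refine ⟨fun H hn => ?_, fun H hn => eq_duad_stabilizer hn, fun H hn => ?_, fun H hn => ?_⟩ <;>
    have hc := card_eq_of_index hn
  · have hH : Nat.card H = 322560 := by omega
    rcases odd_index (Or.inr (Or.inl hH)) with ⟨o, ho, hle⟩ | ⟨h, -⟩
    · exact ⟨o, ho, Subgroup.eq_of_le_of_card_ge hle (by rw [card_stabilizer_octad ho, hH])⟩
    · omega
  · have hH : Nat.card H = 138240 := by omega
    rcases odd_index (Or.inr (Or.inr hH)) with ⟨o, ho, hle⟩ | ⟨-, h⟩
    · have := Subgroup.card_dvd_of_le hle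
      rw [card_stabilizer_octad ho, hH] at this
      norm_num at this
    · exact h
  · have hH : Nat.card H = 967680 := by omega
    rcases odd_index (Or.inl hH) with ⟨o, ho, hle⟩ | ⟨h, -⟩
    · have := card_le_of_le hle
      rw [card_stabilizer_octad ho, hH] at this
      omega
    · omega

end Cfsg.Agent.S1589
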