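import Cfsg.Statements.S1590
import Cfsg.Agent.Lib.GolayStructure.TernaryHexads

set_option autoImplicit false
open Cfsg

namespace Cfsg.Agent.S1590

/-- The length-12 ternary code has 729 words with weight distribution 0^1 6^264 9^440 12^24. -/
theorem result : Nat.card ↥Cfsg.ternaryGolayCode = 729 ∧ (∀ x ∈ Cfsg.ternaryGolayCode, x ≠ 0 → (Cfsg.ternarySupport x).card = 6 ∨ (Cfsg.ternarySupport x).card = 9 ∨ (Cfsg.ternarySupport x).card = 12) ∧ {x : Cfsg.ArrayPt → ZMod 3 | x ∈ Cfsg.ternaryGolayCode ∧ (Cfsg.ternarySupport x).card = 6}.ncard = 264 ∧ {x : Cfsg.ArrayPt → ZMod 3 | x ∈ Cfsg.ternaryGolayCode ∧ (Cfsg.ternarySupport x).card = 9}.ncard = 440 ∧ {x : Cfsg.ArrayPt → ZMod 3 | x ∈ Cfsg.ternaryGolayCode ∧ (Cfsg.ternarySupport x).card = 12}.ncard = 24 := by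
  open CfsgLib.GolayStructure.Ternary in
  have key : ∀ P : (Cfsg.ArrayPt → ZMod 3) → Prop, ∀ (q : ℕ → Bool),
      (∀ n < 729, P (word n) ↔ q n = true) →
      {x : Cfsg.ArrayPt → ZMod 3 | x ∈ Cfsg.ternaryGolayCode ∧ P x}.ncard
        = ((List.range 729).filter q).length := by
    intro P q hP
    have he : {x : Cfsg.ArrayPt → ZMod 3 | x ∈ Cfsg.ternaryGolayCode ∧ P x}
        = word '' (((List.range 729).filter q).toFinset : Set ℕ) := by
      ext x
      simp only [Set.mem_ofPred_eq, Set.mem_image, List.coe_toFinset, List.mem_filter,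
        List.mem_range, mem_iff_word]
      constructor
      · rintro ⟨⟨n, hn, rfl⟩, hp⟩
        exact ⟨n, ⟨hn, (hP n hn).1 hp⟩, rfl⟩
      · rintro ⟨n, ⟨hn, hq⟩, rfl⟩
        exact ⟨⟨n, hn, rfl⟩, (hP n hn).2 hq⟩
    rw [he, Set.InjOn.ncard_image, Set.ncard_coe_finset,
      List.toFinset_card_of_nodup (List.nodup_range.filter _)]
    intro a ha b hb h
    simp only [List.coe_toFinset, Set.mem_ofPred_eq, List.mem_filter, List.mem_range] at ha hb
    exact word_injOn ha.1 hb.1 h
  open CfsgLib.GolayStructure.Ternary in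
  have wts : (List.range 729).all (fun n => n == 0 || wt n == 6 || wt n == 9 || wt n == 12) = true :=
    by decide +kernel
  refine ⟨?_, ?_, ?_, ?_, ?_⟩
  · have h := key (fun _ => True) (fun _ => true) (by simp)
    simp only [and_true, List.filter_true, List.length_range] at h
    exact h
  · intro x hx hne
    obtain ⟨n, hn, rfl⟩ := (CfsgLib.GolayStructure.Ternary.mem_iff_word x).1 hx
    rw [CfsgLib.GolayStructure.Ternary.card_support_word n hn]
    have h := List.all_eq_true.1 wts n (List.mem_range.2 hn)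
    simp only [Bool.or_eq_true, beq_iff_eq] at h
    rcases h with ((rfl | h) | h) | h
    · exact absurd (by decide +kernel) hne
    · exact Or.inl h
    · exact Or.inr (Or.inl h)
    · exact Or.inr (Or.inr h)
  · rw [key _ (fun n => CfsgLib.GolayStructure.Ternary.wt n == 6) fun n hn => by
      simp [CfsgLib.GolayStructure.Ternary.card_support_word n hn]]
    decide +kernel
  · rw [key _ (fun n => CfsgLib.GolayStructure.Ternary.wt n == 9) fun n hn => by
      simp [CfsgLib.GolayStructure.Ternary.card_support_word n hn]]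
    decide +kernel
  · rw [key _ (fun n => CfsgLib.GolayStructure.Ternary.wt n == 12) fun n hn => by
      simp [CfsgLib.GolayStructure.Ternary.card_support_word n hn]]
    decide +kernel

end Cfsg.Agent.S1590
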