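import Cfsg.Statements.S1591
import Cfsg.Agent.Lib.GolayStructure.Ternary

set_option autoImplicit false
open Cfsg

namespace Cfsg.Agent.S1591

/-- Any two words of the length-12 ternary code have dot product zero. -/
theorem result (x y : Cfsg.ArrayPt → ZMod 3) (hx : x ∈ Cfsg.ternaryGolayCode) (hy : y ∈ Cfsg.ternaryGolayCode) : ∑ p, x p * y p = 0 := by
  open CfsgLib.GolayStructure.Ternary in
  have h : ∀ k l : Fin 6, ∑ p, row k p * row l p = 0 := by decide +kernel
  obtain ⟨c, rfl⟩ := (CfsgLib.GolayStructure.Ternary.mem_iff_combine x).1 hx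
  obtain ⟨d, rfl⟩ := (CfsgLib.GolayStructure.Ternary.mem_iff_combine y).1 hy
  simp only [CfsgLib.GolayStructure.Ternary.combine_apply, Finset.sum_mul_sum]
  rw [Finset.sum_comm]
  refine Finset.sum_eq_zero fun k _ => ?_
  rw [Finset.sum_comm]
  refine Finset.sum_eq_zero fun l _ => ?_
  simp only [mul_mul_mul_comm, ← Finset.mul_sum, h, mul_zero]

end Cfsg.Agent.S1591
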