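import Cfsg.Statements.S1595
import Cfsg.Agent.Lib.Golay.Steiner

set_option autoImplicit false
open Cfsg

namespace Cfsg.Agent.S1595

/-- Leech triangle of S(5, 6, 12): blocks meet in 0, 2, 3 or 4 points, and a block is met exactly in a given 2-, 3- or 4-subset by 3, 2, 3 blocks respectively. -/
theorem result {α : Type*} [Fintype α] [DecidableEq α] (hα : Fintype.card α = 12) {B : Set (Finset α)} (hB : Cfsg.IsSteinerSystem 5 6 B) (b : Finset α) (hb : b ∈ B) : (∀ c ∈ B, c ≠ b → (b ∩ c).card = 0 ∨ (b ∩ c).card = 2 ∨ (b ∩ c).card = 3 ∨ (b ∩ c).card = 4) ∧ ∀ s ⊆ b, (s.card = 2 → {c : Finset α | c ∈ B ∧ b ∩ c = s}.ncard = 3) ∧ (s.card = 3 → {c : Finset α | c ∈ B ∧ b ∩ c = s}.ncard = 2) ∧ (s.card = 4 → {c : Finset α | c ∈ B ∧ b ∩ c = s}.ncard = 3) := by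
  classical
  obtain ⟨n, hn, -, h1, -⟩ := CfsgLib.Golay.steiner_5_6_12_numbers hα hB hb
  have hint : ∀ c ∈ B, c ≠ b → (b ∩ c).card < 5 ∧ (b ∩ c).card ≠ 1 := fun c hc hcb =>
    ⟨CfsgLib.Golay.card_inter_lt hB hb hc hcb.symm, fun e => by
      rw [hn, Set.ncard_eq_zero (Set.toFinite _)] at h1
      exact Set.eq_empty_iff_forall_notMem.1 h1 c ⟨hc, hcb, e⟩⟩
  refine ⟨fun c hc hcb => by have := hint c hc hcb; omega, ?_⟩
  let N : Finset α → ℕ := fun T => {c : Finset α | c ∈ B ∧ b ∩ c = T}.ncard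
  have hb6 := hB.1 b hb
  have hne : ∀ {T : Finset α}, T.card < 6 → ∀ c ∈ B, b ∩ c = T → c ≠ b := by
    rintro T hT c - rfl rfl
    rw [Finset.inter_self] at hT
    omega
  have main : ∀ s ⊆ b, s.card ≤ 4 →
      {c : Finset α | c ∈ B ∧ s ⊆ c}.ncard =
        1 + ∑ T ∈ b.powerset.filter (fun T => s ⊆ T ∧ T.card ≤ 4), N T := by
    intro s hs hs4
    have e1 : {c : Finset α | c ∈ B ∧ s ⊆ c} =
        ↑(insert b (Finset.univ.filter fun c => c ∈ B ∧ c ≠ b ∧ s ⊆ c)) := by
      ext c
      simp only [Set.mem_ofPred_eq, Finset.coe_insert, Finset.coe_filter, Finset.mem_univ, true_and,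
        Set.mem_insert_iff]
      constructor
      · intro h; by_cases hcb : c = b
        · exact Or.inl hcb
        · exact Or.inr ⟨h.1, hcb, h.2⟩
      · rintro (rfl | h)
        · exact ⟨hb, hs⟩
        · exact ⟨h.1, h.2.2⟩
    rw [e1, Set.ncard_coe_finset, Finset.card_insert_of_notMem (by simp), add_comm,
      Finset.card_eq_sum_card_fiberwise (f := fun c => b ∩ c)
        (t := b.powerset.filter (fun T => s ⊆ T ∧ T.card ≤ 4))]
    · congr 1
      refine Finset.sum_congr rfl fun T hT => ?_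
      simp only [Finset.mem_filter, Finset.mem_powerset] at hT
      rw [← Set.ncard_coe_finset]
      congr 1
      ext c
      simp only [Finset.coe_filter, Finset.mem_filter, Finset.mem_univ, true_and, Set.mem_ofPred_eq]
      refine ⟨fun h => ⟨h.1.1, h.2⟩, fun h => ⟨⟨h.1, hne (by omega) c h.1 h.2, ?_⟩, h.2⟩⟩
      exact hT.2.1.trans (h.2 ▸ Finset.inter_subset_right)
    · intro c hc
      simp only [Finset.coe_filter, Finset.mem_univ, true_and, Set.mem_ofPred_eq] at hc
      simp only [Finset.coe_filter, Finset.mem_powerset, Set.mem_ofPred_eq]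
      exact ⟨Finset.inter_subset_left, Finset.subset_inter hs hc.2.2,
        by have := hint c hc.1 hc.2.1; omega⟩
  have split : ∀ s ⊆ b, s.card ≤ 4 → ∀ f : ℕ → ℕ,
      (∀ T ⊆ b, s ⊆ T → T.card ≤ 4 → T ≠ s → N T = f T.card) →
      ∑ T ∈ b.powerset.filter (fun T => s ⊆ T ∧ T.card ≤ 4), N T =
        N s + ∑ m ∈ Finset.Ioc s.card 4, (6 - s.card).choose (m - s.card) * f m := by
    intro s hs hs4 f hf
    rw [← Finset.add_sum_erase _ _ (show s ∈ b.powerset.filter (fun T => s ⊆ T ∧ T.card ≤ 4) by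
      simp [hs, hs4])]
    congr 1
    rw [Finset.sum_congr rfl fun T hT => by
      simp only [Finset.mem_erase, Finset.mem_filter, Finset.mem_powerset] at hT
      exact hf T hT.2.1 hT.2.2.1 hT.2.2.2 hT.1,
      ← Finset.sum_fiberwise_of_maps_to (g := Finset.card) (t := Finset.Ioc s.card 4) ?_]
    · refine Finset.sum_congr rfl fun m hm => ?_
      rw [Finset.sum_congr rfl fun T hT => by rw [(Finset.mem_filter.1 hT).2], Finset.sum_const,
        smul_eq_mul, ← hb6, ← CfsgLib.Golay.card_powersetCard_above hs (Finset.mem_Ioc.1 hm).1.le]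
      congr 2
      ext T
      simp only [Finset.mem_filter, Finset.mem_erase, Finset.mem_powerset, Finset.mem_powersetCard]
      have := Finset.mem_Ioc.1 hm
      constructor
      · rintro ⟨⟨-, h1, h2, -⟩, h3⟩; exact ⟨⟨h1, h3⟩, h2⟩
      · rintro ⟨⟨h1, h3⟩, h2⟩
        exact ⟨⟨fun e => by rw [e] at h3; omega, h1, h2, by omega⟩, h3⟩
    · intro T hT
      simp only [Finset.mem_erase, Finset.mem_filter, Finset.mem_powerset] at hT
      refine Finset.mem_Ioc.2 ⟨?_, hT.2.2.2⟩
      exact Finset.card_lt_card (Finset.ssubset_iff_subset_ne.2 ⟨hT.2.2.1, hT.1.symm⟩)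
  have lam : ∀ s ⊆ b, ∀ j, s.card = j → ∀ l, j ≤ 4 →
      (∀ m, m * (6 - j).choose (5 - j) = (12 - j).choose (5 - j) → m = l) →
      {c : Finset α | c ∈ B ∧ s ⊆ c}.ncard = l := by
    intro s hs j hj l hj4 hl
    have h := CfsgLib.Golay.ncard_blocks_above hB (s := s) (by omega)
    rw [hj, hα] at h
    exact hl _ h
  have h4 : ∀ s ⊆ b, s.card = 4 → N s = 3 := by
    intro s hs hc
    have h := lam s hs 4 hc 4 le_rfl (fun m hm => by norm_num [Nat.choose] at hm; omega)
    rw [main s hs (by omega), split s hs (by omega) (fun _ => 0) (fun T _ hsT hT4 hne => absurd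
      (Finset.eq_of_subset_of_card_le hsT (by omega)).symm hne), hc] at h
    norm_num at h
    omega
  have h3 : ∀ s ⊆ b, s.card = 3 → N s = 2 := by
    intro s hs hc
    have h := lam s hs 3 hc 12 (by norm_num) (fun m hm => by norm_num [Nat.choose] at hm; omega)
    rw [main s hs (by omega), split s hs (by omega) (fun _ => 3) (fun T hTb hsT hT4 hne => h4 T hTb (by
      have := Finset.card_lt_card (Finset.ssubset_iff_subset_ne.2 ⟨hsT, hne.symm⟩)
      omega)), hc, show Finset.Ioc 3 4 = {4} by decide] at h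
    norm_num [Nat.choose] at h
    omega
  intro s hs
  refine ⟨fun hc => ?_, h3 s hs, h4 s hs⟩
  have h := lam s hs 2 hc 30 (by norm_num) (fun m hm => by norm_num [Nat.choose] at hm; omega)
  rw [main s hs (by omega), split s hs (by omega) (fun m => if m = 3 then 2 else 3)
    (fun T hTb hsT hT4 hne => by
      have := Finset.card_lt_card (Finset.ssubset_iff_subset_ne.2 ⟨hsT, hne.symm⟩)
      rcases (show T.card = 3 ∨ T.card = 4 by omega) with e | e
      · rw [e, if_pos rfl]; exact h3 T hTb e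
      · rw [e, if_neg (by norm_num)]; exact h4 T hTb e),
    hc, show Finset.Ioc 2 4 = {3, 4} by decide] at h
  norm_num [Nat.choose] at h
  change N s = 3
  omega

end Cfsg.Agent.S1595
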