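import Cfsg.Statements.S1610
import Cfsg.Agent.Lib.Golay.Hexacode

set_option autoImplicit false
open Cfsg

namespace Cfsg.Agent.S1610

/-- The hexacode has 64 words, minimum weight 4, and weight distribution 0^1 4^45 6^18. -/
theorem result (F : Type*) [Field F] [Fintype F] [DecidableEq F] (hF : Fintype.card F = 4) (ω : F) (hω : ω ^ 2 + ω + 1 = 0) : Nat.card ↥(Cfsg.hexacode F ω) = 64 ∧ (∀ x ∈ Cfsg.hexacode F ω, x ≠ 0 → (Finset.univ.filter fun i => x i ≠ 0).card = 4 ∨ (Finset.univ.filter fun i => x i ≠ 0).card = 6) ∧ {x : Fin 6 → F | x ∈ Cfsg.hexacode F ω ∧ (Finset.univ.filter fun i => x i ≠ 0).card = 4}.ncard = 45 ∧ {x : Fin 6 → F | x ∈ Cfsg.hexacode F ω ∧ (Finset.univ.filter fun i => x i ≠ 0).card = 6}.ncard = 18 := by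
  refine ⟨CfsgLib.Golay.Hexacode.natCard_hexacode hF hω, fun x hx hne => ?_,
    (CfsgLib.Golay.Hexacode.ncard_weight hF hω 4).trans (by decide +kernel),
    (CfsgLib.Golay.Hexacode.ncard_weight hF hω 6).trans (by decide +kernel)⟩
  obtain ⟨t, rfl⟩ := (CfsgLib.Golay.Hexacode.mem_hexacode_iff hF hω).1 hx
  rw [CfsgLib.Golay.Hexacode.weight_comp hF hω]
  have key : ∀ t, t ≠ (0, 0, 0) →
      (Finset.univ.filter fun i => CfsgLib.Golay.Hexacode.hexWord t i ≠ 0).card = 4 ∨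
      (Finset.univ.filter fun i => CfsgLib.Golay.Hexacode.hexWord t i ≠ 0).card = 6 := by
    decide +kernel
  refine key t fun h => hne ?_
  subst h
  funext i
  fin_cases i <;> rfl

end Cfsg.Agent.S1610
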