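import Cfsg.Statements.S1612
import Cfsg.Agent.Lib.Fischer.Transitivity
-- import your own Cfsg.Agent.* helpers here

set_option autoImplicit false
open Cfsg

namespace Cfsg.Agent.S1612

/-- In a 3-transposition group (no solvable normal subgroup, perfect derived group), the normaliser of a commuting set of transpositions of maximum size contains a Sylow 2-subgroup and is doubly transitive on the set. -/
theorem result {G : Type*} [Group G] [Finite G] (hsol : ∀ N : Subgroup G, N.Normal → Group.IsSolvable ↥N → N = ⊥) (hperf : ⁅commutator G, commutator G⁆ = commutator G) {D : Set G} (hD : Cfsg.IsThreeTranspositionClass D) {E : Set G} (hE : E ⊆ D) (hc : ∀ a ∈ E, ∀ b ∈ E, Commute a b) (hmax : ∀ E' : Set G, E' ⊆ D → (∀ a ∈ E', ∀ b ∈ E', Commute a b) → E'.ncard ≤ E.ncard) : (∃ P : Sylow 2 G, (P : Subgroup G) ≤ Subgroup.normalizer E) ∧ ∀ a ∈ E, ∀ b ∈ E, ∀ c ∈ E, ∀ d ∈ E, a ≠ b → c ≠ d → ∃ g ∈ Subgroup.normalizer E, g * a * g⁻¹ = c ∧ g * b * g⁻¹ = d := by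
  haveI : Fact (Nat.Prime 2) := ⟨Nat.prime_two⟩
  have hG := CfsgLib.Fischer.group_of_class hD
  -- the closure of a commuting set of involutions
  have hcl : ∀ z ∈ Subgroup.closure E, z ∈ Subgroup.centralizer E := by
    intro z hz
    refine (Subgroup.closure_le _).2 (fun a ha => ?_) hz
    exact Subgroup.mem_centralizer_iff.2 fun b hb => (hc b hb a ha).eq
  have hsq : ∀ z ∈ Subgroup.closure E, z * z = 1 := by
    intro z hz
    induction hz using Subgroup.closure_induction with
    | mem a ha => exact CfsgLib.Fischer.sq_eq_one hD.1 (hE ha)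
    | one => exact mul_one 1
    | mul a b ha hb iha ihb =>
      have hab : a * b = b * a := by
        have hcm : Subgroup.closure E ≤ Subgroup.centralizer (Subgroup.closure E : Set G) := by
          rw [Subgroup.closure_le]
          intro c hc'
          refine Subgroup.mem_centralizer_iff.2 fun w hw => ?_
          exact ((Subgroup.mem_centralizer_iff.1 (hcl w hw)) c hc').symm
        exact (Subgroup.mem_centralizer_iff.1 (hcm ha) b hb).symm
      rw [show a * b * (a * b) = a * (b * a) * b by group, ← hab,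
        show a * (a * b) * b = (a * a) * (b * b) by group, iha, ihb, mul_one]
    | inv a ha iha => rw [← mul_inv_rev, iha, inv_one]
  have h2E : IsPGroup 2 ↥(Subgroup.closure E) := fun z => ⟨1, Subtype.ext (by
    rw [pow_one, SubmonoidClass.coe_pow, pow_two]; exact hsq z z.2)⟩
  -- a commuting set inside a 2-subgroup and containing `E` is `E`
  have hEeq : ∀ (P : Subgroup G), IsPGroup 2 P → Subgroup.closure E ≤ P →
      {z : G | z ∈ D ∧ z ∈ P} = E := by
    intro P hP hle
    refine (Set.eq_of_subset_of_ncard_le (t := {z : G | z ∈ D ∧ z ∈ P})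
      (fun z hz => ⟨hE hz, hle (Subgroup.subset_closure hz)⟩) (hmax _ (fun z hz => hz.1) ?_)).symm
    exact fun a ha b hb => CfsgLib.Fischer.commute_of_isPGroup_two hD.1 hP ha.1 hb.1 (mul_mem ha.2 hb.2)
  refine ⟨?_, ?_⟩
  · obtain ⟨P, hP⟩ := h2E.exists_le_sylow
    refine ⟨P, fun g hg => Subgroup.mem_set_normalizer_iff.2 fun z => ?_⟩
    rw [← hEeq P P.isPGroup' hP]
    show z ∈ D ∧ z ∈ (P : Subgroup G) ↔ g * z * g⁻¹ ∈ D ∧ g * z * g⁻¹ ∈ (P : Subgroup G)
    rw [CfsgLib.Fischer.conj_iff hG]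
    refine and_congr_right fun _ => ⟨fun hz => mul_mem (mul_mem hg hz) (inv_mem hg), fun hz => ?_⟩
    have := mul_mem (mul_mem (inv_mem hg) hz) hg
    simpa [mul_assoc] using this
  · intro a ha b hb c hc' d hd hab hcd
    -- move the pair
    obtain ⟨g₁, hg₁⟩ := CfsgLib.Fischer.exists_conj_of_class hD (hE ha) (hE hc')
    obtain ⟨hp, hconn⟩ := CfsgLib.Fischer.Transitivity.primitive_connected hD hsol hperf
      ⟨a, hE ha, b, hE hb, hab, hc a ha b hb⟩
    have hb' : g₁ * b * g₁⁻¹ ∈ CfsgLib.Fischer.perp D c := by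
      rw [← hg₁]
      exact CfsgLib.Fischer.Transitivity.image_perp hG g₁ ⟨hE hb, Ne.symm hab, hc a ha b hb⟩
    obtain ⟨h, hh, hhd⟩ := CfsgLib.Fischer.Transitivity.transitive hD hp hconn (hE hc') hb'
      ⟨hE hd, Ne.symm hcd, hc c hc' d hd⟩
    have hhc : h * c * h⁻¹ = c := by
      have hm : h ∈ Subgroup.centralizer ({c} : Set G) := by
        refine (Subgroup.closure_le _).2 (fun w hw => ?_) hh
        exact Subgroup.mem_centralizer_singleton_iff.2 hw.2.2.symm.eq
      rw [Subgroup.mem_centralizer_singleton_iff.1 hm, mul_inv_cancel_right]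
    set g := h * g₁ with hgdef
    have hga : g * a * g⁻¹ = c := by
      rw [hgdef, show h * g₁ * a * (h * g₁)⁻¹ = h * (g₁ * a * g₁⁻¹) * h⁻¹ by group, hg₁, hhc]
    have hgb : g * b * g⁻¹ = d := by
      rw [hgdef, show h * g₁ * b * (h * g₁)⁻¹ = h * (g₁ * b * g₁⁻¹) * h⁻¹ by group, hhd]
    -- Sylow subgroups of the centraliser of the pair
    set K : Subgroup G := Subgroup.centralizer ({c, d} : Set G) with hK
    have hEK : Subgroup.closure E ≤ K := fun z hz => Subgroup.mem_centralizer_iff.2 fun w hw => by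
      rcases hw with rfl | rfl
      exacts [Subgroup.mem_centralizer_iff.1 (hcl z hz) _ hc',
        Subgroup.mem_centralizer_iff.1 (hcl z hz) _ hd]
    have hgEK : (Subgroup.closure E).map (MulAut.conj g).toMonoidHom ≤ K := by
      rintro _ ⟨z, hz, rfl⟩
      refine Subgroup.mem_centralizer_iff.2 fun w hw => ?_
      have hw' : ∃ e ∈ E, w = g * e * g⁻¹ := by
        rcases hw with rfl | rfl
        exacts [⟨a, ha, hga.symm⟩, ⟨b, hb, hgb.symm⟩]
      obtain ⟨e, he, rfl⟩ := hw'
      exact ((CfsgLib.Fischer.conj_commute_iff g e z).2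
        (Subgroup.mem_centralizer_iff.1 (hcl z hz) _ he)).eq
    obtain ⟨P₁, hP₁⟩ := (h2E.comap_subtype (K := K)).exists_le_sylow
    obtain ⟨P₂, hP₂⟩ := ((h2E.map (MulAut.conj g).toMonoidHom).comap_subtype (K := K)).exists_le_sylow
    obtain ⟨k, hk⟩ := MulAction.exists_smul_eq K P₂ P₁
    refine ⟨(k : G) * g, ?_, ?_, ?_⟩
    · have hmem : ∀ e ∈ E, (k : G) * g * e * ((k : G) * g)⁻¹ ∈ E := by
        intro e he
        have heD : (k : G) * g * e * ((k : G) * g)⁻¹ ∈ D := hG.2.1 _ e (hE he)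
        have he2 : g * e * g⁻¹ ∈ (Subgroup.closure E).map (MulAut.conj g).toMonoidHom :=
          ⟨e, Subgroup.subset_closure he, rfl⟩
        have hin : (⟨g * e * g⁻¹, hgEK he2⟩ : K) ∈ (P₂ : Subgroup K) := hP₂ he2
        have hin' : k * (⟨g * e * g⁻¹, hgEK he2⟩ : K) * k⁻¹ ∈ (P₁ : Subgroup K) := by
          rw [← hk, Sylow.coe_subgroup_smul]
          exact ⟨_, hin, rfl⟩
        rw [← hEeq ((P₁ : Subgroup K).map K.subtype) (P₁.isPGroup'.map _) (fun z hz =>
          ⟨⟨z, hEK hz⟩, hP₁ hz, rfl⟩)]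
        refine ⟨heD, ⟨_, hin', ?_⟩⟩
        simp only [Subgroup.coe_subtype, Subgroup.coe_mul, Subgroup.coe_inv]
        group
      have himg : (fun e => (k : G) * g * e * ((k : G) * g)⁻¹) '' E = E :=
        Set.eq_of_subset_of_ncard_le (Set.image_subset_iff.2 hmem)
          (le_of_eq (Set.ncard_image_of_injective E fun p q e =>
            CfsgLib.Fischer.Transitivity.conj_injective e).symm)
      refine Subgroup.mem_set_normalizer_iff.2 fun z => ⟨hmem z, fun hz => ?_⟩
      obtain ⟨e, he, hez⟩ : (k : G) * g * z * ((k : G) * g)⁻¹ ∈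
          (fun e => (k : G) * g * e * ((k : G) * g)⁻¹) '' E := himg.symm ▸ hz
      rw [← CfsgLib.Fischer.Transitivity.conj_injective hez]
      exact he
    · rw [show (k : G) * g * a * ((k : G) * g)⁻¹ = k * (g * a * g⁻¹) * (k : G)⁻¹ by group, hga,
        ← Subgroup.mem_centralizer_iff.1 k.2 c (Set.mem_insert c {d}), mul_inv_cancel_right]
    · rw [show (k : G) * g * b * ((k : G) * g)⁻¹ = k * (g * b * g⁻¹) * (k : G)⁻¹ by group, hgb,
        ← Subgroup.mem_centralizer_iff.1 k.2 d (Set.mem_insert_of_mem c rfl), mul_inv_cancel_right]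

end Cfsg.Agent.S1612
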