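import Cfsg.Statements.S1614
import Cfsg.Agent.Lib.Fischer.CoreTwo.Main
import Cfsg.Agent.S0247

set_option autoImplicit false
open Cfsg

namespace Cfsg.Agent.S1614

/-- If the commuting transpositions of one transposition generate a solvable group, a Fischer 3-transposition group is S5, S6, PSU(4, 2) or PSU(5, 2). -/
theorem result {G : Type*} [Group G] [Finite G] (hsol : ∀ N : Subgroup G, N.Normal → Group.IsSolvable ↥N → N = ⊥) (hperf : ⁅commutator G, commutator G⁆ = commutator G) {D : Set G} (hD : Cfsg.IsThreeTranspositionClass D) (x : G) (hx : x ∈ D) (hs : Group.IsSolvable ↥(Subgroup.closure {y : G | y ∈ D ∧ y ≠ x ∧ Commute x y})) : Nonempty (G ≃* Equiv.Perm (Fin 5)) ∨ Nonempty (G ≃* Equiv.Perm (Fin 6)) ∨ ∃ (F : Type) (_ : Field F) (_ : Fintype F), Fintype.card F = 4 ∧ (Nonempty (G ≃* Cfsg.PSU 4 F 2) ∨ Nonempty (G ≃* Cfsg.PSU 5 F 2)) := by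
  by_cases hodd : Cfsg.oddCore ↥(Subgroup.closure {y : G | y ∈ D ∧ y ≠ x ∧ Commute x y}) ≤
      Subgroup.center ↥(Subgroup.closure {y : G | y ∈ D ∧ y ≠ x ∧ Commute x y})
  swap
  · exact Or.inl (CfsgLib.Fischer.CoreThree.iso_sym_five_of_oddCore hsol hperf hD hx hodd)
  by_cases h2 : Cfsg.pCore 2 ↥(Subgroup.closure {y : G | y ∈ D ∧ y ≠ x ∧ Commute x y}) ≤
      Subgroup.center ↥(Subgroup.closure {y : G | y ∈ D ∧ y ≠ x ∧ Commute x y})
  · exact (CfsgLib.Fischer.CoreTwo.false_of_cores_central hsol hperf hD hx hs h2 hodd).elim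
  refine Or.inr ?_
  rcases CfsgLib.Fischer.CoreTwo.classify (CfsgLib.Fischer.CoreTwo.hyp_of_pCore hsol hperf hD hx h2)
    (CfsgLib.Fischer.CoreTwo.center_eq_bot hsol) with ⟨m, hm, ⟨e⟩, hn⟩ | ⟨F, _, _, n, hF, hn4, he, hn⟩
  · obtain rfl : m = 2 := by
      by_contra hne
      obtain ⟨a, ha, hns⟩ := hn (by omega)
      exact hns (CfsgLib.Fischer.CoreTwo.solvable_conj hD hx hs ha)
    obtain ⟨f⟩ := Cfsg.Agent.S0247.result (F := ZMod 2) (by simp)
    exact Or.inl ⟨e.trans f⟩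
  · refine Or.inr ⟨F, inferInstance, inferInstance, hF, ?_⟩
    have h5 : n = 4 ∨ n = 5 := by
      by_contra hne
      obtain ⟨a, ha, hns⟩ := hn (by omega)
      exact hns (CfsgLib.Fischer.CoreTwo.solvable_conj hD hx hs ha)
    rcases h5 with rfl | rfl
    · exact Or.inl he
    · exact Or.inr he

end Cfsg.Agent.S1614
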