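import Cfsg.Statements.S1616
import Cfsg.Agent.Lib.Fischer.CoreTwo.Main

set_option autoImplicit false
open Cfsg

namespace Cfsg.Agent.S1616

/-- If O₂(⟨D_x⟩) is not central in ⟨D_x⟩ for some transposition x, the 3-transposition group is some Sp(2n, 2) or PSU(n, 2). -/
theorem result {G : Type*} [Group G] [Finite G] (hsol : ∀ N : Subgroup G, N.Normal → Group.IsSolvable ↥N → N = ⊥) (hperf : ⁅commutator G, commutator G⁆ = commutator G) {D : Set G} (hD : Cfsg.IsThreeTranspositionClass D) (x : G) (hx : x ∈ D) (h : ¬ Cfsg.pCore 2 ↥(Subgroup.closure {y : G | y ∈ D ∧ y ≠ x ∧ Commute x y}) ≤ Subgroup.center ↥(Subgroup.closure {y : G | y ∈ D ∧ y ≠ x ∧ Commute x y})) : (∃ n : ℕ, Nonempty (G ≃* Matrix.symplecticGroup (Fin n) (ZMod 2))) ∨ ∃ (F : Type) (_ : Field F) (_ : Fintype F) (n : ℕ), Fintype.card F = 4 ∧ Nonempty (G ≃* Cfsg.PSU n F 2) := by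
  rcases CfsgLib.Fischer.CoreTwo.classify (CfsgLib.Fischer.CoreTwo.hyp_of_pCore hsol hperf hD hx h)
    (CfsgLib.Fischer.CoreTwo.center_eq_bot hsol) with ⟨m, -, he, -⟩ | ⟨F, _, _, n, hF, -, he, -⟩
  · exact Or.inl ⟨m, he⟩
  · exact Or.inr ⟨F, inferInstance, inferInstance, n, hF, he⟩

end Cfsg.Agent.S1616
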