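import Cfsg.Statements.S1617
import Cfsg.Agent.Lib.OddTransp.NoFive
import Cfsg.Agent.Lib.Subnormal.BaerSuzuki
import Cfsg.Agent.Lib.Involutions.Isolated

set_option autoImplicit false
open Cfsg

namespace Cfsg.Agent.S1617

set_option linter.style.haveILetI false

/-- A generating conjugacy class of involutions on which the group (with trivial solvable radical) acts with rank 3 is a class of 3-transpositions. -/
theorem result {G : Type*} [Group G] [Finite G] (hsol : ∀ N : Subgroup G, N.Normal → Group.IsSolvable ↥N → N = ⊥) {D : Set G} (hinv : ∀ d ∈ D, orderOf d = 2) (hconj : ∃ d ∈ D, D = conjugatesOf d) (hgen : Subgroup.closure D = ⊤) (hrank : ∀ x ∈ D, ∃ y ∈ D, ∃ z ∈ D, {w : G | ∃ g : G, Commute g x ∧ g * y * g⁻¹ = w} ≠ {w : G | ∃ g : G, Commute g x ∧ g * x * g⁻¹ = w} ∧ {w : G | ∃ g : G, Commute g x ∧ g * z * g⁻¹ = w} ≠ {w : G | ∃ g : G, Commute g x ∧ g * x * g⁻¹ = w} ∧ {w : G | ∃ g : G, Commute g x ∧ g * y * g⁻¹ = w} ≠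 {w : G | ∃ g : G, Commute g x ∧ g * z * g⁻¹ = w} ∧ D = {w : G | ∃ g : G, Commute g x ∧ g * x * g⁻¹ = w} ∪ {w : G | ∃ g : G, Commute g x ∧ g * y * g⁻¹ = w} ∪ {w : G | ∃ g : G, Commute g x ∧ g * z * g⁻¹ = w}) : Cfsg.IsThreeTranspositionClass D := by
  haveI : Fact (Nat.Prime 2) := ⟨Nat.prime_two⟩
  obtain ⟨x₀, hx₀, hD⟩ := hconj
  refine ⟨⟨hinv, ?_⟩, ⟨x₀, hx₀, hD⟩, hgen⟩
  have hclass : ∀ a ∈ D, ∀ b ∈ D, IsConj a b := fun a ha b hb => by
    rw [hD] at ha hb
    exact IsConj.trans (IsConj.symm ha) hb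
  have hmem : ∀ g : G, ∀ d ∈ D, g * d * g⁻¹ ∈ D := fun g d hd => by
    rw [hD] at hd ⊢
    exact IsConj.trans hd (isConj_iff.2 ⟨g, rfl⟩)
  have hsq : ∀ d ∈ D, d * d = 1 := fun d hd => by
    rw [← pow_two, ← hinv d hd, pow_orderOf_eq_one]
  have hi : ∀ d ∈ D, d⁻¹ = d := fun d hd => inv_eq_of_mul_eq_one_right (hsq d hd)
  -- products take at most two non-trivial orders
  obtain ⟨y, hy, z, hz, -, -, -, hU⟩ := hrank x₀ hx₀
  have hval : ∀ d ∈ D, ∀ e ∈ D, orderOf (d * e) = 1 ∨ orderOf (d * e) = orderOf (x₀ * y) ∨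
      orderOf (d * e) = orderOf (x₀ * z) := by
    intro d hd e he
    obtain ⟨g, hg⟩ := isConj_iff.1 (hclass d hd x₀ hx₀)
    have hw := hmem g e he
    have ho : orderOf (d * e) = orderOf (x₀ * (g * e * g⁻¹)) := by
      rw [← hg, show g * d * g⁻¹ * (g * e * g⁻¹) = g * (d * e) * g⁻¹ by group,
        ← MulAut.conj_apply, MulEquiv.orderOf_eq]
    rw [ho]
    have key : ∀ u w : G, (∃ c : G, Commute c x₀ ∧ c * u * c⁻¹ = w) →
        orderOf (x₀ * w) = orderOf (x₀ * u) := by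
      rintro u w ⟨c, hc, rfl⟩
      rw [show x₀ * (c * u * c⁻¹) = c * (x₀ * u) * c⁻¹ by
        rw [← mul_assoc c x₀ u, hc.eq]; group, ← MulAut.conj_apply, MulEquiv.orderOf_eq]
    rw [hU] at hw
    rcases hw with (h | h) | h
    · exact Or.inl ((key _ _ h).trans (by rw [hsq x₀ hx₀, orderOf_one]))
    · exact Or.inr (Or.inl (key _ _ h))
    · exact Or.inr (Or.inr (key _ _ h))
  -- divisors of such an order are again such orders
  have hdiv : ∀ d ∈ D, ∀ e ∈ D, ∀ q r : ℕ, r ≠ 0 →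
      (orderOf (d * e) = 2 * (q * r) ∨ (Odd q ∧ orderOf (d * e) = q * r)) →
        ∃ f ∈ D, orderOf (d * f) = q := by
    intro d hd e he q r hr hm
    set w := d * e with hw
    refine ⟨_, hmem (w ^ r) d hd, ?_⟩
    have h1 : d * w * d = w⁻¹ := by
      rw [hw, mul_inv_rev, hi d hd, hi e he]
      calc d * (d * e) * d = d * d * (e * d) := by group
        _ = e * d := by rw [hsq d hd, one_mul]
    have h2 : d * (w ^ r) * d = (w ^ r)⁻¹ := by
      have h3 : d * w ^ r * d⁻¹ = (d * w * d⁻¹) ^ r := conj_pow.symm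
      rwa [hi d hd, h1, inv_pow] at h3
    have h3 : d * (w ^ r * d * (w ^ r)⁻¹) = (w ^ (r + r))⁻¹ := by
      calc d * (w ^ r * d * (w ^ r)⁻¹) = d * w ^ r * d * (w ^ r)⁻¹ := by group
        _ = (w ^ (r + r))⁻¹ := by rw [h2, pow_add, mul_inv_rev]
    rw [h3, orderOf_inv, orderOf_pow, ← two_mul]
    rcases hm with hm | ⟨hq, hm⟩ <;> rw [hm]
    · rw [show 2 * (q * r) = q * (2 * r) by ring, Nat.gcd_mul_left_left, Nat.mul_div_cancel _ (by omega)]
    · rw [Nat.gcd_mul_right, hq.coprime_two_right.gcd_eq_one, one_mul,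
        Nat.mul_div_cancel _ (by omega)]
  have hcent : ∀ a ∈ D, a ∉ Subgroup.center G := fun a ha hc => by
    rw [hsol (Subgroup.center G) inferInstance
      (Group.isSolvable_of_comm fun u v => mul_comm' u v), Subgroup.mem_bot] at hc
    simpa [hc] using hinv a ha
  -- some product has order two
  have htwo : ∃ d ∈ D, ∃ e ∈ D, orderOf (d * e) = 2 := by
    by_contra hno
    push Not at hno
    obtain ⟨P, hP⟩ := (IsPGroup.of_card (p := 2) (n := 1) (G := Subgroup.zpowers x₀)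
      (by rw [Nat.card_zpowers, hinv x₀ hx₀, pow_one])).exists_le_sylow
    have hiso : ∀ g : G, g * x₀ * g⁻¹ ∈ P → g * x₀ * g⁻¹ = x₀ := by
      intro g hg
      obtain ⟨j, hj⟩ := (IsPGroup.iff_orderOf.1 P.2)
        ⟨g * x₀ * g⁻¹ * x₀, mul_mem hg (hP (Subgroup.mem_zpowers x₀))⟩
      rw [Subgroup.orderOf_mk] at hj
      rcases j with _ | _ | j
      · rw [pow_zero, orderOf_eq_one_iff] at hj
        exact (eq_inv_of_mul_eq_one_left hj).trans (hi x₀ hx₀)
      · exact absurd hj (hno _ (hmem g x₀ hx₀) _ hx₀)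
      · obtain ⟨f, hf, hf2⟩ := hdiv _ (hmem g x₀ hx₀) _ hx₀ 2 (2 ^ j) (pow_ne_zero _ two_ne_zero)
          (Or.inl (by rw [hj]; ring))
        exact absurd hf2 (hno _ (hmem g x₀ hx₀) _ hf)
    have hO : Cfsg.oddCore G = ⊥ :=
      hsol _ inferInstance (Cfsg.Agent.S0205.result CfsgLib.Cores.odd_card_oddCore)
    exact hcent x₀ hx₀ (CfsgLib.Involutions.mem_center_of_isolated P (hinv x₀ hx₀) hiso hO)
  -- the other non-trivial order
  obtain ⟨n, hn⟩ : ∃ n, ∀ d ∈ D, ∀ e ∈ D,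
      orderOf (d * e) = 1 ∨ orderOf (d * e) = 2 ∨ orderOf (d * e) = n := by
    obtain ⟨d₂, hd₂, e₂, he₂, h2⟩ := htwo
    rcases hval d₂ hd₂ e₂ he₂ with h | h | h
    · omega
    · exact ⟨_, fun d hd e he => by rw [← h2, h]; exact hval d hd e he⟩
    · exact ⟨_, fun d hd e he => (hval d hd e he).imp id fun k => k.symm.imp
        (fun k => k.trans (h.symm.trans h2)) id⟩
  by_cases hall : ∀ d ∈ D, ∀ e ∈ D, orderOf (d * e) = 1 ∨ orderOf (d * e) = 2
  · intro d hd e he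
    left
    rw [← orderOf_dvd_iff_pow_eq_one]
    rcases hall d hd e he with h | h <;> simp [h]
  push Not at hall
  obtain ⟨d₀, hd₀, e₀, he₀, hne1, hne2⟩ := hall
  have hn0 : orderOf (d₀ * e₀) = n :=
    ((hn d₀ hd₀ e₀ he₀).resolve_left hne1).resolve_left hne2
  have hnpos : 0 < n := hn0 ▸ orderOf_pos _
  have hn2 : 2 < n := by omega
  rcases Nat.even_or_odd' n with ⟨m, rfl | rfl⟩
  · -- even: the products are 2-elements
    obtain ⟨f, hf, hfm⟩ := hdiv d₀ hd₀ e₀ he₀ m 1 one_ne_zero (Or.inl (by rw [hn0, mul_one]))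
    have hm2 : m = 2 := by rcases hn d₀ hd₀ f hf with h | h | h <;> omega
    subst hm2
    have h1 : x₀ ∈ Cfsg.pCore 2 G :=
      CfsgLib.Subnormal.mem_pCore_of_forall_closure_pair fun g =>
        CfsgLib.Involutions.isPGroup_closure_pair (hinv x₀ hx₀) (hinv _ (hmem g x₀ hx₀)) (k := 2)
          (by rcases hn x₀ hx₀ _ (hmem g x₀ hx₀) with h | h | h <;> rw [h] <;> norm_num)
    have hbot : Cfsg.pCore 2 G = ⊥ := by
      haveI := (CfsgLib.Cores.isPGroup_pCore 2 G).isNilpotent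
      exact hsol _ inferInstance inferInstance
    rw [hbot, Subgroup.mem_bot] at h1
    exact absurd (hinv x₀ hx₀) (by rw [h1, orderOf_one]; norm_num)
  · -- odd: a prime
    have hprime : (2 * m + 1).Prime := by
      refine Nat.prime_def.2 ⟨by omega, fun q ⟨r, hr⟩ => ?_⟩
      have hq : Odd q := (Nat.odd_mul.1 (hr ▸ odd_two_mul_add_one m)).1
      have hr0 : r ≠ 0 := fun e => by rw [e, mul_zero] at hr; omega
      obtain ⟨f, hf, hfq⟩ := hdiv d₀ hd₀ e₀ he₀ q r hr0 (Or.inr ⟨hq, hn0.trans hr⟩)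
      rcases hn d₀ hd₀ f hf with h | h | h
      · exact Or.inl (hfq.symm.trans h)
      · exact absurd hq (by rw [hfq.symm.trans h]; decide)
      · exact Or.inr (hfq.symm.trans h)
    have hcomm2 : ∀ d ∈ D, ∀ e ∈ D, (d * e) ^ 2 = 1 → Commute d e := fun d hd e he h => by
      have h1 : (d * e)⁻¹ = d * e := inv_eq_of_mul_eq_one_right (by rwa [← pow_two])
      rw [mul_inv_rev, hi d hd, hi e he] at h1
      exact h1.symm
    have hor : ∀ d ∈ D, ∀ e ∈ D, (d * e) ^ 2 = 1 ∨ (d * e) ^ (2 * m + 1) = 1 := fun d hd e he => by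
      rcases hn d hd e he with h | h | h
      · exact Or.inl (by rw [orderOf_eq_one_iff.1 h, one_pow])
      · exact Or.inl (by rw [← h, pow_orderOf_eq_one])
      · exact Or.inr (by rw [← h, pow_orderOf_eq_one])
    have hclassD : CfsgLib.OddTransp.IsOddClass (2 * m + 1) D :=
      ⟨hprime, by omega, hinv, hmem, fun d hd e he => (hor d hd e he).imp (hcomm2 d hd e he) id⟩
    have hfar : ¬ Commute d₀ e₀ := fun hc => by
      have h1 : (d₀ * e₀) ^ 2 = 1 := by
        rw [hc.mul_pow, pow_two, pow_two, hsq d₀ hd₀, hsq e₀ he₀, one_mul]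
      have := Nat.le_of_dvd two_pos (hn0 ▸ orderOf_dvd_of_pow_eq_one h1)
      omega
    have h3 := hclassD.eq_three hsol hclass hgen ⟨d₀, hd₀, e₀, he₀, hfar⟩
    intro d hd e he
    exact (hor d hd e he).imp id fun h => h3 ▸ h

end Cfsg.Agent.S1617
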