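import Cfsg.Statements.S1619
import Cfsg.Agent.Lib.J2Ico.Group

set_option autoImplicit false
open Quaternion
open Cfsg

namespace Cfsg.Agent.S1619

/-- The icosian reflection group has order 1209600 with centre {±1}; the Hall–Janko group has order 604800 = 2^7·3^3·5^2·7. -/
theorem result : Nat.card ↥Cfsg.Spor.twoJ2 = 1209600 ∧ Nat.card ↥(Subgroup.center ↥Cfsg.Spor.twoJ2) = 2 ∧ (∃ z ∈ Subgroup.center ↥Cfsg.Spor.twoJ2, ∀ x : ↥Cfsg.Spor.icoLeech, (((z : Equiv.Perm ↥Cfsg.Spor.icoLeech) x : ↥Cfsg.Spor.icoLeech) : Fin 3 → ℍ[ℝ]) = -(x : Fin 3 → ℍ[ℝ])) ∧ Nat.card Cfsg.Spor.J2 = 604800 := by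
  refine ⟨CfsgLib.J2Ico.natCard_twoJ2, CfsgLib.J2Ico.center_card, ?_, CfsgLib.J2Ico.natCard_J2⟩
  obtain ⟨z, hz⟩ := CfsgLib.J2Ico.exists_neg
  refine ⟨z, ?_, fun x => (hz x).trans (neg_one_smul ℝ _)⟩
  rw [Subgroup.mem_center_iff]
  intro h
  refine Subtype.ext (Equiv.ext fun x => Subtype.ext ?_)
  show ((h.1 (z.1 x) : Cfsg.Spor.icoLeech) : Fin 3 → ℍ[ℝ]) = (z.1 (h.1 x) : Cfsg.Spor.icoLeech)
  have hl := CfsgLib.J2Ico.isLin_of_mem h.2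
  have hx : CfsgLib.J2Ico.lsmul (-1) (x : Fin 3 → ℍ[ℝ]) = (z.1 x : Cfsg.Spor.icoLeech) := by
    rw [hz x]; funext t; simp [CfsgLib.J2Ico.lsmul]
  rw [← hl.2.1 (-1) (neg_mem (one_mem _)) x (z.1 x) hx, hz (h.1 x)]
  funext t; simp [CfsgLib.J2Ico.lsmul]

end Cfsg.Agent.S1619
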