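import Cfsg.Statements.S1620
import Cfsg.Agent.Lib.J2Ico.Group

set_option autoImplicit false
open Quaternion
open Cfsg

namespace Cfsg.Agent.S1620

/-- The Hall–Janko group is simple and non-abelian. -/
theorem result : IsSimpleGroup Cfsg.Spor.J2 ∧ ∃ a b : Cfsg.Spor.J2, a * b ≠ b * a := by
  haveI := CfsgLib.J2Ico.isSimpleGroup_J2
  refine ⟨inferInstance, ?_⟩
  by_contra h
  push Not at h
  letI : CommGroup Cfsg.Spor.J2 := { (inferInstance : Group Cfsg.Spor.J2) with mul_comm := h }
  have hp := IsSimpleGroup.prime_card (α := Cfsg.Spor.J2)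
  rw [CfsgLib.J2Ico.natCard_J2] at hp
  norm_num at hp

end Cfsg.Agent.S1620
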