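import Cfsg.Statements.S1629
import Cfsg.Agent.Lib.Fischer.OrthTransv2
import Cfsg.Agent.Lib.ClassicalForms.Ortho.Standard

set_option autoImplicit false
open scoped MatrixGroups
open Cfsg

namespace Cfsg.Agent.S1629

/-- The orthogonal transvections of the plus-type orthogonal group in dimension 2m ≥ 6 over the field with two elements form a generating conjugacy class of 3-transpositions. -/
theorem result (m : ℕ) (hm : 3 ≤ m) : Cfsg.IsThreeTranspositionClass {g : ↥(Cfsg.isometryGroup (ZMod 2) (Cfsg.quadFormPlus m (ZMod 2))) | (((g : GL (Fin m ⊕ Fin m) (ZMod 2)) : Matrix (Fin m ⊕ Fin m) (Fin m ⊕ Fin m) (ZMod 2)) - 1).rank = 1} := by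
  have e : ⇑(CfsgLib.ClassicalForms.qPlus m (ZMod 2)) = Cfsg.quadFormPlus m (ZMod 2) :=
    funext (CfsgLib.ClassicalForms.qPlus_apply m)
  have h := CfsgLib.Fischer.OrthTransv2.isThreeTranspositionClass
    (Q := CfsgLib.ClassicalForms.qPlus m (ZMod 2))
    (CfsgLib.ClassicalForms.nondeg_iff_polarBilin.2 (CfsgLib.ClassicalForms.nondeg_qPlus m))
    (by simp; omega)
    ⟨Pi.single (.inl ⟨0, by omega⟩) 1 + Pi.single (.inr ⟨0, by omega⟩) 1, by
      rw [CfsgLib.ClassicalForms.qPlus_apply, Cfsg.quadFormPlus, Finset.sum_eq_single ⟨0, by omega⟩]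
      · simp
      · intro b _ hb; simp [hb]
      · simp⟩
  unfold CfsgLib.Fischer.OrthTransv2.transvs at h
  rw [e] at h
  exact h

end Cfsg.Agent.S1629
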