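import Cfsg.Statements.S1630
import Cfsg.Agent.Lib.Fischer.OrthTransv2
import Cfsg.Agent.Lib.ClassicalForms.Ortho.Standard

set_option autoImplicit false
open scoped MatrixGroups
open Cfsg

namespace Cfsg.Agent.S1630

/-- The orthogonal transvections of the minus-type orthogonal group in dimension ≥ 6 over the field with two elements form a generating conjugacy class of 3-transpositions. -/
theorem result (m : ℕ) (hm : 2 ≤ m) : Cfsg.IsThreeTranspositionClass {g : ↥(Cfsg.isometryGroup (ZMod 2) (Cfsg.quadFormMinus m (ZMod 2) 1 1)) | (((g : GL ((Fin m ⊕ Fin m) ⊕ Fin 2) (ZMod 2)) : Matrix ((Fin m ⊕ Fin m) ⊕ Fin 2) ((Fin m ⊕ Fin m) ⊕ Fin 2) (ZMod 2)) - 1).rank = 1} := by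
  have hab : CfsgLib.ClassicalForms.Aniso (1 : ZMod 2) 1 := by
    unfold CfsgLib.ClassicalForms.Aniso; decide
  have e : ⇑(CfsgLib.ClassicalForms.qMinus m (ZMod 2) 1 1) = Cfsg.quadFormMinus m (ZMod 2) 1 1 :=
    funext (CfsgLib.ClassicalForms.qMinus_apply m 1 1)
  have h := CfsgLib.Fischer.OrthTransv2.isThreeTranspositionClass
    (Q := CfsgLib.ClassicalForms.qMinus m (ZMod 2) 1 1)
    (CfsgLib.ClassicalForms.nondeg_iff_polarBilin.2 (CfsgLib.ClassicalForms.nondeg_qMinus hab m))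
    (by simp; omega)
    ⟨Pi.single (.inr 0) 1, by
      simp [CfsgLib.ClassicalForms.qMinus_apply, Cfsg.quadFormMinus]⟩
  unfold CfsgLib.Fischer.OrthTransv2.transvs at h
  rw [e] at h
  exact h

end Cfsg.Agent.S1630
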