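import Cfsg.Statements.S1632
import Cfsg.Agent.Lib.LatticeTheta.Modular

set_option autoImplicit false
open Matrix
open Cfsg

namespace Cfsg.Agent.S1632

/-- An even unimodular lattice of rank 24 without roots has 196560, 16773120 and 398034000 vectors of norms 4, 6 and 8. -/
theorem result (B : Matrix (Fin 24) (Fin 24) ℤ) (hsymm : B.IsSymm) (hpos : ∀ x : Fin 24 → ℤ, x ≠ 0 → 0 < x ⬝ᵥ (B *ᵥ x)) (heven : ∀ x : Fin 24 → ℤ, (2 : ℤ) ∣ x ⬝ᵥ (B *ᵥ x)) (hdet : B.det = 1) (h2 : ∀ x : Fin 24 → ℤ, x ⬝ᵥ (B *ᵥ x) ≠ 2) : {x : Fin 24 → ℤ | x ⬝ᵥ (B *ᵥ x) = 4}.ncard = 196560 ∧ {x : Fin 24 → ℤ | x ⬝ᵥ (B *ᵥ x) = 6}.ncard = 16773120 ∧ {x : Fin 24 → ℤ | x ⬝ᵥ (B *ᵥ x) = 8}.ncard = 398034000 := by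
  have hint : ∀ x : Fin 24 → ℤ, x ≠ 0 → 0 < CfsgLib.LatticeTheta.normInt B x := hpos
  have hP := CfsgLib.LatticeTheta.isPos_of_int B hsymm hint (by rw [hdet]; exact one_ne_zero)
  obtain ⟨f, hf⟩ := CfsgLib.LatticeTheta.exists_modular hP heven rfl hsymm hdet
  have h1 : CfsgLib.LatticeTheta.repNum B 1 = 0 := by
    rw [CfsgLib.LatticeTheta.repNum, Set.ncard_eq_zero
      ((CfsgLib.LatticeTheta.finite_norm_le hP 2).subset fun x hx => le_of_eq (by simpa using hx))]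
    exact Set.eq_empty_of_forall_notMem fun x hx => h2 x (by simpa [CfsgLib.LatticeTheta.normInt] using hx)
  obtain ⟨a, b, c⟩ := CfsgLib.LatticeTheta.weight_twelve f
    (by rw [hf, CfsgLib.LatticeTheta.repNum_zero hP]; simp) (by rw [hf, h1]; simp)
  rw [hf] at a b c
  refine ⟨?_, ?_, ?_⟩
  · have a' : CfsgLib.LatticeTheta.repNum B 2 = 196560 := by exact_mod_cast a
    simpa [CfsgLib.LatticeTheta.repNum, CfsgLib.LatticeTheta.normInt] using a'
  · have b' : CfsgLib.LatticeTheta.repNum B 3 = 16773120 := by exact_mod_cast b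
    simpa [CfsgLib.LatticeTheta.repNum, CfsgLib.LatticeTheta.normInt] using b'
  · have c' : CfsgLib.LatticeTheta.repNum B 4 = 398034000 := by exact_mod_cast c
    simpa [CfsgLib.LatticeTheta.repNum, CfsgLib.LatticeTheta.normInt] using c'

end Cfsg.Agent.S1632
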