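import Cfsg.Statements.S1633
import Cfsg.Agent.Lib.HSUnitary.Lattice

set_option autoImplicit false
open Cfsg

namespace Cfsg.Agent.S1633

/-- The Higman–Sims group acts transitively on 352 vectors, a set closed under x ↦ −w − x, with vector stabiliser isomorphic to PSU(3, 5). -/
theorem result (v w : ↥Cfsg.leechLattice) (hv : Cfsg.sqNorm (v : Cfsg.GolayPt → ℤ) = 48) (hw : Cfsg.sqNorm (w : Cfsg.GolayPt → ℤ) = 48) (hvw : Cfsg.dotInt (v : Cfsg.GolayPt → ℤ) (w : Cfsg.GolayPt → ℤ) = -32) (F : Type) [Field F] [Fintype F] (hF : Fintype.card F = 25) : {x : ↥Cfsg.leechLattice | Cfsg.sqNorm (x : Cfsg.GolayPt → ℤ) = 32 ∧ Cfsg.dotInt (v : Cfsg.GolayPt → ℤ) (x : Cfsg.GolayPt → ℤ) = 16 ∧ Cfsg.dotInt (w : Cfsg.GolayPt → ℤ) (x : Cfsg.GolayPt → ℤ) = -24}.ncard = 352 ∧ (∀ x ∈ {x : ↥Cfsg.leechLattice | Cfsg.sqNorm (x : Cfsg.GolayPt → ℤ) =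 32 ∧ Cfsg.dotInt (v : Cfsg.GolayPt → ℤ) (x : Cfsg.GolayPt → ℤ) = 16 ∧ Cfsg.dotInt (w : Cfsg.GolayPt → ℤ) (x : Cfsg.GolayPt → ℤ) = -24}, -w - x ∈ {x : ↥Cfsg.leechLattice | Cfsg.sqNorm (x : Cfsg.GolayPt → ℤ) = 32 ∧ Cfsg.dotInt (v : Cfsg.GolayPt → ℤ) (x : Cfsg.GolayPt → ℤ) = 16 ∧ Cfsg.dotInt (w : Cfsg.GolayPt → ℤ) (x : Cfsg.GolayPt → ℤ) = -24}) ∧ (∀ x ∈ {x : ↥Cfsg.leechLattice | Cfsg.sqNorm (x : Cfsg.GolayPt → ℤ) = 32 ∧ Cfsg.dotInt (v : Cfsg.GolayPt → ℤ) (x : Cfsg.GolayPt → ℤ) = 16 ∧ Cfsg.dotInt (w : Cfsg.GolayPt → ℤ) (x : Cfsg.GolayPt → ℤ) = -24}, ∀ x' ∈ {x : ↥Cfsg.leechLattice | Cfsg.sqNorm (x : Cfsg.GolayPt → ℤ) = 32 ∧ Cfsg.dotInt (v : Cfsg.GolayPt → ℤ) (x : Cfsg.GolayPt → ℤ) = 16 ∧ Cfsg.dotInt (w : Cfsg.GolayPt → ℤ) (x : Cfsg.GolayPt → ℤ) = -24}, ∃ g : ↥Cfsg.Co0, g • v = v ∧ g • w = w ∧ g • x = x') ∧ ∀ x ∈ {x : ↥Cfsg.leechLattice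 | Cfsg.sqNorm (x : Cfsg.GolayPt → ℤ) = 32 ∧ Cfsg.dotInt (v : Cfsg.GolayPt → ℤ) (x : Cfsg.GolayPt → ℤ) = 16 ∧ Cfsg.dotInt (w : Cfsg.GolayPt → ℤ) (x : Cfsg.GolayPt → ℤ) = -24}, Nonempty (↥(MulAction.stabilizer ↥Cfsg.Co0 v ⊓ MulAction.stabilizer ↥Cfsg.Co0 w ⊓ MulAction.stabilizer ↥Cfsg.Co0 x) ≃* Cfsg.PSU 3 F 5) := by
  classical
  obtain ⟨g, hgv, hgw⟩ := CfsgLib.Leech.exists_map_hs hv hw hvw
  have hcard : (CfsgLib.Leech.dotSet2 v w 16 (-24)).ncard = 352 :=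
    (CfsgLib.Leech.ncard_dotSet2_smul hgv hgw 16 (-24)).trans CfsgLib.HSUnitary.ncard_classHS
  have htr : ∀ x ∈ CfsgLib.Leech.dotSet2 v w 16 (-24),
      ∀ x' ∈ CfsgLib.Leech.dotSet2 v w 16 (-24), ∃ k : ↥Cfsg.Co0, k • v = v ∧ k • w = w ∧ k • x = x' :=
    fun x hx x' hx' => CfsgLib.Leech.transport2 hgv hgw (fun a ha b hb => by
      obtain ⟨k, k1, k2, k3⟩ := CfsgLib.HSUnitary.transitive_classHS ha hb
      refine ⟨k, fun y hy => ?_, k3⟩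
      simp only [List.mem_cons, List.not_mem_nil, or_false] at hy
      rcases hy with rfl | rfl <;> assumption) hx hx'
  refine ⟨hcard, fun x hx => ?_, htr, fun x hx => ?_⟩
  · obtain ⟨h32, h1, h2⟩ := hx
    have hw' : Cfsg.dotInt (w : Cfsg.GolayPt → ℤ) (w : Cfsg.GolayPt → ℤ) = 48 :=
      (CfsgLib.Leech.dotInt_self _).trans hw
    refine ⟨?_, ?_, ?_⟩
    · simp only [AddSubgroup.coe_sub, AddSubgroup.coe_neg]
      rw [show -(w : Cfsg.GolayPt → ℤ) - (x : Cfsg.GolayPt → ℤ) =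
        -((w : Cfsg.GolayPt → ℤ) + (x : Cfsg.GolayPt → ℤ)) by abel]
      have e : ∀ z : Cfsg.GolayPt → ℤ, Cfsg.sqNorm (-z) = Cfsg.sqNorm z :=
        fun z => by simp [Cfsg.sqNorm]
      rw [e, CfsgLib.Leech.sqNorm_add, hw, h32, h2]
      norm_num
    · simp only [AddSubgroup.coe_sub, AddSubgroup.coe_neg]
      rw [sub_eq_add_neg, CfsgLib.Leech.dotInt_add_right, CfsgLib.Leech.dotInt_neg_right,
        CfsgLib.Leech.dotInt_neg_right, hvw, h1]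
      norm_num
    · simp only [AddSubgroup.coe_sub, AddSubgroup.coe_neg]
      rw [sub_eq_add_neg, CfsgLib.Leech.dotInt_add_right, CfsgLib.Leech.dotInt_neg_right,
        CfsgLib.Leech.dotInt_neg_right, hw', h2]
      norm_num
  · have hr : g • CfsgLib.HSUnitary.hsRoot ∈ CfsgLib.Leech.dotSet2 v w 16 (-24) := by
      rw [← hgv, ← hgw]
      exact CfsgLib.Leech.smul_mem_dotSet2.2 CfsgLib.HSUnitary.hsRoot_mem
    obtain ⟨k, k1, k2, k3⟩ := htr _ hr x hx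
    obtain ⟨e1⟩ := CfsgLib.HSUnitary.nonempty_stab_conj (k * g) CfsgLib.Leech.base48
      CfsgLib.Leech.baseH CfsgLib.HSUnitary.hsRoot
    obtain ⟨e2⟩ := CfsgLib.HSUnitary.nonempty_base_equiv
    obtain ⟨e3⟩ := CfsgLib.HSUnitary.nonempty_psu_equiv_permGroup (F := F) hF
    rw [mul_smul, mul_smul, mul_smul, hgv, hgw, k1, k2, k3] at e1
    exact ⟨(e1.trans e2).trans e3.symm⟩

end Cfsg.Agent.S1633
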