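import Cfsg.Statements.S1635
import Cfsg.Agent.Lib.Golay.Punctured

set_option autoImplicit false
open Cfsg

namespace Cfsg.Agent.S1635

/-- Coset leaders of the length-24 code: a coset contains a unique word of weight ≤ 3, or else exactly six words of weight 4 and none lighter. -/
theorem result (w : Cfsg.GolayPt → ZMod 2) : ({v : Cfsg.GolayPt → ZMod 2 | hammingNorm v ≤ 4 ∧ w - v ∈ Cfsg.golayCode}.ncard = 1 ∧ ∃ v : Cfsg.GolayPt → ZMod 2, hammingNorm v ≤ 3 ∧ w - v ∈ Cfsg.golayCode) ∨ ({v : Cfsg.GolayPt → ZMod 2 | hammingNorm v ≤ 4 ∧ w - v ∈ Cfsg.golayCode}.ncard = 6 ∧ ∀ v : Cfsg.GolayPt → ZMod 2, w - v ∈ Cfsg.golayCode → hammingNorm v ≤ 4 → hammingNorm v = 4) := by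
  rw [CfsgLib.Golay.leaders_eq_image, Set.ncard_image_of_injective _ CfsgLib.Golay.vec_injective]
  rcases CfsgLib.Golay.isGolayLike_golayCode.coset_leaders
      (CfsgLib.ExtraspecialLarge.supp w) with ⟨t, ht, hu⟩ | ⟨F, hF, hu, h4, -, -⟩
  · left
    have e : {t' : Finset Cfsg.GolayPt | CfsgLib.ExtraspecialLarge.vec
        (symmDiff (CfsgLib.ExtraspecialLarge.supp w) t') ∈ Cfsg.golayCode ∧ t'.card ≤ 4} = {t} :=
      Set.ext fun t' => hu t'
    refine ⟨by rw [e, Set.ncard_singleton], CfsgLib.ExtraspecialLarge.vec t, ?_, ?_⟩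
    · rwa [CfsgLib.ExtraspecialLarge.hammingNorm_eq_card_supp, CfsgLib.ExtraspecialLarge.supp_vec]
    · rw [CfsgLib.Golay.sub_eq_vec]; exact ((hu t).2 rfl).1
  · right
    have e : {t' : Finset Cfsg.GolayPt | CfsgLib.ExtraspecialLarge.vec
        (symmDiff (CfsgLib.ExtraspecialLarge.supp w) t') ∈ Cfsg.golayCode ∧ t'.card ≤ 4} = ↑F :=
      Set.ext fun t' => hu t'
    refine ⟨by rw [e, Set.ncard_coe_finset, hF], fun v hv hv4 => ?_⟩
    rw [← CfsgLib.ExtraspecialLarge.vec_supp v, CfsgLib.Golay.sub_eq_vec] at hv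
    exact h4 _ ((hu _).1 ⟨hv, hv4⟩)

end Cfsg.Agent.S1635
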