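import Cfsg.Statements.S1636
import Cfsg.Agent.Lib.Golay.Punctured

set_option autoImplicit false
open Cfsg

namespace Cfsg.Agent.S1636

set_option maxHeartbeats 4000000 in
/-- The punctured length-23 code has weight distribution 0^1 7^253 8^506 11^1288 12^1288 15^506 16^253 23^1. -/
theorem result : {u : ZMod 23 → ZMod 2 | ∃ w ∈ Cfsg.golayCode, ∀ x : ZMod 23, u x = w (some x)}.ncard = 4096 ∧ {u : ZMod 23 → ZMod 2 | u ∈ {u : ZMod 23 → ZMod 2 | ∃ w ∈ Cfsg.golayCode, ∀ x : ZMod 23, u x = w (some x)} ∧ hammingNorm u = 7}.ncard = 253 ∧ {u : ZMod 23 → ZMod 2 | u ∈ {u : ZMod 23 → ZMod 2 | ∃ w ∈ Cfsg.golayCode, ∀ x : ZMod 23, u x = w (some x)} ∧ hammingNorm u = 8}.ncard = 506 ∧ {u : ZMod 23 → ZMod 2 | u ∈ {u : ZMod 23 → ZMod 2 | ∃ w ∈ Cfsg.golayCode, ∀ x : ZMod 23, u x = w (some x)} ∧ hammingNorm u = 11}.ncard = 1288 ∧ {u : ZMod 23 → ZMod 2 | u ∈ {u : ZMod 23 → ZMod 2 | ∃ w ∈ Cfsg.golayCode, ∀ x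 : ZMod 23, u x = w (some x)} ∧ hammingNorm u = 12}.ncard = 1288 ∧ {u : ZMod 23 → ZMod 2 | u ∈ {u : ZMod 23 → ZMod 2 | ∃ w ∈ Cfsg.golayCode, ∀ x : ZMod 23, u x = w (some x)} ∧ hammingNorm u = 15}.ncard = 506 ∧ {u : ZMod 23 → ZMod 2 | u ∈ {u : ZMod 23 → ZMod 2 | ∃ w ∈ Cfsg.golayCode, ∀ x : ZMod 23, u x = w (some x)} ∧ hammingNorm u = 16}.ncard = 253 ∧ ∀ u ∈ {u : ZMod 23 → ZMod 2 | ∃ w ∈ Cfsg.golayCode, ∀ x : ZMod 23, u x = w (some x)}, u ≠ 0 → 7 ≤ hammingNorm u := by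
  refine ⟨?_, ?_, ?_, ?_, ?_, ?_, ?_, ?_⟩
  · rw [CfsgLib.Golay.punctured_eq_image, CfsgLib.Golay.restrict23_injOn.ncard_image,
      ← Nat.card_coe_set_eq]
    exact CfsgLib.Golay.natCard_golayCode
  · exact (CfsgLib.Golay.ncard_punctured_weight 7).trans (by decide +kernel)
  · exact (CfsgLib.Golay.ncard_punctured_weight 8).trans (by decide +kernel)
  · exact (CfsgLib.Golay.ncard_punctured_weight 11).trans (by decide +kernel)
  · exact (CfsgLib.Golay.ncard_punctured_weight 12).trans (by decide +kernel)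
  · exact (CfsgLib.Golay.ncard_punctured_weight 15).trans (by decide +kernel)
  · exact (CfsgLib.Golay.ncard_punctured_weight 16).trans (by decide +kernel)
  · rintro u hu h0
    rw [CfsgLib.Golay.punctured_eq_image] at hu
    obtain ⟨w, hw, rfl⟩ := hu
    have h8 := CfsgLib.Golay.isGolayLike_golayCode.min_wt w hw (fun h => h0 (by subst h; rfl))
    have := CfsgLib.Golay.hammingNorm_le_restrict23 w
    omega

end Cfsg.Agent.S1636
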