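import Cfsg.Statements.S1637
import Cfsg.Agent.Lib.Golay.Punctured

set_option autoImplicit false
open Cfsg

namespace Cfsg.Agent.S1637

/-- The punctured length-23 code is a perfect 3-error-correcting code: each word of length 23 is within distance 3 of exactly one codeword. -/
theorem result (u : ZMod 23 → ZMod 2) : ∃! c : ZMod 23 → ZMod 2, c ∈ {u : ZMod 23 → ZMod 2 | ∃ w ∈ Cfsg.golayCode, ∀ x : ZMod 23, u x = w (some x)} ∧ hammingDist u c ≤ 3 := by
  classical
  rw [CfsgLib.Golay.punctured_eq_image]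
  let w : Cfsg.GolayPt → ZMod 2 := fun p => p.elim 0 u
  obtain ⟨t, ht, hm⟩ : ∃ t : Finset Cfsg.GolayPt, (t.erase none).card ≤ 3 ∧
      CfsgLib.ExtraspecialLarge.vec (symmDiff (CfsgLib.ExtraspecialLarge.supp w) t) ∈
        Cfsg.golayCode := by
    obtain ⟨t, ht, hm⟩ := CfsgLib.Golay.isGolayLike_golayCode.exists_leader
      (CfsgLib.ExtraspecialLarge.supp w) none
    refine ⟨t, ?_, hm⟩
    rcases ht with h | ⟨h, hn⟩
    · exact le_trans (Finset.card_le_card (Finset.erase_subset _ _)) h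
    · rw [Finset.card_erase_of_mem hn]; omega
  rw [← CfsgLib.Golay.sub_eq_vec] at hm
  have hd1 : hammingDist u
      (CfsgLib.Golay.restrict23 (w - CfsgLib.ExtraspecialLarge.vec t)) ≤ 3 := by
    have e : u - CfsgLib.Golay.restrict23 (w - CfsgLib.ExtraspecialLarge.vec t) =
        CfsgLib.Golay.restrict23 (CfsgLib.ExtraspecialLarge.vec t) := by
      funext x
      show u x - (u x - _) = _
      exact sub_sub_cancel _ _
    rw [hammingDist_eq_hammingNorm, neg_add_eq_sub, ← neg_sub, ZModModule.neg_eq_self, e, CfsgLib.Golay.hammingNorm_restrict23]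
    exact (congrArg (fun s : Finset Cfsg.GolayPt => (s.erase none).card)
      (CfsgLib.ExtraspecialLarge.supp_vec t)).trans_le ht
  refine ⟨CfsgLib.Golay.restrict23 (w - CfsgLib.ExtraspecialLarge.vec t),
    ⟨⟨_, hm, rfl⟩, hd1⟩, ?_⟩
  rintro c ⟨⟨c0, hc0, rfl⟩, hd⟩
  congr 1
  by_contra hne
  have h8 := CfsgLib.Golay.isGolayLike_golayCode.min_wt _ (sub_mem hc0 hm) (sub_ne_zero.2 hne)
  have h9 := CfsgLib.Golay.hammingNorm_le_restrict23 (c0 - (w - CfsgLib.ExtraspecialLarge.vec t))
  have h10 := hammingDist_triangle_left (CfsgLib.Golay.restrict23 c0)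
    (CfsgLib.Golay.restrict23 (w - CfsgLib.ExtraspecialLarge.vec t)) u
  rw [hammingDist_eq_hammingNorm (CfsgLib.Golay.restrict23 c0), neg_add_eq_sub, ← neg_sub,
    ZModModule.neg_eq_self] at h10
  change hammingNorm (CfsgLib.Golay.restrict23
    (c0 - (w - CfsgLib.ExtraspecialLarge.vec t))) ≤ _ at h10
  omega

end Cfsg.Agent.S1637
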