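import Cfsg.Statements.S1640
import Cfsg.Agent.Lib.Leech.Subdegrees

set_option autoImplicit false
open Cfsg

namespace Cfsg.Agent.S1640

/-- The stabiliser of a vector of customary norm 6 is transitive on the 11178 minimal vectors of customary inner product −2 with it. -/
theorem result (u : ↥Cfsg.leechLattice) (hu : Cfsg.sqNorm (u : Cfsg.GolayPt → ℤ) = 48) : {x : ↥Cfsg.leechLattice | Cfsg.sqNorm (x : Cfsg.GolayPt → ℤ) = 32 ∧ Cfsg.dotInt (u : Cfsg.GolayPt → ℤ) (x : Cfsg.GolayPt → ℤ) = -16}.ncard = 11178 ∧ ∀ x ∈ {x : ↥Cfsg.leechLattice | Cfsg.sqNorm (x : Cfsg.GolayPt → ℤ) = 32 ∧ Cfsg.dotInt (u : Cfsg.GolayPt → ℤ) (x : Cfsg.GolayPt → ℤ) = -16}, ∀ x' ∈ {x : ↥Cfsg.leechLattice | Cfsg.sqNorm (x : Cfsg.GolayPt → ℤ) = 32 ∧ Cfsg.dotInt (u : Cfsg.GolayPt → ℤ) (x : Cfsg.GolayPt → ℤ) = -16}, ∃ g : ↥Cfsg.Co0, g • u = u ∧ g • x = x' := by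
  have h := CfsgLib.Leech.ncard_dots_base48 (u := u) hu [-16] (by decide) (tb := [144]) (by decide) [11178] rfl
    (by decide) (by decide +kernel)
  simp only [List.map_cons, List.map_nil, List.cons.injEq, and_true] at h
  refine ⟨h, fun x hx x' hx' => ?_⟩
  obtain ⟨g, g1, g2⟩ := CfsgLib.Leech.exists_map_ux hu hx.1 hx.2
  obtain ⟨g', g1', g2'⟩ := CfsgLib.Leech.exists_map_ux hu hx'.1 hx'.2
  refine ⟨g' * g⁻¹, ?_, ?_⟩
  · rw [mul_smul, ← g1, inv_smul_smul, g1', g1]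
  · rw [mul_smul, ← g2, inv_smul_smul, g2']

end Cfsg.Agent.S1640
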