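import Cfsg.Statements.S1643
import Cfsg.Agent.Lib.GolayProjective.Maximal

set_option autoImplicit false
open scoped Pointwise
open Cfsg

namespace Cfsg.Agent.S1643

/-- PSL(2, 23) = ⟨t ↦ t+1, t ↦ u t (u square), t ↦ −1/t⟩ is maximal of order 6072 in the group of the length-24 code, and its point stabiliser 23:11 (order 253) is maximal in the Mathieu group of degree 23. -/
theorem result : (Subgroup.closure ({Equiv.optionCongr (Equiv.addRight (1 : ZMod 23)), Cfsg.projInv} ∪ {g : Equiv.Perm Cfsg.GolayPt | ∃ u : (ZMod 23)ˣ, IsSquare u ∧ g = Equiv.optionCongr (Units.mulLeft u)}) ≤ Cfsg.M24 ∧ Nat.card ↥(Subgroup.closure ({Equiv.optionCongr (Equiv.addRight (1 : ZMod 23)), Cfsg.projInv} ∪ {g : Equiv.Perm Cfsg.GolayPt | ∃ u : (ZMod 23)ˣ, IsSquare u ∧ g = Equiv.optionCongr (Units.mulLeft u)})) = 6072 ∧ IsCoatom ((Subgroup.closure ({Equiv.optionCongr (Equiv.addRight (1 : ZMod 23)), Cfsg.projInv} ∪ {g : Equiv.Perm Cfsg.GolayPt | ∃ u : (ZMod 23)ˣ, IsSquare u ∧ g = Equiv.optionCongr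 (Units.mulLeft u)})).subgroupOf Cfsg.M24)) ∧ (Subgroup.closure ({Equiv.optionCongr (Equiv.addRight (1 : ZMod 23))} ∪ {g : Equiv.Perm Cfsg.GolayPt | ∃ u : (ZMod 23)ˣ, IsSquare u ∧ g = Equiv.optionCongr (Units.mulLeft u)}) ≤ Cfsg.M24 ⊓ MulAction.stabilizer (Equiv.Perm Cfsg.GolayPt) (none : Cfsg.GolayPt) ∧ Nat.card ↥(Subgroup.closure ({Equiv.optionCongr (Equiv.addRight (1 : ZMod 23))} ∪ {g : Equiv.Perm Cfsg.GolayPt | ∃ u : (ZMod 23)ˣ, IsSquare u ∧ g = Equiv.optionCongr (Units.mulLeft u)})) = 253 ∧ IsCoatom (((Subgroup.closure ({Equiv.optionCongr (Equiv.addRight (1 : ZMod 23))} ∪ {g : Equiv.Perm Cfsg.GolayPt | ∃ u : (ZMod 23)ˣ, IsSquare u ∧ g = Equiv.optionCongr (Units.mulLeft u)})).subgroupOf Cfsg.M24).subgroupOf (MulAction.stabilizer Cfsg.M24 (none : Cfsg.GolayPt)))) := by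

  show (CfsgLib.GolayProjective.proj ≤ M24 ∧ Nat.card CfsgLib.GolayProjective.proj = 6072 ∧
      IsCoatom (CfsgLib.GolayProjective.proj.subgroupOf M24)) ∧
    (CfsgLib.GolayProjective.aff ≤ CfsgLib.GolayProjective.stabInf ∧
      Nat.card CfsgLib.GolayProjective.aff = 253 ∧
      IsCoatom ((CfsgLib.GolayProjective.aff.subgroupOf M24).subgroupOf
        (MulAction.stabilizer M24 (none : GolayPt))))
  refine ⟨⟨CfsgLib.GolayProjective.proj_le_M24, CfsgLib.GolayProjective.card_proj, ?_⟩,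
    CfsgLib.GolayProjective.aff_le_stabInf, CfsgLib.GolayProjective.card_aff, ?_⟩
  · refine ⟨fun h => ?_, fun H hH => ?_⟩
    · rw [Subgroup.subgroupOf_eq_top] at h
      have := Subgroup.card_le_of_le h
      rw [CfsgLib.Golay.natCard_M24, CfsgLib.GolayProjective.card_proj] at this
      omega
    · have hmem : CfsgLib.GolayProjective.proj ≤ H.map (Cfsg.M24).subtype := by
        intro g hg
        exact ⟨⟨g, CfsgLib.GolayProjective.proj_le_M24 hg⟩, hH.le hg, rfl⟩
      rcases CfsgLib.GolayProjective.proj_maximal hmem (Subgroup.map_subtype_le _) with h | h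
      · exfalso
        refine hH.ne (le_antisymm hH.le fun g hg => ?_)
        rw [Subgroup.mem_subgroupOf, ← h]
        exact ⟨g, hg, rfl⟩
      · rw [eq_top_iff]
        intro g _
        obtain ⟨x, hx, hxg⟩ : (g : Equiv.Perm Cfsg.GolayPt) ∈ H.map (Cfsg.M24).subtype := by
          rw [h]; exact g.2
        rwa [← Subtype.ext (a1 := x) (a2 := g) hxg]
  · set S := MulAction.stabilizer Cfsg.M24 (none : Cfsg.GolayPt)
    let f : S →* Equiv.Perm Cfsg.GolayPt := (Cfsg.M24).subtype.comp S.subtype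
    have hf : Function.Injective f := fun a b h => Subtype.ext (Subtype.ext h)
    have hrange : ∀ x : S, f x ∈ CfsgLib.GolayProjective.stabInf := fun x => ⟨x.1.2, x.2⟩
    refine ⟨fun h => ?_, fun H hH => ?_⟩
    · have hle : CfsgLib.GolayProjective.stabInf ≤ CfsgLib.GolayProjective.aff := fun g hg => by
        have hx : (⟨⟨g, hg.1⟩, hg.2⟩ : S) ∈
            (CfsgLib.GolayProjective.aff.subgroupOf Cfsg.M24).subgroupOf S := by
          rw [h]; exact Subgroup.mem_top _
        exact hx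
      have := Subgroup.card_le_of_le hle
      rw [CfsgLib.GolayProjective.card_stabInf, CfsgLib.GolayProjective.card_aff] at this
      omega
    · have hmem : CfsgLib.GolayProjective.aff ≤ H.map f := by
        intro g hg
        have hg' := CfsgLib.GolayProjective.aff_le_stabInf hg
        exact ⟨⟨⟨g, hg'.1⟩, hg'.2⟩, hH.le hg, rfl⟩
      rcases CfsgLib.GolayProjective.aff_maximal hmem
        (by rintro _ ⟨x, -, rfl⟩; exact hrange x) with h | h
      · exfalso
        refine hH.ne (le_antisymm hH.le fun x hx => ?_)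
        show f x ∈ CfsgLib.GolayProjective.aff
        rw [← h]
        exact ⟨x, hx, rfl⟩
      · rw [eq_top_iff]
        intro x _
        obtain ⟨y, hy, hyx⟩ : f x ∈ H.map f := by rw [h]; exact hrange x
        rwa [← hf hyx]

end Cfsg.Agent.S1643
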