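import Cfsg.Statements.S1680
import Cfsg.Agent.Lib.SporRecognition.Cert.Suz1782.Main
import Cfsg.Agent.Lib.SporRecognition.Cert.Suz1782.Orbits


set_option autoImplicit false
open Cfsg

namespace Cfsg.Agent.S1680

/-- In the presented sporadic Suzuki group, let H be the subgroup generated by the images of a, …, f. Then H has index 1782, H has orbits of sizes 416 and 1365 on the cosets of H other than H itself (with the index 1782 this makes the action rank 3). -/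
theorem result : (((Subgroup.closure ({Cfsg.Spor.Suz.a, Cfsg.Spor.Suz.b, Cfsg.Spor.Suz.c, Cfsg.Spor.Suz.d, Cfsg.Spor.Suz.e, Cfsg.Spor.Suz.f} : Set (FreeGroup Cfsg.Spor.Suz.Gen))).map (PresentedGroup.mk (Cfsg.Spor.coxRelators Cfsg.Spor.Suz.edges ∪ {r | r ∈ Cfsg.Spor.Suz.extra})))).index = 1782 ∧ ∃ q₁ q₂ : Cfsg.Spor.Suz ⧸ (((Subgroup.closure ({Cfsg.Spor.Suz.a, Cfsg.Spor.Suz.b, Cfsg.Spor.Suz.c, Cfsg.Spor.Suz.d, Cfsg.Spor.Suz.e, Cfsg.Spor.Suz.f} : Set (FreeGroup Cfsg.Spor.Suz.Gen))).map (PresentedGroup.mk (Cfsg.Spor.coxRelators Cfsg.Spor.Suz.edges ∪ {r | r ∈ Cfsg.Spor.Suz.extra})))), (MulAction.orbit (((Subgroup.closure ({Cfsg.Spor.Suz.a, Cfsg.Spor.Suz.b, Cfsg.Spor.Suz.c, Cfsg.Spor.Suz.d, Cfsg.Spor.Suz.e, Cfsg.Spor.Suz.f} : Set (FreeGroup Cfsg.Spor.Suz.Gen))).map (PresentedGroup.mk (Cfsg.Spor.coxRelators Cfsg.Spor.Suz.edges ∪ {r | r ∈ Cfsg.Spor.Suz.extra})))) q₁).ncard = 416 ∧ (MulAction.orbit (((Subgroup.closure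 ({Cfsg.Spor.Suz.a, Cfsg.Spor.Suz.b, Cfsg.Spor.Suz.c, Cfsg.Spor.Suz.d, Cfsg.Spor.Suz.e, Cfsg.Spor.Suz.f} : Set (FreeGroup Cfsg.Spor.Suz.Gen))).map (PresentedGroup.mk (Cfsg.Spor.coxRelators Cfsg.Spor.Suz.edges ∪ {r | r ∈ Cfsg.Spor.Suz.extra})))) q₂).ncard = 1365 := by
  rw [CfsgLib.SporRecognition.CosetCert.map_closure_eq_wordSubgroup _ CfsgLib.SporRecognition.Cert.Suz1782.subW
    (by ext r; simp only [CfsgLib.SporRecognition.Cert.Suz1782.subW, List.map_cons, List.map_nil, List.mem_cons, List.not_mem_nil,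
          Set.mem_insert_iff, Set.mem_singleton_iff, Set.mem_ofPred_eq, or_false]; rfl)]
  obtain ⟨q, hq, horb⟩ := CfsgLib.SporRecognition.Cert.Suz1782.certified.suborbits CfsgLib.SporRecognition.Cert.Suz1782.subT rfl CfsgLib.SporRecognition.Cert.Suz1782.subT_spec
    CfsgLib.SporRecognition.Cert.Suz1782.lab CfsgLib.SporRecognition.Cert.Suz1782.root CfsgLib.SporRecognition.Cert.Suz1782.rk CfsgLib.SporRecognition.Cert.Suz1782.via CfsgLib.SporRecognition.Cert.Suz1782.src CfsgLib.SporRecognition.Cert.Suz1782.lab_spec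
    (CfsgLib.SporRecognition.CosetCert.allBelow_spec CfsgLib.SporRecognition.Cert.Suz1782.orbChk)
  have hcard : ∀ (r l m : ℕ) (hr : r < 1782), CfsgLib.SporRecognition.Cert.Suz1782.lab r = l → r = CfsgLib.SporRecognition.Cert.Suz1782.root l →
      CfsgLib.SporRecognition.CosetCert.countLab 11 1782 CfsgLib.SporRecognition.Cert.Suz1782.lab l = m →
      (MulAction.orbit (CfsgLib.SporRecognition.CosetCert.wordSubgroup (Cfsg.Spor.coxRelators Cfsg.Spor.Suz.edges ∪ {x | x ∈ Cfsg.Spor.Suz.extra}) CfsgLib.SporRecognition.Cert.Suz1782.subW) (q ⟨r, hr⟩)).ncard = m := by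
    intro r l m hr h1 h2 h3
    rw [horb ⟨r, hr⟩ (by simpa [h1] using h2), Set.ncard_image_of_injective _ hq]
    simp only [h1]
    rw [CfsgLib.SporRecognition.CosetCert.ncard_lab (d := 11) (by norm_num), h3]
  refine ⟨CfsgLib.SporRecognition.Cert.Suz1782.certified.index_eq, q ⟨47, by norm_num⟩, q ⟨1, by norm_num⟩, hcard 47 2 416 _ (by decide +kernel) (by decide +kernel) CfsgLib.SporRecognition.Cert.Suz1782.size2, hcard 1 1 1365 _ (by decide +kernel) (by decide +kernel) CfsgLib.SporRecognition.Cert.Suz1782.size1⟩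

end Cfsg.Agent.S1680
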