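import Cfsg.Statements.S1681
import Cfsg.Agent.Lib.SporRecognition.Cert.Suz22880.Main


set_option autoImplicit false
open Cfsg

namespace Cfsg.Agent.S1681

/-- In the presented sporadic Suzuki group (generators a, …, g), the subgroup generated by the images of a, b, c, d, f, g has index 22880. -/
theorem result : (((Subgroup.closure ({Cfsg.Spor.Suz.a, Cfsg.Spor.Suz.b, Cfsg.Spor.Suz.c, Cfsg.Spor.Suz.d, Cfsg.Spor.Suz.f, Cfsg.Spor.Suz.g} : Set (FreeGroup Cfsg.Spor.Suz.Gen))).map (PresentedGroup.mk (Cfsg.Spor.coxRelators Cfsg.Spor.Suz.edges ∪ {r | r ∈ Cfsg.Spor.Suz.extra})))).index = 22880 := by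
  rw [CfsgLib.SporRecognition.CosetCert.map_closure_eq_wordSubgroup _ CfsgLib.SporRecognition.Cert.Suz22880.subW
    (by ext r; simp only [CfsgLib.SporRecognition.Cert.Suz22880.subW, List.map_cons, List.map_nil, List.mem_cons, List.not_mem_nil,
          Set.mem_insert_iff, Set.mem_singleton_iff, Set.mem_ofPred_eq, or_false]; rfl)]
  exact CfsgLib.SporRecognition.Cert.Suz22880.certified.index_eq

end Cfsg.Agent.S1681
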