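import Cfsg.Statements.S1682
import Cfsg.Agent.Lib.SporadicB.He.Basic

set_option autoImplicit false
open Cfsg

namespace Cfsg.Agent.S1682

/-- In the presented Held group, the subgroup H generated by the images of a, c, d, e, f, (ab)^2 and (bcde)^7 has a normal subgroup of index 2 isomorphic to the 4-dimensional symplectic group over a field with four elements. -/
theorem result : ∃ (N : Subgroup (((Subgroup.closure ({Cfsg.Spor.He.a, Cfsg.Spor.He.c, Cfsg.Spor.He.d, Cfsg.Spor.He.e, Cfsg.Spor.He.f, (Cfsg.Spor.He.a * Cfsg.Spor.He.b) ^ 2, (Cfsg.Spor.He.b * Cfsg.Spor.He.c * Cfsg.Spor.He.d * Cfsg.Spor.He.e) ^ 7} : Set (FreeGroup Cfsg.Spor.He.Gen))).map (PresentedGroup.mk (Cfsg.Spor.coxRelators Cfsg.Spor.He.edges ∪ {r | r ∈ Cfsg.Spor.He.extra}))))) (K : Type) (_ : Field K) (_ : Fintype K), N.Normal ∧ N.index = 2 ∧ Fintype.card K = 4 ∧ Nonempty (N ≃* Matrix.symplecticGroup (Fin 2) K) := by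
  rw [CfsgLib.SporRecognition.CosetCert.map_closure_eq_wordSubgroup _ CfsgLib.SporRecognition.Cert.He2058.subW
    (by ext r; simp only [CfsgLib.SporRecognition.Cert.He2058.subW, List.map_cons, List.map_nil, List.mem_cons, List.not_mem_nil,
          Set.mem_insert_iff, Set.mem_singleton_iff, Set.mem_ofPred_eq, or_false]; rfl)]
  obtain ⟨F, i1, i2, hF, N, hN, hiso⟩ := CfsgLib.SporadicB.He.exists_sp4
  exact ⟨N, F, i1, i2, Subgroup.normal_of_index_eq_two hN, hN, hF, hiso⟩

end Cfsg.Agent.S1682
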