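import Cfsg.Statements.S1683
import Cfsg.Agent.Lib.SporRecognition.Cert.He2058.Main
import Cfsg.Agent.Lib.SporRecognition.Cert.He2058.Orbits


set_option autoImplicit false
open Cfsg

namespace Cfsg.Agent.S1683

/-- In the presented Held group, let H be the subgroup generated by the images of a, c, d, e, f, (ab)^2 and (bcde)^7. Then H has index 2058, there are four distinct H-orbits on the cosets of H other than H itself, of sizes 136, 136, 425 and 1360. -/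
theorem result : (((Subgroup.closure ({Cfsg.Spor.He.a, Cfsg.Spor.He.c, Cfsg.Spor.He.d, Cfsg.Spor.He.e, Cfsg.Spor.He.f, (Cfsg.Spor.He.a * Cfsg.Spor.He.b) ^ 2, (Cfsg.Spor.He.b * Cfsg.Spor.He.c * Cfsg.Spor.He.d * Cfsg.Spor.He.e) ^ 7} : Set (FreeGroup Cfsg.Spor.He.Gen))).map (PresentedGroup.mk (Cfsg.Spor.coxRelators Cfsg.Spor.He.edges ∪ {r | r ∈ Cfsg.Spor.He.extra})))).index = 2058 ∧ ∃ q₁ q₂ q₃ q₄ : Cfsg.Spor.He ⧸ (((Subgroup.closure ({Cfsg.Spor.He.a, Cfsg.Spor.He.c, Cfsg.Spor.He.d, Cfsg.Spor.He.e, Cfsg.Spor.He.f, (Cfsg.Spor.He.a * Cfsg.Spor.He.b) ^ 2, (Cfsg.Spor.He.b * Cfsg.Spor.He.c * Cfsg.Spor.He.d * Cfsg.Spor.He.e) ^ 7} : Set (FreeGroup Cfsg.Spor.He.Gen))).map (PresentedGroup.mk (Cfsg.Spor.coxRelators Cfsg.Spor.He.edges ∪ {r | r ∈ Cfsg.Spor.He.extra})))), MulAction.orbit (((Subgroup.closure ({Cfsg.Spor.He.a, Cfsg.Spor.He.c, Cfsg.Spor.He.d, Cfsg.Spor.He.e, Cfsg.Spor.He.f,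 (Cfsg.Spor.He.a * Cfsg.Spor.He.b) ^ 2, (Cfsg.Spor.He.b * Cfsg.Spor.He.c * Cfsg.Spor.He.d * Cfsg.Spor.He.e) ^ 7} : Set (FreeGroup Cfsg.Spor.He.Gen))).map (PresentedGroup.mk (Cfsg.Spor.coxRelators Cfsg.Spor.He.edges ∪ {r | r ∈ Cfsg.Spor.He.extra})))) q₁ ≠ MulAction.orbit (((Subgroup.closure ({Cfsg.Spor.He.a, Cfsg.Spor.He.c, Cfsg.Spor.He.d, Cfsg.Spor.He.e, Cfsg.Spor.He.f, (Cfsg.Spor.He.a * Cfsg.Spor.He.b) ^ 2, (Cfsg.Spor.He.b * Cfsg.Spor.He.c * Cfsg.Spor.He.d * Cfsg.Spor.He.e) ^ 7} : Set (FreeGroup Cfsg.Spor.He.Gen))).map (PresentedGroup.mk (Cfsg.Spor.coxRelators Cfsg.Spor.He.edges ∪ {r | r ∈ Cfsg.Spor.He.extra})))) q₂ ∧ (MulAction.orbit (((Subgroup.closure ({Cfsg.Spor.He.a, Cfsg.Spor.He.c, Cfsg.Spor.He.d, Cfsg.Spor.He.e, Cfsg.Spor.He.f, (Cfsg.Spor.He.a * Cfsg.Spor.He.b) ^ 2, (Cfsg.Spor.He.b * Cfsg.Spor.He.c * Cfsg.Spor.He.d * Cfsg.Spor.He.e) ^ 7} : Set (FreeGroup Cfsg.Spor.He.Gen))).map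 (PresentedGroup.mk (Cfsg.Spor.coxRelators Cfsg.Spor.He.edges ∪ {r | r ∈ Cfsg.Spor.He.extra})))) q₁).ncard = 136 ∧ (MulAction.orbit (((Subgroup.closure ({Cfsg.Spor.He.a, Cfsg.Spor.He.c, Cfsg.Spor.He.d, Cfsg.Spor.He.e, Cfsg.Spor.He.f, (Cfsg.Spor.He.a * Cfsg.Spor.He.b) ^ 2, (Cfsg.Spor.He.b * Cfsg.Spor.He.c * Cfsg.Spor.He.d * Cfsg.Spor.He.e) ^ 7} : Set (FreeGroup Cfsg.Spor.He.Gen))).map (PresentedGroup.mk (Cfsg.Spor.coxRelators Cfsg.Spor.He.edges ∪ {r | r ∈ Cfsg.Spor.He.extra})))) q₂).ncard = 136 ∧ (MulAction.orbit (((Subgroup.closure ({Cfsg.Spor.He.a, Cfsg.Spor.He.c, Cfsg.Spor.He.d, Cfsg.Spor.He.e, Cfsg.Spor.He.f, (Cfsg.Spor.He.a * Cfsg.Spor.He.b) ^ 2, (Cfsg.Spor.He.b * Cfsg.Spor.He.c * Cfsg.Spor.He.d * Cfsg.Spor.He.e) ^ 7} : Set (FreeGroup Cfsg.Spor.He.Gen))).map (PresentedGroup.mk (Cfsg.Spor.coxRelators Cfsg.Spor.He.edges ∪ {r | r ∈ Cfsg.Spor.He.extra})))) q₃).ncard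 = 425 ∧ (MulAction.orbit (((Subgroup.closure ({Cfsg.Spor.He.a, Cfsg.Spor.He.c, Cfsg.Spor.He.d, Cfsg.Spor.He.e, Cfsg.Spor.He.f, (Cfsg.Spor.He.a * Cfsg.Spor.He.b) ^ 2, (Cfsg.Spor.He.b * Cfsg.Spor.He.c * Cfsg.Spor.He.d * Cfsg.Spor.He.e) ^ 7} : Set (FreeGroup Cfsg.Spor.He.Gen))).map (PresentedGroup.mk (Cfsg.Spor.coxRelators Cfsg.Spor.He.edges ∪ {r | r ∈ Cfsg.Spor.He.extra})))) q₄).ncard = 1360 := by
  rw [CfsgLib.SporRecognition.CosetCert.map_closure_eq_wordSubgroup _ CfsgLib.SporRecognition.Cert.He2058.subW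
    (by ext r; simp only [CfsgLib.SporRecognition.Cert.He2058.subW, List.map_cons, List.map_nil, List.mem_cons, List.not_mem_nil,
          Set.mem_insert_iff, Set.mem_singleton_iff, Set.mem_ofPred_eq, or_false]; rfl)]
  obtain ⟨q, hq, horb⟩ := CfsgLib.SporRecognition.Cert.He2058.certified.suborbits CfsgLib.SporRecognition.Cert.He2058.subT rfl CfsgLib.SporRecognition.Cert.He2058.subT_spec
    CfsgLib.SporRecognition.Cert.He2058.lab CfsgLib.SporRecognition.Cert.He2058.root CfsgLib.SporRecognition.Cert.He2058.rk CfsgLib.SporRecognition.Cert.He2058.via CfsgLib.SporRecognition.Cert.He2058.src CfsgLib.SporRecognition.Cert.He2058.lab_spec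
    (CfsgLib.SporRecognition.CosetCert.allBelow_spec CfsgLib.SporRecognition.Cert.He2058.orbChk)
  have hcard : ∀ (r l m : ℕ) (hr : r < 2058), CfsgLib.SporRecognition.Cert.He2058.lab r = l → r = CfsgLib.SporRecognition.Cert.He2058.root l →
      CfsgLib.SporRecognition.CosetCert.countLab 12 2058 CfsgLib.SporRecognition.Cert.He2058.lab l = m →
      (MulAction.orbit (CfsgLib.SporRecognition.CosetCert.wordSubgroup (Cfsg.Spor.coxRelators Cfsg.Spor.He.edges ∪ {x | x ∈ Cfsg.Spor.He.extra}) CfsgLib.SporRecognition.Cert.He2058.subW) (q ⟨r, hr⟩)).ncard = m := by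
    intro r l m hr h1 h2 h3
    rw [horb ⟨r, hr⟩ (by simpa [h1] using h2), Set.ncard_image_of_injective _ hq]
    simp only [h1]
    rw [CfsgLib.SporRecognition.CosetCert.ncard_lab (d := 12) (by norm_num), h3]
  refine ⟨CfsgLib.SporRecognition.Cert.He2058.certified.index_eq, q ⟨36, by norm_num⟩, q ⟨506, by norm_num⟩, q ⟨5, by norm_num⟩, q ⟨1, by norm_num⟩, ?_, hcard 36 3 136 _ (by decide +kernel) (by decide +kernel) CfsgLib.SporRecognition.Cert.He2058.size3, hcard 506 4 136 _ (by decide +kernel) (by decide +kernel) CfsgLib.SporRecognition.Cert.He2058.size4, hcard 5 2 425 _ (by decide +kernel) (by decide +kernel) CfsgLib.SporRecognition.Cert.He2058.size2, hcard 1 1 1360 _ (by decide +kernel) (by decide +kernel) CfsgLib.SporRecognition.Cert.He2058.size1⟩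
  intro h
  have h1 := MulAction.mem_orbit_self (M := CfsgLib.SporRecognition.CosetCert.wordSubgroup (Cfsg.Spor.coxRelators Cfsg.Spor.He.edges ∪ {x | x ∈ Cfsg.Spor.He.extra}) CfsgLib.SporRecognition.Cert.He2058.subW) (q ⟨506, by norm_num⟩)
  rw [← h, horb ⟨36, by norm_num⟩ (by decide +kernel), hq.mem_set_image] at h1
  exact absurd h1 (by show ¬ (CfsgLib.SporRecognition.Cert.He2058.lab 506 = CfsgLib.SporRecognition.Cert.He2058.lab 36); decide +kernel)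

end Cfsg.Agent.S1683
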