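import Cfsg.Statements.S1687
import Cfsg.Agent.Lib.SporRecognition.Cert.Fi22U.Main
import Cfsg.Agent.Lib.SporRecognition.Cert.Fi22U.Orbits


set_option autoImplicit false
open Cfsg

namespace Cfsg.Agent.S1687

/-- In the presented Fischer group Fi₂₂, let H be the subgroup generated by the images of a, c, d, e, f, g, h, i and (abcdeh)^5. Then H has index 3510, H has orbits of sizes 693 and 2816 on the cosets of H other than H itself. -/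
theorem result : (((Subgroup.closure ({Cfsg.Spor.Fi22.a, Cfsg.Spor.Fi22.c, Cfsg.Spor.Fi22.d, Cfsg.Spor.Fi22.e, Cfsg.Spor.Fi22.f, Cfsg.Spor.Fi22.g, Cfsg.Spor.Fi22.h, Cfsg.Spor.Fi22.i, (Cfsg.Spor.Fi22.a * Cfsg.Spor.Fi22.b * Cfsg.Spor.Fi22.c * Cfsg.Spor.Fi22.d * Cfsg.Spor.Fi22.e * Cfsg.Spor.Fi22.h) ^ 5} : Set (FreeGroup Cfsg.Spor.Fi22.Gen))).map (PresentedGroup.mk (Cfsg.Spor.coxRelators Cfsg.Spor.Fi22.edges ∪ {r | r ∈ Cfsg.Spor.Fi22.extra})))).index = 3510 ∧ ∃ q₁ q₂ : Cfsg.Spor.Fi22 ⧸ (((Subgroup.closure ({Cfsg.Spor.Fi22.a, Cfsg.Spor.Fi22.c, Cfsg.Spor.Fi22.d, Cfsg.Spor.Fi22.e, Cfsg.Spor.Fi22.f, Cfsg.Spor.Fi22.g, Cfsg.Spor.Fi22.h, Cfsg.Spor.Fi22.i, (Cfsg.Spor.Fi22.a * Cfsg.Spor.Fi22.b * Cfsg.Spor.Fi22.c * Cfsg.Spor.Fi22.d * Cfsg.Spor.Fi22.e * Cfsg.Spor.Fi22.h) ^ 5} : Set (FreeGroup Cfsg.Spor.Fi22.Gen))).map (PresentedGroup.mk (Cfsg.Spor.coxRelators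 Cfsg.Spor.Fi22.edges ∪ {r | r ∈ Cfsg.Spor.Fi22.extra})))), (MulAction.orbit (((Subgroup.closure ({Cfsg.Spor.Fi22.a, Cfsg.Spor.Fi22.c, Cfsg.Spor.Fi22.d, Cfsg.Spor.Fi22.e, Cfsg.Spor.Fi22.f, Cfsg.Spor.Fi22.g, Cfsg.Spor.Fi22.h, Cfsg.Spor.Fi22.i, (Cfsg.Spor.Fi22.a * Cfsg.Spor.Fi22.b * Cfsg.Spor.Fi22.c * Cfsg.Spor.Fi22.d * Cfsg.Spor.Fi22.e * Cfsg.Spor.Fi22.h) ^ 5} : Set (FreeGroup Cfsg.Spor.Fi22.Gen))).map (PresentedGroup.mk (Cfsg.Spor.coxRelators Cfsg.Spor.Fi22.edges ∪ {r | r ∈ Cfsg.Spor.Fi22.extra})))) q₁).ncard = 693 ∧ (MulAction.orbit (((Subgroup.closure ({Cfsg.Spor.Fi22.a, Cfsg.Spor.Fi22.c, Cfsg.Spor.Fi22.d, Cfsg.Spor.Fi22.e, Cfsg.Spor.Fi22.f, Cfsg.Spor.Fi22.g, Cfsg.Spor.Fi22.h, Cfsg.Spor.Fi22.i, (Cfsg.Spor.Fi22.a * Cfsg.Spor.Fi22.b * Cfsg.Spor.Fi22.c * Cfsg.Spor.Fi22.d * Cfsg.Spor.Fi22.e * Cfsg.Spor.Fi22.h) ^ 5} : Set (FreeGroup Cfsg.Spor.Fi22.Gen))).map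 (PresentedGroup.mk (Cfsg.Spor.coxRelators Cfsg.Spor.Fi22.edges ∪ {r | r ∈ Cfsg.Spor.Fi22.extra})))) q₂).ncard = 2816 := by
  rw [CfsgLib.SporRecognition.CosetCert.map_closure_eq_wordSubgroup _ CfsgLib.SporRecognition.Cert.Fi22U.subW
    (by ext r; simp only [CfsgLib.SporRecognition.Cert.Fi22U.subW, List.map_cons, List.map_nil, List.mem_cons, List.not_mem_nil,
          Set.mem_insert_iff, Set.mem_singleton_iff, Set.mem_ofPred_eq, or_false]; rfl)]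
  obtain ⟨q, hq, horb⟩ := CfsgLib.SporRecognition.Cert.Fi22U.certified.suborbits CfsgLib.SporRecognition.Cert.Fi22U.subT rfl CfsgLib.SporRecognition.Cert.Fi22U.subT_spec
    CfsgLib.SporRecognition.Cert.Fi22U.lab CfsgLib.SporRecognition.Cert.Fi22U.root CfsgLib.SporRecognition.Cert.Fi22U.rk CfsgLib.SporRecognition.Cert.Fi22U.via CfsgLib.SporRecognition.Cert.Fi22U.src CfsgLib.SporRecognition.Cert.Fi22U.lab_spec
    (CfsgLib.SporRecognition.CosetCert.allBelow_spec CfsgLib.SporRecognition.Cert.Fi22U.orbChk)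
  have hcard : ∀ (r l m : ℕ) (hr : r < 3510), CfsgLib.SporRecognition.Cert.Fi22U.lab r = l → r = CfsgLib.SporRecognition.Cert.Fi22U.root l →
      CfsgLib.SporRecognition.CosetCert.countLab 12 3510 CfsgLib.SporRecognition.Cert.Fi22U.lab l = m →
      (MulAction.orbit (CfsgLib.SporRecognition.CosetCert.wordSubgroup (Cfsg.Spor.coxRelators Cfsg.Spor.Fi22.edges ∪ {x | x ∈ Cfsg.Spor.Fi22.extra}) CfsgLib.SporRecognition.Cert.Fi22U.subW) (q ⟨r, hr⟩)).ncard = m := by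
    intro r l m hr h1 h2 h3
    rw [horb ⟨r, hr⟩ (by simpa [h1] using h2), Set.ncard_image_of_injective _ hq]
    simp only [h1]
    rw [CfsgLib.SporRecognition.CosetCert.ncard_lab (d := 12) (by norm_num), h3]
  refine ⟨CfsgLib.SporRecognition.Cert.Fi22U.certified.index_eq, q ⟨4, by norm_num⟩, q ⟨1, by norm_num⟩, hcard 4 2 693 _ (by decide +kernel) (by decide +kernel) CfsgLib.SporRecognition.Cert.Fi22U.size2, hcard 1 1 2816 _ (by decide +kernel) (by decide +kernel) CfsgLib.SporRecognition.Cert.Fi22U.size1⟩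

end Cfsg.Agent.S1687
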