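import Cfsg.Statements.S1689
import Cfsg.Agent.Lib.SporRecognition.Cert.Fi23X.Main
import Cfsg.Agent.Lib.SporRecognition.Cert.Fi23X.Orbits


set_option autoImplicit false
open Cfsg

namespace Cfsg.Agent.S1689

/-- In the presented Fischer group Fi₂₃, let H be the subgroup generated by the images of a, …, i. Then H has index 31671, H has orbits of sizes 3510 and 28160 on the cosets of H other than H itself. -/
theorem result : (((Subgroup.closure ({Cfsg.Spor.Fi23.a, Cfsg.Spor.Fi23.b, Cfsg.Spor.Fi23.c, Cfsg.Spor.Fi23.d, Cfsg.Spor.Fi23.e, Cfsg.Spor.Fi23.f, Cfsg.Spor.Fi23.g, Cfsg.Spor.Fi23.h, Cfsg.Spor.Fi23.i} : Set (FreeGroup Cfsg.Spor.Fi23.Gen))).map (PresentedGroup.mk (Cfsg.Spor.coxRelators Cfsg.Spor.Fi23.edges ∪ {r | r ∈ Cfsg.Spor.Fi23.extra})))).index = 31671 ∧ ∃ q₁ q₂ : Cfsg.Spor.Fi23 ⧸ (((Subgroup.closure ({Cfsg.Spor.Fi23.a, Cfsg.Spor.Fi23.b, Cfsg.Spor.Fi23.c,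 Cfsg.Spor.Fi23.d, Cfsg.Spor.Fi23.e, Cfsg.Spor.Fi23.f, Cfsg.Spor.Fi23.g, Cfsg.Spor.Fi23.h, Cfsg.Spor.Fi23.i} : Set (FreeGroup Cfsg.Spor.Fi23.Gen))).map (PresentedGroup.mk (Cfsg.Spor.coxRelators Cfsg.Spor.Fi23.edges ∪ {r | r ∈ Cfsg.Spor.Fi23.extra})))), (MulAction.orbit (((Subgroup.closure ({Cfsg.Spor.Fi23.a, Cfsg.Spor.Fi23.b, Cfsg.Spor.Fi23.c, Cfsg.Spor.Fi23.d, Cfsg.Spor.Fi23.e, Cfsg.Spor.Fi23.f, Cfsg.Spor.Fi23.g, Cfsg.Spor.Fi23.h, Cfsg.Spor.Fi23.i} : Set (FreeGroup Cfsg.Spor.Fi23.Gen))).map (PresentedGroup.mk (Cfsg.Spor.coxRelators Cfsg.Spor.Fi23.edges ∪ {r | r ∈ Cfsg.Spor.Fi23.extra})))) q₁).ncard = 3510 ∧ (MulAction.orbit (((Subgroup.closure ({Cfsg.Spor.Fi23.a, Cfsg.Spor.Fi23.b, Cfsg.Spor.Fi23.c, Cfsg.Spor.Fi23.d, Cfsg.Spor.Fi23.e, Cfsg.Spor.Fi23.f, Cfsg.Spor.Fi23.g, Cfsg.Spor.Fi23.h, Cfsg.Spor.Fi23.i} : Set (FreeGroup Cfsg.Spor.Fi23.Gen))).map (PresentedGroup.mk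 (Cfsg.Spor.coxRelators Cfsg.Spor.Fi23.edges ∪ {r | r ∈ Cfsg.Spor.Fi23.extra})))) q₂).ncard = 28160 := by
  rw [CfsgLib.SporRecognition.CosetCert.map_closure_eq_wordSubgroup _ CfsgLib.SporRecognition.Cert.Fi23X.subW
    (by ext r; simp only [CfsgLib.SporRecognition.Cert.Fi23X.subW, List.map_cons, List.map_nil, List.mem_cons, List.not_mem_nil,
          Set.mem_insert_iff, Set.mem_singleton_iff, Set.mem_ofPred_eq, or_false]; rfl)]
  obtain ⟨q, hq, horb⟩ := CfsgLib.SporRecognition.Cert.Fi23X.certified.suborbits CfsgLib.SporRecognition.Cert.Fi23X.subT rfl CfsgLib.SporRecognition.Cert.Fi23X.subT_spec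
    CfsgLib.SporRecognition.Cert.Fi23X.lab CfsgLib.SporRecognition.Cert.Fi23X.root CfsgLib.SporRecognition.Cert.Fi23X.rk CfsgLib.SporRecognition.Cert.Fi23X.via CfsgLib.SporRecognition.Cert.Fi23X.src CfsgLib.SporRecognition.Cert.Fi23X.lab_spec
    (CfsgLib.SporRecognition.CosetCert.allBelow_spec CfsgLib.SporRecognition.Cert.Fi23X.orbChk)
  have hcard : ∀ (r l m : ℕ) (hr : r < 31671), CfsgLib.SporRecognition.Cert.Fi23X.lab r = l → r = CfsgLib.SporRecognition.Cert.Fi23X.root l →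
      CfsgLib.SporRecognition.CosetCert.countLab 15 31671 CfsgLib.SporRecognition.Cert.Fi23X.lab l = m →
      (MulAction.orbit (CfsgLib.SporRecognition.CosetCert.wordSubgroup (Cfsg.Spor.coxRelators Cfsg.Spor.Fi23.edges ∪ {x | x ∈ Cfsg.Spor.Fi23.extra}) CfsgLib.SporRecognition.Cert.Fi23X.subW) (q ⟨r, hr⟩)).ncard = m := by
    intro r l m hr h1 h2 h3
    rw [horb ⟨r, hr⟩ (by simpa [h1] using h2), Set.ncard_image_of_injective _ hq]
    simp only [h1]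
    rw [CfsgLib.SporRecognition.CosetCert.ncard_lab (d := 15) (by norm_num), h3]
  refine ⟨CfsgLib.SporRecognition.Cert.Fi23X.certified.index_eq, q ⟨52, by norm_num⟩, q ⟨1, by norm_num⟩, hcard 52 2 3510 _ (by decide +kernel) (by decide +kernel) CfsgLib.SporRecognition.Cert.Fi23X.size2, hcard 1 1 28160 _ (by decide +kernel) (by decide +kernel) CfsgLib.SporRecognition.Cert.Fi23X.size1⟩

end Cfsg.Agent.S1689
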