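import Cfsg.Statements.S1691
import Cfsg.Agent.Eqn.SporCoxeter
-- import your own Cfsg.Agent.* helpers here

set_option autoImplicit false
open Cfsg

namespace Cfsg.Agent.S1691

open Cfsg.Spor

/-- parity map -/
def sgnGen : Fi24.Gen → Multiplicative (ZMod 2) := fun _ => Multiplicative.ofAdd 1

theorem rel_ok : ∀ r ∈ coxRelators Fi24.edges ∪ {r | r ∈ Fi24.extra}, FreeGroup.lift sgnGen r = 1 := by
  have h1 : ∀ x ∈ coxNodes Fi24.edges, ∀ y ∈ coxNodes Fi24.edges,
      FreeGroup.lift sgnGen ((FreeGroup.of x * FreeGroup.of y) ^ coxLabel Fi24.edges x y) = 1 := by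
    intro x _ y _
    simp only [map_pow, map_mul, FreeGroup.lift_apply_of, sgnGen]
    have : (Multiplicative.ofAdd (1 : ZMod 2) * Multiplicative.ofAdd 1) = 1 := by decide
    rw [this, one_pow]
  have h2 : ∀ r ∈ Fi24.extra, FreeGroup.lift sgnGen r = 1 := by
    intro r hr
    simp only [Fi24.extra, List.mem_cons, List.not_mem_nil, or_false] at hr
    rcases hr with rfl | rfl <;>
    · simp only [map_pow, map_mul, map_inv, FreeGroup.lift_apply_of, sgnGen]
      decide
  rintro r (⟨x, hx, y, hy, rfl⟩ | hr)
  · exact h1 x hx y hy
  · exact h2 r hr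

def sgn : Fi24 →* Multiplicative (ZMod 2) := PresentedGroup.toGroup rel_ok

def gen (x : Fi24.Gen) : Fi24 := PresentedGroup.of x

theorem rel_one {x y : Fi24.Gen} (hx : x ∈ coxNodes Fi24.edges) (hy : y ∈ coxNodes Fi24.edges) :
    (gen x * gen y) ^ coxLabel Fi24.edges x y = 1 := by
  have := PresentedGroup.one_of_mem (rels := coxRelators Fi24.edges ∪ {r | r ∈ Fi24.extra})
    (x := (FreeGroup.of x * FreeGroup.of y) ^ coxLabel Fi24.edges x y) (Or.inl ⟨x, hx, y, hy, rfl⟩)
  rw [map_pow, map_mul] at this
  exact this

theorem ab_eq (x : Fi24.Gen) : Abelianization.of (gen x) = Abelianization.of (gen .d) := by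
  have step : ∀ u v, u ∈ coxNodes Fi24.edges → v ∈ coxNodes Fi24.edges → coxLabel Fi24.edges u v = 3 →
      Abelianization.of (gen u) = Abelianization.of (gen v) := by
    intro u v hu hv h
    have a := rel_one hu hv
    have b := rel_one hu hu
    have c := rel_one hv hv
    rw [h] at a
    have l : ∀ w : Fi24.Gen, coxLabel Fi24.edges w w = 1 := fun w => by simp [coxLabel]
    rw [l, pow_one] at b c
    have a' := congrArg (⇑Abelianization.of) a
    have b' := congrArg (⇑Abelianization.of) b
    have c' := congrArg (⇑Abelianization.of) c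
    simp only [map_pow, map_mul, map_one] at a' b' c'
    rw [mul_pow, pow_succ (Abelianization.of (gen u)), pow_succ (Abelianization.of (gen v)),
      pow_two, pow_two, b', c', one_mul, one_mul] at a'
    have : Abelianization.of (gen u) = (Abelianization.of (gen v))⁻¹ := eq_inv_of_mul_eq_one_left a'
    rw [this, inv_eq_of_mul_eq_one_left c']
  have e_c : Abelianization.of (gen .c) = Abelianization.of (gen .d) := step _ _ (by decide) (by decide) (by decide)
  have e_b := (step .b .c (by decide) (by decide) (by decide)).trans e_c
  have e_a := (step .a .b (by decide) (by decide) (by decide)).trans e_b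
  have e_k := (step .k .a (by decide) (by decide) (by decide)).trans e_a
  have e_l := (step .l .k (by decide) (by decide) (by decide)).trans e_k
  have e_e := step .e .d (by decide) (by decide) (by decide)
  have e_f := (step .f .e (by decide) (by decide) (by decide)).trans e_e
  have e_g := (step .g .f (by decide) (by decide) (by decide)).trans e_f
  have e_j := (step .j .g (by decide) (by decide) (by decide)).trans e_g
  have e_h := step .h .d (by decide) (by decide) (by decide)
  have e_i := (step .i .h (by decide) (by decide) (by decide)).trans e_h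
  cases x <;> first | rfl | assumption

theorem ker_sgn : sgn.ker = commutator Fi24 := by
  refine le_antisymm ?_ (Abelianization.commutator_subset_ker sgn)
  have hd2 : Abelianization.of (gen .d) ^ 2 = 1 := by
    have := congrArg (⇑Abelianization.of) (rel_one (x := .d) (y := .d) (by decide) (by decide))
    have l : coxLabel Fi24.edges .d .d = 1 := by simp [coxLabel]
    simpa [l, pow_two] using this
  have key : ∀ p : Fi24, (Abelianization.of p = 1 ∧ sgn p = 1) ∨
      (Abelianization.of p = Abelianization.of (gen .d) ∧ sgn p = Multiplicative.ofAdd 1) := by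
    intro p
    have hp : p ∈ Subgroup.closure (Set.range gen) := by
      have : Set.range gen = Set.range (PresentedGroup.of : Fi24.Gen → Fi24) := rfl
      rw [this, PresentedGroup.closure_range_of]; trivial
    induction hp using Subgroup.closure_induction with
    | mem x hx =>
      obtain ⟨i, rfl⟩ := hx
      exact Or.inr ⟨ab_eq i, PresentedGroup.toGroup.of rel_ok⟩
    | one => exact Or.inl ⟨map_one _, map_one _⟩
    | mul x y _ _ hx hy =>
      rcases hx with ⟨a, b⟩ | ⟨a, b⟩ <;> rcases hy with ⟨c, d⟩ | ⟨c, d⟩ <;>
        simp only [map_mul, a, b, c, d, ← pow_two, hd2, one_mul, mul_one, true_and, and_true, true_or, or_true]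
      all_goals first | (right; trivial) | (left; simp only [one_pow, and_self]) | (left; decide)
    | inv x _ hx =>
      rcases hx with ⟨a, b⟩ | ⟨a, b⟩
      · left; simp [map_inv, a, b]
      · right
        refine ⟨?_, ?_⟩
        · rw [map_inv, a]; exact inv_eq_of_mul_eq_one_right (by rw [← pow_two]; exact hd2)
        · rw [map_inv, b]; decide
  intro p hp
  rcases key p with ⟨h, _⟩ | ⟨_, h⟩
  · rw [← Abelianization.ker_of]; exact h
  · rw [MonoidHom.mem_ker, h] at hp
    exact absurd hp (by decide)

/-- The commutator subgroup of the presented group Fi₂₄ has index 2 (the presented group is Fi₂₄′:2 with Fi₂₄′ its derived subgroup). -/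
theorem result : (commutator Cfsg.Spor.Fi24).index = 2 := by
  rw [← ker_sgn, Subgroup.index_ker]
  have htop : sgn.range = ⊤ := by
    rw [eq_top_iff]
    intro v _
    rcases ((by decide : ∀ v : Multiplicative (ZMod 2), v = 1 ∨ v = Multiplicative.ofAdd 1) v) with rfl | rfl
    · exact one_mem _
    · exact ⟨gen .d, PresentedGroup.toGroup.of rel_ok⟩
  rw [htop, Subgroup.card_top]; simp

end Cfsg.Agent.S1691
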