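import Cfsg.Statements.S1714
import Cfsg.Agent.Lib.Fischer.M23Recog.Main
import Cfsg.Agent.Lib.Fischer.M23Recog.Fi22Type
import Cfsg.Agent.S5371
-- import your own Cfsg.Agent.* helpers here

set_option autoImplicit false
open Cfsg

namespace Cfsg.Agent.S1714

/-- The Fischer group Fi₂₃ from a transposition centraliser: let G be a finite group with an involution d such that the centraliser C of d is quasisimple, C modulo the subgroup generated by d is isomorphic to the presented Fischer group Fi₂₂, and some conjugate of d different from d commutes with d. Then G is isomorphic to the presented Fischer group Fi₂₃. -/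
theorem result {G : Type*} [Group G] [Finite G] (d : G) (hd : orderOf d = 2) (hq : Cfsg.IsQuasisimple (Subgroup.centralizer ({d} : Set G))) [((Subgroup.zpowers d).subgroupOf (Subgroup.centralizer ({d} : Set G))).Normal] (e : Cfsg.Spor.IsoFi22 ((Subgroup.centralizer ({d} : Set G)) ⧸ (Subgroup.zpowers d).subgroupOf (Subgroup.centralizer ({d} : Set G)))) (hnwc : ∃ g : G, g * d * g⁻¹ ∈ Subgroup.centralizer ({d} : Set G) ∧ g * d * g⁻¹ ≠ d) : Cfsg.Spor.IsoFi23 G := by
  obtain ⟨f⟩ := e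
  obtain ⟨hcl, -, hty⟩ := CfsgLib.Fischer.M23Recog.Fi22Type.type22
  obtain ⟨⟨h2, h3⟩, ⟨t, ht, hconj⟩, htop⟩ := hcl
  obtain ⟨C₀, hC₀⟩ : ∃ E, E = f.symm '' CfsgLib.Fischer.M23Recog.Fi22Type.cls := ⟨_, rfl⟩
  have hE : Cfsg.IsThreeTranspositionClass C₀ := by
    subst hC₀
    refine ⟨⟨?_, ?_⟩, ⟨f.symm t, ⟨t, ht, rfl⟩, ?_⟩, ?_⟩
    · rintro _ ⟨x, hx, rfl⟩
      rw [MulEquiv.orderOf_eq]
      exact h2 x hx
    · rintro _ ⟨x, hx, rfl⟩ _ ⟨y, hy, rfl⟩
      rw [← map_mul, ← map_pow, ← map_pow]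
      rcases h3 x hx y hy with h | h
      · exact Or.inl (by rw [h, map_one])
      · exact Or.inr (by rw [h, map_one])
    · ext y
      rw [hconj]
      simp only [Set.mem_image, conjugatesOf, Set.mem_ofPred_eq, isConj_iff]
      constructor
      · rintro ⟨x, ⟨g, rfl⟩, rfl⟩
        exact ⟨f.symm g, by rw [map_mul, map_mul, map_inv]⟩
      · rintro ⟨g, rfl⟩
        exact ⟨f g * t * (f g)⁻¹, ⟨f g, rfl⟩, by rw [map_mul, map_mul, map_inv, f.symm_apply_apply]⟩
    · rw [show (f.symm '' CfsgLib.Fischer.M23Recog.Fi22Type.cls) =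
          f.symm.toMonoidHom '' CfsgLib.Fischer.M23Recog.Fi22Type.cls from rfl, ← MonoidHom.map_closure, htop,
        Subgroup.map_top_of_surjective _ f.symm.surjective]
  have hT : Cfsg.IsOfTypeM22 _ C₀ := hC₀ ▸ CfsgLib.Fischer.TypeTwentyThree.typeM22_map f.symm hty
  obtain ⟨hclass, hprim, h23⟩ := CfsgLib.Fischer.M23Recog.main hd hq C₀ hE hT hnwc
  obtain ⟨e', -⟩ := Cfsg.Agent.S5371.exists_presented (CfsgLib.Fischer.group_of_class hclass) hprim h23
  exact ⟨e'.symm⟩

end Cfsg.Agent.S1714
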