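import Cfsg.Statements.S1717
-- import your own Cfsg.Agent.* helpers here

set_option autoImplicit false
open Cfsg

namespace Cfsg.Agent.S1717

open Matrix

abbrev SL5 := Matrix.SpecialLinearGroup (Fin 5) (ZMod 2)

/-- rank of the coordinates in the flag order 0,2,3,4,1 -/
def ord : Fin 5 → ℕ := ![0, 4, 1, 2, 3]

theorem ord_inj : Function.Injective ord := by decide

def Tri (M : Matrix (Fin 5) (Fin 5) (ZMod 2)) : Prop :=
  (∀ i, M i i = 1) ∧ ∀ i j, ord j < ord i → M i j = 0

theorem tri_blockTri {M : Matrix (Fin 5) (Fin 5) (ZMod 2)} (h : Tri M) : M.det = 1 := by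
  have hb : Matrix.BlockTriangular M ord := fun i j hij => h.2 i j hij
  rw [hb.det]
  refine Finset.prod_eq_one fun a ha => ?_
  obtain ⟨i, -, rfl⟩ := Finset.mem_image.mp ha
  haveI : Unique {x : Fin 5 // ord x = ord i} :=
    ⟨⟨⟨i, rfl⟩⟩, fun x => Subtype.ext (ord_inj x.2)⟩
  rw [Matrix.det_unique]
  exact h.1 _

theorem tri_mul {M N : Matrix (Fin 5) (Fin 5) (ZMod 2)} (hM : Tri M) (hN : Tri N) : Tri (M * N) := by
  constructor
  · intro i
    rw [Matrix.mul_apply, Finset.sum_eq_single i]
    · rw [hM.1, hN.1, one_mul]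
    · intro k _ hk
      rcases lt_or_gt_of_ne (fun e => hk (ord_inj e)) with h | h
      · rw [hM.2 i k h, zero_mul]
      · rw [hN.2 k i h, mul_zero]
    · simp
  · intro i j hij
    rw [Matrix.mul_apply]
    refine Finset.sum_eq_zero fun k _ => ?_
    by_cases h : ord k < ord i
    · rw [hM.2 i k h, zero_mul]
    · rw [hN.2 k j (by omega), mul_zero]

def USub : Submonoid SL5 where
  carrier := {M | Tri (M : Matrix (Fin 5) (Fin 5) (ZMod 2))}
  one_mem' := ⟨fun i => by simp, fun i j h => by
    have : i ≠ j := fun e => by simp [e] at h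
    simp [Matrix.one_apply_ne this]⟩
  mul_mem' := fun {a b} ha hb => by simpa using tri_mul ha hb

def U : Subgroup SL5 where
  toSubmonoid := USub
  inv_mem' := fun {x} hx => by
    have : x⁻¹ ∈ Submonoid.powers x := by
      rw [IsOfFinOrder.mem_powers_iff_mem_zpowers (isOfFinOrder_of_finite x)]
      exact inv_mem (Subgroup.mem_zpowers x)
    exact (Submonoid.powers_le.mpr hx) this

theorem mem_U {M : SL5} : M ∈ U ↔ Tri (M : Matrix (Fin 5) (Fin 5) (ZMod 2)) := Iff.rfl

def ofFree (f : {p : Fin 5 × Fin 5 // ord p.1 < ord p.2} → ZMod 2) : Matrix (Fin 5) (Fin 5) (ZMod 2) :=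
  fun i j => if h : ord i < ord j then f ⟨(i, j), h⟩ else if i = j then 1 else 0

theorem tri_ofFree (f) : Tri (ofFree f) := by
  refine ⟨fun i => by simp [ofFree], fun i j h => ?_⟩
  have : i ≠ j := fun e => by simp [e] at h
  simp [ofFree, this, Nat.not_lt.mpr h.le]

def freeEquiv : U ≃ ({p : Fin 5 × Fin 5 // ord p.1 < ord p.2} → ZMod 2) where
  toFun M p := (M.1 : Matrix (Fin 5) (Fin 5) (ZMod 2)) p.1.1 p.1.2
  invFun f := ⟨⟨ofFree f, tri_blockTri (tri_ofFree f)⟩, tri_ofFree f⟩
  left_inv M := by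
    apply Subtype.ext
    apply Matrix.SpecialLinearGroup.ext
    intro i j
    show ofFree (fun p => (M.1 : Matrix (Fin 5) (Fin 5) (ZMod 2)) p.1.1 p.1.2) i j = _
    unfold ofFree
    split
    · rfl
    · rename_i h
      rcases eq_or_ne i j with rfl | hne
      · simp [(mem_U.mp M.2).1 i]
      · rw [if_neg hne, (mem_U.mp M.2).2 i j]
        have : ord i ≠ ord j := fun e => hne (ord_inj e)
        omega
  right_inv f := by
    funext p
    exact dif_pos p.2

theorem card_U : Nat.card U = 2 ^ 10 := by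
  rw [Nat.card_congr freeEquiv, Nat.card_fun, Nat.card_zmod, Nat.card_eq_fintype_card]
  have : Fintype.card {p : Fin 5 × Fin 5 // ord p.1 < ord p.2} = 10 := by decide
  rw [this]

theorem card_SL5 : Nat.card SL5 = 2 ^ 10 * 9765 := by
  have hb : Function.Bijective (Matrix.SpecialLinearGroup.toGL : SL5 → GL (Fin 5) (ZMod 2)) := by
    refine ⟨fun a b h => ?_, fun g => ?_⟩
    · apply Subtype.ext
      exact congrArg Units.val h
    · have h0 : (g : Matrix (Fin 5) (Fin 5) (ZMod 2)).det ≠ 0 :=
        (Matrix.isUnit_iff_isUnit_det _).mp g.isUnit |>.ne_zero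
      have h1 : (g : Matrix (Fin 5) (Fin 5) (ZMod 2)).det = 1 :=
        (by decide : ∀ d : ZMod 2, d ≠ 0 → d = 1) _ h0
      let m : SL5 := ⟨g.val, h1⟩
      refine ⟨m, Units.ext ?_⟩
      change (m : Matrix (Fin 5) (Fin 5) (ZMod 2)) = _
      rfl
  rw [Nat.card_congr (Equiv.ofBijective _ hb), Matrix.card_GL_field]
  rw [Fin.prod_univ_five, ZMod.card]
  norm_num

theorem stdBasis_tri {i j : Fin 5} (h : ord i < ord j) : Tri (Matrix.transvection i j (1 : ZMod 2)) := by
  have hij : i ≠ j := fun e => by simp [e] at h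
  constructor
  · intro k
    simp only [Matrix.transvection, Matrix.add_apply, Matrix.one_apply_eq]
    rw [Matrix.single_apply_of_ne]
    · simp
    · rintro ⟨rfl, rfl⟩; exact hij rfl
  · intro k l hkl
    have : k ≠ l := fun e => by simp [e] at hkl
    simp only [Matrix.transvection, Matrix.add_apply, Matrix.one_apply_ne this]
    rw [Matrix.single_apply_of_ne]
    · simp
    · rintro ⟨rfl, rfl⟩; omega

theorem center_off {M : U} (hM : M ∈ Subgroup.center U) {k l : Fin 5} (hkl : k ≠ l)
    (hne : ¬ (k = 0 ∧ l = 1)) : (M.1 : Matrix (Fin 5) (Fin 5) (ZMod 2)) k l = 0 := by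
  have comm : ∀ i j, ord i < ord j →
      (M.1 : Matrix (Fin 5) (Fin 5) (ZMod 2)) * Matrix.single i j 1 =
        Matrix.single i j 1 * (M.1 : Matrix (Fin 5) (Fin 5) (ZMod 2)) := by
    intro i j h
    have h' := congrArg (fun x : U => (x.1 : Matrix (Fin 5) (Fin 5) (ZMod 2)))
      ((Subgroup.mem_center_iff.mp hM) ⟨⟨_, tri_blockTri (stdBasis_tri h)⟩, stdBasis_tri h⟩)
    have h'' : (Matrix.transvection i j 1) * (M.1 : Matrix (Fin 5) (Fin 5) (ZMod 2)) =
        (M.1 : Matrix (Fin 5) (Fin 5) (ZMod 2)) * Matrix.transvection i j 1 := h'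
    simp only [Matrix.transvection, add_mul, mul_add, one_mul, mul_one] at h''
    exact (add_left_cancel h'').symm
  by_cases hl : l = 1
  · have hk : k ≠ 0 := fun e => hne ⟨e, hl⟩
    have ho : ord 0 < ord k := by
      exact (by decide : ∀ k : Fin 5, k ≠ 0 → ord 0 < ord k) k hk
    have := congrFun (congrFun (comm 0 k ho) 0) l
    simp [Matrix.single_mul_apply_same, Matrix.mul_single_apply_of_ne _ _ _ _ _ hkl.symm] at this
    exact this.symm
  · have ho : ord l < ord 1 := by
      exact (by decide : ∀ l : Fin 5, l ≠ 1 → ord l < ord 1) l hl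
    have := congrFun (congrFun (comm l 1 ho) k) 1
    simp [Matrix.mul_single_apply_same, Matrix.single_mul_apply_of_ne _ _ _ _ _ hkl] at this
    exact this

theorem card_center_U : Nat.card (Subgroup.center U) ≤ 2 := by
  have : Function.Injective (fun M : Subgroup.center U =>
      (M.1.1 : Matrix (Fin 5) (Fin 5) (ZMod 2)) 0 1) := by
    intro A B h
    apply Subtype.ext; apply Subtype.ext
    apply Matrix.SpecialLinearGroup.ext
    intro k l
    by_cases hkl : k = l
    · subst hkl; rw [(mem_U.mp A.1.2).1, (mem_U.mp B.1.2).1]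
    · by_cases hne : k = 0 ∧ l = 1
      · obtain ⟨rfl, rfl⟩ := hne; exact h
      · rw [center_off A.2 hkl hne, center_off B.2 hkl hne]
  simpa using Nat.card_le_card_of_injective _ this

theorem U_le_centralizer (s : SL5) (hs : (s : Matrix (Fin 5) (Fin 5) (ZMod 2)) = Matrix.transvection 0 1 1) :
    U ≤ Subgroup.centralizer {s} := by
  intro M hM
  rw [Subgroup.mem_centralizer_singleton_iff]
  apply Matrix.SpecialLinearGroup.ext
  intro i j
  obtain ⟨h1, h2⟩ := mem_U.mp hM
  simp only [Matrix.SpecialLinearGroup.coe_mul, hs, Matrix.transvection, add_mul, mul_add, one_mul, mul_one,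
    Matrix.add_apply]
  congr 1
  have a : ∀ k : Fin 5, k ≠ 0 → ord 0 < ord k := by decide
  have b : ∀ k : Fin 5, k ≠ 1 → ord k < ord 1 := by decide
  by_cases hi : i = 0 <;> by_cases hj : j = 1
  · subst hi; subst hj
    simp [Matrix.single_mul_apply_same, Matrix.mul_single_apply_same, h1]
  · subst hi
    simp [Matrix.single_mul_apply_same, Matrix.mul_single_apply_of_ne _ _ _ _ _ hj, h2 1 j (b j hj)]
  · subst hj
    simp [Matrix.single_mul_apply_of_ne _ _ _ _ _ hi, Matrix.mul_single_apply_same, h2 i 0 (a i hi)]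
  · simp [Matrix.single_mul_apply_of_ne _ _ _ _ _ hi, Matrix.mul_single_apply_of_ne _ _ _ _ _ hj]

theorem sylow_of_centre {G : Type*} [Group G] [Finite G] (z : G) (hz : orderOf z = 2)
    (T : Sylow 2 (Subgroup.centralizer ({z} : Set G)))
    (hc : Nat.card (Subgroup.center (T : Subgroup (Subgroup.centralizer ({z} : Set G)))) ≤ 2) :
    ¬ 2 ∣ ((T : Subgroup (Subgroup.centralizer ({z} : Set G))).map
      (Subgroup.subtype (Subgroup.centralizer ({z} : Set G)))).index := by
  let C := Subgroup.centralizer ({z} : Set G)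
  let T0 := (T : Subgroup C).map C.subtype
  have hp : IsPGroup 2 T0 := T.2.map _
  obtain ⟨P, hP⟩ := hp.exists_le_sylow
  have hcomap : IsPGroup 2 ((P : Subgroup G).comap C.subtype) :=
    P.2.comap_of_injective _ Subtype.val_injective
  have hTle : (T : Subgroup C) ≤ (P : Subgroup G).comap C.subtype := Subgroup.map_le_iff_le_comap.mp hP
  have hEq : (P : Subgroup G).comap C.subtype = (T : Subgroup C) := T.3 hcomap hTle
  suffices h : T0 = (P : Subgroup G) by
    change ¬ 2 ∣ T0.index
    rw [h]; exact P.not_dvd_index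
  have hzC : z ∈ C := Subgroup.mem_centralizer_singleton_iff.mpr rfl
  have hzne : z ≠ 1 := fun e => by simp [e] at hz
  have hzP : (⟨z, hzC⟩ : C) ∈ (T : Subgroup C) := by
    have hzz : IsPGroup 2 (Subgroup.zpowers (⟨z, hzC⟩ : C)) :=
      IsPGroup.of_card (n := 1) (by rw [Nat.card_zpowers, Subgroup.orderOf_mk, hz]; rfl)
    obtain ⟨S, hS⟩ := hzz.exists_le_sylow
    obtain ⟨g, hg⟩ := MulAction.exists_smul_eq (Subgroup.centralizer ({z} : Set G)) S T
    have h1 : (⟨z, hzC⟩ : C) ∈ (S : Subgroup C) := hS (Subgroup.mem_zpowers _)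
    have h2 : (MulAut.conj g) (⟨z, hzC⟩ : C) ∈ ((g • S : Sylow 2 C) : Subgroup C) :=
      Subgroup.smul_mem_pointwise_smul _ _ _ h1
    have h3 : (MulAut.conj g) (⟨z, hzC⟩ : C) = ⟨z, hzC⟩ :=
      mul_inv_eq_iff_eq_mul.mpr (Subtype.ext (Subgroup.mem_centralizer_singleton_iff.mp g.2))
    rw [h3, hg] at h2
    exact h2
  by_contra hne
  haveI : Group.IsNilpotent (P : Subgroup G) := P.2.isNilpotent
  have hlt : T0.subgroupOf P < ⊤ := by
    rw [lt_top_iff_ne_top, Ne, Subgroup.subgroupOf_eq_top]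
    exact fun h => hne (le_antisymm hP h)
  obtain ⟨g, hgN, hgT⟩ := SetLike.exists_of_lt (Group.normalizerCondition_of_isNilpotent _ hlt)
  have hgz : (g : G) * z * (g : G)⁻¹ = z := by
    have hz0 : z ∈ T0 := ⟨⟨z, hzC⟩, hzP, rfl⟩
    have key : ∀ x ∈ T0, (∀ y ∈ T0, y * x = x * y) → x = 1 ∨ x = z := by
      rintro x ⟨x', hx', rfl⟩ hx
      have hxc : (⟨x', hx'⟩ : (T : Subgroup C)) ∈ Subgroup.center (T : Subgroup C) :=
        Subgroup.mem_center_iff.mpr fun y => Subtype.ext (Subtype.ext (hx _ ⟨y.1, y.2, rfl⟩))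
      have hzc : (⟨⟨z, hzC⟩, hzP⟩ : (T : Subgroup C)) ∈ Subgroup.center (T : Subgroup C) :=
        Subgroup.mem_center_iff.mpr fun y => Subtype.ext (Subtype.ext
          (Subgroup.mem_centralizer_singleton_iff.mp y.1.2))
      by_contra hcon
      rw [not_or] at hcon
      have : 3 ≤ Nat.card (Subgroup.center (T : Subgroup C)) := by
        have hinj : Function.Injective (![(1 : Subgroup.center (T : Subgroup C)), ⟨_, hxc⟩, ⟨_, hzc⟩]) := by
          intro i j hij
          have hij' := congrArg (fun v : Subgroup.center (T : Subgroup C) => ((v.1.1 : C) : G)) hij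
          have hx1 : ((x' : C) : G) ≠ 1 := hcon.1
          have hxz : ((x' : C) : G) ≠ z := hcon.2
          fin_cases i <;> fin_cases j <;> first
            | rfl
            | exact absurd hij' hzne
            | exact absurd hij'.symm hzne
            | exact absurd hij' hx1
            | exact absurd hij'.symm hx1
            | exact absurd hij' hxz
            | exact absurd hij'.symm hxz
        simpa using Nat.card_le_card_of_injective _ hinj
      omega
    have hgP : (⟨(g : G), g.2⟩ : (P : Subgroup G)) = g := rfl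
    have hmem : ∀ y, y ∈ T0 → (g : G) * y * (g : G)⁻¹ ∈ T0 ∧ (g : G)⁻¹ * y * (g : G) ∈ T0 := by
      intro y hy
      have h1 := (Subgroup.mem_normalizer_iff.mp hgN ⟨y, hP hy⟩).mp (Subgroup.mem_subgroupOf.mpr hy)
      have h2 := (Subgroup.mem_normalizer_iff''.mp hgN ⟨y, hP hy⟩).mp (Subgroup.mem_subgroupOf.mpr hy)
      exact ⟨Subgroup.mem_subgroupOf.mp h1, Subgroup.mem_subgroupOf.mp h2⟩
    rcases key _ (hmem z hz0).1 (fun y hy => by
      obtain ⟨y', hy', rfl⟩ := hy
      obtain ⟨y'', hy'', e⟩ := (hmem (C.subtype y') ⟨y', hy', rfl⟩).2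
      have hc' := Subgroup.mem_centralizer_singleton_iff.mp y''.2
      have e' : (y'' : G) = (g : G)⁻¹ * (y' : G) * g := e
      rw [e'] at hc'
      have h3 := congrArg (fun t : G => (g : G) * t * (g : G)⁻¹) hc'
      simpa [mul_assoc] using h3) with h | h
    · exact absurd (conj_eq_one_iff.mp h) hzne
    · exact h
  have hgC : (g : G) ∈ C := Subgroup.mem_centralizer_singleton_iff.mpr (mul_inv_eq_iff_eq_mul.mp hgz)
  exact hgT (Subgroup.mem_subgroupOf.mpr ⟨⟨g, hgC⟩, hEq.le (Subgroup.mem_comap.mpr g.2), rfl⟩)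

/-- Let G be a finite group with an involution z whose centraliser C is isomorphic to the centraliser of a transvection of SL(5, 2). Then a Sylow 2-subgroup of C, viewed in G, is a Sylow 2-subgroup of G (its index in G is odd). -/
theorem result {G : Type*} [Group G] [Finite G] (s : Matrix.SpecialLinearGroup (Fin 5) (ZMod 2)) (hs : (s : Matrix (Fin 5) (Fin 5) (ZMod 2)) = Matrix.transvection 0 1 1) (z : G) (hz : orderOf z = 2) (e : (Subgroup.centralizer ({z} : Set G)) ≃* Subgroup.centralizer ({s} : Set (Matrix.SpecialLinearGroup (Fin 5) (ZMod 2)))) (T : Sylow 2 (Subgroup.centralizer ({z} : Set G))) : ¬ 2 ∣ ((T : Subgroup (Subgroup.centralizer ({z} : Set G))).map (Subgroup.subtype (Subgroup.centralizer ({z} : Set G)))).index := by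
  refine sylow_of_centre z hz T ?_
  let U' : Subgroup (Subgroup.centralizer ({z} : Set G)) :=
    (U.subgroupOf (Subgroup.centralizer {s})).map e.symm.toMonoidHom
  have hU' : Nonempty (U' ≃* U) := ⟨(((U.subgroupOf _).equivMapOfInjective _ e.symm.injective).symm.trans
    (Subgroup.subgroupOfEquivOfLe (U_le_centralizer s hs)))⟩
  obtain ⟨eU⟩ := hU'
  have hcard : Nat.card U' = 2 ^ 10 := (Nat.card_congr eU.toEquiv).trans card_U
  have hdvd : Nat.card (Subgroup.centralizer ({z} : Set G)) ∣ 2 ^ 10 * 9765 := by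
    rw [Nat.card_congr e.toEquiv, ← card_SL5]
    exact Subgroup.card_subgroup_dvd_card _
  have hnd : ¬ 2 ∣ U'.index := by
    intro h2
    have h3 : 2 ^ 10 * 2 ∣ Nat.card (Subgroup.centralizer ({z} : Set G)) := by
      rw [← U'.card_mul_index, hcard]
      exact Nat.mul_dvd_mul_left _ h2
    have := h3.trans hdvd
    omega
  let S : Sylow 2 (Subgroup.centralizer ({z} : Set G)) := (IsPGroup.of_card hcard).toSylow hnd
  have eT : (T : Subgroup (Subgroup.centralizer ({z} : Set G))) ≃* U :=
    (T.equiv S).trans ((MulEquiv.subgroupCongr (IsPGroup.toSylow_coe _ hnd)).trans eU)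
  have : Nat.card (Subgroup.center (T : Subgroup (Subgroup.centralizer ({z} : Set G)))) =
      Nat.card (Subgroup.center U) := Nat.card_congr (Subgroup.centerCongr eT).toEquiv
  exact this ▸ card_center_U

end Cfsg.Agent.S1717
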