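import Cfsg.Statements.S1753

set_option autoImplicit false
universe u
open Cfsg

namespace Cfsg.Agent.S1753

/-- Let K be any property of groups. (1) If G is a minimal counterexample relative to K — a finite non-abelian simple group not satisfying K such that every finite non-abelian simple group of smaller order satisfies K — then every proper subgroup of G is a K-group (all its non-abelian simple sections satisfy K), since such sections have smaller order than G. (2) Consequently (induction on the order), if every finite non-abelian simple group all of whose proper subgroups are K-groups satisfies K, then every finite non-abelian simple group satisfies K. -/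
theorem result (K : ∀ (X : Type u) [Group X], Prop) :
    (∀ (G : Type u) [Group G], Cfsg.IsMinCounterexampleWith K G → Cfsg.IsKProperWith K G) ∧
      ((∀ (X : Type u) [Group X] [Finite X], IsSimpleGroup X → ¬ IsMulCommutative X → Cfsg.IsKProperWith K X → K X) →
        ∀ (G : Type u) [Group G] [Finite G], IsSimpleGroup G → ¬ IsMulCommutative G → K G) := by
  have key : ∀ (G : Type u) [Group G] [Finite G],
      (∀ (X : Type u) [Group X] [Finite X], IsSimpleGroup X → ¬ IsMulCommutative X →
        Nat.card X < Nat.card G → K X) → Cfsg.IsKProperWith K G := by
    intro G _ _ h H hH H' N _ hs hc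
    refine h _ hs hc (lt_of_le_of_lt ?_ (lt_of_not_ge fun hle => hH (Subgroup.eq_top_of_le_card H hle)))
    exact (Nat.card_le_card_of_surjective _ (QuotientGroup.mk'_surjective N)).trans H'.card_le_card_group
  refine ⟨fun G _ h => ?_, fun h G _ _ hs hc => ?_⟩
  · obtain ⟨hf, _, _, _, hmin⟩ := h
    exact key G hmin
  · suffices ∀ n : ℕ, ∀ (G : Type u) [Group G] [Finite G],
        Nat.card G = n → IsSimpleGroup G → ¬ IsMulCommutative G → K G from this _ G rfl hs hc
    intro n
    induction n using Nat.strong_induction_on with
    | _ n ih =>
      intro G _ _ hn hs hc
      exact h G hs hc (key G fun X _ _ hsX hcX hlt => ih _ (hn ▸ hlt) X rfl hsX hcX)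

end Cfsg.Agent.S1753
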