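import Cfsg.Statements.S1754

set_option autoImplicit false
open Cfsg

namespace Cfsg.Agent.S1754

/-- Let A be a standard subgroup of the finite group G (A quasisimple, C_G(A) tightly embedded of even order, A commuting elementwise with no other conjugate of itself, and N_G(A) = N_G(C_G(A))), and let t be an involution of G centralizing A. Then the centralizer of t lies in the normalizer of A; in particular A, viewed inside C_G(t), is a component of C_G(t). -/
theorem result {G : Type*} [Group G] [Finite G]
    (A : Subgroup G) (hA : Cfsg.IsStandardSubgroup A) (t : G) (ht : orderOf t = 2) (htA : t ∈ Subgroup.centralizer (A : Set G)) :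
    Subgroup.centralizer ({t} : Set G) ≤ Subgroup.normalizer (A : Set G) ∧
      Cfsg.IsComponent (A.subgroupOf (Subgroup.centralizer ({t} : Set G))) := by
  obtain ⟨hq, ⟨_, hte⟩, _, hN⟩ := hA
  have hle : Subgroup.centralizer ({t} : Set G) ≤ Subgroup.normalizer (A : Set G) := by
    intro g hg
    rw [hN]
    by_contra hgN
    have hodd := hte g hgN
    have hgt : g * t = t * g := (Subgroup.mem_centralizer_iff.mp hg t rfl).symm
    have hmem : t ∈ Subgroup.centralizer (A : Set G) ⊓
        (Subgroup.centralizer (A : Set G)).map (MulAut.conj g).toMonoidHom :=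
      ⟨htA, t, htA, by simp [hgt]⟩
    have h2 : 2 ∣ Nat.card ↥(Subgroup.centralizer (A : Set G) ⊓
        (Subgroup.centralizer (A : Set G)).map (MulAut.conj g).toMonoidHom : Subgroup G) := by
      rw [← ht, ← Subgroup.orderOf_mk t hmem]
      exact orderOf_dvd_natCard _
    exact Nat.not_even_iff_odd.mpr hodd (even_iff_two_dvd.mpr h2)
  have hA : A ≤ Subgroup.centralizer ({t} : Set G) := fun a ha => by
    rw [Subgroup.mem_centralizer_singleton_iff]
    exact Subgroup.mem_centralizer_iff.mp htA a ha
  refine ⟨hle, (Subgroup.normal_subgroupOf_iff_le_normalizer hA).mpr hle |>.isSubnormal, ?_⟩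
  obtain ⟨hperf, hsimple⟩ := hq
  let e : ↥(A.subgroupOf (Subgroup.centralizer ({t} : Set G))) ≃* ↥A := Subgroup.subgroupOfEquivOfLe hA
  haveI := hperf
  haveI := hsimple
  refine ⟨Group.IsPerfect.ofSurjective (f := e.symm.toMonoidHom) e.symm.surjective, ?_⟩
  have hc : (Subgroup.center ↥(A.subgroupOf (Subgroup.centralizer ({t} : Set G)))).map e.toMonoidHom
      = Subgroup.center ↥A := by
    ext x
    constructor
    · rintro ⟨y, hy, rfl⟩
      rw [Subgroup.mem_center_iff]
      intro g
      obtain ⟨g', rfl⟩ := e.surjective g
      change e g' * e y = e y * e g'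
      rw [← map_mul, ← map_mul, Subgroup.mem_center_iff.mp hy g']
    · intro hx
      refine ⟨e.symm x, Subgroup.mem_center_iff.mpr fun g => e.injective ?_, by simp⟩
      simp only [map_mul, MulEquiv.apply_symm_apply]
      exact Subgroup.mem_center_iff.mp hx (e g)
  exact (QuotientGroup.congr _ _ e hc).isSimpleGroup

end Cfsg.Agent.S1754
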