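import Cfsg.Statements.S1755
import Cfsg.Agent.Lib.Cores.Components
import Cfsg.Agent.Lib.ClassK.TI

set_option autoImplicit false
open Cfsg

namespace Cfsg.Agent.S1755

theorem cyclic_involution_unique {T : Type*} [Group T] [Finite T] [IsCyclic T] {a b : T}
    (ha : a * a = 1) (ha1 : a ≠ 1) (hb : b * b = 1) (hb1 : b ≠ 1) : a = b := by
  classical
  haveI := Fintype.ofFinite T
  by_contra hne
  have h := IsCyclic.card_pow_eq_one_le (α := T) (n := 2) (by norm_num)
  have hsub : ({1, a, b} : Finset T) ⊆ Finset.univ.filter (fun x : T => x ^ 2 = 1) := by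
    intro x hx
    simp only [Finset.mem_insert, Finset.mem_singleton] at hx
    rw [Finset.mem_filter, sq]
    refine ⟨Finset.mem_univ _, ?_⟩
    rcases hx with rfl | rfl | rfl <;> simp [ha, hb]
  have h3 : ({1, a, b} : Finset T).card = 3 := by
    rw [Finset.card_insert_of_notMem (by simp [Ne.symm ha1, Ne.symm hb1]),
      Finset.card_insert_of_notMem (by simp [hne]), Finset.card_singleton]
  have := Finset.card_le_card hsub
  omega

/-- In a 2-group, the unique involution of a nontrivial cyclic characteristic subgroup is the unique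
central involution, when the centre is cyclic. -/
theorem involution_eq_center {T : Type*} [Group T] [Finite T] (B : Subgroup T) [hBc : B.Characteristic]
    [IsCyclic ↥B] (hZ : IsCyclic ↥(Subgroup.center T)) {b z : T} (hb : b ∈ B) (hb2 : b * b = 1) (hb1 : b ≠ 1)
    (hz : z ∈ Subgroup.center T) (hz2 : z * z = 1) (hz1 : z ≠ 1) : b = z := by
  haveI := hZ
  have hbZ : b ∈ Subgroup.center T := by
    rw [Subgroup.mem_center_iff]
    intro g
    have hmem : g * b * g⁻¹ ∈ B := Subgroup.Normal.conj_mem inferInstance b hb g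
    have := cyclic_involution_unique (T := ↥B) (a := ⟨_, hmem⟩) (b := ⟨b, hb⟩)
      (Subtype.ext (by
        show g * b * g⁻¹ * (g * b * g⁻¹) = 1
        calc g * b * g⁻¹ * (g * b * g⁻¹) = g * (b * b) * g⁻¹ := by group
          _ = 1 := by rw [hb2]; group))
      (fun h => hb1 (calc b = g⁻¹ * (g * b * g⁻¹) * g := by group
          _ = 1 := by rw [show g * b * g⁻¹ = 1 from congrArg Subtype.val h]; group))
      (Subtype.ext hb2) (fun h => hb1 (congrArg Subtype.val h))
    exact mul_inv_eq_iff_eq_mul.mp (congrArg Subtype.val this)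
  exact congrArg Subtype.val (cyclic_involution_unique (T := ↥(Subgroup.center T)) (a := ⟨b, hbZ⟩)
    (b := ⟨z, hz⟩) (Subtype.ext hb2) (fun h => hb1 (congrArg Subtype.val h))
    (Subtype.ext hz2) (fun h => hz1 (congrArg Subtype.val h)))


/-- Let G be a finite group and let z be an involution of G such that Q, the generalized Fitting subgroup of the centralizer C of z, is a 2-group of symplectic type (every characteristic abelian subgroup of Q is cyclic). Let B be a characteristic abelian subgroup of Q, viewed as a subgroup of G. Then for every g in G, the conjugate of B by g either equals B or meets B trivially. -/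
theorem result {G : Type*} [Group G] [Finite G] (z : G) (hz : orderOf z = 2) (hQ : Cfsg.IsOfSymplecticType ↥(Cfsg.generalizedFittingSubgroup ↥(Subgroup.centralizer ({z} : Set G))))
    (B : Subgroup ↥(Cfsg.generalizedFittingSubgroup ↥(Subgroup.centralizer ({z} : Set G)))) (hBc : B.Characteristic) (hBa : IsMulCommutative ↥B) (g : G) :
    ((B.map (Cfsg.generalizedFittingSubgroup ↥(Subgroup.centralizer ({z} : Set G))).subtype).map (Subgroup.centralizer ({z} : Set G)).subtype).map (MulAut.conj g).toMonoidHom =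
        (B.map (Cfsg.generalizedFittingSubgroup ↥(Subgroup.centralizer ({z} : Set G))).subtype).map (Subgroup.centralizer ({z} : Set G)).subtype ∨
      ((B.map (Cfsg.generalizedFittingSubgroup ↥(Subgroup.centralizer ({z} : Set G))).subtype).map (Subgroup.centralizer ({z} : Set G)).subtype).map (MulAut.conj g).toMonoidHom ⊓
        (B.map (Cfsg.generalizedFittingSubgroup ↥(Subgroup.centralizer ({z} : Set G))).subtype).map (Subgroup.centralizer ({z} : Set G)).subtype = ⊥ := by
  revert B
  set C : Subgroup G := Subgroup.centralizer ({z} : Set G) with hC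
  set F : Subgroup ↥C := Cfsg.generalizedFittingSubgroup ↥C with hF
  intro B hBc hBa
  haveI := hBc
  set B₁ : Subgroup G := (B.map F.subtype).map C.subtype with hB₁
  haveI hFn : F.Normal := by
    rw [hF, Cfsg.generalizedFittingSubgroup]; infer_instance
  haveI : IsCyclic ↥B := hQ.2 B hBc hBa
  have hzC : z ∈ C := Subgroup.mem_centralizer_singleton_iff.mpr rfl
  have hzz : z * z = 1 := by rw [← sq, ← hz]; exact pow_orderOf_eq_one z
  have hz1 : z ≠ 1 := by intro h; rw [h, orderOf_one] at hz; omega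
  have hzc : (⟨z, hzC⟩ : ↥C) ∈ Subgroup.center ↥C := Subgroup.mem_center_iff.mpr fun g =>
    Subtype.ext (Subgroup.mem_centralizer_singleton_iff.mp g.2)
  have hzF : (⟨z, hzC⟩ : ↥C) ∈ F := by
    have h1 : Subgroup.center ↥C ≤ Cfsg.fittingSubgroup ↥C :=
      le_sSup ⟨inferInstance, ⟨1, Subgroup.upperCentralSeries_one_eq_top_iff.mpr inferInstance⟩⟩
    exact (le_sup_right : Cfsg.fittingSubgroup ↥C ≤ Cfsg.layer ↥C ⊔ Cfsg.fittingSubgroup ↥C) (h1 hzc)
  by_cases hdis : B₁.map (MulAut.conj g).toMonoidHom ⊓ B₁ = ⊥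
  · exact Or.inr hdis
  left
  have h2 : IsPGroup 2 ↥B₁ := ((hQ.1.to_subgroup B).map F.subtype).map C.subtype
  set W : Subgroup G := B₁.map (MulAut.conj g).toMonoidHom ⊓ B₁ with hW
  haveI : Fact (Nat.Prime 2) := ⟨Nat.prime_two⟩
  have hW2 : IsPGroup 2 ↥W := h2.to_le inf_le_right
  have hdvd : 2 ∣ Nat.card ↥W :=
    hW2.card_eq_or_dvd.resolve_left (fun h => hdis (Subgroup.card_eq_one.mp h))
  obtain ⟨⟨w, hw⟩, hword⟩ := exists_prime_orderOf_dvd_card' 2 hdvd
  rw [Subgroup.orderOf_mk] at hword
  have hww : w * w = 1 := by rw [← sq, ← hword]; exact pow_orderOf_eq_one w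
  have hw1 : w ≠ 1 := by intro h; rw [h, orderOf_one] at hword; omega
  have key : ∀ x ∈ B₁, x * x = 1 → x ≠ 1 → x = z := by
    rintro _ ⟨_, ⟨b, hb, rfl⟩, rfl⟩ hx hx1
    have hzT : (⟨⟨z, hzC⟩, hzF⟩ : ↥F) ∈ Subgroup.center ↥F := Subgroup.mem_center_iff.mpr fun q =>
      Subtype.ext (Subgroup.mem_center_iff.mp hzc q)
    have := involution_eq_center B (hQ.2 _ inferInstance inferInstance) (b := b) (z := ⟨⟨z, hzC⟩, hzF⟩) hb
      (Subtype.ext (Subtype.ext hx)) (fun h => hx1 (by rw [h]; rfl)) hzT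
      (Subtype.ext (Subtype.ext hzz)) (fun h => hz1 (congrArg (fun q : ↥F => ((q : ↥C) : G)) h))
    rw [this]; rfl
  have hwz : w = z := key w hw.2 hww hw1
  obtain ⟨y, hy, hyw⟩ := hw.1
  replace hyw : g * y * g⁻¹ = w := hyw
  have hyy : y = g⁻¹ * w * g := by rw [← hyw]; group
  have hyz : y = z := key y hy
    (by rw [hyy]; calc g⁻¹ * w * g * (g⁻¹ * w * g) = g⁻¹ * (w * w) * g := by group
          _ = 1 := by rw [hww]; group)
    (fun h => hw1 (by rw [← hyw, h]; group))
  have hgC : g ∈ C := by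
    rw [hC, Subgroup.mem_centralizer_singleton_iff]
    rw [hyz, hwz] at hyw
    exact mul_inv_eq_iff_eq_mul.mp hyw
  rw [CfsgLib.ClassK.conjMap_eq_iff_mem_normalizer]
  haveI : (B.map F.subtype).Normal := CfsgLib.Cores.normal_map_subtype F B
  rw [Subgroup.mem_normalizer_iff]
  intro x
  constructor
  · rintro ⟨c, hc, rfl⟩
    exact ⟨⟨g, hgC⟩ * c * ⟨g, hgC⟩⁻¹, Subgroup.Normal.conj_mem inferInstance c hc _, rfl⟩
  · rintro ⟨c, hc, hcx⟩
    refine ⟨⟨g, hgC⟩⁻¹ * c * ⟨g, hgC⟩, ?_, ?_⟩
    · simpa using Subgroup.Normal.conj_mem (inferInstance : (B.map F.subtype).Normal) c hc (⟨g, hgC⟩⁻¹)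
    · change g⁻¹ * (c : G) * g = x
      rw [show (c : G) = g * x * g⁻¹ from hcx]; group

end Cfsg.Agent.S1755
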