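import Cfsg.Statements.S1756
import Cfsg.Agent.Lib.ClassK.Extraspecial

set_option autoImplicit false
open Cfsg

namespace Cfsg.Agent.S1756

/-- Let Q be an extraspecial 2-subgroup of the finite group G (special with centre of order 2) and t an involution of G normalizing Q such that the centralizer of t in Q has index at most 2 in Q. Then t lies in the product of Q with the centralizer of Q. -/
theorem result {G : Type*} [Group G] [Finite G] (Q : Subgroup G)
    (hQ : Cfsg.IsExtraspecial 2 ↥Q) (t : G) (ht : orderOf t = 2) (htN : t ∈ Subgroup.normalizer (Q : Set G))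
    (hi : (Subgroup.centralizer ({t} : Set G) ⊓ Q).relIndex Q ≤ 2) :
    t ∈ Q ⊔ Subgroup.centralizer (Q : Set G) := by
  obtain ⟨z, hz2, hzQ, hzZ, hZeq⟩ := CfsgLib.Fischer2.IsExtraspecial.exists_center_gen hQ
  have hz1 : z ≠ 1 := by
    intro h; rw [h, orderOf_one] at hz2; omega
  have htt : t * t = 1 := by rw [← sq, ← ht]; exact pow_orderOf_eq_one t
  have hti : t⁻¹ = t := inv_eq_of_mul_eq_one_right htt
  set R : Subgroup G := Subgroup.centralizer ({t} : Set G) ⊓ Q with hR
  have hmemR : ∀ q : G, q ∈ R ↔ (q * t = t * q ∧ q ∈ Q) := fun q => by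
    rw [hR, Subgroup.mem_inf, Subgroup.mem_centralizer_singleton_iff]
  by_cases hall : ∀ q ∈ Q, q * t = t * q
  · exact (le_sup_right : _ ≤ Q ⊔ Subgroup.centralizer (Q : Set G))
      (Subgroup.mem_centralizer_iff.mpr hall)
  push Not at hall
  obtain ⟨q, hq, hqt⟩ := hall
  have hqR : q ∉ R := fun h => hqt ((hmemR q).mp h).1
  -- index two
  have hidx : R.relIndex Q = 2 := by
    have h1 : R.relIndex Q ≠ 0 := Subgroup.FiniteIndex.index_ne_zero
    have h2 : R.relIndex Q ≠ 1 := fun h => hqR (Subgroup.relIndex_eq_one.mp h hq)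
    omega
  have hidx' : (R.subgroupOf Q).index = 2 := hidx
  have hprod : ∀ a ∈ Q, ∀ b ∈ Q, (a * b ∈ R ↔ (a ∈ R ↔ b ∈ R)) := by
    intro a ha b hb
    have := Subgroup.mul_mem_iff_of_index_two hidx' (a := ⟨a, ha⟩) (b := ⟨b, hb⟩)
    simpa [Subgroup.mem_subgroupOf] using this
  -- the action of `t`
  have hconjQ : ∀ a ∈ Q, t * a * t ∈ Q := fun a ha => by
    have := (Subgroup.mem_normalizer_iff.mp htN a).mp ha
    rwa [hti] at this
  have hfix : ∀ r ∈ R, t * r * t = r := fun r hr => by
    rw [← ((hmemR r).mp hr).1, mul_assoc, htt, mul_one]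
  have hZR : ∀ x ∈ (Subgroup.center ↥Q).map Q.subtype, x ∈ R := by
    intro x hx
    rcases CfsgLib.Fischer2.eq_one_or_eq_of_card_two
      (CfsgLib.Fischer2.IsExtraspecial.card_centerImage hQ) hzZ hz1 hx with rfl | rfl
    · exact R.one_mem
    refine (hmemR x).mpr ⟨?_, hzQ⟩
    -- `t` fixes the central involution
    have hmem : t * x * t ∈ (Subgroup.center ↥Q).map Q.subtype := by
      refine (CfsgLib.Fischer2.mem_centerImage_iff Q _).mpr ⟨hconjQ x hzQ, fun y hy => ?_⟩
      have := ((CfsgLib.Fischer2.mem_centerImage_iff Q x).mp hzZ).2 (t * y * t) (hconjQ y hy)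
      calc t * x * t * y = t * (x * (t * y * t)) * t := by simp [mul_assoc, htt]
        _ = t * ((t * y * t) * x) * t := by rw [this]
        _ = y * (t * x * t) := by simp [mul_assoc, ← mul_assoc t t, htt]
    rcases CfsgLib.Fischer2.eq_one_or_eq_of_card_two
      (CfsgLib.Fischer2.IsExtraspecial.card_centerImage hQ) hzZ hz1 hmem with h | h
    · exfalso; apply hz1
      calc x = t * (t * x * t) * t := by simp [mul_assoc, ← mul_assoc t t, htt]
        _ = 1 := by rw [h, mul_one, htt]
    · calc x * t = (t * x * t) * t := by rw [h]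
        _ = t * x := by simp [mul_assoc, htt]
  set c := q⁻¹ * (t * q * t) with hc
  have hqc : q * c = t * q * t := by rw [hc, mul_inv_cancel_left]
  have hcQ : c ∈ Q := Q.mul_mem (Q.inv_mem hq) (hconjQ q hq)
  have hqtR : t * q * t ∉ R := by
    intro h
    have h' := hfix _ h
    apply hqR
    have : t * q * t = q := by
      rw [← h']; simp [mul_assoc, ← mul_assoc t t, htt]
    rwa [this] at h
  have hcR : c ∈ R := by
    rw [hc, hprod _ (Q.inv_mem hq) _ (hconjQ q hq), R.inv_mem_iff]
    exact iff_of_false hqR hqtR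
  have hcc : c * c = 1 := by
    have h1 : t * c * t = c⁻¹ := by
      rw [hc]
      simp [mul_assoc, hti, htt, ← mul_assoc t t]
    rw [hfix c hcR] at h1
    nth_rewrite 2 [h1]
    exact mul_inv_cancel c
  have hcent : ∀ r ∈ R, c * r = r * c := by
    intro r hr
    have hrQ := ((hmemR r).mp hr).2
    have hcomm := hZR _ (CfsgLib.Fischer2.IsExtraspecial.commutator_mem hQ hq hrQ)
    have hqr : q * r * q⁻¹ ∈ R := by
      have := R.mul_mem hcomm hr
      simpa [mul_assoc] using this
    have h1 := hfix _ hqr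
    have h2 : t * (q * r * q⁻¹) * t = (q * c) * r * (q * c)⁻¹ := by
      rw [hqc]
      calc t * (q * r * q⁻¹) * t = (t * q * t) * (t * r * t) * (t * q⁻¹ * t) := by
            simp [mul_assoc, ← mul_assoc t t, htt]
        _ = (t * q * t) * r * (t * q * t)⁻¹ := by
            rw [hfix r hr]; simp [mul_assoc, hti]
    rw [h1] at h2
    calc c * r = q⁻¹ * (q * c * r * (q * c)⁻¹) * q * c := by group
      _ = q⁻¹ * (q * r * q⁻¹) * q * c := by rw [← h2]
      _ = r * c := by group
  -- `Q` is generated by `R` and `q`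
  have hgen : ∀ x ∈ Q, ∀ w : G, (∀ r ∈ R, w * r = r * w) → w * q = q * w → w * x = x * w := by
    intro x hx w hwR hwq
    by_cases hxR : x ∈ R
    · exact hwR x hxR
    have h1 : q⁻¹ * x ∈ R := by
      rw [hprod _ (Q.inv_mem hq) _ hx, R.inv_mem_iff]
      exact iff_of_false hqR hxR
    have h2 := hwR _ h1
    calc w * x = (w * q) * (q⁻¹ * x) := by group
      _ = q * (w * (q⁻¹ * x)) := by rw [hwq, mul_assoc]
      _ = x * w := by rw [h2]; group
  have hcentral : ∀ w ∈ Q, (∀ r ∈ R, w * r = r * w) → w * q = q * w →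
      w ∈ (Subgroup.center ↥Q).map Q.subtype := fun w hw hwR hwq =>
    (CfsgLib.Fischer2.mem_centerImage_iff Q w).mpr ⟨hw, fun y hy => hgen y hy w hwR hwq⟩
  have hzc : ∀ w ∈ Q, z * w = w * z := fun w hw =>
    ((CfsgLib.Fischer2.mem_centerImage_iff Q z).mp hzZ).2 w hw
  have hcz : c = z := by
    by_cases hcq : c * q = q * c
    · rcases CfsgLib.Fischer2.eq_one_or_eq_of_card_two
        (CfsgLib.Fischer2.IsExtraspecial.card_centerImage hQ) hzZ hz1 (hcentral c hcQ hcent hcq) with h | h
      · exfalso; apply hqR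
        refine (hmemR q).mpr ⟨?_, hq⟩
        rw [h, mul_one] at hqc
        calc q * t = (t * q * t) * t := by rw [← hqc]
          _ = t * q := by simp [mul_assoc, htt]
      · exact h
    exfalso
    rcases CfsgLib.Fischer2.IsExtraspecial.conj_eq_or hQ hzZ hz1 hq hcQ with h | h
    · exact hcq (mul_inv_eq_iff_eq_mul.mp h)
    have hcq' : c * q = z * q * c := mul_inv_eq_iff_eq_mul.mp h
    have hqq : q * q ∈ R := (hprod q hq q hq).mpr Iff.rfl
    have h3 : (q * c) * (q * c) = q * q := by
      rw [hqc]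
      calc t * q * t * (t * q * t) = t * (q * q) * t := by simp [mul_assoc, ← mul_assoc t t, htt]
        _ = q * q := hfix _ hqq
    apply hz1
    have h4 : (q * c) * (q * c) = z * (q * q) := by
      calc (q * c) * (q * c) = q * (c * q) * c := by group
        _ = q * z * q * (c * c) := by rw [hcq']; group
        _ = z * (q * q) := by rw [hcc, mul_one, ← hzc q hq, mul_assoc]
    rw [h3] at h4
    exact mul_eq_right.mp h4.symm
  -- an element of `C_Q(R)` outside the centre
  obtain ⟨x, ⟨hxQ, hxR⟩, hxZ⟩ : ∃ x ∈ Q ⊓ Subgroup.centralizer (R : Set G), x ∉ (Subgroup.center ↥Q).map Q.subtype := by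
    by_contra hcon
    push Not at hcon
    have h1 := CfsgLib.ClassK.card_inf_centralizer_mul_card hQ hZR inf_le_right
    have h2 := Subgroup.card_le_of_le
      (fun x hx => hcon x hx : Q ⊓ Subgroup.centralizer (R : Set G) ≤ (Subgroup.center ↥Q).map Q.subtype)
    rw [CfsgLib.Fischer2.IsExtraspecial.card_centerImage hQ] at h2
    have h3 : Nat.card ↥R < Nat.card ↥Q := by
      by_contra h'
      exact hqR ((Subgroup.eq_of_le_of_card_ge inf_le_right (not_lt.mp h') : R = Q).symm ▸ hq)
    have h5 := Nat.mul_le_mul_right (Nat.card ↥R) h2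
    omega
  replace hxR := Subgroup.mem_centralizer_iff.mp hxR
  have hxq : x * q ≠ q * x := fun h => hxZ (hcentral x hxQ (fun r hr => (hxR r hr).symm) h)
  have hxq' : x * q = z * q * x := by
    rcases CfsgLib.Fischer2.IsExtraspecial.conj_eq_or hQ hzZ hz1 hq hxQ with h | h
    · exact absurd (mul_inv_eq_iff_eq_mul.mp h) hxq
    · exact mul_inv_eq_iff_eq_mul.mp h
  have htq : t * q = z * q * t := by
    calc t * q = (t * q * t) * t := by simp [mul_assoc, htt]
      _ = z * q * t := by rw [← hqc, hcz, hzc q hq]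
  have hmem : x⁻¹ * t ∈ Subgroup.centralizer (Q : Set G) := by
    refine Subgroup.mem_centralizer_iff.mpr fun y hy => (hgen y hy _ (fun r hr => ?_) ?_).symm
    · have h1 : x⁻¹ * r = r * x⁻¹ := (Commute.inv_left (hxR r hr : Commute r x).symm)
      rw [mul_assoc, ← ((hmemR r).mp hr).1, ← mul_assoc, h1, mul_assoc]
    · have h1 : x⁻¹ * (z * q) = q * x⁻¹ := by
        rw [eq_mul_inv_iff_mul_eq, mul_assoc, ← hxq', inv_mul_cancel_left]
      calc x⁻¹ * t * q = x⁻¹ * (z * q) * t := by rw [mul_assoc, htq, ← mul_assoc]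
        _ = q * (x⁻¹ * t) := by rw [h1, mul_assoc]
  have h1 := (Q ⊔ Subgroup.centralizer (Q : Set G)).mul_mem
    ((le_sup_left : Q ≤ Q ⊔ _) hxQ) ((le_sup_right : Subgroup.centralizer (Q : Set G) ≤ Q ⊔ _) hmem)
  simpa using h1

end Cfsg.Agent.S1756
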