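import Cfsg.Statements.S1774
import Cfsg.Agent.Lib.ClassK.TISymmetric
import Cfsg.Agent.Lib.ClassK.SymplecticExp4
import Cfsg.Agent.Lib.ClassK.FStarCentralizer

set_option autoImplicit false
open Cfsg

namespace Cfsg.Agent.S1774

open CfsgLib.ClassK

section
variable {G : Type*} [Group G] [Finite G] {z : G}

private theorem mem_zpowers_involution {w a : G} (hw : w * w = 1) (ha : a ∈ Subgroup.zpowers w) :
    a = 1 ∨ a = w := by
  obtain ⟨k, rfl⟩ := ha
  rcases Int.even_or_odd' k with ⟨j, rfl | rfl⟩
  · exact Or.inl (by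
      change w ^ (2 * j) = 1
      rw [zpow_mul, zpow_two, hw, one_zpow])
  · refine Or.inr (?_ : w ^ (2 * j + 1) = w)
    rw [zpow_add_one, zpow_mul, zpow_two, hw, one_zpow, one_mul]

private theorem isTIPair_fStar (hz : orderOf z = 2)
    (hQ : Cfsg.IsOfSymplecticType ↥(Cfsg.generalizedFittingSubgroup ↥(Subgroup.centralizer ({z} : Set G))))
    (h4 : ∀ q ∈ (Cfsg.generalizedFittingSubgroup ↥(Subgroup.centralizer ({z} : Set G))).map
      (Subgroup.centralizer ({z} : Set G)).subtype, q ^ 4 = 1) :
    IsTIPair (Subgroup.zpowers z) ((Cfsg.generalizedFittingSubgroup ↥(Subgroup.centralizer ({z} : Set G))).map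
      (Subgroup.centralizer ({z} : Set G)).subtype) := by
  set C := Subgroup.centralizer ({z} : Set G) with hC
  set F := Cfsg.generalizedFittingSubgroup ↥C with hF
  set Q := F.map C.subtype with hQdef
  have hz2 : z * z = 1 := by rw [← sq, ← hz, pow_orderOf_eq_one]
  have hz1 : z ≠ 1 := fun e => by rw [e, orderOf_one] at hz; omega
  have hV : ∀ v ∈ Subgroup.zpowers z, v = 1 ∨ v = z := fun v hv => mem_zpowers_involution hz2 hv
  have hQC : ∀ x ∈ Q, x * z = z * x := fun x hx =>
    Subgroup.mem_centralizer_singleton_iff.mp (fStarCentralizer_le_centralizer z hx)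
  obtain ⟨zC, hzC, hzCe⟩ := mem_fStarCentralizer_self z
  set zF : ↥F := ⟨zC, hzC⟩ with hzF
  have hcz : zF ∈ Subgroup.center ↥F := Subgroup.mem_center_iff.mpr fun f =>
    Subtype.ext (Subtype.ext (by
      have := hQC _ ⟨f, f.2, rfl⟩
      simp only [Subgroup.coe_subtype] at this hzCe
      simp only [hzF, Subgroup.coe_mul, hzCe]
      exact this))
  have hzCe' : ((zC : ↥C) : G) = z := hzCe
  have hzF2 : zF * zF = 1 := Subtype.ext (Subtype.ext (by simpa [hzF, hzCe'] using hz2))
  have hzF1 : zF ≠ 1 := fun e => hz1 (by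
    rw [← hzCe']; exact congrArg (fun a : ↥F => ((a : ↥C) : G)) e)
  have hF4 : ∀ f : ↥F, f ^ 4 = 1 := fun f => Subtype.ext (Subtype.ext (by
    simpa using h4 _ ⟨f, f.2, rfl⟩))
  constructor
  · intro v hv
    rcases hV v hv with rfl | rfl
    · exact one_mul 1
    · exact hz2
  · exact Subgroup.zpowers_le.mpr (mem_fStarCentralizer_self z)
  · intro x hx v hv
    rcases hV v hv with rfl | rfl
    · simp
    · exact hQC x hx
  · intro x hx y hy
    refine conj_mem_fStarCentralizer (Subgroup.mem_centralizer_singleton_iff.mpr ?_) hy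
    rcases hV _ ((Subgroup.mem_normalizer_iff.mp hx z).mp (Subgroup.mem_zpowers z)) with e | e
    · exact absurd (conj_eq_one_iff.mp e) hz1
    · exact mul_inv_eq_iff_eq_mul.mp e
  · intro x hx y hy
    obtain ⟨a, ha, rfl⟩ := hx
    obtain ⟨b, hb, rfl⟩ := hy
    rcases symplectic_exp_four_comm hQ hF4 hcz hzF2 hzF1 ⟨a, ha⟩ ⟨b, hb⟩ with e | e
    · have e' := congrArg (fun a : ↥F => ((a : ↥C) : G)) e
      simp only [Subgroup.coe_mul, Subgroup.coe_inv, Subgroup.coe_one] at e'
      simp only [Subgroup.coe_subtype]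
      rw [e']
      exact one_mem _
    · have e' := congrArg (fun a : ↥F => ((a : ↥C) : G)) e
      simp only [Subgroup.coe_mul, Subgroup.coe_inv, hzF, hzCe'] at e'
      simp only [Subgroup.coe_subtype]
      rw [e']
      exact Subgroup.mem_zpowers z
  · intro x hx
    obtain ⟨a, ha, rfl⟩ := hx
    rcases symplectic_exp_four_sq hQ hF4 hcz hzF2 hzF1 ⟨a, ha⟩ with e | e
    · have e' := congrArg (fun a : ↥F => ((a : ↥C) : G)) e
      simp only [Subgroup.coe_mul, Subgroup.coe_one] at e'
      simp only [Subgroup.coe_subtype]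
      rw [e']
      exact one_mem _
    · have e' := congrArg (fun a : ↥F => ((a : ↥C) : G)) e
      simp only [Subgroup.coe_mul, hzF, hzCe'] at e'
      simp only [Subgroup.coe_subtype]
      rw [e']
      exact Subgroup.mem_zpowers z
  · intro x hx hc hx2
    obtain ⟨a, ha, rfl⟩ := hx
    rcases symplectic_center_involution hQ hcz hzF2 hzF1 (x := (⟨a, ha⟩ : ↥F))
      (Subgroup.mem_center_iff.mpr fun f => Subtype.ext (Subtype.ext (hc _ ⟨f, f.2, rfl⟩).symm))
      (Subtype.ext (Subtype.ext hx2)) with e | e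
    · have e' := congrArg (fun a : ↥F => ((a : ↥C) : G)) e
      simp only [Subgroup.coe_one] at e'
      simp only [Subgroup.coe_subtype]
      rw [e']
      exact one_mem _
    · have e' := congrArg (fun a : ↥F => ((a : ↥C) : G)) e
      simp only [hzF, hzCe'] at e'
      simp only [Subgroup.coe_subtype]
      rw [e']
      exact Subgroup.mem_zpowers z
  · intro x hxV hxQ
    let N : Subgroup ↥C :=
      { carrier := {c | ∀ y ∈ Q, (c : G) * y * (c : G)⁻¹ * y⁻¹ ∈ Subgroup.zpowers z}
        one_mem' := fun y _ => by simp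
        mul_mem' := by
          intro c d hc hd y hy
          have h1 := hc (d * y * (d : G)⁻¹) (conj_mem_fStarCentralizer d.2 hy)
          have := mul_mem h1 (hd y hy)
          simpa [mul_assoc] using this
        inv_mem' := by
          intro c hc y hy
          have h1 := hc ((c : G)⁻¹ * y * c) (by
            have := conj_mem_fStarCentralizer (C.inv_mem c.2) hy
            rwa [inv_inv] at this)
          have := inv_mem h1
          simpa [mul_assoc] using this }
    have hconjV : ∀ c : ↥C, ∀ v ∈ Subgroup.zpowers z, (c : G) * v * (c : G)⁻¹ = v := by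
      intro c v hv
      have hc := Subgroup.mem_centralizer_singleton_iff.mp c.2
      rcases hV v hv with rfl | rfl
      · simp
      · rw [hc, mul_inv_cancel_right]
    haveI : N.Normal := ⟨fun n hn c y hy => by
      have h1 := hn ((c : G)⁻¹ * y * c) (by
        have := conj_mem_fStarCentralizer (C.inv_mem c.2) hy
        rwa [inv_inv] at this)
      have h2 := hconjV c _ h1
      rw [← h2] at h1
      convert h1 using 1
      simp only [Subgroup.coe_mul, Subgroup.coe_inv]
      group⟩
    have hN2 : IsPGroup 2 ↥N := by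
      intro c
      have hcQ : ((c : ↥C) : G) ^ 2 ∈ Q := by
        refine centralizer_fStarCentralizer_le z (Subgroup.mem_centralizer_iff.mpr fun y hy => ?_)
        symm
        set a := ((c : ↥C) : G)
        set i := a * y * a⁻¹ * y⁻¹ with hi
        have hiV : i ∈ Subgroup.zpowers z := c.2 y hy
        have h2 : a * i * a⁻¹ = i := hconjV _ i hiV
        have hii : i * i = 1 := by
          rcases hV i hiV with e | e <;> rw [e]
          · exact one_mul 1
          · exact hz2
        calc a ^ 2 * y = a * (a * y * a⁻¹) * a := by rw [sq]; group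
          _ = (a * i * a⁻¹) * (a * y * a⁻¹) * a ^ 2 := by rw [hi, sq]; group
          _ = i * (i * y) * a ^ 2 := by rw [h2, hi]; group
          _ = y * a ^ 2 := by rw [← mul_assoc i, hii, one_mul]
      obtain ⟨k, hk⟩ := hQ.1.of_equiv (F.equivMapOfInjective _ C.subtype_injective) ⟨_, hcQ⟩
      refine ⟨k + 1, Subtype.ext (Subtype.ext ?_)⟩
      have hk' := congrArg Subtype.val hk
      simp only [Subgroup.coe_pow, Subgroup.coe_one] at hk' ⊢
      rw [pow_succ', pow_mul]
      exact hk'
    have hxC : x ∈ C := Subgroup.mem_centralizer_singleton_iff.mpr (hxV z (Subgroup.mem_zpowers z))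
    haveI : Fact (Nat.Prime 2) := ⟨Nat.prime_two⟩
    exact ⟨⟨x, hxC⟩, (CfsgLib.Cores.fittingSubgroup_le_generalizedFittingSubgroup _)
      (CfsgLib.Cores.pCore_le_fittingSubgroup 2 (CfsgLib.Cores.le_pCore hN2 (hxQ : (⟨x, hxC⟩ : ↥C) ∈ N))), rfl⟩
  · intro x v hv hv1 hxv
    have hvz : v = z := (hV v hv).resolve_left hv1
    subst hvz
    refine mem_normalizer_of_commute fun w hw => ?_
    have e : x * v * x⁻¹ = v := (hV _ hxv).resolve_left fun e => hz1 (conj_eq_one_iff.mp e)
    rcases hV w hw with rfl | rfl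
    · simp
    · exact mul_inv_eq_iff_eq_mul.mp e

end


/-- Let G be a finite group and let z be an involution of G such that Q, the generalized Fitting subgroup of the centralizer C of z, is a 2-group of symplectic type (every characteristic abelian subgroup of Q is cyclic); suppose every element of Q has order dividing 4. Let g ∈ G with z' = g z g⁻¹ ≠ z and z' ∈ Q. Then z lies in the conjugate g Q g⁻¹, and the subgroup X generated by Q and g Q g⁻¹ induces every automorphism of the four-group generated by z and z': for any two distinct non-identity elements u, v of that four-group there is x ∈ X with x z x⁻¹ = u and x z' x⁻¹ = v. -/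
theorem result {G : Type*} [Group G] [Finite G] (z : G) (hz : orderOf z = 2) (hQ : Cfsg.IsOfSymplecticType ↥(Cfsg.generalizedFittingSubgroup ↥(Subgroup.centralizer ({z} : Set G))))
    (h4 : ∀ q ∈ (Cfsg.generalizedFittingSubgroup ↥(Subgroup.centralizer ({z} : Set G))).map (Subgroup.centralizer ({z} : Set G)).subtype, q ^ 4 = 1) (g : G) (hne : g * z * g⁻¹ ≠ z) (hin : g * z * g⁻¹ ∈ (Cfsg.generalizedFittingSubgroup ↥(Subgroup.centralizer ({z} : Set G))).map (Subgroup.centralizer ({z} : Set G)).subtype) :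
    z ∈ ((Cfsg.generalizedFittingSubgroup ↥(Subgroup.centralizer ({z} : Set G))).map (Subgroup.centralizer ({z} : Set G)).subtype).map (MulAut.conj g).toMonoidHom ∧
      ∀ u ∈ Subgroup.closure ({z, g * z * g⁻¹} : Set G), ∀ v ∈ Subgroup.closure ({z, g * z * g⁻¹} : Set G),
        u ≠ 1 → v ≠ 1 → u ≠ v →
          ∃ x ∈ (Cfsg.generalizedFittingSubgroup ↥(Subgroup.centralizer ({z} : Set G))).map (Subgroup.centralizer ({z} : Set G)).subtype ⊔ ((Cfsg.generalizedFittingSubgroup ↥(Subgroup.centralizer ({z} : Set G))).map (Subgroup.centralizer ({z} : Set G)).subtype).map (MulAut.conj g).toMonoidHom, x * z * x⁻¹ = u ∧ x * (g * z * g⁻¹) * x⁻¹ = v := by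
  have h := isTIPair_fStar hz hQ h4
  set Q : Subgroup G := (Cfsg.generalizedFittingSubgroup ↥(Subgroup.centralizer ({z} : Set G))).map
    (Subgroup.centralizer ({z} : Set G)).subtype with hQdef
  set z' := g * z * g⁻¹ with hz'
  have hz2 : z * z = 1 := by rw [← sq, ← hz, pow_orderOf_eq_one]
  have hz1 : z ≠ 1 := fun e => by rw [e, orderOf_one] at hz; omega
  have hz'2 : z' * z' = 1 := by
    calc z' * z' = g * (z * z) * g⁻¹ := by rw [hz']; group
      _ = 1 := by rw [hz2]; group
  have hz'1 : z' ≠ 1 := fun e => hz1 (conj_eq_one_iff.mp e)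
  have hzQ : z ∈ Q := h.le (Subgroup.mem_zpowers z)
  have hzc : ∀ x ∈ Q, x * z = z * x := fun x hx => h.centralizes x hx z (Subgroup.mem_zpowers z)
  set V1 := (Subgroup.zpowers z).map (MulAut.conj g).toMonoidHom with hV1
  have hV1' : V1 = Subgroup.zpowers z' := by
    rw [hV1, MonoidHom.map_zpowers]
    rfl
  have hgP : V1 ≤ Q := by rw [hV1']; exact Subgroup.zpowers_le.mpr hin
  have hgN : g ∉ Subgroup.normalizer ((Subgroup.zpowers z : Subgroup G) : Set G) := fun hg =>
    hne ((mem_zpowers_involution hz2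
      ((Subgroup.mem_normalizer_iff.mp hg z).mp (Subgroup.mem_zpowers z))).resolve_left hz'1)
  obtain ⟨t', ht'Q, ht'⟩ : ∃ t ∈ Q, t * z' ≠ z' * t := by
    by_contra hh
    push Not at hh
    exact hne ((mem_zpowers_involution hz2 (h.central_mem z' hin (fun y hy => (hh y hy).symm)
      hz'2)).resolve_left hz'1)
  have ht'z : t' * z' * t'⁻¹ = z * z' := by
    have h2 := (mem_zpowers_involution hz2 (h.comm_mem t' ht'Q z' hin)).resolve_left fun e =>
      ht' (by rwa [mul_inv_eq_one, mul_inv_eq_iff_eq_mul] at e)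
    calc t' * z' * t'⁻¹ = (t' * z' * t'⁻¹ * z'⁻¹) * z' := by group
      _ = z * z' := by rw [h2]
  obtain ⟨t, htQ, ht, ht2⟩ : ∃ t ∈ Q, t * z' * t⁻¹ = z * z' ∧ t * t = 1 := by
    rcases mem_zpowers_involution hz2 (h.sq_mem t' ht'Q) with e | e
    · exact ⟨t', ht'Q, ht'z, e⟩
    · refine ⟨t' * z', Q.mul_mem ht'Q hin, ?_, ?_⟩
      · calc t' * z' * z' * (t' * z')⁻¹ = t' * (z' * z') * z'⁻¹ * t'⁻¹ := by group
          _ = t' * z' * t'⁻¹ := by rw [hz'2, inv_eq_of_mul_eq_one_right hz'2]; group
          _ = z * z' := ht'z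
      · calc t' * z' * (t' * z') = (t' * z' * t'⁻¹) * (t' * t') * z' := by group
          _ = z * (z' * z) * z' := by rw [ht'z, e]; group
          _ = (z * z) * (z' * z') := by rw [hzc z' hin]; group
          _ = 1 := by rw [hz2, hz'2, one_mul]
  have ht1 : t ≠ 1 := by
    rintro rfl
    apply hz1
    calc z = (z * z') * z'⁻¹ := by group
      _ = 1 := by rw [← ht]; group
  have htz' : t * z' ≠ z' * t := fun e => hz1 (by
    calc z = (z * z') * z'⁻¹ := by group
      _ = 1 := by rw [← ht, e]; group)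
  have key : z ∈ Q.map (MulAut.conj g).toMonoidHom := by
    refine ti_symmetric h g hgN hgP (T := Subgroup.zpowers t) (Subgroup.zpowers_le.mpr htQ) ?_ ?_ ?_ ?_
      (Subgroup.mem_zpowers z)
    · intro s hs
      rcases mem_zpowers_involution ht2 hs with rfl | rfl
      · exact one_mul 1
      · exact ht2
    · rw [Nat.card_zpowers, Nat.card_zpowers, hz, orderOf_eq_prime (p := 2) (by rw [sq, ht2]) ht1]
    · intro s hs w hw hs1 hw1
      rw [← hV1, hV1'] at hw
      rw [(mem_zpowers_involution ht2 hs).resolve_left hs1,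
        (mem_zpowers_involution hz'2 hw).resolve_left hw1]
      exact htz'
    · intro x _ s hs hs1 hxs s' hs'
      rcases mem_zpowers_involution ht2 hs' with rfl | rfl
      · simp
      · rwa [(mem_zpowers_involution ht2 hs).resolve_left hs1] at hxs
  refine ⟨key, fun u hu v hv hu1 hv1 huv => ?_⟩
  have h1 := h.conjMap g
  obtain ⟨r, hr, hrz⟩ : ∃ r ∈ Q.map (MulAut.conj g).toMonoidHom, r * z ≠ z * r := by
    by_contra hh
    push Not at hh
    have h2 := h1.central_mem z key (fun y hy => (hh y hy).symm) hz2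
    rw [← hV1, hV1'] at h2
    rcases mem_zpowers_involution hz'2 h2 with e | e
    · exact hz1 e
    · exact hne e.symm
  have hr1 : r * z * r⁻¹ = z' * z := by
    have h2 := h1.comm_mem r hr z key
    rw [← hV1, hV1'] at h2
    have h3 := (mem_zpowers_involution hz'2 h2).resolve_left fun e =>
      hrz (by rwa [mul_inv_eq_one, mul_inv_eq_iff_eq_mul] at e)
    calc r * z * r⁻¹ = (r * z * r⁻¹ * z⁻¹) * z := by group
      _ = z' * z := by rw [h3]
  have hrz' : r * z' * r⁻¹ = z' := by
    rw [h1.centralizes r hr z' (by rw [← hV1, hV1']; exact Subgroup.mem_zpowers z'), mul_inv_cancel_right]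
  have htz : t * z * t⁻¹ = z := by rw [hzc t htQ, mul_inv_cancel_right]
  have hcomm : z' * z = z * z' := hzc z' hin
  have hmem : ∀ w ∈ Subgroup.closure ({z, z'} : Set G), w = 1 ∨ w = z ∨ w = z' ∨ w = z * z' := by
    intro w hw
    induction hw using Subgroup.closure_induction with
    | mem a ha =>
      rcases ha with rfl | rfl
      · exact Or.inr (Or.inl rfl)
      · exact Or.inr (Or.inr (Or.inl rfl))
    | one => exact Or.inl rfl
    | mul a b _ _ ha hb =>
      rcases ha with rfl | rfl | rfl | rfl <;> rcases hb with rfl | rfl | rfl | rfl <;>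
        simp [hcomm, hz2, hz'2, mul_assoc] <;>
        simp [← mul_assoc, hcomm, hz2, hz'2] <;>
        simp [mul_assoc, hz'2]
    | inv a _ ha =>
      rcases ha with rfl | rfl | rfl | rfl
      · simp
      · exact Or.inr (Or.inl (inv_eq_of_mul_eq_one_right hz2))
      · exact Or.inr (Or.inr (Or.inl (inv_eq_of_mul_eq_one_right hz'2)))
      · refine Or.inr (Or.inr (Or.inr (inv_eq_of_mul_eq_one_right ?_)))
        calc z * z' * (z * z') = z * (z' * z) * z' := by group
          _ = (z * z) * (z' * z') := by rw [hcomm]; group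
          _ = 1 := by rw [hz2, hz'2, one_mul]
  set X := Q ⊔ Q.map (MulAut.conj g).toMonoidHom
  have htX : t ∈ X := le_sup_left (a := Q) htQ
  have hrX : r ∈ X := le_sup_right (a := Q) hr
  -- images of the ordered pair `(z, z')`
  have c1 : (t * r) * z * (t * r)⁻¹ = z' := by
    calc (t * r) * z * (t * r)⁻¹ = t * (r * z * r⁻¹) * t⁻¹ := by group
      _ = (t * z' * t⁻¹) * (t * z * t⁻¹) := by rw [hr1]; group
      _ = z * (z' * z) := by rw [ht, htz]; group
      _ = z' := by rw [hcomm, ← mul_assoc, hz2, one_mul]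
  have c2 : (t * r) * z' * (t * r)⁻¹ = z * z' := by
    calc (t * r) * z' * (t * r)⁻¹ = t * (r * z' * r⁻¹) * t⁻¹ := by group
      _ = z * z' := by rw [hrz', ht]
  have d1 : (r * t) * z * (r * t)⁻¹ = z * z' := by
    calc (r * t) * z * (r * t)⁻¹ = r * (t * z * t⁻¹) * r⁻¹ := by group
      _ = z * z' := by rw [htz, hr1, hcomm]
  have d2 : (r * t) * z' * (r * t)⁻¹ = z := by
    calc (r * t) * z' * (r * t)⁻¹ = r * (t * z' * t⁻¹) * r⁻¹ := by group
      _ = (r * z * r⁻¹) * (r * z' * r⁻¹) := by rw [ht]; group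
      _ = z := by rw [hr1, hrz', hcomm, mul_assoc, hz'2, mul_one]
  have e1 : (t * r * t) * z * (t * r * t)⁻¹ = z' := by
    calc (t * r * t) * z * (t * r * t)⁻¹ = (t * r) * (t * z * t⁻¹) * (t * r)⁻¹ := by group
      _ = z' := by rw [htz, c1]
  have e2 : (t * r * t) * z' * (t * r * t)⁻¹ = z := by
    calc (t * r * t) * z' * (t * r * t)⁻¹ = t * ((r * t) * z' * (r * t)⁻¹) * t⁻¹ := by group
      _ = z := by rw [d2, htz]
  have r1 : r * z * r⁻¹ = z * z' := by rw [hr1, hcomm]
  have e0 : ∀ a : G, 1 * a * 1⁻¹ = a := fun a => by group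
  rcases hmem u hu with rfl | rfl | rfl | rfl <;> rcases hmem v hv with rfl | rfl | rfl | rfl <;>
    first
    | exact absurd rfl hu1
    | exact absurd rfl hv1
    | exact absurd rfl huv
    | exact ⟨1, X.one_mem, e0 _, e0 _⟩
    | exact ⟨t, htX, htz, ht⟩
    | exact ⟨r, hrX, r1, hrz'⟩
    | exact ⟨t * r, X.mul_mem htX hrX, c1, c2⟩
    | exact ⟨r * t, X.mul_mem hrX htX, d1, d2⟩
    | exact ⟨t * r * t, X.mul_mem (X.mul_mem htX hrX) htX, e1, e2⟩

end Cfsg.Agent.S1774
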