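import Cfsg.Statements.S1775
import Cfsg.Agent.Lib.Balance.PComponents
import Cfsg.Agent.Lib.LBalance.LBalance
import Cfsg.Agent.Lib.Cores.GenFitting
import Cfsg.Agent.Lib.Signalizer.ExtendedTwoLayer

set_option autoImplicit false
open Cfsg

namespace Cfsg.Agent.S1775

open scoped commutatorElement

section
variable {X : Type*} [Group X] [Finite X]

/-- A component centralizes every odd order subgroup that it normalizes, unless it has odd order itself. -/
private theorem commutator_component_eq_bot {K E : Subgroup X} (hK : Cfsg.IsComponent K)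
    (hE : Odd (Nat.card ↥E)) (hKE : K ≤ Subgroup.normalizer (E : Set X))
    (hodd : ¬ Odd (Nat.card ↥K)) : ⁅K, E⁆ = ⊥ := by
  set Z : Subgroup X := K ⊔ E
  have hKZ : K ≤ Z := le_sup_left
  have hEZ : E ≤ Z := le_sup_right
  haveI : (E.subgroupOf Z).Normal :=
    Subgroup.normal_subgroupOf_iff_le_normalizer hEZ |>.mpr (sup_le hKE Subgroup.le_normalizer)
  rcases CfsgLib.Cores.le_or_commutator_eq_bot (CfsgLib.Cores.isComponent_subgroupOf hK hKZ)
    (Subgroup.Normal.isSubnormal (inferInstance : (E.subgroupOf Z).Normal)) with h | h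
  · exfalso
    apply hodd
    refine hE.of_dvd_nat (Subgroup.card_dvd_of_le ?_)
    intro k hk
    exact h (show (⟨k, hKZ hk⟩ : ↥Z) ∈ K.subgroupOf Z from hk)
  · exact CfsgLib.Cores.commutator_eq_bot_of_subgroupOf hKZ hEZ h

/-- In a group whose core is trivial and which has the B-property, a 2-component of the centralizer
of an involution is a component of it. -/
private theorem isComponent_of_hasBProperty (hB : Cfsg.HasBProperty X) (hO : Cfsg.oddCore X = ⊥)
    {t : X} (ht : orderOf t = 2) {K : Subgroup ↥(Subgroup.centralizer ({t} : Set X))}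
    (hK : Cfsg.IsPComponent 2 K) : Cfsg.IsComponent K := by
  haveI : Fact (Nat.Prime 2) := ⟨Nat.prime_two⟩
  set C := Subgroup.centralizer ({t} : Set X)
  have h1 := hB t ht
  rw [hO, le_bot_iff, Subgroup.map_eq_bot_iff_of_injective _ C.subtype_injective] at h1
  refine ⟨hK.1, (CfsgLib.Balance.isQuasisimple_iff_commutator_core hK).2 ?_⟩
  rw [eq_bot_iff, ← h1]
  refine Subgroup.commutator_mono (le_sSup hK) ?_
  rw [CfsgLib.Cores.map_subtype_pPrimeCore_eq hK.1]
  exact inf_le_left

private theorem not_odd_of_isPComponent {K : Subgroup X} (hK : Cfsg.IsPComponent 2 K) :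
    ¬ Odd (Nat.card ↥K) := by
  intro h
  refine CfsgLib.Cores.ne_bot_of_isComponent hK.2.1 ?_
  rw [Subgroup.map_eq_bot_iff, QuotientGroup.ker_mk']
  exact CfsgLib.Cores.le_pPrimeCore_of_subnormal hK.1 (Nat.coprime_two_right.2 h)

end

private theorem aux {G : Type*} [Group G] [Finite G] (x y : G) (hx : orderOf x = 2)
    (hxy : x ∈ Subgroup.centralizer ({y} : Set G))
    (hB : Cfsg.HasBProperty (↥(Subgroup.centralizer ({y} : Set G)) ⧸ Cfsg.oddCore ↥(Subgroup.centralizer ({y} : Set G))))
    (D : Subgroup G) (hDA : D ≤ Subgroup.centralizer ({x} : Set G) ⊓ Subgroup.centralizer ({y} : Set G))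
    (hDn : (D.subgroupOf (Subgroup.centralizer ({x} : Set G) ⊓ Subgroup.centralizer ({y} : Set G))).IsSubnormal)
    (J : Subgroup ↥D) (hJ : Cfsg.IsPComponent 2 J) :
    Cfsg.IsComponent
        ((((J.map D.subtype).subgroupOf (Subgroup.centralizer ({y} : Set G))).map (QuotientGroup.mk' (Cfsg.oddCore ↥(Subgroup.centralizer ({y} : Set G))))).subgroupOf
          (Subgroup.centralizer ({(QuotientGroup.mk' (Cfsg.oddCore ↥(Subgroup.centralizer ({y} : Set G))) ⟨x, hxy⟩ : ↥(Subgroup.centralizer ({y} : Set G)) ⧸ Cfsg.oddCore ↥(Subgroup.centralizer ({y} : Set G)))} : Set _))) ∧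
      ∀ E : Subgroup G, E ≤ Subgroup.centralizer ({x} : Set G) ⊓ Subgroup.centralizer ({y} : Set G) → Odd (Nat.card ↥E) →
        (∀ j ∈ J.map D.subtype, ∀ e ∈ E, j * e * j⁻¹ ∈ E) →
          ⁅J.map D.subtype, E⁆ ≤ (Cfsg.oddCore ↥(Subgroup.centralizer ({y} : Set G))).map (Subgroup.centralizer ({y} : Set G)).subtype := by
  haveI : Fact (Nat.Prime 2) := ⟨Nat.prime_two⟩
  set C := Subgroup.centralizer ({x} : Set G) with hC
  set Cy := Subgroup.centralizer ({y} : Set G) with hCy
  set A := C ⊓ Cy with hA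
  set J' := J.map D.subtype with hJ'
  set π := QuotientGroup.mk' (Cfsg.oddCore ↥Cy) with hπ
  have hxCy : x ∈ Cy := hxy
  set xb := π ⟨x, hxCy⟩ with hxb
  set Y := Subgroup.centralizer ({xb} : Set (↥Cy ⧸ Cfsg.oddCore ↥Cy)) with hY
  have hOQ : Cfsg.oddCore (↥Cy ⧸ Cfsg.oddCore ↥Cy) = ⊥ := by
    have h := CfsgLib.LBalance.map_pPrimeCore_of_ker (f := QuotientGroup.mk' (Cfsg.pPrimeCore 2 ↥Cy))
      (QuotientGroup.mk'_surjective _) (by
        rw [QuotientGroup.ker_mk']
        exact CfsgLib.Cores.card_pPrimeCore_coprime 2)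
    rw [QuotientGroup.map_mk'_self] at h
    exact h.symm
  have hxb2 : orderOf xb = 2 := by
    refine orderOf_eq_prime ?_ fun h => ?_
    · rw [hxb, ← map_pow]
      convert map_one π
      exact Subtype.ext (by rw [Subgroup.coe_pow, ← hx, pow_orderOf_eq_one, Subgroup.coe_one])
    · rw [hxb, hπ, QuotientGroup.mk'_apply, QuotientGroup.eq_one_iff] at h
      have h2 := Subgroup.orderOf_dvd_natCard _ h
      rw [← Subgroup.orderOf_coe, hx] at h2
      exact Nat.not_even_iff_odd.2 CfsgLib.Cores.odd_card_oddCore (even_iff_two_dvd.2 h2)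
  let g₀ : ↥A →* ↥Cy ⧸ Cfsg.oddCore ↥Cy := π.comp (Subgroup.inclusion inf_le_right)
  have hg₀ : ∀ a : ↥A, g₀ a ∈ Y := fun a => by
    refine Subgroup.mem_centralizer_singleton_iff.mpr ?_
    change π _ * π _ = π _ * π _
    rw [← map_mul, ← map_mul]
    exact congrArg π (Subtype.ext (Subgroup.mem_centralizer_singleton_iff.mp a.2.1))
  let f : ↥A →* ↥Y := g₀.codRestrict Y hg₀
  have hfs : Function.Surjective f := by
    rintro ⟨q, hq⟩
    set R : Subgroup ↥Cy := Subgroup.zpowers ⟨x, hxCy⟩ with hR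
    have hR2 : IsPGroup 2 ↥R := IsPGroup.of_card (n := 1) (by
      rw [hR, Nat.card_zpowers, ← Subgroup.orderOf_coe, hx, pow_one])
    have hcover := CfsgLib.LBalance.map_centralizer_of_coprime (p := 2) (Cfsg.oddCore ↥Cy)
      (CfsgLib.Cores.card_pPrimeCore_coprime 2) hR2
    have hq' : q ∈ Subgroup.centralizer ((R.map π : Subgroup _) : Set (↥Cy ⧸ Cfsg.oddCore ↥Cy)) := by
      refine Subgroup.mem_centralizer_iff.mpr ?_
      rintro _ ⟨r, hr, rfl⟩
      obtain ⟨k, rfl⟩ := hr
      rw [map_zpow]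
      exact ((show Commute q xb from Subgroup.mem_centralizer_singleton_iff.mp hq).zpow_right k).symm.eq
    rw [← hcover] at hq'
    obtain ⟨c, hc, rfl⟩ := hq'
    have hcx := Subgroup.mem_centralizer_iff.mp hc _ (Subgroup.mem_zpowers _)
    exact ⟨⟨c, Subgroup.mem_centralizer_singleton_iff.mpr (congrArg Subtype.val hcx).symm, c.2⟩,
      Subtype.ext rfl⟩
  have hfk : (Nat.card ↥f.ker).Coprime 2 := by
    have hle : f.ker.map (Subgroup.inclusion (inf_le_right : A ≤ Cy)) ≤ Cfsg.oddCore ↥Cy := by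
      rintro _ ⟨a, ha, rfl⟩
      exact (QuotientGroup.eq_one_iff _).mp (congrArg Subtype.val (MonoidHom.mem_ker.mp ha))
    refine Nat.Coprime.coprime_dvd_left ?_ (CfsgLib.Cores.card_pPrimeCore_coprime (G := ↥Cy) 2)
    rw [← Subgroup.card_map_of_injective (Subgroup.inclusion_injective (inf_le_right : A ≤ Cy))]
    exact Subgroup.card_dvd_of_le hle
  have hJA : J' ≤ A := (Subgroup.map_subtype_le _).trans hDA
  have hK0 : Cfsg.IsPComponent 2 (J'.subgroupOf A) := by
    refine (CfsgLib.LBalance.isPComponent_subgroupOf_of_le (Subgroup.map_subtype_le _) hDA hDn).1 ?_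
    rwa [Subgroup.subgroupOf, Subgroup.comap_map_eq_self_of_injective D.subtype_injective]
  have hK1 := CfsgLib.LBalance.isPComponent_map hfs hfk hK0
  have hK2 := isComponent_of_hasBProperty hB hOQ hxb2 hK1
  refine ⟨?_, fun E hE hEodd hEJ => ?_⟩
  · convert hK2 using 1
    ext q
    constructor
    · rintro ⟨j, hj, hjq⟩
      exact ⟨⟨j, hJA hj⟩, hj, Subtype.ext hjq⟩
    · rintro ⟨a, ha, rfl⟩
      exact ⟨⟨a, a.2.2⟩, ha, rfl⟩
  · set K := (J'.subgroupOf A).map f with hK
    set E' := (E.subgroupOf A).map f with hE'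
    have hE'odd : Odd (Nat.card ↥E') := by
      refine Odd.of_dvd_nat ?_ (Subgroup.card_map_dvd (f := f) (E.subgroupOf A))
      rwa [Nat.card_congr (Subgroup.subgroupOfEquivOfLe hE).toEquiv]
    have hKN : K ≤ Subgroup.normalizer (E' : Set ↥Y) := by
      refine le_trans (Subgroup.map_mono ?_) (Subgroup.le_normalizer_map f)
      intro j hj
      rw [Subgroup.mem_normalizer_iff]
      intro e
      refine ⟨fun he => hEJ j hj e he, fun he => ?_⟩
      have := hEJ _ (J'.inv_mem hj) _ he
      change ((j : G))⁻¹ * ((j : G) * (e : G) * (j : G)⁻¹) * ((j : G))⁻¹⁻¹ ∈ E at this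
      rw [Subgroup.mem_subgroupOf]
      simpa [mul_assoc] using this
    have h0 := commutator_component_eq_bot hK2 hE'odd hKN (not_odd_of_isPComponent hK1)
    refine Subgroup.commutator_le.2 fun j hj e he => ?_
    have h2 := Subgroup.commutator_mem_commutator (H₁ := K) (H₂ := E')
      (Subgroup.mem_map_of_mem f (show (⟨j, hJA hj⟩ : ↥A) ∈ J'.subgroupOf A from hj))
      (Subgroup.mem_map_of_mem f (show (⟨e, hE he⟩ : ↥A) ∈ E.subgroupOf A from he))
    rw [h0, Subgroup.mem_bot, ← map_commutatorElement] at h2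
    have h3 := congrArg Subtype.val h2
    refine ⟨⟨⁅j, e⁆, ?_⟩, (QuotientGroup.eq_one_iff _).mp h3, rfl⟩
    exact Cy.mul_mem (Cy.mul_mem (Cy.mul_mem (hJA hj).2 (hE he).2) (Cy.inv_mem (hJA hj).2))
      (Cy.inv_mem (hE he).2)


/-- Let G be a finite group whose generalized Fitting subgroup is a non-abelian simple group and in which every proper section (every quotient H/N of a proper subgroup H, or of G by a nontrivial normal subgroup) has the B-property. Let x, y be commuting involutions, let D be the intersection of the 2-layer of C_G(x) with C_G(y), and let J be a 2-component of D. Write Q for the quotient of C_G(y) by its largest normal odd-order subgroup. Then (i) the image of J in Q is a component of the centralizer in Q of the image of x; and (ii) for every J-invariant subgroup E of odd order of C_G(x) ∩ C_G(y), the commutator subgroup [J, E] lies in the largest normal odd-order subgroup of C_G(y). -/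
theorem result {G : Type*} [Group G] [Finite G]
    (hF : IsSimpleGroup ↥(Cfsg.generalizedFittingSubgroup G)) (hF' : ¬ IsMulCommutative ↥(Cfsg.generalizedFittingSubgroup G))
    (hsec : ∀ (H : Subgroup G) (N : Subgroup ↥H) [N.Normal], (H ≠ ⊤ ∨ N ≠ ⊥) → Cfsg.HasBProperty (↥H ⧸ N))
    (x y : G) (hx : orderOf x = 2) (hy : orderOf y = 2) (hxy : x * y = y * x)
    (J : Subgroup ↥((Cfsg.pLayer 2 ↥(Subgroup.centralizer ({x} : Set G))).map (Subgroup.centralizer ({x} : Set G)).subtype ⊓ Subgroup.centralizer ({y} : Set G)))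
    (hJ : Cfsg.IsPComponent 2 J) :
    Cfsg.IsComponent
        ((((J.map (Subgroup.subtype _)).subgroupOf (Subgroup.centralizer ({y} : Set G))).map (QuotientGroup.mk' (Cfsg.oddCore ↥(Subgroup.centralizer ({y} : Set G))))).subgroupOf
          (Subgroup.centralizer ({(QuotientGroup.mk' (Cfsg.oddCore ↥(Subgroup.centralizer ({y} : Set G))) ⟨x, Subgroup.mem_centralizer_singleton_iff.mpr hxy⟩ : ↥(Subgroup.centralizer ({y} : Set G)) ⧸ Cfsg.oddCore ↥(Subgroup.centralizer ({y} : Set G)))} : Set _))) ∧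
      ∀ E : Subgroup G, E ≤ Subgroup.centralizer ({x} : Set G) ⊓ Subgroup.centralizer ({y} : Set G) → Odd (Nat.card ↥E) →
        (∀ j ∈ J.map (Subgroup.subtype _), ∀ e ∈ E, j * e * j⁻¹ ∈ E) →
          ⁅J.map (Subgroup.subtype _), E⁆ ≤ (Cfsg.oddCore ↥(Subgroup.centralizer ({y} : Set G))).map (Subgroup.centralizer ({y} : Set G)).subtype := by
  have hxyC : x ∈ Subgroup.centralizer ({y} : Set G) := Subgroup.mem_centralizer_singleton_iff.mpr hxy
  have hyne : (Subgroup.centralizer ({y} : Set G)) ≠ ⊤ := by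
    intro htop
    have hyc : y ∈ Subgroup.center G := Subgroup.mem_center_iff.mpr fun g => by
      have : g ∈ (Subgroup.centralizer ({y} : Set G)) := htop ▸ Subgroup.mem_top g
      exact Subgroup.mem_centralizer_singleton_iff.mp this
    have hyF : y ∈ Cfsg.generalizedFittingSubgroup G :=
      CfsgLib.Cores.centralizer_generalizedFittingSubgroup_le (Subgroup.center_le_centralizer _ hyc)
    haveI := hF
    rcases (inferInstance : (Subgroup.center ↥(Cfsg.generalizedFittingSubgroup G)).Normal).eq_bot_or_eq_top with h | h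
    · have : (⟨y, hyF⟩ : ↥(Cfsg.generalizedFittingSubgroup G)) ∈ Subgroup.center _ :=
        Subgroup.mem_center_iff.mpr fun g => Subtype.ext (Subgroup.mem_center_iff.mp hyc g)
      rw [h, Subgroup.mem_bot] at this
      have hy1 : y = 1 := congrArg Subtype.val this
      rw [hy1, orderOf_one] at hy
      omega
    · exact hF' ⟨⟨fun a b => (Subgroup.mem_center_iff.mp (h ▸ Subgroup.mem_top b) a)⟩⟩
  refine aux x y hx hxyC (hsec _ _ (Or.inl hyne)) _ (inf_le_inf_right _ (Subgroup.map_subtype_le _)) ?_ J hJ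
  haveI : (((Cfsg.pLayer 2 ↥(Subgroup.centralizer ({x} : Set G))).map (Subgroup.centralizer ({x} : Set G)).subtype ⊓
      Subgroup.centralizer ({y} : Set G)).subgroupOf
      (Subgroup.centralizer ({x} : Set G) ⊓ Subgroup.centralizer ({y} : Set G))).Normal := ⟨fun d hd a => by
    obtain ⟨⟨l, hl, hle⟩, hdy⟩ := hd
    refine ⟨⟨⟨a, a.2.1⟩ * l * ⟨a, a.2.1⟩⁻¹,
      (CfsgLib.Signalizer.pLayer_normal 2 ↥(Subgroup.centralizer ({x} : Set G))).conj_mem l hl _, ?_⟩,
      Subgroup.mul_mem _ (Subgroup.mul_mem _ a.2.2 hdy) (Subgroup.inv_mem _ a.2.2)⟩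
    change (a : G) * (l : G) * (a : G)⁻¹ = (a : G) * (d : G) * (a : G)⁻¹
    rw [show (l : G) = (d : G) from hle]⟩
  exact Subgroup.Normal.isSubnormal inferInstance

end Cfsg.Agent.S1775
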