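import Cfsg.Statements.S1781
import Cfsg.Agent.Lib.ClassK.TI
import Cfsg.Agent.Lib.ClassK.Auto

set_option autoImplicit false
open Cfsg

namespace Cfsg.Agent.S1781

/-- Let A be an abelian 2-subgroup of the finite group G such that every conjugate of A equals A or meets A trivially, and let g ∈ G with g A g⁻¹ ≠ A. Then either the subgroup of those elements of A that normalize g A g⁻¹ is an elementary abelian 2-group, or A and g A g⁻¹ commute elementwise. -/
theorem result {G : Type*} [Group G] [Finite G] (A : Subgroup G)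
    (hA2 : IsPGroup 2 ↥A) (hAa : IsMulCommutative ↥A)
    (hti : ∀ h : G, A.map (MulAut.conj h).toMonoidHom = A ∨ A.map (MulAut.conj h).toMonoidHom ⊓ A = ⊥)
    (g : G) (hg : A.map (MulAut.conj g).toMonoidHom ≠ A) :
    Cfsg.IsElementaryAbelian 2 (A ⊓ Subgroup.normalizer ((A.map (MulAut.conj g).toMonoidHom : Subgroup G) : Set G)) ∨
      ⁅A, A.map (MulAut.conj g).toMonoidHom⁆ = ⊥ := by
  haveI : Fact (Nat.Prime 2) := ⟨Nat.prime_two⟩
  set A' := A.map (MulAut.conj g).toMonoidHom with hA'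
  have hdisj : A' ⊓ A = ⊥ := (hti g).resolve_left hg
  have hA'2 : IsPGroup 2 ↥A' := hA2.map _
  have hA'a : ∀ x ∈ A', ∀ y ∈ A', x * y = y * x := by
    rintro _ ⟨x, hx, rfl⟩ _ ⟨y, hy, rfl⟩
    have : (⟨x, hx⟩ : ↥A) * ⟨y, hy⟩ = ⟨y, hy⟩ * ⟨x, hx⟩ := mul_comm' _ _
    rw [← map_mul, ← map_mul, show x * y = y * x from congrArg Subtype.val this]
  by_cases hall : ∀ a ∈ A ⊓ Subgroup.normalizer (A' : Set G), a * a = 1
  · refine Or.inl ⟨⟨⟨fun x y => Subtype.ext ?_⟩⟩, fun a ha => by rw [sq]; exact hall a ha⟩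
    exact congrArg (Subtype.val : ↥A → G) (mul_comm' (⟨x, x.2.1⟩ : ↥A) ⟨y, y.2.1⟩)
  right
  push Not at hall
  obtain ⟨x, ⟨hxA, hxN⟩, hx2⟩ := hall
  -- every element of `A'` centralized by a nontrivial element of `A0` normalizes `A`
  have hN : ∀ v ∈ A', ∀ u ∈ A, u ≠ 1 → v * u = u * v → v ∈ Subgroup.normalizer (A : Set G) := by
    intro v _ u hu hu1 hc
    rw [← CfsgLib.ClassK.conjMap_eq_iff_mem_normalizer]
    refine (hti v).resolve_right fun h => hu1 ?_
    rw [← Subgroup.mem_bot, ← h]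
    refine ⟨⟨u, hu, ?_⟩, hu⟩
    simp [hc]
  have hB : ∀ v ∈ A', v ∈ Subgroup.normalizer (A : Set G) → v * x = x * v := by
    intro v hv hvN
    have : x * v * x⁻¹ * v⁻¹ ∈ A' ⊓ A := by
      refine ⟨A'.mul_mem ((Subgroup.mem_normalizer_iff.mp hxN v).mp hv) (A'.inv_mem hv), ?_⟩
      have h1 : v * x⁻¹ * v⁻¹ ∈ A := (Subgroup.mem_normalizer_iff.mp hvN x⁻¹).mp (A.inv_mem hxA)
      simpa [mul_assoc] using A.mul_mem hxA h1
    rw [hdisj, Subgroup.mem_bot, mul_inv_eq_one, mul_inv_eq_iff_eq_mul] at this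
    exact this.symm
  letI : CommGroup ↥A' :=
    { (inferInstance : Group ↥A') with mul_comm := fun u v => Subtype.ext (hA'a u u.2 v v.2) }
  let θ : MulAut ↥A' := Subgroup.normalizerMonoidHom A' ⟨x, hxN⟩
  have hθv : ∀ v : ↥A', ((θ v : ↥A') : G) = x * v * x⁻¹ := fun v => rfl
  have hord : ∃ k, θ ^ 2 ^ k = 1 := by
    obtain ⟨k, hk⟩ := (isPGroup_iff_pow_pow_eq_one.mp hA2) ⟨x, hxA⟩
    refine ⟨k, ?_⟩
    rw [← map_pow, ← map_one (Subgroup.normalizerMonoidHom A')]
    congr 1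
    exact Subtype.ext (congrArg (Subtype.val : ↥A → G) hk)
  have hfix : ∀ v : ↥A', θ (θ v) = v → θ v = v := by
    intro v hv
    have h1 : (v : G) * (x * x) = x * x * v := by
      have := congrArg Subtype.val hv
      rw [hθv, hθv] at this
      calc (v : G) * (x * x) = x * (x * v * x⁻¹) * x⁻¹ * (x * x) := by rw [this]
        _ = _ := by group
    have := hB v v.2 (hN v v.2 (x * x) (A.mul_mem hxA hxA) hx2 h1)
    apply Subtype.ext
    rw [hθv, ← this, mul_inv_cancel_right]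
  have htriv := CfsgLib.ClassK.eq_self_of_fixed_sq hA'2 θ hord hfix
  have hA'N : A' ≤ Subgroup.normalizer (A : Set G) := by
    intro v hv
    refine hN v hv x hxA (fun h => hx2 (by simp [h])) ?_
    have := congrArg Subtype.val (htriv ⟨v, hv⟩)
    rw [hθv] at this
    exact (mul_inv_eq_iff_eq_mul.mp this).symm
  refine CfsgLib.ClassK.commutator_eq_bot_of_ti_normalizes hA2 hA'2 (fun a _ => ?_) ?_
    (inf_comm A A' ▸ hdisj) hA'N
  · rw [hA', CfsgLib.ClassK.conjMap_conjMap]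
    have h := hti (g⁻¹ * (a * g))
    have heq : A.map (MulAut.conj (a * g)).toMonoidHom =
        (A.map (MulAut.conj (g⁻¹ * (a * g))).toMonoidHom).map (MulAut.conj g).toMonoidHom := by
      rw [CfsgLib.ClassK.conjMap_conjMap, mul_inv_cancel_left]
    rw [heq]
    rcases h with h | h
    · left; rw [h]
    · right
      rw [← Subgroup.map_inf _ _ _ (MulAut.conj g).injective, h, Subgroup.map_bot]
  · rw [CfsgLib.ClassK.card_conjMap]

end Cfsg.Agent.S1781
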