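import Cfsg.Statements.S1783
import Cfsg.Agent.Lib.ClassK.TI
import Cfsg.Agent.Lib.Cores.GenFitting
import Cfsg.Agent.Lib.CoprimeAction.Basic
import Cfsg.Agent.Lib.Fischer2.LargeExtraspecial

set_option autoImplicit false
open Cfsg

namespace Cfsg.Agent.S1783

theorem family_commute_subgroup {X : Type*} [Group X] [Finite X] {P : Subgroup X} (hP : IsPGroup 2 ↥P)
    (Δ : Set (Subgroup X)) (hle : ∀ R ∈ Δ, R ≤ P)
    (hinv : ∀ s ∈ P, ∀ R ∈ Δ, R.map (MulAut.conj s).toMonoidHom ∈ Δ)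
    (hsq : ∀ R ∈ Δ, ∃ x ∈ R, x ^ 2 ≠ 1) (hord : ∀ R ∈ Δ, ∀ T ∈ Δ, Nat.card ↥R = Nat.card ↥T)
    (hti : ∀ R ∈ Δ, ∀ T ∈ Δ, R = T ∨ R ⊓ T = ⊥) {R T : Subgroup X} (hR : R ∈ Δ) (hT : T ∈ Δ)
    (hne : R ≠ T) : ∀ a ∈ R, ∀ b ∈ T, a * b = b * a := by
  set Δ' : Set (Subgroup ↥P) := {U | U.map P.subtype ∈ Δ} with hΔ'
  have hmap : ∀ U ∈ Δ, (U.subgroupOf P).map P.subtype = U := fun U hU =>
    Subgroup.map_subgroupOf_eq_of_le (hle U hU)
  have hcomm := CfsgLib.ClassK.family_commute hP Δ' ?_ ?_ ?_ ?_ (R := R.subgroupOf P) (T := T.subgroupOf P)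
    (by show _ ∈ Δ; rw [hmap R hR]; exact hR) (by show _ ∈ Δ; rw [hmap T hT]; exact hT)
    (fun h => hne (by rw [← hmap R hR, ← hmap T hT, h]))
  · intro a ha b hb
    have := CfsgLib.ClassK.commute_of_commutator_eq_bot hcomm (a := ⟨a, hle R hR ha⟩)
      (b := ⟨b, hle T hT hb⟩) ha hb
    exact congrArg Subtype.val this
  · intro s U hU
    show _ ∈ Δ
    have : (U.map (MulAut.conj s).toMonoidHom).map P.subtype
        = (U.map P.subtype).map (MulAut.conj (s : X)).toMonoidHom := by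
      rw [Subgroup.map_map, Subgroup.map_map]; congr 1
    rw [this]
    exact hinv s s.2 _ hU
  · intro U hU
    obtain ⟨_, ⟨x, hx, rfl⟩, hx2⟩ := hsq _ hU
    exact ⟨x, hx, fun h => hx2 (by rw [← map_pow, h, map_one])⟩
  · intro U hU V hV
    have := hord _ hU _ hV
    rwa [Subgroup.card_map_of_injective P.subtype_injective,
      Subgroup.card_map_of_injective P.subtype_injective] at this
  · intro U hU V hV
    rcases hti _ hU _ hV with h | h
    · exact Or.inl (Subgroup.map_injective P.subtype_injective h)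
    · refine Or.inr (Subgroup.map_injective P.subtype_injective ?_)
      rw [Subgroup.map_inf _ _ _ P.subtype_injective, h, Subgroup.map_bot]

theorem squares_map {X : Type*} [Group X] (A : Subgroup X) (g : X) :
    (Subgroup.closure ((fun a : X => a ^ 2) '' (A : Set X))).map (MulAut.conj g).toMonoidHom =
      Subgroup.closure ((fun a : X => a ^ 2) '' ((A.map (MulAut.conj g).toMonoidHom : Subgroup X) : Set X)) := by
  rw [MonoidHom.map_closure]
  congr 1
  ext y
  constructor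
  · rintro ⟨_, ⟨a, ha, rfl⟩, rfl⟩
    exact ⟨_, ⟨a, ha, rfl⟩, (map_pow _ a 2).symm⟩
  · rintro ⟨_, ⟨a, ha, rfl⟩, rfl⟩
    exact ⟨_, ⟨a, ha, rfl⟩, map_pow _ a 2⟩


/-- Let X be a finite group whose generalized Fitting subgroup equals its largest normal 2-subgroup Q, and let A be an abelian 2-subgroup of X such that every conjugate of A equals A or meets A trivially. Let B be the subgroup generated by the squares of the elements of A. Then B lies in Q, and if B is not an elementary abelian 2-group then the normal closure of B in X is commutative. -/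
theorem result {X : Type*} [Group X] [Finite X]
    (hX : Cfsg.generalizedFittingSubgroup X = Cfsg.pCore 2 X) (A : Subgroup X) (hA2 : IsPGroup 2 ↥A) (hAa : IsMulCommutative ↥A)
    (hti : ∀ h : X, A.map (MulAut.conj h).toMonoidHom = A ∨ A.map (MulAut.conj h).toMonoidHom ⊓ A = ⊥) :
    Subgroup.closure ((fun a : X => a ^ 2) '' (A : Set X)) ≤ Cfsg.pCore 2 X ∧
      (¬ Cfsg.IsElementaryAbelian 2 (Subgroup.closure ((fun a : X => a ^ 2) '' (A : Set X))) →
        IsMulCommutative ↥(Subgroup.normalClosure ((fun a : X => a ^ 2) '' (A : Set X)))) := by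
  haveI : Fact (Nat.Prime 2) := ⟨Nat.prime_two⟩
  set Q : Subgroup X := Cfsg.pCore 2 X with hQdef
  have hQ2 : IsPGroup 2 ↥Q := CfsgLib.Cores.isPGroup_pCore 2 X
  have hCQ : Subgroup.centralizer (Q : Set X) ≤ Q := by
    have h := CfsgLib.Cores.centralizer_generalizedFittingSubgroup_le (G := X)
    rwa [hX] at h
  set N : Subgroup X := (frattini ↥Q).map Q.subtype with hN
  haveI : N.Normal := CfsgLib.Cores.normal_map_subtype Q _
  set K : Subgroup X := (Subgroup.centralizer ((Q.map (QuotientGroup.mk' N) : Subgroup (X ⧸ N)) : Set (X ⧸ N))).comap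
    (QuotientGroup.mk' N) with hK
  haveI : (Q.map (QuotientGroup.mk' N)).Normal :=
    Subgroup.Normal.map inferInstance _ (QuotientGroup.mk'_surjective N)
  haveI : K.Normal := by rw [hK]; infer_instance
  have hmemK : ∀ x : X, x ∈ K ↔ ∀ q ∈ Q, q * x * q⁻¹ * x⁻¹ ∈ N := by
    intro x
    rw [hK, Subgroup.mem_comap, Subgroup.mem_centralizer_iff]
    constructor
    · intro h q hq
      rw [← QuotientGroup.eq_one_iff]
      have := h _ ⟨q, hq, rfl⟩
      simp only [QuotientGroup.mk'_apply] at this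
      simp only [QuotientGroup.mk_mul, QuotientGroup.mk_inv, this]
      group
    · rintro h _ ⟨q, hq, rfl⟩
      have := (QuotientGroup.eq_one_iff _).mpr (h q hq)
      simp only [QuotientGroup.mk_mul, QuotientGroup.mk_inv] at this
      simp only [QuotientGroup.mk'_apply]
      rwa [mul_inv_eq_one, mul_inv_eq_iff_eq_mul] at this
  have hK2 : IsPGroup 2 ↥K := by
    refine IsPGroup.of_card (n := (Nat.card ↥K).primeFactorsList.length)
      (Nat.eq_prime_pow_of_unique_prime_dvd (Nat.card_pos.ne') ?_)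
    intro d hd hdvd
    haveI : Fact d.Prime := ⟨hd⟩
    by_contra hne
    obtain ⟨⟨x, hx⟩, hxord⟩ := exists_prime_orderOf_dvd_card' d hdvd
    rw [Subgroup.orderOf_mk] at hxord
    obtain ⟨m, hm⟩ := IsPGroup.iff_card.mp hQ2
    obtain ⟨m', hm'⟩ := IsPGroup.iff_card.mp (hQ2.to_subgroup (frattini ↥Q))
    have hxC : x ∈ Subgroup.centralizer (Q : Set X) := by
      refine CfsgLib.CoprimeAction.le_centralizer_of_frattini (A := Subgroup.zpowers x) (K := Q) ?_ ?_ ?_
        (Subgroup.mem_zpowers x)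
      · rw [Subgroup.normalizer_eq_top]; exact le_top
      · rw [Nat.card_zpowers, hxord, hm']
        exact Nat.Coprime.pow_right _ ((Nat.coprime_primes hd Nat.prime_two).mpr hne)
      · intro a ha q hq
        have := (hmemK a).mp ((Subgroup.zpowers_le.mpr hx) ha) q⁻¹ (Q.inv_mem hq)
        rw [← hN]
        simpa [mul_assoc, -Subgroup.mem_map] using this
    have h1 : orderOf x ∣ Nat.card ↥Q := by
      rw [← Subgroup.orderOf_mk x (hCQ hxC)]; exact orderOf_dvd_natCard _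
    rw [hxord, hm] at h1
    exact hne ((Nat.prime_dvd_prime_iff_eq hd Nat.prime_two).mp (hd.dvd_of_dvd_pow h1))
  have hKQ : K ≤ Q := CfsgLib.Cores.le_pCore hK2
  -- squares of elements of `A` act trivially on `Q / Φ(Q)`
  have hsqK : ∀ a ∈ A, a ^ 2 ∈ K := by
    intro a ha
    by_cases hall : ∀ b ∈ A, b ^ 2 = 1
    · rw [hall a ha]; exact K.one_mem
    push Not at hall
    obtain ⟨a₀, ha₀, ha₀'⟩ := hall
    have hP : IsPGroup 2 ↥(A ⊔ Q : Subgroup X) := IsPGroup.to_sup_of_normal_right hA2 hQ2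
    let Δ : Set (Subgroup X) := {U | ∃ s ∈ A ⊔ Q, U = A.map (MulAut.conj s).toMonoidHom}
    rw [hmemK]
    intro q hq
    have hqP : q ∈ A ⊔ Q := (le_sup_right : Q ≤ A ⊔ Q) hq
    have hcomm : a * (q * a * q⁻¹) = (q * a * q⁻¹) * a := by
      have hq' : q * a * q⁻¹ ∈ A.map (MulAut.conj q).toMonoidHom := ⟨a, ha, rfl⟩
      by_cases heq : A.map (MulAut.conj q).toMonoidHom = A
      · rw [heq] at hq'
        haveI := hAa
        exact congrArg Subtype.val (mul_comm' (⟨a, ha⟩ : ↥A) ⟨_, hq'⟩)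
      · refine family_commute_subgroup hP Δ ?_ ?_ ?_ ?_ ?_ (R := A) ⟨1, one_mem _, ?_⟩ ⟨q, hqP, rfl⟩
          (Ne.symm heq) a ha _ hq'
        · rintro _ ⟨s, hs, rfl⟩ _ ⟨b, hb, rfl⟩
          exact mul_mem (mul_mem hs ((le_sup_left : A ≤ A ⊔ Q) hb)) (inv_mem hs)
        · rintro s hs _ ⟨s', hs', rfl⟩
          exact ⟨s * s', mul_mem hs hs', CfsgLib.ClassK.conjMap_conjMap A s' s⟩
        · rintro _ ⟨s, _, rfl⟩
          refine ⟨_, ⟨a₀, ha₀, rfl⟩, fun h => ha₀' ?_⟩
          rw [← map_pow] at h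
          exact (MulAut.conj s).injective (h.trans (map_one _).symm)
        · rintro _ ⟨s, _, rfl⟩ _ ⟨s', _, rfl⟩
          rw [CfsgLib.ClassK.card_conjMap, CfsgLib.ClassK.card_conjMap]
        · rintro _ ⟨s, _, rfl⟩ _ ⟨s', _, rfl⟩
          have e : A.map (MulAut.conj s).toMonoidHom =
              (A.map (MulAut.conj (s'⁻¹ * s)).toMonoidHom).map (MulAut.conj s').toMonoidHom := by
            rw [CfsgLib.ClassK.conjMap_conjMap, mul_inv_cancel_left]
          rw [e]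
          rcases hti (s'⁻¹ * s) with h | h
          · left; rw [h]
          · right; rw [← Subgroup.map_inf _ _ _ (MulAut.conj s').injective, h, Subgroup.map_bot]
        · rw [CfsgLib.ClassK.conjMap_one]
    set c := q * a * q⁻¹ * a⁻¹ with hc
    have hcQ : c ∈ Q := by
      have : a * q⁻¹ * a⁻¹ ∈ Q := Subgroup.Normal.conj_mem inferInstance _ (Q.inv_mem hq) a
      simpa [hc, mul_assoc] using Q.mul_mem hq this
    have key : q * a ^ 2 * q⁻¹ * (a ^ 2)⁻¹ = c ^ 2 := by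
      have h2 : Commute (q * a * q⁻¹) a⁻¹ := (Commute.inv_left (hcomm : Commute a _)).symm
      calc q * a ^ 2 * q⁻¹ * (a ^ 2)⁻¹ = (q * a * q⁻¹) ^ 2 * (a⁻¹) ^ 2 := by
            rw [conj_pow, inv_pow]
        _ = c ^ 2 := by rw [hc, h2.mul_pow]
    rw [key, hN]
    exact ⟨⟨c, hcQ⟩ ^ 2, CfsgLib.Fischer2.sq_mem_frattini hQ2 _, rfl⟩
  have hBQ : Subgroup.closure ((fun a : X => a ^ 2) '' (A : Set X)) ≤ Q := by
    rw [Subgroup.closure_le]
    rintro _ ⟨a, ha, rfl⟩
    exact hKQ (hsqK a ha)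
  refine ⟨hBQ, fun hne => ?_⟩
  set B : Subgroup X := Subgroup.closure ((fun a : X => a ^ 2) '' (A : Set X)) with hB
  have hBA : B ≤ A := by
    rw [hB, Subgroup.closure_le]
    rintro _ ⟨a, ha, rfl⟩
    exact A.pow_mem ha 2
  have hBc : ∀ x ∈ B, ∀ y ∈ B, x * y = y * x := fun x hx y hy => by
    haveI := hAa
    exact congrArg Subtype.val (mul_comm' (⟨x, hBA hx⟩ : ↥A) ⟨y, hBA hy⟩)
  obtain ⟨b₀, hb₀, hb₀'⟩ : ∃ b ∈ B, b ^ 2 ≠ 1 := by
    by_contra h
    push Not at h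
    exact hne ⟨⟨⟨fun x y => Subtype.ext (hBc x x.2 y y.2)⟩⟩, h⟩
  let Δ : Set (Subgroup X) := {U | ∃ g : X, U = B.map (MulAut.conj g).toMonoidHom}
  have hΔle : ∀ U ∈ Δ, U ≤ Q := by
    rintro _ ⟨g, rfl⟩ _ ⟨b, hb, rfl⟩
    exact Subgroup.Normal.conj_mem (inferInstance : Q.Normal) b (hBQ hb) g
  have hΔti : ∀ U ∈ Δ, ∀ V ∈ Δ, U = V ∨ U ⊓ V = ⊥ := by
    rintro _ ⟨s, rfl⟩ _ ⟨s', rfl⟩
    have e : B.map (MulAut.conj s).toMonoidHom =
        (B.map (MulAut.conj (s'⁻¹ * s)).toMonoidHom).map (MulAut.conj s').toMonoidHom := by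
      rw [CfsgLib.ClassK.conjMap_conjMap, mul_inv_cancel_left]
    rw [e]
    rcases hti (s'⁻¹ * s) with h | h
    · left
      rw [hB, squares_map, h]
    · right
      rw [← Subgroup.map_inf _ _ _ (MulAut.conj s').injective]
      have : B.map (MulAut.conj (s'⁻¹ * s)).toMonoidHom ⊓ B = ⊥ :=
        le_bot_iff.mp ((inf_le_inf (Subgroup.map_mono hBA) hBA).trans h.le)
      rw [this, Subgroup.map_bot]
  refine Subgroup.isMulCommutative_closure fun x hx y hy => ?_
  rw [Group.mem_conjugatesOfSet_iff] at hx hy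
  obtain ⟨x₀, hx₀, hxc⟩ := hx
  obtain ⟨y₀, hy₀, hyc⟩ := hy
  obtain ⟨g, hg⟩ := isConj_iff.mp hxc
  obtain ⟨h, hh⟩ := isConj_iff.mp hyc
  have hxU : x ∈ B.map (MulAut.conj g).toMonoidHom := ⟨x₀, Subgroup.subset_closure hx₀, hg⟩
  have hyV : y ∈ B.map (MulAut.conj h).toMonoidHom := ⟨y₀, Subgroup.subset_closure hy₀, hh⟩
  by_cases heq : B.map (MulAut.conj g).toMonoidHom = B.map (MulAut.conj h).toMonoidHom
  · rw [← heq] at hyV
    obtain ⟨u, hu, rfl⟩ := hxU
    obtain ⟨v, hv, rfl⟩ := hyV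
    rw [← map_mul, ← map_mul, hBc u hu v hv]
  · refine family_commute_subgroup hQ2 Δ hΔle ?_ ?_ ?_ hΔti ⟨g, rfl⟩ ⟨h, rfl⟩ heq x hxU y hyV
    · rintro s _ _ ⟨s', rfl⟩
      exact ⟨s * s', CfsgLib.ClassK.conjMap_conjMap B s' s⟩
    · rintro _ ⟨s, rfl⟩
      refine ⟨_, ⟨b₀, hb₀, rfl⟩, fun h' => hb₀' ?_⟩
      rw [← map_pow] at h'
      exact (MulAut.conj s).injective (h'.trans (map_one _).symm)
    · rintro _ ⟨s, rfl⟩ _ ⟨s', rfl⟩
      rw [CfsgLib.ClassK.card_conjMap, CfsgLib.ClassK.card_conjMap]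

end Cfsg.Agent.S1783
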