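import Cfsg.Statements.S1784
import Cfsg.Agent.Lib.ClassK.Extraspecial
import Cfsg.Agent.Lib.ClassK.FStarCentralizer

set_option autoImplicit false
open Cfsg

namespace Cfsg.Agent.S1784

theorem main {G : Type*} [Group G] [Finite G] {z α : G} {Q Q₀ : Subgroup G}
    (hE : Cfsg.IsExtraspecial 2 ↥Q) (hzQ : z ∈ Q) (hz : orderOf z = 2)
    (hQz : Q ≤ Subgroup.centralizer ({z} : Set G)) (hCQ : Subgroup.centralizer (Q : Set G) ≤ Q)
    (hαn : ∀ q ∈ Q, α * q * α⁻¹ ∈ Q)
    (hα : orderOf α = 2) (hαz : α * z = z * α) (hαQ : α ∉ Q)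
    (hQ₀ : ∀ q : G, q ∈ Q₀ ↔ (q ∈ Q ∧ α * q * α⁻¹ * q⁻¹ ∈ Subgroup.zpowers z)) :
    Subgroup.closure ((fun q : G => α * q * α⁻¹ * q⁻¹) '' (Q : Set G)) = (Subgroup.center ↥Q₀).map Q₀.subtype ∧
      (¬ Q₀ ≤ (Q ⊓ Subgroup.centralizer ({α} : Set G)) ⊔ Subgroup.zpowers z →
        ∃ q ∈ Q, q * α * q⁻¹ = α * z) := by
  have hz1 : z ≠ 1 := by intro h; rw [h, orderOf_one] at hz; omega
  have hzz : z * z = 1 := by rw [← sq, ← hz]; exact pow_orderOf_eq_one z
  have hαα : α * α = 1 := by rw [← sq, ← hα]; exact pow_orderOf_eq_one α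
  have hαi : α⁻¹ = α := inv_eq_of_mul_eq_one_right hαα
  set Z : Subgroup G := (Subgroup.center ↥Q).map Q.subtype with hZ
  have hZcard : Nat.card ↥Z = 2 := CfsgLib.Fischer2.IsExtraspecial.card_centerImage hE
  have hzcomm : ∀ q ∈ Q, q * z = z * q := fun q hq =>
    Subgroup.mem_centralizer_singleton_iff.mp (hQz hq)
  have hzZ : z ∈ Z := (CfsgLib.Fischer2.mem_centerImage_iff Q z).mpr ⟨hzQ, fun y hy => (hzcomm y hy).symm⟩
  have hZmem : ∀ x, x ∈ Z ↔ x = 1 ∨ x = z := fun x => by
    refine ⟨CfsgLib.Fischer2.eq_one_or_eq_of_card_two hZcard hzZ hz1, ?_⟩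
    rintro (rfl | rfl)
    · exact Z.one_mem
    · exact hzZ
  have hZzp : Subgroup.zpowers z = Z := by
    refine Subgroup.eq_of_le_of_card_ge (Subgroup.zpowers_le.mpr hzZ) ?_
    rw [hZcard, Nat.card_zpowers, hz]
  simp only [hZzp] at hQ₀ ⊢
  have hcmem : ∀ a ∈ Q, ∀ b ∈ Q, a * b * a⁻¹ = b ∨ a * b * a⁻¹ = z * b := fun a ha b hb =>
    CfsgLib.Fischer2.IsExtraspecial.conj_eq_or hE hzZ hz1 hb ha
  set δ : G → G := fun q => α * q * α⁻¹ * q⁻¹ with hδ
  have hδQ : ∀ q ∈ Q, δ q ∈ Q := fun q hq => Q.mul_mem (hαn q hq) (Q.inv_mem hq)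
  set D : Subgroup G := Subgroup.closure (δ '' (Q : Set G)) with hD
  have hDQ : D ≤ Q := by
    rw [hD, Subgroup.closure_le]
    rintro _ ⟨q, hq, rfl⟩
    exact hδQ q hq
  have hDmem : ∀ q ∈ Q, δ q ∈ D := fun q hq => Subgroup.subset_closure ⟨q, hq, rfl⟩
  -- `z ∈ D`
  have hzD : z ∈ D := by
    by_contra hzD
    -- then every generator commutes with `Q`
    have hcen : ∀ q ∈ Q, δ q ∈ Z := by
      intro q hq
      refine (CfsgLib.Fischer2.mem_centerImage_iff Q _).mpr ⟨hδQ q hq, fun y hy => ?_⟩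
      have hmem : y * δ q * y⁻¹ ∈ D := by
        have : y * δ q * y⁻¹ = (δ y)⁻¹ * δ (y * q) := by simp only [hδ]; group
        rw [this]
        exact D.mul_mem (D.inv_mem (hDmem y hy)) (hDmem _ (Q.mul_mem hy hq))
      rcases hcmem y hy _ (hδQ q hq) with h | h
      · exact (mul_inv_eq_iff_eq_mul.mp h).symm
      · exfalso
        rw [h] at hmem
        exact hzD (by simpa using D.mul_mem hmem (D.inv_mem (hDmem q hq)))
    refine hαQ (hCQ (Subgroup.mem_centralizer_iff.mpr fun q hq => ?_))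
    rcases (hZmem _).mp (hcen q hq) with h | h
    · exact (mul_inv_eq_iff_eq_mul.mp (mul_inv_eq_one.mp h)).symm
    · exact absurd (h ▸ hDmem q hq) hzD
  have hZD : Z ≤ D := fun x hx => by
    rcases (hZmem x).mp hx with rfl | rfl
    · exact D.one_mem
    · exact hzD
  -- `α` fixes commutators
  have hαc : ∀ a ∈ Q, ∀ b ∈ Q, a * b = b * a ↔ (α * a * α⁻¹) * (α * b * α⁻¹) = (α * b * α⁻¹) * (α * a * α⁻¹) := by
    intro a _ b _
    constructor
    · intro h
      calc α * a * α⁻¹ * (α * b * α⁻¹) = α * (a * b) * α⁻¹ := by group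
        _ = _ := by rw [h]; group
    · intro h
      calc a * b = α⁻¹ * (α * a * α⁻¹ * (α * b * α⁻¹)) * α := by group
        _ = b * a := by rw [h]; group
  -- `C_Q(D) = Q₀`
  have hCD : Q ⊓ Subgroup.centralizer (D : Set G) = Q₀ := by
    ext x
    rw [hQ₀, Subgroup.mem_inf]
    refine and_congr_right fun hx => ⟨fun h => ?_, fun h => ?_⟩
    · have hx' := hαn x hx
      refine (CfsgLib.Fischer2.mem_centerImage_iff Q _).mpr ⟨hδQ x hx, fun y hy => ?_⟩
      -- compare `[y^α, x]` and `[y, x]`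
      have hy' := hαn y hy
      have hd : δ y * x = x * δ y := (Subgroup.mem_centralizer_iff.mp h (δ y) (hDmem y hy))
      have hyy : α * y * α⁻¹ = δ y * y := by simp only [hδ]; group
      have e : (α * y * α⁻¹) * x * (α * y * α⁻¹)⁻¹ = y * x * y⁻¹ := by
        rw [hyy]
        rcases hcmem y hy x hx with c | c
        · calc δ y * y * x * (δ y * y)⁻¹ = δ y * (y * x * y⁻¹) * (δ y)⁻¹ := by group
            _ = _ := by rw [c, hd]; group
        · calc δ y * y * x * (δ y * y)⁻¹ = δ y * (y * x * y⁻¹) * (δ y)⁻¹ := by group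
            _ = (δ y * z) * x * (δ y)⁻¹ := by rw [c]; group
            _ = z * (δ y * x) * (δ y)⁻¹ := by rw [hzcomm _ (hδQ y hy), mul_assoc z]
            _ = _ := by rw [hd, c]; group
      have e2 : y * (α * x * α⁻¹) * y⁻¹ = (δ x) * (y * x * y⁻¹) := by
        have : α * ((α * y * α⁻¹) * x * (α * y * α⁻¹)⁻¹) * α⁻¹ = α * (y * x * y⁻¹) * α⁻¹ := by rw [e]
        have hy2 : α * (α * y * α⁻¹) * α⁻¹ = y := by rw [hαi]; simp [mul_assoc, hαα, ← mul_assoc α α]
        have l : α * ((α * y * α⁻¹) * x * (α * y * α⁻¹)⁻¹) * α⁻¹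
            = (α * (α * y * α⁻¹) * α⁻¹) * (α * x * α⁻¹) * (α * (α * y * α⁻¹) * α⁻¹)⁻¹ := by group
        rw [l, hy2] at this
        rw [this]
        rcases hcmem y hy x hx with c | c
        · rw [c]; simp only [hδ]; group
        · rw [c]
          calc α * (z * x) * α⁻¹ = (α * z) * x * α⁻¹ := by group
            _ = z * (α * x * α⁻¹) := by rw [hαz]; group
            _ = z * δ x * x := by simp only [hδ]; group
            _ = δ x * (z * x) := by rw [← hzcomm _ (hδQ x hx), mul_assoc]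
      have e3 : y * δ x * y⁻¹ = δ x := by
        calc y * δ x * y⁻¹ = (y * (α * x * α⁻¹) * y⁻¹) * (y * x * y⁻¹)⁻¹ := by simp only [hδ]; group
          _ = δ x := by rw [e2]; group
      exact (mul_inv_eq_iff_eq_mul.mp e3).symm
    · rw [Subgroup.mem_centralizer_iff]
      intro d hd
      have hle : D ≤ Subgroup.centralizer ({x} : Set G) := by
        rw [hD, Subgroup.closure_le]
        rintro _ ⟨y, hy, rfl⟩
        rw [SetLike.mem_coe, Subgroup.mem_centralizer_singleton_iff]
        -- `x^α ∈ x Z`, so `[y^α, x] = [y, x]`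
        have hzc : ∀ w ∈ Q, δ x * w = w * δ x := fun w hw =>
          ((CfsgLib.Fischer2.mem_centerImage_iff Q _).mp h).2 w hw
        have hxx : α * x * α⁻¹ = δ x * x := by simp only [hδ]; group
        have hy' := hαn y hy
        rw [← mul_inv_eq_iff_eq_mul]
        have e : (α * y * α⁻¹) * x * (α * y * α⁻¹)⁻¹ = y * x * y⁻¹ := by
          have e1 : (α * y * α⁻¹) * (α * x * α⁻¹) * (α * y * α⁻¹)⁻¹ = δ x * ((α * y * α⁻¹) * x * (α * y * α⁻¹)⁻¹) := by
            rw [hxx, ← mul_assoc _ (δ x) x, ← hzc _ hy']; group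
          have e2 : (α * y * α⁻¹) * (α * x * α⁻¹) * (α * y * α⁻¹)⁻¹ = δ x * (y * x * y⁻¹) := by
            calc _ = α * (y * x * y⁻¹) * α⁻¹ := by group
              _ = _ := by
                rcases hcmem y hy x hx with c | c
                · rw [c, hxx]
                · rw [c]
                  calc α * (z * x) * α⁻¹ = (α * z) * x * α⁻¹ := by group
                    _ = z * (α * x * α⁻¹) := by rw [hαz]; group
                    _ = (z * δ x) * x := by rw [hxx]; group
                    _ = δ x * (z * x) := by rw [← hzc z hzQ, mul_assoc]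
          exact mul_left_cancel (e1.symm.trans e2)
        rcases hcmem y hy x hx with c | c
        · calc δ y * x * (δ y)⁻¹ = (α * y * α⁻¹) * (y⁻¹ * (y * x * y⁻¹) * y) * (α * y * α⁻¹)⁻¹ * 1 := by
                simp only [hδ]
                have : y⁻¹ * x * y = x := by
                  calc y⁻¹ * x * y = y⁻¹ * (y * x * y⁻¹) * y := by rw [c]
                    _ = x := by group
                calc α * y * α⁻¹ * y⁻¹ * x * (α * y * α⁻¹ * y⁻¹)⁻¹
                    = α * y * α⁻¹ * (y⁻¹ * x * y) * (α * y * α⁻¹)⁻¹ := by group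
                  _ = _ := by rw [this]; group
            _ = (α * y * α⁻¹) * x * (α * y * α⁻¹)⁻¹ := by group
            _ = x := by rw [e, c]
        · have c' : y⁻¹ * x * y = z * x := by
            calc y⁻¹ * x * y = y⁻¹ * (z * (z * x)) * y := by rw [← mul_assoc z z, hzz, one_mul]
              _ = y⁻¹ * (z * (y * x * y⁻¹)) * y := by rw [c]
              _ = y⁻¹ * (z * y) * x := by group
              _ = y⁻¹ * (y * z) * x := by rw [hzcomm y hy]
              _ = z * x := by group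
          calc δ y * x * (δ y)⁻¹ = (α * y * α⁻¹) * (y⁻¹ * x * y) * (α * y * α⁻¹)⁻¹ := by simp only [hδ]; group
            _ = ((α * y * α⁻¹) * z) * x * (α * y * α⁻¹)⁻¹ := by rw [c']; group
            _ = z * ((α * y * α⁻¹) * x * (α * y * α⁻¹)⁻¹) := by rw [hzcomm _ hy']; group
            _ = x := by rw [e, c, ← mul_assoc, hzz, one_mul]
      exact Subgroup.mem_centralizer_singleton_iff.mp (hle hd)
  have hDQ₀ : D ≤ Q₀ := by
    rw [hD, Subgroup.closure_le]
    rintro _ ⟨q, hq, rfl⟩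
    rw [SetLike.mem_coe, hQ₀]
    refine ⟨hδQ q hq, ?_⟩
    have e : α * δ q * α⁻¹ * (δ q)⁻¹ = ((δ q) ^ 2)⁻¹ := by
      have h1 : α * δ q * α⁻¹ = (δ q)⁻¹ := by
        simp only [hδ, mul_inv_rev, inv_inv, hαi]
        simp [mul_assoc, ← mul_assoc α α, hαα]
      rw [h1]; group
    rw [e]
    exact Z.inv_mem (CfsgLib.Fischer2.IsExtraspecial.sq_mem hE (hδQ q hq))
  refine ⟨?_, fun hne => ?_⟩
  · have h2 := CfsgLib.ClassK.inf_centralizer_inf_centralizer hE hZD hDQ
    rw [hCD] at h2
    ext x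
    rw [CfsgLib.Fischer2.mem_centerImage_iff]
    constructor
    · intro hx
      have hx2 : x ∈ Q ⊓ Subgroup.centralizer (Q₀ : Set G) := h2.symm ▸ hx
      exact ⟨hDQ₀ hx, fun y hy => (Subgroup.mem_centralizer_iff.mp hx2.2 y hy).symm⟩
    · rintro ⟨hx, hc⟩
      rw [← h2]
      exact ⟨((hQ₀ x).mp hx).1, Subgroup.mem_centralizer_iff.mpr fun y hy => (hc y hy).symm⟩
  · obtain ⟨q, hq, hqn⟩ := SetLike.not_le_iff_exists.mp hne
    obtain ⟨hqQ, hqz⟩ := (hQ₀ q).mp hq
    rcases (hZmem _).mp hqz with h | h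
    · exfalso
      refine hqn ((le_sup_left : Q ⊓ Subgroup.centralizer ({α} : Set G) ≤ _) ⟨hqQ, ?_⟩)
      exact Subgroup.mem_centralizer_singleton_iff.mpr (mul_inv_eq_iff_eq_mul.mp (mul_inv_eq_one.mp h)).symm
    · refine ⟨q, hqQ, ?_⟩
      rw [mul_inv_eq_iff_eq_mul, mul_inv_eq_iff_eq_mul] at h
      -- `α q = z q α`
      have h' : α * q = z * q * α := h
      calc q * α * q⁻¹ = z * (z * q * α) * q⁻¹ := by rw [← mul_assoc z (z * q), ← mul_assoc z z, hzz, one_mul]
        _ = z * α := by rw [← h']; group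
        _ = α * z := hαz.symm


/-- Let G be a finite group and let z be an involution of G such that Q, the generalized Fitting subgroup of the centralizer C of z, is a 2-group of symplectic type (every characteristic abelian subgroup of Q is cyclic); suppose Q is extraspecial, and view Q inside G. Let α be an involution of C that is not in Q, and let Q₀ be the subgroup of those q ∈ Q whose commutator with α lies in the subgroup generated by z. Then (a) the subgroup generated by the commutators α q α⁻¹ q⁻¹, q ∈ Q, equals the centre of Q₀; and (b) if Q₀ is not contained in the product of the centralizer of α in Q with the subgroup generated by z, then some element of Q conjugates α to α z. -/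
theorem result {G : Type*} [Group G] [Finite G] (z : G) (hz : orderOf z = 2) (hQ : Cfsg.IsOfSymplecticType ↥(Cfsg.generalizedFittingSubgroup ↥(Subgroup.centralizer ({z} : Set G)))) (hE : Cfsg.IsExtraspecial 2 ↥(Cfsg.generalizedFittingSubgroup ↥(Subgroup.centralizer ({z} : Set G))))
    (α : G) (hα : orderOf α = 2) (hαC : α ∈ Subgroup.centralizer ({z} : Set G)) (hαQ : α ∉ (Cfsg.generalizedFittingSubgroup ↥(Subgroup.centralizer ({z} : Set G))).map (Subgroup.centralizer ({z} : Set G)).subtype)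
    (Q₀ : Subgroup G) (hQ₀ : ∀ q : G, q ∈ Q₀ ↔ (q ∈ (Cfsg.generalizedFittingSubgroup ↥(Subgroup.centralizer ({z} : Set G))).map (Subgroup.centralizer ({z} : Set G)).subtype ∧ α * q * α⁻¹ * q⁻¹ ∈ Subgroup.zpowers z)) :
    Subgroup.closure ((fun q : G => α * q * α⁻¹ * q⁻¹) '' ((Cfsg.generalizedFittingSubgroup ↥(Subgroup.centralizer ({z} : Set G))).map (Subgroup.centralizer ({z} : Set G)).subtype : Set G)) = (Subgroup.center ↥Q₀).map Q₀.subtype ∧
      (¬ Q₀ ≤ ((Cfsg.generalizedFittingSubgroup ↥(Subgroup.centralizer ({z} : Set G))).map (Subgroup.centralizer ({z} : Set G)).subtype ⊓ Subgroup.centralizer ({α} : Set G)) ⊔ Subgroup.zpowers z →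
        ∃ q ∈ (Cfsg.generalizedFittingSubgroup ↥(Subgroup.centralizer ({z} : Set G))).map (Subgroup.centralizer ({z} : Set G)).subtype, q * α * q⁻¹ = α * z) := by
  exact main (CfsgLib.ClassK.isExtraspecial_fStarCentralizer hE)
    (CfsgLib.ClassK.mem_fStarCentralizer_self z) hz (CfsgLib.ClassK.fStarCentralizer_le_centralizer z)
    (CfsgLib.ClassK.centralizer_fStarCentralizer_le z)
    (fun q hq => CfsgLib.ClassK.conj_mem_fStarCentralizer hαC hq)
    hα (Subgroup.mem_centralizer_singleton_iff.mp hαC) hαQ hQ₀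

end Cfsg.Agent.S1784
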