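import Cfsg.Statements.S1785

set_option autoImplicit false
open Cfsg

namespace Cfsg.Agent.S1785

variable {X : Type*} [Group X] [Finite X]

theorem ea_comm {A : Subgroup X} (h : Cfsg.IsElementaryAbelian 2 A) {a b : X} (ha : a ∈ A) (hb : b ∈ A) :
    a * b = b * a := by
  haveI := h.1
  exact congrArg Subtype.val (mul_comm' (⟨a, ha⟩ : ↥A) ⟨b, hb⟩)

theorem ea_sup {A B : Subgroup X} (hA : Cfsg.IsElementaryAbelian 2 A) (hB : Cfsg.IsElementaryAbelian 2 B)
    (h : ∀ a ∈ A, ∀ b ∈ B, a * b = b * a) : Cfsg.IsElementaryAbelian 2 (A ⊔ B) := by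
  have hA' : A ≤ Subgroup.centralizer (B : Set X) := fun a ha =>
    Subgroup.mem_centralizer_iff.mpr fun b hb => (h a ha b hb).symm
  have hmem : ∀ x ∈ A ⊔ B, ∃ a ∈ A, ∃ b ∈ B, x = a * b := by
    intro x hx
    have hx' : x ∈ ((A ⊔ B : Subgroup X) : Set X) := hx
    rw [Subgroup.coe_mul_of_left_le_normalizer_right A B
      (hA'.trans (Subgroup.centralizer_le_normalizer (B : Set X)))] at hx'
    obtain ⟨a, ha, b, hb, rfl⟩ := hx'
    exact ⟨a, ha, b, hb, rfl⟩
  refine ⟨⟨⟨fun x y => Subtype.ext ?_⟩⟩, fun x hx => ?_⟩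
  · obtain ⟨a, ha, b, hb, hx⟩ := hmem x x.2
    obtain ⟨a', ha', b', hb', hy⟩ := hmem y y.2
    have c1 : Commute a a' := ea_comm hA ha ha'
    have c2 : Commute b b' := ea_comm hB hb hb'
    have c3 : Commute a b' := h a ha b' hb'
    have c4 : Commute b a' := (h a' ha' b hb).symm
    change (x : X) * y = y * x
    rw [hx, hy]
    exact (c1.mul_right c3).mul_left (c4.mul_right c2)
  · obtain ⟨a, ha, b, hb, rfl⟩ := hmem x hx
    rw [Commute.mul_pow (h a ha b hb), hA.2 a ha, hB.2 b hb, one_mul]

theorem ea_mono {A B : Subgroup X} (hB : Cfsg.IsElementaryAbelian 2 B) (h : A ≤ B) :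
    Cfsg.IsElementaryAbelian 2 A :=
  ⟨⟨⟨fun x y => Subtype.ext (ea_comm hB (h x.2) (h y.2))⟩⟩, fun a ha => hB.2 a (h ha)⟩

/-- The fixed points of an involution on an invariant elementary abelian group contain at least half of the rank. -/
theorem card_le_sq {C : Subgroup X} (hC : Cfsg.IsElementaryAbelian 2 C) {v : X} (hv : v * v = 1)
    (hN : ∀ c ∈ C, v * c * v ∈ C) :
    Nat.card ↥C ≤ Nat.card ↥(C ⊓ Subgroup.centralizer ({v} : Set X) : Subgroup X) ^ 2 := by
  set K : Subgroup X := C ⊓ Subgroup.centralizer ({v} : Set X) with hK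
  have hmemK : ∀ c : X, c ∈ K ↔ c ∈ C ∧ c * v = v * c := fun c => by
    rw [hK, Subgroup.mem_inf, Subgroup.mem_centralizer_singleton_iff]
  let f : ↥C →* ↥C :=
    { toFun := fun c => ⟨v * c * v * c, C.mul_mem (hN c c.2) c.2⟩
      map_one' := Subtype.ext (by simp [hv])
      map_mul' := fun c d => Subtype.ext (by
        have h2 : (c : X) * (v * d * v) = (v * d * v) * c := ea_comm hC c.2 (hN d d.2)
        calc v * ((c : X) * d) * v * (c * d)
            = v * c * (v * v) * d * v * (c * d) := by rw [hv, mul_one]; group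
          _ = (v * c * v) * ((v * d * v) * c) * d := by group
          _ = (v * c * v) * (c * (v * d * v)) * d := by rw [h2]
          _ = (v * c * v * c) * (v * d * v * d) := by group) }
  have hker : ∀ c : ↥C, f c = 1 → (c : X) ∈ K := by
    intro c hc
    refine (hmemK _).mpr ⟨c.2, ?_⟩
    have h1 : v * c * v * c = 1 := congrArg Subtype.val hc
    calc (c : X) * v = v * (v * c * v) * c * c⁻¹ := by group; simp [← mul_assoc, sq, hv]
      _ = v * ((c : X))⁻¹ := by rw [mul_assoc v _ (c : X), h1, mul_one]; rfl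
      _ = v * c := by
          rw [inv_eq_of_mul_eq_one_right (show (c : X) * c = 1 by rw [← sq]; exact hC.2 c c.2)]
  have hrange : ∀ d : ↥C, d ∈ f.range → (d : X) ∈ K := by
    rintro d ⟨c, rfl⟩
    refine (hmemK _).mpr ⟨(f c).2, ?_⟩
    have h2 : (c : X) * (v * c * v) = (v * c * v) * c := ea_comm hC c.2 (hN c c.2)
    change v * c * v * c * v = v * (v * c * v * c)
    calc v * c * v * c * v = (v * c * v * c) * v := rfl
      _ = ((c : X) * (v * c * v)) * v := by rw [h2]
      _ = (c : X) * v * c * (v * v) := by group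
      _ = (v * v) * c * v * c := by rw [hv, mul_one, one_mul]
      _ = v * (v * c * v * c) := by group
  have hker' : Nat.card ↥f.ker ≤ Nat.card ↥K :=
    Nat.card_le_card_of_injective (fun c => (⟨((c : ↥C) : X), hker c c.2⟩ : ↥K))
      (fun a b h => Subtype.ext (Subtype.ext (congrArg (Subtype.val : ↥K → X) h)))
  have hrange' : Nat.card ↥f.range ≤ Nat.card ↥K :=
    Nat.card_le_card_of_injective (fun c => (⟨((c : ↥C) : X), hrange c c.2⟩ : ↥K))
      (fun a b h => Subtype.ext (Subtype.ext (congrArg (Subtype.val : ↥K → X) h)))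
  calc Nat.card ↥C = Nat.card ↥f.ker * Nat.card ↥f.range := by
        rw [← f.ker.card_mul_index, Subgroup.index_ker]
    _ ≤ _ := by rw [sq]; exact Nat.mul_le_mul hker' hrange'

theorem pow_cases (k : ℕ) : 2 ^ k = 1 ∨ 2 ^ k = 2 ∨ 2 ^ k = 4 ∨ 2 ^ k = 8 ∨ 16 ≤ 2 ^ k := by
  by_cases h : k ≤ 3
  · interval_cases k <;> simp
  · right; right; right; right
    exact show 2 ^ 4 ≤ 2 ^ k from Nat.pow_le_pow_right (by norm_num) (by omega)

theorem two_pow_card (hX : IsPGroup 2 X) (A : Subgroup X) : ∃ k, Nat.card ↥A = 2 ^ k :=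
  haveI : Fact (Nat.Prime 2) := ⟨Nat.prime_two⟩
  IsPGroup.iff_card.mp (hX.to_subgroup A)

theorem eight_le_inf_centralizer (hX : IsPGroup 2 X) {E : Subgroup X} [E.Normal]
    (hE : Cfsg.IsElementaryAbelian 2 E) (hE32 : 32 ≤ Nat.card ↥E) {v : X} (hv : v * v = 1) :
    8 ≤ Nat.card ↥(E ⊓ Subgroup.centralizer ({v} : Set X) : Subgroup X) := by
  have h := card_le_sq hE hv (fun c hc => by
    have := Subgroup.Normal.conj_mem (inferInstance : E.Normal) c hc v
    rwa [inv_eq_of_mul_eq_one_right hv] at this)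
  obtain ⟨k, hk⟩ := two_pow_card hX (E ⊓ Subgroup.centralizer ({v} : Set X))
  rw [hk] at h ⊢
  rcases k with _ | _ | _ | k
  · norm_num at h; omega
  · norm_num at h; omega
  · norm_num at h; omega
  · exact show 2 ^ 3 ≤ 2 ^ (k + 3) from Nat.pow_le_pow_right (by norm_num) (by omega)

/-- A four-group centralizes at least four elements of `E`. -/
theorem four_le_inf_centralizer (hX : IsPGroup 2 X) {E : Subgroup X} [E.Normal]
    (hE : Cfsg.IsElementaryAbelian 2 E) (hE32 : 32 ≤ Nat.card ↥E) {V : Subgroup X}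
    (hV : Cfsg.IsElementaryAbelian 2 V) (hV4 : Nat.card ↥V = 4) :
    4 ≤ Nat.card ↥(E ⊓ Subgroup.centralizer (V : Set X) : Subgroup X) := by
  obtain ⟨v₁, hv₁, hv₁1⟩ : ∃ v ∈ V, v ≠ 1 := by
    by_contra h; push Not at h
    have : V = ⊥ := (Subgroup.eq_bot_iff_forall V).mpr h
    rw [this, Subgroup.card_bot] at hV4; omega
  have hz : Nat.card ↥(Subgroup.zpowers v₁) = 2 := by
    rw [Nat.card_zpowers, orderOf_eq_prime (hV.2 v₁ hv₁) hv₁1]
  obtain ⟨v₂, hv₂, hv₂n⟩ : ∃ v ∈ V, v ∉ Subgroup.zpowers v₁ := by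
    by_contra h; push Not at h
    have := Subgroup.card_le_of_le h
    omega
  have hgen : Subgroup.zpowers v₁ ⊔ Subgroup.zpowers v₂ = V := by
    refine Subgroup.eq_of_le_of_card_ge (sup_le (Subgroup.zpowers_le.mpr hv₁) (Subgroup.zpowers_le.mpr hv₂)) ?_
    obtain ⟨k, hk⟩ := Subgroup.card_dvd_of_le
      (le_sup_left : Subgroup.zpowers v₁ ≤ Subgroup.zpowers v₁ ⊔ Subgroup.zpowers v₂)
    rw [hz] at hk
    have hk1 : k ≠ 1 := by
      rintro rfl
      refine hv₂n ?_
      rw [Subgroup.eq_of_le_of_card_ge (le_sup_left : Subgroup.zpowers v₁ ≤ Subgroup.zpowers v₁ ⊔ Subgroup.zpowers v₂) (by omega)]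
      exact (le_sup_right : Subgroup.zpowers v₂ ≤ _) (Subgroup.mem_zpowers v₂)
    have hk0 : 0 < Nat.card ↥(Subgroup.zpowers v₁ ⊔ Subgroup.zpowers v₂ : Subgroup X) := Nat.card_pos
    omega
  have h1 := eight_le_inf_centralizer hX hE hE32 (v := v₁) (by rw [← sq]; exact hV.2 v₁ hv₁)
  set C₁ := E ⊓ Subgroup.centralizer ({v₁} : Set X) with hC₁
  have hv2i : v₂⁻¹ = v₂ := inv_eq_of_mul_eq_one_right (by rw [← sq]; exact hV.2 v₂ hv₂)
  have h2 := card_le_sq (C := C₁) (ea_mono hE (inf_le_left : C₁ ≤ E)) (v := v₂) (by rw [← sq]; exact hV.2 v₂ hv₂)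
    (fun c hc => ⟨by
        have := Subgroup.Normal.conj_mem (inferInstance : E.Normal) c hc.1 v₂
        rwa [hv2i] at this, by
        have c1 : Commute c v₁ := Subgroup.mem_centralizer_singleton_iff.mp hc.2
        have c2 : Commute v₂ v₁ := ea_comm hV hv₂ hv₁
        exact Subgroup.mem_centralizer_singleton_iff.mpr ((c2.mul_left c1).mul_left c2)⟩)
  have hle : C₁ ⊓ Subgroup.centralizer ({v₂} : Set X) ≤ E ⊓ Subgroup.centralizer (V : Set X) := by
    intro x hx
    refine ⟨hx.1.1, ?_⟩
    rw [← hgen]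
    refine Subgroup.mem_centralizer_iff.mpr fun y hy => ?_
    have : Subgroup.zpowers v₁ ⊔ Subgroup.zpowers v₂ ≤ Subgroup.centralizer ({x} : Set X) :=
      sup_le (Subgroup.zpowers_le.mpr (Subgroup.mem_centralizer_singleton_iff.mpr
        (Subgroup.mem_centralizer_singleton_iff.mp hx.1.2).symm))
        (Subgroup.zpowers_le.mpr (Subgroup.mem_centralizer_singleton_iff.mpr
        (Subgroup.mem_centralizer_singleton_iff.mp hx.2).symm))
    exact Subgroup.mem_centralizer_singleton_iff.mp (this hy)
  have h3 := Subgroup.card_le_of_le hle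
  obtain ⟨k, hk⟩ := two_pow_card hX (C₁ ⊓ Subgroup.centralizer ({v₂} : Set X))
  rw [hk] at h2 h3
  rcases k with _ | _ | k
  · rw [pow_zero, one_pow] at h2; omega
  · rw [show (2 ^ (0 + 1)) ^ 2 = 4 by norm_num] at h2; omega
  · exact le_trans (show 2 ^ 2 ≤ 2 ^ (k + 2) from Nat.pow_le_pow_right (by norm_num) (by omega)) h3

theorem exists_eight (hX : IsPGroup 2 X) {W U : Subgroup X} (hUW : U ≤ W) (hU : Nat.card ↥U ≤ 8)
    (hW : 8 ≤ Nat.card ↥W) : ∃ A : Subgroup X, U ≤ A ∧ A ≤ W ∧ Nat.card ↥A = 8 := by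
  haveI : Fact (Nat.Prime 2) := ⟨Nat.prime_two⟩
  obtain ⟨n, hn⟩ := two_pow_card hX U
  obtain ⟨m, hm⟩ := two_pow_card hX W
  have h3 : 3 ≤ m := by
    by_contra h
    have : 2 ^ m ≤ 2 ^ 2 := Nat.pow_le_pow_right (by norm_num) (by omega)
    omega
  have hn3 : n ≤ 3 := by
    by_contra h
    have : 2 ^ 4 ≤ 2 ^ n := Nat.pow_le_pow_right (by norm_num) (by omega)
    omega
  obtain ⟨K, hK, hUK⟩ := Sylow.exists_subgroup_card_pow_prime_le 2 (G := ↥W) (n := n) (m := 3)
    (hm ▸ pow_dvd_pow 2 h3) (U.subgroupOf W)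
    ((Nat.card_congr (Subgroup.subgroupOfEquivOfLe hUW).toEquiv).trans hn) hn3
  refine ⟨K.map W.subtype, fun u hu => ⟨⟨u, hUW hu⟩, hUK hu, rfl⟩, Subgroup.map_subtype_le K, ?_⟩
  rw [Subgroup.card_map_of_injective W.subtype_injective, hK]
  norm_num

def Adj (C D : Subgroup X) : Prop :=
  Cfsg.IsElementaryAbelian 2 C ∧ Nat.card ↥C = 8 ∧ Cfsg.IsElementaryAbelian 2 D ∧ Nat.card ↥D = 8 ∧ ⁅C, D⁆ = ⊥

theorem adj_of_le {W C D : Subgroup X} (hW : Cfsg.IsElementaryAbelian 2 W) (hC : C ≤ W) (hD : D ≤ W)
    (hC8 : Nat.card ↥C = 8) (hD8 : Nat.card ↥D = 8) : Adj C D :=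
  ⟨ea_mono hW hC, hC8, ea_mono hW hD, hD8, by
    rw [Subgroup.commutator_eq_bot_iff_le_centralizer]
    exact fun c hc => Subgroup.mem_centralizer_iff.mpr fun d hd => ea_comm hW (hD hd) (hC hc)⟩

theorem reach (hX : IsPGroup 2 X) {E : Subgroup X} [E.Normal] (hE : Cfsg.IsElementaryAbelian 2 E)
    (hE32 : 32 ≤ Nat.card ↥E) : ∀ n : ℕ, ∀ A : Subgroup X, Cfsg.IsElementaryAbelian 2 A → Nat.card ↥A = 8 →
      8 - Nat.card ↥(A ⊓ E : Subgroup X) = n →
      ∃ A' : Subgroup X, A' ≤ E ∧ Nat.card ↥A' = 8 ∧ Relation.ReflTransGen Adj A A' ∧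
        Relation.ReflTransGen Adj A' A := by
  intro n
  induction n using Nat.strong_induction_on with
  | _ n ih =>
    intro A hA hA8 hn
    by_cases hAE : A ≤ E
    · exact ⟨A, hAE, hA8, .refl, .refl⟩
    set F : Subgroup X := A ⊓ E with hF
    set CA : Subgroup X := E ⊓ Subgroup.centralizer (A : Set X) with hCA
    have hFA : F ≤ CA := fun x hx =>
      ⟨hx.2, Subgroup.mem_centralizer_iff.mpr fun a ha => ea_comm hA ha hx.1⟩
    have hFlt : Nat.card ↥F ≤ 4 := by
      obtain ⟨k, hk⟩ := two_pow_card hX F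
      have h8 : Nat.card ↥F ≤ Nat.card ↥A := Subgroup.card_le_of_le inf_le_left
      have hne : Nat.card ↥F ≠ 8 := fun h => hAE (by
        rw [← (Subgroup.eq_of_le_of_card_ge (inf_le_left : F ≤ A) (show Nat.card ↥A ≤ Nat.card ↥F by omega) : F = A)]
        exact inf_le_right)
      have := pow_cases k
      omega
    by_cases hCle : CA ≤ A
    · -- impossible
      exfalso
      have hCAF : CA = F := le_antisymm (fun x hx => ⟨hCle hx, hx.1⟩) hFA
      obtain ⟨V, hVA, hV4, hVF⟩ : ∃ V ≤ A, (Nat.card ↥V = 4 ∧ (Nat.card ↥F ≤ 2 → F ⊓ V = ⊥)) ∧ F ⊔ V ≤ A := by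
        by_cases h2 : Nat.card ↥F ≤ 2
        · by_cases h1 : F = ⊥
          · obtain ⟨V, hVA, hV⟩ := Sylow.exists_subgroup_le_card_pow_prime_of_le_card (n := 2) Nat.prime_two hX
              (H := A) (by omega)
            exact ⟨V, hVA, ⟨by rw [hV]; norm_num, fun _ => by rw [h1, bot_inf_eq]⟩, sup_le inf_le_left hVA⟩
          · -- a complement of the subgroup `F` of order two
            obtain ⟨f, hf, hf1⟩ : ∃ f ∈ F, f ≠ 1 := by
              obtain ⟨a, ha⟩ := Subgroup.ne_bot_iff_exists_ne_one.mp h1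
              exact ⟨a, a.2, fun h => ha (Subtype.ext h)⟩
            obtain ⟨V, ⟨hVA, hfV⟩, hVmax⟩ := (Set.toFinite {V : Subgroup X | V ≤ A ∧ f ∉ V}).exists_maximal
              ⟨⊥, bot_le, by simpa using hf1⟩
            have hcov : ∀ a ∈ A, a ∈ V ∨ a * f ∈ V := by
              intro a ha
              by_contra hcon
              push Not at hcon
              have hV' : f ∉ V ⊔ Subgroup.zpowers a := by
                intro hmem
                have hmem' : f ∈ ((V ⊔ Subgroup.zpowers a : Subgroup X) : Set X) := hmem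
                rw [Subgroup.coe_mul_of_left_le_normalizer_right V (Subgroup.zpowers a)
                  (fun v hv => Subgroup.centralizer_le_normalizer _ (Subgroup.mem_centralizer_iff.mpr
                    fun y hy => ea_comm hA ((Subgroup.zpowers_le.mpr ha) hy) (hVA hv)))] at hmem'
                obtain ⟨v, hv, w, hw, hvw⟩ := hmem'
                simp only at hvw
                obtain ⟨j, rfl⟩ := hw
                rcases Int.even_or_odd j with ⟨i, rfl⟩ | ⟨i, rfl⟩
                · have : a ^ (i + i) = 1 := by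
                    rw [← two_mul, zpow_mul, show a ^ (2 : ℤ) = a ^ 2 from zpow_natCast a 2, hA.2 a ha, one_zpow]
                  exact hfV (by rw [← hvw]; simpa [this] using hv)
                · have : a ^ (2 * i + 1) = a := by
                    rw [zpow_add, zpow_mul, show a ^ (2 : ℤ) = a ^ 2 from zpow_natCast a 2, hA.2 a ha, one_zpow,
                      one_mul, zpow_one]
                  simp only [this] at hvw
                  apply hcon.2
                  rw [← hvw, ea_comm hA ha (A.mul_mem (hVA hv) ha), mul_assoc, ← sq, hA.2 a ha, mul_one]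
                  exact hv
              have := hVmax ⟨sup_le hVA (Subgroup.zpowers_le.mpr ha), hV'⟩ le_sup_left
              exact hcon.1 (this ((le_sup_right : Subgroup.zpowers a ≤ _) (Subgroup.mem_zpowers a)))
            have h8 : 8 ≤ 2 * Nat.card ↥V := by
              have hsurj : Function.Surjective (fun u : ↥V × Bool =>
                  (⟨(u.1 : X) * (if u.2 then f else 1),
                    A.mul_mem (hVA u.1.2) (by split <;> [exact hf.1; exact A.one_mem])⟩ : ↥A)) := by
                rintro ⟨a, ha⟩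
                rcases hcov a ha with h | h
                · exact ⟨(⟨a, h⟩, false), Subtype.ext (by simp)⟩
                · refine ⟨(⟨a * f, h⟩, true), Subtype.ext ?_⟩
                  simp [mul_assoc, ← sq, hA.2 f hf.1]
              have := Nat.card_le_card_of_surjective _ hsurj
              simp [Nat.card_prod, hA8] at this
              omega
            have hV4 : Nat.card ↥V = 4 := by
              have h1' := Subgroup.card_le_of_le hVA
              obtain ⟨k, hk⟩ := two_pow_card hX V
              have hne : Nat.card ↥V ≠ 8 := fun h =>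
                hfV (Subgroup.eq_of_le_of_card_ge hVA (by omega) ▸ hf.1)
              have := pow_cases k
              omega
            refine ⟨V, hVA, ⟨hV4, fun _ => ?_⟩, sup_le inf_le_left hVA⟩
            rw [eq_bot_iff]
            rintro x ⟨hxF, hxV⟩
            rw [Subgroup.mem_bot]
            by_contra hx1
            have hFeq : Subgroup.zpowers f = F := Subgroup.eq_of_le_of_card_ge (Subgroup.zpowers_le.mpr hf)
              (by rw [Nat.card_zpowers, orderOf_eq_prime (hA.2 f hf.1) hf1]; omega)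
            rw [SetLike.mem_coe, ← hFeq] at hxF
            obtain ⟨j, rfl⟩ := hxF
            rcases Int.even_or_odd j with ⟨i, rfl⟩ | ⟨i, rfl⟩
            · exact hx1 (by simp only; rw [← two_mul, zpow_mul, show f ^ (2 : ℤ) = f ^ 2 from zpow_natCast f 2,
                hA.2 f hf.1, one_zpow])
            · apply hfV
              have : f ^ (2 * i + 1) = f := by
                rw [zpow_add, zpow_mul, show f ^ (2 : ℤ) = f ^ 2 from zpow_natCast f 2, hA.2 f hf.1, one_zpow,
                  one_mul, zpow_one]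
              simpa [this] using hxV
        · obtain ⟨V, hVA, hV⟩ := Sylow.exists_subgroup_le_card_pow_prime_of_le_card (n := 2) Nat.prime_two hX
              (H := A) (by omega)
          exact ⟨V, hVA, ⟨by rw [hV]; norm_num, fun h => absurd h h2⟩, sup_le inf_le_left hVA⟩
      obtain ⟨hV4, hFV⟩ := hV4
      by_cases h2 : Nat.card ↥F ≤ 2
      · have hdisj := hFV h2
        have h4 := four_le_inf_centralizer hX hE hE32 (ea_mono hA hVA) hV4
        by_cases h1 : F = ⊥
        · -- a 2-group fixes a nontrivial element of `E`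
          haveI : Fact (Nat.Prime 2) := ⟨Nat.prime_two⟩
          have hEX : 2 ∣ Nat.card ↥E := (hX.to_subgroup E).card_eq_or_dvd.resolve_left (by omega)
          letI : MulAction X ↥E := MulAction.compHom _ (MulAut.conjNormal (H := E))
          obtain ⟨b, hb, hb1⟩ := hX.exists_fixed_point_of_prime_dvd_card_of_fixed_point
            ↥E hEX (a := 1) (fun g => map_one (MulAut.conjNormal g))
          apply hb1
          have : (b : X) ∈ CA := by
            refine ⟨b.2, Subgroup.mem_centralizer_iff.mpr fun a _ => ?_⟩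
            have hba := congrArg Subtype.val (hb a)
            change a * (b : X) * a⁻¹ = b at hba
            exact mul_inv_eq_iff_eq_mul.mp hba
          rw [hCAF, h1, Subgroup.mem_bot] at this
          exact Subtype.ext this.symm
        · -- `A = F V`, so `C_E(A) = C_E(V)`
          have hFVA : F ⊔ V = A := by
            refine Subgroup.eq_of_le_of_card_ge hVF ?_
            rw [hA8]
            obtain ⟨k, hk⟩ := Subgroup.card_dvd_of_le (le_sup_right : V ≤ F ⊔ V)
            have hk0 : 0 < Nat.card ↥(F ⊔ V : Subgroup X) := Nat.card_pos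
            have : k ≠ 1 := by
              rintro rfl
              apply h1
              rw [← hdisj, eq_comm, inf_eq_left]
              rw [Subgroup.eq_of_le_of_card_ge (le_sup_right : V ≤ F ⊔ V) (by omega)]
              exact le_sup_left
            rw [hV4] at hk
            omega
          have hle : E ⊓ Subgroup.centralizer (V : Set X) ≤ F := by
            rw [← hCAF]
            intro x hx
            refine ⟨hx.1, ?_⟩
            have : A ≤ Subgroup.centralizer ({x} : Set X) := by
              rw [← hFVA]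
              refine sup_le (fun y hy => ?_) (fun y hy => ?_)
              · exact Subgroup.mem_centralizer_singleton_iff.mpr (ea_comm hE hy.2 hx.1)
              · exact Subgroup.mem_centralizer_singleton_iff.mpr (Subgroup.mem_centralizer_iff.mp hx.2 y hy)
            exact Subgroup.mem_centralizer_iff.mpr fun a ha => Subgroup.mem_centralizer_singleton_iff.mp (this ha)
          have := Subgroup.card_le_of_le hle
          omega
      · -- `A = F × ⟨a⟩`
        obtain ⟨a, ha, haE⟩ := SetLike.not_le_iff_exists.mp hAE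
        have haF : F ⊔ Subgroup.zpowers a = A := by
          refine Subgroup.eq_of_le_of_card_ge (sup_le inf_le_left (Subgroup.zpowers_le.mpr ha)) ?_
          obtain ⟨k, hk⟩ := Subgroup.card_dvd_of_le (le_sup_left : F ≤ F ⊔ Subgroup.zpowers a)
          have hk0 : 0 < Nat.card ↥(F ⊔ Subgroup.zpowers a : Subgroup X) := Nat.card_pos
          have hk1 : k ≠ 1 := by
            rintro rfl
            refine haE (show a ∈ F from ?_).2
            rw [Subgroup.eq_of_le_of_card_ge (le_sup_left : F ≤ F ⊔ Subgroup.zpowers a) (by omega)]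
            exact (le_sup_right : Subgroup.zpowers a ≤ _) (Subgroup.mem_zpowers a)
          obtain ⟨j, hj⟩ := two_pow_card hX F
          have hj2 : Nat.card ↥F = 4 := by
            have := pow_cases j
            omega
          rw [hj2] at hk
          omega
        have h8 := eight_le_inf_centralizer hX hE hE32 (v := a) (by rw [← sq]; exact hA.2 a ha)
        have hle : E ⊓ Subgroup.centralizer ({a} : Set X) ≤ F := by
          rw [← hCAF]
          intro x hx
          refine ⟨hx.1, ?_⟩
          have : A ≤ Subgroup.centralizer ({x} : Set X) := by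
            rw [← haF]
            refine sup_le (fun y hy => ?_) (Subgroup.zpowers_le.mpr ?_)
            · exact Subgroup.mem_centralizer_singleton_iff.mpr (ea_comm hE hy.2 hx.1)
            · exact Subgroup.mem_centralizer_singleton_iff.mpr (Subgroup.mem_centralizer_singleton_iff.mp hx.2).symm
          exact Subgroup.mem_centralizer_iff.mpr fun b hb => Subgroup.mem_centralizer_singleton_iff.mp (this hb)
        have := Subgroup.card_le_of_le hle
        omega
    · obtain ⟨e, he, heA⟩ := SetLike.not_le_iff_exists.mp hCle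
      have hW : Cfsg.IsElementaryAbelian 2 (A ⊔ CA) :=
        ea_sup hA (ea_mono hE inf_le_left) fun a ha b hb => Subgroup.mem_centralizer_iff.mp hb.2 a ha
      have heF : e ∉ F := fun h => heA h.1
      have hFE : Cfsg.IsElementaryAbelian 2 (F ⊔ Subgroup.zpowers e) :=
        ea_mono hE (sup_le inf_le_right (Subgroup.zpowers_le.mpr he.1))
      have hU8 : Nat.card ↥(F ⊔ Subgroup.zpowers e : Subgroup X) ≤ 8 := by
        have hsurj : Function.Surjective (fun u : ↥F × ↥(Subgroup.zpowers e) =>
            (⟨(u.1 : X) * u.2, mul_mem ((le_sup_left : F ≤ F ⊔ Subgroup.zpowers e) u.1.2)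
              ((le_sup_right : Subgroup.zpowers e ≤ F ⊔ Subgroup.zpowers e) u.2.2)⟩ :
              ↥(F ⊔ Subgroup.zpowers e : Subgroup X))) := by
          rintro ⟨x, hx⟩
          have hx' : x ∈ ((F ⊔ Subgroup.zpowers e : Subgroup X) : Set X) := hx
          rw [Subgroup.coe_mul_of_left_le_normalizer_right F (Subgroup.zpowers e)
            (fun f hf => Subgroup.centralizer_le_normalizer _ (Subgroup.mem_centralizer_iff.mpr
              fun y hy => ea_comm hE ((Subgroup.zpowers_le.mpr he.1) hy) hf.2))] at hx'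
          obtain ⟨f, hf, w, hw, rfl⟩ := hx'
          exact ⟨(⟨f, hf⟩, ⟨w, hw⟩), rfl⟩
        have h := Nat.card_le_card_of_surjective _ hsurj
        rw [Nat.card_prod, Nat.card_zpowers] at h
        have : orderOf e ≤ 2 := Nat.le_of_dvd (by norm_num) (orderOf_dvd_of_pow_eq_one (hE.2 e he.1))
        exact h.trans (Nat.mul_le_mul hFlt this)
      obtain ⟨A₁, hUA, hAW, hA₁⟩ := exists_eight hX
        (sup_le (inf_le_left.trans le_sup_left) (Subgroup.zpowers_le.mpr ((le_sup_right : CA ≤ A ⊔ CA) he)))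
        hU8 (hA8 ▸ Subgroup.card_le_of_le (le_sup_left : A ≤ A ⊔ CA))
      have hlt : Nat.card ↥F < Nat.card ↥(A₁ ⊓ E : Subgroup X) := by
        by_contra h
        apply heF
        have hle : F ≤ A₁ ⊓ E := fun x hx => ⟨hUA ((le_sup_left : F ≤ F ⊔ Subgroup.zpowers e) hx), hx.2⟩
        rw [Subgroup.eq_of_le_of_card_ge hle (not_lt.mp h)]
        exact ⟨hUA ((le_sup_right : Subgroup.zpowers e ≤ _) (Subgroup.mem_zpowers e)), he.1⟩
      obtain ⟨A', h1, h2, h3, h4⟩ := ih (8 - Nat.card ↥(A₁ ⊓ E : Subgroup X)) (by omega) A₁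
        (ea_mono hW hAW) hA₁ rfl
      exact ⟨A', h1, h2, h3.head (adj_of_le hW le_sup_left hAW hA8 hA₁),
        h4.tail (adj_of_le hW hAW le_sup_left hA₁ hA8)⟩


/-- Let X be a finite 2-group having a normal elementary abelian subgroup of order at least 32. Then (a) for any two elementary abelian subgroups A, B of X of order 8 there is a chain A = A₁, A₂, …, Aₙ = B of elementary abelian subgroups of order 8 in which consecutive members commute elementwise; and (b) every elementary abelian subgroup of X of order 4 is contained in an elementary abelian subgroup of order 8. -/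
theorem result {X : Type*} [Group X] [Finite X]
    (hX : IsPGroup 2 X) (E : Subgroup X) [E.Normal] (hE : Cfsg.IsElementaryAbelian 2 E) (hE32 : 32 ≤ Nat.card ↥E) :
    (∀ A B : Subgroup X, Cfsg.IsElementaryAbelian 2 A → Nat.card ↥A = 8 → Cfsg.IsElementaryAbelian 2 B → Nat.card ↥B = 8 →
        Relation.ReflTransGen
          (fun C D : Subgroup X => Cfsg.IsElementaryAbelian 2 C ∧ Nat.card ↥C = 8 ∧ Cfsg.IsElementaryAbelian 2 D ∧ Nat.card ↥D = 8 ∧ ⁅C, D⁆ = ⊥)
          A B) ∧
      (∀ V : Subgroup X, Cfsg.IsElementaryAbelian 2 V → Nat.card ↥V = 4 →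
        ∃ A : Subgroup X, V ≤ A ∧ Cfsg.IsElementaryAbelian 2 A ∧ Nat.card ↥A = 8) := by
  refine ⟨fun A B hA hA8 hB hB8 => ?_, fun V hV hV4 => ?_⟩
  · obtain ⟨A', hA'E, hA'8, h1, -⟩ := reach hX hE hE32 _ A hA hA8 rfl
    obtain ⟨B', hB'E, hB'8, -, h2⟩ := reach hX hE hE32 _ B hB hB8 rfl
    exact (h1.tail (adj_of_le hE hA'E hB'E hA'8 hB'8)).trans h2
  · have h4 := four_le_inf_centralizer hX hE hE32 hV hV4
    set W := V ⊔ (E ⊓ Subgroup.centralizer (V : Set X)) with hWdef
    have hW : Cfsg.IsElementaryAbelian 2 W :=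
      ea_sup hV (ea_mono hE inf_le_left) fun a ha b hb => Subgroup.mem_centralizer_iff.mp hb.2 a ha
    have hW8 : 8 ≤ Nat.card ↥W := by
      obtain ⟨k, hk⟩ := Subgroup.card_dvd_of_le (K := W) (le_sup_left : V ≤ W)
      rw [hV4] at hk
      have hk0 : 0 < Nat.card ↥W := Nat.card_pos
      have : k ≠ 1 := by
        rintro rfl
        have hWV : V = W := Subgroup.eq_of_le_of_card_ge le_sup_left (by omega)
        have hCV : E ⊓ Subgroup.centralizer (V : Set X) ≤ V :=
          le_of_le_of_eq (le_sup_right : E ⊓ Subgroup.centralizer (V : Set X) ≤ W) hWV.symm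
        have hVE : V ≤ E := by
          rw [← Subgroup.eq_of_le_of_card_ge hCV (by omega)]
          exact inf_le_left
        have hEC : E ≤ E ⊓ Subgroup.centralizer (V : Set X) := fun x hx =>
          ⟨hx, Subgroup.mem_centralizer_iff.mpr fun v hv => ea_comm hE (hVE hv) hx⟩
        have := Subgroup.card_le_of_le (hEC.trans hCV)
        omega
      omega
    obtain ⟨A, hVA, hAW, hA8⟩ := exists_eight hX (W := W) (le_sup_left : V ≤ W) (by omega) hW8
    exact ⟨A, hVA, ea_mono hW hAW, hA8⟩

end Cfsg.Agent.S1785
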