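import Cfsg.Statements.S1786
import Cfsg.Agent.Lib.ClassK.TIFieldSL2
import Cfsg.Agent.Lib.Cores.GenFitting
import Cfsg.Agent.Lib.Fischer2.LargeExtraspecial

set_option autoImplicit false
open Cfsg

namespace Cfsg.Agent.S1786

open CfsgLib.ClassK
open scoped commutatorElement

section
variable {G : Type*} [Group G]

/-- The hypotheses of the statement on `V` and `Q = O_2(N(V))`. -/
private structure Setting (V Q : Subgroup G) : Prop where
  elem : Cfsg.IsElementaryAbelian 2 V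
  maxAb : ∀ A : Subgroup G, V ≤ A → A ≤ Subgroup.normalizer (V : Set G) → IsMulCommutative ↥A →
    (∀ m ∈ Subgroup.normalizer (V : Set G), ∀ a ∈ A, m * a * m⁻¹ ∈ A) → A = V
  ti : ∀ x : G, V.map (MulAut.conj x).toMonoidHom = V ∨ V.map (MulAut.conj x).toMonoidHom ⊓ V = ⊥
  leM : Q ≤ Subgroup.normalizer (V : Set G)
  le : V ≤ Q
  conj : ∀ m ∈ Subgroup.normalizer (V : Set G), ∀ q ∈ Q, m * q * m⁻¹ ∈ Q
  isPGroup : IsPGroup 2 ↥Q
  cent : ∀ m ∈ Subgroup.normalizer (V : Set G), (∀ q ∈ Q, m * q = q * m) → m ∈ Q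
  max : ∀ N : Subgroup G, N ≤ Subgroup.normalizer (V : Set G) →
    (∀ m ∈ Subgroup.normalizer (V : Set G), ∀ n ∈ N, m * n * m⁻¹ ∈ N) → IsPGroup 2 ↥N → N ≤ Q

variable {V Q : Subgroup G}

private theorem setting_mk [Finite G] (hV : Cfsg.IsElementaryAbelian 2 V)
    (h1 : (Cfsg.generalizedFittingSubgroup ↥(Subgroup.normalizer (V : Set G))).map (Subgroup.normalizer (V : Set G)).subtype =
      (Cfsg.pCore 2 ↥(Subgroup.normalizer (V : Set G))).map (Subgroup.normalizer (V : Set G)).subtype)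
    (h2 : ∀ A : Subgroup G, V ≤ A → A ≤ Subgroup.normalizer (V : Set G) → IsMulCommutative ↥A →
      (∀ m ∈ Subgroup.normalizer (V : Set G), ∀ a ∈ A, m * a * m⁻¹ ∈ A) → A = V)
    (hti : ∀ x : G, V.map (MulAut.conj x).toMonoidHom = V ∨ V.map (MulAut.conj x).toMonoidHom ⊓ V = ⊥) :
    Setting V ((Cfsg.pCore 2 ↥(Subgroup.normalizer (V : Set G))).map (Subgroup.normalizer (V : Set G)).subtype) := by
  set M := Subgroup.normalizer (V : Set G) with hM
  have hF : Cfsg.generalizedFittingSubgroup ↥M = Cfsg.pCore 2 ↥M :=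
    Subgroup.map_injective M.subtype_injective h1
  have hmax : ∀ N : Subgroup G, N ≤ M → (∀ m ∈ M, ∀ n ∈ N, m * n * m⁻¹ ∈ N) → IsPGroup 2 ↥N →
      N ≤ (Cfsg.pCore 2 ↥M).map M.subtype := by
    intro N hNM hNn hN2 n hn
    haveI : (N.subgroupOf M).Normal := ⟨fun a ha m => hNn m m.2 a ha⟩
    exact ⟨⟨n, hNM hn⟩, CfsgLib.Cores.le_pCore (N := N.subgroupOf M)
      (hN2.of_equiv (Subgroup.subgroupOfEquivOfLe hNM).symm) hn, rfl⟩
  refine ⟨hV, h2, hti, Subgroup.map_subtype_le _, hmax V Subgroup.le_normalizer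
    (fun m hm v hv => (Subgroup.mem_normalizer_iff.mp hm v).mp hv)
    (fun v => ⟨1, Subtype.ext (by simpa using hV.2 v v.2)⟩), ?_, ?_, ?_, hmax⟩
  · rintro m hm _ ⟨q, hq, rfl⟩
    exact ⟨⟨m, hm⟩ * q * ⟨m, hm⟩⁻¹,
      (CfsgLib.Cores.map_pCore_le_of_surjective (f := (MulAut.conj (⟨m, hm⟩ : ↥M)).toMonoidHom)
        (MulAut.conj (⟨m, hm⟩ : ↥M)).surjective) ⟨q, hq, rfl⟩, rfl⟩
  · exact (CfsgLib.Cores.isPGroup_pCore 2 ↥M).map M.subtype
  · intro m hm hmc
    refine ⟨⟨m, hm⟩, hF ▸ CfsgLib.Cores.centralizer_generalizedFittingSubgroup_le ?_, rfl⟩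
    rw [Subgroup.mem_centralizer_iff, hF]
    intro q hq
    exact Subtype.ext (hmc _ ⟨q, hq, rfl⟩).symm

private theorem Setting.comm_V (h : Setting V Q) {a b : G} (ha : a ∈ V) (hb : b ∈ V) : a * b = b * a :=
  congrArg Subtype.val (h.elem.1.1.comm (⟨a, ha⟩ : ↥V) ⟨b, hb⟩)

/-- An abelian subgroup normal in `N(V)` and centralizing `V` is contained in `V`. -/
private theorem Setting.le_V (h : Setting V Q) {A : Subgroup G}
    (hAM : A ≤ Subgroup.normalizer (V : Set G)) (hAV : ∀ a ∈ A, ∀ v ∈ V, a * v = v * a)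
    (hAA : ∀ a ∈ A, ∀ b ∈ A, a * b = b * a)
    (hAn : ∀ m ∈ Subgroup.normalizer (V : Set G), ∀ a ∈ A, m * a * m⁻¹ ∈ A) : A ≤ V := by
  have h1 : ∀ x ∈ A ⊔ V, (∀ a ∈ A, x * a = a * x) ∧ ∀ v ∈ V, x * v = v * x := by
    have hle : A ⊔ V ≤ Subgroup.centralizer (A : Set G) ⊓ Subgroup.centralizer (V : Set G) :=
      sup_le (fun a ha => ⟨Subgroup.mem_centralizer_iff.mpr fun b hb => hAA b hb a ha,
          Subgroup.mem_centralizer_iff.mpr fun v hv => (hAV a ha v hv).symm⟩)
        (fun v hv => ⟨Subgroup.mem_centralizer_iff.mpr fun b hb => hAV b hb v hv,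
          Subgroup.mem_centralizer_iff.mpr fun u hu => h.comm_V hu hv⟩)
    exact fun x hx => ⟨fun a ha => (Subgroup.mem_centralizer_iff.mp (hle hx).1 a ha).symm,
      fun v hv => (Subgroup.mem_centralizer_iff.mp (hle hx).2 v hv).symm⟩
  have h2 : ∀ x ∈ A ⊔ V, ∀ y ∈ A ⊔ V, x * y = y * x := by
    intro x hx y hy
    have hle : A ⊔ V ≤ Subgroup.centralizer ({x} : Set G) :=
      sup_le (fun a ha => Subgroup.mem_centralizer_singleton_iff.mpr ((h1 x hx).1 a ha).symm)
        (fun v hv => Subgroup.mem_centralizer_singleton_iff.mpr ((h1 x hx).2 v hv).symm)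
    exact (Subgroup.mem_centralizer_singleton_iff.mp (hle hy)).symm
  refine le_sup_left.trans (h.maxAb (A ⊔ V) le_sup_right (sup_le hAM Subgroup.le_normalizer)
    ⟨⟨fun x y => Subtype.ext (h2 x x.2 y y.2)⟩⟩ fun m hm a ha => ?_).le
  have hle : (A ⊔ V).map (MulAut.conj m).toMonoidHom ≤ A ⊔ V := by
    rw [Subgroup.map_sup]
    refine sup_le_sup ?_ ?_
    · rintro _ ⟨b, hb, rfl⟩; exact hAn m hm b hb
    · rintro _ ⟨b, hb, rfl⟩; exact (Subgroup.mem_normalizer_iff.mp hm b).mp hb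
  exact hle ⟨a, ha, rfl⟩

variable [Finite G]

private theorem Setting.isTIPair (h : Setting V Q) : IsTIPair V (Q ⊓ Subgroup.centralizer (V : Set G)) := by
  haveI : Fact (Nat.Prime 2) := ⟨Nat.prime_two⟩
  set M := Subgroup.normalizer (V : Set G) with hM
  set P := Q ⊓ Subgroup.centralizer (V : Set G) with hP
  have hPV : ∀ x ∈ P, ∀ v ∈ V, x * v = v * x := fun x hx v hv =>
    (Subgroup.mem_centralizer_iff.mp hx.2 v hv).symm
  have hVP : V ≤ P := fun v hv => ⟨h.le hv, Subgroup.mem_centralizer_iff.mpr fun u hu => h.comm_V hu hv⟩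
  have hPM : P ≤ M := inf_le_left.trans h.leM
  have hPn : ∀ m ∈ M, ∀ x ∈ P, m * x * m⁻¹ ∈ P := by
    intro m hm x hx
    refine ⟨h.conj m hm x hx.1, Subgroup.mem_centralizer_iff.mpr fun v hv => ?_⟩
    have hv' : m⁻¹ * v * m ∈ V := (Subgroup.mem_normalizer_iff.mp hm _).mpr (by simpa [mul_assoc] using hv)
    calc v * (m * x * m⁻¹) = m * ((m⁻¹ * v * m) * x) * m⁻¹ := by group
      _ = m * (x * (m⁻¹ * v * m)) * m⁻¹ := by rw [hPV x hx _ hv']
      _ = _ := by group
  have hcenP : ∀ x ∈ P, (∀ y ∈ P, x * y = y * x) → x ∈ V := by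
    have hA : P ⊓ Subgroup.centralizer (P : Set G) ≤ V := by
      refine h.le_V (inf_le_left.trans hPM) (fun a ha v hv => hPV a ha.1 v hv)
        (fun a ha b hb => (Subgroup.mem_centralizer_iff.mp ha.2 b hb.1).symm) fun m hm a ha => ?_
      refine ⟨hPn m hm a ha.1, Subgroup.mem_centralizer_iff.mpr fun y hy => ?_⟩
      have hy' : m⁻¹ * y * m ∈ P := by
        have := hPn m⁻¹ (M.inv_mem hm) y hy
        rwa [inv_inv] at this
      calc y * (m * a * m⁻¹) = m * ((m⁻¹ * y * m) * a) * m⁻¹ := by group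
        _ = m * (a * (m⁻¹ * y * m)) * m⁻¹ := by rw [Subgroup.mem_centralizer_iff.mp ha.2 _ hy']
        _ = _ := by group
    exact fun x hx hc => hA ⟨hx, Subgroup.mem_centralizer_iff.mpr fun y hy => (hc y hy).symm⟩
  -- `P' ≤ V`
  have hder : ⁅P, P⁆ ≤ V := by
    let D : ℕ → Subgroup G := fun n => Nat.rec P (fun _ K => ⁅K, P⁆) n
    have hDs : ∀ n, D (n + 1) = ⁅D n, P⁆ := fun n => rfl
    have hD1 : ∀ n, D n ≤ P ∧ ∀ m ∈ M, ∀ a ∈ D n, m * a * m⁻¹ ∈ D n := by
      intro n
      induction n with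
      | zero => exact ⟨le_rfl, hPn⟩
      | succ n ih =>
        rw [hDs]
        refine ⟨(Subgroup.commutator_mono ih.1 le_rfl).trans (Subgroup.commutator_le.mpr
          fun a ha b hb => P.mul_mem (P.mul_mem (P.mul_mem ha hb) (P.inv_mem ha)) (P.inv_mem hb)),
          fun m hm a ha => ?_⟩
        have hle : (⁅D n, P⁆).map (MulAut.conj m).toMonoidHom ≤ ⁅D n, P⁆ := by
          rw [Subgroup.map_commutator]
          refine Subgroup.commutator_mono ?_ ?_
          · rintro _ ⟨b, hb, rfl⟩; exact ih.2 m hm b hb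
          · rintro _ ⟨b, hb, rfl⟩; exact hPn m hm b hb
        exact hle ⟨a, ha, rfl⟩
    have hDlow : ∀ n, D n = P.lowerCentralSeries n := by
      intro n
      induction n with
      | zero => rfl
      | succ n ih => rw [hDs, ih, Subgroup.lowerCentralSeries_succ]
    obtain ⟨c, hc⟩ := (Subgroup.isNilpotent_iff_lowerCentralSeries (S := P)).mp
      (h.isPGroup.to_le inf_le_left).isNilpotent
    have hstep : ∀ n, D (n + 2) ≤ V → D (n + 1) ≤ V := by
      intro n hn
      have hmono : ∀ k, D (k + 1) ≤ D 1 := by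
        intro k
        rw [hDs]
        exact Subgroup.commutator_mono (hD1 k).1 le_rfl
      have hVc : ⁅V, P⁆ = ⊥ := commutator_eq_bot_of_commute fun v hv x hx => (hPV x hx v hv).symm
      have h2 : ⁅⁅D (n + 1), P⁆, P⁆ = ⊥ := by
        rw [eq_bot_iff, ← hVc]
        exact Subgroup.commutator_mono hn le_rfl
      have h3 : ⁅⁅P, D (n + 1)⁆, P⁆ = ⊥ := by rwa [Subgroup.commutator_comm P]
      have h4 : ⁅⁅P, P⁆, D (n + 1)⁆ = ⊥ :=
        Subgroup.commutator_commutator_eq_bot_of_rotate h3 h2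
      refine h.le_V ((hD1 (n + 1)).1.trans hPM) (fun a ha v hv => hPV a ((hD1 (n + 1)).1 ha) v hv) ?_
        (hD1 (n + 1)).2
      intro a ha b hb
      exact commute_of_commutator_eq_bot h4 (hmono n ha) hb
    have hdown : ∀ k, D (k + 1) ≤ V → D 1 ≤ V := by
      intro k
      induction k with
      | zero => exact id
      | succ k ih => exact fun hk => ih (hstep k hk)
    have h1 : D 1 ≤ V := hdown c (by
      rw [hDs, hDlow, hc, Subgroup.commutator_bot_left]
      exact bot_le)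
    exact h1
  have hcomm : ∀ x ∈ P, ∀ y ∈ P, x * y * x⁻¹ * y⁻¹ ∈ V := fun x hx y hy =>
    hder (Subgroup.commutator_mem_commutator hx hy)
  have hv2 : ∀ v ∈ V, v * v = 1 := fun v hv => by rw [← sq]; exact h.elem.2 v hv
  have hsq : ∀ x ∈ P, x * x ∈ V := by
    intro x hx
    refine hcenP _ (P.mul_mem hx hx) fun y hy => ?_
    set i := x * y * x⁻¹ * y⁻¹ with hi
    have hiV : i ∈ V := hcomm x hx y hy
    calc x * x * y = x * (x * y * x⁻¹ * y⁻¹) * x⁻¹ * (x * y * x⁻¹) * (x * x) := by group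
      _ = (i * i) * y * (x * x) := by
        rw [← hi, hPV x hx i hiV, mul_inv_cancel_right, hi]; group
      _ = _ := by rw [hv2 i hiV, one_mul]
  -- `C_M(P) ≤ P`
  let K : Subgroup G := M ⊓ Subgroup.centralizer (P : Set G)
  have hKn : ∀ m ∈ M, ∀ a ∈ K, m * a * m⁻¹ ∈ K := by
    intro m hm a ha
    refine ⟨M.mul_mem (M.mul_mem hm ha.1) (M.inv_mem hm), Subgroup.mem_centralizer_iff.mpr fun y hy => ?_⟩
    have hy' : m⁻¹ * y * m ∈ P := by
      have := hPn m⁻¹ (M.inv_mem hm) y hy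
      rwa [inv_inv] at this
    calc y * (m * a * m⁻¹) = m * ((m⁻¹ * y * m) * a) * m⁻¹ := by group
      _ = m * (a * (m⁻¹ * y * m)) * m⁻¹ := by rw [Subgroup.mem_centralizer_iff.mp ha.2 _ hy']
      _ = _ := by group
  have hKV : ∀ a ∈ K, ∀ v ∈ V, a * v = v * a := fun a ha v hv =>
    (Subgroup.mem_centralizer_iff.mp ha.2 v (hVP hv)).symm
  have hKQ : ∀ a ∈ K, a ∈ Q → a ∈ V := fun a ha haQ =>
    hcenP a ⟨haQ, Subgroup.mem_centralizer_iff.mpr fun v hv => (hKV a ha v hv).symm⟩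
      fun y hy => (Subgroup.mem_centralizer_iff.mp ha.2 y hy).symm
  have hK2 : ∀ a ∈ K, a * a ∈ V := by
    intro a ha
    refine hKQ _ (K.mul_mem ha ha) (h.cent _ (M.mul_mem ha.1 ha.1) fun q hq => ?_)
    set i := a * q * a⁻¹ * q⁻¹ with hi
    have hiV : i ∈ V := by
      refine hKQ _ ?_ (Q.mul_mem (h.conj a ha.1 q hq) (Q.inv_mem hq))
      have := K.mul_mem ha (hKn q (h.leM hq) a⁻¹ (K.inv_mem ha))
      convert this using 1
      rw [hi]; group
    calc a * a * q = a * (a * q * a⁻¹ * q⁻¹) * a⁻¹ * (a * q * a⁻¹) * (a * a) := by group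
      _ = (i * i) * q * (a * a) := by
        rw [← hi, hKV a ha i hiV, mul_inv_cancel_right, hi]; group
      _ = _ := by rw [hv2 i hiV, one_mul]
  have hKleV : K ≤ V := by
    have hK : IsPGroup 2 ↥K := fun a => ⟨2, Subtype.ext (by
      simp only [Subgroup.coe_pow, Subgroup.coe_one]
      rw [show 2 ^ 2 = 2 + 2 from rfl, pow_add, sq]
      exact hv2 _ (hK2 a a.2))⟩
    exact fun a ha => hKQ a ha (h.max K inf_le_left hKn hK ha)
  refine ⟨hv2, hVP, hPV, hPn, hcomm, hsq, fun x hx hc _ => hcenP x hx hc, ?_, ?_⟩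
  · intro x hxV hxP
    let N : Subgroup G :=
      { carrier := {c | c ∈ M ∧ (∀ v ∈ V, c * v = v * c) ∧ ∀ y ∈ P, c * y * c⁻¹ * y⁻¹ ∈ V}
        one_mem' := ⟨M.one_mem, fun v _ => by simp, fun y _ => by simp⟩
        mul_mem' := by
          rintro c d ⟨hc, hcV, hcP⟩ ⟨hd, hdV, hdP⟩
          refine ⟨M.mul_mem hc hd, fun v hv => ?_, fun y hy => ?_⟩
          · exact ((show Commute c v from hcV v hv).mul_left (hdV v hv)).eq
          · have := V.mul_mem (hcP _ (hPn d hd y hy)) (hdP y hy)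
            simpa [mul_assoc] using this
        inv_mem' := by
          rintro c ⟨hc, hcV, hcP⟩
          refine ⟨M.inv_mem hc, fun v hv => ((show Commute c v from hcV v hv).inv_left).eq,
            fun y hy => ?_⟩
          have h' := hPn c⁻¹ (M.inv_mem hc) y hy
          rw [inv_inv] at h'
          have := V.inv_mem (hcP _ h')
          simpa [mul_assoc] using this }
    have hNn : ∀ m ∈ M, ∀ a ∈ N, m * a * m⁻¹ ∈ N := by
      rintro m hm a ⟨ha, haV, haP⟩
      refine ⟨M.mul_mem (M.mul_mem hm ha) (M.inv_mem hm), fun v hv => ?_, fun y hy => ?_⟩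
      · have hv' : m⁻¹ * v * m ∈ V :=
          (Subgroup.mem_normalizer_iff.mp hm _).mpr (by simpa [mul_assoc] using hv)
        calc m * a * m⁻¹ * v = m * (a * (m⁻¹ * v * m)) * m⁻¹ := by group
          _ = m * ((m⁻¹ * v * m) * a) * m⁻¹ := by rw [haV _ hv']
          _ = _ := by group
      · have h' := hPn m⁻¹ (M.inv_mem hm) y hy
        rw [inv_inv] at h'
        have := (Subgroup.mem_normalizer_iff.mp hm _).mp (haP _ h')
        convert this using 1
        group
    have hN2 : IsPGroup 2 ↥N := fun a => ⟨2, Subtype.ext (by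
      obtain ⟨haM, haV, haP⟩ := a.2
      have h2 : (a : G) * a ∈ V := by
        refine hKleV ⟨M.mul_mem haM haM, Subgroup.mem_centralizer_iff.mpr fun y hy => ?_⟩
        symm
        set i := (a : G) * y * (a : G)⁻¹ * y⁻¹ with hi
        have hiV : i ∈ V := haP y hy
        calc (a : G) * a * y =
            a * ((a : G) * y * (a : G)⁻¹ * y⁻¹) * (a : G)⁻¹ * ((a : G) * y * (a : G)⁻¹) * (a * a) := by group
          _ = (i * i) * y * (a * a) := by
            rw [← hi, haV i hiV, mul_inv_cancel_right, hi]; group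
          _ = _ := by rw [hv2 i hiV, one_mul]
      simp only [Subgroup.coe_pow, Subgroup.coe_one]
      rw [show 2 ^ 2 = 2 + 2 from rfl, pow_add, sq]
      exact hv2 _ h2)⟩
    refine ⟨h.max N (fun a ha => ha.1) hNn hN2 ⟨mem_normalizer_of_commute hxV, hxV, hxP⟩,
      Subgroup.mem_centralizer_iff.mpr fun v hv => (hxV v hv).symm⟩
  · intro x v hv hv1 hxv
    rcases h.ti x with e | e
    · exact (conjMap_eq_iff_mem_normalizer V x).mp e
    · exfalso
      have : x * v * x⁻¹ ∈ V.map (MulAut.conj x).toMonoidHom ⊓ V :=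
        ⟨(mem_conjMap_iff V x _).mpr (by simpa [mul_assoc] using hv), hxv⟩
      rw [e, Subgroup.mem_bot] at this
      exact hv1 (conj_eq_one_iff.mp this)

private theorem Setting.conj_le (h : Setting V Q) {g : G} (hg : g ∉ Subgroup.normalizer (V : Set G))
    (hgQ : V.map (MulAut.conj g).toMonoidHom ≤ Q) :
    V.map (MulAut.conj g).toMonoidHom ≤ Q ⊓ Subgroup.centralizer (V : Set G) := by
  haveI : Fact (Nat.Prime 2) := ⟨Nat.prime_two⟩
  have hb : ⁅V, V.map (MulAut.conj g).toMonoidHom⁆ = ⊥ := by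
    refine commutator_eq_bot_of_ti_normalizes (p := 2) (h.isPGroup.to_le h.le)
      (h.isPGroup.to_le hgQ) ?_ (card_conjMap V g).ge ?_ (hgQ.trans h.leM)
    · intro a _
      rw [conjMap_conjMap]
      by_contra hc
      push Not at hc
      obtain ⟨hne, hinf⟩ := hc
      obtain ⟨⟨w, hw, hw'⟩, hw1⟩ := Subgroup.ne_bot_iff_exists_ne_one.mp hinf
      exact hne (h.isTIPair.conj_eq_of_mem hw hw' fun e => hw1 (Subtype.ext e))
    · rw [eq_bot_iff]
      exact fun v hv => Subgroup.mem_bot.mpr (ti_inf_conj_eq_one h.isTIPair hg hv.1 hv.2)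
  exact le_inf hgQ fun w hw => Subgroup.mem_centralizer_iff.mpr fun v hv =>
    commute_of_commutator_eq_bot hb hv hw

private theorem Setting.exists_T (h : Setting V Q) {g : G} (hg : g ∉ Subgroup.normalizer (V : Set G))
    (hgP : V.map (MulAut.conj g).toMonoidHom ≤ Q ⊓ Subgroup.centralizer (V : Set G)) :
    (V ≤ (Q ⊓ Subgroup.centralizer (V : Set G)).map (MulAut.conj g).toMonoidHom) ∧
    ∀ w ∈ V.map (MulAut.conj g).toMonoidHom, w ≠ 1 → ∀ v ∈ V,
      ∃ t ∈ Q ⊓ Subgroup.centralizer (V : Set G), t * t = 1 ∧ t * w * t⁻¹ * w⁻¹ = v := by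
  set M := Subgroup.normalizer (V : Set G) with hM
  set P := Q ⊓ Subgroup.centralizer (V : Set G) with hP
  set V1 := V.map (MulAut.conj g).toMonoidHom with hV1
  have hp := h.isTIPair
  obtain ⟨x, hx, a, ha, b, hb, hab⟩ : ∃ x ∈ M, ∃ a ∈ V1, ∃ b ∈ V1,
      a * (x * b * x⁻¹) ≠ (x * b * x⁻¹) * a := by
    by_contra hh
    push Not at hh
    set S : Set G := {c | ∃ m ∈ M, ∃ w ∈ V1, c = m * w * m⁻¹} with hS
    have hSP : Subgroup.closure S ≤ P := (Subgroup.closure_le _).mpr fun c hc => by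
      obtain ⟨m, hm, w, hw, rfl⟩ := hc
      exact hp.conj_mem m hm w (hgP hw)
    have hScomm : ∀ c ∈ S, ∀ d ∈ S, c * d = d * c := by
      rintro _ ⟨m, hm, w, hw, rfl⟩ _ ⟨m', hm', w', hw', rfl⟩
      have := hh (m⁻¹ * m') (M.mul_mem (M.inv_mem hm) hm') w hw w' hw'
      calc m * w * m⁻¹ * (m' * w' * m'⁻¹) =
          m * (w * ((m⁻¹ * m') * w' * (m⁻¹ * m')⁻¹)) * m⁻¹ := by group
        _ = _ := by rw [this]; group
    have hAV : Subgroup.closure S ≤ V := by
      refine h.le_V (hSP.trans (inf_le_left.trans h.leM)) (fun c hc v hv => hp.centralizes c (hSP hc) v hv)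
        ?_ ?_
      · intro c hc d hd
        have h1 : ∀ e ∈ S, Subgroup.closure S ≤ Subgroup.centralizer ({e} : Set G) := fun e he =>
          (Subgroup.closure_le _).mpr fun f hf => Subgroup.mem_centralizer_singleton_iff.mpr (hScomm f hf e he)
        have h2 : Subgroup.closure S ≤ Subgroup.centralizer ({d} : Set G) :=
          (Subgroup.closure_le _).mpr fun e he => Subgroup.mem_centralizer_singleton_iff.mpr
            (Subgroup.mem_centralizer_singleton_iff.mp (h1 e he hd)).symm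
        exact Subgroup.mem_centralizer_singleton_iff.mp (h2 hc)
      · intro m hm c hc
        have hle : (Subgroup.closure S).map (MulAut.conj m).toMonoidHom ≤ Subgroup.closure S := by
          rw [MonoidHom.map_closure]
          refine (Subgroup.closure_le _).mpr ?_
          rintro _ ⟨_, ⟨m', hm', w, hw, rfl⟩, rfl⟩
          refine Subgroup.subset_closure ⟨m * m', M.mul_mem hm hm', w, hw, ?_⟩
          change m * (m' * w * m'⁻¹) * m⁻¹ = _
          group
        exact hle ⟨c, hc, rfl⟩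
    refine hg (mem_normalizer_of_commute fun v hv => ?_)
    have hv' : g * v * g⁻¹ ∈ V1 := by rw [hV1, mem_conjMap_iff]; simpa [mul_assoc] using hv
    have h3 : g * v * g⁻¹ = 1 := ti_inf_conj_eq_one hp hg
      (hAV (Subgroup.subset_closure ⟨1, M.one_mem, _, hv', by group⟩)) hv'
    rw [conj_eq_one_iff.mp h3, mul_one, one_mul]
  set T := V.map (MulAut.conj (x * g)).toMonoidHom with hT
  have hxg : x * g ∉ M := fun e => hg (by simpa using M.mul_mem (M.inv_mem hx) e)
  have hT1 : T = V1.map (MulAut.conj x).toMonoidHom := (conjMap_conjMap V g x).symm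
  have hTP : T ≤ P := fun t ht => by
    rw [hT1, mem_conjMap_iff] at ht
    have := hp.conj_mem x hx _ (hgP ht)
    convert this using 1
    group
  have hT2 : ∀ t ∈ T, t * t = 1 := (hp.conjMap (x * g)).sq_eq_one
  have hTN : ∀ y ∈ P, ∀ t ∈ T, t ≠ 1 → y * t = t * y → ∀ t' ∈ T, y * t' = t' * y := by
    intro y hy t ht ht1 hyt t' ht'
    have hyN := (hp.conjMap (x * g)).ti y t ht ht1 (by rw [hyt, mul_inv_cancel_right]; exact ht)
    have h2 : y * t' * y⁻¹ * t'⁻¹ = 1 := ti_inf_conj_eq_one hp hxg (hp.comm_mem y hy t' (hTP ht'))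
      (T.mul_mem ((Subgroup.mem_normalizer_iff.mp hyN t').mp ht') (T.inv_mem ht'))
    rwa [mul_inv_eq_one, mul_inv_eq_iff_eq_mul] at h2
  have hTf : ∀ t ∈ T, ∀ w ∈ V1, t ≠ 1 → w ≠ 1 → t * w ≠ w * t := by
    intro t ht w hw ht1 hw1 htw
    have htN := (hp.conjMap g).ti t w hw hw1 (by rw [htw, mul_inv_cancel_right]; exact hw)
    have h2 : t * a * t⁻¹ * a⁻¹ = 1 := ti_inf_conj_eq_one hp hg (hp.comm_mem t (hTP ht) a (hgP ha))
      (V1.mul_mem ((Subgroup.mem_normalizer_iff.mp htN a).mp ha) (V1.inv_mem ha))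
    rw [mul_inv_eq_one, mul_inv_eq_iff_eq_mul] at h2
    refine hab (hTN a (hgP ha) t ht ht1 h2.symm _ ?_)
    rw [hT1, mem_conjMap_iff]
    convert hb using 1
    group
  have hcard : Nat.card ↥T = Nat.card ↥V := card_conjMap V _
  refine ⟨ti_symmetric hp g hg hgP hTP hT2 hcard hTf hTN, fun w hw hw1 v hv => ?_⟩
  let f : ↥T → ↥V := fun t => ⟨(t : G) * w * (t : G)⁻¹ * w⁻¹, hp.comm_mem _ (hTP t.2) w (hgP hw)⟩
  have hinj : Function.Injective f := by
    intro t t' e
    have e1 : (t : G) * w * (t : G)⁻¹ = (t' : G) * w * (t' : G)⁻¹ :=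
      mul_right_cancel (congrArg Subtype.val e)
    have e2 : ((t' : G)⁻¹ * t) * w = w * ((t' : G)⁻¹ * t) := by
      calc ((t' : G)⁻¹ * t) * w = (t' : G)⁻¹ * ((t : G) * w * (t : G)⁻¹) * t := by group
        _ = _ := by rw [e1]; group
    by_contra hne'
    exact hTf _ (T.mul_mem (T.inv_mem t'.2) t.2) w hw
      (fun e => hne' (Subtype.ext (inv_mul_eq_one.mp e).symm)) hw1 e2
  obtain ⟨t, ht⟩ := (hinj.bijective_of_nat_card_le hcard.ge).2 ⟨v, hv⟩
  exact ⟨t, hTP t.2, hT2 t t.2, congrArg Subtype.val ht⟩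

end


/-- Let G be a finite group, V an elementary abelian 2-subgroup of G and M the normalizer of V; write Q for the largest normal 2-subgroup of M. Suppose (1) the generalized Fitting subgroup of M equals Q; (2) V is a maximal abelian normal subgroup of M; (3) every conjugate of V equals V or meets V trivially, and for some g ∈ G the conjugate V' = g V g⁻¹ is different from V and contained in Q. Let P be the centralizer of V in Q, W the subgroup generated by V and V', and H the subgroup generated by P and g P g⁻¹. Then: (a) V is contained in g Q g⁻¹; (b) every non-identity element of W lies in exactly one conjugate of V contained in W, H normalizes W, and H modulo the centralizer of W in H is isomorphic to the special linear group of dimension 2 over the field with |V| elements; (c) P = Q, and V equals the Frattini subgroup, the centre and the commutator subgroup of Q. -/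
theorem result {G : Type*} [Group G] [Finite G] (V : Subgroup G)
    (hV : Cfsg.IsElementaryAbelian 2 V)
    (h1 : (Cfsg.generalizedFittingSubgroup ↥(Subgroup.normalizer (V : Set G))).map (Subgroup.normalizer (V : Set G)).subtype =
      (Cfsg.pCore 2 ↥(Subgroup.normalizer (V : Set G))).map (Subgroup.normalizer (V : Set G)).subtype)
    (h2 : ∀ A : Subgroup G, V ≤ A → A ≤ Subgroup.normalizer (V : Set G) → IsMulCommutative ↥A →
      (∀ m ∈ Subgroup.normalizer (V : Set G), ∀ a ∈ A, m * a * m⁻¹ ∈ A) → A = V)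
    (hti : ∀ x : G, V.map (MulAut.conj x).toMonoidHom = V ∨ V.map (MulAut.conj x).toMonoidHom ⊓ V = ⊥)
    (g : G) (hg : V.map (MulAut.conj g).toMonoidHom ≠ V)
    (hgQ : V.map (MulAut.conj g).toMonoidHom ≤ (Cfsg.pCore 2 ↥(Subgroup.normalizer (V : Set G))).map (Subgroup.normalizer (V : Set G)).subtype) :
    let Q : Subgroup G := (Cfsg.pCore 2 ↥(Subgroup.normalizer (V : Set G))).map (Subgroup.normalizer (V : Set G)).subtype
    let P : Subgroup G := Q ⊓ Subgroup.centralizer (V : Set G)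
    let W : Subgroup G := V ⊔ V.map (MulAut.conj g).toMonoidHom
    let H : Subgroup G := P ⊔ P.map (MulAut.conj g).toMonoidHom
    V ≤ Q.map (MulAut.conj g).toMonoidHom ∧
      (∀ w ∈ W, w ≠ 1 → ∃! U : Subgroup G, (∃ x : G, U = V.map (MulAut.conj x).toMonoidHom) ∧ U ≤ W ∧ w ∈ U) ∧
      H ≤ Subgroup.normalizer (W : Set G) ∧
      (∀ hN : ((Subgroup.centralizer (W : Set G)).subgroupOf H).Normal, ∃ (F : Type) (_ : Field F) (_ : Fintype F), Fintype.card F = Nat.card ↥V ∧
        Nonempty (↥H ⧸ (Subgroup.centralizer (W : Set G)).subgroupOf H ≃* Matrix.SpecialLinearGroup (Fin 2) F)) ∧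
      P = Q ∧ (frattini ↥Q).map Q.subtype = V ∧ (Subgroup.center ↥Q).map Q.subtype = V ∧ (commutator ↥Q).map Q.subtype = V := by
  intro Q P W H
  haveI : Fact (Nat.Prime 2) := ⟨Nat.prime_two⟩
  have hS : Setting V Q := setting_mk hV h1 h2 hti
  have hp : IsTIPair V P := hS.isTIPair
  have hgN : g ∉ Subgroup.normalizer (V : Set G) := fun e =>
    hg ((conjMap_eq_iff_mem_normalizer V g).mpr e)
  have hgP : V.map (MulAut.conj g).toMonoidHom ≤ P := hS.conj_le hgN hgQ
  obtain ⟨hVP1, hsurj⟩ := hS.exists_T hgN hgP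
  have hgN' : g⁻¹ ∉ Subgroup.normalizer (V : Set G) := fun e => hgN (inv_mem_iff.mp e)
  have hgP' : V.map (MulAut.conj g⁻¹).toMonoidHom ≤ P := by
    intro u hu
    rw [mem_conjMap_iff] at hu
    have := hVP1 hu
    rw [mem_conjMap_iff] at this
    convert this using 1
    group
  obtain ⟨-, hsurj'⟩ := hS.exists_T hgN' hgP'
  have hS1 : ∀ a ∈ V, a ≠ 1 → ∀ u ∈ V.map (MulAut.conj g).toMonoidHom,
      ∃ y ∈ P.map (MulAut.conj g).toMonoidHom, y * a * y⁻¹ * a⁻¹ = u := by
    intro a ha ha1 u hu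
    rw [mem_conjMap_iff] at hu
    obtain ⟨t, ht, -, hte⟩ := hsurj' (g⁻¹ * a * g)
      (by rw [mem_conjMap_iff]; simpa [mul_assoc] using ha)
      (fun e => ha1 (by
        calc a = g * (g⁻¹ * a * g) * g⁻¹ := by group
          _ = 1 := by rw [e]; group)) _ hu
    refine ⟨g * t * g⁻¹, ⟨t, ht, rfl⟩, ?_⟩
    calc g * t * g⁻¹ * a * (g * t * g⁻¹)⁻¹ * a⁻¹ =
        g * (t * (g⁻¹ * a * g) * t⁻¹ * (g⁻¹ * a * g)⁻¹) * g⁻¹ := by group
      _ = u := by rw [hte]; group
  have hsurj0 := fun w hw hw1 v hv => (hsurj w hw hw1 v hv).imp fun t ht => And.intro ht.1 ht.2.2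
  obtain ⟨hiso, htrans⟩ := ti_sl2 hp hgN hgP hVP1 hsurj0 hS1
  -- a non-identity element of `V`
  obtain ⟨a₀, ha₀, ha₀1⟩ : ∃ v ∈ V, v ≠ 1 := by
    by_contra hh
    push Not at hh
    exact hgN (mem_normalizer_of_commute fun v hv => by rw [hh v hv, mul_one, one_mul])
  have hcen : (Subgroup.center ↥Q).map Q.subtype ≤ V := by
    rintro _ ⟨z, hz, rfl⟩
    have hzc : ∀ q ∈ Q, (z : G) * q = q * z := fun q hq =>
      (congrArg Subtype.val (Subgroup.mem_center_iff.mp hz ⟨q, hq⟩)).symm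
    exact hp.central_mem z ⟨z.2, Subgroup.mem_centralizer_iff.mpr fun v hv =>
      (hzc v (hS.le hv)).symm⟩ (fun y hy => hzc y hy.1) (by
        have hzP : (z : G) ∈ P := ⟨z.2, Subgroup.mem_centralizer_iff.mpr fun v hv =>
          (hzc v (hS.le hv)).symm⟩
        have hzV : (z : G) ∈ V := by
          refine hS.le_V (A := Subgroup.center ↥Q |>.map Q.subtype) ?_ ?_ ?_ ?_ ⟨z, hz, rfl⟩
          · exact (Subgroup.map_subtype_le _).trans hS.leM
          · rintro _ ⟨c, hc, rfl⟩ v hv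
            exact (congrArg Subtype.val (Subgroup.mem_center_iff.mp hc ⟨v, hS.le hv⟩)).symm
          · rintro _ ⟨c, hc, rfl⟩ _ ⟨d, -, rfl⟩
            exact (congrArg Subtype.val (Subgroup.mem_center_iff.mp hc d)).symm
          · rintro m hm _ ⟨c, hc, rfl⟩
            refine ⟨⟨m * c * m⁻¹, hS.conj m hm c c.2⟩, Subgroup.mem_center_iff.mpr fun q => Subtype.ext ?_, rfl⟩
            have hq := hS.conj m⁻¹ (Subgroup.inv_mem _ hm) q q.2
            rw [inv_inv] at hq
            have := congrArg Subtype.val (Subgroup.mem_center_iff.mp hc ⟨_, hq⟩)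
            simp only [Subgroup.coe_mul] at this ⊢
            calc (q : G) * (m * c * m⁻¹) = m * ((m⁻¹ * q * m) * c) * m⁻¹ := by group
              _ = _ := by rw [this]; group
        exact hp.sq_eq_one _ hzV)
  have hVcen : V ≤ (Subgroup.center ↥Q).map Q.subtype := by
    haveI : Nontrivial ↥Q := Subgroup.nontrivial_iff_exists_ne_one Q |>.mpr ⟨a₀, hS.le ha₀, ha₀1⟩
    haveI := hS.isPGroup.center_nontrivial
    obtain ⟨z, hz⟩ := exists_ne (1 : ↥(Subgroup.center ↥Q))
    intro v hv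
    by_cases hv1 : v = 1
    · rw [hv1]; exact Subgroup.one_mem _
    obtain ⟨k, -, hkN, hk⟩ := htrans _ (hcen ⟨z, z.2, rfl⟩) v hv
      (fun e => hz (Subtype.ext (Subtype.ext e))) hv1
    refine ⟨⟨k * ((z : ↥Q) : G) * k⁻¹, hS.conj k hkN _ z.1.2⟩, Subgroup.mem_center_iff.mpr fun q => Subtype.ext ?_, hk⟩
    have hq := hS.conj k⁻¹ (Subgroup.inv_mem _ hkN) q q.2
    rw [inv_inv] at hq
    have := congrArg Subtype.val (Subgroup.mem_center_iff.mp z.2 ⟨_, hq⟩)
    simp only [Subgroup.coe_mul] at this ⊢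
    calc (q : G) * (k * ((z : ↥Q) : G) * k⁻¹) = k * ((k⁻¹ * q * k) * ((z : ↥Q) : G)) * k⁻¹ := by group
      _ = _ := by rw [this]; group
  have hPQ : P = Q := le_antisymm inf_le_left fun q hq => ⟨hq, Subgroup.mem_centralizer_iff.mpr
    fun v hv => by
      obtain ⟨c, hc, rfl⟩ := hVcen hv
      exact (congrArg Subtype.val (Subgroup.mem_center_iff.mp hc ⟨q, hq⟩)).symm⟩
  have hVgen : ∀ v ∈ V, ∃ t ∈ Q, ∃ w ∈ Q, t * t = 1 ∧ w * w = 1 ∧ t * w * t⁻¹ * w⁻¹ = v := by
    intro v hv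
    have hw : g * a₀ * g⁻¹ ∈ V.map (MulAut.conj g).toMonoidHom := by
      rw [mem_conjMap_iff]; simpa [mul_assoc] using ha₀
    obtain ⟨t, ht, ht2, hte⟩ := hsurj _ hw (fun e => ha₀1 (conj_eq_one_iff.mp e)) v hv
    refine ⟨t, ht.1, _, hgQ hw, ht2, ?_, hte⟩
    exact (hp.conjMap g).sq_eq_one _ hw
  refine ⟨hVP1.trans (Subgroup.map_mono inf_le_left), fun w hw hw1 => ti_partition hp hgN hgP hsurj0 hw hw1,
    ti_sup_le_normalizer hp hgP hVP1, hiso, hPQ, ?_, le_antisymm hcen hVcen, ?_⟩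
  · apply le_antisymm
    · haveI : (V.subgroupOf Q).Normal := ⟨fun a ha q =>
        (Subgroup.mem_normalizer_iff.mp (hS.leM q.2) _).mp ha⟩
      have hq0 : frattini (↥Q ⧸ V.subgroupOf Q) = ⊥ := by
        by_contra hne
        obtain ⟨y, hy⟩ := exists_sq_ne_one_of_frattini_ne_bot hne
        obtain ⟨q, rfl⟩ := QuotientGroup.mk_surjective y
        apply hy
        rw [← QuotientGroup.mk_pow, QuotientGroup.eq_one_iff, Subgroup.mem_subgroupOf,
          Subgroup.coe_pow, sq]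
        exact hp.sq_mem _ (hPQ.ge q.2)
      rintro _ ⟨q, hq, rfl⟩
      have := frattini_le_comap_frattini_of_surjective
        (φ := QuotientGroup.mk' (V.subgroupOf Q)) (QuotientGroup.mk'_surjective _) hq
      rw [hq0, Subgroup.mem_comap, Subgroup.mem_bot, QuotientGroup.mk'_apply,
        QuotientGroup.eq_one_iff] at this
      exact this
    · intro v hv
      obtain ⟨t, ht, w, hw, ht2, hw2, rfl⟩ := hVgen v hv
      refine ⟨_, CfsgLib.Fischer2.sq_mem_frattini hS.isPGroup (⟨t * w, Q.mul_mem ht hw⟩ : ↥Q), ?_⟩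
      change ((⟨t * w, Q.mul_mem ht hw⟩ : ↥Q) ^ 2 : ↥Q).1 = _
      rw [Subgroup.coe_pow, sq, inv_eq_of_mul_eq_one_right ht2, inv_eq_of_mul_eq_one_right hw2]
      group
  · rw [commutator_def, Subgroup.map_commutator, ← MonoidHom.range_eq_map, Subgroup.range_subtype]
    apply le_antisymm
    · exact Subgroup.commutator_le.mpr fun a ha b hb => hp.comm_mem a (hPQ.ge ha) b (hPQ.ge hb)
    · intro v hv
      obtain ⟨t, ht, w, hw, -, -, rfl⟩ := hVgen v hv
      exact Subgroup.commutator_mem_commutator ht hw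

end Cfsg.Agent.S1786
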