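import Cfsg.Statements.S1850
import Cfsg.Agent.Lib.Quasithin.Local
-- import your own Cfsg.Agent.* helpers here

set_option autoImplicit false
open Cfsg

namespace Cfsg.Agent.S1850

/-- Let G be a non-abelian finite simple QTKE-group and T a Sylow 2-subgroup of G. If U is a nontrivial 2-subgroup of G with U ∩ Z(T) ≠ 1, then F*(N_G(U)) = O₂(N_G(U)). -/
theorem result {G : Type*} [Group G] [Finite G] [IsSimpleGroup G]
    (hG : ¬ IsMulCommutative G) (hQ : Cfsg.IsQTKE G) (T : Sylow 2 G) (U : Subgroup G)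
    (hU : IsPGroup 2 ↥U) (hZ : U ⊓ ((T : Subgroup G) ⊓ Subgroup.centralizer ((T : Subgroup G) : Set G)) ≠ ⊥) :
    Subgroup.normalizer (U : Set G) ∈ Cfsg.calHe G := by
  classical
  haveI : Fact (Nat.Prime 2) := ⟨Nat.prime_two⟩
  set W := U ⊓ ((T : Subgroup G) ⊓ Subgroup.centralizer ((T : Subgroup G) : Set G)) with hW
  haveI : Nontrivial W := (Subgroup.nontrivial_iff_ne_bot W).2 hZ
  obtain ⟨n, hn⟩ := IsPGroup.iff_card.1 (hU.to_le (inf_le_left : W ≤ U))
  have hd : 2 ∣ Nat.card W := by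
    rw [hn]; refine dvd_pow_self 2 ?_
    rintro rfl
    have := Finite.one_lt_card (α := W)
    rw [show Nat.card W = 2 ^ 0 from hn] at this
    norm_num at this
  obtain ⟨z0, hz0⟩ := exists_prime_orderOf_dvd_card' 2 hd
  set z : G := (z0 : G) with hzdef
  have hz : orderOf z = 2 := by rw [hzdef, Subgroup.orderOf_coe]; exact hz0
  have hzU : z ∈ U := z0.2.1
  have hzT : ∀ s ∈ (T : Subgroup G), s * z = z * s := Subgroup.mem_centralizer_iff.1 z0.2.2.2
  set C := Subgroup.centralizer ({z} : Set G) with hC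
  have hCc : CfsgLib.Quasithin.CharPGroup 2 C :=
    CfsgLib.Quasithin.charPGroup_centralizer_of_two_central hQ.2.2 T hz hzT
  -- climb from `C_U(z)` to `U` along normalizers
  have hne : ({A : Subgroup G | U ⊓ C ≤ A ∧ A ≤ U ∧
      CfsgLib.Quasithin.CharPGroup 2 (Subgroup.centralizer (A : Set G))}).Nonempty := by
    refine ⟨U ⊓ C, le_rfl, inf_le_left, CfsgLib.Quasithin.charPGroup_centralizer_of_le hCc
      (hU.to_le inf_le_left) inf_le_right ?_⟩
    refine Subgroup.centralizer_le ?_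
    have : z ∈ U ⊓ C := ⟨hzU, Subgroup.mem_centralizer_singleton_iff.2 rfl⟩
    simpa using this
  obtain ⟨A, ⟨hA0, hAU, hAc⟩, hAmax⟩ := Set.Finite.exists_maximal (Set.toFinite _) hne
  have hAeq : A = U := by
    by_contra hne'
    haveI : Group.IsNilpotent U := hU.isNilpotent
    have hlt : A.subgroupOf U < ⊤ :=
      lt_top_iff_ne_top.mpr fun h => hne' (le_antisymm hAU (Subgroup.subgroupOf_eq_top.mp h))
    obtain ⟨u, hu, hu'⟩ := SetLike.exists_of_lt (Group.normalizerCondition_of_isNilpotent _ hlt)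
    have hAB : A ≤ U ⊓ Subgroup.normalizer (A : Set G) := le_inf hAU Subgroup.le_normalizer
    have h1 := hAmax ⟨hA0.trans hAB, inf_le_left,
      CfsgLib.Quasithin.charPGroup_centralizer_mono (hU.to_le inf_le_left) hAB inf_le_right hAc⟩ hAB
    refine hu' (Subgroup.mem_subgroupOf.2 (h1 ⟨u.2, ?_⟩))
    refine Subgroup.mem_normalizer_iff.2 ?_
    intro a
    constructor
    · intro ha
      exact (Subgroup.mem_normalizer_iff.1 hu ⟨a, hAU ha⟩).1 ha
    · intro ha
      have hau : a ∈ U := by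
        have := mul_mem (mul_mem (inv_mem u.2) (hAU ha)) u.2
        simpa [mul_assoc] using this
      exact (Subgroup.mem_normalizer_iff.1 hu ⟨a, hau⟩).2 ha
  subst hAeq
  exact CfsgLib.Quasithin.generalizedFitting_eq_pCore
    (CfsgLib.Quasithin.charPGroup_normalizer_of_centralizer hU hAc)

end Cfsg.Agent.S1850
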