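import Cfsg.Statements.S1851
import Cfsg.Agent.Lib.Quasithin.Local
import Cfsg.Agent.Lib.Quasithin.Perfect
-- import your own Cfsg.Agent.* helpers here

set_option autoImplicit false
open Cfsg

namespace Cfsg.Agent.S1851

section Aux

open CfsgLib.Quasithin CfsgLib.Cores

variable {G : Type*} [Group G]

/-- `Ω₁(Z(X))`. -/
theorem mem_omegaCenter (X : Subgroup G) (x : G) :
    x ∈ Cfsg.omegaOne 2 (X ⊓ Subgroup.centralizer (X : Set G)) ↔
      x ∈ X ∧ x ∈ Subgroup.centralizer (X : Set G) ∧ x ^ 2 = 1 := by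
  constructor
  · intro hx
    induction hx using Subgroup.closure_induction with
    | mem y hy => exact ⟨hy.1.1, hy.1.2, hy.2⟩
    | one => exact ⟨one_mem _, one_mem _, one_pow _⟩
    | mul a b _ _ iha ihb =>
      refine ⟨X.mul_mem iha.1 ihb.1, (Subgroup.centralizer (X : Set G)).mul_mem iha.2.1 ihb.2.1, ?_⟩
      rw [(show Commute a b from (Subgroup.mem_centralizer_iff.1 ihb.2.1 a iha.1)).mul_pow, iha.2.2,
        ihb.2.2, one_mul]
    | inv a _ iha => exact ⟨X.inv_mem iha.1, (Subgroup.centralizer (X : Set G)).inv_mem iha.2.1,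
        by rw [inv_pow, iha.2.2, inv_one]⟩
  · exact fun h => Subgroup.subset_closure ⟨⟨h.1, h.2.1⟩, h.2.2⟩

/-- The facts about a member of `ℒ(G,T)` that are used below. -/
theorem calL_data [Finite G] {T : Sylow 2 G} (hE : Cfsg.IsOfEvenCharacteristic G) {L : Subgroup G}
    (hL : L ∈ Cfsg.calL (T : Subgroup G)) :
    ∃ R : Subgroup G, IsPGroup 2 R ∧ L ⊔ (T : Subgroup G) ≤ Subgroup.normalizer (R : Set G) ∧
      R ≤ (T : Subgroup G) ∧ R ≤ Subgroup.normalizer (L : Set G) ∧ R ⊓ L = Cfsg.pCoreTwoOf L ∧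
      (L ⊔ (T : Subgroup G)) ⊓ Subgroup.centralizer (R : Set G) ≤ R ∧
      (∀ P : Subgroup G, IsPGroup 2 P → P ≤ L ⊔ (T : Subgroup G) →
        L ⊔ (T : Subgroup G) ≤ Subgroup.normalizer (P : Set G) → P ≤ R) ∧
      ⁅L, L⁆ = L ∧ L ≠ ⊥ ∧ CharPGroup 2 L := by
  haveI : Fact (Nat.Prime 2) := ⟨Nat.prime_two⟩
  obtain ⟨⟨hne, hperf, hsub, -⟩, -, hO⟩ := hL
  set H := L ⊔ (T : Subgroup G) with hH
  set S := L.subgroupOf H with hS
  have hLH : L ≤ H := le_sup_left
  have hTH : (T : Subgroup G) ≤ H := le_sup_right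
  have hc : CharPGroup 2 H := charPGroup_of_calHOver hE T hO hTH
  have hperfL : ⁅L, L⁆ = L := by
    have := congrArg (Subgroup.map H.subtype) hperf
    rwa [Subgroup.map_commutator, hS, Subgroup.map_subgroupOf_eq_of_le hLH] at this
  refine ⟨(Cfsg.pCore 2 H).map H.subtype, (isPGroup_pCore 2 H).map _, ?_, ?_, ?_, ?_, ?_, ?_,
    hperfL, ?_, ?_⟩
  · exact Subgroup.le_normalizer.trans (normalizer_le_normalizer_map_subtype H (Cfsg.pCore 2 H))
  · rintro _ ⟨x, hx, rfl⟩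
    exact pCore_le_sylow (T.subtype hTH) hx
  · haveI : Group.IsNilpotent (Cfsg.pCore 2 H) := (isPGroup_pCore 2 H).isNilpotent
    have h := le_normalizer_of_perfect_subnormal (R := Cfsg.pCore 2 H) hsub hperf
    refine (Subgroup.map_mono h).trans ?_
    refine (Subgroup.le_normalizer_map _).trans ?_
    rw [hS, Subgroup.map_subgroupOf_eq_of_le hLH]
  · have h1 := congrArg (Subgroup.map H.subtype) (map_subtype_pCore_eq (p := 2) hsub)
    rw [Subgroup.map_inf _ _ _ H.subtype_injective, hS, Subgroup.map_subgroupOf_eq_of_le hLH] at h1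
    rw [← h1, Cfsg.pCoreTwoOf, ← map_pCore_equiv (p := 2) (Subgroup.subgroupOfEquivOfLe hLH),
      Subgroup.map_map, Subgroup.map_map]
    rfl
  · rintro x ⟨hx, hxc⟩
    refine ⟨⟨x, hx⟩, hc ?_, rfl⟩
    rw [Subgroup.mem_centralizer_iff]
    exact fun v hv => Subtype.ext (Subgroup.mem_centralizer_iff.1 hxc v ⟨v, hv, rfl⟩)
  · intro P hP hPH hPn
    have : P.subgroupOf H ≤ Cfsg.pCore 2 H := by
      haveI : (P.subgroupOf H).Normal := (Subgroup.normal_subgroupOf_iff_le_normalizer hPH).2 hPn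
      exact le_pCore hP.comap_subtype
    intro x hx
    exact ⟨⟨x, hPH hx⟩, this hx, rfl⟩
  · rintro rfl
    exact hne (Subgroup.bot_subgroupOf H)
  · exact (charPGroup_of_subnormal hc hsub).of_equiv (Subgroup.subgroupOfEquivOfLe hLH)

/-- A member of `ℒ(G,T)` above a member of `ℒ_f(G,T)` is in `ℒ_f(G,T)`. -/
theorem calLf_up [Finite G] {T : Sylow 2 G} (hE : Cfsg.IsOfEvenCharacteristic G) {L K : Subgroup G}
    (hL : L ∈ Cfsg.calLf (T : Subgroup G)) (hK : K ∈ Cfsg.calL (T : Subgroup G)) (hLK : L ≤ K) :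
    K ∈ Cfsg.calLf (T : Subgroup G) := by
  haveI : Fact (Nat.Prime 2) := ⟨Nat.prime_two⟩
  obtain ⟨R, hRp, hHR, hRT, hRL, hRinf, hCR, hRmax, hLperf, -, -⟩ := calL_data hE hL.1
  obtain ⟨R', hR'p, hHR', hR'T, hR'K, hR'inf, hCR', -, hKperf, hKne, hKchar⟩ := calL_data hE hK
  refine ⟨hK, ⟨hKne, oddGenerated_eq_of_perfect hKperf, generalizedFitting_eq_pCore hKchar⟩, ?_⟩
  intro hKV
  apply hL.2.2
  rw [Cfsg.moduleV, Subgroup.commutator_eq_bot_iff_le_centralizer] at hKV ⊢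
  set OL := Cfsg.pCoreTwoOf L with hOL
  set OK := Cfsg.pCoreTwoOf K with hOK
  set WL := Cfsg.omegaOne 2 (OL ⊓ Subgroup.centralizer (OL : Set G)) with hWL
  have hOLL : OL ≤ L := Subgroup.map_subtype_le _
  have hR'R : R' ≤ R := hRmax R' hR'p (hR'T.trans le_sup_right)
    ((sup_le_sup_right hLK _).trans hHR')
  -- odd elements of `L` centralize `Ω₁(Z(R))`
  have hfixR : ∀ x ∈ L, Odd (orderOf x) → ∀ w ∈ R, w ∈ Subgroup.centralizer (R : Set G) → w ^ 2 = 1 →
      x * w = w * x := by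
    intro x hxL hxo w hwR hwC hw2
    have hwH : w ∈ K ⊔ (T : Subgroup G) := Subgroup.mem_sup_right (hRT hwR)
    have hwC' : w ∈ Subgroup.centralizer (R' : Set G) :=
      Subgroup.centralizer_le (SetLike.coe_subset_coe.2 hR'R) hwC
    have hwR' : w ∈ R' := hCR' ⟨hwH, hwC'⟩
    have hxK : x ∈ K := hLK hxL
    have hxH : x ∈ K ⊔ (T : Subgroup G) := Subgroup.mem_sup_left hxK
    have hxw : x * w * x⁻¹ ∈ R' := (Subgroup.mem_normalizer_iff.1 (hHR' hxH) w).1 hwR'
    have hxwC : x * w * x⁻¹ ∈ Subgroup.centralizer (R' : Set G) := by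
      rw [Subgroup.mem_centralizer_iff]
      intro r hr
      have hr' : x⁻¹ * r * x ∈ R' := by
        simpa using (Subgroup.mem_normalizer_iff.1 (hHR' (inv_mem hxH)) r).1 hr
      have := congrArg (fun y => x * y * x⁻¹) (Subgroup.mem_centralizer_iff.1 hwC' _ hr')
      simpa [mul_assoc] using this
    set c := w⁻¹ * (x * w * x⁻¹) with hc
    have hcK : c ∈ K := by
      rw [hc, show w⁻¹ * (x * w * x⁻¹) = (w⁻¹ * x * w) * x⁻¹ by simp [mul_assoc]]
      refine K.mul_mem ?_ (K.inv_mem hxK)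
      simpa using (Subgroup.mem_normalizer_iff.1 (hR'K (inv_mem hwR')) x).1 hxK
    have hcR' : c ∈ R' := R'.mul_mem (R'.inv_mem hwR') hxw
    have hcOK : c ∈ OK := hR'inf ▸ ⟨hcR', hcK⟩
    have hc2 : c ^ 2 = 1 := by
      have hcomm : Commute w⁻¹ (x * w * x⁻¹) :=
        Commute.inv_left (show Commute w (x * w * x⁻¹) from Subgroup.mem_centralizer_iff.1 hxwC w hwR')
      rw [hc, hcomm.mul_pow, inv_pow, hw2, conj_pow, hw2]
      simp
    have hcC : c ∈ Subgroup.centralizer (OK : Set G) :=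
      Subgroup.centralizer_le (SetLike.coe_subset_coe.2 (hR'inf ▸ inf_le_left : OK ≤ R'))
        ((Subgroup.centralizer (R' : Set G)).mul_mem ((Subgroup.centralizer (R' : Set G)).inv_mem hwC') hxwC)
    have hxc : x * c * x⁻¹ = c := by
      have := Subgroup.mem_centralizer_iff.1 (hKV ((mem_omegaCenter OK c).2 ⟨hcOK, hcC, hc2⟩)) x hxK
      rw [this, mul_inv_cancel_right]
    exact commute_of_fixed_commutator (p := 2) hxo.coprime_two_right
      (by simp [hc, mul_assoc]) hxc ⟨1, by simpa using hc2⟩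
  -- hence `L` centralizes `Ω₁(Z(O₂(L)))`
  intro w hw

  rw [Subgroup.mem_centralizer_iff]
  intro x hx
  rw [← oddGenerated_eq_of_perfect hLperf] at hx
  suffices key : ∀ x ∈ L, Odd (orderOf x) → ∀ w ∈ WL, x * w = w * x by
    induction hx using Subgroup.closure_induction with
    | mem y hy => exact key y hy.1 hy.2 w hw
    | one => simp
    | mul a b _ _ iha ihb => exact (Commute.mul_left iha ihb : _)
    | inv a _ iha => exact (Commute.inv_left iha : _)
  intro x hxL hxo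
  -- `f w = w⁻¹ x w x⁻¹` commutes with the action of `R`
  have hxn : ∀ v ∈ WL, x * v * x⁻¹ ∈ WL := by
    intro v hv
    obtain ⟨hv1, hv2, hv3⟩ := (mem_omegaCenter OL v).1 hv
    have hOLn : ∀ y ∈ L, ∀ o ∈ OL, y * o * y⁻¹ ∈ OL := fun y hy o ho =>
      (Subgroup.mem_normalizer_iff.1 (normalizer_le_normalizer_map_subtype L (Cfsg.pCore 2 L)
        (Subgroup.le_normalizer hy)) o).1 ho
    refine (mem_omegaCenter OL _).2 ⟨hOLn x hxL v hv1, ?_, by rw [conj_pow, hv3]; simp⟩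
    rw [Subgroup.mem_centralizer_iff]
    intro o ho
    have := congrArg (fun y => x * y * x⁻¹)
      (Subgroup.mem_centralizer_iff.1 hv2 (x⁻¹ * o * x) (by simpa using hOLn x⁻¹ (inv_mem hxL) o ho))
    simpa [mul_assoc] using this
  have hRW : ∀ r ∈ R, ∀ v ∈ WL, r * v * r⁻¹ ∈ WL := by
    intro r hr v hv
    obtain ⟨hv1, hv2, hv3⟩ := (mem_omegaCenter OL v).1 hv
    have hn : ∀ r ∈ R, ∀ o ∈ OL, r * o * r⁻¹ ∈ OL := fun r hr o ho => by
      rw [← hRinf] at ho ⊢
      exact ⟨R.mul_mem (R.mul_mem hr ho.1) (R.inv_mem hr),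
        (Subgroup.mem_normalizer_iff.1 (hRL hr) o).1 ho.2⟩
    refine (mem_omegaCenter OL _).2 ⟨hn r hr v hv1, ?_, by rw [conj_pow, hv3]; simp⟩
    rw [Subgroup.mem_centralizer_iff]
    intro o ho
    have := congrArg (fun y => r * y * r⁻¹)
      (Subgroup.mem_centralizer_iff.1 hv2 (r⁻¹ * o * r) (by simpa using hn r⁻¹ (inv_mem hr) o ho))
    simpa [mul_assoc] using this
  have hcommW : ∀ a ∈ WL, ∀ b ∈ WL, a * b = b * a := fun a ha b hb =>
    Subgroup.mem_centralizer_iff.1 ((mem_omegaCenter OL b).1 hb).2.1 a ((mem_omegaCenter OL a).1 ha).1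
  let f : WL →* WL :=
    { toFun := fun v => ⟨(v : G)⁻¹ * (x * v * x⁻¹), WL.mul_mem (WL.inv_mem v.2) (hxn v v.2)⟩
      map_one' := Subtype.ext (by simp)
      map_mul' := fun a b => Subtype.ext (by
        have h := hcommW (b : G)⁻¹ (WL.inv_mem b.2) ((a : G)⁻¹ * (x * a * x⁻¹))
          (WL.mul_mem (WL.inv_mem a.2) (hxn a a.2))
        simp only [Subgroup.coe_mul]
        calc ((a : G) * b)⁻¹ * (x * (a * b) * x⁻¹)
            = (b : G)⁻¹ * ((a : G)⁻¹ * (x * a * x⁻¹)) * (x * b * x⁻¹) := by simp [mul_assoc]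
          _ = _ := by rw [h]; simp [mul_assoc]) }
  have hf_equiv : ∀ r ∈ R, ∀ v : WL,
      r * (f v : G) * r⁻¹ = (r * (v : G) * r⁻¹)⁻¹ * (x * (r * v * r⁻¹) * x⁻¹) := by
    intro r hr v
    have ho : x⁻¹ * (r * x * r⁻¹) ∈ OL := by
      rw [← hRinf]
      have hxR : x⁻¹ * r * x ∈ R := by
        simpa using (Subgroup.mem_normalizer_iff.1 (hHR (inv_mem (Subgroup.mem_sup_left hxL))) r).1 hr
      refine ⟨?_, L.mul_mem (L.inv_mem hxL) ((Subgroup.mem_normalizer_iff.1 (hRL hr) x).1 hxL)⟩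
      rw [show x⁻¹ * (r * x * r⁻¹) = (x⁻¹ * r * x) * r⁻¹ by simp [mul_assoc]]
      exact R.mul_mem hxR (R.inv_mem hr)
    have h := Subgroup.mem_centralizer_iff.1 ((mem_omegaCenter OL _).1 (hRW r hr v v.2)).2.1 _ ho
    have hrx : r * x * r⁻¹ = x * (x⁻¹ * (r * x * r⁻¹)) := by simp
    change r * ((v : G)⁻¹ * (x * v * x⁻¹)) * r⁻¹ = _
    generalize x⁻¹ * (r * x * r⁻¹) = o at h hrx
    calc r * ((v : G)⁻¹ * (x * v * x⁻¹)) * r⁻¹
        = (r * (v : G) * r⁻¹)⁻¹ * ((r * x * r⁻¹) * (r * v * r⁻¹) * (r * x * r⁻¹)⁻¹) := by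
          simp [mul_assoc]
      _ = (r * (v : G) * r⁻¹)⁻¹ * (x * (o * (r * v * r⁻¹)) * (x * o)⁻¹) := by
          rw [hrx]; simp [mul_assoc]
      _ = _ := by rw [h]; simp [mul_assoc]
  suffices hbot : f.range = ⊥ by
    intro v hv
    have h1 : f ⟨v, hv⟩ = 1 := by
      rw [← Subgroup.mem_bot, ← hbot]; exact ⟨_, rfl⟩
    have h2 : v⁻¹ * (x * v * x⁻¹) = 1 := congrArg Subtype.val h1
    exact mul_inv_eq_iff_eq_mul.1 (inv_mul_eq_one.1 h2).symm
  by_contra hne
  -- otherwise `R` fixes a nontrivial element of the image, and `x` fixes it as well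
  letI act : MulAction R f.range :=
    { smul := fun r u => ⟨⟨(r : G) * ((u : WL) : G) * (r : G)⁻¹, hRW r r.2 _ (u : WL).2⟩, by
        obtain ⟨v, hv⟩ := u.2
        refine ⟨⟨(r : G) * v * (r : G)⁻¹, hRW r r.2 _ v.2⟩, Subtype.ext ?_⟩
        rw [← hv]
        exact (hf_equiv r r.2 v).symm⟩
      one_smul := fun u => Subtype.ext (Subtype.ext (by
        change ((1 : R) : G) * _ * ((1 : R) : G)⁻¹ = _
        simp))
      mul_smul := fun r r' u => Subtype.ext (Subtype.ext (by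
        change ((r * r' : R) : G) * _ * ((r * r' : R) : G)⁻¹ = (r : G) * ((r' : G) * _ * (r' : G)⁻¹) * (r : G)⁻¹
        simp [mul_assoc])) }
  have hWp : IsPGroup 2 WL := fun a => ⟨1, Subtype.ext (by
    simpa using ((mem_omegaCenter OL a).1 a.2).2.2)⟩
  haveI : Nontrivial f.range := (Subgroup.nontrivial_iff_ne_bot _).2 hne
  have hdvd : 2 ∣ Nat.card f.range := by
    obtain ⟨n, hn⟩ := IsPGroup.iff_card.1 (hWp.to_subgroup f.range)
    rw [hn]; refine dvd_pow_self 2 ?_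
    rintro rfl
    have := Finite.one_lt_card (α := f.range)
    omega
  have h1fix : (1 : f.range) ∈ MulAction.fixedPoints R f.range := fun r => Subtype.ext (Subtype.ext (by
    change (r : G) * (1 : G) * (r : G)⁻¹ = 1
    simp))
  obtain ⟨u, hu, hu1⟩ := hRp.exists_fixed_point_of_prime_dvd_card_of_fixed_point _ hdvd h1fix
  obtain ⟨v, hv⟩ := u.2
  have huC : ∀ r ∈ R, r * ((u : WL) : G) * r⁻¹ = ((u : WL) : G) := fun r hr =>
    congrArg (fun y : f.range => ((y : WL) : G)) (hu ⟨r, hr⟩)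
  obtain ⟨huO, -, hu2⟩ := (mem_omegaCenter OL _).1 (u : WL).2
  have hxu : x * ((u : WL) : G) * x⁻¹ = ((u : WL) : G) := by
    rw [hfixR x hxL hxo _ (by rw [← hRinf] at huO; exact huO.1)
      (Subgroup.mem_centralizer_iff.2 fun r hr => mul_inv_eq_iff_eq_mul.1 (huC r hr)) hu2,
      mul_inv_cancel_right]
  have hcomm : x * (v : G) = v * x := by
    refine commute_of_fixed_commutator (p := 2) (c := ((u : WL) : G)) hxo.coprime_two_right ?_ hxu
      ⟨1, by simpa using hu2⟩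
    rw [← hv]
    change x * (v : G) * x⁻¹ = v * ((v : G)⁻¹ * (x * v * x⁻¹))
    simp
  refine hu1 (Subtype.ext (Subtype.ext ?_))
  rw [← hv]
  change 1 = (v : G)⁻¹ * (x * v * x⁻¹)
  rw [hcomm]
  simp

end Aux

/-- Let G be a non-abelian finite simple QTKE-group and T a Sylow 2-subgroup of G, and let L be a member of ℒ_f(G, T) (a member of ℒ(G, T) that lies in 𝒳 — L ≠ 1, L = O²(L), F*(L) = O₂(L) — and acts nontrivially on Ω₁(Z(O₂(L)))). Then (1) every member K of ℒ(G, T) containing L is again in ℒ_f(G, T) (a sharper form of (1) also compares the modules [Ω₁(Z(R)), L] and [Ω₁(Z(R')), K] for suitable 2-subgroups R, R'; that comparison is not included); and (2) if L is maximal under inclusion among the members of ℒ_f(G, T), then L is a maximal member of ℒ(G, T), hence a member of ℒ_f*(G, T). -/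
theorem result {G : Type*} [Group G] [Finite G] [IsSimpleGroup G]
    (hG : ¬ IsMulCommutative G) (hQ : Cfsg.IsQTKE G) (T : Sylow 2 G) (L : Subgroup G)
    (hL : L ∈ Cfsg.calLf (T : Subgroup G)) :
    (∀ K ∈ Cfsg.calL (T : Subgroup G), L ≤ K → K ∈ Cfsg.calLf (T : Subgroup G)) ∧
    ((∀ K ∈ Cfsg.calLf (T : Subgroup G), L ≤ K → K = L) → L ∈ Cfsg.calLfMax (T : Subgroup G)) := by
  classical
  have h1 : ∀ K ∈ Cfsg.calL (T : Subgroup G), L ≤ K → K ∈ Cfsg.calLf (T : Subgroup G) := fun K hK hLK =>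
    calLf_up hQ.2.2 hL hK hLK
  refine ⟨h1, fun hmax => ⟨⟨hL.1, fun K hK hLK => hmax K (h1 K hK hLK) hLK⟩, hL.2⟩⟩

end Cfsg.Agent.S1851
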