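import Cfsg.Statements.S1957
import Cfsg.Agent.Lib.Cores.PCore
import Cfsg.Agent.Lib.CoprimeAction.Abelian
import Cfsg.Agent.Lib.PSolvable.FrattiniFacts

set_option autoImplicit false
set_option linter.style.haveILetI false
open Cfsg

namespace Cfsg.Agent.S1957


open scoped commutatorElement IsMulCommutative

variable {G : Type*} [Group G] [Finite G]

/-- In a group of characteristic 2 an element stabilising `O₂ ≥ ⟨a⟩ ≥ 1`, `a` a central involution, lies
in `O₂`. -/
theorem mem_pCore_of_stabilizes {H : Type*} [Group H] [Finite H] (hH : Cfsg.IsOfCharacteristicTwo H)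
    {a : H} (ha : a ∈ Subgroup.center H) (ha2 : a ^ 2 = 1) {b : H}
    (hb : ∀ x ∈ pCore 2 H, ⁅x, b⁆ ∈ Subgroup.zpowers a) : b ∈ pCore 2 H := by
  set R := pCore 2 H with hR
  set Z := Subgroup.zpowers a with hZ
  haveI : Z.Normal := ⟨fun z hz g => by
    have hzc : z ∈ Subgroup.center H := (Subgroup.zpowers_le.2 ha) hz
    rwa [Subgroup.mem_center_iff.1 hzc g, mul_inv_cancel_right]⟩
  set π := QuotientGroup.mk' Z with hπ
  haveI : (R.map π).Normal :=
    (inferInstance : R.Normal).map π (QuotientGroup.mk'_surjective Z)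
  set S := (Subgroup.centralizer ((R.map π : Subgroup (H ⧸ Z)) : Set (H ⧸ Z))).comap π with hS
  haveI : S.Normal := (inferInstance :
    (Subgroup.centralizer ((R.map π : Subgroup (H ⧸ Z)) : Set (H ⧸ Z))).Normal).comap π
  have hbS : b ∈ S := by
    rw [hS, Subgroup.mem_comap, Subgroup.mem_centralizer_iff]
    rintro _ ⟨x, hx, rfl⟩
    rw [← commutatorElement_eq_one_iff_mul_comm, ← map_commutatorElement]
    exact (QuotientGroup.eq_one_iff _).2 (hb x hx)
  have hsq : ∀ s ∈ S, s ^ 2 ∈ R := by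
    intro s hs
    refine hH (Subgroup.mem_centralizer_iff.2 fun x hx => ?_)
    have h1 := Subgroup.mem_centralizer_iff.1 (Subgroup.mem_comap.1 hs) _ (Subgroup.mem_map_of_mem π hx)
    rw [← commutatorElement_eq_one_iff_mul_comm, ← map_commutatorElement] at h1
    obtain ⟨i, hi⟩ := Subgroup.mem_zpowers_iff.1 ((QuotientGroup.eq_one_iff _).1 h1)
    set z := a ^ i with hz
    have hzc : ∀ g, g * z = z * g := fun g => Subgroup.mem_center_iff.1 (zpow_mem ha i) g
    have hz2 : z * z = 1 := by rw [hz, ← zpow_add, ← two_mul, zpow_mul, zpow_ofNat, ha2, one_zpow]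
    have hsx : x * s = z * (s * x) := by rw [hi, commutatorElement_def]; group
    calc x * s ^ 2 = (x * s) * s := by rw [pow_two, mul_assoc]
      _ = (z * (s * x)) * s := by rw [hsx]
      _ = z * (s * (x * s)) := by group
      _ = z * (s * (z * (s * x))) := by rw [hsx]
      _ = z * ((s * z) * (s * x)) := by group
      _ = z * ((z * s) * (s * x)) := by rw [hzc s]
      _ = (z * z) * (s * (s * x)) := by group
      _ = s ^ 2 * x := by rw [hz2, one_mul, pow_two, mul_assoc]
  refine CfsgLib.Cores.le_pCore (N := S) (fun s => ?_) hbS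
  obtain ⟨k, hk⟩ := CfsgLib.Cores.isPGroup_pCore 2 H ⟨_, hsq s s.2⟩
  refine ⟨k + 1, Subtype.ext ?_⟩
  have h2 := congrArg Subtype.val hk
  simp only [SubmonoidClass.coe_pow, OneMemClass.coe_one] at h2
  rw [SubmonoidClass.coe_pow, OneMemClass.coe_one, pow_succ', pow_mul]
  exact h2

/-- A normalising element fixing `a` moves a four-group inside cosets of `⟨a⟩`. -/
theorem commutator_mem_zpowers {U : Subgroup G} (hU4 : IsKleinFour ↥U) {a b x : G} (ha : a ∈ U)
    (ha1 : a ≠ 1) (hb : b ∈ U) (hx : x ∈ Subgroup.normalizer (U : Set G)) (hxa : x * a = a * x) :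
    ⁅x, b⁆ ∈ Subgroup.zpowers a := by
  have hsq : ∀ u ∈ U, u * u = 1 := fun u hu =>
    congrArg Subtype.val (IsKleinFour.mul_self (⟨u, hu⟩ : U))
  by_cases hb1 : b = 1
  · rw [hb1, commutatorElement_one_right]; exact one_mem _
  by_cases hba : b = a
  · rw [hba, commutatorElement_eq_one_iff_mul_comm.2 hxa]; exact one_mem _
  set c := x * b * x⁻¹ with hc
  have hcU : c ∈ U := (Subgroup.mem_normalizer_iff.1 hx b).1 hb
  have hc1 : c ≠ 1 := fun e => hb1 (conj_eq_one_iff.1 e)
  have hca : c ≠ a := fun e => hba (by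
    have h2 : x * b * x⁻¹ = x * a * x⁻¹ := by rw [← hc, e, hxa, mul_inv_cancel_right]
    simpa using h2)
  rw [commutatorElement_def, ← hc]
  by_cases hcb : c = b
  · rw [hcb, mul_inv_cancel]; exact one_mem _
  have h3 := IsKleinFour.eq_mul_of_ne_all (x := (⟨a, ha⟩ : U)) (y := ⟨b, hb⟩) (z := ⟨c, hcU⟩)
    (fun e => ha1 (congrArg Subtype.val e)) (fun e => hb1 (congrArg Subtype.val e))
    (fun e => hba (congrArg Subtype.val e).symm) (fun e => hc1 (congrArg Subtype.val e))
    (fun e => hca (congrArg Subtype.val e)) (fun e => hcb (congrArg Subtype.val e))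
  rw [show c = a * b from congrArg Subtype.val h3, mul_inv_cancel_right]
  exact Subgroup.mem_zpowers a

theorem centralizer_eq_normalizer_zpowers {a : G} (ha1 : a ≠ 1) (ha2 : a ^ 2 = 1) :
    Subgroup.centralizer ({a} : Set G) = Subgroup.normalizer (Subgroup.zpowers a : Set G) := by
  refine le_antisymm (fun x hx => Subgroup.mem_normalizer_fintype fun y hy => ?_) fun x hx => ?_
  · obtain ⟨i, rfl⟩ := Subgroup.mem_zpowers_iff.1 hy
    have hc : Commute x a := Subgroup.mem_centralizer_singleton_iff.1 hx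
    rw [(hc.zpow_right i).eq, mul_inv_cancel_right]
    exact zpow_mem (Subgroup.mem_zpowers a) i
  · obtain ⟨i, hi⟩ :=
      Subgroup.mem_zpowers_iff.1 ((Subgroup.mem_normalizer_iff.1 hx a).1 (Subgroup.mem_zpowers a))
    rw [Subgroup.mem_centralizer_singleton_iff]
    rcases Int.even_or_odd i with ⟨k, rfl⟩ | ⟨k, rfl⟩
    · exfalso
      rw [← two_mul, zpow_mul, zpow_ofNat, ha2, one_zpow] at hi
      exact ha1 (conj_eq_one_iff.1 hi.symm)
    · rw [zpow_add_one, zpow_mul, zpow_ofNat, ha2, one_zpow, one_mul] at hi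
      exact (eq_mul_inv_iff_mul_eq.1 hi).symm

/-- Every centralizer in `U#` has a Sylow 2-subgroup normalizing `U`. -/
theorem exists_sylow_normalizing (P : Sylow 2 G) {U : Subgroup G} (hUP : U ≤ (P : Subgroup G))
    (hUn : (P : Subgroup G) ≤ Subgroup.normalizer (U : Set G)) (hU4 : IsKleinFour ↥U)
    (hUZ : ¬ IsCyclic ↥((P : Subgroup G) ⊓ Subgroup.centralizer ((P : Subgroup G) : Set G)) →
      U ≤ Subgroup.centralizer ((P : Subgroup G) : Set G))
    {a : G} (ha : a ∈ U) (ha1 : a ≠ 1) :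
    ∃ T : Sylow 2 ↥(Subgroup.centralizer ({a} : Set G)),
      (T : Subgroup ↥(Subgroup.centralizer ({a} : Set G))).map (Subgroup.centralizer ({a} : Set G)).subtype
        ≤ Subgroup.normalizer (U : Set G) := by
  set H := Subgroup.centralizer ({a} : Set G) with hH
  by_cases hac : a ∈ Subgroup.centralizer ((P : Subgroup G) : Set G)
  · have hPH : (P : Subgroup G) ≤ H := fun x hx =>
      Subgroup.mem_centralizer_singleton_iff.2 (Subgroup.mem_centralizer_iff.1 hac x hx)
    refine ⟨P.subtype hPH, ?_⟩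
    rw [Sylow.coe_subtype, Subgroup.map_subgroupOf_eq_of_le hPH]
    exact hUn
  haveI hcyc : IsCyclic ↥((P : Subgroup G) ⊓ Subgroup.centralizer ((P : Subgroup G) : Set G)) :=
    by_contra fun e => hac (hUZ e ha)
  have hsq : ∀ u ∈ U, u * u = 1 := fun u hu =>
    congrArg Subtype.val (IsKleinFour.mul_self (⟨u, hu⟩ : U))
  -- the central involution of `U`
  obtain ⟨u, hu, huc, hu1⟩ : ∃ u ∈ U, u ∈ Subgroup.centralizer ((P : Subgroup G) : Set G) ∧ u ≠ 1 := by
    haveI := P.2.isNilpotent
    haveI : (U.subgroupOf (P : Subgroup G)).Normal := (Subgroup.normal_subgroupOf_iff_le_normalizer hUP).2 hUn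
    have hne : U.subgroupOf (P : Subgroup G) ≠ ⊥ := fun e => ha1 (by
      have h1 : (⟨a, hUP ha⟩ : (P : Subgroup G)) ∈ U.subgroupOf (P : Subgroup G) := ha
      rw [e, Subgroup.mem_bot] at h1
      exact congrArg Subtype.val h1)
    obtain ⟨y, hy, hy1⟩ :=
      (Subgroup.bot_or_exists_ne_one _).resolve_left (CfsgLib.PSolvable.inf_center_ne_bot hne)
    exact ⟨y, hy.1, Subgroup.mem_centralizer_iff.2 fun x hx =>
      congrArg Subtype.val (Subgroup.mem_center_iff.1 hy.2 ⟨x, hx⟩), fun e => hy1 (Subtype.ext e)⟩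
  have huniq : ∀ z ∈ (P : Subgroup G), z ∈ Subgroup.centralizer ((P : Subgroup G) : Set G) →
      z ^ 2 = 1 → z = 1 ∨ z = u := by
    intro z hzP hzc hz2
    set C := (P : Subgroup G) ⊓ Subgroup.centralizer ((P : Subgroup G) : Set G)
    by_contra hcon
    push Not at hcon
    let z' : C := ⟨z, hzP, hzc⟩
    let u' : C := ⟨u, hUP hu, huc⟩
    classical
    haveI : Fintype C := Fintype.ofFinite C
    have h3 := IsCyclic.card_pow_eq_one_le (α := C) (n := 2) two_pos
    have h4 : ({1, z', u'} : Finset C) ⊆ Finset.univ.filter fun y => y ^ 2 = 1 := by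
      intro y hy
      simp only [Finset.mem_insert, Finset.mem_singleton] at hy
      simp only [Finset.mem_filter, Finset.mem_univ, true_and]
      rcases hy with rfl | rfl | rfl
      · exact one_pow 2
      · exact Subtype.ext (by simpa using hz2)
      · exact Subtype.ext (by simpa [pow_two] using hsq u hu)
    have h5 : ({1, z', u'} : Finset C).card = 3 := Finset.card_eq_three.2
      ⟨1, z', u', fun e => hcon.1 (congrArg Subtype.val e).symm,
        fun e => hu1 (congrArg Subtype.val e).symm, fun e => hcon.2 (congrArg Subtype.val e), rfl⟩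
    have := Finset.card_le_card h4
    omega
  have hau : a ≠ u := fun e => hac (e ▸ huc)
  set P₁ := (P : Subgroup G) ⊓ Subgroup.centralizer ({a} : Set G) with hP₁
  have hUP₁ : U ≤ P₁ := le_inf hUP fun w hw => Subgroup.mem_centralizer_singleton_iff.2
    (congrArg Subtype.val ((IsKleinFour.isMulCommutative (G := ↥U)).is_comm.comm ⟨w, hw⟩ ⟨a, ha⟩))
  have hcU : ∀ x ∈ P₁, x ∈ Subgroup.centralizer (U : Set G) := by
    intro x hx
    refine Subgroup.mem_centralizer_iff.2 fun w hw => ?_
    have h1 : x * a = a * x := Subgroup.mem_centralizer_singleton_iff.1 hx.2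
    have h2 : x * u = u * x := Subgroup.mem_centralizer_iff.1 huc x hx.1
    by_cases hw1 : w = 1
    · simp [hw1]
    by_cases hwa : w = a
    · rw [hwa]; exact h1.symm
    by_cases hwu : w = u
    · rw [hwu]; exact h2.symm
    have h3 := IsKleinFour.eq_mul_of_ne_all (x := (⟨a, ha⟩ : U)) (y := ⟨u, hu⟩) (z := ⟨w, hw⟩)
      (fun e => ha1 (congrArg Subtype.val e)) (fun e => hu1 (congrArg Subtype.val e))
      (fun e => hau (congrArg Subtype.val e)) (fun e => hw1 (congrArg Subtype.val e))
      (fun e => hwa (congrArg Subtype.val e)) (fun e => hwu (congrArg Subtype.val e))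
    rw [show w = a * u from congrArg Subtype.val h3]
    exact ((show Commute x a from h1).mul_right h2).eq.symm
  -- elements of `P` outside `P₁`
  obtain ⟨x₀, hx₀, hx₀a⟩ : ∃ x ∈ (P : Subgroup G), x * a ≠ a * x := by
    by_contra hcon
    push Not at hcon
    exact hac (Subgroup.mem_centralizer_iff.2 hcon)
  have hmove : ∀ x ∈ (P : Subgroup G), x * a ≠ a * x → x * a * x⁻¹ = u * a := by
    intro x hx hxa
    have h2 := commutator_mem_zpowers hU4 hu hu1 ha (hUn hx)
      (Subgroup.mem_centralizer_iff.1 huc x hx)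
    obtain ⟨i, hi⟩ := Subgroup.mem_zpowers_iff.1 h2
    rw [commutatorElement_def, eq_mul_inv_iff_mul_eq] at hi
    rcases Int.even_or_odd i with ⟨k, rfl⟩ | ⟨k, rfl⟩
    · rw [← two_mul, zpow_mul, zpow_ofNat, pow_two, hsq u hu, one_zpow, one_mul] at hi
      exact absurd (eq_mul_inv_iff_mul_eq.1 hi).symm hxa
    · rw [zpow_add_one, zpow_mul, zpow_ofNat, pow_two, hsq u hu, one_zpow, one_mul] at hi
      exact hi.symm
  have hx₀sq : x₀ * x₀ ∈ P₁ := by
    refine ⟨mul_mem hx₀ hx₀, Subgroup.mem_centralizer_singleton_iff.2 ?_⟩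
    have h1 := hmove x₀ hx₀ hx₀a
    have h2 : x₀ * u = u * x₀ := Subgroup.mem_centralizer_iff.1 huc x₀ hx₀
    rw [mul_inv_eq_iff_eq_mul] at h1
    calc x₀ * x₀ * a = x₀ * (x₀ * a) := mul_assoc _ _ _
      _ = (x₀ * u) * a * x₀ := by rw [h1]; group
      _ = u * (x₀ * a) * x₀ := by rw [h2]; group
      _ = (u * u) * a * (x₀ * x₀) := by rw [h1]; group
      _ = a * (x₀ * x₀) := by rw [hsq u hu, one_mul]
  have hindex : (P₁.subgroupOf (P : Subgroup G)).index = 2 := by
    refine Subgroup.index_eq_two_iff.2 ⟨⟨x₀, hx₀⟩, fun b => ?_⟩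
    by_cases hb : (b : (P : Subgroup G)) ∈ P₁.subgroupOf (P : Subgroup G)
    · refine Or.inr ⟨hb, fun h1 => hx₀a ?_⟩
      have h2 := mul_mem (inv_mem hb) h1
      rw [inv_mul_cancel_left, Subgroup.mem_subgroupOf] at h2
      exact Subgroup.mem_centralizer_singleton_iff.1 h2.2
    · refine Or.inl ⟨?_, hb⟩
      have hb' : (b : G) * a ≠ a * b := fun e =>
        hb ⟨b.2, Subgroup.mem_centralizer_singleton_iff.2 e⟩
      have h1 := hmove _ b.2 hb'
      have h2 := hmove _ hx₀ hx₀a
      have h3 : (b : G) * u = u * b := Subgroup.mem_centralizer_iff.1 huc b b.2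
      rw [mul_inv_eq_iff_eq_mul] at h1 h2
      refine Subgroup.mem_subgroupOf.2 ⟨mul_mem b.2 hx₀, Subgroup.mem_centralizer_singleton_iff.2 ?_⟩
      show (b : G) * x₀ * a = a * ((b : G) * x₀)
      calc (b : G) * x₀ * a = (b * u) * a * x₀ := by rw [mul_assoc, h2]; group
        _ = u * (b * a) * x₀ := by rw [h3]; group
        _ = (u * u) * a * (b * x₀) := by rw [h1]; group
        _ = a * (b * x₀) := by rw [hsq u hu, one_mul]
  have hP₁H : P₁ ≤ H := inf_le_right
  have hp₁ : IsPGroup 2 P₁ := P.2.to_le inf_le_left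
  obtain ⟨T, hT⟩ := (hp₁.comap_subtype (H := P₁) : IsPGroup 2 (P₁.subgroupOf H)).exists_le_sylow
  refine ⟨T, ?_⟩
  set T' := (T : Subgroup H).map H.subtype with hT'
  have hP₁T : P₁ ≤ T' := fun x hx => ⟨⟨x, hP₁H hx⟩, hT hx, rfl⟩
  -- the involutions of `Z(P₁)` form `U`
  have hZ0 : ∀ z ∈ P₁, (∀ w ∈ P₁, w * z = z * w) → z ^ 2 = 1 → z ∈ U := by
    intro z hz hzc hz2
    have hfix : ∀ y ∈ P₁, (∀ w ∈ P₁, w * y = y * w) → y ^ 2 = 1 → x₀ * y = y * x₀ → y ∈ U := by
      intro y hy hyc hy2 hyx
      have hyP : y ∈ Subgroup.centralizer ((P : Subgroup G) : Set G) := by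
        refine Subgroup.mem_centralizer_iff.2 fun w hw => ?_
        by_cases hw1 : w ∈ P₁
        · exact hyc w hw1
        have hwx : w * x₀ ∈ P₁ := by
          exact (Subgroup.mem_subgroupOf (H := P₁) (K := (P : Subgroup G))
            (h := ⟨w, hw⟩ * ⟨x₀, hx₀⟩)).1 ((Subgroup.mul_mem_iff_of_index_two hindex).2
              (iff_of_false (fun e => hw1 e) (fun e => hx₀a
                (Subgroup.mem_centralizer_singleton_iff.1 (Subgroup.mem_subgroupOf.1 e).2))))
        have h1 := hyc _ hwx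
        rw [mul_assoc, hyx, ← mul_assoc, ← mul_assoc] at h1
        exact mul_right_cancel h1
      rcases huniq y hy.1 hyP hy2 with rfl | rfl
      · exact one_mem _
      · exact hu
    have hzu : z * u = u * z := Subgroup.mem_centralizer_iff.1 huc z hz.1
    have hxP : ∀ w ∈ P₁, x₀⁻¹ * w * x₀ ∈ P₁ := by
      intro w hw
      haveI := Subgroup.normal_of_index_eq_two hindex
      have := (inferInstance : (P₁.subgroupOf (P : Subgroup G)).Normal).conj_mem ⟨w, hw.1⟩ hw
        (⟨x₀, hx₀⟩⁻¹)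
      simpa [Subgroup.mem_subgroupOf] using this
    set z' := x₀ * z * x₀⁻¹ with hz'
    have hz'c : ∀ w ∈ P₁, w * z' = z' * w := fun w hw => by
      have := hzc _ (hxP w hw)
      calc w * z' = x₀ * ((x₀⁻¹ * w * x₀) * z) * x₀⁻¹ := by rw [hz']; group
        _ = z' * w := by rw [this, hz']; group
    have hz'P : z' ∈ P₁ := by
      haveI := Subgroup.normal_of_index_eq_two hindex
      exact Subgroup.mem_subgroupOf.1 ((inferInstance : (P₁.subgroupOf (P : Subgroup G)).Normal).conj_mem
        ⟨z, hz.1⟩ hz ⟨x₀, hx₀⟩)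
    have hcomm : z * z' = z' * z := hz'c z hz
    have hz'2 : z' ^ 2 = 1 := by rw [hz', conj_pow, hz2, mul_one, mul_inv_cancel]
    have hxz : x₀ * z = z' * x₀ := by rw [hz']; group
    have hxz' : x₀ * z' = z * x₀ := by
      have := hzc _ hx₀sq
      calc x₀ * z' = (x₀ * x₀ * z) * (x₀ * x₀)⁻¹ * x₀ := by rw [hz']; group
        _ = z * x₀ := by rw [this]; group
    have hy : z * z' = 1 ∨ z * z' = u := by
      refine huniq _ (mul_mem hz.1 hz'P.1) (Subgroup.mem_centralizer_iff.2 fun w hw => ?_)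
        (by rw [(show Commute z z' from hcomm).mul_pow, hz2, hz'2, one_mul])
      by_cases hw1 : w ∈ P₁
      · exact ((show Commute w z from hzc w hw1).mul_right (hz'c w hw1)).eq
      have hwx : w * x₀ ∈ P₁ := (Subgroup.mem_subgroupOf (H := P₁) (K := (P : Subgroup G))
        (h := ⟨w, hw⟩ * ⟨x₀, hx₀⟩)).1 ((Subgroup.mul_mem_iff_of_index_two hindex).2
          (iff_of_false (fun e => hw1 e) (fun e => hx₀a
            (Subgroup.mem_centralizer_singleton_iff.1 (Subgroup.mem_subgroupOf.1 e).2))))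
      have h1 : x₀ * (z * z') = (z * z') * x₀ := by
        rw [← mul_assoc, hxz, mul_assoc, hxz', ← mul_assoc, hcomm]
      have h2 := ((show Commute (w * x₀) z from hzc _ hwx).mul_right (hz'c _ hwx)).eq
      rw [mul_assoc, h1, ← mul_assoc, ← mul_assoc] at h2
      have h3 : w * (z * z') * x₀ = (z * z') * w * x₀ := by
        simp only [mul_assoc] at h2 ⊢; exact h2
      exact mul_right_cancel h3
    rcases hy with hy | hy
    · refine hfix z hz hzc hz2 ?_
      have : z' = z := by
        rw [eq_inv_of_mul_eq_one_right hy, inv_eq_iff_mul_eq_one, ← pow_two, hz2]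
      rw [hxz, this]
    · have hz'e : z' = z * u := by
        rw [← hy, ← mul_assoc, ← pow_two, hz2, one_mul]
      have hax : x₀ * a = u * a * x₀ := mul_inv_eq_iff_eq_mul.1 (hmove x₀ hx₀ hx₀a)
      have haP : a ∈ P₁ := hUP₁ ha
      have haz : a * z = z * a := hzc a haP
      have hau' : a * u = u * a := Subgroup.mem_centralizer_iff.1 huc a haP.1
      have h1 : z * a ∈ U := hfix (z * a) (mul_mem hz haP)
        (fun w hw => ((show Commute w z from hzc w hw).mul_right
          (Subgroup.mem_centralizer_iff.1 (hcU w hw) a ha).symm).eq)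
        (by rw [(show Commute a z from haz).symm.mul_pow, hz2, one_mul, pow_two, hsq a ha]) (by
          calc x₀ * (z * a) = z' * (x₀ * a) := by rw [← mul_assoc, hxz, mul_assoc]
            _ = z * (u * u) * a * x₀ := by rw [hz'e, hax]; group
            _ = z * a * x₀ := by rw [hsq u hu, mul_one])
      simpa [mul_assoc, hsq a ha] using mul_mem h1 ha
  -- `P₁` has index at most 2 in `T'`
  have hcard : Nat.card T' ≤ 2 * Nat.card P₁ := by
    obtain ⟨Q, hQ⟩ := (T.2.map H.subtype).exists_le_sylow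
    have h1 := Subgroup.card_le_of_le hQ
    rw [Sylow.card_eq_multiplicity Q, ← Sylow.card_eq_multiplicity P] at h1
    have h2 := Subgroup.card_mul_index (P₁.subgroupOf (P : Subgroup G))
    rw [hindex, Nat.card_congr (Subgroup.subgroupOfEquivOfLe (inf_le_left : P₁ ≤ (P : Subgroup G))).toEquiv] at h2
    exact (h1.trans h2.ge).trans (le_of_eq (mul_comm _ _))
  have hnorm : T' ≤ Subgroup.normalizer (P₁ : Set G) := by
    rw [← Subgroup.normal_subgroupOf_iff_le_normalizer hP₁T]
    have h2 := Subgroup.card_mul_index (P₁.subgroupOf T')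
    rw [Nat.card_congr (Subgroup.subgroupOfEquivOfLe hP₁T).toEquiv] at h2
    have h3 : (P₁.subgroupOf T').index ≤ 2 := by
      by_contra hlt
      have : 3 * Nat.card P₁ ≤ Nat.card P₁ * (P₁.subgroupOf T').index := by
        rw [mul_comm]; exact Nat.mul_le_mul le_rfl (by omega)
      have := Nat.card_pos (α := P₁)
      omega
    have h4 : (P₁.subgroupOf T').index ≠ 0 := Subgroup.index_ne_zero_of_finite
    rcases (show (P₁.subgroupOf T').index = 1 ∨ (P₁.subgroupOf T').index = 2 by omega) with h5 | h5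
    · rw [Subgroup.index_eq_one.1 h5]; infer_instance
    · exact Subgroup.normal_of_index_eq_two h5
  intro t ht
  refine Subgroup.mem_normalizer_fintype fun w hw => ?_
  refine hZ0 _ ((Subgroup.mem_normalizer_iff.1 (hnorm ht) w).1 (hUP₁ hw)) (fun y hy => ?_) ?_
  · have hy' : t⁻¹ * y * t ∈ P₁ := by
      simpa using (Subgroup.mem_normalizer_iff.1 (inv_mem (hnorm ht)) y).1 hy
    have := Subgroup.mem_centralizer_iff.1 (hcU _ hy') w hw
    calc y * (t * w * t⁻¹) = t * ((t⁻¹ * y * t) * w) * t⁻¹ := by group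
      _ = t * w * t⁻¹ * y := by rw [← this]; group
  · rw [conj_pow, pow_two, hsq w hw, mul_one, mul_inv_cancel]

/-- Let `G` be a finite non-abelian simple group in which every local subgroup is solvable and which is of characteristic 2 type. Let `P` be a Sylow 2-subgroup of `G` and `U` a normal subgroup of `P` that is a four-group, with `U` central in `P` if the centre of `P` is not cyclic. Then `U` centralizes every subgroup of odd order of `G` that it normalizes. -/
theorem result {G : Type*} [Group G] [Finite G]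
    [IsSimpleGroup G] (hna : ¬ IsMulCommutative G) (hN : Cfsg.IsNGroup G) (h2 : Cfsg.IsCharacteristicTwoType G)
    (P : Sylow 2 G) (U : Subgroup G) (hUP : U ≤ (P : Subgroup G)) (hUn : (P : Subgroup G) ≤ Subgroup.normalizer (U : Set G))
    (hU4 : IsKleinFour ↥U)
    (hUZ : ¬ IsCyclic ↥((P : Subgroup G) ⊓ Subgroup.centralizer ((P : Subgroup G) : Set G)) →
      U ≤ Subgroup.centralizer ((P : Subgroup G) : Set G))
    (K : Subgroup G) (hK : Odd (Nat.card K)) (hUK : U ≤ Subgroup.normalizer (K : Set G)) :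
    U ≤ Subgroup.centralizer (K : Set G) := by
  have hsq : ∀ u ∈ U, u * u = 1 := fun u hu =>
    congrArg Subtype.val (IsKleinFour.mul_self (⟨u, hu⟩ : U))
  haveI : IsMulCommutative U := IsKleinFour.isMulCommutative
  haveI := hU4
  have hcop : (Nat.card U).Coprime (Nat.card K) := by
    rw [hU4.card_four, show (4 : ℕ) = 2 ^ 2 by norm_num]
    exact (hK.coprime_two_right.symm).pow_left 2
  have hle : K ≤ Subgroup.centralizer (U : Set G) := by
    refine CfsgLib.CoprimeAction.le_of_centralizers IsKleinFour.not_isCyclic hUK hcop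
      fun a ha ha1 => ?_
    set H := Subgroup.centralizer ({a} : Set G) with hH
    have ha2 : a ^ 2 = 1 := by rw [pow_two, hsq a ha]
    have hab : Subgroup.zpowers a ≠ ⊥ := by rw [Ne, Subgroup.zpowers_eq_bot]; exact ha1
    have hap : IsPGroup 2 (Subgroup.zpowers a) :=
      IsPGroup.iff_card.2 ⟨1, by rw [Nat.card_zpowers, pow_one]; exact orderOf_eq_prime ha2 ha1⟩
    have hHchar : Cfsg.IsOfCharacteristicTwo H := by
      have := h2.2 _ hap hab
      rwa [← centralizer_eq_normalizer_zpowers ha1 ha2] at this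
    obtain ⟨T, hT⟩ := exists_sylow_normalizing P hUP hUn hU4 hUZ ha ha1
    have hUH : U ≤ H := fun w hw => Subgroup.mem_centralizer_singleton_iff.2
      (congrArg Subtype.val (mul_comm (⟨w, hw⟩ : U) ⟨a, ha⟩))
    have hUR : ∀ b, (hb : b ∈ U) → (⟨b, hUH hb⟩ : H) ∈ pCore 2 H := by
      intro b hb
      refine mem_pCore_of_stabilizes hHchar (a := (⟨a, hUH ha⟩ : H)) ?_ (Subtype.ext ha2) ?_
      · exact Subgroup.mem_center_iff.2 fun g => Subtype.ext
          (Subgroup.mem_centralizer_singleton_iff.1 g.2)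
      · intro x hx
        have hxT := hT ⟨x, CfsgLib.Cores.pCore_le_sylow T hx, rfl⟩
        obtain ⟨i, hi⟩ := Subgroup.mem_zpowers_iff.1 (commutator_mem_zpowers hU4 ha ha1 hb hxT
          (Subgroup.mem_centralizer_singleton_iff.1 x.2))
        exact Subgroup.mem_zpowers_iff.2 ⟨i, Subtype.ext (by
          rw [SubgroupClass.coe_zpow]; exact hi.trans rfl)⟩
    rintro k ⟨hkK, hkH⟩
    refine Subgroup.mem_centralizer_iff.2 fun b hb => ?_
    have h3 : ⁅b, k⁆ ∈ K := by
      rw [commutatorElement_def]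
      exact mul_mem ((Subgroup.mem_normalizer_iff.1 (hUK hb) k).1 hkK) (inv_mem hkK)
    have h4 : (⁅(⟨b, hUH hb⟩ : H), ⟨k, hkH⟩⁆ : H) ∈ pCore 2 H := by
      rw [commutatorElement_def, mul_assoc (⟨b, hUH hb⟩ : H) _ _, mul_assoc (⟨b, hUH hb⟩ : H)]
      exact mul_mem (hUR b hb) ((inferInstance : (pCore 2 H).Normal).conj_mem _ (inv_mem (hUR b hb)) _)
    obtain ⟨j, hj⟩ := CfsgLib.Cores.isPGroup_pCore 2 H ⟨_, h4⟩
    have h5 : ⁅b, k⁆ ^ 2 ^ j = 1 := congrArg (fun z : pCore 2 H => ((z : H) : G)) hj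
    have h6 : ⁅b, k⁆ = 1 := orderOf_eq_one_iff.1 (Nat.eq_one_of_dvd_coprimes
      ((hK.coprime_two_right).pow_right j) (Subgroup.orderOf_dvd_natCard K h3)
      (orderOf_dvd_of_pow_eq_one h5))
    exact commutatorElement_eq_one_iff_mul_comm.1 h6
  exact Subgroup.le_centralizer_iff.1 hle

end Cfsg.Agent.S1957
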