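import Cfsg.Statements.S1964
import Cfsg.Agent.Lib.PushUp.Chain

set_option autoImplicit false
open Cfsg

namespace Cfsg.Agent.S1964

open Subgroup CfsgLib.PushUp in
/-- A step inside the normaliser of a member of the family. -/
def famStep {G : Type*} [Group G] (𝓕 : Set (Subgroup G)) (T : Subgroup G) (x : G) : Prop :=
  ∃ V ∈ 𝓕, T ≤ V ∧ x ∈ normalizer (V : Set G)

open Subgroup CfsgLib.PushUp in
theorem chain_to_family {G : Type*} [Group G] {𝓕 : Set (Subgroup G)} {T : Subgroup G} {h : G}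
    (hc : ConjChain (famStep 𝓕) T h) :
    ∃ (n : ℕ) (V : Fin n → Subgroup G) (x : Fin n → G), (List.ofFn x).prod = h⁻¹ ∧
      (∀ i, V i ∈ 𝓕) ∧ (∀ i, x i ∈ normalizer ((V i : Subgroup G) : Set G)) ∧
      (∀ h0 : 0 < n, T ≤ V ⟨0, h0⟩) ∧
      ∀ (i : Fin n) (hi : i.val + 1 < n), ∀ a ∈ T,
        (((List.ofFn x).take (i.val + 1)).prod)⁻¹ * a * ((List.ofFn x).take (i.val + 1)).prod ∈
          V ⟨i.val + 1, hi⟩ := by
  induction hc with
  | refl T => exact ⟨0, Fin.elim0, Fin.elim0, by simp, fun i => i.elim0, fun i => i.elim0,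
      fun h0 => absurd h0 (lt_irrefl 0), fun i => i.elim0⟩
  | @cons T x g hx _ ih =>
    obtain ⟨n, V, y, hprod, hV, hy, h0, hs⟩ := ih
    obtain ⟨U, hU, hTU, hxU⟩ := hx
    have key : ∀ (k : ℕ) (a : G),
        (((List.ofFn (Fin.cons x⁻¹ y : Fin (n + 1) → G)).take (k + 1)).prod)⁻¹ * a *
          ((List.ofFn (Fin.cons x⁻¹ y : Fin (n + 1) → G)).take (k + 1)).prod =
        (((List.ofFn y).take k).prod)⁻¹ * (x * a * x⁻¹) * ((List.ofFn y).take k).prod := by
      intro k a
      rw [List.ofFn_succ]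
      simp [mul_assoc]
    refine ⟨n + 1, Fin.cons U V, Fin.cons x⁻¹ y, ?_, ?_, ?_, fun _ => hTU, ?_⟩
    · rw [List.ofFn_succ]; simp [hprod]
    · intro i
      cases i using Fin.cases with
      | zero => simpa using hU
      | succ j => simpa using hV j
    · intro i
      cases i using Fin.cases with
      | zero => simpa using inv_mem hxU
      | succ j => simpa using hy j
    · intro i hi a ha
      rw [key]
      have hn : i.val < n := by omega
      rw [show (⟨i.val + 1, hi⟩ : Fin (n + 1)) = Fin.succ ⟨i.val, hn⟩ from rfl, Fin.cons_succ]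
      rcases Nat.eq_zero_or_pos i.val with h | h
      · simp only [h, List.take_zero, List.prod_nil, inv_one, one_mul, mul_one]
        exact h0 (by omega) (conj_mem_cmap ha)
      · have := hs ⟨i.val - 1, by omega⟩ (by simp only; omega) _ (conj_mem_cmap ha)
        simpa [Nat.sub_add_cancel h] using this


/-- Let p be a prime, G a finite group with Sylow p-subgroup S and W a conjugacy functor for p on G. Then the subgroups of S that are well placed in S with respect to W form a conjugation family for S in G. -/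
theorem result {G : Type*} [Group G] [Finite G] {p : ℕ} [Fact p.Prime] (S : Sylow p G) (W : Subgroup G → Subgroup G) (hW : Cfsg.IsConjugacyFunctor p W) : Cfsg.IsConjugationFamily {T : Subgroup G | Cfsg.IsWellPlaced p W (S : Subgroup G) T} (S : Subgroup G) := by
  refine ⟨fun T hT => hT.1, fun A g _ hA hgA => ?_⟩
  set 𝓕 := {T : Subgroup G | Cfsg.IsWellPlaced p W (S : Subgroup G) T}
  have hmono : ∀ {T T' : Subgroup G} {x : G}, T' ≤ T → famStep 𝓕 T x → famStep 𝓕 T' x :=
    fun hle ⟨V, hV, hTV, hx⟩ => ⟨V, hV, hle.trans hTV, hx⟩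
  have hinv : ∀ {T : Subgroup G} {x : G}, famStep 𝓕 T x →
      famStep 𝓕 (CfsgLib.PushUp.cmap x T) x⁻¹ :=
    fun {T x} ⟨V, hV, hTV, hx⟩ => ⟨V, hV,
      (CfsgLib.PushUp.cmap_mono x hTV).trans (CfsgLib.PushUp.cmap_eq_of_mem_normalizer hx).le, inv_mem hx⟩
  have hRel : CfsgLib.PushUp.IsFusionRel (S : Subgroup G)
      (fun T g => CfsgLib.PushUp.ConjChain (famStep 𝓕) T g) :=
    { mono := fun hle h => CfsgLib.PushUp.ConjChain.mono (step := famStep 𝓕) (fun h1 h2 => hmono h1 h2) h hle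
      comp := fun _ _ h1 h2 => h1.trans h2
      inv := fun _ _ h => h.symm (fun h' => hinv h') }
  have hA' : Subgroup.closure A ≤ (S : Subgroup G) := (Subgroup.closure_le _).mpr hA
  have hgA' : CfsgLib.PushUp.cmap g⁻¹ (Subgroup.closure A) ≤ (S : Subgroup G) := by
    rw [CfsgLib.PushUp.cmap, MonoidHom.map_closure, Subgroup.closure_le]
    rintro _ ⟨a, ha, rfl⟩
    simpa using hgA ⟨a, ha, rfl⟩
  have h := CfsgLib.PushUp.fusion_induction S hRel (Cfsg.IsWellPlaced p W (S : Subgroup G))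
    (fun V h => ⟨h.1, h.2 0⟩) (fun T hT => CfsgLib.PushUp.exists_wellPlaced_conj S hW hT)
    (fun V hV _ n hn => CfsgLib.PushUp.ConjChain.single ⟨V, hV, le_rfl, hn⟩) _ _ hA' hgA'
  obtain ⟨n, V, x, hprod, hV, hx, h0, hs⟩ := chain_to_family h
  refine ⟨n, V, x, by rw [hprod, inv_inv], hV, hx, fun h' a ha => h0 h' (Subgroup.subset_closure ha), ?_⟩
  rintro i hi _ ⟨a, ha, rfl⟩
  exact hs i hi a (Subgroup.subset_closure ha)

end Cfsg.Agent.S1964
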