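import Cfsg.Statements.S1966
import Cfsg.Agent.Lib.ConjFunctor.Family
import Cfsg.Agent.Lib.Cores.PCore

set_option autoImplicit false
open Cfsg

namespace Cfsg.Agent.S1966

/-- Let p be a prime, G a finite group with Sylow p-subgroup S and 𝓕 a conjugation family for S in G. Then the members of 𝓕 containing O_p(G) still form a conjugation family for S in G. -/
theorem result {G : Type*} [Group G] [Finite G] {p : ℕ} [Fact p.Prime] (S : Sylow p G) (𝓕 : Set (Subgroup G)) (h : Cfsg.IsConjugationFamily 𝓕 (S : Subgroup G)) : Cfsg.IsConjugationFamily {T : Subgroup G | T ∈ 𝓕 ∧ Cfsg.pCore p G ≤ T} (S : Subgroup G) := by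
  refine ⟨fun T hT => h.1 T hT.1, fun A g _ hA hAg => ?_⟩
  set Q := Cfsg.pCore p G with hQdef
  have hQS : Q ≤ (S : Subgroup G) := CfsgLib.Cores.pCore_le_sylow S
  have hQn : ∀ (y : G) a, a ∈ Q → y⁻¹ * a * y ∈ Q := fun y a ha => by
    have := (inferInstance : Q.Normal).conj_mem a ha y⁻¹
    simpa using this
  have hQi : ∀ (y : G) a, a ∈ Q → a ∈ (fun b => y⁻¹ * b * y) '' (Q : Set G) := fun y a ha =>
    ⟨y * a * y⁻¹, (inferInstance : Q.Normal).conj_mem a ha y, by group⟩
  obtain ⟨n, T, x, hp, hm, hn, h0, hstep⟩ := h.2 (A ∪ (Q : Set G)) g ⟨1, Or.inr Q.one_mem⟩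
    (Set.union_subset hA hQS) (by
      rintro _ ⟨a, ha | ha, rfl⟩
      · exact hAg ⟨a, ha, rfl⟩
      · exact hQS (hQn g a ha))
  have hQT : ∀ i : Fin n, Q ≤ T i := by
    intro i a ha
    rcases Nat.eq_zero_or_pos i.val with hi | hi
    · have : i = ⟨0, i.pos⟩ := Fin.ext hi
      rw [this]
      exact h0 i.pos (Or.inr ha)
    · obtain ⟨b, hb, hba⟩ := hQi (((List.ofFn x).take i.val).prod) a ha
      have := hstep ⟨i.val - 1, by omega⟩ (by simp only; omega)
      have e : (⟨i.val - 1 + 1, by omega⟩ : Fin n) = i := Fin.ext (by simp only; omega)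
      simp only [show i.val - 1 + 1 = i.val by omega] at this
      exact this ⟨b, Or.inr hb, hba⟩
  refine ⟨n, T, x, hp, fun i => ⟨hm i, hQT i⟩, hn, fun h' a ha => h0 h' (Or.inl ha), fun i hi => ?_⟩
  rintro _ ⟨a, ha, rfl⟩
  exact hstep i hi ⟨a, Or.inl ha, rfl⟩

end Cfsg.Agent.S1966
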