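import Cfsg.Statements.S1967
import Cfsg.Agent.Lib.ConjFunctor.Reach

set_option autoImplicit false
open Cfsg

namespace Cfsg.Agent.S1967

/-- Let p be a prime, G a finite group with Sylow p-subgroup S and W a conjugacy functor for p on G. Then W controls strong fusion in G if and only if, whenever T ≤ S and g ∈ G satisfy gTg⁻¹ ≤ S, one can write g = n c with n ∈ N_G(W(S)) and c ∈ C_G(T). -/
theorem result {G : Type*} [Group G] [Finite G] {p : ℕ} [Fact p.Prime] (S : Sylow p G) (W : Subgroup G → Subgroup G) (hW : Cfsg.IsConjugacyFunctor p W) : Cfsg.ControlsStrongFusionIn p W ⊤ ↔ ∀ (T : Subgroup G) (g : G), T ≤ (S : Subgroup G) → T.map (MulAut.conj g).toMonoidHom ≤ (S : Subgroup G) → ∃ n ∈ Subgroup.normalizer ((W (S : Subgroup G) : Subgroup G) : Set G), ∃ c ∈ Subgroup.centralizer (T : Set G), g = n * c := by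
  have hWs : ∀ V ∈ ({W} : Set (Subgroup G → Subgroup G)), Cfsg.IsConjugacyFunctor p V := fun V hV => by
    rw [Set.mem_singleton_iff] at hV; rwa [hV]
  constructor
  · intro hctl T g hT hTg
    obtain ⟨T₀, h1, h2, h3, h4⟩ := (CfsgLib.ConjFunctor.controlsStrongFusionIn_iff W ⊤).mp hctl
    have hS := h4.of_conj hWs h2 h1 h3 S.2 le_top (CfsgLib.ConjFunctor.sylow_not_dvd_relIndex_top S)
    obtain ⟨n, hn, he⟩ := (hS T hT g (Subgroup.mem_top g) hTg).exists_mem
      (M := Subgroup.normalizer (W (S : Subgroup G) : Set G)) (by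
        rintro _ ⟨V, hV, rfl⟩
        rw [Set.mem_singleton_iff] at hV
        rw [hV]
        exact inf_le_right)
    refine ⟨n, hn, n⁻¹ * g, ?_, by group⟩
    rw [Subgroup.mem_centralizer_iff]
    intro a ha
    exact ((CfsgLib.ConjFunctor.conj_agree_iff).mp (he a ha).symm).symm
  · intro h
    refine ⟨(S : Subgroup G), le_top, S.2, CfsgLib.ConjFunctor.sylow_not_dvd_relIndex_top S,
      fun A g _ hA hAg => ?_⟩
    obtain ⟨n, hn, c, hc, hg⟩ := h (Subgroup.closure A) g ((Subgroup.closure_le _).mpr hA)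
      (CfsgLib.ConjFunctor.cj_closure_le_iff.mpr hAg)
    refine ⟨n, ⟨Subgroup.mem_top n, hn⟩, fun a ha => ?_⟩
    have hca := Subgroup.mem_centralizer_iff.mp hc a (Subgroup.subset_closure ha)
    rw [hg]
    calc n * a * n⁻¹ = n * (a * c) * c⁻¹ * n⁻¹ := by group
      _ = n * c * a * (n * c)⁻¹ := by rw [hca]; group

end Cfsg.Agent.S1967
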