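import Cfsg.Statements.S1969
import Cfsg.Agent.Lib.ConjFunctor.SectionHyp

set_option autoImplicit false
universe u
open Cfsg
open CfsgLib.ConjFunctor

namespace Cfsg.Agent.S1969

/-- Let p be a prime, G a finite group and W an isomorphism-invariant p-group functor (W assigns to every group Q a subgroup W(Q), nontrivial whenever Q is a nontrivial finite p-group, and every isomorphism from a finite p-group Q onto a group R carries W(Q) onto W(R)). Suppose that W(S*) is normal in G* whenever G* = K/R is a section of G with C_{G*}(O_p(G*)) ≤ O_p(G*) and S* is a Sylow p-subgroup of G*. Then W controls strong fusion in every section of G: for every section K/R and every Sylow p-subgroup T of K/R, the subgroup W(T) controls strong fusion in K/R. -/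
theorem result {G : Type u} [Group G] [Finite G] {p : ℕ} [Fact p.Prime] (W : ∀ (Q : Type u) [Group Q], Subgroup Q) (hW : Cfsg.IsCharPFunctor.{u} p W) (hloc : ∀ (K R : Subgroup G) [hR : (R.subgroupOf K).Normal], Subgroup.centralizer ((Cfsg.pCore p (↥K ⧸ R.subgroupOf K) : Subgroup (↥K ⧸ R.subgroupOf K)) : Set (↥K ⧸ R.subgroupOf K)) ≤ Cfsg.pCore p (↥K ⧸ R.subgroupOf K) → ∀ T : Sylow p (↥K ⧸ R.subgroupOf K), (Cfsg.inducedFunctor (G := (↥K ⧸ R.subgroupOf K)) W ((T : Subgroup (↥K ⧸ R.subgroupOf K)))).Normal) : ∀ (K R : Subgroup G) [hR : (R.subgroupOf K).Normal], ∀ T : Sylow p (↥K ⧸ R.subgroupOf K), Cfsg.ControlsStrongFusion p (Cfsg.inducedFunctor (G := (↥K ⧸ R.subgroupOf K)) W ((T : Subgroup (↥K ⧸ R.subgroupOf K)))) := by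
  intro K R _ T
  have h𝓦 : ∀ V ∈ ({W} : Set (∀ (Q : Type u) [Group Q], Subgroup Q)), Cfsg.IsCharPFunctor.{u} p V := by
    rintro V rfl
    exact hW
  have hok := FusionOK.section (𝓦 := {W}) h𝓦 (fun K' R' _ hc => FusionOK.of_normal (hloc K' R' hc))
    (isSection_quotient (G := G) K R) T
  refine ⟨T, Subgroup.map_subtype_le _, fun A hA => ⟨hA, fun g hg => ?_⟩⟩
  obtain ⟨x, hx, he⟩ := (hok _ ((Subgroup.closure_le _).mpr hA) g (Subgroup.mem_top g)
    (cj_closure_le_iff.mpr hg)).exists_mem
      (M := Subgroup.normalizer (Cfsg.inducedFunctor W (T : Subgroup (↥K ⧸ R.subgroupOf K)) : Set (↥K ⧸ R.subgroupOf K))) (by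
        rintro _ ⟨_, ⟨V, hV, rfl⟩, rfl⟩
        rw [Set.mem_singleton_iff] at hV
        subst hV
        exact inf_le_right)
  exact ⟨x, hx, fun a ha => (he a (Subgroup.subset_closure ha)).symm⟩

end Cfsg.Agent.S1969
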