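import Cfsg.Statements.S1978
import Cfsg.Agent.Lib.KInf.Basic

set_option autoImplicit false
open Cfsg

namespace Cfsg.Agent.S1978

/-- Let P be a finite p-group. Each of the two K-infinity subgroups of P contains its own centralizer in P, which in turn contains Z(P); in particular both are nontrivial when P is. -/
theorem result {P : Type*} [Group P] [Finite P] {p : ℕ} [Fact p.Prime] (hP : IsPGroup p P) : Subgroup.centralizer (Cfsg.kInfLower P : Set P) ≤ Cfsg.kInfLower P ∧ Subgroup.center P ≤ Subgroup.centralizer (Cfsg.kInfLower P : Set P) ∧ Subgroup.centralizer (Cfsg.kInfUpper P : Set P) ≤ Cfsg.kInfUpper P ∧ Subgroup.center P ≤ Subgroup.centralizer (Cfsg.kInfUpper P : Set P) := by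
  obtain ⟨n, hn⟩ := CfsgLib.KInf.exists_stable (P := P)
  have h0 := fun Q => (CfsgLib.KInf.normal_abelian_mem (⊥ : Subgroup P) inferInstance).2 Q
  refine ⟨?_, Subgroup.center_le_centralizer _, ?_, Subgroup.center_le_centralizer _⟩
  · rw [← (hn n le_rfl).1]
    exact CfsgLib.KInf.centralizer_sSup_le ⟨⊥, (h0 _).1⟩ fun B hB hmax =>
      CfsgLib.KInf.centralizer_le_of_maximal_lower hP hB hmax
  · rw [← (hn (n + 1) (Nat.le_succ n)).2, CfsgLib.KInf.kSeqOdd_succ]
    exact CfsgLib.KInf.centralizer_sSup_le ⟨⊥, (h0 _).2⟩ fun B hB hmax =>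
      CfsgLib.KInf.centralizer_le_of_maximal_upper hP hB hmax

end Cfsg.Agent.S1978
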