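import Cfsg.Statements.S1981
import Cfsg.Agent.Lib.KInf.Basic

set_option autoImplicit false
open Cfsg

namespace Cfsg.Agent.S1981

/-- Let P be a finite p-group generated by its abelian normal subgroups. Then both K-infinity subgroups of P equal P. -/
theorem result {P : Type*} [Group P] [Finite P] {p : ℕ} [Fact p.Prime] (hP : IsPGroup p P) (hgen : ⨆ A ∈ {A : Subgroup P | A.Normal ∧ IsMulCommutative ↥A}, A = ⊤) : Cfsg.kInfLower P = ⊤ ∧ Cfsg.kInfUpper P = ⊤ := by
  obtain ⟨n, hn⟩ := CfsgLib.KInf.exists_stable (P := P)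
  refine ⟨top_le_iff.1 ?_, top_le_iff.1 ?_⟩
  · rw [← (hn n le_rfl).1, ← hgen]
    refine iSup₂_le fun A hA => ?_
    haveI := hA.1
    exact le_sSup ((CfsgLib.KInf.normal_abelian_mem A hA.2).2 _).1
  · rw [← (hn (n + 1) (Nat.le_succ n)).2, ← hgen]
    refine iSup₂_le fun A hA => ?_
    haveI := hA.1
    exact le_sSup ((CfsgLib.KInf.normal_abelian_mem A hA.2).2 _).2

end Cfsg.Agent.S1981
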