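import Cfsg.Statements.S2007
import Cfsg.Agent.Lib.NormalPComplement.Basic
import Cfsg.Agent.Lib.ConjFunctor.Reduce

set_option autoImplicit false
open Cfsg

namespace Cfsg.Agent.S2007

/-- Let p be a prime, G a finite group with Sylow p-subgroup S, and T a normal subgroup of S containing C_S(T). If N_G(T)/C_G(T) is a p-group (every element of N_G(T) of order prime to p centralizes T), then N_G(T) has a normal p-complement. -/
theorem result {G : Type*} [Group G] [Finite G] {p : ℕ} [Fact p.Prime] (S : Sylow p G) (T : Subgroup G) (hTS : T ≤ (S : Subgroup G)) (hTn : (S : Subgroup G) ≤ Subgroup.normalizer ((T : Subgroup G) : Set G)) (hC : (S : Subgroup G) ⊓ Subgroup.centralizer ((T : Subgroup G) : Set G) ≤ T) (hN : ∀ g ∈ Subgroup.normalizer ((T : Subgroup G) : Set G), (orderOf g).Coprime p → g ∈ Subgroup.centralizer ((T : Subgroup G) : Set G)) : Cfsg.HasNormalPComplement p ↥(Subgroup.normalizer ((T : Subgroup G) : Set G)) := by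
  set N := Subgroup.normalizer (T : Set G) with hNdef
  set C : Subgroup N := (Subgroup.centralizer (T : Set G)).subgroupOf N with hCdef
  haveI hCn : C.Normal := by
    refine ⟨fun c hc n => Subgroup.mem_subgroupOf.2 (Subgroup.mem_centralizer_iff.2 fun t ht => ?_)⟩
    have ht' : (n : G)⁻¹ * t * n ∈ T := (Subgroup.mem_normalizer_iff''.1 n.2 t).1 ht
    have h1 := Subgroup.mem_centralizer_iff.1 (Subgroup.mem_subgroupOf.1 hc) _ ht'
    simp only [Subgroup.coe_mul, Subgroup.coe_inv]
    calc t * ((n : G) * c * (n : G)⁻¹) = n * (((n : G)⁻¹ * t * n) * c) * (n : G)⁻¹ := by group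
      _ = _ := by rw [h1]; group
  obtain ⟨SN, hSN⟩ := CfsgLib.ConjFunctor.exists_sylow_subgroupOf S.2 hTn
    (CfsgLib.ConjFunctor.sylow_not_dvd_relIndex_of_le S hTn)
  obtain ⟨PC, hPC⟩ := CfsgLib.ConjFunctor.exists_sylow_subgroupOf (H := C)
    (SN.2.to_inf_left (K := C)) inf_le_right
    (CfsgLib.ConjFunctor.not_dvd_relIndex_inf SN.2 le_top
      (CfsgLib.ConjFunctor.sylow_not_dvd_relIndex_top SN) le_top (Subgroup.normalizer_eq_top (H := C)).ge)
  have hcen : ∀ t ∈ (PC : Subgroup C), ∀ c : C, c * t = t * c := by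
    intro t ht c
    rw [hPC] at ht
    have h1 : ((t : N) : G) ∈ (S : Subgroup G) := by
      have h2 : (t : N) ∈ (SN : Subgroup N) := ht.1
      rw [hSN] at h2
      exact h2
    exact Subtype.ext (Subtype.ext (Subgroup.mem_centralizer_iff.1 c.2 _ (hC ⟨h1, t.2⟩)).symm)
  have hP : Subgroup.normalizer ((PC : Subgroup C) : Set C) ≤ Subgroup.centralizer (PC : Set C) :=
    fun c _ => Subgroup.mem_centralizer_iff.2 fun t ht => (hcen t ht c).symm
  refine CfsgLib.NormalPComplement.hasNormalPComplement_of_pGroup_quotient C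
    ⟨PC, (MonoidHom.transferSylow PC hP).ker, inferInstance, MonoidHom.ker_transferSylow_isComplement' PC hP⟩ ?_
  intro x
  obtain ⟨n, rfl⟩ := QuotientGroup.mk_surjective x
  obtain ⟨k, hk⟩ := CfsgLib.NormalPComplement.exists_pow_coprime_orderOf (p := p) (isOfFinOrder_of_finite n)
  refine ⟨k, (QuotientGroup.eq_one_iff _).2 (Subgroup.mem_subgroupOf.2 (hN _ ((n ^ p ^ k).2) ?_))⟩
  rwa [Subgroup.orderOf_coe]

end Cfsg.Agent.S2007
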