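import Cfsg.Statements.S1988
import Cfsg.Agent.Lib.ConjFunctor.ModularIdentity
import Cfsg.Agent.Lib.ConjFunctor.Thompson
import Cfsg.Agent.Lib.KInf.NotStable
import Cfsg.Agent.Lib.KInf.CriticalEngel
import Cfsg.Agent.Lib.KInf.Functor
import Cfsg.Agent.S2007

set_option autoImplicit false
universe u
open Cfsg
open CfsgLib.ConjFunctor

namespace Cfsg.Agent.S1988

/-- Let p be an odd prime, G a finite group with Sylow p-subgroup S and K the lower K-infinity subgroup of S. If N_G(K) has a normal p-complement, or if N_G(K)/C_G(K) is a p-group (every element of N_G(K) of order prime to p centralizes K), then G has a normal p-complement. -/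
theorem result {G : Type u} [Group G] [Finite G] {p : ℕ} [Fact p.Prime] (hp : p ≠ 2) (S : Sylow p G) (h : Cfsg.HasNormalPComplement p ↥(Subgroup.normalizer ((Cfsg.inducedFunctor Cfsg.kInfLower (S : Subgroup G) : Subgroup G) : Set G)) ∨ ∀ g ∈ Subgroup.normalizer ((Cfsg.inducedFunctor Cfsg.kInfLower (S : Subgroup G) : Subgroup G) : Set G), (orderOf g).Coprime p → g ∈ Subgroup.centralizer ((Cfsg.inducedFunctor Cfsg.kInfLower (S : Subgroup G) : Subgroup G) : Set G)) : Cfsg.HasNormalPComplement p G := by
  have hW : Cfsg.IsCharPFunctor.{u} p (fun Q _ => Cfsg.kInfLower Q) := CfsgLib.KInf.isCharPFunctor_kInfLower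
  refine hasNormalPComplement_of_sections hW (fun H _ _ _ T hT hTN => ?_) S ?_
  · obtain ⟨g, hgT, -, -, -, hq⟩ := CfsgLib.KInf.exists_engel_four T (Or.inl fun h' =>
      not_hasNormalPComplement_normalizer hT hTN h')
    obtain ⟨U, V, hc, hU, h2, hne⟩ := hq hT.centralizer_le
    refine hne (commutator_le_of_critical hT hc hU hgT ?_)
    haveI := hc.2.1
    have h3 : 2 ≤ p - 1 := by
      have := (Fact.out : p.Prime).two_le
      omega
    refine (CfsgLib.KInf.iterCommutator_antitone (Subgroup.normalizer_eq_top (H := U) ▸ le_top) h3).trans ?_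
    exact h2
  rcases h with hN | hN
  · exact hN
  have hf := isConjugacyFunctor_inducedFunctor hW (S : Subgroup G) S.2
  refine Cfsg.Agent.S2007.result S _ hf.1 (fun s hs => ?_) ?_ hN
  · refine cj_eq_self_iff.1 ?_
    show (Cfsg.inducedFunctor Cfsg.kInfLower (S : Subgroup G)).map (MulAut.conj s).toMonoidHom = _
    rw [← hf.2.2 s, show (S : Subgroup G).map (MulAut.conj s).toMonoidHom = (S : Subgroup G) from cj_eq_self_of_mem hs]
  · rintro x ⟨hxS, hxC⟩
    refine ⟨⟨x, hxS⟩, CfsgLib.KInf.centralizer_kInfLower_le S.2 (Subgroup.mem_centralizer_iff.2 fun k hk => ?_), rfl⟩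
    exact Subtype.ext (Subgroup.mem_centralizer_iff.1 hxC _ (Subgroup.mem_map_of_mem _ hk))

end Cfsg.Agent.S1988
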