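import Cfsg.Statements.S1989
import Cfsg.Agent.S1969
import Cfsg.Agent.S1983
import Cfsg.Agent.Lib.KInf.Functor
import Cfsg.Agent.Lib.QdFree.Witness

set_option autoImplicit false
universe u
open Cfsg

namespace Cfsg.Agent.S1989

/-- Let p be an odd prime and G a finite group. Then Qd(p) (the natural semidirect product of an elementary abelian group of order p² by SL₂(p)) is not involved in G if and only if, in every section K/R of G and for every Sylow p-subgroup T of K/R, the lower K-infinity subgroup of T controls strong fusion in K/R. -/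
theorem result {G : Type u} [Group G] [Finite G] {p : ℕ} [Fact p.Prime] (hp : p ≠ 2) : ¬ Cfsg.Involves ↥(Cfsg.qd p) G ↔ ∀ (K R : Subgroup G) [hR : (R.subgroupOf K).Normal], ∀ T : Sylow p (↥K ⧸ R.subgroupOf K), Cfsg.ControlsStrongFusion p (Cfsg.inducedFunctor (G := (↥K ⧸ R.subgroupOf K)) Cfsg.kInfLower (T : Subgroup (↥K ⧸ R.subgroupOf K))) := by
  constructor
  · intro h
    refine Cfsg.Agent.S1969.result (G := G) (p := p) (fun Q _ => kInfLower Q)
      CfsgLib.KInf.isCharPFunctor_kInfLower ?_
    intro K R _ hc T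
    by_contra hK
    obtain ⟨g, -, -, -, -, hns⟩ := Cfsg.Agent.S1983.result T (Or.inl hK)
    obtain ⟨N, _, hN⟩ := hns hc
    refine hN (CfsgLib.QdFree.isNormalizerPStable_of_not_involves_qd hp fun hi => h ?_)
    have h1 : Cfsg.Involves ↥(Cfsg.qd p) (↥K ⧸ R.subgroupOf K) :=
      CfsgLib.Amalgams.involves_of_involves_image
        ((QuotientGroup.mk' N).comp (⊤ : Subgroup (↥K ⧸ R.subgroupOf K)).subtype) hi
        (fun q => by
          obtain ⟨x, rfl⟩ := QuotientGroup.mk_surjective q
          exact ⟨⟨x, Subgroup.mem_top x⟩, rfl⟩)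
    exact CfsgLib.Amalgams.involves_of_involves_image (QuotientGroup.mk' (R.subgroupOf K)) h1
      (QuotientGroup.mk'_surjective _)
  · rintro h ⟨K, R, hR, ⟨e⟩⟩
    obtain ⟨T⟩ : Nonempty (Sylow p (↥K ⧸ R.subgroupOf K)) := inferInstance
    obtain ⟨hne, hiso⟩ := CfsgLib.KInf.isCharPFunctor_kInfLower.{u} (p := p)
    haveI : Nontrivial (T : Subgroup (↥K ⧸ R.subgroupOf K)) := by
      rw [Subgroup.nontrivial_iff_ne_bot]
      intro hT
      have hdvd : p ∣ Nat.card ↥(Cfsg.qd p) := by
        show p ∣ Nat.card ↥(Cfsg.qdOver (ZMod p))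
        rw [CfsgLib.Amalgams.Qd.card_qdOver, Nat.card_zmod]
        exact dvd_mul_left _ _
      have := T.dvd_card_of_dvd_card (by rw [Nat.card_congr e.toEquiv]; exact hdvd)
      rw [hT, Subgroup.card_bot, Nat.dvd_one] at this
      exact (Fact.out : p.Prime).one_lt.ne' this
    refine CfsgLib.QdFree.not_controlsStrongFusion_of_equiv e T _ (hne _ T.2 inferInstance) ?_ (h K R T)
    exact Subgroup.characteristic_iff_map_eq.2 fun φ => hiso _ _ T.2 φ

end Cfsg.Agent.S1989
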