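import Cfsg.Statements.S1990
import Cfsg.Agent.Lib.ConjFunctor.QdFreeCritical
import Cfsg.Agent.Lib.ConjFunctor.Thompson
import Cfsg.Agent.Lib.Transfer.Fusion

set_option autoImplicit false
universe u
open Cfsg
open CfsgLib.ConjFunctor

namespace Cfsg.Agent.S1990

/-- Let p be an odd prime, G a finite group with Sylow p-subgroup S, and W an isomorphism-invariant p-group functor (W assigns to every group Q a subgroup W(Q), nontrivial whenever Q is a nontrivial finite p-group, and every isomorphism from a finite p-group Q onto a group R carries W(Q) onto W(R)). Suppose N_G(W(S)) has a normal p-complement, and W(T) controls strong fusion in every section G* = K/R of G all of whose sections are p-stable in the normalizer form, for every Sylow p-subgroup T of G*. Then G has a normal p-complement. -/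
theorem result {G : Type u} [Group G] [Finite G] {p : ℕ} [Fact p.Prime] (hp : p ≠ 2) (W : ∀ (Q : Type u) [Group Q], Subgroup Q) (hW : Cfsg.IsCharPFunctor.{u} p W) (S : Sylow p G) (hN : Cfsg.HasNormalPComplement p ↥(Subgroup.normalizer ((Cfsg.inducedFunctor (G := G) W (S : Subgroup G) : Subgroup G) : Set G))) (hctl : ∀ (K R : Subgroup G) [hR : (R.subgroupOf K).Normal], (∀ (K' R' : Subgroup (↥K ⧸ R.subgroupOf K)) [hR' : (R'.subgroupOf K').Normal], Cfsg.IsNormalizerPStable p (↥K' ⧸ R'.subgroupOf K')) → ∀ T : Sylow p (↥K ⧸ R.subgroupOf K), Cfsg.ControlsStrongFusion p (Cfsg.inducedFunctor (G := (↥K ⧸ R.subgroupOf K)) W (T : Subgroup (↥K ⧸ R.subgroupOf K)))) : Cfsg.HasNormalPComplement p G := by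
  refine hasNormalPComplement_of_sections hW (fun H _ _ hsec T hT hTN => ?_) S hN
  obtain ⟨K, R, hR, ⟨e⟩⟩ := hsec.exists_quotient
  haveI := hR
  have hes : Function.Surjective e.toMonoidHom := e.surjective
  obtain ⟨T', rfl⟩ := Sylow.mapSurjective_surjective (f := e.toMonoidHom) hes p T
  have hP : PPrimeCommutatorsP p (↥K ⧸ R.subgroupOf K) :=
    (pPrimeCommutatorsP_of_critical hT).of_surjective e.symm.toMonoidHom e.symm.surjective
  obtain ⟨T₀, hUT, hctrl⟩ := hctl K R
    (fun K' R' _ => isNormalizerPStable_of_pPrimeCommutatorsP hp (hP.quotient K' R')) T'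
  set U := Cfsg.inducedFunctor W (T' : Subgroup (↥K ⧸ R.subgroupOf K)) with hU
  set N := Subgroup.normalizer (U : Set (↥K ⧸ R.subgroupOf K)) with hNdef
  have hNn : Cfsg.HasNormalPComplement p N := by
    rw [Sylow.coe_mapSurjective,
      inducedFunctor_map hW e.toMonoidHom T'.2 fun a _ ha => e.injective (ha.trans e.map_one.symm),
      ← Subgroup.map_normalizer_eq_of_bijective _ (f := e.toMonoidHom) e.bijective] at hTN
    exact (CfsgLib.NormalPComplement.hasNormalPComplement_congr (e.subgroupMap N)).2 hTN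
  refine hT.not_hasComplement ((CfsgLib.NormalPComplement.hasNormalPComplement_congr e).1
    (CfsgLib.Transfer.hasNormalPComplement_of_control T₀ fun x hx u hux => ?_))
  have hT₀N : (T₀ : Subgroup (↥K ⧸ R.subgroupOf K)) ≤ N := by
    intro g hg
    obtain ⟨n, hn, he⟩ := (hctrl _ subset_rfl).2 g (by
      rintro _ ⟨a, ha, rfl⟩; exact mul_mem (mul_mem hg ha) (inv_mem hg))
    have hc : n⁻¹ * g ∈ Subgroup.centralizer ((T₀ : Subgroup (↥K ⧸ R.subgroupOf K)) : Set (↥K ⧸ R.subgroupOf K)) :=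
      Subgroup.mem_centralizer_iff.2 fun a ha => ((conj_agree_iff).1 (he a ha)).symm
    have := N.mul_mem hn ((Subgroup.centralizer_le_normalizer _) (Subgroup.centralizer_le
      (SetLike.coe_subset_coe.2 hUT) hc))
    rwa [mul_inv_cancel_left] at this
  obtain ⟨n, hn, he⟩ := (hctrl {x} (Set.singleton_subset_iff.2 hx)).2 u (by
    rintro _ ⟨a, rfl, rfl⟩; exact hux)
  rw [he x rfl] at hux ⊢
  let TN : Sylow p N := T₀.subtype hT₀N
  obtain ⟨c, hc, w, hw, hcw⟩ := Subgroup.mem_sup_of_normal_left.1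
    ((CfsgLib.NormalPComplement.pPrimeCore_sup_sylow hNn TN).ge (Subgroup.mem_top ⟨n, hn⟩))
  refine ⟨w, hw, ?_⟩
  have hz : (w * ⟨x, hT₀N hx⟩ * w⁻¹ : N) ∈ (TN : Subgroup N) :=
    (TN : Subgroup N).mul_mem ((TN : Subgroup N).mul_mem hw hx) ((TN : Subgroup N).inv_mem hw)
  have hy : (c * w * ⟨x, hT₀N hx⟩ * (c * w)⁻¹ : N) ∈ (TN : Subgroup N) := by
    rw [hcw]; exact hux
  set z := w * ⟨x, hT₀N hx⟩ * w⁻¹ with hzdef
  have hy' : c * z * c⁻¹ ∈ (TN : Subgroup N) := by
    rw [hzdef, show c * (w * ⟨x, hT₀N hx⟩ * w⁻¹) * c⁻¹ = c * w * ⟨x, hT₀N hx⟩ * (c * w)⁻¹ by group]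
    exact hy
  have h1 : c * z * c⁻¹ * z⁻¹ ∈ Cfsg.pPrimeCore p N ⊓ (TN : Subgroup N) := by
    refine ⟨?_, (TN : Subgroup N).mul_mem hy' ((TN : Subgroup N).inv_mem hz)⟩
    rw [mul_assoc, mul_assoc, ← mul_assoc z]
    exact (Cfsg.pPrimeCore p N).mul_mem hc
      ((inferInstance : (Cfsg.pPrimeCore p N).Normal).conj_mem _ ((Cfsg.pPrimeCore p N).inv_mem hc) z)
  rw [(CfsgLib.NormalPComplement.isComplement'_pPrimeCore hNn TN).disjoint.eq_bot, Subgroup.mem_bot,
    mul_inv_eq_one, hzdef, show c * (w * ⟨x, hT₀N hx⟩ * w⁻¹) * c⁻¹ = c * w * ⟨x, hT₀N hx⟩ * (c * w)⁻¹ by group,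
    hcw] at h1
  exact (congrArg Subtype.val h1).symm

end Cfsg.Agent.S1990
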