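import Cfsg.Statements.S1997
import Cfsg.Agent.Lib.ConjFunctor.OmegaFactor

set_option autoImplicit false
universe u
open Cfsg

namespace Cfsg.Agent.S1997

open CfsgLib.ConjFunctor

theorem normalizer_le_of_factor {G : Type u} [Group G] [Finite G] {p : ℕ} [Fact p.Prime]
    {W W' : ∀ (Q : Type u) [Group Q], Subgroup Q} (hW : Cfsg.IsCharPFunctor.{u} p W)
    (hW' : Cfsg.IsCharPFunctor.{u} p W') (S : Sylow p G)
    (hfac : ∀ (X : Type u) [Group X] [Finite X], IsSection X G → Constrained p X → ∀ T : Sylow p X, ∀ x : X,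
      ∃ a ∈ Subgroup.centralizer (omegaCenter p (T : Subgroup X) : Set X),
        ∃ b ∈ Subgroup.normalizer (Cfsg.inducedFunctor W (T : Subgroup X) : Set X), x = a * b)
    (hZ : omegaCenter p (S : Subgroup G) ≤ Cfsg.inducedFunctor W' (S : Subgroup G)) :
    ∀ n ∈ Subgroup.normalizer (Cfsg.inducedFunctor W' (S : Subgroup G) : Set G),
      ∃ m ∈ Subgroup.normalizer (Cfsg.inducedFunctor W (S : Subgroup G) : Set G),
        ∀ z ∈ omegaCenter p (S : Subgroup G), n * z * n⁻¹ = m * z * m⁻¹ := by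
  intro n hn
  set S' := (S : Subgroup G)
  set U := Cfsg.inducedFunctor W' S' with hU
  set N := Subgroup.normalizer (U : Set G) with hN
  have hf' := isConjugacyFunctor_inducedFunctor hW' S' S.2
  have hUS : U ≤ S' := hf'.1
  have hSN : S' ≤ N :=
    Subgroup.le_normalizer.trans (normalizer_le_normalizer_functor (isConjugacyFunctor_inducedFunctor hW') S.2)
  let TN : Sylow p N := S.subtype hSN
  have hmap : (TN : Subgroup N).map N.subtype = S' := Subgroup.map_subgroupOf_eq_of_le hSN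
  have hZN : omegaCenter p (TN : Subgroup N) ≤ Cfsg.pCore p N := by
    haveI : (U.comap N.subtype).Normal := Subgroup.normal_in_normalizer
    intro z hz
    refine CfsgLib.Cores.le_pCore ((S.2.to_le hUS).comap_subtype : IsPGroup p (U.subgroupOf N))
      (Subgroup.mem_subgroupOf.2 (hZ ?_))
    have := map_omegaCenter_le (p := p) N.subtype (TN : Subgroup N) (Subgroup.mem_map_of_mem _ hz)
    rwa [hmap] at this
  obtain ⟨a, ha, b, hb, hab⟩ := omega_factor_of_constrained hW _ N rfl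
    (fun X _ _ hX hc => hfac X hX.of_subgroup hc) TN hZN ⟨n, hn⟩⁻¹
  have hb' : (b : G) ∈ Subgroup.normalizer (Cfsg.inducedFunctor W S' : Set G) := by
    have h1 := Subgroup.le_normalizer_map N.subtype (Subgroup.mem_map_of_mem N.subtype hb)
    rwa [← inducedFunctor_map hW N.subtype TN.2 fun y _ hy => Subtype.ext hy, hmap] at h1
  refine ⟨(b : G)⁻¹, Subgroup.inv_mem _ hb', fun z hz => ?_⟩
  obtain ⟨z', hz', rfl⟩ := omegaCenter_le_map_subtype hSN hz
  have hc : (a : G) * z' = z' * a := (congrArg Subtype.val (Subgroup.mem_centralizer_iff.1 ha z' hz')).symm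
  have hn' : n = (b : G)⁻¹ * (a : G)⁻¹ := by
    rw [← mul_inv_rev, ← inv_inv n]
    exact congrArg (·⁻¹) (congrArg Subtype.val hab)
  show n * (z' : G) * n⁻¹ = (b : G)⁻¹ * z' * (b : G)⁻¹⁻¹
  rw [hn']
  calc (b : G)⁻¹ * (a : G)⁻¹ * z' * ((b : G)⁻¹ * (a : G)⁻¹)⁻¹ = (b : G)⁻¹ * ((a : G)⁻¹ * (z' * a)) * b := by group
    _ = _ := by rw [← hc]; group

/-- Let p be a prime, G a finite group with Sylow p-subgroup S, and W₁, W₂ two isomorphism-invariant p-group functors (W assigns to every group Q a subgroup W(Q), nontrivial whenever Q is a nontrivial finite p-group, and every isomorphism from a finite p-group Q onto a group R carries W(Q) onto W(R)). Suppose that G* = C_{G*}(Ω₁Z(S*)) N_{G*}(W₁(S*)) = C_{G*}(Ω₁Z(S*)) N_{G*}(W₂(S*)) = N_{G*}(W₁(S*)) N_{G*}(W₂(S*)) whenever G* = K/R is a section of G with C_{G*}(O_p(G*)) ≤ O_p(G*) and S* is a Sylow p-subgroup of G*, where Ω₁Z denotes the subgroup generated by the elements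 of order dividing p in the centre. Suppose also Ω₁Z(S) ≤ W₁(S) ∩ W₂(S), and let A be the normal closure of Ω₁Z(S) in N_G(W₁(S)). Then A is an elementary abelian subgroup of S, strongly closed in S with respect to G, and A controls strong fusion in G. -/
theorem result {G : Type u} [Group G] [Finite G] {p : ℕ} [Fact p.Prime] (S : Sylow p G) (W₁ W₂ : ∀ (Q : Type u) [Group Q], Subgroup Q) (hW₁ : Cfsg.IsCharPFunctor.{u} p W₁) (hW₂ : Cfsg.IsCharPFunctor.{u} p W₂) (hfac : ∀ (K R : Subgroup G) [hR : (R.subgroupOf K).Normal], Subgroup.centralizer ((Cfsg.pCore p (↥K ⧸ R.subgroupOf K) : Subgroup (↥K ⧸ R.subgroupOf K)) : Set (↥K ⧸ R.subgroupOf K)) ≤ Cfsg.pCore p (↥K ⧸ R.subgroupOf K) → ∀ T : Sylow p (↥K ⧸ R.subgroupOf K), (∀ x : (↥K ⧸ R.subgroupOf K), ∃ a ∈ Subgroup.centralizer ((Cfsg.omegaOne p ((T : Subgroup (↥K ⧸ R.subgroupOf K)) ⊓ Subgroup.centralizer (((T : Subgroup (↥K ⧸ R.subgroupOf K)) : Subgroup (↥K ⧸ R.subgroupOf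 K)) : Set (↥K ⧸ R.subgroupOf K))) : Subgroup (↥K ⧸ R.subgroupOf K)) : Set (↥K ⧸ R.subgroupOf K)), ∃ b ∈ Subgroup.normalizer ((Cfsg.inducedFunctor (G := (↥K ⧸ R.subgroupOf K)) W₁ (T : Subgroup (↥K ⧸ R.subgroupOf K)) : Subgroup (↥K ⧸ R.subgroupOf K)) : Set (↥K ⧸ R.subgroupOf K)), x = a * b) ∧ (∀ x : (↥K ⧸ R.subgroupOf K), ∃ a ∈ Subgroup.centralizer ((Cfsg.omegaOne p ((T : Subgroup (↥K ⧸ R.subgroupOf K)) ⊓ Subgroup.centralizer (((T : Subgroup (↥K ⧸ R.subgroupOf K)) : Subgroup (↥K ⧸ R.subgroupOf K)) : Set (↥K ⧸ R.subgroupOf K))) : Subgroup (↥K ⧸ R.subgroupOf K)) : Set (↥K ⧸ R.subgroupOf K)), ∃ b ∈ Subgroup.normalizer ((Cfsg.inducedFunctor (G := (↥K ⧸ R.subgroupOf K)) W₂ (T : Subgroup (↥K ⧸ R.subgroupOf K)) : Subgroup (↥K ⧸ R.subgroupOf K)) : Set (↥K ⧸ R.subgroupOf K)), x = a * b) ∧ (∀ x : (↥K ⧸ R.subgroupOf K), ∃ a ∈ Subgroup.normalizer ((Cfsg.inducedFunctor (G := (↥K ⧸ R.subgroupOf K)) W₁ (T : Subgroup (↥K ⧸ R.subgroupOf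 K)) : Subgroup (↥K ⧸ R.subgroupOf K)) : Set (↥K ⧸ R.subgroupOf K)), ∃ b ∈ Subgroup.normalizer ((Cfsg.inducedFunctor (G := (↥K ⧸ R.subgroupOf K)) W₂ (T : Subgroup (↥K ⧸ R.subgroupOf K)) : Subgroup (↥K ⧸ R.subgroupOf K)) : Set (↥K ⧸ R.subgroupOf K)), x = a * b)) (hZ : Cfsg.omegaOne p ((S : Subgroup G) ⊓ Subgroup.centralizer (((S : Subgroup G) : Subgroup G) : Set G)) ≤ Cfsg.inducedFunctor (G := G) W₁ (S : Subgroup G) ⊓ Cfsg.inducedFunctor (G := G) W₂ (S : Subgroup G)) (N₁ : Subgroup G) (hN₁ : N₁ = Subgroup.normalizer ((Cfsg.inducedFunctor (G := G) W₁ (S : Subgroup G) : Subgroup G) : Set G)) (A : Subgroup G) (hA : A = (Subgroup.normalClosure (((Cfsg.omegaOne p ((S : Subgroup G) ⊓ Subgroup.centralizer (((S : Subgroup G) : Subgroup G) : Set G))).subgroupOf N₁ : Subgroup ↥N₁) : Set ↥N₁)).map N₁.subtype) : A ≤ (S : Subgroup G) ∧ Cfsg.IsElementaryAbelian p A ∧ Cfsg.IsStronglyClosed A (S : Subgroup G) ∧ Cfsg.ControlsStrongFusion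 p A := by
  set S' := (S : Subgroup G) with hS'
  set Z := omegaCenter p S' with hZdef
  have hh : ∀ (X : Type u) [Group X] [Finite X], IsSection X G → Constrained p X → ∀ T : Sylow p X,
      (∀ x : X, ∃ a ∈ Subgroup.centralizer (omegaCenter p (T : Subgroup X) : Set X),
        ∃ b ∈ Subgroup.normalizer (Cfsg.inducedFunctor W₁ (T : Subgroup X) : Set X), x = a * b) ∧
      (∀ x : X, ∃ a ∈ Subgroup.centralizer (omegaCenter p (T : Subgroup X) : Set X),
        ∃ b ∈ Subgroup.normalizer (Cfsg.inducedFunctor W₂ (T : Subgroup X) : Set X), x = a * b) ∧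
      (∀ x : X, ∃ a ∈ Subgroup.normalizer (Cfsg.inducedFunctor W₁ (T : Subgroup X) : Set X),
        ∃ b ∈ Subgroup.normalizer (Cfsg.inducedFunctor W₂ (T : Subgroup X) : Set X), x = a * b) := by
    intro X _ _ hX hc T
    obtain ⟨K, R, hR, ⟨e⟩⟩ := hX.exists_quotient
    haveI := hR
    have hes : Function.Surjective e.toMonoidHom := e.surjective
    obtain ⟨T', rfl⟩ := Sylow.mapSurjective_surjective (f := e.toMonoidHom) hes p T
    obtain ⟨f1, f2, f3⟩ := hfac K R (hc.map_equiv e.symm) T'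
    rw [Sylow.coe_mapSurjective]
    have hC : ∀ a ∈ Subgroup.centralizer (omegaCenter p (T' : Subgroup (↥K ⧸ R.subgroupOf K)) : Set (↥K ⧸ R.subgroupOf K)),
        e a ∈ Subgroup.centralizer (omegaCenter p ((T' : Subgroup (↥K ⧸ R.subgroupOf K)).map e.toMonoidHom) : Set X) := by
      intro a ha
      refine Subgroup.mem_centralizer_iff.2 fun z hz => ?_
      have h1 := map_omegaCenter_le (p := p) e.symm.toMonoidHom _ (Subgroup.mem_map_of_mem e.symm.toMonoidHom hz)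
      rw [show ((T' : Subgroup (↥K ⧸ R.subgroupOf K)).map e.toMonoidHom).map e.symm.toMonoidHom = T' by
        rw [Subgroup.map_map, show e.symm.toMonoidHom.comp e.toMonoidHom = MonoidHom.id _ from
          MonoidHom.ext e.symm_apply_apply, Subgroup.map_id]] at h1
      have h2 := congrArg e (Subgroup.mem_centralizer_iff.1 ha _ h1)
      simpa using h2
    have hN : ∀ {W : ∀ (Q : Type u) [Group Q], Subgroup Q}, Cfsg.IsCharPFunctor.{u} p W →
        ∀ b ∈ Subgroup.normalizer (Cfsg.inducedFunctor W (T' : Subgroup (↥K ⧸ R.subgroupOf K)) : Set (↥K ⧸ R.subgroupOf K)),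
        e b ∈ Subgroup.normalizer
          (Cfsg.inducedFunctor W ((T' : Subgroup (↥K ⧸ R.subgroupOf K)).map e.toMonoidHom) : Set X) := by
      intro W hW b hb
      rw [inducedFunctor_map hW e.toMonoidHom T'.2 fun a _ ha => e.injective (ha.trans e.map_one.symm)]
      exact Subgroup.le_normalizer_map e.toMonoidHom (Subgroup.mem_map_of_mem e.toMonoidHom hb)
    refine ⟨fun x => ?_, fun x => ?_, fun x => ?_⟩
    · obtain ⟨a, ha, b, hb, hx⟩ := f1 (e.symm x)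
      exact ⟨e a, hC a ha, e b, hN hW₁ b hb, by rw [← map_mul, ← hx, e.apply_symm_apply]⟩
    · obtain ⟨a, ha, b, hb, hx⟩ := f2 (e.symm x)
      exact ⟨e a, hC a ha, e b, hN hW₂ b hb, by rw [← map_mul, ← hx, e.apply_symm_apply]⟩
    · obtain ⟨a, ha, b, hb, hx⟩ := f3 (e.symm x)
      exact ⟨e a, hN hW₁ a ha, e b, hN hW₂ b hb, by rw [← map_mul, ← hx, e.apply_symm_apply]⟩
  set N₂ := Subgroup.normalizer (Cfsg.inducedFunctor W₂ S' : Set G) with hN₂
  have hSN₁ : S' ≤ N₁ := hN₁ ▸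
    Subgroup.le_normalizer.trans (normalizer_le_normalizer_functor (isConjugacyFunctor_inducedFunctor hW₁) S.2)
  have hZN₁ : Z ≤ N₁ := (omegaCenter_le S').trans hSN₁
  set B₁ := Subgroup.closure {y : G | ∃ n ∈ N₁, ∃ z ∈ Z, y = n * z * n⁻¹} with hB₁
  have h12 := normalizer_le_of_factor hW₂ hW₁ S (fun X _ _ h1 h2 T => (hh X h1 h2 T).2.1) (hZ.trans inf_le_left)
  have h21 := normalizer_le_of_factor hW₁ hW₂ S (fun X _ _ h1 h2 T => (hh X h1 h2 T).1) (hZ.trans inf_le_right)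
  have hnorm : ∀ M : Subgroup G, (∀ y ∈ {y : G | ∃ n ∈ N₁, ∃ z ∈ Z, y = n * z * n⁻¹}, ∀ m ∈ M,
      m * y * m⁻¹ ∈ B₁) → M ≤ Subgroup.normalizer (B₁ : Set G) := by
    intro M hM m hm
    refine cj_eq_self_iff.1 (Subgroup.eq_of_le_of_card_ge ?_ (card_cj m B₁).ge)
    rw [hB₁, cj_closure_le_iff]
    rintro _ ⟨y, hy, rfl⟩
    exact hM y hy m hm
  have hN1B : N₁ ≤ Subgroup.normalizer (B₁ : Set G) := hnorm _ (by
    rintro _ ⟨n, hn, z, hz, rfl⟩ m hm
    exact Subgroup.subset_closure ⟨m * n, N₁.mul_mem hm hn, z, hz, by group⟩)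
  have hN2B : N₂ ≤ Subgroup.normalizer (B₁ : Set G) := hnorm _ (by
    rintro _ ⟨n, hn, z, hz, rfl⟩ m hm
    obtain ⟨m', hm', he⟩ := h12 n (hN₁ ▸ hn)
    obtain ⟨n', hn', he'⟩ := h21 (m * m') (N₂.mul_mem hm hm')
    refine Subgroup.subset_closure ⟨n', hN₁ ▸ hn', z, hz, ?_⟩
    rw [← he' z hz, he z hz]
    group)
  have hAB : A = B₁ := by
    rw [hA]
    refine le_antisymm ?_ ((Subgroup.closure_le _).2 ?_)
    · rw [Subgroup.map_le_iff_le_comap]
      haveI : (B₁.comap N₁.subtype).Normal := ⟨fun y hy m => by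
        have := (Subgroup.mem_normalizer_iff.1 (hN1B m.2) (y : G)).1 hy
        exact this⟩
      refine Subgroup.normalClosure_le_normal fun z hz => ?_
      exact Subgroup.subset_closure ⟨1, N₁.one_mem, (z : G), hz, by simp⟩
    · rintro _ ⟨n, hn, z, hz, rfl⟩
      have hz' : (⟨z, hZN₁ hz⟩ : N₁) ∈ (Z.subgroupOf N₁ : Set N₁) := hz
      exact ⟨⟨n, hn⟩ * ⟨z, hZN₁ hz⟩ * ⟨n, hn⟩⁻¹,
        (Subgroup.normalClosure_normal).conj_mem _ (Subgroup.subset_normalClosure hz') _, rfl⟩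
  -- the normal `p`-subgroup `W₁ S` of `N₁`
  have hf₁ := isConjugacyFunctor_inducedFunctor hW₁ S' S.2
  set U := Cfsg.inducedFunctor W₁ S' with hU
  have hgen : ∀ y ∈ {y : G | ∃ n ∈ N₁, ∃ z ∈ Z, y = n * z * n⁻¹}, y ∈ U ∧ y ^ p = 1 ∧ ∀ w ∈ U, w * y = y * w := by
    rintro _ ⟨n, hn, z, hz, rfl⟩
    have hn' : n ∈ Subgroup.normalizer (U : Set G) := hN₁ ▸ hn
    refine ⟨(Subgroup.mem_normalizer_iff.1 hn' z).1 (hZ hz).1, ?_, fun w hw => ?_⟩
    · have hzp : z ^ p = 1 := by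
        refine Subgroup.closure_induction (p := fun x _ => x ^ p = 1) (fun x hx => hx.2) (one_pow p) ?_ ?_ hz
        · intro a b ha hb h1 h2
          have hc : Commute a b := Subgroup.mem_centralizer_iff.1 (omegaCenter_le_centralizer S' hb) a
            (omegaCenter_le S' ha)
          rw [hc.mul_pow, h1, h2, one_mul]
        · intro a _ h1
          rw [inv_pow, h1, inv_one]
      rw [conj_pow, hzp]; group
    · have h1 : n⁻¹ * w * n ∈ S' := hf₁.1 ((Subgroup.mem_normalizer_iff''.1 hn' w).1 hw)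
      have h2 := Subgroup.mem_centralizer_iff.1 (omegaCenter_le_centralizer S' hz) _ h1
      calc w * (n * z * n⁻¹) = n * ((n⁻¹ * w * n) * z) * n⁻¹ := by group
        _ = n * z * n⁻¹ * w := by rw [h2]; group
  have hBU : B₁ ≤ U := (Subgroup.closure_le _).2 fun y hy => (hgen y hy).1
  have hBS : B₁ ≤ S' := hBU.trans hf₁.1
  have hBc : ∀ a ∈ B₁, ∀ w ∈ U, w * a = a * w := fun a ha w hw =>
    Subgroup.mem_centralizer_iff.1 ((Subgroup.closure_le _).2
      (fun y hy => Subgroup.mem_centralizer_iff.2 fun w' hw' => (hgen y hy).2.2 w' hw') ha :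
      a ∈ Subgroup.centralizer (U : Set G)) w hw
  have hel : Cfsg.IsElementaryAbelian p B₁ := by
    refine ⟨⟨⟨fun a b => Subtype.ext (hBc b b.2 a (hBU a.2))⟩⟩, fun a ha => ?_⟩
    refine Subgroup.closure_induction (p := fun x _ => x ^ p = 1) (fun x hx => (hgen x hx).2.1) (one_pow p) ?_ ?_ ha
    · intro a b ha hb h1 h2
      rw [(show Commute a b from hBc b hb a (hBU ha)).mul_pow, h1, h2, one_mul]
    · intro a _ h1
      rw [inv_pow, h1, inv_one]
  have h𝓦 : ∀ W ∈ ({W₁, W₂} : Set (∀ (Q : Type u) [Group Q], Subgroup Q)), Cfsg.IsCharPFunctor.{u} p W := by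
    rintro W (rfl | rfl)
    · exact hW₁
    · exact hW₂
  have hok : FusionOK p {W₁, W₂} G :=
    fusionOK_of_constrained h𝓦 fun X _ _ hX hc => fusionOK_of_pair hW₁ hW₂ fun T => (hh X hX hc T).2.2
  have key : ∀ A₀ : Set G, A₀ ⊆ (S' : Set G) → ∀ g : G, (fun a => g * a * g⁻¹) '' A₀ ⊆ (S' : Set G) →
      ∃ x ∈ Subgroup.normalizer (B₁ : Set G), ∀ a ∈ A₀, g * a * g⁻¹ = x * a * x⁻¹ := by
    intro A₀ hA₀ g hg
    obtain ⟨x, hx, he⟩ := (hok S _ ((Subgroup.closure_le _).mpr hA₀) g (Subgroup.mem_top g)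
      (cj_closure_le_iff.mpr hg)).exists_mem (M := Subgroup.normalizer (B₁ : Set G)) (by
        rintro _ ⟨_, ⟨W, hW, rfl⟩, rfl⟩
        refine inf_le_right.trans ?_
        rcases hW with rfl | rfl
        · exact hN₁ ▸ hN1B
        · exact hN2B)
    exact ⟨x, hx, fun a ha => (he a (Subgroup.subset_closure ha)).symm⟩
  rw [hAB]
  refine ⟨hBS, hel, ⟨hBS, fun x hx g hg => ?_⟩, S, hBS, fun A₀ hA₀ => ⟨hA₀, key A₀ hA₀⟩⟩
  obtain ⟨m, hm, he⟩ := key {x} (Set.singleton_subset_iff.2 (hBS hx)) g (by rintro _ ⟨a, rfl, rfl⟩; exact hg)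
  rw [he x rfl]
  exact (Subgroup.mem_normalizer_iff.1 hm x).1 hx

end Cfsg.Agent.S1997
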