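import Cfsg.Statements.S1998
import Cfsg.Agent.Lib.ConjFunctor.EngelSection

set_option autoImplicit false
universe u
open Cfsg
open CfsgLib.ConjFunctor

namespace Cfsg.Agent.S1998

theorem equivTopQuotient {G : Type u} [Group G] (R : Subgroup G) [R.Normal] :
    Nonempty ((↥(⊤ : Subgroup G) ⧸ R.subgroupOf ⊤) ≃* (G ⧸ R)) :=
  ⟨QuotientGroup.congr _ _ Subgroup.topEquiv (by
    ext x
    simp only [Subgroup.mem_map, Subgroup.mem_subgroupOf]
    exact ⟨fun ⟨a, ha, he⟩ => he ▸ ha, fun hx => ⟨⟨x, Subgroup.mem_top x⟩, hx, rfl⟩⟩)⟩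

/-- Let p be a prime, G a finite group with Sylow p-subgroup S, and 𝓦 a nonempty set of isomorphism-invariant p-group functors (W assigns to every group Q a subgroup W(Q), nontrivial whenever Q is a nontrivial finite p-group, and every isomorphism from a finite p-group Q onto a group R carries W(Q) onto W(R)). Suppose the induced conjugacy functors control transfer in every section of G other than G itself, but not in G. Let T be the subgroup generated by the S ∩ (N_G(W(S)))', W ∈ 𝓦, and M = N_G(T ∩ O_p(G)). Then: C_G(O_p(G)) ≤ O_p(G); M is a proper subgroup of G containing every proper subgroup of G that contains S (the unique maximal subgroup over S); [O_p(G), M] ≤ O_p(G) ∩ M' ≤ O_p(G) ∩ T; and every element u of S outside O_p(G) satisfies [X, u, …, u] ≰ Y with p − 1 entries u, for some chief factor X/Y of G with X ≤ O_p(G). -/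
theorem result {G : Type u} [Group G] [Finite G] {p : ℕ} [Fact p.Prime] (S : Sylow p G) (𝓦 : Set (∀ (Q : Type u) [Group Q], Subgroup Q)) (h𝓦 : ∀ W ∈ 𝓦, Cfsg.IsCharPFunctor.{u} p W) (hne : 𝓦.Nonempty) (hsec : ∀ (K R : Subgroup G) [hR : (R.subgroupOf K).Normal], (K = ⊤ → R ≠ ⊥) → Cfsg.FamilyControlsTransferIn p ((fun W => Cfsg.inducedFunctor (G := (↥K ⧸ R.subgroupOf K)) W) '' 𝓦) ⊤) (hG : ¬ Cfsg.FamilyControlsTransferIn p ((fun W => Cfsg.inducedFunctor (G := G) W) '' 𝓦) ⊤) (T M : Subgroup G) (hT : T = (⨆ W ∈ 𝓦, (S : Subgroup G) ⊓ ⁅Subgroup.normalizer ((Cfsg.inducedFunctor (G := G) W (S : Subgroup G) : Subgroup G) : Set G), Subgroup.normalizer ((Cfsg.inducedFunctor (G := G) W (S : Subgroup G) : Subgroup G) : Set G)⁆)) (hM : M = Subgroup.normalizer ((T ⊓ Cfsg.pCore p G : Subgroup G) : Set G)) : Subgroup.centralizer ((Cfsg.pCore p G : Subgroup G) : Set G) ≤ Cfsg.pCore p G ∧ (M ≠ ⊤ ∧ ∀ H : Subgroup G, (S : Subgroup G) ≤ H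 → H ≠ ⊤ → H ≤ M) ∧ (⁅Cfsg.pCore p G, M⁆ ≤ Cfsg.pCore p G ⊓ ⁅M, M⁆ ∧ Cfsg.pCore p G ⊓ ⁅M, M⁆ ≤ Cfsg.pCore p G ⊓ T) ∧ ∀ u : G, u ∈ (S : Subgroup G) → u ∉ Cfsg.pCore p G → ∃ U V : Subgroup G, Cfsg.IsChiefFactor U V ∧ U ≤ Cfsg.pCore p G ∧ ¬ Cfsg.iterCommutator U (Subgroup.zpowers u) (p - 1) ≤ V := by
  have hcent : ∀ H : Subgroup G, H ≠ ⊤ → TransferOK p 𝓦 H := fun H hH => by
    haveI : ((⊥ : Subgroup G).subgroupOf H).Normal := by rw [Subgroup.bot_subgroupOf]; infer_instance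
    refine TransferOK.of_equiv h𝓦 ((QuotientGroup.quotientMulEquivOfEq (Subgroup.bot_subgroupOf H)).trans
      QuotientGroup.quotientBot) (TransferOK.of_family h𝓦 ?_)
    exact hsec H ⊥ (fun h => absurd h hH)
  have hT' : T = transferTarget (indSet 𝓦) ⊤ (S : Subgroup G) := by
    rw [hT]
    simp only [transferTarget, indSet, iSup_image, top_inf_eq]
  have hfail : ¬ (S : Subgroup G) ⊓ ⁅(⊤ : Subgroup G), ⊤⁆ ≤ T := fun h => hG
    ⟨(S : Subgroup G), le_top, S.2, sylow_not_dvd_relIndex_top S,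
      le_antisymm (h.trans hT'.le) transferTarget_le⟩
  have hcon : Constrained p G := by
    by_contra hnc
    refine hfail ((transferOK_of_sections h𝓦 (fun K R _ hc U => ?_) S).trans hT'.ge)
    refine le_trans (inf_le_inf_right _ (CfsgLib.Cores.pCore_le_sylow U)) (TransferOK.of_family h𝓦 (hsec K R ?_) U)
    rintro rfl rfl
    obtain ⟨e⟩ := equivTopQuotient (⊥ : Subgroup G)
    exact hnc (hc.map_equiv (e.trans QuotientGroup.quotientBot))
  set Q := Cfsg.pCore p G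
  set S' := (S : Subgroup G)
  have hQne : Q ≠ ⊥ := fun h => hfail <| by
    have h1 : (⊤ : Subgroup G) ≤ ⊥ := fun g _ => by
      rw [← h]
      refine hcon (Subgroup.mem_centralizer_iff.2 fun q hq => ?_)
      rw [show q = 1 from Subgroup.mem_bot.1 (h ▸ hq)]
      simp
    exact inf_le_left.trans (le_top.trans (h1.trans bot_le))
  have hW := isConjugacyFunctor_indSet (G := G) h𝓦
  have hD : ∀ r ∈ S', cj r T ≤ T := hT' ▸ transferTarget_normalized hW S.2 le_top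
  have hTle : T ≤ S' ⊓ ⁅(⊤ : Subgroup G), ⊤⁆ := hT' ▸ transferTarget_le
  have hrel : ∀ H : Subgroup G, H ≠ ⊤ → S' ≤ H → ∀ B ≤ S', ∀ h ∈ H, cj h B ≤ S' → TRel T B h :=
    fun H h1 h2 => hT' ▸ tRel_of_transferOK h𝓦 S (hcent H h1) h2
  have hpromote : ∀ H : Subgroup G, H ≠ ⊤ → S' ≤ H → S' ⊓ ⁅H, H⁆ ≤ T :=
    fun H h1 h2 => hT' ▸ (hcent H h1).promote h𝓦 S h2
  have hS : S' ≠ Q := fun h => hfail <| by
    obtain ⟨W, hWm⟩ := hne
    refine le_trans ?_ hT'.ge
    refine le_trans (inf_le_inf_left _ ?_) (le_iSup₂ (f := fun V (_ : V ∈ indSet 𝓦) => S' ⊓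
      ⁅⊤ ⊓ Subgroup.normalizer (V S' : Set G), ⊤ ⊓ Subgroup.normalizer (V S' : Set G)⁆) _ ⟨W, hWm, rfl⟩)
    have : (⊤ : Subgroup G) ≤ ⊤ ⊓ Subgroup.normalizer (Cfsg.inducedFunctor W S' : Set G) := by
      refine le_inf le_rfl (le_trans ?_
        (normalizer_le_normalizer_functor (isConjugacyFunctor_inducedFunctor (h𝓦 W hWm)) S.2))
      rw [h, Subgroup.normalizer_eq_top]
    exact Subgroup.commutator_mono this this
  have hquot : TransferOK p 𝓦 (G ⧸ Q) := by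
    obtain ⟨e⟩ := equivTopQuotient Q
    exact TransferOK.of_equiv h𝓦 e (TransferOK.of_family h𝓦 (hsec ⊤ Q fun _ => hQne))
  have hsup := le_sup_of_quotient_pCore h𝓦 S hS (hTle.trans inf_le_right) hD hrel hquot
  have hfailQ : ¬ Q ⊓ commutator G ≤ T := fun h => hfail (hsup.trans (sup_le le_rfl (by
    rwa [← commutator_def])))
  have hQS : Q ≤ S' := CfsgLib.Cores.pCore_le_sylow S
  have hle : ∀ H : Subgroup G, S' ≤ H → H ≠ ⊤ → H ≤ M := by
    intro H h1 h2 h hh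
    rw [hM]
    refine cj_eq_self_iff.1 (Subgroup.eq_of_le_of_card_ge ?_ (card_cj h _).ge)
    rintro _ ⟨q, hq, rfl⟩
    have hq' : h * q * h⁻¹ ∈ Q := (inferInstance : Q.Normal).conj_mem q hq.2 h
    have h3 : h * q * h⁻¹ * q⁻¹ ∈ T :=
      hpromote H h2 h1 ⟨S'.mul_mem (hQS hq') (S'.inv_mem (hQS hq.2)),
        Subgroup.commutator_mem_commutator hh (h1 (hQS hq.2))⟩
    exact ⟨by simpa using T.mul_mem h3 hq.1, hq'⟩
  have hSne : S' ≠ ⊤ := fun h => hS (le_antisymm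
    (isPGroup_le_pCore S.2 (top_le_iff.1 (by rw [← h]; exact Subgroup.le_normalizer))) hQS)
  have hMne : M ≠ ⊤ := by
    intro htop
    haveI : (T ⊓ Q).Normal := Subgroup.normalizer_eq_top_iff.1 (hM ▸ htop)
    let C₀ : Subgroup G := (Subgroup.centralizer
      ((Q.map (QuotientGroup.mk' (T ⊓ Q)) : Subgroup (G ⧸ T ⊓ Q)) : Set (G ⧸ T ⊓ Q))).comap (QuotientGroup.mk' (T ⊓ Q))
    have hmem : ∀ g : G, g ∈ C₀ ↔ ∀ q ∈ Q, g * q * g⁻¹ * q⁻¹ ∈ T ⊓ Q := by
      intro g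
      simp only [C₀, Subgroup.mem_comap, Subgroup.mem_centralizer_iff]
      refine ⟨fun h q hq => ?_, fun h => ?_⟩
      · rw [← QuotientGroup.eq_one_iff]
        have := h _ (Subgroup.mem_map_of_mem _ hq)
        simp only [QuotientGroup.mk'_apply] at this
        simp [← this]
      · rintro _ ⟨q, hq, rfl⟩
        have := (QuotientGroup.eq_one_iff _).2 (h q hq)
        simp only [QuotientGroup.mk_mul, QuotientGroup.mk_inv] at this
        exact (mul_inv_eq_iff_eq_mul.1 (mul_inv_eq_one.1 this)).symm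
    have hC₀ : ∀ H : Subgroup G, S' ≤ H → H ≠ ⊤ → H ≤ C₀ := by
      intro H h1 h2 g hg
      rw [hmem]
      intro q hq
      have hq' : g * q * g⁻¹ * q⁻¹ ∈ Q := Q.mul_mem ((inferInstance : Q.Normal).conj_mem q hq g) (Q.inv_mem hq)
      exact ⟨hpromote H h2 h1 ⟨hQS hq', Subgroup.commutator_mem_commutator hg (h1 (hQS hq))⟩, hq'⟩
    have hSC : S' ≤ C₀ := hC₀ S' le_rfl hSne
    have hNC : Subgroup.normalizer (S' : Set G) ≤ C₀ := hC₀ _ Subgroup.le_normalizer fun h =>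
      hS (le_antisymm (isPGroup_le_pCore S.2 h) hQS)
    have hC₀top : C₀ = ⊤ := by
      refine top_le_iff.1 ?_
      rw [← Sylow.normalizer_sup_eq_top' S hSC]
      exact sup_le hNC le_rfl
    refine hfailQ fun x hx => ?_
    refine mem_of_transfer_invariant S (D := T)
      (hT' ▸ commutator_sylow_le_target h𝓦 hne S) (hQS hx.1) hx.2 fun k g _ => ?_
    have hk : x ^ k ∈ Q := Q.pow_mem hx.1 k
    have h1 := (hmem g).1 (hC₀top.ge (Subgroup.mem_top g)) (g⁻¹ * x ^ k * g) (by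
      simpa using (inferInstance : Q.Normal).conj_mem _ hk g⁻¹)
    have h2 := (T ⊓ Q).inv_mem h1
    have h3 := (inferInstance : (T ⊓ Q).Normal).conj_mem _ h1 (g⁻¹ * x ^ k * g)⁻¹
    exact (show (g⁻¹ * x ^ k * g)⁻¹ * x ^ k ∈ T ⊓ Q by simpa [mul_assoc] using h3).1
  have hSM : S' ≤ M := hle S' le_rfl hSne
  refine ⟨hcon, ⟨hMne, hle⟩, ⟨?_, ?_⟩, fun u hu huQ => ?_⟩
  · exact le_inf (Subgroup.commutator_le_left Q M) (Subgroup.commutator_mono (hQS.trans hSM) le_rfl)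
  · exact le_inf inf_le_left ((inf_le_inf_right _ hQS).trans (hpromote M hMne hSM))
  · by_contra hno
    push Not at hno
    exact hfailQ (engel_transfer S (hTle.trans inf_le_left) (hT' ▸ commutator_sylow_le_target h𝓦 hne S) hrel hu huQ hno)

end Cfsg.Agent.S1998
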