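import Cfsg.Statements.S2004
import Cfsg.Agent.Lib.QdFree.Stable

set_option autoImplicit false
open Cfsg

namespace Cfsg.Agent.S2004

/-- Let p be an odd prime and G a finite group such that SL₂(p) is not involved in N_G(P) for any nonidentity p-subgroup P of G. Then every section of G is p-stable in the normalizer form: in each section, whenever an element of the normalizer of a p-subgroup Q acts quadratically on Q, its image in N(Q)/C(Q) lies in O_p(N(Q)/C(Q)). -/
theorem result {G : Type*} [Group G] [Finite G] {p : ℕ} [Fact p.Prime] (hp : p ≠ 2) (h : ∀ P : Subgroup G, IsPGroup p ↥P → P ≠ ⊥ → ¬ Cfsg.Involves (Matrix.SpecialLinearGroup (Fin 2) (ZMod p)) ↥(Subgroup.normalizer ((P : Subgroup G) : Set G))) : ∀ (K R : Subgroup G) [hR : (R.subgroupOf K).Normal], Cfsg.IsNormalizerPStable p (↥K ⧸ R.subgroupOf K) := by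
  intro K R hR
  refine CfsgLib.QdFree.isNormalizerPStable_of_not_involves_qd hp fun hi => ?_
  have hG : Cfsg.Involves ↥(Cfsg.qdOver (ZMod p)) G :=
    CfsgLib.Amalgams.involves_of_involves_image (QuotientGroup.mk' (R.subgroupOf K)) hi
      (QuotientGroup.mk'_surjective _)
  obtain ⟨L, f, hf⟩ := CfsgLib.Amalgams.exists_surjective_of_involves hG
  let φ : L →* Matrix.SpecialLinearGroup (Fin 2) (ZMod p) := CfsgLib.Amalgams.Qd.lin.comp f
  have hφ : Function.Surjective φ := fun A => by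
    obtain ⟨l, hl⟩ := hf (CfsgLib.Amalgams.Qd.aff A 0 0)
    exact ⟨l, by simp [φ, hl, CfsgLib.Amalgams.Qd.lin_aff]⟩
  obtain ⟨T⟩ : Nonempty (Sylow p φ.ker) := inferInstance
  let P : Subgroup G := ((T : Subgroup φ.ker).map φ.ker.subtype).map L.subtype
  have hP : IsPGroup p P := (T.2.map _).map _
  have hPne : P ≠ ⊥ := by
    intro h
    obtain ⟨l, hl⟩ := hf (CfsgLib.Amalgams.Qd.aff 1 1 0)
    have hlk : l ∈ φ.ker := by simp [φ, hl, CfsgLib.Amalgams.Qd.lin_aff]
    let f' : φ.ker →* (CfsgLib.Amalgams.Qd.trans : Subgroup ↥(Cfsg.qdOver (ZMod p))) :=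
      (f.comp φ.ker.subtype).codRestrict _ fun x => x.2
    have hne : f' ⟨l, hlk⟩ ≠ 1 := fun h1 => by
      have h2 : f l = 1 := congrArg Subtype.val h1
      rw [hl, ← CfsgLib.Amalgams.Qd.aff_one, CfsgLib.Amalgams.Qd.aff_inj] at h2
      exact one_ne_zero h2.2.1
    have hT : (T : Subgroup φ.ker) = ⊥ :=
      (Subgroup.map_eq_bot_iff_of_injective _ φ.ker.subtype_injective).1
        ((Subgroup.map_eq_bot_iff_of_injective _ L.subtype_injective).1 h)
    obtain ⟨j, hj⟩ := (CfsgLib.Amalgams.Qd.isPGroup_trans (F := ZMod p) (p := p)) (f' ⟨l, hlk⟩)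
    have hpd : p ∣ orderOf (f' ⟨l, hlk⟩) := by
      obtain ⟨i, -, hi⟩ := (Nat.dvd_prime_pow (Fact.out : p.Prime)).1 (orderOf_dvd_of_pow_eq_one hj)
      rw [hi]
      refine dvd_pow_self p fun h0 => hne ?_
      rwa [h0, pow_zero, orderOf_eq_one_iff] at hi
    have := T.dvd_card_of_dvd_card
      ((hpd.trans (orderOf_map_dvd f' _)).trans (orderOf_dvd_natCard (⟨l, hlk⟩ : φ.ker)))
    rw [hT, Subgroup.card_bot] at this
    exact (Fact.out : p.Prime).not_dvd_one this
  refine h P hP hPne ?_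
  let M : Subgroup L := Subgroup.normalizer (((T : Subgroup φ.ker).map φ.ker.subtype : Subgroup L) : Set L)
  have hM : M.map φ = ⊤ := by
    have h1 := congrArg (Subgroup.map φ) (Sylow.normalizer_sup_eq_top (N := φ.ker) T)
    rw [Subgroup.map_sup, (Subgroup.map_eq_bot_iff φ.ker).2 le_rfl, sup_bot_eq,
      Subgroup.map_top_of_surjective φ hφ] at h1
    exact h1
  let N := Subgroup.normalizer (P : Set G)
  have hML : M.map L.subtype ≤ N := Subgroup.le_normalizer_map L.subtype
  let K' : Subgroup N := (M.map L.subtype).subgroupOf N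
  let e : K' ≃* M := (Subgroup.subgroupOfEquivOfLe hML).trans
    (M.equivMapOfInjective L.subtype L.subtype_injective).symm
  refine CfsgLib.Amalgams.involves_of_surjective (K := K') ((φ.comp M.subtype).comp e.toMonoidHom) ?_
  intro A
  obtain ⟨m, hm, hmA⟩ : A ∈ M.map φ := hM ▸ Subgroup.mem_top A
  exact ⟨e.symm ⟨m, hm⟩, by simp [hmA]⟩

end Cfsg.Agent.S2004
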