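import Cfsg.Statements.S2005
import Cfsg.Agent.Lib.ConjFunctor.CriticalGroup

set_option autoImplicit false
universe u
open Cfsg
open CfsgLib.ConjFunctor

namespace Cfsg.Agent.S2005

/-- Thompson's normal p-complement criterion in functor form. Let p be a prime, G a finite group with Sylow p-subgroup S, and W an isomorphism-invariant p-group functor (W assigns to every group Q a subgroup W(Q), nontrivial whenever Q is a nontrivial finite p-group, and every isomorphism from a finite p-group Q onto a group R carries W(Q) onto W(R)). Suppose N_G(W(S)) has a normal p-complement, and that W(S*) is normal in G* whenever G* = K/R is a section of G with C_{G*}(O_p(G*)) ≤ O_p(G*) such that G*/O_p(G*) has a normal p-complement, and S* is a Sylow p-subgroup of G* that is a maximal subgroup of G*. Then G has a normal p-complement. -/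
theorem result {G : Type u} [Group G] [Finite G] {p : ℕ} [Fact p.Prime] (W : ∀ (Q : Type u) [Group Q], Subgroup Q) (hW : Cfsg.IsCharPFunctor.{u} p W) (S : Sylow p G) (hN : Cfsg.HasNormalPComplement p ↥(Subgroup.normalizer ((Cfsg.inducedFunctor (G := G) W (S : Subgroup G) : Subgroup G) : Set G))) (hloc : ∀ (K R : Subgroup G) [hR : (R.subgroupOf K).Normal], Subgroup.centralizer ((Cfsg.pCore p (↥K ⧸ R.subgroupOf K) : Subgroup (↥K ⧸ R.subgroupOf K)) : Set (↥K ⧸ R.subgroupOf K)) ≤ Cfsg.pCore p (↥K ⧸ R.subgroupOf K) → Cfsg.HasNormalPComplement p ((↥K ⧸ R.subgroupOf K) ⧸ Cfsg.pCore p (↥K ⧸ R.subgroupOf K)) → ∀ T : Sylow p (↥K ⧸ R.subgroupOf K), IsCoatom (T : Subgroup (↥K ⧸ R.subgroupOf K)) → (Cfsg.inducedFunctor (G := (↥K ⧸ R.subgroupOf K)) W ((T : Subgroup (↥K ⧸ R.subgroupOf K)))).Normal) : Cfsg.HasNormalPComplement p G := by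
  refine hasNormalPComplement_of_sections hW (fun H _ _ hsec T hT hTN => ?_) S hN
  obtain ⟨K, R, hR, ⟨e⟩⟩ := hsec.exists_quotient
  haveI := hR
  have hes : Function.Surjective e.toMonoidHom := e.surjective
  obtain ⟨T', rfl⟩ := Sylow.mapSurjective_surjective (f := e.toMonoidHom) hes p T
  have hq : Cfsg.HasNormalPComplement p ((↥K ⧸ R.subgroupOf K) ⧸ Cfsg.pCore p (↥K ⧸ R.subgroupOf K)) :=
    (CfsgLib.NormalPComplement.hasNormalPComplement_congr
      (QuotientGroup.congr _ _ e (CfsgLib.Cores.map_pCore_equiv e))).2 (hasNormalPComplement_quotient_of_critical hT)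
  have hco : IsCoatom (T' : Subgroup (↥K ⧸ R.subgroupOf K)) := by
    have h := isCoatom_of_critical hT
    rw [Sylow.coe_mapSurjective] at h
    exact ((MulEquiv.mapSubgroup e).isCoatom_iff _).1 h
  have hn := hloc K R (Constrained.map_equiv e.symm (show Constrained p H from hT.centralizer_le)) hq T' hco
  refine not_hasNormalPComplement_normalizer hT hTN ?_
  rw [Sylow.coe_mapSurjective, inducedFunctor_map hW e.toMonoidHom T'.2 fun a _ ha => e.injective (ha.trans e.map_one.symm)]
  exact hn.map _ hes

end Cfsg.Agent.S2005
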