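import Cfsg.Statements.S2006
import Cfsg.Agent.Lib.ConjFunctor.ModularIdentity
import Cfsg.Agent.Lib.ConjFunctor.EngelSection
import Cfsg.Agent.Lib.ConjFunctor.Thompson

set_option autoImplicit false
universe u
open Cfsg
open CfsgLib.ConjFunctor

namespace Cfsg.Agent.S2006

/-- Let p be a prime, G a finite group with Sylow p-subgroup S, and W an isomorphism-invariant p-group functor (W assigns to every group Q a subgroup W(Q), nontrivial whenever Q is a nontrivial finite p-group, and every isomorphism from a finite p-group Q onto a group R carries W(Q) onto W(R)). Suppose N_G(W(S)) has a normal p-complement, and that whenever G* = K/R is a section of G with C_{G*}(O_p(G*)) ≤ O_p(G*) and S* is a Sylow p-subgroup of G* with W(S*) not normal in G*, there are an element g of S* outside O_p(G*) and a chief factor X/Y of G* with X ≤ O_p(G*) such that [X, g, …, g] ≤ Y with p − 1 entries g but [X, g] ≰ Y. Then G has a normal p-complement. -/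
theorem result {G : Type u} [Group G] [Finite G] {p : ℕ} [Fact p.Prime] (W : ∀ (Q : Type u) [Group Q], Subgroup Q) (hW : Cfsg.IsCharPFunctor.{u} p W) (S : Sylow p G) (hN : Cfsg.HasNormalPComplement p ↥(Subgroup.normalizer ((Cfsg.inducedFunctor (G := G) W (S : Subgroup G) : Subgroup G) : Set G))) (hloc : ∀ (K R : Subgroup G) [hR : (R.subgroupOf K).Normal], Subgroup.centralizer ((Cfsg.pCore p (↥K ⧸ R.subgroupOf K) : Subgroup (↥K ⧸ R.subgroupOf K)) : Set (↥K ⧸ R.subgroupOf K)) ≤ Cfsg.pCore p (↥K ⧸ R.subgroupOf K) → ∀ T : Sylow p (↥K ⧸ R.subgroupOf K), ¬ (Cfsg.inducedFunctor (G := (↥K ⧸ R.subgroupOf K)) W ((T : Subgroup (↥K ⧸ R.subgroupOf K)))).Normal → ∃ g : (↥K ⧸ R.subgroupOf K), g ∈ (T : Subgroup (↥K ⧸ R.subgroupOf K)) ∧ g ∉ Cfsg.pCore p (↥K ⧸ R.subgroupOf K) ∧ ∃ U V : Subgroup (↥K ⧸ R.subgroupOf K), Cfsg.IsChiefFactor U V ∧ U ≤ Cfsg.pCore p (↥K ⧸ R.subgroupOf K) ∧ Cfsg.iterCommutator U (Subgroup.zpowers g) (p - 1) ≤ V ∧ ¬ ⁅U, Subgroup.zpowers g⁆ ≤ V) : Cfsg.HasNormalPComplement p G :=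 by
  refine hasNormalPComplement_of_sections hW (fun H _ _ hsec T hT hTN => ?_) S hN
  obtain ⟨K, R, hR, ⟨e⟩⟩ := hsec.exists_quotient
  haveI := hR
  have hes : Function.Surjective e.toMonoidHom := e.surjective
  obtain ⟨T', rfl⟩ := Sylow.mapSurjective_surjective (f := e.toMonoidHom) hes p T
  have hn : ¬ (Cfsg.inducedFunctor W (T' : Subgroup (↥K ⧸ R.subgroupOf K))).Normal := fun h' =>
    not_hasNormalPComplement_normalizer hT hTN (by
      rw [Sylow.coe_mapSurjective,
        inducedFunctor_map hW e.toMonoidHom T'.2 fun a _ ha => e.injective (ha.trans e.map_one.symm)]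
      exact h'.map _ hes)
  obtain ⟨g, hg, -, U, V, hc, hU, hi, hne⟩ :=
    hloc K R (Constrained.map_equiv e.symm (show Constrained p H from hT.centralizer_le)) T' hn
  have hc' := isChiefFactor_comap_equiv e.symm hc
  rw [← Subgroup.map_equiv_eq_comap_symm', ← Subgroup.map_equiv_eq_comap_symm'] at hc'
  have h2 := commutator_le_of_critical hT hc' (g := e g)
    ((Subgroup.map_mono hU).trans_eq (CfsgLib.Cores.map_pCore_equiv e))
    (by rw [Sylow.coe_mapSurjective]; exact Subgroup.mem_map_of_mem _ hg)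
    (by
      have h3 := Subgroup.map_mono (f := e.toMonoidHom) hi
      rwa [map_iterCommutator, MonoidHom.map_zpowers] at h3)
  rw [show Subgroup.zpowers (e g) = (Subgroup.zpowers g).map e.toMonoidHom from (MonoidHom.map_zpowers e.toMonoidHom g).symm,
    ← Subgroup.map_commutator] at h2
  exact hne ((Subgroup.map_le_map_iff_of_injective e.injective).1 h2)

end Cfsg.Agent.S2006
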