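import Cfsg.Statements.S2034
import Cfsg.Agent.Lib.OutMathieu.MultData
import Cfsg.Agent.Lib.OutMathieu.Outer

set_option autoImplicit false
open Cfsg CfsgLib.OutMathieu CfsgLib.Golay CfsgLib.SchurMult
set_option maxRecDepth 100000

namespace Cfsg.Agent.S2034

/-- The Schur multiplier of the Mathieu group M₁₁ (the stabiliser of a dodecad and one of its points in the automorphism group of the length-24 binary code) is trivial; here the Schur multiplier is described through stem extensions, as in the definitions: surjective homomorphisms onto the group from a finite group, whose kernel is central in that finite group and contained in that finite group's commutator subgroup. -/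
theorem result : Cfsg.HasCyclicSchurMultiplier ↥Cfsg.Spor.M11 1 := by
  refine hasCyclicSchurMultiplier_one_of_primes fun p hp hpd Γ _ _ σ hσ => ?_
  have hcard : Nat.card Cfsg.Spor.M11 = 7920 := by rw [M11_eq_stabK]; exact card_stabK_dodecad_point
  by_cases h2 : p = 2
  · subst h2; exact not_two_dvd_M11 M11_eq_stabK hσ
  by_cases h3 : p = 3
  · subst h3; exact not_three_dvd_M11 M11_eq_stabK hσ
  refine not_dvd_card_ker_of_sq_not_dvd hσ hp ?_
  rw [hcard] at hpd ⊢
  have hp5 : p = 5 ∨ p = 11 := by
    rw [show 7920 = 2 ^ 4 * 3 ^ 2 * 5 * 11 by norm_num] at hpd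
    simp only [hp.dvd_mul] at hpd
    rcases hpd with ((h | h) | h) | h
    · exact absurd ((Nat.prime_dvd_prime_iff_eq hp Nat.prime_two).1 (hp.dvd_of_dvd_pow h)) h2
    · exact absurd ((Nat.prime_dvd_prime_iff_eq hp Nat.prime_three).1 (hp.dvd_of_dvd_pow h)) h3
    all_goals have := (Nat.prime_dvd_prime_iff_eq hp (by norm_num)).1 h; omega
  rcases hp5 with rfl | rfl <;> decide +kernel

end Cfsg.Agent.S2034
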