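import Cfsg.Statements.S2035
import Cfsg.Agent.Lib.SchurMult.Reduce
import Cfsg.Agent.Lib.OutMathieu.Outer
import Cfsg.Agent.Lib.OutMathieu.MultDataM12
import Cfsg.Agent.Lib.OutMathieu.TwoM12
import Cfsg.Agent.Lib.OutMathieu.CoverM12

set_option autoImplicit false
open Cfsg CfsgLib.OutMathieu CfsgLib.Golay CfsgLib.SchurMult
set_option maxRecDepth 100000

namespace Cfsg.Agent.S2035

/-- The Schur multiplier of the Mathieu group M₁₂ (the stabiliser of a dodecad in the automorphism group of the length-24 binary code) is cyclic of order 2; here the Schur multiplier is described through stem extensions, as in the definitions: surjective homomorphisms onto the group from a finite group, whose kernel is central in that finite group and contained in that finite group's commutator subgroup. -/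
theorem result : Cfsg.HasCyclicSchurMultiplier ↥Cfsg.Spor.M12 2 := by
  have hK : Cfsg.Spor.M12 = stabK [dodMask] := M12_eq_stabK
  have hcard : Nat.card ↥Cfsg.Spor.M12 = 95040 := by rw [hK]; exact card_stabK_dodecad
  haveI : IsCyclic Cover.proj.ker :=
    isCyclic_of_prime_card (hp := ⟨Nat.prime_two⟩) Cover.card_ker
  refine ⟨⟨Cover.cover, inferInstance, inferInstance, Cover.proj, Cover.isStem, ⟨?_⟩⟩,
    fun Γ _ _ σ hσ => ?_⟩
  · exact (zmodCyclicMulEquiv inferInstance).symm.trans
      (AddEquiv.toMultiplicative (ZMod.ringEquivCongr Cover.card_ker).toAddEquiv)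
  obtain ⟨w, hw, hz⟩ := TwoCert.two_elements twoM12 hK twoM12_mem.1 twoM12_mem.2.1 twoM12_mem.2.2
    twoM12_order twoM12_table twoM12_pair ⟨1485, by norm_num, by rw [hcard]; rfl⟩ hσ
  have hodd : ∀ p : ℕ, p.Prime → p ∣ Nat.card σ.ker → p = 2 := fun p hp hpk => by
    by_contra h2
    by_cases h3 : p = 3
    · subst h3; exact not_three_dvd_M12 hK hσ hpk
    refine not_dvd_card_ker_of_sq_not_dvd hσ hp ?_ hpk
    rw [hcard]
    intro hsq
    have hpd : p ∣ 2 ^ 6 * 3 ^ 3 * 5 * 11 := (dvd_pow_self p two_ne_zero).trans hsq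
    have hp5 : p = 5 ∨ p = 11 := by
      simp only [hp.dvd_mul] at hpd
      rcases hpd with ((h | h) | h) | h
      · exact absurd ((Nat.prime_dvd_prime_iff_eq hp Nat.prime_two).1 (hp.dvd_of_dvd_pow h)) h2
      · exact absurd ((Nat.prime_dvd_prime_iff_eq hp Nat.prime_three).1 (hp.dvd_of_dvd_pow h)) h3
      all_goals have := (Nat.prime_dvd_prime_iff_eq hp (by norm_num)).1 h; omega
    rcases hp5 with rfl | rfl <;> norm_num at hsq
  have htwo := Nat.eq_prime_pow_of_unique_prime_dvd (n := Nat.card σ.ker) Nat.card_pos.ne'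
    fun {d} hd hdd => hodd d hd hdd
  have hle : σ.ker ≤ Subgroup.zpowers w := fun z hzk => hz z hzk (Nat.card σ.ker).primeFactorsList.length (by
    have := pow_card_eq_one' (G := σ.ker) (x := ⟨z, hzk⟩)
    rw [htwo] at this
    exact congrArg Subtype.val this)
  have hdvd : Nat.card σ.ker ∣ 2 :=
    (Subgroup.card_dvd_of_le hle).trans (by rw [Nat.card_zpowers]; exact orderOf_dvd_of_pow_eq_one hw)
  rcases (Nat.dvd_prime Nat.prime_two).1 hdvd with h1 | h1
  · haveI := (Nat.card_eq_one_iff_unique.1 h1).1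
    exact ⟨1, fun z => ⟨1, Subsingleton.elim _ _⟩⟩
  · haveI : IsCyclic σ.ker := isCyclic_of_prime_card (hp := ⟨Nat.prime_two⟩) h1
    let e : Multiplicative (ZMod 2) ≃* σ.ker :=
      (AddEquiv.toMultiplicative (ZMod.ringEquivCongr h1.symm).toAddEquiv).trans
        (zmodCyclicMulEquiv inferInstance)
    exact ⟨e.toMonoidHom, e.surjective⟩

end Cfsg.Agent.S2035
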