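import Cfsg.Statements.S2041
import Cfsg.Agent.Lib.J3Mult.Elements
import Cfsg.Agent.Lib.SchurMult.J3Monomial
import Cfsg.Agent.Lib.SchurMult.PerfectCover
import Cfsg.Agent.Lib.SchurMult.SmallSylow

set_option autoImplicit false
open Cfsg

namespace Cfsg.Agent.S2041

/-- For any field with 4 elements and any element ω of it with ω² + ω + 1 = 0: the Schur multiplier of the Janko group J₃ (the group generated by explicit 9 × 9 matrices over that field built from ω, taken modulo its centre) is cyclic of order 3; here the Schur multiplier is described through stem extensions, as in the definitions: surjective homomorphisms onto the group from a finite group, whose kernel is central in that finite group and contained in that finite group's commutator subgroup. -/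
theorem result {F : Type*} [Field F] [Fintype F] (hF : Fintype.card F = 4) (ω : F) (hω : ω ^ 2 + ω + 1 = 0) : Cfsg.HasCyclicSchurMultiplier (Cfsg.Spor.J3 F ω) 3 := by
  have := CfsgLib.SporadicB.J3.charP_two_of_card_four F hF
  obtain ⟨_, -, -, -, -, hc⟩ := CfsgLib.SporadicB.J3.j3_main (F := F) hω
  obtain ⟨-, hn⟩ := CfsgLib.SporadicB.J3.isJ3_quotient (F := F) hω
  have hG := (CfsgLib.SporadicB.J3.card_threeJ3_and_stabK (F := F) hω).1
  have hperf := CfsgLib.SchurMult.J3Three.commutator_threeJ3 (F := F) hω
  haveI : Fact (Nat.Prime 3) := ⟨Nat.prime_three⟩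
  refine CfsgLib.SchurMult.hasCyclicSchurMultiplier_of_cover
    (QuotientGroup.mk' (Subgroup.center (Cfsg.Spor.threeJ3 F ω))) (QuotientGroup.mk'_surjective _)
    (QuotientGroup.ker_mk' _).le hperf ?_ (isCyclic_of_prime_card (p := 3) ?_) ?_
  · intro Γ _ _ ρ hρ
    rw [← Subgroup.card_eq_one]
    by_contra hne
    obtain ⟨p, hp, hpd⟩ := Nat.exists_prime_and_dvd hne
    have h3 := CfsgLib.SchurMult.J3Three.not_three_dvd (F := F) hω hρ
    have hpG : p ∣ 2 ^ 7 * 3 ^ 6 * 5 * 17 * 19 := by
      haveI : Fact p.Prime := ⟨hp⟩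
      obtain ⟨z, hz⟩ := exists_prime_orderOf_dvd_card' p hpd
      have h := CfsgLib.SchurMult.ker_pow_card hρ z.2
      rw [hG] at h
      have h2 := orderOf_dvd_of_pow_eq_one h
      rw [Subgroup.orderOf_coe, hz] at h2
      exact h2
    have hsq : ¬ p ^ 2 ∣ Nat.card (Cfsg.Spor.threeJ3 F ω) → False := fun h =>
      CfsgLib.SchurMult.not_dvd_card_ker_of_sq_not_dvd hρ hp h hpd
    rw [hG] at hsq
    simp only [hp.dvd_mul] at hpG
    rcases hpG with (((h | h) | h) | h) | h
    · -- the prime two is settled in the simple quotient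
      obtain rfl := (Nat.prime_dvd_prime_iff_eq hp Nat.prime_two).1 (hp.dvd_of_dvd_pow h)
      let q := QuotientGroup.mk' (Subgroup.center (Cfsg.Spor.threeJ3 F ω))
      have hΓ : commutator Γ = ⊤ := CfsgLib.SchurMult.J3Three.isPerfect_of_stem hρ hperf
      have hstem : Cfsg.IsStemExtension (q.comp ρ) := by
        refine ⟨(QuotientGroup.mk'_surjective _).comp hρ.1, fun x hx => ?_, by rw [hΓ]; exact le_top⟩
        exact CfsgLib.SchurMult.J3Three.mem_center_of_map_mem_center hρ hperf
          ((QuotientGroup.eq_one_iff _).1 hx)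
      exact CfsgLib.J3Mult.not_two_dvd (F := F) hω Γ (q.comp ρ) hstem
        (hpd.trans (Subgroup.card_dvd_of_le fun x hx => by
          show q (ρ x) = 1
          rw [MonoidHom.mem_ker.1 hx, map_one]))
    · obtain rfl := (Nat.prime_dvd_prime_iff_eq hp Nat.prime_three).1 (hp.dvd_of_dvd_pow h)
      exact h3 hpd
    · obtain rfl := (Nat.prime_dvd_prime_iff_eq hp Nat.prime_five).1 h
      exact hsq (by norm_num)
    · obtain rfl := (Nat.prime_dvd_prime_iff_eq hp (by norm_num)).1 h
      exact hsq (by norm_num)
    · obtain rfl := (Nat.prime_dvd_prime_iff_eq hp (by norm_num)).1 h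
      exact hsq (by norm_num)
  · rw [QuotientGroup.ker_mk']; exact hc
  · rw [QuotientGroup.ker_mk']; exact hc

end Cfsg.Agent.S2041
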