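import Cfsg.Statements.S2054
import Cfsg.Agent.Lib.SchurMult.Criterion
import Cfsg.Agent.Lib.ExtraspecialLarge.CentralLift
import Cfsg.Agent.Lib.ExtraspecialLarge.Fi23Spider
import Cfsg.Agent.S1697

set_option autoImplicit false
open Cfsg

namespace Cfsg.Agent.S2054

open CfsgLib.ExtraspecialLarge CfsgLib.ExtraspecialLarge.RootRefl

/-- the generators in root order -/
def gens : List Spor.Fi23.Gen := [.d, .e, .c, .h, .f, .b, .i, .g, .a, .j]

/-- the generator at a position -/
def pick (i : ℕ) : Spor.Fi23.Gen := gens.getD i .d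

/-- parents in the tree -/
def par (i : ℕ) : ℕ := [0, 0, 0, 0, 1, 2, 3, 4, 5, 7].getD i 0

/-- steps showing that all commuting pairs lift to commuting pairs -/
def closeSteps : List (ℕ × ℕ × ℕ) :=
  [(0, 9, 7), (1, 9, 7), (2, 9, 7), (3, 9, 7), (5, 9, 7), (8, 9, 7), (9, 3, 6), (0, 7, 4), (2, 7, 4), (3, 7, 4),
    (5, 7, 4), (6, 9, 7), (8, 7, 4), (2, 4, 1), (3, 4, 1), (4, 3, 6), (5, 4, 1), (8, 4, 1), (1, 3, 6), (5, 1, 0),
    (8, 1, 0), (5, 0, 3), (6, 1, 0), (8, 0, 2), (8, 0, 3), (3, 5, 2), (5, 3, 6), (6, 0, 2), (8, 3, 6)]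

/-- membership up to order -/
def knownB (l : List (ℕ × ℕ)) (a b : ℕ) : Bool := l.any fun p => p == (a, b) || p == (b, a)

/-- close a list of pairs -/
def closeOK : List (ℕ × ℕ × ℕ) → List (ℕ × ℕ) → Option (List (ℕ × ℕ))
  | [], l => some l
  | (a, b, d) :: st, l =>
    if knownB l a b && decide (a < 10 ∧ b < 10 ∧ d < 10 ∧ d ∈ Fi23Spider.nb10 b ∧ a ≠ d ∧ d ∉ Fi23Spider.nb10 a) then
      closeOK st ((a, d) :: l)
    else none

section
variable {Δ : Type*} [Group Δ] (ε : ℕ → Δ)

lemma knownB_sound {l : List (ℕ × ℕ)} (hl : ∀ p ∈ l, ε p.1 * ε p.2 = ε p.2 * ε p.1) {a b : ℕ}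
    (h : knownB l a b = true) : ε a * ε b = ε b * ε a := by
  simp only [knownB, List.any_eq_true, Bool.or_eq_true, beq_iff_eq] at h
  obtain ⟨p, hp, h | h⟩ := h <;> subst h
  · exact hl _ hp
  · exact (hl _ hp).symm

lemma closeOK_sound (hsq : ∀ i, i < 10 → ε i * ε i = 1)
    (hbr : ∀ i, i < 10 → ∀ j ∈ Fi23Spider.nb10 i, ε i * ε j * ε i = ε j * ε i * ε j)
    (hcen : ∀ i, i < 10 → ∀ j, j < 10 → i ≠ j → j ∉ Fi23Spider.nb10 i →
      ε i * ε j * ε i * ε j ∈ Subgroup.center Δ) :
    ∀ {st : List (ℕ × ℕ × ℕ)} {l l' : List (ℕ × ℕ)}, (∀ p ∈ l, ε p.1 * ε p.2 = ε p.2 * ε p.1) →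
      closeOK st l = some l' → ∀ p ∈ l', ε p.1 * ε p.2 = ε p.2 * ε p.1
  | [], l, l', hl, h => by simp only [closeOK, Option.some.injEq] at h; subst h; exact hl
  | (a, b, d) :: st, l, l', hl, h => by
    simp only [closeOK] at h
    split at h
    · next hc =>
      simp only [Bool.and_eq_true, decide_eq_true_eq] at hc
      obtain ⟨hk, ha, hb, hd, hbd, had, hnad⟩ := hc
      refine closeOK_sound hsq hbr hcen (fun p hp => ?_) h
      rcases List.mem_cons.1 hp with rfl | hp
      · exact CentralLift.pair_step (hsq a ha) (hsq b hb) (hsq d hd) (hbr b hb d hbd)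
          (knownB_sound ε hl hk) (hcen a ha d hd had hnad)
      · exact hl p hp
    · simp at h

end

lemma pick_label : ∀ i < 10, ∀ j < 10, Spor.coxLabel Spor.Fi23.edges (pick i) (pick j) =
    if i = j then 1 else if j ∈ Fi23Spider.nb10 i then 3 else 2 := by decide +kernel

lemma pick_surj (x : Spor.Fi23.Gen) : ∃ i < 10, pick i = x := by cases x <;> decide

lemma mem_nodes (x : Spor.Fi23.Gen) : x ∈ Spor.coxNodes Spor.Fi23.edges := by cases x <;> decide

set_option maxHeartbeats 1000000 in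
theorem ker_eq_bot (Γ : Type) [Group Γ] [Finite Γ] (σ : Γ →* Spor.Fi23) (hσ : Cfsg.IsStemExtension σ) :
    σ.ker = ⊥ := by
  obtain ⟨hsurj, hcen, hcomm⟩ := hσ
  let g : ℕ → Spor.Fi23 := fun i => PresentedGroup.of (pick i)
  have hrel : ∀ i, i < 10 → ∀ j, j < 10 → (g i * g j) ^
      (if i = j then 1 else if j ∈ Fi23Spider.nb10 i then 3 else 2) = 1 := by
    intro i hi j hj
    rw [← pick_label i hi j hj]
    exact PresentedGroup.one_of_mem
      (show (FreeGroup.of (pick i) * FreeGroup.of (pick j)) ^ Spor.coxLabel Spor.Fi23.edges (pick i) (pick j) ∈ _ from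
        Or.inl ⟨pick i, mem_nodes _, pick j, mem_nodes _, rfl⟩)
  have gsq : ∀ i, i < 10 → g i * g i = 1 := fun i hi => by simpa using hrel i hi i hi
  have ginv : ∀ i, i < 10 → (g i)⁻¹ = g i := fun i hi => inv_eq_of_mul_eq_one_right (gsq i hi)
  have gbr : ∀ i, i < 10 → ∀ j ∈ Fi23Spider.nb10 i, g i * g j * g i = g j * g i * g j := by
    intro i hi j hadj
    have hj := Fi23Spider.graph10.lt i hi j hadj
    have hne : i ≠ j := fun e => Fi23Spider.graph10.irr i hi (e ▸ hadj)
    have h3 := hrel i hi j hj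
    simp only [hne, hadj, if_false, if_true, pow_three] at h3
    have e : g i * g j * g i * (g j * g i * g j) = 1 := by rw [← h3]; group
    rw [mul_eq_one_iff_eq_inv, mul_inv_rev, mul_inv_rev, ginv i hi, ginv j hj, ← mul_assoc] at e
    exact e
  obtain ⟨e, he, hb⟩ := CentralLift.exists_braided hsurj hcen g par 10 (by
      intro i h0 hi; revert h0; revert i; decide) (fun i h0 hi => by
      refine gbr (par i) ?_ i ?_
      · revert h0; revert i; decide
      · revert h0; revert i; decide)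
  set q := e 0 * e 0 with hq
  have hq1 : σ q = 1 := by rw [hq, map_mul, he]; exact gsq 0 (by omega)
  have hsame : ∀ i, i < 10 → e i * e i = q := by
    intro i
    induction i using Nat.strong_induction_on with
    | _ i IH =>
    intro hi
    rcases Nat.eq_zero_or_pos i with rfl | h0
    · rfl
    · have hp : par i < i := (by decide : ∀ k < 10, 0 < k → par k < k) i hi h0
      rw [← IH (par i) hp (by omega)]
      refine (CentralLift.sq_eq (hb i h0 hi) ?_).symm
      apply hcen
      rw [MonoidHom.mem_ker, map_mul, he]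
      exact gsq _ (by omega)
  obtain ⟨Δ, _, τ, ι, r, hτc, hinj, hτι, hτr, hr⟩ := CentralLift.exists_sqrt σ hcen hq1
  have hτι' : ∀ x, τ (ι x) = σ x := fun x => DFunLike.congr_fun hτι x
  have hrc : ∀ y, y * r = r * y := Subgroup.mem_center_iff.1 (hτc hτr)
  set ε : ℕ → Δ := fun i => ι (e i) * r with hε
  have τε : ∀ i, τ (ε i) = g i := fun i => by simp [hε, hτι', he, hτr]
  have εsq : ∀ i, i < 10 → ε i * ε i = 1 := by
    intro i hi
    calc ι (e i) * r * (ι (e i) * r) = ι (e i) * (r * ι (e i)) * r := by group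
      _ = ι (e i) * (ι (e i) * r) * r := by rw [← hrc (ι (e i))]
      _ = ι (e i * e i) * (r * r) := by rw [map_mul]; group
      _ = r * r * ι q := by
        rw [hsame i hi]; exact (Subgroup.mem_center_iff.1 (hτc (x := r * r) (by
          simp [MonoidHom.mem_ker, hτr])) (ι q))
      _ = 1 := hr
  have scale3 : ∀ x y : Δ, (x * r) * (y * r) * (x * r) = x * y * x * (r * r * r) := by
    intro x y
    calc (x * r) * (y * r) * (x * r) = x * (r * (y * r)) * (x * r) := by group
      _ = x * (y * r * r) * (x * r) := by rw [← hrc (y * r)]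
      _ = x * y * (r * r * x) * r := by group
      _ = x * y * (x * (r * r)) * r := by
        rw [← Subgroup.mem_center_iff.1 (hτc (x := r * r) (by simp [MonoidHom.mem_ker, hτr])) x]
      _ = _ := by group
  have εbr : ∀ i, i < 10 → ∀ j ∈ Fi23Spider.nb10 i, ε i * ε j * ε i = ε j * ε i * ε j := by
    intro i hi j hj
    have hcase : ∀ i < 10, ∀ j ∈ Fi23Spider.nb10 i,
        (0 < j ∧ j < 10 ∧ par j = i) ∨ (0 < i ∧ par i = j) := by decide
    rcases hcase i hi j hj with ⟨h0, hj10, hp⟩ | ⟨h0, hp⟩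
    · simp only [hε, scale3, ← map_mul, ← hp, hb j h0 hj10]
    · simp only [hε, scale3, ← map_mul, ← hp, hb i h0 hi]
  have εcen : ∀ i, i < 10 → ∀ j, j < 10 → i ≠ j → j ∉ Fi23Spider.nb10 i →
      ε i * ε j * ε i * ε j ∈ Subgroup.center Δ := by
    intro i hi j hj hne hn
    apply hτc
    rw [MonoidHom.mem_ker]
    simp only [map_mul, τε]
    have h2 := hrel i hi j hj
    simp only [hne, hn, if_false, pow_two] at h2
    rw [← h2]; group
  -- the relators
  have gspider : wp g Fi23Spider.spider ^ 10 = 1 := by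
    have h : PresentedGroup.mk (Spor.coxRelators Spor.Fi23.edges ∪ {r | r ∈ Spor.Fi23.extra})
        ((Spor.Fi23.d * Spor.Fi23.c * Spor.Fi23.b * Spor.Fi23.d * Spor.Fi23.e * Spor.Fi23.f * Spor.Fi23.d *
          Spor.Fi23.h * Spor.Fi23.i) ^ 10) = 1 :=
      PresentedGroup.one_of_mem (Or.inr (by simp [Spor.Fi23.extra]))
    rw [← h]
    simp only [map_pow, map_mul, wp, Fi23Spider.spider, g, pick, gens, List.map_cons, List.map_nil,
      List.prod_cons, List.prod_nil, List.getD_cons_zero, List.getD_cons_succ, mul_one, mul_assoc]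
    rfl
  set zw : List ℕ := (List.replicate 9 [8, 5, 2, 0, 1, 4, 3]).flatten with hzw
  have gz : wp g zw = 1 := by
    have h : PresentedGroup.mk (Spor.coxRelators Spor.Fi23.edges ∪ {r | r ∈ Spor.Fi23.extra})
        ((Spor.Fi23.a * Spor.Fi23.b * Spor.Fi23.c * Spor.Fi23.d * Spor.Fi23.e * Spor.Fi23.f *
          Spor.Fi23.h) ^ 9) = 1 :=
      PresentedGroup.one_of_mem (Or.inr (by simp [Spor.Fi23.extra]))
    rw [← h, hzw, wp_replicate]
    simp only [map_pow, map_mul, wp, g, pick, gens, List.map_cons, List.map_nil,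
      List.prod_cons, List.prod_nil, List.getD_cons_zero, List.getD_cons_succ, mul_one, mul_assoc]
    rfl
  have τwp : ∀ w, τ (wp ε w) = wp g w := fun w => by
    rw [CentralLift.map_wp]; exact congrArg (fun f => wp f w) (funext τε)
  have zc : wp ε zw ∈ Subgroup.center Δ := hτc (by rw [MonoidHom.mem_ker, τwp, gz])
  -- the nine non-adjacent pairs at the last node
  set c0 := ε 9 * ε 0 * ε 9 * ε 0 with hc0
  have hc0c : c0 ∈ Subgroup.center Δ := εcen 9 (by omega) 0 (by omega) (by omega) (by decide)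
  have cst : ∀ b d, b < 10 → d < 10 → d ∈ Fi23Spider.nb10 b → 9 ≠ b → 9 ≠ d →
      b ∉ Fi23Spider.nb10 9 → d ∉ Fi23Spider.nb10 9 →
      ε 9 * ε d * ε 9 * ε d = ε 9 * ε b * ε 9 * ε b := fun b d hb' hd' hbd h9b h9d hnb hnd =>
    CentralLift.pair_const (εsq 9 (by omega)) (εsq b hb') (εsq d hd') (εbr b hb' d hbd)
      (εcen 9 (by omega) b hb' h9b hnb) (εcen 9 (by omega) d hd' h9d hnd)
  have k1 : ε 9 * ε 1 * ε 9 * ε 1 = c0 := cst 0 1 (by omega) (by omega) (by decide) (by omega) (by omega) (by decide) (by decide)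
  have k2 : ε 9 * ε 2 * ε 9 * ε 2 = c0 := cst 0 2 (by omega) (by omega) (by decide) (by omega) (by omega) (by decide) (by decide)
  have k3 : ε 9 * ε 3 * ε 9 * ε 3 = c0 := cst 0 3 (by omega) (by omega) (by decide) (by omega) (by omega) (by decide) (by decide)
  have k4 : ε 9 * ε 4 * ε 9 * ε 4 = c0 := (cst 1 4 (by omega) (by omega) (by decide) (by omega) (by omega) (by decide) (by decide)).trans k1
  have k5 : ε 9 * ε 5 * ε 9 * ε 5 = c0 := (cst 2 5 (by omega) (by omega) (by decide) (by omega) (by omega) (by decide) (by decide)).trans k2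
  have k8 : ε 9 * ε 8 * ε 9 * ε 8 = c0 := (cst 5 8 (by omega) (by omega) (by decide) (by omega) (by omega) (by decide) (by decide)).trans k5
  have i9 : (ε 9)⁻¹ = ε 9 := inv_eq_of_mul_eq_one_right (εsq 9 (by omega))
  have hconj : ∀ k, k < 10 → ε 9 * ε k * ε 9 * ε k = c0 → MulAut.conj (ε 9) (ε k) = ε k * c0 := by
    intro k hk h
    rw [MulAut.conj_apply, i9, Subgroup.mem_center_iff.1 hc0c, ← h, mul_assoc _ (ε k) (ε k), εsq k hk,
      mul_one]
  have hc01 : c0 = 1 := by
    have hc2 : c0 * c0 = 1 := by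
      have e1 : c0 = ε 0 * ε 9 * ε 0 * ε 9 := by
        calc c0 = c0 * (ε 9 * ε 9) := by rw [εsq 9 (by omega), mul_one]
          _ = (c0 * ε 9) * ε 9 := by group
          _ = (ε 9 * c0) * ε 9 := by rw [Subgroup.mem_center_iff.1 hc0c]
          _ = (ε 9 * ε 9) * (ε 0 * ε 9 * ε 0 * ε 9) := by rw [hc0]; group
          _ = _ := by rw [εsq 9 (by omega), one_mul]
      nth_rewrite 2 [e1]
      rw [hc0]
      calc ε 9 * ε 0 * ε 9 * ε 0 * (ε 0 * ε 9 * ε 0 * ε 9) = ε 9 * ε 0 * ε 9 * (ε 0 * ε 0) * ε 9 * ε 0 * ε 9 := by group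
        _ = ε 9 * ε 0 * (ε 9 * ε 9) * ε 0 * ε 9 := by rw [εsq 0 (by omega)]; group
        _ = ε 9 * (ε 0 * ε 0) * ε 9 := by rw [εsq 9 (by omega)]; group
        _ = 1 := by rw [εsq 0 (by omega), mul_one, εsq 9 (by omega)]
    have h1 : MulAut.conj (ε 9) (wp ε zw) = wp ε zw * c0 ^ zw.length := by
      rw [show MulAut.conj (ε 9) (wp ε zw) = (MulAut.conj (ε 9)).toMonoidHom (wp ε zw) from rfl,
        CentralLift.map_wp, ← CentralLift.wp_mul_central hc0c]
      refine congrArg List.prod (List.map_congr_left fun k hk => ?_)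
      have hk' : k ∈ [8, 5, 2, 0, 1, 4, 3] := by
        obtain ⟨l, hl, hkl⟩ := List.mem_flatten.1 hk
        rwa [List.eq_of_mem_replicate hl] at hkl
      simp only [List.mem_cons, List.not_mem_nil, or_false] at hk'
      rcases hk' with rfl | rfl | rfl | rfl | rfl | rfl | rfl
      exacts [hconj 8 (by omega) k8, hconj 5 (by omega) k5, hconj 2 (by omega) k2,
        hconj 0 (by omega) rfl, hconj 1 (by omega) k1, hconj 4 (by omega) k4, hconj 3 (by omega) k3]
    rw [MulAut.conj_apply, Subgroup.mem_center_iff.1 zc (ε 9), mul_inv_cancel_right] at h1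
    have h63 : c0 ^ zw.length = 1 := by
      exact mul_left_cancel (h1.symm.trans (mul_one _).symm)
    rw [show zw.length = 2 * 31 + 1 by decide, pow_succ, pow_mul, pow_two, hc2, one_pow, one_mul] at h63
    exact h63
  have base : ∀ p ∈ ([(9, 8), (9, 5), (9, 2), (9, 0), (9, 1), (9, 4), (9, 3)] : List (ℕ × ℕ)),
      ε p.1 * ε p.2 = ε p.2 * ε p.1 := by
    have key : ∀ k, k < 10 → ε 9 * ε k * ε 9 * ε k = c0 → ε 9 * ε k = ε k * ε 9 := by
      intro k hk h
      rw [hc01, mul_assoc (ε 9 * ε k), mul_eq_one_iff_eq_inv, mul_inv_rev, i9,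
        inv_eq_of_mul_eq_one_right (εsq k hk)] at h
      exact h
    intro p hp
    simp only [List.mem_cons, List.not_mem_nil, or_false] at hp
    rcases hp with rfl | rfl | rfl | rfl | rfl | rfl | rfl
    exacts [key 8 (by omega) k8, key 5 (by omega) k5, key 2 (by omega) k2, key 0 (by omega) rfl,
      key 1 (by omega) k1, key 4 (by omega) k4, key 3 (by omega) k3]
  obtain ⟨all, hall⟩ : ∃ all, closeOK closeSteps [(9, 8), (9, 5), (9, 2), (9, 0), (9, 1), (9, 4), (9, 3)]
      = some all := Option.isSome_iff_exists.1 (by decide)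
  have hs : Cox 10 Fi23Spider.nb10 ε := by
    refine ⟨εsq, fun i hi j hj hne hn => ?_, εbr⟩
    refine knownB_sound ε (closeOK_sound ε εsq εbr εcen base hall) ?_
    have h : ∀ l, closeOK closeSteps [(9, 8), (9, 5), (9, 2), (9, 0), (9, 1), (9, 4), (9, 3)] = some l →
        ∀ i < 10, ∀ j < 10, i ≠ j → j ∉ Fi23Spider.nb10 i → knownB l i j = true := by
      intro l hl
      have : ((closeOK closeSteps [(9, 8), (9, 5), (9, 2), (9, 0), (9, 1), (9, 4), (9, 3)]).map fun l =>
          (List.range 10).all fun i => (List.range 10).all fun j =>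
            (i == j) || decide (j ∈ Fi23Spider.nb10 i) || knownB l i j) = some true := by
        decide +kernel
      rw [hl] at this
      intro i hi j hj hne hn
      simp only [Option.map_some, Option.some.injEq, List.all_eq_true, List.mem_range, Bool.or_eq_true,
        beq_iff_eq, decide_eq_true_eq] at this
      rcases this i hi j hj with (h | h) | h
      exacts [absurd h hne, absurd h hn, h]
    exact h all hall i hi j hj hne hn
  -- normalise the E₇ element to 1
  set ζ := wp ε zw with hζ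
  have hζ2 : ζ * ζ = 1 := by
    rw [hζ, ← wp_append]
    exact delCheck_sound Fi23Spider.graph10 hs (cs := Fi23Data.zSqDel) (by decide +kernel) (by decide +kernel)
  set ε' : ℕ → Δ := fun i => ε i * ζ with hε'
  have hs' : Cox 10 Fi23Spider.nb10 ε' := by
    have sc : ∀ x y : Δ, x * ζ * (y * ζ) = x * y := by
      intro x y
      calc x * ζ * (y * ζ) = x * (ζ * y) * ζ := by group
        _ = x * (y * ζ) * ζ := by rw [← Subgroup.mem_center_iff.1 zc y]
        _ = x * y * (ζ * ζ) := by group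
        _ = x * y := by rw [hζ2, mul_one]
    refine ⟨fun i hi => by simp only [hε', sc]; exact hs.sq i hi,
      fun i hi j hj h h' => by simp only [hε', sc]; exact hs.comm i hi j hj h h',
      fun i hi j hj => ?_⟩
    simp only [hε', sc, ← mul_assoc]
    rw [hs.braid i hi j hj]
  have τε' : ∀ i, τ (ε' i) = g i := fun i => by simp [hε', τε, hζ, τwp, gz]
  have τwp' : ∀ w, τ (wp ε' w) = wp g w := fun w => by
    rw [CentralLift.map_wp]; exact congrArg (fun f => wp f w) (funext τε')
  have hspider : wp ε' Fi23Spider.spider ^ 10 = 1 :=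
    Fi23Spider.spider_eq_one hs' (hτc (by rw [MonoidHom.mem_ker, map_pow, τwp', gspider]))
  have hz : wp ε' [8, 5, 2, 0, 1, 4, 3] ^ 9 = 1 := by
    rw [← wp_replicate, ← hzw, hε', CentralLift.wp_mul_central zc, ← hζ,
      show zw.length = 2 * 31 + 1 by decide, pow_succ, pow_mul, pow_two, hζ2, one_pow, one_mul, hζ2]
  -- the section
  let f : Spor.Fi23.Gen → Δ := fun x => ε' (gens.idxOf x)
  have fpick : ∀ i, i < 10 → f (pick i) = ε' i := by
    intro i hi; exact congrArg ε' (by revert hi; revert i; decide)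
  have frel : ∀ x ∈ Spor.coxRelators Spor.Fi23.edges ∪ {r | r ∈ Spor.Fi23.extra}, FreeGroup.lift f x = 1 := by
    rintro x (⟨p, -, p', -, rfl⟩ | hx)
    · obtain ⟨i, hi, rfl⟩ := pick_surj p
      obtain ⟨j, hj, rfl⟩ := pick_surj p'
      simp only [map_pow, map_mul, FreeGroup.lift_apply_of, fpick i hi, fpick j hj, pick_label i hi j hj]
      split_ifs with h h'
      · subst h; rw [pow_one]; exact hs'.sq i hi
      · have hb' := hs'.braid i hi j h'
        calc (ε' i * ε' j) ^ 3 = (ε' i * ε' j * ε' i) * (ε' j * ε' i * ε' j) := by rw [pow_three]; group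
          _ = (ε' i * ε' j * ε' i) * (ε' i * ε' j * ε' i) := by rw [hb']
          _ = ε' i * ε' j * (ε' i * ε' i) * ε' j * ε' i := by group
          _ = 1 := by rw [hs'.sq i hi, mul_one, mul_assoc (ε' i), hs'.sq j hj, mul_one, hs'.sq i hi]
      · rw [pow_two]
        calc ε' i * ε' j * (ε' i * ε' j) = ε' i * ε' j * (ε' j * ε' i) := by rw [hs'.comm i hi j hj h h']
          _ = ε' i * (ε' j * ε' j) * ε' i := by group
          _ = 1 := by rw [hs'.sq j hj, mul_one, hs'.sq i hi]
    · simp only [Spor.Fi23.extra, List.mem_cons, List.not_mem_nil, or_false, Set.mem_ofPred_eq] at hx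
      have e : ∀ x, f x = ε' (gens.idxOf x) := fun _ => rfl
      rcases hx with rfl | rfl
      · rw [← hspider]
        simp [e, gens, wp, Fi23Spider.spider, mul_assoc]
      · rw [← hz]
        simp [e, gens, wp, mul_assoc]
  let φ : Spor.Fi23 →* Δ := PresentedGroup.toGroup frel
  have hτφ : ∀ x, τ (φ x) = x := by
    intro x
    refine DFunLike.congr_fun (f := τ.comp φ) (g := MonoidHom.id _) (PresentedGroup.ext fun p => ?_) x
    obtain ⟨i, hi, rfl⟩ := pick_surj p
    simp only [MonoidHom.comp_apply, φ, PresentedGroup.toGroup.of, fpick i hi, τε', MonoidHom.id_apply]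
    rfl
  have hsplit : ∀ x, ∀ y, ι x * (φ (σ x))⁻¹ * y = y * (ι x * (φ (σ x))⁻¹) := fun x y =>
    (Subgroup.mem_center_iff.1 (hτc (x := ι x * (φ (σ x))⁻¹) (by
      simp [MonoidHom.mem_ker, hτι', hτφ])) y).symm
  have hle : commutator Γ ≤ (MonoidHom.eqLocus ι (φ.comp σ)) := by
    rw [commutator_def, Subgroup.commutator_le]
    intro x _ y _
    change ι (x * y * x⁻¹ * y⁻¹) = φ (σ (x * y * x⁻¹ * y⁻¹))
    simp only [map_mul, map_inv]
    set cx := ι x * (φ (σ x))⁻¹ with hcx
    set cy := ι y * (φ (σ y))⁻¹ with hcy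
    have ex : ι x = cx * φ (σ x) := by rw [hcx]; group
    have ey : ι y = cy * φ (σ y) := by rw [hcy]; group
    have kx : ∀ z, cx * z = z * cx := hsplit x
    have ky : ∀ z, cy * z = z * cy := hsplit y
    clear_value cx cy
    rw [ex, ey, mul_inv_rev (a := cx), mul_inv_rev (a := cy)]
    calc cx * φ (σ x) * (cy * φ (σ y)) * ((φ (σ x))⁻¹ * cx⁻¹) * ((φ (σ y))⁻¹ * cy⁻¹)
        = cx * (φ (σ x) * cy) * (φ (σ y) * (φ (σ x))⁻¹) * cx⁻¹ * ((φ (σ y))⁻¹ * cy⁻¹) := by group
      _ = cx * (cy * φ (σ x)) * (φ (σ y) * (φ (σ x))⁻¹) * cx⁻¹ * ((φ (σ y))⁻¹ * cy⁻¹) := by rw [ky]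
      _ = cx * (cy * φ (σ x) * (φ (σ y) * (φ (σ x))⁻¹)) * cx⁻¹ * ((φ (σ y))⁻¹ * cy⁻¹) := by group
      _ = cy * φ (σ x) * (φ (σ y) * (φ (σ x))⁻¹) * ((φ (σ y))⁻¹ * cy⁻¹) := by rw [kx]; group
      _ = cy * (φ (σ x) * φ (σ y) * (φ (σ x))⁻¹ * (φ (σ y))⁻¹) * cy⁻¹ := by group
      _ = φ (σ x) * φ (σ y) * (φ (σ x))⁻¹ * (φ (σ y))⁻¹ := by rw [ky]; group
  rw [eq_bot_iff]
  intro x hx
  have h := hle (hcomm hx)
  rw [MonoidHom.mem_ker] at hx
  change ι x = φ (σ x) at h
  rw [hx, map_one] at h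
  exact hinj (h.trans (map_one ι).symm)

/-- The Schur multiplier of the Fischer group Fi₂₃ (the finitely presented group of the definitions) is trivial; here the Schur multiplier is described through stem extensions, as in the definitions: surjective homomorphisms onto the group from a finite group, whose kernel is central in that finite group and contained in that finite group's commutator subgroup. -/
theorem result : Cfsg.HasCyclicSchurMultiplier Cfsg.Spor.Fi23 1 := by
  have : Finite Cfsg.Spor.Fi23 := Cfsg.Agent.S1697.upper.1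
  exact CfsgLib.SchurMult.hasCyclicSchurMultiplier_one ker_eq_bot

end Cfsg.Agent.S2054
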