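import Cfsg.Statements.S2087
import Cfsg.Agent.S0255
import Cfsg.Agent.Lib.SchurMult.SL2
import Cfsg.Agent.Lib.SchurMult.PerfectCover
import Cfsg.Agent.Lib.ClassicalLinear.Card
import Cfsg.Agent.Lib.ClassicalLinear.Simple

set_option autoImplicit false
open Cfsg

namespace Cfsg.Agent.S2087

/-- Exceptional Schur multiplier: over the field with 2 elements, PSL₃ has Schur multiplier cyclic of order 2 (here the Schur multiplier is described through stem extensions, as in the definitions). -/
theorem result {F : Type*} [Field F] [Fintype F] (hF : Fintype.card F = 2) : Cfsg.HasCyclicSchurMultiplier (Matrix.ProjectiveSpecialLinearGroup (Fin 3) F) 2 := by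
  classical
  have : Fact (Nat.Prime 7) := ⟨by norm_num⟩
  let : Field (ULift (ZMod 7)) := ULift.field
  have h7 : Fintype.card (ULift (ZMod 7)) = 7 := by simp
  obtain ⟨e⟩ := Cfsg.Agent.S0255.result (F := ULift (ZMod 7)) (K := F) h7 hF
  refine CfsgLib.SchurMult.hasSchurMultiplier_congr e ?_
  let τ := QuotientGroup.mk' (Subgroup.center (Matrix.SpecialLinearGroup (Fin 2) (ULift (ZMod 7))))
  have hker : τ.ker = Subgroup.center _ := QuotientGroup.ker_mk' _
  have hperf : commutator (Matrix.SpecialLinearGroup (Fin 2) (ULift (ZMod 7))) = ⊤ :=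
    CfsgLib.ClassicalLinear.commutator_sl_eq_top (Or.inr
      (CfsgLib.ClassicalLinear.exists_sq_ne_one_of_four_le_card (by rw [Nat.card_eq_fintype_card, h7]; norm_num)))
  have hc2 : Nat.card τ.ker = 2 := by
    rw [hker, CfsgLib.ClassicalLinear.card_center_SL, Fintype.card_fin, h7]; decide
  refine CfsgLib.SchurMult.hasCyclicSchurMultiplier_of_cover τ (QuotientGroup.mk'_surjective _) hker.le
    hperf ?_ ?_ hc2
  · intro Γ _ _ ρ hρ
    obtain ⟨π, hπ⟩ := (CfsgLib.SchurMult.sl2_hasCyclicSchurMultiplier_one (F := ULift (ZMod 7))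
      (by rw [h7]; norm_num) (by rw [h7]; norm_num)).2 Γ ρ hρ
    rw [eq_bot_iff]
    intro z hz
    obtain ⟨a, ha⟩ := hπ ⟨z, hz⟩
    rw [Subsingleton.elim a 1, map_one] at ha
    exact Subgroup.mem_bot.2 (congrArg Subtype.val ha).symm
  · have : Fact (Nat.Prime 2) := ⟨Nat.prime_two⟩
    exact isCyclic_of_prime_card hc2

end Cfsg.Agent.S2087
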