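import Cfsg.Statements.S2093
import Cfsg.Agent.Lib.SpSixTwo.Cover
import Cfsg.Agent.Lib.SchurMult.PerfectCover
import Cfsg.Agent.Lib.ClassicalLinear.SympPerfect
-- import your own Cfsg.Agent.* helpers here

set_option autoImplicit false
open Cfsg

namespace Cfsg.Agent.S2093

/-- Exceptional Schur multiplier: over the field with 2 elements, PSp₆ has Schur multiplier cyclic of order 2 (here the Schur multiplier is described through stem extensions, as in the definitions). -/
theorem result {F : Type*} [Field F] [Fintype F] (hF : Fintype.card F = 2) : Cfsg.HasCyclicSchurMultiplier (Cfsg.PSp 3 F) 2 := by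
  classical
  have hF' : Nat.card F = 2 := by rw [Nat.card_eq_fintype_card, hF]
  have : Fact (Nat.Prime 2) := ⟨Nat.prime_two⟩
  obtain ⟨e⟩ := CfsgLib.SpMult.exists_zmodEquiv (F := F) 2 hF'
  let φ : ZMod 2 →+* F := e.symm.toRingHom
  have hφ : Function.Surjective φ := e.symm.surjective
  have hcenter : Subgroup.center (Matrix.symplecticGroup (Fin 3) F) = ⊥ := by
    refine Subgroup.card_eq_one.1 ?_
    rw [CfsgLib.ClassicalLinear.card_center_sp (by omega), hF]
    rfl
  let q : CfsgLib.SpAmalgam.Sp 3 F ≃* Cfsg.PSp 3 F :=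
    MulEquiv.ofBijective (QuotientGroup.mk' (Subgroup.center (Matrix.symplecticGroup (Fin 3) F)))
      ⟨(MonoidHom.ker_eq_bot_iff _).1 ((QuotientGroup.ker_mk' _).trans hcenter), QuotientGroup.mk'_surjective _⟩
  refine CfsgLib.SchurMult.hasSchurMultiplier_congr q ⟨?_, fun Γ _ _ σ hσ => ?_⟩
  · obtain ⟨k, hk, hkc, hk1, hcen, hall⟩ := CfsgLib.SpSixTwo.exists_ker_gen φ hφ
    have hc : Nat.card (CfsgLib.SpSixTwo.proj φ).ker = 2 := by
      refine Nat.card_eq_two_iff.2 ⟨1, ⟨k, hk⟩, fun h => hk1 (congrArg Subtype.val h).symm, ?_⟩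
      refine Set.eq_univ_of_forall fun x => ?_
      rcases hall x.1 x.2 with h | h
      · exact Or.inl (Subtype.ext h)
      · exact Or.inr (Subtype.ext h)
    refine ⟨CfsgLib.SpSixTwo.cover φ, inferInstance, inferInstance, CfsgLib.SpSixTwo.proj φ,
      ⟨CfsgLib.SpSixTwo.proj_surjective φ hφ, hcen, fun x hx => ?_⟩,
      ⟨((zmodCyclicMulEquiv (isCyclic_of_prime_card hc)).symm.trans
        (AddEquiv.toMultiplicative (ZMod.ringEquivCongr hc).toAddEquiv))⟩⟩
    rcases hall x hx with rfl | rfl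
    · exact one_mem _
    · exact hkc
  · obtain ⟨k, hk2, hk, hle⟩ := CfsgLib.SpSixTwo.exists_kerGen φ hφ hσ
    let g : ℤ →+ Additive σ.ker := zmultiplesHom (Additive σ.ker) (Additive.ofMul ⟨k, hk⟩)
    have hg : g 2 = 0 := by
      show (2 : ℤ) • Additive.ofMul (⟨k, hk⟩ : σ.ker) = 0
      refine Additive.toMul.injective (Subtype.ext ?_)
      show k ^ (2 : ℤ) = 1
      exact_mod_cast hk2
    refine ⟨AddMonoidHom.toMultiplicativeLeft (ZMod.lift 2 ⟨g, hg⟩), fun z => ?_⟩
    obtain ⟨n, hn⟩ := Subgroup.mem_zpowers_iff.1 (hle z.2)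
    refine ⟨Multiplicative.ofAdd (n : ZMod 2), Subtype.ext ?_⟩
    show ((ZMod.lift 2 ⟨g, hg⟩ (n : ZMod 2)).toMul : Γ) = z
    rw [ZMod.lift_coe]
    exact hn

end Cfsg.Agent.S2093
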