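import Cfsg.Statements.S2094
import Cfsg.Agent.Lib.OrthMult.Odd
import Cfsg.Agent.Lib.OrthMult.Three
import Cfsg.Agent.Lib.SpMult.Amalgam
import Cfsg.Agent.Lib.ClassicalLinear.SympPerfect

set_option autoImplicit false
open Cfsg

namespace Cfsg.Agent.S2094

theorem zmod_three_two : (2 : ZMod 3) = -1 := by decide

theorem zmod_three_cases : ∀ z : ZMod 3, z = 0 ∨ z = 1 ∨ z = -1 := by decide

/-- Schur multipliers of the odd-dimensional orthogonal groups: for m ≥ 3 and a field F of odd order q with (m, q) ≠ (3, 3), the Schur multiplier of PΩ_(2m+1)(F) (for the form x₀² + Σ xᵢyᵢ) is cyclic of order 2 = gcd(2, q − 1); here the Schur multiplier is described through stem extensions, as in the definitions. -/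
theorem result {F : Type*} [Field F] [Fintype F] {q : ℕ} (hF : Fintype.card F = q) (hq : Odd q) (m : ℕ) (hm : 3 ≤ m) (hexc : ¬ (m = 3 ∧ q = 3)) : Cfsg.HasCyclicSchurMultiplier (Cfsg.POmega F (Cfsg.quadFormOdd m F)) 2 := by
  classical
  subst hF
  have hodd : Odd (Nat.card F) := by rwa [Nat.card_eq_fintype_card]
  have h2 : (2 : F) ≠ 0 := CfsgLib.ClassicalForms.two_ne_zero_of_odd hodd
  have h1 : 1 < Fintype.card F := Fintype.one_lt_card
  refine CfsgLib.OrthMult.hasCyclicSchurMultiplier_qOdd h2 hodd hm fun σ E => ?_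
  have hQ := CfsgLib.ClassicalForms.nondeg_qOdd (F := F) h2 m
  by_cases h3 : Fintype.card F = 3
  · have hm4 : 4 ≤ m := by
      by_contra h
      exact hexc ⟨by omega, h3⟩
    have : Fact (Nat.Prime 3) := ⟨Nat.prime_three⟩
    obtain ⟨e⟩ := CfsgLib.SpMult.exists_zmodEquiv (F := F) 3 (by rwa [Nat.card_eq_fintype_card])
    have h30 : (2 : F) = -1 := e.injective (by rw [map_ofNat, map_neg, map_one]; exact zmod_three_two)
    refine E.exists_lifts_three h2 hQ (by rw [CfsgLib.ClassicalForms.finrank_qOdd]; omega) h30 fun s => ?_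
    rcases zmod_three_cases (e s) with h' | h' | h'
    · exact Or.inl (e.injective (by rw [h', map_zero]))
    · exact Or.inr (Or.inl (e.injective (by rw [h', map_one])))
    · exact Or.inr (Or.inr (e.injective (by rw [h', map_neg, map_one])))
  · have h4 : 4 ≤ Fintype.card F := by
      obtain ⟨k, hk⟩ := hq
      omega
    obtain ⟨c, hc, hc2⟩ := CfsgLib.ClassicalLinear.exists_sq_ne_one_of_four_le_card (F := F)
      (by rwa [Nat.card_eq_fintype_card])
    exact E.exists_lifts h2 hQ (by rw [CfsgLib.ClassicalForms.finrank_qOdd]; omega) hc (by rwa [← pow_two])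

end Cfsg.Agent.S2094
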