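import Cfsg.Statements.S2095
import Cfsg.Agent.Lib.SchurMult.O73.Final
import Cfsg.Agent.Lib.SchurMult.CongrLift
import Cfsg.Agent.Lib.SchurMult.O73.FieldIso
import Cfsg.Agent.Lib.SpMult.SL2

set_option autoImplicit false
open Cfsg

namespace Cfsg.Agent.S2095

/-- Exceptional Schur multiplier: over the field with 3 elements, PΩ₇ (for the form x₀² + Σ xᵢyᵢ) has Schur multiplier cyclic of order 6 (the product of cyclic groups of orders 3 and 2; here the Schur multiplier is described through stem extensions, as in the definitions). -/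
theorem result {F : Type*} [Field F] [Fintype F] (hF : Fintype.card F = 3) : Cfsg.HasCyclicSchurMultiplier (Cfsg.POmega F (Cfsg.quadFormOdd 3 F)) 6 := by
  have : CharP F 3 := charP_of_card_eq_prime hF
  have : Fact (Nat.Prime 3) := ⟨Nat.prime_three⟩
  obtain ⟨r⟩ := CfsgLib.SpMult.exists_zmodEquiv (F := F) 3 (by rwa [Nat.card_eq_fintype_card])
  obtain ⟨L, hL⟩ := CfsgLib.Classes.OmegaSeven.exists_isometry (F := CfsgLib.SpSixTwo.K) CfsgLib.SchurMult.O73.two_ne_K
  obtain ⟨e⟩ := CfsgLib.Classes.OmegaSeven.nonempty_omega_equiv L hL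
  let e₁ : CfsgLib.SchurMult.O73.Om ≃* Cfsg.POmega CfsgLib.SpSixTwo.K (Cfsg.quadFormOdd 3 CfsgLib.SpSixTwo.K) :=
    (((QuotientGroup.quotientMulEquivOfEq CfsgLib.SchurMult.O73.center_eq_bot).trans
      QuotientGroup.quotientBot).symm).trans (CfsgLib.ClassicalForms.quotCenterCongr e)
  obtain ⟨e₂⟩ := CfsgLib.SchurMult.O73.nonempty_pOmega_ringEquiv r.symm
  exact CfsgLib.SchurMult.hasSchurMultiplier_congr_lift (e₁.trans e₂)
    CfsgLib.SchurMult.O73.hasCyclicSchurMultiplier_Om

end Cfsg.Agent.S2095
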