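import Cfsg.Statements.S2096
import Cfsg.Agent.Lib.ClassK.OrthPlusMult.Final

set_option autoImplicit false
open Cfsg

namespace Cfsg.Agent.S2096

/-- Schur multipliers of the even-dimensional orthogonal groups of plus type and odd rank: for odd l ≥ 5 and a field F with q elements, the Schur multiplier of PΩ⁺_2l(F) (for the form Σ xᵢyᵢ) is cyclic of order gcd(4, q^l − 1); here the Schur multiplier is described through stem extensions, as in the definitions. -/
theorem result {F : Type*} [Field F] [Fintype F] {q : ℕ} (hF : Fintype.card F = q) (l : ℕ) (hl : 5 ≤ l) (hodd : Odd l) : Cfsg.HasCyclicSchurMultiplier (Cfsg.POmega F (Cfsg.quadFormPlus l F)) (Nat.gcd 4 (q ^ l - 1)) := by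
  obtain ⟨m, rfl⟩ : ∃ m, l = m + 3 := ⟨l - 3, by omega⟩
  have hgood : CfsgLib.ClassK.OrthPlusMult.Good F m := fun h => by omega
  have hm : 1 ≤ m := by omega
  subst hF
  have hq : 0 < Fintype.card F := Fintype.card_pos
  by_cases h2 : (2 : F) = 0
  · have hq2 : Fintype.card F % 2 = 0 := by
      by_contra hc
      have : ringChar F ≠ 2 := fun e => hc (FiniteField.even_card_of_char_two e)
      exact Ring.two_ne_zero this h2
    have he : Even (Fintype.card F ^ (m + 3)) := Nat.even_pow.2 ⟨Nat.even_iff.2 hq2, by omega⟩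
    have hg : Nat.gcd 4 (Fintype.card F ^ (m + 3) - 1) = 1 := by
      have hpos : 0 < Fintype.card F ^ (m + 3) := pow_pos hq _
      have hodd' : Odd (Fintype.card F ^ (m + 3) - 1) := Nat.Even.sub_odd hpos he odd_one
      exact (Nat.Coprime.pow_left 2 (Nat.coprime_two_left.2 hodd') : Nat.Coprime (2 ^ 2) _)
    rw [hg]
    exact CfsgLib.ClassK.OrthPlusMult.multiplier_char_two hm hgood h2
  · have hq2 : Fintype.card F % 2 = 1 := FiniteField.odd_card_of_char_ne_two fun e => h2 (by
      have := ringChar.charP F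
      rw [e] at this
      exact_mod_cast CharP.cast_eq_zero F 2)
    obtain ⟨k, hk⟩ := hodd
    have hmod : Fintype.card F ^ (m + 3) % 4 = Fintype.card F % 4 := by
      rw [hk, pow_succ, pow_mul, Nat.mul_mod, Nat.pow_mod, Nat.pow_mod _ 2]
      rcases (by omega : Fintype.card F % 4 = 1 ∨ Fintype.card F % 4 = 3) with h | h <;> simp [h]
    have hpos : 0 < Fintype.card F ^ (m + 3) := pow_pos hq _
    rcases (by omega : Fintype.card F % 4 = 1 ∨ Fintype.card F % 4 = 3) with h | h
    · rw [show Nat.gcd 4 (Fintype.card F ^ (m + 3) - 1) = 4 from Nat.gcd_eq_left (Nat.dvd_of_mod_eq_zero (by omega))]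
      exact CfsgLib.ClassK.OrthPlusMult.multiplier_odd_rank_four hm hgood h2 ⟨k, hk⟩
        (FiniteField.isSquare_neg_one_iff.2 (by omega))
    · have hg : Nat.gcd 4 (Fintype.card F ^ (m + 3) - 1) = 2 := by
        rw [Nat.gcd_rec, show (Fintype.card F ^ (m + 3) - 1) % 4 = 2 by omega]
        rfl
      rw [hg]
      exact CfsgLib.ClassK.OrthPlusMult.multiplier_odd_rank_two hm hgood h2 ⟨k, hk⟩
        fun hs => (FiniteField.isSquare_neg_one_iff.1 hs) h

end Cfsg.Agent.S2096
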