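import Cfsg.Statements.S2097
import Cfsg.Agent.Lib.ClassK.OrthPlusMult.Final
import Cfsg.Agent.Lib.ClassicalLinear.Card

set_option autoImplicit false
open Cfsg

namespace Cfsg.Agent.S2097

/-- Schur multipliers of the even-dimensional orthogonal groups of plus type and even rank: for even l ≥ 4 and a field F with q elements, (l, q) ≠ (4, 2), the Schur multiplier of PΩ⁺_2l(F) (for the form Σ xᵢyᵢ) is the product of two cyclic groups of order gcd(2, q^l − 1) (so trivial for q even and a four-group for q odd; here the Schur multiplier is described through stem extensions, as in the definitions). -/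
theorem result {F : Type*} [Field F] [Fintype F] {q : ℕ} (hF : Fintype.card F = q) (l : ℕ) (hl : 4 ≤ l) (heven : Even l) (hexc : ¬ (l = 4 ∧ q = 2)) : Cfsg.HasSchurMultiplier (Cfsg.POmega F (Cfsg.quadFormPlus l F)) (Multiplicative (ZMod (Nat.gcd 2 (q ^ l - 1)) × ZMod (Nat.gcd 2 (q ^ l - 1)))) := by
  obtain ⟨m, rfl⟩ : ∃ m, l = m + 3 := ⟨l - 3, by omega⟩
  have hm : 1 ≤ m := by omega
  subst hF
  have hq : 0 < Fintype.card F := Fintype.card_pos
  have hgood : CfsgLib.ClassK.OrthPlusMult.Good F m := fun hm1 => by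
    by_cases h4 : 4 ≤ Nat.card F
    · exact Or.inl (CfsgLib.ClassicalLinear.exists_sq_ne_one_of_four_le_card h4)
    · right
      rw [Nat.card_eq_fintype_card] at h4
      have hq1 : 1 < Fintype.card F := Fintype.one_lt_card
      have hne2 : Fintype.card F ≠ 2 := fun e => hexc ⟨by omega, e⟩
      have hq3 : Fintype.card F = 3 := by omega
      have h3cases : ∀ k : ZMod 3, k = 0 ∨ k = 1 ∨ k = 1 + 1 := by decide
      have : Fact (Nat.Prime 3) := ⟨Nat.prime_three⟩
      have : CharP F 3 := charP_of_card_eq_prime hq3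
      have h30 : ((3 : ℕ) : F) = 0 := CharP.cast_eq_zero F 3
      refine ⟨by rw [← h30]; push_cast; norm_num, fun x => ?_⟩
      obtain ⟨k, rfl⟩ := ((Fintype.bijective_iff_injective_and_card
        (ZMod.castHom dvd_rfl F : ZMod 3 →+* F)).2 ⟨RingHom.injective _, by simp [hq3]⟩).2 x
      rcases h3cases k with rfl | rfl | rfl
      · exact Or.inl (map_zero _)
      · exact Or.inr (Or.inl (map_one _))
      · exact Or.inr (Or.inr (by rw [map_add, map_one]))
  have hpos : 0 < Fintype.card F ^ (m + 3) := pow_pos hq _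
  by_cases h2 : (2 : F) = 0
  · have hq2 : Fintype.card F % 2 = 0 := by
      by_contra hc
      have : ringChar F ≠ 2 := fun e => hc (FiniteField.even_card_of_char_two e)
      exact Ring.two_ne_zero this h2
    have he : Even (Fintype.card F ^ (m + 3)) := Nat.even_pow.2 ⟨Nat.even_iff.2 hq2, by omega⟩
    have hg : Nat.gcd 2 (Fintype.card F ^ (m + 3) - 1) = 1 :=
      (Nat.coprime_two_left.2 (Nat.Even.sub_odd hpos he odd_one) : Nat.Coprime 2 _)
    rw [hg]
    exact CfsgLib.ClassK.OrthPlusMult.multiplier_char_two hm hgood h2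
  · have hq2 : Fintype.card F % 2 = 1 := FiniteField.odd_card_of_char_ne_two fun e => h2 (by
      have := ringChar.charP F
      rw [e] at this
      exact_mod_cast CharP.cast_eq_zero F 2)
    have hodd : Odd (Fintype.card F ^ (m + 3)) := (Nat.odd_iff.2 hq2).pow
    have hg : Nat.gcd 2 (Fintype.card F ^ (m + 3) - 1) = 2 :=
      Nat.gcd_eq_left (even_iff_two_dvd.1 (Nat.Odd.sub_odd hodd odd_one))
    rw [hg]
    exact CfsgLib.ClassK.OrthPlusMult.multiplier_even_rank hm hgood h2 heven

end Cfsg.Agent.S2097
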