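import Cfsg.Statements.S2098
import Cfsg.Agent.Lib.OrthEightTwo.Cover
import Cfsg.Agent.Lib.DFourTwo.Lifts
import Cfsg.Agent.Lib.ClassicalForms.Ortho.POmega
import Cfsg.Agent.Lib.SpMult.SL2
import Cfsg.Agent.Lib.SchurMult.PerfectCover
-- import your own Cfsg.Agent.* helpers here

set_option autoImplicit false
open Cfsg

namespace Cfsg.Agent.S2098

universe u

/-- Two central involutions generate an image of the four-group. -/
theorem exists_fourHom {Γ : Type u} [Group Γ] {H : Type u} [Group H] (σ : Γ →* H) (a b : Γ) (ha : a ∈ σ.ker)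
    (hb : b ∈ σ.ker) (hc : σ.ker ≤ Subgroup.center Γ) (a2 : a * a = 1) (b2 : b * b = 1)
    (hle : σ.ker ≤ Subgroup.closure {a, b}) :
    ∃ π : Multiplicative (ZMod 2 × ZMod 2) →* σ.ker, Function.Surjective π := by
  have key : ∀ c : Γ, c * c = 1 → ∀ x y : ZMod 2, c ^ (x + y).val = c ^ x.val * c ^ y.val := by
    intro c c2 x y
    rw [← pow_add, ZMod.val_add]
    exact (pow_eq_pow_mod _ (by rw [pow_two, c2])).symm
  have comm : Commute a b := (Subgroup.mem_center_iff.1 (hc hb) a)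
  let π : Multiplicative (ZMod 2 × ZMod 2) →* σ.ker :=
    { toFun := fun p => ⟨a ^ p.toAdd.1.val * b ^ p.toAdd.2.val, mul_mem (pow_mem ha _) (pow_mem hb _)⟩
      map_one' := Subtype.ext (by simp)
      map_mul' := fun p q => Subtype.ext (by
        show a ^ (p.toAdd.1 + q.toAdd.1).val * b ^ (p.toAdd.2 + q.toAdd.2).val = _
        rw [key a a2, key b b2]
        exact ((comm.symm.pow_pow _ _).mul_mul_mul_comm _ _).symm) }
  refine ⟨π, fun z => ?_⟩
  have hsub : Subgroup.closure {a, b} ≤ π.range.map σ.ker.subtype := by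
    rw [Subgroup.closure_le]
    rintro c (rfl | rfl)
    · exact ⟨_, ⟨Multiplicative.ofAdd (1, 0), rfl⟩, by simp [π, ZMod.val_one]⟩
    · exact ⟨_, ⟨Multiplicative.ofAdd (0, 1), rfl⟩, by simp [π, ZMod.val_one]⟩
  obtain ⟨_, ⟨p, rfl⟩, hp⟩ := hsub (hle z.2)
  exact ⟨p, Subtype.ext hp⟩

/-- Exceptional Schur multiplier: over the field with 2 elements, PΩ⁺₈ (for the form Σ xᵢyᵢ) has Schur multiplier a four-group, the product of two cyclic groups of order 2 (here the Schur multiplier is described through stem extensions, as in the definitions). -/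
theorem result {F : Type*} [Field F] [Fintype F] (hF : Fintype.card F = 2) : Cfsg.HasSchurMultiplier (Cfsg.POmega F (Cfsg.quadFormPlus 4 F)) (Multiplicative (ZMod 2 × ZMod 2)) := by
  classical
  have hF' : Nat.card F = 2 := by rw [Nat.card_eq_fintype_card, hF]
  have htwo : ∀ z : ZMod 2, z = 0 ∨ z = 1 := by decide
  have : Fact (Nat.Prime 2) := ⟨Nat.prime_two⟩
  obtain ⟨e⟩ := CfsgLib.SpMult.exists_zmodEquiv (F := F) 2 hF'
  let φ : ZMod 2 →+* F := e.symm.toRingHom
  have hφ : Function.Surjective φ := e.symm.surjective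
  have h01 : ∀ s : F, s = 0 ∨ s = 1 := fun s => by
    obtain ⟨z, rfl⟩ := hφ s
    rcases htwo z with rfl | rfl
    · exact Or.inl (map_zero φ)
    · exact Or.inr (map_one φ)
  have h2 : (2 : F) = 0 := by
    rw [← one_add_one_eq_two]
    exact CfsgLib.OrthEightTwo.two_zero φ hφ
  have hc := CfsgLib.ClassicalForms.commutator_qPlus (F := F) (m := 4) (by norm_num)
  have hcen : Subgroup.center (CfsgLib.ClassicalForms.siegelGroup (CfsgLib.ClassicalForms.qPlus 4 F)) = ⊥ :=
    Subgroup.card_eq_one.1 (CfsgLib.ClassicalForms.card_center_siegelGroup_even h2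
      (CfsgLib.ClassicalForms.nondeg_qPlus 4) (by simp))
  let m := QuotientGroup.mk' (Subgroup.center (CfsgLib.ClassicalForms.siegelGroup (CfsgLib.ClassicalForms.qPlus 4 F)))
  let q : commutator (CfsgLib.ClassicalForms.orth (CfsgLib.ClassicalForms.qPlus 4 F)) ≃*
      Cfsg.POmega F (Cfsg.quadFormPlus 4 F) :=
    (MulEquiv.subgroupCongr hc).trans ((MulEquiv.ofBijective m
      ⟨(MonoidHom.ker_eq_bot_iff m).1 ((QuotientGroup.ker_mk' _).trans hcen), QuotientGroup.mk'_surjective _⟩).trans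
      (CfsgLib.ClassicalForms.pOmegaEquiv _ (CfsgLib.ClassicalForms.qPlus_apply 4) hc).symm)
  refine CfsgLib.SchurMult.hasSchurMultiplier_congr q ⟨?_, fun Γ _ _ σ hσ => ?_⟩
  · obtain ⟨k₁, k₂, m1, m2, c1, c2, s1, s2, hcentre, hle, hcard⟩ := CfsgLib.OrthEightTwo.exists_ker_gens φ hφ
    let σ := (CfsgLib.OrthEightTwo.proj φ).codRestrict _ (CfsgLib.OrthEightTwo.proj_mem_commutator φ hφ)
    have hker : σ.ker = (CfsgLib.OrthEightTwo.proj φ).ker := by
      ext x
      exact Subtype.ext_iff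
    have : Finite (CfsgLib.ClassicalForms.orth (CfsgLib.ClassicalForms.qPlus 4 F)) := by
      have : Finite ((Fin 4 ⊕ Fin 4 → F) ≃ₗ[F] (Fin 4 ⊕ Fin 4 → F)) :=
        Finite.of_injective (fun e => (e : (Fin 4 ⊕ Fin 4 → F) → (Fin 4 ⊕ Fin 4 → F))) DFunLike.coe_injective
      infer_instance
    refine ⟨CfsgLib.OrthEightTwo.cover φ, inferInstance, inferInstance, σ, ⟨fun g => ?_, ?_, ?_⟩, ?_⟩
    · obtain ⟨x, hx⟩ := CfsgLib.OrthEightTwo.commutator_le_range φ hφ g.2
      exact ⟨x, Subtype.ext hx⟩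
    · rw [hker]; exact hcentre
    · rw [hker]
      exact hle.trans ((Subgroup.closure_le _).2 (by rintro x (rfl | rfl) <;> assumption))
    · obtain ⟨π, hπ⟩ := exists_fourHom σ k₁ k₂ (hker ▸ m1) (hker ▸ m2) (hker ▸ hcentre) s1 s2 (hker ▸ hle)
      have hbij : Function.Bijective π := (Nat.bijective_iff_surjective_and_card π).2
        ⟨hπ, by rw [hker, hcard]; simp⟩
      exact ⟨(MulEquiv.ofBijective π hbij).symm⟩
  · obtain ⟨A, h⟩ := CfsgLib.Chevalley.exists_full (D := Cfsg.Lie.chevD4) (by simp)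
    obtain ⟨i⟩ := CfsgLib.ChevOrtho.D4.iso (F := F)
    have hstem := (CfsgLib.SchurMult.isStemExtension_comp_equiv hσ (q.trans i.symm)).1
    obtain ⟨b₁, b₂, hb1, hb2, s1, s2, hle⟩ := CfsgLib.DFourTwo.exists_ker_gens h h01 hstem
    refine exists_fourHom σ b₁ b₂ ?_ ?_ hσ.2.1 s1 s2 fun x hx => hle ?_
    · exact (q.trans i.symm).map_eq_one_iff.1 hb1
    · exact (q.trans i.symm).map_eq_one_iff.1 hb2
    · exact (q.trans i.symm).map_eq_one_iff.2 hx

end Cfsg.Agent.S2098
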