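import Cfsg.Statements.S2099
import Cfsg.Agent.Lib.OrthMult.MinusOdd
import Cfsg.Agent.Lib.OrthMult.MinusEven

set_option autoImplicit false
open Cfsg

namespace Cfsg.Agent.S2099

/-- Schur multipliers of the even-dimensional orthogonal groups of minus type: for l ≥ 4 and a field F with q elements, the Schur multiplier of PΩ⁻_2l(F) (for the form Σ_{i<l−1} xᵢyᵢ + z₁² + a z₁z₂ + b z₂² with the binary part anisotropic) is cyclic of order gcd(4, q^l + 1); here the Schur multiplier is described through stem extensions, as in the definitions. -/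
theorem result {F : Type*} [Field F] [Fintype F] {q : ℕ} (hF : Fintype.card F = q) (l : ℕ) (hl : 4 ≤ l) (a b : F) (hab : ∀ z₁ z₂ : F, z₁ ^ 2 + a * z₁ * z₂ + b * z₂ ^ 2 = 0 → z₁ = 0 ∧ z₂ = 0) : Cfsg.HasCyclicSchurMultiplier (Cfsg.POmega F (Cfsg.quadFormMinus (l - 1) F a b)) (Nat.gcd 4 (q ^ l + 1)) := by
  obtain ⟨m, rfl⟩ : ∃ m, l = m + 1 := ⟨l - 1, by omega⟩
  have hab' : CfsgLib.ClassicalForms.Aniso a b := hab
  rw [Nat.add_sub_cancel, ← hF]
  by_cases h2 : (2 : F) = 0
  · have : CharP F 2 := CharP.congr (ringChar F) (((Nat.dvd_prime Nat.prime_two).1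
      ((ringChar.spec F 2).1 (by exact_mod_cast h2))).resolve_left CharP.ringChar_ne_one)
    have hev : Fintype.card F % 2 = 0 := FiniteField.even_card_iff_char_two.1 (ringChar.eq F 2)
    have hgcd : Nat.gcd 4 (Fintype.card F ^ (m + 1) + 1) = 1 := by
      have h : (Fintype.card F ^ (m + 1) + 1) % 2 = 1 := by
        rw [Nat.add_mod, Nat.pow_mod, hev, zero_pow (by omega)]; norm_num
      exact Nat.Coprime.pow_left 2 ((Nat.prime_two.coprime_iff_not_dvd).2 (by omega))
    rw [hgcd]
    exact CfsgLib.OrthMult.hasCyclicSchurMultiplier_qMinus_even (by omega) hab'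
  · have hodd : Odd (Nat.card F) := by
      rw [Nat.card_eq_fintype_card]
      refine Nat.odd_iff.2 (FiniteField.odd_card_of_char_ne_two fun e => h2 ?_)
      have : CharP F 2 := e ▸ ringChar.charP F
      exact CharP.cast_eq_zero F 2
    rw [← Nat.card_eq_fintype_card]
    exact CfsgLib.OrthMult.hasCyclicSchurMultiplier_qMinus_odd h2 hodd (by omega) hab'

end Cfsg.Agent.S2099
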