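import Cfsg.Statements.S2102
import Cfsg.Agent.Lib.SchurMult.G2Four.Cover
import Cfsg.Agent.Lib.SchurMult.G2Four.Bound

set_option autoImplicit false
open Cfsg

namespace Cfsg.Agent.S2102

/-- Exceptional Schur multiplier: over the field with 4 elements the Chevalley group of type G₂ has Schur multiplier cyclic of order 2 (here the Schur multiplier is described through stem extensions, as in the definitions). -/
theorem result {F : Type*} [Field F] [Fintype F] (hF : Fintype.card F = 4) : Cfsg.HasCyclicSchurMultiplier ↥(Cfsg.Lie.chevG2.group F) 2 := by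
  obtain ⟨e⟩ := CfsgLib.SchurMult.G2Four.nonempty_equiv hF
  haveI : Finite ↥(Cfsg.Lie.chevG2.group F) := by
    haveI := CfsgLib.SchurMult.G2Four.card_P6.1
    exact Finite.of_equiv _ e.toEquiv
  exact ⟨CfsgLib.SchurMult.G2Four.exists_cover e,
    fun Γ _ _ σ hσ => CfsgLib.SchurMult.G2Four.exists_surjective e hσ⟩

end Cfsg.Agent.S2102
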