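import Cfsg.Statements.S2103
import Cfsg.Agent.Lib.ChevMult.LiftsF4
import Cfsg.Agent.S1078
-- import your own Cfsg.Agent.* helpers here

set_option autoImplicit false
open Cfsg

namespace Cfsg.Agent.S2103

/-- Schur multipliers of the Chevalley groups of type F₄: over a finite field with more than 2 elements the Schur multiplier of F₄(q) is trivial (here the Schur multiplier is described through stem extensions, as in the definitions); q = 2 is exceptional. -/
theorem result {F : Type*} [Field F] [Fintype F] (hF : 3 ≤ Fintype.card F) : Cfsg.HasCyclicSchurMultiplier ↥(Cfsg.Lie.chevF4.group F) 1 := by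
  classical
  have hD : Cfsg.Lie.chevF4 ∈ [Cfsg.Lie.chevG2, Cfsg.Lie.chevB2, Cfsg.Lie.chevD4, Cfsg.Lie.chevF4,
      Cfsg.Lie.chevE6, Cfsg.Lie.chevE7, Cfsg.Lie.chevE8] := by simp
  obtain ⟨A, h⟩ := CfsgLib.Chevalley.exists_full hD
  have hS : ∃ S : Finset F, 2 < S.card := ⟨Finset.univ, by rw [Finset.card_univ]; omega⟩
  have hK : ∃ x : F, x ≠ 0 ∧ x ≠ 1 := by
    obtain ⟨x, -, hx⟩ := Finset.exists_mem_notMem_of_card_lt_card (t := (Finset.univ : Finset F))
      (s := {0, 1}) (by
        have := Finset.card_le_two (a := (0 : F)) (b := 1)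
        rw [Finset.card_univ]; omega)
    simp only [Finset.mem_insert, Finset.mem_singleton, not_or] at hx
    exact ⟨x, hx⟩
  exact CfsgLib.ChevMult.hasCyclicSchurMultiplier_one h (CfsgLib.ChevMult.cover_perfect hD fun _ => hK)
    (fun Γ _ π E => CfsgLib.ChevMult.exists_lifts_F4 h hS E) (Cfsg.Agent.S1078.result _ (by simp))

end Cfsg.Agent.S2103
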