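import Cfsg.Statements.S2104
import Cfsg.Agent.Lib.FFourTwoCover.Cover
import Cfsg.Agent.Lib.FFourTwo.Lifts
-- import your own Cfsg.Agent.* helpers here

set_option autoImplicit false
open Cfsg

namespace Cfsg.Agent.S2104

universe u v

/-- A central involution generates an image of the group of order two. -/
theorem exists_twoHom {Γ : Type u} [Group Γ] {H : Type v} [Group H] (σ : Γ →* H) (b : Γ) (hb : b ∈ σ.ker)
    (b2 : b * b = 1) (hle : σ.ker ≤ Subgroup.closure {b}) :
    ∃ π : Multiplicative (ZMod 2) →* σ.ker, Function.Surjective π ∧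
      ((π (Multiplicative.ofAdd 1) : σ.ker) : Γ) = b := by
  let π : Multiplicative (ZMod 2) →* σ.ker :=
    { toFun := fun p => ⟨b ^ p.toAdd.val, pow_mem hb _⟩
      map_one' := Subtype.ext (by simp)
      map_mul' := fun p q => Subtype.ext (by
        show b ^ (p.toAdd + q.toAdd).val = b ^ p.toAdd.val * b ^ q.toAdd.val
        rw [← pow_add, ZMod.val_add]
        exact (pow_eq_pow_mod _ (by rw [pow_two, b2])).symm) }
  refine ⟨π, fun z => ?_, by simp [π, ZMod.val_one]⟩
  have hsub : Subgroup.closure {b} ≤ π.range.map σ.ker.subtype := by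
    rw [Subgroup.closure_le, Set.singleton_subset_iff]
    exact ⟨_, ⟨Multiplicative.ofAdd 1, rfl⟩, by simp [π, ZMod.val_one]⟩
  obtain ⟨_, ⟨p, rfl⟩, hp⟩ := hsub (hle z.2)
  exact ⟨p, Subtype.ext hp⟩

/-- Exceptional Schur multiplier: over the field with 2 elements the Chevalley group of type F₄ has Schur multiplier cyclic of order 2 (here the Schur multiplier is described through stem extensions, as in the definitions). -/
theorem result {F : Type*} [Field F] [Fintype F] (hF : Fintype.card F = 2) : Cfsg.HasCyclicSchurMultiplier ↥(Cfsg.Lie.chevF4.group F) 2 := by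
  classical
  have h01 : ∀ s : F, s = 0 ∨ s = 1 := fun s => by
    by_contra hs
    rw [not_or] at hs
    have h3 : ({0, 1, s} : Finset F).card = 3 := by
      rw [Finset.card_insert_of_notMem (by simp [Ne.symm hs.1]),
        Finset.card_insert_of_notMem (by simp [Ne.symm hs.2]), Finset.card_singleton]
    have := Finset.card_le_univ ({0, 1, s} : Finset F)
    omega
  obtain ⟨A, h⟩ := CfsgLib.Chevalley.exists_full (D := Cfsg.Lie.chevF4) (by simp)
  refine ⟨?_, fun Γ _ _ σ hσ => ?_⟩
  · obtain ⟨Γ, iG, iF, σ, w, hstem, hw, w2, w1, hall⟩ := CfsgLib.FFourTwoCover.exists_cover h h01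
    refine ⟨Γ, iG, iF, σ, hstem, ?_⟩
    obtain ⟨π, hπ, hπ1⟩ := exists_twoHom σ w hw w2 fun z hz => by
      rcases hall z hz with rfl | rfl
      · exact one_mem _
      · exact Subgroup.subset_closure rfl
    have hinj : Function.Injective π := by
      rw [injective_iff_map_eq_one]
      intro p hp
      rcases (by decide : ∀ z : Multiplicative (ZMod 2), z = 1 ∨ z = Multiplicative.ofAdd 1) p with rfl | rfl
      · rfl
      · exact absurd (by rw [← hπ1, hp]; rfl) w1
    exact ⟨(MulEquiv.ofBijective π ⟨hinj, hπ⟩).symm⟩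
  · obtain ⟨b, hb, b2, hle⟩ := CfsgLib.FFourTwo.exists_ker_gen h h01 hσ
    obtain ⟨π, hπ, -⟩ := exists_twoHom σ b hb b2 hle
    exact ⟨π, hπ⟩

end Cfsg.Agent.S2104
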