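import Cfsg.Statements.S2106
import Cfsg.Agent.Lib.ChevMult.Universal
import Cfsg.Agent.Lib.ChevMult.SLDataE7
import Cfsg.Agent.S1079
-- import your own Cfsg.Agent.* helpers here

set_option autoImplicit false
open Cfsg

namespace Cfsg.Agent.S2106

/-- Schur multipliers of the (adjoint, simple) Chevalley groups of type E₇: over a field with q elements the Schur multiplier is cyclic of order gcd(2, q − 1) (here the Schur multiplier is described through stem extensions, as in the definitions). -/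
theorem result {F : Type*} [Field F] [Fintype F] {q : ℕ} (hF : Fintype.card F = q) : Cfsg.HasCyclicSchurMultiplier ↥(Cfsg.Lie.chevE7.group F) (Nat.gcd 2 (q - 1)) := by
  have hD : Cfsg.Lie.chevE7 ∈ [Cfsg.Lie.chevG2, Cfsg.Lie.chevB2, Cfsg.Lie.chevD4, Cfsg.Lie.chevF4,
      Cfsg.Lie.chevE6, Cfsg.Lie.chevE7, Cfsg.Lie.chevE8] := by simp
  have hK : Cfsg.Lie.chevE7 ∈ [Cfsg.Lie.chevB2, Cfsg.Lie.chevG2] → ∃ x : F, x ≠ 0 ∧ x ≠ 1 := fun h =>
    absurd h (by
      simp only [List.mem_cons, List.not_mem_nil, or_false, not_or]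
      exact ⟨fun e => absurd (congrArg Cfsg.Lie.ChevalleyDatum.nroots e) (by decide),
        fun e => absurd (congrArg Cfsg.Lie.ChevalleyDatum.nroots e) (by decide)⟩)
  obtain ⟨A, h⟩ := CfsgLib.Chevalley.exists_full hD
  exact CfsgLib.ChevMult.hasCyclicSchurMultiplier h (CfsgLib.ChevMult.cover_perfect hD hK)
    CfsgLib.ChevMult.slCertE7.hasLifts (Cfsg.Agent.S1079.result hF (Cfsg.Lie.chevE7, 2) (by simp))
    Nat.prime_two (Nat.gcd_dvd_left _ _)

end Cfsg.Agent.S2106
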