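import Cfsg.Statements.S2108
import Cfsg.Agent.Lib.TwMult.E6Coprime
import Cfsg.Agent.Lib.TwMult.E6PPart
import Cfsg.Agent.Lib.TwMult.E6Cover
import Cfsg.Agent.Lib.SchurMult.Criterion
-- import your own Cfsg.Agent.* helpers here

set_option autoImplicit false
open Cfsg

namespace Cfsg.Agent.S2108

/-- Schur multipliers of the twisted groups of type ²E₆: for a prime power q ≠ 2, with the group realised over the field with q² elements, the Schur multiplier of ²E₆(q) is cyclic of order gcd(3, q + 1) (here the Schur multiplier is described through stem extensions, as in the definitions); q = 2 is exceptional. -/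
theorem result {K : Type*} [Field K] [Fintype K] {q : ℕ} (hq : IsPrimePow q) (hK : Fintype.card K = q ^ 2) (h2 : q ≠ 2) : Cfsg.HasCyclicSchurMultiplier ↥(Cfsg.Lie.twistedE6 K q) (Nat.gcd 3 (q + 1)) := by
  obtain ⟨p, f, hp, hf, rfl⟩ := hq
  haveI : Fact p.Prime := ⟨hp.nat_prime⟩
  haveI : CharP K p := charP_of_card_eq_prime_pow (f := f * 2) (by rw [hK, pow_mul])
  have hsurj : ∀ (Γ : Type _) [Group Γ] [Finite Γ] (σ : Γ →* ↥(Cfsg.Lie.twistedE6 K (p ^ f))),
      Cfsg.IsStemExtension σ →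
        ∃ π : Multiplicative (ZMod (Nat.gcd 3 (p ^ f + 1))) →* σ.ker, Function.Surjective π :=
    fun Γ _ _ σ hσ => CfsgLib.TwMult.E6.exists_surjective_coprime hf hK σ hσ
      (CfsgLib.TwMult.E6.not_dvd_ker hf hK h2 σ hσ)
  refine ⟨?_, hsurj⟩
  by_cases h3 : 3 ∣ p ^ f + 1
  · rw [Nat.gcd_eq_left h3]
    exact CfsgLib.TwMult.E6.exists_cover hf hK h3
  · rw [(Nat.prime_three.coprime_iff_not_dvd.2 h3 : Nat.gcd 3 (p ^ f + 1) = 1)] at hsurj ⊢
    exact (CfsgLib.SchurMult.hasCyclicSchurMultiplier_one fun Γ _ _ σ hσ => by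
      obtain ⟨π, hπ⟩ := hsurj Γ σ hσ
      exact Subgroup.eq_bot_iff_forall _ |>.2 fun x hx => by
        obtain ⟨m, hm⟩ := hπ ⟨x, hx⟩
        rw [Subsingleton.elim m 1, map_one] at hm
        exact congrArg Subtype.val hm.symm).1

end Cfsg.Agent.S2108
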