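import Cfsg.Statements.S2112
import Cfsg.Agent.Lib.SchurMult.SuzukiEight.Map
import Cfsg.Agent.Lib.SchurMult.SuzukiEight.Bound

set_option autoImplicit false
open Cfsg

namespace Cfsg.Agent.S2112

/-- Exceptional Schur multiplier: the Suzuki group Sz(8), built over the field with 8 elements using the map x ↦ x⁴, has Schur multiplier a four-group, the product of two cyclic groups of order 2 (here the Schur multiplier is described through stem extensions, as in the definitions). -/
theorem result {F : Type*} [Field F] [Fintype F] (hF : Fintype.card F = 8) : Cfsg.HasSchurMultiplier ↥(Cfsg.Lie.Sz F 4) (Multiplicative (ZMod 2 × ZMod 2)) := by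
  have h : CfsgLib.Suzuki.Hyp F 1 := CfsgLib.Suzuki.Hyp.of_fintype le_rfl (by simpa using hF)
  refine CfsgLib.SchurMult.hasSchurMultiplier_congr h.lieEquiv ⟨CfsgLib.SchurMult.SuzukiEight.exists_cover h, ?_⟩
  intro Γ _ _ σ hσ
  obtain ⟨r, hr⟩ := CfsgLib.SchurMult.SuzukiEight.exists_root h
  exact CfsgLib.SchurMult.SuzukiEight.exists_surjective hr σ hσ

end Cfsg.Agent.S2112
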