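import Cfsg.Statements.S2121
import Cfsg.Agent.Lib.InvCentralizers.AutChev.Diagram
import Cfsg.Agent.Lib.Chevalley.TorusData
-- import your own Cfsg.Agent.* helpers here

set_option autoImplicit false
open Cfsg

namespace Cfsg.Agent.S2121

open CfsgLib.InvCentralizers

/-- Outer automorphisms of the Chevalley groups of type G₂: over a field with q = p^f (p prime) ≥ 3 elements, the outer automorphism group of G₂(q) has order f when p ≠ 3 and 2f when p = 3 (field automorphisms, and in characteristic 3 also the exceptional graph automorphism). -/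
theorem result {F : Type*} [Field F] [Fintype F] (p f : ℕ) [Fact p.Prime] [CharP F p] (hF : Fintype.card F = p ^ f) (hq : 3 ≤ p ^ f) : Nat.card (Cfsg.Out ↥(Cfsg.Lie.chevG2.group F)) = (if p = 3 then 2 * f else f) := by
  obtain ⟨A, h⟩ := CfsgLib.Chevalley.exists_full (D := Cfsg.Lie.chevG2) (by simp)
  rw [AutChev.card_out h, AutChev.coker_card h CfsgLib.Chevalley.card_diagonalG2, AutChev.card_ringAut hF]
  by_cases hp : p = 3
  · subst hp
    rw [AutChev.card_range_G2_three h, if_pos rfl, one_mul]
  · rw [if_neg hp, AutChev.card_range_G2_ne h (fun e => hp ?_) (hF ▸ hq), one_mul, one_mul]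
    exact (Nat.prime_dvd_prime_iff_eq Fact.out Nat.prime_three).1
      ((CharP.cast_eq_zero_iff F p 3).1 (by exact_mod_cast e))

end Cfsg.Agent.S2121
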