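import Cfsg.Statements.S2122
import Cfsg.Agent.Lib.InvCentralizers.AutChev.Diagram
import Cfsg.Agent.Lib.Chevalley.TorusData
-- import your own Cfsg.Agent.* helpers here

set_option autoImplicit false
open Cfsg

namespace Cfsg.Agent.S2122

open CfsgLib.InvCentralizers

/-- Outer automorphisms of the Chevalley groups of type F₄: over a field with q = p^f (p prime) elements, the outer automorphism group of F₄(q) has order gcd(2, p) · f (field automorphisms, and in characteristic 2 also the exceptional graph automorphism). -/
theorem result {F : Type*} [Field F] [Fintype F] (p f : ℕ) [Fact p.Prime] [CharP F p] (hF : Fintype.card F = p ^ f) : Nat.card (Cfsg.Out ↥(Cfsg.Lie.chevF4.group F)) = Nat.gcd 2 p * f := by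
  obtain ⟨A, h⟩ := CfsgLib.Chevalley.exists_full (D := Cfsg.Lie.chevF4) (by simp)
  rw [AutChev.card_out h, AutChev.coker_card h CfsgLib.Chevalley.card_diagonalF4, AutChev.card_ringAut hF]
  by_cases hp : p = 2
  · subst hp
    rw [AutChev.card_range_F4_two h, Nat.gcd_self, one_mul]
  · rw [AutChev.card_range_F4_ne h (fun e => hp ?_),
      (Nat.coprime_primes Nat.prime_two Fact.out).2 (Ne.symm hp), one_mul]
    exact (Nat.prime_dvd_prime_iff_eq Fact.out Nat.prime_two).1
      ((CharP.cast_eq_zero_iff F p 2).1 (by exact_mod_cast e))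

end Cfsg.Agent.S2122
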