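import Cfsg.Statements.S2142
import Cfsg.Agent.Lib.MinIndex.Symp.Six

set_option autoImplicit false
open Cfsg

namespace Cfsg.Agent.S2142

/-- Minimal index of a proper subgroup of the symplectic groups over the field with 2 elements: for m ≥ 3, every proper subgroup of Sp_2m(2) has index at least 2^(m−1)(2^m − 1), and that index is attained. -/
theorem result {F : Type*} [Field F] [Fintype F] (hF : Fintype.card F = 2) (m : ℕ) (hm : 3 ≤ m) : (∀ H : Subgroup (Cfsg.PSp m F), H ≠ ⊤ → 2 ^ (m - 1) * (2 ^ m - 1) ≤ H.index) ∧ (∃ H : Subgroup (Cfsg.PSp m F), H.index = 2 ^ (m - 1) * (2 ^ m - 1)) := by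
  have h2 : Nat.card F = 2 := by rw [Nat.card_eq_fintype_card, hF]
  have : Fact (Nat.Prime 2) := ⟨Nat.prime_two⟩
  have : CharP F 2 := charP_of_card_eq_prime_pow (f := 1) (by rw [hF, pow_one])
  refine ⟨fun H hH => ?_, CfsgLib.MinIndexSymp.exists_index_sp_two h2 (by omega)⟩
  rcases Nat.lt_or_ge m 4 with h | h
  · obtain rfl : m = 3 := by omega
    exact CfsgLib.MinIndexSymp.le_index_sp_six h2 H hH
  · exact CfsgLib.MinIndexSymp.le_index_sp_two h2 h H hH

end Cfsg.Agent.S2142
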