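import Cfsg.Statements.S2144
import Cfsg.Agent.Lib.MinIndex.Orth.OddMain
import Cfsg.Agent.Lib.ClassicalForms.Ortho.Values

set_option autoImplicit false
open Cfsg

namespace Cfsg.Agent.S2144

/-- Minimal index of a proper subgroup of the odd-dimensional orthogonal groups over the field with 3 elements: for m ≥ 3, every proper subgroup of PΩ_(2m+1)(3) (for the form x₀² + Σ xᵢyᵢ) has index at least 3^m(3^m − 1)/2, and that index is attained. -/
theorem result {F : Type*} [Field F] [Fintype F] (hF : Fintype.card F = 3) (m : ℕ) (hm : 3 ≤ m) : (∀ H : Subgroup (Cfsg.POmega F (Cfsg.quadFormOdd m F)), H ≠ ⊤ → 3 ^ m * (3 ^ m - 1) / 2 ≤ H.index) ∧ (∃ H : Subgroup (Cfsg.POmega F (Cfsg.quadFormOdd m F)), H.index = 3 ^ m * (3 ^ m - 1) / 2) := by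
  have h3 : Nat.card F = 3 := by rw [Nat.card_eq_fintype_card, hF]
  have : Fact (Nat.Prime 3) := ⟨Nat.prime_three⟩
  have : CharP F 3 := charP_of_card_eq_prime hF
  have h2 : (2 : F) ≠ 0 := CfsgLib.ClassicalForms.two_ne_zero_of_odd (by rw [h3]; decide)
  have h30 : (3 : F) = 0 := by exact_mod_cast CharP.cast_eq_zero F 3
  have hQ := CfsgLib.ClassicalForms.nondeg_qOdd (F := F) h2 m
  have hn : Module.finrank F (Unit ⊕ (Fin m ⊕ Fin m) → F) = 2 * m + 1 :=
    CfsgLib.ClassicalForms.finrank_qOdd m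
  set Q := CfsgLib.ClassicalForms.qOdd m F with hQdef
  have hcount : ∀ c : F, (CfsgLib.MinIndexOrth.vc Q c : ℤ)
      = 3 ^ m * (Nat.card {v : F // CfsgLib.ClassicalForms.sqForm F v = c}) + 3 ^ m * (3 ^ m - 1) := by
    intro c
    have h := CfsgLib.ClassicalForms.card_values_qH (F := F) (CfsgLib.ClassicalForms.sqForm F) c m
    rw [← CfsgLib.ClassicalForms.card_values_congr (CfsgLib.ClassicalForms.oddEquiv m)
      (CfsgLib.ClassicalForms.qH_oddEquiv m), h3] at h
    refine mul_right_cancel₀ (show (3 : ℤ) ≠ 0 by norm_num) ?_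
    unfold CfsgLib.MinIndexOrth.vc
    push_cast at h ⊢
    linear_combination h
  have h1 : 1 ≤ 3 ^ m := Nat.one_le_pow _ _ (by norm_num)
  have hneg : CfsgLib.MinIndexOrth.vc Q (-1) = 3 ^ m * (3 ^ m - 1) := by
    have h := hcount (-1)
    have h0 : Nat.card {v : F // CfsgLib.ClassicalForms.sqForm F v = -1} = 0 := by
      rw [Nat.card_eq_zero]
      left
      refine ⟨fun v => ?_⟩
      have hv : (v : F) * v = -1 := v.2
      have hne : (v : F) ≠ 0 := fun h => by simp [h] at hv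
      have h4 := FiniteField.pow_card_sub_one_eq_one (v : F) hne
      rw [hF, pow_two] at h4
      exact h2 (by linear_combination hv - h4)
    rw [h0] at h
    zify [h1]
    push_cast at h ⊢
    linear_combination h
  have hval : ∀ c : F, c ≠ 0 → 3 ^ m * (3 ^ m - 1) ≤ CfsgLib.MinIndexOrth.vc Q c := by
    intro c _
    zify [h1]
    rw [hcount c]
    linarith [mul_nonneg (pow_nonneg (show (0 : ℤ) ≤ 3 by norm_num) m)
      (Int.natCast_nonneg (Nat.card {v : F // CfsgLib.ClassicalForms.sqForm F v = c}))]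
  obtain ⟨w, rfl⟩ : ∃ w, m = w + 1 := ⟨m - 1, by omega⟩
  set N := 3 ^ (w + 1) * (3 ^ (w + 1) - 1) with hNdef
  have hN : N + 3 ^ (w + 1) = 3 ^ (2 * w + 2) := by
    rw [hNdef, Nat.mul_sub, mul_one, Nat.sub_add_cancel (Nat.le_mul_of_pos_left _ (by omega)),
      ← pow_add]
    congr 1
    omega
  obtain ⟨x, hx⟩ : ∃ x, Q x = -1 := by
    have hpos : 0 < N := by
      have : 3 ^ (w + 1) < 3 ^ (2 * w + 2) := Nat.pow_lt_pow_right (by omega) (by omega)
      omega
    rw [← hneg] at hpos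
    obtain ⟨x, hx⟩ := (Finite.card_pos_iff.1 hpos).some
    exact ⟨x, hx⟩
  have hne1 : (-1 : F) ≠ 0 := neg_ne_zero.2 one_ne_zero
  have hx0 : x ≠ 0 := fun h => hne1 (by rw [← hx, h, QuadraticMap.map_zero])
  have hline := CfsgLib.MinIndexOrth.index_lineStab_of (Q := Q) (P := fun v => Q v = -1) hx0
    (fun v => ⟨fun ⟨g, hg⟩ => by rw [← hg, CfsgLib.MinIndexOrth.Q_ap, hx], fun hv => by
      obtain ⟨g, hg, e⟩ := (CfsgLib.ClassicalForms.Sec.top Q).transitive_norm hQ (by omega)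
        (CfsgLib.ClassicalForms.Sec.mem_top x) (CfsgLib.ClassicalForms.Sec.mem_top v)
        (hx.trans hv.symm) (by rw [hx]; exact hne1)
      exact ⟨⟨g, hg.1⟩, e⟩⟩)
    (fun c => by
      have h4 := FiniteField.pow_card_sub_one_eq_one (c : F) c.ne_zero
      rw [hF, pow_two] at h4
      rw [QuadraticMap.map_smul, hx, h4, one_smul])
  rw [h3, show Nat.card {v // Q v = -1} = CfsgLib.MinIndexOrth.vc Q (-1) from rfl, hneg] at hline
  refine CfsgLib.MinIndexOrth.minIndex_of_stab Q (CfsgLib.ClassicalForms.qOdd_apply _) hQ (by omega)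
    (CfsgLib.ClassicalForms.isGen_qOdd h2 _) (fun H hH => ?_) (x := x) (by omega)
  have : Finite ((Unit ⊕ (Fin (w + 1) ⊕ Fin (w + 1)) → F) ≃ₗ[F]
      (Unit ⊕ (Fin (w + 1) ⊕ Fin (w + 1)) → F)) :=
    Finite.of_injective _ DFunLike.coe_injective
  have : Nontrivial (CfsgLib.ClassicalForms.siegelGroup Q ⧸ H) :=
    QuotientGroup.nontrivial_iff.2 hH
  exact Nat.div_le_of_le_mul (CfsgLib.MinIndexOrth.card_points_le_odd
    (Ω := CfsgLib.ClassicalForms.siegelGroup Q ⧸ H) hQ h3 (by omega) (by omega) hN hval)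

end Cfsg.Agent.S2144
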