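import Cfsg.Statements.S2145
import Cfsg.Agent.Lib.MinIndex.Orth.Attain

set_option autoImplicit false
open Cfsg

namespace Cfsg.Agent.S2145

/-- Minimal index of a proper subgroup of the even-dimensional orthogonal groups of plus type: for m ≥ 4 and a field F with q ≥ 4 elements, every proper subgroup of PΩ⁺_2m(F) (for the form Σ xᵢyᵢ) has index at least (q^m − 1)(q^(m−1) + 1)/(q − 1), and that index is attained (the singular points). -/
theorem result {F : Type*} [Field F] [Fintype F] {q : ℕ} (hF : Fintype.card F = q) (hq : 4 ≤ q) (m : ℕ) (hm : 4 ≤ m) : (∀ H : Subgroup (Cfsg.POmega F (Cfsg.quadFormPlus m F)), H ≠ ⊤ → (q ^ m - 1) * (q ^ (m - 1) + 1) / (q - 1) ≤ H.index) ∧ (∃ H : Subgroup (Cfsg.POmega F (Cfsg.quadFormPlus m F)), H.index = (q ^ m - 1) * (q ^ (m - 1) + 1) / (q - 1)) := by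
  have hc : Nat.card F = q := by rw [Nat.card_eq_fintype_card, hF]
  have h := CfsgLib.MinIndexOrth.minIndex_pOmega (CfsgLib.ClassicalForms.qPlus m F)
    (CfsgLib.ClassicalForms.qPlus_apply m) (CfsgLib.ClassicalForms.nondeg_qPlus m)
    (by rw [CfsgLib.ClassicalForms.finrank_qPlus]; omega)
    (CfsgLib.ClassicalForms.isGen_qPlus m) (by omega)
  have hz := CfsgLib.ClassicalForms.card_zeros_qPlus (F := F) m
  have e : CfsgLib.MinIndexOrth.vc (CfsgLib.ClassicalForms.qPlus m F) 0 - 1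
      = (q ^ m - 1) * (q ^ (m - 1) + 1) := by
    unfold CfsgLib.MinIndexOrth.vc
    obtain ⟨k, rfl⟩ : ∃ k, m = k + 1 := ⟨m - 1, by omega⟩
    rw [hc] at hz
    rw [Nat.add_sub_cancel]
    apply Nat.sub_eq_of_eq_add
    have h1 : 1 ≤ q ^ (k + 1) := Nat.one_le_pow _ _ (by omega)
    zify [h1]
    refine mul_right_cancel₀ (show (q : ℤ) ≠ 0 by omega) (hz.trans ?_)
    ring
  rwa [e, hc] at h

end Cfsg.Agent.S2145
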