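import Cfsg.Statements.S2146
import Cfsg.Agent.Lib.MinIndex.Orth.PlusMain

set_option autoImplicit false
open Cfsg

namespace Cfsg.Agent.S2146

/-- Minimal index of a proper subgroup of the even-dimensional orthogonal groups of plus type over the field with 2 elements: for m ≥ 4, every proper subgroup of Ω⁺_2m(2) (for the form Σ xᵢyᵢ) has index at least 2^(m−1)(2^m − 1), and that index is attained. -/
theorem result {F : Type*} [Field F] [Fintype F] (hF : Fintype.card F = 2) (m : ℕ) (hm : 4 ≤ m) : (∀ H : Subgroup (Cfsg.POmega F (Cfsg.quadFormPlus m F)), H ≠ ⊤ → 2 ^ (m - 1) * (2 ^ m - 1) ≤ H.index) ∧ (∃ H : Subgroup (Cfsg.POmega F (Cfsg.quadFormPlus m F)), H.index = 2 ^ (m - 1) * (2 ^ m - 1)) := by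
  have h2 : Nat.card F = 2 := by rw [Nat.card_eq_fintype_card, hF]
  obtain ⟨w, rfl⟩ : ∃ w, m = w + 2 := ⟨m - 2, by omega⟩
  have hQ := CfsgLib.ClassicalForms.nondeg_qPlus (F := F) (w + 2)
  have hn : Module.finrank F ((Fin (w + 2) ⊕ Fin (w + 2)) → F) = 2 * w + 4 := by
    rw [CfsgLib.ClassicalForms.finrank_qPlus]; omega
  have h0 := CfsgLib.ClassicalForms.card_zeros_qPlus (F := F) (w + 2)
  have hzeros : CfsgLib.MinIndexOrth.vc (CfsgLib.ClassicalForms.qPlus (w + 2) F) 0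
      = 2 ^ (2 * w + 3) + 2 ^ (w + 1) := by
    unfold CfsgLib.MinIndexOrth.vc
    rw [h2] at h0
    zify
    refine mul_right_cancel₀ (show (2 : ℤ) ≠ 0 by norm_num) (h0.trans ?_)
    ring
  have h1 : CfsgLib.MinIndexOrth.vc (CfsgLib.ClassicalForms.qPlus (w + 2) F) 1
      = 2 ^ (w + 2 - 1) * (2 ^ (w + 2) - 1) := by
    unfold CfsgLib.MinIndexOrth.vc
    rw [show w + 2 - 1 = w + 1 by omega]
    have h := CfsgLib.ClassicalForms.card_one_qPlus (F := F) (w + 1)
    rwa [h2] at h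
  obtain ⟨x, hx⟩ : ∃ x, CfsgLib.ClassicalForms.qPlus (w + 2) F x = 1 := by
    have hpos : 0 < 2 ^ (w + 2 - 1) * (2 ^ (w + 2) - 1) :=
      Nat.mul_pos (pow_pos (by norm_num) _) (Nat.sub_pos_of_lt (Nat.one_lt_pow (by omega) (by omega)))
    rw [← h1] at hpos
    obtain ⟨x, hx⟩ := (Finite.card_pos_iff.1 hpos).some
    exact ⟨x, hx⟩
  refine CfsgLib.MinIndexOrth.minIndex_of_stab (CfsgLib.ClassicalForms.qPlus (w + 2) F)
    (CfsgLib.ClassicalForms.qPlus_apply (w + 2)) hQ (by omega)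
    (CfsgLib.ClassicalForms.isGen_qPlus (w + 2)) (fun H hH => ?_)
    ((CfsgLib.MinIndexOrth.index_lineStab_two hQ h2 (by omega) hx).trans h1)
  have : Finite ((Fin (w + 2) ⊕ Fin (w + 2) → F) ≃ₗ[F] (Fin (w + 2) ⊕ Fin (w + 2) → F)) :=
    Finite.of_injective _ DFunLike.coe_injective
  have : Nontrivial (CfsgLib.ClassicalForms.siegelGroup (CfsgLib.ClassicalForms.qPlus (w + 2) F) ⧸ H) :=
    QuotientGroup.nontrivial_iff.2 hH
  rw [← h1]
  exact CfsgLib.MinIndexOrth.card_points_le_plus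
    (Ω := CfsgLib.ClassicalForms.siegelGroup (CfsgLib.ClassicalForms.qPlus (w + 2) F) ⧸ H)
    hQ h2 hn (by omega) hzeros

end Cfsg.Agent.S2146
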