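import Cfsg.Statements.S2147
import Cfsg.Agent.Lib.MinIndex.Orth.SmallMain

set_option autoImplicit false
open Cfsg

namespace Cfsg.Agent.S2147

/-- Minimal index of a proper subgroup of the even-dimensional orthogonal groups of minus type: for m ≥ 4 and a field F with q elements, every proper subgroup of PΩ⁻_2m(F) (for the form Σ_{i<m−1} xᵢyᵢ + z₁² + a z₁z₂ + b z₂² with anisotropic binary part) has index at least (q^m + 1)(q^(m−1) − 1)/(q − 1), and that index is attained. -/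
theorem result {F : Type*} [Field F] [Fintype F] {q : ℕ} (hF : Fintype.card F = q) (m : ℕ) (hm : 4 ≤ m) (a b : F) (hab : ∀ z₁ z₂ : F, z₁ ^ 2 + a * z₁ * z₂ + b * z₂ ^ 2 = 0 → z₁ = 0 ∧ z₂ = 0) : (∀ H : Subgroup (Cfsg.POmega F (Cfsg.quadFormMinus (m - 1) F a b)), H ≠ ⊤ → (q ^ m + 1) * (q ^ (m - 1) - 1) / (q - 1) ≤ H.index) ∧ (∃ H : Subgroup (Cfsg.POmega F (Cfsg.quadFormMinus (m - 1) F a b)), H.index = (q ^ m + 1) * (q ^ (m - 1) - 1) / (q - 1)) := by
  obtain ⟨k, rfl⟩ : ∃ k, m = k + 1 := ⟨m - 1, by omega⟩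
  rw [Nat.add_sub_cancel]
  have hc : Nat.card F = q := by rw [Nat.card_eq_fintype_card, hF]
  have hq : 2 ≤ q := by rw [← hc]; exact Finite.one_lt_card
  have h := CfsgLib.MinIndexOrth.minIndex_of_bound (CfsgLib.ClassicalForms.qMinus k F a b)
    (CfsgLib.ClassicalForms.qMinus_apply k a b) (CfsgLib.ClassicalForms.nondeg_qMinus hab k)
    (by rw [CfsgLib.ClassicalForms.finrank_qMinus]; omega)
    (CfsgLib.ClassicalForms.isGen_qMinus hab k)
    (CfsgLib.MinIndexOrth.le_index_minus hab (by omega))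
  have hz := CfsgLib.ClassicalForms.card_zeros_qMinus hab k
  have e : CfsgLib.MinIndexOrth.vc (CfsgLib.ClassicalForms.qMinus k F a b) 0 - 1
      = (q ^ (k + 1) + 1) * (q ^ k - 1) := by
    unfold CfsgLib.MinIndexOrth.vc
    rw [hc] at hz
    apply Nat.sub_eq_of_eq_add
    have h1 : 1 ≤ q ^ k := Nat.one_le_pow _ _ (by omega)
    zify [h1]
    refine mul_right_cancel₀ (show (q : ℤ) ≠ 0 by omega) (hz.trans ?_)
    ring
  rwa [e, hc] at h

end Cfsg.Agent.S2147
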