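import Cfsg.Statements.S2153
import Cfsg.Agent.Lib.MinIndex.Unit.Two

set_option autoImplicit false
open Cfsg

namespace Cfsg.Agent.S2153

/-- Minimal index of a proper subgroup of the unitary groups PSU_n(2) with n divisible by 6, realised over the field with 4 elements: every proper subgroup has index at least 2^(n−1)(2^n − 1)/3, and that index is attained. -/
theorem result {F : Type*} [Field F] [Fintype F] (hF : Fintype.card F = 4) (n : ℕ) (hn : 6 ∣ n) (hpos : 6 ≤ n) : (∀ H : Subgroup (Cfsg.PSU n F 2), H ≠ ⊤ → 2 ^ (n - 1) * (2 ^ n - 1) / 3 ≤ H.index) ∧ (∃ H : Subgroup (Cfsg.PSU n F 2), H.index = 2 ^ (n - 1) * (2 ^ n - 1) / 3) := by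
  have hF' : Nat.card F = 2 ^ 2 := by rw [Nat.card_eq_fintype_card, hF]; norm_num
  obtain ⟨K⟩ := CfsgLib.MinIndexUnit.exists_uc hF'
  have hev : Even n := (even_iff_two_dvd).2 (dvd_trans (by norm_num) hn)
  rw [K.normCount_even rfl hev (by omega)]
  exact K.min_index_psu_two rfl hpos hev

end Cfsg.Agent.S2153
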