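import Cfsg.Statements.S2155
import Cfsg.Agent.Lib.InvCentralizers.WeakClosure.Parabolic
import Cfsg.Agent.Lib.InvCentralizers.ChevalleySteinberg
import Cfsg.Agent.Lib.Balance.Local
-- import your own Cfsg.Agent.* helpers here

set_option autoImplicit false
open Cfsg

namespace Cfsg.Agent.S2155

/-- In a Chevalley group of type G₂, B₂, D₄, F₄, E₆, E₇ or E₈ over a finite field of characteristic p (for types G₂ and B₂ the field is assumed to have at least 3 elements, so that the group is simple), the generalized Fitting subgroup of every proper standard parabolic subgroup P_J is a p-group (P_J is p-constrained with trivial largest normal subgroup of order prime to p). -/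
theorem result {F : Type*} [Field F] [Fintype F] (p : ℕ) [Fact p.Prime] [CharP F p] (D : Cfsg.Lie.ChevalleyDatum) (hD : D ∈ [Cfsg.Lie.chevG2, Cfsg.Lie.chevB2, Cfsg.Lie.chevD4, Cfsg.Lie.chevF4, Cfsg.Lie.chevE6, Cfsg.Lie.chevE7, Cfsg.Lie.chevE8]) (hq : (D = Cfsg.Lie.chevG2 ∨ D = Cfsg.Lie.chevB2) → 3 ≤ Fintype.card F) (J : Set ℕ) (hJ : ∃ i, i < D.rank ∧ i ∉ J) : IsPGroup p ↥(Cfsg.generalizedFittingSubgroup ↥(D.parabolicSubgroup F J)) := by
  classical
  obtain ⟨A, h, hB⟩ := CfsgLib.InvCentralizers.WeakClosure.exists_pair_cert hD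
  have hle := CfsgLib.InvCentralizers.WeakClosure.centralizer_rad_le (F := F) h hB hJ
  set P := D.parabolicSubgroup F J with hP
  set N := CfsgLib.Chevalley.rootsU D F (CfsgLib.Chevalley.radRoots D J) with hN
  have hNU : N ≤ D.posUnipotent F :=
    CfsgLib.Chevalley.rootsU_mono (T := {r | D.IsPosRoot r}) fun r hr => hr.1
  have hNP : N ≤ P := hNU.trans (le_sup_of_le_left le_sup_left)
  have : Finite (GL D.Idx F) := inferInstance
  haveI hnorm : (N.subgroupOf P).Normal :=
    (Subgroup.normal_subgroupOf_iff_le_normalizer hNP).2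
      (CfsgLib.Chevalley.parabolic_le_normalizer h J)
  have hNp : IsPGroup p ↥(N.subgroupOf P) :=
    ((CfsgLib.InvCentralizers.ChevalleySteinberg.isPGroup_U (p := p) h).to_le hNU).of_equiv
      (Subgroup.subgroupOfEquivOfLe hNP).symm
  have hcore : N.subgroupOf P ≤ Cfsg.pCore p ↥P := CfsgLib.Cores.le_pCore hNp
  have hC : Subgroup.centralizer (Cfsg.pCore p ↥P : Set ↥P) ≤ Cfsg.pCore p ↥P := by
    intro x hx
    refine hcore (Subgroup.mem_subgroupOf.2 (hle ⟨x.2, Subgroup.mem_centralizer_iff.2 fun y hy => ?_⟩))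
    exact congrArg Subtype.val (Subgroup.mem_centralizer_iff.1 hx (⟨y, hNP hy⟩ : ↥P)
      (hcore (Subgroup.mem_subgroupOf.2 hy)))
  have hlayer : Cfsg.layer ↥P = ⊥ := by
    refine CfsgLib.Cores.layer_eq_bot_iff.2 fun L hL =>
      CfsgLib.Balance.not_isPGroup_of_isComponent (p := p) hL
        ((CfsgLib.Cores.isPGroup_pCore p ↥P).to_le (le_trans ?_ hC))
    haveI : Group.IsNilpotent ↥(Cfsg.pCore p ↥P) :=
      (CfsgLib.Cores.isPGroup_pCore p ↥P).isNilpotent
    exact (CfsgLib.Cores.le_layer hL).trans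
      (CfsgLib.Cores.layer_le_centralizer_of_isSolvable (Cfsg.pCore_normal p ↥P).isSubnormal)
  rw [CfsgLib.Balance.generalizedFittingSubgroup_eq_pCore
    (CfsgLib.Balance.pPrimeCore_eq_bot_of_centralizer_pCore_le hC) hlayer]
  exact CfsgLib.Cores.isPGroup_pCore p ↥P

end Cfsg.Agent.S2155
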