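import Cfsg.Statements.S2159
import Cfsg.Agent.Lib.InvCentralizers.AutChev.OutD4
-- import your own Cfsg.Agent.* helpers here

set_option autoImplicit false
open Cfsg

namespace Cfsg.Agent.S2159

open CfsgLib.InvCentralizers

/-- Structure of the outer automorphism group of the Chevalley group `G` of type G₂, B₂, D₄, F₄, E₆, E₇ or E₈ over a finite field. Let `D̄` be the image in `Out(G)` of the subgroup generated by the diagonal automorphisms and `F̄` the image of the subgroup generated by the field automorphisms. Then `D̄` is a normal abelian subgroup of `Out(G)`, `F̄` is cyclic, `D̄F̄` is a normal subgroup, and the quotient of `Out(G)` by `D̄F̄` is trivial, of order 2, or non-abelian of order 6 (so isomorphic to the symmetric group on three letters): its index is 1 or 2, or it is 6 with the commutator subgroup of `Out(G)` not inside `D̄F̄`. -/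
theorem result {F : Type*} [Field F] [Finite F] (D : Cfsg.Lie.ChevalleyDatum) (hD : D ∈ [Cfsg.Lie.chevG2, Cfsg.Lie.chevB2, Cfsg.Lie.chevD4, Cfsg.Lie.chevF4, Cfsg.Lie.chevE6, Cfsg.Lie.chevE7, Cfsg.Lie.chevE8])
    (Dbar Fbar : Subgroup (Cfsg.Out ↥(D.group F)))
    (hDbar : Dbar = (Subgroup.closure {φ : MulAut ↥(D.group F) | D.IsDiagonalAut φ}).map (QuotientGroup.mk' (Cfsg.Inn ↥(D.group F))))
    (hFbar : Fbar = (Subgroup.closure {φ : MulAut ↥(D.group F) | D.IsFieldAut φ}).map (QuotientGroup.mk' (Cfsg.Inn ↥(D.group F)))) :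
    Dbar.Normal ∧ IsMulCommutative ↥Dbar ∧ IsCyclic ↥Fbar ∧ (Dbar ⊔ Fbar).Normal ∧
      ((Dbar ⊔ Fbar).index = 1 ∨ (Dbar ⊔ Fbar).index = 2 ∨
        ((Dbar ⊔ Fbar).index = 6 ∧ ¬ commutator (Cfsg.Out ↥(D.group F)) ≤ Dbar ⊔ Fbar)) := by
  classical
  obtain ⟨A, h⟩ := CfsgLib.Chevalley.exists_full (D := D) hD
  obtain ⟨h1, h2, h3, h4, h5, h6⟩ := AutChev.out_structure h Dbar Fbar hDbar hFbar
  refine ⟨h1, h2, h3, h4, ?_⟩
  rw [h5]
  have hle := AutChev.card_range_le (F := F) h
  have hpos : 0 < Nat.card (AutChev.piHom h F).range := Nat.card_pos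
  obtain ⟨e1, e2, -, e4, e5, e6, e7⟩ := AutChev.exts_lengths
  simp only [List.mem_cons, List.not_mem_nil, or_false] at hD
  rcases hD with rfl | rfl | rfl | rfl | rfl | rfl | rfl
  · rw [e1] at hle; omega
  · rw [e2] at hle; omega
  · obtain ⟨hc, ha, hb⟩ := AutChev.d4_range (F := F) h
    exact Or.inr (Or.inr ⟨hc, h6 _ _ ha hb AutChev.d4_perm_facts.2.2.2.2⟩)
  · rw [e4] at hle; omega
  · rw [e5] at hle; omega
  · rw [e6] at hle; omega
  · rw [e7] at hle; omega

end Cfsg.Agent.S2159
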