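import Cfsg.Statements.S2160
import Cfsg.Agent.Lib.Chevalley.AutExt

set_option autoImplicit false
open Cfsg

namespace Cfsg.Agent.S2160

/-- In a Chevalley group of type G₂, B₂, D₄, F₄, E₆, E₇ or E₈ over a finite field, every field automorphism commutes with every graph automorphism. -/
theorem result {F : Type*} [Field F] [Finite F] (D : Cfsg.Lie.ChevalleyDatum) (hD : D ∈ [Cfsg.Lie.chevG2, Cfsg.Lie.chevB2, Cfsg.Lie.chevD4, Cfsg.Lie.chevF4, Cfsg.Lie.chevE6, Cfsg.Lie.chevE7, Cfsg.Lie.chevE8]) (f g : ↥(D.group F) ≃* ↥(D.group F))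
    (hf : D.IsFieldAut f) (hg : D.IsGraphAut g) (y : ↥(D.group F)) : f (g y) = g (f y) := by
  obtain ⟨A, h⟩ := CfsgLib.Chevalley.exists_full hD
  obtain ⟨σ, hσ⟩ := hf
  obtain ⟨π, -, hπ⟩ := hg
  have hC := h.cert
  have fx : ∀ {r : ℕ}, r < D.nroots → ∀ t : F,
      f (CfsgLib.Chevalley.xE hC r t) = CfsgLib.Chevalley.xE hC r (σ t) := fun {r} hr t =>
    (CfsgLib.Chevalley.eq_xE_iff hC).1 (hσ _ r t hr rfl)
  have gp : ∀ (i : Fin D.rank) (t : F), g (CfsgLib.Chevalley.xE hC (D.simple i) t) =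
      CfsgLib.Chevalley.xE hC (D.simple (π i)) (t ^ D.graphExp (ringChar F) i (π i)) := fun i t =>
    (CfsgLib.Chevalley.eq_xE_iff hC).1 ((hπ _ i t).1 rfl)
  have gn : ∀ (i : Fin D.rank) (t : F), g (CfsgLib.Chevalley.xE hC (D.neg (D.simple i)) t) =
      CfsgLib.Chevalley.xE hC (D.neg (D.simple (π i))) (t ^ D.graphExp (ringChar F) i (π i)) :=
    fun i t => (CfsgLib.Chevalley.eq_xE_iff hC).1 ((hπ _ i t).2 rfl)
  have hs := fun i : Fin D.rank => hC.wf.simple_lt i i.isLt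
  have hnlt := fun i : Fin D.rank => hC.wf.neg_lt _ (hs i)
  have key : f.toMonoidHom.comp g.toMonoidHom = g.toMonoidHom.comp f.toMonoidHom := by
    refine CfsgLib.Chevalley.hom_ext_simple h (fun i t => ?_) fun i t => ?_
    · simp only [MonoidHom.comp_apply, MulEquiv.coe_toMonoidHom]
      rw [gp, fx (hs _), fx (hs _), gp, map_pow]
    · simp only [MonoidHom.comp_apply, MulEquiv.coe_toMonoidHom]
      rw [gn, fx (hnlt _), fx (hnlt _), gn, map_pow]
  exact DFunLike.congr_fun key y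

end Cfsg.Agent.S2160
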