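import Cfsg.Statements.S2298
import Cfsg.Agent.Lib.InvCentralizers.GL2Chars

set_option autoImplicit false
open Cfsg CfsgLib.InvCentralizers.GL2 CfsgLib.CharTheory

namespace Cfsg.Agent.S2298

/-- Over a finite field F with q elements, every irreducible complex character of GL₂ has degree 1, q − 1, q or q + 1; and when q ≥ 3 (so that these four numbers are distinct) there are exactly q − 1 irreducible characters of degree 1, exactly q − 1 of degree q, exactly (q − 1)(q − 2)/2 of degree q + 1 and exactly q(q − 1)/2 of degree q − 1. -/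
theorem result {F : Type*} [Field F] [Fintype F] :
    (∀ χ : Matrix.GeneralLinearGroup (Fin 2) F → ℂ, Cfsg.IsIrrCharacter (Matrix.GeneralLinearGroup (Fin 2) F) χ →
      χ 1 = 1 ∨ χ 1 = (Fintype.card F : ℂ) - 1 ∨ χ 1 = (Fintype.card F : ℂ) ∨ χ 1 = (Fintype.card F : ℂ) + 1) ∧
    (3 ≤ Fintype.card F →
      Nat.card {χ : Cfsg.IrrCharacter (Matrix.GeneralLinearGroup (Fin 2) F) // (χ : Matrix.GeneralLinearGroup (Fin 2) F → ℂ) 1 = 1} = Fintype.card F - 1 ∧
      Nat.card {χ : Cfsg.IrrCharacter (Matrix.GeneralLinearGroup (Fin 2) F) // (χ : Matrix.GeneralLinearGroup (Fin 2) F → ℂ) 1 = (Fintype.card F : ℂ)} = Fintype.card F - 1 ∧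
      Nat.card {χ : Cfsg.IrrCharacter (Matrix.GeneralLinearGroup (Fin 2) F) // (χ : Matrix.GeneralLinearGroup (Fin 2) F → ℂ) 1 = (Fintype.card F : ℂ) + 1} = (Fintype.card F - 1) * (Fintype.card F - 2) / 2 ∧
      Nat.card {χ : Cfsg.IrrCharacter (Matrix.GeneralLinearGroup (Fin 2) F) // (χ : Matrix.GeneralLinearGroup (Fin 2) F → ℂ) 1 = (Fintype.card F : ℂ) - 1} = Fintype.card F * (Fintype.card F - 1) / 2) := by
  classical
  refine ⟨fun χ hχ => ?_, fun hq => ?_⟩
  · rcases irr_values hχ with ⟨e, -⟩ | ⟨e, -⟩ | ⟨e, -⟩ | ⟨e, -⟩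
    · exact Or.inl e
    · exact Or.inr (Or.inr (Or.inl e))
    · exact Or.inr (Or.inr (Or.inr e))
    · exact Or.inr (Or.inl e)
  · obtain ⟨L, T, A, D, hL, hT, hA, hD, hLd, hTd, hAd, hDd, hcov, -⟩ := partition (F := F)
    have hc : ∀ (S : Finset (IrrCharacter (Matrix.GeneralLinearGroup (Fin 2) F))) (k : ℕ),
        (∀ χ, χ ∈ S ↔ charDegree (χ : Matrix.GeneralLinearGroup (Fin 2) F → ℂ) = k) →
        Nat.card {χ : IrrCharacter (Matrix.GeneralLinearGroup (Fin 2) F) //
          (χ : Matrix.GeneralLinearGroup (Fin 2) F → ℂ) 1 = (k : ℂ)} = S.card := by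
      intro S k h
      rw [← Nat.card_eq_finsetCard S]
      refine Nat.card_congr (Equiv.subtypeEquivRight fun χ => ?_)
      rw [h χ, ← CfsgLib.Correspondences.charDegree_cast (IsIrrCharacter.isCharacter χ.2), Nat.cast_inj]
    have hmem : ∀ χ, (χ ∈ L ↔ charDegree (χ : Matrix.GeneralLinearGroup (Fin 2) F → ℂ) = 1) ∧
        (χ ∈ T ↔ charDegree (χ : Matrix.GeneralLinearGroup (Fin 2) F → ℂ) = Fintype.card F) ∧
        (χ ∈ A ↔ charDegree (χ : Matrix.GeneralLinearGroup (Fin 2) F → ℂ) = Fintype.card F + 1) ∧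
        (χ ∈ D ↔ charDegree (χ : Matrix.GeneralLinearGroup (Fin 2) F → ℂ) = Fintype.card F - 1) := by
      intro χ
      refine ⟨⟨hLd χ, fun h => ?_⟩, ⟨hTd χ, fun h => ?_⟩, ⟨hAd χ, fun h => ?_⟩,
        ⟨fun h' => (hDd χ h').1, fun h => ?_⟩⟩ <;>
      · rcases hcov χ with e | e | e | e <;>
          first
          | exact e
          | (have := hLd χ e; omega)
          | (have := hTd χ e; omega)
          | (have := hAd χ e; omega)
          | (have := (hDd χ e).1; omega)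
    have e1 := hc L 1 fun χ => (hmem χ).1
    have e2 := hc T _ fun χ => (hmem χ).2.1
    have e3 := hc A _ fun χ => (hmem χ).2.2.1
    have e4 := hc D _ fun χ => (hmem χ).2.2.2
    rw [Nat.cast_one] at e1
    rw [Nat.cast_add, Nat.cast_one] at e3
    rw [Nat.cast_sub (by omega), Nat.cast_one] at e4
    refine ⟨?_, ?_, ?_, ?_⟩
    · rw [e1]; omega
    · rw [e2]; omega
    · rw [e3, ← hA]; omega
    · rw [e4, ← hD]; omega

end Cfsg.Agent.S2298
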