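import Cfsg.Statements.S2301
import Cfsg.Agent.Lib.InvCentralizers.Unipotent2

set_option autoImplicit false
open Cfsg

namespace Cfsg.Agent.S2301

/-- Over a finite field with q elements of odd characteristic p, the elements of order p of SL₂ (the non-identity unipotent elements) fall into exactly two conjugacy classes, each of size (q² − 1)/2; two upper unitriangular matrices with non-zero off-diagonal entries b and b′ are conjugate exactly when bb′ is a square. -/
theorem result {F : Type*} [Field F] [Fintype F] (p : ℕ) [Fact p.Prime] [CharP F p] (hp : p ≠ 2) :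
    Nat.card {C : ConjClasses (Matrix.SpecialLinearGroup (Fin 2) F) // ∃ g : Matrix.SpecialLinearGroup (Fin 2) F, orderOf g = p ∧ ConjClasses.mk g = C} = 2 ∧
    (∀ g : Matrix.SpecialLinearGroup (Fin 2) F, orderOf g = p → Nat.card (ConjClasses.mk g).carrier = (Fintype.card F ^ 2 - 1) / 2) ∧
    ∀ g h : Matrix.SpecialLinearGroup (Fin 2) F, (g : Matrix (Fin 2) (Fin 2) F) 0 0 = 1 → (g : Matrix (Fin 2) (Fin 2) F) 1 1 = 1 → (g : Matrix (Fin 2) (Fin 2) F) 1 0 = 0 → (g : Matrix (Fin 2) (Fin 2) F) 0 1 ≠ 0 →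
      (h : Matrix (Fin 2) (Fin 2) F) 0 0 = 1 → (h : Matrix (Fin 2) (Fin 2) F) 1 1 = 1 → (h : Matrix (Fin 2) (Fin 2) F) 1 0 = 0 → (h : Matrix (Fin 2) (Fin 2) F) 0 1 ≠ 0 →
      (IsConj g h ↔ IsSquare ((g : Matrix (Fin 2) (Fin 2) F) 0 1 * (h : Matrix (Fin 2) (Fin 2) F) 0 1)) := by
  classical
  open CfsgLib.InvCentralizers.Unipotent2 in
  have h2 : ringChar F ≠ 2 := by rw [ringChar.eq F p]; exact hp
  open CfsgLib.InvCentralizers.Unipotent2 in
  have hroots : Nat.card {a : F // a * a = 1} = 2 := by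
    have hne : (1 : F) ≠ -1 := (Ring.neg_one_ne_one_of_char_ne_two h2).symm
    rw [← Set.coe_ofPred, Nat.card_coe_set_eq,
      show ({a : F | a * a = 1}) = {1, -1} from by ext a; simp [mul_self_eq_one_iff],
      Set.ncard_pair hne]
  open CfsgLib.InvCentralizers.Unipotent2 in
  obtain ⟨s, hs⟩ := FiniteField.exists_nonsquare h2
  have hs0 : s ≠ 0 := fun h => hs ⟨0, by simp [h]⟩
  have hsplit : ∀ b : F, b ≠ 0 → IsSquare b ∨ IsSquare (s * b) := by
    intro b hb
    rcases quadraticChar_dichotomy hb with h | h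
    · exact Or.inl ((quadraticChar_one_iff_isSquare hb).1 h)
    · refine Or.inr ((quadraticChar_one_iff_isSquare (mul_ne_zero hs0 hb)).1 ?_)
      rw [map_mul, h, quadraticChar_neg_one_iff_not_isSquare.2 hs]
      norm_num
  open CfsgLib.InvCentralizers.Unipotent2 in
  have key : ∀ g : Matrix.SpecialLinearGroup (Fin 2) F, orderOf g = p →
      IsConj (xSL 1) g ∨ IsConj (xSL s) g := by
    intro g hg
    obtain ⟨b, hb, hcb⟩ := sl_frame g hg
    rcases hsplit b hb with ⟨a, ha⟩ | ⟨a, ha⟩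
    · refine Or.inl (IsConj.trans ((isConj_xSL_iff one_ne_zero).2 ⟨a, ?_, ?_⟩) hcb)
      · intro h0; rw [h0, mul_zero] at ha; exact hb ha
      · rw [ha]; ring
    · refine Or.inr (IsConj.trans ((isConj_xSL_iff hs0).2 ⟨a / s, ?_, ?_⟩) hcb)
      · refine div_ne_zero ?_ hs0
        intro h0; rw [h0, mul_zero] at ha; exact mul_ne_zero hs0 hb ha
      · field_simp
        linear_combination ha
  open CfsgLib.InvCentralizers.Unipotent2 in
  refine ⟨?_, fun g hg => ?_, ?_⟩
  · rw [← Set.coe_ofPred, Nat.card_coe_set_eq]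
    have hset : {C : ConjClasses (Matrix.SpecialLinearGroup (Fin 2) F) |
        ∃ g : Matrix.SpecialLinearGroup (Fin 2) F, orderOf g = p ∧ ConjClasses.mk g = C} =
        {ConjClasses.mk (xSL 1), ConjClasses.mk (xSL s)} := by
      ext C
      constructor
      · rintro ⟨g, hg, rfl⟩
        rcases key g hg with h | h
        · exact Or.inl (ConjClasses.mk_eq_mk_iff_isConj.2 h.symm)
        · exact Or.inr (ConjClasses.mk_eq_mk_iff_isConj.2 h.symm)
      · rintro (rfl | rfl)
        · exact ⟨_, orderOf_xSL one_ne_zero, rfl⟩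
        · exact ⟨_, orderOf_xSL hs0, rfl⟩
    rw [hset]
    refine Set.ncard_pair ?_
    rw [Ne, ConjClasses.mk_eq_mk_iff_isConj, isConj_xSL_iff one_ne_zero]
    rintro ⟨a, -, ha⟩
    exact hs ⟨a, by rw [ha]; ring⟩
  · have h1 : ∀ b : F, b ≠ 0 → IsConj (xSL b) g →
        Nat.card (ConjClasses.mk g).carrier = (Fintype.card F ^ 2 - 1) / 2 := by
      intro b hb hcb
      have := card_class_xSL (F := F) hb
      rw [hroots] at this
      rw [← ConjClasses.mk_eq_mk_iff_isConj.2 hcb]
      omega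
    rcases key g hg with h | h
    · exact h1 1 one_ne_zero h
    · exact h1 s hs0 h
  · intro g h g00 g11 g10 g01 h00 h11 h10 h01
    have hx : ∀ k : Matrix.SpecialLinearGroup (Fin 2) F, (k : Matrix (Fin 2) (Fin 2) F) 0 0 = 1 →
        (k : Matrix (Fin 2) (Fin 2) F) 1 1 = 1 → (k : Matrix (Fin 2) (Fin 2) F) 1 0 = 0 →
        k = xSL ((k : Matrix (Fin 2) (Fin 2) F) 0 1) := by
      intro k e0 e1 e2
      refine Subtype.ext ?_
      ext i j
      fin_cases i <;> fin_cases j <;> simp [xSL_coe, e0, e1, e2]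
    rw [hx g g00 g11 g10, hx h h00 h11 h10, isConj_xSL_iff g01]
    simp only [xSL_coe, Matrix.of_apply, Matrix.cons_val', Matrix.cons_val_zero,
      Matrix.cons_val_one, Matrix.empty_val', Matrix.cons_val_fin_one]
    constructor
    · rintro ⟨a, -, ha⟩
      exact ⟨a * (g : Matrix (Fin 2) (Fin 2) F) 0 1, by rw [ha]; ring⟩
    · rintro ⟨a, ha⟩
      refine ⟨a / (g : Matrix (Fin 2) (Fin 2) F) 0 1, div_ne_zero ?_ g01, ?_⟩
      · intro h0; rw [h0, mul_zero] at ha; exact mul_ne_zero g01 h01 ha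
      · field_simp
        linear_combination ha

end Cfsg.Agent.S2301
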