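import Cfsg.Statements.S2302
import Cfsg.Agent.Lib.InvCentralizers.Unipotent2

set_option autoImplicit false
open Cfsg

namespace Cfsg.Agent.S2302

/-- Over a finite field with q elements of characteristic 2, the involutions of SL₂ (the non-identity unipotent elements) form a single conjugacy class, of size q² − 1. -/
theorem result {F : Type*} [Field F] [Fintype F] [CharP F 2] (g h : Matrix.SpecialLinearGroup (Fin 2) F) (hg : orderOf g = 2) (hh : orderOf h = 2) :
    IsConj g h ∧ Nat.card (ConjClasses.mk g).carrier = Fintype.card F ^ 2 - 1 := by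
  classical
  haveI : Fact (Nat.Prime 2) := ⟨Nat.prime_two⟩
  open CfsgLib.InvCentralizers.Unipotent2 in
  have key : ∀ g : Matrix.SpecialLinearGroup (Fin 2) F, orderOf g = 2 → IsConj (xSL 1) g := by
    intro g hg
    obtain ⟨b, hb, hcb⟩ := sl_frame g hg
    obtain ⟨a, ha⟩ := (FiniteField.isSquare_of_char_two (CharP.ringChar_of_prime_eq_zero
      Nat.prime_two (CharTwo.two_eq_zero (R := F))) b)
    refine IsConj.trans ((isConj_xSL_iff one_ne_zero).2 ⟨a, ?_, ?_⟩) hcb
    · intro h0; rw [h0, mul_zero] at ha; exact hb ha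
    · rw [ha]; ring
  refine ⟨(key g hg).symm.trans (key h hh), ?_⟩
  have h1 := CfsgLib.InvCentralizers.Unipotent2.card_class_xSL (F := F) (b := 1) one_ne_zero
  have h2 : Nat.card {a : F // a * a = 1} = 1 := by
    rw [Nat.card_eq_one_iff_unique]
    refine ⟨⟨fun x y => Subtype.ext ?_⟩, ⟨⟨1, one_mul 1⟩⟩⟩
    have : ∀ z : F, z * z = 1 → z = 1 := fun z hz => by
      rcases mul_self_eq_one_iff.1 hz with h | h
      · exact h
      · rw [h, CharTwo.neg_eq]
    rw [this _ x.2, this _ y.2]
  rw [h2, mul_one] at h1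
  rw [← ConjClasses.mk_eq_mk_iff_isConj.2 (key g hg)]
  exact h1

end Cfsg.Agent.S2302
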