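import Cfsg.Statements.S2307
import Cfsg.Agent.Lib.InvCentralizers.SL2Tables
import Cfsg.Agent.Lib.InvCentralizers.GL2Series
import Cfsg.Agent.Lib.CharTheory.Inflation

set_option autoImplicit false
set_option linter.style.haveILetI false
open Cfsg CfsgLib.CharTheory CfsgLib.CharDegrees CfsgLib.InvCentralizers
open CfsgLib.ClassicalLinear (upS upS_coe)
open scoped MatrixGroups ComplexConjugate

namespace Cfsg.Agent.S2307

/-- The principal series of `SL₂` is a restriction from `GL₂`. -/
theorem principalSeries_eq {F : Type*} [Field F] [Fintype F] [DecidableEq F] (α : MulChar F ℂ)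
    (g : SL(2, F)) :
    principalSeries α g = GL2.ps α 1 (Matrix.SpecialLinearGroup.toGL g) := by
  rw [principalSeries_apply, GL2.ps_apply]
  congr 1
  refine Finset.sum_congr rfl fun v _ => Finset.sum_congr rfl fun c _ => ?_
  have hd : (g : Matrix (Fin 2) (Fin 2) F) 0 0 * (g : Matrix (Fin 2) (Fin 2) F) 1 1 -
      (g : Matrix (Fin 2) (Fin 2) F) 0 1 * (g : Matrix (Fin 2) (Fin 2) F) 1 0 = 1 := by
    rw [← Matrix.det_fin_two]; exact g.2
  refine if_congr Iff.rfl ?_ rfl
  change α c = α c * (1 : MulChar F ℂ) (((g : Matrix (Fin 2) (Fin 2) F) 0 0 *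
    (g : Matrix (Fin 2) (Fin 2) F) 1 1 -
    (g : Matrix (Fin 2) (Fin 2) F) 0 1 * (g : Matrix (Fin 2) (Fin 2) F) 1 0) / c)
  rw [hd]
  rcases eq_or_ne c 0 with rfl | hc
  · rw [MulChar.map_zero α, zero_mul]
  · rw [MulChar.one_apply (isUnit_iff_ne_zero.2 (div_ne_zero one_ne_zero hc)), mul_one]

/-- Over a finite field F with q elements, q odd, let α be the multiplicative character of F of order 2. The character of SL₂ induced from the linear character b ↦ α(b₁₁) of the upper triangular subgroup is the sum of two distinct irreducible characters, each of degree (q + 1)/2, which are conjugate under GL₂: some fixed element of GL₂ conjugates the one into the other. -/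
theorem result {F : Type*} [Field F] [Fintype F] [DecidableEq F] (hodd : Odd (Fintype.card F)) (α : MulChar F ℂ)
    (hα : α ^ 2 = 1) (hα1 : α ≠ 1) :
    ∃ χ₁ χ₂ : Matrix.SpecialLinearGroup (Fin 2) F → ℂ, Cfsg.IsIrrCharacter (Matrix.SpecialLinearGroup (Fin 2) F) χ₁ ∧ Cfsg.IsIrrCharacter (Matrix.SpecialLinearGroup (Fin 2) F) χ₂ ∧ χ₁ ≠ χ₂ ∧
      Cfsg.indFun ((Cfsg.upperTriangularGL 2 F).comap Matrix.SpecialLinearGroup.toGL) (fun b => α (((b : Matrix.SpecialLinearGroup (Fin 2) F) : Matrix (Fin 2) (Fin 2) F) 0 0)) = χ₁ + χ₂ ∧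
      χ₁ 1 = (((Fintype.card F + 1) / 2 : ℕ) : ℂ) ∧ χ₂ 1 = (((Fintype.card F + 1) / 2 : ℕ) : ℂ) ∧
      ∃ x : Matrix.GeneralLinearGroup (Fin 2) F, ∀ g h : Matrix.SpecialLinearGroup (Fin 2) F,
        Matrix.SpecialLinearGroup.toGL h = x * Matrix.SpecialLinearGroup.toGL g * x⁻¹ → χ₂ h = χ₁ g := by
  classical
  change ∃ χ₁ χ₂ : SL(2, F) → ℂ, IsIrrCharacter _ χ₁ ∧ IsIrrCharacter _ χ₂ ∧ χ₁ ≠ χ₂ ∧
    principalSeries α = χ₁ + χ₂ ∧ _ ∧ _ ∧ _
  have h2 := two_ne_zero_of_odd_card hodd
  obtain ⟨C, hT⟩ := exists_nonsplitTorus h2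
  haveI := hT.finite_hom
  letI := Fintype.ofFinite (C →* ℂˣ)
  obtain ⟨η, hη1, hηi, hηu, hηv⟩ := hT.exists_quadratic_char
  obtain ⟨θ₀, hθ1, hθi, hθu, -⟩ := hT.exists_quadratic_hom
  obtain rfl : α = η := (hηu α (inv_eq_of_mul_eq_one_right (by rw [← sq]; exact hα))).resolve_left hα1
  have hmm : α * α = 1 := by rw [← sq]; exact hα
  set R := principalSeries α with hRdef
  have hRc : IsCharacter (SL(2, F)) R := principalSeries_isChar α
  have hR : IsGeneralizedCharacter (SL(2, F)) R := IsCharacter.isGeneralizedCharacter hRc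
  have nR : classInner R R = 2 := by
    rw [hRdef, classInner_ps_ps, if_pos rfl, if_pos hmm]; norm_num
  have hR1 : R 1 = (Fintype.card F : ℂ) + 1 := principalSeries_apply_one α
  have key : ∀ χ : SL(2, F) → ℂ, IsIrrCharacter _ χ → classInner χ R ≠ 0 →
      classInner χ R = 1 ∧ 2 * χ 1 = (Fintype.card F : ℂ) + 1 ∧
        ∀ β, β ≠ α → classInner χ (principalSeries β) = 0 := by
    intro χ hχ hne
    rcases hT.irr_cases hη1 hηu hηi hθ1 hθu hθi hχ with
      h | h | ⟨β, hβ, h⟩ | ⟨θ, -, h⟩ | ⟨h, hr, hr0, -⟩ | ⟨h, -, -, hr⟩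
    · exact absurd (by rw [h, hRdef, classInner_one_ps, if_neg hη1]) hne
    · refine absurd ?_ hne
      rw [h, hRdef, show (fun g => principalSeries (1 : MulChar F ℂ) g - 1) =
        principalSeries (1 : MulChar F ℂ) - (fun _ : SL(2, F) => (1 : ℂ)) from rfl, classInner_sub_left,
        classInner_ps_ps, classInner_one_ps, if_neg hη1, if_neg (fun e => hη1 e.symm),
        if_neg (by rw [one_mul]; exact hη1)]
      ring
    · refine absurd ?_ hne
      rw [h, hRdef, classInner_ps_ps, if_neg, if_neg, add_zero]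
      · intro e
        have e1 := inv_eq_of_mul_eq_one_left e
        exact hβ (by rw [← e1, inv_inv]; exact hηi.symm)
      · intro e
        exact hβ (by rw [e, hηi])
    · exact absurd (by rw [h, hRdef, classInner_conj_symm, hT.dser_inner_ps, map_zero]) hne
    · exact ⟨hr, h, hr0⟩
    · exact absurd (hr α) hne
  obtain ⟨χ₁, hχ₁, hne₁⟩ : ∃ χ : SL(2, F) → ℂ, IsIrrCharacter _ χ ∧ classInner χ R ≠ 0 := by
    by_contra hall
    push Not at hall
    haveI := Fintype.ofFinite (IrrCharacter (SL(2, F)))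
    have he := congrFun (eq_sum_classInner (IsCharacter.isClassFunction hRc)) 1
    rw [hR1] at he
    simp only [Finset.sum_apply, Pi.smul_apply, smul_eq_mul] at he
    rw [Finset.sum_eq_zero (fun ψ _ => by
      rw [classInner_conj_symm, hall _ ψ.2, map_zero, zero_mul])] at he
    have : ((Fintype.card F + 1 : ℕ) : ℂ) = ((0 : ℕ) : ℂ) := by push_cast; exact he
    exact absurd (Nat.cast_injective this) (by omega)
  obtain ⟨hi₁, hd₁, hz₁⟩ := key χ₁ hχ₁ hne₁
  have hi₁' : classInner R χ₁ = 1 := by rw [classInner_conj_symm, hi₁, map_one]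
  have h11 := classInner_self_of_isIrr hχ₁
  have hχ₂ : IsIrrCharacter _ (R - χ₁) := by
    refine isIrrCharacter_of_norm_one ⟨_, _, hRc, IsIrrCharacter.isCharacter hχ₁, rfl⟩ ?_ ?_
    · rw [classInner_sub_left, classInner_sub_right, classInner_sub_right, nR, hi₁, hi₁', h11]
      ring
    · rw [Pi.sub_apply, hR1]
      have e := congrArg Complex.re hd₁
      simp at e
      simp only [Complex.sub_re, Complex.add_re, Complex.natCast_re, Complex.one_re]
      have : (1 : ℝ) < Fintype.card F := by exact_mod_cast Fintype.one_lt_card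
      linarith
  have hne : χ₁ ≠ R - χ₁ := by
    intro e
    have h0 : classInner χ₁ (R - χ₁) = 1 := by rw [← e, h11]
    rw [classInner_sub_right, hi₁, h11] at h0
    norm_num at h0
  have hc := (SL2Tables.cast_half (F := F) hodd).1
  refine ⟨χ₁, R - χ₁, hχ₁, hχ₂, hne, (add_sub_cancel χ₁ R).symm, ?_, ?_, ?_⟩
  · linear_combination (hd₁ - hc) / 2
  · rw [Pi.sub_apply, hR1]; linear_combination (-hd₁ - hc) / 2
  have hchar2 : ringChar F ≠ 2 := fun h => h2 (by
    have := ringChar.Nat.cast_ringChar (R := F)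
    rw [h] at this; exact_mod_cast this)
  obtain ⟨ε, hε⟩ := FiniteField.exists_nonsquare hchar2
  have hε0 : ε ≠ 0 := fun h => hε (h ▸ IsSquare.zero)
  let x : Matrix.GeneralLinearGroup (Fin 2) F := GL2.upper (Units.mk0 ε hε0) 0 1
  let τ : SL(2, F) →* SL(2, F) :=
    { toFun := fun g => ⟨((x * Matrix.SpecialLinearGroup.toGL g * x⁻¹ :
          Matrix.GeneralLinearGroup (Fin 2) F) : Matrix (Fin 2) (Fin 2) F), by
        rw [Units.val_mul, Units.val_mul, Matrix.det_units_conj]
        exact g.2⟩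
      map_one' := Subtype.ext (by simp)
      map_mul' := fun g h => Subtype.ext (by
        change ((x * Matrix.SpecialLinearGroup.toGL (g * h) * x⁻¹ :
          Matrix.GeneralLinearGroup (Fin 2) F) : Matrix (Fin 2) (Fin 2) F) = ((x * Matrix.SpecialLinearGroup.toGL g * x⁻¹ :
          Matrix.GeneralLinearGroup (Fin 2) F) : Matrix (Fin 2) (Fin 2) F) *
          ((x * Matrix.SpecialLinearGroup.toGL h * x⁻¹ :
          Matrix.GeneralLinearGroup (Fin 2) F) : Matrix (Fin 2) (Fin 2) F)
        rw [← Units.val_mul]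
        simp only [map_mul]
        congr 1
        group) }
  have hτ : ∀ g, Matrix.SpecialLinearGroup.toGL (τ g) = x * Matrix.SpecialLinearGroup.toGL g * x⁻¹ :=
    fun g => Units.ext rfl
  have hinj : Function.Injective τ := fun g h e => by
    have e' := congrArg Matrix.SpecialLinearGroup.toGL e
    rw [hτ, hτ] at e'
    exact Matrix.SpecialLinearGroup.toGL_injective (mul_left_cancel (mul_right_cancel e'))
  let e : SL(2, F) ≃* SL(2, F) := MulEquiv.ofBijective τ
    ⟨hinj, Finite.surjective_of_injective hinj⟩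
  have hRe : ∀ g, R (e g) = R g := fun g => by
    change principalSeries α (τ g) = principalSeries α g
    rw [principalSeries_eq, principalSeries_eq, hτ]
    exact GL2.ps_isClassFun α 1 _ _
  refine ⟨x, fun g h hh => ?_⟩
  have hh' : h = e g := Matrix.SpecialLinearGroup.toGL_injective (hh.trans (hτ g).symm)
  subst hh'
  let ψ : SL(2, F) → ℂ := fun k => χ₁ (e.symm k)
  have hψ : IsIrrCharacter _ ψ := isIrrCharacter_comp_mulEquiv hχ₁ e.symm
  suffices hψeq : ψ = R - χ₁ by
    have := congrFun hψeq (e g)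
    simpa [ψ] using this.symm
  have hiψ : classInner ψ R = 1 := by
    rw [← hi₁]
    unfold Cfsg.classInner
    congr 1
    refine Fintype.sum_equiv e.symm.toEquiv _ _ fun k => ?_
    change χ₁ (e.symm k) * _ = χ₁ (e.symm k) * conj (R (e.symm k))
    rw [← hRe (e.symm k), e.apply_symm_apply]
  by_contra hneq
  have h0 := classInner_eq_zero_of_ne hψ hχ₂ hneq
  rw [classInner_sub_right, hiψ, sub_eq_zero] at h0
  have heq : ψ = χ₁ := by
    by_contra hn
    rw [classInner_eq_zero_of_ne hψ hχ₁ hn] at h0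
    exact one_ne_zero h0
  have hcl := IsIrrCharacter.isClassFunction hχ₁
  have heu : e (upS 1) = upS ε := Subtype.ext (by
    change ((x * Matrix.SpecialLinearGroup.toGL (upS (1 : F)) * x⁻¹ :
      Matrix.GeneralLinearGroup (Fin 2) F) : Matrix (Fin 2) (Fin 2) F) = _
    have hx : x⁻¹ = GL2.upper (Units.mk0 ε hε0)⁻¹ 0 1 := by
      refine inv_eq_of_mul_eq_one_right (Units.ext ?_)
      rw [Units.val_mul, GL2.upper_coe, GL2.upper_coe, Units.val_one]
      ext i j; fin_cases i <;> fin_cases j <;> simp [Matrix.mul_apply, hε0]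
    rw [hx, Units.val_mul, Units.val_mul, GL2.upper_coe, GL2.upper_coe, upS_coe]
    change _ * (upS (1 : F)).1 * _ = _
    rw [upS_coe]
    ext i j; fin_cases i <;> fin_cases j <;> simp [Matrix.mul_apply, hε0])
  have hv : χ₁ (upS ε) = χ₁ (upS 1) := by
    have := congrFun heq (e (upS 1))
    simp only [ψ, e.symm_apply_apply] at this
    rw [← heu]; exact this.symm
  have hs : ∑ β : MulChar F ℂ, classInner χ₁ (principalSeries β) = 1 := by
    rw [Finset.sum_eq_single α (fun β _ hb => hz₁ β hb) (by simp)]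
    exact hi₁
  have hall : ∀ y : F, y ≠ 0 → χ₁ (upS y) = χ₁ (upS 1) := by
    intro y hy
    by_cases hsq : IsSquare y
    · obtain ⟨r, rfl⟩ := hsq
      have hr : r ≠ 0 := fun h => hy (by rw [h, mul_zero])
      exact SL2Tables.upS_conj_of_square hcl (a := Units.mk0 r hr) (by rw [Units.val_mk0, mul_one, sq])
    · obtain ⟨r, hr⟩ : IsSquare (y / ε) :=
        (quadraticChar_one_iff_isSquare (div_ne_zero hy hε0)).1 (by
          rw [div_eq_mul_inv, map_mul, (quadraticChar_neg_one_iff_not_isSquare).2 hsq,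
            (quadraticChar_neg_one_iff_not_isSquare).2 (by rwa [isSquare_inv])]
          norm_num)
      have hr0 : r ≠ 0 := fun h => div_ne_zero hy hε0 (by rw [hr, h, mul_zero])
      rw [SL2Tables.upS_conj_of_square hcl (x := ε) (y := y) (a := Units.mk0 r hr0)
        (by rw [Units.val_mk0, sq, ← hr, div_mul_cancel₀ y hε0]), hv]
  have hU := unipotent_sum hcl
  rw [hs, mul_one, ← Finset.add_sum_erase _ _ (Finset.mem_univ (0 : F)),
    Finset.sum_congr rfl (fun y hy => hall y (Finset.ne_of_mem_erase hy)), upS_zero', Finset.sum_const,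
    Finset.card_erase_of_mem (Finset.mem_univ _), Finset.card_univ, nsmul_eq_mul,
    Nat.cast_sub Fintype.card_pos, Nat.cast_one] at hU
  have hhalf : 2 * χ₁ (upS 1) = 1 := by
    apply mul_left_cancel₀ (card_sub_one_ne_zero (F := F))
    linear_combination 2 * hU - hd₁
  have huv := SL2Tables.unipotent_values hodd hχ₁ 1 hs (by linear_combination hd₁)
  rw [hhalf, show (1 : ℂ) - (2 * 1 - 1) = 0 by ring, zero_pow two_ne_zero] at huv
  exact mul_ne_zero (pow_ne_zero _ (by norm_num)) (Nat.cast_ne_zero.2 Fintype.card_ne_zero) huv.symm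

end Cfsg.Agent.S2307
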