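import Cfsg.Statements.S2308
import Cfsg.Agent.Lib.InvCentralizers.GL2Chars
import Cfsg.Agent.Lib.RealChar.PermChar

set_option autoImplicit false
open Cfsg CfsgLib.InvCentralizers.GL2 CfsgLib.CharTheory

namespace Cfsg.Agent.S2308

/-- Values of the permutation character of GL₂ over a finite field F with q elements on the cosets of its upper triangular subgroup (equivalently, the number of lines of F² that an element maps to themselves): q + 1 at a scalar matrix, 2 at a diagonal matrix with two different diagonal entries, 0 at an element with no eigenvector in F², and 1 at an upper triangular matrix with equal diagonal entries and non-zero upper right entry. -/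
theorem result {F : Type*} [Field F] [Fintype F] (g : Matrix.GeneralLinearGroup (Fin 2) F) :
    ((∃ a : F, (g : Matrix (Fin 2) (Fin 2) F) = a • (1 : Matrix (Fin 2) (Fin 2) F)) → Cfsg.fixedPointCharacter (Cfsg.upperTriangularGL 2 F) g = Fintype.card F + 1) ∧
    ((g : Matrix (Fin 2) (Fin 2) F) 0 1 = 0 → (g : Matrix (Fin 2) (Fin 2) F) 1 0 = 0 → (g : Matrix (Fin 2) (Fin 2) F) 0 0 ≠ (g : Matrix (Fin 2) (Fin 2) F) 1 1 →
      Cfsg.fixedPointCharacter (Cfsg.upperTriangularGL 2 F) g = 2) ∧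
    ((∀ (c : F) (v : Fin 2 → F), v ≠ 0 → (g : Matrix (Fin 2) (Fin 2) F).mulVec v ≠ c • v) → Cfsg.fixedPointCharacter (Cfsg.upperTriangularGL 2 F) g = 0) ∧
    ((g : Matrix (Fin 2) (Fin 2) F) 1 0 = 0 → (g : Matrix (Fin 2) (Fin 2) F) 0 0 = (g : Matrix (Fin 2) (Fin 2) F) 1 1 → (g : Matrix (Fin 2) (Fin 2) F) 0 1 ≠ 0 →
      Cfsg.fixedPointCharacter (Cfsg.upperTriangularGL 2 F) g = 1) := by
  classical
  have key : Cfsg.fixedPointCharacter (Cfsg.upperTriangularGL 2 F) g = ps (1 : MulChar F ℂ) 1 g := by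
    change _ = Cfsg.indFun (upperTriangularGL 2 F) _ g
    rw [show (fun b : upperTriangularGL 2 F => (1 : MulChar F ℂ) (((b : Matrix.GeneralLinearGroup (Fin 2) F) :
      Matrix (Fin 2) (Fin 2) F) 0 0) * (1 : MulChar F ℂ) (((b : Matrix.GeneralLinearGroup (Fin 2) F) :
      Matrix (Fin 2) (Fin 2) F) 1 1)) = fun _ => (1 : ℂ) from funext fun b => ?_,
      CfsgLib.RealChar.indFun_one_eq_cosetFix]
    · rfl
    · have hd := det_ne_zero' (b : Matrix.GeneralLinearGroup (Fin 2) F)
      rw [mem_borel.1 b.2, mul_zero, sub_zero] at hd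
      rw [MulChar.one_apply (isUnit_iff_ne_zero.2 (left_ne_zero_of_mul hd)),
        MulChar.one_apply (isUnit_iff_ne_zero.2 (right_ne_zero_of_mul hd)), mul_one]
  have hne : ∀ h10 : (g : Matrix (Fin 2) (Fin 2) F) 1 0 = 0, (g : Matrix (Fin 2) (Fin 2) F) 0 0 ≠ 0 ∧
      (g : Matrix (Fin 2) (Fin 2) F) 1 1 ≠ 0 := fun h10 => by
    have hd := det_ne_zero' g
    rw [h10, mul_zero, sub_zero] at hd
    exact ⟨left_ne_zero_of_mul hd, right_ne_zero_of_mul hd⟩
  rw [key]
  refine ⟨?_, ?_, fun h => ps_of_no_eigenvector _ _ g h, ?_⟩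
  · rintro ⟨a, ha⟩
    have h10 : (g : Matrix (Fin 2) (Fin 2) F) 1 0 = 0 := by simp [ha]
    obtain ⟨h0, h1⟩ := hne h10
    rw [ps_upper _ _ g h10, if_pos (by simp [ha]), if_pos (by simp [ha]),
      MulChar.one_apply (isUnit_iff_ne_zero.2 h0)]
    simp
  · intro h01 h10 h
    obtain ⟨h0, h1⟩ := hne h10
    rw [ps_upper _ _ g h10, if_neg h, MulChar.one_apply (isUnit_iff_ne_zero.2 h0),
      MulChar.one_apply (isUnit_iff_ne_zero.2 h1)]
    norm_num
  · intro h10 h h01
    obtain ⟨h0, h1⟩ := hne h10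
    rw [ps_upper _ _ g h10, if_pos h, if_neg h01, MulChar.one_apply (isUnit_iff_ne_zero.2 h0)]
    norm_num

end Cfsg.Agent.S2308
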