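import Cfsg.Statements.S2309
import Cfsg.Agent.Lib.InvCentralizers.GL2Chars

set_option autoImplicit false
open Cfsg CfsgLib.InvCentralizers.GL2 CfsgLib.CharTheory

namespace Cfsg.Agent.S2309

/-- Over a finite field F with q elements: every irreducible complex character of GL₂ of degree q − 1 vanishes at every diagonal matrix with two distinct entries, and every irreducible complex character of degree q + 1 vanishes at every element with no eigenvector in F². -/
theorem result {F : Type*} [Field F] [Fintype F] (χ : Matrix.GeneralLinearGroup (Fin 2) F → ℂ) (hχ : Cfsg.IsIrrCharacter (Matrix.GeneralLinearGroup (Fin 2) F) χ) (g : Matrix.GeneralLinearGroup (Fin 2) F) :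
    (χ 1 = (Fintype.card F : ℂ) - 1 → (g : Matrix (Fin 2) (Fin 2) F) 0 1 = 0 → (g : Matrix (Fin 2) (Fin 2) F) 1 0 = 0 → (g : Matrix (Fin 2) (Fin 2) F) 0 0 ≠ (g : Matrix (Fin 2) (Fin 2) F) 1 1 → χ g = 0) ∧
    (χ 1 = (Fintype.card F : ℂ) + 1 → (∀ (c : F) (v : Fin 2 → F), v ≠ 0 → (g : Matrix (Fin 2) (Fin 2) F).mulVec v ≠ c • v) → χ g = 0) := by
  classical
  have hq : (2 : ℕ) ≤ Fintype.card F := Fintype.one_lt_card
  constructor
  · intro h1 h01 h10 hne
    have hd := det_ne_zero' g
    rw [h10, mul_zero, sub_zero] at hd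
    have h3 : 2 < Fintype.card F := by
      have : ({0, (g : Matrix (Fin 2) (Fin 2) F) 0 0, (g : Matrix (Fin 2) (Fin 2) F) 1 1} : Finset F).card = 3 :=
        Finset.card_eq_three.2 ⟨_, _, _, (left_ne_zero_of_mul hd).symm, (right_ne_zero_of_mul hd).symm,
          hne, rfl⟩
      have := Finset.card_le_univ ({0, (g : Matrix (Fin 2) (Fin 2) F) 0 0,
        (g : Matrix (Fin 2) (Fin 2) F) 1 1} : Finset F)
      omega
    rcases irr_values hχ with ⟨e, -⟩ | ⟨e, -⟩ | ⟨e, -⟩ | ⟨-, hc, -⟩
    · exfalso
      rw [h1] at e
      have e' := congrArg Complex.re e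
      simp at e'
      have : (3 : ℝ) ≤ Fintype.card F := by exact_mod_cast h3
      linarith
    · exfalso
      rw [h1] at e
      have e' := congrArg Complex.re e
      simp at e'
      try linarith
    · exfalso
      rw [h1] at e
      have e' := congrArg Complex.re e
      simp at e'
      try linarith
    · exact cusp_diag (IsIrrCharacter.isClassFunction hχ) hc g h10 hne
  · intro h1 hn
    rcases irr_values hχ with ⟨e, -⟩ | ⟨e, -⟩ | ⟨-, α, β, rfl⟩ | ⟨e, -⟩
    · exfalso
      rw [h1] at e
      simp at e
    · exfalso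
      rw [h1] at e
      have e' := congrArg Complex.re e
      simp at e'
      try linarith
    · exact ps_of_no_eigenvector α β g hn
    · exfalso
      rw [h1] at e
      have e' := congrArg Complex.re e
      simp at e'
      try linarith

end Cfsg.Agent.S2309
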