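import Cfsg.Statements.S2310
import Cfsg.Agent.Lib.InvCentralizers.GL2Chars

set_option autoImplicit false
open Cfsg CfsgLib.InvCentralizers.GL2 CfsgLib.CharTheory

namespace Cfsg.Agent.S2310

/-- Over a finite field F with q ≥ 3 elements, let u be the upper unitriangular matrix of GL₂ with off-diagonal entry 1. An irreducible complex character χ of GL₂ takes at u the value 1 if χ has degree 1 or q + 1, the value −1 if χ has degree q − 1, and the value 0 if χ has degree q. -/
theorem result {F : Type*} [Field F] [Fintype F] (hq : 3 ≤ Fintype.card F) (χ : Matrix.GeneralLinearGroup (Fin 2) F → ℂ) (hχ : Cfsg.IsIrrCharacter (Matrix.GeneralLinearGroup (Fin 2) F) χ)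
    (u : Matrix.GeneralLinearGroup (Fin 2) F) (hu : (u : Matrix (Fin 2) (Fin 2) F) = !![1, 1; 0, 1]) :
    (χ 1 = 1 → χ u = 1) ∧ (χ 1 = (Fintype.card F : ℂ) + 1 → χ u = 1) ∧
    (χ 1 = (Fintype.card F : ℂ) - 1 → χ u = -1) ∧ (χ 1 = (Fintype.card F : ℂ) → χ u = 0) := by
  classical
  have hu' : u = upper 1 1 1 := Units.ext (by rw [hu, upper_coe]; simp)
  subst hu'
  rcases irr_values hχ with ⟨e, α, rfl⟩ | ⟨e, α, rfl⟩ | ⟨e, α, β, rfl⟩ | ⟨e, -, hv⟩ <;>
    rw [e] <;> refine ⟨fun h => ?_, fun h => ?_, fun h => ?_, fun h => ?_⟩ <;>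
    first
    | exact hv
    | (exfalso; have h' := congrArg Complex.re h; simp at h'; have h3 : (3 : ℝ) ≤ Fintype.card F := (by exact_mod_cast hq); linarith)
    | (exfalso; have h' := congrArg Complex.re h; simp at h'; done)
    | (simp [detChar, upper_coe]; done)
    | (rw [Pi.sub_apply, ps_upper _ _ _ (by simp [upper_coe])]; simp [detChar, upper_coe])
    | (rw [ps_upper _ _ _ (by simp [upper_coe])]; simp [upper_coe])

end Cfsg.Agent.S2310
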