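import Cfsg.Statements.S2312
import Cfsg.Agent.Lib.InvCentralizers.SteinbergSemisimple
import Cfsg.Agent.Lib.InvCentralizers.ChevalleySplit

set_option autoImplicit false
open Cfsg CfsgLib.InvCentralizers CfsgLib.InvCentralizers.ChevalleySteinberg

namespace Cfsg.Agent.S2312

/-- In a Chevalley group of type G₂, B₂, D₄, F₄, E₆, E₇ or E₈ over a finite field of characteristic p, the value of the Steinberg character at an element g of order prime to p (a semisimple element) is, up to sign, the largest power of p dividing the order of the centralizer of g. -/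
theorem result {F : Type*} [Field F] [Fintype F] (p : ℕ) [Fact p.Prime] [CharP F p] (D : Cfsg.Lie.ChevalleyDatum) (hD : D ∈ [Cfsg.Lie.chevG2, Cfsg.Lie.chevB2, Cfsg.Lie.chevD4, Cfsg.Lie.chevF4, Cfsg.Lie.chevE6, Cfsg.Lie.chevE7, Cfsg.Lie.chevE8]) (g : ↥(D.group F)) (hg : ¬ p ∣ orderOf g) :
    D.steinbergCharacter F g = ((p ^ (Nat.card ↥(Subgroup.centralizer ({g} : Set ↥(D.group F)))).factorization p : ℕ) : ℂ) ∨
      D.steinbergCharacter F g = -((p ^ (Nat.card ↥(Subgroup.centralizer ({g} : Set ↥(D.group F)))).factorization p : ℕ) : ℂ) := by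
  classical
  haveI : Finite (GL D.Idx F) := inferInstance
  letI := Fintype.ofFinite ↥(D.group F)
  obtain ⟨A, h⟩ := CfsgLib.Chevalley.exists_full hD
  obtain ⟨e, -, he⟩ := FiniteField.card F p
  have hnd : ¬ p ^ ((e : ℕ) * (D.nroots / 2) + 1) ∣ Nat.card ↥(D.group F) := by
    intro hdvd
    apply not_dvd_index (F := F) (p := p) h
    have h1 := Subgroup.card_mul_index ((D.posUnipotent F).subgroupOf (D.group F))
    rw [Nat.card_congr (Subgroup.subgroupOfEquivOfLe ((le_sup_left :
        D.posUnipotent F ≤ D.borelSubgroup F).trans (CfsgLib.Chevalley.borel_le_group h.cert))).toEquiv,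
      card_U h, he, ← pow_mul] at h1
    rw [← h1, pow_succ] at hdvd
    exact Nat.dvd_of_mul_dvd_mul_left (pow_pos (Fact.out : p.Prime).pos _) hdvd
  have hd : SteinbergChar.steinberg (CfsgLib.Chevalley.bnPair h F) (sFinset h) 1 =
      ((Fintype.card F ^ (D.nroots / 2) : ℕ) : ℂ) := by
    rw [← steinberg_eq h, steinbergCharacter_one h]; push_cast; rfl
  rw [steinberg_eq h]
  exact SteinbergSemisimple.steinberg_semisimple (ChevalleySplit.split h) (coe_sFinset h)
    (longest_inter h) hnd hd (by rw [he, pow_mul]) hg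

end Cfsg.Agent.S2312
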