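import Cfsg.Statements.S2315
import Cfsg.Agent.Lib.NilpotentCount.Basic

set_option autoImplicit false
open Cfsg

namespace Cfsg.Agent.S2315

/-- Steinberg's count of unipotent elements for the general linear group: over a finite field with q elements of characteristic p, the number of elements of GL_n of p-power order (the unipotent matrices) is q^(n(n−1)). -/
theorem result {F : Type*} [Field F] [Fintype F] (p : ℕ) [Fact p.Prime] [CharP F p] (n : ℕ) :
    Nat.card {g : Matrix.GeneralLinearGroup (Fin n) F // ∃ k : ℕ, orderOf g = p ^ k} = Fintype.card F ^ (n * (n - 1)) := by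
  have hM : Nat.card (CfsgLib.NilpotentCount.Nil F (Fin n → F)) =
      Fintype.card F ^ (n * (n - 1)) := by
    rw [CfsgLib.NilpotentCount.card_nil, Module.finrank_fin_fun]
  rw [← hM]
  rcases n with - | m
  · haveI : Subsingleton (Matrix.GeneralLinearGroup (Fin 0) F) :=
      ⟨fun a b => Units.ext (Subsingleton.elim _ _)⟩
    haveI : Subsingleton (Module.End F (Fin 0 → F)) :=
      ⟨fun a b => LinearMap.ext fun _ => Subsingleton.elim _ _⟩
    rw [Nat.card_eq_one_iff_unique.2 ⟨inferInstance,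
        ⟨⟨1, 0, by rw [orderOf_one, pow_zero]⟩⟩⟩,
      Nat.card_eq_one_iff_unique.2 ⟨inferInstance, ⟨⟨0, IsNilpotent.zero⟩⟩⟩]
  have hpow : ∀ g : Matrix.GeneralLinearGroup (Fin (m + 1)) F, ∀ k : ℕ,
      ((g : Matrix (Fin (m + 1)) (Fin (m + 1)) F) - 1) ^ p ^ k =
        ((g ^ p ^ k : Matrix.GeneralLinearGroup (Fin (m + 1)) F) :
          Matrix (Fin (m + 1)) (Fin (m + 1)) F) - 1 := by
    intro g k
    rw [sub_pow_char_pow_of_commute p k (Commute.one_right _), one_pow, Units.val_pow_eq_pow_val]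
  refine Nat.card_congr (Equiv.trans ?_ (Equiv.subtypeEquiv
    (Matrix.toLinAlgEquiv' (R := F) (n := Fin (m + 1))).toEquiv
    (p := fun M => IsNilpotent M) fun M =>
      (IsNilpotent.map_iff (Matrix.toLinAlgEquiv' (R := F) (n := Fin (m + 1))).injective).symm))
  refine
    { toFun := fun g => ⟨(g.1 : Matrix (Fin (m + 1)) (Fin (m + 1)) F) - 1, ?_⟩
      invFun := fun M => ⟨(IsNilpotent.isUnit_one_add M.2).unit, ?_⟩
      left_inv := fun g => Subtype.ext (Units.ext ?_)
      right_inv := fun M => Subtype.ext ?_ }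
  · obtain ⟨k, hk⟩ := g.2
    exact ⟨p ^ k, by rw [hpow, ← hk, pow_orderOf_eq_one, Units.val_one, sub_self]⟩
  · obtain ⟨j, hj⟩ := M.2
    obtain ⟨k, hk⟩ : ∃ k, j ≤ p ^ k :=
      ⟨j, (Nat.lt_pow_self (Fact.out : p.Prime).one_lt).le⟩
    have h1 : (IsNilpotent.isUnit_one_add M.2).unit ^ p ^ k = 1 := by
      apply Units.ext
      have := hpow (IsNilpotent.isUnit_one_add M.2).unit k
      rw [IsUnit.unit_spec, add_sub_cancel_left, pow_eq_zero_of_le hk hj] at this
      rw [Units.val_one]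
      exact sub_eq_zero.1 this.symm
    obtain ⟨i, -, hi⟩ := (Nat.dvd_prime_pow Fact.out).1 (orderOf_dvd_of_pow_eq_one h1)
    exact ⟨i, hi⟩
  · simp [IsUnit.unit_spec]
  · simp [IsUnit.unit_spec]

end Cfsg.Agent.S2315
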