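import Cfsg.Statements.S2317
import Cfsg.Agent.Lib.Classes.GUClassCount
import Cfsg.Agent.Lib.NilpotentCount.Basic

set_option autoImplicit false
open Cfsg

namespace Cfsg.Agent.S2317

/-- Over a finite field of characteristic p, the conjugacy classes of GL_n consisting of elements of p-power order (the unipotent classes) are as many as the partitions of n. -/
theorem result {F : Type*} [Field F] [Fintype F] (p : ℕ) [Fact p.Prime] [CharP F p] (n : ℕ) :
    Nat.card {C : ConjClasses (Matrix.GeneralLinearGroup (Fin n) F) //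
      ∃ g : Matrix.GeneralLinearGroup (Fin n) F, (∃ k : ℕ, orderOf g = p ^ k) ∧ ConjClasses.mk g = C} =
      Fintype.card (Nat.Partition n) := by
  classical
  rcases n with - | n
  · haveI : Subsingleton (Matrix.GeneralLinearGroup (Fin 0) F) :=
      ⟨fun a b => Units.ext (Subsingleton.elim _ _)⟩
    haveI : Unique (Nat.Partition 0) := inferInstance
    rw [Fintype.card_unique, Nat.card_eq_one_iff_unique]
    refine ⟨⟨fun C D => Subtype.ext ?_⟩, ⟨⟨ConjClasses.mk 1, 1, ⟨0, by rw [orderOf_one, pow_zero]⟩, rfl⟩⟩⟩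
    obtain ⟨g, -, hg⟩ := C.2
    obtain ⟨h, -, hh⟩ := D.2
    rw [← hg, ← hh, Subsingleton.elim g h]
  set m := n + 1 with hm
  let L := Matrix.toLinAlgEquiv' (R := F) (n := Fin m)
  have hpow : ∀ (g : Matrix.GeneralLinearGroup (Fin m) F) (k : ℕ),
      ((g : Matrix (Fin m) (Fin m) F) - 1) ^ p ^ k =
        ((g ^ p ^ k : Matrix.GeneralLinearGroup (Fin m) F) : Matrix (Fin m) (Fin m) F) - 1 := by
    intro g k
    rw [sub_pow_char_pow_of_commute p k (Commute.one_right _), one_pow, Units.val_pow_eq_pow_val]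
  have hiff : ∀ g : Matrix.GeneralLinearGroup (Fin m) F,
      (∃ k : ℕ, orderOf g = p ^ k) ↔ IsNilpotent ((g : Matrix (Fin m) (Fin m) F) - 1) := by
    intro g
    constructor
    · rintro ⟨k, hk⟩
      exact ⟨p ^ k, by rw [hpow, ← hk, pow_orderOf_eq_one, Units.val_one, sub_self]⟩
    · rintro ⟨j, hj⟩
      have h1 : g ^ p ^ j = 1 := by
        apply Units.ext
        have := hpow g j
        rw [pow_eq_zero_of_le (Nat.lt_pow_self (Fact.out : p.Prime).one_lt).le hj] at this
        rw [Units.val_one]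
        exact sub_eq_zero.1 this.symm
      obtain ⟨i, -, hi⟩ := (Nat.dvd_prime_pow Fact.out).1 (orderOf_dvd_of_pow_eq_one h1)
      exact ⟨i, hi⟩
  have hzero : ∀ X : Matrix (Fin m) (Fin m) F, IsNilpotent X → L X ^ m = 0 := fun X hX => by
    have := CfsgLib.NilpotentCount.pow_finrank_eq_zero (hX.map L)
    rwa [Module.finrank_fin_fun] at this
  let typ : (X : Matrix (Fin m) (Fin m) F) → IsNilpotent X → Nat.Partition m := fun X hX =>
    ⟨CfsgLib.Omega.jordanParts (L X) ⊤ m, fun hi => (CfsgLib.Omega.le_of_mem_jordanParts hi).1, by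
      rw [CfsgLib.Omega.sum_jordanParts le_top (hzero X hX), finrank_top, Module.finrank_fin_fun]⟩
  have hrank : ∀ (X : Matrix (Fin m) (Fin m) F) i,
      CfsgLib.Omega.rankSeq (L X) ⊤ i = (X ^ i).rank := fun X i => by
    rw [CfsgLib.Classes.map_pow_top, ← map_pow, Matrix.rank,
      show L (X ^ i) = (X ^ i).mulVecLin from LinearMap.ext fun v =>
        Matrix.toLinAlgEquiv'_apply _ v]
  have hconj : ∀ g h : Matrix.GeneralLinearGroup (Fin m) F, IsConj g h →
      ∀ i, (((g : Matrix (Fin m) (Fin m) F) - 1) ^ i).rank =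
        (((h : Matrix (Fin m) (Fin m) F) - 1) ^ i).rank := by
    intro g h hgh i
    obtain ⟨x, hx⟩ := isConj_iff.1 hgh
    have hs : SemiconjBy (x : Matrix (Fin m) (Fin m) F) ((g : Matrix (Fin m) (Fin m) F) - 1)
        ((h : Matrix (Fin m) (Fin m) F) - 1) := by
      have e := congrArg Units.val (mul_inv_eq_iff_eq_mul.1 hx)
      show (x : Matrix (Fin m) (Fin m) F) * ((g : Matrix (Fin m) (Fin m) F) - 1) =
        ((h : Matrix (Fin m) (Fin m) F) - 1) * x
      rw [mul_sub, sub_mul, mul_one, one_mul, ← Units.val_mul, e, Units.val_mul]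
    have hd : IsUnit (x : Matrix (Fin m) (Fin m) F).det :=
      (Matrix.isUnit_iff_isUnit_det _).1 x.isUnit
    rw [← Matrix.rank_mul_eq_right_of_isUnit_det _ _ hd, (hs.pow_right i).eq,
      Matrix.rank_mul_eq_left_of_isUnit_det _ _ hd]
  rw [← Nat.card_eq_fintype_card]
  refine Nat.card_eq_of_bijective
    (fun C => typ _ ((hiff _).1 C.2.choose_spec.1)) ⟨fun C D h => ?_, fun μ => ?_⟩
  · have hC := C.2.choose_spec
    have hD := D.2.choose_spec
    have hparts := congrArg Nat.Partition.parts h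
    obtain ⟨x, hx⟩ := CfsgLib.Classes.isConj_of_rank_pow_eq ((hiff _).1 hC.1) ((hiff _).1 hD.1)
      fun i => by
        rw [← hrank, ← hrank]
        exact CfsgLib.Classes.rankSeq_eq_of_parts (hzero _ ((hiff _).1 hC.1))
          (hzero _ ((hiff _).1 hD.1)) hparts i
    apply Subtype.ext
    rw [← hC.2, ← hD.2, ConjClasses.mk_eq_mk_iff_isConj]
    refine isConj_iff.2 ⟨x, ?_⟩
    rw [mul_inv_eq_iff_eq_mul]
    refine Units.ext ?_
    simp only [mul_sub, sub_mul, mul_one, one_mul, sub_left_inj] at hx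
    exact hx
  · obtain ⟨N, hN, hNμ⟩ := CfsgLib.Classes.exists_parts_eq (F := F) (V := Fin m → F) (p := m)
      μ.parts (fun b hb => (Multiset.le_sum_of_mem hb).trans_eq μ.parts_sum)
      (fun b hb => μ.parts_pos hb) (by rw [μ.parts_sum, Module.finrank_fin_fun])
    have hX : IsNilpotent (L.symm N) := IsNilpotent.map (⟨m, hN⟩ : IsNilpotent N) L.symm
    set g := (IsNilpotent.isUnit_one_add hX).unit with hg
    have hgN : (g : Matrix (Fin m) (Fin m) F) - 1 = L.symm N := by
      rw [hg, IsUnit.unit_spec, add_sub_cancel_left]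
    let C : {C : ConjClasses (Matrix.GeneralLinearGroup (Fin m) F) //
        ∃ g : Matrix.GeneralLinearGroup (Fin m) F, (∃ k : ℕ, orderOf g = p ^ k) ∧
          ConjClasses.mk g = C} :=
      ⟨ConjClasses.mk g, g, (hiff g).2 (by rw [hgN]; exact hX), rfl⟩
    refine ⟨C, Nat.Partition.ext ?_⟩
    show CfsgLib.Omega.jordanParts (L _) ⊤ m = μ.parts
    rw [← hNμ]
    have hc := ConjClasses.mk_eq_mk_iff_isConj.1 C.2.choose_spec.2
    have hrr : ∀ i, CfsgLib.Omega.rankSeq (L ((C.2.choose : Matrix (Fin m) (Fin m) F) - 1)) ⊤ i =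
        CfsgLib.Omega.rankSeq N ⊤ i := fun i => by
      rw [hrank, hconj _ _ hc i, hgN, ← hrank, L.apply_symm_apply]
    exact Multiset.bind_congr fun i _ => by rw [hrr, hrr, hrr]

end Cfsg.Agent.S2317
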