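import Cfsg.Statements.S2318
import Cfsg.Agent.Lib.ClassK.ChevalleyDefectZero
import Cfsg.Agent.Lib.InvCentralizers.ChevalleySteinberg

set_option autoImplicit false
open Cfsg CfsgLib.Blocks CfsgLib.InvCentralizers CfsgLib.InvCentralizers.ChevalleySteinberg

namespace Cfsg.Agent.S2318

/-- In a Chevalley group of type G₂, B₂, D₄, F₄, E₆, E₇ or E₈ over a finite field of characteristic p (for types G₂ and B₂ the field is assumed to have at least 3 elements, so that the group is perfect), the Steinberg character is the only irreducible complex character whose degree is divisible by the full power of p dividing the group order (the only irreducible character of p-defect zero). -/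
theorem result {F : Type*} [Field F] [Fintype F] (p : ℕ) [Fact p.Prime] [CharP F p] (D : Cfsg.Lie.ChevalleyDatum) (hD : D ∈ [Cfsg.Lie.chevG2, Cfsg.Lie.chevB2, Cfsg.Lie.chevD4, Cfsg.Lie.chevF4, Cfsg.Lie.chevE6, Cfsg.Lie.chevE7, Cfsg.Lie.chevE8]) (hq : (D = Cfsg.Lie.chevG2 ∨ D = Cfsg.Lie.chevB2) → 3 ≤ Fintype.card F)
    (χ : ↥(D.group F) → ℂ) (hχ : Cfsg.IsIrrCharacter ↥(D.group F) χ)
    (hdeg : ∃ d : ℕ, χ 1 = (d : ℂ) ∧ p ^ (Nat.card ↥(D.group F)).factorization p ∣ d) :
    χ = D.steinbergCharacter F := by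
  classical
  haveI : Finite (GL D.Idx F) := inferInstance
  letI := Fintype.ofFinite ↥(D.group F)
  obtain ⟨A, h⟩ := CfsgLib.Chevalley.exists_full hD
  have hp : p.Prime := Fact.out
  have hst : Cfsg.IsIrrCharacter ↥(D.group F) (D.steinbergCharacter F) := by
    rw [steinberg_eq h]
    exact SteinbergChar.steinberg_isIrr (coe_sFinset h) (longest_inter h)
  have hUe := (Subgroup.subgroupOfEquivOfLe ((le_sup_left :
      D.posUnipotent F ≤ D.borelSubgroup F).trans (CfsgLib.Chevalley.borel_le_group h.cert)))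
  have hU : IsPGroup p (CfsgLib.ClassK.ChevCell.posU D F) := (isPGroup_U h).of_equiv hUe.symm
  have hUi : ¬ p ∣ (CfsgLib.ClassK.ChevCell.posU D F).index := not_dvd_index h
  have hcardU : Nat.card (CfsgLib.ClassK.ChevCell.posU D F) = Fintype.card F ^ (D.nroots / 2) :=
    (Nat.card_congr hUe.toEquiv).trans (card_U h)
  obtain ⟨M, hM⟩ := exists_isPModular_of_prime hp
  haveI := isPrime_of_isPModular hM
  obtain ⟨d, hd1, hd⟩ := hdeg
  have hfullχ : ¬ p ∣ Nat.card ↥(D.group F) / charDegree χ := by
    have e : charDegree χ = d := by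
      have := charDegree_cast (⟨χ, hχ⟩ : IrrCharacter ↥(D.group F))
      change (charDegree χ : ℂ) = χ 1 at this
      rw [hd1] at this
      exact_mod_cast this
    rw [e]
    intro hdiv
    have hdd : d ∣ Nat.card ↥(D.group F) := e ▸ charDegree_dvd_card ⟨χ, hχ⟩
    apply Nat.pow_succ_factorization_not_dvd (Nat.card_pos (α := ↥(D.group F))).ne' hp
    rw [pow_succ, ← Nat.mul_div_cancel' hdd]
    have := Nat.mul_dvd_mul hd hdiv
    rwa [Nat.mul_div_cancel' hdd] at this ⊢
  have hfullS : ¬ p ∣ Nat.card ↥(D.group F) / charDegree (D.steinbergCharacter F) := by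
    have e : charDegree (D.steinbergCharacter F) = Fintype.card F ^ (D.nroots / 2) := by
      have := charDegree_cast (⟨_, hst⟩ : IrrCharacter ↥(D.group F))
      rw [show ((⟨_, hst⟩ : IrrCharacter ↥(D.group F)) : ↥(D.group F) → ℂ) 1 = _ from
        steinbergCharacter_one h] at this
      exact_mod_cast this
    rw [e, ← hcardU, ← Subgroup.card_mul_index (CfsgLib.ClassK.ChevCell.posU D F),
      Nat.mul_div_cancel_left _ Nat.card_pos]
    exact hUi
  exact congrArg Subtype.val (CfsgLib.ClassK.ChevCell.eq_of_full h hU hUi hcardU hM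
    ⟨χ, hχ⟩ ⟨_, hst⟩ hfullχ hfullS)

end Cfsg.Agent.S2318
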