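import Cfsg.Statements.S2319
import Cfsg.Agent.Lib.InvCentralizers.HeckeMain
import Cfsg.Agent.Lib.Twisted.CoxeterB2
import Cfsg.Agent.Lib.Twisted.CoxeterG2
import Cfsg.Agent.Lib.Twisted.CoxeterD4
import Cfsg.Agent.Lib.Twisted.CoxeterF4
import Cfsg.Agent.Lib.Twisted.CoxeterE6
import Cfsg.Agent.Lib.Twisted.CoxeterE7
import Cfsg.Agent.Lib.Twisted.CoxeterE8
import Cfsg.Agent.Lib.Chevalley.ExtraData

set_option autoImplicit false
open Cfsg

namespace Cfsg.Agent.S2319

/-- In a Chevalley group of type G₂, B₂, D₄, F₄, E₆, E₇ or E₈ over a finite field, the number of distinct irreducible constituents of the permutation character on the cosets of B = UH equals the number of conjugacy classes (equivalently, of irreducible characters) of the Weyl group, the Coxeter group of the type with nodes numbered as the fundamental roots. -/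
theorem result {F : Type*} [Field F] [Fintype F]
    (dw : Cfsg.Lie.ChevalleyDatum × (Σ n : ℕ, CoxeterMatrix (Fin n)))
    (hdw : dw ∈ [(Cfsg.Lie.chevG2, ⟨2, CoxeterMatrix.G₂⟩), (Cfsg.Lie.chevB2, ⟨2, CoxeterMatrix.B 2⟩), (Cfsg.Lie.chevD4, ⟨4, Cfsg.Lie.coxeterD4⟩), (Cfsg.Lie.chevF4, ⟨4, CoxeterMatrix.F₄⟩),
      (Cfsg.Lie.chevE6, ⟨6, CoxeterMatrix.E₆⟩), (Cfsg.Lie.chevE7, ⟨7, CoxeterMatrix.E₇⟩), (Cfsg.Lie.chevE8, ⟨8, CoxeterMatrix.E₈⟩)]) :
    Nat.card {χ : Cfsg.IrrCharacter ↥(dw.1.group F) //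
      ∃ φ : ↥(dw.1.group F) → ℂ, Cfsg.IsCharacter ↥(dw.1.group F) φ ∧
        Cfsg.fixedPointCharacter ((dw.1.borelSubgroup F).subgroupOf (dw.1.group F)) = (χ : ↥(dw.1.group F) → ℂ) + φ} =
      Nat.card (ConjClasses dw.2.2.Group) := by
  obtain ⟨A, h⟩ : ∃ A, CfsgLib.Chevalley.Full dw.1 A := CfsgLib.Chevalley.exists_full (by
    simp only [List.mem_cons, List.not_mem_nil, or_false] at hdw ⊢
    rcases hdw with rfl | rfl | rfl | rfl | rfl | rfl | rfl <;> simp)
  simp only [List.mem_cons, List.not_mem_nil, or_false] at hdw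
  rcases hdw with rfl | rfl | rfl | rfl | rfl | rfl | rfl
  · exact CfsgLib.InvCentralizers.HeckeMain.main (F := F) h (by decide +kernel) CfsgLib.Twisted.Cox.towerG2
  · exact CfsgLib.InvCentralizers.HeckeMain.main (F := F) h (by decide +kernel) CfsgLib.Twisted.Cox.towerB2
  · exact CfsgLib.InvCentralizers.HeckeMain.main (F := F) h (by decide +kernel) CfsgLib.Twisted.Cox.towerD4
  · exact CfsgLib.InvCentralizers.HeckeMain.main (F := F) h (by decide +kernel) CfsgLib.Twisted.Cox.towerF4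
  · exact CfsgLib.InvCentralizers.HeckeMain.main (F := F) h (by decide +kernel) CfsgLib.Twisted.Cox.towerE6
  · exact CfsgLib.InvCentralizers.HeckeMain.main (F := F) h (by decide +kernel) CfsgLib.Twisted.Cox.towerE7
  · exact CfsgLib.InvCentralizers.HeckeMain.main (F := F) h (by decide +kernel) CfsgLib.Twisted.Cox.towerE8

end Cfsg.Agent.S2319
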