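import Cfsg.Statements.S2320
import Cfsg.Agent.Lib.InvCentralizers.GL2Chars

set_option autoImplicit false
open Cfsg CfsgLib.InvCentralizers.GL2 CfsgLib.CharTheory

namespace Cfsg.Agent.S2320

/-- Over a finite field F with q elements, every irreducible complex character of GL₂ of degree q takes a value of absolute value 1 at every diagonal matrix with two different diagonal entries and at every element with no eigenvector in F². -/
theorem result {F : Type*} [Field F] [Fintype F] (χ : Matrix.GeneralLinearGroup (Fin 2) F → ℂ) (hχ : Cfsg.IsIrrCharacter (Matrix.GeneralLinearGroup (Fin 2) F) χ) (hdeg : χ 1 = (Fintype.card F : ℂ)) (g : Matrix.GeneralLinearGroup (Fin 2) F) :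
    ((g : Matrix (Fin 2) (Fin 2) F) 0 1 = 0 → (g : Matrix (Fin 2) (Fin 2) F) 1 0 = 0 → (g : Matrix (Fin 2) (Fin 2) F) 0 0 ≠ (g : Matrix (Fin 2) (Fin 2) F) 1 1 → ‖χ g‖ = 1) ∧
    ((∀ (c : F) (v : Fin 2 → F), v ≠ 0 → (g : Matrix (Fin 2) (Fin 2) F).mulVec v ≠ c • v) → ‖χ g‖ = 1) := by
  classical
  have hnorm : ∀ (α : MulChar F ℂ) (x : F), x ≠ 0 → ‖α x‖ = 1 := by
    intro α x hx
    refine Complex.norm_eq_one_of_pow_eq_one (n := Fintype.card F - 1) ?_
      (by have := Fintype.one_lt_card (α := F); omega)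
    rw [← map_pow, FiniteField.pow_card_sub_one_eq_one x hx, map_one]
  rcases irr_values hχ with ⟨e, -⟩ | ⟨-, α, rfl⟩ | ⟨e, -⟩ | ⟨e, -⟩
  · exfalso
    rw [hdeg] at e
    norm_num at e
    have := Fintype.one_lt_card (α := F)
    omega
  · constructor
    · intro h01 h10 hne
      have hd := det_ne_zero' g
      rw [h10, mul_zero, sub_zero] at hd
      rw [Pi.sub_apply, ps_upper _ _ g h10, if_neg hne, detChar, h10, mul_zero, sub_zero, map_mul]
      ring_nf
      rw [norm_mul, hnorm _ _ (left_ne_zero_of_mul hd), hnorm _ _ (right_ne_zero_of_mul hd), mul_one]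
    · intro hn
      rw [Pi.sub_apply, ps_of_no_eigenvector _ _ g hn, zero_sub, norm_neg, detChar,
        hnorm _ _ (det_ne_zero' g)]
  · exfalso
    rw [hdeg] at e
    norm_num at e
  · exfalso
    rw [hdeg] at e
    norm_num [eq_sub_iff_add_eq] at e

end Cfsg.Agent.S2320
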