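import Cfsg.Statements.S2322
import Cfsg.Agent.Lib.InvCentralizers.SL2Tables

set_option autoImplicit false
open Cfsg
open CfsgLib.CharDegrees CfsgLib.InvCentralizers.SL2Tables

namespace Cfsg.Agent.S2322

/-- Over a finite field F with q elements, q odd: every irreducible complex character of SL₂ of degree q − 1 or (q − 1)/2 vanishes at every diagonal matrix whose diagonal entry a has a² ≠ 1, and every irreducible complex character of degree q + 1 or (q + 1)/2 vanishes at every element with no eigenvector in F². -/
theorem result {F : Type*} [Field F] [Fintype F] (hodd : Odd (Fintype.card F)) (χ : Matrix.SpecialLinearGroup (Fin 2) F → ℂ) (hχ : Cfsg.IsIrrCharacter (Matrix.SpecialLinearGroup (Fin 2) F) χ) (g : Matrix.SpecialLinearGroup (Fin 2) F) :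
    ((χ 1 = (Fintype.card F : ℂ) - 1 ∨ χ 1 = (((Fintype.card F - 1) / 2 : ℕ) : ℂ)) →
      (g : Matrix (Fin 2) (Fin 2) F) 0 1 = 0 → (g : Matrix (Fin 2) (Fin 2) F) 1 0 = 0 → (g : Matrix (Fin 2) (Fin 2) F) 0 0 ^ 2 ≠ 1 → χ g = 0) ∧
    ((χ 1 = (Fintype.card F : ℂ) + 1 ∨ χ 1 = (((Fintype.card F + 1) / 2 : ℕ) : ℂ)) →
      (∀ (c : F) (v : Fin 2 → F), v ≠ 0 → (g : Matrix (Fin 2) (Fin 2) F).mulVec v ≠ c • v) → χ g = 0) := by
  classical
  obtain ⟨hp, hn⟩ := cast_half hodd
  obtain ⟨m, hm⟩ := id hodd
  have hq := Fintype.one_lt_card (α := F)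
  have hcl := CfsgLib.CharTheory.IsIrrCharacter.isClassFunction hχ
  refine ⟨fun hd h01 h10 ha => ?_, fun hd hg => ?_⟩
  · have h0 : (g : Matrix (Fin 2) (Fin 2) F) 0 0 ≠ 0 := by
      intro e
      have hd := CfsgLib.SL2.det_eq g
      rw [e, h01] at hd
      simp at hd
    have h5 : Fintype.card F ≠ 3 := by
      intro h3
      apply ha
      have h := FiniteField.pow_card_sub_one_eq_one _ h0
      rwa [h3] at h
    have hd2 : 2 * χ 1 = 2 * ((Fintype.card F : ℂ) - 1) ∨ 2 * χ 1 = (Fintype.card F : ℂ) - 1 := by
      rcases hd with h | h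
      · exact Or.inl (by rw [h])
      · exact Or.inr (by rw [h, hn])
    have hall : ∀ α : MulChar F ℂ, Cfsg.classInner χ (principalSeries α) = 0 := by
      rw [hm] at hd2
      push_cast at hd2
      rcases odd_cases hodd hχ with h | h | ⟨h, -⟩ | ⟨-, h, -⟩ | ⟨h, -⟩ | ⟨-, h⟩
      case inr.inr.inr.inl => exact h
      case inr.inr.inr.inr.inr => exact h
      all_goals
        exfalso
        try rw [hm] at h
        try push_cast at h
        rcases hd2 with h' | h'
        all_goals
          first
          | (have e : ((2 : ℕ) : ℂ) = ((4 * m : ℕ) : ℂ) := by push_cast; linear_combination h' - 2 * h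
             have := Nat.cast_injective e; omega)
          | (have e : ((2 : ℕ) : ℂ) = ((2 * m : ℕ) : ℂ) := by push_cast; linear_combination h' - 2 * h
             have := Nat.cast_injective e; omega)
          | (have e : ((4 * m + 2 : ℕ) : ℂ) = ((4 * m : ℕ) : ℂ) := by push_cast; linear_combination h' - 2 * h
             have := Nat.cast_injective e; omega)
          | (have e : ((4 * m + 2 : ℕ) : ℂ) = ((2 * m : ℕ) : ℂ) := by push_cast; linear_combination h' - 2 * h
             have := Nat.cast_injective e; omega)
          | (have e : ((4 * m + 4 : ℕ) : ℂ) = ((4 * m : ℕ) : ℂ) := by push_cast; linear_combination h' - 2 * h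
             have := Nat.cast_injective e; omega)
          | (have e : ((4 * m + 4 : ℕ) : ℂ) = ((2 * m : ℕ) : ℂ) := by push_cast; linear_combination h' - 2 * h
             have := Nat.cast_injective e; omega)
          | (have e : ((2 * m + 2 : ℕ) : ℂ) = ((4 * m : ℕ) : ℂ) := by push_cast; linear_combination h' - h
             have := Nat.cast_injective e; omega)
          | (have e : ((2 * m + 2 : ℕ) : ℂ) = ((2 * m : ℕ) : ℂ) := by push_cast; linear_combination h' - h
             have := Nat.cast_injective e; omega)
    have hau : (Units.mk0 _ h0) ^ 2 ≠ 1 := fun e => ha (by simpa [Units.ext_iff] using e)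
    rw [diag_mk0_eq h01 h10 h0, split_formula hcl hau, Finset.sum_eq_zero]
    intro α _
    rw [hall α, mul_zero]
  · have hd2 : 2 * χ 1 = 2 * ((Fintype.card F : ℂ) + 1) ∨ 2 * χ 1 = (Fintype.card F : ℂ) + 1 := by
      rcases hd with h | h
      · exact Or.inl (by rw [h])
      · exact Or.inr (by rw [h, hp])
    rw [hm] at hd2
    push_cast at hd2
    rcases odd_cases hodd hχ with h | h | ⟨-, α, hα⟩ | ⟨h, -, -, hq3⟩ | ⟨-, -, h⟩ | ⟨h, -⟩
    case inr.inr.inl => rw [hα]; exact principalSeries_of_no_eigenvector _ _ hg
    case inr.inr.inr.inr.inl => exact h g hg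
    case inr.inr.inr.inl =>
      refine hq3 ?_ g hg
      rw [hm] at h
      push_cast at h
      rcases hd2 with h' | h'
      · have e : ((4 * m : ℕ) : ℂ) = ((4 * m + 4 : ℕ) : ℂ) := by push_cast; linear_combination h' - 2 * h
        have := Nat.cast_injective e
        omega
      · have e : ((4 * m : ℕ) : ℂ) = ((2 * m + 2 : ℕ) : ℂ) := by push_cast; linear_combination h' - 2 * h
        have := Nat.cast_injective e
        omega
    all_goals
      exfalso
      try rw [hm] at h
      try push_cast at h
      rcases hd2 with h' | h'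
      all_goals
        first
        | (have e : ((2 : ℕ) : ℂ) = ((4 * m + 4 : ℕ) : ℂ) := by push_cast; linear_combination h' - 2 * h
           have := Nat.cast_injective e; omega)
        | (have e : ((2 : ℕ) : ℂ) = ((2 * m + 2 : ℕ) : ℂ) := by push_cast; linear_combination h' - 2 * h
           have := Nat.cast_injective e; omega)
        | (have e : ((4 * m + 2 : ℕ) : ℂ) = ((4 * m + 4 : ℕ) : ℂ) := by push_cast; linear_combination h' - 2 * h
           have := Nat.cast_injective e; omega)
        | (have e : ((4 * m + 2 : ℕ) : ℂ) = ((2 * m + 2 : ℕ) : ℂ) := by push_cast; linear_combination h' - 2 * h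
           have := Nat.cast_injective e; omega)
        | (have e : ((2 * m : ℕ) : ℂ) = ((4 * m + 4 : ℕ) : ℂ) := by push_cast; linear_combination h' - h
           have := Nat.cast_injective e; omega)
        | (have e : ((2 * m : ℕ) : ℂ) = ((2 * m + 2 : ℕ) : ℂ) := by push_cast; linear_combination h' - h
           have := Nat.cast_injective e; omega)

end Cfsg.Agent.S2322
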