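import Cfsg.Statements.S2323
import Cfsg.Agent.Lib.InvCentralizers.SL2Tables

set_option autoImplicit false
open Cfsg
open CfsgLib.CharDegrees CfsgLib.InvCentralizers.SL2Tables

namespace Cfsg.Agent.S2323

/-- Over a finite field F with q ≥ 4 elements, let u be the upper unitriangular matrix of SL₂ with off-diagonal entry 1. An irreducible complex character of SL₂ takes at u the value 1 if its degree is q + 1 and the value −1 if its degree is q − 1. -/
theorem result {F : Type*} [Field F] [Fintype F] (hq : 4 ≤ Fintype.card F) (χ : Matrix.SpecialLinearGroup (Fin 2) F → ℂ) (hχ : Cfsg.IsIrrCharacter (Matrix.SpecialLinearGroup (Fin 2) F) χ)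
    (u : Matrix.SpecialLinearGroup (Fin 2) F) (hu : (u : Matrix (Fin 2) (Fin 2) F) = !![1, 1; 0, 1]) :
    (χ 1 = (Fintype.card F : ℂ) + 1 → χ u = 1) ∧ (χ 1 = (Fintype.card F : ℂ) - 1 → χ u = -1) := by
  classical
  rw [upS_one_eq hu]
  have hcl := CfsgLib.CharTheory.IsIrrCharacter.isClassFunction hχ
  have hne : ∀ a b : ℕ, a ≠ b → (a : ℂ) ≠ (b : ℂ) := fun a b h e => h (Nat.cast_injective e)
  rcases eq_or_ne (2 : F) 0 with h2 | h2
  · haveI : CharP F 2 := CharTwo.of_one_ne_zero_of_two_eq_zero one_ne_zero h2
    rcases irr_cases_any hχ with h | h | ⟨α, -, h⟩ | h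
    · refine ⟨fun hd => ?_, fun hd => ?_⟩ <;> exfalso <;> rw [h] at hd <;> simp only at hd
      · exact hne 0 (Fintype.card F) (by omega) (by push_cast; linear_combination hd)
      · exact hne 2 (Fintype.card F) (by omega) (by push_cast; linear_combination hd)
    · refine ⟨fun hd => ?_, fun hd => ?_⟩ <;> exfalso <;> rw [h] at hd <;>
        simp [principalSeries_apply_one] at hd
      exact hne 1 0 one_ne_zero (by push_cast; linear_combination hd)
    · refine ⟨fun _ => ?_, fun hd => ?_⟩
      · rw [h, principalSeries_upper _ _ (by simp [CfsgLib.ClassicalLinear.upS_coe]),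
          if_pos (by simp [CfsgLib.ClassicalLinear.upS_coe]),
          if_neg (by simp [CfsgLib.ClassicalLinear.upS_coe])]
        simp [CfsgLib.ClassicalLinear.upS_coe]
      · exfalso
        rw [h, principalSeries_apply_one] at hd
        exact hne 2 0 two_ne_zero (by push_cast; linear_combination hd)
    · have hall : ∀ α : MulChar F ℂ, Cfsg.classInner χ (principalSeries α) = 0 := fun α => h α (by
        by_cases hα : α = 1
        · exact Or.inl hα
        · exact Or.inr fun e => hα (CfsgLib.Correspondences.mulChar_eq_one_of_sq (by rw [← sq]; exact e)))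
      refine ⟨fun hd => ?_, fun hd => ?_⟩
      · exfalso
        have h1 := CfsgLib.Correspondences.dvd_of_cuspidal hχ hall
        rw [CfsgLib.ZerosCodegree.charDegree_eq (n := Fintype.card F + 1) (by rw [hd]; push_cast; ring)] at h1
        have h3 := Nat.dvd_sub h1 (dvd_refl (Fintype.card F - 1))
        rw [show Fintype.card F + 1 - (Fintype.card F - 1) = 2 by omega] at h3
        have := Nat.le_of_dvd two_pos h3
        omega
      · have hU := unipotent_sum hcl
        rw [Finset.sum_eq_zero (fun α _ => hall α), mul_zero,
          ← Finset.add_sum_erase _ _ (Finset.mem_univ (0 : F)),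
          Finset.sum_congr rfl (g := fun _ => χ (CfsgLib.ClassicalLinear.upS 1)) (fun x hx => by
            obtain ⟨a, ha⟩ := CfsgLib.Correspondences.exists_sq_unit
              (Units.mk0 x (Finset.ne_of_mem_erase hx))
            exact upS_conj_of_square hcl (a := a) (by
              rw [mul_one, ← Units.val_pow_eq_pow_val, ha, Units.val_mk0])),
          Finset.sum_const, Finset.card_erase_of_mem (Finset.mem_univ _), Finset.card_univ,
          upS_zero', hd, nsmul_eq_mul, Nat.cast_sub (by omega), Nat.cast_one] at hU
        apply mul_left_cancel₀ (card_sub_one_ne_zero (F := F))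
        linear_combination hU
  · have hodd : Odd (Fintype.card F) := Nat.odd_iff.2 (FiniteField.odd_card_of_char_ne_two fun h => h2 (by
      have := ringChar.Nat.cast_ringChar (R := F)
      rw [h] at this; exact_mod_cast this))
    rcases odd_cases hodd hχ with h | h | ⟨h, α, hα⟩ | ⟨h, -, hu', -⟩ | ⟨h, -⟩ | ⟨h, -⟩
    · refine ⟨fun hd => ?_, fun hd => ?_⟩ <;> exfalso <;> rw [h] at hd
      · exact hne 0 (Fintype.card F) (by omega) (by push_cast; linear_combination hd)
      · exact hne 2 (Fintype.card F) (by omega) (by push_cast; linear_combination hd)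
    · refine ⟨fun hd => ?_, fun hd => ?_⟩ <;> exfalso <;> rw [h] at hd
      · exact hne 1 0 one_ne_zero (by push_cast; linear_combination -hd)
      · exact hne 1 0 one_ne_zero (by push_cast; linear_combination hd)
    · refine ⟨fun _ => ?_, fun hd => ?_⟩
      · rw [hα, principalSeries_upper _ _ (by simp [CfsgLib.ClassicalLinear.upS_coe]),
          if_pos (by simp [CfsgLib.ClassicalLinear.upS_coe]),
          if_neg (by simp [CfsgLib.ClassicalLinear.upS_coe])]
        simp [CfsgLib.ClassicalLinear.upS_coe]
      · exfalso
        exact hne 2 0 two_ne_zero (by push_cast; linear_combination hd - h)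
    · refine ⟨fun hd => ?_, fun _ => hu' 1 one_ne_zero⟩
      exfalso
      exact hne 2 0 two_ne_zero (by push_cast; linear_combination h - hd)
    · refine ⟨fun hd => ?_, fun hd => ?_⟩ <;> exfalso <;> rw [hd] at h
      · exact hne (Fintype.card F + 1) 0 (by omega) (by push_cast; linear_combination h)
      · exact hne (Fintype.card F) 3 (by omega) (by push_cast; linear_combination h)
    · refine ⟨fun hd => ?_, fun hd => ?_⟩ <;> exfalso <;> rw [hd] at h
      · exact hne (Fintype.card F + 3) 0 (by omega) (by push_cast; linear_combination h)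
      · exact hne (Fintype.card F) 1 (by omega) (by push_cast; linear_combination h)

end Cfsg.Agent.S2323
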