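import Cfsg.Statements.S2324
import Cfsg.Agent.Lib.InvCentralizers.SL2Tables

set_option autoImplicit false
open Cfsg
open CfsgLib.CharDegrees CfsgLib.InvCentralizers.SL2Tables

namespace Cfsg.Agent.S2324

/-- Over a finite field F with q elements, q odd and q ≥ 5, let u be the upper unitriangular matrix of SL₂ with off-diagonal entry 1 and let δ = (−1)^((q−1)/2). Every irreducible complex character χ of SL₂ of degree (q + 1)/2 satisfies (2χ(u) − 1)² = δq, and every irreducible complex character χ of degree (q − 1)/2 satisfies (2χ(u) + 1)² = δq; that is, χ(u) = (1 ± √(δq))/2 in the first case and χ(u) = (−1 ± √(δq))/2 in the second. Moreover two different irreducible characters of degree (q + 1)/2 take the two different values (their values at u add up to 1), and likewise for degree (q − 1)/2 (values adding up to −1). -/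
theorem result {F : Type*} [Field F] [Fintype F] (hodd : Odd (Fintype.card F)) (hq : 5 ≤ Fintype.card F)
    (u : Matrix.SpecialLinearGroup (Fin 2) F) (hu : (u : Matrix (Fin 2) (Fin 2) F) = !![1, 1; 0, 1]) :
    (∀ χ : Matrix.SpecialLinearGroup (Fin 2) F → ℂ, Cfsg.IsIrrCharacter (Matrix.SpecialLinearGroup (Fin 2) F) χ → χ 1 = (((Fintype.card F + 1) / 2 : ℕ) : ℂ) → (2 * χ u - 1) ^ 2 = (-1 : ℂ) ^ ((Fintype.card F - 1) / 2) * (Fintype.card F : ℂ)) ∧
    (∀ χ : Matrix.SpecialLinearGroup (Fin 2) F → ℂ, Cfsg.IsIrrCharacter (Matrix.SpecialLinearGroup (Fin 2) F) χ → χ 1 = (((Fintype.card F - 1) / 2 : ℕ) : ℂ) → (2 * χ u + 1) ^ 2 = (-1 : ℂ) ^ ((Fintype.card F - 1) / 2) * (Fintype.card F : ℂ)) ∧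
    (∀ χ₁ χ₂ : Matrix.SpecialLinearGroup (Fin 2) F → ℂ, Cfsg.IsIrrCharacter (Matrix.SpecialLinearGroup (Fin 2) F) χ₁ → Cfsg.IsIrrCharacter (Matrix.SpecialLinearGroup (Fin 2) F) χ₂ → χ₁ ≠ χ₂ →
      χ₁ 1 = (((Fintype.card F + 1) / 2 : ℕ) : ℂ) → χ₂ 1 = (((Fintype.card F + 1) / 2 : ℕ) : ℂ) → χ₁ u + χ₂ u = 1) ∧
    (∀ χ₁ χ₂ : Matrix.SpecialLinearGroup (Fin 2) F → ℂ, Cfsg.IsIrrCharacter (Matrix.SpecialLinearGroup (Fin 2) F) χ₁ → Cfsg.IsIrrCharacter (Matrix.SpecialLinearGroup (Fin 2) F) χ₂ → χ₁ ≠ χ₂ →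
      χ₁ 1 = (((Fintype.card F - 1) / 2 : ℕ) : ℂ) → χ₂ 1 = (((Fintype.card F - 1) / 2 : ℕ) : ℂ) → χ₁ u + χ₂ u = -1) := by
  classical
  rw [upS_one_eq hu]
  obtain ⟨hp, hn⟩ := cast_half hodd
  have hne : ∀ a b : ℕ, a ≠ b → (a : ℂ) ≠ (b : ℂ) := fun a b h e => h (Nat.cast_injective e)
  have h2 := two_ne_zero_of_odd_card hodd
  obtain ⟨C, hT⟩ := exists_nonsplitTorus h2
  haveI := hT.finite_hom
  letI := Fintype.ofFinite (C →* ℂˣ)
  obtain ⟨η, hη1, hηi, hηu, -⟩ := hT.exists_quadratic_char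
  obtain ⟨θ₀, hθ1, hθi, hθu, -⟩ := hT.exists_quadratic_hom
  have hplus : ∀ χ : Matrix.SpecialLinearGroup (Fin 2) F → ℂ, Cfsg.IsIrrCharacter _ χ →
      χ 1 = (((Fintype.card F + 1) / 2 : ℕ) : ℂ) →
      Cfsg.classInner χ (principalSeries η) = 1 ∧
        ∑ α : MulChar F ℂ, Cfsg.classInner χ (principalSeries α) = 1 := by
    intro χ hχ hd
    have hd2 : 2 * χ 1 = (Fintype.card F : ℂ) + 1 := by rw [hd, hp]
    rcases hT.irr_cases hη1 hηu hηi hθ1 hθu hθi hχ with
      h | h | ⟨α, -, h⟩ | ⟨θ, -, h⟩ | ⟨-, hr, hr0, -⟩ | ⟨h, -⟩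
    case inr.inr.inr.inr.inl =>
      exact ⟨hr, by rw [Finset.sum_eq_single η (fun α _ hα => hr0 α hα) (by simp), hr]⟩
    all_goals exfalso
    · rw [h] at hd2; exact hne (Fintype.card F) 1 (by omega) (by push_cast; linear_combination -hd2)
    · rw [h] at hd2; simp only [principalSeries_apply_one] at hd2
      exact hne (Fintype.card F) 1 (by omega) (by push_cast; linear_combination hd2)
    · rw [h, principalSeries_apply_one] at hd2
      exact hne (Fintype.card F + 1) 0 (by omega) (by push_cast; linear_combination hd2)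
    · rw [h, hT.dser_one] at hd2
      exact hne (Fintype.card F) 3 (by omega) (by push_cast; linear_combination hd2)
    · exact hne 1 0 one_ne_zero (by push_cast; linear_combination (h - hd2) / 2)
  have hminus : ∀ χ : Matrix.SpecialLinearGroup (Fin 2) F → ℂ, Cfsg.IsIrrCharacter _ χ →
      χ 1 = (((Fintype.card F - 1) / 2 : ℕ) : ℂ) →
      Cfsg.classInner χ (hT.dser θ₀) = 1 ∧
        ∑ α : MulChar F ℂ, Cfsg.classInner χ (principalSeries α) = 0 := by
    intro χ hχ hd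
    have hd2 : 2 * χ 1 = (Fintype.card F : ℂ) - 1 := by rw [hd, hn]
    rcases hT.irr_cases hη1 hηu hηi hθ1 hθu hθi hχ with
      h | h | ⟨α, -, h⟩ | ⟨θ, -, h⟩ | ⟨h, -⟩ | ⟨-, hd', -, hr⟩
    case inr.inr.inr.inr.inr => exact ⟨hd', Finset.sum_eq_zero fun α _ => hr α⟩
    all_goals exfalso
    · rw [h] at hd2; exact hne (Fintype.card F) 3 (by omega) (by push_cast; linear_combination -hd2)
    · rw [h] at hd2; simp only [principalSeries_apply_one] at hd2
      exact hne (Fintype.card F + 1) 0 (by omega) (by push_cast; linear_combination hd2)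
    · rw [h, principalSeries_apply_one] at hd2
      exact hne (Fintype.card F + 3) 0 (by omega) (by push_cast; linear_combination hd2)
    · rw [h, hT.dser_one] at hd2
      exact hne (Fintype.card F) 1 (by omega) (by push_cast; linear_combination hd2)
    · exact hne 1 0 one_ne_zero (by push_cast; linear_combination (hd2 - h) / 2)
  have hpair : ∀ (f χ₁ χ₂ : Matrix.SpecialLinearGroup (Fin 2) F → ℂ),
      Cfsg.IsGeneralizedCharacter _ f → Cfsg.classInner f f = 2 →
      Cfsg.IsIrrCharacter _ χ₁ → Cfsg.IsIrrCharacter _ χ₂ → χ₁ ≠ χ₂ →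
      Cfsg.classInner χ₁ f = 1 → Cfsg.classInner χ₂ f = 1 → f = χ₁ + χ₂ := by
    intro f χ₁ χ₂ hf hff h₁ h₂ h12 e₁ e₂
    have hz : Cfsg.classInner (f - (χ₁ + χ₂)) (f - (χ₁ + χ₂)) = 0 := by
      simp only [CfsgLib.CharTheory.classInner_sub_left, CfsgLib.CharTheory.classInner_sub_right,
        CfsgLib.CharTheory.classInner_add_left, CfsgLib.CharTheory.classInner_add_right,
        CfsgLib.CharTheory.classInner_self_of_isIrr h₁, CfsgLib.CharTheory.classInner_self_of_isIrr h₂,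
        CfsgLib.CharTheory.classInner_eq_zero_of_ne h₁ h₂ h12,
        CfsgLib.CharTheory.classInner_eq_zero_of_ne h₂ h₁ (Ne.symm h12), e₁, e₂,
        classInner_irr_symm h₁ hf, classInner_irr_symm h₂ hf, hff]
      norm_num
    exact sub_eq_zero.1 (eq_zero_of_norm_zero hz)
  refine ⟨fun χ hχ hd => ?_, fun χ hχ hd => ?_, fun χ₁ χ₂ h₁ h₂ h12 hd₁ hd₂ => ?_,
    fun χ₁ χ₂ h₁ h₂ h12 hd₁ hd₂ => ?_⟩
  · have h := unipotent_values hodd hχ 1 (hplus χ hχ hd).2 (by rw [hd, hp]; ring)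
    rw [← h]; ring
  · have h := unipotent_values hodd hχ 0 (hminus χ hχ hd).2 (by rw [hd, hn]; ring)
    rw [← h]; ring
  · have hf : Cfsg.IsGeneralizedCharacter _ (principalSeries η) :=
      CfsgLib.CharTheory.IsCharacter.isGeneralizedCharacter (principalSeries_isChar η)
    have hff : Cfsg.classInner (principalSeries η) (principalSeries η) = 2 := by
      rw [classInner_ps_ps, if_pos rfl, if_pos (by nth_rewrite 1 [← hηi]; exact inv_mul_cancel η)]
      norm_num
    have e := congrFun (hpair _ χ₁ χ₂ hf hff h₁ h₂ h12 (hplus χ₁ h₁ hd₁).1 (hplus χ₂ h₂ hd₂).1)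
      (CfsgLib.ClassicalLinear.upS 1)
    rw [Pi.add_apply] at e
    rw [← e, principalSeries_upper _ _ (by simp [CfsgLib.ClassicalLinear.upS_coe]),
      if_pos (by simp [CfsgLib.ClassicalLinear.upS_coe]),
      if_neg (by simp [CfsgLib.ClassicalLinear.upS_coe])]
    simp [CfsgLib.ClassicalLinear.upS_coe]
  · have hff : Cfsg.classInner (hT.dser θ₀) (hT.dser θ₀) = 2 := by
      rw [hT.dser_inner, if_pos rfl, if_pos hθi]
      norm_num
    have e := congrFun (hpair _ χ₁ χ₂ (hT.dser_isGen θ₀) hff h₁ h₂ h12 (hminus χ₁ h₁ hd₁).1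
      (hminus χ₂ h₂ hd₂).1) (CfsgLib.ClassicalLinear.upS 1)
    rw [Pi.add_apply, hT.dser_upS θ₀ one_ne_zero] at e
    exact e.symm

end Cfsg.Agent.S2324
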