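import Cfsg.Statements.S2325
import Cfsg.Agent.Lib.InvCentralizers.SL2Tables

set_option autoImplicit false
open Cfsg
open CfsgLib.CharDegrees CfsgLib.InvCentralizers.SL2Tables

namespace Cfsg.Agent.S2325

/-- Over a finite field with q elements, q odd, the special linear group SL₂ has exactly q + 4 conjugacy classes. -/
theorem result {F : Type*} [Field F] [Fintype F] (hodd : Odd (Fintype.card F)) :
    Nat.card (ConjClasses (Matrix.SpecialLinearGroup (Fin 2) F)) = Fintype.card F + 4 := by
  classical
  have h := two_mul_count (F := F) (two_ne_zero_of_odd_card hodd) (fun _ => True)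
  simp only [if_true, mul_one] at h
  rw [Nat.card_congr (Equiv.subtypeUnivEquiv (fun _ => trivial)),
    CfsgLib.CharTheory.card_irrCharacter] at h
  have h' : ((2 * Nat.card (ConjClasses (Matrix.SpecialLinearGroup (Fin 2) F)) : ℕ) : ℂ) =
      ((2 * (Fintype.card F + 4) : ℕ) : ℂ) := by
    rw [h]; push_cast; ring
  have := Nat.cast_injective h'
  omega

end Cfsg.Agent.S2325
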