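import Cfsg.Statements.S2326
import Cfsg.Agent.Lib.InvCentralizers.ChevalleySteinberg

set_option autoImplicit false
open Cfsg CfsgLib.InvCentralizers CfsgLib.InvCentralizers.ChevalleySteinberg

namespace Cfsg.Agent.S2326

/-- In a Chevalley group of type G₂, B₂, D₄, F₄, E₆, E₇ or E₈ over a finite field of characteristic p, the subgroup U generated by the positive root elements is a Sylow p-subgroup. -/
theorem result {F : Type*} [Field F] [Fintype F] (p : ℕ) [Fact p.Prime] [CharP F p] (D : Cfsg.Lie.ChevalleyDatum) (hD : D ∈ [Cfsg.Lie.chevG2, Cfsg.Lie.chevB2, Cfsg.Lie.chevD4, Cfsg.Lie.chevF4, Cfsg.Lie.chevE6, Cfsg.Lie.chevE7, Cfsg.Lie.chevE8]) :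
    ∃ P : Sylow p ↥(D.group F), (P : Subgroup ↥(D.group F)) = (D.posUnipotent F).subgroupOf (D.group F) := by
  classical
  haveI : Finite (GL D.Idx F) := inferInstance
  obtain ⟨A, h⟩ := CfsgLib.Chevalley.exists_full hD
  exact ⟨((isPGroup_U h).of_equiv (Subgroup.subgroupOfEquivOfLe ((le_sup_left :
      D.posUnipotent F ≤ D.borelSubgroup F).trans (CfsgLib.Chevalley.borel_le_group h.cert))).symm).toSylow
    (not_dvd_index h), rfl⟩

end Cfsg.Agent.S2326
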