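import Cfsg.Statements.S2328
import Cfsg.Agent.Lib.InvCentralizers.ChevalleySteinberg
import Cfsg.Agent.Lib.CharTheory.FullDefect

set_option autoImplicit false
open Cfsg CfsgLib.InvCentralizers CfsgLib.InvCentralizers.ChevalleySteinberg

namespace Cfsg.Agent.S2328

/-- In a Chevalley group of type G₂, B₂, D₄, F₄, E₆, E₇ or E₈ over a finite field of characteristic p, the Steinberg character vanishes at every element whose order is divisible by p (every element that is not semisimple). -/
theorem result {F : Type*} [Field F] [Fintype F] (p : ℕ) [Fact p.Prime] [CharP F p] (D : Cfsg.Lie.ChevalleyDatum) (hD : D ∈ [Cfsg.Lie.chevG2, Cfsg.Lie.chevB2, Cfsg.Lie.chevD4, Cfsg.Lie.chevF4, Cfsg.Lie.chevE6, Cfsg.Lie.chevE7, Cfsg.Lie.chevE8]) (g : ↥(D.group F)) (hg : p ∣ orderOf g) :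
    D.steinbergCharacter F g = 0 := by
  classical
  haveI : Finite (GL D.Idx F) := inferInstance
  letI := Fintype.ofFinite ↥(D.group F)
  obtain ⟨A, h⟩ := CfsgLib.Chevalley.exists_full hD
  obtain ⟨e, -, he⟩ := FiniteField.card F p
  have hirr : Cfsg.IsIrrCharacter ↥(D.group F) (D.steinbergCharacter F) := by
    rw [steinberg_eq h]
    exact SteinbergChar.steinberg_isIrr (coe_sFinset h) (longest_inter h)
  refine CfsgLib.CharTheory.IsIrrCharacter.eq_zero_of_fullDegree hirr (n := (e : ℕ) * (D.nroots / 2))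
    (d := Fintype.card F ^ (D.nroots / 2)) Fact.out ?_ (by rw [steinbergCharacter_one h]; push_cast; rfl)
    (by rw [he, pow_mul]) hg
  intro hdvd
  apply not_dvd_index (F := F) (p := p) h
  have h1 := Subgroup.card_mul_index ((D.posUnipotent F).subgroupOf (D.group F))
  rw [Nat.card_congr (Subgroup.subgroupOfEquivOfLe ((le_sup_left :
      D.posUnipotent F ≤ D.borelSubgroup F).trans (CfsgLib.Chevalley.borel_le_group h.cert))).toEquiv,
    card_U h, he, ← pow_mul] at h1
  rw [← h1, pow_succ] at hdvd
  exact Nat.dvd_of_mul_dvd_mul_left (pow_pos (Fact.out : p.Prime).pos _) hdvd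

end Cfsg.Agent.S2328
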