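import Cfsg.Statements.S2362
import Cfsg.Agent.Lib.KnownSimple.OddOrthSpectrum
import Cfsg.Agent.Lib.CharDegrees.SpElements
import Cfsg.Agent.Lib.ClassicalForms.Ortho.Index
import Cfsg.Agent.Lib.ClassicalForms.Ortho.POmega

set_option autoImplicit false
open Cfsg

namespace Cfsg.Agent.S2362

/-- Let F be a finite field of odd order and n ≥ 3. The simple orthogonal group PΩ(2n+1, F) (type B_n) and the projective symplectic group PSp(2n, F) (type C_n), which have the same order, do not have the same set of element orders. -/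
theorem result {F : Type*} [Field F] [Fintype F] (hodd : Odd (Fintype.card F)) (n : ℕ) (hn : 3 ≤ n) :
    Set.range (orderOf : Cfsg.POmega F (Cfsg.quadFormOdd n F) → ℕ) ≠ Set.range (orderOf : Cfsg.PSp n F → ℕ) := by
  classical
  open CfsgLib.ClassicalForms in
  intro hrange
  obtain ⟨p, hch⟩ := CharP.exists F
  obtain ⟨e, hp, hqe⟩ := FiniteField.card F p
  change Fintype.card F = p ^ (e : ℕ) at hqe
  haveI : Fact p.Prime := ⟨hp⟩
  have hp2 : p ≠ 2 := by
    rintro rfl
    rw [hqe, Nat.odd_pow_iff e.ne_zero] at hodd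
    exact absurd hodd (by decide)
  have h2 : (2 : F) ≠ 0 := by
    intro h
    exact hp2 ((Nat.prime_dvd_prime_iff_eq hp Nat.prime_two).1
      ((CharP.cast_eq_zero_iff F p 2).1 (by exact_mod_cast h)))
  obtain ⟨m, rfl⟩ : ∃ m, n = m + 1 := ⟨n - 1, by omega⟩
  set q := Fintype.card F with hq
  -- the element of the symplectic group
  have hsp : ∃ x : Cfsg.PSp (m + 1) F, orderOf x = p * (q ^ m + 1) := by
    haveI : NeZero (2 * m) := ⟨by omega⟩
    obtain ⟨σ, φ, x, hd, hx, hord⟩ := CfsgLib.CharDegrees.exists_unipotent_data (F := F) p hp2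
      (m := 1) (s := 0) (by simp)
    obtain ⟨τ, ψ, y, hd', hy, hyo⟩ := CfsgLib.CharDegrees.exists_torus_plus (F := F) p (j := m) (by omega)
    have hmon : ((Polynomial.X - 1 : Polynomial F) ^ (2 * 1)).Monic :=
      ((by simpa using Polynomial.monic_X_sub_C (1 : F)) : (Polynomial.X - 1 : Polynomial F).Monic).pow _
    haveI := hmon.finite_adjoinRoot
    have hfin : Module.finrank F (AdjoinRoot ((Polynomial.X - 1 : Polynomial F) ^ (2 * 1)) ×
        FiniteField.Extension F p (2 * m)) = 2 * (m + 1) := by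
      rw [Module.finrank_prod, FiniteField.finrank_extension, (AdjoinRoot.powerBasis hmon.ne_zero).finrank,
        AdjoinRoot.powerBasis_dim, Polynomial.natDegree_pow,
        show (Polynomial.X - 1 : Polynomial F) = Polynomial.X - Polynomial.C 1 by simp,
        Polynomial.natDegree_X_sub_C]
      ring
    set R := AdjoinRoot ((Polynomial.X - 1 : Polynomial F) ^ (2 * 1)) × FiniteField.Extension F p (2 * m)
    set z : R := (x, y) with hz
    obtain ⟨A, Φ, hΦ, hA⟩ := CfsgLib.CharDegrees.exists_sp_of_algebra h2 hfin (hd.prod hd') (x := z)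
      (Prod.ext hx hy)
    haveI : CharP (AdjoinRoot ((Polynomial.X - 1 : Polynomial F) ^ (2 * 1))) p :=
      charP_of_injective_algebraMap (AdjoinRoot.of.injective_of_degree_ne_zero (by
        rw [Polynomial.degree_eq_natDegree hmon.ne_zero, Polynomial.natDegree_pow,
          show (Polynomial.X - 1 : Polynomial F) = Polynomial.X - Polynomial.C 1 by simp,
          Polynomial.natDegree_X_sub_C]
        decide)) p
    suffices hdvd : p * (q ^ m + 1) ∣
        orderOf (QuotientGroup.mk' (Subgroup.center (Matrix.symplecticGroup (Fin (m + 1)) F)) A) by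
      exact ⟨_, orderOf_pow_orderOf_div
        (orderOf_pos (QuotientGroup.mk' (Subgroup.center (Matrix.symplecticGroup (Fin (m + 1)) F)) A)).ne' hdvd⟩
    · obtain ⟨c, -, hck⟩ := CfsgLib.CharDegrees.sp_pow_scalar (by omega) A (dvd_refl _)
      set k := orderOf (QuotientGroup.mk' (Subgroup.center (Matrix.symplecticGroup (Fin (m + 1)) F)) A)
      have hzk : z ^ k = algebraMap F R c := hΦ (by rw [map_pow, ← hA, hck, AlgHom.commutes]; rfl)
      obtain ⟨hc1, hpk⟩ := hord k c (congrArg Prod.fst hzk)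
      have hyk : y ^ k = 1 := by
        have := congrArg Prod.snd hzk
        rw [Prod.pow_snd] at this
        rw [hc1] at this
        simpa [hz] using this
      rw [zero_add, pow_one] at hpk
      refine Nat.Coprime.mul_dvd_of_dvd_of_dvd ((hp.coprime_iff_not_dvd).2 fun hd => ?_) hpk
        (hyo ▸ orderOf_dvd_of_pow_eq_one hyk)
      have h3 := Nat.dvd_sub hd (show p ∣ q ^ m from (hqe ▸ dvd_pow_self p e.ne_zero).trans (dvd_pow_self q (by omega)))
      rw [Nat.add_sub_cancel_left] at h3
      exact hp.ne_one (Nat.dvd_one.1 h3)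
  obtain ⟨x, hx⟩ := hsp
  obtain ⟨y, hy⟩ := (hrange ▸ ⟨x, hx⟩ : p * (q ^ m + 1) ∈ Set.range (orderOf : Cfsg.POmega F (Cfsg.quadFormOdd (m + 1) F) → ℕ))
  have hQ := CfsgLib.ClassicalForms.nondeg_qOdd h2 (m + 1)
  have hcard : Fintype.card (Unit ⊕ (Fin (m + 1) ⊕ Fin (m + 1))) = 2 * m + 3 := by simp; ring
  have hgen := CfsgLib.ClassicalForms.isGen_qOdd h2 (m + 1)
  set Q := CfsgLib.ClassicalForms.qOdd (m + 1) F with hQdef
  have hc : commutator (CfsgLib.ClassicalForms.orth Q) = CfsgLib.ClassicalForms.siegelGroup Q :=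
    CfsgLib.ClassicalForms.commutator_eq_siegelGroup hQ (by simp; omega) hgen
  set z := CfsgLib.ClassicalForms.pOmegaEquiv Q (CfsgLib.ClassicalForms.qOdd_apply (m + 1)) hc y with hzdef
  obtain ⟨g, hg⟩ := QuotientGroup.mk_surjective z
  have hbot : Subgroup.center (CfsgLib.ClassicalForms.siegelGroup Q) = ⊥ := by
    rw [Subgroup.eq_bot_iff_forall]
    intro a ha
    rcases CfsgLib.ClassicalForms.center_eq_one_or_negI hQ (by omega) ha with h | h
    · exact h
    · exfalso
      have h3 := (CfsgLib.ClassicalForms.negI_mem_iff h2 hQ (by omega) hgen).1 (h ▸ a.2)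
      rw [hcard] at h3
      obtain ⟨k, hk⟩ := h3.1
      omega
  have hgo : orderOf g = p * (q ^ m + 1) := by
    rw [← hy, ← MulEquiv.orderOf_eq (CfsgLib.ClassicalForms.pOmegaEquiv Q (CfsgLib.ClassicalForms.qOdd_apply (m + 1)) hc) y,
      ← hzdef, ← hg]
    refine (orderOf_injective (QuotientGroup.mk' _) ?_ g).symm
    rw [← MonoidHom.ker_eq_bot_iff, QuotientGroup.ker_mk', hbot]
  refine CfsgLib.KnownSimple.OddOrthSpectrum.no_order hQ hgen (p := p) hp2 (m := m) (by omega)
    (by rw [CfsgLib.ClassicalForms.finrank_qOdd]; ring) ?_ (g : CfsgLib.ClassicalForms.orth Q) (by rw [hc]; exact g.2)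
    (by rw [Subgroup.orderOf_coe, hgo])
  have h := CfsgLib.ClassicalForms.card_values_qH (CfsgLib.ClassicalForms.sqForm F) (1 : F) (m + 1)
  rw [← CfsgLib.ClassicalForms.card_values_congr (CfsgLib.ClassicalForms.oddEquiv (m + 1))
      (CfsgLib.ClassicalForms.qH_oddEquiv (m + 1)) 1,
    Nat.card_eq_fintype_card (α := F)] at h
  have h0 : Nat.card {v : F // CfsgLib.ClassicalForms.sqForm F v = 1} = 2 := by
    rw [Nat.card_eq_two_iff]
    refine ⟨⟨1, by simp [CfsgLib.ClassicalForms.sqForm]⟩, ⟨-1, by simp [CfsgLib.ClassicalForms.sqForm]⟩,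
      fun h => h2 (by have := congrArg Subtype.val h; linear_combination this), Set.eq_univ_of_forall fun v => ?_⟩
    rcases mul_self_eq_one_iff.1 (show v.1 * v.1 = 1 by simpa [CfsgLib.ClassicalForms.sqForm] using v.2) with h | h
    · exact Or.inl (Subtype.ext h)
    · exact Or.inr (Subtype.ext h)
  rw [h0] at h
  zify
  apply mul_right_cancel₀ (show (q : ℤ) ≠ 0 by exact_mod_cast Fintype.card_ne_zero)
  rw [h]
  push_cast
  ring

end Cfsg.Agent.S2362
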