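import Cfsg.Statements.S2365
import Cfsg.Agent.Lib.KnownSimple.CommutingPUnitary
import Cfsg.Agent.Lib.CharDegrees.SUElements
import Cfsg.Agent.Lib.Forms.UnitaryForm
-- import your own Cfsg.Agent.* helpers here

set_option autoImplicit false
open Cfsg

namespace Cfsg.Agent.S2365

/-- Let q be a power of the prime p, F the field with q² elements, m ≥ 4, and let a, b be commuting elements of PSU(m, q) with a of order p. Then every prime divisor of the order of b divides the order of SU(m − 2, q). -/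
theorem result {F : Type*} [Field F] [Fintype F] (p : ℕ) [Fact p.Prime] [CharP F p] (m q : ℕ) (hm : 4 ≤ m) (hF : Fintype.card F = q ^ 2)
    (a b : Cfsg.PSU m F q) (ha : orderOf a = p) (hab : Commute a b) :
    (orderOf b).primeFactors ⊆ (Nat.card ↥(Cfsg.SU (m - 2) F q)).primeFactors := by
  classical
  intro r hr
  rw [Nat.mem_primeFactors] at hr ⊢
  obtain ⟨hrp', hrb, -⟩ := hr
  refine ⟨hrp', ?_, Nat.card_pos.ne'⟩
  by_contra hns
  have hNF : Nat.card F = q ^ 2 := by rw [Nat.card_eq_fintype_card, hF]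
  have hsmall : ∀ d, d ≤ m - 2 → ¬ r ∣ Nat.card (Cfsg.GU d F q) := fun d hd =>
    CfsgLib.KnownSimple.CommutingPUnitary.not_dvd_card_gu hNF hrp' (by omega) hns hd
  obtain ⟨c⟩ := CfsgLib.ClassicalForms.exists_conj hNF
  have hp := (Fact.out : p.Prime)
  -- the characteristic divides the order of the smaller group
  have hrp : (r : F) ≠ 0 := by
    intro h
    have hrp : r = p := ((Nat.prime_dvd_prime_iff_eq hp hrp').1 ((CharP.cast_eq_zero_iff F p r).1 h)).symm
    obtain ⟨f, -, hf⟩ := FiniteField.card F p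
    rw [hF] at hf
    have hq : r ∣ q := hrp'.dvd_of_dvd_pow (n := 2) (by rw [hf, hrp]; exact dvd_pow_self _ f.pos.ne')
    have h2 : r ∣ Nat.card (Cfsg.GU (m - 2) F q) := by
      rw [CfsgLib.ClassicalForms.card_gu hNF]
      refine Dvd.dvd.mul_right (dvd_pow hq ?_) _
      have : 2 ≤ (m - 2) * (m - 2 - 1) := by
        calc 2 = 2 * 1 := rfl
          _ ≤ _ := Nat.mul_le_mul (by omega) (by omega)
      omega
    rw [CfsgLib.ClassicalForms.card_gu_eq_mul_su hNF (by omega)] at h2
    rcases hrp'.dvd_mul.1 h2 with h3 | h3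
    · exact hrp'.ne_one (Nat.dvd_one.1 (by simpa using Nat.dvd_sub h3 hq))
    · exact hns h3
  -- lifts
  have hn3 : 3 ≤ m := by omega
  obtain ⟨A, rfl⟩ := QuotientGroup.mk_surjective a
  obtain ⟨B, hB⟩ := QuotientGroup.mk_surjective (b ^ (orderOf b / r))
  obtain ⟨k, l, hl, hAo⟩ := Nat.exists_eq_pow_mul_and_not_dvd (orderOf_pos A).ne' p hp.ne_one
  set u := A ^ l with hu
  have hupow : u ^ p ^ k = 1 := by rw [hu, ← pow_mul, mul_comm, ← hAo, pow_orderOf_eq_one]
  have hu1 : u ∉ Subgroup.center (Cfsg.SU m F q) := by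
    intro h
    have h1 : (QuotientGroup.mk A : Cfsg.PSU m F q) ^ l = 1 := by
      rw [← QuotientGroup.mk_pow]; exact (QuotientGroup.eq_one_iff _).2 h
    exact hl (ha ▸ orderOf_dvd_of_pow_eq_one h1)
  have hcz : B * u * B⁻¹ * u⁻¹ ∈ Subgroup.center (Cfsg.SU m F q) := by
    refine (QuotientGroup.eq_one_iff _).1 ?_
    have hcomm : Commute (QuotientGroup.mk A ^ l : Cfsg.PSU m F q)
        (b ^ (orderOf b / r)) := hab.pow_pow _ _
    simp only [QuotientGroup.mk_mul, QuotientGroup.mk_inv, hu, QuotientGroup.mk_pow, hB]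
    rw [hcomm.symm.eq]
    group
  have : Nonempty (Fin m) := ⟨⟨0, by omega⟩⟩
  have hBu : B * u = u * B := by
    set z := B * u * B⁻¹ * u⁻¹ with hz
    have hzu : Commute z u := (Subgroup.mem_center_iff.1 hcz u).symm
    have hzp : z ^ p ^ k = 1 := by
      have h1 : (z * u) ^ p ^ k = 1 := by
        rw [hz, inv_mul_cancel_right, conj_pow, hupow, mul_one, mul_inv_cancel]
      rwa [hzu.mul_pow, hupow, mul_one] at h1
    obtain ⟨ζ, hζ⟩ := CfsgLib.CharDegrees.su_center_scalar hF hn3 hcz
    have hζ1 : ζ ^ p ^ k = 1 := by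
      have h2 := congrArg CfsgLib.CharDegrees.suMat hzp
      rw [CfsgLib.CharDegrees.suMat_pow, hζ, ← map_pow,
        show CfsgLib.CharDegrees.suMat (1 : Cfsg.SU m F q) = 1 from rfl,
        ← map_one (Matrix.scalar (Fin m))] at h2
      exact Matrix.scalar_inj.1 h2
    have hζ2 : ζ = 1 := by
      have h3 := sub_pow_char_pow (R := F) (p := p) (n := k) ζ 1
      rw [hζ1, one_pow, sub_self] at h3
      exact sub_eq_zero.1 (eq_zero_of_pow_eq_zero h3)
    have hz1 : z = 1 := CfsgLib.CharDegrees.suMat_injective (by rw [hζ, hζ2, map_one]; rfl)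
    rwa [hz, mul_inv_eq_one, mul_inv_eq_iff_eq_mul] at hz1
  have hbo : orderOf (b ^ (orderOf b / r)) = r :=
    orderOf_pow_orderOf_div (orderOf_pos b).ne' hrb
  have hrB : r ∣ orderOf B := by
    rw [← hbo, ← hB]
    exact orderOf_map_dvd (QuotientGroup.mk' _) B
  have hx := orderOf_pow_orderOf_div (orderOf_pos B).ne' hrB
  set X := B ^ (orderOf B / r) with hX
  have hXu : Commute X u := Commute.pow_left hBu _
  let toEnd : Matrix (Fin m) (Fin m) F ≃ₐ[F] Module.End F (Fin m → F) := Matrix.toLinAlgEquiv'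
  have hiso : ∀ (Y : Cfsg.SU m F q) (v w : Fin m → F),
      CfsgLib.Forms.hermBundled m c.σ (toEnd (CfsgLib.CharDegrees.suMat Y) v)
        (toEnd (CfsgLib.CharDegrees.suMat Y) w) = CfsgLib.Forms.hermBundled m c.σ v w := fun Y v w => by
    rw [CfsgLib.Forms.hermBundled_apply c.apply, CfsgLib.Forms.hermBundled_apply c.apply]
    exact Y.2 w v
  have hone := CfsgLib.KnownSimple.CommutingPUnitary.eq_one_of_commute c (CfsgLib.Forms.hermBundled m c.σ)
    (toEnd (CfsgLib.CharDegrees.suMat X)) (toEnd (CfsgLib.CharDegrees.suMat u))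
    (CfsgLib.Forms.hermBundled_isSymm c.invol) (CfsgLib.Forms.hermBundled_nondegenerate c.invol).1 hrp' hrp
    (by rw [Module.finrank_fin_fun]; omega)
    (by intro d hd; rw [Module.finrank_fin_fun] at hd; exact hsmall d (by omega))
    ?_ (hiso X) (hiso u) ?_ ?_ ?_
  · have : X = 1 := CfsgLib.CharDegrees.suMat_injective (toEnd.injective (hone.trans (map_one toEnd).symm))
    rw [this, orderOf_one] at hx
    exact hrp'.ne_one hx.symm
  · rw [← map_pow, ← map_one toEnd, ← CfsgLib.CharDegrees.suMat_pow, ← hx, pow_orderOf_eq_one]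
    rfl
  · exact Commute.map (show Commute (CfsgLib.CharDegrees.suMat X) (CfsgLib.CharDegrees.suMat u) from
      congrArg CfsgLib.CharDegrees.suMat hXu.eq) toEnd
  · rw [← map_one toEnd, ← map_sub]
    refine IsNilpotent.map ⟨p ^ k, ?_⟩ toEnd
    have hc : CharP (Matrix (Fin m) (Fin m) F) p := Matrix.charP (n := Fin m) (R := F) p
    rw [sub_pow_char_pow_of_commute p k (Commute.one_right _), one_pow,
      ← CfsgLib.CharDegrees.suMat_pow, hupow]
    exact sub_self _
  · intro h
    refine hu1 ?_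
    rw [show u = 1 from CfsgLib.CharDegrees.suMat_injective (toEnd.injective (h.trans (map_one toEnd).symm))]
    exact Subgroup.one_mem _


end Cfsg.Agent.S2365
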