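import Cfsg.Statements.S2367
-- import your own Cfsg.Agent.* helpers here

set_option autoImplicit false
open Cfsg

namespace Cfsg.Agent.S2367

/-- Let G be an alternating group of degree at least 5 or a simple group with the order of one of the 26 sporadic groups, and let p be an odd prime such that p³ is the exact power of p dividing the order of G. Then p³ is less than the 2-part of the order of G. -/
theorem result {G : Type*} [Group G] [Finite G] (hG : Cfsg.IsAlternating G ∨ Cfsg.IsSporadic G)
    (p : ℕ) (hp : p.Prime) (hodd : p ≠ 2) (h3 : (Nat.card G).factorization p = 3) :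
    p ^ 3 < 2 ^ (Nat.card G).factorization 2 := by
  have hpf := Fact.mk hp
  rcases hG with ⟨n, hn, ⟨e⟩⟩ | hS
  · rw [Nat.card_congr e.toEquiv] at h3 ⊢
    have : Nontrivial (Fin n) := Fin.nontrivial_iff_two_le.2 (by omega)
    have h2c : 2 * Nat.card (alternatingGroup (Fin n)) = n.factorial := by
      rw [two_mul_nat_card_alternatingGroup, Nat.card_perm, Nat.card_fin]
    have hv : ∀ r : ℕ, (n.factorial).factorization r =
        (2 : ℕ).factorization r + (Nat.card (alternatingGroup (Fin n))).factorization r := fun r => by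
      rw [← h2c, Nat.factorization_mul two_ne_zero Nat.card_pos.ne', Finsupp.add_apply]
    have hvp := hv p
    rw [Nat.factorization_eq_zero_of_not_dvd (fun h => hodd ((Nat.prime_dvd_prime_iff_eq hp Nat.prime_two).1 h)),
      zero_add, h3, Nat.factorization_def _ hp] at hvp
    have hv2 := hv 2
    rw [Nat.prime_two.factorization_self, Nat.factorization_def _ Nat.prime_two] at hv2
    have hp3 : 3 ≤ p := by have := hp.two_le; omega
    -- Legendre
    have hlow : ∀ (r : ℕ) [Fact r.Prime], n / r + n / r ^ 2 ≤ padicValNat r n.factorial := by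
      intro r _
      rw [padicValNat_factorial (b := n + 3) (by have := Nat.log_le_self r n; omega)]
      refine le_trans (le_of_eq ?_) (Finset.sum_le_sum_of_subset (s := ({1, 2} : Finset ℕ)) ?_)
      · simp
      · intro x hx
        simp only [Finset.mem_insert, Finset.mem_singleton, Finset.mem_Ico] at hx ⊢
        omega
    have h3p : 3 * p ≤ n := by
      by_contra hc
      rw [padicValNat_factorial (b := 2) (Nat.log_lt_of_lt_pow (by omega) (by
        have : 3 * p ≤ p ^ 2 := by rw [sq]; exact Nat.mul_le_mul_right p hp3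
        omega))] at hvp
      simp only [Finset.Ico_eq_cons_Ioo (show 1 < 2 by omega), Finset.sum_cons] at hvp
      have : n / p < 3 := (Nat.div_lt_iff_lt_mul hp.pos).2 (by omega)
      rw [show Finset.Ioo 1 2 = ∅ from rfl, Finset.sum_empty, pow_one] at hvp
      omega
    have hp5 : 5 ≤ p := by
      by_contra hc
      have h4 : p ≠ 4 := fun h => by rw [h] at hp; exact absurd hp (by decide)
      obtain rfl : p = 3 := by omega
      have := hlow 3
      omega
    obtain ⟨j, hj⟩ := hp.odd_of_ne_two hodd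
    have hlt : p < 2 ^ (j + 1) := by
      have := Nat.lt_two_pow_self (n := j)
      rw [pow_succ]
      omega
    have hmain := @hlow 2 ⟨Nat.prime_two⟩
    calc p ^ 3 < (2 ^ (j + 1)) ^ 3 := Nat.pow_lt_pow_left hlt (by norm_num)
      _ ≤ _ := by
        rw [← pow_mul, Nat.factorization_def _ Nat.prime_two]
        refine Nat.pow_le_pow_right two_pos ?_
        rw [Nat.factorization_def _ Nat.prime_two] at hv2
        omega
  · -- the sporadic orders
    have key : ∀ (N a : ℕ) (L : List ℕ), 0 < N → 2 ^ a ∣ N → (∀ x ∈ L, x.Prime) ∧ N ∣ L.prod ^ 64 →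
        (∀ x ∈ L, x = 2 ∨ ¬ (x ^ 3 ∣ N ∧ ¬ x ^ 4 ∣ N) ∨ x ^ 3 < 2 ^ a) →
        Nat.card G = N → p ^ 3 < 2 ^ (Nat.card G).factorization 2 := by
      intro N a L hN ha hL hall hc
      rw [hc] at h3 ⊢
      have hpN : p ∣ N := Nat.dvd_of_factorization_pos (by omega)
      have hpL : p ∈ L := by
        obtain ⟨x, hx, hpx⟩ := hp.prime.dvd_prod_iff.1 (hp.dvd_of_dvd_pow (hpN.trans hL.2))
        rwa [(Nat.prime_dvd_prime_iff_eq hp (hL.1 x hx)).1 hpx]
      rcases hall p hpL with h | h | h
      · exact absurd h hodd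
      · refine absurd ⟨(hp.pow_dvd_iff_le_factorization hN.ne').2 (by omega), ?_⟩ h
        rw [hp.pow_dvd_iff_le_factorization hN.ne']
        omega
      · exact h.trans_le (Nat.pow_le_pow_right two_pos
          ((Nat.prime_two.pow_dvd_iff_le_factorization hN.ne').1 ha))
    rcases hS with ⟨-, hc⟩ | ⟨-, hc⟩ | ⟨-, hc⟩ | ⟨-, hc⟩ | ⟨-, hc⟩ | ⟨-, hc⟩ | ⟨-, hc⟩ | ⟨-, hc⟩ | ⟨-, hc⟩ | ⟨-, hc⟩ | ⟨-, hc⟩ | ⟨-, hc⟩ | ⟨-, hc⟩ | ⟨-, hc⟩ | ⟨-, hc⟩ | ⟨-, hc⟩ | ⟨-, hc⟩ | ⟨-, hc⟩ | ⟨-, hc⟩ | ⟨-, hc⟩ | ⟨-, hc⟩ | ⟨-, hc⟩ | ⟨-, hc⟩ | ⟨-, hc⟩ | ⟨-, hc⟩ | ⟨-, hc⟩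
    · exact key 7920 4 [2, 3, 5, 11] (by norm_num) (by norm_num) (by norm_num) (by norm_num) hc
    · exact key 95040 6 [2, 3, 5, 11] (by norm_num) (by norm_num) (by norm_num) (by norm_num) hc
    · exact key 443520 7 [2, 3, 5, 7, 11] (by norm_num) (by norm_num) (by norm_num) (by norm_num) hc
    · exact key 10200960 7 [2, 3, 5, 7, 11, 23] (by norm_num) (by norm_num) (by norm_num) (by norm_num) hc
    · exact key 244823040 10 [2, 3, 5, 7, 11, 23] (by norm_num) (by norm_num) (by norm_num) (by norm_num) hc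
    · exact key 175560 3 [2, 3, 5, 7, 11, 19] (by norm_num) (by norm_num) (by norm_num) (by norm_num) hc
    · exact key 604800 7 [2, 3, 5, 7] (by norm_num) (by norm_num) (by norm_num) (by norm_num) hc
    · exact key 50232960 7 [2, 3, 5, 17, 19] (by norm_num) (by norm_num) (by norm_num) (by norm_num) hc
    · exact key 86775571046077562880 21 [2, 3, 5, 7, 11, 23, 29, 31, 37, 43] (by norm_num) (by norm_num) (by norm_num) (by norm_num) hc
    · exact key 4157776806543360000 21 [2, 3, 5, 7, 11, 13, 23] (by norm_num) (by norm_num) (by norm_num) (by norm_num) hc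
    · exact key 42305421312000 18 [2, 3, 5, 7, 11, 23] (by norm_num) (by norm_num) (by norm_num) (by norm_num) hc
    · exact key 495766656000 10 [2, 3, 5, 7, 11, 23] (by norm_num) (by norm_num) (by norm_num) (by norm_num) hc
    · exact key 64561751654400 17 [2, 3, 5, 7, 11, 13] (by norm_num) (by norm_num) (by norm_num) (by norm_num) hc
    · exact key 4089470473293004800 18 [2, 3, 5, 7, 11, 13, 17, 23] (by norm_num) (by norm_num) (by norm_num) (by norm_num) hc
    · exact key 1255205709190661721292800 21 [2, 3, 5, 7, 11, 13, 17, 23, 29] (by norm_num) (by norm_num) (by norm_num) (by norm_num) hc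
    · exact key 44352000 9 [2, 3, 5, 7, 11] (by norm_num) (by norm_num) (by norm_num) (by norm_num) hc
    · exact key 898128000 7 [2, 3, 5, 7, 11] (by norm_num) (by norm_num) (by norm_num) (by norm_num) hc
    · exact key 4030387200 10 [2, 3, 5, 7, 17] (by norm_num) (by norm_num) (by norm_num) (by norm_num) hc
    · exact key 145926144000 14 [2, 3, 5, 7, 13, 29] (by norm_num) (by norm_num) (by norm_num) (by norm_num) hc
    · exact key 448345497600 13 [2, 3, 5, 7, 11, 13] (by norm_num) (by norm_num) (by norm_num) (by norm_num) hc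
    · exact key 460815505920 9 [2, 3, 5, 7, 11, 19, 31] (by norm_num) (by norm_num) (by norm_num) (by norm_num) hc
    · exact key 273030912000000 14 [2, 3, 5, 7, 11, 19] (by norm_num) (by norm_num) (by norm_num) (by norm_num) hc
    · exact key 51765179004000000 8 [2, 3, 5, 7, 11, 31, 37, 67] (by norm_num) (by norm_num) (by norm_num) (by norm_num) hc
    · exact key 90745943887872000 15 [2, 3, 5, 7, 13, 19, 31] (by norm_num) (by norm_num) (by norm_num) (by norm_num) hc
    · exact key 4154781481226426191177580544000000 41 [2, 3, 5, 7, 11, 13, 17, 19, 23, 31, 47] (by norm_num) (by norm_num) (by norm_num) (by norm_num) hc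
    · exact key 808017424794512875886459904961710757005754368000000000 46 [2, 3, 5, 7, 11, 13, 17, 19, 23, 29, 31, 41, 47, 59, 71] (by norm_num) (by norm_num) (by norm_num) (by norm_num) hc

end Cfsg.Agent.S2367
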