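import Cfsg.Statements.S2368
import Mathlib


set_option autoImplicit false
open Cfsg

namespace Cfsg.Agent.S2368

/-- Let F be a finite field of characteristic p and m ≥ 1. Every element of GL(m, F) of p-power order has order less than p·m, and GL(m, F) has an element of p-power order at least m; so the largest order of a p-element of GL(m, F) is the least power of p that is at least m. -/
theorem result {F : Type*} [Field F] [Fintype F] (p : ℕ) [Fact p.Prime] [CharP F p] (m : ℕ) (hm : 1 ≤ m) :
    (∀ g : Matrix.GeneralLinearGroup (Fin m) F, (∃ j : ℕ, orderOf g = p ^ j) → orderOf g < p * m) ∧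
      ∃ g : Matrix.GeneralLinearGroup (Fin m) F, (∃ j : ℕ, orderOf g = p ^ j) ∧ m ≤ orderOf g := by
  have hp : p.Prime := Fact.out
  have hnonempty : Nonempty (Fin m) := ⟨⟨0, hm⟩⟩
  have hchar : CharP (Matrix (Fin m) (Fin m) F) p := inferInstance
  have hk : ∀ (N : Matrix (Fin m) (Fin m) F) (k : ℕ),
      (1 + N) ^ p ^ k = 1 + N ^ p ^ k := by
    intro N k
    rw [add_pow_char_pow_of_commute (R := Matrix (Fin m) (Fin m) F) (p := p)
      (h := Commute.one_left N), one_pow]
  set c := Nat.clog p m with hc
  have hmc : m ≤ p ^ c := Nat.le_pow_clog hp.one_lt m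
  have hlt : p ^ c < p * m := by
    rcases Nat.lt_or_ge m 2 with h | h
    · rw [hc, Nat.clog_of_right_le_one (by omega), pow_zero]
      have := hp.two_le
      nlinarith
    · have hpos : 0 < c := Nat.clog_pos hp.one_lt (by omega)
      have := Nat.pow_pred_clog_lt_self hp.one_lt (by omega : 1 < m)
      rw [← Nat.sub_add_cancel hpos, pow_succ']
      exact Nat.mul_lt_mul_of_pos_left this hp.pos
  constructor
  · rintro g ⟨j, hj⟩
    set N : Matrix (Fin m) (Fin m) F := (g : Matrix (Fin m) (Fin m) F) - 1 with hN
    have hg : (g : Matrix (Fin m) (Fin m) F) = 1 + N := by rw [hN]; abel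
    have hnil : N ^ p ^ j = 0 := by
      have h1 : ((g : Matrix (Fin m) (Fin m) F)) ^ p ^ j = 1 := by
        rw [← Units.val_pow_eq_pow_val, ← hj, pow_orderOf_eq_one, Units.val_one]
      rw [hg, hk] at h1
      exact add_eq_left.1 h1
    have hm0 : N ^ m = 0 := by
      have hd : IsNilpotent (N.charpoly - Polynomial.X ^ Fintype.card (Fin m)) :=
        Matrix.isNilpotent_charpoly_sub_pow_of_isNilpotent ⟨_, hnil⟩
      have hd' := sub_eq_zero.1 hd.eq_zero
      have := Matrix.aeval_self_charpoly N
      rwa [hd', map_pow, Polynomial.aeval_X, Fintype.card_fin] at this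
    have hgc : g ^ p ^ c = 1 := by
      apply Units.ext
      rw [Units.val_pow_eq_pow_val, Units.val_one, hg, hk, pow_eq_zero_of_le hmc hm0, add_zero]
    exact lt_of_le_of_lt (Nat.le_of_dvd (pow_pos hp.pos _) (orderOf_dvd_of_pow_eq_one hgc)) hlt
  · let N : Matrix (Fin m) (Fin m) F := Matrix.of fun i j => if j.val = i.val + 1 then 1 else 0
    have hpow : ∀ l : ℕ, N ^ l = Matrix.of fun i j : Fin m => if j.val = i.val + l then (1 : F) else 0 := by
      intro l
      induction l with
      | zero => ext i j; simp [Matrix.one_apply, Fin.ext_iff, eq_comm]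
      | succ l ih =>
        rw [pow_succ, ih]
        ext i j
        simp only [Matrix.mul_apply, Matrix.of_apply, N]
        by_cases h : j.val = i.val + (l + 1)
        · have hil : i.val + l < m := by have := j.isLt; omega
          rw [if_pos h, Finset.sum_eq_single ⟨i.val + l, hil⟩]
          · rw [if_pos rfl, if_pos (by simp only; omega), one_mul]
          · intro b _ hb
            rw [if_neg (fun e => hb (Fin.ext e)), zero_mul]
          · intro hb; exact absurd (Finset.mem_univ _) hb
        · rw [if_neg h]
          refine Finset.sum_eq_zero fun b _ => ?_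
          split_ifs with h1 h2
          · exact absurd (by omega) h
          · exact mul_zero _
          · exact zero_mul _
          · exact zero_mul _
    have hNc : N ^ p ^ c = 0 := by
      rw [hpow]
      ext i j
      have := j.isLt
      simp only [Matrix.of_apply, Matrix.zero_apply]
      rw [if_neg (by omega)]
    have hone : ((1 : Matrix (Fin m) (Fin m) F) + N) ^ p ^ c = 1 := by rw [hk, hNc, add_zero]
    obtain ⟨u, hu⟩ : IsUnit ((1 : Matrix (Fin m) (Fin m) F) + N) :=
      IsUnit.of_pow_eq_one hone (pow_ne_zero _ hp.ne_zero)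
    have huc : u ^ p ^ c = 1 := Units.ext (by rw [Units.val_pow_eq_pow_val, hu, hone, Units.val_one])
    obtain ⟨i, -, hi⟩ := (Nat.dvd_prime_pow hp).1 (orderOf_dvd_of_pow_eq_one huc)
    refine ⟨u, ⟨i, hi⟩, ?_⟩
    by_contra! h
    rw [hi] at h
    have h1 : ((u : Matrix (Fin m) (Fin m) F)) ^ p ^ i = 1 := by
      rw [← Units.val_pow_eq_pow_val, ← hi, pow_orderOf_eq_one, Units.val_one]
    rw [hu, hk, add_eq_left, hpow] at h1
    have := congrFun (congrFun h1 ⟨0, hm⟩) ⟨p ^ i, h⟩
    simp at this

end Cfsg.Agent.S2368
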