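import Cfsg.Statements.S2370
import Cfsg.Agent.Lib.OutAut.ChevSylow
import Cfsg.Agent.Lib.Twisted.FixedF4
import Cfsg.Agent.Lib.TwistedOrder.Instances

set_option autoImplicit false
open Cfsg

namespace Cfsg.Agent.S2370

open Cfsg.Lie CfsgLib.Chevalley

theorem rangeB : ((List.range chevF4.nroots).all fun u =>
    decide (-22 ≤ htRoot chevF4 auxF4 u ∧ htRoot chevF4 auxF4 u ≤ 22) &&
      decide (chevF4.IsPosRoot u → 2 ≤ htRoot chevF4 auxF4 u)) = true := by
  decide +kernel

/-- Let q = 2^(2m+1) with m ≥ 1. Every element of 2-power order of the large Ree group ²F₄(q) has order at most 32. -/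
theorem result {K : Type*} [Field K] [Fintype K] (m : ℕ) (hm : 1 ≤ m) (hK : Fintype.card K = 2 ^ (2 * m + 1))
    (x : ↥(Cfsg.Lie.twistedF4 K (2 ^ m))) (hx : ∃ j : ℕ, orderOf x = 2 ^ j) : orderOf x ≤ 32 := by
  classical
  haveI : CharP K 2 := CfsgLib.Twisted.charP_f4 hK
  haveI : Nonempty Lie.chevF4.Idx := ⟨Sum.inl ⟨0, by decide⟩⟩
  haveI : CharP (Matrix Lie.chevF4.Idx Lie.chevF4.Idx K) 2 := Matrix.charP 2
  obtain ⟨j, hj⟩ := hx
  have hFull : Full Lie.chevF4 auxF4 := ⟨⟨cert_F4, posF4, by simp⟩, extraF4⟩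
  have hmem : (x : GL Lie.chevF4.Idx K) ∈ Lie.chevF4.group K := by
    have hle : Lie.twistedF4 K (2 ^ m) ≤ Lie.chevF4.group K := by
      rw [Lie.twistedF4, ChevalleyDatum.genSubgroup, Subgroup.closure_le]
      rintro g ⟨w, -, hg⟩
      rw [CfsgLib.Twisted.wordG_eq_of_eq cert_F4 hg]
      exact CfsgLib.Twisted.wordG_mem_group cert_F4 w
    exact hle x.2
  have hpow : (x : GL Lie.chevF4.Idx K) ^ 2 ^ j = 1 := by
    rw [← SubmonoidClass.coe_pow, ← hj, pow_orderOf_eq_one, OneMemClass.coe_one]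
  obtain ⟨y, -, hy⟩ := CfsgLib.OutAut.exists_conj_mem_posUnipotent hFull hmem hpow
  have hw : WeightCoef Lie.chevF4 (htRoot Lie.chevF4 auxF4) :=
    weightCoef_of_graded cert_F4 (graded_ht cert_F4)
  have hbd := rangeB
  rw [List.all_eq_true] at hbd
  have hR : RaiseBy (ht Lie.chevF4 auxF4) 2
      ((y * (x : GL Lie.chevF4.Idx K) * y⁻¹ : GL Lie.chevF4.Idx K) : Matrix _ _ K) := by
    refine raiseBy_rootsU_weight cert_F4 hw (fun r hr => hr.1) (by norm_num) (fun r hr => ?_)
      (posUnipotent_eq (D := Lie.chevF4) (F := K) ▸ hy)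
    have h1 := hbd r (List.mem_range.2 hr.1)
    simp only [Bool.and_eq_true, decide_eq_true_eq] at h1
    exact h1.2 hr
  set u : GL Lie.chevF4.Idx K := y * (x : GL Lie.chevF4.Idx K) * y⁻¹ with hu
  have hlim : ∀ a : Lie.chevF4.Idx, -22 ≤ ht Lie.chevF4 auxF4 a ∧ ht Lie.chevF4 auxF4 a ≤ 22 := by
    intro a
    rcases a with i | s
    · exact ⟨by simp [ht, wt], by simp [ht, wt]⟩
    · have h1 := hbd (s : ℕ) (List.mem_range.2 s.isLt)
      simp only [Bool.and_eq_true, decide_eq_true_eq] at h1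
      exact h1.1
  have key : ∀ (k : ℕ) (a b : Lie.chevF4.Idx), (((u : Matrix Lie.chevF4.Idx Lie.chevF4.Idx K) - 1) ^ k) a b ≠ 0 →
      ht Lie.chevF4 auxF4 b + 2 * k ≤ ht Lie.chevF4 auxF4 a := by
    intro k
    induction k with
    | zero =>
      intro a b h
      rw [pow_zero, Matrix.one_apply] at h
      by_cases hab : a = b
      · simp [hab]
      · simp [hab] at h
    | succ k ih =>
      intro a b h
      rw [pow_succ', Matrix.mul_apply] at h
      obtain ⟨c, -, hc⟩ := Finset.exists_ne_zero_of_sum_ne_zero h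
      have h1 := hR a c (left_ne_zero_of_mul hc)
      have h2 := ih c b (right_ne_zero_of_mul hc)
      push_cast
      omega
  have h32 : ((u : Matrix Lie.chevF4.Idx Lie.chevF4.Idx K) - 1) ^ (2 ^ 5) = 0 := by
    ext a b
    by_contra h
    have := key _ a b h
    have := hlim a
    have := hlim b
    omega
  have hu1 : u ^ (2 ^ 5) = 1 := by
    refine Units.ext ?_
    rw [Units.val_pow_eq_pow_val, Units.val_one]
    rwa [sub_pow_char_pow_of_commute (p := 2) (n := 5) (h := Commute.one_right _), one_pow, sub_eq_zero] at h32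
  have hx1 : x ^ (2 ^ 5) = 1 := by
    refine Subtype.ext ?_
    rw [hu, conj_pow, conj_eq_one_iff] at hu1
    simpa using hu1
  exact orderOf_le_of_pow_eq_one (by norm_num) hx1

end Cfsg.Agent.S2370
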