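import Cfsg.Statements.S2378
import Cfsg.Agent.Lib.Chevalley.Homocyclic.Main

set_option autoImplicit false
open Cfsg CfsgLib.Chevalley CfsgLib.Chevalley.Homocyclic

namespace Cfsg.Agent.S2378

/-- Sylow subgroups for primes away from the characteristic and the Weyl group. Let `G` be the Chevalley group of type G₂, B₂, D₄, F₄, E₆, E₇ or E₈ over a field with `q` elements, with the degrees of its Weyl group listed beside the type (their product is the order of the Weyl group), and let `r` be a prime dividing the order of `G`, not dividing `q` and not dividing the order of the Weyl group. Let `d` be the multiplicative order of `q` modulo `r`, `a` the number of degrees divisible by `d`, and `m` the `r`-part of the value at `q` of the `d`-th cyclotomic polynomial. Then every Sylow `r`-subgroup of `G` is homocyclic: a direct product of `a` cyclic groups of order `m` (in particular abelian). -/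
theorem result {F : Type*} [Field F] [Fintype F] {q : ℕ} (hq : Fintype.card F = q)
    (c : Cfsg.Lie.ChevalleyDatum × List ℕ)
    (hc : c ∈ [(Cfsg.Lie.chevG2, [2, 6]), (Cfsg.Lie.chevB2, [2, 4]), (Cfsg.Lie.chevD4, [2, 4, 4, 6]), (Cfsg.Lie.chevF4, [2, 6, 8, 12]),
      (Cfsg.Lie.chevE6, [2, 5, 6, 8, 9, 12]), (Cfsg.Lie.chevE7, [2, 6, 8, 10, 12, 14, 18]), (Cfsg.Lie.chevE8, [2, 8, 12, 14, 18, 20, 24, 30])])
    (r : ℕ) [Fact r.Prime] (hrq : ¬ r ∣ q) (hrW : ¬ r ∣ c.2.prod) (hrG : r ∣ Nat.card ↥(c.1.group F)) (P : Sylow r ↥(c.1.group F)) :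
    Nonempty (↥(P : Subgroup ↥(c.1.group F)) ≃*
      (Fin (c.2.filter (fun e => orderOf (q : ZMod r) ∣ e)).length →
        Multiplicative (ZMod (r ^ padicValNat r ((Polynomial.cyclotomic (orderOf (q : ZMod r)) ℤ).eval (q : ℤ)).natAbs)))) := by
  simp only [List.mem_cons, List.not_mem_nil, or_false] at hc
  rcases hc with rfl | rfl | rfl | rfl | rfl | rfl | rfl
  · exact of_bound fullG2 rfl (by simp) wCardG2 boundG2 hq hrq hrW (fun K => dataG2) dataG2 P
  · exact of_bound fullB2 rfl (by simp) wCardB2 boundB2 hq hrq hrW (fun K => dataB2 hrW) (dataB2 hrW) P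
  · exact of_bound fullD4 rfl (by simp) wCardD4 boundD4 hq hrq hrW (fun K => dataD4 hrW) (dataD4 hrW) P
  · exact of_bound fullF4 rfl (by simp) wCardF4 boundF4 hq hrq hrW (fun K => dataF4) dataF4 P
  · exact of_bound fullE6 rfl (by simp) wCardE6 boundE6 hq hrq hrW (fun K => dataE6 hrW) (dataE6 hrW) P
  · exact of_bound fullE7 rfl (by simp) wCardE7 boundE7 hq hrq hrW (fun K => dataE7 hrW) (dataE7 hrW) P
  · exact of_bound fullE8 rfl (by simp) wCardE8 boundE8 hq hrq hrW (fun K => dataE8) dataE8 P

end Cfsg.Agent.S2378
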