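import Cfsg.Statements.S2379
import Cfsg.Agent.Lib.KnownSimple.HomocyclicSylow
-- import your own Cfsg.Agent.* helpers here

set_option autoImplicit false
open Cfsg

namespace Cfsg.Agent.S2379

/-- Sylow subgroups of `SL_n(q)` for large primes. Let `F` be a field with `q` elements and `r` a prime with `r > n` and `r ∤ q` (so `r` does not divide the order `n!` of the Weyl group). Let `d` be the multiplicative order of `q` modulo `r`, `a` the number of integers `i` with `2 ≤ i ≤ n` divisible by `d` (the degrees of the Weyl group are `2, …, n`), and `m` the `r`-part of the value at `q` of the `d`-th cyclotomic polynomial. Then every Sylow `r`-subgroup of `SL_n(q)` is a direct product of `a` cyclic groups of order `m`. -/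
theorem result {F : Type*} [Field F] [Fintype F] {q : ℕ} (hq : Fintype.card F = q) (n : ℕ)
    (r : ℕ) [Fact r.Prime] (hrn : n < r) (hrq : ¬ r ∣ q) (P : Sylow r (Matrix.SpecialLinearGroup (Fin n) F)) :
    Nonempty (↥(P : Subgroup (Matrix.SpecialLinearGroup (Fin n) F)) ≃*
      (Fin ((Finset.Icc 2 n).filter (fun i => orderOf (q : ZMod r) ∣ i)).card →
        Multiplicative (ZMod (r ^ padicValNat r ((Polynomial.cyclotomic (orderOf (q : ZMod r)) ℤ).eval (q : ℤ)).natAbs)))) := by
  classical
  have hq2 : 2 ≤ q := hq ▸ Fintype.one_lt_card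
  have hr := (Fact.out : r.Prime)
  set e := orderOf (q : ZMod r) with he
  rcases Nat.eq_zero_or_pos n with rfl | hn
  · have : IsEmpty (Fin ((Finset.Icc 2 0).filter (fun i => e ∣ i)).card) := by
      rw [Finset.Icc_eq_empty (by omega), Finset.filter_empty, Finset.card_empty]; infer_instance
    have : Subsingleton (Matrix.SpecialLinearGroup (Fin 0) F) :=
      ⟨fun a b => Subtype.ext (Subsingleton.elim _ _)⟩
    let _ := uniqueOfSubsingleton (1 : (P : Subgroup (Matrix.SpecialLinearGroup (Fin 0) F)))
    exact ⟨MulEquiv.ofUnique⟩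
  have : Nonempty (Fin n) := ⟨⟨0, hn⟩⟩
  have hval : (Nat.card (Matrix.SpecialLinearGroup (Fin n) F)).factorization r + (q - 1).factorization r =
      n / e * CfsgLib.KnownSimple.HomocyclicSylow.cycExp q r := by
    rw [← CfsgLib.KnownSimple.HomocyclicSylow.valuation_GL hq hrn hrq,
      CfsgLib.ClassicalLinear.card_GL_eq_card_SL_mul, Nat.factorization_mul Nat.card_pos.ne'
      Nat.card_pos.ne', Finsupp.add_apply, Nat.card_units, Nat.card_eq_fintype_card (α := F), hq]
  have hv1 := CfsgLib.KnownSimple.HomocyclicSylow.valuation_pow (r := r) (i := 1) hq2 hrq one_pos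
    hr.not_dvd_one
  rw [pow_one, ← he] at hv1
  by_cases h1 : e = 1
  · obtain ⟨m, rfl⟩ : ∃ m, n = m + 1 := ⟨n - 1, by omega⟩
    have hc : ((Finset.Icc 2 (m + 1)).filter (fun i => e ∣ i)).card = m := by
      rw [h1, Finset.filter_true_of_mem (fun i _ => one_dvd i), Nat.card_Icc]; omega
    rw [hc]
    obtain ⟨Φ, hΦ⟩ := CfsgLib.KnownSimple.HomocyclicSylow.exists_torus_one (F := F) (n := m) hq h1
    refine CfsgLib.KnownSimple.HomocyclicSylow.sylow_equiv Φ hΦ ?_ P
    rw [CfsgLib.KnownSimple.HomocyclicSylow.card_model]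
    congr 1
    rw [if_pos (by rw [h1])] at hv1
    rw [hv1, h1, Nat.div_one, add_one_mul] at hval
    omega
  · have hne : ¬ e ∣ 1 := fun h => h1 (Nat.dvd_one.1 h)
    rw [if_neg hne] at hv1
    have hc : ((Finset.Icc 2 n).filter (fun i => e ∣ i)).card = n / e := by
      rw [← Nat.Ioc_filter_dvd_card_eq_div]
      congr 1
      ext i
      simp only [Finset.mem_filter, Finset.mem_Icc, Finset.mem_Ioc]
      constructor
      · rintro ⟨h, h'⟩; exact ⟨by omega, h'⟩
      · rintro ⟨h, h'⟩
        refine ⟨⟨?_, h.2⟩, h'⟩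
        rcases Nat.lt_or_ge i 2 with hi | hi
        · obtain rfl : i = 1 := by omega
          exact absurd h' hne
        · exact hi
    rw [hc]
    obtain ⟨Φ, hΦ⟩ := CfsgLib.KnownSimple.HomocyclicSylow.exists_torus (n := n)
      (m := n / e) hq hrq (Nat.mul_div_le _ _)
    -- an `r`-group has trivial determinant
    have hdet : ∀ f, ((Φ f : GL (Fin n) F) : Matrix (Fin n) (Fin n) F).det = 1 := by
      intro f
      set u := Matrix.GeneralLinearGroup.det (Φ f) with hu
      have hpow : u ^ r ^ (n / e * CfsgLib.KnownSimple.HomocyclicSylow.cycExp q r) = 1 := by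
        rw [← CfsgLib.KnownSimple.HomocyclicSylow.card_model (r := r) (n / e), hu, ← map_pow,
          ← map_pow, pow_card_eq_one', map_one, map_one]
      have hd : orderOf u = 1 := by
        have hu1 : orderOf u ∣ q - 1 := by
          have := orderOf_dvd_natCard u
          rwa [Nat.card_units, Nat.card_eq_fintype_card (α := F), hq] at this
        obtain ⟨k, -, hk⟩ := (Nat.dvd_prime_pow hr).1 (orderOf_dvd_of_pow_eq_one hpow)
        rcases k with _ | k
        · rw [hk, pow_zero]
        · exfalso
          have hd : r ∣ q - 1 := (dvd_pow_self r (Nat.succ_ne_zero k)).trans (hk ▸ hu1)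
          have := (CfsgLib.KnownSimple.HomocyclicSylow.cast_pow_sub_one_eq_zero_iff (r := r)
            (show 1 ≤ q by omega) 1).1 (by rw [pow_one]; exact hd)
          exact hne this
      exact congrArg Units.val (orderOf_eq_one_iff.1 hd)
    let Ψ : (Fin (n / e) → Multiplicative (ZMod (r ^ CfsgLib.KnownSimple.HomocyclicSylow.cycExp q r)))
        →* Matrix.SpecialLinearGroup (Fin n) F :=
      MonoidHom.mk' (fun f => ⟨(Φ f).1, hdet f⟩) (fun f g => Subtype.ext (by
        show (Φ (f * g)).1 = (Φ f).1 * (Φ g).1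
        rw [map_mul]; rfl))
    refine CfsgLib.KnownSimple.HomocyclicSylow.sylow_equiv Ψ
      (fun f g h => hΦ (Units.ext (congrArg Subtype.val h :))) ?_ P
    rw [CfsgLib.KnownSimple.HomocyclicSylow.card_model]
    congr 1
    rw [hv1, add_zero] at hval
    rw [hval]

end Cfsg.Agent.S2379
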