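import Cfsg.Statements.S2381
import Cfsg.Agent.Lib.KnownSimple.SympTorus
-- import your own Cfsg.Agent.* helpers here

set_option autoImplicit false
open Cfsg

namespace Cfsg.Agent.S2381

/-- Sylow subgroups of `Sp_{2n}(q)` for large primes. Let `F` be a field with `q` elements and `r` an odd prime with `r > n` and `r ∤ q` (so `r` does not divide the order `2^n n!` of the Weyl group). Let `d` be the multiplicative order of `q` modulo `r`, `a` the number of `i` with `1 ≤ i ≤ n` and `d ∣ 2i` (the degrees being `2, 4, …, 2n`), and `m` the `r`-part of the value at `q` of the `d`-th cyclotomic polynomial. Then every Sylow `r`-subgroup of the symplectic group `Sp_{2n}(q)` is a direct product of `a` cyclic groups of order `m`. -/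
theorem result {F : Type*} [Field F] [Fintype F] {q : ℕ} (hq : Fintype.card F = q) (n : ℕ)
    (r : ℕ) [Fact r.Prime] (hr2 : r ≠ 2) (hrn : n < r) (hrq : ¬ r ∣ q) (P : Sylow r ↥(Matrix.symplecticGroup (Fin n) F)) :
    Nonempty (↥(P : Subgroup ↥(Matrix.symplecticGroup (Fin n) F)) ≃*
      (Fin ((Finset.Icc 1 n).filter (fun i => orderOf (q : ZMod r) ∣ 2 * i)).card →
        Multiplicative (ZMod (r ^ padicValNat r ((Polynomial.cyclotomic (orderOf (q : ZMod r)) ℤ).eval (q : ℤ)).natAbs)))) := by
  classical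
  set e := orderOf (q : ZMod r) with he
  have hval := CfsgLib.KnownSimple.SympTorus.valuation_sp (F := F) hq hr2 hrn hrq
  rcases Nat.even_or_odd e with ⟨f, hf⟩ | ho
  · have hf2 : e = 2 * f := by omega
    have hc : ((Finset.Icc 1 n).filter (fun i => e ∣ 2 * i)).card = n / f := by
      rw [← Nat.Ioc_filter_dvd_card_eq_div]
      congr 1
      ext i
      simp only [Finset.mem_filter, Finset.mem_Icc, Finset.mem_Ioc, hf2,
        Nat.mul_dvd_mul_iff_left two_pos]
      omega
    obtain ⟨Φ, hΦ⟩ := CfsgLib.KnownSimple.SympTorus.exists_torus_even (F := F) (n := n)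
      (m := n / f) (f := f) hq hrq hf2 (Nat.mul_div_le _ _)
    rw [hc]
    refine CfsgLib.KnownSimple.HomocyclicSylow.sylow_equiv Φ hΦ ?_ P
    rw [CfsgLib.KnownSimple.HomocyclicSylow.card_model, hval, hc]
  · have hc : ((Finset.Icc 1 n).filter (fun i => e ∣ 2 * i)).card = n / e := by
      rw [← Nat.Ioc_filter_dvd_card_eq_div]
      congr 1
      ext i
      simp only [Finset.mem_filter, Finset.mem_Icc, Finset.mem_Ioc]
      rw [Nat.Coprime.dvd_mul_left (Nat.coprime_two_right.2 ho)]
      omega
    obtain ⟨Φ, hΦ⟩ := CfsgLib.KnownSimple.HomocyclicSylow.exists_torus (F := F) (n := n)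
      (m := n / e) hq hrq (Nat.mul_div_le _ _)
    obtain ⟨Λ, hΛ⟩ := CfsgLib.KnownSimple.SympTorus.exists_levi (F := F) n
    rw [hc]
    refine CfsgLib.KnownSimple.HomocyclicSylow.sylow_equiv (Λ.comp Φ) (hΛ.comp hΦ) ?_ P
    rw [CfsgLib.KnownSimple.HomocyclicSylow.card_model, hval, hc]

end Cfsg.Agent.S2381
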