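import Cfsg.Statements.S2383
import Cfsg.Agent.Lib.ClassK.ChevalleyClassCount
import Cfsg.Agent.Lib.Chevalley.ExtraData

set_option autoImplicit false
open Cfsg CfsgLib.Chevalley CfsgLib.ClassK CfsgLib.ClassK.Weights

namespace Cfsg.Agent.S2383

/-- Steinberg's count of semisimple classes in characteristic 2 for the types B₂, D₄, E₇, where the finite simply connected group has trivial centre and so coincides with the Chevalley group: for the Chevalley group of type B₂, D₄ or E₇ over a field with `q` elements of characteristic 2, the conjugacy classes of elements of odd order number exactly `q^l`, `l` the rank. -/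
theorem result {F : Type*} [Field F] [Fintype F] {q : ℕ} (hq : Fintype.card F = q) [CharP F 2]
    (D : Cfsg.Lie.ChevalleyDatum) (hD : D ∈ [Cfsg.Lie.chevB2, Cfsg.Lie.chevD4, Cfsg.Lie.chevE7]) :
    Nat.card {c : ConjClasses ↥(D.group F) // ∃ g : ↥(D.group F), ConjClasses.mk g = c ∧ Odd (orderOf g)} = q ^ D.rank := by
  subst hq
  haveI : Fact (Nat.Prime 2) := ⟨Nat.prime_two⟩
  obtain ⟨A, h⟩ := exists_full (D := D) (by
    simp only [List.mem_cons, List.not_mem_nil, or_false] at hD ⊢; tauto)
  have hg := gcd_two_eq_one (F := F) 2 rfl
  have hinj : Function.Injective (ChevCell.tHom h F) := by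
    refine tHom_injective h ?_
    simp only [List.mem_cons, List.not_mem_nil, or_false] at hD
    rcases hD with rfl | rfl | rfl
    · have := card_diagonalB2 (F := F); rwa [hg, one_mul] at this
    · have := card_diagonalD4 (F := F); rwa [hg, one_mul, one_mul] at this
    · have := card_diagonalE7 (F := F); rwa [hg, one_mul] at this
  rw [← card_pRegular_classes (p := 2) h hinj]
  refine Nat.card_congr (Equiv.subtypeEquivRight fun c => exists_congr fun g => and_congr_right' ?_)
  exact Nat.coprime_two_right.symm

end Cfsg.Agent.S2383
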