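import Cfsg.Statements.S2391


set_option autoImplicit false
open Cfsg

namespace Cfsg.Agent.S2391

variable {F : Type*} [Field F] {n : ℕ}

local notation "SLn" => Matrix.SpecialLinearGroup (Fin n) F

/-- The preimage of the fixed points of `U` on the quotient by `W`. -/
def fixModulo (U : Subgroup SLn) (W : Submodule F (Fin n → F)) : Submodule F (Fin n → F) where
  carrier := {v | ∀ u ∈ U, (u : Matrix (Fin n) (Fin n) F).mulVec v - v ∈ W}
  add_mem' {a b} ha hb := fun u hu => by
    rw [Matrix.mulVec_add, add_sub_add_comm]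
    exact add_mem (ha u hu) (hb u hu)
  zero_mem' := fun u _ => by simp
  smul_mem' c a ha := fun u hu => by
    rw [Matrix.mulVec_smul, ← smul_sub]
    exact W.smul_mem c (ha u hu)

lemma le_fixModulo {U : Subgroup SLn} {W : Submodule F (Fin n → F)}
    (hW : ∀ u ∈ U, ∀ v ∈ W, (u : Matrix (Fin n) (Fin n) F).mulVec v ∈ W) : W ≤ fixModulo U W :=
  fun v hv u hu => sub_mem (hW u hu v hv) hv

lemma fixModulo_invariant {U : Subgroup SLn} {W : Submodule F (Fin n → F)}
    (hW : ∀ g ∈ Subgroup.normalizer (U : Set SLn), ∀ v ∈ W,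
      (g : Matrix (Fin n) (Fin n) F).mulVec v ∈ W)
    {g : SLn} (hg : g ∈ Subgroup.normalizer (U : Set SLn)) {v : Fin n → F}
    (hv : v ∈ fixModulo U W) : (g : Matrix (Fin n) (Fin n) F).mulVec v ∈ fixModulo U W := by
  intro u hu
  have hu' : g⁻¹ * u * g ∈ U := by
    have := (Subgroup.mem_normalizer_iff.1 (inv_mem hg) u).1 hu
    simpa using this
  have h := hW g hg _ (hv _ hu')
  rwa [Matrix.mulVec_sub, Matrix.mulVec_mulVec, ← Matrix.SpecialLinearGroup.coe_mul,
    show g * (g⁻¹ * u * g) = u * g by group, Matrix.SpecialLinearGroup.coe_mul,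
    ← Matrix.mulVec_mulVec] at h

lemma exists_fixModulo_notMem [Fintype F] (p : ℕ) [Fact p.Prime] [CharP F p] {U : Subgroup SLn}
    (hU : IsPGroup p U) {W : Submodule F (Fin n → F)}
    (hW : ∀ u ∈ U, ∀ v ∈ W, (u : Matrix (Fin n) (Fin n) F).mulVec v ∈ W) (hne : W ≠ ⊤) :
    ∃ v ∈ fixModulo U W, v ∉ W := by
  classical
  let act : U → ((Fin n → F) ⧸ W) →ₗ[F] ((Fin n → F) ⧸ W) := fun u =>
    W.mapQ W (Matrix.mulVecLin ((u : SLn) : Matrix (Fin n) (Fin n) F)) (fun v hv => hW u u.2 v hv)
  let : MulAction U ((Fin n → F) ⧸ W) :=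
    { smul := fun u x => act u x
      one_smul := fun x => by
        induction x using Submodule.Quotient.induction_on with
        | H v => show act 1 (Submodule.Quotient.mk v) = _; simp [act]
      mul_smul := fun a b x => by
        induction x using Submodule.Quotient.induction_on with
        | H v =>
          show act (a * b) (Submodule.Quotient.mk v) = act a (act b (Submodule.Quotient.mk v))
          show Submodule.Quotient.mk ((((a : SLn) * (b : SLn) : SLn) : Matrix (Fin n) (Fin n) F).mulVec v) = _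
          rw [Matrix.SpecialLinearGroup.coe_mul, ← Matrix.mulVec_mulVec]
          rfl }
  have : Nontrivial ((Fin n → F) ⧸ W) := Submodule.Quotient.nontrivial_iff.2 hne
  have hdvd : p ∣ Nat.card ((Fin n → F) ⧸ W) := by
    rw [Module.natCard_eq_pow_finrank (K := F)]
    refine dvd_pow ?_ (Module.finrank_pos).ne'
    rw [← CharP.cast_eq_zero_iff F p, Nat.card_eq_fintype_card, Nat.cast_card_eq_zero]
  have h0 : (0 : (Fin n → F) ⧸ W) ∈ MulAction.fixedPoints U ((Fin n → F) ⧸ W) := fun u =>
    map_zero (act u)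
  obtain ⟨x, hx, hx0⟩ :=
    hU.exists_fixed_point_of_prime_dvd_card_of_fixed_point ((Fin n → F) ⧸ W) hdvd h0
  obtain ⟨v, rfl⟩ := Submodule.Quotient.mk_surjective W x
  refine ⟨v, fun u hu => ?_, fun hv => hx0 ((Submodule.Quotient.mk_eq_zero W).2 hv).symm⟩
  have := hx ⟨u, hu⟩
  exact (Submodule.Quotient.eq W).1 this

/-- The Borel–Tits property of `SL_n(q)` in flag form: for a field `F` of characteristic `p` with finitely many elements and a non-trivial `p`-subgroup `U` of `SL_n(F)`, there is a flag `0 = V₀ < V₁ < ⋯ < V_{k+1} = F^n` with at least one proper non-zero member such that every element of the normaliser of `U` maps each `V_i` onto itself and every element of `U` acts trivially on each quotient `V_{i+1}/V_i` (so the normaliser lies in the parabolic subgroup of the flag and `U` in its unipotent radical). -/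
theorem result {F : Type*} [Field F] [Fintype F] (p : ℕ) [Fact p.Prime] [CharP F p] (n : ℕ)
    (U : Subgroup (Matrix.SpecialLinearGroup (Fin n) F)) (hU : IsPGroup p ↥U) (hne : U ≠ ⊥) :
    ∃ (k : ℕ) (V : Fin (k + 2) → Submodule F (Fin n → F)), 1 ≤ k ∧ StrictMono V ∧ V 0 = ⊥ ∧ V (Fin.last (k + 1)) = ⊤ ∧
      (∀ g ∈ Subgroup.normalizer (U : Set (Matrix.SpecialLinearGroup (Fin n) F)), ∀ i, (V i).map (Matrix.mulVecLin (g : Matrix (Fin n) (Fin n) F)) = V i) ∧
      (∀ u ∈ U, ∀ i : Fin (k + 1), ∀ v ∈ V i.succ, (u : Matrix (Fin n) (Fin n) F).mulVec v - v ∈ V (Fin.castSucc i)) := by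
  classical
  let V : ℕ → Submodule F (Fin n → F) := fun i => (fixModulo U)^[i] ⊥
  have hV : ∀ i, V (i + 1) = fixModulo U (V i) := fun i => Function.iterate_succ_apply' _ _ _
  have hinv : ∀ i, ∀ g ∈ Subgroup.normalizer (U : Set (Matrix.SpecialLinearGroup (Fin n) F)),
      ∀ v ∈ V i, (g : Matrix (Fin n) (Fin n) F).mulVec v ∈ V i := by
    intro i
    induction i with
    | zero =>
      intro g _ v hv
      have : v = 0 := by simpa [V] using hv
      simp [this]
    | succ i ih =>
      intro g hg v hv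
      rw [hV] at hv ⊢
      exact fixModulo_invariant ih hg hv
  have hUinv : ∀ i, ∀ u ∈ U, ∀ v ∈ V i, (u : Matrix (Fin n) (Fin n) F).mulVec v ∈ V i :=
    fun i u hu => hinv i u (Subgroup.le_normalizer hu)
  have hgrow : ∀ i, V i ≠ ⊤ → V i < V (i + 1) := by
    intro i hi
    rw [hV]
    obtain ⟨v, hv, hv'⟩ := exists_fixModulo_notMem p hU (hUinv i) hi
    exact lt_of_le_of_ne (le_fixModulo (hUinv i)) fun e => hv' (e ▸ hv)
  have hex : ∃ i, V i = ⊤ := by
    by_contra! h
    exact not_injective_infinite_finite V (strictMono_nat_of_lt_succ fun i => hgrow i (h i)).injective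
  obtain ⟨u, hu, hu1⟩ := U.bot_or_exists_ne_one.resolve_left hne
  have h1 : V 1 ≠ ⊤ := by
    intro h
    apply hu1
    have key : ∀ v, (u : Matrix (Fin n) (Fin n) F).mulVec v = v := fun v => by
      have hv : v ∈ V 1 := h ▸ Submodule.mem_top
      exact sub_eq_zero.1 (by simpa [V] using hv u hu)
    apply Subtype.ext
    exact Matrix.ext_of_mulVec_single fun i => by
      rw [key]; ext j; simp [Pi.single_apply, Matrix.one_apply]
  have h0 : V 0 ≠ ⊤ := fun h => h1 (eq_top_iff.2 (h ▸ le_fixModulo (hUinv 0)))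
  set k := Nat.find hex with hk
  have hk2 : 2 ≤ k := by
    by_contra hlt
    rcases (by omega : k = 0 ∨ k = 1) with e | e
    · exact h0 (e ▸ Nat.find_spec hex)
    · exact h1 (e ▸ Nat.find_spec hex)
  refine ⟨k - 1, fun i => V i.val, by omega, ?_, rfl, ?_, fun g hg i => ?_, fun u hu i v hv => ?_⟩
  · refine Fin.strictMono_iff_lt_succ.2 fun i => ?_
    simp only [Fin.val_castSucc, Fin.val_succ]
    exact hgrow _ (Nat.find_min hex (by omega))
  · show V (Fin.last (k - 1 + 1)).val = ⊤
    rw [Fin.val_last, show k - 1 + 1 = k by omega]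
    exact Nat.find_spec hex
  · refine le_antisymm ?_ fun v hv => ?_
    · rintro _ ⟨v, hv, rfl⟩
      exact hinv _ g hg v hv
    · refine ⟨((g⁻¹ : Matrix.SpecialLinearGroup (Fin n) F) : Matrix (Fin n) (Fin n) F).mulVec v,
        hinv _ _ (inv_mem hg) v hv, ?_⟩
      rw [Matrix.mulVecLin_apply, Matrix.mulVec_mulVec, ← Matrix.SpecialLinearGroup.coe_mul,
        mul_inv_cancel, Matrix.SpecialLinearGroup.coe_one, Matrix.one_mulVec]
  · simp only [Fin.val_succ, hV] at hv
    exact hv u hu

end Cfsg.Agent.S2391
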