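import Cfsg.Statements.S2392
import Cfsg.Agent.Lib.KnownSimple.OrbitBound
-- import your own Cfsg.Agent.* helpers here

set_option autoImplicit false
open scoped MatrixGroups
open Cfsg

namespace Cfsg.Agent.S2392

open Matrix CfsgLib.KnownSimple in
/-- One transvection fixing the first basis vector. -/
lemma exists_step {F : Type*} [Field F] {m : ℕ} (x y f : Fin m → F) (hx : f ⬝ᵥ x = 1)
    (hy : f ⬝ᵥ y = 1) : ∃ g : Matrix.SpecialLinearGroup (Fin (m + 1)) F,
      (g : Matrix (Fin (m + 1)) (Fin (m + 1)) F) *ᵥ Pi.single 0 1 = Pi.single 0 1 ∧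
      (g : Matrix (Fin (m + 1)) (Fin (m + 1)) F) *ᵥ vecCons 0 x = vecCons 0 y := by
  have hd : (1 + vecMulVec (vecCons 0 (y - x)) (vecCons 0 f)).det = 1 := by
    rw [vecMulVec_eq Unit, det_one_add_replicateCol_mul_replicateRow, cons_dotProduct_cons,
      dotProduct_sub, hx, hy]
    simp
  refine ⟨⟨_, hd⟩, ?_, ?_⟩
  · show (1 + vecMulVec (vecCons 0 (y - x)) (vecCons 0 f)) *ᵥ Pi.single 0 1 = _
    rw [add_mulVec, one_mulVec, vecMulVec_mulVec, dotProduct_single]
    simp
  · show (1 + vecMulVec (vecCons 0 (y - x)) (vecCons 0 f)) *ᵥ vecCons 0 x = _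
    rw [add_mulVec, one_mulVec, vecMulVec_mulVec, cons_dotProduct_cons, hx]
    simp

open Matrix in
/-- The stabiliser of the first basis vector is transitive on nonzero vectors orthogonal to it. -/
lemma exists_move {F : Type*} [Field F] {m : ℕ} (hm : 2 ≤ m) (x y : Fin m → F) (hx : x ≠ 0)
    (hy : y ≠ 0) : ∃ g : Matrix.SpecialLinearGroup (Fin (m + 1)) F,
      (g : Matrix (Fin (m + 1)) (Fin (m + 1)) F) *ᵥ Pi.single 0 1 = Pi.single 0 1 ∧
      (g : Matrix (Fin (m + 1)) (Fin (m + 1)) F) *ᵥ vecCons 0 x = vecCons 0 y := by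
  let R : (Fin m → F) → (Fin m → F) → Prop := fun a b =>
    ∃ g : Matrix.SpecialLinearGroup (Fin (m + 1)) F,
      (g : Matrix (Fin (m + 1)) (Fin (m + 1)) F) *ᵥ Pi.single 0 1 = Pi.single 0 1 ∧
      (g : Matrix (Fin (m + 1)) (Fin (m + 1)) F) *ᵥ vecCons 0 a = vecCons 0 b
  have htrans : ∀ a b c, R a b → R b c → R a c := by
    rintro a b c ⟨g, h1, h2⟩ ⟨g', h1', h2'⟩
    exact ⟨g' * g, (mulVec_mulVec _ g'.1 g.1).symm.trans (by rw [h1, h1']),
      (mulVec_mulVec _ g'.1 g.1).symm.trans (by rw [h2, h2'])⟩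
  -- sharing a nonzero coordinate
  have hshare : ∀ a b : Fin m → F, ∀ i, a i = b i → a i ≠ 0 → R a b := by
    intro a b i h h0
    exact exists_step a b (Pi.single i (a i)⁻¹) (by simp [h0]) (by
      rw [h] at h0 ⊢
      simp [h0])
  obtain ⟨i, hi⟩ := Function.ne_iff.1 hx
  obtain ⟨j, hj⟩ := Function.ne_iff.1 hy
  rcases eq_or_ne i j with rfl | hij
  · obtain ⟨k, hk⟩ : ∃ k : Fin m, k ≠ i := by
      have : Nontrivial (Fin m) := Fin.nontrivial_iff_two_le.2 hm
      exact exists_ne i
    let u : Fin m → F := Function.update (Pi.single i (x i)) k 1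
    let u' : Fin m → F := Function.update (Pi.single i (y i)) k 1
    refine htrans _ u _ (hshare _ _ i (by simp [u, hk.symm]) hi) ?_
    refine htrans _ u' _ (hshare _ _ k (by simp [u, u']) (by simp [u])) ?_
    exact hshare _ _ i (by simp [u', hk.symm]) (by simpa [u', hk.symm] using hj)
  · let u : Fin m → F := Function.update (Pi.single i (x i)) j (y j)
    exact htrans _ u _ (hshare _ _ i (by simp [u, hij]) hi)
      (hshare _ _ j (by simp [u]) (by simpa [u] using hj))


/-- A lower bound for representations in cross characteristic: for `n ≥ 3` and a field `F` with `q` elements, every homomorphism from `SL_n(F)` to `GL_d(K)`, `K` a field of characteristic different from that of `F`, whose kernel is central has `d ≥ q^(n-1) - 1`. -/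
theorem result {F : Type*} [Field F] [Fintype F] {q : ℕ} (hq : Fintype.card F = q) (n : ℕ) (hn : 3 ≤ n)
    {K : Type*} [Field K] (hK : ringChar K ≠ ringChar F) {d : ℕ}
    (ρ : Matrix.SpecialLinearGroup (Fin n) F →* GL (Fin d) K) (hker : ρ.ker ≤ Subgroup.center (Matrix.SpecialLinearGroup (Fin n) F)) :
    q ^ (n - 1) - 1 ≤ d := by
  classical
  obtain ⟨m, rfl⟩ : ∃ m, n = m + 1 := ⟨n - 1, by omega⟩
  simp only [Nat.add_sub_cancel]
  have := Fact.mk (CharP.char_is_prime F (ringChar F))
  let P0 := AddChar.FiniteField.primitiveChar F K hK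
  let L := CyclotomicField P0.n K
  let ψ : AddChar F L := P0.char
  have hq0 : ((Fintype.card F : ℕ) : L) ≠ 0 := by
    obtain ⟨k, hp, hk⟩ := FiniteField.card F (ringChar F)
    rw [hk, Nat.cast_pow]
    refine pow_ne_zero _ fun h => hK ?_
    have hKL : ((ringChar F : ℕ) : K) = 0 := (algebraMap K L).injective (by simpa using h)
    exact (hp.eq_one_or_self_of_dvd _ (ringChar.dvd hKL)).resolve_left CharP.ringChar_ne_one
  let c : (Fin m → F) → (Fin (m + 1) → F) := fun a => Matrix.vecCons 0 a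
  let e : Fin (m + 1) → F := Pi.single 0 1
  have hce : ∀ a, c a ⬝ᵥ e = 0 := fun a => by simp [c, e]
  let N : (Fin m → F) → Matrix.SpecialLinearGroup (Fin (m + 1)) F := fun a =>
    ⟨1 + Matrix.vecMulVec e (c a), by
      rw [Matrix.vecMulVec_eq Unit, Matrix.det_one_add_replicateCol_mul_replicateRow, hce, add_zero]⟩
  have hN : ∀ a b, N (a + b) = N a * N b := by
    intro a b
    refine Subtype.ext ?_
    show 1 + Matrix.vecMulVec e (c (a + b)) =
      (1 + Matrix.vecMulVec e (c a)) * (1 + Matrix.vecMulVec e (c b))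
    have : c (a + b) = c a + c b := by simp [c]
    rw [this, Matrix.vecMulVec_add, add_mul, one_mul, mul_add, mul_one,
      Matrix.vecMulVec_mul_vecMulVec, hce, zero_smul, Matrix.vecMulVec_zero]
    abel
  let r : Matrix.SpecialLinearGroup (Fin (m + 1)) F →* Matrix (Fin d) (Fin d) L :=
    ((algebraMap K L).mapMatrix.toMonoidHom.comp (Units.coeHom _)).comp ρ
  let M : (Fin m → F) → Matrix (Fin d) (Fin d) L := fun a => r (N a)
  have hN0 : N 0 = 1 := by
    have := hN 0 0
    rw [add_zero] at this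
    simpa using this
  have h0 : M 0 = 1 := by simp only [M, hN0, map_one]
  have hadd : ∀ a b, M (a + b) = M a * M b := fun a b => by simp only [M, hN, map_mul]
  have hne : M (Pi.single ⟨0, by omega⟩ 1) ≠ 1 := by
    intro h
    have hmem : N (Pi.single ⟨0, by omega⟩ 1) ∈ Subgroup.center _ := hker (by
      rw [MonoidHom.mem_ker]
      refine Units.ext (Matrix.map_injective (algebraMap K L).injective ?_)
      simpa [M, r] using h)
    obtain ⟨s, -, hs⟩ := Matrix.SpecialLinearGroup.mem_center_iff.1 hmem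
    have := congrFun (congrFun hs 0) (Fin.succ ⟨0, by omega⟩)
    simp [N, e, c] at this
  obtain ⟨v, hv, hv1⟩ := CfsgLib.KnownSimple.OrbitBound.exists_proj_ne_zero ψ M P0.prim hq0 h0
    hadd _ hne
  have hv0 : v ≠ 0 := fun h => hv1 (by simp [h])
  have key := CfsgLib.KnownSimple.OrbitBound.card_le_of_proj_ne_zero ψ M P0.prim hq0 hadd
    (Finset.univ.erase 0) ?_
  · simpa [Finset.card_erase_of_mem, Fintype.card_fun, hq] using key
  intro w hw
  obtain ⟨g, hge, hgv⟩ := exists_move (by omega) v w hv0 (Finset.ne_of_mem_erase hw)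
  let gi : Matrix (Fin (m + 1)) (Fin (m + 1)) F := ((g⁻¹ : _) : Matrix _ _ _)
  have hgig : gi * g.1 = 1 := congrArg Subtype.val (inv_mul_cancel g)
  have hgie : gi.mulVec e = e := by
    conv_lhs => rw [show e = g.1.mulVec e from hge.symm]
    rw [Matrix.mulVec_mulVec, hgig, Matrix.one_mulVec]
  have hgiw : gi.mulVec (c w) = c v := by
    rw [show c w = g.1.mulVec (c v) from hgv.symm, Matrix.mulVec_mulVec, hgig, Matrix.one_mulVec]
  let σ : (Fin m → F) → (Fin m → F) := fun a => Matrix.vecTail (Matrix.vecMul (c a) gi)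
  have hcσ : ∀ a, c (σ a) = Matrix.vecMul (c a) gi := by
    intro a
    have h : Matrix.vecHead (Matrix.vecMul (c a) gi) = 0 := by
      have := Matrix.dotProduct_mulVec (c a) gi e
      rw [hgie, hce] at this
      simpa [e, Matrix.vecHead] using this.symm
    conv_rhs => rw [← Matrix.cons_head_tail (Matrix.vecMul (c a) gi), h]
  refine CfsgLib.KnownSimple.OrbitBound.proj_ne_zero_of_conj ψ M σ ?_ (r g) (r g⁻¹)
    (by rw [← map_mul, inv_mul_cancel, map_one]) ?_ ?_ hv
  · intro a b h
    have h2 := congrArg (fun x => Matrix.vecMul x g.1) (congrArg c h)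
    simp only [hcσ, Matrix.vecMul_vecMul, hgig, Matrix.vecMul_one] at h2
    exact (Matrix.vecCons_inj.1 h2).2
  · intro a
    rw [← map_mul, ← map_mul]
    refine congrArg r (Subtype.ext ?_)
    show g.1 * (1 + Matrix.vecMulVec e (c a)) = (1 + Matrix.vecMulVec e (c (σ a))) * g.1
    rw [hcσ, mul_add, add_mul, one_mul, mul_one, Matrix.mul_vecMulVec, Matrix.vecMulVec_mul,
      Matrix.vecMul_vecMul, hgig, Matrix.vecMul_one, show g.1.mulVec e = e from hge]
  · intro a
    have h : c (σ a) ⬝ᵥ c w = c a ⬝ᵥ c v := by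
      rw [hcσ, ← Matrix.dotProduct_mulVec, hgiw]
    simpa [c] using h

end Cfsg.Agent.S2392
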