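import Cfsg.Statements.S2393
import Cfsg.Agent.Lib.KnownSimple.OrbitBound
-- import your own Cfsg.Agent.* helpers here

set_option autoImplicit false
open scoped MatrixGroups
open Cfsg

namespace Cfsg.Agent.S2393

/-- A lower bound for representations in cross characteristic: for `n ≥ 2` and a field `F` with `q` elements, `q` odd, every homomorphism from the symplectic group `Sp_{2n}(F)` to `GL_d(K)`, `K` a field of characteristic different from that of `F`, whose kernel is central has `d ≥ q^(n-1)(q-1)/2`. -/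
theorem result {F : Type*} [Field F] [Fintype F] {q : ℕ} (hq : Fintype.card F = q) (hodd : Odd q) (n : ℕ) (hn : 2 ≤ n)
    {K : Type*} [Field K] (hK : ringChar K ≠ ringChar F) {d : ℕ}
    (ρ : ↥(Matrix.symplecticGroup (Fin n) F) →* GL (Fin d) K) (hker : ρ.ker ≤ Subgroup.center ↥(Matrix.symplecticGroup (Fin n) F)) :
    q ^ (n - 1) * (q - 1) / 2 ≤ d := by
  classical
  obtain ⟨m, rfl⟩ : ∃ m, n = m + 1 := ⟨n - 1, by omega⟩
  simp only [Nat.add_sub_cancel]
  have := Fact.mk (CharP.char_is_prime F (ringChar F))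
  let P0 := AddChar.FiniteField.primitiveChar F K hK
  let L := CyclotomicField P0.n K
  let ψ : AddChar F L := P0.char
  have hq0 : ((Fintype.card F : ℕ) : L) ≠ 0 := by
    obtain ⟨k, hp, hk⟩ := FiniteField.card F (ringChar F)
    rw [hk, Nat.cast_pow]
    refine pow_ne_zero _ fun h => hK ?_
    have hKL : ((ringChar F : ℕ) : K) = 0 := (algebraMap K L).injective (by simpa using h)
    exact (hp.eq_one_or_self_of_dvd _ (ringChar.dvd hKL)).resolve_left CharP.ringChar_ne_one
  have hF2 : (2 : F) ≠ 0 := Ring.two_ne_zero fun h => by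
    have h2 : ¬ Even (Fintype.card F) := by rw [hq]; exact Nat.not_even_iff_odd.2 hodd
    exact h2 (Nat.even_iff.2 (FiniteField.even_card_iff_char_two.1 h))
  let e : Fin (m + 1) → F := Pi.single 0 1
  let S : (Fin (m + 1) → F) → Matrix (Fin (m + 1)) (Fin (m + 1)) F := fun c =>
    Matrix.vecMulVec e c + Matrix.vecMulVec c e
  have hSt : ∀ c, (S c).transpose = S c := fun c => by
    simp [S, Matrix.transpose_vecMulVec, add_comm]
  have hSadd : ∀ a b, S (a + b) = S a + S b := fun a b => by
    simp only [S, Matrix.vecMulVec_add, Matrix.add_vecMulVec]; abel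
  let N : (Fin (m + 1) → F) → ↥(Matrix.symplecticGroup (Fin (m + 1)) F) := fun a =>
    ⟨Matrix.fromBlocks 1 (S a) 0 1, by
      rw [SymplecticGroup.mem_iff, Matrix.J, Matrix.fromBlocks_transpose, Matrix.fromBlocks_multiply,
        Matrix.fromBlocks_multiply]
      simp [hSt]⟩
  have hN : ∀ a b, N (a + b) = N a * N b := by
    intro a b
    refine Subtype.ext ?_
    show Matrix.fromBlocks 1 (S (a + b)) 0 1 =
      Matrix.fromBlocks 1 (S a) 0 1 * Matrix.fromBlocks 1 (S b) 0 1
    rw [Matrix.fromBlocks_multiply, hSadd]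
    simp [add_comm]
  let r : ↥(Matrix.symplecticGroup (Fin (m + 1)) F) →* Matrix (Fin d) (Fin d) L :=
    ((algebraMap K L).mapMatrix.toMonoidHom.comp (Units.coeHom _)).comp ρ
  let M : (Fin (m + 1) → F) → Matrix (Fin d) (Fin d) L := fun a => r (N a)
  have hN0 : N 0 = 1 := by
    have := hN 0 0
    rw [add_zero] at this
    simpa using this
  have h0 : M 0 = 1 := by simp only [M, hN0, map_one]
  have hadd : ∀ a b, M (a + b) = M a * M b := fun a b => by simp only [M, hN, map_mul]
  have hne : M e ≠ 1 := by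
    intro h
    have hmem : N e ∈ Subgroup.center _ := hker (by
      rw [MonoidHom.mem_ker]
      refine Units.ext (Matrix.map_injective (algebraMap K L).injective ?_)
      simpa [M, r] using h)
    have hc := congrArg Subtype.val
      (Subgroup.mem_center_iff.1 hmem (SymplecticGroup.symJ (Fin (m + 1)) F))
    change Matrix.J _ _ * Matrix.fromBlocks 1 (S e) 0 1 =
      Matrix.fromBlocks 1 (S e) 0 1 * Matrix.J _ _ at hc
    rw [Matrix.J, Matrix.fromBlocks_multiply, Matrix.fromBlocks_multiply] at hc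
    have h11 := congrFun (congrFun (congrArg Matrix.toBlocks₁₁ hc) 0) 0
    simp [S, e, Matrix.vecMulVec_apply] at h11
    exact hF2 (by linear_combination -h11)
  obtain ⟨v, hv, hv1⟩ := CfsgLib.KnownSimple.OrbitBound.exists_proj_ne_zero ψ M P0.prim hq0 h0
    hadd _ hne
  have hv0 : v 0 ≠ 0 := fun h => hv1 (by simp [e, h])
  let Sq : Finset F := Finset.univ.image fun s : Fˣ => (s : F) ^ 2 * v 0
  let W : Finset (Fin (m + 1) → F) :=
    (Sq ×ˢ (Finset.univ : Finset (Fin m → F))).image fun x => Matrix.vecCons x.1 x.2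
  have hW : W.card = Sq.card * q ^ m := by
    rw [Finset.card_image_of_injective _ (fun x y h => Prod.ext (Matrix.vecCons_inj.1 h).1
      (Matrix.vecCons_inj.1 h).2), Finset.card_product]
    simp [hq]
  have hSq : q - 1 ≤ 2 * Sq.card := by
    have hu : (Finset.univ : Finset Fˣ).card = q - 1 := by
      rw [Finset.card_univ, Fintype.card_units, hq]
    rw [← hu]
    refine Finset.card_le_mul_card_image _ 2 fun a ha => ?_
    obtain ⟨s, -, rfl⟩ := Finset.mem_image.1 ha
    refine (Finset.card_le_card (t := ({s, -s} : Finset Fˣ)) fun x hx => ?_).trans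
      Finset.card_le_two
    have h2 : (x : F) ^ 2 = (s : F) ^ 2 := mul_right_cancel₀ hv0 (Finset.mem_filter.1 hx).2
    rcases sq_eq_sq_iff_eq_or_eq_neg.1 h2 with h | h
    · simp [Units.ext h]
    · have : x = -s := Units.ext (by simpa using h)
      simp [this]
  have key := CfsgLib.KnownSimple.OrbitBound.card_le_of_proj_ne_zero ψ M P0.prim hq0 hadd W ?_
  · rw [hW, Fintype.card_fin] at key
    refine Nat.div_le_of_le_mul (le_trans (Nat.mul_le_mul_left _ hSq) ?_)
    calc q ^ m * (2 * Sq.card) = 2 * (Sq.card * q ^ m) := by ring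
      _ ≤ 2 * d := Nat.mul_le_mul_left _ key
  intro w hw
  obtain ⟨⟨a0, z⟩, ha, rfl⟩ := Finset.mem_image.1 hw
  obtain ⟨s, -, rfl⟩ := Finset.mem_image.1 (Finset.mem_product.1 ha).1
  set w : Fin (m + 1) → F := Matrix.vecCons ((s : F) ^ 2 * v 0) z with hwdef
  have hw0 : w 0 = (s : F) ^ 2 * v 0 := rfl
  -- the Levi element moving `v` to `w`
  let f : Fin (m + 1) → F := (w 0)⁻¹ • ((s : F) ^ 2 • v - w)
  have hs : (s : F) ≠ 0 := s.ne_zero
  have hf0 : f 0 = 0 := by simp [f, hw0]
  have hw0' : w 0 ≠ 0 := by rw [hw0]; exact mul_ne_zero (pow_ne_zero _ hs) hv0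
  let h : Matrix (Fin (m + 1)) (Fin (m + 1)) F := 1 + Matrix.vecMulVec e f
  let h' : Matrix (Fin (m + 1)) (Fin (m + 1)) F := 1 - Matrix.vecMulVec e f
  have hee : f ⬝ᵥ e = 0 := by simp [e, hf0]
  have hsq : Matrix.vecMulVec e f * Matrix.vecMulVec e f = 0 := by
    rw [Matrix.vecMulVec_mul_vecMulVec, hee, zero_smul, Matrix.vecMulVec_zero]
  have hhh : h * h' = 1 := by
    simp only [h, h', add_mul, mul_sub, one_mul, mul_one, hsq]; abel
  have hhh' : h' * h = 1 := by
    simp only [h, h', sub_mul, mul_add, one_mul, mul_one, hsq]; abel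
  have hhe : h.mulVec e = e := by
    simp only [h, Matrix.add_mulVec, Matrix.one_mulVec, Matrix.vecMulVec_mulVec, hee]
    simp
  have hAB : ((s : F)⁻¹ • h) * ((s : F) • h') = 1 := by
    rw [Matrix.smul_mul, Matrix.mul_smul, smul_smul, inv_mul_cancel₀ hs, one_smul, hhh]
  have hBA : ((s : F) • h') * ((s : F)⁻¹ • h) = 1 := by
    rw [Matrix.smul_mul, Matrix.mul_smul, smul_smul, mul_inv_cancel₀ hs, one_smul, hhh']
  let g : ↥(Matrix.symplecticGroup (Fin (m + 1)) F) :=
    ⟨Matrix.fromBlocks ((s : F)⁻¹ • h) 0 0 ((s : F) • h').transpose, by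
      rw [SymplecticGroup.mem_iff, Matrix.J, Matrix.fromBlocks_transpose, Matrix.fromBlocks_multiply,
        Matrix.fromBlocks_multiply]
      simp only [Matrix.transpose_transpose, Matrix.transpose_zero, Matrix.mul_zero,
        Matrix.zero_mul, Matrix.mul_one, Matrix.mul_neg, Matrix.neg_mul, add_zero, zero_add,
        neg_zero, hAB]
      rw [← Matrix.transpose_mul, hAB, Matrix.transpose_one]⟩
  let σ : (Fin (m + 1) → F) → (Fin (m + 1) → F) := fun c => ((s : F)⁻¹ ^ 2) • h.mulVec c
  refine CfsgLib.KnownSimple.OrbitBound.proj_ne_zero_of_conj ψ M σ ?_ (r g) (r g⁻¹)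
    (by rw [← map_mul, inv_mul_cancel, map_one]) ?_ ?_ hv
  · intro a b hab
    have h2 : h.mulVec a = h.mulVec b :=
      smul_right_injective _ (pow_ne_zero 2 (inv_ne_zero hs)) hab
    have h3 := congrArg h'.mulVec h2
    simpa [Matrix.mulVec_mulVec, hhh'] using h3
  · intro a
    rw [← map_mul, ← map_mul]
    refine congrArg r (Subtype.ext ?_)
    show Matrix.fromBlocks ((s : F)⁻¹ • h) 0 0 ((s : F) • h').transpose *
        Matrix.fromBlocks 1 (S a) 0 1 =
      Matrix.fromBlocks 1 (S (σ a)) 0 1 *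
        Matrix.fromBlocks ((s : F)⁻¹ • h) 0 0 ((s : F) • h').transpose
    have hS : (s : F)⁻¹ • (h * S a) = S (σ a) * ((s : F) • h'.transpose) := by
      have hSσ : S (σ a) = ((s : F)⁻¹ ^ 2) • (h * S a * h.transpose) := by
        simp only [S, σ, mul_add, add_mul, Matrix.mul_vecMulVec, Matrix.vecMulVec_mul,
          Matrix.vecMul_transpose, hhe, smul_add, Matrix.vecMulVec_smul, Matrix.smul_vecMulVec]
      rw [hSσ, Matrix.smul_mul, Matrix.mul_smul, smul_smul, mul_assoc (h * S a),
        ← Matrix.transpose_mul, hhh', Matrix.transpose_one, mul_one]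
      congr 1
      field_simp
    simp only [Matrix.fromBlocks_multiply, Matrix.mul_zero, Matrix.zero_mul, Matrix.mul_one,
      Matrix.one_mul, add_zero, zero_add, Matrix.smul_mul, Matrix.transpose_smul]
    rw [hS]
  · intro a
    have hhw : Matrix.vecMul w h = (s : F) ^ 2 • v := by
      simp only [h, Matrix.vecMul_add, Matrix.vecMul_one, Matrix.vecMul_vecMulVec]
      rw [show w ⬝ᵥ e = w 0 by simp [e], show f = (w 0)⁻¹ • ((s : F) ^ 2 • v - w) from rfl,
        smul_smul, mul_inv_cancel₀ hw0', one_smul, add_sub_cancel]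
    show (((s : F)⁻¹ ^ 2) • h.mulVec a) ⬝ᵥ w = a ⬝ᵥ v
    rw [smul_dotProduct, dotProduct_comm, Matrix.dotProduct_mulVec, hhw, smul_dotProduct,
      dotProduct_comm, smul_smul, ← mul_pow, inv_mul_cancel₀ hs, one_pow, one_smul]

end Cfsg.Agent.S2393
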