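import Cfsg.Statements.S2394
import Cfsg.Agent.Lib.KnownSimple.OrbitBound
import Cfsg.Agent.Lib.SL2.Normalizer
-- import your own Cfsg.Agent.* helpers here

set_option autoImplicit false
open scoped MatrixGroups
open Cfsg

namespace Cfsg.Agent.S2394

open Matrix in
/-- `SL₂(F)^n` inside the symplectic group. -/
def blockEmb {F : Type*} [Field F] (n : ℕ) :
    (Fin n → Matrix.SpecialLinearGroup (Fin 2) F) →* ↥(Matrix.symplecticGroup (Fin n) F) where
  toFun x := ⟨fromBlocks (diagonal fun i => (x i).1 0 0) (diagonal fun i => (x i).1 0 1)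
      (diagonal fun i => (x i).1 1 0) (diagonal fun i => (x i).1 1 1), by
    have hd : ∀ i, (x i).1 0 0 * (x i).1 1 1 - (x i).1 0 1 * (x i).1 1 0 = 1 := fun i =>
      (Matrix.det_fin_two (x i).1).symm.trans (x i).2
    rw [SymplecticGroup.mem_iff, Matrix.J, fromBlocks_transpose, fromBlocks_multiply,
      fromBlocks_multiply, fromBlocks_inj]
    simp only [Matrix.mul_zero, Matrix.mul_one, Matrix.mul_neg, zero_add, add_zero,
      Matrix.neg_mul, diagonal_transpose, diagonal_mul_diagonal]
    refine ⟨?_, ?_, ?_, ?_⟩ <;>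
    · ext i j
      by_cases h : i = j
      · subst h
        simp only [Matrix.add_apply, Matrix.neg_apply, diagonal_apply_eq, Matrix.one_apply_eq,
          Matrix.zero_apply]
        first
          | ring1
          | linear_combination hd i
          | linear_combination -hd i
      · simp [diagonal_apply_ne _ h, Matrix.one_apply_ne h]⟩
  map_one' := Subtype.ext (by simp [← fromBlocks_one])
  map_mul' x y := Subtype.ext (by
    show _ = fromBlocks _ _ _ _ * fromBlocks _ _ _ _
    simp [fromBlocks_multiply, diagonal_mul_diagonal, diagonal_add, Matrix.mul_apply, Fin.sum_univ_two])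

open Matrix in
lemma blockEmb_injective {F : Type*} [Field F] (n : ℕ) :
    Function.Injective (blockEmb (F := F) n) := by
  intro x y h
  obtain ⟨h1, h2, h3, h4⟩ := fromBlocks_inj.1 (congrArg Subtype.val h)
  funext i
  refine Subtype.ext ?_
  ext a b
  fin_cases a <;> fin_cases b
  · exact congrFun (diagonal_injective h1) i
  · exact congrFun (diagonal_injective h2) i
  · exact congrFun (diagonal_injective h3) i
  · exact congrFun (diagonal_injective h4) i

open Matrix in
/-- A permutation of the hyperbolic planes. -/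
def permEl {F : Type*} [Field F] {n : ℕ} (π : Equiv.Perm (Fin n)) :
    ↥(Matrix.symplecticGroup (Fin n) F) :=
  ⟨fromBlocks (π.toPEquiv.toMatrix) 0 0 (π.toPEquiv.toMatrix), by
    have h : (π.toPEquiv.toMatrix : Matrix (Fin n) (Fin n) F) *
        (π.toPEquiv.toMatrix : Matrix (Fin n) (Fin n) F)ᵀ = 1 := by
      rw [PEquiv.toMatrix_toPEquiv_mul]
      ext i j
      simp [PEquiv.toMatrix_apply, Matrix.one_apply]
    rw [SymplecticGroup.mem_iff, Matrix.J, fromBlocks_transpose, fromBlocks_multiply,
      fromBlocks_multiply]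
    simp only [Matrix.mul_zero, Matrix.zero_mul, Matrix.mul_one, Matrix.mul_neg, Matrix.neg_mul,
      Matrix.transpose_zero, zero_add, add_zero, neg_zero, h]⟩

open Matrix in
lemma permEl_mul {F : Type*} [Field F] {n : ℕ} (π : Equiv.Perm (Fin n))
    (x : Fin n → Matrix.SpecialLinearGroup (Fin 2) F) :
    permEl π * blockEmb n x = blockEmb n (fun i => x (π i)) * permEl π := by
  have h : ∀ d : Fin n → F, (π.toPEquiv.toMatrix : Matrix (Fin n) (Fin n) F) * diagonal d =
      diagonal (fun i => d (π i)) * π.toPEquiv.toMatrix := by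
    intro d
    ext i j
    rw [Matrix.mul_diagonal, Matrix.diagonal_mul]
    by_cases hij : π i = j
    · subst hij; simp [PEquiv.toMatrix_apply]
    · simp [PEquiv.toMatrix_apply, hij]
  refine Subtype.ext ?_
  show fromBlocks _ _ _ _ * fromBlocks _ _ _ _ = fromBlocks _ _ _ _ * fromBlocks _ _ _ _
  simp [fromBlocks_multiply, h]


/-- The smallest degree of a faithful representation of the symplectic group `Sp_{2n}(q)` over its own field `F_q` is `2n`: every injective homomorphism from `Sp_{2n}(F)` to `GL_d(F)`, `F` the field with `q` elements, has `d ≥ 2n`. -/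
theorem result {F : Type*} [Field F] [Fintype F] (n : ℕ) {d : ℕ}
    (ρ : ↥(Matrix.symplecticGroup (Fin n) F) →* GL (Fin d) F) (hρ : Function.Injective ρ) : 2 * n ≤ d := by
  classical
  rcases Nat.eq_zero_or_pos n with rfl | hn
  · simp
  have hq1 := CfsgLib.SL2.one_lt_card_field (F := F)
  set N := Nat.card F + 1 with hN
  have : NeZero N := ⟨by omega⟩
  obtain ⟨t, ht, hto, -⟩ := CfsgLib.SL2.exists_torus_generator (F := F) (e := N) (Or.inr rfl) (by omega)
  obtain ⟨k, hk⟩ := CfsgLib.SL2.exists_inverting ht
  let L := AlgebraicClosure F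
  obtain ⟨ζ, hζ⟩ := CfsgLib.SL2.exists_primitiveRoot (F := F) (e := N) (Or.inr rfl)
  let ψ : AddChar (ZMod N) L := AddChar.zmodChar N ((IsPrimitiveRoot.iff_def ζ N).mp hζ).left
  have hψ : ψ.IsPrimitive := AddChar.zmodChar_primitive_of_primitive_root N hζ
  have hN0 : ((Fintype.card (ZMod N) : ℕ) : L) ≠ 0 := by
    rw [ZMod.card]; exact CfsgLib.SL2.cast_ne_zero (F := F) (Or.inr rfl)
  let τ : ZMod N → Matrix.SpecialLinearGroup (Fin 2) F := fun x => t ^ x.val
  have hτ : ∀ x y, τ (x + y) = τ x * τ y := fun x y => by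
    simp only [τ, ← pow_add]
    rw [ZMod.val_add, ← pow_mod_orderOf t (x.val + y.val), hto]
  have hτ0 : τ 0 = 1 := by simp [τ]
  have hτneg : ∀ x, k * τ x = τ (-x) * k := by
    intro x
    have h1 : τ (-x) = (τ x)⁻¹ := eq_inv_of_mul_eq_one_left (by rw [← hτ, neg_add_cancel, hτ0])
    have h2 : k * τ x * k⁻¹ = (τ x)⁻¹ := by simp only [τ, ← conj_pow, hk, inv_pow]
    rw [h1, ← h2, inv_mul_cancel_right]
  let T : (Fin n → ZMod N) → ↥(Matrix.symplecticGroup (Fin n) F) := fun a =>
    blockEmb n fun i => τ (a i)
  have hT : ∀ a b, T (a + b) = T a * T b := fun a b => by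
    simp only [T, ← map_mul]
    congr 1
    funext i
    simp [hτ]
  let r : ↥(Matrix.symplecticGroup (Fin n) F) →* Matrix (Fin d) (Fin d) L :=
    ((algebraMap F L).mapMatrix.toMonoidHom.comp (Units.coeHom _)).comp ρ
  let M : (Fin n → ZMod N) → Matrix (Fin d) (Fin d) L := fun a => r (T a)
  have h0 : M 0 = 1 := by
    have : T 0 = 1 := by
      simp only [T, Pi.zero_apply, hτ0]
      exact map_one (blockEmb n)
    simp only [M, this, map_one]
  have hadd : ∀ a b, M (a + b) = M a * M b := fun a b => by simp only [M, hT, map_mul]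
  have hne : M (Pi.single ⟨0, hn⟩ 2) ≠ 1 := by
    intro h
    have h1 : T (Pi.single ⟨0, hn⟩ 2) = 1 := hρ (by
      rw [map_one]
      refine Units.ext (Matrix.map_injective (algebraMap F L).injective ?_)
      simpa [M, r] using h)
    have h2 := congrFun (blockEmb_injective n (h1.trans (map_one _).symm)) ⟨0, hn⟩
    simp only [Pi.single_eq_same, Pi.one_apply, τ] at h2
    have h3 := orderOf_dvd_of_pow_eq_one h2
    rw [hto, show (2 : ZMod N) = ((2 : ℕ) : ZMod N) by norm_num, ZMod.val_natCast_of_lt (by omega)] at h3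
    have := Nat.le_of_dvd two_pos h3
    omega
  obtain ⟨v, hv, hv1⟩ := CfsgLib.KnownSimple.OrbitBound.exists_proj_ne_zero ψ M hψ hN0 h0 hadd _ hne
  -- signed permutations of `v` occur as well
  let sg : Bool → ZMod N → ZMod N := fun b x => if b then -x else x
  have hocc : ∀ (π : Equiv.Perm (Fin n)) (ε : Fin n → Bool),
      CfsgLib.KnownSimple.OrbitBound.proj ψ M (fun i => sg (ε i) (v (π i))) ≠ 0 := by
    intro π ε
    let g : ↥(Matrix.symplecticGroup (Fin n) F) :=
      blockEmb n (fun i => if ε i then k else 1) * permEl π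
    refine CfsgLib.KnownSimple.OrbitBound.proj_ne_zero_of_conj ψ M
      (fun a i => sg (ε i) (a (π i))) ?_ (r g) (r g⁻¹)
      (by rw [← map_mul, inv_mul_cancel, map_one]) ?_ ?_ hv
    · intro a b hab
      funext j
      have := congrFun hab (π.symm j)
      simp only [Equiv.apply_symm_apply, sg] at this
      split_ifs at this <;> simpa using this
    · intro a
      rw [← map_mul, ← map_mul]
      refine congrArg r ?_
      simp only [g, T]
      rw [mul_assoc, permEl_mul, ← mul_assoc, ← mul_assoc, ← map_mul, ← map_mul]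
      congr 2
      funext i
      simp only [Pi.mul_apply, sg]
      split_ifs
      · exact hτneg _
      · simp
    · intro a
      simp only [dotProduct]
      rw [← Equiv.sum_comp π (fun i => a i * v i)]
      refine Finset.sum_congr rfl fun i _ => ?_
      simp only [sg]
      split_ifs <;> ring
  let J : Finset (Fin n) := Finset.univ.filter fun j => v j ≠ -v j
  have hJ : ∀ j, j ∈ J ↔ v j ≠ -v j := fun j => by simp [J]
  have hj0 : (⟨0, hn⟩ : Fin n) ∈ J := (hJ _).2 fun h => hv1 (by
    rw [show Pi.single (⟨0, hn⟩ : Fin n) (2 : ZMod N) ⬝ᵥ v = v ⟨0, hn⟩ + v ⟨0, hn⟩ by simp [two_mul]]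
    nth_rewrite 1 [h]
    rw [neg_add_cancel, AddChar.map_zero_eq_one])
  by_cases hfull : J = Finset.univ
  · have key := CfsgLib.KnownSimple.OrbitBound.card_le_of_proj_ne_zero ψ M hψ hN0 hadd
      (Finset.univ.image fun ε : Fin n → Bool => fun i => sg (ε i) (v i)) ?_
    · rw [Finset.card_image_of_injective _ ?_] at key
      · have : n - 1 < 2 ^ (n - 1) := Nat.lt_two_pow_self
        have h2 : 2 ^ n = 2 * 2 ^ (n - 1) := by rw [← pow_succ', Nat.sub_add_cancel hn]
        simp only [Finset.card_univ, Fintype.card_fun, Fintype.card_bool, Fintype.card_fin] at key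
        omega
      · intro ε ε' h
        funext i
        have hi := congrFun h i
        have hiJ := (hJ i).1 (hfull ▸ Finset.mem_univ i)
        cases hε : ε i <;> cases hε' : ε' i <;>
          simp only [sg, hε, hε', if_true, Bool.false_eq_true, if_false] at hi <;>
          first | rfl | exact absurd hi hiJ | exact absurd hi.symm hiJ
    · intro w hw
      obtain ⟨ε, -, rfl⟩ := Finset.mem_image.1 hw
      exact hocc (Equiv.refl _) ε
  · obtain ⟨m0, hm0⟩ : ∃ m, m ∉ J := by
      by_contra hc
      push Not at hc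
      exact hfull (Finset.eq_univ_of_forall hc)
    let π : Fin n → Equiv.Perm (Fin n) := fun i =>
      if i = ⟨0, hn⟩ then 1 else if i ∈ J then Equiv.swap i m0 else Equiv.swap ⟨0, hn⟩ i
    let W : Fin n × Bool → (Fin n → ZMod N) := fun x i => sg x.2 (v (π x.1 i))
    have key := CfsgLib.KnownSimple.OrbitBound.card_le_of_proj_ne_zero ψ M hψ hN0 hadd
      (Finset.univ.image W) ?_
    · rw [Finset.card_image_of_injective _ ?_] at key
      · simp only [Finset.card_univ, Fintype.card_prod, Fintype.card_bool, Fintype.card_fin] at key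
        omega
      rintro ⟨i, b⟩ ⟨i', b'⟩ h
      have hmem : ∀ x, π i x ∈ J ↔ π i' x ∈ J := by
        intro x
        have hx : sg b (v (π i x)) = sg b' (v (π i' x)) := congrFun h x
        rw [hJ, hJ]
        cases b <;> cases b' <;> simp only [sg, if_true, Bool.false_eq_true, if_false] at hx
        · rw [hx]
        · rw [hx, neg_neg]; exact ne_comm
        · rw [← hx, neg_neg]; exact ne_comm
        · rw [neg_inj.1 hx]
      have hii : i = i' := by
        by_contra hne'
        have h1 := hmem ⟨0, hn⟩
        have h2 := hmem i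
        have h3 := hmem i'
        have hswapJ : ∀ a, a ∈ J → a ≠ ⟨0, hn⟩ → Equiv.swap a m0 ⟨0, hn⟩ = ⟨0, hn⟩ :=
          fun a _ hb => Equiv.swap_apply_of_ne_of_ne (Ne.symm hb) fun e => hm0 (e ▸ hj0)
        by_cases hi0 : i = ⟨0, hn⟩ <;> by_cases hi0' : i' = ⟨0, hn⟩
        · exact hne' (hi0.trans hi0'.symm)
        · by_cases hiJ : i' ∈ J
          · simp only [π, hi0, hi0', hiJ, if_true, if_false, Equiv.swap_apply_left,
              Equiv.Perm.one_apply] at h3
            exact hm0 (h3.1 trivial)
          · simp only [π, hi0, hi0', hiJ, if_true, if_false, Equiv.swap_apply_left,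
              Equiv.Perm.one_apply] at h1
            exact h1.1 hj0
        · by_cases hiJ : i ∈ J
          · simp only [π, hi0, hi0', hiJ, if_true, if_false, Equiv.swap_apply_left,
              Equiv.Perm.one_apply] at h2
            exact hm0 (h2.2 trivial)
          · simp only [π, hi0, hi0', hiJ, if_true, if_false, Equiv.swap_apply_left,
              Equiv.Perm.one_apply] at h1
            exact h1.2 hj0
        · by_cases hiJ : i ∈ J <;> by_cases hiJ' : i' ∈ J
          · simp only [π, hi0, hi0', hiJ, hiJ', if_true, if_false, Equiv.swap_apply_left] at h2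
            rw [Equiv.swap_apply_of_ne_of_ne hne' (show i ≠ m0 from fun e => hm0 (e ▸ hiJ))] at h2
            exact hm0 (h2.2 hiJ)
          · simp only [π, hi0, hi0', hiJ, hiJ', if_true, if_false, Equiv.swap_apply_left,
              hswapJ i hiJ hi0] at h1
            exact h1.1 hj0
          · simp only [π, hi0, hi0', hiJ, hiJ', if_true, if_false, Equiv.swap_apply_left,
              hswapJ i' hiJ' hi0'] at h1
            exact h1.2 hj0
          · simp only [π, hi0, hi0', hiJ, hiJ', if_false, Equiv.swap_apply_right] at h2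
            rw [Equiv.swap_apply_of_ne_of_ne hi0 hne'] at h2
            exact hiJ (h2.1 hj0)
      subst hii
      refine Prod.ext rfl ?_
      have hx : sg b (v (π i ((π i).symm ⟨0, hn⟩))) = sg b' (v (π i ((π i).symm ⟨0, hn⟩))) :=
        congrFun h _
      have hiJ := (hJ _).1 hj0
      rw [Equiv.apply_symm_apply] at hx
      cases b <;> cases b' <;> simp only [sg, if_true, Bool.false_eq_true, if_false] at hx <;>
        first | rfl | exact absurd hx hiJ | exact absurd hx.symm hiJ
    · intro w hw
      obtain ⟨x, -, rfl⟩ := Finset.mem_image.1 hw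
      exact hocc (π x.1) (fun _ => x.2)

end Cfsg.Agent.S2394
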