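import Cfsg.Statements.S2395
import Cfsg.Agent.Lib.SteinbergPres.PerfectData


set_option autoImplicit false
open Cfsg

namespace Cfsg.Agent.S2395

/-- The group presented by Steinberg's generators x̄_r(t) subject only to (R1) (additivity) and (R2) (the commutator formula) is perfect, for each of the types G₂, B₂, D₄, F₄, E₆, E₇, E₈ over any field (for types B₂ and G₂ the field must have more than two elements — the cases where the Chevalley group is not simple are set aside). -/
theorem result {K : Type*} [Field K] (D : Cfsg.Lie.ChevalleyDatum) (hD : D ∈ [Cfsg.Lie.chevG2, Cfsg.Lie.chevB2, Cfsg.Lie.chevD4, Cfsg.Lie.chevF4, Cfsg.Lie.chevE6, Cfsg.Lie.chevE7, Cfsg.Lie.chevE8]) (hK : D ∈ [Cfsg.Lie.chevB2, Cfsg.Lie.chevG2] → ∃ x : K, x ≠ 0 ∧ x ≠ 1) :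
    commutator (D.SteinbergCover K) = ⊤ := by
  have h1 : ∀ D : Cfsg.Lie.ChevalleyDatum,
      ((List.range D.nroots).all fun r => CfsgLib.SteinbergPres.kill1B D r) = true →
      commutator (D.SteinbergCover K) = ⊤ := fun D h => by
    refine CfsgLib.SteinbergPres.commutator_cover_eq_top D K fun r hr => Or.inl ?_
    exact List.all_eq_true.1 h r (List.mem_range.2 hr)
  have h2 : ∀ D : Cfsg.Lie.ChevalleyDatum, (∃ x : K, x ≠ 0 ∧ x ≠ 1) →
      ((List.range D.nroots).all fun r =>
        CfsgLib.SteinbergPres.kill1B D r || CfsgLib.SteinbergPres.kill2B D r) = true →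
      commutator (D.SteinbergCover K) = ⊤ := fun D hl h => by
    refine CfsgLib.SteinbergPres.commutator_cover_eq_top D K fun r hr => ?_
    exact (Bool.or_eq_true _ _ ▸ List.all_eq_true.1 h r (List.mem_range.2 hr)).imp id fun e => ⟨e, hl⟩
  simp only [List.mem_cons, List.not_mem_nil, or_false] at hD
  rcases hD with rfl | rfl | rfl | rfl | rfl | rfl | rfl
  · exact h2 _ (hK (by simp)) CfsgLib.SteinbergPres.killG2
  · exact h2 _ (hK (by simp)) CfsgLib.SteinbergPres.killB2
  exacts [h1 _ CfsgLib.SteinbergPres.killD4, h1 _ CfsgLib.SteinbergPres.killF4,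
    h1 _ CfsgLib.SteinbergPres.killE6, h1 _ CfsgLib.SteinbergPres.killE7, h1 _ CfsgLib.SteinbergPres.killE8]

end Cfsg.Agent.S2395
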