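import Cfsg.Statements.S2396
import Cfsg.Agent.Lib.SteinbergPres.CoverAll
import Cfsg.Agent.S2395
-- import your own Cfsg.Agent.* helpers here

set_option autoImplicit false
open scoped MatrixGroups
open Cfsg

namespace Cfsg.Agent.S2396

/-- For each of the types G₂, B₂, D₄, F₄, E₆, E₇, E₈ and any field `K` (for types B₂ and G₂ the field must have more than two elements — the cases where the Chevalley group is not simple are set aside), the group presented by the generators x̄_r(t) subject only to (R1) and (R2) maps onto the Chevalley group by x̄_r(t) ↦ x_r(t), and this homomorphism is a central extension: it is surjective with kernel contained in the centre. -/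
theorem result {K : Type*} [Field K] (D : Cfsg.Lie.ChevalleyDatum) (hD : D ∈ [Cfsg.Lie.chevG2, Cfsg.Lie.chevB2, Cfsg.Lie.chevD4, Cfsg.Lie.chevF4, Cfsg.Lie.chevE6, Cfsg.Lie.chevE7, Cfsg.Lie.chevE8]) (hK : D ∈ [Cfsg.Lie.chevB2, Cfsg.Lie.chevG2] → ∃ x : K, x ≠ 0 ∧ x ≠ 1) :
    ∃ θ : D.SteinbergCover K →* ↥(D.group K), Function.Surjective θ ∧ θ.ker ≤ Subgroup.center (D.SteinbergCover K) ∧
      ∀ (r : ℕ) (t : K), r < D.nroots → ((θ (D.scGen K r t) : GL D.Idx K) : Matrix D.Idx D.Idx K) = D.x K r t := by
  obtain ⟨A, h⟩ := CfsgLib.Chevalley.exists_full hD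
  have hperf : commutator (D.SteinbergCover K) = ⊤ := Cfsg.Agent.S2395.result D hD hK
  refine ⟨(CfsgLib.SteinbergPres.thetaGroup h).comp (CfsgLib.SteinbergPres.scProj D K), ?_, ?_, fun r t hr => ?_⟩
  · rw [MonoidHom.coe_comp]
    exact Function.Surjective.comp (CfsgLib.SteinbergPres.thetaGroup_surjective (K := K) h)
      (CfsgLib.SteinbergPres.scProj_surjective (D := D) (K := K))
  · intro x hx
    refine CfsgLib.SteinbergPres.preimage_center_le (CfsgLib.SteinbergPres.scProj D K)
      (CfsgLib.SteinbergPres.scProj_ker_central h) hperf ?_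
    rw [← CfsgLib.SteinbergPres.ker_thetaGroup h]
    exact hx
  · rw [MonoidHom.comp_apply, CfsgLib.SteinbergPres.scProj_gen hr, CfsgLib.SteinbergPres.thetaGroup_gen h hr]

end Cfsg.Agent.S2396
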