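import Cfsg.Statements.S2398
import Cfsg.Agent.S2396
import Cfsg.Agent.Lib.ChevMult.UCE
import Cfsg.Agent.Lib.ChevMult.LiftsG2
import Cfsg.Agent.Lib.ChevMult.LiftsB2
import Cfsg.Agent.Lib.ChevMult.LiftsD4
import Cfsg.Agent.Lib.ChevMult.LiftsF4
import Cfsg.Agent.Lib.ChevMult.SLDataE6
import Cfsg.Agent.Lib.ChevMult.SLDataE7
import Cfsg.Agent.Lib.ChevMult.SLDataE8
-- import your own Cfsg.Agent.* helpers here

set_option autoImplicit false
open Cfsg

namespace Cfsg.Agent.S2398

/-- Universality of the group Δ presented by Steinberg's generators with relators (R1), (R2), over a field with more than four elements (types G₂, B₂, D₄, F₄, E₆, E₇, E₈): for every central extension `π₁ : E → G₁` (surjective, central kernel) and every homomorphism `σ : Δ → G₁` there is exactly one homomorphism `τ : Δ → E` with `π₁ ∘ τ = σ`. In particular every central extension of Δ splits; together with the fact that Δ maps onto the Chevalley group with central kernel, this makes Δ the universal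 central extension of the Chevalley group. -/
theorem result {K : Type*} [Field K] (hK5 : ∃ s : Finset K, 4 < s.card) (D : Cfsg.Lie.ChevalleyDatum) (hD : D ∈ [Cfsg.Lie.chevG2, Cfsg.Lie.chevB2, Cfsg.Lie.chevD4, Cfsg.Lie.chevF4, Cfsg.Lie.chevE6, Cfsg.Lie.chevE7, Cfsg.Lie.chevE8])
    {G₁ E : Type*} [Group G₁] [Group E] (π₁ : E →* G₁) (hπ : Function.Surjective π₁) (hc : π₁.ker ≤ Subgroup.center E)
    (σ : D.SteinbergCover K →* G₁) : ∃! τ : D.SteinbergCover K →* E, π₁.comp τ = σ := by
  classical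
  obtain ⟨S, hS⟩ := hK5
  have hK : D ∈ [Cfsg.Lie.chevB2, Cfsg.Lie.chevG2] → ∃ x : K, x ≠ 0 ∧ x ≠ 1 := fun _ => by
    obtain ⟨x, -, hx⟩ := Finset.exists_mem_notMem_of_card_lt_card (t := S) (s := {0, 1}) (by
      have := Finset.card_le_two (a := (0 : K)) (b := 1)
      omega)
    simp only [Finset.mem_insert, Finset.mem_singleton, not_or] at hx
    exact ⟨x, hx⟩
  obtain ⟨A, h⟩ := CfsgLib.Chevalley.exists_full hD
  obtain ⟨θ, hθs, hθc, hθg⟩ := Cfsg.Agent.S2396.result (K := K) D hD hK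
  refine CfsgLib.ChevMult.existsUnique_lift h (CfsgLib.ChevMult.cover_perfect hD hK) θ hθs hθc hθg
    π₁ hπ hc σ (fun Γ _ ρ ι _ _ _ _ _ E => ?_)
  simp only [List.mem_cons, List.not_mem_nil, or_false] at hD
  rcases hD with rfl | rfl | rfl | rfl | rfl | rfl | rfl
  · exact CfsgLib.ChevMult.exists_lifts_G2 h ⟨S, hS⟩ E
  · exact CfsgLib.ChevMult.exists_lifts_B2 h ⟨S, hS⟩ E
  · exact CfsgLib.ChevMult.exists_lifts_D4 h ⟨S, by omega⟩ E
  · exact CfsgLib.ChevMult.exists_lifts_F4 h ⟨S, by omega⟩ E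
  · exact CfsgLib.ChevMult.slCertE6.exists_lifts E
  · exact CfsgLib.ChevMult.slCertE7.exists_lifts E
  · exact CfsgLib.ChevMult.slCertE8.exists_lifts E

end Cfsg.Agent.S2398
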