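import Cfsg.Statements.S2399
import Cfsg.Agent.S2398
import Cfsg.Agent.Lib.ChevMult.LiftsP
import Cfsg.Agent.Lib.ChevMult.Finiteness
-- import your own Cfsg.Agent.* helpers here

set_option autoImplicit false
open scoped MatrixGroups
open Cfsg
open scoped commutatorElement

namespace Cfsg.Agent.S2399

/-- Projective representations in the natural characteristic lift: for each of the types G₂, B₂, D₄, F₄, E₆, E₇, E₈ over any field `K` (for types B₂ and G₂ the field must have more than two elements — the cases where the Chevalley group is not simple are set aside), every homomorphism from the Chevalley group to `PGL_n(L) = GL_n(L)/Z`, `L` a field of the same characteristic as `K`, lifts uniquely to a homomorphism from the group Δ presented by (R1), (R2) to `GL_n(L)`, compatibly with the projection Δ → Chevalley group sending x̄_r(t) to x_r(t). -/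
theorem result {K : Type*} [Field K] (D : Cfsg.Lie.ChevalleyDatum) (hD : D ∈ [Cfsg.Lie.chevG2, Cfsg.Lie.chevB2, Cfsg.Lie.chevD4, Cfsg.Lie.chevF4, Cfsg.Lie.chevE6, Cfsg.Lie.chevE7, Cfsg.Lie.chevE8]) (hK : D ∈ [Cfsg.Lie.chevB2, Cfsg.Lie.chevG2] → ∃ x : K, x ≠ 0 ∧ x ≠ 1)
    (θ : D.SteinbergCover K →* ↥(D.group K))
    (hθ : ∀ (r : ℕ) (t : K), r < D.nroots → ((θ (D.scGen K r t) : GL D.Idx K) : Matrix D.Idx D.Idx K) = D.x K r t)
    {L : Type*} [Field L] (hL : ringChar L = ringChar K) {n : ℕ}
    (φ : ↥(D.group K) →* GL (Fin n) L ⧸ Subgroup.center (GL (Fin n) L)) :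
    ∃! ψ : D.SteinbergCover K →* GL (Fin n) L, (QuotientGroup.mk' (Subgroup.center (GL (Fin n) L))).comp ψ = φ.comp θ := by
  classical
  have hπs : Function.Surjective (QuotientGroup.mk' (Subgroup.center (GL (Fin n) L))) := QuotientGroup.mk'_surjective _
  have hπc : (QuotientGroup.mk' (Subgroup.center (GL (Fin n) L))).ker ≤ Subgroup.center (GL (Fin n) L) := by
    rw [QuotientGroup.ker_mk']
  by_cases hK5 : ∃ s : Finset K, 4 < s.card
  · exact Cfsg.Agent.S2398.result hK5 D hD _ hπs hπc (φ.comp θ)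
  have : Finite K := by
    by_contra hinf
    rw [not_finite_iff_infinite] at hinf
    obtain ⟨s, hs⟩ := Infinite.exists_subset_card_eq K 5
    exact hK5 ⟨s, by omega⟩
  obtain ⟨A, h⟩ := CfsgLib.Chevalley.exists_full hD
  let θ' := (CfsgLib.SteinbergPres.thetaGroup (K := K) h).comp (CfsgLib.SteinbergPres.scProj D K)
  have hθθ' : θ = θ' := by
    apply PresentedGroup.ext
    rintro ⟨⟨r, hr⟩, t⟩
    have e : (PresentedGroup.of (⟨r, hr⟩, t) : D.SteinbergCover K) = D.scGen K r t := by
      simp [Cfsg.Lie.ChevalleyDatum.scGen, Cfsg.Lie.ChevalleyDatum.stX, hr, PresentedGroup.of]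
    rw [e]
    refine Subtype.ext (Units.ext ((hθ r t hr).trans ?_))
    simp only [θ', MonoidHom.comp_apply, CfsgLib.SteinbergPres.scProj_gen hr]
    exact (CfsgLib.SteinbergPres.thetaGroup_gen h hr t).symm
  obtain ⟨θ₀, hθ₀s, hθ₀c, hθ₀g⟩ := Cfsg.Agent.S2396.result (K := K) D hD hK
  have hθ₀ : θ = θ₀ := by
    apply PresentedGroup.ext
    rintro ⟨⟨r, hr⟩, t⟩
    have e : (PresentedGroup.of (⟨r, hr⟩, t) : D.SteinbergCover K) = D.scGen K r t := by
      simp [Cfsg.Lie.ChevalleyDatum.scGen, Cfsg.Lie.ChevalleyDatum.stX, hr, PresentedGroup.of]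
    rw [e]
    exact Subtype.ext (Units.ext ((hθ r t hr).trans (hθ₀g r t hr).symm))
  subst hθ₀
  refine CfsgLib.ChevMult.existsUnique_lift h (CfsgLib.ChevMult.cover_perfect hD hK) θ hθ₀s hθ₀c hθ₀g
    _ hπs hπc (φ.comp θ) (fun Γ _ ρ ι hρs hρc hperf hcomp hpair E => ?_)
  obtain ⟨p, hpK⟩ := CharP.exists K
  have hp : p.Prime := (CharP.char_is_prime_or_zero K p).resolve_right (CharP.char_ne_zero_of_finite K p)
  have hcov : Finite (D.SteinbergCover K) := CfsgLib.ChevMult.finite_cover h
  have hΓ : Finite Γ := by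
    have hset : Finite (commutatorSet Γ) := by
      let sec : D.SteinbergCover K → Γ := Function.surjInv hρs
      refine Finite.of_surjective (fun ab : D.SteinbergCover K × D.SteinbergCover K =>
        (⟨⁅sec ab.1, sec ab.2⁆, ⟨_, _, rfl⟩⟩ : commutatorSet Γ)) ?_
      rintro ⟨x, a, b, rfl⟩
      refine ⟨(ρ a, ρ b), Subtype.ext ?_⟩
      exact CfsgLib.SchurMult.comm_eq_of_map_eq hρc (Function.surjInv_eq hρs _) (Function.surjInv_eq hρs _)
    have : Finite (commutator Γ) := inferInstance
    rw [hperf] at this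
    exact Finite.of_equiv _ Subgroup.topEquiv.toEquiv
  refine CfsgLib.ChevMult.exists_lifts_of_pKernel_mem h E (CharP.cast_eq_zero K p) (fun z hz hzp => ?_) inferInstance
  have hρz : ρ z = 1 := by
    refine CfsgLib.ChevMult.cover_ker_pow_eq_one h hp (CharP.cast_eq_zero K p) ?_ (by rw [← map_pow, hzp, map_one])
    have e := hz
    rw [hθθ'] at e
    exact e
  refine hpair z hρz ?_
  have hscal : ι z ∈ Subgroup.center (GL (Fin n) L) := by
    rw [← QuotientGroup.eq_one_iff]
    have := DFunLike.congr_fun hcomp z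
    rw [MonoidHom.comp_apply, MonoidHom.comp_apply, hρz, map_one] at this
    exact this
  have hpow : ι z ^ p = 1 := by rw [← map_pow, hzp, map_one]
  obtain ⟨c, hc⟩ := Matrix.GeneralLinearGroup.mem_center_iff_val_mem_range_scalar.1 hscal
  refine Units.ext (hc.symm.trans ?_)
  rcases isEmpty_or_nonempty (Fin n) with hn | hn
  · exact Subsingleton.elim _ _
  have hLp : CharP L p := by
    have : ringChar K = p := ringChar.eq K p
    rw [← this, ← hL]
    exact ringChar.charP L
  have := Fact.mk hp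
  have h1 : c ^ p = 1 := by
    have e := congrArg Units.val hpow
    rw [Units.val_pow_eq_pow_val, ← hc, ← map_pow, Units.val_one, ← map_one (Matrix.scalar (Fin n))] at e
    exact Matrix.scalar_inj.1 e
  have h2 : c = 1 := by
    have e : (c - 1) ^ p = 0 := by rw [sub_pow_char, h1, one_pow, sub_self]
    exact sub_eq_zero.1 (pow_eq_zero_iff hp.ne_zero |>.1 e)
  rw [h2, map_one]
  rfl

end Cfsg.Agent.S2399
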