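import Cfsg.Statements.S2400
import Cfsg.Agent.Lib.ChevMult.Finiteness
import Cfsg.Agent.Lib.ChevMult.LiftsB2Small
import Cfsg.Agent.Lib.ChevMult.LiftsD4Three
import Cfsg.Agent.Lib.ChevMult.SLDataE6
import Cfsg.Agent.Lib.ChevMult.SLDataE7
-- import your own Cfsg.Agent.* helpers here

set_option autoImplicit false
open Cfsg

namespace Cfsg.Agent.S2400

/-- Over a finite field `K`, the group presented by Steinberg's relators (R1)–(R3) (the universal Chevalley group) of type E₆ or E₇, or of type B₂ or D₄ with `K` of more than two elements, has trivial Schur multiplier: every finite stem extension of it is an isomorphism (Schur multiplier described through stem extensions as in the definitions). Types G₂, F₄ and E₈ are not covered here. -/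
theorem result {K : Type*} [Field K] [Fintype K] (e : Cfsg.Lie.ChevalleyDatum × ℕ)
    (he : e ∈ [(Cfsg.Lie.chevE6, 0), (Cfsg.Lie.chevE7, 0), (Cfsg.Lie.chevB2, 2), (Cfsg.Lie.chevD4, 2)]) (hK : Fintype.card K ≠ e.2) :
    Cfsg.HasCyclicSchurMultiplier (e.1.SteinbergGroup K) 1 := by
  classical
  have hD : e.1 ∈ [Cfsg.Lie.chevG2, Cfsg.Lie.chevB2, Cfsg.Lie.chevD4, Cfsg.Lie.chevF4, Cfsg.Lie.chevE6,
      Cfsg.Lie.chevE7, Cfsg.Lie.chevE8] := by
    simp only [List.mem_cons, List.not_mem_nil, or_false] at he ⊢
    rcases he with rfl | rfl | rfl | rfl <;> simp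
  obtain ⟨A, h⟩ := CfsgLib.Chevalley.exists_full hD
  have h1 : 1 < Fintype.card K := Fintype.one_lt_card
  have hq : e.1 ∈ [Cfsg.Lie.chevB2, Cfsg.Lie.chevG2] → 3 ≤ Fintype.card K := by
    intro hm
    simp only [List.mem_cons, List.not_mem_nil, or_false] at he hm
    rcases he with rfl | rfl | rfl | rfl
    · rcases hm with hm | hm <;> exact absurd (congrArg Cfsg.Lie.ChevalleyDatum.nroots hm) (by decide)
    · rcases hm with hm | hm <;> exact absurd (congrArg Cfsg.Lie.ChevalleyDatum.nroots hm) (by decide)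
    · simp only at hK; omega
    · simp only at hK; omega
  have hK' : e.1 ∈ [Cfsg.Lie.chevB2, Cfsg.Lie.chevG2] → ∃ x : K, x ≠ 0 ∧ x ≠ 1 := fun hm => by
    obtain ⟨x, -, hx⟩ := Finset.exists_mem_notMem_of_card_lt_card (t := (Finset.univ : Finset K))
      (s := {0, 1}) (by
        have := Finset.card_le_two (a := (0 : K)) (b := 1)
        have := hq hm
        rw [Finset.card_univ]; omega)
    simp only [Finset.mem_insert, Finset.mem_singleton, not_or] at hx
    exact ⟨x, hx⟩
  have hfin := CfsgLib.ChevMult.finite_st (F := K) h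
  refine CfsgLib.ChevMult.st_hasCyclicSchurMultiplier_one h (CfsgLib.ChevMult.cover_perfect hD hK') ?_
  intro Γ _ π E
  simp only [List.mem_cons, List.not_mem_nil, or_false] at he
  rcases he with rfl | rfl | rfl | rfl
  · exact CfsgLib.ChevMult.slCertE6.exists_lifts E
  · exact CfsgLib.ChevMult.slCertE7.exists_lifts E
  · simp only at hK
    rcases (show Fintype.card K = 3 ∨ Fintype.card K = 4 ∨ 4 < Fintype.card K by omega) with h3 | h4 | h5
    · exact CfsgLib.ChevMult.exists_lifts_B2_three h h3 E
    · exact CfsgLib.ChevMult.exists_lifts_B2_four h h4 E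
    · exact CfsgLib.ChevMult.exists_lifts_B2 h ⟨Finset.univ, by rw [Finset.card_univ]; omega⟩ E
  · simp only at hK
    rcases (show Fintype.card K = 3 ∨ 3 < Fintype.card K by omega) with h3 | h4
    · exact CfsgLib.ChevMult.exists_lifts_D4_three h h3 E
    · exact CfsgLib.ChevMult.exists_lifts_D4 h ⟨Finset.univ, by rw [Finset.card_univ]; omega⟩ E

end Cfsg.Agent.S2400
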