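import Cfsg.Statements.S2405
import Cfsg.Agent.Lib.KnownSimple.TwoGen.Data

set_option autoImplicit false
open Cfsg

namespace Cfsg.Agent.S2405

/-- Each Chevalley group of type G₂, B₂, D₄, F₄, E₆, E₇ or E₈ over a finite field is generated by two of its elements (types B₂ and G₂ over the field with two elements, where the group is not simple, excepted). -/
theorem result {F : Type*} [Field F] [Finite F] (D : Cfsg.Lie.ChevalleyDatum) (hD : D ∈ [Cfsg.Lie.chevG2, Cfsg.Lie.chevB2, Cfsg.Lie.chevD4, Cfsg.Lie.chevF4, Cfsg.Lie.chevE6, Cfsg.Lie.chevE7, Cfsg.Lie.chevE8])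
    (hF : D ∈ [Cfsg.Lie.chevB2, Cfsg.Lie.chevG2] → ∃ x : F, x ≠ 0 ∧ x ≠ 1) :
    ∃ a b : ↥(D.group F), Subgroup.closure ({a, b} : Set ↥(D.group F)) = ⊤ := by
  have hcases : (∃ x : F, x ≠ 0 ∧ x ≠ 1) ∨ ∀ u : F, u = 0 ∨ u = 1 := by
    by_cases h : ∃ x : F, x ≠ 0 ∧ x ≠ 1
    · exact Or.inl h
    · push Not at h
      exact Or.inr fun u => or_iff_not_imp_left.2 (h u)
  simp only [List.mem_cons, List.not_mem_nil, or_false] at hD
  rcases hD with rfl | rfl | rfl | rfl | rfl | rfl | rfl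
  · have h3 := hF (by simp)
    by_cases hp : ((3 : ℕ) : F) = 0
    · exact CfsgLib.KnownSimple.TwoGen.g2_pair h3 hp
    · exact CfsgLib.KnownSimple.TwoGen.g2_single h3 hp
  · have h3 := hF (by simp)
    by_cases hp : ((2 : ℕ) : F) = 0
    · exact CfsgLib.KnownSimple.TwoGen.b2_pair h3 hp
    · exact CfsgLib.KnownSimple.TwoGen.b2_single h3 hp
  · exact hcases.elim CfsgLib.KnownSimple.TwoGen.d4_pair CfsgLib.KnownSimple.TwoGen.d4_two
  · exact hcases.elim CfsgLib.KnownSimple.TwoGen.f4_pair CfsgLib.KnownSimple.TwoGen.f4_two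
  · exact hcases.elim CfsgLib.KnownSimple.TwoGen.e6_single CfsgLib.KnownSimple.TwoGen.e6_two
  · exact hcases.elim CfsgLib.KnownSimple.TwoGen.e7_single CfsgLib.KnownSimple.TwoGen.e7_two
  · exact hcases.elim CfsgLib.KnownSimple.TwoGen.e8_single CfsgLib.KnownSimple.TwoGen.e8_two

end Cfsg.Agent.S2405
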