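import Cfsg.Statements.S2416
import Cfsg.Agent.Lib.KnownSimple.ShortRootGenData

set_option autoImplicit false
open scoped MatrixGroups
open Cfsg

namespace Cfsg.Agent.S2416

/-- A Chevalley group of type G₂, B₂, D₄, F₄, E₆, E₇ or E₈ over a finite field lies in (indeed equals) the subgroup generated by its monomial subgroup `N` and a single fundamental root subgroup `X_p`, where `p` is a short fundamental root if there are two root lengths (any fundamental root otherwise), provided the characteristic is not 2 for types B₂, F₄ and not 3 for type G₂ (and the field has more than two elements for B₂, G₂). -/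
theorem result {K : Type*} [Field K] [Finite K] (D : Cfsg.Lie.ChevalleyDatum) (hD : D ∈ [Cfsg.Lie.chevG2, Cfsg.Lie.chevB2, Cfsg.Lie.chevD4, Cfsg.Lie.chevF4, Cfsg.Lie.chevE6, Cfsg.Lie.chevE7, Cfsg.Lie.chevE8])
    (hK : D ∈ [Cfsg.Lie.chevB2, Cfsg.Lie.chevG2] → ∃ x : K, x ≠ 0 ∧ x ≠ 1)
    (h2 : D ∈ [Cfsg.Lie.chevB2, Cfsg.Lie.chevF4] → ringChar K ≠ 2) (h3 : D = Cfsg.Lie.chevG2 → ringChar K ≠ 3)
    (i : ℕ) (hi : i < D.rank) (hshort : D.isLong (D.simple i) = false) :
    D.group K ≤ D.monomialSubgroup K ⊔ D.rootSubgroup K (D.simple i) := by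
  obtain ⟨A, h⟩ := CfsgLib.Chevalley.exists_full hD
  have key : ∀ {p : ℕ}, (p = 0 ∨ (p : K) ≠ 0) →
      CfsgLib.KnownSimple.ShortRootGen.shortReachB (D := D) p = true →
      D.group K ≤ D.monomialSubgroup K ⊔ D.rootSubgroup K (D.simple i) := by
    intro p hp hb
    refine CfsgLib.KnownSimple.ShortRootGen.group_le h le_sup_left hp
      (CfsgLib.KnownSimple.ShortRootGen.shortReach_apply hb hi hshort) fun k hk => ?_
    rw [List.mem_singleton.1 hk]
    exact le_sup_right
  have c2 : ringChar K ≠ 2 → (2 = 0 ∨ ((2 : ℕ) : K) ≠ 0) := fun hne => Or.inr <| by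
    simpa using Ring.two_ne_zero hne
  have c3 : ringChar K ≠ 3 → (3 = 0 ∨ ((3 : ℕ) : K) ≠ 0) := fun hne => Or.inr fun h0 => by
    rcases (Nat.dvd_prime Nat.prime_three).1 ((ringChar.spec K 3).1 h0) with h1 | h1
    · exact CharP.ringChar_ne_one h1
    · exact hne h1
  have hD' := hD
  simp only [List.mem_cons, List.not_mem_nil, or_false] at hD'
  rcases hD' with rfl | rfl | rfl | rfl | rfl | rfl | rfl
  · exact key (c3 (h3 rfl)) CfsgLib.KnownSimple.ShortRootGen.short_G2
  · exact key (c2 (h2 (by simp))) CfsgLib.KnownSimple.ShortRootGen.short_B2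
  · exact key (Or.inl rfl) CfsgLib.KnownSimple.ShortRootGen.short_D4
  · exact key (c2 (h2 (by simp))) CfsgLib.KnownSimple.ShortRootGen.short_F4
  · exact key (Or.inl rfl) CfsgLib.KnownSimple.ShortRootGen.short_E6
  · exact key (Or.inl rfl) CfsgLib.KnownSimple.ShortRootGen.short_E7
  · exact key (Or.inl rfl) CfsgLib.KnownSimple.ShortRootGen.short_E8

end Cfsg.Agent.S2416
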