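import Cfsg.Statements.S2419
import Cfsg.Agent.Lib.KnownSimple.CoxeterCert.B2
import Cfsg.Agent.Lib.KnownSimple.CoxeterCert.G2
import Cfsg.Agent.Lib.KnownSimple.CoxeterCert.D4
import Cfsg.Agent.Lib.KnownSimple.CoxeterCert.F4
import Cfsg.Agent.Lib.KnownSimple.CoxeterCert.E6
import Cfsg.Agent.Lib.KnownSimple.CoxeterCert.E7
import Cfsg.Agent.Lib.KnownSimple.CoxeterCert.E8

set_option autoImplicit false
open Cfsg

namespace Cfsg.Agent.S2419

open CfsgLib.KnownSimple.CoxeterCert

/-- The Coxeter groups of types B₂, G₂, E₆, E₇, E₈ are generated by the Coxeter element `s₁ s₂ ⋯ s_l` together with one suitable reflection (a conjugate of a simple reflection); for types D₄ and F₄ the Coxeter element together with two suitable reflections suffices. -/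
theorem result (c : (Σ n : ℕ, CoxeterMatrix (Fin n)) × ℕ)
    (hc : c ∈ [(⟨2, CoxeterMatrix.B 2⟩, 1), (⟨2, CoxeterMatrix.G₂⟩, 1), (⟨4, Cfsg.Lie.coxeterD4⟩, 2), (⟨4, CoxeterMatrix.F₄⟩, 2),
      (⟨6, CoxeterMatrix.E₆⟩, 1), (⟨7, CoxeterMatrix.E₇⟩, 1), (⟨8, CoxeterMatrix.E₈⟩, 1)]) :
    ∃ T : Finset c.1.2.Group, T.card = c.2 ∧ (∀ t ∈ T, ∃ (g : c.1.2.Group) (i : Fin c.1.1), t = g * c.1.2.simple i * g⁻¹) ∧
      Subgroup.closure (({((List.finRange c.1.1).map c.1.2.simple).prod} : Set c.1.2.Group) ∪ ↑T) = ⊤ := by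
  classical
  simp only [List.mem_cons, List.not_mem_nil, or_false] at hc
  rcases hc with rfl | rfl | rfl | rfl | rfl | rfl | rfl
  · refine ⟨{CoxeterMatrix.simple _ 1}, Finset.card_singleton _, ?_, ?_⟩
    · intro t ht
      exact ⟨1, 1, by rw [Finset.mem_singleton.1 ht]; group⟩
    · exact B2.eq_top _ (Subgroup.subset_closure (Or.inl rfl))
        (Subgroup.subset_closure (Or.inr (Finset.mem_coe.2 (Finset.mem_singleton_self _))))
  · refine ⟨{CoxeterMatrix.simple _ 1}, Finset.card_singleton _, ?_, ?_⟩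
    · intro t ht
      exact ⟨1, 1, by rw [Finset.mem_singleton.1 ht]; group⟩
    · exact G2.eq_top _ (Subgroup.subset_closure (Or.inl rfl))
        (Subgroup.subset_closure (Or.inr (Finset.mem_coe.2 (Finset.mem_singleton_self _))))
  · refine ⟨({Cfsg.Lie.coxeterD4.simple 1, Cfsg.Lie.coxeterD4.simple 2} : Finset Cfsg.Lie.coxeterD4.Group), Finset.card_pair ?_, ?_, ?_⟩
    · intro h
      have h' := congrArg (rho CfsgLib.Twisted.Cox.towerD4) h
      rw [rho_simple _ 1 (List.getD D4.gens 1 []) (by decide +kernel),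
        rho_simple _ 2 (List.getD D4.gens 2 []) (by decide +kernel)] at h'
      have := congrFun (congrFun h' 1) 1
      rw [toMat_apply, toMat_apply] at this
      revert this
      decide +kernel
    · intro t ht
      rcases Finset.mem_insert.1 ht with h | h
      · exact ⟨1, 1, by rw [h]; group⟩
      · exact ⟨1, 2, by rw [Finset.mem_singleton.1 h]; group⟩
    · exact D4.eq_top _ (Subgroup.subset_closure (Or.inl rfl))
        (Subgroup.subset_closure (Or.inr (Finset.mem_coe.2 (Finset.mem_insert_self _ _))))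
        (Subgroup.subset_closure (Or.inr (Finset.mem_coe.2
          (Finset.mem_insert_of_mem (Finset.mem_singleton_self _)))))
  · refine ⟨({CoxeterMatrix.F₄.simple 1, CoxeterMatrix.F₄.simple 3} : Finset CoxeterMatrix.F₄.Group), Finset.card_pair ?_, ?_, ?_⟩
    · intro h
      have h' := congrArg (rho CfsgLib.Twisted.Cox.towerF4) h
      rw [rho_simple _ 1 (List.getD F4.gens 1 []) (by decide +kernel),
        rho_simple _ 3 (List.getD F4.gens 3 []) (by decide +kernel)] at h'
      have := congrFun (congrFun h' 1) 1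
      rw [toMat_apply, toMat_apply] at this
      revert this
      decide +kernel
    · intro t ht
      rcases Finset.mem_insert.1 ht with h | h
      · exact ⟨1, 1, by rw [h]; group⟩
      · exact ⟨1, 3, by rw [Finset.mem_singleton.1 h]; group⟩
    · exact F4.eq_top _ (Subgroup.subset_closure (Or.inl rfl))
        (Subgroup.subset_closure (Or.inr (Finset.mem_coe.2 (Finset.mem_insert_self _ _))))
        (Subgroup.subset_closure (Or.inr (Finset.mem_coe.2
          (Finset.mem_insert_of_mem (Finset.mem_singleton_self _)))))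
  · refine ⟨{CoxeterMatrix.simple _ 0}, Finset.card_singleton _, ?_, ?_⟩
    · intro t ht
      exact ⟨1, 0, by rw [Finset.mem_singleton.1 ht]; group⟩
    · exact E6.eq_top _ (Subgroup.subset_closure (Or.inl rfl))
        (Subgroup.subset_closure (Or.inr (Finset.mem_coe.2 (Finset.mem_singleton_self _))))
  · refine ⟨{CoxeterMatrix.simple _ 6}, Finset.card_singleton _, ?_, ?_⟩
    · intro t ht
      exact ⟨1, 6, by rw [Finset.mem_singleton.1 ht]; group⟩
    · exact E7.eq_top _ (Subgroup.subset_closure (Or.inl rfl))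
        (Subgroup.subset_closure (Or.inr (Finset.mem_coe.2 (Finset.mem_singleton_self _))))
  · refine ⟨{CoxeterMatrix.simple _ 3}, Finset.card_singleton _, ?_, ?_⟩
    · intro t ht
      exact ⟨1, 3, by rw [Finset.mem_singleton.1 ht]; group⟩
    · exact E8.eq_top _ (Subgroup.subset_closure (Or.inl rfl))
        (Subgroup.subset_closure (Or.inr (Finset.mem_coe.2 (Finset.mem_singleton_self _))))

end Cfsg.Agent.S2419
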