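import Cfsg.Statements.S2425
import Cfsg.Agent.Lib.ClassK.SteinbergValue.Flags
import Cfsg.Agent.Lib.ClassK.SteinbergValue.Semisimple
import Mathlib.LinearAlgebra.Semisimple
import Mathlib.FieldTheory.Separable

set_option autoImplicit false
set_option linter.style.haveILetI false
open scoped MatrixGroups
open Cfsg

namespace Cfsg.Agent.S2425

/-- Values of the Steinberg character of `GL_n(q)` (the partition-indexed character for `ν = (1,…,1)`, of degree `q^(n(n−1)/2)`) at elements of order prime to the characteristic: if the characteristic polynomial of such an element is `∏ f^(m_f)` over distinct monic irreducible `f`, the value is `∏_f (−1)^((deg f − 1) m_f) q^(deg f · m_f (m_f − 1)/2)`. (At elements of order divisible by the characteristic the value is 0; that is not part of this statement.) -/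
theorem result {F : Type*} [Field F] [Fintype F] [DecidableEq F] {q : ℕ} (hq : Fintype.card F = q) (p : ℕ) [Fact p.Prime] [CharP F p]
    {n : ℕ} (x : GL (Fin n) F) (hx : (orderOf x).Coprime p) :
    Cfsg.unipotentCharacterGL n F (fun _ => 1) x =
      ∏ f ∈ (UniqueFactorizationMonoid.normalizedFactors (x : Matrix (Fin n) (Fin n) F).charpoly).toFinset,
        (-1 : ℂ) ^ ((f.natDegree - 1) * (UniqueFactorizationMonoid.normalizedFactors (x : Matrix (Fin n) (Fin n) F).charpoly).count f) *
          (q : ℂ) ^ (f.natDegree * (UniqueFactorizationMonoid.normalizedFactors (x : Matrix (Fin n) (Fin n) F).charpoly).count f *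
            ((UniqueFactorizationMonoid.normalizedFactors (x : Matrix (Fin n) (Fin n) F).charpoly).count f - 1) / 2) := by
  classical
  open CfsgLib.ClassK.SteinbergValue Polynomial in
  let T : Module.End F (Fin n → F) := (x : Matrix (Fin n) (Fin n) F).mulVecLin
  open CfsgLib.ClassK.SteinbergValue Polynomial in
  have hss : T.IsSemisimple := by
    have hN : ((orderOf x : ℕ) : F) ≠ 0 := fun h =>
      (Fact.out : p.Prime).coprime_iff_not_dvd.1 hx.symm ((CharP.cast_eq_zero_iff F p _).1 h)
    refine Module.End.isSemisimple_of_squarefree_aeval_eq_zero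
      (X_pow_sub_one_separable_iff.2 hN).squarefree ?_
    rw [map_sub, map_pow, aeval_X, map_one, sub_eq_zero]
    have h1 : Matrix.toLinAlgEquiv' (x : Matrix (Fin n) (Fin n) F) = T := rfl
    rw [← h1, ← map_pow, ← Units.val_pow_eq_pow_val, pow_orderOf_eq_one, Units.val_one, map_one]
  open CfsgLib.ClassK.SteinbergValue Polynomial in
  have main : ∃ s : Multiset F[X], (∀ f ∈ s, f.Monic ∧ Irreducible f) ∧
      s.prod = (x : Matrix (Fin n) (Fin n) F).charpoly ∧
      muTop (⊥ : InvSub (x : Matrix (Fin n) (Fin n) F)) = polyValue q s := by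
    haveI : IsSemisimpleModule F[X] (Module.AEval' T) := hss
    haveI : FiniteDimensional F (Module.AEval' T) := Module.Finite.equiv (Module.AEval'.of T)
    haveI : Finite (Module.AEval' T) := Module.finite_of_finite F
    haveI : Finite (Submodule F[X] (Module.AEval' T)) := Finite.of_injective _ SetLike.coe_injective
    obtain ⟨s, hs, hsp, -, hsm⟩ := semisimple_data hq _ (Module.AEval' T) rfl
    refine ⟨s, hs, ?_, ?_⟩
    · rw [hsp, ← Matrix.charpoly_toLin', Matrix.toLin'_apply', ← LinearEquiv.charpoly_conj (Module.AEval'.of T)]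
      congr 1
      refine LinearMap.ext fun m => ?_
      rw [LinearEquiv.conj_apply_apply, ← Module.AEval'.X_smul_of, LinearEquiv.apply_symm_apply]
      rfl
    · rw [← hsm]
      have h := muTop_orderIso (Module.AEval.mapSubmodule F (Fin n → F) T)
        (⊥ : InvSub (x : Matrix (Fin n) (Fin n) F))
      have hb : (Module.AEval.mapSubmodule F (Fin n → F) T)
          (⊥ : InvSub (x : Matrix (Fin n) (Fin n) F)) = ⊥ :=
        OrderIso.map_bot (Module.AEval.mapSubmodule F (Fin n → F) T)
      exact h.symm.trans (congrArg muTop hb)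
  obtain ⟨s, hs, hsp, hmu⟩ := main
  have hnf : UniqueFactorizationMonoid.normalizedFactors
      (x : Matrix (Fin n) (Fin n) F).charpoly = s := by
    rw [← hsp, UniqueFactorizationMonoid.normalizedFactors_prod_eq _ fun f hf => (hs f hf).2]
    exact (Multiset.map_congr rfl fun f hf => (hs f hf).1.normalize_eq_self).trans (Multiset.map_id s)
  have hn : n = ∑ f ∈ s.toFinset, f.natDegree * s.count f := by
    have h1 := Matrix.charpoly_natDegree_eq_dim (x : Matrix (Fin n) (Fin n) F)
    rw [Fintype.card_fin, ← hsp, Polynomial.natDegree_multiset_prod_of_monic _ fun f hf => (hs f hf).1,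
      Finset.sum_multiset_map_count] at h1
    rw [← h1]
    exact Finset.sum_congr rfl fun f _ => by rw [smul_eq_mul, mul_comm]
  open CfsgLib.ClassK.SteinbergValue in
  have hsigned : Cfsg.unipotentCharacterGL n F (fun _ => 1) x =
      ((signedChains (invRank (x : Matrix (Fin n) (Fin n) F)) 0 n
        (⊥ : InvSub (x : Matrix (Fin n) (Fin n) F)) : ℤ) : ℂ) := by
    rw [Cfsg.unipotentCharacterGL, signedChains, Int.cast_sum]
    refine Finset.sum_congr rfl fun κ _ => ?_
    split_ifs with h
    · have hsum : ∑ i : Fin n, (1 + i.val - (κ i).val) = n := by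
        have e : ∑ i : Fin n, (1 + i.val - (κ i).val) + ∑ i : Fin n, (κ i).val =
            ∑ i : Fin n, (1 + i.val) := by
          rw [← Finset.sum_add_distrib]
          exact Finset.sum_congr rfl fun i _ => Nat.sub_add_cancel (h i)
        rw [Equiv.sum_comp κ (fun i : Fin n => i.val), Finset.sum_add_distrib] at e
        simp at e
        omega
      have hmu' : muPerm 0 κ = fun i : Fin n => 1 + i.val - (κ i).val := by
        funext i; simp [muPerm]
      rw [hmu', fixedPointCharacter, card_fixedBy_parabolic x hsum, Int.cast_mul, Int.cast_natCast]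
    · simp
  open CfsgLib.ClassK.SteinbergValue in
  rw [hsigned, signedChains_muTop (invRank_strictMono _) _ (by
    rw [show invRank (x : Matrix (Fin n) (Fin n) F) ⊥ = 0 from finrank_bot F (Fin n → F),
      show invRank (x : Matrix (Fin n) (Fin n) F) ⊤ = n from
        (finrank_top F (Fin n → F)).trans (Module.finrank_fin_fun F), zero_add]), hmu, hnf, polyValue]
  push_cast
  rw [show ((-1 : ℂ) ^ n) = ∏ f ∈ s.toFinset, (-1 : ℂ) ^ (f.natDegree * s.count f) by
    rw [Finset.prod_pow_eq_pow_sum, ← hn], ← Finset.prod_mul_distrib]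
  refine Finset.prod_congr rfl fun f hf => ?_
  have hd : 0 < f.natDegree := (hs f (Multiset.mem_toFinset.1 hf)).2.natDegree_pos
  rw [← mul_assoc, ← pow_add]
  congr 1
  · rw [show f.natDegree * s.count f + s.count f = (f.natDegree - 1) * s.count f + 2 * s.count f by
      conv_lhs => rw [show f.natDegree = f.natDegree - 1 + 1 by omega]
      ring, pow_add, pow_mul (-1 : ℂ) 2, neg_one_sq, one_pow, mul_one]
  · congr 1
    rw [Nat.choose_two_right, mul_assoc, Nat.mul_div_assoc _ (Nat.even_mul_pred_self _).two_dvd]

end Cfsg.Agent.S2425
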