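import Cfsg.Statements.S2426
import Cfsg.Agent.Lib.KnownSimple.SL2Presentation
import Cfsg.Agent.Lib.SL2.Card
-- import your own Cfsg.Agent.* helpers here

set_option autoImplicit false
open Cfsg

namespace Cfsg.Agent.S2426

/-- The rank-one Steinberg presentation of `SL₂` over a finite field `K`: generators `x(t)`, `y(t)` (`t ∈ K`; the two opposite root subgroups) subject to additivity `x(t)x(u) = x(t+u)`, `y(t)y(u) = y(t+u)` and, with `w(t) = x(t) y(−t⁻¹) x(t)` and `w'(t) = y(t) x(−t⁻¹) y(t)` for `t ≠ 0`, the relations `w(t) x(u) w(t)⁻¹ = y(−t⁻² u)` and `w'(t) y(u) w'(t)⁻¹ = x(−t⁻² u)`, present `SL₂(K)`, with `x(t) ↦ (1 t; 0 1)` and `y(t) ↦ (1 0; t 1)`. -/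
theorem result {K : Type*} [Field K] [Finite K] :
    ∃ e : PresentedGroup
        ({g : FreeGroup (Bool × K) | ∃ (b : Bool) (t u : K), g = FreeGroup.of (b, t) * FreeGroup.of (b, u) * (FreeGroup.of (b, t + u))⁻¹} ∪
          {g | ∃ (b : Bool) (t u : K), t ≠ 0 ∧
            g = (FreeGroup.of (b, t) * FreeGroup.of (!b, -t⁻¹) * FreeGroup.of (b, t)) * FreeGroup.of (b, u) *
                  (FreeGroup.of (b, t) * FreeGroup.of (!b, -t⁻¹) * FreeGroup.of (b, t))⁻¹ * (FreeGroup.of (!b, -(t⁻¹ ^ 2 * u)))⁻¹})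
        ≃* Matrix.SpecialLinearGroup (Fin 2) K,
      (∀ t : K, ((e (PresentedGroup.of (true, t)) : Matrix (Fin 2) (Fin 2) K)) = !![1, t; 0, 1]) ∧
      (∀ t : K, ((e (PresentedGroup.of (false, t)) : Matrix (Fin 2) (Fin 2) K)) = !![1, 0; t, 1]) := by
  classical
  set rels : Set (FreeGroup (Bool × K)) :=
    {g | ∃ (b : Bool) (t u : K), g = FreeGroup.of (b, t) * FreeGroup.of (b, u) * (FreeGroup.of (b, t + u))⁻¹} ∪
      {g | ∃ (b : Bool) (t u : K), t ≠ 0 ∧
        g = (FreeGroup.of (b, t) * FreeGroup.of (!b, -t⁻¹) * FreeGroup.of (b, t)) * FreeGroup.of (b, u) *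
              (FreeGroup.of (b, t) * FreeGroup.of (!b, -t⁻¹) * FreeGroup.of (b, t))⁻¹ * (FreeGroup.of (!b, -(t⁻¹ ^ 2 * u)))⁻¹}
    with hrels
  -- the matrices
  let f : Bool × K → Matrix.SpecialLinearGroup (Fin 2) K := fun p =>
    ⟨if p.1 then !![1, p.2; 0, 1] else !![1, 0; p.2, 1], by split_ifs <;> simp [Matrix.det_fin_two]⟩
  have hf : ∀ r ∈ rels, FreeGroup.lift f r = 1 := by
    rintro r (⟨b, t, u, rfl⟩ | ⟨b, t, u, ht, rfl⟩)
    · simp only [map_mul, map_inv, FreeGroup.lift_apply_of, mul_inv_eq_one]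
      refine Subtype.ext ?_
      show (f (b, t)).1 * (f (b, u)).1 = (f (b, t + u)).1
      cases b <;> simp [f, add_comm]
    · simp only [map_mul, map_inv, FreeGroup.lift_apply_of, mul_inv_eq_iff_eq_mul, one_mul]
      refine Subtype.ext ?_
      show (f (b, t)).1 * (f (!b, -t⁻¹)).1 * (f (b, t)).1 * (f (b, u)).1 =
        (f (!b, -(t⁻¹ ^ 2 * u))).1 * ((f (b, t)).1 * (f (!b, -t⁻¹)).1 * (f (b, t)).1)
      cases b <;>
      · simp only [f, Bool.not_true, Bool.not_false, if_true, Bool.false_eq_true, if_false,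
          Matrix.mul_fin_two]
        ext i j
        fin_cases i <;> fin_cases j <;> simp <;> field_simp <;> simp
  let φ := PresentedGroup.toGroup hf
  have hval : ∀ p, (φ (PresentedGroup.of p)).1 = (f p).1 := fun p => by
    simp [φ]
  let x : K → PresentedGroup rels := fun t => PresentedGroup.of (true, t)
  let y : K → PresentedGroup rels := fun t => PresentedGroup.of (false, t)
  have R : CfsgLib.KnownSimple.SL2Presentation.Rel x y := by
    refine ⟨fun a b => ?_, fun a b => ?_, fun t u ht => ?_, ?_⟩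
    · have h := PresentedGroup.one_of_mem (rels := rels) (Or.inl ⟨true, a, b, rfl⟩)
      simpa [x, PresentedGroup.of, mul_inv_eq_one] using h
    · have h := PresentedGroup.one_of_mem (rels := rels) (Or.inl ⟨false, a, b, rfl⟩)
      simpa [y, PresentedGroup.of, mul_inv_eq_one] using h
    · have h := PresentedGroup.one_of_mem (rels := rels) (Or.inr ⟨true, t, u, ht, rfl⟩)
      simp only [map_mul, map_inv, mul_inv_eq_one, Bool.not_true] at h
      exact h
    · rw [eq_top_iff, ← PresentedGroup.closure_range_of rels]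
      refine Subgroup.closure_mono ?_
      rintro _ ⟨⟨b, t⟩, rfl⟩
      cases b
      · exact Or.inr ⟨t, rfl⟩
      · exact Or.inl ⟨t, rfl⟩
  obtain ⟨hfin, hcard⟩ := CfsgLib.KnownSimple.SL2Presentation.card_le R
  have hsurj : Function.Surjective φ := by
    -- every matrix with nonzero lower left entry is a product of three transvections
    have hM : ∀ M : Matrix.SpecialLinearGroup (Fin 2) K, M.1 1 0 ≠ 0 → M ∈ φ.range := by
      intro M hc
      refine ⟨x ((M.1 0 0 - 1) / M.1 1 0) * y (M.1 1 0) * x ((M.1 1 1 - 1) / M.1 1 0), ?_⟩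
      have hd : M.1 0 0 * M.1 1 1 - M.1 0 1 * M.1 1 0 = 1 :=
        (Matrix.det_fin_two M.1).symm.trans M.2
      rw [map_mul, map_mul]
      refine Subtype.ext ?_
      show (φ (x _)).1 * (φ (y _)).1 * (φ (x _)).1 = M.1
      simp only [x, y, hval, f, if_true, Bool.false_eq_true, if_false, Matrix.mul_fin_two]
      ext i j
      fin_cases i <;> fin_cases j <;> simp <;> field_simp <;>
        first | ring1 | linear_combination hd
    intro M
    by_cases hc : M.1 1 0 = 0
    · have ha : M.1 0 0 ≠ 0 := by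
        intro h
        have hd := (Matrix.det_fin_two M.1).symm.trans M.2
        simp [h, hc] at hd
      have hval' : (φ (y 1) * M).1 1 0 ≠ 0 := by
        show ((φ (y 1)).1 * M.1) 1 0 ≠ 0
        simp only [y, hval, f, Bool.false_eq_true, if_false, Matrix.mul_apply, Fin.sum_univ_two]
        simpa [hc] using ha
      obtain ⟨g, hg⟩ := hM _ hval'
      exact ⟨(y 1)⁻¹ * g, by rw [map_mul, map_inv, hg, inv_mul_cancel_left]⟩
    · exact hM M hc
  have hbij : Function.Bijective φ :=
    hsurj.bijective_of_nat_card_le (by rw [CfsgLib.SL2.card_SL]; exact hcard)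
  refine ⟨MulEquiv.ofBijective φ hbij, fun t => ?_, fun t => ?_⟩
  · exact hval (true, t)
  · exact hval (false, t)

end Cfsg.Agent.S2426
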