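import Cfsg.Statements.S2427
import Cfsg.Agent.Lib.SL2.Card

set_option autoImplicit false
open Cfsg

namespace Cfsg.Agent.S2427

local notation "G" => Matrix.SpecialLinearGroup (Fin 2) (ZMod 3)

lemma mul_pow_four : ∀ x y : G, x ^ 4 = 1 → y ^ 4 = 1 → (x * y) ^ 4 = 1 := by decide +kernel

lemma commutator_pow_four : ∀ a b : G, (a * b * a⁻¹ * b⁻¹) ^ 4 = 1 := by decide +kernel

lemma exists_commutator : ∀ q : G, q ^ 4 = 1 → ∃ a b : G, a * b * a⁻¹ * b⁻¹ = q := by
  decide +kernel

lemma cover_three : ∀ g x : G, g ^ 4 ≠ 1 →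
    x ^ 4 = 1 ∨ (g * x) ^ 4 = 1 ∨ (g⁻¹ * x) ^ 4 = 1 := by decide +kernel

lemma gen_three : ∀ g q : G, g ^ 4 ≠ 1 → q ^ 4 = 1 →
    ∃ h k : G, (g * (h * g⁻¹ * h⁻¹)) * (g * (k * g⁻¹ * k⁻¹)) = q := by decide +kernel

lemma gen_four : ∀ g q : G, g ^ 4 = 1 → g ^ 2 ≠ 1 → q ^ 4 = 1 →
    ∃ h k : G, (h * g * h⁻¹) * (k * g * k⁻¹) = q ∨ h * g * h⁻¹ = q := by decide +kernel

/-- The elements of order dividing four. -/
def quat : Subgroup G where
  carrier := {g | g ^ 4 = 1}
  mul_mem' {x y} hx hy := mul_pow_four x y hx hy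
  one_mem' := one_pow 4
  inv_mem' {x} hx := by
    show x⁻¹ ^ 4 = 1
    rw [inv_pow, show x ^ 4 = 1 from hx, inv_one]

/-- An element of order four. -/
def qi : G := ⟨!![0, -1; 1, 0], by decide +kernel⟩

/-- Another element of order four. -/
def qj : G := ⟨!![1, 1; 1, -1], by decide +kernel⟩

/-- Coordinates for the quaternion group. -/
def quatMap : QuaternionGroup 2 → G
  | .a i => qi ^ i.val
  | .xa i => qj * qi ^ i.val

lemma quatMap_mul_a : ∀ i : ZMod (2 * 2),
    (∀ j, quatMap (.a i * .a j) = quatMap (.a i) * quatMap (.a j)) ∧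
    (∀ j, quatMap (.a i * .xa j) = quatMap (.a i) * quatMap (.xa j)) ∧
    (∀ j, quatMap (.xa i * .a j) = quatMap (.xa i) * quatMap (.a j)) ∧
    (∀ j, quatMap (.xa i * .xa j) = quatMap (.xa i) * quatMap (.xa j)) := by decide +kernel

lemma quatMap_inj : ∀ i : ZMod (2 * 2),
    (∀ j, quatMap (.a i) = quatMap (.a j) → i = j) ∧
    (∀ j, quatMap (.a i) ≠ quatMap (.xa j)) ∧
    (∀ j, quatMap (.xa i) = quatMap (.xa j) → i = j) := by decide +kernel

lemma quatMap_surj : ∀ g : G, g ^ 4 = 1 →
    (∃ i, quatMap (.a i) = g) ∨ (∃ i, quatMap (.xa i) = g) := by decide +kernel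

lemma quatMap_mem : ∀ i : ZMod (2 * 2),
    quatMap (.a i) ^ 4 = 1 ∧ quatMap (.xa i) ^ 4 = 1 := by decide +kernel

/-- The group SL₂ over the field with 3 elements has order 24 and centre of order 2; its commutator subgroup has order 8, is isomorphic to the quaternion group of order 8 and is complemented by every Sylow 3-subgroup (so the group is a semidirect product of a quaternion group of order 8 by a cyclic group of order 3); and its only normal subgroups besides the trivial subgroup and the whole group are the centre and the commutator subgroup. -/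
theorem result :
    Nat.card (Matrix.SpecialLinearGroup (Fin 2) (ZMod 3)) = 24 ∧
    Nat.card (Subgroup.center (Matrix.SpecialLinearGroup (Fin 2) (ZMod 3))) = 2 ∧
    Nat.card (commutator (Matrix.SpecialLinearGroup (Fin 2) (ZMod 3))) = 8 ∧
    Nonempty (commutator (Matrix.SpecialLinearGroup (Fin 2) (ZMod 3)) ≃* QuaternionGroup 2) ∧
    (∀ P : Sylow 3 (Matrix.SpecialLinearGroup (Fin 2) (ZMod 3)),
      Subgroup.IsComplement' (commutator (Matrix.SpecialLinearGroup (Fin 2) (ZMod 3)))
        (P : Subgroup (Matrix.SpecialLinearGroup (Fin 2) (ZMod 3)))) ∧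
    ∀ N : Subgroup (Matrix.SpecialLinearGroup (Fin 2) (ZMod 3)), N.Normal →
      N = ⊥ ∨ N = ⊤ ∨ N = Subgroup.center (Matrix.SpecialLinearGroup (Fin 2) (ZMod 3)) ∨
        N = commutator (Matrix.SpecialLinearGroup (Fin 2) (ZMod 3)) := by
  have hC : commutator G = quat := by
    refine le_antisymm ?_ fun q hq => ?_
    · rw [commutator_def, Subgroup.commutator_le]
      intro a _ b _
      rw [commutatorElement_def]
      exact commutator_pow_four a b
    · obtain ⟨a, b, h⟩ := exists_commutator q hq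
      rw [← h, ← commutatorElement_def, commutator_def]
      exact Subgroup.commutator_mem_commutator (Subgroup.mem_top a) (Subgroup.mem_top b)
  let φ : QuaternionGroup 2 →* quat := MonoidHom.mk'
    (fun x => ⟨quatMap x, match x with
      | .a i => (quatMap_mem i).1
      | .xa i => (quatMap_mem i).2⟩)
    (fun x y => Subtype.ext (match x, y with
      | .a i, .a j => (quatMap_mul_a i).1 j
      | .a i, .xa j => (quatMap_mul_a i).2.1 j
      | .xa i, .a j => (quatMap_mul_a i).2.2.1 j
      | .xa i, .xa j => (quatMap_mul_a i).2.2.2 j))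
  have hφ : Function.Bijective φ := by
    constructor
    · intro x y h
      have h' : quatMap x = quatMap y := congrArg Subtype.val h
      match x, y with
      | .a i, .a j => rw [(quatMap_inj i).1 j h']
      | .a i, .xa j => exact absurd h' ((quatMap_inj i).2.1 j)
      | .xa i, .a j => exact absurd h'.symm ((quatMap_inj j).2.1 i)
      | .xa i, .xa j => rw [(quatMap_inj i).2.2 j h']
    · rintro ⟨g, hg⟩
      rcases quatMap_surj g hg with ⟨i, hi⟩ | ⟨i, hi⟩
      · exact ⟨.a i, Subtype.ext hi⟩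
      · exact ⟨.xa i, Subtype.ext hi⟩
  have e : quat ≃* QuaternionGroup 2 := (MulEquiv.ofBijective φ hφ).symm
  have hqcard : Nat.card quat = 8 := by
    rw [Nat.card_congr e.toEquiv, Nat.card_eq_fintype_card, QuaternionGroup.card]
  have hcard : Nat.card G = 24 := by
    rw [CfsgLib.SL2.card_SL, Nat.card_zmod]; norm_num
  refine ⟨hcard, CfsgLib.SL2.center_card_of_odd (by decide), by rw [hC]; exact hqcard,
    ⟨(MulEquiv.subgroupCongr hC).trans e⟩, fun P => ?_, fun N hN => ?_⟩
  · have hP : Nat.card (P : Subgroup G) = 3 := by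
      rw [P.card_eq_multiplicity, hcard, Nat.factorization_def _ (by norm_num : Nat.Prime 3),
        show (24 : ℕ) = 3 ^ 1 * 8 from rfl, padicValNat.mul (by norm_num) (by norm_num),
        padicValNat.prime_pow, padicValNat.eq_zero_of_not_dvd (by norm_num)]
      norm_num
    refine Subgroup.isComplement'_of_coprime ?_ ?_
    · rw [hC, hqcard, hP, hcard]
    · rw [hC, hqcard, hP]; norm_num
  · rw [hC]
    by_cases h3 : ∃ g ∈ N, g ^ 4 ≠ 1
    · obtain ⟨g, hg, hg4⟩ := h3
      have hq : ∀ q : G, q ^ 4 = 1 → q ∈ N := by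
        intro q hq
        obtain ⟨h, k, he⟩ := gen_three g q hg4 hq
        rw [← he]
        exact mul_mem (mul_mem hg (hN.conj_mem _ (inv_mem hg) h))
          (mul_mem hg (hN.conj_mem _ (inv_mem hg) k))
      refine Or.inr (Or.inl (eq_top_iff.2 fun x _ => ?_))
      rcases cover_three g x hg4 with h | h | h
      · exact hq x h
      · exact (N.mul_mem_cancel_left hg).1 (hq _ h)
      · exact (N.mul_mem_cancel_left (inv_mem hg)).1 (hq _ h)
    · push Not at h3
      by_cases h4 : ∃ g ∈ N, g ^ 2 ≠ 1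
      · obtain ⟨g, hg, hg2⟩ := h4
        refine Or.inr (Or.inr (Or.inr (le_antisymm (fun x hx => h3 x hx) fun q hq => ?_)))
        obtain ⟨h, k, he | he⟩ := gen_four g q (h3 g hg) hg2 hq
        · rw [← he]; exact mul_mem (hN.conj_mem _ hg h) (hN.conj_mem _ hg k)
        · rw [← he]; exact hN.conj_mem _ hg h
      · push Not at h4
        have hle : N ≤ Subgroup.center G := fun x hx =>
          (CfsgLib.SL2.mem_center_iff x).2 (or_iff_not_imp_left.2
            (CfsgLib.SL2.eq_neg_one_of_sq_eq_one (by decide) (h4 x hx)))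
        by_cases hb : N = ⊥
        · exact Or.inl hb
        · refine Or.inr (Or.inr (Or.inl (le_antisymm hle fun z hz => ?_)))
          obtain ⟨x, hx, hx1⟩ := N.bot_or_exists_ne_one.resolve_left hb
          rcases (CfsgLib.SL2.mem_center_iff z).1 hz with rfl | rfl
          · exact N.one_mem
          · rwa [((CfsgLib.SL2.mem_center_iff x).1 (hle hx)).resolve_left hx1] at hx

end Cfsg.Agent.S2427
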