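import Cfsg.Statements.S2428
import Cfsg.Agent.Lib.SL2.Sylow

set_option autoImplicit false
open Cfsg

namespace Cfsg.Agent.S2428

/-- Let F be a finite field with q elements, q odd, and let d be a diagonal element of SL₂ over F whose diagonal entry a has a² ≠ 1 (such d exist exactly when q > 3). Then the centraliser of d is precisely the diagonal subgroup T; the normaliser of T has order 2(q − 1) and exactly (q + 5)/2 conjugacy classes; and every element of that normaliser outside T has square equal to −1. -/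
theorem result {F : Type*} [Field F] [Fintype F] (hodd : Odd (Fintype.card F))
    (d : Matrix.SpecialLinearGroup (Fin 2) F) (hd01 : (d : Matrix (Fin 2) (Fin 2) F) 0 1 = 0) (hd10 : (d : Matrix (Fin 2) (Fin 2) F) 1 0 = 0) (hda : (d : Matrix (Fin 2) (Fin 2) F) 0 0 ^ 2 ≠ 1) :
    (∀ g : Matrix.SpecialLinearGroup (Fin 2) F, g ∈ Subgroup.centralizer ({d} : Set (Matrix.SpecialLinearGroup (Fin 2) F)) ↔ ((g : Matrix (Fin 2) (Fin 2) F) 0 1 = 0 ∧ (g : Matrix (Fin 2) (Fin 2) F) 1 0 = 0)) ∧
    Nat.card (Subgroup.normalizer ((Subgroup.centralizer ({d} : Set (Matrix.SpecialLinearGroup (Fin 2) F))) : Set (Matrix.SpecialLinearGroup (Fin 2) F))) = 2 * (Fintype.card F - 1) ∧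
    Nat.card (ConjClasses (Subgroup.normalizer ((Subgroup.centralizer ({d} : Set (Matrix.SpecialLinearGroup (Fin 2) F))) : Set (Matrix.SpecialLinearGroup (Fin 2) F)))) = (Fintype.card F + 5) / 2 ∧
    ∀ g : Matrix.SpecialLinearGroup (Fin 2) F, g ∈ Subgroup.normalizer ((Subgroup.centralizer ({d} : Set (Matrix.SpecialLinearGroup (Fin 2) F))) : Set (Matrix.SpecialLinearGroup (Fin 2) F)) →
      g ∉ Subgroup.centralizer ({d} : Set (Matrix.SpecialLinearGroup (Fin 2) F)) → ((g * g) : Matrix (Fin 2) (Fin 2) F) = -1 := by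
  have h2 := CfsgLib.SL2.two_ne_zero_of_odd hodd
  have hdet := CfsgLib.SL2.det_eq d
  rw [hd01, hd10] at hdet
  set a := (d : Matrix (Fin 2) (Fin 2) F) 0 0 with ha
  set b := (d : Matrix (Fin 2) (Fin 2) F) 1 1 with hb
  have htr : CfsgLib.SL2.tr d = a + b := rfl
  have ht : CfsgLib.SL2.tr d ^ 2 ≠ 4 := by
    intro h
    rw [htr] at h
    have h3 : (a - b) ^ 2 = 0 := by linear_combination h - 4 * hdet
    have h4 : a = b := sub_eq_zero.1 ((pow_eq_zero_iff two_ne_zero).1 h3)
    exact hda (by rw [← h4] at hdet; linear_combination hdet)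
  have hroot : ∃ l : F, l * l = CfsgLib.SL2.tr d * l - 1 := ⟨a, by rw [htr]; linear_combination -hdet⟩
  have hcard : Nat.card (Subgroup.centralizer ({d} : Set (Matrix.SpecialLinearGroup (Fin 2) F))) =
      Fintype.card F - 1 := by
    classical
    rw [CfsgLib.SL2.card_centralizer ht, if_pos hroot, Nat.card_eq_fintype_card]
  have hab : a - b ≠ 0 := fun h => hda (by rw [← sub_eq_zero.1 h] at hdet; linear_combination hdet)
  refine ⟨fun g => ?_, ?_, ?_, ?_⟩
  · rw [Subgroup.mem_centralizer_singleton_iff]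
    constructor
    · intro h
      have e := congrArg (fun x : Matrix.SpecialLinearGroup (Fin 2) F =>
        (x : Matrix (Fin 2) (Fin 2) F)) h
      have e01 := congrFun (congrFun e 0) 1
      have e10 := congrFun (congrFun e 1) 0
      simp [Matrix.mul_apply, hd01, hd10, ← ha, ← hb] at e01 e10
      constructor
      · exact (mul_eq_zero.1 (by linear_combination -e01 :
          (a - b) * (g : Matrix (Fin 2) (Fin 2) F) 0 1 = 0)).resolve_left hab
      · exact (mul_eq_zero.1 (by linear_combination e10 :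
          (a - b) * (g : Matrix (Fin 2) (Fin 2) F) 1 0 = 0)).resolve_left hab
    · rintro ⟨g1, g2⟩
      apply Subtype.ext
      ext i j
      fin_cases i <;> fin_cases j <;>
        simp [Matrix.mul_apply, hd01, hd10, ← ha, ← hb, g1, g2, mul_comm]
  · rw [CfsgLib.SL2.card_normalizer ht, hcard]
  · have := CfsgLib.SL2.card_conjClasses_normalizer h2 ht
    rw [hcard] at this
    have : 0 < Fintype.card F := Fintype.card_pos
    omega
  · intro g hg hg'
    exact CfsgLib.SL2.sq_eq_neg_one (CfsgLib.SL2.notMem_center_of_tr ht)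
      (CfsgLib.SL2.conj_eq_inv_of_mem_normalizer ht hg hg')

end Cfsg.Agent.S2428
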