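import Cfsg.Statements.S2429
import Cfsg.Agent.Lib.SL2.Sylow

set_option autoImplicit false
open Cfsg

namespace Cfsg.Agent.S2429

/-- Let F be a finite field with q elements, q odd. Then SL₂ over F contains a cyclic subgroup T′ of order q + 1 (a non-split torus) with the following properties: T′ is its own centraliser, and indeed the centraliser of each element of T′ other than 1 and −1 is exactly T′; every element of SL₂ having no eigenvector in F² is conjugate to an element of T′; the normaliser of T′ has order 2(q + 1) and exactly (q + 7)/2 conjugacy classes; and every element of that normaliser outside T′ has square −1. -/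
theorem result {F : Type*} [Field F] [Fintype F] (hodd : Odd (Fintype.card F)) :
    ∃ T' : Subgroup (Matrix.SpecialLinearGroup (Fin 2) F), IsCyclic T' ∧ Nat.card T' = Fintype.card F + 1 ∧
      Subgroup.centralizer ((T' : Set (Matrix.SpecialLinearGroup (Fin 2) F))) = T' ∧
      (∀ g : Matrix.SpecialLinearGroup (Fin 2) F, g ∈ T' → (g : Matrix (Fin 2) (Fin 2) F) ≠ 1 → (g : Matrix (Fin 2) (Fin 2) F) ≠ -1 → Subgroup.centralizer ({g} : Set (Matrix.SpecialLinearGroup (Fin 2) F)) = T') ∧
      (∀ g : Matrix.SpecialLinearGroup (Fin 2) F, (∀ (c : F) (v : Fin 2 → F), v ≠ 0 → (g : Matrix (Fin 2) (Fin 2) F).mulVec v ≠ c • v) → ∃ h : Matrix.SpecialLinearGroup (Fin 2) F, h * g * h⁻¹ ∈ T') ∧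
      Nat.card (Subgroup.normalizer (T' : Set (Matrix.SpecialLinearGroup (Fin 2) F))) = 2 * (Fintype.card F + 1) ∧
      Nat.card (ConjClasses (Subgroup.normalizer (T' : Set (Matrix.SpecialLinearGroup (Fin 2) F)))) = (Fintype.card F + 7) / 2 ∧
      ∀ g : Matrix.SpecialLinearGroup (Fin 2) F, g ∈ Subgroup.normalizer (T' : Set (Matrix.SpecialLinearGroup (Fin 2) F)) → g ∉ T' → ((g * g) : Matrix (Fin 2) (Fin 2) F) = -1 := by
  classical
  have h2 := CfsgLib.SL2.two_ne_zero_of_odd hodd
  have hq : 1 < Fintype.card F := Fintype.one_lt_card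
  have hnq := Nat.card_eq_fintype_card (α := F)
  obtain ⟨g, ht, -, hcard⟩ :=
    CfsgLib.SL2.exists_torus_generator (F := F) (e := Nat.card F + 1) (Or.inr rfl) (by omega)
  rw [hnq] at hcard
  have hg := CfsgLib.SL2.notMem_center_of_tr ht
  refine ⟨Subgroup.centralizer {g}, CfsgLib.SL2.isCyclic_centralizer ht, hcard,
    CfsgLib.SL2.centralizer_centralizer hg, ?_, ?_, ?_, ?_, ?_⟩
  · intro x hx h1 hm1
    refine CfsgLib.SL2.centralizer_eq_of_mem hg hx fun hc => ?_
    rcases (CfsgLib.SL2.mem_center_iff x).1 hc with rfl | rfl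
    · exact h1 rfl
    · exact hm1 (by simp)
  · intro x hx
    have hnr : ¬ ∃ l : F, l * l = CfsgLib.SL2.tr x * l - 1 := by
      rw [← CfsgLib.SL2.exists_eigenvector_iff]
      rintro ⟨c, v, hv, he⟩
      exact hx c v hv he
    have htx := CfsgLib.SL2.tr_sq_ne_four_of_no_eigenvector hx
    obtain ⟨k, hk⟩ := CfsgLib.SL2.centralizer_conj_of_card_eq htx ht
      (by rw [CfsgLib.SL2.card_centralizer htx, if_neg hnr, hnq, hcard])
    exact ⟨k, (hk x).1 (Subgroup.mem_centralizer_singleton_iff.2 rfl)⟩
  · rw [CfsgLib.SL2.card_normalizer ht, hcard]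
  · have := CfsgLib.SL2.card_conjClasses_normalizer h2 ht
    rw [hcard] at this
    omega
  · intro x hx hx'
    exact CfsgLib.SL2.sq_eq_neg_one hg (CfsgLib.SL2.conj_eq_inv_of_mem_normalizer ht hx hx')

end Cfsg.Agent.S2429
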