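import Cfsg.Statements.S2430
import Cfsg.Agent.Lib.SL2.Sylow

set_option autoImplicit false
open Cfsg

namespace Cfsg.Agent.S2430

/-- Let F be a finite field with q elements, q odd, ℓ an odd prime, and P a Sylow ℓ-subgroup of SL₂ over F. If ℓ divides q − 1, the centraliser of P is cyclic of order q − 1 (a split torus) and the normaliser of P has order 2(q − 1); if ℓ divides q + 1, the centraliser of P is cyclic of order q + 1 (a non-split torus) and the normaliser of P has order 2(q + 1). -/
theorem result {F : Type*} [Field F] [Fintype F] (hodd : Odd (Fintype.card F)) (ℓ : ℕ) [Fact ℓ.Prime] (hℓ : ℓ ≠ 2)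
    (P : Sylow ℓ (Matrix.SpecialLinearGroup (Fin 2) F)) :
    (ℓ ∣ Fintype.card F - 1 →
      Nat.card (Subgroup.centralizer ((P : Subgroup (Matrix.SpecialLinearGroup (Fin 2) F)) : Set (Matrix.SpecialLinearGroup (Fin 2) F))) = Fintype.card F - 1 ∧
      IsCyclic (Subgroup.centralizer ((P : Subgroup (Matrix.SpecialLinearGroup (Fin 2) F)) : Set (Matrix.SpecialLinearGroup (Fin 2) F))) ∧
      Nat.card (Subgroup.normalizer ((P : Subgroup (Matrix.SpecialLinearGroup (Fin 2) F)) : Set (Matrix.SpecialLinearGroup (Fin 2) F))) = 2 * (Fintype.card F - 1)) ∧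
    (ℓ ∣ Fintype.card F + 1 →
      Nat.card (Subgroup.centralizer ((P : Subgroup (Matrix.SpecialLinearGroup (Fin 2) F)) : Set (Matrix.SpecialLinearGroup (Fin 2) F))) = Fintype.card F + 1 ∧
      IsCyclic (Subgroup.centralizer ((P : Subgroup (Matrix.SpecialLinearGroup (Fin 2) F)) : Set (Matrix.SpecialLinearGroup (Fin 2) F))) ∧
      Nat.card (Subgroup.normalizer ((P : Subgroup (Matrix.SpecialLinearGroup (Fin 2) F)) : Set (Matrix.SpecialLinearGroup (Fin 2) F))) = 2 * (Fintype.card F + 1)) := by
  have hq : 1 < Fintype.card F := Fintype.one_lt_card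
  have hnq := Nat.card_eq_fintype_card (α := F)
  have key : ∀ e : ℕ, (e = Fintype.card F - 1 ∨ e = Fintype.card F + 1) → ℓ ∣ e →
      Nat.card (Subgroup.centralizer ((P : Subgroup (Matrix.SpecialLinearGroup (Fin 2) F)) : Set (Matrix.SpecialLinearGroup (Fin 2) F))) = e ∧
      IsCyclic (Subgroup.centralizer ((P : Subgroup (Matrix.SpecialLinearGroup (Fin 2) F)) : Set (Matrix.SpecialLinearGroup (Fin 2) F))) ∧
      Nat.card (Subgroup.normalizer ((P : Subgroup (Matrix.SpecialLinearGroup (Fin 2) F)) : Set (Matrix.SpecialLinearGroup (Fin 2) F))) = 2 * e := by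
    intro e he hle
    have hd : ℓ ∣ Nat.card F - 1 ∨ ℓ ∣ Nat.card F + 1 := by
      rw [hnq]
      rcases he with rfl | rfl
      · exact Or.inl hle
      · exact Or.inr hle
    obtain ⟨g, ht, -, hC, -, hdvd, hN⟩ := CfsgLib.SL2.sylow_odd_structure ℓ hℓ hd P
    have hcard : Nat.card (Subgroup.centralizer ({g} : Set (Matrix.SpecialLinearGroup (Fin 2) F))) = e := by
      by_contra hne
      have h2 : ℓ ∣ 2 := by
        rcases CfsgLib.SL2.card_centralizer_or ht with h | h <;> rw [hnq] at h <;>
          rcases he with rfl | rfl <;> try exact absurd h hne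
        all_goals rw [h] at hdvd
        · have := Nat.dvd_sub hle hdvd
          rwa [show Fintype.card F + 1 - (Fintype.card F - 1) = 2 by omega] at this
        · have := Nat.dvd_sub hdvd hle
          rwa [show Fintype.card F + 1 - (Fintype.card F - 1) = 2 by omega] at this
      exact hℓ ((Nat.prime_dvd_prime_iff_eq Fact.out Nat.prime_two).1 h2)
    rw [hC, hN, CfsgLib.SL2.card_normalizer ht, hcard]
    exact ⟨rfl, CfsgLib.SL2.isCyclic_centralizer ht, rfl⟩
  exact ⟨key _ (Or.inl rfl), key _ (Or.inr rfl)⟩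

end Cfsg.Agent.S2430
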