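import Cfsg.Statements.S2431
import Cfsg.Agent.Lib.SL2.SylowTwo

set_option autoImplicit false
open Cfsg

namespace Cfsg.Agent.S2431

/-- Let F be a finite field with q elements, q odd, and S a Sylow 2-subgroup of SL₂ over F. The centraliser of S is the centre of SL₂ (of order 2); S is its own normaliser when q ≡ ±1 mod 8, and has index 3 in its normaliser when q ≡ ±3 mod 8. -/
theorem result {F : Type*} [Field F] [Fintype F] (hodd : Odd (Fintype.card F)) (S : Sylow 2 (Matrix.SpecialLinearGroup (Fin 2) F)) :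
    Subgroup.centralizer ((S : Subgroup (Matrix.SpecialLinearGroup (Fin 2) F)) : Set (Matrix.SpecialLinearGroup (Fin 2) F)) = Subgroup.center (Matrix.SpecialLinearGroup (Fin 2) F) ∧
    ((Fintype.card F % 8 = 1 ∨ Fintype.card F % 8 = 7) →
      Subgroup.normalizer ((S : Subgroup (Matrix.SpecialLinearGroup (Fin 2) F)) : Set (Matrix.SpecialLinearGroup (Fin 2) F)) = (S : Subgroup (Matrix.SpecialLinearGroup (Fin 2) F))) ∧
    ((Fintype.card F % 8 = 3 ∨ Fintype.card F % 8 = 5) →
      Nat.card (Subgroup.normalizer ((S : Subgroup (Matrix.SpecialLinearGroup (Fin 2) F)) : Set (Matrix.SpecialLinearGroup (Fin 2) F))) = 3 * Nat.card S) := by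
  have hnq := Nat.card_eq_fintype_card (α := F)
  have hq2 : Nat.card F % 2 = 1 := by rw [hnq]; exact Nat.odd_iff.1 hodd
  obtain ⟨hC, h16, h8⟩ := CfsgLib.SL2.sylow_two_structure hq2 S
  obtain ⟨g, ht, h4, -, hS⟩ := CfsgLib.SL2.sylow_two_exists_torus hq2 S
  have hor := CfsgLib.SL2.card_centralizer_or ht
  rw [hnq] at hor
  set e := Nat.card (Subgroup.centralizer ({g} : Set (Matrix.SpecialLinearGroup (Fin 2) F))) with he
  have he0 : e ≠ 0 := Nat.card_pos.ne'
  have hv2 : 2 ≤ e.factorization 2 := (Nat.Prime.pow_dvd_iff_le_factorization Nat.prime_two he0).1 h4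
  have h8e : 8 ∣ e ↔ 3 ≤ e.factorization 2 :=
    Nat.Prime.pow_dvd_iff_le_factorization (k := 3) Nat.prime_two he0
  refine ⟨hC, fun hq => h16 ?_, fun hq => ?_⟩
  · rw [hS]
    have h3 : 3 ≤ e.factorization 2 := h8e.1 (by omega)
    exact Nat.mul_dvd_mul_left 2 (pow_dvd_pow 2 h3)
  · have h3 : ¬ 3 ≤ e.factorization 2 := fun h => by
      have := h8e.2 h
      omega
    have hcard : Nat.card (S : Subgroup (Matrix.SpecialLinearGroup (Fin 2) F)) = 8 := by
      rw [hS, show e.factorization 2 = 2 by omega]; norm_num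
    rw [h8 hcard]
    omega

end Cfsg.Agent.S2431
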