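import Cfsg.Statements.S2432
import Cfsg.Agent.Lib.CharDegrees.SL2Borel

set_option autoImplicit false
open Cfsg Matrix
open scoped MatrixGroups ComplexConjugate

namespace Cfsg.Agent.S2432

open CfsgLib.CharDegrees CfsgLib.SL2
open CfsgLib.ClassicalLinear (upS upS_coe)

/-- Let F be a finite field with q elements, q odd, and for a multiplicative character α of F let R(α) be the function on SL₂ induced from the linear character b ↦ α(b₁₁) of the upper triangular subgroup. For multiplicative characters α, β the inner product of R(α) and R(β) equals the number of true statements among 'α = β' and 'α = β⁻¹' (the Mackey formula for the upper triangular subgroup, whose intersection with a conjugate by the Weyl element is the diagonal subgroup). -/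
theorem result {F : Type*} [Field F] [Fintype F] [DecidableEq F] (hodd : Odd (Fintype.card F))
    (α β : MulChar F ℂ) [Decidable (α = β)] [Decidable (α = β⁻¹)] :
    Cfsg.classInner (Cfsg.indFun ((Cfsg.upperTriangularGL 2 F).comap Matrix.SpecialLinearGroup.toGL) (fun b => α (((b : Matrix.SpecialLinearGroup (Fin 2) F) : Matrix (Fin 2) (Fin 2) F) 0 0))) (Cfsg.indFun ((Cfsg.upperTriangularGL 2 F).comap Matrix.SpecialLinearGroup.toGL) (fun b => β (((b : Matrix.SpecialLinearGroup (Fin 2) F) : Matrix (Fin 2) (Fin 2) F) 0 0))) =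
      (if α = β then 1 else 0) + (if α = β⁻¹ then 1 else 0) := by
  classical
  show Cfsg.classInner (Cfsg.indFun (borelU F) (borelChar α)) (principalSeries β) = _
  rw [CfsgLib.Frobenius.classInner_indFun (borelU F) (borelChar α) _
    (CfsgLib.Frobenius.indFun_isClassFunction _ _)]
  set q := Fintype.card F with hq
  have hval : ∀ (a : Fˣ) (x : F), principalSeries β (diag a * upS x) =
      β a + β ((a⁻¹ : Fˣ) : F) +
        if (a : F) = ((a⁻¹ : Fˣ) : F) then (if x = 0 then (q : ℂ) - 1 else -1) * β a else 0 := by
    intro a x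
    have e : ∀ i j, ((diag a * upS x : SL(2, F)) : Matrix (Fin 2) (Fin 2) F) i j =
        !![(a : F), a * x; 0, ((a⁻¹ : Fˣ) : F)] i j := by
      intro i j
      rw [Matrix.SpecialLinearGroup.coe_mul, diag_coe, upS_coe]
      fin_cases i <;> fin_cases j <;> simp [Matrix.mul_apply]
    rw [principalSeries_upper _ _ (by rw [e]; simp), e, e, e]
    simp only [Matrix.cons_val', Matrix.cons_val_zero, Matrix.cons_val_one, Matrix.of_apply,
      Matrix.cons_val_fin_one]
    by_cases ha : (a : F) = ((a⁻¹ : Fˣ) : F)
    · rw [if_pos ha, if_pos ha, ← ha]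
      by_cases hx : x = 0
      · rw [if_pos hx, hx, mul_zero, if_pos rfl]; ring
      · rw [if_neg hx, if_neg (mul_ne_zero a.ne_zero hx)]; ring
    · rw [if_neg ha, if_neg ha, add_zero]
  let e : Fˣ × F → borelU F := fun w => ⟨diag w.1 * upS w.2, by
    rw [borelU_eq_borel]; exact mul_mem (diag_mem_borel _) (upS_mem_borel _)⟩
  have he : Function.Bijective e := by
    refine ⟨?_, ?_⟩
    · rintro ⟨a, x⟩ ⟨a', x'⟩ h
      have h' := congrArg (fun y : borelU F => ((y : SL(2, F)) : Matrix (Fin 2) (Fin 2) F)) h
      have e0 := congrFun (congrFun h' 0) 0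
      have e1 := congrFun (congrFun h' 0) 1
      simp [e, diag_coe, upS_coe, Matrix.mul_apply] at e0 e1
      obtain rfl : a = a' := Units.ext e0
      exact Prod.ext rfl (by simpa using e1)
    · rintro ⟨g, hg⟩
      obtain ⟨a, x, hax, -⟩ := borel_exists (borelU_eq_borel (F := F) ▸ hg)
      exact ⟨(a, x), Subtype.ext hax.symm⟩
  have h00 : ∀ w, borelChar α (e w) = α (w.1 : F) := by
    intro w
    simp [borelChar, e, diag_coe, upS_coe, Matrix.mul_apply]
  have horth : ∀ γ : MulChar F ℂ, ∑ a : Fˣ, γ (a : F) = if γ = 1 then (Fintype.card Fˣ : ℂ) else 0 := by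
    intro γ
    by_cases hγ : γ = 1
    · rw [if_pos hγ, hγ, Finset.sum_congr rfl (g := fun _ => 1) (fun a _ => MulChar.one_apply_coe a)]
      simp
    · rw [if_neg hγ]
      have h := MulChar.sum_eq_zero_of_ne_one hγ
      rw [← Finset.add_sum_erase Finset.univ _ (Finset.mem_univ (0 : F)),
        MulChar.map_nonunit _ not_isUnit_zero, zero_add] at h
      rw [← h]
      refine Finset.sum_bij (fun a _ => (a : F)) (fun a _ => Finset.mem_erase.2 ⟨a.ne_zero, Finset.mem_univ _⟩)
        (fun a _ b _ h => Units.ext h) (fun b hb => ⟨Units.mk0 b (Finset.mem_erase.1 hb).1, Finset.mem_univ _, rfl⟩)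
        (fun _ _ => rfl)
  have hsum : ∑ b : borelU F, borelChar α b * conj (principalSeries β (b : SL(2, F))) =
      (q : ℂ) * ((if α = β then (Fintype.card Fˣ : ℂ) else 0) + (if α = β⁻¹ then (Fintype.card Fˣ : ℂ) else 0)) := by
    rw [← Fintype.sum_bijective e he _ (fun b => borelChar α b * conj (principalSeries β (b : SL(2, F)))) (fun _ => rfl),
      Fintype.sum_prod_type]
    have hstep : ∀ a : Fˣ, ∑ x : F, borelChar α (e (a, x)) * conj (principalSeries β ((e (a, x) : borelU F) : SL(2, F))) =
        (q : ℂ) * ((α * β⁻¹) (a : F) + (α * β) (a : F)) := by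
      intro a
      simp only [h00]
      show ∑ x : F, α (a : F) * conj (principalSeries β (diag a * upS x)) = _
      simp only [hval]
      rw [← Finset.mul_sum, ← map_sum, Finset.sum_add_distrib, Finset.sum_const, Finset.card_univ, nsmul_eq_mul]
      have hz : ∑ x : F, (if (a : F) = ((a⁻¹ : Fˣ) : F) then (if x = 0 then (q : ℂ) - 1 else -1) * β a else 0) = 0 := by
        by_cases ha : (a : F) = ((a⁻¹ : Fˣ) : F)
        · simp only [if_pos ha]
          rw [← Finset.sum_mul, Finset.sum_ite, Finset.sum_const, Finset.sum_const, Finset.filter_ne',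
            Finset.card_erase_of_mem (Finset.mem_univ _), Finset.filter_eq', if_pos (Finset.mem_univ _),
            Finset.card_singleton, Finset.card_univ, one_smul, nsmul_eq_mul, Nat.cast_sub Fintype.card_pos]
          simp [hq]
        · simp only [if_neg ha, Finset.sum_const_zero]
      rw [hz, add_zero, map_mul, Complex.conj_natCast, map_add]
      have hc : ∀ u : Fˣ, conj (β (u : F)) = β ((u⁻¹ : Fˣ) : F) := by
        intro u
        rw [← Ring.inverse_unit u, ← MulChar.inv_apply, ← MulChar.star_apply']
        rfl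
      rw [hc, hc, inv_inv, MulChar.mul_apply, MulChar.mul_apply, MulChar.inv_apply, Ring.inverse_unit]
      ring
    rw [Finset.sum_congr rfl (fun a _ => hstep a), ← Finset.mul_sum, Finset.sum_add_distrib, horth, horth]
    congr 2
    · by_cases h : α = β
      · simp [h]
      · rw [if_neg h, if_neg]
        exact fun h' => h (mul_inv_eq_one.1 h')
    · by_cases h : α = β⁻¹
      · simp [h]
      · rw [if_neg h, if_neg]
        exact fun h' => h (eq_inv_of_mul_eq_one_left h')
  unfold Cfsg.classInner
  rw [hsum, borelU_eq_borel, card_borel, Nat.card_eq_fintype_card, ← hq, Fintype.card_units, ← hq, Nat.cast_mul]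
  have h1 : (q : ℂ) ≠ 0 := Nat.cast_ne_zero.2 Fintype.card_ne_zero
  have h2 : ((q - 1 : ℕ) : ℂ) ≠ 0 := Nat.cast_ne_zero.2 (by have := Fintype.one_lt_card (α := F); omega)
  split_ifs <;> field_simp <;> simp

end Cfsg.Agent.S2432
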