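import Cfsg.Statements.S2435
import Cfsg.Agent.Lib.CharDegrees.SL2Classify

set_option autoImplicit false
open Cfsg
open CfsgLib.CharDegrees CfsgLib.SL2
open CfsgLib.ClassicalLinear (upS upS_coe upS_injective)

namespace Cfsg.Agent.S2435

/-- Let F be a finite field with q elements, q odd and q ≥ 5, and χ an irreducible complex character of SL₂ over F. If χ has degree (q + 1)/2, then at a diagonal element with entry a, a² ≠ 1, χ takes the value 1 when a is a square in F and −1 otherwise. If χ has degree (q − 1)/2, then at an element g with no eigenvector in F² (so g has order dividing q + 1), χ takes the value −1 when g raised to the power (q + 1)/2 is the identity and the value 1 otherwise. -/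
theorem result {F : Type*} [Field F] [Fintype F] (hodd : Odd (Fintype.card F)) (hq : 5 ≤ Fintype.card F)
    (χ : Matrix.SpecialLinearGroup (Fin 2) F → ℂ) (hχ : Cfsg.IsIrrCharacter (Matrix.SpecialLinearGroup (Fin 2) F) χ) (g : Matrix.SpecialLinearGroup (Fin 2) F) :
    (χ 1 = (((Fintype.card F + 1) / 2 : ℕ) : ℂ) → (g : Matrix (Fin 2) (Fin 2) F) 0 1 = 0 → (g : Matrix (Fin 2) (Fin 2) F) 1 0 = 0 → (g : Matrix (Fin 2) (Fin 2) F) 0 0 ^ 2 ≠ 1 →
      (IsSquare ((g : Matrix (Fin 2) (Fin 2) F) 0 0) → χ g = 1) ∧ (¬ IsSquare ((g : Matrix (Fin 2) (Fin 2) F) 0 0) → χ g = -1)) ∧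
    (χ 1 = (((Fintype.card F - 1) / 2 : ℕ) : ℂ) → (∀ (c : F) (v : Fin 2 → F), v ≠ 0 → (g : Matrix (Fin 2) (Fin 2) F).mulVec v ≠ c • v) →
      (((g ^ ((Fintype.card F + 1) / 2)) : Matrix (Fin 2) (Fin 2) F) = 1 → χ g = -1) ∧ (((g ^ ((Fintype.card F + 1) / 2)) : Matrix (Fin 2) (Fin 2) F) ≠ 1 → χ g = 1)) := by
  classical
  have h2 := two_ne_zero_of_odd_card hodd
  obtain ⟨C, hT⟩ := exists_nonsplitTorus h2
  haveI := hT.finite_hom
  letI := Fintype.ofFinite (C →* ℂˣ)
  obtain ⟨n, -, hn⟩ := CfsgLib.CharTheory.exists_degree_of_isIrr hχ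
  obtain ⟨m, hm⟩ := hodd
  have hcase := hT.irr_trichotomy hχ
  rw [hn]
  refine ⟨fun h h01 h10 hsq => ?_, fun h hev => ?_⟩
  · have h0 : (g : Matrix (Fin 2) (Fin 2) F) 0 0 ≠ 0 := by
      intro e
      have hd := det_eq g
      rw [e, h01] at hd
      simp at hd
    have hg := diag_mk0_eq h01 h10 h0
    have ha : (Units.mk0 _ h0 : Fˣ) ^ 2 ≠ 1 := fun e => hsq (by simpa [Units.ext_iff] using e)
    rcases hcase with ⟨h', hs⟩ | ⟨h', hs⟩ | ⟨h', hs⟩ | ⟨θ, -, -, h', hs⟩ | ⟨h', hs, -, hv⟩ | ⟨h', hs, -⟩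
    case inr.inr.inr.inr.inl =>
      have := hv _ ha
      rw [← hg, Units.val_mk0] at this
      exact ⟨fun e => by rw [this, if_pos e], fun e => by rw [this, if_neg e]⟩
    all_goals
      exfalso
      rw [hn] at h'
      try simp only [sub_eq_iff_eq_add, eq_sub_iff_add_eq] at h h'
      norm_cast at h h'
      omega
  · rcases hcase with ⟨h', hs⟩ | ⟨h', hs⟩ | ⟨h', hs⟩ | ⟨θ, -, -, h', hs⟩ | ⟨h', hs, -, hv⟩ | ⟨h', hs, hv⟩
    case inr.inr.inr.inr.inr =>
      obtain ⟨k, hk, hkc⟩ := hT.exists_conj hev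
      have hcv := hv ⟨_, hk⟩ hkc
      rw [CfsgLib.CharTheory.IsIrrCharacter.isClassFunction hχ g k] at hcv
      have hiff : ((⟨_, hk⟩ : C) ^ ((Fintype.card F + 1) / 2) = 1) ↔
          (g : Matrix (Fin 2) (Fin 2) F) ^ ((Fintype.card F + 1) / 2) = 1 := by
        rw [Subtype.ext_iff, SubgroupClass.coe_pow, OneMemClass.coe_one, conj_pow, conj_eq_one_iff]
        exact ⟨fun e => by simpa using congrArg Subtype.val e, fun e => Subtype.ext (by simpa using e)⟩
      simp only [hiff] at hcv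
      exact ⟨fun e => by rw [hcv, if_pos e], fun e => by rw [hcv, if_neg e]⟩
    all_goals
      exfalso
      rw [hn] at h'
      try simp only [sub_eq_iff_eq_add, eq_sub_iff_add_eq] at h h'
      norm_cast at h h'
      omega

end Cfsg.Agent.S2435
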