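import Cfsg.Statements.S2436
import Cfsg.Agent.Lib.CharDegrees.SL2Counts
import Cfsg.Agent.Lib.CharDegrees.SL2SylowNormalizer

set_option autoImplicit false
open Cfsg
open scoped MatrixGroups
open CfsgLib.CharDegrees CfsgLib.SL2

namespace Cfsg.Agent.S2436

theorem card_prime_degree_congr {A B : Type*} [Group A] [Group B] (e : A ≃* B) (P : ℕ → Prop) :
    Nat.card {χ : IrrCharacter B // P (charDegree (χ : B → ℂ))} =
      Nat.card {χ : IrrCharacter A // P (charDegree (χ : A → ℂ))} := by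
  refine Nat.card_congr
    { toFun := fun χ => ⟨⟨_, CfsgLib.CharTheory.isIrrCharacter_comp_mulEquiv χ.1.2 e⟩, ?_⟩
      invFun := fun χ => ⟨⟨_, CfsgLib.CharTheory.isIrrCharacter_comp_mulEquiv χ.1.2 e.symm⟩, ?_⟩
      left_inv := ?_
      right_inv := ?_ }
  · have := χ.2
    simpa [charDegree] using this
  · have := χ.2
    simpa [charDegree] using this
  · intro χ
    apply Subtype.ext
    apply Subtype.ext
    funext x
    simp
  · intro χ
    apply Subtype.ext
    apply Subtype.ext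
    funext x
    simp

theorem count_lhs {F : Type*} [Field F] [Fintype F] [DecidableEq F] (h2 : (2 : F) ≠ 0) (ℓ : ℕ) (hℓ : 2 ≤ ℓ) (m : ℕ)
    (h : 2 * (if ℓ ∣ Fintype.card F then 0 else 1) + (Fintype.card F - 3) * (if ℓ ∣ Fintype.card F + 1 then 0 else 1) +
      (Fintype.card F - 1) * (if ℓ ∣ Fintype.card F - 1 then 0 else 1) +
      4 * (if ℓ ∣ (Fintype.card F + 1) / 2 then 0 else 1) + 4 * (if ℓ ∣ (Fintype.card F - 1) / 2 then 0 else 1) + 2 = 2 * m) :
    Nat.card {χ : IrrCharacter (SL(2, F)) // ¬ ℓ ∣ charDegree (χ : SL(2, F) → ℂ)} = m := by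
  have hq : 3 ≤ Fintype.card F := by
    have := (odd_facts h2).2.2
    have := Fintype.one_lt_card (α := F)
    omega
  have h1 : ¬ ℓ ∣ 1 := fun h => by have := Nat.le_of_dvd one_pos h; omega
  have hc := two_mul_count h2 (fun n => ¬ ℓ ∣ n) (F := F)
  have h' : ((2 * m : ℕ) : ℂ) = ((2 * Nat.card {χ : IrrCharacter (SL(2, F)) // ¬ ℓ ∣ charDegree (χ : SL(2, F) → ℂ)} : ℕ) : ℂ) := by
    rw [hc, ← h]
    push_cast [Nat.cast_sub hq, Nat.cast_sub (le_trans (by norm_num : 1 ≤ 3) hq)]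
    simp only [h1, not_false_eq_true, if_true, ite_not]
    ring
  have := Nat.cast_injective h'
  omega

/-- Let F be a finite field with q elements, q odd, ℓ any prime and S a Sylow ℓ-subgroup of SL₂ over F with normaliser N. Then SL₂ and N have the same number of irreducible complex characters of degree not divisible by ℓ (the McKay equality holds for SL₂ over F at every prime). -/
theorem result {F : Type*} [Field F] [Fintype F] (hodd : Odd (Fintype.card F)) (ℓ : ℕ) [Fact ℓ.Prime] (S : Sylow ℓ (Matrix.SpecialLinearGroup (Fin 2) F)) :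
    Nat.card {χ : Cfsg.IrrCharacter (Matrix.SpecialLinearGroup (Fin 2) F) // ¬ ℓ ∣ Cfsg.charDegree (χ : Matrix.SpecialLinearGroup (Fin 2) F → ℂ)} =
      Nat.card {ψ : Cfsg.IrrCharacter (Subgroup.normalizer ((S : Subgroup (Matrix.SpecialLinearGroup (Fin 2) F)) : Set (Matrix.SpecialLinearGroup (Fin 2) F))) //
        ¬ ℓ ∣ Cfsg.charDegree (ψ : Subgroup.normalizer ((S : Subgroup (Matrix.SpecialLinearGroup (Fin 2) F)) : Set (Matrix.SpecialLinearGroup (Fin 2) F)) → ℂ)} := by
  classical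
  have h2 := two_ne_zero_of_odd_card hodd
  obtain ⟨p, hp, hchar, hpq⟩ := exists_charP (F := F)
  rw [Nat.card_eq_fintype_card] at hpq
  obtain ⟨n, -, hn⟩ := @FiniteField.card F _ _ p hchar
  have hq := Fintype.one_lt_card (α := F)
  have ho := (odd_facts h2).2.2
  have hl : ℓ.Prime := Fact.out
  have hnot : ℓ ≠ p → ¬ ℓ ∣ Fintype.card F := fun h h' =>
    h ((Nat.prime_dvd_prime_iff_eq hl hp).1 (hl.dvd_of_dvd_pow (hn ▸ h')))
  have hone : ¬ ℓ ∣ 1 := hl.not_dvd_one
  have d2 : ∀ a b : ℕ, ℓ ∣ a → ℓ ∣ b → ℓ ∣ a - b := fun a b => Nat.dvd_sub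
  by_cases hℓp : ℓ = p
  · subst hℓp
    haveI := hchar
    have hl2 : ℓ ≠ 2 := fun e => ho (e ▸ hpq)
    have a1 : ¬ ℓ ∣ Fintype.card F + 1 := fun h => hone (by simpa using d2 _ _ h hpq)
    have a2 : ¬ ℓ ∣ Fintype.card F - 1 := fun h => hone (by
      have := d2 _ _ hpq h
      rwa [Nat.sub_sub_self hq.le] at this)
    rw [card_prime_degree_normalizer_char hodd ℓ S]
    refine count_lhs h2 ℓ hl.two_le _ ?_
    rw [if_pos hpq, if_neg a1, if_neg a2,
      if_neg (fun h => a1 (h.trans ⟨2, by omega⟩)), if_neg (fun h => a2 (h.trans ⟨2, by omega⟩))]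
    omega
  have hq0 := hnot hℓp
  by_cases hl2 : ℓ = 2
  · subst hl2
    rw [card_odd_degree_normalizer_two h2 S]
    refine count_lhs h2 2 le_rfl _ ?_
    rw [if_neg hq0, if_pos (by omega), if_pos (by omega)]
    split_ifs <;> omega
  by_cases hd : ℓ ∣ Nat.card F - 1 ∨ ℓ ∣ Nat.card F + 1
  · have hN := card_prime_degree_normalizer_odd h2 ℓ hl2 hd S
    rw [Nat.card_eq_fintype_card (α := F)] at hN hd
    have hl3 : 3 ≤ ℓ := by have := hl.two_le; omega
    have hhalf : ∀ a b : ℕ, a = 2 * b → (ℓ ∣ a ↔ ℓ ∣ b) := fun a b e => by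
      rw [e, hl.dvd_mul]
      exact or_iff_right fun h => hl2 ((Nat.prime_dvd_prime_iff_eq hl Nat.prime_two).1 h)
    have e1 := hhalf (Fintype.card F + 1) ((Fintype.card F + 1) / 2) (by omega)
    have e2 := hhalf (Fintype.card F - 1) ((Fintype.card F - 1) / 2) (by omega)
    have hexcl : ¬ (ℓ ∣ Fintype.card F - 1 ∧ ℓ ∣ Fintype.card F + 1) := fun ⟨a, b⟩ => by
      have := Nat.le_of_dvd (by omega) (d2 _ _ b a)
      omega
    refine count_lhs h2 ℓ hl.two_le _ ?_
    simp only [← e1, ← e2, if_neg hq0]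
    rcases hd with h | h
    · simp only [h, if_true, if_neg (fun h' => hexcl ⟨h, h'⟩)] at hN ⊢
      omega
    · simp only [h, if_true, if_neg (fun h' => hexcl ⟨h', h⟩)] at hN ⊢
      omega
  · have hG : ¬ ℓ ∣ Nat.card (SL(2, F)) := by
      rw [card_SL, show Nat.card F ^ 2 - 1 = (Nat.card F + 1) * (Nat.card F - 1) from Nat.sq_sub_sq _ 1,
        hl.dvd_mul, hl.dvd_mul]
      rintro (h | h | h)
      · exact hq0 (Nat.card_eq_fintype_card (α := F) ▸ h)
      · exact hd (Or.inr h)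
      · exact hd (Or.inl h)
    have hS : (S : Subgroup (SL(2, F))) = ⊥ := by
      rw [← Subgroup.card_eq_one, S.card_eq_multiplicity, Nat.factorization_eq_zero_of_not_dvd hG, pow_zero]
    have hN : Subgroup.normalizer ((S : Subgroup (SL(2, F))) : Set (SL(2, F))) = ⊤ := by
      rw [hS]; exact Subgroup.normalizer_eq_top (⊥ : Subgroup (SL(2, F)))
    exact (card_prime_degree_congr ((MulEquiv.subgroupCongr hN).trans Subgroup.topEquiv) (fun n => ¬ ℓ ∣ n))

end Cfsg.Agent.S2436
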