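import Cfsg.Statements.S2439
import Cfsg.Agent.Lib.CharDegrees.SL2Classify
import Cfsg.Agent.Lib.Correspondences.PrincipalBlock
import Cfsg.Agent.Lib.Blocks.Idempotent
import Cfsg.Agent.Lib.ZerosCodegree.CharBasics

set_option autoImplicit false
set_option linter.unusedSectionVars false
open Cfsg
open scoped MatrixGroups ComplexConjugate
open CfsgLib.CharDegrees CfsgLib.SL2 CfsgLib.Blocks
open CfsgLib.ClassicalLinear (upS upS_coe upS_injective upS_add)

namespace Cfsg.Agent.S2439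

variable {F : Type*} [Field F] [Fintype F] [DecidableEq F]

theorem degree_cases (h2 : (2 : F) ≠ 0) (p : ℕ) [Fact p.Prime] [CharP F p] {χ : SL(2, F) → ℂ}
    (hχ : IsIrrCharacter (SL(2, F)) χ) :
    χ = (fun g => principalSeries (1 : MulChar F ℂ) g - 1) ∨
      (¬ p ∣ charDegree χ ∧ χ 1 ≠ (Fintype.card F : ℂ)) := by
  classical
  obtain ⟨C, hT⟩ := exists_nonsplitTorus h2
  haveI := hT.finite_hom
  letI := Fintype.ofFinite (C →* ℂˣ)
  obtain ⟨η, hη1, hηi, hηu, -⟩ := hT.exists_quadratic_char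
  obtain ⟨θ₀, hθ1, hθi, hθu, -⟩ := hT.exists_quadratic_hom
  obtain ⟨n, hp, hn⟩ := FiniteField.card F p
  have hpq : p ∣ Fintype.card F := hn ▸ dvd_pow_self p n.ne_zero
  have ho := (odd_facts h2).2.2
  have hq := Fintype.one_lt_card (α := F)
  obtain ⟨d, -, hd⟩ := CfsgLib.CharTheory.exists_degree_of_isIrr hχ
  rw [CfsgLib.ZerosCodegree.charDegree_eq hd, hd, ne_eq, Nat.cast_inj]
  have h1 : ¬ p ∣ 1 := hp.not_dvd_one
  have key : d = 1 ∨ d = Fintype.card F + 1 ∨ d + 1 = Fintype.card F ∨ 2 * d = Fintype.card F + 1 ∨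
      2 * d + 1 = Fintype.card F → ¬ p ∣ d ∧ ¬ d = Fintype.card F := by
    intro h
    refine ⟨fun hdvd => h1 ?_, by omega⟩
    rcases h with h | h | h | h | h
    · exact h ▸ hdvd
    · exact (Nat.dvd_add_right hpq).1 (h ▸ hdvd)
    · exact (Nat.dvd_add_right hdvd).1 (h.symm ▸ hpq)
    · exact (Nat.dvd_add_right hpq).1 (h ▸ hdvd.mul_left 2)
    · exact (Nat.dvd_add_right (hdvd.mul_left 2)).1 (h.symm ▸ hpq)
  rcases hT.irr_cases hη1 hηu hηi hθ1 hθu hθi hχ with h | h | ⟨α, -, h⟩ | ⟨θ, -, h⟩ | ⟨h, -⟩ | ⟨h, -⟩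
  · refine Or.inr (key (Or.inl (Nat.cast_injective (R := ℂ) ?_)))
    rw [h] at hd
    rw [← hd]
    simp
  · exact Or.inl h
  · refine Or.inr (key (Or.inr (Or.inl ?_)))
    rw [h, principalSeries_apply_one] at hd
    exact_mod_cast hd.symm
  · refine Or.inr (key (Or.inr (Or.inr (Or.inl ?_))))
    rw [h, hT.dser_one, sub_eq_iff_eq_add] at hd
    exact_mod_cast hd.symm
  · refine Or.inr (key (Or.inr (Or.inr (Or.inr (Or.inl ?_)))))
    rw [hd] at h
    exact_mod_cast h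
  · refine Or.inr (key (Or.inr (Or.inr (Or.inr (Or.inr ?_)))))
    rw [hd, eq_sub_iff_add_eq] at h
    exact_mod_cast h

theorem sign_cases (h2 : (2 : F) ≠ 0) {χ : SL(2, F) → ℂ} (hχ : IsIrrCharacter (SL(2, F)) χ) :
    χ (-1) = χ 1 ∨ χ (-1) = -χ 1 := by
  have h := apply_central_mul hχ neg_one_mem_center (-1 : SL(2, F))
  rw [neg_mul_neg, one_mul] at h
  exact mul_self_eq_mul_self_iff.1 h.symm

theorem steinberg_neg_one :
    (fun g : SL(2, F) => principalSeries (1 : MulChar F ℂ) g - 1) (-1) = (Fintype.card F : ℂ) := by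
  show principalSeries (1 : MulChar F ℂ) (-1) - 1 = _
  rw [principalSeries_upper 1 (-1) (by simp)]
  simp [MulChar.one_apply]

theorem centralChar_conj {χ : SL(2, F) → ℂ} (hχ : IsClassFunction (SL(2, F)) χ) (g k : SL(2, F)) :
    centralChar χ (k * g * k⁻¹) = centralChar χ g := by
  rw [centralChar, centralChar, hχ]
  congr 3
  have h : (Subgroup.centralizer ({k * g * k⁻¹} : Set (SL(2, F)))) =
      (Subgroup.centralizer ({g} : Set (SL(2, F)))).map (MulAut.conj k).toMonoidHom := by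
    ext x
    simp only [Subgroup.mem_map_equiv, Subgroup.mem_centralizer_singleton_iff]
    constructor
    · intro h
      have := congrArg (fun y => k⁻¹ * y * k) h
      simpa [mul_assoc] using this
    · intro h
      have := congrArg (fun y => k * y * k⁻¹) h
      simpa [mul_assoc] using this
  rw [h]
  exact Subgroup.index_map_equiv _ (MulAut.conj k)

variable {p : ℕ} [Fact p.Prime] [CharP F p] {M : Ideal AlgInt}

theorem index_dvd {g : SL(2, F)} (ht : tr g ^ 2 ≠ 4) :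
    p ∣ (Subgroup.centralizer ({g} : Set (SL(2, F)))).index := by
  obtain ⟨n, hp, hn⟩ := FiniteField.card F p
  have h := (Subgroup.centralizer ({g} : Set (SL(2, F)))).card_mul_index
  rw [CfsgLib.SL2.card_SL, Nat.card_eq_fintype_card (α := F)] at h
  refine (hp.dvd_mul.1 (h ▸ ((hn ▸ dvd_pow_self p n.ne_zero : p ∣ Fintype.card F).mul_right _))).resolve_left ?_
  intro hdvd
  have hpq : p ∣ Nat.card F := by rw [Nat.card_eq_fintype_card, hn]; exact dvd_pow_self p n.ne_zero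
  have := Finite.one_lt_card (α := F)
  rcases card_centralizer_or ht with e | e <;> rw [e] at hdvd
  · have := Nat.dvd_sub hpq hdvd
    rw [Nat.sub_sub_self (by omega)] at this
    exact hp.not_dvd_one this
  · exact hp.not_dvd_one ((Nat.dvd_add_right hpq).1 hdvd)

theorem ideal_semisimple (hM : IsPModular p M) {χ : SL(2, F) → ℂ} (hχ : IsIrrCharacter (SL(2, F)) χ)
    (hd : ¬ p ∣ charDegree χ) {g : SL(2, F)} (ht : tr g ^ 2 ≠ 4) : MemLocalIdeal M (centralChar χ g) := by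
  haveI := isPrime_of_isPModular hM
  have hc := CfsgLib.CharTheory.IsIrrCharacter.isCharacter hχ
  rw [centralChar, CfsgLib.ZerosCodegree.isCharacter_apply_one_eq hc, div_eq_mul_inv, mul_assoc]
  exact memLocalIdeal_mul_right ((memLocalIdeal_natCast_iff hM _).2 (index_dvd ht))
    (memLocalRing_mul (memLocalRing_of_isIntegral (CfsgLib.CharTheory.IsCharacter.isIntegral hc g))
      (memLocalRing_inv_natCast hM hd))

theorem sameBlock_of_sign (hM : IsPModular p M) (h2 : (2 : F) ≠ 0) {χ ψ : SL(2, F) → ℂ}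
    (hχ : IsIrrCharacter (SL(2, F)) χ) (hψ : IsIrrCharacter (SL(2, F)) ψ)
    (hdχ : ¬ p ∣ charDegree χ) (hdψ : ¬ p ∣ charDegree ψ) (s : ℂ) (hsχ : χ (-1) = s * χ 1)
    (hsψ : ψ (-1) = s * ψ 1) : SameBlock M χ ψ := by
  haveI := isPrime_of_isPModular hM
  intro g
  by_cases ht : tr g ^ 2 = 4
  swap
  · exact memLocalIdeal_sub (ideal_semisimple hM hχ hdχ ht) (ideal_semisimple hM hψ hdψ ht)
  obtain ⟨k, ε, x, hε, hk⟩ := trichotomy ht
  rw [← centralChar_conj (CfsgLib.CharTheory.IsIrrCharacter.isClassFunction hχ) g k,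
    ← centralChar_conj (CfsgLib.CharTheory.IsIrrCharacter.isClassFunction hψ) g k, hk]
  obtain ⟨c, hc, hcχ, hcψ⟩ : ∃ c : ℂ, MemLocalRing M c ∧ χ (ε * upS x) = c * χ (upS x) ∧
      ψ (ε * upS x) = c * ψ (upS x) := by
    rcases (mem_center_iff ε).1 hε with rfl | rfl
    · exact ⟨1, by simpa using memLocalRing_natCast (M := M) 1, by simp, by simp⟩
    · have hs : ∀ φ : SL(2, F) → ℂ, IsIrrCharacter (SL(2, F)) φ → φ (-1) = s * φ 1 →
          φ (-1 * upS x) = s * φ (upS x) := fun φ hφ h => by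
        apply mul_left_cancel₀ (CfsgLib.CharTheory.apply_one_ne_zero_of_isIrr hφ)
        rw [apply_central_mul hφ neg_one_mem_center, h]
        ring
      refine ⟨s, ?_, hs χ hχ hsχ, hs ψ hψ hsψ⟩
      rcases sign_cases h2 hχ with h | h <;> rw [hsχ] at h
      · rw [mul_eq_right₀ (CfsgLib.CharTheory.apply_one_ne_zero_of_isIrr hχ)] at h
        rw [h]; simpa using memLocalRing_natCast (M := M) 1
      · rw [← neg_one_mul (χ 1), mul_left_inj' (CfsgLib.CharTheory.apply_one_ne_zero_of_isIrr hχ)] at h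
        rw [h]; simpa using memLocalRing_intCast (M := M) (-1)
  have hu : ∀ φ : SL(2, F) → ℂ, IsIrrCharacter (SL(2, F)) φ → ¬ p ∣ charDegree φ →
      MemLocalIdeal M (φ (upS x) / φ 1 - 1) := fun φ hφ hd => by
    have hc' := CfsgLib.CharTheory.IsIrrCharacter.isCharacter hφ
    have h := CfsgLib.Correspondences.memLocalIdeal_apply_sub_one hM hc' (g := upS x) (k := 1)
      (by rw [pow_one, upS_pow, CharP.cast_eq_zero, zero_mul, upS_zero])
    have hne := CfsgLib.CharTheory.apply_one_ne_zero_of_isIrr hφ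
    rw [show φ (upS x) / φ 1 - 1 = (φ (upS x) - φ 1) * (φ 1)⁻¹ by field_simp]
    exact memLocalIdeal_mul_right h (by
      rw [CfsgLib.ZerosCodegree.isCharacter_apply_one_eq hc']; exact memLocalRing_inv_natCast hM hd)
  rw [centralChar, centralChar, hcχ, hcψ]
  set i : ℂ := (((Subgroup.centralizer ({ε * upS x} : Set (SL(2, F)))).index : ℕ) : ℂ) with hi
  rw [show i * (c * χ (upS x)) / χ 1 - i * (c * ψ (upS x)) / ψ 1 =
    (i * c) * ((χ (upS x) / χ 1 - 1) - (ψ (upS x) / ψ 1 - 1)) by ring]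
  exact memLocalIdeal_mul_left (memLocalRing_mul (memLocalRing_natCast _) hc)
    (memLocalIdeal_sub (hu χ hχ hdχ) (hu ψ hψ hdψ))

set_option maxHeartbeats 1600000 in
/-- Let F be a finite field with q elements of odd characteristic p, and M a maximal ideal of the algebraic integers containing p. Then SL₂ over F has exactly three p-blocks relative to M: the irreducible character of degree q (the Steinberg character) alone; the other irreducible characters taking the same value at −1 as at 1 (the principal block); and the irreducible characters χ with χ(−1) = −χ(1). Every Sylow p-subgroup is a defect group of each of the last two blocks. -/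
theorem result {F : Type*} [Field F] [Fintype F] (p : ℕ) [Fact p.Prime] [CharP F p] (hp : p ≠ 2)
    (M : Ideal Cfsg.AlgInt) (hM : Cfsg.IsPModular p M) :
    (∀ B : Set (Cfsg.IrrCharacter (Matrix.SpecialLinearGroup (Fin 2) F)), Cfsg.IsPBlock M B ↔
      (B = {χ : Cfsg.IrrCharacter (Matrix.SpecialLinearGroup (Fin 2) F) | (χ : Matrix.SpecialLinearGroup (Fin 2) F → ℂ) 1 = (Fintype.card F : ℂ)} ∨
       B = {χ : Cfsg.IrrCharacter (Matrix.SpecialLinearGroup (Fin 2) F) | (χ : Matrix.SpecialLinearGroup (Fin 2) F → ℂ) (-1) = (χ : Matrix.SpecialLinearGroup (Fin 2) F → ℂ) 1 ∧ (χ : Matrix.SpecialLinearGroup (Fin 2) F → ℂ) 1 ≠ (Fintype.card F : ℂ)} ∨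
       B = {χ : Cfsg.IrrCharacter (Matrix.SpecialLinearGroup (Fin 2) F) | (χ : Matrix.SpecialLinearGroup (Fin 2) F → ℂ) (-1) = -(χ : Matrix.SpecialLinearGroup (Fin 2) F → ℂ) 1})) ∧
    Nat.card {B : Set (Cfsg.IrrCharacter (Matrix.SpecialLinearGroup (Fin 2) F)) // Cfsg.IsPBlock M B} = 3 ∧
    ∀ P : Sylow p (Matrix.SpecialLinearGroup (Fin 2) F),
      Cfsg.IsDefectGroup p M {χ : Cfsg.IrrCharacter (Matrix.SpecialLinearGroup (Fin 2) F) | (χ : Matrix.SpecialLinearGroup (Fin 2) F → ℂ) (-1) = (χ : Matrix.SpecialLinearGroup (Fin 2) F → ℂ) 1 ∧ (χ : Matrix.SpecialLinearGroup (Fin 2) F → ℂ) 1 ≠ (Fintype.card F : ℂ)} (P : Subgroup (Matrix.SpecialLinearGroup (Fin 2) F)) ∧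
      Cfsg.IsDefectGroup p M {χ : Cfsg.IrrCharacter (Matrix.SpecialLinearGroup (Fin 2) F) | (χ : Matrix.SpecialLinearGroup (Fin 2) F → ℂ) (-1) = -(χ : Matrix.SpecialLinearGroup (Fin 2) F → ℂ) 1} (P : Subgroup (Matrix.SpecialLinearGroup (Fin 2) F)) := by
  classical
  have h2 : (2 : F) ≠ 0 := fun h => hp ((Nat.prime_dvd_prime_iff_eq Fact.out Nat.prime_two).1
    ((CharP.cast_eq_zero_iff F p 2).1 (by exact_mod_cast h)))
  haveI := isPrime_of_isPModular hM
  obtain ⟨n, hp', hn⟩ := FiniteField.card F p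
  have hpq : p ∣ Fintype.card F := hn ▸ dvd_pow_self p n.ne_zero
  have hq := Fintype.one_lt_card (α := F)
  let IrrG := IrrCharacter (SL(2, F))
  letI : Fintype IrrG := Fintype.ofFinite _
  set St : SL(2, F) → ℂ := fun g => principalSeries (1 : MulChar F ℂ) g - 1 with hStdef
  have hSt1 : St 1 = (Fintype.card F : ℂ) := by simp [hStdef, principalSeries_apply_one]
  have hStn : St (-1) = (Fintype.card F : ℂ) := steinberg_neg_one
  have hStirr : IsIrrCharacter (SL(2, F)) St := by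
    refine CfsgLib.CharTheory.isIrrCharacter_of_norm_one
      (CfsgLib.Brauer.isGeneralizedCharacter_sub
        (CfsgLib.CharTheory.IsCharacter.isGeneralizedCharacter (principalSeries_isChar 1))
        (CfsgLib.CharTheory.IsIrrCharacter.isGeneralizedCharacter CfsgLib.CharTheory.isIrrCharacter_one)) ?_ ?_
    · show classInner (principalSeries (1 : MulChar F ℂ) - fun _ => (1 : ℂ))
        (principalSeries (1 : MulChar F ℂ) - fun _ => (1 : ℂ)) = 1
      rw [CfsgLib.CharTheory.classInner_sub_left, CfsgLib.CharTheory.classInner_sub_right,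
        CfsgLib.CharTheory.classInner_sub_right, classInner_ps_ps, if_pos rfl, if_pos (one_mul 1),
        CfsgLib.CharTheory.classInner_conj_symm (principalSeries 1), classInner_one_ps, if_pos rfl,
        CfsgLib.CharTheory.classInner_self_of_isIrr CfsgLib.CharTheory.isIrrCharacter_one, map_one]
      ring
    · show 0 < (St 1).re
      rw [hSt1]; simp; omega
  have hq0 : (Fintype.card F : ℂ) ≠ 0 := Nat.cast_ne_zero.2 Fintype.card_ne_zero
  set B₁ : Set IrrG := {χ | (χ : SL(2, F) → ℂ) 1 = (Fintype.card F : ℂ)} with hB₁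
  set B₂ : Set IrrG := {χ | (χ : SL(2, F) → ℂ) (-1) = (χ : SL(2, F) → ℂ) 1 ∧
    (χ : SL(2, F) → ℂ) 1 ≠ (Fintype.card F : ℂ)} with hB₂
  set B₃ : Set IrrG := {χ | (χ : SL(2, F) → ℂ) (-1) = -(χ : SL(2, F) → ℂ) 1} with hB₃
  have hB1mem : ∀ χ : IrrG, χ ∈ B₁ ↔ χ = ⟨St, hStirr⟩ := by
    intro χ
    constructor
    · intro h
      rcases degree_cases h2 p χ.2 with e | ⟨-, e⟩
      · exact Subtype.ext e
      · exact absurd h e
    · rintro rfl; exact hSt1
  have hdvd : ∀ χ : IrrG, χ ∉ B₁ → ¬ p ∣ charDegree (χ : SL(2, F) → ℂ) := fun χ h =>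
    ((degree_cases h2 p χ.2).resolve_left fun e => h ((hB1mem χ).2 (Subtype.ext e))).1
  have h23 : ∀ χ : IrrG, χ ∈ B₃ → χ ∉ B₁ := fun χ h h' => by
    rw [(hB1mem χ).1 h'] at h
    have h0 : St (-1) = -St 1 := h
    rw [hSt1, hStn] at h0
    exact hq0 (CharZero.eq_neg_self_iff.1 h0)
  -- a semisimple element separating the Steinberg character
  obtain ⟨C, hT⟩ := exists_nonsplitTorus h2
  obtain ⟨g₀, -, ht₀, hC₀, hroot⟩ := hT.exists_gen
  have hStω : ¬ MemLocalIdeal M (centralChar St (g₀ : SL(2, F))) := by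
    have hidx := (Subgroup.centralizer ({(g₀ : SL(2, F))} : Set (SL(2, F)))).card_mul_index
    rw [← hC₀, hT.card, CfsgLib.SL2.card_SL, Nat.card_eq_fintype_card,
      show Fintype.card F * (Fintype.card F ^ 2 - 1) = (Fintype.card F + 1) * (Fintype.card F * (Fintype.card F - 1)) from by
        rw [show Fintype.card F ^ 2 - 1 = (Fintype.card F + 1) * (Fintype.card F - 1) from Nat.sq_sub_sq _ 1]; ring] at hidx
    have hi := Nat.eq_of_mul_eq_mul_left (Nat.succ_pos _) hidx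
    rw [hC₀] at hi
    have hval : St (g₀ : SL(2, F)) = -1 := by
      show principalSeries (1 : MulChar F ℂ) (g₀ : SL(2, F)) - 1 = -1
      rw [principalSeries_of_no_eigenvector 1 _ (fun l v hv e => hroot l (NonsplitTorus.disc_torus.eigen_root hv e))]
      ring
    rw [centralChar, hi, hval, hSt1]
    push_cast [Nat.cast_sub hq.le]
    rw [show (Fintype.card F : ℂ) * ((Fintype.card F : ℂ) - 1) * -1 / (Fintype.card F : ℂ) =
      ((1 - (Fintype.card F : ℤ) : ℤ) : ℂ) by push_cast; field_simp; ring, memLocalIdeal_intCast_iff hM]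
    intro h
    have h' : (p : ℤ) ∣ 1 := by
      have := dvd_add h (Int.natCast_dvd_natCast.2 hpq)
      simpa using this
    exact hp'.not_dvd_one (by exact_mod_cast h')
  have hsame2 : ∀ χ ψ : IrrG, χ ∈ B₂ → ψ ∈ B₂ → SameBlock M (χ : SL(2, F) → ℂ) (ψ : SL(2, F) → ℂ) := fun χ ψ h h' =>
    sameBlock_of_sign hM h2 χ.2 ψ.2 (hdvd χ h.2) (hdvd ψ h'.2) 1 (by rw [one_mul]; exact h.1) (by rw [one_mul]; exact h'.1)
  have hsame3 : ∀ χ ψ : IrrG, χ ∈ B₃ → ψ ∈ B₃ → SameBlock M (χ : SL(2, F) → ℂ) (ψ : SL(2, F) → ℂ) := fun χ ψ h h' =>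
    sameBlock_of_sign hM h2 χ.2 ψ.2 (hdvd χ (h23 χ h)) (hdvd ψ (h23 ψ h')) (-1)
      (by rw [neg_one_mul]; exact h) (by rw [neg_one_mul]; exact h')
  have hsep : ∀ χ ψ : IrrG, χ ∈ B₁ → ψ ∉ B₁ → ¬ SameBlock M (χ : SL(2, F) → ℂ) (ψ : SL(2, F) → ℂ) := by
    intro χ ψ h h' hs
    have := memLocalIdeal_add (hs (g₀ : SL(2, F))) (ideal_semisimple hM ψ.2 (hdvd ψ h') ht₀)
    rw [(hB1mem χ).1 h] at this
    simp only [sub_add_cancel] at this
    exact hStω this
  have hcn : ∀ χ : SL(2, F) → ℂ, centralChar χ (-1) = χ (-1) / χ 1 := fun χ => by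
    rw [centralChar, show (Subgroup.centralizer ({(-1 : SL(2, F))} : Set (SL(2, F)))).index = 1 from by
      rw [Subgroup.index_eq_one, Subgroup.centralizer_eq_top_iff_subset]
      simp only [Set.singleton_subset_iff, SetLike.mem_coe]
      exact neg_one_mem_center]
    simp
  have hsep23 : ∀ χ ψ : IrrG, χ ∈ B₂ → ψ ∈ B₃ → ¬ SameBlock M (χ : SL(2, F) → ℂ) (ψ : SL(2, F) → ℂ) := by
    intro χ ψ h h' hs
    have := hs (-1)
    have e1 := CfsgLib.CharTheory.apply_one_ne_zero_of_isIrr χ.2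
    have e2 := CfsgLib.CharTheory.apply_one_ne_zero_of_isIrr ψ.2
    rw [hcn, hcn, h.1, show (ψ : SL(2, F) → ℂ) (-1) = -(ψ : SL(2, F) → ℂ) 1 from h', div_self e1, neg_div,
      div_self e2, sub_neg_eq_add, show (1 : ℂ) + 1 = ((2 : ℕ) : ℂ) by norm_num, memLocalIdeal_natCast_iff hM] at this
    exact hp ((Nat.prime_dvd_prime_iff_eq hp' Nat.prime_two).1 this)
  have hcov : ∀ χ : IrrG, χ ∈ B₁ ∨ χ ∈ B₂ ∨ χ ∈ B₃ := by
    intro χ
    by_cases h : χ ∈ B₁
    · exact Or.inl h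
    · rcases sign_cases h2 χ.2 with e | e
      · exact Or.inr (Or.inl ⟨e, h⟩)
      · exact Or.inr (Or.inr e)
  have hdis23 : ∀ χ : IrrG, χ ∈ B₂ → χ ∉ B₃ := fun χ h h' => hsep23 χ χ h h' (sameBlock_refl _)
  have hblk1 : ∀ χ : IrrG, χ ∈ B₁ → blockOf M (χ : SL(2, F) → ℂ) = B₁ := by
    intro χ h
    ext ψ
    constructor
    · intro hs
      by_contra h'
      exact hsep χ ψ h h' hs
    · intro h'
      rw [(hB1mem χ).1 h, (hB1mem ψ).1 h']
      exact sameBlock_refl _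
  have hblk2 : ∀ χ : IrrG, χ ∈ B₂ → blockOf M (χ : SL(2, F) → ℂ) = B₂ := by
    intro χ h
    ext ψ
    refine ⟨fun hs => ?_, fun h' => hsame2 χ ψ h h'⟩
    rcases hcov ψ with h' | h' | h'
    · exact absurd (sameBlock_symm hs) (hsep ψ χ h' h.2)
    · exact h'
    · exact absurd hs (hsep23 χ ψ h h')
  have hblk3 : ∀ χ : IrrG, χ ∈ B₃ → blockOf M (χ : SL(2, F) → ℂ) = B₃ := by
    intro χ h
    ext ψ
    refine ⟨fun hs => ?_, fun h' => hsame3 χ ψ h h'⟩
    rcases hcov ψ with h' | h' | h'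
    · exact absurd (sameBlock_symm hs) (hsep ψ χ h' (h23 χ h))
    · exact absurd (sameBlock_symm hs) (hsep23 ψ χ h' h)
    · exact h'
  have hn2 : ∃ χ : IrrG, χ ∈ B₂ := ⟨⟨_, CfsgLib.CharTheory.isIrrCharacter_one⟩, rfl, by
    show (1 : ℂ) ≠ _
    exact_mod_cast hq.ne⟩
  have hn3 : ∃ χ : IrrG, χ ∈ B₃ := by
    obtain ⟨χ, hχ⟩ := CfsgLib.CharTheory.exists_irr_apply_ne (neg_one_ne_one h2 (F := F))
    exact ⟨χ, (sign_cases h2 χ.2).resolve_left hχ⟩
  have hiff : ∀ B : Set IrrG, IsPBlock M B ↔ B = B₁ ∨ B = B₂ ∨ B = B₃ := by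
    intro B
    constructor
    · rintro ⟨χ, rfl⟩
      rcases hcov χ with h | h | h
      · exact Or.inl (hblk1 χ h)
      · exact Or.inr (Or.inl (hblk2 χ h))
      · exact Or.inr (Or.inr (hblk3 χ h))
    · rintro (rfl | rfl | rfl)
      · exact ⟨⟨St, hStirr⟩, (hblk1 _ ((hB1mem _).2 rfl)).symm⟩
      · obtain ⟨χ, h⟩ := hn2; exact ⟨χ, (hblk2 χ h).symm⟩
      · obtain ⟨χ, h⟩ := hn3; exact ⟨χ, (hblk3 χ h).symm⟩
  have h12 : B₁ ≠ B₂ := fun e => by
    have h := (hB1mem ⟨St, hStirr⟩).2 rfl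
    exact ((e ▸ h : (⟨St, hStirr⟩ : IrrG) ∈ B₂)).2 h
  have h13 : B₁ ≠ B₃ := fun e => by
    have h := (hB1mem ⟨St, hStirr⟩).2 rfl
    exact h23 _ (e ▸ h) h
  have h23' : B₂ ≠ B₃ := fun e => by
    obtain ⟨χ, h⟩ := hn2
    exact hdis23 χ h (e ▸ h)
  refine ⟨hiff, ?_, fun P => ?_⟩
  · show Nat.card {B : Set IrrG // IsPBlock M B} = 3
    rw [Nat.card_congr (Equiv.subtypeEquivRight hiff),
      show Nat.card {B : Set IrrG // B = B₁ ∨ B = B₂ ∨ B = B₃} = ({B₁, B₂, B₃} : Set (Set IrrG)).ncard from rfl,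
      Set.ncard_eq_three.2 ⟨B₁, B₂, B₃, h12, h13, h23', rfl⟩]
  · -- coefficients at the identity
    have hsum : ∀ B : Set IrrG, blockCoeff B 1 = (Nat.card (SL(2, F)) : ℂ)⁻¹ *
        ∑ χ : IrrG, if χ ∈ B then (χ : SL(2, F) → ℂ) 1 * (χ : SL(2, F) → ℂ) 1 else 0 := by
      intro B
      rw [blockCoeff_eq_sum]
      congr 1
      refine Finset.sum_congr rfl fun χ _ => ?_
      rw [CfsgLib.ZerosCodegree.irr_apply_one_eq χ]
      simp
    set S₂ := ∑ χ : IrrG, if χ ∈ B₂ then (χ : SL(2, F) → ℂ) 1 * (χ : SL(2, F) → ℂ) 1 else 0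
    set S₃ := ∑ χ : IrrG, if χ ∈ B₃ then (χ : SL(2, F) → ℂ) 1 * (χ : SL(2, F) → ℂ) 1 else 0
    have e1 : S₂ + S₃ + (Fintype.card F : ℂ) ^ 2 = (Nat.card (SL(2, F)) : ℂ) := by
      rw [← CfsgLib.CharTheory.sum_degree_sq (G := SL(2, F)),
        show (Fintype.card F : ℂ) ^ 2 = ∑ χ : IrrG, if χ = ⟨St, hStirr⟩ then (χ : SL(2, F) → ℂ) 1 ^ 2 else 0 by
          rw [Finset.sum_ite_eq', if_pos (Finset.mem_univ _)]; exact congrArg (· ^ 2) hSt1.symm,
        ← Finset.sum_add_distrib, ← Finset.sum_add_distrib]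
      refine Finset.sum_congr rfl fun χ _ => ?_
      rcases hcov χ with h | h | h
      · rw [if_neg (fun h' => h'.2 h), if_neg (fun h' => h23 χ h' h), if_pos ((hB1mem χ).1 h)]; ring
      · rw [if_pos h, if_neg (hdis23 χ h), if_neg (fun h' => h.2 ((hB1mem χ).2 h'))]; ring
      · rw [if_neg (fun h' => hdis23 χ h' h), if_pos h, if_neg (fun h' => h23 χ h ((hB1mem χ).2 h'))]; ring
    have e2 : S₂ - S₃ + (Fintype.card F : ℂ) ^ 2 = 0 := by
      have h := CfsgLib.CharTheory.sum_degree_mul (G := SL(2, F)) (-1)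
      rw [if_neg (neg_one_ne_one h2)] at h
      rw [← h,
        show (Fintype.card F : ℂ) ^ 2 = ∑ χ : IrrG, if χ = ⟨St, hStirr⟩ then (χ : SL(2, F) → ℂ) 1 ^ 2 else 0 by
          rw [Finset.sum_ite_eq', if_pos (Finset.mem_univ _)]; exact congrArg (· ^ 2) hSt1.symm,
        ← Finset.sum_sub_distrib, ← Finset.sum_add_distrib]
      refine Finset.sum_congr rfl fun χ _ => ?_
      rcases hcov χ with h | h | h
      · rw [if_neg (fun h' => h'.2 h), if_neg (fun h' => h23 χ h' h), if_pos ((hB1mem χ).1 h)]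
        rw [(hB1mem χ).1 h]
        show 0 - 0 + St 1 ^ 2 = St 1 * _
        simp only [hSt1, hStn, map_natCast]
        ring
      · rw [if_pos h, if_neg (hdis23 χ h), if_neg (fun h' => h.2 ((hB1mem χ).2 h')), h.1,
          CfsgLib.ZerosCodegree.irr_apply_one_eq χ]
        simp
      · rw [if_neg (fun h' => hdis23 χ h' h), if_pos h, if_neg (fun h' => h23 χ h ((hB1mem χ).2 h')),
          show (χ : SL(2, F) → ℂ) (-1) = -(χ : SL(2, F) → ℂ) 1 from h, CfsgLib.ZerosCodegree.irr_apply_one_eq χ]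
        simp
    have hG : (Nat.card (SL(2, F)) : ℂ) = (Fintype.card F : ℂ) * ((Fintype.card F : ℂ) ^ 2 - 1) := by
      rw [CfsgLib.SL2.card_SL, Nat.card_eq_fintype_card, Nat.cast_mul, Nat.cast_sub (Nat.one_le_pow _ _ (by omega))]
      push_cast; ring
    have hq2 : ¬ p ∣ Fintype.card F ^ 2 - 1 := fun h => by
      have h1 := Nat.dvd_sub (hpq.trans (dvd_pow_self _ two_ne_zero)) h
      rw [Nat.sub_sub_self (Nat.one_le_pow _ _ (by omega))] at h1
      exact hp'.not_dvd_one h1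
    have hq2' : ((Fintype.card F ^ 2 - 1 : ℕ) : ℂ) ≠ 0 := Nat.cast_ne_zero.2 fun h => hq2 (h ▸ dvd_zero p)
    have hp2 : ¬ p ∣ 2 := fun h => hp ((Nat.prime_dvd_prime_iff_eq hp' Nat.prime_two).1 h)
    have hc3 : blockCoeff B₃ 1 = ((2 : ℕ) : ℂ)⁻¹ := by
      rw [hsum, hG]
      push_cast [Nat.cast_sub (Nat.one_le_pow 2 _ (by omega : 0 < Fintype.card F))] at hq2'
      show _ * S₃ = _
      rw [show S₃ = (Fintype.card F : ℂ) * ((Fintype.card F : ℂ) ^ 2 - 1) / 2 by linear_combination (e1 - e2) / 2 + hG / 2]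
      push_cast
      field_simp
    have hc2 : blockCoeff B₂ 1 = ((2 : ℕ) : ℂ)⁻¹ +
        (-(Fintype.card F : ℂ)) * ((Fintype.card F ^ 2 - 1 : ℕ) : ℂ)⁻¹ := by
      rw [hsum, hG]
      refine Eq.trans (congrArg (HMul.hMul ((Fintype.card F : ℂ) * ((Fintype.card F : ℂ) ^ 2 - 1))⁻¹) (show _ = S₂ from Finset.sum_congr rfl fun χ _ => by by_cases hχ : χ ∈ B₂ <;> simp only [hχ, if_true, if_false])) ?_
      rw [show S₂ = (Fintype.card F : ℂ) * ((Fintype.card F : ℂ) ^ 2 - 1) / 2 - (Fintype.card F : ℂ) ^ 2 by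
        linear_combination (e1 + e2) / 2 + hG / 2]
      rw [Nat.cast_sub (Nat.one_le_pow 2 _ (by omega : 0 < Fintype.card F))] at hq2' ⊢
      push_cast at hq2' ⊢
      field_simp
      ring
    have hhalf : MemLocalRing M ((2 : ℕ) : ℂ)⁻¹ ∧ ¬ MemLocalIdeal M ((2 : ℕ) : ℂ)⁻¹ :=
      ⟨memLocalRing_inv_natCast hM hp2, not_memLocalIdeal_of_mul_eq_one (memLocalRing_natCast 2)
        (inv_mul_cancel₀ (by norm_num))⟩
    have hone : ∀ χ : IrrG, ¬ MemLocalIdeal M (centralChar (χ : SL(2, F) → ℂ) 1) := fun χ => by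
      rw [centralChar, show (Subgroup.centralizer ({(1 : SL(2, F))} : Set (SL(2, F)))).index = 1 from by
        rw [Subgroup.index_eq_one, Subgroup.centralizer_eq_top_iff_subset]; simp,
        Nat.cast_one, one_mul, div_self (CfsgLib.CharTheory.apply_one_ne_zero_of_isIrr χ.2)]
      exact not_memLocalIdeal_one
    have hle : (P : Subgroup (SL(2, F))) ≤ Subgroup.centralizer ({(1 : SL(2, F))} : Set (SL(2, F))) := fun x _ => by
      rw [Subgroup.mem_centralizer_singleton_iff, mul_one, one_mul]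
    have hP : (P : Subgroup (SL(2, F))) =
        ((P.subtype hle : Sylow p (Subgroup.centralizer ({(1 : SL(2, F))} : Set (SL(2, F))))) :
          Subgroup (Subgroup.centralizer ({(1 : SL(2, F))} : Set (SL(2, F))))).map
          (Subgroup.centralizer ({(1 : SL(2, F))} : Set (SL(2, F)))).subtype := by
      rw [Sylow.coe_subtype, Subgroup.subgroupOf_map_subtype, inf_eq_left.2 hle]
    have hneg : MemLocalIdeal M (-(Fintype.card F : ℂ) * ((Fintype.card F ^ 2 - 1 : ℕ) : ℂ)⁻¹) :=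
      memLocalIdeal_mul_right (memLocalIdeal_neg ((memLocalIdeal_natCast_iff hM _).2 hpq))
        (memLocalRing_inv_natCast hM hq2)
    refine ⟨⟨1, ⟨?_, ?_, fun χ _ => hone χ⟩, _, hP⟩, ⟨1, ⟨?_, ?_, fun χ _ => hone χ⟩, _, hP⟩⟩
    · show MemLocalRing M (blockCoeff B₂ 1)
      rw [hc2]
      exact memLocalRing_add hhalf.1 (memLocalRing_of_memLocalIdeal hneg)
    · show ¬ MemLocalIdeal M (blockCoeff B₂ 1)
      rw [hc2]
      intro h
      refine hhalf.2 ?_
      have := memLocalIdeal_sub h hneg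
      rwa [add_sub_cancel_right] at this
    · show MemLocalRing M (blockCoeff B₃ 1)
      rw [hc3]; exact hhalf.1
    · show ¬ MemLocalIdeal M (blockCoeff B₃ 1)
      rw [hc3]; exact hhalf.2

end Cfsg.Agent.S2439
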