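import Cfsg.Statements.S2442
import Cfsg.Agent.Lib.GLCuspidal.Main

set_option autoImplicit false
set_option linter.style.haveILetI false
open scoped MatrixGroups
open Cfsg

namespace Cfsg.Agent.S2442

open Classical in
/-- Let F be a finite field with q elements and n ≥ 2. Call a complex character χ of GL_n over F cuspidal when, for every 0 < m < n, the sum of χ over the subgroup of matrices that agree with the identity outside the upper right m × (n − m) block vanishes (the restriction of χ to the unipotent radical of each maximal standard parabolic subgroup contains no principal constituent). Then GL_n has at least φ(qⁿ − 1)/n distinct cuspidal irreducible characters of degree (q − 1)(q² − 1)⋯(q^(n−1) − 1), φ being Euler's function (in particular at least one). -/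
theorem result {F : Type*} [Field F] [Fintype F] [DecidableEq F] (n : ℕ) (hn : 2 ≤ n) :
    Nat.totient (Fintype.card F ^ n - 1) / n ≤
      Nat.card {χ : Cfsg.IrrCharacter (GL (Fin n) F) //
        (χ : GL (Fin n) F → ℂ) 1 = ∏ i ∈ Finset.Ico 1 n, ((Fintype.card F : ℂ) ^ i - 1) ∧
        ∀ m : ℕ, 0 < m → m < n →
          (∑ g : GL (Fin n) F,
            if (∀ i j : Fin n, ¬ (i.val < m ∧ m ≤ j.val) → (g : Matrix (Fin n) (Fin n) F) i j = (1 : Matrix (Fin n) (Fin n) F) i j)
            then (χ : GL (Fin n) F → ℂ) g else 0) = 0} := by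
  classical
  set q := Fintype.card F with hq
  obtain ⟨p, hp⟩ := CharP.exists F
  haveI := hp
  obtain ⟨e, hpp, he⟩ := FiniteField.card F p
  haveI := Fact.mk hpp
  obtain ⟨M, hM⟩ := CfsgLib.Blocks.exists_isPModular_of_prime hpp
  have hq1 : 1 < q := Fintype.one_lt_card
  have hn0 : 0 < n := by omega
  have hqn : 1 < q ^ n := Nat.one_lt_pow hn0.ne' hq1
  set N := q ^ n - 1 with hN
  have hN0 : 0 < N := by omega
  set B := (∏ k ∈ Finset.range (n + 1), Nat.card (GL (Fin k) F)) * N with hB
  have hB0 : B ≠ 0 := mul_ne_zero (Finset.prod_ne_zero_iff.2 fun k _ => Nat.card_pos.ne') hN0.ne'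
  obtain ⟨S, hdiv, -, -⟩ := CfsgLib.IBr.exists_system hM B hB0
  have hfit : ∀ k ≤ n, S.Fits (GL (Fin k) F) := fun k hk =>
    ((Finset.dvd_prod_of_mem (fun k => Nat.card (GL (Fin k) F))
      (Finset.mem_range.2 (Nat.lt_succ_of_le hk))).trans (dvd_mul_right _ N)).trans hdiv
  have hcop : N.Coprime S.q := by
    obtain ⟨r, hr⟩ := S.hq
    have hnp : ¬ p ∣ N := fun h => by
      have hpq : p ∣ q ^ n := dvd_pow (by rw [hq, he]; exact dvd_pow_self p e.pos.ne') hn0.ne'
      have h1 := Nat.dvd_sub hpq h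
      rw [hN, show q ^ n - (q ^ n - 1) = 1 by omega, Nat.dvd_one] at h1
      exact hpp.one_lt.ne' h1
    rw [hr]
    exact ((hpp.coprime_iff_not_dvd.2 hnp).symm).pow_right r
  have hdvd : N ∣ S.m := hcop.dvd_of_dvd_mul_right ((dvd_mul_left N _).trans hdiv)
  haveI := S.charP
  haveI := S.isAlgClosed
  letI : Algebra (ZMod p) F := ZMod.algebra F p
  letI : Algebra (ZMod p) S.K := ZMod.algebra S.K p
  haveI : Algebra.IsAlgebraic (ZMod p) F := Algebra.IsAlgebraic.of_finite (ZMod p) F
  letI : Algebra F S.K := (IsAlgClosed.lift : F →ₐ[ZMod p] S.K).toRingHom.toAlgebra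
  -- exponents prime to the order of the roots
  haveI : NeZero S.m := ⟨S.m_pos.ne'⟩
  haveI : NeZero N := ⟨hN0.ne'⟩
  have hlift : ∀ a : ℕ, a.Coprime N → ∃ a' : ℕ, a'.Coprime S.m ∧ a' ≡ a [MOD N] := by
    intro a ha
    obtain ⟨u, hu⟩ := ZMod.unitsMap_surjective hdvd (ZMod.unitOfCoprime a ha)
    refine ⟨(u : ZMod S.m).val, ZMod.val_coe_unit_coprime u, ?_⟩
    rw [← ZMod.natCast_eq_natCast_iff]
    have h := congrArg (fun v : (ZMod N)ˣ => (v : ZMod N)) hu
    simp only [ZMod.unitsMap_def, Units.coe_map, MonoidHom.coe_coe, ZMod.coe_unitOfCoprime] at h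
    rw [← h, ZMod.natCast_val, ZMod.castHom_apply]
  choose! ex hex1 hex2 using hlift
  set A := (Finset.range N).filter N.Coprime with hA
  have hAc : ∀ a ∈ A, a.Coprime N := fun a ha => (Finset.mem_filter.1 ha).2.symm
  have hirr : ∀ a : A, _ := fun a => CfsgLib.GLCuspidal.isIrrCharacter_cusp (F := F) S hn0 hfit hdvd
    (hex1 a.1 (hAc a.1 a.2))
  set T := {χ : Cfsg.IrrCharacter (GL (Fin n) F) //
        (χ : GL (Fin n) F → ℂ) 1 = ∏ i ∈ Finset.Ico 1 n, ((Fintype.card F : ℂ) ^ i - 1) ∧
        ∀ m : ℕ, 0 < m → m < n →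
          (∑ g : GL (Fin n) F,
            if (∀ i j : Fin n, ¬ (i.val < m ∧ m ≤ j.val) → (g : Matrix (Fin n) (Fin n) F) i j = (1 : Matrix (Fin n) (Fin n) F) i j)
            then (χ : GL (Fin n) F → ℂ) g else 0) = 0} with hT
  let Φ : A → T := fun a => ⟨⟨_, (hirr a).1⟩, (hirr a).2, fun m hm hmn => by
    have h := CfsgLib.GLCuspidal.sum_radical (F := F) S hm hmn (ex a.1)
    have h2 := congrArg (fun z : ℂ => (-1 : ℂ) ^ (n - 1) * z) h
    simp only [Finset.mul_sum, mul_ite, mul_zero] at h2
    simp only [Pi.smul_apply, smul_eq_mul]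
    exact h2⟩
  haveI : Finite T := Subtype.finite
  letI : Fintype T := Fintype.ofFinite T
  -- the fibres
  have hfib : ∀ t ∈ Finset.univ.image Φ, (Finset.univ.filter fun a => Φ a = t).card ≤ n := by
    intro t ht
    obtain ⟨b, -, rfl⟩ := Finset.mem_image.1 ht
    have key : ∀ a : A, Φ a = Φ b → ∃ i ∈ Finset.range n, a.1 = b.1 * q ^ i % N := by
      intro a h
      have h1 := congrArg (fun t : T => ((t.1 : Cfsg.IrrCharacter (GL (Fin n) F)) : GL (Fin n) F → ℂ)) h
      have h1' : (-1 : ℂ) ^ (n - 1) • (fun g : GL (Fin n) F =>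
          CfsgLib.GLCuspidal.cusp (CfsgLib.GLCuspidal.theta S (ex a.1)) (CfsgLib.GLCuspidal.glEnd g))
        = (-1 : ℂ) ^ (n - 1) • (fun g : GL (Fin n) F =>
          CfsgLib.GLCuspidal.cusp (CfsgLib.GLCuspidal.theta S (ex b.1)) (CfsgLib.GLCuspidal.glEnd g)) := h1
      have h2 := smul_right_injective _ (pow_ne_zero (n - 1) (neg_ne_zero.2 (one_ne_zero (α := ℂ)))) h1'
      have h3 := CfsgLib.GLCuspidal.classInner_cusp (F := F) S hn0 hdvd (ex a.1) (ex b.1)
      rw [h2] at h3
      have h4 := CfsgLib.GLCuspidal.classInner_cusp (F := F) S hn0 hdvd (ex b.1) (ex b.1)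
      rw [h4, Nat.cast_inj] at h3
      have hpos : 0 < ((Finset.range n).filter fun i =>
          ex b.1 * Fintype.card F ^ i ≡ ex b.1 [MOD Fintype.card F ^ n - 1]).card :=
        Finset.card_pos.2 ⟨0, Finset.mem_filter.2 ⟨Finset.mem_range.2 hn0,
          by rw [pow_zero, mul_one]⟩⟩
      rw [h3] at hpos
      obtain ⟨i, hi⟩ := Finset.card_pos.1 hpos
      obtain ⟨hir, hi⟩ := Finset.mem_filter.1 hi
      refine ⟨i, hir, ?_⟩
      have h5 : b.1 * q ^ i ≡ a.1 [MOD N] :=
        (((hex2 b.1 (hAc _ b.2)).mul_right _).symm.trans hi).trans (hex2 a.1 (hAc _ a.2))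
      rw [h5, Nat.mod_eq_of_lt (Finset.mem_range.1 (Finset.mem_filter.1 a.2).1)]
    calc (Finset.univ.filter fun a => Φ a = Φ b).card
        = ((Finset.univ.filter fun a => Φ a = Φ b).image fun a : A => a.1).card :=
          (Finset.card_image_of_injective _ Subtype.val_injective).symm
      _ ≤ ((Finset.range n).image fun i => b.1 * q ^ i % N).card := Finset.card_le_card (by
          intro x hx
          obtain ⟨a, ha, rfl⟩ := Finset.mem_image.1 hx
          obtain ⟨i, hi, hai⟩ := key a (Finset.mem_filter.1 ha).2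
          exact Finset.mem_image.2 ⟨i, hi, hai.symm⟩)
      _ ≤ (Finset.range n).card := Finset.card_image_le
      _ = n := Finset.card_range n
  have hle := Finset.card_le_mul_card_image (Finset.univ : Finset A) n hfib
  have hAcard : (Finset.univ : Finset A).card = Nat.totient N := by
    rw [Finset.card_univ, Fintype.card_coe, Nat.totient_eq_card_coprime]
  rw [hAcard] at hle
  show Nat.totient N / n ≤ Nat.card T
  rw [Nat.card_eq_fintype_card]
  refine le_trans ?_ (Finset.card_le_univ (Finset.univ.image Φ))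
  exact Nat.div_le_of_le_mul hle

end Cfsg.Agent.S2442
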