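import Cfsg.Statements.S2531
-- import your own Cfsg.Agent.* helpers here

set_option autoImplicit false
open Cfsg

namespace Cfsg.Agent.S2531

open Projectivization

/-- Number of points of a subspace. -/
private theorem card_points {F : Type*} [Field F] [Finite F] {n : ℕ} (U : Submodule F (Fin n → F)) :
    Nat.card {x : Projectivization F (Fin n → F) // x.submodule ≤ U} =
      ∑ i ∈ Finset.range (Module.finrank F U), Nat.card F ^ i := by
  have hinj : Function.Injective U.subtype := U.subtype_injective
  rw [← card_of_finrank (k := F) (V := U) rfl]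
  refine (Nat.card_congr (Equiv.ofBijective
    (fun x : Projectivization F U => (⟨Projectivization.map U.subtype hinj x, ?_⟩ :
      {x : Projectivization F (Fin n → F) // x.submodule ≤ U})) ⟨?_, ?_⟩)).symm
  · induction x using Projectivization.ind with
    | h v hv =>
      rw [map_mk, submodule_mk, Submodule.span_singleton_le_iff_mem]
      exact v.2
  · intro x y hxy
    exact Projectivization.map_injective _ hinj (congrArg Subtype.val hxy)
  · rintro ⟨y, hy⟩
    induction y using Projectivization.ind with
    | h v hv =>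
      rw [submodule_mk, Submodule.span_singleton_le_iff_mem] at hy
      exact ⟨mk F ⟨v, hy⟩ (fun h0 => hv (congrArg Subtype.val h0)), Subtype.ext rfl⟩

private theorem card_points_cast {F : Type*} [Field F] [Finite F] {n : ℕ} (U : Submodule F (Fin n → F))
    (h : 1 ≤ Module.finrank F U) :
    (Nat.card {x : Projectivization F (Fin n → F) // x.submodule ≤ U} : ZMod (Nat.card F)) = 1 := by
  rw [card_points]
  obtain ⟨d, hd⟩ : ∃ d, Module.finrank F U = d + 1 := ⟨_, (Nat.sub_add_cancel h).symm⟩
  rw [hd, Finset.sum_range_succ']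
  simp [pow_succ]

/-- Let `F` be a finite field and `n ≥ 3`. No set of permutations of the points of the projective space of `Fⁿ`, each induced by an invertible semilinear transformation of `Fⁿ` (so a subset of the full projective semilinear group), is sharply 2-transitive on the points: it is impossible that for all pairs of distinct points `(a, b)` and `(c, d)` exactly one member of the set sends `a` to `c` and `b` to `d`. -/
theorem result {F : Type*} [Field F] [Finite F]
    (n : ℕ) (hn : 3 ≤ n) (S : Set (Equiv.Perm (Projectivization F (Fin n → F))))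
    (hS : ∀ s ∈ S, ∃ (σ : F ≃+* F) (f : (Fin n → F) →ₛₗ[(σ : F →+* F)] (Fin n → F)) (hf : Function.Injective f),
      ∀ x, s x = Projectivization.map f hf x) :
    ¬ (∀ a b c d : Projectivization F (Fin n → F), a ≠ b → c ≠ d →
        ∃! s, s ∈ S ∧ s a = c ∧ s b = d) := by
  classical
  intro hsharp
  have : Fintype F := Fintype.ofFinite F
  have : Fintype (Projectivization F (Fin n → F)) := Fintype.ofFinite _
  set q := Nat.card F with hq
  have hq1 : 1 < q := Finite.one_lt_card
  have : Nontrivial (ZMod q) := by
    have : Fact (1 < q) := ⟨hq1⟩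
    infer_instance
  set i₀ : Fin n := ⟨0, by omega⟩ with hi₀
  set i₁ : Fin n := ⟨1, by omega⟩ with hi₁
  set H : Submodule F (Fin n → F) := LinearMap.ker (LinearMap.proj (R := F) i₀ : (Fin n → F) →ₗ[F] F) with hH
  have hHdim : Module.finrank F H = n - 1 := by
    have h1 := LinearMap.finrank_range_add_finrank_ker (LinearMap.proj (R := F) i₀ : (Fin n → F) →ₗ[F] F)
    have h2 : LinearMap.range (LinearMap.proj (R := F) i₀ : (Fin n → F) →ₗ[F] F) = ⊤ :=
      LinearMap.range_eq_top.mpr fun c => ⟨fun _ => c, rfl⟩
    rw [h2, finrank_top, Module.finrank_self, Module.finrank_fin_fun] at h1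
    rw [hH]; omega
  let x₀ : Projectivization F (Fin n → F) :=
    mk F (Pi.single i₀ (1 : F)) (by simp)
  let b₀ : Projectivization F (Fin n → F) :=
    mk F (Pi.single i₁ (1 : F)) (by simp)
  have hx₀ : ∀ a : Projectivization F (Fin n → F), a.submodule ≤ H → a ≠ x₀ := by
    rintro a ha rfl
    rw [submodule_mk, Submodule.span_singleton_le_iff_mem] at ha
    simp [hH] at ha
  have hb₀ : b₀.submodule ≤ H := by
    rw [submodule_mk, Submodule.span_singleton_le_iff_mem]
    simp [hH, hi₀, hi₁]
  set T : Finset (Equiv.Perm (Projectivization F (Fin n → F))) :=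
    Finset.univ.filter (fun s => s ∈ S ∧ s x₀ = x₀) with hT
  set P : Finset (Projectivization F (Fin n → F)) := Finset.univ.filter (fun a => a.submodule ≤ H) with hP
  have hcardP : ∀ U : Submodule F (Fin n → F), 1 ≤ Module.finrank F U →
      ((Finset.univ.filter (fun a : Projectivization F (Fin n → F) => a.submodule ≤ U)).card : ZMod q) = 1 := by
    intro U hU
    rw [← card_points_cast U hU]
    congr 1
    rw [Nat.card_eq_fintype_card, Fintype.card_subtype]
  have hTcard : (T.card : ZMod q) = 0 := by
    have h1 : T.card = (Finset.univ.erase x₀).card := by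
      refine Finset.card_bij (fun s _ => s b₀) ?_ ?_ ?_
      · intro s hs
        rw [hT, Finset.mem_filter] at hs
        rw [Finset.mem_erase]
        refine ⟨fun hh => hx₀ b₀ hb₀ (s.injective (hh.trans hs.2.2.symm)), Finset.mem_univ _⟩
      · intro s hs t ht hst
        simp only [hT, Finset.mem_filter] at hs ht
        exact (hsharp x₀ b₀ x₀ (s b₀) (hx₀ b₀ hb₀).symm
          (fun hh => hx₀ b₀ hb₀ (s.injective (hh.symm.trans hs.2.2.symm)))).unique
          ⟨hs.2.1, hs.2.2, rfl⟩ ⟨ht.2.1, ht.2.2, hst.symm⟩
      · intro c hc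
        obtain ⟨s, ⟨h1, h2, h3⟩, -⟩ := hsharp x₀ b₀ x₀ c (hx₀ b₀ hb₀).symm (Finset.ne_of_mem_erase hc).symm
        exact ⟨s, by simp [hT, h1, h2], h3⟩
    have h2 := hcardP ⊤ (by rw [finrank_top, Module.finrank_fin_fun]; omega)
    rw [Finset.filter_true_of_mem (fun a _ => le_top)] at h2
    rw [h1, Finset.card_erase_of_mem (Finset.mem_univ _), Nat.cast_sub (Finset.card_pos.mpr ⟨x₀, Finset.mem_univ _⟩), h2]
    simp
  have hrow : ∀ a ∈ P, (T.filter (fun s => (s a).submodule ≤ H)).card = P.card := by
    intro a ha
    simp only [hP, Finset.mem_filter] at ha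
    refine Finset.card_bij (fun s _ => s a) ?_ ?_ ?_
    · intro s hs
      simp only [Finset.mem_filter] at hs
      simp [hP, hs.2]
    · intro s hs t ht hst
      simp only [hT, Finset.mem_filter] at hs ht
      exact (hsharp x₀ a x₀ (s a) (hx₀ a ha.2).symm (hx₀ _ hs.2).symm).unique
        ⟨hs.1.2.1, hs.1.2.2, rfl⟩ ⟨ht.1.2.1, ht.1.2.2, hst.symm⟩
    · intro c hc
      simp only [hP, Finset.mem_filter] at hc
      obtain ⟨s, ⟨h1, h2, h3⟩, -⟩ := hsharp x₀ a x₀ c (hx₀ a ha.2).symm (hx₀ c hc.2).symm
      exact ⟨s, Finset.mem_filter.mpr ⟨by simp [hT, h1, h2], h3 ▸ hc.2⟩, h3⟩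
  have hcol : ∀ s ∈ T, ((P.filter (fun a => (s a).submodule ≤ H)).card : ZMod q) = 1 := by
    intro s hs
    simp only [hT, Finset.mem_filter] at hs
    obtain ⟨σ, f, hf, hfs⟩ := hS s hs.2.1
    set U : Submodule F (Fin n → F) := H.comap f with hU
    have hbij : Function.Bijective f := ⟨hf, (Finite.injective_iff_surjective).mp hf⟩
    have hUdim : Module.finrank F U = n - 1 := by
      have h1 : Nat.card U = Nat.card H :=
        Nat.card_congr (Equiv.subtypeEquiv (Equiv.ofBijective f hbij) (fun v => Iff.rfl))
      rw [Module.natCard_eq_pow_finrank (K := F), Module.natCard_eq_pow_finrank (K := F) (V := H)] at h1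
      rw [Nat.pow_right_injective hq1 h1, hHdim]
    have hdim : 1 ≤ Module.finrank F (H ⊓ U : Submodule F (Fin n → F)) := by
      have h1 := Submodule.finrank_sup_add_finrank_inf_eq H U
      have h2 := Submodule.finrank_le (H ⊔ U)
      rw [Module.finrank_fin_fun] at h2
      omega
    rw [← hcardP _ hdim]
    congr 2
    rw [hP, Finset.filter_filter]
    refine Finset.filter_congr fun a _ => ?_
    rw [le_inf_iff, hfs a]
    refine and_congr_right fun _ => ?_
    induction a using Projectivization.ind with
    | h v hv =>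
      rw [map_mk, submodule_mk, submodule_mk, Submodule.span_singleton_le_iff_mem,
        Submodule.span_singleton_le_iff_mem]
      rfl
  have hdc := Finset.sum_card_bipartiteAbove_eq_sum_card_bipartiteBelow
    (fun (a : Projectivization F (Fin n → F)) (s : Equiv.Perm (Projectivization F (Fin n → F))) =>
      (s a).submodule ≤ H) (s := P) (t := T)
  simp only [Finset.bipartiteAbove, Finset.bipartiteBelow] at hdc
  rw [Finset.sum_congr rfl hrow, Finset.sum_const, smul_eq_mul] at hdc
  have hcast := congrArg (fun k : ℕ => (k : ZMod q)) hdc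
  simp only [Nat.cast_mul, Nat.cast_sum] at hcast
  rw [Finset.sum_congr rfl hcol, Finset.sum_const, nsmul_eq_mul, hTcard, zero_mul,
    hP, hcardP H (by omega), mul_one] at hcast
  exact one_ne_zero hcast

end Cfsg.Agent.S2531
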