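import Cfsg.Statements.S2532
-- import your own Cfsg.Agent.* helpers here

set_option autoImplicit false
open Cfsg

namespace Cfsg.Agent.S2532

/-- There is a function `f` of two natural-number arguments such that, whenever `m ≥ f(n, r)`, every subgroup of order `n` of the alternating group of degree `m` centralizes some subgroup of that alternating group isomorphic to the alternating group of degree `r`. -/
theorem result :
    ∃ f : ℕ → ℕ → ℕ, ∀ (m r : ℕ) (H : Subgroup ↥(alternatingGroup (Fin m))), f (Nat.card H) r ≤ m →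
      ∃ K : Subgroup ↥(alternatingGroup (Fin m)), Nonempty (↥K ≃* ↥(alternatingGroup (Fin r))) ∧
        K ≤ Subgroup.centralizer (H : Set ↥(alternatingGroup (Fin m))) := by
  classical
  refine ⟨fun n r => 2 ^ n * (n * r) + 1, fun m r H hm => ?_⟩
  set n := Nat.card H with hn
  have : Fintype H := Fintype.ofFinite _
  -- many points with one common stabiliser
  obtain ⟨K, hK⟩ : ∃ K : Subgroup H, n * r ≤ (Finset.univ.filter (fun x : Fin m => MulAction.stabilizer H x = K)).card := by
    have : Fintype (Subgroup H) := Fintype.ofFinite _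
    have hcard : Fintype.card (Subgroup H) ≤ 2 ^ n := by
      rw [hn, Nat.card_eq_fintype_card, ← Fintype.card_set]
      exact Fintype.card_le_of_injective (fun K : Subgroup H => (K : Set H)) SetLike.coe_injective
    have : Nonempty (Subgroup H) := ⟨⊥⟩
    obtain ⟨K, -, hK⟩ := Finset.exists_le_card_fiber_of_mul_le_card_of_maps_to (s := (Finset.univ : Finset (Fin m)))
      (t := (Finset.univ : Finset (Subgroup H))) (f := fun x => MulAction.stabilizer H x) (n := n * r)
      (fun _ _ => Finset.mem_univ _) Finset.univ_nonempty (by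
        rw [Finset.card_univ, Finset.card_univ, Fintype.card_fin]
        calc Fintype.card (Subgroup H) * (n * r) ≤ 2 ^ n * (n * r) := Nat.mul_le_mul_right _ hcard
          _ ≤ m := le_trans (Nat.le_succ _) hm)
    exact ⟨K, hK⟩
  set T := Finset.univ.filter (fun x : Fin m => MulAction.stabilizer H x = K) with hT
  -- pick points in distinct orbits
  set O := T.image (fun x => (Quotient.mk (MulAction.orbitRel H (Fin m)) x)) with hO
  have hOr : r ≤ O.card := by
    have h1 : T.card ≤ n * O.card := by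
      refine Finset.card_le_mul_card_image (f := fun x => (Quotient.mk (MulAction.orbitRel H (Fin m)) x)) T n fun o _ => ?_
      obtain ⟨x, rfl⟩ := Quotient.exists_rep o
      calc _ ≤ (Finset.univ.image (fun h : H => h • x)).card := by
            refine Finset.card_le_card fun y hy => ?_
            rw [Finset.mem_filter] at hy
            obtain ⟨h, hh⟩ := Quotient.eq.mp hy.2
            exact Finset.mem_image.mpr ⟨h, Finset.mem_univ _, hh⟩
        _ ≤ n := by rw [hn, Nat.card_eq_fintype_card]; exact Finset.card_image_le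
    exact Nat.le_of_mul_le_mul_left (hK.trans h1) Nat.card_pos
  obtain ⟨O', hO', hO'card⟩ := Finset.exists_subset_card_eq hOr
  let ι : Fin r ≃ O' := (O'.equivFinOfCardEq hO'card).symm
  have hpick : ∀ i : Fin r, ∃ x, x ∈ T ∧ Quotient.mk (MulAction.orbitRel H (Fin m)) x = (ι i : MulAction.orbitRel.Quotient H (Fin m)) := fun i => by
    obtain ⟨x, hx, hxe⟩ := Finset.mem_image.mp (hO' (ι i).2)
    exact ⟨x, hx, hxe⟩
  choose x hxT hxe using hpick
  have hstab : ∀ i (h : H), h • x i = x i ↔ h ∈ K := fun i h => by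
    rw [← (Finset.mem_filter.mp (hxT i)).2, MulAction.mem_stabilizer_iff]
  let e : Fin r × (H ⧸ K) → Fin m := fun p => Quotient.liftOn' p.2 (fun h => h • x p.1) (fun a c hac => by
    rw [QuotientGroup.leftRel_apply, ← hstab p.1, mul_smul] at hac
    calc a • x p.1 = a • a⁻¹ • c • x p.1 := by rw [hac]
      _ = c • x p.1 := smul_inv_smul _ _)
  have he : ∀ i (h : H), e (i, (h : H ⧸ K)) = h • x i := fun _ _ => rfl
  have heinj : Function.Injective e := by
    rintro ⟨i, a⟩ ⟨j, c⟩ heq
    obtain ⟨a, rfl⟩ := QuotientGroup.mk_surjective a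
    obtain ⟨c, rfl⟩ := QuotientGroup.mk_surjective c
    rw [he, he] at heq
    have hij : i = j := by
      apply ι.injective
      apply Subtype.ext
      rw [← hxe, ← hxe]
      refine Quotient.sound ⟨a⁻¹ * c, ?_⟩
      show (a⁻¹ * c) • x j = x i
      rw [mul_smul, ← heq, inv_smul_smul]
    subst hij
    refine Prod.ext rfl (QuotientGroup.eq.mpr ?_)
    rw [← hstab i, mul_smul, ← heq, inv_smul_smul]
  let E : (Fin r × (H ⧸ K)) ↪ Fin m := ⟨e, heinj⟩
  let ψ : Equiv.Perm (Fin r) →* Equiv.Perm (Fin r × (H ⧸ K)) :=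
    { toFun := fun σ => Equiv.prodCongrLeft fun _ => σ
      map_one' := by ext ⟨i, a⟩ <;> simp
      map_mul' := fun σ τ => by ext ⟨i, a⟩ <;> simp }
  have hψinj : Function.Injective ψ := fun σ τ hst => by
    ext i
    have := congrArg (fun π : Equiv.Perm (Fin r × (H ⧸ K)) => (π (i, ((1 : H) : H ⧸ K))).1) hst
    exact congrArg Fin.val this
  let ρ := (Equiv.Perm.viaEmbeddingHom E).comp ψ
  have hsign : ∀ σ : alternatingGroup (Fin r), ρ σ ∈ alternatingGroup (Fin m) := fun σ => by
    rw [Equiv.Perm.mem_alternatingGroup]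
    show Equiv.Perm.sign (Equiv.Perm.viaEmbedding (ψ σ) E) = 1
    rw [Equiv.Perm.viaEmbedding, Equiv.Perm.sign_extendDomain]
    have hprod : Equiv.Perm.sign (Equiv.prodCongrLeft fun _ : H ⧸ K => (σ : Equiv.Perm (Fin r))) = 1 := by
      rw [Equiv.Perm.sign_prodCongrLeft]
      exact Finset.prod_eq_one fun _ _ => Equiv.Perm.mem_alternatingGroup.mp σ.2
    exact hprod
  let φ : alternatingGroup (Fin r) →* alternatingGroup (Fin m) :=
    (ρ.comp (alternatingGroup (Fin r)).subtype).codRestrict _ hsign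
  have hφinj : Function.Injective φ := fun σ τ hst => by
    have h0 : ρ (σ : Equiv.Perm (Fin r)) = ρ (τ : Equiv.Perm (Fin r)) := congrArg Subtype.val hst
    exact Subtype.ext (hψinj (Equiv.Perm.viaEmbeddingHom_injective E h0))
  refine ⟨φ.range, ⟨(MonoidHom.ofInjective hφinj).symm⟩, ?_⟩
  rintro _ ⟨σ, rfl⟩
  rw [Subgroup.mem_centralizer_iff]
  intro h hh
  apply Subtype.ext
  apply Equiv.ext
  intro y
  show (h : Equiv.Perm (Fin m)) (Equiv.Perm.viaEmbedding (ψ σ) E y) =
    Equiv.Perm.viaEmbedding (ψ σ) E ((h : Equiv.Perm (Fin m)) y)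
  by_cases hy : y ∈ Set.range E
  · obtain ⟨⟨i, a⟩, rfl⟩ := hy
    obtain ⟨a, rfl⟩ := QuotientGroup.mk_surjective a
    have h1 : ∀ j, (h : Equiv.Perm (Fin m)) (E (j, (a : H ⧸ K))) = E (j, ((⟨h, hh⟩ * a : H) : H ⧸ K)) := by
      intro j
      show (⟨h, hh⟩ : H) • e (j, (a : H ⧸ K)) = e (j, ((⟨h, hh⟩ * a : H) : H ⧸ K))
      rw [he, he, mul_smul]
    rw [Equiv.Perm.viaEmbedding_apply, h1 i, Equiv.Perm.viaEmbedding_apply]
    exact h1 _
  · have hy' : (h : Equiv.Perm (Fin m)) y ∉ Set.range E := by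
      rintro ⟨⟨i, a⟩, hia⟩
      obtain ⟨a, rfl⟩ := QuotientGroup.mk_surjective a
      apply hy
      refine ⟨(i, (((⟨h, hh⟩ : H)⁻¹ * a : H) : H ⧸ K)), ?_⟩
      show e (i, (((⟨h, hh⟩ : H)⁻¹ * a : H) : H ⧸ K)) = y
      rw [he, mul_smul]
      rw [inv_smul_eq_iff]
      exact hia
    rw [Equiv.Perm.viaEmbedding_apply_of_notMem _ _ _ hy, Equiv.Perm.viaEmbedding_apply_of_notMem _ _ _ hy']

end Cfsg.Agent.S2532
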