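import Cfsg.Statements.S2533
-- import your own Cfsg.Agent.* helpers here

set_option autoImplicit false
open Cfsg

namespace Cfsg.Agent.S2533

section Construction

variable (p : ℕ) [Fact p.Prime]

private abbrev Vec := Multiplicative (Fin 3 → ZMod p)

private def sgn : ℤˣ →* ZMod p := (Int.castRingHom (ZMod p)).toMonoidHom.comp (Units.coeHom ℤ)

private def act : ℤˣ →* MulAut (Vec p) where
  toFun ε := AddEquiv.toMultiplicative
    { toFun := fun v => sgn p ε • v
      invFun := fun v => sgn p ε • v
      left_inv := fun v => by show sgn p ε • (sgn p ε • v) = v; rw [smul_smul, ← map_mul, Int.units_mul_self, map_one, one_smul]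
      right_inv := fun v => by show sgn p ε • (sgn p ε • v) = v; rw [smul_smul, ← map_mul, Int.units_mul_self, map_one, one_smul]
      map_add' := fun v w => smul_add _ _ _ }
  map_one' := MulEquiv.ext fun v => by
    show Multiplicative.ofAdd (sgn p 1 • v.toAdd) = v
    rw [map_one, one_smul]; rfl
  map_mul' a b := MulEquiv.ext fun v => by
    show Multiplicative.ofAdd (sgn p (a * b) • v.toAdd) = Multiplicative.ofAdd (sgn p a • (sgn p b • v.toAdd))
    rw [map_mul, smul_smul]

variable (d : ℕ)

private def nMat : (Fin 3 → ZMod p) → Matrix (Fin (2 * d + 1)) (Fin (2 * d + 1)) (ZMod p) := fun v =>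
  Matrix.of fun i k => if (i : ℕ) < d then
    (if (k : ℕ) = d + i then v 0 else 0) + (if (k : ℕ) = d + i + 1 then v 1 else 0) +
      (if (i : ℕ) = 0 ∧ (k : ℕ) = 2 * d then v 2 else 0) else 0

private theorem nMat_add (v w : Fin 3 → ZMod p) : nMat p d (v + w) = nMat p d v + nMat p d w := by
  ext i k
  simp only [nMat, Matrix.of_apply, Matrix.add_apply, Pi.add_apply]
  split_ifs <;> ring

private theorem nMat_smul (c : ZMod p) (v : Fin 3 → ZMod p) : nMat p d (c • v) = c • nMat p d v := by
  ext i k
  simp only [nMat, Matrix.of_apply, Matrix.smul_apply, Pi.smul_apply, smul_eq_mul]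
  split_ifs <;> ring

private theorem nMat_top {v : Fin 3 → ZMod p} {i k : Fin (2 * d + 1)} (h : ¬ (i : ℕ) < d) :
    nMat p d v i k = 0 := by simp [nMat, h]

private theorem nMat_right {v : Fin 3 → ZMod p} {i k : Fin (2 * d + 1)} (h : (k : ℕ) < d) :
    nMat p d v i k = 0 := by
  simp only [nMat, Matrix.of_apply]
  rw [if_neg (show ¬ ((k : ℕ) = d + i) by omega), if_neg (show ¬ ((k : ℕ) = d + i + 1) by omega),
    if_neg (show ¬ ((i : ℕ) = 0 ∧ (k : ℕ) = 2 * d) by omega)]
  simp

private theorem nMat_mul (v w : Fin 3 → ZMod p) : nMat p d v * nMat p d w = 0 := by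
  ext i k
  rw [Matrix.mul_apply]
  refine Finset.sum_eq_zero fun j _ => ?_
  by_cases h : (j : ℕ) < d
  · rw [nMat_right p d h, zero_mul]
  · rw [nMat_top p d h, mul_zero]

private def uni : Vec p →* Matrix (Fin (2 * d + 1)) (Fin (2 * d + 1)) (ZMod p) where
  toFun v := 1 + nMat p d v.toAdd
  map_one' := by
    ext i k
    simp [nMat]
  map_mul' v w := by
    show 1 + nMat p d (v.toAdd + w.toAdd) = _
    rw [nMat_add, mul_add, mul_one, add_mul, one_mul, nMat_mul, add_zero, add_assoc]

private def dia : ℤˣ →* Matrix (Fin (2 * d + 1)) (Fin (2 * d + 1)) (ZMod p) where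
  toFun ε := Matrix.diagonal fun i => if (i : ℕ) < d then sgn p ε ^ (d + 1) else sgn p ε ^ d
  map_one' := by simp
  map_mul' a b := by
    rw [Matrix.diagonal_mul_diagonal]
    congr 1
    funext i
    split_ifs <;> rw [map_mul, mul_pow]

private theorem det_uni (v : Vec p) : (uni p d v).det = 1 := by
  have h : (uni p d v).IsUpperTriangular := by
    intro i k hik
    have hik' : (k : ℕ) < (i : ℕ) := hik
    show (1 + nMat p d v.toAdd) i k = 0
    rw [Matrix.add_apply, Matrix.one_apply_ne (Fin.ne_of_gt hik'), zero_add]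
    by_cases h : (i : ℕ) < d
    · exact nMat_right p d (by omega)
    · exact nMat_top p d h
  rw [Matrix.det_of_upperTriangular h]
  refine Finset.prod_eq_one fun i _ => ?_
  show (1 + nMat p d v.toAdd) i i = 1
  rw [Matrix.add_apply, Matrix.one_apply_eq]
  by_cases h : (i : ℕ) < d
  · rw [nMat_right p d h, add_zero]
  · rw [nMat_top p d h, add_zero]

private theorem det_dia (ε : ℤˣ) : (dia p d ε).det = 1 := by
  show (Matrix.diagonal _).det = 1
  rw [Matrix.det_diagonal, Finset.prod_ite]
  simp only [Finset.prod_const, Finset.filter_not, Finset.card_univ_diff, Fintype.card_fin]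
  rw [Fin.card_filter_val_lt, min_eq_right (by omega), ← pow_mul, ← pow_mul, ← pow_add,
    show (2 * d + 1 - d) = d + 1 by omega]
  obtain h | h := Int.units_eq_one_or ε
  · subst h; simp
  · subst h
    have : sgn p (-1) = -1 := by simp [sgn]
    rw [this, Even.neg_one_pow ⟨(d + 1) * d, by ring⟩]

private def uniSL : Vec p →* Matrix.SpecialLinearGroup (Fin (2 * d + 1)) (ZMod p) where
  toFun v := ⟨uni p d v, det_uni p d v⟩
  map_one' := Subtype.ext (map_one (uni p d))
  map_mul' a b := Subtype.ext (map_mul (uni p d) a b)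

private def diaSL : ℤˣ →* Matrix.SpecialLinearGroup (Fin (2 * d + 1)) (ZMod p) where
  toFun ε := ⟨dia p d ε, det_dia p d ε⟩
  map_one' := Subtype.ext (map_one (dia p d))
  map_mul' a b := Subtype.ext (map_mul (dia p d) a b)

private theorem compat (ε : ℤˣ) (v : Vec p) :
    uniSL p d (act p ε v) * diaSL p d ε = diaSL p d ε * uniSL p d v := by
  apply Subtype.ext
  show (1 + nMat p d (sgn p ε • v.toAdd)) * dia p d ε = dia p d ε * (1 + nMat p d v.toAdd)
  rw [nMat_smul, add_mul, mul_add, one_mul, mul_one]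
  congr 1
  show _ * Matrix.diagonal _ = Matrix.diagonal _ * _
  ext i k
  rw [Matrix.mul_diagonal, Matrix.diagonal_mul, Matrix.smul_apply, smul_eq_mul]
  by_cases hi : (i : ℕ) < d
  · by_cases hk : (k : ℕ) < d
    · rw [nMat_right p d hk]; ring
    · rw [if_pos hi, if_neg hk, pow_succ]; ring
  · rw [nMat_top p d hi]; ring

private def toSL : Vec p ⋊[act p] ℤˣ →* Matrix.SpecialLinearGroup (Fin (2 * d + 1)) (ZMod p) :=
  SemidirectProduct.lift (uniSL p d) (diaSL p d) fun ε => MonoidHom.ext fun v => by
    show uniSL p d (act p ε v) = diaSL p d ε * uniSL p d v * (diaSL p d ε)⁻¹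
    rw [← compat, mul_inv_cancel_right]

private theorem toSL_coe (g : Vec p ⋊[act p] ℤˣ) :
    (toSL p d g : Matrix (Fin (2 * d + 1)) (Fin (2 * d + 1)) (ZMod p)) = uni p d g.left * dia p d g.right := rfl

private theorem sgn_ne (hp : p ≠ 2) : sgn p (-1) ≠ 1 := by
  have : sgn p (-1) = -1 := by simp [sgn]
  rw [this]
  intro h
  have h2 := (neg_one_eq_one_iff).mp h
  rw [ZMod.ringChar_zmod_n] at h2
  exact hp h2

private theorem scalar_of_commute (hp : p ≠ 2) (hd : 1 ≤ d)
    (g : Matrix (Fin (2 * d + 1)) (Fin (2 * d + 1)) (ZMod p))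
    (hT : g * dia p d (-1) = dia p d (-1) * g) (hN : ∀ v, g * nMat p d v = nMat p d v * g) :
    g = Matrix.scalar _ (g ⟨d, by omega⟩ ⟨d, by omega⟩) := by
  have hz : ∀ i k : Fin (2 * d + 1), ((i : ℕ) < d ∧ ¬ (k : ℕ) < d) ∨ (¬ (i : ℕ) < d ∧ (k : ℕ) < d) → g i k = 0 := by
    intro i k h
    have h1 := congrFun (congrFun hT i) k
    rw [show dia p d (-1) = Matrix.diagonal (fun j : Fin (2 * d + 1) => if (j : ℕ) < d then sgn p (-1) ^ (d + 1) else sgn p (-1) ^ d) from rfl] at h1
    rw [Matrix.mul_diagonal, Matrix.diagonal_mul] at h1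
    have hne := sgn_ne p hp
    have hs0 : sgn p (-1) ^ d ≠ 0 := pow_ne_zero _ (by simp [sgn])
    rcases h with ⟨ha, hb⟩ | ⟨ha, hb⟩
    · rw [if_pos ha, if_neg hb, pow_succ] at h1
      have : g i k * (sgn p (-1) - 1) * sgn p (-1) ^ d = 0 := by linear_combination (-1 : ZMod p) * h1
      simpa [sub_eq_zero, hne, hs0] using this
    · rw [if_neg ha, if_pos hb, pow_succ] at h1
      have : g i k * (sgn p (-1) - 1) * sgn p (-1) ^ d = 0 := by linear_combination h1
      simpa [sub_eq_zero, hne, hs0] using this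
  have hl : ∀ (c : ℕ), c ≤ 1 → ∀ (a b : Fin (2 * d + 1)), (a : ℕ) < d →
      (g * nMat p d (Pi.single (if c = 0 then 0 else 1) 1)) a b =
        if h : d + c ≤ b ∧ (b : ℕ) < 2 * d + c then g a ⟨b - d - c, by omega⟩ else 0 := by
    intro c hc a b _
    rw [Matrix.mul_apply]
    have hcases : c = 0 ∨ c = 1 := by omega
    have hterm : ∀ j : Fin (2 * d + 1), nMat p d (Pi.single (if c = 0 then 0 else 1) 1) j b
        = if (j : ℕ) < d ∧ (b : ℕ) = d + j + c then 1 else 0 := by
      intro j
      rcases hcases with rfl | rfl <;> by_cases hj : (j : ℕ) < d <;> simp [nMat, hj]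
    simp only [hterm, mul_ite, mul_one, mul_zero]
    split_ifs with h
    · rw [Finset.sum_eq_single ⟨b - d - c, by omega⟩]
      · simp only [Fin.val_mk]; rw [if_pos (by omega)]
      · intro j _ hj; rw [if_neg]; intro h'; apply hj; apply Fin.ext; simp only; omega
      · simp
    · exact Finset.sum_eq_zero fun j _ => by rw [if_neg]; omega
  have hr : ∀ (c : ℕ), c ≤ 1 → ∀ (a b : Fin (2 * d + 1)), (ha : (a : ℕ) < d) →
      (nMat p d (Pi.single (if c = 0 then 0 else 1) 1) * g) a b =
        if h : d + (a : ℕ) + c < 2 * d + 1 then g ⟨d + a + c, h⟩ b else 0 := by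
    intro c hc a b ha
    rw [Matrix.mul_apply, dif_pos (by omega), Finset.sum_eq_single ⟨d + a + c, by omega⟩]
    · have hcases : c = 0 ∨ c = 1 := by omega
      rcases hcases with rfl | rfl <;> simp [nMat, ha]
    · intro j _ hj
      have hj' : (j : ℕ) ≠ d + a + c := fun h => hj (Fin.ext h)
      have hcases : c = 0 ∨ c = 1 := by omega
      rcases hcases with rfl | rfl
      · have : ¬ (j : ℕ) = d + a := by omega
        simp [nMat, ha, this]
      · simp [nMat, ha, hj']
    · simp
  have key : ∀ (c : ℕ) (hc : c ≤ 1), ∀ (a b : ℕ), (ha : a < d) → (hb : b < d + 1) →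
      g ⟨d + a + c, by omega⟩ ⟨d + b, by omega⟩ =
        if h : c ≤ b ∧ b < d + c then g ⟨a, by omega⟩ ⟨b - c, by omega⟩ else 0 := by
    intro c hc a b ha hb
    have h1 := congrFun (congrFun (hN (Pi.single (if c = 0 then 0 else 1) 1)) ⟨a, by omega⟩) ⟨d + b, by omega⟩
    rw [hl c hc _ _ ha, hr c hc _ _ ha, dif_pos (show d + a + c < 2 * d + 1 by omega)] at h1
    rw [← h1]
    simp only
    by_cases h : c ≤ b ∧ b < d + c
    · rw [dif_pos h, dif_pos (by omega)]
      congr 2
      omega
    · rw [dif_neg h, dif_neg (by omega)]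
  set B : ℕ → ℕ → ZMod p := fun a b =>
    if h : a < d + 1 ∧ b < d + 1 then g ⟨d + a, by omega⟩ ⟨d + b, by omega⟩ else 0 with hB
  have hB0 : ∀ a b, a < d → b < d → B (a + 1) (b + 1) = B a b := by
    intro a b ha hb
    simp only [hB]
    rw [dif_pos (by omega), dif_pos (by omega)]
    have h0 := key 0 (by omega) a b ha (by omega)
    have h1 := key 1 le_rfl a (b + 1) ha (by omega)
    rw [dif_pos (by omega)] at h0 h1
    simp only [Nat.add_sub_cancel, Nat.sub_zero, Nat.add_zero, ← Nat.add_assoc] at h0 h1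
    simp only [← Nat.add_assoc]
    rw [h0, h1]
  have hBr : ∀ a, a < d → B a d = 0 := by
    intro a ha
    simp only [hB]; rw [dif_pos (by omega)]
    have h0 := key 0 (by omega) a d ha (by omega)
    rw [dif_neg (by omega)] at h0
    exact h0
  have hBc : ∀ a, a < d → B (a + 1) 0 = 0 := by
    intro a ha
    simp only [hB]; rw [dif_pos (by omega)]
    have h1 := key 1 le_rfl a 0 ha (by omega)
    rw [dif_neg (by omega)] at h1
    exact h1
  have hshift : ∀ k a b, a + k ≤ d → b + k ≤ d → B (a + k) (b + k) = B a b := by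
    intro k
    induction k with
    | zero => simp
    | succ k ih => intro a b ha hb; rw [← add_assoc, ← add_assoc, hB0 _ _ (by omega) (by omega), ih a b (by omega) (by omega)]
  have hBoff : ∀ a b, a ≤ d → b ≤ d → a ≠ b → B a b = 0 := by
    intro a b ha hb hab
    rcases Nat.lt_or_gt_of_ne hab with h | h
    · rw [← hshift (d - b) a b (by omega) (by omega), show b + (d - b) = d by omega]
      exact hBr _ (by omega)
    · obtain ⟨e, rfl⟩ : ∃ e, a = (e + 1) + b := ⟨a - b - 1, by omega⟩
      calc B (e + 1 + b) b = B (e + 1 + b) (0 + b) := by rw [zero_add]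
        _ = B (e + 1) 0 := hshift b (e + 1) 0 (by omega) (by omega)
        _ = 0 := hBc e (by omega)
  have hBdiag : ∀ a, a ≤ d → B a a = g ⟨d, by omega⟩ ⟨d, by omega⟩ := by
    intro a ha
    have := hshift a 0 0 (by omega) (by omega)
    rw [zero_add] at this
    rw [this]
    simp [hB]
  ext i k
  rw [Matrix.scalar_apply, Matrix.diagonal_apply]
  by_cases hi : (i : ℕ) < d
  · by_cases hk : (k : ℕ) < d
    · have h0 := key 0 (by omega) i k hi (by omega)
      rw [dif_pos (by omega)] at h0
      have e : g i k = B i k := by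
        simp only [hB]; rw [dif_pos (by omega)]; exact h0.symm
      rw [e]
      split_ifs with h
      · subst h; exact hBdiag _ (by omega)
      · exact hBoff _ _ (by omega) (by omega) (fun h' => h (Fin.ext h'))
    · rw [hz i k (Or.inl ⟨hi, hk⟩), if_neg (fun h => hk (by subst h; exact hi))]
  · by_cases hk : (k : ℕ) < d
    · rw [hz i k (Or.inr ⟨hi, hk⟩), if_neg (fun h => hi (by subst h; exact hk))]
    · have e : g i k = B (i - d) (k - d) := by
        simp only [hB]; rw [dif_pos (by omega)]
        congr 2 <;> first | omega | (apply Fin.ext; simp only; omega)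
      rw [e]
      split_ifs with h
      · subst h; exact hBdiag _ (by omega)
      · exact hBoff _ _ (by omega) (by omega) (fun h' => h (Fin.ext (by omega)))

end Construction

/-- For every odd prime `p` there is a finite group `H` of order `2p³` which, for infinitely many `n`, embeds in the projective special linear group `PSL(n, p)` as a subgroup with trivial centralizer. -/
theorem result
    (p : ℕ) [Fact p.Prime] (hp : p ≠ 2) :
    ∃ (H : Type) (_ : Group H) (_ : Finite H), Nat.card H = 2 * p ^ 3 ∧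
      ∀ N : ℕ, ∃ n, N ≤ n ∧ ∃ φ : H →* Matrix.ProjectiveSpecialLinearGroup (Fin n) (ZMod p),
        Function.Injective φ ∧ Subgroup.centralizer (φ.range : Set (Matrix.ProjectiveSpecialLinearGroup (Fin n) (ZMod p))) = ⊥ := by
  classical
  refine ⟨Vec p ⋊[act p] ℤˣ, inferInstance, Finite.of_equiv _ SemidirectProduct.equivProd.symm, ?_, fun N => ?_⟩
  · rw [SemidirectProduct.card, Nat.card_congr Multiplicative.toAdd]
    simp [mul_comm]
  set d := N + 2 with hd
  refine ⟨2 * d + 1, by omega, (QuotientGroup.mk' _).comp (toSL p d), ?_, ?_⟩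
  · rw [injective_iff_map_eq_one]
    intro g hg
    rw [MonoidHom.comp_apply, QuotientGroup.mk'_apply, QuotientGroup.eq_one_iff,
      Matrix.SpecialLinearGroup.mem_center_iff] at hg
    obtain ⟨r, -, hr⟩ := hg
    rw [toSL_coe] at hr
    have hent : ∀ i k : Fin (2 * d + 1), (Matrix.scalar _ r : Matrix _ _ (ZMod p)) i k =
        ((1 : Matrix _ _ (ZMod p)) i k + nMat p d g.left.toAdd i k) *
          (if (k : ℕ) < d then sgn p g.right ^ (d + 1) else sgn p g.right ^ d) := by
      intro i k
      rw [hr]
      rw [show uni p d g.left = 1 + nMat p d g.left.toAdd from rfl, show dia p d g.right = Matrix.diagonal (fun j : Fin (2 * d + 1) => if (j : ℕ) < d then sgn p g.right ^ (d + 1) else sgn p g.right ^ d) from rfl]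
      rw [Matrix.mul_diagonal, Matrix.add_apply]
    have h0 := hent ⟨0, by omega⟩ ⟨0, by omega⟩
    have h1 := hent ⟨d, by omega⟩ ⟨d, by omega⟩
    rw [nMat_right p d (by simp only; omega)] at h0
    rw [nMat_top p d (by simp)] at h1
    simp [show 0 < d by omega] at h0 h1
    have hright : g.right = 1 := by
      rcases Int.units_eq_one_or g.right with h | h
      · exact h
      · exfalso
        rw [h] at h0 h1
        have hs0 : sgn p (-1) ^ d ≠ 0 := pow_ne_zero _ (by simp [sgn])
        exact sgn_ne p hp ((mul_eq_left₀ hs0).mp ((pow_succ _ _).symm.trans (h0.symm.trans h1)))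
    have hn : ∀ i k : Fin (2 * d + 1), i ≠ k → nMat p d g.left.toAdd i k = 0 := by
      intro i k hik
      have := hent i k
      simp [hright, hik] at this
      exact this.symm
    have hleft : g.left = 1 := by
      have e1 := hn ⟨0, by omega⟩ ⟨d, by omega⟩ (by simp [Fin.ext_iff] <;> omega)
      have e2 := hn ⟨0, by omega⟩ ⟨d + 1, by omega⟩ (by simp)
      have e3 := hn ⟨0, by omega⟩ ⟨2 * d, by omega⟩ (by simp [Fin.ext_iff] <;> omega)
      simp [nMat, show 0 < d by omega, show d ≠ 2 * d by omega, show d + 1 ≠ 2 * d by omega,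
        show 2 * d ≠ d by omega, show 2 * d ≠ d + 1 by omega] at e1 e2 e3
      apply Multiplicative.toAdd.injective
      funext j
      fin_cases j <;> assumption
    exact SemidirectProduct.ext hleft hright
  · rw [eq_bot_iff]
    intro x hx
    obtain ⟨g, rfl⟩ := QuotientGroup.mk_surjective x
    rw [Subgroup.mem_bot, QuotientGroup.eq_one_iff, Matrix.SpecialLinearGroup.mem_center_iff]
    set G := (g : Matrix (Fin (2 * d + 1)) (Fin (2 * d + 1)) (ZMod p)) with hG
    have hcomm : ∀ h, ∃ r : ZMod p, r ^ (2 * d + 1) = 1 ∧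
        G * (toSL p d h : Matrix (Fin (2 * d + 1)) (Fin (2 * d + 1)) (ZMod p)) =
          r • ((toSL p d h : Matrix (Fin (2 * d + 1)) (Fin (2 * d + 1)) (ZMod p)) * G) := by
      intro h
      have := hx _ ⟨h, rfl⟩
      rw [MonoidHom.comp_apply, QuotientGroup.mk'_apply, ← QuotientGroup.mk_mul, ← QuotientGroup.mk_mul,
        QuotientGroup.eq, Matrix.SpecialLinearGroup.mem_center_iff] at this
      obtain ⟨r, hr1, hr⟩ := this
      rw [Fintype.card_fin] at hr1
      refine ⟨r, hr1, ?_⟩
      set z : Matrix.SpecialLinearGroup (Fin (2 * d + 1)) (ZMod p) := (toSL p d h * g)⁻¹ * (g * toSL p d h) with hz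
      have e : (g * toSL p d h) = (toSL p d h * g) * z := by rw [hz, mul_inv_cancel_left]
      have e2 := congrArg (fun t : Matrix.SpecialLinearGroup (Fin (2 * d + 1)) (ZMod p) =>
        (t : Matrix (Fin (2 * d + 1)) (Fin (2 * d + 1)) (ZMod p))) e
      simp only [Matrix.SpecialLinearGroup.coe_mul] at e2
      rw [← hr] at e2
      simp only [Matrix.scalar_apply, ← Matrix.smul_one_eq_diagonal, Matrix.mul_smul, Matrix.mul_one] at e2
      exact e2
    have hu0 : IsUnit G := (Matrix.isUnit_iff_isUnit_det _).mpr (by rw [g.2]; exact isUnit_one)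
    have hrone : ∀ h (k : ℕ), h ^ k = 1 → ∀ r : ZMod p,
        G * (toSL p d h : Matrix (Fin (2 * d + 1)) (Fin (2 * d + 1)) (ZMod p)) =
          r • ((toSL p d h : Matrix (Fin (2 * d + 1)) (Fin (2 * d + 1)) (ZMod p)) * G) → r ^ k = 1 := by
      intro h k hk r hr
      have hpow : ∀ m : ℕ, G * (toSL p d h : Matrix (Fin (2 * d + 1)) (Fin (2 * d + 1)) (ZMod p)) ^ m =
          r ^ m • ((toSL p d h : Matrix (Fin (2 * d + 1)) (Fin (2 * d + 1)) (ZMod p)) ^ m * G) := by
        intro m
        induction m with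
        | zero => simp
        | succ m ih =>
          rw [pow_succ (toSL p d h : Matrix (Fin (2 * d + 1)) (Fin (2 * d + 1)) (ZMod p)), ← mul_assoc, ih,
            Matrix.smul_mul, mul_assoc, hr, Matrix.mul_smul, smul_smul, ← pow_succ, ← mul_assoc]
      have := hpow k
      rw [← Matrix.SpecialLinearGroup.coe_pow, ← map_pow, hk, map_one, Matrix.SpecialLinearGroup.coe_one,
        mul_one, one_mul] at this
      obtain ⟨u, hu⟩ := hu0
      have h1 := congrArg (fun M => M * ((u⁻¹ : _ˣ) : Matrix (Fin (2 * d + 1)) (Fin (2 * d + 1)) (ZMod p))) this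
      simp only [Matrix.smul_mul, ← hu, Units.mul_inv] at h1
      have := congrFun (congrFun h1 0) 0
      simpa using this.symm
    have hT : G * dia p d (-1) = dia p d (-1) * G := by
      obtain ⟨r, hr1, hr⟩ := hcomm (SemidirectProduct.inr (-1))
      have h2 := hrone (SemidirectProduct.inr (-1)) 2 (by rw [← map_pow]; simp) r hr
      rw [pow_succ, pow_mul, h2, one_pow, one_mul] at hr1
      rw [hr1, one_smul, toSL_coe] at hr
      simpa using hr
    have hN : ∀ v, G * nMat p d v = nMat p d v * G := by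
      intro v
      obtain ⟨r, -, hr⟩ := hcomm (SemidirectProduct.inl (Multiplicative.ofAdd v))
      have h2 := hrone (SemidirectProduct.inl (Multiplicative.ofAdd v)) p (by
        rw [← map_pow, ← ofAdd_nsmul, show p • v = 0 from funext fun j => by simp]; simp) r hr
      rw [ZMod.pow_card] at h2
      rw [h2, one_smul, toSL_coe] at hr
      simp only [SemidirectProduct.left_inl, SemidirectProduct.right_inl, map_one, mul_one] at hr
      change G * (1 + nMat p d v) = (1 + nMat p d v) * G at hr
      rw [Matrix.mul_add, Matrix.add_mul, Matrix.mul_one, Matrix.one_mul] at hr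
      exact add_left_cancel hr
    have hs := scalar_of_commute p d hp (by omega) G hT hN
    refine ⟨_, ?_, hs.symm⟩
    have hdet := g.2
    change G.det = 1 at hdet
    rw [hs] at hdet
    simpa [Fintype.card_fin] using hdet

end Cfsg.Agent.S2533
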