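import Cfsg.Statements.S2534
import Cfsg.Agent.Lib.Generators.HallSym.Main

set_option autoImplicit false
open Cfsg

namespace Cfsg.Agent.S2534

open CfsgLib.Generators.HallSym CfsgLib.Hall Equiv
open scoped Pointwise

/-- The class of a point for the counterexamples in degrees seven and eight. -/
private def cls {n : ℕ} (x : Fin n) : ℕ := (x : ℕ) / 3

/-- Permutations respecting the classes. -/
private def clsStab (n : ℕ) : Subgroup (Perm (Fin n)) where
  carrier := {g | ∀ x y, cls (g x) = cls (g y) ↔ cls x = cls y}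
  one_mem' := fun _ _ => Iff.rfl
  mul_mem' := fun {f g} hf hg x y => (hf (g x) (g y)).trans (hg x y)
  inv_mem' := fun {f} hf x y => by
    have := hf (f⁻¹ x) (f⁻¹ y)
    rw [Perm.coe_inv, Equiv.apply_symm_apply, Equiv.apply_symm_apply] at this
    simpa using this.symm

private theorem clsStab_pow {n : ℕ} (h6 : 6 < n) (h9 : n ≤ 9) {g : Perm (Fin n)} (hg : g ∈ clsStab n) :
    g ^ 36 = 1 := by
  classical
  -- the induced map on the three classes
  have hlt : ∀ x : Fin n, cls x < 3 := fun x => by unfold cls; omega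
  let rep : Fin 3 → Fin n := fun c => ⟨3 * c, by omega⟩
  have hrep : ∀ c, cls (rep c) = c := fun c => by show (3 * (c : ℕ)) / 3 = c; omega
  let φ : Perm (Fin n) → Fin 3 → Fin 3 := fun g c => ⟨cls (g (rep c)), hlt _⟩
  have hφinj : ∀ f ∈ clsStab n, Function.Injective (φ f) := fun f hf c c' e => by
    have := (hf _ _).1 (congrArg Fin.val e)
    rw [hrep, hrep] at this
    exact Fin.ext this
  let σ : Perm (Fin 3) := Equiv.ofBijective _ (Finite.injective_iff_bijective.1 (hφinj g hg))
  have hσ : ∀ x : Fin n, cls (g x) = (σ ⟨cls x, hlt x⟩ : ℕ) := fun x => (hg x (rep ⟨cls x, hlt x⟩)).2 (hrep ⟨cls x, hlt x⟩).symm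
  have hpow : ∀ k x, cls ((g ^ k) x) = ((σ ^ k) ⟨cls x, hlt x⟩ : ℕ) := by
    intro k
    induction k with
    | zero => intro x; rfl
    | succ k ih =>
      intro x
      rw [pow_succ', pow_succ', Perm.mul_apply, Perm.mul_apply, hσ]
      congr 1
      congr 1
      exact Fin.ext (ih x)
  have h6' : σ ^ 6 = 1 := by
    have := pow_card_eq_one' (x := σ)
    rwa [Nat.card_perm, Nat.card_eq_fintype_card, Fintype.card_fin] at this
  have hfix : ∀ x, cls ((g ^ 6) x) = cls x := fun x => by rw [hpow, h6']; rfl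
  refine Equiv.ext fun x => ?_
  let C := {y : Fin n // cls y = cls x}
  let τ : Perm C := Perm.subtypePerm (g ^ 6) fun y => by rw [hfix]
  have hC : Fintype.card C ≤ 3 := by
    refine (Fintype.card_le_of_injective (fun y : C => (⟨(y.1 : ℕ) % 3, Nat.mod_lt _ (by norm_num)⟩ : Fin 3)) ?_).trans
      (by simp)
    intro y y' e
    have e1 := congrArg Fin.val e
    have e2 := y.2.trans y'.2.symm
    simp only [cls] at e1 e2
    exact Subtype.ext (Fin.ext (by omega))
  have hτ : τ ^ 6 = 1 := by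
    refine orderOf_dvd_iff_pow_eq_one.1 ((orderOf_dvd_natCard τ).trans ?_)
    rw [Nat.card_perm, Nat.card_eq_fintype_card]
    exact (Nat.factorial_dvd_factorial hC).trans (by decide)
  have := congrArg (fun t : Perm C => ((t ⟨x, rfl⟩ : C) : Fin n)) hτ
  have hval : ∀ (m : ℕ) (y : C), ((τ ^ m) y).1 = ((g ^ 6) ^ m) y.1 := by
    intro m
    induction m with
    | zero => intro y; rfl
    | succ m ih => intro y; rw [pow_succ', pow_succ', Perm.mul_apply, Perm.mul_apply, ← ih y]; rfl
  have e := this.symm.trans (hval 6 ⟨x, rfl⟩)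
  rw [← pow_mul] at e
  simpa using e.symm

private theorem clsStab_primes {n : ℕ} (h6 : 6 < n) (h9 : n ≤ 9) {p : ℕ} (hp : p.Prime)
    (hd : p ∣ Nat.card (clsStab n)) : p = 2 ∨ p = 3 := by
  haveI : Fact p.Prime := ⟨hp⟩
  obtain ⟨g, hg⟩ := exists_prime_orderOf_dvd_card' p hd
  have h36 : p ∣ 2 ^ 2 * 3 ^ 2 := hg ▸ orderOf_dvd_of_pow_eq_one (Subtype.ext (clsStab_pow h6 h9 g.2))
  rcases (Nat.Prime.dvd_mul hp).1 h36 with e | e
  · exact Or.inl ((Nat.prime_dvd_prime_iff_eq hp Nat.prime_two).1 (hp.dvd_of_dvd_pow e))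
  · exact Or.inr ((Nat.prime_dvd_prime_iff_eq hp Nat.prime_three).1 (hp.dvd_of_dvd_pow e))

private def w7 : List (Perm (Fin 7)) :=
  [swap 0 1 * swap 0 2, swap 3 4 * swap 3 5, swap 0 3 * (swap 1 4 * swap 4 2 * swap 2 5)]

private def w8 : List (Perm (Fin 8)) :=
  [swap 0 1 * swap 0 2, swap 3 4 * swap 3 5, swap 0 3 * (swap 1 4 * swap 4 2 * swap 2 5)]

private theorem w7_all : w7.all (fun g => (List.finRange 7).all fun x => (List.finRange 7).all fun y =>
    decide ((g x : ℕ) / 3 = (g y : ℕ) / 3) == decide ((x : ℕ) / 3 = (y : ℕ) / 3)) = true := by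
  decide +kernel

private theorem w7_cls : ∀ g ∈ w7, ∀ x y, cls (g x) = cls (g y) ↔ cls x = cls y := fun g hg x y =>
  decide_eq_decide.1 (beq_iff_eq.1 (List.all_eq_true.1 (List.all_eq_true.1 (List.all_eq_true.1 w7_all g hg) x
    (List.mem_finRange x)) y (List.mem_finRange y)))

private theorem w7_mem : ∀ g ∈ w7, Perm.sign g = 1 ∧ ∀ x y, cls (g x) = cls (g y) ↔ cls x = cls y := by
  intro g hg
  refine ⟨?_, w7_cls g hg⟩
  simp only [w7, List.mem_cons, List.not_mem_nil, or_false] at hg
  rcases hg with rfl | rfl | rfl <;> simp [Perm.sign_mul, Perm.sign_swap]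

private theorem w8_all : w8.all (fun g => (List.finRange 8).all fun x => (List.finRange 8).all fun y =>
    decide ((g x : ℕ) / 3 = (g y : ℕ) / 3) == decide ((x : ℕ) / 3 = (y : ℕ) / 3)) = true := by
  decide +kernel

private theorem w8_cls : ∀ g ∈ w8, ∀ x y, cls (g x) = cls (g y) ↔ cls x = cls y := fun g hg x y =>
  decide_eq_decide.1 (beq_iff_eq.1 (List.all_eq_true.1 (List.all_eq_true.1 (List.all_eq_true.1 w8_all g hg) x
    (List.mem_finRange x)) y (List.mem_finRange y)))

private theorem w8_mem : ∀ g ∈ w8, Perm.sign g = 1 ∧ ∀ x y, cls (g x) = cls (g y) ↔ cls x = cls y := by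
  intro g hg
  refine ⟨?_, w8_cls g hg⟩
  simp only [w8, List.mem_cons, List.not_mem_nil, or_false] at hg
  rcases hg with rfl | rfl | rfl <;> simp [Perm.sign_mul, Perm.sign_swap]

private theorem w7_moves : ∀ A ∈ Finset.powersetCard 3 (Finset.univ : Finset (Fin 7)), ∃ g ∈ w7, ∃ x, ¬ (g x ∈ A ↔ x ∈ A) := by
  decide +kernel

private theorem w8_moves : ∀ A ∈ Finset.powersetCard 4 (Finset.univ : Finset (Fin 8)), ∃ g ∈ w8, (∃ x, ¬ (g x ∈ A ↔ x ∈ A)) ∧
    ∃ x, ¬ (g x ∈ A ↔ x ∉ A) := by
  decide +kernel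

private theorem exists_not_subconj {n : ℕ} (hn : 5 ≤ n) {π : Set ℕ} (h2 : TwoPrimes π n) (hns : NotAll π n)
    (hc : Cond π n) : ∃ K : Subgroup (Perm (Fin n)), K ≤ alternatingGroup (Fin n) ∧
      (∀ p : ℕ, p.Prime → p ∣ Nat.card K → p ∈ π) ∧
      ∀ M, IsPiHallOf π M (alternatingGroup (Fin n)) → ¬ K ≤ M := by
  classical
  rcases hc h2 hns with ⟨hnp, hiff⟩ | ⟨he, h23⟩
  · let S : Set (Fin n) := {⟨0, by omega⟩, ⟨1, by omega⟩}
    have hS : S.ncard = 2 := Set.ncard_pair (by simp [Fin.ext_iff])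
    have hSc : Sᶜ.ncard = n - 2 := by
      have := ncard_add_compl S
      rw [hS, Fintype.card_fin] at this
      omega
    refine ⟨setStab S ⊓ alternatingGroup (Fin n), inf_le_right, fun p hp hd => ?_, fun M hM hle => ?_⟩
    · have := prime_le_of_dvd_card_setStab hSc.le hS.le hp (hd.trans (Subgroup.card_dvd_of_le inf_le_left))
      have := hp.two_le
      exact (hiff p hp (by omega)).2 (by omega)
    · have hexcl : ∀ x, ∃ g ∈ setStab S ⊓ alternatingGroup (Fin n), g x ≠ x := by
        intro x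
        obtain ⟨u, hu, v, hv, huv⟩ := exists_two hS le_rfl
        obtain ⟨y, hy, z, hz, hyz⟩ := exists_two hSc (by omega)
        rcases em (x ∈ S) with hx | hx
        · obtain ⟨x', hx', hne⟩ := Set.exists_ne_of_one_lt_ncard (s := S) (by omega) x
          refine ⟨swap y z * swap x x', ⟨mul_mem (swap_mem_setStab (iff_of_false hy hz))
            (swap_mem_setStab (iff_of_true hx hx')), swap_swap_mem le_rfl hne.symm hyz⟩, ?_⟩
          rw [Perm.mul_apply, swap_apply_left,
            swap_apply_of_ne_of_ne (fun e => hy (by rw [← e]; exact hx')) (fun e => hz (by rw [← e]; exact hx'))]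
          exact hne
        · obtain ⟨x', hx', hne⟩ := Set.exists_ne_of_one_lt_ncard (s := Sᶜ) (by omega) x
          refine ⟨swap x x' * swap u v, ⟨mul_mem (swap_mem_setStab (iff_of_false hx hx'))
            (swap_mem_setStab (iff_of_true hu hv)), swap_swap_mem le_rfl huv hne.symm⟩, ?_⟩
          rw [Perm.mul_apply, swap_apply_of_ne_of_ne (a := u) (b := v) (x := x) (fun e => hx (by rw [e]; exact hu))
            (fun e => hx (by rw [e]; exact hv)), swap_apply_left]
          exact hne
      rcases classify le_rfl hM (by rwa [Fintype.card_fin]) (by rwa [Fintype.card_fin]) with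
        ⟨-, x, rfl⟩ | ⟨e, h7, -⟩ | ⟨e, -⟩
      · obtain ⟨g, hg, hgx⟩ := hexcl x
        exact hgx (mem_setStab_singleton.1 (hle hg).1)
      · rw [Nat.card_fin] at e
        subst e
        exact absurd ((h7 5 (by norm_num) (by norm_num)).1 ((hiff 5 (by norm_num) (by norm_num)).2 (by norm_num)))
          (by norm_num)
      · rw [Nat.card_fin] at e
        rw [e] at hnp
        norm_num at hnp
  · refine ⟨clsStab n ⊓ alternatingGroup (Fin n), inf_le_right, fun p hp hd => ?_, fun M hM hle => ?_⟩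
    · have h23' := clsStab_primes (by omega) (by omega) hp (hd.trans (Subgroup.card_dvd_of_le inf_le_left))
      rcases h23' with rfl | rfl
      · exact (h23 2 hp (by omega)).2 (Or.inl rfl)
      · exact (h23 3 hp (by omega)).2 (Or.inr rfl)
    · rcases classify le_rfl hM (by rwa [Fintype.card_fin]) (by rwa [Fintype.card_fin]) with
        ⟨⟨hnp, hiff⟩, -⟩ | ⟨e, -, A, hA, rfl⟩ | ⟨e, -, A, hA, rfl⟩
      · rw [Nat.card_fin] at hnp hiff
        rcases he with rfl | rfl
        · exact absurd ((h23 5 (by norm_num) (by norm_num)).1 ((hiff 5 (by norm_num) (by norm_num)).2 (by norm_num)))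
            (by norm_num)
        · norm_num at hnp
      · rw [Nat.card_fin] at e
        subst e
        obtain ⟨g, hg, x, hx⟩ := w7_moves A.toFinset (Finset.mem_powersetCard.2 ⟨Finset.subset_univ _, by rw [← Set.ncard_eq_toFinset_card', hA]⟩)
        refine hx ?_
        simp only [Set.mem_toFinset]
        exact (hle ⟨(w7_mem g hg).2, Perm.mem_alternatingGroup.2 (w7_mem g hg).1⟩).1 x
      · rw [Nat.card_fin] at e
        subst e
        obtain ⟨g, hg, ⟨x, hx⟩, y, hy⟩ := w8_moves A.toFinset (Finset.mem_powersetCard.2 ⟨Finset.subset_univ _, by rw [← Set.ncard_eq_toFinset_card', hA]⟩)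
        rcases (hle ⟨(w8_mem g hg).2, Perm.mem_alternatingGroup.2 (w8_mem g hg).1⟩).1 with hh | hh
        · refine hx ?_; simp only [Set.mem_toFinset]; exact hh x
        · refine hy ?_; simp only [Set.mem_toFinset]; exact hh y

private theorem dpi_iff (n : ℕ) (hn : 5 ≤ n) (π : Set ℕ) :
    Cfsg.IsDPiGroup π ↥(alternatingGroup (Fin n)) ↔
      ((∀ r s : ℕ, r.Prime → s.Prime → r ∈ π → s ∈ π → r ∣ Nat.card ↥(alternatingGroup (Fin n)) → s ∣ Nat.card ↥(alternatingGroup (Fin n)) → r = s) ∨
        ∀ r : ℕ, r.Prime → r ∣ Nat.card ↥(alternatingGroup (Fin n)) → r ∈ π) := by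
  classical
  set A := alternatingGroup (Fin n) with hA
  have hdvd : ∀ r : ℕ, r.Prime → (r ∣ Nat.card A ↔ r ≤ n) := fun r hr =>
    ⟨fun h => by simpa using le_card_of_prime_dvd hr h,
      fun h => prime_dvd_card_alternatingGroup hr (by simpa using h) (by simp; omega)⟩
  constructor
  · intro hD
    by_contra hcon
    push Not at hcon
    obtain ⟨⟨r, s, hr, hs, hrπ, hsπ, hrA, hsA, hrs⟩, t, ht, htA, htπ⟩ := hcon
    have h2 : TwoPrimes π n := ⟨r, s, hr, hs, hrs, hrπ, hsπ, (hdvd r hr).1 hrA, (hdvd s hs).1 hsA⟩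
    have hns : NotAll π n := ⟨t, ht, (hdvd t ht).1 htA, htπ⟩
    have hmax : ∀ K : Subgroup A, IsPiSubgroup π K → ∃ H, K ≤ H ∧ Maximal (IsPiSubgroup π) H := fun K hK =>
      Set.Finite.exists_le_maximal (Set.toFinite {H : Subgroup A | IsPiSubgroup π H}) hK
    obtain ⟨M₀, -, hM₀⟩ := hmax ⊥ (fun p hp hd => absurd (Subgroup.card_bot (G := A) ▸ hd) hp.not_dvd_one)
    have hhall : IsPiHall π M₀ := by
      refine ⟨hM₀.1, fun p hp hpπ hd => ?_⟩
      haveI : Fact p.Prime := ⟨hp⟩
      obtain ⟨P⟩ := (inferInstance : Nonempty (Sylow p A))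
      obtain ⟨H, hPH, hH⟩ := hmax P (fun q hq hqd => by
        rw [P.card_eq_multiplicity] at hqd
        exact (Nat.prime_dvd_prime_iff_eq hq hp).1 (hq.dvd_of_dvd_pow hqd) ▸ hpπ)
      obtain ⟨g, e⟩ := hD H M₀ hH hM₀
      have hidx : M₀.index = H.index := by
        rw [e]; exact H.index_map_equiv (MulAut.conj g)
      exact P.not_dvd_index (hd.trans (hidx ▸ Subgroup.index_dvd_of_le hPH))
    have hc : Cond π n := by
      have := cond_of_hall le_rfl (isPiHall_iff_map.1 hhall)
      rwa [Fintype.card_fin] at this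
    obtain ⟨K, hKA, hKπ, hK⟩ := exists_not_subconj hn h2 hns hc
    obtain ⟨H, hKH, hH⟩ := hmax (K.subgroupOf A) (fun p hp hd => hKπ p hp (by
      rwa [Nat.card_congr (Subgroup.subgroupOfEquivOfLe hKA).toEquiv] at hd))
    obtain ⟨g, e⟩ := hD M₀ H hM₀ hH
    have hHhall : IsPiHall π H := e ▸ isPiHall_conj hhall g
    refine hK _ (isPiHall_iff_map.1 hHhall) ?_
    calc K = (K.subgroupOf A).map A.subtype := (Subgroup.map_subgroupOf_eq_of_le hKA).symm
      _ ≤ H.map A.subtype := Subgroup.map_mono hKH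
  · intro h H K hH hK
    rcases h with hone | hall
    · by_cases h1 : ∃ p, p.Prime ∧ p ∈ π ∧ p ∣ Nat.card A
      · obtain ⟨p, hp, hpπ, hpA⟩ := h1
        haveI : Fact p.Prime := ⟨hp⟩
        have hsyl : ∀ L : Subgroup A, Maximal (IsPiSubgroup π) L → ∃ P : Sylow p A, L = (P : Subgroup A) := by
          intro L hL
          have hLp : IsPGroup p L := IsPGroup.of_card (Nat.eq_prime_pow_of_unique_prime_dvd Nat.card_pos.ne'
            fun {d} hd hdd => hone d p hd hp (hL.1 d hd hdd) hpπ (hdd.trans (Subgroup.card_subgroup_dvd_card L)) hpA)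
          obtain ⟨P, hP⟩ := hLp.exists_le_sylow
          exact ⟨P, le_antisymm hP (hL.2 (fun q hq hqd => by
            rw [P.card_eq_multiplicity] at hqd
            exact (Nat.prime_dvd_prime_iff_eq hq hp).1 (hq.dvd_of_dvd_pow hqd) ▸ hpπ) hP)⟩
        obtain ⟨P, rfl⟩ := hsyl H hH
        obtain ⟨Q, rfl⟩ := hsyl K hK
        obtain ⟨g, rfl⟩ := MulAction.exists_smul_eq A P Q
        exact ⟨g, rfl⟩
      · have hbot : ∀ L : Subgroup A, Maximal (IsPiSubgroup π) L → L = ⊥ := fun L hL =>
          Subgroup.eq_bot_of_card_eq _ (by_contra fun hne => by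
            obtain ⟨q, hq, hqd⟩ := Nat.exists_prime_and_dvd hne
            exact h1 ⟨q, hq, hL.1 q hq hqd, hqd.trans (Subgroup.card_subgroup_dvd_card L)⟩)
        exact ⟨1, by rw [hbot H hH, hbot K hK, Subgroup.map_bot]⟩
    · have htop : ∀ L : Subgroup A, Maximal (IsPiSubgroup π) L → L = ⊤ := fun L hL =>
        le_antisymm le_top (hL.2 (fun q hq hqd => hall q hq (hqd.trans (Subgroup.card_subgroup_dvd_card _))) le_top)
      exact ⟨1, by rw [htop H hH, htop K hK]; ext x; simp⟩

/-- For `n ≥ 5` and a set of primes `π`, the alternating group of degree `n` satisfies the full Sylow analogue for `π` (its maximal `π`-subgroups are pairwise conjugate; for a finite group this says Hall `π`-subgroups exist, are all conjugate, and contain every `π`-subgroup up to conjugacy) if and only if either at most one prime of `π` divides its order or every prime dividing its order lies in `π`. -/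
theorem result (n : ℕ) (hn : 5 ≤ n) (π : Set ℕ) :
    Cfsg.IsDPiGroup π ↥(alternatingGroup (Fin n)) ↔
      ((∀ r s : ℕ, r.Prime → s.Prime → r ∈ π → s ∈ π → r ∣ Nat.card ↥(alternatingGroup (Fin n)) → s ∣ Nat.card ↥(alternatingGroup (Fin n)) → r = s) ∨
        ∀ r : ℕ, r.Prime → r ∣ Nat.card ↥(alternatingGroup (Fin n)) → r ∈ π) := by
  exact dpi_iff n hn π

end Cfsg.Agent.S2534
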