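import Cfsg.Statements.S2537
import Cfsg.Agent.Lib.SL2.Dickson.Main
import Cfsg.Agent.Lib.SL2.Dickson.Maximal
import Cfsg.Agent.Lib.SL2.Dickson.Index
import Cfsg.Agent.Lib.Parabolic.PSLFours.Count
import Cfsg.Agent.Lib.Hall.Existence
import Cfsg.Agent.Lib.Hall.Basic

set_option autoImplicit false
open Cfsg

namespace Cfsg.Agent.S2537

open CfsgLib.SL2 CfsgLib.SL2.Dickson

private theorem isSolvable_dihedral (k : ℕ) : Group.IsSolvable (DihedralGroup k) := by
  let f : DihedralGroup k →* Multiplicative (ZMod 2) :=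
    MonoidHom.mk' (fun x => match x with | .r _ => 1 | .sr _ => Multiplicative.ofAdd 1)
      (by rintro (a | a) (b | b) <;> simp [← ofAdd_add] <;> rfl)
  let g : Multiplicative (ZMod k) →* DihedralGroup k :=
    MonoidHom.mk' (fun a => DihedralGroup.r a.toAdd) (fun a b => by simp)
  haveI : Group.IsSolvable (Multiplicative (ZMod 2)) := Group.isSolvable_of_comm mul_comm
  haveI : Group.IsSolvable (Multiplicative (ZMod k)) := Group.isSolvable_of_comm mul_comm
  refine Group.isSolvable_of_ker_le_range g f ?_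
  rintro (a | a) h
  · exact ⟨Multiplicative.ofAdd a, rfl⟩
  · exact absurd (congrArg Multiplicative.toAdd (MonoidHom.mem_ker.1 h)) (by simp [f])

private theorem isPiNum_iff {n : ℕ} (hn : n ≠ 0) :
    (∀ l : ℕ, l.Prime → l ∣ n → l ∈ ({2, 3} : Set ℕ)) ↔
      n = 2 ^ n.factorization 2 * 3 ^ n.factorization 3 := by
  constructor
  · intro h
    refine Nat.eq_of_factorization_eq hn (by positivity) fun l => ?_
    rw [Nat.factorization_mul (by positivity) (by positivity), Nat.factorization_pow, Nat.factorization_pow,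
      Nat.prime_two.factorization, Nat.prime_three.factorization]
    simp only [Finsupp.coe_add, Finsupp.coe_smul, Pi.add_apply, Pi.smul_apply, smul_eq_mul, Finsupp.single_apply]
    by_cases hl : l.Prime ∧ l ∣ n
    · rcases h l hl.1 hl.2 with rfl | rfl <;> simp
    · have : n.factorization l = 0 := by
        by_contra h0
        exact hl ⟨Nat.prime_of_mem_primeFactors (Finsupp.mem_support_iff.2 h0),
          Nat.dvd_of_factorization_pos h0⟩
      rw [this]
      split_ifs with h1 h2 h2 <;> subst_vars <;> simp_all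
  · intro h l hl hd
    rw [h] at hd
    rcases (Nat.Prime.dvd_mul hl).1 hd with e | e
    · exact Or.inl ((Nat.prime_dvd_prime_iff_eq hl Nat.prime_two).1 (hl.dvd_of_dvd_pow e))
    · exact Or.inr ((Nat.prime_dvd_prime_iff_eq hl Nat.prime_three).1 (hl.dvd_of_dvd_pow e))

private theorem fac23 (a b : ℕ) :
    (2 ^ a * 3 ^ b).factorization 2 = a ∧ (2 ^ a * 3 ^ b).factorization 3 = b := by
  simp [Nat.factorization_mul, Nat.factorization_pow, Nat.prime_two.factorization, Nat.prime_three.factorization]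

/-- `H` is a Hall `{2,3}`-subgroup iff its order is the `{2,3}`-part of the group order. -/
private theorem hall_iff {G : Type*} [Group G] [Finite G] (H : Subgroup G) :
    Cfsg.IsPiHall ({2, 3} : Set ℕ) H ↔
      Nat.card H = 2 ^ (Nat.card G).factorization 2 * 3 ^ (Nat.card G).factorization 3 := by
  have hH : Nat.card H ≠ 0 := Nat.card_pos.ne'
  have hi : H.index ≠ 0 := Subgroup.index_ne_zero_of_finite
  have hf : ∀ l, (Nat.card G).factorization l = (Nat.card H).factorization l + H.index.factorization l :=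
    fun l => by rw [← H.card_mul_index, Nat.factorization_mul hH hi, Finsupp.add_apply]
  unfold Cfsg.IsPiHall
  rw [isPiNum_iff hH]
  constructor
  · rintro ⟨h1, h2⟩
    rw [h1, hf 2, hf 3, Nat.factorization_eq_zero_of_not_dvd (h2 2 Nat.prime_two (Or.inl rfl)),
      Nat.factorization_eq_zero_of_not_dvd (h2 3 Nat.prime_three (Or.inr rfl)), add_zero, add_zero]
  · intro h
    obtain ⟨e2, e3⟩ := fac23 ((Nat.card G).factorization 2) ((Nat.card G).factorization 3)
    rw [← h] at e2 e3
    refine ⟨by rw [e2, e3]; exact h, fun l hl hlπ hd => ?_⟩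
    have := hl.factorization_pos_of_dvd hi hd
    rcases hlπ with rfl | rfl
    · have := hf 2; omega
    · have := hf 3; omega


/-- Let `F` be a finite field with `q` elements of characteristic `p ≥ 5`, and `ε = 1` if `q ≡ 1 (mod 4)`, `ε = -1` otherwise. Then `PSL(2, F)` has a Hall `{2, 3}`-subgroup if and only if `3` divides `q − ε`, or the `{2,3}`-part of `q² − 1` is 24, or the `{2,3}`-part of `q² − 1` is 48 (the `{2,3}`-part of `m` being the largest divisor of `m` with no prime factor other than 2 and 3). -/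
theorem result {F : Type*} [Field F] [Fintype F] {p : ℕ} [Fact p.Prime] [CharP F p]
    (hp : 5 ≤ p) (q : ℕ) (hq : Fintype.card F = q) :
    (∃ H : Subgroup (Matrix.ProjectiveSpecialLinearGroup (Fin 2) F), Cfsg.IsPiHall ({2, 3} : Set ℕ) H) ↔
      (3 ∣ q - 1 ∧ q % 4 = 1) ∨ (3 ∣ q + 1 ∧ q % 4 = 3) ∨
        2 ^ (q ^ 2 - 1).factorization 2 * 3 ^ (q ^ 2 - 1).factorization 3 = 24 ∨
        2 ^ (q ^ 2 - 1).factorization 2 * 3 ^ (q ^ 2 - 1).factorization 3 = 48 := by
  classical
  have hq' : Nat.card F = q := by rw [Nat.card_eq_fintype_card, hq]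
  obtain ⟨f, hpp, hf⟩ := FiniteField.card F p
  have hqf : q = p ^ (f : ℕ) := hq ▸ hf
  have hcop : ∀ l : ℕ, l.Prime → l ≠ p → q.factorization l = 0 ∧ ¬ l ∣ q := by
    intro l hl hlp
    have h : ¬ l ∣ q := fun hd =>
      hlp ((Nat.prime_dvd_prime_iff_eq hl hpp).1 (hl.dvd_of_dvd_pow (hqf ▸ hd)))
    exact ⟨Nat.factorization_eq_zero_of_not_dvd h, h⟩
  have h2q := (hcop 2 Nat.prime_two (by omega)).2
  have h3q := (hcop 3 Nat.prime_three (by omega)).2
  have hq5 : 5 ≤ q := hqf ▸ hp.trans (Nat.le_self_pow f.pos.ne' p)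
  have hF2 : (2 : F) ≠ 0 := by
    intro h
    have h' : ((2 : ℕ) : F) = 0 := by exact_mod_cast h
    have h'' := (Nat.prime_dvd_prime_iff_eq hpp Nat.prime_two).1 ((CharP.cast_eq_zero_iff F p 2).1 h')
    omega
  have hε : Nat.card (Subgroup.center (Matrix.SpecialLinearGroup (Fin 2) F)) = 2 := center_card_of_odd hF2
  set N := Nat.card (Matrix.ProjectiveSpecialLinearGroup (Fin 2) F) with hNdef
  have hN : 2 * N = q * (q ^ 2 - 1) := by
    have := card_PSL_mul (F := F)
    rw [hε, hq'] at this
    rw [hNdef, this, show q ^ 2 - 1 = q ^ 2 - 1 ^ 2 by norm_num, Nat.sq_sub_sq]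
  have hq21 : q ^ 2 - 1 = (q + 1) * (q - 1) := by
    rw [show q ^ 2 - 1 = q ^ 2 - 1 ^ 2 by norm_num, Nat.sq_sub_sq]
  have h0 : q ^ 2 - 1 ≠ 0 := by rw [hq21]; exact mul_ne_zero (by omega) (by omega)
  have hN0 : N ≠ 0 := Nat.card_pos.ne'
  set A := (q ^ 2 - 1).factorization 2 with hA
  set B := (q ^ 2 - 1).factorization 3 with hB
  have hfN : N.factorization 2 + 1 = A ∧ N.factorization 3 = B := by
    have h := fun l => congrArg (fun x => x.factorization l) hN
    simp only [Nat.factorization_mul (two_ne_zero) hN0, Nat.factorization_mul (show q ≠ 0 by omega) h0,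
      Finsupp.add_apply, Nat.prime_two.factorization, Finsupp.single_apply] at h
    have h2' := h 2
    have h3' := h 3
    simp [(hcop 2 Nat.prime_two (by omega)).1, (hcop 3 Nat.prime_three (by omega)).1] at h2' h3'
    omega
  have hsucc : 2 ^ A = 2 * 2 ^ N.factorization 2 := by rw [← hfN.1, pow_succ']
  -- the two factors
  have hsplit : ∀ l : ℕ, (q ^ 2 - 1).factorization l = (q + 1).factorization l + (q - 1).factorization l := by
    intro l; rw [hq21, Nat.factorization_mul (by omega) (by omega), Finsupp.add_apply]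
  have hv2 : ∀ m : ℕ, m % 4 = 2 → m.factorization 2 = 1 := by
    intro m hm
    obtain ⟨j, hj, rfl⟩ : ∃ j, ¬ 2 ∣ j ∧ m = 2 * j := ⟨m / 2, by omega, by omega⟩
    rw [Nat.factorization_mul two_ne_zero (by omega), Finsupp.add_apply,
      Nat.factorization_eq_zero_of_not_dvd hj, Nat.prime_two.factorization]
    simp
  -- `e` is the one of `q ± 1` divisible by four
  obtain ⟨e, e', he, he4, he'4, hee, hAe⟩ : ∃ e e' : ℕ, (e = q - 1 ∨ e = q + 1) ∧ 4 ∣ e ∧ e' % 4 = 2 ∧
      ((e = q - 1 ∧ e' = q + 1) ∨ (e = q + 1 ∧ e' = q - 1)) ∧ A = e.factorization 2 + 1 := by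
    rcases (show q % 4 = 1 ∨ q % 4 = 3 by omega) with h | h
    · refine ⟨q - 1, q + 1, Or.inl rfl, by omega, by omega, Or.inl ⟨rfl, rfl⟩, ?_⟩
      rw [hA, hsplit, hv2 (q + 1) (by omega), add_comm]
    · refine ⟨q + 1, q - 1, Or.inr rfl, by omega, by omega, Or.inr ⟨rfl, rfl⟩, ?_⟩
      rw [hA, hsplit, hv2 (q - 1) (by omega)]
  have hcond : ((3 ∣ q - 1 ∧ q % 4 = 1) ∨ (3 ∣ q + 1 ∧ q % 4 = 3)) ↔ 3 ∣ e := by
    rcases hee with ⟨h1, h2⟩ | ⟨h1, h2⟩
    · have hm : q % 4 = 1 := by clear hN hq21 h0 hfN hsucc hsplit; omega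
      subst h1
      exact ⟨fun h => h.elim (fun h => h.1) (fun h => absurd h.2 (by omega)), fun h => Or.inl ⟨h, hm⟩⟩
    · have hm : q % 4 = 3 := by clear hN hq21 h0 hfN hsucc hsplit; omega
      subst h1
      exact ⟨fun h => h.elim (fun h => absurd h.2 (by omega)) (fun h => h.1), fun h => Or.inr ⟨h, hm⟩⟩
  constructor
  · rintro ⟨H, hH⟩
    rw [hall_iff, ← hNdef] at hH
    suffices 3 ∣ e ∨ 2 ^ A * 3 ^ B = 24 ∨ 2 ^ A * 3 ^ B = 48 by
      rcases this with h | h | h
      · rcases hcond.2 h with h' | h'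
        · exact Or.inl h'
        · exact Or.inr (Or.inl h')
      · exact Or.inr (Or.inr (Or.inl h))
      · exact Or.inr (Or.inr (Or.inr h))
    have h2B : 3 ∣ q ^ 2 - 1 := by
      rw [hq21]
      rcases (show 3 ∣ q + 1 ∨ 3 ∣ q - 1 by clear * - h3q; omega) with h | h
      · exact h.mul_right _
      · exact h.mul_left _
    have hB1 : 1 ≤ B := Nat.prime_three.factorization_pos_of_dvd h0 h2B
    have hA3 : 3 ≤ A := by
      rw [hAe]
      have := (Nat.prime_two.pow_dvd_iff_le_factorization (k := 2) (by omega)).1 (show 2 ^ 2 ∣ e from he4)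
      omega
    have hH3 : 3 ∣ Nat.card H := by
      rw [hH, hfN.2]; exact (dvd_pow_self 3 (by omega)).mul_left _
    have hH4 : 2 ^ (A - 1) ∣ Nat.card H := by
      rw [hH, show A - 1 = N.factorization 2 by omega]; exact dvd_mul_right _ _
    rcases classification (center_le_lift H) with h | h | ⟨h, -⟩ | ⟨h, -⟩ | ⟨h, -⟩ | ⟨R, k, hR3, hidx, -⟩
    · exfalso
      obtain ⟨u, hu⟩ := h
      let φ : lift H →* borel F :=
        ((MulAut.conj u).toMonoidHom.comp (lift H).subtype).codRestrict (borel F) fun g => hu g g.2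
      have hφ : Function.Injective φ := fun a b h =>
        Subtype.ext ((MulAut.conj u).injective (congrArg Subtype.val h))
      have hd := Subgroup.card_dvd_of_injective φ hφ
      rw [card_borel, card_lift, hε, hq'] at hd
      have h2A : 2 ^ A ∣ q - 1 := by
        have h' := (mul_dvd_mul_left 2 hH4).trans hd
        rw [← pow_succ', show A - 1 + 1 = A by omega] at h'
        exact Nat.Coprime.dvd_of_dvd_mul_left
          ((Nat.coprime_pow_left_iff (by omega) 2 q).2 (Nat.prime_two.coprime_iff_not_dvd.2 h2q)) h'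
      have h3 : (q + 1).factorization 2 ≥ 1 :=
        Nat.prime_two.factorization_pos_of_dvd (by omega) (by omega)
      have h4 := (Nat.prime_two.pow_dvd_iff_le_factorization (show q - 1 ≠ 0 by omega)).1 h2A
      have h5 := hsplit 2
      rw [← hA] at h5
      omega
    · left
      obtain ⟨k, hk, hiso⟩ := torus_case (center_le_lift H) h
      rw [hq', show Nat.gcd 2 (q - 1) = 2 from Nat.gcd_eq_left (by omega)] at hk
      let φ := liftEquiv H
      have hkH : (Nat.card H = k ∨ Nat.card H = 2 * k) := by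
        rcases hiso with ⟨-, hcard⟩ | ⟨⟨ee⟩⟩
        · exact Or.inl ((Nat.card_congr φ.toEquiv).symm.trans hcard)
        · exact Or.inr ((Nat.card_congr φ.toEquiv).symm.trans ((Nat.card_congr ee.toEquiv).trans DihedralGroup.nat_card))
      have h4H : 4 ∣ Nat.card H := (pow_dvd_pow 2 (show 2 ≤ A - 1 by omega)).trans hH4
      have hk2 : 2 ∣ k := by rcases hkH with h' | h' <;> omega
      have hk3 : 3 ∣ k := by rcases hkH with h' | h' <;> omega
      rcases hk with h' | h'
      · have a2 := hk2.trans h'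
        have a3 := hk3.trans h'
        omega
      · have a2 := hk2.trans h'
        have a3 := hk3.trans h'
        omega
    · rw [card_eq_index_zG] at h
      right; left
      rw [hsucc, mul_assoc, ← hfN.2, ← hH, h]
      rfl
    · rw [card_eq_index_zG] at h
      right; right
      rw [hsucc, mul_assoc, ← hfN.2, ← hH, h]
      rfl
    · rw [card_eq_index_zG] at h
      exfalso
      have h5 : 5 ∣ 2 ^ N.factorization 2 * 3 ^ N.factorization 3 := by rw [← hH, h]; norm_num
      rcases (Nat.Prime.dvd_mul (by norm_num)).1 h5 with e5 | e5 <;>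
        exact absurd (Nat.le_of_dvd (by norm_num) ((by norm_num : Nat.Prime 5).dvd_of_dvd_pow e5)) (by norm_num)
    · exfalso
      rw [card_eq_index_zG] at hidx
      have hR : p ∣ Nat.card R := by
        have e1 : q = Nat.card R ^ Module.finrank R F := hq' ▸ Module.natCard_eq_pow_finrank (K := R) (V := F)
        obtain ⟨j, -, hj⟩ := (Nat.dvd_prime_pow hpp).1
          (show Nat.card R ∣ p ^ (f : ℕ) by rw [← hqf, e1]; exact dvd_pow_self _ Module.finrank_pos.ne')
        rcases Nat.eq_zero_or_pos j with rfl | hj0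
        · rw [hj, pow_zero] at hR3; omega
        · rw [hj]; exact dvd_pow_self p hj0.ne'
      have hpH : p ∣ 2 ^ N.factorization 2 * 3 ^ N.factorization 3 := by
        rw [← hH, hidx]; exact (hR.mul_right _).mul_right _
      rcases (Nat.Prime.dvd_mul hpp).1 hpH with e5 | e5 <;>
        · have := Nat.le_of_dvd (by norm_num) (hpp.dvd_of_dvd_pow e5); omega
  · intro hc
    rcases (show 3 ∣ e ∨ 2 ^ A * 3 ^ B = 24 ∨ 2 ^ A * 3 ^ B = 48 by
      rcases hc with h | h | h | h
      · exact Or.inl (hcond.1 (Or.inl h))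
      · exact Or.inl (hcond.1 (Or.inr h))
      · exact Or.inr (Or.inl h)
      · exact Or.inr (Or.inr h)) with h | h | h
    · obtain ⟨g, hgt, -, hgc⟩ := exists_torus_generator (F := F) (e := e) (hq'.symm ▸ he) (by omega)
      have hT : Nat.card (torusNormalizer g) = e := by
        have := card_torusNormalizer hgt
        rw [hε, hgc] at this; omega
      obtain ⟨ψ⟩ := torusNormalizer_dihedral (a := e / 2) hgt (by rw [hε, hgc]; omega)
      haveI := isSolvable_dihedral (e / 2)
      haveI : Group.IsSolvable (torusNormalizer g) :=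
        Group.isSolvable_of_isSolvable_injective (f := ψ.toMonoidHom) ψ.injective
      obtain ⟨K, hK⟩ := CfsgLib.Hall.exists_isPiHall (G := torusNormalizer g) ({2, 3} : Set ℕ)
      refine ⟨K.map (torusNormalizer g).subtype, ?_⟩
      rw [hall_iff, Subgroup.card_subtype, (hall_iff K).1 hK, hT, ← hNdef, hfN.2]
      have : N.factorization 2 = e.factorization 2 := by omega
      rw [this]
      congr 2
      have h3e' : ¬ 3 ∣ e' := by rcases hee with ⟨h1, h2⟩ | ⟨h1, h2⟩ <;> omega
      have h5 := hsplit 3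
      have h6 := Nat.factorization_eq_zero_of_not_dvd h3e'
      rcases hee with ⟨h1, h2⟩ | ⟨h1, h2⟩ <;> · subst h1 h2; omega
    · obtain ⟨a, b, hab⟩ := CfsgLib.PSLFours.exists_qp hF2 (F := F)
      obtain ⟨h1, h2, h3⟩ := CfsgLib.PSLFours.cyc_data hF2 hab
      obtain ⟨K, hK, -⟩ := CfsgLib.PSLFours.exists_A4 (hab.isFourPair hF2) h1 h2 h3
      refine ⟨K, ?_⟩
      rw [hall_iff, hK, ← hNdef, hfN.2]
      have := hsucc
      have : 2 * (2 ^ N.factorization 2 * 3 ^ B) = 24 := by rw [← mul_assoc, ← hsucc, h]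
      omega
    · have hA4 : A = 4 := by
        have := congrArg (fun x => x.factorization 2) h
        simp only [show (48 : ℕ) = 2 ^ 4 * 3 ^ 1 by norm_num] at this
        rw [(fac23 A B).1, (fac23 4 1).1] at this
        exact this
      have h8 : q % 8 ≠ 3 ∧ q % 8 ≠ 5 := by
        have h8 : 8 ∣ e := (Nat.prime_two.pow_dvd_iff_le_factorization (k := 3) (by omega)).2 (by omega)
        omega
      obtain ⟨K, ⟨ψ⟩⟩ := CfsgLib.PSLFours.exists_S4 hF2 (F := F) (FiniteField.isSquare_two_iff.2 (by rwa [hq]))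
      refine ⟨K, ?_⟩
      rw [hall_iff, Nat.card_congr ψ.toEquiv, Nat.card_perm, Nat.card_eq_fintype_card, Fintype.card_fin, ← hNdef, hfN.2]
      have : 2 * (2 ^ N.factorization 2 * 3 ^ B) = 48 := by rw [← mul_assoc, ← hsucc, h]
      show (4 : ℕ).factorial = _
      rw [Nat.factorial]
      simp only [Nat.factorial]
      omega

end Cfsg.Agent.S2537
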