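import Cfsg.Statements.S2538
import Cfsg.Agent.Lib.Generators.HallSym.Main

set_option autoImplicit false
open Cfsg

namespace Cfsg.Agent.S2538

/-- For every `n` and every set of primes `π`, a subgroup of the alternating group of degree `n` is a Hall `π`-subgroup of it if and only if it is the intersection with the alternating group of some Hall `π`-subgroup of the symmetric group of degree `n`. -/
theorem result (n : ℕ) (π : Set ℕ)
    (M : Subgroup ↥(alternatingGroup (Fin n))) :
    Cfsg.IsPiHall π M ↔ ∃ M₀ : Subgroup (Equiv.Perm (Fin n)), Cfsg.IsPiHall π M₀ ∧ M = M₀.subgroupOf (alternatingGroup (Fin n)) := by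
  open CfsgLib.Generators.HallSym CfsgLib.Hall in
  constructor
  · intro hM
    have h1 := isPiHall_iff_map.1 hM
    obtain ⟨M₁, hM₁⟩ := exists_hall_top (cond_of_hall le_rfl h1)
    obtain ⟨g, hg, e⟩ := hall_conj le_rfl (isPiHallOf_inf le_rfl hM₁) h1
    refine ⟨M₁.map (MulAut.conj g).toMonoidHom, isPiHall_conj hM₁ g, ?_⟩
    have e' : M.map (alternatingGroup (Fin n)).subtype = M₁.map (MulAut.conj g).toMonoidHom ⊓ alternatingGroup (Fin n) := by
      haveI := normal_of_alt_le (le_refl (alternatingGroup (Fin n)))
      rw [e, map_conj_inf]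
    rw [← Subgroup.comap_map_eq_self_of_injective (alternatingGroup (Fin n)).subtype_injective M, e']
    exact Subgroup.inf_subgroupOf_right _ _
  · rintro ⟨M₀, hM₀, rfl⟩
    rw [← Subgroup.inf_subgroupOf_right]
    exact isPiHall_inf_subgroupOf hM₀

end Cfsg.Agent.S2538
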