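import Cfsg.Statements.S2540
import Cfsg.Agent.Lib.ClassicalLinear.Simple

set_option autoImplicit false
open Cfsg
open scoped commutatorElement

namespace Cfsg.Agent.S2540

/-- Let F be a finite field and n ≥ 1, excluding the case n = 2 with #F ≤ 3. A subgroup of GL_n(F) that is normalized by every element of SL_n(F) either consists of scalar matrices or contains SL_n(F). -/
theorem result {F : Type*} [Field F] [Fintype F] (n : ℕ) (hn : 1 ≤ n) (hex : ¬ (n = 2 ∧ Fintype.card F ≤ 3)) (G : Subgroup (Matrix.GeneralLinearGroup (Fin n) F)) (hG : ∀ s : Matrix.SpecialLinearGroup (Fin n) F, ∀ g ∈ G, (Matrix.SpecialLinearGroup.toGL s) * g * (Matrix.SpecialLinearGroup.toGL s)⁻¹ ∈ G) : (∀ g ∈ G, ∃ c : F, (g : Matrix (Fin n) (Fin n) F) = c • (1 : Matrix (Fin n) (Fin n) F)) ∨ (Matrix.SpecialLinearGroup.toGL : Matrix.SpecialLinearGroup (Fin n) F →* _).range ≤ G := by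
  classical
  rcases Nat.lt_or_ge n 2 with h2 | h2
  · left
    obtain rfl : n = 1 := by omega
    intro g _
    refine ⟨(g : Matrix (Fin 1) (Fin 1) F) 0 0, ?_⟩
    ext i j
    fin_cases i; fin_cases j; simp
  have hn' : 3 ≤ Fintype.card (Fin n) ∨ ∃ a : F, a ≠ 0 ∧ a ^ 2 ≠ 1 := by
    rcases eq_or_lt_of_le h2 with rfl | h3
    · refine Or.inr (CfsgLib.ClassicalLinear.exists_sq_ne_one_of_four_le_card ?_)
      rw [Nat.card_eq_fintype_card]
      have : ¬ Fintype.card F ≤ 3 := fun h => hex ⟨rfl, h⟩
      omega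
    · exact Or.inl (by rw [Fintype.card_fin]; omega)
  have : Nontrivial (Fin n) := Fin.nontrivial_iff_two_le.mpr h2
  have := CfsgLib.ClassicalLinear.isSimpleGroup_psl hn'
  have hperf := CfsgLib.ClassicalLinear.commutator_sl_eq_top hn'
  set G' := G.comap (Matrix.SpecialLinearGroup.toGL : Matrix.SpecialLinearGroup (Fin n) F →* _) with hG'
  have hG'n : G'.Normal := ⟨fun x hx s => by
    rw [hG', Subgroup.mem_comap, map_mul, map_mul, map_inv]
    exact hG s _ hx⟩
  have hcases := Subgroup.Normal.eq_bot_or_eq_top (Subgroup.Normal.map hG'n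
    (QuotientGroup.mk' (Subgroup.center (Matrix.SpecialLinearGroup (Fin n) F))) (QuotientGroup.mk'_surjective _))
  rcases hcases with hbot | htop
  · left
    intro g hg
    have hle : G' ≤ Subgroup.center (Matrix.SpecialLinearGroup (Fin n) F) := fun x hx => by
      rw [← QuotientGroup.eq_one_iff, ← Subgroup.mem_bot, ← hbot]
      exact Subgroup.mem_map_of_mem _ hx
    let c : Matrix.SpecialLinearGroup (Fin n) F → GL (Fin n) F := fun s =>
      Matrix.SpecialLinearGroup.toGL s * g * (Matrix.SpecialLinearGroup.toGL s)⁻¹ * g⁻¹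
    have hcen : ∀ s, c s ∈ Subgroup.center (GL (Fin n) F) := by
      intro s
      have hG1 : c s ∈ G := mul_mem (hG s g hg) (inv_mem hg)
      have hdet : Matrix.GeneralLinearGroup.det (c s) = 1 := by
        simp only [c, map_mul, map_inv, mul_inv_cancel_comm, mul_inv_cancel]
      have hr : c s ∈ (Matrix.SpecialLinearGroup.toGL : Matrix.SpecialLinearGroup (Fin n) F →* _).range := by
        rw [CfsgLib.ClassicalLinear.toGL_range_eq_ker_det]; exact hdet
      obtain ⟨x, hx⟩ := hr
      have hxc : x ∈ Subgroup.center (Matrix.SpecialLinearGroup (Fin n) F) := hle (show _ ∈ G from hx ▸ hG1)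
      rw [Matrix.SpecialLinearGroup.mem_center_iff] at hxc
      obtain ⟨r, -, hr⟩ := hxc
      rw [← hx, Matrix.GeneralLinearGroup.mem_center_iff_val_mem_range_scalar]
      exact ⟨r, hr⟩
    have hmul : ∀ s t, c (s * t) = c s * c t := by
      intro s t
      have e : c (s * t) = Matrix.SpecialLinearGroup.toGL s * c t * g * (Matrix.SpecialLinearGroup.toGL s)⁻¹ * g⁻¹ := by
        simp only [c, map_mul]; group
      rw [e, Subgroup.mem_center_iff.mp (hcen t) (Matrix.SpecialLinearGroup.toGL s),
        Subgroup.mem_center_iff.mp (hcen t) (c s)]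
      simp only [c]; group
    let f : Matrix.SpecialLinearGroup (Fin n) F →* Subgroup.center (GL (Fin n) F) :=
      MonoidHom.mk' (fun s => ⟨c s, hcen s⟩) (fun s t => Subtype.ext (hmul s t))
    have hf : commutator (Matrix.SpecialLinearGroup (Fin n) F) ≤ f.ker := by
      rw [commutator_def, Subgroup.commutator_le]
      intro a _ b _
      rw [MonoidHom.mem_ker, map_commutatorElement, commutatorElement_eq_one_iff_mul_comm]
      exact Subtype.ext (Subgroup.mem_center_iff.mp (hcen b) (c a))
    rw [hperf] at hf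
    have hcomm : ∀ s : Matrix.SpecialLinearGroup (Fin n) F,
        Commute (s : Matrix (Fin n) (Fin n) F) (g : Matrix (Fin n) (Fin n) F) := fun s => by
      have h0 : f s = 1 := MonoidHom.mem_ker.mp (hf (Subgroup.mem_top s))
      have h1 : c s = 1 := congrArg Subtype.val h0
      have h1' : Matrix.SpecialLinearGroup.toGL s * g = g * Matrix.SpecialLinearGroup.toGL s := by
        rwa [mul_inv_eq_one, mul_inv_eq_iff_eq_mul] at h1
      exact congrArg Units.val h1'
    have hscal : (g : Matrix (Fin n) (Fin n) F) ∈ Set.range (Matrix.scalar (Fin n)) := by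
      refine Matrix.mem_range_scalar_of_commute_single fun i j hij => ?_
      have h1 : Matrix.single i j (1 : F) = Matrix.transvection i j 1 - 1 := by
        rw [Matrix.transvection, add_sub_cancel_left]
      show Commute (Matrix.single i j (1 : F)) _
      rw [h1]
      exact (hcomm ⟨Matrix.transvection i j 1, Matrix.det_transvection_of_ne i j hij 1⟩).sub_left (Commute.one_left _)
    obtain ⟨r, hr⟩ := hscal
    exact ⟨r, by rw [← hr, Matrix.scalar_apply, Matrix.smul_one_eq_diagonal]⟩
  · right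
    have htop' : G' = ⊤ := by
      rw [eq_top_iff, ← hperf, commutator_def, Subgroup.commutator_le]
      intro a _ b _
      have hdec : ∀ x, ∃ y ∈ G', ∃ z ∈ Subgroup.center (Matrix.SpecialLinearGroup (Fin n) F), x = y * z := by
        intro x
        have hx : (QuotientGroup.mk' (Subgroup.center (Matrix.SpecialLinearGroup (Fin n) F))) x ∈ G'.map (QuotientGroup.mk' _) :=
          htop ▸ Subgroup.mem_top _
        obtain ⟨y, hy, hyx⟩ := hx
        exact ⟨y, hy, y⁻¹ * x, QuotientGroup.eq.mp hyx, (mul_inv_cancel_left _ _).symm⟩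
      obtain ⟨y, hy, z, hz, rfl⟩ := hdec a
      obtain ⟨y', hy', z', hz', rfl⟩ := hdec b
      have e : ⁅y * z, y' * z'⁆ = ⁅y, y'⁆ := by
        rw [commutatorElement_def, commutatorElement_def]
        calc y * z * (y' * z') * (y * z)⁻¹ * (y' * z')⁻¹
            = y * (z * y') * z' * z⁻¹ * y⁻¹ * z'⁻¹ * y'⁻¹ := by group
          _ = y * (y' * z) * z' * z⁻¹ * y⁻¹ * z'⁻¹ * y'⁻¹ := by rw [Subgroup.mem_center_iff.mp hz y']
          _ = y * y' * (z * z') * z⁻¹ * y⁻¹ * z'⁻¹ * y'⁻¹ := by group
          _ = y * y' * (z' * z) * z⁻¹ * y⁻¹ * z'⁻¹ * y'⁻¹ := by rw [Subgroup.mem_center_iff.mp hz' z]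
          _ = y * y' * (z' * y⁻¹) * z'⁻¹ * y'⁻¹ := by group
          _ = y * y' * (y⁻¹ * z') * z'⁻¹ * y'⁻¹ := by rw [Subgroup.mem_center_iff.mp hz' y⁻¹]
          _ = _ := by group
      rw [e, commutatorElement_def]
      exact mul_mem (mul_mem (mul_mem hy hy') (inv_mem hy)) (inv_mem hy')
    rintro _ ⟨s, rfl⟩
    exact (htop' ▸ Subgroup.mem_top s : s ∈ G')

end Cfsg.Agent.S2540
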