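import Cfsg.Statements.S2541
-- import your own Cfsg.Agent.* helpers here

set_option autoImplicit false
open Cfsg

namespace Cfsg.Agent.S2541

/-- Let F be a field with 9 elements. The symmetric group S_6 is not isomorphic to PGL_2(F) (although both have index-2 subgroups isomorphic to A_6). -/
theorem result {F : Type*} [Field F] [Fintype F] (hF : Fintype.card F = 9) : ¬ Nonempty (Equiv.Perm (Fin 6) ≃* Matrix.ProjGenLinGroup (Fin 2) F) := by
  classical
  rintro ⟨e⟩
  obtain ⟨u, hu⟩ := IsCyclic.exists_generator (α := Fˣ)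
  have hcard : orderOf u = 8 := by
    rw [orderOf_eq_card_of_forall_mem_zpowers hu, Nat.card_units, Nat.card_eq_fintype_card, hF]
  let g : GL (Fin 2) F :=
    Matrix.GeneralLinearGroup.mkOfDetNeZero !![(u : F), 0; 0, 1] (by simp [Matrix.det_fin_two_of])
  have hg : ∀ k : ℕ, ((g ^ k : GL (Fin 2) F) : Matrix (Fin 2) (Fin 2) F) = !![(u : F) ^ k, 0; 0, 1] := by
    intro k
    induction k with
    | zero => simp [Matrix.one_fin_two]
    | succ k ih =>
      rw [pow_succ, Units.val_mul, ih]
      show _ * !![(u : F), 0; 0, 1] = _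
      simp [Matrix.mul_fin_two, pow_succ]
  have hord : orderOf (Matrix.ProjGenLinGroup.mk g) = 8 := by
    rw [← hcard]
    refine orderOf_eq_orderOf_iff.mpr fun k => ?_
    rw [← map_pow, Matrix.ProjGenLinGroup.mk_eq_one, Matrix.GeneralLinearGroup.center_eq_range_scalar]
    constructor
    · rintro ⟨a, ha⟩
      have h := congrArg (fun x : GL (Fin 2) F => (x : Matrix (Fin 2) (Fin 2) F)) ha
      simp only [hg] at h
      have h0 := congrFun (congrFun h 0) 0
      have h1 := congrFun (congrFun h 1) 1
      simp [Matrix.GeneralLinearGroup.scalar] at h0 h1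
      ext
      simp [← h0, h1]
    · intro hk
      refine ⟨1, ?_⟩
      apply Units.ext
      rw [map_one, hg, ← Units.val_pow_eq_pow_val, hk]
      simp [Matrix.one_fin_two]
  set σ := e.symm (Matrix.ProjGenLinGroup.mk g) with hσ
  have hσo : orderOf σ = 8 := by rw [hσ, MulEquiv.orderOf_eq, hord]
  have h4 : σ.cycleType.lcm ∣ 4 := by
    rw [Multiset.lcm_dvd]
    intro d hd
    have h1 : d ∣ 8 := hσo ▸ Equiv.Perm.dvd_of_mem_cycleType hd
    have h2 : d ≤ 6 := by
      refine le_trans (Equiv.Perm.le_card_support_of_mem_cycleType hd) ?_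
      simpa using Finset.card_le_univ σ.support
    interval_cases d <;> revert h1 <;> decide
  rw [Equiv.Perm.lcm_cycleType, hσo] at h4
  norm_num at h4

end Cfsg.Agent.S2541
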