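import Cfsg.Statements.S2542
import Cfsg.Agent.Lib.Generators.PSLEleven
import Cfsg.Agent.Lib.ClassicalLinear.BlockHom

set_option autoImplicit false
open Cfsg

namespace Cfsg.Agent.S2542

private theorem two_pretransitive_of_doubleCoset {G : Type*} [Group G] (H : Subgroup G) (w : G)
    (h : ∀ g : G, g ∉ H → ∃ a ∈ H, ∃ b ∈ H, g = a * w * b) :
    MulAction.IsMultiplyPretransitive G (G ⧸ H) 2 := by
  rw [MulAction.is_two_pretransitive_iff]
  have key : ∀ a b : G ⧸ H, a ≠ b → ∃ g : G, g • ((1 : G) : G ⧸ H) = a ∧ g • ((w : G) : G ⧸ H) = b := by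
    intro a b hab
    obtain ⟨x, rfl⟩ := QuotientGroup.mk_surjective a
    obtain ⟨y, rfl⟩ := QuotientGroup.mk_surjective b
    obtain ⟨p, hp, r, hr, e⟩ := h (x⁻¹ * y) fun hm => hab (QuotientGroup.eq.2 hm)
    refine ⟨x * p, ?_, ?_⟩
    · rw [MulAction.Quotient.smul_mk, smul_eq_mul, mul_one, QuotientGroup.eq, mul_inv_rev, inv_mul_cancel_right]
      exact inv_mem hp
    · rw [MulAction.Quotient.smul_mk, smul_eq_mul, QuotientGroup.eq,
        show y = x * (p * w * r) by rw [← e, mul_inv_cancel_left],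
        show (x * p * w)⁻¹ * (x * (p * w * r)) = r by group]
      exact hr
  intro a b c d hab hcd
  obtain ⟨g₁, e1, e2⟩ := key a b hab
  obtain ⟨g₂, e3, e4⟩ := key c d hcd
  exact ⟨g₂ * g₁⁻¹, by rw [mul_smul, ← e1, inv_smul_smul, e3], by rw [mul_smul, ← e2, inv_smul_smul, e4]⟩

/-- Let F be a field with 11 elements. PSL_2(F) has a subgroup H of index 11 isomorphic to the alternating group A_5, and the action of PSL_2(F) on the cosets of H is 2-transitive (of degree 11). -/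
theorem result {F : Type*} [Field F] [Fintype F] (hF : Fintype.card F = 11) : ∃ H : Subgroup (Matrix.ProjectiveSpecialLinearGroup (Fin 2) F), H.index = 11 ∧ Nonempty (H ≃* alternatingGroup (Fin 5)) ∧ MulAction.IsMultiplyPretransitive (Matrix.ProjectiveSpecialLinearGroup (Fin 2) F) ((Matrix.ProjectiveSpecialLinearGroup (Fin 2) F) ⧸ H) 2 := by
  haveI : Fact (Nat.Prime 11) := ⟨by norm_num⟩
  let e := CfsgLib.ClassicalLinear.pslCongr (n := Fin 2) (ZMod.ringEquivOfPrime F (by norm_num : Nat.Prime 11) hF)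
  obtain ⟨ψ⟩ := CfsgLib.Generators.PSLEleven.equiv_H CfsgLib.Generators.PSLEleven.isGen_all.1
  set H₀ := CfsgLib.Generators.PSLEleven.H CfsgLib.Generators.PSLEleven.uA with hH₀
  refine ⟨H₀.map e.toMonoidHom, ?_, ⟨((H₀.equivMapOfInjective e.toMonoidHom e.injective).symm).trans ψ⟩, ?_⟩
  · rw [show e.toMonoidHom = (e : _ →* _) from rfl, Subgroup.index_map_equiv]
    exact CfsgLib.Generators.PSLEleven.index_of_equiv ψ
  · refine two_pretransitive_of_doubleCoset _ (e (CfsgLib.SL2.Dickson.proj (CfsgLib.Generators.PSLEleven.up 1))) fun g hg => ?_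
    obtain ⟨g₀, rfl⟩ := e.surjective g
    obtain ⟨h, hh, k, hk, rfl⟩ := CfsgLib.Generators.PSLEleven.doubleCoset g₀ fun h => hg ⟨g₀, h, rfl⟩
    exact ⟨e h, ⟨h, hh, rfl⟩, e k, ⟨k, hk, rfl⟩, by rw [map_mul, map_mul]⟩

end Cfsg.Agent.S2542
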