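import Cfsg.Statements.S2543
import Cfsg.Agent.Lib.Generators.PSLEleven
import Cfsg.Agent.Lib.ClassicalLinear.BlockHom
import Cfsg.Agent.Lib.ClassicalLinear.Simple

set_option autoImplicit false
open scoped Pointwise
open Cfsg

namespace Cfsg.Agent.S2543

open CfsgLib.Generators.PSLEleven

private theorem normalizer_eq {L : Subgroup P} (ψ : L ≃* alternatingGroup (Fin 5)) :
    Subgroup.normalizer (L : Set P) = L := by
  haveI : IsSimpleGroup P := CfsgLib.ClassicalLinear.isSimpleGroup_psl (ι := Fin 2) (F := K) (Or.inr ⟨2, by decide, by decide⟩)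
  have hidx := index_of_equiv ψ
  have hle : L ≤ Subgroup.normalizer (L : Set P) := Subgroup.le_normalizer
  have h1 := Subgroup.relIndex_mul_index hle
  rw [hidx] at h1
  rcases (Nat.prime_mul_iff.1 (h1 ▸ (by norm_num : Nat.Prime 11))) with ⟨-, h⟩ | ⟨-, h⟩
  · exfalso
    have hn : L.Normal := Subgroup.normalizer_eq_top_iff.1 (Subgroup.index_eq_one.1 h)
    rcases hn.eq_bot_or_eq_top with e | e
    · have := card_of_equiv ψ
      rw [e, Subgroup.card_bot] at this
      omega
    · rw [e, Subgroup.index_top] at hidx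
      omega
  · exact le_antisymm (Subgroup.relIndex_eq_one.1 h) hle

private theorem map_conj_one {G : Type*} [Group G] (L : Subgroup G) :
    L.map (MulAut.conj (1 : G)).toMonoidHom = L := by
  ext x; simp

private theorem map_conj_map {G G' : Type*} [Group G] [Group G'] (e : G ≃* G') (g : G) (M : Subgroup G) :
    MulAut.conj (e g) • M.map e.toMonoidHom = (M.map (MulAut.conj g).toMonoidHom).map e.toMonoidHom := by
  show (M.map e.toMonoidHom).map (MulAut.conj (e g)).toMonoidHom = _
  rw [Subgroup.map_map, Subgroup.map_map]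
  congr 1; ext x; simp

private theorem conj_eq_iff {L : Subgroup P} (ψ : L ≃* alternatingGroup (Fin 5)) (g h : P) :
    L.map (MulAut.conj g).toMonoidHom = L.map (MulAut.conj h).toMonoidHom ↔ g⁻¹ * h ∈ L := by
  have hmap : ∀ a b : P, L.map (MulAut.conj (a * b)).toMonoidHom
      = (L.map (MulAut.conj b).toMonoidHom).map (MulAut.conj a).toMonoidHom := fun a b => by
    rw [Subgroup.map_map]; congr 1; ext x; simp [mul_assoc]
  constructor
  · intro e
    rw [← normalizer_eq ψ, Subgroup.mem_normalizer_iff]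
    have e' : L.map (MulAut.conj (g⁻¹ * h)).toMonoidHom = L := by
      rw [hmap, ← e, ← hmap, inv_mul_cancel]
      exact map_conj_one L
    intro x
    constructor
    · intro hx
      rw [← e']
      exact ⟨x, hx, rfl⟩
    · intro hx
      rw [← e'] at hx
      obtain ⟨y, hy, hyx⟩ := hx
      have : y = x := (MulAut.conj (g⁻¹ * h)).injective hyx
      exact this ▸ hy
  · intro hm
    conv_rhs => rw [show h = g * (g⁻¹ * h) by group, hmap]
    congr 1
    ext x
    refine ⟨fun hx => ⟨(g⁻¹ * h)⁻¹ * x * (g⁻¹ * h), mul_mem (mul_mem (inv_mem hm) hx) hm, by simp [mul_assoc]⟩, ?_⟩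
    rintro ⟨y, hy, rfl⟩
    exact mul_mem (mul_mem hm hy) (inv_mem hm)

private theorem count : Nat.card {L : Subgroup P // Nonempty (L ≃* alternatingGroup (Fin 5))} = 22 := by
  have hA := (equiv_H isGen_all.1).some
  have hB := (equiv_H isGen_all.2.2.1).some
  have hiso : ∀ (M : Subgroup P) (g : P), Nonempty (M ≃* alternatingGroup (Fin 5)) →
      Nonempty (↥(M.map (MulAut.conj g).toMonoidHom) ≃* alternatingGroup (Fin 5)) := fun M g ⟨ψ⟩ =>
    ⟨(M.equivMapOfInjective _ (MulAut.conj g).injective).symm.trans ψ⟩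
  let Φ : (P ⧸ H uA) ⊕ (P ⧸ H uB) → {L : Subgroup P // Nonempty (L ≃* alternatingGroup (Fin 5))} :=
    Sum.elim
      (Quotient.lift (fun g => ⟨(H uA).map (MulAut.conj g).toMonoidHom, hiso _ g ⟨hA⟩⟩)
        fun a b hab => Subtype.ext ((conj_eq_iff hA a b).2 (QuotientGroup.leftRel_apply.1 hab)))
      (Quotient.lift (fun g => ⟨(H uB).map (MulAut.conj g).toMonoidHom, hiso _ g ⟨hB⟩⟩)
        fun a b hab => Subtype.ext ((conj_eq_iff hB a b).2 (QuotientGroup.leftRel_apply.1 hab)))
  have hmap : ∀ (M : Subgroup P) (a b : P), M.map (MulAut.conj (a * b)).toMonoidHom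
      = (M.map (MulAut.conj b).toMonoidHom).map (MulAut.conj a).toMonoidHom := fun M a b => by
    rw [Subgroup.map_map]; congr 1; ext x; simp [mul_assoc]
  have hne : ∀ a b : P, (H uA).map (MulAut.conj a).toMonoidHom ≠ (H uB).map (MulAut.conj b).toMonoidHom := by
    intro a b e
    refine not_conj (b⁻¹ * a) ?_
    rw [hmap, e, ← hmap, inv_mul_cancel]
    exact map_conj_one _
  have hΦ : Function.Bijective Φ := by
    refine ⟨?_, fun ⟨L, ⟨ψ⟩⟩ => ?_⟩
    · rintro (x | x) (y | y) e <;> obtain ⟨a, rfl⟩ := QuotientGroup.mk_surjective x <;>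
        obtain ⟨b, rfl⟩ := QuotientGroup.mk_surjective y
      · exact congrArg Sum.inl (QuotientGroup.eq.2 ((conj_eq_iff hA a b).1 (congrArg Subtype.val e)))
      · exact absurd (congrArg Subtype.val e) (hne a b)
      · exact absurd (congrArg Subtype.val e).symm (hne b a)
      · exact congrArg Sum.inr (QuotientGroup.eq.2 ((conj_eq_iff hB a b).1 (congrArg Subtype.val e)))
    · obtain ⟨g, h | h⟩ := classify ψ
      · refine ⟨Sum.inl ((g⁻¹ : P) : P ⧸ H uA), Subtype.ext ?_⟩
        show (H uA).map (MulAut.conj g⁻¹).toMonoidHom = L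
        rw [← h, ← hmap, inv_mul_cancel]; exact map_conj_one L
      · refine ⟨Sum.inr ((g⁻¹ : P) : P ⧸ H uB), Subtype.ext ?_⟩
        show (H uB).map (MulAut.conj g⁻¹).toMonoidHom = L
        rw [← h, ← hmap, inv_mul_cancel]; exact map_conj_one L
  rw [← Nat.card_congr (Equiv.ofBijective Φ hΦ), Nat.card_sum, ← Subgroup.index_eq_card,
    ← Subgroup.index_eq_card, index_of_equiv hA, index_of_equiv hB]

/-- Let F be a field with 11 elements. PSL_2(F) has exactly 22 subgroups isomorphic to the alternating group A_5, and they form two conjugacy classes: there are two such subgroups that are not conjugate, and every such subgroup is conjugate to one of these two. -/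
theorem result {F : Type*} [Field F] [Fintype F] (hF : Fintype.card F = 11) : Nat.card {H : Subgroup (Matrix.ProjectiveSpecialLinearGroup (Fin 2) F) // Nonempty (H ≃* alternatingGroup (Fin 5))} = 22 ∧ ∃ H K : Subgroup (Matrix.ProjectiveSpecialLinearGroup (Fin 2) F), Nonempty (H ≃* alternatingGroup (Fin 5)) ∧ Nonempty (K ≃* alternatingGroup (Fin 5)) ∧ (∀ g : Matrix.ProjectiveSpecialLinearGroup (Fin 2) F, MulAut.conj g • H ≠ K) ∧ ∀ L : Subgroup (Matrix.ProjectiveSpecialLinearGroup (Fin 2) F), Nonempty (L ≃* alternatingGroup (Fin 5)) → ∃ g : Matrix.ProjectiveSpecialLinearGroup (Fin 2) F, MulAut.conj g • L = H ∨ MulAut.conj g • L = K := by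
  let e := CfsgLib.ClassicalLinear.pslCongr (n := Fin 2) (ZMod.ringEquivOfPrime F (by norm_num : Nat.Prime 11) hF)
  have hiso : ∀ M : Subgroup P, Nonempty (M ≃* alternatingGroup (Fin 5)) ↔
      Nonempty (↥(M.map e.toMonoidHom) ≃* alternatingGroup (Fin 5)) := fun M =>
    ⟨fun ⟨ψ⟩ => ⟨(M.equivMapOfInjective _ e.injective).symm.trans ψ⟩,
      fun ⟨ψ⟩ => ⟨(M.equivMapOfInjective _ e.injective).trans ψ⟩⟩
  have hback : ∀ L : Subgroup (Matrix.ProjectiveSpecialLinearGroup (Fin 2) F),
      ∃ M : Subgroup P, L = M.map e.toMonoidHom := fun L =>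
    ⟨L.comap e.toMonoidHom, (Subgroup.map_comap_eq_self_of_surjective e.surjective L).symm⟩
  refine ⟨?_, (H uA).map e.toMonoidHom, (H uB).map e.toMonoidHom, (hiso _).1 (equiv_H isGen_all.1),
    (hiso _).1 (equiv_H isGen_all.2.2.1), ?_, ?_⟩
  · rw [← count]
    refine (Nat.card_congr (Equiv.ofBijective (fun M => ⟨M.1.map e.toMonoidHom, (hiso _).1 M.2⟩) ⟨?_, ?_⟩)).symm
    · intro M M' h
      exact Subtype.ext (Subgroup.map_injective e.injective (congrArg Subtype.val h))
    · rintro ⟨L, hL⟩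
      obtain ⟨M, rfl⟩ := hback L
      exact ⟨⟨M, (hiso _).2 hL⟩, rfl⟩
  · intro g h
    obtain ⟨g₀, rfl⟩ := e.surjective g
    exact not_conj g₀ (Subgroup.map_injective (f := e.toMonoidHom) e.injective ((map_conj_map e g₀ _).symm.trans h))
  · intro L hL
    obtain ⟨M, rfl⟩ := hback L
    obtain ⟨ψ⟩ := (hiso M).2 hL
    obtain ⟨g, h⟩ := classify ψ
    exact ⟨e g, h.imp (fun h => (map_conj_map e g M).trans (by rw [h]))
      (fun h => (map_conj_map e g M).trans (by rw [h]))⟩

end Cfsg.Agent.S2543
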