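import Cfsg.Statements.S2544
import Cfsg.Agent.Lib.ClassK.SLSteinberg
import Cfsg.Agent.Lib.CharTheory.Inflation
import Cfsg.Agent.Lib.ClassicalLinear.Sylow

set_option autoImplicit false
open Cfsg

namespace Cfsg.Agent.S2544

/-- Let F be a finite field of characteristic p and consider the projective special linear group PSL_n(F) with n ≥ 2. This group has an irreducible complex character χ whose degree equals the order of a Sylow p-subgroup (namely q^(n(n−1)/2) when #F = q) and whose restriction to any Sylow p-subgroup P is the regular character of P: χ vanishes on the non-identity elements of P. (This is the Steinberg character.) -/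
theorem result {F : Type*} [Field F] [Fintype F] (p : ℕ) [Fact p.Prime] [CharP F p] (n : ℕ) (hn : 2 ≤ n) : ∃ χ : Matrix.ProjectiveSpecialLinearGroup (Fin n) F → ℂ, Cfsg.IsIrrCharacter (Matrix.ProjectiveSpecialLinearGroup (Fin n) F) χ ∧ ∀ P : Sylow p (Matrix.ProjectiveSpecialLinearGroup (Fin n) F), χ 1 = Nat.card P ∧ ∀ x : Matrix.ProjectiveSpecialLinearGroup (Fin n) F, x ∈ P → x ≠ 1 → χ x = 0 := by
  classical
  obtain ⟨χ, h1, h0, hz⟩ := CfsgLib.ClassK.SLn.exists_steinberg n F
  obtain ⟨ψ, hψ, hψe⟩ := CfsgLib.CharTheory.exists_descend χ.2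
    (Subgroup.center (Matrix.SpecialLinearGroup (Fin n) F)) hz
  refine ⟨ψ, hψ, fun P => ?_⟩
  set U := CfsgLib.ClassK.SLn.upperU n F with hU
  let π : Matrix.SpecialLinearGroup (Fin n) F →*
      Matrix.ProjectiveSpecialLinearGroup (Fin n) F :=
    QuotientGroup.mk' (Subgroup.center (Matrix.SpecialLinearGroup (Fin n) F))
  haveI : Finite (Matrix.ProjectiveSpecialLinearGroup (Fin n) F) :=
    Finite.of_surjective π (QuotientGroup.mk'_surjective _)
  obtain ⟨S₀⟩ := (inferInstance : Nonempty (Sylow p (Matrix.SpecialLinearGroup (Fin n) F)))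
  have hUcard : Nat.card U = Nat.card (S₀ : Subgroup (Matrix.SpecialLinearGroup (Fin n) F)) := by
    rw [CfsgLib.ClassicalLinear.card_sylow_SL p S₀, Fintype.card_fin,
      CfsgLib.ClassK.SLn.card_upperU]
  let S : Sylow p (Matrix.SpecialLinearGroup (Fin n) F) :=
    Sylow.ofCard U (by rw [hUcard, S₀.card_eq_multiplicity])
  let S' : Sylow p (Matrix.ProjectiveSpecialLinearGroup (Fin n) F) :=
    S.mapSurjective (f := π) (QuotientGroup.mk'_surjective _)
  have hinj : Function.Injective (fun u : U => π u.1) := by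
    intro a b hab
    have hmem : (a : Matrix.SpecialLinearGroup (Fin n) F)⁻¹ * b ∈
        Subgroup.center (Matrix.SpecialLinearGroup (Fin n) F) := QuotientGroup.eq.1 hab
    have hU' : (a : Matrix.SpecialLinearGroup (Fin n) F)⁻¹ * b ∈ U :=
      mul_mem (inv_mem a.2) b.2
    obtain ⟨r, -, hr⟩ := Matrix.SpecialLinearGroup.mem_center_iff.1 hmem
    have hr1 : r = 1 := by
      have h2 := hU'.2 ⟨0, by omega⟩
      rw [← hr] at h2
      simpa using h2
    subst hr1
    refine Subtype.ext (inv_mul_eq_one.1 (Subtype.ext ?_))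
    rw [← hr, map_one, Matrix.SpecialLinearGroup.coe_one]
  have hcard : Nat.card (U.map π) = Nat.card U := by
    refine (Nat.card_congr (Equiv.ofBijective
      (fun u : U => (⟨π u.1, u.1, u.2, rfl⟩ : U.map π)) ⟨fun a b e => ?_, ?_⟩)).symm
    · exact hinj (congrArg Subtype.val e)
    · rintro ⟨x, u, hu, rfl⟩
      exact ⟨⟨u, hu⟩, rfl⟩
  obtain ⟨c, hc⟩ := MulAction.exists_smul_eq (Matrix.ProjectiveSpecialLinearGroup (Fin n) F) S' P
  have hS' : (S' : Subgroup (Matrix.ProjectiveSpecialLinearGroup (Fin n) F)) = U.map π := rfl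
  have hψ1 : ψ 1 = Nat.card U := by
    rw [← h1, hψe 1]
    rfl
  constructor
  · have e : Nat.card P = Nat.card (U.map π) := by
      show Nat.card (P : Subgroup (Matrix.ProjectiveSpecialLinearGroup (Fin n) F)) = _
      rw [P.card_eq_multiplicity, ← S'.card_eq_multiplicity]
      exact Nat.card_congr (Equiv.setCongr (congrArg SetLike.coe hS'))
    rw [hψ1, e, hcard]
  · intro x hx hx1
    rw [← hc] at hx
    have hx' : x ∈ (c • S' : Sylow p (Matrix.ProjectiveSpecialLinearGroup (Fin n) F)).toSubgroup := hx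
    rw [Sylow.coe_subgroup_smul, hS'] at hx'
    obtain ⟨y, hy, rfl⟩ := hx'
    obtain ⟨u, hu, rfl⟩ := hy
    have hu1 : u ≠ 1 := fun e => hx1 (by simp [e])
    have := CfsgLib.CharTheory.IsIrrCharacter.isClassFunction hψ (π u) c
    simp only [MulDistribMulAction.toMonoidEnd_apply, MulDistribMulAction.toMonoidHom_apply,
      MulAut.smul_def, MulAut.conj_apply] at hx1 ⊢
    rw [this, show π u = (u : Matrix.ProjectiveSpecialLinearGroup (Fin n) F) from rfl, ← hψe,
      h0 u hu hu1]

end Cfsg.Agent.S2544
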