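import Cfsg.Statements.S2551
import Cfsg.Agent.Lib.InvChar.GLFourTwo
import Cfsg.Agent.Lib.Omega.SquareScalar

set_option autoImplicit false
open Cfsg

namespace Cfsg.Agent.S2551

open scoped Matrix

/-- Ordered pairs of distinct nonzero vectors. -/
private abbrev VecPair (F : Type*) [Field F] : Type _ :=
  {p : (Fin 4 → F) × (Fin 4 → F) // p.1 ≠ 0 ∧ p.2 ≠ 0 ∧ p.1 ≠ p.2}

private theorem mulVec_inj {F : Type*} [Field F] (g : GL (Fin 4) F) :
    Function.Injective fun v : Fin 4 → F => (g : Matrix (Fin 4) (Fin 4) F) *ᵥ v :=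
  Matrix.mulVec_injective_of_isUnit g.isUnit

private instance pairAction {F : Type*} [Field F] : MulAction (GL (Fin 4) F) (VecPair F) where
  smul g p := ⟨((g : Matrix (Fin 4) (Fin 4) F) *ᵥ p.1.1, (g : Matrix (Fin 4) (Fin 4) F) *ᵥ p.1.2),
    fun h => p.2.1 (mulVec_inj g (h.trans (Matrix.mulVec_zero _).symm)),
    fun h => p.2.2.1 (mulVec_inj g (h.trans (Matrix.mulVec_zero _).symm)),
    fun h => p.2.2.2 (mulVec_inj g h)⟩
  one_smul p := Subtype.ext (Prod.ext (Matrix.one_mulVec _) (Matrix.one_mulVec _))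
  mul_smul g h p := Subtype.ext (Prod.ext (Matrix.mulVec_mulVec p.1.1 (g : Matrix (Fin 4) (Fin 4) F) (h : Matrix (Fin 4) (Fin 4) F)).symm
    (Matrix.mulVec_mulVec p.1.2 (g : Matrix (Fin 4) (Fin 4) F) (h : Matrix (Fin 4) (Fin 4) F)).symm)

private def swapPair {F : Type*} [Field F] : Equiv.Perm (VecPair F) where
  toFun p := ⟨(p.1.2, p.1.1), p.2.2.1, p.2.1, Ne.symm p.2.2.2⟩
  invFun p := ⟨(p.1.2, p.1.1), p.2.2.1, p.2.1, Ne.symm p.2.2.2⟩
  left_inv _ := rfl
  right_inv _ := rfl

private theorem indep {F : Type*} [Field F] [Fintype F] (hF : Fintype.card F = 2) (p : VecPair F) :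
    LinearIndependent F ![p.1.1, p.1.2] := by
  rw [LinearIndependent.pair_iff' p.2.1]
  intro a ha
  classical
  have ha1 : a = 0 ∨ a = 1 := by
    by_contra hc
    rw [not_or] at hc
    have h := Finset.card_le_univ ({0, 1, a} : Finset F)
    rw [hF, Finset.card_insert_of_notMem (by simp [Ne.symm hc.1]), Finset.card_pair (Ne.symm hc.2)] at h
    omega
  rcases ha1 with rfl | rfl
  · exact p.2.2.1 (by rw [← ha, zero_smul])
  · exact p.2.2.2 (by rw [← ha, one_smul])

private theorem sumExtend_inl {F V ι : Type*} [Field F] [AddCommGroup V] [Module F V] {v : ι → V}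
    (hs : LinearIndependent F v) (i : ι) : Module.Basis.sumExtend hs (Sum.inl i) = v i := by
  simp [Module.Basis.sumExtend]; rfl

private theorem pretransitive {F : Type*} [Field F] [Fintype F] (hF : Fintype.card F = 2) :
    MulAction.IsPretransitive (GL (Fin 4) F) (VecPair F) := by
  refine ⟨fun p q => ?_⟩
  let b' := Module.Basis.sumExtend (indep hF p)
  let b := Module.Basis.sumExtend (indep hF q)
  have h1 := Module.finrank_eq_nat_card_basis b'
  have h2 := Module.finrank_eq_nat_card_basis b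
  haveI := Module.Finite.finite_basis b'
  haveI := Module.Finite.finite_basis b
  haveI : Finite (Module.Basis.sumExtendIndex (indep hF p)) := Finite.of_injective Sum.inr (Sum.inr_injective (α := Fin 2))
  haveI : Finite (Module.Basis.sumExtendIndex (indep hF q)) := Finite.of_injective Sum.inr (Sum.inr_injective (α := Fin 2))
  rw [Nat.card_sum] at h1 h2
  obtain ⟨e⟩ := Finite.card_eq.mp (by omega : Nat.card (Module.Basis.sumExtendIndex (indep hF q)) =
    Nat.card (Module.Basis.sumExtendIndex (indep hF p)))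
  obtain ⟨g, hg⟩ := CfsgLib.Omega.exists_gl_of_bases (b.reindex (Equiv.sumCongr (Equiv.refl (Fin 2)) e)) b'
  refine ⟨g, Subtype.ext (Prod.ext ?_ ?_)⟩
  · have := hg (Sum.inl 0)
    simp only [Module.Basis.reindex_apply, Equiv.sumCongr_symm, Equiv.refl_symm, Equiv.sumCongr_apply, Sum.map_inl, Equiv.refl_apply, b, b', sumExtend_inl] at this
    exact this
  · have := hg (Sum.inl 1)
    simp only [Module.Basis.reindex_apply, Equiv.sumCongr_symm, Equiv.refl_symm, Equiv.sumCongr_apply, Sum.map_inl, Equiv.refl_apply, b, b', sumExtend_inl] at this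
    exact this

/-- Let F be the field with 2 elements. GL_4(F) (≅ A_8) has a subgroup isomorphic to the alternating group A_7, and every such subgroup acts 2-transitively on the 15 non-zero vectors of F⁴: any ordered pair of distinct non-zero vectors is carried to any other by some element of the subgroup. -/
theorem result {F : Type*} [Field F] [Fintype F] (hF : Fintype.card F = 2) : (∃ H : Subgroup (Matrix.GeneralLinearGroup (Fin 4) F), Nonempty (H ≃* alternatingGroup (Fin 7))) ∧ ∀ H : Subgroup (Matrix.GeneralLinearGroup (Fin 4) F), Nonempty (H ≃* alternatingGroup (Fin 7)) → ∀ v w v' w' : Fin 4 → F, v ≠ 0 → w ≠ 0 → v ≠ w → v' ≠ 0 → w' ≠ 0 → v' ≠ w' → ∃ g ∈ H, (g : Matrix (Fin 4) (Fin 4) F).mulVec v = v' ∧ (g : Matrix (Fin 4) (Fin 4) F).mulVec w = w' := by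
  classical
  have e2 : ZMod 2 ≃+* F := ZMod.ringEquivOfPrime F Nat.prime_two hF
  let eG : GL (Fin 4) (ZMod 2) ≃* GL (Fin 4) F := Units.mapEquiv (RingEquiv.mapMatrix e2).toMulEquiv
  let e8 : alternatingGroup (Fin 8) ≃* GL (Fin 4) F := CfsgLib.InvChar.GLFourTwo.equiv.symm.trans eG
  refine ⟨?_, ?_⟩
  · let f : Equiv.Perm (Fin 7) →* Equiv.Perm (Fin 8) := Equiv.Perm.viaEmbeddingHom Fin.castSuccEmb
    have hf : Function.Injective f := Equiv.Perm.viaEmbeddingHom_injective _
    have hsign : ∀ σ, f σ ∈ alternatingGroup (Fin 8) ↔ σ ∈ alternatingGroup (Fin 7) := fun σ => by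
      rw [Equiv.Perm.mem_alternatingGroup, Equiv.Perm.mem_alternatingGroup]
      show Equiv.Perm.sign (Equiv.Perm.viaEmbedding σ _) = 1 ↔ _
      exact Iff.of_eq (congrArg (· = 1) (@Equiv.Perm.sign_extendDomain _ _ _ _ _ _ σ _ (fun a => Classical.propDecidable _) _))
    let ψ : alternatingGroup (Fin 7) →* GL (Fin 4) F :=
      e8.toMonoidHom.comp ((f.comp (alternatingGroup (Fin 7)).subtype).codRestrict _ (fun σ => (hsign σ.1).mpr σ.2))
    have hψ : Function.Injective ψ := e8.injective.comp fun x y h =>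
      Subtype.ext (hf (congrArg Subtype.val h))
    exact ⟨ψ.range, ⟨(MonoidHom.ofInjective hψ).symm⟩⟩
  rintro H ⟨eH⟩ v w v' w' hv hw hvw hv' hw' hvw'
  haveI := pretransitive hF
  have hGcard : Nat.card (GL (Fin 4) F) = 20160 := by
    rw [← Nat.card_congr eG.toEquiv, CfsgLib.InvChar.GLFourTwo.card_GL4]
  have hHcard : Nat.card H = 2520 := by
    rw [Nat.card_congr eH.toEquiv, nat_card_alternatingGroup, Nat.card_fin]
    rfl
  have hPcard : Nat.card (VecPair F) = 210 := by
    rw [Nat.card_eq_fintype_card, Fintype.card_subtype]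
    have hset : (Finset.univ.filter fun p : (Fin 4 → F) × (Fin 4 → F) => p.1 ≠ 0 ∧ p.2 ≠ 0 ∧ p.1 ≠ p.2) =
        ((Finset.univ : Finset (Fin 4 → F)).erase 0).offDiag := by
      ext p
      simp [Finset.mem_offDiag, and_assoc]
    rw [hset, Finset.offDiag_card, Finset.card_erase_of_mem (Finset.mem_univ _), Finset.card_univ, Fintype.card_fun, hF, Fintype.card_fin]
    rfl
  -- every orbit has at least 105 points
  have horb : ∀ p : VecPair F, 105 ∣ Nat.card (MulAction.orbit H p) ∧ 0 < Nat.card (MulAction.orbit H p) := by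
    intro p
    have hG := MulAction.card_orbit_mul_card_stabilizer_eq_card_group (GL (Fin 4) F) p
    simp only [Fintype.card_eq_nat_card] at hG
    rw [MulAction.orbit_eq_univ, Nat.card_congr (Equiv.Set.univ _), hPcard, hGcard] at hG
    have hH := MulAction.card_orbit_mul_card_stabilizer_eq_card_group H p
    simp only [Fintype.card_eq_nat_card] at hH
    rw [hHcard] at hH
    let j : MulAction.stabilizer H p →* MulAction.stabilizer (GL (Fin 4) F) p :=
      { toFun := fun g => ⟨(g.1 : GL (Fin 4) F), g.2⟩, map_one' := rfl, map_mul' := fun _ _ => rfl }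
    have hj : Function.Injective j := fun x y h => by
      have h' := congrArg (fun z => (z.1 : GL (Fin 4) F)) h
      exact Subtype.ext (Subtype.ext h')
    have hd := Subgroup.card_dvd_of_injective j hj
    rw [show Nat.card (MulAction.stabilizer (GL (Fin 4) F) p) = 96 by omega] at hd
    have hd2 : Nat.card (MulAction.stabilizer H p) ∣ 24 :=
      (Nat.dvd_gcd hd ⟨_, (hH.symm.trans (mul_comm _ _))⟩).trans (by norm_num)
    obtain ⟨c, hc⟩ := hd2
    refine ⟨⟨c, ?_⟩, ?_⟩
    · have h3 : Nat.card (MulAction.orbit H p) * 24 = 105 * c * 24 := by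
        calc Nat.card (MulAction.orbit H p) * 24
            = Nat.card (MulAction.orbit H p) * Nat.card (MulAction.stabilizer H p) * c := by rw [hc, mul_assoc]
          _ = 105 * c * 24 := by rw [hH]; ring
      omega
    · rcases Nat.eq_zero_or_pos (Nat.card (MulAction.orbit H p)) with h0 | h0
      · rw [h0] at hH; omega
      · exact h0
  -- an involution of H moves some vector
  obtain ⟨t, ht⟩ := exists_prime_orderOf_dvd_card' (G := H) 2 (by rw [hHcard]; norm_num)
  obtain ⟨x, hx⟩ : ∃ x, ((t : GL (Fin 4) F) : Matrix (Fin 4) (Fin 4) F) *ᵥ x ≠ x := by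
    by_contra hc
    push Not at hc
    have : t = 1 := Subtype.ext (Units.ext (Matrix.ext_of_mulVec_single fun i => by rw [hc, OneMemClass.coe_one, Units.val_one, Matrix.one_mulVec]))
    rw [this, orderOf_one] at ht
    norm_num at ht
  have ht2 : ((t : GL (Fin 4) F) : Matrix (Fin 4) (Fin 4) F) *ᵥ (((t : GL (Fin 4) F) : Matrix (Fin 4) (Fin 4) F) *ᵥ x) = x := by
    have h : t ^ 2 = 1 := by rw [← ht]; exact pow_orderOf_eq_one t
    rw [Matrix.mulVec_mulVec, ← Units.val_mul, ← Subgroup.coe_mul, ← pow_two, h, OneMemClass.coe_one, Units.val_one, Matrix.one_mulVec]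
  have hx0 : x ≠ 0 := fun h => hx (by rw [h, Matrix.mulVec_zero])
  let p₀ : VecPair F := ⟨(x, ((t : GL (Fin 4) F) : Matrix (Fin 4) (Fin 4) F) *ᵥ x),
    hx0, fun h => hx0 (mulVec_inj (t : GL (Fin 4) F) (h.trans (Matrix.mulVec_zero _).symm)), Ne.symm hx⟩
  have hswap0 : swapPair p₀ = t • p₀ := Subtype.ext (Prod.ext (by exact rfl) (by exact ht2.symm))
  have hcomm : ∀ (g : H) (p : VecPair F), swapPair (g • p) = g • swapPair p := fun _ _ => rfl
  have heven : 2 ∣ Nat.card (MulAction.orbit H p₀) := by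
    have hmaps : ∀ p, p ∈ MulAction.orbit H p₀ ↔ swapPair p ∈ MulAction.orbit H p₀ := by
      have key : ∀ p, p ∈ MulAction.orbit H p₀ → swapPair p ∈ MulAction.orbit H p₀ := by
        rintro p ⟨g, rfl⟩
        exact ⟨g * t, by show (g * t) • p₀ = _; rw [hcomm, hswap0, mul_smul]⟩
      exact fun p => ⟨key p, fun h => key _ h⟩
    let σ : Equiv.Perm (MulAction.orbit H p₀) := swapPair.subtypePerm fun p => (hmaps p).symm
    have hsupp : σ.support = Finset.univ := Finset.eq_univ_of_forall fun p => Equiv.Perm.mem_support.mpr fun h =>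
      p.1.2.2.2 (congrArg (fun q : MulAction.orbit H p₀ => q.1.1.2) h)
    have := Equiv.Perm.two_dvd_card_support (σ := σ) (Equiv.ext fun p => Subtype.ext rfl)
    rwa [hsupp, Finset.card_univ, ← Nat.card_eq_fintype_card] at this
  have huniv : MulAction.orbit H p₀ = Set.univ := by
    refine Set.eq_univ_of_forall fun p => ?_
    obtain ⟨⟨c, hc⟩, hpos⟩ := horb p₀
    have hle : Nat.card (MulAction.orbit H p₀) ≤ 210 := hPcard ▸ Finite.card_subtype_le _
    have hcard : Nat.card (MulAction.orbit H p₀) = 210 := by omega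
    have heq : MulAction.orbit H p₀ = Set.univ :=
      Set.eq_of_subset_of_ncard_le (Set.subset_univ _) (by
        rw [Set.ncard_univ, hPcard, ← Nat.card_coe_set_eq, hcard])
    rw [heq]; trivial
  obtain ⟨g, hg⟩ : (⟨(v', w'), hv', hw', hvw'⟩ : VecPair F) ∈ MulAction.orbit H (⟨(v, w), hv, hw, hvw⟩ : VecPair F) := by
    have h1 : (⟨(v, w), hv, hw, hvw⟩ : VecPair F) ∈ MulAction.orbit H p₀ := huniv ▸ Set.mem_univ _
    rw [MulAction.orbit_eq_iff.mpr h1, huniv]
    trivial
  exact ⟨g, g.2, congrArg (fun q : VecPair F => q.1.1) hg, congrArg (fun q : VecPair F => q.1.2) hg⟩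

end Cfsg.Agent.S2551
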