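import Cfsg.Statements.S2552
-- import your own Cfsg.Agent.* helpers here

set_option autoImplicit false
open Cfsg

namespace Cfsg.Agent.S2552

/-- Let F be a finite field and n ≥ 1. For every k, the special linear group SL_n(F) acts transitively on the set of k-dimensional subspaces of F^n: any two subspaces of the same dimension are carried onto each other by some matrix of determinant 1. -/
theorem result {F : Type*} [Field F] [Fintype F] (n : ℕ) (hn : 1 ≤ n) (U₁ U₂ : Submodule F (Fin n → F)) (h : Module.finrank F U₁ = Module.finrank F U₂) : ∃ g : Matrix.SpecialLinearGroup (Fin n) F, U₁.map ((Matrix.SpecialLinearGroup.toLin' g : (Fin n → F) ≃ₗ[F] (Fin n → F)) : (Fin n → F) →ₗ[F] (Fin n → F)) = U₂ := by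
  classical
  obtain ⟨C₁, hC₁⟩ := U₁.exists_isCompl
  obtain ⟨C₂, hC₂⟩ := U₂.exists_isCompl
  have hsum : ∀ {U C : Submodule F (Fin n → F)}, IsCompl U C → Module.finrank F U + Module.finrank F C = n := by
    intro U C hUC
    rw [Submodule.finrank_add_eq_of_isCompl hUC, Module.finrank_fin_fun]
  set b₁ := ((Module.finBasis F U₁).prod (Module.finBasis F C₁)).map (Submodule.prodEquivOfIsCompl U₁ C₁ hC₁) with hb₁
  set b₂ := (((Module.finBasisOfFinrankEq F U₂ h.symm)).prod
    (Module.finBasisOfFinrankEq F C₂ (show Module.finrank F C₂ = Module.finrank F C₁ by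
      have := hsum hC₁; have := hsum hC₂; omega))).map (Submodule.prodEquivOfIsCompl U₂ C₂ hC₂) with hb₂
  set e := b₁.equiv b₂ (Equiv.refl _) with he
  have hcard : Fintype.card (Fin (Module.finrank F U₁) ⊕ Fin (Module.finrank F C₁)) = n := by
    simpa using hsum hC₁
  have : Nonempty (Fin (Module.finrank F U₁) ⊕ Fin (Module.finrank F C₁)) :=
    Fintype.card_pos_iff.mp (by omega)
  obtain ⟨j₀⟩ := this
  set w : Fin (Module.finrank F U₁) ⊕ Fin (Module.finrank F C₁) → Fˣ :=
    fun j => if j = j₀ then (LinearEquiv.det e)⁻¹ else 1 with hw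
  set e' := b₂.equiv (b₂.unitsSMul w) (Equiv.refl _) with he'
  have hdet' : LinearMap.det (e' : (Fin n → F) →ₗ[F] (Fin n → F)) = ((LinearEquiv.det e)⁻¹ : Fˣ) := by
    rw [← LinearMap.det_toMatrix b₂]
    have : LinearMap.toMatrix b₂ b₂ (e' : (Fin n → F) →ₗ[F] (Fin n → F)) = Matrix.diagonal (fun j => (w j : F)) := by
      ext i j
      rw [LinearMap.toMatrix_apply, LinearEquiv.coe_coe, he', Module.Basis.equiv_apply, Equiv.refl_apply,
        Module.Basis.unitsSMul_apply, Units.smul_def, map_smul, Module.Basis.repr_self]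
      rcases eq_or_ne i j with rfl | hij
      · simp
      · simp [hij, Finsupp.single_apply, Ne.symm hij]
    rw [this, Matrix.det_diagonal, Finset.prod_eq_single j₀]
    · simp [hw]
    · intro j _ hj; simp [hw, hj]
    · simp
  set E := e.trans e' with hE
  have hdet : LinearMap.det (E : (Fin n → F) →ₗ[F] (Fin n → F)) = 1 := by
    rw [hE, LinearEquiv.coe_trans, LinearMap.det_comp, hdet', ← LinearEquiv.coe_det e, ← Units.val_mul,
      inv_mul_cancel, Units.val_one]
  refine ⟨⟨LinearMap.toMatrix' (E : (Fin n → F) →ₗ[F] (Fin n → F)), by rw [LinearMap.det_toMatrix', hdet]⟩, ?_⟩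
  have hmap : ((Matrix.SpecialLinearGroup.toLin' ⟨LinearMap.toMatrix' (E : (Fin n → F) →ₗ[F] (Fin n → F)),
      by rw [LinearMap.det_toMatrix', hdet]⟩ : (Fin n → F) ≃ₗ[F] (Fin n → F)) : (Fin n → F) →ₗ[F] (Fin n → F))
      = (E : (Fin n → F) →ₗ[F] (Fin n → F)) := by
    refine LinearMap.ext fun v => ?_
    show Matrix.toLin' (LinearMap.toMatrix' (E : (Fin n → F) →ₗ[F] (Fin n → F))) v = _
    rw [Matrix.toLin'_toMatrix']
  rw [hmap]
  have hspan : U₁ = Submodule.span F (Set.range (fun i => b₁ (Sum.inl i))) := by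
    have h1 : (fun i => b₁ (Sum.inl i)) = U₁.subtype ∘ Module.finBasis F U₁ := by
      ext i : 1; simp [hb₁]
    rw [h1, Set.range_comp, ← Submodule.map_span, (Module.finBasis F U₁).span_eq, Submodule.map_top,
      Submodule.range_subtype]
  refine Submodule.eq_of_le_of_finrank_le ?_ ?_
  · rw [Submodule.map_le_iff_le_comap]
    conv_lhs => rw [hspan]
    rw [Submodule.span_le]
    rintro _ ⟨i, rfl⟩
    have h1 : E (b₁ (Sum.inl i)) = (w (Sum.inl i)) • b₂ (Sum.inl i) := by
      simp [hE, he, he', Module.Basis.unitsSMul_apply]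
    show E (b₁ (Sum.inl i)) ∈ U₂
    rw [h1, Units.smul_def]
    refine U₂.smul_mem _ ?_
    simp [hb₂]
  · rw [LinearEquiv.finrank_map_eq, h]

end Cfsg.Agent.S2552
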