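import Cfsg.Statements.S2561
import Cfsg.Agent.Lib.Generators.BinaryForms

set_option autoImplicit false
open Cfsg

namespace Cfsg.Agent.S2561

/-- Fix the non-singular alternating form on the 2m-dimensional space over the field of two elements obtained by polarizing the plus-type form Σ xᵢyᵢ (m ≥ 1). The functions q on the space with q(u + v) = q(u) + q(v) + f(u, v) (the quadratic forms polarizing to f) number 2^(2m); each is equivalent under an invertible linear map either to the plus-type form or to the minus-type form Σ xᵢyᵢ + (z₁² + z₁z₂ + z₂²); and those of plus type number 2^(2m−1) + 2^(m−1), those of minus type 2^(2m−1) − 2^(m−1). -/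
theorem result (m : ℕ) (hm : 1 ≤ m) :
    Nat.card {q : (Fin m ⊕ Fin m → ZMod 2) → ZMod 2 // (∀ u v : (Fin m ⊕ Fin m → ZMod 2), q (u + v) = q u + q v + (Cfsg.quadFormPlus m (ZMod 2) (u + v) - Cfsg.quadFormPlus m (ZMod 2) u - Cfsg.quadFormPlus m (ZMod 2) v))} = 2 ^ (2 * m) ∧
    (∀ q : (Fin m ⊕ Fin m → ZMod 2) → ZMod 2, (∀ u v : (Fin m ⊕ Fin m → ZMod 2), q (u + v) = q u + q v + (Cfsg.quadFormPlus m (ZMod 2) (u + v) - Cfsg.quadFormPlus m (ZMod 2) u - Cfsg.quadFormPlus m (ZMod 2) v)) →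
      (∃ g : (Fin m ⊕ Fin m → ZMod 2) ≃ₗ[ZMod 2] (Fin m ⊕ Fin m → ZMod 2), ∀ v, q v = Cfsg.quadFormPlus m (ZMod 2) (g v)) ∨
      (∃ g : (Fin m ⊕ Fin m → ZMod 2) ≃ₗ[ZMod 2] ((Fin (m - 1) ⊕ Fin (m - 1)) ⊕ Fin 2 → ZMod 2), ∀ v, q v = Cfsg.quadFormMinus (m - 1) (ZMod 2) 1 1 (g v))) ∧
    Nat.card {q : (Fin m ⊕ Fin m → ZMod 2) → ZMod 2 // (∀ u v : (Fin m ⊕ Fin m → ZMod 2), q (u + v) = q u + q v + (Cfsg.quadFormPlus m (ZMod 2) (u + v) - Cfsg.quadFormPlus m (ZMod 2) u - Cfsg.quadFormPlus m (ZMod 2) v)) ∧ ∃ g : (Fin m ⊕ Fin m → ZMod 2) ≃ₗ[ZMod 2] (Fin m ⊕ Fin m → ZMod 2), ∀ v, q v = Cfsg.quadFormPlus m (ZMod 2) (g v)} = 2 ^ (2 * m - 1) + 2 ^ (m - 1) ∧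
    Nat.card {q : (Fin m ⊕ Fin m → ZMod 2) → ZMod 2 // (∀ u v : (Fin m ⊕ Fin m → ZMod 2), q (u + v) = q u + q v + (Cfsg.quadFormPlus m (ZMod 2) (u + v) - Cfsg.quadFormPlus m (ZMod 2) u - Cfsg.quadFormPlus m (ZMod 2) v)) ∧ ∃ g : (Fin m ⊕ Fin m → ZMod 2) ≃ₗ[ZMod 2] ((Fin (m - 1) ⊕ Fin (m - 1)) ⊕ Fin 2 → ZMod 2), ∀ v, q v = Cfsg.quadFormMinus (m - 1) (ZMod 2) 1 1 (g v)} = 2 ^ (2 * m - 1) - 2 ^ (m - 1) := by
  classical
  obtain ⟨k, rfl⟩ : ∃ k, m = k + 1 := ⟨m - 1, (Nat.sub_add_cancel hm).symm⟩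
  have hpol : ∀ u v : Fin (k + 1) ⊕ Fin (k + 1) → ZMod 2,
      Cfsg.quadFormPlus (k + 1) (ZMod 2) (u + v) - Cfsg.quadFormPlus (k + 1) (ZMod 2) u - Cfsg.quadFormPlus (k + 1) (ZMod 2) v
        = CfsgLib.Generators.BinaryForms.plusBilin (k + 1) u v := fun u v => by
    rw [CfsgLib.Generators.BinaryForms.quadFormPlus_add]; ring
  simp only [hpol, Nat.add_sub_cancel]
  set B := CfsgLib.Generators.BinaryForms.plusBilin (k + 1) with hB
  set Q₀ := Cfsg.quadFormPlus (k + 1) (ZMod 2) with hQ₀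
  have hQ : ∀ u v, Q₀ (u + v) = Q₀ u + Q₀ v + B u v := CfsgLib.Generators.BinaryForms.quadFormPlus_add _
  let T : (Fin (k + 1) ⊕ Fin (k + 1) → ZMod 2) → {q : (Fin (k + 1) ⊕ Fin (k + 1) → ZMod 2) → ZMod 2 //
      ∀ u v, q (u + v) = q u + q v + B u v} := fun w => ⟨fun v => Q₀ v + B v w, fun u v => by
    simp only [hQ, map_add, LinearMap.add_apply]; ring⟩
  have hT : Function.Bijective T := by
    constructor
    · intro w w' h
      obtain ⟨x, -, hx⟩ := CfsgLib.Generators.BinaryForms.exists_unique_translate hQ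
        (CfsgLib.Generators.BinaryForms.plusBilin_nondeg _) (T w).2
      exact (hx w rfl).trans (hx w' (congrArg Subtype.val h)).symm
    · rintro ⟨q, hq⟩
      obtain ⟨w, rfl, -⟩ := CfsgLib.Generators.BinaryForms.exists_unique_translate hQ
        (CfsgLib.Generators.BinaryForms.plusBilin_nondeg _) hq
      exact ⟨w, rfl⟩
  have hV : Nat.card (Fin (k + 1) ⊕ Fin (k + 1) → ZMod 2) = 2 ^ (2 * (k + 1)) := by
    simp [two_mul]
  have hcs := CfsgLib.Generators.BinaryForms.charSum_plus (k + 1)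
  have hclass := fun (q : (Fin (k + 1) ⊕ Fin (k + 1) → ZMod 2) → ZMod 2) (hq : ∀ u v, q (u + v) = q u + q v + B u v) =>
    CfsgLib.Generators.BinaryForms.exists_equiv_of_polar k hq
  have hpos : (0 : ℤ) < 2 ^ (k + 1) := by positivity
  have hplus : ∀ w, (∃ g : (Fin (k + 1) ⊕ Fin (k + 1) → ZMod 2) ≃ₗ[ZMod 2] (Fin (k + 1) ⊕ Fin (k + 1) → ZMod 2),
      ∀ v, (T w).1 v = Q₀ (g v)) ↔ Q₀ w = 0 := by
    intro w
    refine ⟨fun ⟨g, hg⟩ => ?_, CfsgLib.Generators.BinaryForms.exists_equiv_translate hQ⟩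
    have h := CfsgLib.Generators.BinaryForms.charSum_congr g hg
    rw [show (T w).1 = fun v => Q₀ v + B v w from rfl, CfsgLib.Generators.BinaryForms.charSum_translate hQ] at h
    apply CfsgLib.Generators.BinaryForms.chi_injective
    exact mul_right_cancel₀ (by rw [hcs]; positivity) (h.trans (one_mul _).symm)
  have hminus : ∀ w, (∃ g : (Fin (k + 1) ⊕ Fin (k + 1) → ZMod 2) ≃ₗ[ZMod 2] ((Fin k ⊕ Fin k) ⊕ Fin 2 → ZMod 2),
      ∀ v, (T w).1 v = Cfsg.quadFormMinus k (ZMod 2) 1 1 (g v)) ↔ Q₀ w = 1 := by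
    intro w
    constructor
    · rintro ⟨g, hg⟩
      have h := CfsgLib.Generators.BinaryForms.charSum_congr g hg
      rcases CfsgLib.Generators.BinaryForms.zero_or_one (Q₀ w) with h0 | h0
      · exfalso
        rw [show (T w).1 = fun v => Q₀ v + B v w from rfl, CfsgLib.Generators.BinaryForms.charSum_translate hQ, h0,
          CfsgLib.Generators.BinaryForms.charSum_minus, hcs] at h
        change (1 : ℤ) * _ = _ at h
        omega
      · exact h0
    · intro h0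
      rcases hclass _ (T w).2 with ⟨h, -⟩ | ⟨-, h⟩
      · exfalso
        rw [show (T w).1 = fun v => Q₀ v + B v w from rfl, CfsgLib.Generators.BinaryForms.charSum_translate hQ, h0, hcs] at h
        change (-1 : ℤ) * _ = _ at h
        omega
      · exact h
  have e : ∀ (P : ((Fin (k + 1) ⊕ Fin (k + 1) → ZMod 2) → ZMod 2) → Prop) (P' : (Fin (k + 1) ⊕ Fin (k + 1) → ZMod 2) → Prop),
      (∀ w, P (T w).1 ↔ P' w) →
      Nat.card {q : (Fin (k + 1) ⊕ Fin (k + 1) → ZMod 2) → ZMod 2 // (∀ u v, q (u + v) = q u + q v + B u v) ∧ P q} =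
        Nat.card {w // P' w} := fun P P' hPP => by
    refine Nat.card_congr ((Equiv.subtypeSubtypeEquivSubtypeInter _ P).symm.trans ?_)
    exact (Equiv.subtypeEquiv (Equiv.ofBijective T hT) (fun w => (hPP w).symm)).symm
  refine ⟨?_, ?_, ?_, ?_⟩
  · rw [← Nat.card_congr (Equiv.ofBijective T hT), hV]
  · intro q hq
    rcases hclass q hq with ⟨-, h⟩ | ⟨-, h⟩
    · exact Or.inl h
    · exact Or.inr h
  · refine (e _ _ hplus).trans ?_
    have h := CfsgLib.Generators.BinaryForms.card_zeros_add Q₀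
    rw [hcs, hV] at h
    have : 2 ^ (2 * (k + 1) - 1) * 2 = 2 ^ (2 * (k + 1)) := by rw [← pow_succ]; congr 1
    have h2 : (2 : ℕ) ^ (k + 1) = 2 * 2 ^ k := pow_succ' 2 k
    zify at this h2 ⊢
    push_cast at h
    linarith
  · refine (e _ _ hminus).trans ?_
    have h := CfsgLib.Generators.BinaryForms.card_ones_add Q₀
    rw [hcs, hV] at h
    have : 2 ^ (2 * (k + 1) - 1) * 2 = 2 ^ (2 * (k + 1)) := by rw [← pow_succ]; congr 1
    have h2 : (2 : ℕ) ^ (k + 1) = 2 * 2 ^ k := pow_succ' 2 k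
    have h3 : 2 ^ k ≤ 2 ^ (2 * (k + 1) - 1) := Nat.pow_le_pow_right (by norm_num) (by omega)
    zify [h3] at this h2 ⊢
    push_cast at h
    linarith

end Cfsg.Agent.S2561
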