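import Cfsg.Statements.S2562
import Cfsg.Agent.Lib.Generators.BinaryForms

set_option autoImplicit false
open Cfsg

namespace Cfsg.Agent.S2562

/-- Witt indices over the field of two elements, m ≥ 1: for the plus-type form Σ xᵢyᵢ in dimension 2m some m-dimensional subspace is totally singular and no totally singular subspace has larger dimension; for the minus-type form Σ xᵢyᵢ + (z₁² + z₁z₂ + z₂²) in dimension 2m the maximal dimension of a totally singular subspace is m − 1. -/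
theorem result (m : ℕ) (hm : 1 ≤ m) :
    (∃ U : Submodule (ZMod 2) (Fin m ⊕ Fin m → ZMod 2), (∀ u ∈ U, Cfsg.quadFormPlus m (ZMod 2) u = 0) ∧ Module.finrank (ZMod 2) ↥U = m) ∧
    (∀ U : Submodule (ZMod 2) (Fin m ⊕ Fin m → ZMod 2), (∀ u ∈ U, Cfsg.quadFormPlus m (ZMod 2) u = 0) → Module.finrank (ZMod 2) ↥U ≤ m) ∧
    (∃ U : Submodule (ZMod 2) ((Fin (m - 1) ⊕ Fin (m - 1)) ⊕ Fin 2 → ZMod 2), (∀ u ∈ U, Cfsg.quadFormMinus (m - 1) (ZMod 2) 1 1 u = 0) ∧ Module.finrank (ZMod 2) ↥U = m - 1) ∧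
    (∀ U : Submodule (ZMod 2) ((Fin (m - 1) ⊕ Fin (m - 1)) ⊕ Fin 2 → ZMod 2), (∀ u ∈ U, Cfsg.quadFormMinus (m - 1) (ZMod 2) 1 1 u = 0) → Module.finrank (ZMod 2) ↥U ≤ m - 1) := by
  classical
  obtain ⟨k, rfl⟩ : ∃ k, m = k + 1 := ⟨m - 1, (Nat.sub_add_cancel hm).symm⟩
  simp only [Nat.add_sub_cancel]
  have hplus : ∀ U : Submodule (ZMod 2) (Fin (k + 1) ⊕ Fin (k + 1) → ZMod 2),
      (∀ u ∈ U, Cfsg.quadFormPlus (k + 1) (ZMod 2) u = 0) → Module.finrank (ZMod 2) U ≤ k + 1 := fun U hU =>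
    (CfsgLib.Generators.BinaryForms.finrank_isotropic_le (CfsgLib.Generators.BinaryForms.quadFormPlus_add _)
      (CfsgLib.Generators.BinaryForms.plusBilin_nondeg _) (CfsgLib.Generators.BinaryForms.finrank_plus _) U hU).1
  refine ⟨?_, hplus, ?_, ?_⟩
  · let f : (Fin (k + 1) → ZMod 2) →ₗ[ZMod 2] (Fin (k + 1) ⊕ Fin (k + 1) → ZMod 2) :=
      { toFun := fun x => Sum.elim x 0
        map_add' := fun x y => by ext (i | i) <;> simp
        map_smul' := fun c x => by ext (i | i) <;> simp }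
    refine ⟨LinearMap.range f, ?_, ?_⟩
    · rintro _ ⟨x, rfl⟩; simp [f, Cfsg.quadFormPlus]
    · rw [LinearMap.finrank_range_of_inj (fun x y hxy => funext fun i => congrFun hxy (.inl i)), Module.finrank_fin_fun]
  · let f : (Fin k → ZMod 2) →ₗ[ZMod 2] ((Fin k ⊕ Fin k) ⊕ Fin 2 → ZMod 2) :=
      { toFun := fun x => Sum.elim (Sum.elim x 0) 0
        map_add' := fun x y => by ext ((i | i) | i) <;> simp
        map_smul' := fun c x => by ext ((i | i) | i) <;> simp }
    refine ⟨LinearMap.range f, ?_, ?_⟩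
    · rintro _ ⟨x, rfl⟩; simp [f, Cfsg.quadFormMinus]
    · rw [LinearMap.finrank_range_of_inj (fun x y hxy => funext fun i => congrFun hxy (.inl (.inl i))), Module.finrank_fin_fun]
  · intro U hU
    set e := LinearEquiv.funCongrLeft (ZMod 2) (ZMod 2) (CfsgLib.Generators.BinaryForms.minusEquiv k) with he
    set q : (Fin (k + 1) ⊕ Fin (k + 1) → ZMod 2) → ZMod 2 := fun v => Cfsg.quadFormPlus (k + 1) (ZMod 2) v +
      CfsgLib.Generators.BinaryForms.plusBilin (k + 1) v (CfsgLib.Generators.BinaryForms.w₀ k) with hqdef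
    have hq : ∀ u v, q (u + v) = q u + q v + CfsgLib.Generators.BinaryForms.plusBilin (k + 1) u v := fun u v => by
      simp only [hqdef, CfsgLib.Generators.BinaryForms.quadFormPlus_add, map_add, LinearMap.add_apply]; ring
    set W := U.comap (e : (Fin (k + 1) ⊕ Fin (k + 1) → ZMod 2) →ₗ[ZMod 2] ((Fin k ⊕ Fin k) ⊕ Fin 2 → ZMod 2)) with hW
    have hWq : ∀ v ∈ W, q v = 0 := fun v hv => by
      show Cfsg.quadFormPlus (k + 1) (ZMod 2) v + _ = 0
      rw [CfsgLib.Generators.BinaryForms.translate_w₀]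
      exact hU _ hv
    have hdim : Module.finrank (ZMod 2) W = Module.finrank (ZMod 2) U := by
      rw [← LinearEquiv.finrank_map_eq e W, hW, Submodule.map_comap_eq_of_surjective e.surjective]
      rfl
    obtain ⟨hle, hmax⟩ := CfsgLib.Generators.BinaryForms.finrank_isotropic_le hq
      (CfsgLib.Generators.BinaryForms.plusBilin_nondeg _) (CfsgLib.Generators.BinaryForms.finrank_plus _) W hWq
    by_contra hlt
    have h1 := CfsgLib.Generators.BinaryForms.charSum_eq_of_lagrangian hq W hWq (hmax (by omega))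
    rw [CfsgLib.Generators.BinaryForms.charSum_congr (q := q) e (CfsgLib.Generators.BinaryForms.translate_w₀ k),
      CfsgLib.Generators.BinaryForms.charSum_minus] at h1
    have h2 : (0 : ℤ) < 2 ^ (k + 1) := by positivity
    omega

end Cfsg.Agent.S2562
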