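import Cfsg.Statements.S2563
import Cfsg.Agent.Lib.Generators.BinaryForms
import Cfsg.Agent.Lib.Classes.QuadSpace

set_option autoImplicit false
open Cfsg

namespace Cfsg.Agent.S2563

open CfsgLib.Generators.BinaryForms

/-- Half the weight, modulo two. -/
private def halfWt {n : ℕ} (v : Fin n → ZMod 2) : ZMod 2 :=
  (((Finset.univ.filter fun i => v i = 1).card / 2 : ℕ) : ZMod 2)

/-- The sum of the coordinates. -/
private def wtSum (n : ℕ) : (Fin n → ZMod 2) →ₗ[ZMod 2] ZMod 2 :=
  ∑ i, (LinearMap.proj i : (Fin n → ZMod 2) →ₗ[ZMod 2] ZMod 2)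

private theorem wtSum_apply {n : ℕ} (v : Fin n → ZMod 2) : wtSum n v = ∑ i, v i := by
  simp [wtSum]

/-- The even-weight vectors. -/
private def evenSpace (n : ℕ) : Submodule (ZMod 2) (Fin n → ZMod 2) :=
  LinearMap.ker (wtSum n)

private noncomputable instance evenSpaceFintype (n : ℕ) : Fintype (evenSpace n) := Fintype.ofFinite _

private theorem sum_eq_card {n : ℕ} (v : Fin n → ZMod 2) :
    ∑ i, v i = (((Finset.univ.filter fun i => v i = 1).card : ℕ) : ZMod 2) := by
  rw [Finset.card_filter, Nat.cast_sum]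
  refine Finset.sum_congr rfl fun i _ => ?_
  rcases zero_or_one (v i) with h | h <;> simp [h]

private theorem mem_evenSpace {n : ℕ} (v : Fin n → ZMod 2) :
    v ∈ evenSpace n ↔ Even (Finset.univ.filter fun i => v i = 1).card := by
  rw [evenSpace, LinearMap.mem_ker, wtSum_apply]
  rw [sum_eq_card, ZMod.natCast_eq_zero_iff_even]

private theorem halfWt_add {n : ℕ} {u v : Fin n → ZMod 2} (hu : u ∈ evenSpace n) (hv : v ∈ evenSpace n) :
    halfWt (u + v) = halfWt u + halfWt v + ∑ i, u i * v i := by
  have key : ∀ x y : ZMod 2, ((if x + y = 1 then 1 else 0 : ℕ) + 2 * (if x * y = 1 then 1 else 0)) =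
      (if x = 1 then 1 else 0) + (if y = 1 then 1 else 0) := by decide
  have h1 : (Finset.univ.filter fun i => (u + v) i = 1).card + 2 * (Finset.univ.filter fun i => u i * v i = 1).card =
      (Finset.univ.filter fun i => u i = 1).card + (Finset.univ.filter fun i => v i = 1).card := by
    simp only [Finset.card_filter, Finset.mul_sum, ← Finset.sum_add_distrib, Pi.add_apply]
    exact Finset.sum_congr rfl fun i _ => key _ _
  rw [mem_evenSpace] at hu hv
  obtain ⟨a, ha⟩ := hu
  obtain ⟨b, hb⟩ := hv
  rw [sum_eq_card (fun i => u i * v i)]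
  simp only [halfWt]
  set c := (Finset.univ.filter fun i => u i * v i = 1).card
  have e : (Finset.univ.filter fun i => (u + v) i = 1).card / 2 + c =
      (Finset.univ.filter fun i => u i = 1).card / 2 + (Finset.univ.filter fun i => v i = 1).card / 2 := by omega
  have e' := congrArg (fun k : ℕ => (k : ZMod 2)) e
  simp only [Nat.cast_add] at e'
  linear_combination e' - (c : ZMod 2) * two_eq_zero

private theorem halfWt_add_one {k : ℕ} (v : Fin (4 * k + 4) → ZMod 2) (hv : v ∈ evenSpace _) :
    halfWt (v + 1) = halfWt v := by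
  have h1 : (Finset.univ.filter fun i : Fin (4 * k + 4) => (v + 1) i = 1) =
      (Finset.univ.filter fun i => v i = 1)ᶜ := by
    ext i
    rcases zero_or_one (v i) with h | h <;> simp [h]
  obtain ⟨a, ha⟩ := (mem_evenSpace v).mp hv
  have h2 := Finset.card_le_univ (Finset.univ.filter fun i => v i = 1)
  rw [Fintype.card_fin] at h2
  simp only [halfWt, h1, Finset.card_compl, Fintype.card_fin]
  rw [ZMod.natCast_eq_natCast_iff']
  omega

/-- The sum of the signs over the even-weight vectors, by the binomial theorem in the Gaussian integers. -/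
private theorem sum_chi (k : ℕ) :
    ∑ v : evenSpace (4 * k + 4), chi (halfWt (v : Fin (4 * k + 4) → ZMod 2)) = (-4) ^ (k + 1) := by
  classical
  let i : GaussianInt := ⟨0, 1⟩
  have hi : ∀ j : ℕ, (i ^ j).re = if Even j then (-1) ^ (j / 2) else 0 := by
    intro j
    have hsq : i ^ 2 = ((-1 : ℤ) : GaussianInt) := by rw [pow_two]; ext <;> simp [i]
    rcases Nat.even_or_odd' j with ⟨t, rfl | rfl⟩
    · rw [pow_mul, hsq, ← Int.cast_pow, Zsqrtd.re_intCast, if_pos (even_two_mul t)]
      congr 1
      omega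
    · rw [pow_succ, pow_mul, hsq, ← Int.cast_pow, if_neg (by simp [parity_simps])]
      rw [Zsqrtd.re_mul, Zsqrtd.im_intCast]; simp [i]
  have h1 : ((1 + i) ^ (4 * k + 4)).re = (-4) ^ (k + 1) := by
    have h4 : (1 + i) ^ 4 = ((-4 : ℤ) : GaussianInt) := by
      simp only [pow_succ, pow_zero, one_mul]; ext <;> simp [i]
    rw [show 4 * k + 4 = 4 * (k + 1) by ring, pow_mul, h4, ← Int.cast_pow, Zsqrtd.re_intCast]
  have h2 : (1 + i) ^ (4 * k + 4) = ∑ v : Fin (4 * k + 4) → ZMod 2, i ^ (Finset.univ.filter fun a => v a = 1).card := by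
    have e1 : (1 + i) ^ (4 * k + 4) = ∏ _a : Fin (4 * k + 4), ∑ x : ZMod 2, (if x = 1 then i else 1) := by
      rw [Finset.prod_const, Finset.card_univ, Fintype.card_fin]
      congr 1
    rw [e1, Fintype.prod_sum]
    exact Finset.sum_congr rfl fun v _ => by rw [Finset.prod_ite, Finset.prod_const, Finset.prod_const_one, mul_one]
  rw [← h1, h2]
  let reHom : GaussianInt →+ ℤ := AddMonoidHom.mk' Zsqrtd.re (fun _ _ => rfl)
  show _ = reHom _
  rw [map_sum]
  have e : ∀ v : Fin (4 * k + 4) → ZMod 2, reHom (i ^ (Finset.univ.filter fun a => v a = 1).card) =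
      if v ∈ evenSpace (4 * k + 4) then chi (halfWt v) else 0 := by
    intro v
    show (i ^ _).re = _
    rw [hi]
    simp only [mem_evenSpace]
    split_ifs with hv
    · unfold chi halfWt
      rcases Nat.even_or_odd ((Finset.univ.filter fun a => v a = 1).card / 2) with h | h
      · rw [if_pos ((ZMod.natCast_eq_zero_iff_even).mpr h), h.neg_one_pow]
      · rw [if_neg (by rw [ZMod.natCast_eq_zero_iff_even, Nat.not_even_iff_odd]; exact h), h.neg_one_pow]
    · rfl
  rw [Finset.sum_congr rfl fun v _ => e v, ← Finset.sum_filter]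
  exact (Finset.sum_subtype (p := fun v => v ∈ evenSpace (4 * k + 4)) _ (fun v => Finset.mem_filter.trans (and_iff_right (Finset.mem_univ v))) (fun v => chi (halfWt v))).symm

/-- The line spanned by the all-ones vector. -/
private def onesLine (n : ℕ) : Submodule (ZMod 2) (evenSpace n) :=
  (Submodule.span (ZMod 2) {(1 : Fin n → ZMod 2)}).comap (evenSpace n).subtype

private theorem sum_comp_perm {n : ℕ} (σ : Equiv.Perm (Fin n)) {v : Fin n → ZMod 2} (hv : v ∈ evenSpace n) :
    v ∘ σ ∈ evenSpace n := by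
  rw [evenSpace, LinearMap.mem_ker, wtSum_apply] at hv ⊢
  simp only [Function.comp_apply]
  rw [Equiv.sum_comp σ v]; exact hv

private theorem halfWt_comp {n : ℕ} (σ : Equiv.Perm (Fin n)) (v : Fin n → ZMod 2) : halfWt (v ∘ σ) = halfWt v := by
  simp only [halfWt, Finset.card_filter, Function.comp_apply]
  rw [Equiv.sum_comp σ (fun i => if v i = 1 then 1 else 0)]

/-- For k ≥ 1 the symmetric group of degree 4k + 4 embeds in a full orthogonal group in dimension 4k + 2 over the field of two elements: in the isometry group of the plus-type form Σ xᵢyᵢ when k is odd, and in that of the minus-type form Σ xᵢyᵢ + (z₁² + z₁z₂ + z₂²) when k is even (through its action on even partitions of a (4k+4)-set, with the form 'half the size of a part, modulo 2'). -/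
theorem result (k : ℕ) (hk : 1 ≤ k) :
    (Odd k → ∃ φ : Equiv.Perm (Fin (4 * k + 4)) →* ↥(Cfsg.isometryGroup (ZMod 2) (Cfsg.quadFormPlus (2 * k + 1) (ZMod 2))), Function.Injective φ) ∧
    (Even k → ∃ φ : Equiv.Perm (Fin (4 * k + 4)) →* ↥(Cfsg.isometryGroup (ZMod 2) (Cfsg.quadFormMinus (2 * k) (ZMod 2) 1 1)), Function.Injective φ) := by
  classical
  set n := 4 * k + 4 with hn
  have hone : (1 : Fin n → ZMod 2) ∈ evenSpace n := by
    rw [mem_evenSpace]
    simp [hn, parity_simps]
  have hline : ∀ x : evenSpace n, x ∈ onesLine n ↔ (x : Fin n → ZMod 2) = 0 ∨ (x : Fin n → ZMod 2) = 1 := by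
    intro x
    rw [onesLine, Submodule.mem_comap, Submodule.mem_span_singleton]
    constructor
    · rintro ⟨c, hc⟩
      rcases zero_or_one c with rfl | rfl
      · left; simpa using hc.symm
      · right; simpa using hc.symm
    · rintro (h | h)
      · exact ⟨0, by simp [h]⟩
      · exact ⟨1, by simp [h]⟩
  have hmk : ∀ u v : evenSpace n, (Submodule.Quotient.mk u : evenSpace n ⧸ onesLine n) = Submodule.Quotient.mk v ↔
      ((u : Fin n → ZMod 2) = v ∨ (u : Fin n → ZMod 2) = v + 1) := by
    intro u v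
    rw [Submodule.Quotient.eq, hline, Submodule.coe_sub, sub_eq_zero, sub_eq_iff_eq_add, add_comm (1 : Fin n → ZMod 2)]
  -- the form on the quotient
  let qW : evenSpace n ⧸ onesLine n → ZMod 2 := fun x => Quotient.liftOn' x (fun v => halfWt (v : Fin n → ZMod 2))
    (fun u v huv => by
      rcases (hmk u v).mp (Quotient.sound' huv) with h | h
      · rw [h]
      · rw [h, halfWt_add_one _ v.2])
  have hqW : ∀ v : evenSpace n, qW (Submodule.Quotient.mk v) = halfWt (v : Fin n → ZMod 2) := fun _ => rfl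
  let ρ : (Fin n → ZMod 2) →ₗ[ZMod 2] (Fin n → ZMod 2) →ₗ[ZMod 2] ZMod 2 := dotProductBilin (ZMod 2) (ZMod 2)
  have hρ : ∀ u v, ρ u v = ∑ i, u i * v i := fun _ _ => rfl
  let B₀ : evenSpace n →ₗ[ZMod 2] evenSpace n →ₗ[ZMod 2] ZMod 2 := (ρ.comp (evenSpace n).subtype).compl₂ (evenSpace n).subtype
  have hB₀ : ∀ u v : evenSpace n, B₀ u v = ∑ i, (u : Fin n → ZMod 2) i * (v : Fin n → ZMod 2) i := fun _ _ => rfl
  have hsum0 : ∀ v : evenSpace n, ∑ i, (v : Fin n → ZMod 2) i = 0 := fun v =>
    (wtSum_apply _).symm.trans (LinearMap.mem_ker.mp v.2)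
  have hB₀1 : ∀ v x : evenSpace n, x ∈ onesLine n → B₀ v x = 0 ∧ B₀ x v = 0 := by
    intro v x hx
    rw [hB₀, hB₀]
    rcases (hline x).mp hx with h | h <;> simp [h, hsum0]
  let B₁ : (evenSpace n ⧸ onesLine n) →ₗ[ZMod 2] evenSpace n →ₗ[ZMod 2] ZMod 2 :=
    (onesLine n).liftQ B₀ (fun x hx => LinearMap.ext fun v => (hB₀1 v x hx).2)
  let BW : (evenSpace n ⧸ onesLine n) →ₗ[ZMod 2] (evenSpace n ⧸ onesLine n) →ₗ[ZMod 2] ZMod 2 :=
    ((onesLine n).liftQ B₁.flip (fun x hx => LinearMap.ext fun w => by
      obtain ⟨u, rfl⟩ := Submodule.Quotient.mk_surjective _ w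
      exact (hB₀1 u x hx).1)).flip
  have hBW : ∀ u v : evenSpace n, BW (Submodule.Quotient.mk u) (Submodule.Quotient.mk v) = ∑ i, (u : Fin n → ZMod 2) i * (v : Fin n → ZMod 2) i :=
    fun _ _ => rfl
  have hq : ∀ x y, qW (x + y) = qW x + qW y + BW x y := by
    intro x y
    obtain ⟨u, rfl⟩ := Submodule.Quotient.mk_surjective _ x
    obtain ⟨v, rfl⟩ := Submodule.Quotient.mk_surjective _ y
    rw [← Submodule.Quotient.mk_add, hqW, hqW, hqW, hBW, Submodule.coe_add, halfWt_add u.2 v.2]
  have hnd : ∀ x, (∀ y, BW x y = 0) → x = 0 := by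
    intro x hx
    obtain ⟨u, rfl⟩ := Submodule.Quotient.mk_surjective _ x
    rw [Submodule.Quotient.mk_eq_zero, hline]
    obtain ⟨i0, -⟩ : ∃ i0 : Fin n, True := ⟨⟨0, by omega⟩, trivial⟩
    have hconst : ∀ i : Fin n, (u : Fin n → ZMod 2) i = (u : Fin n → ZMod 2) i0 := by
      intro i
      rcases eq_or_ne i i0 with h | h
      · rw [h]
      · have hmem : (Pi.single i 1 + Pi.single i0 1 : Fin n → ZMod 2) ∈ evenSpace n := by
          rw [evenSpace, LinearMap.mem_ker, wtSum_apply]
          simp [Finset.sum_add_distrib, one_add_one_eq_two, two_eq_zero]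
        have h2 := hx (Submodule.Quotient.mk ⟨_, hmem⟩)
        rw [hBW] at h2
        simp only [Pi.add_apply, mul_add, Finset.sum_add_distrib] at h2
        simp [Pi.single_apply] at h2
        linear_combination h2 - (u : Fin n → ZMod 2) i0 * two_eq_zero
    rcases zero_or_one ((u : Fin n → ZMod 2) i0) with h | h
    · exact Or.inl (funext fun i => (hconst i).trans h)
    · exact Or.inr (funext fun i => (hconst i).trans h)
  have hcardN : Nat.card (onesLine n) = 2 := by
    have hne : (⟨1, hone⟩ : evenSpace n) ≠ 0 := fun h =>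
      one_ne_zero (congrFun (congrArg Subtype.val h) (⟨0, by omega⟩ : Fin n))
    rw [Nat.card_eq_two_iff]
    refine ⟨⟨0, (onesLine n).zero_mem⟩, ⟨⟨1, hone⟩, (hline _).mpr (Or.inr rfl)⟩, fun h => hne (congrArg Subtype.val h).symm, ?_⟩
    refine Set.eq_univ_of_forall fun x => ?_
    rcases (hline x.1).mp x.2 with h | h
    · exact Or.inl (Subtype.ext (Subtype.ext h))
    · exact Or.inr (Subtype.ext (Subtype.ext h))
  have hVcard : Nat.card (evenSpace n) * 2 = 2 ^ n := by
    have hsurj : Function.Surjective (wtSum n) := fun c =>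
      ⟨Pi.single ⟨0, by omega⟩ c, by rw [wtSum_apply]; simp⟩
    have h := Submodule.card_eq_card_quotient_mul_card (evenSpace n)
    have h' : Nat.card ((Fin n → ZMod 2) ⧸ evenSpace n) = 2 := by
      unfold evenSpace
      rw [Nat.card_congr (LinearMap.quotKerEquivOfSurjective _ hsurj).toEquiv, Nat.card_zmod]
    rw [h', Nat.card_fun, Nat.card_fin, Nat.card_zmod] at h
    rw [h, mul_comm]
  have hdim : Module.finrank (ZMod 2) (evenSpace n ⧸ onesLine n) = 2 * (2 * k + 1) := by
    have h := Submodule.card_eq_card_quotient_mul_card (onesLine n)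
    rw [hcardN, Module.natCard_eq_pow_finrank (K := ZMod 2) (V := evenSpace n ⧸ onesLine n), Nat.card_zmod] at h
    rw [h] at hVcard
    rw [← pow_succ', mul_comm, ← pow_succ'] at hVcard
    have := Nat.pow_right_injective le_rfl hVcard
    omega
  let Q : QuadraticForm (ZMod 2) (evenSpace n ⧸ onesLine n) := QuadraticMap.ofPolar qW
    (fun c x => by
      rcases zero_or_one c with rfl | rfl
      · simp [map_zero_of_polar hq]
      · simp)
    (fun x x' y => by simp only [QuadraticMap.polar, hq, map_add, LinearMap.add_apply]; ring)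
    (fun c x y => by simp only [QuadraticMap.polar, hq, map_smul, LinearMap.smul_apply, smul_eq_mul]; ring)
  have hQnd : (QuadraticMap.polarBilin Q).Nondegenerate := by
    have e : ∀ x y, QuadraticMap.polarBilin Q x y = BW x y := fun x y => by
      show QuadraticMap.polar qW x y = _
      rw [QuadraticMap.polar, hq]; ring
    exact ⟨fun x hx => hnd x fun y => (e x y).symm.trans (hx y),
      fun x hx => hnd x fun y => by rw [polar_comm hq, ← e]; exact hx y⟩
  -- the sign
  have hFt : Fintype (evenSpace n ⧸ onesLine n) := Fintype.ofFinite _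
  have hsign : 2 * charSum qW = (-4) ^ (k + 1) := by
    rw [← sum_chi k, ← Finset.sum_fiberwise (Finset.univ : Finset (evenSpace n))
      (fun v => (Submodule.Quotient.mk v : evenSpace n ⧸ onesLine n)) (fun v => chi (halfWt (v : Fin n → ZMod 2))),
      charSum, Finset.mul_sum]
    refine Finset.sum_congr rfl fun x _ => ?_
    rw [Finset.sum_congr rfl (g := fun _ => chi (qW x)) fun v hv => by
      rw [← (Finset.mem_filter.mp hv).2, hqW], Finset.sum_const, nsmul_eq_mul]
    congr 1
    obtain ⟨u, rfl⟩ := Submodule.Quotient.mk_surjective _ x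
    have : (Finset.univ.filter fun v : evenSpace n => (Submodule.Quotient.mk v : evenSpace n ⧸ onesLine n) = Submodule.Quotient.mk u) =
        {u, ⟨(u : Fin n → ZMod 2) + 1, (evenSpace n).add_mem u.2 hone⟩} := by
      ext v
      simp only [Finset.mem_filter, Finset.mem_univ, true_and, hmk, Finset.mem_insert, Finset.mem_singleton, Subtype.ext_iff]
    rw [this, Finset.card_pair]
    · rfl
    · intro h
      have := congrFun (congrArg Subtype.val h) (⟨0, by omega⟩ : Fin n)
      simp at this
  -- the action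
  let α : Equiv.Perm (Fin n) → (evenSpace n →ₗ[ZMod 2] evenSpace n) := fun σ =>
    { toFun := fun v => ⟨(v : Fin n → ZMod 2) ∘ σ.symm, sum_comp_perm σ.symm v.2⟩
      map_add' := fun _ _ => rfl
      map_smul' := fun _ _ => rfl }
  have hα : ∀ σ, onesLine n ≤ (onesLine n).comap (α σ) := fun σ x hx => by
    rw [Submodule.mem_comap, hline]
    rcases (hline x).mp hx with h | h
    · left; show (x : Fin n → ZMod 2) ∘ σ.symm = 0; rw [h]; rfl
    · right; show (x : Fin n → ZMod 2) ∘ σ.symm = 1; rw [h]; rfl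
  let β : Equiv.Perm (Fin n) →* Module.End (ZMod 2) (evenSpace n ⧸ onesLine n) :=
    { toFun := fun σ => (onesLine n).mapQ (onesLine n) (α σ) (hα σ)
      map_one' := Submodule.linearMap_qext _ (LinearMap.ext fun v => rfl)
      map_mul' := fun σ τ => Submodule.linearMap_qext _ (LinearMap.ext fun v => rfl) }
  have hβ : ∀ σ v, β σ (Submodule.Quotient.mk v) = Submodule.Quotient.mk (α σ v) := fun _ _ => rfl
  have hβq : ∀ σ x, qW (β σ x) = qW x := by
    intro σ x
    obtain ⟨u, rfl⟩ := Submodule.Quotient.mk_surjective _ x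
    exact halfWt_comp σ.symm _
  have hβinj : ∀ σ, β σ = 1 → σ = 1 := by
    intro σ hσ
    -- every pair is mapped to itself
    have hpair : ∀ i j : Fin n, i ≠ j → σ i = i ∨ σ i = j := by
      intro i j hij
      have hmem : (Pi.single i 1 + Pi.single j 1 : Fin n → ZMod 2) ∈ evenSpace n := by
        rw [evenSpace, LinearMap.mem_ker, wtSum_apply]
        simp [Finset.sum_add_distrib, one_add_one_eq_two, two_eq_zero]
      have h := LinearMap.congr_fun hσ (Submodule.Quotient.mk ⟨_, hmem⟩)
      rw [hβ, Module.End.one_apply, hmk] at h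
      rcases h with h | h
      · have h2 := congrFun h (σ i)
        simp [α, Pi.single_apply, hij] at h2
        by_contra hc
        rw [not_or] at hc
        simp [hc.1, hc.2] at h2
      · exfalso
        obtain ⟨a, ha⟩ : ∃ a : Fin n, a ≠ i ∧ a ≠ j ∧ a ≠ σ i ∧ a ≠ σ j := by
          by_contra hc
          push Not at hc
          have hsub : (Finset.univ : Finset (Fin n)) ⊆ {i, j, σ i, σ j} := fun a _ => by
            simp only [Finset.mem_insert, Finset.mem_singleton]
            by_cases h1 : a = i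
            · exact Or.inl h1
            by_cases h2 : a = j
            · exact Or.inr (Or.inl h2)
            by_cases h3 : a = σ i
            · exact Or.inr (Or.inr (Or.inl h3))
            exact Or.inr (Or.inr (Or.inr (hc a h1 h2 h3)))
          have h5 := (Finset.card_le_card hsub).trans Finset.card_le_four
          rw [Finset.card_univ, Fintype.card_fin] at h5
          omega
        obtain ⟨h1, h2, h3, h4⟩ := ha
        have h5 := congrFun h a
        simp [α, h1, h2, Equiv.symm_apply_eq, h3, h4] at h5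
    ext i : 1
    obtain ⟨j, j', hij, hij', hjj⟩ : ∃ j j' : Fin n, j ≠ i ∧ j' ≠ i ∧ j ≠ j' := by
      by_cases h0 : (i : ℕ) = 0
      · exact ⟨⟨1, by omega⟩, ⟨2, by omega⟩, by simp [Fin.ext_iff, h0], by simp [Fin.ext_iff, h0], by simp⟩
      by_cases h1 : (i : ℕ) = 1
      · exact ⟨⟨0, by omega⟩, ⟨2, by omega⟩, by simp [Fin.ext_iff, h1], by simp [Fin.ext_iff, h1], by simp⟩
      exact ⟨⟨0, by omega⟩, ⟨1, by omega⟩, fun h => h0 (congrArg Fin.val h).symm, fun h => h1 (congrArg Fin.val h).symm, by simp⟩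
    rcases hpair i j hij.symm with h | h
    · exact h
    rcases hpair i j' hij'.symm with h' | h'
    · exact h'
    exact absurd (h.symm.trans h') hjj
  -- transport
  have build : ∀ {ι : Type} [Fintype ι] [DecidableEq ι] (Qf : (ι → ZMod 2) → ZMod 2)
      (E : (evenSpace n ⧸ onesLine n) ≃ₗ[ZMod 2] (ι → ZMod 2)), (∀ x, qW x = Qf (E x)) →
      ∃ φ : Equiv.Perm (Fin n) →* ↥(Cfsg.isometryGroup (ZMod 2) Qf), Function.Injective φ := by
    intro ι _ _ Qf E hE
    let γ : Equiv.Perm (Fin n) →* Matrix ι ι (ZMod 2) :=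
      { toFun := fun σ => LinearMap.toMatrix' (E.toLinearMap ∘ₗ β σ ∘ₗ E.symm.toLinearMap)
        map_one' := by simp [Module.End.one_eq_id]
        map_mul' := fun σ τ => by
          rw [← LinearMap.toMatrix'_comp]
          congr 1
          ext x
          simp }
    refine ⟨γ.toHomUnits.codRestrict _ ?_, fun σ τ h => ?_⟩
    · intro σ u v
      show Qf ((γ σ).mulVec u) = Qf u
      simp only [γ, MonoidHom.coe_mk, OneHom.coe_mk, LinearMap.toMatrix'_mulVec, LinearMap.comp_apply,
        LinearEquiv.coe_coe]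
      rw [← hE, hβq, hE, LinearEquiv.apply_symm_apply]
    · have h1 : γ σ = γ τ := congrArg (fun t => ((t : GL ι (ZMod 2)) : Matrix ι ι (ZMod 2))) (congrArg Subtype.val h)
      have h2 : β σ = β τ := by
        have h3 := LinearMap.toMatrix'.injective h1
        refine LinearMap.ext fun x => E.injective ?_
        have := LinearMap.congr_fun h3 (E x)
        simpa using this
      exact inv_mul_eq_one.mp (hβinj (σ⁻¹ * τ) (by rw [map_mul, ← h2, ← map_mul, inv_mul_cancel, map_one]))
  have hcl := CfsgLib.Classes.exists_equiv_even (m := 2 * k + 1) (by omega) hdim Q hQnd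
  have hpow : (-4 : ℤ) ^ (k + 1) = (-1) ^ (k + 1) * (2 * 2 ^ (2 * k + 1)) := by
    rw [show (-4 : ℤ) = (-1) * 2 ^ 2 by norm_num, mul_pow, ← pow_mul, ← pow_succ']
    congr 2
  have hpos : (0 : ℤ) < 2 ^ (2 * k + 1) := by positivity
  rcases hcl with ⟨E, hE⟩ | ⟨E, ζ, hζ, hE⟩
  · refine ⟨fun _ => build _ E hE, fun hev => ?_⟩
    exfalso
    rw [charSum_congr (q := qW) E hE, charSum_plus, hpow, hev.add_one.neg_one_pow] at hsign
    omega
  · obtain rfl : ζ = 1 := (zero_or_one ζ).resolve_left fun h => hζ 0 (by rw [h]; simp)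
    refine ⟨fun hod => ?_, fun _ => build _ E hE⟩
    exfalso
    rw [charSum_congr (q := qW) E hE, hpow, hod.add_one.neg_one_pow] at hsign
    rw [charSum_minus] at hsign
    simp only [Nat.add_sub_cancel] at hsign
    omega

end Cfsg.Agent.S2563
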