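import Cfsg.Statements.S2564
import Cfsg.Agent.Lib.Generators.BinaryForms

set_option autoImplicit false
open Cfsg

namespace Cfsg.Agent.S2564

/-- On the 2m-dimensional space over the field of two elements (m ≥ 1) let f be the alternating form obtained by polarizing the plus-type form Σ xᵢyᵢ, and let q be any quadratic form polarizing to f. For a vector w, the function q + f(·, w) again polarizes to f, and it is equivalent to q under an invertible linear map (that is, has the same type) if and only if q(w) = 0. -/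
theorem result (m : ℕ) (hm : 1 ≤ m) (q : (Fin m ⊕ Fin m → ZMod 2) → ZMod 2) (hq : (∀ u v : (Fin m ⊕ Fin m → ZMod 2), q (u + v) = q u + q v + (Cfsg.quadFormPlus m (ZMod 2) (u + v) - Cfsg.quadFormPlus m (ZMod 2) u - Cfsg.quadFormPlus m (ZMod 2) v))) (w : (Fin m ⊕ Fin m → ZMod 2)) :
    (∀ u v : (Fin m ⊕ Fin m → ZMod 2), (q (u + v) + (Cfsg.quadFormPlus m (ZMod 2) (u + v + w) - Cfsg.quadFormPlus m (ZMod 2) (u + v) - Cfsg.quadFormPlus m (ZMod 2) w)) =
        (q u + (Cfsg.quadFormPlus m (ZMod 2) (u + w) - Cfsg.quadFormPlus m (ZMod 2) u - Cfsg.quadFormPlus m (ZMod 2) w)) + (q v + (Cfsg.quadFormPlus m (ZMod 2) (v + w) - Cfsg.quadFormPlus m (ZMod 2) v - Cfsg.quadFormPlus m (ZMod 2) w)) +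
        (Cfsg.quadFormPlus m (ZMod 2) (u + v) - Cfsg.quadFormPlus m (ZMod 2) u - Cfsg.quadFormPlus m (ZMod 2) v)) ∧
    ((∃ g : (Fin m ⊕ Fin m → ZMod 2) ≃ₗ[ZMod 2] (Fin m ⊕ Fin m → ZMod 2), ∀ v, q v + (Cfsg.quadFormPlus m (ZMod 2) (v + w) - Cfsg.quadFormPlus m (ZMod 2) v - Cfsg.quadFormPlus m (ZMod 2) w) = q (g v)) ↔ q w = 0) := by
  classical
  obtain ⟨k, rfl⟩ : ∃ k, m = k + 1 := ⟨m - 1, (Nat.sub_add_cancel hm).symm⟩
  have hpol : ∀ u v : Fin (k + 1) ⊕ Fin (k + 1) → ZMod 2,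
      Cfsg.quadFormPlus (k + 1) (ZMod 2) (u + v) - Cfsg.quadFormPlus (k + 1) (ZMod 2) u - Cfsg.quadFormPlus (k + 1) (ZMod 2) v
        = CfsgLib.Generators.BinaryForms.plusBilin (k + 1) u v := fun u v => by
    rw [CfsgLib.Generators.BinaryForms.quadFormPlus_add]; ring
  simp only [hpol] at hq ⊢
  refine ⟨fun u v => ?_, fun ⟨g, hg⟩ => ?_, fun hw => CfsgLib.Generators.BinaryForms.exists_equiv_translate hq hw⟩
  · rw [hq, map_add, LinearMap.add_apply]; ring
  · have h1 := CfsgLib.Generators.BinaryForms.charSum_congr g hg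
    rw [CfsgLib.Generators.BinaryForms.charSum_translate hq] at h1
    have hne : CfsgLib.Generators.BinaryForms.charSum q ≠ 0 := by
      rcases CfsgLib.Generators.BinaryForms.exists_equiv_of_polar k hq with ⟨h, -⟩ | ⟨h, -⟩ <;> rw [h] <;> simp
    apply CfsgLib.Generators.BinaryForms.chi_injective
    exact mul_right_cancel₀ hne (h1.trans (one_mul _).symm)

end Cfsg.Agent.S2564
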