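import Cfsg.Statements.S2565
import Cfsg.Agent.S2563
import Cfsg.Agent.S0287

set_option autoImplicit false
open Cfsg

namespace Cfsg.Agent.S2565

/-- The commutator subgroup of the full orthogonal group of the plus-type form Σ xᵢyᵢ in dimension 6 over the field of two elements (the group Ω⁺₆(2), of index 2) is isomorphic to the alternating group of degree 8. -/
theorem result :
    (Cfsg.Omega (ZMod 2) (Cfsg.quadFormPlus 3 (ZMod 2))).index = 2 ∧
    Nonempty (↥(Cfsg.Omega (ZMod 2) (Cfsg.quadFormPlus 3 (ZMod 2))) ≃* alternatingGroup (Fin 8)) := by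
  obtain ⟨φ, hφ⟩ := (Cfsg.Agent.S2563.result 1 le_rfl).1 odd_one
  let ψ : Equiv.Perm (Fin 8) →* ↥(Cfsg.isometryGroup (ZMod 2) (Cfsg.quadFormPlus 3 (ZMod 2))) := φ
  have hψ : Function.Injective ψ := hφ
  have hcard : Nat.card ↥(Cfsg.isometryGroup (ZMod 2) (Cfsg.quadFormPlus 3 (ZMod 2))) = 40320 := by
    rw [Cfsg.Agent.S0287.result (q := 2) (ZMod.card 2) 3 (by norm_num)]
    simp [Finset.prod_range_succ]
  have hbij : Function.Bijective ψ := (Nat.bijective_iff_injective_and_card ψ).mpr ⟨hψ, by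
    rw [hcard, Nat.card_perm, Nat.card_fin]; rfl⟩
  let e := MulEquiv.ofBijective ψ hbij
  have hmap : Cfsg.Omega (ZMod 2) (Cfsg.quadFormPlus 3 (ZMod 2)) = (alternatingGroup (Fin 8)).map e.toMonoidHom := by
    rw [← alternatingGroup.commutator_perm_eq (by simp), Cfsg.Omega, commutator_def, commutator_def,
      Subgroup.map_commutator, Subgroup.map_top_of_surjective e.toMonoidHom e.surjective]
  rw [hmap]
  exact ⟨(Subgroup.index_map_equiv _ e).trans alternatingGroup.index_eq_two,
    ⟨((alternatingGroup (Fin 8)).equivMapOfInjective _ e.injective).symm⟩⟩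

end Cfsg.Agent.S2565
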