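import Cfsg.Statements.S2566
import Cfsg.Agent.S0287

set_option autoImplicit false
open Cfsg

namespace Cfsg.Agent.S2566

open Matrix in
/-- The permutation `σ` of the three non-zero vectors of `F₂²` as a matrix. -/
private def smat (σ : Equiv.Perm (Fin 3)) : Matrix (Fin 2) (Fin 2) (ZMod 2) :=
  Matrix.of fun i j => ![![1, 0], ![0, 1], ![1, 1]] (σ (j.castSucc)) i

private theorem smat_mul : ∀ σ τ : Equiv.Perm (Fin 3), smat (σ * τ) = smat σ * smat τ := by decide +kernel

private theorem smat_one : smat 1 = 1 := by decide +kernel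

private theorem smat_det : ∀ σ : Equiv.Perm (Fin 3), smat σ 0 0 * smat σ 1 1 + smat σ 0 1 * smat σ 1 0 = 1 := by decide +kernel

private theorem smat_injective : ∀ σ : Equiv.Perm (Fin 3), smat σ = 1 → σ = 1 := by decide +kernel

private theorem smat_inter : ∀ σ τ : Equiv.Perm (Fin 3),
    (∀ i k j l : Fin 2, smat σ i k * (1 : Matrix (Fin 2) (Fin 2) (ZMod 2)) j l = (1 : Matrix (Fin 2) (Fin 2) (ZMod 2)) i k * smat τ j l) → σ = 1 := by
  decide +kernel

/-- Coordinates: `x₁, x₂, y₁, y₂` sit at the places `(0,0), (0,1), (1,1), (1,0)` of a `2 × 2` matrix. -/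
private def pos : Fin 2 ⊕ Fin 2 → Fin 2 × Fin 2 := Sum.elim ![(0, 0), (0, 1)] ![(1, 1), (1, 0)]

private def posInv : Fin 2 × Fin 2 → Fin 2 ⊕ Fin 2 := fun p =>
  ![![Sum.inl 0, Sum.inl 1], ![Sum.inr 1, Sum.inr 0]] p.1 p.2

private def posEquiv : (Fin 2 ⊕ Fin 2) ≃ Fin 2 × Fin 2 where
  toFun := pos
  invFun := posInv
  left_inv := by decide
  right_inv := by decide

open scoped Kronecker in
private def kron (g h : Matrix (Fin 2) (Fin 2) (ZMod 2)) : Matrix (Fin 2 ⊕ Fin 2) (Fin 2 ⊕ Fin 2) (ZMod 2) :=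
  (g ⊗ₖ h).submatrix posEquiv posEquiv

private theorem kron_mul (g h g' h' : Matrix (Fin 2) (Fin 2) (ZMod 2)) : kron g h * kron g' h' = kron (g * g') (h * h') := by
  rw [kron, kron, kron, Matrix.submatrix_mul_equiv, ← Matrix.mul_kronecker_mul]

private theorem kron_one : kron 1 1 = 1 := by
  rw [kron, Matrix.one_kronecker_one, Matrix.submatrix_one_equiv]

private theorem kron_preserves : ∀ σ τ : Equiv.Perm (Fin 3), ∀ v : Fin 2 ⊕ Fin 2 → ZMod 2,
    Cfsg.quadFormPlus 2 (ZMod 2) ((kron (smat σ) (smat τ)).mulVec v) = Cfsg.quadFormPlus 2 (ZMod 2) v := by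
  intro σ τ v
  have hσ := smat_det σ
  have hτ := smat_det τ
  have h2 : (2 : ZMod 2) = 0 := rfl
  simp only [Cfsg.quadFormPlus, Fin.sum_univ_two, Matrix.mulVec, dotProduct, Fintype.sum_sum_type, kron,
    Matrix.submatrix_apply, Matrix.kroneckerMap_apply, posEquiv, Equiv.coe_fn_mk, pos, Sum.elim_inl, Sum.elim_inr,
    Matrix.cons_val_zero, Matrix.cons_val_one]
  generalize smat σ 0 0 = a at *
  generalize smat σ 0 1 = b at *
  generalize smat σ 1 0 = c at *
  generalize smat σ 1 1 = d at *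
  generalize smat τ 0 0 = a' at *
  generalize smat τ 0 1 = b' at *
  generalize smat τ 1 0 = c' at *
  generalize smat τ 1 1 = d' at *
  generalize v (Sum.inl 0) = x at *
  generalize v (Sum.inl 1) = y at *
  generalize v (Sum.inr 0) = z at *
  generalize v (Sum.inr 1) = w at *
  have e : x * z + y * w = (a * d + b * c) * (a' * d' + b' * c') * (x * z + y * w) := by
    rw [hσ, hτ, one_mul, one_mul]
  refine Eq.trans ?_ e.symm
  rw [← sub_eq_zero]
  ring_nf
  reduce_mod_char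

private def hom0 : Equiv.Perm (Fin 3) × Equiv.Perm (Fin 3) →* GL (Fin 2 ⊕ Fin 2) (ZMod 2) :=
  MonoidHom.toHomUnits
    { toFun := fun p => kron (smat p.1) (smat p.2)
      map_one' := by simp [smat_one, kron_one]
      map_mul' := fun p r => by simp [smat_mul, kron_mul] }

private theorem hom0_val (p : Equiv.Perm (Fin 3) × Equiv.Perm (Fin 3)) :
    (hom0 p : Matrix (Fin 2 ⊕ Fin 2) (Fin 2 ⊕ Fin 2) (ZMod 2)) = kron (smat p.1) (smat p.2) := rfl

private theorem hom0_mem (p : Equiv.Perm (Fin 3) × Equiv.Perm (Fin 3)) :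
    hom0 p ∈ Cfsg.isometryGroup (ZMod 2) (Cfsg.quadFormPlus 2 (ZMod 2)) := by
  intro u v
  simp only [Units.coeHom_apply, hom0_val]
  exact kron_preserves p.1 p.2 u

private def hom : Equiv.Perm (Fin 3) × Equiv.Perm (Fin 3) →* ↥(Cfsg.isometryGroup (ZMod 2) (Cfsg.quadFormPlus 2 (ZMod 2))) :=
  hom0.codRestrict _ hom0_mem

private def swapHom : ↥(Cfsg.isometryGroup (ZMod 2) (Cfsg.quadFormPlus 2 (ZMod 2))) :=
  ⟨⟨((1 : Matrix (Fin 2 × Fin 2) (Fin 2 × Fin 2) (ZMod 2)).submatrix (Equiv.prodComm _ _) id).submatrix posEquiv posEquiv,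
    ((1 : Matrix (Fin 2 × Fin 2) (Fin 2 × Fin 2) (ZMod 2)).submatrix (Equiv.prodComm _ _) id).submatrix posEquiv posEquiv,
    by decide +kernel, by decide +kernel⟩, fun v v' => by
      revert v v'; decide +kernel⟩

private theorem swap_conj : ∀ σ : Equiv.Perm (Fin 3),
    (swapHom : GL (Fin 2 ⊕ Fin 2) (ZMod 2)).val * kron (smat σ) 1 = kron 1 (smat σ) * (swapHom : GL (Fin 2 ⊕ Fin 2) (ZMod 2)).val := by
  decide +kernel

/-- The full orthogonal group of the plus-type form x₁y₁ + x₂y₂ in dimension 4 over the field of two elements has order 72 and is isomorphic to the wreath product of the symmetric group of degree 3 by a group of order 2: it has a normal subgroup isomorphic to the direct product of two symmetric groups of degree 3, of index 2, whose two direct factors are interchanged by conjugation by some element. -/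
theorem result :
    Nat.card ↥(Cfsg.isometryGroup (ZMod 2) (Cfsg.quadFormPlus 2 (ZMod 2))) = 72 ∧
    ∃ (A B : Subgroup ↥(Cfsg.isometryGroup (ZMod 2) (Cfsg.quadFormPlus 2 (ZMod 2)))),
      Nonempty (↥A ≃* Equiv.Perm (Fin 3)) ∧ Nonempty (↥B ≃* Equiv.Perm (Fin 3)) ∧ A ⊓ B = ⊥ ∧ (∀ a ∈ A, ∀ b ∈ B, a * b = b * a) ∧
      (A ⊔ B).index = 2 ∧ ∃ g : ↥(Cfsg.isometryGroup (ZMod 2) (Cfsg.quadFormPlus 2 (ZMod 2))), A.map (MulAut.conj g).toMonoidHom = B := by
  have hcard : Nat.card ↥(Cfsg.isometryGroup (ZMod 2) (Cfsg.quadFormPlus 2 (ZMod 2))) = 72 := by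
    rw [Cfsg.Agent.S0287.result (ZMod.card 2) 2 (by norm_num)]
    rfl
  refine ⟨hcard, ?_⟩
  let hA := hom.comp (MonoidHom.inl _ _)
  let hB := hom.comp (MonoidHom.inr _ _)
  have hval : ∀ σ τ, ((hom (σ, τ) : GL (Fin 2 ⊕ Fin 2) (ZMod 2)) : Matrix (Fin 2 ⊕ Fin 2) (Fin 2 ⊕ Fin 2) (ZMod 2)) = kron (smat σ) (smat τ) :=
    fun _ _ => rfl
  have hinj : Function.Injective hom := by
    rw [injective_iff_map_eq_one]
    rintro ⟨σ, τ⟩ h
    have h1 : kron (smat σ) (smat τ) = 1 := by rw [← hval, h]; rfl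
    have h2 : ∀ i k j l, smat σ i k * (1 : Matrix (Fin 2) (Fin 2) (ZMod 2)) j l = (1 : Matrix (Fin 2) (Fin 2) (ZMod 2)) i k * smat τ⁻¹ j l := by
      intro i k j l
      have e : kron (smat σ) 1 = kron 1 (smat τ⁻¹) := by
        calc kron (smat σ) 1 = kron (smat σ) (smat τ) * kron 1 (smat τ⁻¹) := by
              rw [kron_mul, mul_one, ← smat_mul, mul_inv_cancel, smat_one]
          _ = _ := by rw [h1, one_mul]
      have e2 := congrFun (congrFun e (posInv (i, j))) (posInv (k, l))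
      simp only [kron, Matrix.submatrix_apply, Matrix.kroneckerMap_apply,
        show ∀ p, posEquiv (posInv p) = p from posEquiv.right_inv] at e2
      exact e2
    have hσ : σ = 1 := smat_inter σ τ⁻¹ h2
    subst hσ
    refine Prod.ext rfl (smat_injective τ ?_)
    ext j l
    have e2 := congrFun (congrFun h1 (posInv (0, j))) (posInv (0, l))
    simp only [smat_one, kron, Matrix.submatrix_apply, Matrix.kroneckerMap_apply,
      show ∀ p, posEquiv (posInv p) = p from posEquiv.right_inv, Matrix.one_apply_eq, one_mul] at e2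
    rw [e2, Matrix.one_apply, Matrix.one_apply]
    have : posInv (0, j) = posInv (0, l) ↔ j = l :=
      ⟨fun h => (Prod.mk.injEq _ _ _ _ ▸ posEquiv.symm.injective (a₁ := ((0 : Fin 2), j)) (a₂ := ((0 : Fin 2), l)) h).2, fun h => by rw [h]⟩
    simp only [this]
  have hAinj : Function.Injective hA := hinj.comp (fun a b h => (Prod.mk.injEq _ _ _ _ ▸ h).1)
  have hBinj : Function.Injective hB := hinj.comp (fun a b h => (Prod.mk.injEq _ _ _ _ ▸ h).2)
  refine ⟨hA.range, hB.range, ⟨(MonoidHom.ofInjective hAinj).symm⟩, ⟨(MonoidHom.ofInjective hBinj).symm⟩, ?_, ?_, ?_, ?_⟩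
  · rw [eq_bot_iff]
    rintro x ⟨⟨σ, rfl⟩, ⟨τ, hτ⟩⟩
    have h1 : (σ, (1 : Equiv.Perm (Fin 3))) = (1, τ) := hinj hτ.symm
    obtain ⟨rfl, -⟩ := Prod.mk.injEq _ _ _ _ ▸ h1
    exact Subgroup.mem_bot.mpr (map_one hA)
  · rintro _ ⟨σ, rfl⟩ _ ⟨τ, rfl⟩
    show hom (σ, 1) * hom (1, τ) = hom (1, τ) * hom (σ, 1)
    rw [← map_mul, ← map_mul, Prod.mk_mul_mk, Prod.mk_mul_mk, one_mul, mul_one, mul_one, one_mul]
  · have hsup : hA.range ⊔ hB.range = hom.range := by
      refine le_antisymm (sup_le ?_ ?_) ?_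
      · rintro _ ⟨σ, rfl⟩; exact ⟨_, rfl⟩
      · rintro _ ⟨σ, rfl⟩; exact ⟨_, rfl⟩
      · rintro _ ⟨⟨σ, τ⟩, rfl⟩
        have e : hom (σ, τ) = hA σ * hB τ := by
          show _ = hom (σ, 1) * hom (1, τ)
          rw [← map_mul, Prod.mk_mul_mk, one_mul, mul_one]
        rw [e]
        exact Subgroup.mul_mem_sup ⟨σ, rfl⟩ ⟨τ, rfl⟩
    have h := hom.range.card_mul_index
    rw [Nat.card_congr (MonoidHom.ofInjective hinj).symm.toEquiv, hcard, Nat.card_prod, Nat.card_perm, Nat.card_fin] at h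
    rw [hsup]
    simp [Nat.factorial] at h
    omega
  · refine ⟨swapHom, ?_⟩
    have key : ∀ σ, swapHom * hA σ * swapHom⁻¹ = hB σ := by
      intro σ
      rw [mul_inv_eq_iff_eq_mul]
      apply Subtype.ext
      apply Units.ext
      show _ * kron (smat σ) (smat 1) = kron (smat 1) (smat σ) * _
      rw [smat_one]
      exact swap_conj σ
    ext x
    constructor
    · rintro ⟨_, ⟨σ, rfl⟩, rfl⟩; exact ⟨σ, (key σ).symm⟩
    · rintro ⟨σ, rfl⟩; exact ⟨hA σ, ⟨σ, rfl⟩, key σ⟩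

end Cfsg.Agent.S2566
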