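import Cfsg.Statements.S2567
-- import your own Cfsg.Agent.* helpers here

set_option autoImplicit false
open Cfsg

namespace Cfsg.Agent.S2567

/-- Lifting elements of prime order from PGL to GL: let F be a finite field with q elements, r a prime not dividing q − 1, and x an element of order r in GL_n(F) modulo its centre (the scalar matrices). Then x has exactly one preimage in GL_n(F) of order r. -/
theorem result {F : Type*} [Field F] [Fintype F] {q n r : ℕ} (hF : Fintype.card F = q) (hr : r.Prime) (hdiv : ¬ r ∣ q - 1) (x : GL (Fin n) F ⧸ Subgroup.center (GL (Fin n) F)) (hx : orderOf x = r) : ∃! g : GL (Fin n) F, (QuotientGroup.mk g : GL (Fin n) F ⧸ Subgroup.center (GL (Fin n) F)) = x ∧ orderOf g = r := by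
  classical
  have hq1 : 1 < q := hF ▸ Fintype.one_lt_card
  have hcop : (Nat.card ↥(Subgroup.center (GL (Fin n) F))).Coprime r := by
    refine Nat.Coprime.coprime_dvd_left ?_ ((Nat.Prime.coprime_iff_not_dvd hr).mpr hdiv).symm
    rw [Matrix.GeneralLinearGroup.center_eq_range_scalar, ← hF, ← Nat.card_eq_fintype_card, ← Nat.card_units]
    exact Subgroup.card_range_dvd _
  obtain ⟨g₀, rfl⟩ := QuotientGroup.mk_surjective x
  have hg₀ : g₀ ^ r ∈ Subgroup.center (GL (Fin n) F) := by
    rw [← QuotientGroup.eq_one_iff, QuotientGroup.mk_pow, ← hx, pow_orderOf_eq_one]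
  obtain ⟨d, hd⟩ := (powCoprime hcop).surjective ⟨g₀ ^ r, hg₀⟩
  have hd' : (d : GL (Fin n) F) ^ r = g₀ ^ r := congrArg Subtype.val hd
  have hcomm : ∀ z : ↥(Subgroup.center (GL (Fin n) F)), Commute g₀ (z : GL (Fin n) F) :=
    fun z => Subgroup.mem_center_iff.mp z.2 g₀
  have hmk : ∀ z : ↥(Subgroup.center (GL (Fin n) F)),
      (QuotientGroup.mk (g₀ * z) : GL (Fin n) F ⧸ Subgroup.center (GL (Fin n) F)) = QuotientGroup.mk g₀ := by
    intro z
    exact QuotientGroup.mk_mul_of_mem g₀ z.2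
  refine ⟨g₀ * ((d⁻¹ : ↥(Subgroup.center (GL (Fin n) F))) : GL (Fin n) F), ⟨hmk _, ?_⟩, ?_⟩
  · have : Fact r.Prime := ⟨hr⟩
    refine orderOf_eq_prime ?_ fun h => ?_
    · rw [(hcomm _).mul_pow, Subgroup.coe_inv, inv_pow, hd', mul_inv_cancel]
    · have := hmk d⁻¹
      rw [h, QuotientGroup.mk_one] at this
      rw [← this, orderOf_one] at hx
      exact hr.one_lt.ne hx
  · rintro g ⟨hg1, hg2⟩
    have hz : g₀⁻¹ * g ∈ Subgroup.center (GL (Fin n) F) := QuotientGroup.eq.mp hg1.symm
    have hg : g = g₀ * (⟨_, hz⟩ : ↥(Subgroup.center (GL (Fin n) F))) := by simp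
    have : (⟨_, hz⟩ : ↥(Subgroup.center (GL (Fin n) F))) = d⁻¹ := by
      apply (powCoprime hcop).injective
      simp only [powCoprime_apply]
      apply Subtype.ext
      have h1 : g ^ r = 1 := hg2 ▸ pow_orderOf_eq_one g
      rw [hg, (hcomm _).mul_pow] at h1
      rw [Subgroup.coe_pow, eq_inv_of_mul_eq_one_right h1, Subgroup.coe_pow, Subgroup.coe_inv, inv_pow, hd']
    rw [hg, this]

end Cfsg.Agent.S2567
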