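import Cfsg.Statements.S2568
import Cfsg.Agent.Lib.SemisimpleClasses.Count

set_option autoImplicit false
open Cfsg

namespace Cfsg.Agent.S2568

open Polynomial UniqueFactorizationMonoid CfsgLib.SemisimpleClasses

variable {F : Type*} [Field F]

/-- An element of order prime to the characteristic satisfies `g ^ r = 1` iff every irreducible factor of its
characteristic polynomial divides `X ^ r - 1`. -/
private theorem pow_eq_one_iff {n r : ℕ} {g : GL (Fin n) F}
    (hs : Module.End.IsSemisimple (Matrix.toLinAlgEquiv' (g : Matrix (Fin n) (Fin n) F))) :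
    g ^ r = 1 ↔ ∀ π : F[X], Irreducible π → π ∣ (g : Matrix (Fin n) (Fin n) F).charpoly → π ∣ (X : F[X]) ^ r - 1 := by
  classical
  set L := Matrix.toLinAlgEquiv' (R := F) (n := Fin n) with hL
  set f := L (g : Matrix (Fin n) (Fin n) F) with hf
  have hchar : f.charpoly = (g : Matrix (Fin n) (Fin n) F).charpoly := by
    rw [← LinearMap.charpoly_toMatrix f (Pi.basisFun F (Fin n))]
    congr 1
    exact (LinearMap.toMatrix_eq_toMatrix' (R := F) (n := Fin n)) ▸ LinearMap.toMatrix'_toLin' _
  have hpow : g ^ r = 1 ↔ aeval f ((X : F[X]) ^ r - 1) = 0 := by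
    rw [map_sub, map_pow, aeval_X, map_one, sub_eq_zero, hf, ← map_pow, ← map_one L, L.injective.eq_iff,
      ← Units.val_pow_eq_pow_val, Units.val_eq_one]
  rw [hpow]
  constructor
  · intro h π hπ hdvd
    rw [← hchar] at hdvd
    obtain ⟨v, hv, hv0⟩ := exists_killed f hπ hdvd
    exact (orbitMap_eq_zero_iff hv hπ hv0 _).mp (by rw [orbitMap_apply, h, LinearMap.zero_apply])
  · intro h
    have hsq : Squarefree (minpoly F f) := hs.minpoly_squarefree
    have hdvd : minpoly F f ∣ (X : F[X]) ^ r - 1 := by
      have hc0 : f.charpoly ≠ 0 := (LinearMap.charpoly_monic f).ne_zero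
      have h1 : f.charpoly ∣ ((X : F[X]) ^ r - 1) ^ Multiset.card (normalizedFactors f.charpoly) := by
        rw [← (prod_normalizedFactors hc0).dvd_iff_dvd_left]
        refine (Multiset.prod_dvd_prod_of_le (le_of_eq (Multiset.map_id' _).symm)).trans ?_
        have : ∀ M : Multiset F[X], (∀ π ∈ M, π ∣ (X : F[X]) ^ r - 1) → M.prod ∣ ((X : F[X]) ^ r - 1) ^ Multiset.card M := by
          intro M
          induction M using Multiset.induction_on with
          | empty => simp
          | cons a M ih =>
            intro hM
            rw [Multiset.prod_cons, Multiset.card_cons, pow_succ']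
            exact mul_dvd_mul (hM a (Multiset.mem_cons_self a M)) (ih fun π hπ => hM π (Multiset.mem_cons_of_mem hπ))
        simpa using this _ fun π hπ => h π (irreducible_of_normalized_factor π hπ)
          (hchar ▸ dvd_of_mem_normalizedFactors hπ)
      exact hsq.isRadical _ _ ((LinearMap.minpoly_dvd_charpoly f).trans h1)
    obtain ⟨c, hc⟩ := hdvd
    rw [hc, map_mul, minpoly.aeval, zero_mul]


/-- Number of conjugacy classes of elements of a given prime order r, coprime to the characteristic, in GL_n(q): if i is the multiplicative order of q modulo r and t = (r − 1)/i, the classes correspond to the non-zero t-tuples of natural numbers (a_1, …, a_t) with i(a_1 + ⋯ + a_t) ≤ n (a_j is the multiplicity of the j-th Frobenius orbit of nontrivial r-th roots of unity among the eigenvalues), so there are exactly C(⌊n/i⌋ + t, t) − 1 of them. -/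
theorem result {F : Type*} [Field F] [Fintype F] {p q : ℕ} [Fact p.Prime] [CharP F p] (hF : Fintype.card F = q) (n r i t : ℕ) (hr : r.Prime) (hrp : r ≠ p) (hi : i = orderOf (q : ZMod r)) (ht : t * i = r - 1) : Nat.card {C : ConjClasses (GL (Fin n) F) // ∃ g : GL (Fin n) F, ConjClasses.mk g = C ∧ orderOf g = r} = Nat.choose (n / i + t) t - 1 := by
  classical
  have hp : p.Prime := Fact.out
  haveI : Fact r.Prime := ⟨hr⟩
  have hqr : (q : ZMod r) ≠ 0 := by
    obtain ⟨⟨f, hf0⟩, -, hf⟩ := FiniteField.card F p
    rw [← hF, hf]
    simp only [PNat.mk_coe, Nat.cast_pow]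
    refine pow_ne_zero _ ?_
    rw [Ne, CharP.cast_eq_zero_iff (ZMod r) r, Nat.prime_dvd_prime_iff_eq hr hp]
    exact hrp
  have hrF : (r : F) ≠ 0 := fun h => hrp ((Nat.prime_dvd_prime_iff_eq hp hr).mp ((CharP.cast_eq_zero_iff F p r).mp h)).symm
  have hi0 : 0 < i := by
    rcases Nat.eq_zero_or_pos i with h | h
    · rw [h, mul_zero] at ht
      have := hr.two_le
      omega
    · exact h
  -- the degree of the irreducible factors of the cyclotomic polynomial
  have hdeg : ∀ f : F[X], Irreducible f → f ∣ cyclotomic r F → f.natDegree = i := by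
    intro f hf hfd
    obtain ⟨⟨e, he0⟩, -, he⟩ := FiniteField.card F p
    have hcop : p.Coprime r := (Nat.coprime_primes hp hr).mpr hrp.symm
    rw [Polynomial.natDegree_of_dvd_cyclotomic_of_irreducible (K := F) (p := p) (f := e) (n := r)
      (by rw [he]; rfl) hcop hfd hf, hi, ← orderOf_units, ZMod.coe_unitOfCoprime, ← hF, he]
    rfl
  have hcyc0 : cyclotomic r F ≠ 0 := cyclotomic_ne_zero r F
  have hsplit : (X - 1 : F[X]) * cyclotomic r F = X ^ r - 1 := by
    rw [mul_comm]; exact cyclotomic_prime_mul_X_sub_one F r
  have hX1 : Irreducible (X - C (1 : F)) := irreducible_X_sub_C 1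
  have hX1m : (X - C (1 : F)).Monic := monic_X_sub_C 1
  set S := (normalizedFactors (cyclotomic r F)).toFinset with hS
  have hmemS : ∀ f : F[X], f ∈ S ↔ f ∈ normalizedFactors (cyclotomic r F) := fun f => Multiset.mem_toFinset
  have hSirr : ∀ f ∈ S, Irreducible f := fun f hf => irreducible_of_normalized_factor f ((hmemS f).mp hf)
  have hSm : ∀ f ∈ S, f.Monic := fun f hf => by
    have h := normalize_normalized_factor f ((hmemS f).mp hf)
    rw [← h]
    exact monic_normalize (hSirr f hf).ne_zero
  have hSd : ∀ f ∈ S, f ∣ cyclotomic r F := fun f hf => dvd_of_mem_normalizedFactors ((hmemS f).mp hf)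
  have hSne : X - C (1 : F) ∉ S := fun h => by
    have h1 := dvd_iff_isRoot.mp (hSd _ h)
    rw [IsRoot.def, eval_one_cyclotomic_prime] at h1
    exact hrF h1
  have hScard : S.card = t := by
    have hsq : Squarefree (cyclotomic r F) := by
      haveI : NeZero (r : F) := ⟨hrF⟩
      exact Squarefree.squarefree_of_dvd (cyclotomic.dvd_X_pow_sub_one r F)
        (separable_X_pow_sub_C (1 : F) hrF one_ne_zero).squarefree
    have hnd := (squarefree_iff_nodup_normalizedFactors hcyc0).mp hsq
    have h1 : (normalizedFactors (cyclotomic r F)).prod.natDegree = r - 1 := by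
      rw [natDegree_eq_of_degree_eq (degree_eq_degree_of_associated (prod_normalizedFactors hcyc0)),
        natDegree_cyclotomic, Nat.totient_prime hr]
    rw [natDegree_multiset_prod _ (zero_notMem_normalizedFactors _), Multiset.map_congr rfl
      (fun f hf => hdeg f (irreducible_of_normalized_factor f hf) (dvd_of_mem_normalizedFactors hf)),
      Multiset.map_const', Multiset.sum_replicate, smul_eq_mul, ← ht] at h1
    rw [hS, Multiset.toFinset_card_of_nodup hnd]
    exact Nat.eq_of_mul_eq_mul_right hi0 h1
  set N := n / i with hN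
  have hNi : i * N ≤ n := Nat.mul_div_le n i
  -- the polynomials
  let somes : Sym (Option S) N → Multiset F[X] := fun s =>
    Multiset.map (Subtype.val : S → F[X]) (Multiset.filterMap (fun o : Option S => o) (s : Multiset (Option S)))
  let facs : Sym (Option S) N → Multiset F[X] := fun s =>
    Multiset.replicate (n - i * Multiset.card (somes s)) (X - C (1 : F)) + somes s
  have hsomes : ∀ s, ∀ f ∈ somes s, f ∈ S := fun s f hf => by
    obtain ⟨g, -, rfl⟩ := Multiset.mem_map.mp hf
    exact g.2
  have hcardle : ∀ s, Multiset.card (somes s) ≤ N := fun s => by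
    have h : ∀ M : Multiset (Option S), Multiset.card (M.filterMap (fun o : Option S => o)) ≤ Multiset.card M := by
      intro M
      induction M using Multiset.induction_on with
      | empty => simp
      | cons a M ih =>
        cases a with
        | none => rw [Multiset.filterMap_cons_none _ _ rfl, Multiset.card_cons]; omega
        | some a => simp only [Multiset.filterMap_cons, Multiset.card_cons]; simp; omega
    show Multiset.card (Multiset.map _ _) ≤ N
    rw [Multiset.card_map]
    exact (h _).trans s.2.le
  have hfirr : ∀ s, ∀ f ∈ facs s, Irreducible f ∧ f.Monic ∧ f ∣ (X : F[X]) ^ r - 1 := by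
    intro s f hf
    rcases Multiset.mem_add.mp hf with h | h
    · rw [Multiset.eq_of_mem_replicate h]
      exact ⟨hX1, hX1m, hsplit ▸ (show (X - C (1 : F)) ∣ (X - 1) * cyclotomic r F by rw [map_one]; exact dvd_mul_right _ _)⟩
    · have := hsomes s f h
      exact ⟨hSirr f this, hSm f this, hsplit ▸ (hSd f this).mul_left _⟩
  let χ : Sym (Option S) N → F[X] := fun s => (facs s).prod
  have hχm : ∀ s, (χ s).Monic := fun s => by simpa using monic_multiset_prod_of_monic (facs s) id fun f hf => (hfirr s f hf).2.1
  have hχn : ∀ s, (χ s).natDegree = n := by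
    intro s
    show (facs s).prod.natDegree = n
    rw [natDegree_multiset_prod_of_monic _ fun f hf => (hfirr s f hf).2.1, Multiset.map_add, Multiset.map_replicate,
      natDegree_X_sub_C, Multiset.sum_add, Multiset.sum_replicate, smul_eq_mul, mul_one,
      Multiset.map_congr rfl (fun f hf => hdeg f (hSirr f (hsomes s f hf)) (hSd f (hsomes s f hf))),
      Multiset.map_const', Multiset.sum_replicate, smul_eq_mul, mul_comm _ i]
    have := Nat.mul_le_mul_left i (hcardle s)
    omega
  have hnf : ∀ s, normalizedFactors (χ s) = facs s := fun s => by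
    rw [show χ s = (facs s).prod from rfl, normalizedFactors_prod_eq _ fun f hf => (hfirr s f hf).1]
    exact (Multiset.map_congr rfl fun f hf => (hfirr s f hf).2.1.normalize_eq_self).trans (Multiset.map_id' _)
  have hχinj : Function.Injective χ := by
    intro s s' h
    have h1 : facs s = facs s' := by rw [← hnf, ← hnf, h]
    have key : ∀ u, (facs u).filter (fun f => f ∈ S) = somes u := fun u => by
      rw [Multiset.filter_add, Multiset.filter_eq_self.mpr (hsomes u), Multiset.filter_eq_nil.mpr
        (fun f hf => by rw [Multiset.eq_of_mem_replicate hf]; exact hSne), zero_add]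
    have h2 : somes s = somes s' := by rw [← key, ← key, h1]
    have h3 : (s : Multiset (Option S)).filterMap (fun o : Option S => o) = (s' : Multiset (Option S)).filterMap (fun o : Option S => o) :=
      Multiset.map_injective Subtype.val_injective h2
    refine Sym.coe_injective (Multiset.ext.mpr fun o => ?_)
    have hsome : ∀ (M : Multiset (Option S)) (a : S), M.count (some a) = (M.filterMap (fun o : Option S => o)).count a := by
      intro M a
      induction M using Multiset.induction_on with
      | empty => simp
      | cons b M ih =>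
        cases b with
        | none => rw [Multiset.filterMap_cons_none _ _ rfl, Multiset.count_cons_of_ne (by simp), ih]
        | some b => simp [Multiset.filterMap_cons, Multiset.count_cons, ih]
    cases o with
    | some a => rw [hsome, hsome, h3]
    | none =>
      have hcount : ∀ M : Multiset (Option S), M.count none + Multiset.card (M.filterMap (fun o : Option S => o)) = Multiset.card M := by
        intro M
        induction M using Multiset.induction_on with
        | empty => simp
        | cons b M ih =>
          cases b with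
          | none => rw [Multiset.filterMap_cons_none _ _ rfl, Multiset.count_cons_self, Multiset.card_cons]; omega
          | some b => simp [Multiset.filterMap_cons, Multiset.count_cons] at *; omega
      have e1 := hcount s
      have e2 := hcount s'
      have e3 : Multiset.card (s : Multiset (Option S)) = N := s.2
      have e4 : Multiset.card (s' : Multiset (Option S)) = N := s'.2
      rw [h3, e3] at e1
      rw [e4] at e2
      omega
  -- surjectivity onto the admissible polynomials
  have hχsurj : ∀ c : F[X], c.Monic → c.natDegree = n →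
      (∀ π : F[X], Irreducible π → π ∣ c → π ∣ (X : F[X]) ^ r - 1) → ∃ s, χ s = c := by
    intro c hcm hcn hc
    set M := normalizedFactors c with hM
    have hMprod : M.prod = c := by
      rw [hM, prod_normalizedFactors_eq hcm.ne_zero, hcm.normalize_eq_self]
    have hMmem : ∀ f ∈ M, f = X - C (1 : F) ∨ f ∈ S := by
      intro f hf
      have hfi := irreducible_of_normalized_factor f hf
      have hfn := normalize_normalized_factor f hf
      have hd := hc f hfi (dvd_of_mem_normalizedFactors hf)
      rw [← hsplit] at hd
      rcases hfi.prime.dvd_or_dvd hd with h | h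
      · refine Or.inl ?_
        have h' : Associated f (X - C (1 : F)) := by
          rw [map_one]; exact hfi.associated_of_dvd (by simpa using hX1) h
        rw [← hfn, normalize_eq_normalize_iff_associated.mpr h', hX1m.normalize_eq_self]
      · refine Or.inr ((hmemS f).mpr ?_)
        obtain ⟨g, hg, hfg⟩ := exists_mem_normalizedFactors_of_dvd hcyc0 hfi h
        rwa [← hfn, normalize_eq_normalize_iff_associated.mpr hfg, normalize_normalized_factor g hg]
    let T : Multiset S := (M.filter (· ∈ S)).pmap (fun f hf => (⟨f, hf⟩ : S)) (fun f hf => (Multiset.mem_filter.mp hf).2)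
    have hT : Multiset.map (Subtype.val : S → F[X]) T = M.filter (· ∈ S) := by
      rw [Multiset.map_pmap]
      exact (Multiset.pmap_eq_map _ _ _ _).trans (Multiset.map_id' _)
    have hsplitM : M = Multiset.replicate (M.count (X - C (1 : F))) (X - C (1 : F)) + M.filter (· ∈ S) := by
      conv_lhs => rw [← Multiset.filter_add_not (fun f => f = X - C (1 : F)) M]
      rw [Multiset.filter_eq']
      congr 1
      refine Multiset.filter_congr fun f hf => ⟨fun h => (hMmem f hf).resolve_left h, fun h e => hSne (e ▸ h)⟩
    have hdegc : M.count (X - C (1 : F)) + i * Multiset.card T = n := by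
      have h := congrArg Polynomial.natDegree hMprod
      rw [hsplitM, natDegree_multiset_prod_of_monic, Multiset.map_add, Multiset.map_replicate, natDegree_X_sub_C,
        Multiset.sum_add, Multiset.sum_replicate, smul_eq_mul, mul_one,
        Multiset.map_congr rfl (fun f hf => hdeg f (hSirr f (Multiset.mem_filter.mp hf).2) (hSd f (Multiset.mem_filter.mp hf).2)),
        Multiset.map_const', Multiset.sum_replicate, smul_eq_mul, mul_comm _ i, ← hT, Multiset.card_map, hcn] at h
      · exact h
      · intro f hf
        rw [← hsplitM] at hf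
        rcases hMmem f hf with h' | h'
        · rw [h']; exact hX1m
        · exact hSm f h'
    have hTN : Multiset.card T ≤ N := by
      rw [hN, Nat.le_div_iff_mul_le hi0, mul_comm]
      omega
    refine ⟨⟨T.map some + Multiset.replicate (N - Multiset.card T) none, by simp; omega⟩, ?_⟩
    have hs : somes ⟨T.map some + Multiset.replicate (N - Multiset.card T) none, by simp; omega⟩ = M.filter (· ∈ S) := by
      show Multiset.map _ (Multiset.filterMap (fun o : Option S => o) (T.map some + Multiset.replicate (N - Multiset.card T) none)) = _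
      have h0 : ∀ k : ℕ, Multiset.filterMap (fun o : Option S => o) (Multiset.replicate k none) = 0 := by
        intro k; induction k with
        | zero => simp
        | succ k ih => simp [Multiset.replicate_succ, Multiset.filterMap_cons, ih]
      rw [Multiset.filterMap_add, h0, add_zero, Multiset.filterMap_map]
      rw [show ((fun o : Option S => o) ∘ some) = some from rfl, Multiset.filterMap_some]
      exact hT
    refine Eq.trans ?_ hMprod
    show (Multiset.replicate (n - i * Multiset.card (somes _)) _ + somes _).prod = _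
    rw [hs, show n - i * Multiset.card (M.filter (· ∈ S)) = M.count (X - C (1 : F)) by
      rw [← hT, Multiset.card_map]; omega, ← hsplitM]
  -- elements
  have hex : ∀ s, ∃ g : GL (Fin n) F, g ^ r = 1 ∧ (g : Matrix (Fin n) (Fin n) F).charpoly = χ s := by
    intro s
    have h0 : (χ s).coeff 0 ≠ 0 := by
      rw [coeff_zero_eq_eval_zero]
      intro h
      have hmem : ∃ f ∈ facs s, f.eval 0 = 0 := by
        have h' : (evalRingHom (0 : F)) (facs s).prod = 0 := h
        rw [map_multiset_prod, Multiset.prod_eq_zero_iff, Multiset.mem_map] at h'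
        obtain ⟨f, hf, hf0⟩ := h'
        exact ⟨f, hf, hf0⟩
      obtain ⟨f, hf, hf0⟩ := hmem
      obtain ⟨c, hc⟩ := (hfirr s f hf).2.2
      have := congrArg (eval (0 : F)) hc
      rw [eval_mul, hf0, zero_mul, eval_sub, eval_pow, eval_X, eval_one, zero_pow hr.ne_zero, zero_sub] at this
      exact one_ne_zero (neg_eq_zero.mp this)
    obtain ⟨g, hg, hgc⟩ := exists_GL_charpoly (p := p) (n := n) (hχm s) (hχn s) h0
    refine ⟨g, (pow_eq_one_iff (isSemisimple_of_coprime p g hg)).mpr fun π hπ hd => ?_, hgc⟩
    rw [hgc] at hd
    obtain ⟨f, hf, hπf⟩ := exists_mem_normalizedFactors_of_dvd (hχm s).ne_zero hπ hd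
    rw [hnf] at hf
    exact hπf.dvd.trans (hfirr s f hf).2.2
  choose el hel helc using hex
  have hcop : ∀ g : GL (Fin n) F, g ^ r = 1 → (orderOf g).Coprime p := fun g hg =>
    coprime_of_pow_eq_one ((Nat.coprime_primes hr hp).mpr hrp) hg
  have hconj : ∀ g h : GL (Fin n) F, g ^ r = 1 → h ^ r = 1 →
      ((g : Matrix (Fin n) (Fin n) F).charpoly = (h : Matrix (Fin n) (Fin n) F).charpoly ↔ IsConj g h) := by
    intro g h hg hh
    refine ⟨fun hc => ?_, fun hc => ?_⟩
    · obtain ⟨e, he⟩ := exists_conj_GL p g h (hcop g hg) (hcop h hh) hc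
      exact isConj_iff.mpr ⟨e, he⟩
    · obtain ⟨e, he⟩ := isConj_iff.mp hc
      rw [← he, Units.val_mul, Units.val_mul, Matrix.coe_units_inv, Matrix.charpoly_units_conj]
  obtain ⟨s₀, hs₀⟩ : ∃ s, χ s = ((1 : GL (Fin n) F) : Matrix (Fin n) (Fin n) F).charpoly := by
    refine hχsurj _ (Matrix.charpoly_monic _) (by rw [Matrix.charpoly_natDegree_eq_dim, Fintype.card_fin]) fun π hπ hd => ?_
    exact (pow_eq_one_iff (isSemisimple_of_coprime p 1 (hcop 1 (one_pow r)))).mp (one_pow r) π hπ hd
  have hord : ∀ g : GL (Fin n) F, orderOf g = r ↔ g ^ r = 1 ∧ g ≠ 1 := fun g => orderOf_eq_prime_iff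
  have hcount : Nat.card {s : Sym (Option S) N // s ≠ s₀} = Nat.choose (N + t) t - 1 := by
    rw [Nat.card_eq_fintype_card, Fintype.card_subtype_compl, Fintype.card_subtype_eq, Sym.card_sym_eq_choose,
      Fintype.card_option, Fintype.card_coe, hScard, show t + 1 + N - 1 = N + t by rw [Nat.add_right_comm, Nat.add_sub_cancel, Nat.add_comm], Nat.choose_symm_add]
  rw [← hcount]
  refine (Nat.card_eq_of_bijective (fun s => (⟨ConjClasses.mk (el s.1), el s.1, rfl, (hord _).mpr ⟨hel _, fun h1 => ?_⟩⟩ :
    {C : ConjClasses (GL (Fin n) F) // ∃ g : GL (Fin n) F, ConjClasses.mk g = C ∧ orderOf g = r})) ⟨?_, ?_⟩).symm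
  · exact s.2 (hχinj (by rw [← helc, h1, hs₀]))
  · intro s s' h
    have h1 := ConjClasses.mk_eq_mk_iff_isConj.mp (congrArg Subtype.val h)
    exact Subtype.ext (hχinj (by rw [← helc, ← helc, (hconj _ _ (hel _) (hel _)).mpr h1]))
  · rintro ⟨C, g, rfl, hg⟩
    obtain ⟨hg1, hgne⟩ := (hord g).mp hg
    obtain ⟨s, hs⟩ := hχsurj _ (Matrix.charpoly_monic (g : Matrix (Fin n) (Fin n) F))
      (by rw [Matrix.charpoly_natDegree_eq_dim, Fintype.card_fin])
      ((pow_eq_one_iff (isSemisimple_of_coprime p g (hcop g hg1))).mp hg1)
    have hc : IsConj (el s) g := (hconj _ _ (hel s) hg1).mp ((helc s).trans hs)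
    refine ⟨⟨s, fun e => ?_⟩, Subtype.ext (ConjClasses.mk_eq_mk_iff_isConj.mpr hc)⟩
    obtain ⟨x, hx⟩ := isConj_iff.mp ((hconj 1 g (one_pow r) hg1).mp (by rw [← hs₀, ← e, hs]))
    exact hgne (by rw [← hx, mul_one, mul_inv_cancel])

end Cfsg.Agent.S2568
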