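import Cfsg.Statements.S2569
import Cfsg.Agent.Lib.Generators.SemisimpleCentralizer

set_option autoImplicit false
open Cfsg

namespace Cfsg.Agent.S2569

/-- In GL_n over a finite field of characteristic p, the conjugacy class of a semisimple element (an element of order prime to p) under the special linear group is its whole GL-conjugacy class: for every such x and every invertible g there is h of determinant one with h x h⁻¹ = g x g⁻¹. -/
theorem result {F : Type*} [Field F] [Fintype F] {p : ℕ} [Fact p.Prime] [CharP F p] {n : ℕ} (x g : GL (Fin n) F) (hx : (orderOf x).Coprime p) : ∃ h : GL (Fin n) F, (h : Matrix (Fin n) (Fin n) F).det = 1 ∧ h * x * h⁻¹ = g * x * g⁻¹ := by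
  classical
  rcases Nat.eq_zero_or_pos n with rfl | hn
  · exact ⟨g, Matrix.det_isEmpty, rfl⟩
  have : Nonempty (Fin n) := ⟨⟨0, hn⟩⟩
  set f : Module.End F (Fin n → F) := Matrix.toLin' (x : Matrix (Fin n) (Fin n) F) with hf
  have hN : ((orderOf x : ℕ) : F) ≠ 0 := by
    rw [Ne, CharP.cast_eq_zero_iff F p]
    exact (Nat.Prime.coprime_iff_not_dvd Fact.out).mp hx.symm
  have hss : f.IsSemisimple := by
    refine Module.End.isSemisimple_of_squarefree_aeval_eq_zero
      (p := Polynomial.X ^ orderOf x - 1) (Polynomial.X_pow_sub_one_separable_iff.mpr hN).squarefree ?_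
    rw [map_sub, map_pow, Polynomial.aeval_X, map_one, hf, ← Matrix.toLin'_pow, ← Units.val_pow_eq_pow_val,
      pow_orderOf_eq_one, Units.val_one, Matrix.toLin'_one, sub_eq_zero]
    rfl
  have hg0 : (g : Matrix (Fin n) (Fin n) F).det ≠ 0 :=
    IsUnit.ne_zero ((Matrix.isUnit_iff_isUnit_det _).mp g.isUnit)
  obtain ⟨M, hM, hMd⟩ := CfsgLib.Generators.exists_commute_det_of_isSemisimple f hss
    (g : Matrix (Fin n) (Fin n) F).det⁻¹
  let M' : GL (Fin n) F := Matrix.GeneralLinearGroup.mkOfDetNeZero (LinearMap.toMatrix' M)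
    (by rw [LinearMap.det_toMatrix', hMd]; exact inv_ne_zero hg0)
  have hcomm : M' * x = x * M' := by
    apply Units.ext
    show LinearMap.toMatrix' M * (x : Matrix (Fin n) (Fin n) F) = (x : Matrix (Fin n) (Fin n) F) * LinearMap.toMatrix' M
    apply Matrix.toLin'.injective
    rw [Matrix.toLin'_mul, Matrix.toLin'_mul, Matrix.toLin'_toMatrix']
    exact hM.eq
  refine ⟨g * M', ?_, ?_⟩
  · rw [Units.val_mul, Matrix.det_mul]
    show _ * (LinearMap.toMatrix' M).det = 1
    rw [LinearMap.det_toMatrix', hMd, mul_inv_cancel₀ hg0]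
  · calc g * M' * x * (g * M')⁻¹ = g * (M' * x) * M'⁻¹ * g⁻¹ := by group
      _ = _ := by rw [hcomm]; group

end Cfsg.Agent.S2569
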