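import Cfsg.Statements.S2570
import Cfsg.Agent.Lib.Classes.GUClassCount

set_option autoImplicit false
open Cfsg

namespace Cfsg.Agent.S2570

open CfsgLib CfsgLib.Classes
open scoped Classical

/-- Number of conjugacy classes of elements of order p in GL_n over a finite field of characteristic p: they correspond to the Jordan types, that is, to the partitions of n with all parts at most p other than the partition into ones, so there are (number of partitions of n with parts ≤ p) − 1 of them. -/
theorem result {F : Type*} [Field F] [Fintype F] {p : ℕ} [Fact p.Prime] [CharP F p] (n : ℕ) : Nat.card {C : ConjClasses (GL (Fin n) F) // ∃ g : GL (Fin n) F, ConjClasses.mk g = C ∧ orderOf g = p} = (Finset.univ.filter (fun μ : Nat.Partition n => ∀ a ∈ μ.parts, a ≤ p)).card - 1 := by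
  have hp : p.Prime := Fact.out
  let G := GL (Fin n) F
  let L := Matrix.toLinAlgEquiv' (R := F) (n := Fin n)
  let nil : G → Matrix (Fin n) (Fin n) F := fun g => (g : Matrix (Fin n) (Fin n) F) - 1
  have hpow : ∀ X : Matrix (Fin n) (Fin n) F, (1 + X) ^ p = 1 + X ^ p := fun X => by
    obtain ⟨r, hr⟩ := (Commute.one_left X).exists_add_pow_prime_eq hp
    have h0 : (p : Matrix (Fin n) (Fin n) F) = 0 := by
      rw [← map_natCast (Matrix.scalar (Fin n) : F →+* Matrix (Fin n) (Fin n) F) p, CharP.cast_eq_zero, map_zero]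
    rw [hr, one_pow, h0, zero_mul, zero_mul, zero_mul, add_zero]
  have hord : ∀ g : G, orderOf g = p ↔ nil g ^ p = 0 ∧ nil g ≠ 0 := fun g => by
    rw [orderOf_eq_prime_iff, Units.ext_iff, Units.val_pow_eq_pow_val, Units.val_one]
    refine and_congr ?_ ?_
    · have h := hpow (nil g)
      rw [show (1 : Matrix (Fin n) (Fin n) F) + nil g = (g : Matrix (Fin n) (Fin n) F) from
        add_sub_cancel _ _] at h
      rw [h, add_eq_left]
    · rw [ne_eq, ne_eq, Units.ext_iff, Units.val_one, ← sub_eq_zero]
  have hsum : ∀ N : Module.End F (Fin n → F), N ^ p = 0 → (Omega.jordanParts N ⊤ p).sum = n := fun N hN => by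
    rw [Omega.sum_jordanParts le_top hN, finrank_top, Module.finrank_fin_fun]
  let typ : (N : Module.End F (Fin n → F)) → N ^ p = 0 → Nat.Partition n := fun N hN =>
    ⟨Omega.jordanParts N ⊤ p, fun hi => (Omega.le_of_mem_jordanParts hi).1, hsum N hN⟩
  let ν : Nat.Partition n := ⟨Multiset.replicate n 1, fun hi => by rw [Multiset.eq_of_mem_replicate hi]; exact one_pos,
    by rw [Multiset.sum_replicate]; simp⟩
  set S := Finset.univ.filter (fun μ : Nat.Partition n => ∀ a ∈ μ.parts, a ≤ p) with hS
  have hνS : ν ∈ S := Finset.mem_filter.mpr ⟨Finset.mem_univ _, fun a ha => by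
    rw [Multiset.eq_of_mem_replicate ha]; exact hp.one_le⟩
  have h1 : ∀ N (hN : N ^ p = 0), typ N hN = ν ↔ N = 0 := by
    intro N hN
    have hz : ∀ i, Omega.rankSeq (0 : Module.End F (Fin n → F)) ⊤ (i + 1) = 0 := fun i => by
      rw [map_pow_top, zero_pow (Nat.succ_ne_zero i), LinearMap.range_zero, finrank_bot]
    have hzero : Omega.jordanParts (0 : Module.End F (Fin n → F)) ⊤ p = Multiset.replicate n 1 := by
      refine Multiset.ext.mpr ?_
      rintro (_ | k)
      · rw [Omega.count_jordanParts_zero, Multiset.count_replicate, if_neg one_ne_zero]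
      · rw [Omega.count_jordanParts, Multiset.count_replicate]
        rcases k with _ | k
        · rw [if_pos hp.pos, if_pos rfl, hz, hz, Omega.rankSeq_zero, finrank_top, Module.finrank_fin_fun]
          omega
        · simp only [hz]
          rw [if_neg (show ¬ 1 = k + 1 + 1 by omega)]
          split_ifs <;> simp
    constructor
    · intro h
      have h2 : Omega.jordanParts N ⊤ p = Omega.jordanParts (0 : Module.End F (Fin n → F)) ⊤ p :=
        (congrArg Nat.Partition.parts h).trans hzero.symm
      have h3 := rankSeq_eq_of_parts hN (zero_pow hp.ne_zero) h2 1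
      rw [hz 0, map_pow_top, pow_one, Submodule.finrank_eq_zero] at h3
      exact LinearMap.range_eq_bot.mp h3
    · rintro rfl
      exact Nat.Partition.ext hzero
  have hrank : ∀ (X : Matrix (Fin n) (Fin n) F) i, Omega.rankSeq (L X) ⊤ i = (X ^ i).rank := fun X i => by
    rw [map_pow_top, ← map_pow]; rfl
  have hgood : ∀ g : G, orderOf g = p → L (nil g) ^ p = 0 := fun g hg => by
    rw [← map_pow, ((hord g).mp hg).1, map_zero]
  rw [show S.card - 1 = (S.erase ν).card from (Finset.card_erase_of_mem hνS).symm, ← Fintype.card_coe,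
    ← Nat.card_eq_fintype_card]
  refine Nat.card_eq_of_bijective (fun C => ⟨typ _ (hgood _ C.2.choose_spec.2), ?_⟩) ⟨?_, ?_⟩
  · refine Finset.mem_erase.mpr ⟨fun h => ((hord _).mp C.2.choose_spec.2).2 ?_, Finset.mem_filter.mpr
      ⟨Finset.mem_univ _, fun a ha => (Omega.le_of_mem_jordanParts ha).2⟩⟩
    exact L.injective (((h1 _ (hgood _ C.2.choose_spec.2)).mp h).trans (map_zero L).symm)
  · intro C D h
    set g := C.2.choose with hg
    set g' := D.2.choose with hg'
    have hgo := C.2.choose_spec
    have hgo' := D.2.choose_spec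
    have hparts : Omega.jordanParts (L (nil g)) ⊤ p = Omega.jordanParts (L (nil g')) ⊤ p :=
      congrArg (fun z : {x // x ∈ S.erase ν} => z.1.parts) h
    have hr : ∀ i, (nil g ^ i).rank = (nil g' ^ i).rank := fun i => by
      rw [← hrank, ← hrank]
      exact rankSeq_eq_of_parts (hgood g hgo.2) (hgood g' hgo'.2) hparts i
    obtain ⟨x, hx⟩ := isConj_of_rank_pow_eq ⟨p, ((hord g).mp hgo.2).1⟩ ⟨p, ((hord g').mp hgo'.2).1⟩ hr
    apply Subtype.ext
    rw [← hgo.1, ← hgo'.1, ConjClasses.mk_eq_mk_iff_isConj]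
    refine isConj_iff.mpr ⟨x, ?_⟩
    rw [mul_inv_eq_iff_eq_mul]
    refine Units.ext ?_
    simp only [nil, mul_sub, sub_mul, mul_one, one_mul, sub_left_inj] at hx
    exact hx
  · rintro ⟨μ, hμ⟩
    obtain ⟨hμν, hμS⟩ := Finset.mem_erase.mp hμ
    obtain ⟨N, hN, hNμ⟩ := exists_parts_eq (F := F) (V := Fin n → F) μ.parts (Finset.mem_filter.mp hμS).2
      (fun b hb => μ.parts_pos hb) (by rw [μ.parts_sum, Module.finrank_fin_fun])
    set X := L.symm N with hX
    have hXp : X ^ p = 0 := by rw [hX, ← map_pow, hN, map_zero]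
    obtain ⟨g, hg⟩ : ∃ g : G, (g : Matrix (Fin n) (Fin n) F) = 1 + X :=
      ⟨(IsNilpotent.isUnit_one_add (r := X) ⟨p, hXp⟩).unit, IsUnit.unit_spec _⟩
    let x : GL (Fin n) F := 1
    have hx : (x : Matrix (Fin n) (Fin n) F) * (1 + X) = (g : Matrix (Fin n) (Fin n) F) * (x : Matrix (Fin n) (Fin n) F) := by
      rw [hg]; simp [x]
    have hxn : (x : Matrix (Fin n) (Fin n) F) * X = nil g * (x : Matrix (Fin n) (Fin n) F) := by
      rw [mul_add, mul_one] at hx
      simp only [nil, sub_mul, one_mul, ← hx, add_sub_cancel_left]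
    have hpw : ∀ i, (x : Matrix (Fin n) (Fin n) F) * X ^ i = nil g ^ i * x := fun i =>
      (show SemiconjBy (x : Matrix (Fin n) (Fin n) F) X (nil g) from hxn).pow_right i
    have hdet : IsUnit (x : Matrix (Fin n) (Fin n) F).det := (Matrix.isUnit_iff_isUnit_det _).mp x.isUnit
    have hr : ∀ i, (X ^ i).rank = (nil g ^ i).rank := fun i => by
      rw [← Matrix.rank_mul_eq_right_of_isUnit_det _ (X ^ i) hdet, hpw,
        Matrix.rank_mul_eq_left_of_isUnit_det _ (nil g ^ i) hdet]
    have hnp : nil g ^ p = 0 := by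
      have h := hpw p
      rw [hXp, mul_zero] at h
      exact (Units.mul_left_eq_zero x).mp h.symm
    have hgo : orderOf g = p := (hord g).mpr ⟨hnp, fun h0 => hμν (Nat.Partition.ext (by
      rw [← hNμ]
      have hX0 : X = 0 := by
        rw [h0, zero_mul] at hxn
        exact (Units.mul_right_eq_zero x).mp hxn
      have hN0 : N = 0 := by rw [← L.apply_symm_apply N, ← hX, hX0, map_zero]
      exact congrArg Nat.Partition.parts ((h1 N hN).mpr hN0)))⟩
    let C : {C : ConjClasses (GL (Fin n) F) // ∃ g : GL (Fin n) F, ConjClasses.mk g = C ∧ orderOf g = p} :=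
      ⟨ConjClasses.mk g, g, rfl, hgo⟩
    refine ⟨C, Subtype.ext (Nat.Partition.ext ?_)⟩
    show Omega.jordanParts (L (nil C.2.choose)) ⊤ p = μ.parts
    rw [← hNμ]
    have hc := C.2.choose_spec
    obtain ⟨w, hw⟩ := isConj_iff.mp (ConjClasses.mk_eq_mk_iff_isConj.mp hc.1)
    have hwn : SemiconjBy (w : Matrix (Fin n) (Fin n) F) (nil C.2.choose) (nil g) := by
      have h := congrArg Units.val (mul_inv_eq_iff_eq_mul.mp hw)
      show (w : Matrix (Fin n) (Fin n) F) * nil _ = nil g * w
      simp only [nil, mul_sub, sub_mul, mul_one, one_mul, sub_left_inj]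
      exact h
    have hwd : IsUnit (w : Matrix (Fin n) (Fin n) F).det := (Matrix.isUnit_iff_isUnit_det _).mp w.isUnit
    have hrr : ∀ i, Omega.rankSeq (L (nil C.2.choose)) ⊤ i = Omega.rankSeq N ⊤ i := fun i => by
      rw [← L.apply_symm_apply N, hrank, hrank, ← hX, hr,
        ← Matrix.rank_mul_eq_right_of_isUnit_det _ (nil C.2.choose ^ i) hwd, (hwn.pow_right i).eq,
        Matrix.rank_mul_eq_left_of_isUnit_det _ (nil g ^ i) hwd]
    exact Multiset.bind_congr fun i _ => by rw [hrr, hrr, hrr]

end Cfsg.Agent.S2570
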