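import Cfsg.Statements.S2571
import Cfsg.Agent.Lib.Generators.RegularCentralizer

set_option autoImplicit false
open Cfsg

namespace Cfsg.Agent.S2571

/-- Centraliser of a regular unipotent element in GL_n(q): if u is an invertible n × n matrix over the field with q elements, n ≥ 1, with (u − 1)^n = 0 and rank(u − 1) = n − 1 (a single unipotent Jordan block), then its centraliser in GL_n(q) has order (q − 1) q^(n−1). -/
theorem result {F : Type*} [Field F] [Fintype F] {q n : ℕ} (hF : Fintype.card F = q) (hn : 1 ≤ n) (u : GL (Fin n) F) (hnil : ((u : Matrix (Fin n) (Fin n) F) - 1) ^ n = 0) (hreg : ((u : Matrix (Fin n) (Fin n) F) - 1).rank = n - 1) : Nat.card ↥(Subgroup.centralizer ({u} : Set (GL (Fin n) F))) = (q - 1) * q ^ (n - 1) := by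
  classical
  obtain ⟨N, hN⟩ : ∃ N, N = (u : Matrix (Fin n) (Fin n) F) - 1 := ⟨_, rfl⟩
  rw [← hN] at hnil hreg
  have hmem : ∀ g : GL (Fin n) F, g ∈ Subgroup.centralizer ({u} : Set (GL (Fin n) F)) ↔
      Commute (g : Matrix (Fin n) (Fin n) F) N := by
    intro g
    rw [Subgroup.mem_centralizer_singleton_iff, Units.ext_iff, Units.val_mul, Units.val_mul, hN]
    constructor
    · intro h; exact Commute.sub_right h (Commute.one_right _)
    · intro h
      have h2 := h.add_right (Commute.one_right _)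
      rw [sub_add_cancel] at h2
      exact h2
  let e : {c : Fin n → F // c ⟨0, hn⟩ ≠ 0} → ↥(Subgroup.centralizer ({u} : Set (GL (Fin n) F))) := fun c =>
    ⟨((CfsgLib.Generators.isUnit_polyIn_iff hnil hn c.1).mpr c.2).unit, (hmem _).mpr (by
      rw [IsUnit.unit_spec]; exact CfsgLib.Generators.commute_polyIn N c.1)⟩
  have he : Function.Bijective e := by
    refine ⟨fun c d h => Subtype.ext (CfsgLib.Generators.polyIn_injective hnil hreg ?_), fun g => ?_⟩
    · have := congrArg (fun x : ↥(Subgroup.centralizer ({u} : Set (GL (Fin n) F))) => ((x : GL (Fin n) F) : Matrix (Fin n) (Fin n) F)) h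
      simpa [e] using this
    · obtain ⟨c, hc⟩ := CfsgLib.Generators.exists_polyIn_eq hnil hreg ((hmem _).mp g.2)
      refine ⟨⟨c, (CfsgLib.Generators.isUnit_polyIn_iff hnil hn c).mp (hc ▸ g.1.isUnit)⟩, ?_⟩
      apply Subtype.ext
      apply Units.ext
      exact hc
  rw [← Nat.card_congr (Equiv.ofBijective e he)]
  obtain ⟨k, rfl⟩ : ∃ k, n = k + 1 := ⟨n - 1, (Nat.sub_add_cancel hn).symm⟩
  have e2 : {c : Fin (k + 1) → F // c ⟨0, hn⟩ ≠ 0} ≃ {a : F // a ≠ 0} × (Fin k → F) :=
    { toFun := fun c => (⟨c.1 0, c.2⟩, fun i => c.1 i.succ)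
      invFun := fun p => ⟨Fin.cons p.1.1 p.2, by
        show (Fin.cons p.1.1 p.2 : Fin (k + 1) → F) 0 ≠ 0
        rw [Fin.cons_zero]; exact p.1.2⟩
      left_inv := fun c => Subtype.ext (Fin.cons_self_tail c.1)
      right_inv := fun p => by simp }
  rw [Nat.card_congr e2, Nat.card_prod, Nat.card_eq_fintype_card, Fintype.card_subtype_compl,
    Fintype.card_subtype_eq, Nat.card_fun, Nat.card_eq_fintype_card, Nat.card_fin, hF, Nat.add_sub_cancel]

end Cfsg.Agent.S2571
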