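import Cfsg.Statements.S2572
import Cfsg.Agent.Lib.Generators.TransvectionPairs

set_option autoImplicit false
open Cfsg

namespace Cfsg.Agent.S2572

/-- Centraliser of a transvection in GL_n(q), n ≥ 2: if t − 1 has rank one and square zero, the centraliser of t in GL_n(q) has order q^(2n−3) (q − 1) |GL_(n−2)(q)| (a group of order q^(2n−3) extended by GL_1(q) × GL_(n−2)(q)). -/
theorem result {F : Type*} [Field F] [Fintype F] {q n : ℕ} (hF : Fintype.card F = q) (hn : 2 ≤ n) (t : GL (Fin n) F) (ht : Cfsg.IsTransvection (t : Matrix (Fin n) (Fin n) F)) : Nat.card ↥(Subgroup.centralizer ({t} : Set (GL (Fin n) F))) = q ^ (2 * n - 3) * (q - 1) * ∏ i : Fin (n - 2), (q ^ (n - 2) - q ^ (i : ℕ)) := by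
  classical
  obtain ⟨v, φ, hv, hφ, h, hte⟩ := CfsgLib.Generators.exists_vecMulVec_of_isTransvection ht
  let S : Subgroup (GL (Fin n) F) :=
    { carrier := {g | (g : Matrix (Fin n) (Fin n) F).mulVec v = v ∧ Matrix.vecMul φ (g : Matrix (Fin n) (Fin n) F) = φ}
      one_mem' := by simp
      mul_mem' := fun {a c} ha hc => ⟨by rw [Units.val_mul, ← Matrix.mulVec_mulVec, hc.1, ha.1],
        by rw [Units.val_mul, ← Matrix.vecMul_vecMul, ha.2, hc.2]⟩
      inv_mem' := fun {a} ha => by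
        refine ⟨?_, ?_⟩
        · conv_lhs => rw [← ha.1]
          rw [Matrix.mulVec_mulVec, ← Units.val_mul, inv_mul_cancel, Units.val_one, Matrix.one_mulVec]
        · conv_lhs => rw [← ha.2]
          rw [Matrix.vecMul_vecMul, ← Units.val_mul, mul_inv_cancel, Units.val_one, Matrix.vecMul_one] }
  let P := {p : (Fin n → F) × (Fin n → F) // p.1 ≠ 0 ∧ p.2 ≠ 0 ∧ p.2 ⬝ᵥ p.1 = 0}
  have hv' : ∀ g : GL (Fin n) F, (g : Matrix (Fin n) (Fin n) F).mulVec v ≠ 0 := fun g h0 =>
    hv (Matrix.mulVec_injective_iff_isUnit.mpr g.isUnit (h0.trans (Matrix.mulVec_zero _).symm))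
  let f : GL (Fin n) F ⧸ S → P := fun x => Quotient.liftOn' x
    (fun g => (⟨((g : Matrix (Fin n) (Fin n) F).mulVec v, Matrix.vecMul φ ((g⁻¹ : GL (Fin n) F) : Matrix (Fin n) (Fin n) F)),
      hv' g, fun h0 => hφ (Matrix.vecMul_injective_iff_isUnit.mpr (g⁻¹).isUnit (h0.trans (Matrix.zero_vecMul _).symm)),
      by rw [← Matrix.dotProduct_mulVec, Matrix.mulVec_mulVec, ← Units.val_mul, inv_mul_cancel, Units.val_one,
        Matrix.one_mulVec, h]⟩ : P))
    (fun a c hac => by
      rw [QuotientGroup.leftRel_apply] at hac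
      obtain ⟨e1, e2⟩ := hac
      refine Subtype.ext (Prod.ext ?_ ?_)
      · show (a : Matrix (Fin n) (Fin n) F).mulVec v = (c : Matrix (Fin n) (Fin n) F).mulVec v
        conv_lhs => rw [← e1]
        rw [Matrix.mulVec_mulVec, ← Units.val_mul, mul_inv_cancel_left]
      · show Matrix.vecMul φ ((a⁻¹ : GL (Fin n) F) : Matrix (Fin n) (Fin n) F) = Matrix.vecMul φ ((c⁻¹ : GL (Fin n) F) : Matrix (Fin n) (Fin n) F)
        conv_rhs => rw [← e2]
        rw [Matrix.vecMul_vecMul, ← Units.val_mul, mul_inv_cancel_right])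
  have hf : Function.Bijective f := by
    refine ⟨fun x y hxy => ?_, ?_⟩
    · obtain ⟨a, rfl⟩ := QuotientGroup.mk_surjective x
      obtain ⟨c, rfl⟩ := QuotientGroup.mk_surjective y
      have e1 : (a : Matrix (Fin n) (Fin n) F).mulVec v = (c : Matrix (Fin n) (Fin n) F).mulVec v :=
        congrArg (fun p : P => p.1.1) hxy
      have e2 : Matrix.vecMul φ ((a⁻¹ : GL (Fin n) F) : Matrix (Fin n) (Fin n) F) =
          Matrix.vecMul φ ((c⁻¹ : GL (Fin n) F) : Matrix (Fin n) (Fin n) F) := congrArg (fun p : P => p.1.2) hxy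
      refine QuotientGroup.eq.mpr ⟨?_, ?_⟩
      · rw [Units.val_mul, ← Matrix.mulVec_mulVec, ← e1, Matrix.mulVec_mulVec, ← Units.val_mul,
          inv_mul_cancel, Units.val_one, Matrix.one_mulVec]
      · rw [Units.val_mul, ← Matrix.vecMul_vecMul, e2, Matrix.vecMul_vecMul, ← Units.val_mul, inv_mul_cancel,
          Units.val_one, Matrix.vecMul_one]
    · rintro ⟨⟨w, ψ⟩, hw, hψ, hwψ⟩
      obtain ⟨g, hg1, hg2⟩ := CfsgLib.Generators.exists_gl_pair hv hφ h hw hψ hwψ
      refine ⟨(g : GL (Fin n) F ⧸ S), Subtype.ext (Prod.ext hg1 ?_)⟩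
      show Matrix.vecMul φ _ = ψ
      rw [← hg2, Matrix.vecMul_vecMul, ← Units.val_mul, mul_inv_cancel, Units.val_one, Matrix.vecMul_one]
  have hCiff : ∀ g : GL (Fin n) F, g ∈ Subgroup.centralizer ({t} : Set (GL (Fin n) F)) ↔
      ∃ c : Fˣ, (g : Matrix (Fin n) (Fin n) F).mulVec v = (c : F) • v ∧ Matrix.vecMul φ (g : Matrix (Fin n) (Fin n) F) = (c : F) • φ := by
    intro g
    rw [Subgroup.mem_centralizer_singleton_iff, Units.ext_iff, Units.val_mul, Units.val_mul, hte, mul_add, add_mul, mul_one,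
      one_mul, add_right_inj, Matrix.mul_vecMulVec, Matrix.vecMulVec_mul]
    constructor
    · intro e
      obtain ⟨i, hi⟩ := Function.ne_iff.mp hv
      obtain ⟨j, hj⟩ := Function.ne_iff.mp hφ
      simp only [Pi.zero_apply] at hi hj
      have he : ∀ a b, (g : Matrix (Fin n) (Fin n) F).mulVec v a * φ b = v a * Matrix.vecMul φ (g : Matrix (Fin n) (Fin n) F) b :=
        fun a b => congrFun (congrFun e a) b
      set c : F := Matrix.vecMul φ (g : Matrix (Fin n) (Fin n) F) j / φ j with hc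
      have hgv : (g : Matrix (Fin n) (Fin n) F).mulVec v = c • v := funext fun a => by
        rw [Pi.smul_apply, smul_eq_mul, hc, div_mul_eq_mul_div, eq_div_iff hj, he a j, mul_comm]
      have hc0 : c ≠ 0 := fun h0 => hv' g (by rw [hgv, h0, zero_smul])
      refine ⟨Units.mk0 c hc0, hgv, funext fun b => ?_⟩
      have := he i b
      rw [hgv, Pi.smul_apply, smul_eq_mul, mul_comm c, mul_assoc] at this
      rw [Pi.smul_apply, smul_eq_mul, Units.val_mk0]
      exact (mul_left_cancel₀ hi this).symm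
    · rintro ⟨c, e1, e2⟩
      rw [e1, e2]
      ext a b
      simp [Matrix.vecMulVec_apply]; ring
  have hrep : ∀ c : Fˣ, ∃ g : GL (Fin n) F, (g : Matrix (Fin n) (Fin n) F).mulVec v = (c : F) • v ∧
      Matrix.vecMul φ (g : Matrix (Fin n) (Fin n) F) = (c : F) • φ := by
    intro c
    obtain ⟨g, hg1, hg2⟩ := CfsgLib.Generators.exists_gl_pair hv hφ h (w := (c : F) • v) (ψ := (c : F)⁻¹ • φ)
      (smul_ne_zero c.ne_zero hv) (smul_ne_zero (inv_ne_zero c.ne_zero) hφ)
      (by rw [smul_dotProduct, dotProduct_smul, h, smul_zero, smul_zero])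
    refine ⟨g, hg1, ?_⟩
    have := congrArg (fun x => (c : F) • x) hg2
    simp only [Matrix.smul_vecMul, smul_smul, mul_inv_cancel₀ c.ne_zero, one_smul] at this
    exact this
  choose rep hrep1 hrep2 using hrep
  have hCcard : Nat.card ↥(Subgroup.centralizer ({t} : Set (GL (Fin n) F))) = Nat.card Fˣ * Nat.card S := by
    rw [← Nat.card_prod]
    refine (Nat.card_congr (Equiv.ofBijective (fun p : Fˣ × S => (⟨rep p.1 * p.2, (hCiff _).mpr ⟨p.1, ?_, ?_⟩⟩ :
      ↥(Subgroup.centralizer ({t} : Set (GL (Fin n) F))))) ⟨?_, ?_⟩)).symm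
    · rw [Units.val_mul, ← Matrix.mulVec_mulVec, p.2.2.1, hrep1]
    · rw [Units.val_mul, ← Matrix.vecMul_vecMul, hrep2, Matrix.smul_vecMul, p.2.2.2]
    · rintro ⟨c, s⟩ ⟨c', s'⟩ e
      have e' : rep c * (s : GL (Fin n) F) = rep c' * (s' : GL (Fin n) F) := congrArg Subtype.val e
      have := congrArg (fun g : GL (Fin n) F => (g : Matrix (Fin n) (Fin n) F).mulVec v) e'
      simp only [Units.val_mul, ← Matrix.mulVec_mulVec, s.2.1, s'.2.1, hrep1] at this
      have hcc : c = c' := Units.ext (smul_left_injective F hv this)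
      subst hcc
      exact Prod.ext rfl (Subtype.ext (mul_left_cancel e'))
    · rintro ⟨g, hg⟩
      obtain ⟨c, e1, e2⟩ := (hCiff g).mp hg
      have hs : (rep c)⁻¹ * g ∈ S := by
        refine ⟨?_, ?_⟩
        · rw [Units.val_mul, ← Matrix.mulVec_mulVec, e1, ← hrep1, Matrix.mulVec_mulVec, ← Units.val_mul,
            inv_mul_cancel, Units.val_one, Matrix.one_mulVec]
        · apply smul_right_injective _ (c.ne_zero)
          simp only
          rw [← Matrix.smul_vecMul, ← hrep2, Matrix.vecMul_vecMul, ← Units.val_mul, mul_inv_cancel_left, e2]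
          exact (hrep2 c).symm
      exact ⟨(c, ⟨_, hs⟩), Subtype.ext (mul_inv_cancel_left _ _)⟩
  have hq1 : 1 < q := hF ▸ Fintype.one_lt_card
  have hP : Nat.card P = (q ^ n - 1) * (q ^ (n - 1) - 1) := by
    have e : P ≃ Σ w : {w : Fin n → F // w ≠ 0}, {ψ : Fin n → F // ψ ≠ 0 ∧ ψ ⬝ᵥ w.1 = 0} :=
      { toFun := fun p => ⟨⟨p.1.1, p.2.1⟩, ⟨p.1.2, p.2.2⟩⟩
        invFun := fun x => ⟨(x.1.1, x.2.1), x.1.2, x.2.2⟩
        left_inv := fun _ => rfl
        right_inv := fun _ => rfl }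
    rw [Nat.card_congr e, Nat.card_sigma, Finset.sum_congr rfl (g := fun _ => q ^ (n - 1) - 1), Finset.sum_const,
      Finset.card_univ, smul_eq_mul, Fintype.card_subtype_compl, Fintype.card_subtype_eq, Fintype.card_fun,
      Fintype.card_fin, hF]
    intro w _
    set L : (Fin n → F) →ₗ[F] F := dotProductEquiv F (Fin n) w.1 with hL
    have hL0 : L ≠ 0 := by simp [hL, w.2]
    have h1 := LinearMap.finrank_range_add_finrank_ker L
    rw [LinearMap.range_eq_top.mpr (LinearMap.surjective_of_ne_zero hL0), finrank_top, Module.finrank_self,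
      Module.finrank_fin_fun] at h1
    have e2 : {ψ : Fin n → F // ψ ≠ 0 ∧ ψ ⬝ᵥ w.1 = 0} ≃ {ψ : LinearMap.ker L // ψ ≠ 0} :=
      { toFun := fun ψ => ⟨⟨ψ.1, LinearMap.mem_ker.mpr (show w.1 ⬝ᵥ ψ.1 = 0 by rw [dotProduct_comm]; exact ψ.2.2)⟩,
          fun h0 => ψ.2.1 (congrArg Subtype.val h0)⟩
        invFun := fun ψ => ⟨ψ.1.1, fun h0 => ψ.2 (Subtype.ext h0), by
          rw [dotProduct_comm]; exact LinearMap.mem_ker.mp ψ.1.2⟩
        left_inv := fun _ => rfl
        right_inv := fun _ => rfl }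
    rw [Nat.card_congr e2, Nat.card_eq_fintype_card, Fintype.card_subtype_compl, Fintype.card_subtype_eq,
      ← Nat.card_eq_fintype_card, Module.natCard_eq_pow_finrank (K := F), Nat.card_eq_fintype_card, hF,
      show Module.finrank F (LinearMap.ker L) = n - 1 by omega]
  have hG := Subgroup.card_eq_card_quotient_mul_card_subgroup S
  rw [Nat.card_congr (Equiv.ofBijective f hf), hP, Matrix.card_GL_field, hF] at hG
  obtain ⟨k, rfl⟩ : ∃ k, n = k + 2 := ⟨n - 2, by omega⟩
  rw [hCcard, Nat.card_units, Nat.card_eq_fintype_card, hF]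
  rw [Fin.prod_univ_succ, Fin.prod_univ_succ] at hG
  simp only [Fin.val_zero, pow_zero, Fin.val_succ, zero_add, pow_one] at hG
  rw [show k + 2 - 1 = k + 1 from rfl] at hG
  rw [show 2 * (k + 2) - 3 = 2 * k + 1 by omega, show k + 2 - 2 = k by omega]
  have e3 : q ^ (k + 2) - q = q * (q ^ (k + 1) - 1) := by rw [Nat.mul_sub_one, ← pow_succ']
  have e4 : ∀ i : Fin k, q ^ (k + 2) - q ^ ((i : ℕ) + 1 + 1) = q ^ 2 * (q ^ k - q ^ (i : ℕ)) := fun i => by
    rw [Nat.mul_sub, ← pow_add, ← pow_add]; congr 2 <;> omega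
  rw [e3, Finset.prod_congr rfl (fun i _ => e4 i), Finset.prod_mul_distrib, Finset.prod_const, Finset.card_univ,
    Fintype.card_fin, ← pow_mul] at hG
  have hA : 0 < (q ^ (k + 2) - 1) * (q ^ (k + 1) - 1) :=
    Nat.mul_pos (by have := Nat.one_lt_pow (show k + 2 ≠ 0 by omega) hq1; omega)
      (by have := Nat.one_lt_pow (show k + 1 ≠ 0 by omega) hq1; omega)
  have hS : Nat.card S = q ^ (2 * k + 1) * ∏ i : Fin k, (q ^ k - q ^ (i : ℕ)) := by
    refine Nat.eq_of_mul_eq_mul_left hA (hG.symm.trans ?_)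
    rw [pow_succ]; ring
  rw [hS]; ring

end Cfsg.Agent.S2572
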