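import Cfsg.Statements.S2573
import Cfsg.Agent.Lib.Generators.RegularUnipotent

set_option autoImplicit false
open Cfsg

namespace Cfsg.Agent.S2573

/-- The invariant subspaces of a regular unipotent matrix form a chain: over a finite field, if u is an n × n matrix with (u − 1)^n = 0 and rank(u − 1) = n − 1, then every subspace W of F^n with u W ⊆ W is the kernel of (u − 1)^(dim W); so u has at most one invariant subspace of each dimension. -/
theorem result {F : Type*} [Field F] [Finite F] {n : ℕ} (u : Matrix (Fin n) (Fin n) F) (hnil : (u - 1) ^ n = 0) (hreg : (u - 1).rank = n - 1) (W : Submodule F (Fin n → F)) (hW : ∀ v ∈ W, u.mulVec v ∈ W) : W = LinearMap.ker (Matrix.mulVecLin ((u - 1) ^ Module.finrank F W)) := by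
  classical
  have hN : IsNilpotent (Matrix.mulVecLin (u - 1)) :=
    ⟨n, by rw [← CfsgLib.Generators.mulVecLin_pow, hnil, Matrix.mulVecLin_zero]⟩
  have h1 := CfsgLib.Generators.finrank_ker_mulVecLin_le_one (u - 1) (by rw [hreg, Fintype.card_fin])
  rw [CfsgLib.Generators.mulVecLin_pow]
  refine CfsgLib.Generators.eq_ker_pow_finrank _ hN h1 W fun v hv => ?_
  rw [Matrix.mulVecLin_apply, Matrix.sub_mulVec, Matrix.one_mulVec]
  exact W.sub_mem (hW v hv) hv

end Cfsg.Agent.S2573
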