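import Cfsg.Statements.S2574
import Cfsg.Agent.Lib.Generators.RegularUnipotent

set_option autoImplicit false
open Cfsg

namespace Cfsg.Agent.S2574

/-- A regular unipotent element of the symplectic group has totally isotropic small invariant subspaces: over a finite field, if u ∈ Sp_2m(F) satisfies (u − 1)^(2m) = 0 and rank(u − 1) = 2m − 1, and W is a u-invariant subspace with 2 dim W ≤ 2m, then the alternating form vanishes identically on W. -/
theorem result {F : Type*} [Field F] [Finite F] {m : ℕ} (u : Matrix.symplecticGroup (Fin m) F) (hnil : ((u : Matrix (Fin m ⊕ Fin m) (Fin m ⊕ Fin m) F) - 1) ^ (2 * m) = 0) (hreg : ((u : Matrix (Fin m ⊕ Fin m) (Fin m ⊕ Fin m) F) - 1).rank = 2 * m - 1) (W : Submodule F (Fin m ⊕ Fin m → F)) (hW : ∀ v ∈ W, (u : Matrix (Fin m ⊕ Fin m) (Fin m ⊕ Fin m) F).mulVec v ∈ W) (hdim : 2 * Module.finrank F W ≤ 2 * m) : ∀ v ∈ W, ∀ w ∈ W, Cfsg.sympForm m F v w = 0 := by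
  classical
  set M := (u : Matrix (Fin m ⊕ Fin m) (Fin m ⊕ Fin m) F) with hM
  set B : LinearMap.BilinForm F (Fin m ⊕ Fin m → F) := Matrix.toBilin' (Matrix.J (Fin m) F) with hB
  have hBs : ∀ x y, B x y = Cfsg.sympForm m F x y := fun x y => by
    rw [hB, Matrix.toBilin'_apply']; rfl
  have hBM : ∀ x y, B (M.mulVec x) (M.mulVec y) = B x y := by
    intro x y
    have h := SymplecticGroup.mem_iff'.mp u.2
    rw [hBs, hBs]
    unfold Cfsg.sympForm
    rw [Matrix.mulVec_mulVec, Matrix.dotProduct_mulVec, Matrix.vecMul_mulVec, ← Matrix.mul_assoc, h,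
      ← Matrix.dotProduct_mulVec]
  have hnd : B.Nondegenerate := Matrix.nondegenerate_toBilin'_iff.mpr (Matrix.nondegenerate_of_det_ne_zero
    (IsUnit.ne_zero (Matrix.isUnit_det_J (Fin m) F)))
  have hrefl : B.IsRefl := by
    intro x y hxy
    rw [hBs] at hxy ⊢
    unfold Cfsg.sympForm at hxy ⊢
    rw [Matrix.dotProduct_mulVec, ← Matrix.mulVec_transpose, Matrix.J_transpose, Matrix.neg_mulVec,
      dotProduct_comm, dotProduct_neg, hxy, neg_zero]
  set W' := B.orthogonal W
  set f := Matrix.mulVecLin (M - 1) with hf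
  have hfW : ∀ v ∈ W, f v ∈ W := fun v hv => by
    rw [hf, Matrix.mulVecLin_apply, Matrix.sub_mulVec, Matrix.one_mulVec]
    exact W.sub_mem (hW v hv) hv
  have hsurj : ∀ w ∈ W, ∃ w₀ ∈ W, M.mulVec w₀ = w := by
    let g : W →ₗ[F] W := (Matrix.mulVecLin M).restrict hW
    have hinj : Function.Injective g := by
      intro x y hxy
      have h2 := congrArg Subtype.val hxy
      apply Subtype.ext
      have h3 : Function.Injective M.mulVec := Matrix.mulVec_injective_iff_isUnit.mpr
        ((Matrix.isUnit_iff_isUnit_det M).mpr (SymplecticGroup.symplectic_det u.2))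
      exact h3 h2
    intro w hw
    obtain ⟨w₀, hw₀⟩ := LinearMap.surjective_of_injective hinj ⟨w, hw⟩
    exact ⟨w₀, w₀.2, congrArg Subtype.val hw₀⟩
  have hfW' : ∀ v ∈ W', f v ∈ W' := fun v hv => by
    rw [hf, Matrix.mulVecLin_apply, Matrix.sub_mulVec, Matrix.one_mulVec]
    refine W'.sub_mem (fun w hw => ?_) hv
    obtain ⟨w₀, hw₀, rfl⟩ := hsurj w hw
    exact (hBM _ _).trans (hv w₀ hw₀)
  have hdimV : Module.finrank F (Fin m ⊕ Fin m → F) = 2 * m := by simp [two_mul]
  have hd := LinearMap.BilinForm.finrank_orthogonal hnd W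
  rw [hdimV] at hd
  have hN : IsNilpotent f := ⟨2 * m, by rw [hf, ← CfsgLib.Generators.mulVecLin_pow, hnil, Matrix.mulVecLin_zero]⟩
  have hle : W ≤ W' := CfsgLib.Generators.le_of_finrank_le f hN
    (CfsgLib.Generators.finrank_ker_mulVecLin_le_one (M - 1) (by rw [hreg, Fintype.card_sum, Fintype.card_fin, two_mul])) W W' hfW hfW'
    (by rw [hd]; omega)
  intro v hv w hw
  rw [← hBs]
  exact hle hw v hv

end Cfsg.Agent.S2574
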