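import Cfsg.Statements.S2575
-- import your own Cfsg.Agent.* helpers here

set_option autoImplicit false
open Cfsg

namespace Cfsg.Agent.S2575

/-- Which diagonal involutions of PGL_n(q) lie in PSL_n(q), q odd: for the diagonal matrix t with i entries −1 and n − i entries 1, some non-zero scalar multiple of t has determinant one if and only if i is even or the 2-part of q − 1 exceeds the 2-part of n (that is, −1 is an n-th power in the field exactly in the latter case). -/
theorem result {F : Type*} [Field F] [Fintype F] {q : ℕ} (hF : Fintype.card F = q) (hq : Odd q) {n : ℕ} (hn : 1 ≤ n) (i : ℕ) (hi : i ≤ n) : (∃ c : F, c ≠ 0 ∧ (c • Matrix.diagonal (fun j : Fin n => if (j : ℕ) < i then (-1 : F) else 1)).det = 1) ↔ (Even i ∨ padicValNat 2 n < padicValNat 2 (q - 1)) := by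
  classical
  have : Fact (Nat.Prime 2) := ⟨Nat.prime_two⟩
  have hdet : ∀ c : F, (c • Matrix.diagonal (fun j : Fin n => if (j : ℕ) < i then (-1 : F) else 1)).det
      = c ^ n * (-1) ^ i := by
    intro c
    rw [Matrix.det_smul, Fintype.card_fin, Matrix.det_diagonal, Finset.prod_ite]
    simp only [Finset.prod_const_one, mul_one, Finset.prod_const]
    congr 2
    rw [Fin.card_filter_val_lt, min_eq_right hi]
  simp only [hdet]
  have hq2 : 2 ≤ q := hF ▸ Fintype.one_lt_card
  have hchar : (-1 : F) ≠ 1 := by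
    intro h
    have h2 : ringChar F = 2 := (neg_one_eq_one_iff).mp h
    have := FiniteField.even_card_of_char_two h2
    rw [hF, Nat.odd_iff] at *
    omega
  obtain ⟨M, hMe, hMo⟩ : ∃ M, q - 1 = 2 ^ padicValNat 2 (q - 1) * M ∧ Odd M := by
    obtain ⟨k, M, hM, h⟩ := Nat.exists_eq_two_pow_mul_odd (show q - 1 ≠ 0 by omega)
    refine ⟨M, ?_, hM⟩
    have : padicValNat 2 (q - 1) = k := by
      rw [h, padicValNat.mul (pow_ne_zero _ two_ne_zero) hM.pos.ne',
        padicValNat.prime_pow, padicValNat.eq_zero_of_not_dvd (Nat.two_dvd_ne_zero.mpr (Nat.odd_iff.mp hM)), add_zero]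
    rw [this]; exact h
  obtain ⟨m, hne, hmo⟩ : ∃ m, n = 2 ^ padicValNat 2 n * m ∧ Odd m := by
    obtain ⟨k, M, hM, h⟩ := Nat.exists_eq_two_pow_mul_odd (show n ≠ 0 by omega)
    refine ⟨M, ?_, hM⟩
    have : padicValNat 2 n = k := by
      rw [h, padicValNat.mul (pow_ne_zero _ two_ne_zero) hM.pos.ne',
        padicValNat.prime_pow, padicValNat.eq_zero_of_not_dvd (Nat.two_dvd_ne_zero.mpr (Nat.odd_iff.mp hM)), add_zero]
    rw [this]; exact h
  constructor
  · rintro ⟨c, hc0, hc⟩
    by_contra hcon
    rw [not_or, Nat.not_even_iff_odd, not_lt] at hcon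
    rw [hcon.1.neg_one_pow, mul_neg, mul_one] at hc
    have hcn : c ^ n = -1 := by rw [← hc, neg_neg]
    have h1 : (c ^ n) ^ M = 1 := by
      rw [← pow_mul]
      have : q - 1 ∣ n * M := by
        rw [hMe, hne, mul_assoc]
        exact mul_dvd_mul (pow_dvd_pow 2 hcon.2) (Dvd.intro_left _ rfl)
      obtain ⟨d, hd⟩ := this
      rw [hd, pow_mul, ← hF, FiniteField.pow_card_sub_one_eq_one c hc0, one_pow]
    rw [hcn, hMo.neg_one_pow] at h1
    exact hchar h1
  · intro h
    rcases Nat.even_or_odd i with he | ho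
    · exact ⟨1, one_ne_zero, by rw [he.neg_one_pow]; simp⟩
    · have hlt : padicValNat 2 n < padicValNat 2 (q - 1) := h.resolve_left (Nat.not_even_iff_odd.mpr ho)
      have hdvd : 2 ^ (padicValNat 2 n + 1) ∣ Nat.card Fˣ := by
        rw [Nat.card_units, Nat.card_eq_fintype_card, hF]
        exact (pow_dvd_pow 2 hlt).trans pow_padicValNat_dvd
      obtain ⟨g, hg⟩ := IsCyclic.exists_generator (α := Fˣ)
      have hgo : orderOf g = Nat.card Fˣ := orderOf_eq_card_of_forall_mem_zpowers hg
      obtain ⟨d, hd⟩ := hdvd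
      set z : F := ((g ^ d : Fˣ) : F)
      have hz : orderOf z = 2 ^ (padicValNat 2 n + 1) := by
        rw [orderOf_units, orderOf_pow, hgo, hd, Nat.gcd_mul_left_left, Nat.mul_div_cancel]
        have : 0 < Nat.card Fˣ := Nat.card_pos
        rcases Nat.eq_zero_or_pos d with h0 | h0
        · rw [h0, mul_zero] at hd; omega
        · exact h0
      have hzneg : z ^ (2 ^ padicValNat 2 n) = -1 := by
        have h1 : (z ^ (2 ^ padicValNat 2 n)) ^ 2 = 1 := by
          rw [← pow_mul, ← pow_succ, ← hz, pow_orderOf_eq_one]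
        rcases sq_eq_one_iff.mp h1 with h2 | h2
        · exfalso
          have := orderOf_dvd_of_pow_eq_one h2
          rw [hz, Nat.pow_dvd_pow_iff_le_right (by norm_num)] at this
          omega
        · exact h2
      refine ⟨z, Units.ne_zero _, ?_⟩
      rw [hne, pow_mul, hzneg, hmo.neg_one_pow, ho.neg_one_pow]
      norm_num

end Cfsg.Agent.S2575
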