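import Cfsg.Statements.S2576
-- import your own Cfsg.Agent.* helpers here

set_option autoImplicit false
open Cfsg

namespace Cfsg.Agent.S2576

/-- Which involutions of PGL_2m(q) coming from a scalar of the quadratic extension field lie in PSL_2m(q), q odd: let μ generate the Sylow 2-subgroup of the multiplicative group of the field with q elements (μ has order the 2-part of q − 1) and let t be the block-diagonal matrix with m diagonal blocks [[0, 1], [μ, 0]] (so t² is the scalar μ and t is an involution modulo scalars). Then some non-zero scalar multiple of t has determinant one if and only if q ≡ 3 (mod 4) or the 2-part of q − 1 is less than the 2-part of 2m. -/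
theorem result {F : Type*} [Field F] [Fintype F] {q : ℕ} (hF : Fintype.card F = q) (hq : Odd q) {m : ℕ} (hm : 1 ≤ m) (μ : F) (hμ : orderOf μ = 2 ^ padicValNat 2 (q - 1)) : (∃ c : F, c ≠ 0 ∧ (c • Matrix.blockDiagonal (fun _ : Fin m => !![(0 : F), 1; μ, 0])).det = 1) ↔ (q % 4 = 3 ∨ padicValNat 2 (q - 1) < padicValNat 2 (2 * m)) := by
  classical
  have : Fact (Nat.Prime 2) := ⟨Nat.prime_two⟩
  have hdet : ∀ c : F, (c • Matrix.blockDiagonal (fun _ : Fin m => !![(0 : F), 1; μ, 0])).det
      = (c ^ 2 * (-μ)) ^ m := by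
    intro c
    rw [Matrix.det_smul, Matrix.det_blockDiagonal]
    simp only [Fintype.card_prod, Fintype.card_fin, Matrix.det_fin_two_of, Finset.prod_const, Finset.card_univ]
    rw [mul_pow, ← pow_mul]
    congr 2
    ring
  simp only [hdet]
  have hq2 : 2 ≤ q := hF ▸ Fintype.one_lt_card
  set s := padicValNat 2 (q - 1) with hs
  have hs1 : 1 ≤ s := one_le_padicValNat_of_dvd (by omega) (by rw [Nat.odd_iff] at hq; omega)
  have hμ0 : μ ≠ 0 := by
    rintro rfl
    simp only [orderOf_zero] at hμ; exact absurd hμ.symm (pow_ne_zero _ two_ne_zero)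
  have hneg : μ ^ (2 ^ (s - 1)) = -1 := by
    have h1 : (μ ^ (2 ^ (s - 1))) ^ 2 = 1 := by
      rw [← pow_mul, ← pow_succ, Nat.sub_add_cancel hs1, ← hμ, pow_orderOf_eq_one]
    rcases sq_eq_one_iff.mp h1 with h2 | h2
    · exfalso
      have := orderOf_dvd_of_pow_eq_one h2
      rw [hμ, Nat.pow_dvd_pow_iff_le_right (by norm_num)] at this
      omega
    · exact h2
  have hv : padicValNat 2 (2 * m) = padicValNat 2 m + 1 := by
    rw [padicValNat.mul two_ne_zero (by omega), padicValNat_self, add_comm]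
  constructor
  · rintro ⟨c, hc0, hc⟩
    by_contra hcon
    rw [not_or] at hcon
    have hs2 : 2 ≤ s := by
      refine (padicValNat_dvd_iff_le (p := 2) (by omega)).mp ?_
      rw [Nat.odd_iff] at hq
      omega
    obtain ⟨M, hM⟩ : 2 ^ s ∣ q - 1 := pow_padicValNat_dvd
    have hMo : Odd M := by
      rw [← Nat.not_even_iff_odd]
      rintro ⟨k, hk⟩
      have : 2 ^ (s + 1) ∣ q - 1 := ⟨k, by rw [hM, hk]; ring⟩
      have := (padicValNat_dvd_iff_le (p := 2) (by omega)).mp this
      omega
    have hev : Even (2 ^ (s - 1)) := Nat.even_pow.mpr ⟨even_two, by omega⟩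
    set z := (c ^ 2 * (-μ)) ^ M with hz
    have hz1 : z ^ (2 ^ (s - 1)) = -1 := by
      have e : 2 * M * 2 ^ (s - 1) = q - 1 := by
        rw [hM, mul_comm 2 M, mul_assoc, ← pow_succ', Nat.sub_add_cancel hs1, mul_comm]
      rw [hz, ← pow_mul, mul_pow, ← pow_mul, ← mul_assoc, e, ← hF,
        FiniteField.pow_card_sub_one_eq_one c hc0, one_mul, mul_comm M, pow_mul, hev.neg_pow, hneg,
        hMo.neg_one_pow]
    have hz2 : z ^ m = 1 := by rw [hz, ← pow_mul, mul_comm M m, pow_mul, hc, one_pow]
    obtain ⟨k, hk⟩ : 2 ^ padicValNat 2 m ∣ m := pow_padicValNat_dvd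
    have hko : Odd k := by
      rw [← Nat.not_even_iff_odd]
      rintro ⟨j, hj⟩
      have : 2 ^ (padicValNat 2 m + 1) ∣ m := ⟨j, by conv_lhs => rw [hk, hj]
                                                     ring⟩
      have := (padicValNat_dvd_iff_le (p := 2) (by omega)).mp this
      omega
    have hle : padicValNat 2 m ≤ s - 1 := by omega
    have h3 : (z ^ (2 ^ (s - 1))) ^ k = 1 := by
      obtain ⟨r, hr⟩ : m ∣ 2 ^ (s - 1) * k := hk ▸ mul_dvd_mul (pow_dvd_pow 2 hle) dvd_rfl
      rw [← pow_mul, hr, pow_mul, hz2, one_pow]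
    rw [hz1, hko.neg_one_pow] at h3
    have h2 : ringChar F = 2 := (neg_one_eq_one_iff).mp h3
    have := FiniteField.even_card_of_char_two h2
    rw [hF, Nat.odd_iff] at *
    omega
  · intro h
    rcases h with h | h
    · have hs0 : s = 1 := by
        by_contra hne
        have : 2 ^ 2 ∣ q - 1 := (pow_dvd_pow 2 (show 2 ≤ s by omega)).trans pow_padicValNat_dvd
        omega
      rw [hs0] at hneg
      exact ⟨1, one_ne_zero, by simp at hneg; simp [hneg]⟩
    · have hsm : 2 ^ s ∣ m := (pow_dvd_pow 2 (show s ≤ padicValNat 2 m by omega)).trans pow_padicValNat_dvd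
      have hμm : μ ^ m = 1 := orderOf_dvd_iff_pow_eq_one.mp (hμ ▸ hsm)
      have hme : Even m := even_iff_two_dvd.mpr ((dvd_pow_self 2 (by omega)).trans hsm)
      exact ⟨1, one_ne_zero, by simp [hme.neg_pow, hμm]⟩

end Cfsg.Agent.S2576
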