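import Cfsg.Statements.S2577
import Cfsg.Agent.Lib.SemisimpleClasses.Count

set_option autoImplicit false
open Cfsg

namespace Cfsg.Agent.S2577

open Polynomial UniqueFactorizationMonoid CfsgLib.SemisimpleClasses

variable {F : Type*} [Field F] {n : ℕ}

/-- For semisimple `M`, a polynomial kills `M` iff every irreducible factor of the characteristic
polynomial divides it. -/
private theorem aeval_eq_zero_iff' {M : Matrix (Fin n) (Fin n) F}
    (hs : Module.End.IsSemisimple (Matrix.toLinAlgEquiv' M)) (P : F[X]) :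
    aeval M P = 0 ↔ ∀ π : F[X], Irreducible π → π ∣ M.charpoly → π ∣ P := by
  classical
  set L := Matrix.toLinAlgEquiv' (R := F) (n := Fin n) with hL
  set f := L M with hf
  have hchar : f.charpoly = M.charpoly := by
    rw [← LinearMap.charpoly_toMatrix f (Pi.basisFun F (Fin n))]
    congr 1
    exact (LinearMap.toMatrix_eq_toMatrix' (R := F) (n := Fin n)) ▸ LinearMap.toMatrix'_toLin' _
  have hpow : aeval M P = 0 ↔ aeval f P = 0 := by
    rw [hf, show L M = L.toAlgHom M from rfl, aeval_algHom_apply]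
    exact (map_eq_zero_iff _ L.injective).symm
  rw [hpow]
  constructor
  · intro h π hπ hdvd
    rw [← hchar] at hdvd
    obtain ⟨v, hv, hv0⟩ := exists_killed f hπ hdvd
    exact (orbitMap_eq_zero_iff hv hπ hv0 _).mp (by rw [orbitMap_apply, h, LinearMap.zero_apply])
  · intro h
    have hsq : Squarefree (minpoly F f) := hs.minpoly_squarefree
    have hc0 : f.charpoly ≠ 0 := (LinearMap.charpoly_monic f).ne_zero
    have h1 : f.charpoly ∣ P ^ Multiset.card (normalizedFactors f.charpoly) := by
      rw [← (prod_normalizedFactors hc0).dvd_iff_dvd_left]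
      have : ∀ S : Multiset F[X], (∀ π ∈ S, π ∣ P) → S.prod ∣ P ^ Multiset.card S := by
        intro S
        induction S using Multiset.induction_on with
        | empty => simp
        | cons a S ih =>
          intro hS
          rw [Multiset.prod_cons, Multiset.card_cons, pow_succ']
          exact mul_dvd_mul (hS a (Multiset.mem_cons_self a S))
            (ih fun π hπ => hS π (Multiset.mem_cons_of_mem hπ))
      exact this _ fun π hπ => h π (irreducible_of_normalized_factor π hπ)
        (hchar ▸ dvd_of_mem_normalizedFactors hπ)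
    obtain ⟨c, hc⟩ := hsq.isRadical _ _ ((LinearMap.minpoly_dvd_charpoly f).trans h1)
    rw [hc, map_mul, minpoly.aeval, zero_mul]

/-- A monic polynomial all whose irreducible factors are among two monic irreducibles. -/
private theorem eq_pow_mul_pow {χ a b : F[X]} (hχ : χ.Monic) (ha : Irreducible a) (ham : a.Monic)
    (hb : Irreducible b) (hbm : b.Monic) (h : ∀ π : F[X], Irreducible π → π ∣ χ → π ∣ a * b) :
    ∃ i j : ℕ, χ = a ^ i * b ^ j := by
  classical
  have hmem : ∀ f ∈ normalizedFactors χ, f = a ∨ f = b := by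
    intro f hf
    have hfi := irreducible_of_normalized_factor f hf
    have hfn := normalize_normalized_factor f hf
    rcases hfi.prime.dvd_or_dvd (h f hfi (dvd_of_mem_normalizedFactors hf)) with h' | h'
    · exact Or.inl (by rw [← hfn, normalize_eq_normalize_iff_associated.mpr (hfi.associated_of_dvd ha h'),
        ham.normalize_eq_self])
    · exact Or.inr (by rw [← hfn, normalize_eq_normalize_iff_associated.mpr (hfi.associated_of_dvd hb h'),
        hbm.normalize_eq_self])
  have : ∀ S : Multiset F[X], (∀ f ∈ S, f = a ∨ f = b) → ∃ i j : ℕ, S.prod = a ^ i * b ^ j := by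
    intro S
    induction S using Multiset.induction_on with
    | empty => exact fun _ => ⟨0, 0, by simp⟩
    | cons f S ih =>
      intro hS
      obtain ⟨i, j, hij⟩ := ih fun g hg => hS g (Multiset.mem_cons_of_mem hg)
      rcases hS f (Multiset.mem_cons_self f S) with rfl | rfl
      · exact ⟨i + 1, j, by rw [Multiset.prod_cons, hij]; ring⟩
      · exact ⟨i, j + 1, by rw [Multiset.prod_cons, hij]; ring⟩
  obtain ⟨i, j, hij⟩ := this _ hmem
  exact ⟨i, j, by rw [← hij, prod_normalizedFactors_eq hχ.ne_zero, hχ.normalize_eq_self]⟩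

/-- Scalar matrices in `GL`. -/
private abbrev sc (n : ℕ) (u : Fˣ) : GL (Fin n) F := Matrix.GeneralLinearGroup.scalar (Fin n) u

private theorem sc_mem (u : Fˣ) : sc n u ∈ Subgroup.center (GL (Fin n) F) := by
  rw [Matrix.GeneralLinearGroup.center_eq_range_scalar]
  exact ⟨u, rfl⟩

private theorem mem_center {g : GL (Fin n) F} :
    g ∈ Subgroup.center (GL (Fin n) F) ↔ ∃ u : Fˣ, sc n u = g := by
  rw [Matrix.GeneralLinearGroup.center_eq_range_scalar]
  rfl

private theorem coe_sc (u : Fˣ) : ((sc n u : GL (Fin n) F) : Matrix (Fin n) (Fin n) F) = Matrix.scalar (Fin n) (u : F) := rfl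

/-- The diagonal of signs with `i` entries `-1`. -/
private def signs (n i : ℕ) (k : Fin n) : F := if (k : ℕ) < i then -1 else 1

private def diagInv (n i : ℕ) : GL (Fin n) F :=
  ⟨Matrix.diagonal (signs n i), Matrix.diagonal (signs n i),
    by rw [Matrix.diagonal_mul_diagonal, ← Matrix.diagonal_one]; congr 1; funext k; unfold signs; split_ifs <;> simp,
    by rw [Matrix.diagonal_mul_diagonal, ← Matrix.diagonal_one]; congr 1; funext k; unfold signs; split_ifs <;> simp⟩

private theorem coe_diagInv (i : ℕ) :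
    ((diagInv n i : GL (Fin n) F) : Matrix (Fin n) (Fin n) F) = Matrix.diagonal (signs n i) := rfl

private theorem diagInv_sq (i : ℕ) : (diagInv n i : GL (Fin n) F) ^ 2 = 1 := by
  rw [sq]
  exact Units.ext (by
    rw [Units.val_mul, coe_diagInv, Units.val_one, Matrix.diagonal_mul_diagonal, ← Matrix.diagonal_one]
    congr 1; funext k; unfold signs; split_ifs <;> simp)

private theorem card_lt {i : ℕ} (hi : i ≤ n) :
    (Finset.univ.filter fun k : Fin n => (k : ℕ) < i).card = i ∧
      (Finset.univ.filter fun k : Fin n => ¬ (k : ℕ) < i).card = n - i := by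
  have h1 : (Finset.univ.filter fun k : Fin n => (k : ℕ) < i).card = i := by
    have : (Finset.univ.filter fun k : Fin n => (k : ℕ) < i).map Fin.valEmbedding = Finset.range i := by
      ext x
      simp only [Finset.mem_map, Finset.mem_filter, Finset.mem_univ, true_and, Fin.valEmbedding_apply,
        Finset.mem_range]
      exact ⟨fun ⟨k, hk, e⟩ => e ▸ hk, fun hx => ⟨⟨x, by omega⟩, hx, rfl⟩⟩
    rw [← Finset.card_map Fin.valEmbedding, this, Finset.card_range]
  refine ⟨h1, ?_⟩
  have := Finset.card_filter_add_card_filter_not (s := (Finset.univ : Finset (Fin n))) (fun k => (k : ℕ) < i)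
  rw [Finset.card_univ, Fintype.card_fin, h1] at this
  omega

private theorem charpoly_diagInv {i : ℕ} (hi : i ≤ n) (u : Fˣ) :
    ((diagInv n i * sc n u : GL (Fin n) F) : Matrix (Fin n) (Fin n) F).charpoly =
      (X - C (-(u : F))) ^ i * (X - C (u : F)) ^ (n - i) := by
  rw [Units.val_mul, coe_diagInv, coe_sc, Matrix.scalar_apply, Matrix.diagonal_mul_diagonal,
    Matrix.charpoly_diagonal]
  have h : ∀ k : Fin n, X - C (signs n i k * (u : F)) =
      if (k : ℕ) < i then X - C (-(u : F)) else X - C (u : F) := by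
    intro k; unfold signs; split_ifs <;> simp
  simp only [h]
  rw [Finset.prod_ite, Finset.prod_const, Finset.prod_const, (card_lt hi).1, (card_lt hi).2]

private theorem exp_unique {a b : F} (hab : a ≠ b) {i j k l : ℕ}
    (h : (X - C a) ^ i * (X - C b) ^ j = (X - C a) ^ k * (X - C b) ^ l) : i = k := by
  classical
  have key : ∀ i j : ℕ, ((X - C a) ^ i * (X - C b) ^ j).rootMultiplicity a = i := by
    intro i j
    rw [rootMultiplicity_mul (mul_ne_zero (pow_ne_zero _ (X_sub_C_ne_zero a)) (pow_ne_zero _ (X_sub_C_ne_zero b))),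
      rootMultiplicity_X_sub_C_pow, rootMultiplicity_eq_zero, add_zero]
    rw [IsRoot.def, eval_pow, eval_sub, eval_X, eval_C]
    exact pow_ne_zero _ (sub_ne_zero.mpr hab)
  rw [← key i j, h, key]


/-- Number of conjugacy classes of involutions in PGL_n(q) for q odd and n ≥ 2: there are ⌊n/2⌋ classes represented by diagonal matrices with i entries −1 (1 ≤ i ≤ n/2) and, when n is even, one more class represented by a block-diagonal matrix of 2 × 2 blocks [[0, 1], [μ, 0]] with μ a non-square (a matrix squaring to a scalar but having no eigenvalue in the field); in all ⌊n/2⌋ + 1 classes if n is even and ⌊n/2⌋ if n is odd. -/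
theorem result {F : Type*} [Field F] [Fintype F] {q : ℕ} (hF : Fintype.card F = q) (hq : Odd q) {n : ℕ} (hn : 2 ≤ n) : Nat.card {C : ConjClasses (GL (Fin n) F ⧸ Subgroup.center (GL (Fin n) F)) // ∃ g : GL (Fin n) F ⧸ Subgroup.center (GL (Fin n) F), ConjClasses.mk g = C ∧ orderOf g = 2} = n / 2 + (if Even n then 1 else 0) := by
  classical
  obtain ⟨p, hCP⟩ := CharP.exists F
  have hp : p.Prime := CharP.char_is_prime F p
  haveI : Fact p.Prime := ⟨hp⟩
  have hp2 : p ≠ 2 := by
    rintro rfl
    obtain ⟨f, -, hf⟩ := FiniteField.card F 2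
    rw [← hF, hf] at hq
    exact absurd hq (by simp [parity_simps])
  have hchar : ringChar F ≠ 2 := by rwa [ringChar.eq F p]
  have h2 : (2 : F) ≠ 0 := Ring.two_ne_zero hchar
  have hneg : (-1 : F) ≠ 1 := Ring.neg_one_ne_one_of_char_ne_two hchar
  have hcop : ∀ (g : GL (Fin n) F) (c : Fˣ), g ^ 2 = sc n c → (orderOf g).Coprime p := by
    intro g c hg
    refine coprime_of_pow_eq_one (N := 2 * (q - 1)) (Nat.Coprime.mul_left ?_ ?_) ?_
    · exact (Nat.coprime_primes Nat.prime_two hp).mpr (Ne.symm hp2)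
    · obtain ⟨f, -, hf⟩ := FiniteField.card F p
      rw [Nat.coprime_comm, hp.coprime_iff_not_dvd, ← hF, hf]
      intro hd
      have h1 : p ∣ p ^ (f : ℕ) := dvd_pow_self p f.pos.ne'
      have h2 : 1 ≤ p ^ (f : ℕ) := Nat.one_le_pow _ _ hp.pos
      have h3 : p ∣ p ^ (f : ℕ) - (p ^ (f : ℕ) - 1) := Nat.dvd_sub h1 hd
      rw [show p ^ (f : ℕ) - (p ^ (f : ℕ) - 1) = 1 by omega] at h3
      exact hp.one_lt.ne' (Nat.dvd_one.mp h3)
    · rw [pow_mul, hg, ← map_pow, show c ^ (q - 1) = 1 from ?_, map_one]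
      rw [← hF, ← Fintype.card_units]
      exact pow_card_eq_one
  have hconj : ∀ g h : GL (Fin n) F, (orderOf g).Coprime p → (orderOf h).Coprime p →
      (g : Matrix (Fin n) (Fin n) F).charpoly = (h : Matrix (Fin n) (Fin n) F).charpoly → IsConj g h := fun g h hg hh hc => by
    obtain ⟨e, he⟩ := exists_conj_GL p g h hg hh hc
    exact isConj_iff.mpr ⟨e, he⟩
  have hscm : ∀ (g : GL (Fin n) F) (u : Fˣ), (g * sc n u) ^ 2 = g ^ 2 * sc n (u ^ 2) := by
    intro g u
    rw [show sc n (u ^ 2) = sc n u ^ 2 from map_pow _ _ _, Commute.mul_pow ((Subgroup.mem_center_iff.mp (sc_mem u) g))]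
  have hscmul : ∀ u v : Fˣ, sc n (u * v) = sc n u * sc n v := fun u v => map_mul _ u v
  have hone : sc n (1 : Fˣ) = (1 : GL (Fin n) F) := map_one _
  have hscinj : Function.Injective (sc (F := F) n) := by
    intro u v h
    have h' := congrFun (congrFun (congrArg (fun g : GL (Fin n) F => (g : Matrix (Fin n) (Fin n) F)) h) ⟨0, by omega⟩) ⟨0, by omega⟩
    exact Units.ext (by simpa [coe_sc, Matrix.scalar_apply] using h')
  -- the non-split class
  obtain ⟨μ₀, hμ₀⟩ := FiniteField.exists_nonsquare (F := F) hchar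
  have hμ0 : μ₀ ≠ 0 := by rintro rfl; exact hμ₀ IsSquare.zero
  set μ : Fˣ := Units.mk0 μ₀ hμ0 with hμ
  have hμsq : ∀ d : Fˣ, μ ≠ d ^ 2 := fun d h => hμ₀ ⟨d, by
    rw [show μ₀ = ((μ : Fˣ) : F) from rfl, h, Units.val_pow_eq_pow_val, sq]⟩
  set π₀ : F[X] := X ^ 2 - C μ₀ with hπ₀
  have hπ₀m : π₀.Monic := monic_X_pow_sub_C _ two_ne_zero
  have hπ₀d : π₀.natDegree = 2 := natDegree_X_pow_sub_C
  have hπ₀i : Irreducible π₀ := by
    rw [Polynomial.irreducible_iff_roots_eq_zero_of_degree_le_three (by rw [hπ₀d]) (by rw [hπ₀d]; norm_num)]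
    refine Multiset.eq_zero_of_forall_notMem fun x hx => ?_
    rw [mem_roots hπ₀m.ne_zero, hπ₀, IsRoot.def, eval_sub, eval_pow, eval_X, eval_C, sub_eq_zero] at hx
    exact hμ₀ ⟨x, by rw [← hx, sq]⟩
  have hsq_aeval : ∀ (g : GL (Fin n) F) (c : Fˣ), g ^ 2 = sc n c ↔ aeval (g : Matrix (Fin n) (Fin n) F) (X ^ 2 - C (c : F)) = 0 := by
    intro g c
    rw [map_sub, map_pow, aeval_X, aeval_C, sub_eq_zero, ← Units.val_pow_eq_pow_val, Units.ext_iff, coe_sc,
      Matrix.algebraMap_eq_diagonal, Matrix.scalar_apply]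
    rfl
  obtain ⟨g₀, hg₀⟩ : ∃ g : GL (Fin n) F, Even n → g ^ 2 = sc n μ ∧ (g : Matrix (Fin n) (Fin n) F).charpoly = π₀ ^ (n / 2) := by
    by_cases hev : Even n
    · have hn2 : n / 2 * 2 = n := Nat.div_mul_cancel (even_iff_two_dvd.mp hev)
      obtain ⟨g, hg, hgc⟩ := exists_GL_charpoly (p := p) (n := n) (hπ₀m.pow (n / 2))
        (by rw [natDegree_pow, hπ₀d, hn2]) (by
          rw [coeff_zero_eq_eval_zero, eval_pow, hπ₀, eval_sub, eval_pow, eval_X, eval_C, zero_pow two_ne_zero, zero_sub]
          exact pow_ne_zero _ (neg_ne_zero.mpr hμ0))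
      refine ⟨g, fun _ => ⟨(hsq_aeval g μ).mpr ?_, hgc⟩⟩
      rw [aeval_eq_zero_iff' (isSemisimple_of_coprime p g hg)]
      intro π hπ hd
      rw [hgc] at hd
      exact hπ.prime.dvd_of_dvd_pow hd
    · exact ⟨1, fun h => absurd h hev⟩
  set J : Finset ℕ := Finset.Icc 1 (n / 2) ∪ (if Even n then {0} else ∅) with hJ
  have hJcard : J.card = n / 2 + (if Even n then 1 else 0) := by
    rw [hJ, Finset.card_union_of_disjoint (by split_ifs <;> simp), Nat.card_Icc]
    split_ifs <;> simp
  have hJmem : ∀ j ∈ J, (j = 0 ∧ Even n) ∨ (1 ≤ j ∧ j ≤ n / 2) := by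
    intro j hj
    rcases Finset.mem_union.mp hj with h | h
    · exact Or.inr (Finset.mem_Icc.mp h)
    · by_cases hev : Even n
      · rw [if_pos hev, Finset.mem_singleton] at h; exact Or.inl ⟨h, hev⟩
      · rw [if_neg hev] at h; exact absurd h (Finset.notMem_empty j)
  let rep : ℕ → GL (Fin n) F := fun j => if j = 0 then g₀ else diagInv n j
  let cst : ℕ → Fˣ := fun j => if j = 0 then μ else 1
  have hrep2 : ∀ j ∈ J, rep j ^ 2 = sc n (cst j) := by
    intro j hj
    rcases hJmem j hj with ⟨rfl, hev⟩ | ⟨h1, -⟩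
    · exact (hg₀ hev).1
    · simp only [rep, cst, if_neg (show j ≠ 0 by omega)]
      rw [diagInv_sq, hone]
  have hrepnc : ∀ j ∈ J, rep j ∉ Subgroup.center (GL (Fin n) F) := by
    intro j hj hc
    obtain ⟨u, hu⟩ := mem_center.mp hc
    rcases hJmem j hj with ⟨rfl, hev⟩ | ⟨h1, h2'⟩
    · have := (hg₀ hev).1
      rw [show g₀ = sc n u from hu.symm, ← map_pow] at this
      exact hμsq u (hscinj this).symm
    · simp only [rep, if_neg (show j ≠ 0 by omega)] at hu
      have e : ∀ k : Fin n, (u : F) = signs n j k := fun k => by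
        have := congrFun (congrFun (congrArg (fun g : GL (Fin n) F => (g : Matrix (Fin n) (Fin n) F)) hu) k) k
        simpa [coe_sc, coe_diagInv, Matrix.scalar_apply] using this
      have e0 := e ⟨0, by omega⟩
      rw [e ⟨n - 1, by omega⟩] at e0
      simp only [signs] at e0
      rw [if_neg (by omega), if_pos (by omega)] at e0
      exact hneg e0.symm
  have hmk : ∀ a b : GL (Fin n) F, IsConj (QuotientGroup.mk a : GL (Fin n) F ⧸ Subgroup.center (GL (Fin n) F))
      (QuotientGroup.mk b) → ∃ (x : GL (Fin n) F) (u : Fˣ), x * a * x⁻¹ * sc n u = b := by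
    intro a b h
    obtain ⟨y, hy⟩ := isConj_iff.mp h
    obtain ⟨x, rfl⟩ := QuotientGroup.mk_surjective y
    rw [← QuotientGroup.mk_inv, ← QuotientGroup.mk_mul, ← QuotientGroup.mk_mul, QuotientGroup.eq] at hy
    obtain ⟨u, hu⟩ := mem_center.mp hy
    exact ⟨x, u, by rw [hu, mul_inv_cancel_left]⟩
  have hcomm : ∀ (x : GL (Fin n) F) (u : Fˣ), x * sc n u = sc n u * x := fun x u =>
    Subgroup.mem_center_iff.mp (sc_mem u) x
  have hconjsq : ∀ (x a : GL (Fin n) F) (u c : Fˣ), a ^ 2 = sc n c →
      (x * a * x⁻¹ * sc n u) ^ 2 = sc n (c * u ^ 2) := by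
    intro x a u c ha
    rw [hscm, hscmul, sq, show x * a * x⁻¹ * (x * a * x⁻¹) = x * a ^ 2 * x⁻¹ by rw [sq]; group, ha, hcomm x c,
      mul_inv_cancel_right]
  have hcen : ∀ (g : GL (Fin n) F) (u : Fˣ),
      (QuotientGroup.mk (g * sc n u) : GL (Fin n) F ⧸ Subgroup.center (GL (Fin n) F)) = QuotientGroup.mk g := by
    intro g u
    rw [QuotientGroup.eq, mul_inv_rev, mul_assoc, inv_mul_cancel, mul_one]
    exact inv_mem (sc_mem u)
  rw [← hJcard, ← Fintype.card_coe J, ← Nat.card_eq_fintype_card]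
  refine (Nat.card_eq_of_bijective (fun j : J => (⟨ConjClasses.mk (QuotientGroup.mk (rep j)),
    QuotientGroup.mk (rep j), rfl, orderOf_eq_prime ?_ ?_⟩ :
      {C : ConjClasses (GL (Fin n) F ⧸ Subgroup.center (GL (Fin n) F)) //
        ∃ g : GL (Fin n) F ⧸ Subgroup.center (GL (Fin n) F), ConjClasses.mk g = C ∧ orderOf g = 2})) ⟨?_, ?_⟩).symm
  · rw [← QuotientGroup.mk_pow, QuotientGroup.eq_one_iff, hrep2 j j.2]
    exact sc_mem _
  · rw [Ne, QuotientGroup.eq_one_iff]
    exact hrepnc j j.2
  · rintro ⟨i, hi⟩ ⟨j, hj⟩ h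
    obtain ⟨x, u, hx⟩ := hmk _ _ (ConjClasses.mk_eq_mk_iff_isConj.mp (congrArg Subtype.val h))
    have hc : cst j = cst i * u ^ 2 := hscinj (by rw [← hrep2 j hj, ← hx, hconjsq x _ u _ (hrep2 i hi)])
    refine Subtype.ext ?_
    show i = j
    rcases hJmem i hi with ⟨rfl, -⟩ | ⟨hi1, hi2⟩ <;> rcases hJmem j hj with ⟨rfl, -⟩ | ⟨hj1, hj2⟩
    · rfl
    · simp only [cst, if_neg (show j ≠ 0 by omega), if_pos] at hc
      exact absurd (eq_inv_of_mul_eq_one_left hc.symm) (fun e => hμsq u⁻¹ (by rw [e, inv_pow]))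
    · simp only [cst, if_neg (show i ≠ 0 by omega), if_pos, one_mul] at hc
      exact absurd hc (hμsq u)
    · simp only [cst, if_neg (show i ≠ 0 by omega), if_neg (show j ≠ 0 by omega), one_mul] at hc
      have hu : (u : F) = 1 ∨ (u : F) = -1 := sq_eq_one_iff.mp (by rw [← Units.val_pow_eq_pow_val, ← hc, Units.val_one])
      have hχ : (X - C (-(1 : F))) ^ j * (X - C (1 : F)) ^ (n - j) =
          (X - C (-(u : F))) ^ i * (X - C (u : F)) ^ (n - i) := by
        rw [← charpoly_diagInv (show i ≤ n by omega) u,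
          show ((1 : F)) = ((1 : Fˣ) : F) from rfl, ← charpoly_diagInv (show j ≤ n by omega) 1, hone, mul_one]
        simp only [rep, if_neg (show i ≠ 0 by omega), if_neg (show j ≠ 0 by omega)] at hx
        rw [← hx, mul_assoc _ x⁻¹, hcomm x⁻¹, ← mul_assoc, mul_assoc x]
        rw [Units.val_mul, Units.val_mul, Matrix.coe_units_inv, Matrix.charpoly_units_conj]
      rcases hu with hu | hu <;> rw [hu] at hχ
      · exact (exp_unique hneg hχ).symm
      · rw [neg_neg, mul_comm ((X - C (1 : F)) ^ i)] at hχ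
        have := exp_unique hneg hχ
        omega
  · rintro ⟨C', g', rfl, hg'⟩
    obtain ⟨g, rfl⟩ := QuotientGroup.mk_surjective g'
    obtain ⟨hg2, hgne⟩ := orderOf_eq_prime_iff.mp hg'
    rw [← QuotientGroup.mk_pow, QuotientGroup.eq_one_iff] at hg2
    rw [Ne, QuotientGroup.eq_one_iff] at hgne
    obtain ⟨c, hc⟩ := mem_center.mp hg2
    suffices ∃ j ∈ J, ∃ u : Fˣ, IsConj (rep j) (g * sc n u) by
      obtain ⟨j, hj, u, hju⟩ := this
      refine ⟨⟨j, hj⟩, Subtype.ext (ConjClasses.mk_eq_mk_iff_isConj.mpr ?_)⟩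
      rw [← hcen g u]
      exact (QuotientGroup.mk' (Subgroup.center (GL (Fin n) F))).map_isConj hju
    have hsc : ∀ u : Fˣ, (g * sc n u) ^ 2 = sc n (c * u ^ 2) := fun u => by rw [hscm, ← hc, hscmul]
    by_cases hsq : IsSquare (c : F)
    · obtain ⟨d₀, hd₀⟩ := hsq
      have hd0 : d₀ ≠ 0 := by rintro rfl; exact c.ne_zero (by rw [hd₀, zero_mul])
      set u : Fˣ := (Units.mk0 d₀ hd0)⁻¹ with hu
      have hu2 : (g * sc n u) ^ 2 = sc n 1 := by
        rw [hsc]; congr 1; rw [hu, inv_pow, mul_inv_eq_one]; exact Units.ext (by rw [hd₀]; simp [sq])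
      have hg1 := hcop _ 1 hu2
      obtain ⟨i, k, hik⟩ := eq_pow_mul_pow (Matrix.charpoly_monic ((g * sc n u : GL (Fin n) F) : Matrix (Fin n) (Fin n) F))
        (irreducible_X_sub_C (-1 : F)) (monic_X_sub_C _) (irreducible_X_sub_C (1 : F)) (monic_X_sub_C _) (by
          intro π hπ hd
          have := (aeval_eq_zero_iff' (isSemisimple_of_coprime p _ hg1) _).mp ((hsq_aeval _ 1).mp hu2) π hπ hd
          rwa [Units.val_one, show (X : F[X]) ^ 2 - C 1 = (X - C (-1)) * (X - C 1) by rw [map_neg, map_one]; ring] at this)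
      have hikn : i + k = n := by
        have := congrArg Polynomial.natDegree hik
        rw [Matrix.charpoly_natDegree_eq_dim, Fintype.card_fin, natDegree_mul (pow_ne_zero _ (X_sub_C_ne_zero _))
          (pow_ne_zero _ (X_sub_C_ne_zero _)), natDegree_pow, natDegree_pow, natDegree_X_sub_C, natDegree_X_sub_C,
          mul_one, mul_one] at this
        exact this.symm
      have hdi : ∀ j, (orderOf (diagInv n j : GL (Fin n) F)).Coprime p := fun j =>
        hcop _ 1 (by rw [diagInv_sq, hone])
      have hc1 : IsConj (diagInv n i) (g * sc n u) := hconj _ _ (hdi i) hg1 (by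
        have h := charpoly_diagInv (F := F) (show i ≤ n by omega) 1
        rw [hone, mul_one, Units.val_one, show n - i = k by omega, ← hik] at h
        exact h)
      have hnc : g * sc n u ∉ Subgroup.center (GL (Fin n) F) := fun h => hgne (by
        simpa using mul_mem h (inv_mem (sc_mem (F := F) (n := n) u)))
      have hi0 : i ≠ 0 := by
        rintro rfl
        have : (diagInv n 0 : GL (Fin n) F) = 1 := Units.ext (by
          rw [coe_diagInv, Units.val_one, ← Matrix.diagonal_one]; simp [signs, funext_iff])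
        rw [this] at hc1
        obtain ⟨x, hx⟩ := isConj_iff.mp hc1
        exact hnc (by rw [← hx, mul_one, mul_inv_cancel]; exact one_mem _)
      have hin : i ≠ n := by
        rintro rfl
        have : (diagInv i i : GL (Fin i) F) = sc i (-1) := Units.ext (by
          rw [coe_diagInv, coe_sc, Matrix.scalar_apply]; congr 1; funext k; simp [signs, k.isLt])
        rw [this] at hc1
        obtain ⟨x, hx⟩ := isConj_iff.mp hc1
        exact hnc (by rw [← hx, hcomm, mul_inv_cancel_right]; exact sc_mem _)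
      by_cases hile : i ≤ n / 2
      · refine ⟨i, Finset.mem_union_left _ (Finset.mem_Icc.mpr ⟨by omega, hile⟩), u, ?_⟩
        simpa [rep, hi0] using hc1
      · refine ⟨n - i, Finset.mem_union_left _ (Finset.mem_Icc.mpr ⟨by omega, by omega⟩), u * -1, ?_⟩
        have hd : (diagInv n i * sc n (-1) : GL (Fin n) F) ^ 2 = sc n 1 := by
          rw [hscm, diagInv_sq, neg_one_sq, one_mul]
        have h1 : IsConj (diagInv n (n - i)) (diagInv n i * sc n (-1)) := hconj _ _ (hdi _) (hcop _ 1 hd) (by
          have h := charpoly_diagInv (F := F) (show n - i ≤ n by omega) 1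
          rw [hone, mul_one, Units.val_one] at h
          rw [h, charpoly_diagInv (show i ≤ n by omega), Units.val_neg, Units.val_one, neg_neg,
            show n - (n - i) = i by omega, mul_comm])
        obtain ⟨x, hx⟩ := isConj_iff.mp hc1
        have h2 : IsConj (diagInv n i * sc n (-1)) (g * sc n (u * -1)) := isConj_iff.mpr ⟨x, by
          rw [hscmul, ← mul_assoc g, ← hx]
          simp only [mul_assoc]
          rw [← hcomm x⁻¹]⟩
        have := h1.trans h2
        simpa [rep, show n - i ≠ 0 by omega] using this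
    · obtain ⟨d₀, hd₀⟩ : IsSquare ((c : F) * μ₀) := by
        rw [← quadraticChar_one_iff_isSquare (mul_ne_zero c.ne_zero hμ0), map_mul,
          quadraticChar_neg_one_iff_not_isSquare.mpr hsq, quadraticChar_neg_one_iff_not_isSquare.mpr hμ₀]
        rfl
      have hd0 : d₀ ≠ 0 := by rintro rfl; exact mul_ne_zero c.ne_zero hμ0 (by rw [hd₀, zero_mul])
      set u : Fˣ := μ * (Units.mk0 d₀ hd0)⁻¹ with hu
      have hu2 : (g * sc n u) ^ 2 = sc n μ := by
        rw [hsc]; congr 1; apply Units.ext
        rw [hu, hμ]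
        simp only [Units.val_mul, Units.val_pow_eq_pow_val, Units.val_inv_eq_inv_val, Units.val_mk0]
        field_simp
        linear_combination hd₀
      have hg1 := hcop _ μ hu2
      obtain ⟨i, k, hik⟩ := eq_pow_mul_pow (Matrix.charpoly_monic ((g * sc n u : GL (Fin n) F) : Matrix (Fin n) (Fin n) F))
        hπ₀i hπ₀m hπ₀i hπ₀m (by
          intro π hπ hd
          have := (aeval_eq_zero_iff' (isSemisimple_of_coprime p _ hg1) _).mp ((hsq_aeval _ μ).mp hu2) π hπ hd
          exact this.mul_right _)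
      rw [← pow_add] at hik
      have hdeg : (i + k) * 2 = n := by
        have := congrArg Polynomial.natDegree hik
        rw [Matrix.charpoly_natDegree_eq_dim, Fintype.card_fin, natDegree_pow, hπ₀d] at this
        exact this.symm
      have hev : Even n := ⟨i + k, by omega⟩
      refine ⟨0, Finset.mem_union_right _ (by rw [if_pos hev]; exact Finset.mem_singleton_self 0), u, ?_⟩
      show IsConj g₀ (g * sc n u)
      refine hconj _ _ (hcop _ μ (hg₀ hev).1) hg1 ?_
      rw [(hg₀ hev).2, hik, show n / 2 = i + k by omega]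

end Cfsg.Agent.S2577
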