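import Cfsg.Statements.S2578
import Cfsg.Agent.Lib.Generators.RegularCentralizer

set_option autoImplicit false
open Cfsg

namespace Cfsg.Agent.S2578

/-- Regular unipotent classes of SL_n(q): for n ≥ 2 over the field with q elements, the matrices u of determinant one with (u − 1)^n = 0 and rank(u − 1) = n − 1 form a single GL_n(q)-class which splits into exactly gcd(n, q − 1) conjugacy classes of SL_n(q). -/
theorem result {F : Type*} [Field F] [Fintype F] {q : ℕ} (hF : Fintype.card F = q) {n : ℕ} (hn : 2 ≤ n) : Nat.card {C : ConjClasses (Matrix.SpecialLinearGroup (Fin n) F) // ∃ u : Matrix.SpecialLinearGroup (Fin n) F, ConjClasses.mk u = C ∧ ((u : Matrix (Fin n) (Fin n) F) - 1) ^ n = 0 ∧ ((u : Matrix (Fin n) (Fin n) F) - 1).rank = n - 1} = Nat.gcd n (q - 1) := by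
  classical
  have hn0 : 0 < n := by omega
  obtain ⟨J, hJ⟩ : ∃ J, J = CfsgLib.Generators.shiftMatrix n F := ⟨_, rfl⟩
  have hJn : J ^ n = 0 := hJ ▸ CfsgLib.Generators.shiftMatrix_pow_self
  have hJr : J.rank = n - 1 := hJ ▸ CfsgLib.Generators.shiftMatrix_rank
  have hJdet : (1 + J).det = 1 := by
    have h := CfsgLib.Generators.det_polyIn hJn hn0 (fun i : Fin n => if (i : ℕ) ≤ 1 then (1 : F) else 0)
    rw [if_pos (show ((⟨0, hn0⟩ : Fin n) : ℕ) ≤ 1 from Nat.zero_le 1), one_pow] at h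
    rw [← h]
    congr 1
    rw [CfsgLib.Generators.polyIn, Finset.sum_eq_add (⟨0, hn0⟩ : Fin n) (⟨1, by omega⟩ : Fin n)]
    · simp
    · simp [Fin.ext_iff]
    · rintro i - ⟨h0, h1⟩
      rw [Ne, Fin.ext_iff] at h0 h1
      rw [if_neg (by simp only at h0 h1; omega), zero_smul]
    · simp
    · simp
  set u₀ : Matrix.SpecialLinearGroup (Fin n) F := ⟨1 + J, hJdet⟩
  set i₀ : Fin n := ⟨0, hn0⟩
  let D : Fˣ → GL (Fin n) F := fun d =>
    Matrix.GeneralLinearGroup.mkOfDetNeZero (Matrix.diagonal (Function.update (fun _ => (1 : F)) i₀ (d : F)))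
      (by rw [Matrix.det_diagonal, Finset.prod_update_of_mem (Finset.mem_univ _)]; simp)
  have hDdet : ∀ d, (D d : Matrix (Fin n) (Fin n) F).det = d := fun d => by
    show (Matrix.diagonal _).det = _
    rw [Matrix.det_diagonal, Finset.prod_update_of_mem (Finset.mem_univ _)]
    simp
  have hdet1 : ∀ g : GL (Fin n) F, ((g : Matrix (Fin n) (Fin n) F) * (1 + J) * ((g⁻¹ : GL (Fin n) F) : Matrix (Fin n) (Fin n) F)).det = 1 :=
    fun g => by
      rw [Matrix.det_mul_right_comm, ← Units.val_mul, mul_inv_cancel, Units.val_one, one_mul, hJdet]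
  let conjEl : GL (Fin n) F → Matrix.SpecialLinearGroup (Fin n) F := fun g => ⟨_, hdet1 g⟩
  have hcval : ∀ g, (conjEl g : Matrix (Fin n) (Fin n) F) =
      (g : Matrix (Fin n) (Fin n) F) * (1 + J) * ((g⁻¹ : GL (Fin n) F) : Matrix (Fin n) (Fin n) F) := fun g => rfl
  -- the SL-classes of two conjugates
  have hiff : ∀ g g' : GL (Fin n) F, IsConj (conjEl g) (conjEl g') ↔
      ∃ c : F, c ≠ 0 ∧ (g : Matrix (Fin n) (Fin n) F).det = (g' : Matrix (Fin n) (Fin n) F).det * c ^ n := by
    intro g g'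
    constructor
    · intro h
      obtain ⟨s, hs⟩ := isConj_iff.mp h
      rw [mul_inv_eq_iff_eq_mul] at hs
      have hs' := congrArg (fun t : Matrix.SpecialLinearGroup (Fin n) F => (t : Matrix (Fin n) (Fin n) F)) hs
      simp only [Matrix.SpecialLinearGroup.coe_mul, hcval] at hs'
      set X : Matrix (Fin n) (Fin n) F := ((g'⁻¹ : GL (Fin n) F) : Matrix (Fin n) (Fin n) F) * (s : Matrix (Fin n) (Fin n) F) * (g : Matrix (Fin n) (Fin n) F) with hX
      have hcomm : Commute X J := by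
        have h3 := congrArg (fun M => ((g'⁻¹ : GL (Fin n) F) : Matrix (Fin n) (Fin n) F) * M * (g : Matrix (Fin n) (Fin n) F)) hs'
        simp only [mul_assoc, Units.inv_mul_cancel_left, Units.inv_mul, mul_one] at h3
        have h2 : X * (1 + J) = (1 + J) * X := by
          rw [hX]; simp only [mul_assoc]; exact h3
        rw [mul_add, add_mul, mul_one, one_mul, add_right_inj] at h2
        exact h2
      obtain ⟨c, hc⟩ := CfsgLib.Generators.exists_polyIn_eq hJn hJr hcomm
      have hdetX := CfsgLib.Generators.det_polyIn hJn hn0 c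
      rw [hc, hX, Matrix.det_mul, Matrix.det_mul, s.2, mul_one] at hdetX
      have hg' : (g' : Matrix (Fin n) (Fin n) F).det * ((g'⁻¹ : GL (Fin n) F) : Matrix (Fin n) (Fin n) F).det = 1 := by
        rw [← Matrix.det_mul, ← Units.val_mul, mul_inv_cancel, Units.val_one, Matrix.det_one]
      refine ⟨c i₀, fun h0 => ?_, by rw [← hdetX, ← mul_assoc, hg', one_mul]⟩
      rw [h0, zero_pow (by omega)] at hdetX
      rcases mul_eq_zero.mp hdetX with h1 | h1
      · rw [h1, mul_zero] at hg'; exact zero_ne_one hg'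
      · exact IsUnit.ne_zero ((Matrix.isUnit_iff_isUnit_det _).mp g.isUnit) h1
    · rintro ⟨c, hc0, hc⟩
      let S : GL (Fin n) F := Matrix.GeneralLinearGroup.scalar (Fin n) (Units.mk0 c hc0)
      have hSv : (S : Matrix (Fin n) (Fin n) F) = c • 1 := by
        show Matrix.scalar (Fin n) c = _
        rw [Matrix.scalar_apply, Matrix.smul_one_eq_diagonal]
      set T : GL (Fin n) F := g' * S * g⁻¹ with hT
      have hTdet : (T : Matrix (Fin n) (Fin n) F).det = 1 := by
        rw [hT, Units.val_mul, Units.val_mul, Matrix.det_mul, Matrix.det_mul, hSv, Matrix.det_smul, Fintype.card_fin,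
          Matrix.det_one, mul_one, ← hc, ← Matrix.det_mul, ← Units.val_mul, mul_inv_cancel, Units.val_one, Matrix.det_one]
      let s : Matrix.SpecialLinearGroup (Fin n) F := ⟨_, hTdet⟩
      refine isConj_iff.mpr ⟨s, mul_inv_eq_iff_eq_mul.mpr (Subtype.ext ?_)⟩
      show (T : Matrix (Fin n) (Fin n) F) * (conjEl g : Matrix (Fin n) (Fin n) F) =
        (conjEl g' : Matrix (Fin n) (Fin n) F) * (T : Matrix (Fin n) (Fin n) F)
      rw [hcval, hcval, hT, Units.val_mul, Units.val_mul, hSv]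
      simp only [mul_assoc, Matrix.mul_smul, Matrix.smul_mul, one_mul, Units.inv_mul_cancel_left]
  have hprop : ∀ g, (((conjEl g : Matrix (Fin n) (Fin n) F) - 1) ^ n = 0 ∧ ((conjEl g : Matrix (Fin n) (Fin n) F) - 1).rank = n - 1) := by
    intro g
    have e : (conjEl g : Matrix (Fin n) (Fin n) F) - 1 = (g : Matrix (Fin n) (Fin n) F) * J * ((g⁻¹ : GL (Fin n) F) : Matrix (Fin n) (Fin n) F) := by
      rw [hcval, mul_add, add_mul, mul_one, ← Units.val_mul, mul_inv_cancel, Units.val_one, add_sub_cancel_left]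
    rw [e, Units.conj_pow, hJn, mul_zero, zero_mul]
    refine ⟨rfl, ?_⟩
    rw [Matrix.rank_mul_eq_left_of_isUnit_det _ _ ((Matrix.isUnit_iff_isUnit_det _).mp (g⁻¹).isUnit),
      Matrix.rank_mul_eq_right_of_isUnit_det _ _ ((Matrix.isUnit_iff_isUnit_det _).mp g.isUnit), hJr]
  set H : Subgroup Fˣ := (powMonoidHom n : Fˣ →* Fˣ).range with hH
  have hwd : ∀ a b : Fˣ, (QuotientGroup.leftRel H) a b →
      ConjClasses.mk (conjEl (D a)) = ConjClasses.mk (conjEl (D b)) := by
    intro a b hab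
    rw [QuotientGroup.leftRel_apply] at hab
    obtain ⟨c, hc⟩ := hab
    rw [ConjClasses.mk_eq_mk_iff_isConj, hiff, hDdet, hDdet]
    refine ⟨((c⁻¹ : Fˣ) : F), Units.ne_zero _, ?_⟩
    have hc' : c ^ n = a⁻¹ * b := hc
    rw [← Units.val_pow_eq_pow_val, inv_pow, hc', ← Units.val_mul, mul_inv_rev, inv_inv, ← mul_assoc, mul_inv_cancel, one_mul]
  let f : Fˣ ⧸ H → {C : ConjClasses (Matrix.SpecialLinearGroup (Fin n) F) // ∃ u : Matrix.SpecialLinearGroup (Fin n) F,
      ConjClasses.mk u = C ∧ ((u : Matrix (Fin n) (Fin n) F) - 1) ^ n = 0 ∧ ((u : Matrix (Fin n) (Fin n) F) - 1).rank = n - 1} :=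
    fun x => Quotient.liftOn' x (fun d => ⟨ConjClasses.mk (conjEl (D d)), conjEl (D d), rfl, hprop _⟩)
      (fun a b hab => Subtype.ext (hwd a b hab))
  have hf : Function.Bijective f := by
    refine ⟨fun x y hxy => ?_, ?_⟩
    · obtain ⟨a, rfl⟩ := QuotientGroup.mk_surjective x
      obtain ⟨b, rfl⟩ := QuotientGroup.mk_surjective y
      have h := congrArg Subtype.val hxy
      change ConjClasses.mk (conjEl (D a)) = ConjClasses.mk (conjEl (D b)) at h
      rw [ConjClasses.mk_eq_mk_iff_isConj, hiff, hDdet, hDdet] at h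
      obtain ⟨c, hc0, hc⟩ := h
      refine QuotientGroup.eq.mpr ⟨(Units.mk0 c hc0)⁻¹, ?_⟩
      show (Units.mk0 c hc0)⁻¹ ^ n = a⁻¹ * b
      have : a = b * (Units.mk0 c hc0) ^ n := Units.ext (by simpa using hc)
      rw [this, mul_inv_rev, mul_assoc, inv_mul_cancel, mul_one, inv_pow]
    · rintro ⟨C, u, rfl, hu1, hu2⟩
      obtain ⟨g, hg⟩ := CfsgLib.Generators.exists_conj_shift hu1 hu2
      rw [← hJ] at hg
      have hue : u = conjEl g := by
        apply Subtype.ext
        rw [hcval, mul_add, add_mul, mul_one, ← hg, mul_assoc, ← Units.val_mul, mul_inv_cancel, Units.val_one, mul_one]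
        exact (add_sub_cancel _ _).symm
      have hdg : (g : Matrix (Fin n) (Fin n) F).det ≠ 0 := IsUnit.ne_zero ((Matrix.isUnit_iff_isUnit_det _).mp g.isUnit)
      refine ⟨((Units.mk0 _ hdg : Fˣ) : Fˣ ⧸ H), Subtype.ext ?_⟩
      show ConjClasses.mk (conjEl (D _)) = ConjClasses.mk u
      rw [hue, ConjClasses.mk_eq_mk_iff_isConj, hiff, hDdet]
      exact ⟨1, one_ne_zero, by simp⟩
  rw [← Nat.card_congr (Equiv.ofBijective f hf), ← Subgroup.index_eq_card]
  have e1 := (powMonoidHom n : Fˣ →* Fˣ).range.card_mul_index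
  have e3 := (powMonoidHom n : Fˣ →* Fˣ).ker.card_mul_index
  rw [Subgroup.index_ker, IsCyclic.card_powMonoidHom_ker] at e3
  rw [Nat.gcd_comm, ← hF, ← Fintype.card_units, ← Nat.card_eq_fintype_card]
  have hpos : 0 < Nat.card (powMonoidHom n : Fˣ →* Fˣ).range := Nat.card_pos
  exact Nat.eq_of_mul_eq_mul_left hpos (e1.trans (e3.symm.trans (mul_comm _ _)))

end Cfsg.Agent.S2578
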