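import Cfsg.Statements.S2581
-- import your own Cfsg.Agent.* helpers here

set_option autoImplicit false
open Cfsg

namespace Cfsg.Agent.S2581

open Matrix

variable {F : Type*} [Field F] {t : ℕ} (d : Fin t → ℕ)

/-- The shift along every block. -/
private def blockShift : Matrix ((k : Fin t) × Fin (d k)) ((k : Fin t) × Fin (d k)) F :=
  Matrix.of fun x y => if x.1 = y.1 ∧ (x.2 : ℕ) = y.2 + 1 then 1 else 0

private theorem jordanTypeMatrix_eq : Cfsg.jordanTypeMatrix d F = 1 + blockShift d := by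
  ext ⟨k, a⟩ ⟨l, b⟩
  by_cases h : k = l
  · subst h
    rw [Cfsg.jordanTypeMatrix, blockDiagonal'_apply_eq]
    rcases eq_or_ne a b with rfl | hab
    · simp [Cfsg.jordanBlock, blockShift]
    · have hab' : (a : ℕ) ≠ b := fun e => hab (Fin.ext e)
      simp [Cfsg.jordanBlock, blockShift, Matrix.one_apply, hab, hab']
  · rw [Cfsg.jordanTypeMatrix, blockDiagonal'_apply_ne _ _ _ h]
    simp [blockShift, Matrix.one_apply, h]

private theorem shift_mul (M : Matrix ((k : Fin t) × Fin (d k)) ((k : Fin t) × Fin (d k)) F) (k : Fin t) (a : Fin (d k))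
    (y : (k : Fin t) × Fin (d k)) :
    ((blockShift d : Matrix ((k : Fin t) × Fin (d k)) ((k : Fin t) × Fin (d k)) F) * M : Matrix _ _ F) ⟨k, a⟩ y = if 0 < (a : ℕ) then M ⟨k, ⟨a - 1, by omega⟩⟩ y else 0 := by
  rw [Matrix.mul_apply]
  split_ifs with h
  · rw [Finset.sum_eq_single (⟨k, ⟨a - 1, by omega⟩⟩ : (k : Fin t) × Fin (d k))]
    · simp only [blockShift, Matrix.of_apply, true_and]
      rw [if_pos (by omega), one_mul]
    · rintro ⟨l, b⟩ - hne
      simp only [blockShift, Matrix.of_apply]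
      rw [if_neg, zero_mul]
      rintro ⟨rfl, hb⟩
      exact hne (congrArg (Sigma.mk k) (Fin.ext (by simp only; omega)))
    · exact fun hn => absurd (Finset.mem_univ _) hn
  · refine Finset.sum_eq_zero fun z _ => ?_
    simp only [blockShift, Matrix.of_apply]
    rw [if_neg (fun hz => by omega), zero_mul]

private theorem mul_shift (M : Matrix ((k : Fin t) × Fin (d k)) ((k : Fin t) × Fin (d k)) F) (x : (k : Fin t) × Fin (d k))
    (l : Fin t) (b : Fin (d l)) :
    (M * (blockShift d : Matrix ((k : Fin t) × Fin (d k)) ((k : Fin t) × Fin (d k)) F) : Matrix _ _ F) x ⟨l, b⟩ = if h : (b : ℕ) + 1 < d l then M x ⟨l, ⟨b + 1, h⟩⟩ else 0 := by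
  rw [Matrix.mul_apply]
  split_ifs with h
  · rw [Finset.sum_eq_single (⟨l, ⟨b + 1, h⟩⟩ : (k : Fin t) × Fin (d k))]
    · simp [blockShift]
    · rintro ⟨k, a⟩ - hne
      simp only [blockShift, Matrix.of_apply]
      rw [if_neg, mul_zero]
      rintro ⟨rfl, hb⟩
      exact hne (congrArg (Sigma.mk k) (Fin.ext hb))
    · exact fun hn => absurd (Finset.mem_univ _) hn
  · refine Finset.sum_eq_zero fun z _ => ?_
    simp only [blockShift, Matrix.of_apply]
    rw [if_neg, mul_zero]
    rintro ⟨hz, hb⟩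
    have h1 := z.2.isLt
    have h2 : d z.1 = d l := congrArg d hz
    omega

/-- The free entries of a matrix commuting with the shift. -/
private abbrev FreeIdx : Type := (kl : Fin t × Fin t) × Fin (min (d kl.1) (d kl.2))

private def coef (c : FreeIdx d → F) (k l : Fin t) (n : ℕ) : F :=
  if h : d k - d l ≤ n ∧ n < d k then c ⟨(k, l), ⟨n - (d k - d l), by simp only; omega⟩⟩ else 0

private def build (c : FreeIdx d → F) : Matrix ((k : Fin t) × Fin (d k)) ((k : Fin t) × Fin (d k)) F :=
  Matrix.of fun x y => if (y.2 : ℕ) ≤ x.2 then coef d c x.1 y.1 (x.2 - y.2) else 0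

private theorem build_comm (c : FreeIdx d → F) : blockShift d * build d c = build d c * blockShift d := by
  ext ⟨k, a⟩ ⟨l, b⟩
  rw [shift_mul, mul_shift]
  simp only [build, Matrix.of_apply]
  have := a.isLt
  have := b.isLt
  by_cases hb : (b : ℕ) + 1 < d l
  · rw [dif_pos hb]
    by_cases ha : (b : ℕ) + 1 ≤ (a : ℕ)
    · rw [if_pos (by omega), if_pos (by omega), if_pos ha, show (a : ℕ) - 1 - b = a - (b + 1) by omega]
    · rw [if_neg ha]
      by_cases ha0 : 0 < (a : ℕ)
      · rw [if_pos ha0, if_neg (by omega)]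
      · rw [if_neg ha0]
  · rw [dif_neg hb]
    split_ifs with h1 h2
    · exact dif_neg (by omega)
    · rfl
    · rfl

private theorem entry_eq {M : Matrix ((k : Fin t) × Fin (d k)) ((k : Fin t) × Fin (d k)) F}
    (hM : blockShift d * M = M * blockShift d) (k l : Fin t) (a : Fin (d k)) (b : Fin (d l)) :
    M ⟨k, a⟩ ⟨l, b⟩ = if (b : ℕ) ≤ a then M ⟨k, ⟨a - b, by omega⟩⟩ ⟨l, ⟨0, b.pos⟩⟩ else 0 := by
  obtain ⟨b, hb⟩ := b
  induction b generalizing a with
  | zero => simp
  | succ b ih =>
    have h := congrFun (congrFun hM ⟨k, a⟩) ⟨l, ⟨b, by omega⟩⟩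
    rw [shift_mul, mul_shift, dif_pos hb] at h
    rw [← h]
    by_cases ha : 0 < (a : ℕ)
    · rw [if_pos ha, ih ⟨a - 1, by omega⟩]
      simp only
      by_cases hab : b + 1 ≤ (a : ℕ)
      · rw [if_pos (by omega), if_pos hab]
        simp only [show (a : ℕ) - 1 - b = a - (b + 1) by omega]
      · rw [if_neg (by omega), if_neg hab]
    · rw [if_neg ha, if_neg (by simp only; omega)]

private theorem entry_zero {M : Matrix ((k : Fin t) × Fin (d k)) ((k : Fin t) × Fin (d k)) F}
    (hM : blockShift d * M = M * blockShift d) (k l : Fin t) (a : Fin (d k)) (h0 : 0 < d l)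
    (ha : (a : ℕ) + d l < d k) : M ⟨k, a⟩ ⟨l, ⟨0, h0⟩⟩ = 0 := by
  have h := congrFun (congrFun hM ⟨k, ⟨a + d l, ha⟩⟩) ⟨l, ⟨d l - 1, by omega⟩⟩
  rw [shift_mul, mul_shift, dif_neg (by simp only; omega), if_pos (by simp only; omega), entry_eq d hM,
    if_pos (by simp only; omega)] at h
  rw [← h]
  congr 2
  exact Fin.ext (by simp only; omega)

private def commEquiv (hd : ∀ k, 1 ≤ d k) :
    {M : Matrix ((k : Fin t) × Fin (d k)) ((k : Fin t) × Fin (d k)) F // blockShift d * M = M * blockShift d} ≃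
      (FreeIdx d → F) where
  toFun M x := M.1 ⟨x.1.1, ⟨x.2 + (d x.1.1 - d x.1.2), by have := x.2.isLt; omega⟩⟩ ⟨x.1.2, ⟨0, hd _⟩⟩
  invFun c := ⟨build d c, build_comm d c⟩
  left_inv M := by
    apply Subtype.ext
    ext ⟨k, a⟩ ⟨l, b⟩
    rw [entry_eq d M.2]
    simp only [build, Matrix.of_apply]
    split_ifs with h
    · unfold coef
      have := a.isLt
      by_cases hc : d k - d l ≤ (a : ℕ) - b ∧ (a : ℕ) - b < d k
      · rw [dif_pos hc]
        exact congrArg (fun z => M.1 ⟨k, z⟩ ⟨l, ⟨0, hd l⟩⟩) (Fin.ext (by simp only; omega))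
      · rw [dif_neg hc]
        exact (entry_zero d M.2 k l _ _ (by simp only; omega)).symm
    · rfl
  right_inv c := by
    funext ⟨⟨k, l⟩, j⟩
    simp only [build, Matrix.of_apply, Nat.zero_le, if_true, Nat.sub_zero, coef]
    have := j.isLt
    simp only at this
    rw [dif_pos (by omega)]
    congr 2
    exact Fin.ext (by simp)

/-- The matrices commuting with the shift. -/
private abbrev Comm : Subring (Matrix ((k : Fin t) × Fin (d k)) ((k : Fin t) × Fin (d k)) F) :=
  Subring.centralizer {blockShift d}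

private theorem comm_mem (M : Matrix ((k : Fin t) × Fin (d k)) ((k : Fin t) × Fin (d k)) F) :
    M ∈ Comm d ↔ blockShift d * M = M * blockShift d := by
  simp [Comm, Subring.mem_centralizer_iff]

/-- The leading blocks, one for each block size. -/
private def lead (hd : ∀ k, 1 ≤ d k) :
    Comm (F := F) d →+* ((i : Fin (Finset.univ.sup d + 1)) → Matrix {k : Fin t // d k = i} {k : Fin t // d k = i} F) where
  toFun M i := Matrix.of fun k l => M.1 ⟨k.1, ⟨0, hd _⟩⟩ ⟨l.1, ⟨0, hd _⟩⟩
  map_one' := by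
    funext i; ext ⟨k, hk⟩ ⟨l, hl⟩
    simp only [Matrix.of_apply, OneMemClass.coe_one, Pi.one_apply]
    by_cases h : k = l
    · subst h; simp
    · rw [Matrix.one_apply_ne (by simp [h]), Matrix.one_apply_ne (by simpa using h)]
  map_zero' := rfl
  map_add' _ _ := rfl
  map_mul' M N := by
    funext i; ext ⟨k, hk⟩ ⟨l, hl⟩
    simp only [Matrix.of_apply, Pi.mul_apply, Matrix.mul_apply, Subring.coe_mul]
    rw [Fintype.sum_sigma]
    have hM := (comm_mem d M.1).mp M.2
    have hN := (comm_mem d N.1).mp N.2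
    have hb : ∀ (m : Fin t) (b : Fin (d m)), (b : ℕ) ≠ 0 → M.1 ⟨k, ⟨0, hd k⟩⟩ ⟨m, b⟩ * N.1 ⟨m, b⟩ ⟨l, ⟨0, hd l⟩⟩ = 0 := by
      intro m b hb
      rw [entry_eq d hM, if_neg (by simp only; omega), zero_mul]
    have hm : ∀ m : Fin t, d m ≠ (i : ℕ) → M.1 ⟨k, ⟨0, hd k⟩⟩ ⟨m, ⟨0, hd m⟩⟩ * N.1 ⟨m, ⟨0, hd m⟩⟩ ⟨l, ⟨0, hd l⟩⟩ = 0 := by
      intro m hm
      rcases Nat.lt_or_ge (d m) (i : ℕ) with h | h
      · rw [entry_zero d hM k m _ _ (by simp only; omega), zero_mul]
      · rw [entry_zero d hN m l _ _ (by simp only; omega), mul_zero]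
    rw [Finset.sum_congr rfl fun m _ => Finset.sum_eq_single (⟨0, hd m⟩ : Fin (d m))
      (fun b _ hne => hb m b fun e => hne (Fin.ext e)) (fun hn => absurd (Finset.mem_univ _) hn)]
    rw [← Finset.sum_filter_of_ne (p := fun m => d m = (i : ℕ)) fun m _ hne => by_contra fun h => hne (hm m h)]
    exact (Finset.sum_subtype _ (fun m => by simp) _)

private theorem lead_surjective (hd : ∀ k, 1 ≤ d k) : Function.Surjective (lead (F := F) d hd) := by
  intro A
  have hlt : ∀ k, d k < Finset.univ.sup d + 1 := fun k => Nat.lt_succ_of_le (Finset.le_sup (Finset.mem_univ k))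
  let c : FreeIdx d → F := fun x =>
    if h : d x.1.1 = d x.1.2 ∧ (x.2 : ℕ) = 0 then A ⟨d x.1.1, hlt _⟩ ⟨x.1.1, rfl⟩ ⟨x.1.2, h.1.symm⟩ else 0
  refine ⟨⟨build d c, (comm_mem d _).mpr (build_comm d c)⟩, ?_⟩
  funext i; ext ⟨k, hk⟩ ⟨l, hl⟩
  show build d c ⟨k, ⟨0, hd k⟩⟩ ⟨l, ⟨0, hd l⟩⟩ = _
  simp only [build, Matrix.of_apply, le_refl, if_true, Nat.sub_zero, coef]
  rw [dif_pos ⟨by omega, hd k⟩]
  simp only [c]
  rw [dif_pos ⟨by omega, by omega⟩]
  obtain rfl : i = ⟨d k, hlt k⟩ := Fin.ext hk.symm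
  rfl

private theorem isNilpotent_of_lead (hd : ∀ k, 1 ≤ d k) {M : Comm (F := F) d} (h : lead d hd M = 0) :
    IsNilpotent (M : Matrix ((k : Fin t) × Fin (d k)) ((k : Fin t) × Fin (d k)) F) := by
  classical
  set D := Finset.univ.sup d + 1
  have hlt : ∀ k, d k < D := fun k => Nat.lt_succ_of_le (Finset.le_sup (Finset.mem_univ k))
  let φ : (k : Fin t) × Fin (d k) → ℕ := fun x => (x.2 : ℕ) * D + (D - d x.1)
  have hM := (comm_mem d M.1).mp M.2
  have hstep : ∀ x y, M.1 x y ≠ 0 → φ y < φ x := by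
    rintro ⟨k, a⟩ ⟨l, b⟩ hne
    rw [entry_eq d hM] at hne
    have hba : (b : ℕ) ≤ a := by by_contra hc; rw [if_neg hc] at hne; exact hne rfl
    rw [if_pos hba] at hne
    have hkl : d k ≤ ((a : ℕ) - b) + d l := by
      by_contra hc
      exact hne (entry_zero d hM k l _ _ (by simp only; omega))
    have := hlt k
    have := hlt l
    have := hd k
    have := hd l
    simp only [φ]
    rcases Nat.lt_or_ge (b : ℕ) a with hlt' | hge
    · have : ((b : ℕ) + 1) * D ≤ (a : ℕ) * D := Nat.mul_le_mul_right D hlt'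
      rw [Nat.succ_mul] at this
      omega
    · have e : (a : ℕ) = b := le_antisymm hge hba
      have hne' : d k ≠ d l := fun hkl' => by
        apply hne
        have := congrFun (congrFun (congrFun h ⟨d k, hlt k⟩) ⟨k, rfl⟩) ⟨l, hkl'.symm⟩
        simp only [lead, RingHom.coe_mk, MonoidHom.coe_mk, OneHom.coe_mk, Matrix.of_apply, Pi.zero_apply, Matrix.zero_apply] at this
        rw [← this]
        exact congrArg (fun z => M.1 ⟨k, z⟩ ⟨l, ⟨0, hd l⟩⟩) (Fin.ext (by simp only; omega))
      rw [e]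
      omega
  have hpow : ∀ j x y, (M.1 ^ j) x y ≠ 0 → φ y + j ≤ φ x := by
    intro j
    induction j with
    | zero =>
      intro x y hxy
      rw [pow_zero, Matrix.one_apply] at hxy
      rcases eq_or_ne x y with rfl | hne
      · simp
      · simp [hne] at hxy
    | succ j ih =>
      intro x y hxy
      rw [pow_succ, Matrix.mul_apply] at hxy
      obtain ⟨z, -, hz⟩ := Finset.exists_ne_zero_of_sum_ne_zero hxy
      have h1 := ih x z (left_ne_zero_of_mul hz)
      have h2 := hstep z y (right_ne_zero_of_mul hz)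
      omega
  refine ⟨(Finset.univ.sup φ) + 1, ?_⟩
  ext x y
  by_contra hne
  have h1 := hpow _ x y hne
  have h2 := Finset.le_sup (f := φ) (Finset.mem_univ x)
  omega

private theorem sum_min (n : Fin t → ℕ) (D : ℕ) (hD : ∀ k, n k < D) :
    ∑ kl : Fin t × Fin t, min (n kl.1) (n kl.2) =
      2 * (∑ i ∈ Finset.range D, ∑ j ∈ Finset.range D, if i < j then
          i * (Finset.univ.filter (fun k : Fin t => n k = i)).card * (Finset.univ.filter (fun k : Fin t => n k = j)).card else 0) +
        ∑ i ∈ Finset.range D, i * (Finset.univ.filter (fun k : Fin t => n k = i)).card ^ 2 := by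
  classical
  set a : ℕ → ℕ := fun i => (Finset.univ.filter (fun k : Fin t => n k = i)).card with ha
  have hfib : ∀ f : ℕ → ℕ, ∑ k, f (n k) = ∑ i ∈ Finset.range D, a i * f i := fun f => by
    rw [← Finset.sum_fiberwise_of_maps_to (g := n) (t := Finset.range D) (fun k _ => Finset.mem_range.mpr (hD k))]
    refine Finset.sum_congr rfl fun i _ => ?_
    rw [Finset.sum_congr rfl fun k hk => by rw [(Finset.mem_filter.mp hk).2], Finset.sum_const, smul_eq_mul]
  rw [Fintype.sum_prod_type]
  simp only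
  rw [hfib (fun i => ∑ l, min i (n l))]
  rw [Finset.sum_congr rfl fun i _ => by rw [hfib (fun j => min i j), Finset.mul_sum]]
  rw [two_mul]
  nth_rewrite 2 [Finset.sum_comm]
  rw [← Finset.sum_add_distrib, ← Finset.sum_add_distrib]
  refine Finset.sum_congr rfl fun i hi => ?_
  rw [← Finset.sum_add_distrib, show i * a i ^ 2 = ∑ j ∈ Finset.range D, (if i = j then i * a i ^ 2 else 0) by
    rw [Finset.sum_ite_eq, if_pos hi], ← Finset.sum_add_distrib]
  refine Finset.sum_congr rfl fun j _ => ?_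
  rcases lt_trichotomy i j with h | h | h
  · simp only [h, h.ne, h.ne', lt_asymm h, if_true, if_false, min_eq_left h.le, ha]; ring
  · subst h
    simp only [lt_irrefl, if_true, if_false, min_self, ha]; ring
  · simp only [h, h.ne, h.ne', lt_asymm h, if_true, if_false, min_eq_right h.le, ha]; ring

/-- Order of the centraliser in GL of a unipotent matrix of given Jordan type over the field with q elements: if the type has a_i blocks of size i (all block sizes at least 1), the invertible matrices commuting with it number q^γ · Π_i |GL_(a_i)(q)| with γ = 2 Σ_(i<j) i a_i a_j + Σ_i (i − 1) a_i² (a group of order q^γ extended by Π GL_(a_i)(q)). -/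
theorem result {F : Type*} [Field F] [Fintype F] {q : ℕ} (hF : Fintype.card F = q) {t : ℕ} (d : Fin t → ℕ) (hd : ∀ k, 1 ≤ d k) : Nat.card {g : GL ((k : Fin t) × Fin (d k)) F // (g : Matrix ((k : Fin t) × Fin (d k)) ((k : Fin t) × Fin (d k)) F) * Cfsg.jordanTypeMatrix d F = Cfsg.jordanTypeMatrix d F * (g : Matrix ((k : Fin t) × Fin (d k)) ((k : Fin t) × Fin (d k)) F)} = q ^ (2 * (∑ i ∈ Finset.range (Finset.univ.sup d + 1), ∑ j ∈ Finset.range (Finset.univ.sup d + 1), if i < j then i * (Finset.univ.filter (fun k : Fin t => d k = i)).card * (Finset.univ.filter (fun k : Fin t => d k = j)).card else 0) + ∑ i ∈ Finset.range (Finset.univ.sup d + 1), (i - 1) * (Finset.univ.filter (fun k : Fin t => d k = i)).card ^ 2) * ∏ i ∈ Finset.range (Finset.univ.sup d + 1), ∏ j : Fin ((Finset.univ.filter (fun k : Fin t => d k = i)).card), (q ^ (Finset.univ.filter (fun k : Fin t => d k = i)).card - q ^ (j : ℕ)) := by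
  classical
  set a : ℕ → ℕ := fun i => (Finset.univ.filter (fun k : Fin t => d k = i)).card with ha
  set D := Finset.univ.sup d + 1 with hDdef
  let R := (i : Fin D) → Matrix {k : Fin t // d k = i} {k : Fin t // d k = i} F
  let π : Comm (F := F) d →+* R := lead d hd
  have hsurj : Function.Surjective π := lead_surjective d hd
  have hcomm : ∀ M : Matrix ((k : Fin t) × Fin (d k)) ((k : Fin t) × Fin (d k)) F,
      M * Cfsg.jordanTypeMatrix d F = Cfsg.jordanTypeMatrix d F * M ↔ M ∈ Comm (F := F) d := fun M => by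
    rw [jordanTypeMatrix_eq, mul_add, add_mul, mul_one, one_mul, add_right_inj, comm_mem, eq_comm]
  -- a commuting matrix is invertible when its leading blocks are
  have hiff : ∀ M : Comm (F := F) d, IsUnit (M : Matrix ((k : Fin t) × Fin (d k)) ((k : Fin t) × Fin (d k)) F) ↔ IsUnit (π M) := by
    intro M
    constructor
    · rintro ⟨u, hu⟩
      have hinv : ((u⁻¹ : (Matrix ((k : Fin t) × Fin (d k)) ((k : Fin t) × Fin (d k)) F)ˣ) : Matrix _ _ F) ∈ Comm (F := F) d := by
        have hcu : Commute (blockShift d) (u : Matrix ((k : Fin t) × Fin (d k)) ((k : Fin t) × Fin (d k)) F) := by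
          rw [hu]; exact (comm_mem d _).mp M.2
        exact (comm_mem d _).mpr hcu.units_inv_right
      have hu' : IsUnit M := ⟨⟨M, ⟨_, hinv⟩, Subtype.ext (by simp [← hu]), Subtype.ext (by simp [← hu])⟩, rfl⟩
      exact hu'.map π
    · rintro ⟨u, hu⟩
      obtain ⟨N, hN⟩ := hsurj ↑u⁻¹
      have h1 : π (M * N - 1) = 0 := by rw [map_sub, map_mul, hN, ← hu, Units.mul_inv, map_one, sub_self]
      have h2 := (isNilpotent_of_lead d hd h1).isUnit_one_add
      simp only [AddSubgroupClass.coe_sub, MulMemClass.coe_mul, OneMemClass.coe_one, add_sub_cancel] at h2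
      rw [Matrix.isUnit_iff_isUnit_det, Matrix.det_mul] at h2
      exact (Matrix.isUnit_iff_isUnit_det _).mpr (isUnit_of_mul_isUnit_left h2)
  -- the count
  let e1 : {g : GL ((k : Fin t) × Fin (d k)) F // (g : Matrix ((k : Fin t) × Fin (d k)) ((k : Fin t) × Fin (d k)) F) * Cfsg.jordanTypeMatrix d F = Cfsg.jordanTypeMatrix d F * (g : Matrix ((k : Fin t) × Fin (d k)) ((k : Fin t) × Fin (d k)) F)} ≃
      {M : Comm (F := F) d // IsUnit (π M)} :=
    { toFun := fun g => ⟨⟨g.1, (hcomm _).mp g.2⟩, (hiff _).mp g.1.isUnit⟩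
      invFun := fun M => ⟨((hiff M.1).mpr M.2).unit, (hcomm _).mpr M.1.2⟩
      left_inv := fun g => Subtype.ext (Units.ext rfl)
      right_inv := fun M => Subtype.ext (Subtype.ext rfl) }
  let e2 : {M : Comm (F := F) d // IsUnit (π M)} ≃ Rˣ × π.toAddMonoidHom.ker :=
    { toFun := fun M => (M.2.unit, ⟨M.1 - Function.surjInv hsurj (π M.1), by
        rw [AddMonoidHom.mem_ker]
        show π (_ - _) = 0
        rw [map_sub, Function.surjInv_eq hsurj, sub_self]⟩)
      invFun := fun x => ⟨x.2.1 + Function.surjInv hsurj (x.1 : R), by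
        have h0 : π x.2.1 = 0 := x.2.2
        rw [map_add, h0, zero_add, Function.surjInv_eq hsurj]; exact x.1.isUnit⟩
      left_inv := fun M => Subtype.ext (by simp)
      right_inv := fun x => by
        have h0 : π x.2.1 = 0 := x.2.2
        have h1 : π (x.2.1 + Function.surjInv hsurj (x.1 : R)) = x.1 := by
          rw [map_add, h0, zero_add, Function.surjInv_eq hsurj]
        refine Prod.ext (Units.ext h1) (Subtype.ext ?_)
        show x.2.1 + _ - Function.surjInv hsurj (π (x.2.1 + _)) = x.2.1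
        rw [h1, add_sub_cancel_right] }
  rw [Nat.card_congr (e1.trans e2), Nat.card_prod]
  have hC : Nat.card (Comm (F := F) d) = q ^ (∑ kl : Fin t × Fin t, min (d kl.1) (d kl.2)) := by
    rw [Nat.card_congr ((Equiv.subtypeEquivRight (comm_mem d)).trans (commEquiv d hd)), Nat.card_fun,
      Nat.card_eq_fintype_card, hF, Nat.card_eq_fintype_card, Fintype.card_sigma]
    simp
  have hR : Nat.card R = q ^ (∑ i ∈ Finset.range D, a i ^ 2) := by
    rw [Nat.card_pi, ← Finset.prod_pow_eq_pow_sum, ← Fin.prod_univ_eq_prod_range (fun i => q ^ a i ^ 2)]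
    refine Finset.prod_congr rfl fun i _ => ?_
    simp [Matrix, Nat.card_fun, Fintype.card_subtype, hF, ha, ← pow_mul, sq]
  have hU : Nat.card Rˣ = ∏ i ∈ Finset.range D, ∏ j : Fin (a i), (q ^ a i - q ^ (j : ℕ)) := by
    rw [Nat.card_congr MulEquiv.piUnits.toEquiv, Nat.card_pi,
      ← Fin.prod_univ_eq_prod_range (fun i => ∏ j : Fin (a i), (q ^ a i - q ^ (j : ℕ)))]
    refine Finset.prod_congr rfl fun i _ => ?_
    have e : Fintype.card {k : Fin t // d k = (i : ℕ)} = a i := Fintype.card_subtype _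
    let eK := Matrix.reindexAlgEquiv F F (Fintype.equivFinOfCardEq e)
    rw [Nat.card_congr (Units.mapEquiv eK.toRingEquiv.toMulEquiv).toEquiv]
    exact hF ▸ Matrix.card_GL_field (𝔽 := F) (a i)
  have hker : Nat.card π.toAddMonoidHom.ker * Nat.card R = Nat.card (Comm (F := F) d) := by
    rw [← AddSubgroup.card_mul_index π.toAddMonoidHom.ker, AddSubgroup.index_ker,
      AddMonoidHom.range_eq_top.mpr (fun x => hsurj x), AddSubgroup.card_top]
  rw [hR, hC] at hker
  have hq : 0 < q := hF ▸ Fintype.card_pos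
  have hexp : ∑ kl : Fin t × Fin t, min (d kl.1) (d kl.2) =
      (2 * (∑ i ∈ Finset.range D, ∑ j ∈ Finset.range D, if i < j then i * a i * a j else 0) +
        ∑ i ∈ Finset.range D, (i - 1) * a i ^ 2) + ∑ i ∈ Finset.range D, a i ^ 2 := by
    rw [sum_min d D (fun k => Nat.lt_succ_of_le (Finset.le_sup (Finset.mem_univ k))), add_assoc, ← Finset.sum_add_distrib]
    congr 1
    refine Finset.sum_congr rfl fun i _ => ?_
    rcases i with _ | i
    · have : a 0 = 0 := by
        rw [ha, Finset.card_eq_zero, Finset.filter_eq_empty_iff]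
        exact fun k _ h => absurd (hd k) (by omega)
      simp only [ha] at this
      simp [this, ha]
    · rw [Nat.add_sub_cancel, ← add_one_mul]
  rw [hexp, pow_add] at hker
  rw [hU, Nat.eq_of_mul_eq_mul_right (pow_pos hq _) hker, mul_comm]

end Cfsg.Agent.S2581
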