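import Cfsg.Statements.S2582
import Cfsg.Agent.Lib.Generators.UnipotentTypes
import Cfsg.Agent.Lib.Forms.SympBridge
import Cfsg.Agent.Lib.Forms.Symplectic

set_option autoImplicit false
open Cfsg

namespace Cfsg.Agent.S2582

open scoped Matrix
open CfsgLib.Generators.UnipotentTypes

/-- Which unipotent Jordan types occur in the finite symplectic group: over a finite field, a unipotent matrix with Jordan block sizes d_1, …, d_t (sum 2m, all at least 1) is similar to an element of Sp_2m(F) if and only if every odd block size occurs an even number of times. -/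
theorem result {F : Type*} [Field F] [Fintype F] {m t : ℕ} (d : Fin t → ℕ) (hd : ∀ k, 1 ≤ d k) (hsum : ∑ k, d k = 2 * m) : (∃ e : ((k : Fin t) × Fin (d k)) ≃ (Fin m ⊕ Fin m), ∃ A : Matrix.symplecticGroup (Fin m) F, IsConj (Matrix.reindex e e (Cfsg.jordanTypeMatrix d F)) (A : Matrix (Fin m ⊕ Fin m) (Fin m ⊕ Fin m) F)) ↔ ∀ j : ℕ, Odd j → Even (Finset.univ.filter (fun k : Fin t => d k = j)).card := by
  classical
  constructor
  · rintro ⟨e, A, h⟩ j hj
    obtain ⟨hn, hr⟩ := rankType_of_isConj d e h
    have halt : (CfsgLib.Omega.sympBilin m F).IsAlt := CfsgLib.Omega.sympBilin_self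
    have hB : (CfsgLib.Omega.sympBilin m F).Nondegenerate :=
      ⟨CfsgLib.Omega.sympBilin_nondegenerate, fun v hv => CfsgLib.Omega.sympBilin_nondegenerate v fun w =>
        halt.isRefl w v (hv w)⟩
    rw [← count_map_univ]
    exact even_count_odd hB halt (fun x y => by simp only [Matrix.toLin'_apply, CfsgLib.Omega.sympBilin_apply, CfsgLib.Omega.sympForm_mulVec_of_mem A.2]) hn hr j hj
  · intro hev
    obtain ⟨n, B, u, hB, hA, hu, hn, hr⟩ := altType_of_parts (F := F) (Finset.univ.val.map d)
      (fun b hb => by obtain ⟨k, -, rfl⟩ := Multiset.mem_map.mp hb; exact hd k)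
      (fun b _ ho => by rw [count_map_univ]; exact hev b ho)
    have hnm : n = 2 * m := by
      have h := hr.finrank_eq
      rw [Module.finrank_fin_fun] at h
      rw [h, ← hsum]; rfl
    have halt : (CfsgLib.Omega.sympBilin m F).IsAlt := CfsgLib.Omega.sympBilin_self
    have hB' : (CfsgLib.Omega.sympBilin m F).Nondegenerate :=
      ⟨CfsgLib.Omega.sympBilin_nondegenerate, fun v hv => CfsgLib.Omega.sympBilin_nondegenerate v fun w =>
        halt.isRefl w v (hv w)⟩
    obtain ⟨E, hE⟩ := CfsgLib.Forms.alt_isometric B hB hA (CfsgLib.Omega.sympBilin m F) hB' halt (by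
      rw [Module.finrank_fin_fun, Module.finrank_fintype_fun_eq_card, Fintype.card_sum, Fintype.card_fin, hnm]; omega)
    obtain ⟨v, hv1, hv2⟩ := exists_inverse hn
    let g : (Fin m ⊕ Fin m → F) ≃ₗ[F] (Fin m ⊕ Fin m → F) := LinearEquiv.ofLinear (E.conj u) (E.conj v)
      (LinearMap.ext fun x => by
        have h := LinearMap.congr_fun hv1 (E.symm x)
        rw [Module.End.mul_apply, Module.End.one_apply] at h
        simp [LinearEquiv.conj_apply, h])
      (LinearMap.ext fun x => by
        have h := LinearMap.congr_fun hv2 (E.symm x)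
        rw [Module.End.mul_apply, Module.End.one_apply] at h
        simp [LinearEquiv.conj_apply, h])
    have hg : ∀ x y, Cfsg.sympForm m F (g x) (g y) = Cfsg.sympForm m F x y := fun x y => by
      rw [← CfsgLib.Omega.sympBilin_apply, ← CfsgLib.Omega.sympBilin_apply]
      show CfsgLib.Omega.sympBilin m F (E (u (E.symm x))) (E (u (E.symm y))) = _
      rw [hE, hu, ← hE, E.apply_symm_apply, E.apply_symm_apply]
    have hlin : Matrix.toLin' ((CfsgLib.Forms.spOfEquiv g hg : Matrix (Fin m ⊕ Fin m) (Fin m ⊕ Fin m) F)) = E.conj u :=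
      LinearMap.ext fun x => by rw [Matrix.toLin'_apply, CfsgLib.Forms.spOfEquiv_mulVec]; rfl
    refine ⟨Fintype.equivOfCardEq (by simp [hsum]; omega), CfsgLib.Forms.spOfEquiv g hg,
      isConj_of_rankType d _ ?_ ?_⟩
    · rw [hlin]; exact isNilpotent_conj E hn
    · rw [hlin]; exact RankType.conj E (fun x => by simp [LinearEquiv.conj_apply]) hr

end Cfsg.Agent.S2582
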