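import Cfsg.Statements.S2584
import Cfsg.Agent.Lib.Generators.UnipotentTypes

set_option autoImplicit false
open Cfsg

namespace Cfsg.Agent.S2584

open scoped Matrix
open CfsgLib.Generators.UnipotentTypes

/-- Which unipotent Jordan types occur in a finite orthogonal group in characteristic two: over a finite field of characteristic 2 and in even dimension 2m, a unipotent matrix with Jordan block sizes d_1, …, d_t (sum 2m, all at least 1) is similar to an isometry of some quadratic form on F^(2m) with non-degenerate polar form if and only if every odd block size occurs an even number of times (the same condition as for the symplectic group, which contains these orthogonal groups). -/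
theorem result {F : Type*} [Field F] [Fintype F] [CharP F 2] {m t : ℕ} (d : Fin t → ℕ) (hd : ∀ k, 1 ≤ d k) (hsum : ∑ k, d k = 2 * m) : (∃ Q : QuadraticForm F (Fin (2 * m) → F), (QuadraticMap.polarBilin Q).Nondegenerate ∧ ∃ e : ((k : Fin t) × Fin (d k)) ≃ Fin (2 * m), ∃ A : ↥(Cfsg.isometryGroup F ⇑Q), IsConj (Matrix.reindex e e (Cfsg.jordanTypeMatrix d F)) ((A : Matrix.GeneralLinearGroup (Fin (2 * m)) F) : Matrix (Fin (2 * m)) (Fin (2 * m)) F)) ↔ ∀ j : ℕ, Odd j → Even (Finset.univ.filter (fun k : Fin t => d k = j)).card := by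
  classical
  constructor
  · rintro ⟨Q, hQ, e, A, h⟩ j hj
    obtain ⟨hn, hr⟩ := rankType_of_isConj d e h
    have hA : ∀ x, Q (Matrix.toLin' (((A : Matrix.GeneralLinearGroup (Fin (2 * m)) F) : Matrix (Fin (2 * m)) (Fin (2 * m)) F)) x) = Q x :=
      fun x => by rw [Matrix.toLin'_apply]; exact A.2 x x
    have hu : ∀ x y, QuadraticMap.polarBilin Q (Matrix.toLin' (((A : Matrix.GeneralLinearGroup (Fin (2 * m)) F) : Matrix (Fin (2 * m)) (Fin (2 * m)) F)) x)
        (Matrix.toLin' (((A : Matrix.GeneralLinearGroup (Fin (2 * m)) F) : Matrix (Fin (2 * m)) (Fin (2 * m)) F)) y) = QuadraticMap.polarBilin Q x y := fun x y => by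
      simp only [QuadraticMap.polarBilin_apply_apply, QuadraticMap.polar, ← map_add, hA]
    rw [← count_map_univ]
    refine even_count_odd hQ (fun x => ?_) hu hn hr j hj
    simp [two_smul, CharTwo.add_self_eq_zero]
  · intro hev
    obtain ⟨n', Q, u, hQ, hu, hn, hr⟩ := quadType_of_parts_two (F := F) (Finset.univ.val.map d)
      (fun b hb => by obtain ⟨k, -, rfl⟩ := Multiset.mem_map.mp hb; exact hd k)
      (fun b _ ho => by rw [count_map_univ]; exact hev b ho)
    have hnm : n' = (2 * m) := by
      have h := hr.finrank_eq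
      rw [Module.finrank_fin_fun] at h
      rw [h, ← hsum]; rfl
    subst hnm
    obtain ⟨v, hv1, hv2⟩ := exists_inverse hn
    let A : Matrix.GeneralLinearGroup (Fin (2 * m)) F := ⟨LinearMap.toMatrix' u, LinearMap.toMatrix' v,
      by rw [← LinearMap.toMatrix'_comp, ← Module.End.mul_eq_comp, hv1, Module.End.one_eq_id, LinearMap.toMatrix'_id],
      by rw [← LinearMap.toMatrix'_comp, ← Module.End.mul_eq_comp, hv2, Module.End.one_eq_id, LinearMap.toMatrix'_id]⟩
    have hlin : Matrix.toLin' (A : Matrix (Fin (2 * m)) (Fin (2 * m)) F) = u := Matrix.toLin'_toMatrix' u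
    have hmem : A ∈ Cfsg.isometryGroup F ⇑Q := fun x _ => by
      show Q ((A : Matrix (Fin (2 * m)) (Fin (2 * m)) F) *ᵥ x) = Q x
      rw [← Matrix.toLin'_apply, hlin, hu]
    refine ⟨Q, hQ, Fintype.equivOfCardEq (by simp [hsum]), ⟨A, hmem⟩, isConj_of_rankType d _ ?_ ?_⟩
    · rw [hlin]; exact hn
    · rw [hlin]; exact hr

end Cfsg.Agent.S2584
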