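import Cfsg.Statements.S2585
-- import your own Cfsg.Agent.* helpers here

set_option autoImplicit false
open Cfsg

namespace Cfsg.Agent.S2585

open Matrix in
private theorem sympForm_mulVec {F : Type*} [CommRing F] {m : ℕ} (A : Matrix.symplecticGroup (Fin m) F)
    (u v : Fin m ⊕ Fin m → F) :
    Cfsg.sympForm m F ((A : Matrix (Fin m ⊕ Fin m) (Fin m ⊕ Fin m) F) *ᵥ u)
      ((A : Matrix (Fin m ⊕ Fin m) (Fin m ⊕ Fin m) F) *ᵥ v) = Cfsg.sympForm m F u v := by
  have h := SymplecticGroup.mem_iff'.mp A.2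
  unfold Cfsg.sympForm
  rw [Matrix.mulVec_mulVec, dotProduct_mulVec, Matrix.vecMul_mulVec, ← Matrix.mul_assoc, h,
    ← dotProduct_mulVec]

/-- Over a finite field of characteristic two every element of the symplectic group is orthogonal for a suitable quadratic form: for each A in Sp_2m(F) there is a quadratic form Q on F^(2m) whose polar form is the alternating form defining Sp_2m(F) (so Q is non-degenerate) and which A preserves. Equivalently, for m ≥ 1, Sp_2m(F) is the union of the conjugates of its two orthogonal subgroups O⁺_2m(F) and O⁻_2m(F). -/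
theorem result {F : Type*} [Field F] [Fintype F] [CharP F 2] {m : ℕ} (A : Matrix.symplecticGroup (Fin m) F) : ∃ Q : QuadraticForm F (Fin m ⊕ Fin m → F), (∀ u v : Fin m ⊕ Fin m → F, QuadraticMap.polar ⇑Q u v = Cfsg.sympForm m F u v) ∧ ∀ v : Fin m ⊕ Fin m → F, Q ((A : Matrix (Fin m ⊕ Fin m) (Fin m ⊕ Fin m) F).mulVec v) = Q v := by
  classical
  set B : LinearMap.BilinForm F (Fin m ⊕ Fin m → F) :=
    Matrix.toBilin' (Matrix.fromBlocks 0 0 1 0) with hB
  set Q₀ : QuadraticForm F (Fin m ⊕ Fin m → F) := LinearMap.BilinMap.toQuadraticMap B with hQ₀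
  have hpol : ∀ u v, QuadraticMap.polar ⇑Q₀ u v = Cfsg.sympForm m F u v := by
    intro u v
    rw [hQ₀, LinearMap.BilinMap.polar_toQuadraticMap, hB]
    simp only [Matrix.toBilin'_apply', Cfsg.sympForm, Matrix.J, Matrix.fromBlocks_mulVec,
      dotProduct, Fintype.sum_sum_type, Sum.elim_inl, Sum.elim_inr, Matrix.zero_mulVec,
      Matrix.one_mulVec, Matrix.neg_mulVec, Pi.add_apply, Pi.zero_apply, Pi.neg_apply,
      Function.comp_apply, add_zero, zero_add, mul_zero, Finset.sum_const_zero, CharTwo.neg_eq]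
    rw [add_comm]
    exact congrArg (fun t => t + _) (Finset.sum_congr rfl fun i _ => mul_comm _ _)
  set L := Matrix.mulVecLin (A : Matrix (Fin m ⊕ Fin m) (Fin m ⊕ Fin m) F) with hL
  set D : (Fin m ⊕ Fin m → F) → F := fun v => Q₀ (L v) - Q₀ v with hD
  have hDadd : ∀ u v, D (u + v) = D u + D v := by
    intro u v
    have h1 : QuadraticMap.polar ⇑Q₀ (L u) (L v) = QuadraticMap.polar ⇑Q₀ u v := by
      rw [hpol, hpol]; exact sympForm_mulVec A u v
    simp only [QuadraticMap.polar] at h1
    simp only [hD, map_add]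
    linear_combination h1
  have hDsmul : ∀ (c : F) v, D (c • v) = c ^ 2 * D v := by
    intro c v
    simp only [hD, map_smul, QuadraticMap.map_smul, smul_eq_mul]; ring
  have hsq : ∀ x : F, ((frobeniusEquiv F 2).symm x) ^ 2 = x := fun x => frobeniusEquiv_symm_pow_p F 2 x
  have hinj : ∀ {x y : F}, x ^ 2 = y ^ 2 → x = y := fun {x y} h => by
    have h2 : (x - y) ^ 2 = 0 := by rw [sub_pow_char]; rw [h, sub_self]
    exact sub_eq_zero.mp (pow_eq_zero_iff two_ne_zero |>.mp h2)
  let ℓ : (Fin m ⊕ Fin m → F) →ₗ[F] F :=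
    { toFun := fun v => (frobeniusEquiv F 2).symm (D v)
      map_add' := fun u v => by simp [hDadd]
      map_smul' := fun c v => by
        apply hinj
        rw [hsq, RingHom.id_apply, smul_eq_mul, mul_pow, hsq, hDsmul] }
  have hℓ : ℓ ∈ LinearMap.range (L - LinearMap.id).dualMap := by
    rw [LinearMap.range_dualMap_eq_dualAnnihilator_ker, Submodule.mem_dualAnnihilator]
    intro v hv
    have hv' : L v = v := by
      have := LinearMap.mem_ker.mp hv
      simpa [sub_eq_zero] using this
    show (frobeniusEquiv F 2).symm (D v) = 0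
    simp [hD, hv']
  obtain ⟨a, ha⟩ := hℓ
  refine ⟨Q₀ + QuadraticMap.linMulLin a a, fun u v => ?_, fun v => ?_⟩
  · have h0 := hpol u v
    simp only [QuadraticMap.polar, QuadraticMap.add_apply, QuadraticMap.linMulLin_apply, map_add] at h0 ⊢
    have h2 : (2 : F) = 0 := CharTwo.two_eq_zero
    linear_combination h0 + (a u * a v) * h2
  · have h1 : a (L v - v) = ℓ v := by rw [← ha]; rfl
    have h3 : (a (L v - v)) ^ 2 = Q₀ (L v) - Q₀ v := by rw [h1]; exact hsq (D v)
    rw [map_sub] at h3
    simp only [QuadraticMap.add_apply, QuadraticMap.linMulLin_apply]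
    have h2 : (2 : F) = 0 := CharTwo.two_eq_zero
    change Q₀ (L v) + a (L v) * a (L v) = Q₀ v + a v * a v
    linear_combination h3 + (Q₀ (L v) - Q₀ v - a v * a v + a (L v) * a v) * h2

end Cfsg.Agent.S2585
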