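import Cfsg.Statements.S2587
import Cfsg.Agent.Lib.Generators.GU

set_option autoImplicit false
open Cfsg

namespace Cfsg.Agent.S2587

/-- Conjugacy in the finite general unitary group is controlled by the general linear group: two elements of GU_n(q) (the invertible matrices over the field with q² elements preserving the Hermitian form Σ u_i v_i^q) are conjugate in GU_n(q) if and only if they are conjugate in GL_n(q²). -/
theorem result {K : Type*} [Field K] [Fintype K] {q n : ℕ} (hK : Fintype.card K = q ^ 2) (A B : ↥(Cfsg.GU n K q)) : IsConj A B ↔ IsConj (A : GL (Fin n) K) (B : GL (Fin n) K) := by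
  classical
  constructor
  · intro h
    exact MonoidHom.map_isConj (Cfsg.GU n K q).subtype h
  · intro h
    obtain ⟨g, hg⟩ := isConj_iff.mp h
    set gm := (g : Matrix (Fin n) (Fin n) K) with hgm
    set Am := ((A : GL (Fin n) K) : Matrix (Fin n) (Fin n) K) with hAm
    set Bm := ((B : GL (Fin n) K) : Matrix (Fin n) (Fin n) K) with hBm
    have hA := (CfsgLib.Generators.mem_GU_iff_qAdjoint hK _).mp A.2
    have hB := (CfsgLib.Generators.mem_GU_iff_qAdjoint hK _).mp B.2
    rw [← hAm] at hA
    rw [← hBm] at hB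
    have hgA : gm * Am = Bm * gm := by
      have e : g * (A : GL (Fin n) K) = (B : GL (Fin n) K) * g := by rw [← hg]; group
      exact congrArg Units.val e
    set H := CfsgLib.Generators.qAdjoint q gm * gm with hH
    have hτ := fun X Y => CfsgLib.Generators.qAdjoint_mul hK (q := q) (n := Fin n) X Y
    have hHfix : CfsgLib.Generators.qAdjoint q H = H := by
      rw [hH, hτ, CfsgLib.Generators.qAdjoint_qAdjoint hK]
    have hτu : ∀ X : Matrix (Fin n) (Fin n) K, IsUnit X → IsUnit (CfsgLib.Generators.qAdjoint q X) := by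
      rintro _ ⟨u, rfl⟩
      refine IsUnit.of_mul_eq_one (CfsgLib.Generators.qAdjoint q ((u⁻¹ : (Matrix (Fin n) (Fin n) K)ˣ) : Matrix (Fin n) (Fin n) K)) ?_
      rw [← hτ, Units.inv_mul, CfsgLib.Generators.qAdjoint_one hK]
    have hHu : IsUnit H := (hτu _ g.isUnit).mul g.isUnit
    obtain ⟨x, hxu, hxe, hxc⟩ := CfsgLib.Generators.exists_qAdjoint_mul_eq hK hHu hHfix
    have hcomm : Commute Am H := by
      have e1 : CfsgLib.Generators.qAdjoint q Am * (H * Am) = H := by
        have : CfsgLib.Generators.qAdjoint q (gm * Am) * (gm * Am) = H := by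
          rw [hgA, hτ, mul_assoc, ← mul_assoc (CfsgLib.Generators.qAdjoint q Bm), hB, one_mul]
        rw [hτ] at this
        simpa [hH, mul_assoc] using this
      have hAA : Am * CfsgLib.Generators.qAdjoint q Am = 1 := mul_eq_one_comm.mp hA
      calc Am * H = Am * (CfsgLib.Generators.qAdjoint q Am * (H * Am)) := by rw [e1]
        _ = H * Am := by rw [← mul_assoc, hAA, one_mul]
    obtain ⟨xu, rfl⟩ := hxu
    set c : GL (Fin n) K := g * xu⁻¹ with hc
    have hcmem : c ∈ Cfsg.GU n K q := by
      rw [CfsgLib.Generators.mem_GU_iff_qAdjoint hK, hc, Units.val_mul, hτ, mul_assoc,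
        ← mul_assoc (CfsgLib.Generators.qAdjoint q gm), ← hH, ← hxe, mul_assoc, Units.mul_inv, mul_one,
        ← hτ, Units.mul_inv, CfsgLib.Generators.qAdjoint_one hK]
    refine isConj_iff.mpr ⟨⟨c, hcmem⟩, Subtype.ext ?_⟩
    have hAx : Commute (A : GL (Fin n) K) xu := Units.ext (hxc Am hcomm).eq
    show c * (A : GL (Fin n) K) * c⁻¹ = B
    rw [← hg, hc]
    calc g * xu⁻¹ * (A : GL (Fin n) K) * (g * xu⁻¹)⁻¹ = g * (xu⁻¹ * (A : GL (Fin n) K) * xu) * g⁻¹ := by group
      _ = _ := by rw [mul_assoc xu⁻¹, hAx.eq, inv_mul_cancel_left]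

end Cfsg.Agent.S2587
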