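import Cfsg.Statements.S2590
import Cfsg.Agent.Lib.Classes.SemisimpleIsometry
import Cfsg.Agent.Lib.Classes.OmegaClasses
-- import your own Cfsg.Agent.* helpers here

set_option autoImplicit false
open Cfsg

namespace Cfsg.Agent.S2590

open CfsgLib.Classes.SemiConj

/-- Two semisimple elements of odd order of a finite orthogonal group (isometry group of a quadratic form on F^n with non-degenerate polar form, F finite of characteristic p; the elements have odd order prime to p) are conjugate in the orthogonal group if and only if they are conjugate in GL_n(F). -/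
theorem result {F : Type*} [Field F] [Fintype F] {p : ℕ} [Fact p.Prime] [CharP F p] {n : ℕ} (Q : QuadraticForm F (Fin n → F)) (hQ : (QuadraticMap.polarBilin Q).Nondegenerate) (A B : ↥(Cfsg.isometryGroup F ⇑Q)) (hodd : Odd (orderOf A)) (hA : (orderOf A).Coprime p) : IsConj A B ↔ IsConj ((A : Matrix.GeneralLinearGroup (Fin n) F) : Matrix (Fin n) (Fin n) F) ((B : Matrix.GeneralLinearGroup (Fin n) F) : Matrix (Fin n) (Fin n) F) := by
  refine ⟨fun h => ((Units.coeHom _).comp (Cfsg.isometryGroup F (⇑Q)).subtype).map_isConj h, fun h => ?_⟩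
  obtain ⟨c, hc⟩ := h
  have hr : ((orderOf A : ℕ) : F) ≠ 0 := fun h => by
    rw [CharP.cast_eq_zero_iff F p] at h
    exact (Fact.out : p.Prime).not_dvd_one (hA ▸ Nat.dvd_gcd h dvd_rfl)
  set TA := Matrix.toLinAlgEquiv' ((A : Matrix.GeneralLinearGroup (Fin n) F) : Matrix (Fin n) (Fin n) F) with hTA
  set TB := Matrix.toLinAlgEquiv' ((B : Matrix.GeneralLinearGroup (Fin n) F) : Matrix (Fin n) (Fin n) F) with hTB
  let X : (Fin n → F) ≃ₗ[F] (Fin n → F) := LinearEquiv.ofLinearMap
    (Matrix.toLinAlgEquiv' (c : Matrix (Fin n) (Fin n) F))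
    (Matrix.toLinAlgEquiv' ((c⁻¹ : (Matrix (Fin n) (Fin n) F)ˣ) : Matrix (Fin n) (Fin n) F))
    (by rw [← Module.End.mul_eq_comp, ← map_mul, Units.mul_inv, map_one]; rfl)
    (by rw [← Module.End.mul_eq_comp, ← map_mul, Units.inv_mul, map_one]; rfl)
  have hX : ∀ v, X (TA v) = TB (X v) := fun v => LinearMap.congr_fun
    (show Matrix.toLinAlgEquiv' (c : Matrix (Fin n) (Fin n) F) * TA = TB * Matrix.toLinAlgEquiv' (c : Matrix (Fin n) (Fin n) F) by
      rw [hTA, hTB, ← map_mul, ← map_mul, hc.eq]) v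
  have hAr : TA ^ orderOf A = 1 := by
    rw [hTA, ← map_pow, ← Units.val_pow_eq_pow_val, ← SubgroupClass.coe_pow, pow_orderOf_eq_one, OneMemClass.coe_one,
      Units.val_one, map_one]
  have hBr : TB ^ orderOf A = 1 := by
    refine LinearMap.ext fun v => ?_
    obtain ⟨u, rfl⟩ := X.surjective v
    have key : ∀ k u, X ((TA ^ k) u) = (TB ^ k) (X u) := fun k => by
      induction k with
      | zero => simp
      | succ k ih => intro u; rw [pow_succ, pow_succ, Module.End.mul_apply, Module.End.mul_apply, ih, hX]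
    rw [← key, hAr]; rfl
  obtain ⟨g, hg, hgA⟩ := exists_quad_conj hQ hr hodd hAr hBr (fun v => A.2 v v) (fun v => B.2 v v) X hX
  refine isConj_iff.mpr ⟨CfsgLib.Classes.isoOfEquiv g hg, mul_inv_eq_iff_eq_mul.mpr (CfsgLib.OrthGen.ext_act fun v => ?_)⟩
  rw [CfsgLib.OrthGen.act_mul, CfsgLib.OrthGen.act_mul, CfsgLib.Classes.act_isoOfEquiv, CfsgLib.Classes.act_isoOfEquiv]
  exact hgA v

end Cfsg.Agent.S2590
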