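import Cfsg.Statements.S2591
import Cfsg.Agent.Lib.Classes.SympRegular
import Cfsg.Agent.Lib.Classes.QuadDisc
import Cfsg.Agent.Lib.Forms.Symplectic
-- import your own Cfsg.Agent.* helpers here

set_option autoImplicit false
open Cfsg

namespace Cfsg.Agent.S2591

open Matrix CfsgLib.Classes

/-- There is a regular unipotent element in `Sp_{2(k+1)}(F)`. -/
lemma exists_regular {F : Type*} [Field F] (k : ℕ) (h2 : (2 : F) ≠ 0) :
    ∃ u : SpMat k F, IsRegularUnipotent u := by
  classical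
  let N0 : Matrix (Fin (k + 1)) (Fin (k + 1)) F := Matrix.of fun i j => if (i : ℕ) = j + 1 then 1 else 0
  let A : Matrix (Fin (k + 1)) (Fin (k + 1)) F := 1 + N0
  let S : Matrix (Fin (k + 1)) (Fin (k + 1)) F := Matrix.diagonal (Pi.single 0 1)
  have hN0 : ∀ (j : ℕ) (a b : Fin (k + 1)), (a : ℕ) < b + j → (N0 ^ j) a b = 0 := by
    intro j
    induction j with
    | zero => intro a b hab; simp [Matrix.one_apply]; omega
    | succ j ih =>
      intro a b hab
      rw [pow_succ, Matrix.mul_apply]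
      refine Finset.sum_eq_zero fun c _ => ?_
      by_cases hcb : (c : ℕ) = b + 1
      · rw [ih a c (by omega), zero_mul]
      · simp [N0, hcb]
  have hnil : N0 ^ (k + 1) = 0 := Matrix.ext fun a b => hN0 _ a b (by omega)
  have hA : IsUnit A.det := (Matrix.isUnit_iff_isUnit_det _).mp
    ((IsNilpotent.mk _ _ hnil).isUnit_one_add)
  let M : Matrix (Fin (k + 1)) (Fin (k + 1)) F := (A⁻¹)ᵀ - 1
  have hM : M = -((A⁻¹)ᵀ * N0ᵀ) := by
    have h := congrArg Matrix.transpose (Matrix.mul_nonsing_inv A hA)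
    rw [Matrix.transpose_mul, show A = 1 + N0 from rfl, Matrix.transpose_add, Matrix.transpose_one,
      Matrix.mul_add, Matrix.mul_one] at h
    simp only [M, show A = 1 + N0 from rfl]
    nth_rewrite 2 [← h]
    abel
  have hMnil : M ^ (k + 1) = 0 := by
    have hc : Commute (A⁻¹)ᵀ N0ᵀ := by
      have hAN : Commute N0 A := (Commute.one_right _).add_right (Commute.refl _)
      have : Commute N0 A⁻¹ := by
        have h3 : A⁻¹ * (N0 * A) * A⁻¹ = A⁻¹ * (A * N0) * A⁻¹ := by rw [hAN.eq]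
        simp only [Matrix.mul_assoc, Matrix.mul_nonsing_inv A hA, Matrix.mul_one] at h3
        simp only [← Matrix.mul_assoc, Matrix.nonsing_inv_mul A hA, Matrix.one_mul] at h3
        exact h3.symm
      show (A⁻¹)ᵀ * N0ᵀ = N0ᵀ * (A⁻¹)ᵀ
      rw [← Matrix.transpose_mul, ← Matrix.transpose_mul, this.eq]
    rw [hM, neg_pow, hc.mul_pow, ← Matrix.transpose_pow N0, hnil, Matrix.transpose_zero, Matrix.mul_zero,
      Matrix.mul_zero]
  let D : SpMat k F := Matrix.fromBlocks A 0 0 (A⁻¹)ᵀ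
  let U : SpMat k F := Matrix.fromBlocks 1 S 0 1
  have hD : D ∈ symplecticGroup (Fin (k + 1)) F := by
    rw [SymplecticGroup.mem_iff]
    simp [D, Matrix.J, Matrix.fromBlocks_transpose, Matrix.fromBlocks_multiply, ← Matrix.transpose_mul,
      Matrix.mul_nonsing_inv A hA]
  have hU : U ∈ symplecticGroup (Fin (k + 1)) F := by
    rw [SymplecticGroup.mem_iff]
    simp [U, S, Matrix.J, Matrix.fromBlocks_transpose, Matrix.fromBlocks_multiply]
  have hu : D * U = Matrix.fromBlocks A (A * S) 0 (A⁻¹)ᵀ := by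
    simp [D, U, Matrix.fromBlocks_multiply]
  have hu1 : D * U - 1 = Matrix.fromBlocks N0 (A * S) 0 M := by
    rw [hu, ← Matrix.fromBlocks_one, sub_eq_add_neg, Matrix.fromBlocks_neg, Matrix.fromBlocks_add]
    simp [A, M, sub_eq_add_neg]
  refine ⟨D * U, h2, mul_mem hD hU, ?_, ?_⟩
  · rw [hu1, two_mul, pow_add]
    have hb : ∀ j : ℕ, ∃ X, (Matrix.fromBlocks N0 (A * S) 0 M : SpMat k F) ^ j = Matrix.fromBlocks (N0 ^ j) X 0 (M ^ j) := by
      intro j
      induction j with
      | zero => exact ⟨0, by simp [Matrix.fromBlocks_one]⟩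
      | succ j ih =>
        obtain ⟨X, hX⟩ := ih
        exact ⟨N0 ^ j * (A * S) + X * M, by simp [pow_succ, hX, Matrix.fromBlocks_multiply]⟩
    obtain ⟨X, hX⟩ := hb (k + 1)
    rw [hX, hnil, hMnil]
    simp [Matrix.fromBlocks_multiply]
  · have hker : ∀ w, (D * U - 1) *ᵥ w = 0 → w = w (.inl (Fin.last k)) • Pi.single (.inl (Fin.last k)) 1 := by
      intro w hw
      rw [hu1, Matrix.fromBlocks_mulVec] at hw
      have hw1 : ∀ i, (N0 *ᵥ (w ∘ Sum.inl) + (A * S) *ᵥ (w ∘ Sum.inr)) i = 0 := fun i => by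
        have := congrFun hw (.inl i); simpa using this
      have hw2 : M *ᵥ (w ∘ Sum.inr) = 0 := funext fun i => by
        have := congrFun hw (.inr i); simpa using this
      rw [hM, Matrix.neg_mulVec, neg_eq_zero, ← Matrix.mulVec_mulVec] at hw2
      have hy : N0ᵀ *ᵥ (w ∘ Sum.inr) = 0 := Matrix.mulVec_injective_of_isUnit
        ((Matrix.isUnit_iff_isUnit_det _).mpr (by rw [Matrix.det_transpose]; exact Matrix.isUnit_nonsing_inv_det A hA))
        (hw2.trans (Matrix.mulVec_zero _).symm)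
      have hys : ∀ j : Fin (k + 1), j ≠ 0 → w (.inr j) = 0 := by
        intro j hj
        have hj' : (j : ℕ) ≠ 0 := fun h => hj (Fin.ext h)
        have := congrFun hy ⟨(j : ℕ) - 1, by omega⟩
        simp only [Matrix.mulVec, dotProduct, Matrix.transpose_apply, N0, Matrix.of_apply, Pi.zero_apply,
          Function.comp_apply] at this
        rw [Finset.sum_eq_single j] at this
        · simpa [show (j : ℕ) - 1 + 1 = j by omega] using this
        · intro c _ hc
          have : (c : ℕ) ≠ (j : ℕ) - 1 + 1 := fun h => hc (Fin.ext (by omega))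
          simp [this]
        · simp
      have hS : (A * S) *ᵥ (w ∘ Sum.inr) = w (.inr 0) • (Pi.single 0 1 + N0 *ᵥ Pi.single 0 1) := by
        have hSy : S *ᵥ (w ∘ Sum.inr) = w (.inr 0) • Pi.single 0 1 := by
          funext i
          by_cases hi : i = 0 <;> simp [S, Matrix.mulVec_diagonal, hi]
        rw [← Matrix.mulVec_mulVec, hSy, Matrix.mulVec_smul, show A = 1 + N0 from rfl, Matrix.add_mulVec,
          Matrix.one_mulVec]
      have hrow : ∀ (x : Fin (k + 1) → F), (N0 *ᵥ x) 0 = 0 := fun x => by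
        simp [Matrix.mulVec, dotProduct, N0]
      have hy0 : w (.inr 0) = 0 := by
        have h0 := hw1 0
        rw [hS, Pi.add_apply, hrow, Pi.smul_apply, Pi.add_apply, hrow] at h0
        simpa using h0
      have hy' : w ∘ Sum.inr = 0 := funext fun j => by
        by_cases hj : j = 0
        · subst hj; exact hy0
        · exact hys j hj
      have hxs : ∀ i : Fin (k + 1), i ≠ Fin.last k → w (.inl i) = 0 := by
        intro i hi
        have hi' : (i : ℕ) < k := Fin.val_lt_last hi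
        have := hw1 ⟨(i : ℕ) + 1, by omega⟩
        rw [hy', Matrix.mulVec_zero, add_zero] at this
        simp only [Matrix.mulVec, dotProduct, N0, Matrix.of_apply, Function.comp_apply] at this
        rw [Finset.sum_eq_single i] at this
        · simpa using this
        · intro c _ hc
          have : (i : ℕ) ≠ c := fun h => hc (Fin.ext h.symm)
          simp [this]
        · simp
      funext x
      rcases x with i | j
      · by_cases hi : i = Fin.last k
        · subst hi; simp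
        · simp [hxs i hi, hi]
      · have := congrFun hy' j
        simp at this
        simp [this]
    have hne : (D * U - 1) *ᵥ Pi.single (.inl (Fin.last k)) 1 = 0 := by
      rw [hu1]
      funext x
      rcases x with i | i
      · simp [N0]; omega
      · simp
    have h1 := LinearMap.finrank_range_add_finrank_ker (D * U - 1).mulVecLin
    have h3 : LinearMap.ker (D * U - 1).mulVecLin = F ∙ (Pi.single (.inl (Fin.last k)) 1 : Fin (k + 1) ⊕ Fin (k + 1) → F) := by
      refine le_antisymm (fun w hw => Submodule.mem_span_singleton.mpr ⟨_, (hker w hw).symm⟩) ?_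
      rw [Submodule.span_singleton_le_iff_mem]
      exact hne
    have hne0 : (Pi.single (.inl (Fin.last k)) 1 : Fin (k + 1) ⊕ Fin (k + 1) → F) ≠ 0 := fun h => by
      simpa using congrFun h (.inl (Fin.last k))
    rw [h3, finrank_span_singleton hne0, Module.finrank_fintype_fun_eq_card, card_index] at h1
    rw [Matrix.rank]
    omega

/-- A self-adjoint invertible matrix is `g* g`. -/
lemma exists_spAdjUnit_mul {F : Type*} [Field F] {k : ℕ} (h2 : (2 : F) ≠ 0) (c : SpGL k F)
    (hc : spAdjUnit c = c) : ∃ g : SpGL k F, spAdjUnit g * g = c := by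
  classical
  set P : SpMat k F := Matrix.J (Fin (k + 1)) F * (c : SpMat k F) with hP
  have hskew : Pᵀ = -P := by
    have h1 : spAdj (c : SpMat k F) = c := congrArg Units.val hc
    conv_rhs => rw [hP, ← h1, spAdj, Matrix.mul_neg, neg_neg, ← Matrix.mul_assoc, ← Matrix.mul_assoc, J_mul_J]
    rw [hP, Matrix.transpose_mul, Matrix.J_transpose]
    simp
  have hJdet : IsUnit (Matrix.J (Fin (k + 1)) F).det := Matrix.isUnit_det_J _ _
  have nondeg : ∀ {T : SpMat k F}, IsUnit T → (Matrix.toBilin' T).Nondegenerate := fun {T} hT =>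
    LinearMap.BilinForm.nondegenerate_toBilin'_iff_det_ne_zero.mpr ((Matrix.isUnit_iff_isUnit_det _).mp hT).ne_zero
  have alt : ∀ {T : SpMat k F}, Tᵀ = -T → (Matrix.toBilin' T).IsAlt := fun {T} hT x => by
    have h := Matrix.dotProduct_mulVec x T x
    rw [Matrix.toBilin'_apply']
    have h3 : x ⬝ᵥ T *ᵥ x = -(x ⬝ᵥ T *ᵥ x) := by
      conv_lhs => rw [Matrix.dotProduct_mulVec, dotProduct_comm, ← Matrix.mulVec_transpose, hT, Matrix.neg_mulVec, dotProduct_neg]
    have : 2 * (x ⬝ᵥ T *ᵥ x) = 0 := by linear_combination h3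
    exact (mul_eq_zero.mp this).resolve_left h2
  obtain ⟨e, he⟩ := CfsgLib.Forms.alt_isometric (Matrix.toBilin' P)
    (nondeg (((Matrix.isUnit_iff_isUnit_det _).mpr hJdet).mul c.isUnit)) (alt hskew)
    (Matrix.toBilin' (Matrix.J (Fin (k + 1)) F))
    (nondeg ((Matrix.isUnit_iff_isUnit_det _).mpr hJdet)) (alt (Matrix.J_transpose _ _)) rfl
  set A : SpMat k F := LinearMap.toMatrix' e.toLinearMap with hA
  have hkey : Aᵀ * Matrix.J (Fin (k + 1)) F * A = P := by
    ext i j
    have h := he (Pi.single i 1) (Pi.single j 1)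
    rw [Matrix.toBilin'_apply', Matrix.toBilin'_apply', Matrix.mulVec_single_one, single_one_dotProduct,
      Matrix.col_apply, ← LinearEquiv.coe_coe, ← LinearMap.toMatrix'_mulVec, ← LinearMap.toMatrix'_mulVec, ← hA,
      Matrix.mulVec_single_one, Matrix.mulVec_single_one] at h
    rw [← h, Matrix.mul_assoc, Matrix.mul_apply]
    simp [dotProduct, Matrix.mul_apply, Matrix.mulVec]
  have hAu : IsUnit A := by
    refine (Matrix.isUnit_iff_isUnit_det _).mpr (isUnit_iff_ne_zero.mpr fun h0 => ?_)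
    have h := congrArg Matrix.det hkey
    rw [Matrix.det_mul, h0, mul_zero, hP, Matrix.det_mul] at h
    exact mul_ne_zero hJdet.ne_zero ((Matrix.isUnit_iff_isUnit_det _).mp c.isUnit).ne_zero h.symm
  refine ⟨hAu.unit, Units.ext ?_⟩
  rw [Units.val_mul, coe_spAdjUnit, IsUnit.unit_spec, spAdj, Matrix.neg_mul,
    show Matrix.J (Fin (k + 1)) F * Aᵀ * Matrix.J (Fin (k + 1)) F * A =
      Matrix.J (Fin (k + 1)) F * (Aᵀ * Matrix.J (Fin (k + 1)) F * A) by simp only [Matrix.mul_assoc],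
    hkey, hP, ← Matrix.mul_assoc, J_mul_J]
  simp

lemma spAdjUnit_inv {F : Type*} [Field F] {k : ℕ} (g : SpGL k F) : spAdjUnit g⁻¹ = (spAdjUnit g)⁻¹ :=
  eq_inv_of_mul_eq_one_left (by
    rw [← spAdjUnit_mul, mul_inv_cancel]; exact Units.ext spAdj_one)

/-- Equal norms give elements differing by a symplectic matrix. -/
lemma isConj_of_norm_eq {F : Type*} [Field F] {k : ℕ} {u₁ u₂ : Matrix.symplecticGroup (Fin (k + 1)) F}
    {u₀ : SpMat k F} (g g' : SpGL k F) (hgg : spAdjUnit g * g = spAdjUnit g' * g')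
    (h₁ : (g : SpMat k F) * u₀ = u₁ * g) (h₂ : (g' : SpMat k F) * u₀ = u₂ * g') : IsConj u₁ u₂ := by
  let s : SpGL k F := g' * g⁻¹
  have hs : spAdjUnit s * s = 1 := by
    rw [spAdjUnit_mul, spAdjUnit_inv, mul_assoc, ← mul_assoc (spAdjUnit g'), ← hgg, mul_assoc, mul_inv_cancel,
      mul_one, inv_mul_cancel]
  have hmem : (s : SpMat k F) ∈ Matrix.symplecticGroup (Fin (k + 1)) F :=
    mem_symplecticGroup_iff_spAdj.mpr (congrArg Units.val hs)
  rw [isConj_iff]
  refine ⟨⟨_, hmem⟩, mul_inv_eq_of_eq_mul (Subtype.ext ?_)⟩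
  show ((g' * g⁻¹ : SpGL k F) : SpMat k F) * u₁ = u₂ * ((g' * g⁻¹ : SpGL k F) : SpMat k F)
  have h₁' : ((g⁻¹ : SpGL k F) : SpMat k F) * u₁ = u₀ * ((g⁻¹ : SpGL k F) : SpMat k F) := by
    have h := congrArg (fun X => ((g⁻¹ : SpGL k F) : SpMat k F) * X * ((g⁻¹ : SpGL k F) : SpMat k F)) h₁
    simp only [← Matrix.mul_assoc, Units.inv_mul, Matrix.one_mul] at h
    rw [Matrix.mul_assoc (_ * _) (g : SpMat k F), Units.mul_inv, Matrix.mul_one] at h
    exact h.symm
  rw [Units.val_mul, Matrix.mul_assoc, h₁', ← Matrix.mul_assoc, h₂, Matrix.mul_assoc]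


/-- Over a finite field of odd order and for m ≥ 1, the regular unipotent elements of Sp_2m(F) (u − 1 nilpotent of rank 2m − 1, a single Jordan block) form exactly two conjugacy classes of Sp_2m(F) (one class under the similarity group, which splits in two). -/
theorem result {F : Type*} [Field F] [Fintype F] {q : ℕ} (hF : Fintype.card F = q) (hq : Odd q) {m : ℕ} (hm : 1 ≤ m) : Nat.card {C : ConjClasses ↥(Matrix.symplecticGroup (Fin m) F) // ∃ u : Matrix.symplecticGroup (Fin m) F, ConjClasses.mk u = C ∧ ((u : Matrix (Fin m ⊕ Fin m) (Fin m ⊕ Fin m) F) - 1) ^ (2 * m) = 0 ∧ ((u : Matrix (Fin m ⊕ Fin m) (Fin m ⊕ Fin m) F) - 1).rank = 2 * m - 1} = 2 := by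
  classical
  obtain ⟨k, rfl⟩ : ∃ k, m = k + 1 := ⟨m - 1, by omega⟩
  have hchar : ringChar F ≠ 2 := by
    rw [Ne, FiniteField.even_card_iff_char_two, hF]
    obtain ⟨j, hj⟩ := hq
    omega
  have h2 : (2 : F) ≠ 0 := Ring.two_ne_zero hchar
  obtain ⟨u₀, h⟩ := exists_regular (F := F) k h2
  let U₀ : Matrix.symplecticGroup (Fin (k + 1)) F := ⟨u₀, h.mem⟩
  have hone : spAdjUnit (1 : SpGL k F) = 1 := Units.ext spAdj_one
  obtain ⟨ν, hν⟩ := FiniteField.exists_nonsquare hchar
  have hν0 : ν ≠ 0 := fun e => hν (e ▸ IsSquare.zero)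
  set νu : Fˣ := Units.mk0 ν hν0 with hνu
  obtain ⟨g₁, hg₁⟩ := exists_spAdjUnit_mul h2 ((scalarC u₀ νu : commutant u₀) : SpGL k F) (spAdjUnit_scalarC u₀ νu)
  set u₁ : SpMat k F := (g₁ : SpMat k F) * u₀ * ((g₁⁻¹ : SpGL k F) : SpMat k F) with hu₁
  have hu₁mem : u₁ ∈ Matrix.symplecticGroup (Fin (k + 1)) F := by
    have hc : Commute (spAdj (g₁ : SpMat k F) * (g₁ : SpMat k F)) u₀ := by
      have := congrArg Units.val hg₁
      rw [Units.val_mul, coe_spAdjUnit] at this
      rw [this]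
      exact (scalarC u₀ νu).2
    rw [mem_symplecticGroup_iff_spAdj, hu₁, spAdj_mul, spAdj_mul]
    calc _ = spAdj ((g₁⁻¹ : SpGL k F) : SpMat k F) * (spAdj u₀ * ((spAdj (g₁ : SpMat k F) * (g₁ : SpMat k F)) * u₀)) *
          ((g₁⁻¹ : SpGL k F) : SpMat k F) := by simp only [Matrix.mul_assoc]
      _ = spAdj ((g₁⁻¹ : SpGL k F) : SpMat k F) * (spAdj (g₁ : SpMat k F) * (g₁ : SpMat k F)) *
          ((g₁⁻¹ : SpGL k F) : SpMat k F) := by
        rw [hc.eq, ← Matrix.mul_assoc (spAdj u₀) u₀, spAdj_mul_self h.mem, Matrix.one_mul]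
      _ = 1 := by
        rw [← Matrix.mul_assoc, ← spAdj_mul, Units.mul_inv, spAdj_one, Matrix.one_mul, Units.mul_inv]
  let U₁ : Matrix.symplecticGroup (Fin (k + 1)) F := ⟨u₁, hu₁mem⟩
  have hg₁c : (g₁ : SpMat k F) * u₀ = u₁ * g₁ := by
    rw [hu₁, Matrix.mul_assoc _ _ (g₁ : SpMat k F), Units.inv_mul, Matrix.mul_one]
  have hconj1 : ∀ j : ℕ, (u₁ - 1) ^ j = (g₁ : SpMat k F) * (u₀ - 1) ^ j * ((g₁⁻¹ : SpGL k F) : SpMat k F) := by
    intro j
    induction j with
    | zero => simp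
    | succ j ih =>
      rw [pow_succ, ih, pow_succ, hu₁]
      simp only [Matrix.mul_sub, Matrix.sub_mul, Matrix.mul_one, Matrix.mul_assoc, Units.inv_mul_cancel_left, Units.mul_inv]
  have hreg₁ : (u₁ - 1) ^ (2 * (k + 1)) = 0 ∧ (u₁ - 1).rank = 2 * (k + 1) - 1 := by
    refine ⟨by rw [hconj1, h.nil, Matrix.mul_zero, Matrix.zero_mul], ?_⟩
    have e := hconj1 1
    rw [pow_one, pow_one] at e
    rw [e, Matrix.rank_mul_eq_left_of_isUnit_det _ _ ((Matrix.isUnit_iff_isUnit_det _).mp (g₁⁻¹).isUnit),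
      Matrix.rank_mul_eq_right_of_isUnit_det _ _ ((Matrix.isUnit_iff_isUnit_det _).mp g₁.isUnit), h.rank_eq]
  -- the two classes are different
  have hne : ¬ IsConj U₀ U₁ := by
    rw [isConj_iff]
    rintro ⟨s, hs⟩
    have hs' : (s.1 : SpMat k F) * u₀ = u₁ * s.1 := congrArg Subtype.val (mul_inv_eq_iff_eq_mul.mp hs)
    let S : SpGL k F := ⟨s.1, spAdj s.1, self_mul_spAdj s.2, spAdj_mul_self s.2⟩
    have hS : spAdjUnit S * S = 1 := Units.ext (spAdj_mul_self s.2)
    have hd : S⁻¹ * g₁ ∈ commutant u₀ := by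
      rw [mem_commutant]
      show ((S⁻¹ : SpGL k F) : SpMat k F) * g₁ * u₀ = u₀ * (((S⁻¹ : SpGL k F) : SpMat k F) * g₁)
      have e : ((S⁻¹ : SpGL k F) : SpMat k F) * u₁ = u₀ * ((S⁻¹ : SpGL k F) : SpMat k F) := by
        show spAdj s.1 * u₁ = u₀ * spAdj s.1
        have e2 := congrArg (fun X => spAdj s.1 * X * spAdj s.1) hs'
        simp only [← Matrix.mul_assoc, spAdj_mul_self s.2, Matrix.one_mul] at e2
        rw [Matrix.mul_assoc (_ * _) s.1, self_mul_spAdj s.2, Matrix.mul_one] at e2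
        exact e2.symm
      rw [Matrix.mul_assoc, hg₁c, ← Matrix.mul_assoc, e, Matrix.mul_assoc]
    have hd2 : adjNorm h ⟨_, hd⟩ = scalarC u₀ νu := by
      refine Subtype.ext ?_
      rw [coe_adjNorm, spAdjUnit_mul, spAdjUnit_inv, mul_assoc]
      have hinv : (spAdjUnit S)⁻¹ = S := inv_eq_of_mul_eq_one_right hS
      rw [hinv, mul_inv_cancel_left, hg₁]
    have h3 := congrArg Units.val (congrArg (constCoeff h) hd2)
    rw [constCoeff_adjNorm, constCoeff_scalarC] at h3
    exact hν ⟨(constCoeff h ⟨_, hd⟩ : Fˣ), by rw [← sq, ← Units.val_pow_eq_pow_val]; exact h3.symm⟩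
  -- every regular unipotent class is one of the two
  have hcover : ∀ v : Matrix.symplecticGroup (Fin (k + 1)) F, ((v : SpMat k F) - 1) ^ (2 * (k + 1)) = 0 →
      ((v : SpMat k F) - 1).rank = 2 * (k + 1) - 1 → IsConj U₀ v ∨ IsConj U₁ v := by
    intro v hv1 hv2
    have hcard := card_index k
    obtain ⟨x, hx⟩ := exists_cyclic_vector (u₀ - 1) (card_pos' k) (by rw [h.rank_eq, hcard])
    obtain ⟨y, hy⟩ := exists_cyclic_vector ((v : SpMat k F) - 1) (card_pos' k) (by rw [hv2, hcard])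
    obtain ⟨g, hg⟩ := exists_conj_of_cyclic (by rw [hcard]; exact h.nil) (by rw [hcard]; exact hv1) hx hy
    rw [Matrix.mul_sub, Matrix.sub_mul, Matrix.mul_one, Matrix.one_mul, sub_left_inj] at hg
    have hcmem : spAdjUnit g * g ∈ commutant u₀ := by
      rw [mem_commutant, Units.val_mul, coe_spAdjUnit]
      have h1 : spAdj (g : SpMat k F) * spAdj (v : SpMat k F) = spAdj u₀ * spAdj (g : SpMat k F) := by
        rw [← spAdj_mul, ← spAdj_mul, hg]
      show spAdj (g : SpMat k F) * (g : SpMat k F) * u₀ = u₀ * (spAdj (g : SpMat k F) * (g : SpMat k F))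
      calc spAdj (g : SpMat k F) * (g : SpMat k F) * u₀
          = (u₀ * spAdj u₀) * (spAdj (g : SpMat k F) * ((v : SpMat k F) * (g : SpMat k F))) := by
            rw [self_mul_spAdj h.mem, Matrix.one_mul, Matrix.mul_assoc, hg]
        _ = u₀ * ((spAdj u₀ * spAdj (g : SpMat k F)) * ((v : SpMat k F) * (g : SpMat k F))) := by simp only [Matrix.mul_assoc]
        _ = u₀ * (spAdj (g : SpMat k F) * ((spAdj (v : SpMat k F) * (v : SpMat k F)) * (g : SpMat k F))) := by
            rw [← h1]; simp only [Matrix.mul_assoc]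
        _ = _ := by rw [spAdj_mul_self v.2, Matrix.one_mul]
    set c : commutant u₀ := ⟨_, hcmem⟩ with hc
    have hcfix : spAdjUnit (c : SpGL k F) = c := by
      rw [hc]; show spAdjUnit (spAdjUnit g * g) = _
      rw [spAdjUnit_mul, spAdjUnit_spAdjUnit]
    by_cases hsq : IsSquare ((constCoeff h c : Fˣ) : F)
    · left
      obtain ⟨s, hs⟩ := hsq
      have hs0 : s ≠ 0 := fun e => (constCoeff h c).ne_zero (by rw [hs, e, mul_zero])
      obtain ⟨d, hd⟩ := mem_range_adjNorm h hcfix (s := Units.mk0 s hs0) (Units.ext (hs.trans (by simp [sq])))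
      refine isConj_of_norm_eq (u₀ := u₀) (d : SpGL k F) g (congrArg Subtype.val hd) ?_ hg
      exact d.2.eq
    · right
      have hsq' : IsSquare (((constCoeff h (c * (scalarC u₀ νu)⁻¹) : Fˣ) : F)) := by
        rw [map_mul, map_inv, constCoeff_scalarC, Units.val_mul, Units.val_inv_eq_inv_val, hνu, Units.val_mk0]
        exact (CfsgLib.Classes.isSquare_mul_iff h2 (constCoeff h c).ne_zero (inv_ne_zero hν0)).mpr
          ⟨fun e => absurd e hsq, fun e => absurd (isSquare_inv.mp e) hν⟩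
      obtain ⟨s, hs⟩ := hsq'
      have hs0 : s ≠ 0 := fun e => (constCoeff h (c * (scalarC u₀ νu)⁻¹)).ne_zero (by rw [hs, e, mul_zero])
      have hfix2 : spAdjUnit ((c * (scalarC u₀ νu)⁻¹ : commutant u₀) : SpGL k F) = (c * (scalarC u₀ νu)⁻¹ : commutant u₀) := by
        rw [Subgroup.coe_mul, spAdjUnit_mul, hcfix, ← map_inv, spAdjUnit_scalarC]
        exact congrArg Subtype.val (h.mul_comm _ _)
      obtain ⟨d, hd⟩ := mem_range_adjNorm h hfix2 (s := Units.mk0 s hs0) (Units.ext (hs.trans (by simp [sq])))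
      refine isConj_of_norm_eq (u₀ := u₀) (g₁ * (d : SpGL k F)) g ?_ ?_ hg
      · rw [spAdjUnit_mul, mul_assoc, ← mul_assoc (spAdjUnit g₁), hg₁]
        have : (⟨spAdjUnit (d : SpGL k F), spAdjUnit_mem h.mem d.2⟩ : commutant u₀) * (scalarC u₀ νu * d) = c := by
          rw [h.mul_comm (scalarC u₀ νu) d, ← mul_assoc, show
            (⟨spAdjUnit (d : SpGL k F), spAdjUnit_mem h.mem d.2⟩ : commutant u₀) * d = adjNorm h d from rfl, hd,
            inv_mul_cancel_right]
        exact congrArg Subtype.val this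
      · show ((g₁ * (d : SpGL k F) : SpGL k F) : SpMat k F) * u₀ = u₁ * ((g₁ * (d : SpGL k F) : SpGL k F) : SpMat k F)
        rw [Units.val_mul, Matrix.mul_assoc, d.2.eq, ← Matrix.mul_assoc, hg₁c, Matrix.mul_assoc]
  rw [Nat.card_eq_two_iff]
  refine ⟨⟨ConjClasses.mk U₀, U₀, rfl, h.nil, h.rank_eq⟩, ⟨ConjClasses.mk U₁, U₁, rfl, hreg₁.1, hreg₁.2⟩,
    fun e => hne (ConjClasses.mk_eq_mk_iff_isConj.mp (congrArg Subtype.val e)), ?_⟩
  rw [Set.eq_univ_iff_forall]
  rintro ⟨C, v, rfl, hv1, hv2⟩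
  rcases hcover v hv1 hv2 with e | e
  · left; exact Subtype.ext (ConjClasses.mk_eq_mk_iff_isConj.mpr e).symm
  · right; exact Subtype.ext (ConjClasses.mk_eq_mk_iff_isConj.mpr e).symm

end Cfsg.Agent.S2591
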