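import Cfsg.Statements.S2592
import Cfsg.Agent.Lib.Classes.SympRegular
-- import your own Cfsg.Agent.* helpers here

set_option autoImplicit false
open Cfsg

namespace Cfsg.Agent.S2592

/-- Over a finite field with q elements, q odd, the centraliser in Sp_2m(F) (m ≥ 1) of a regular unipotent element (u − 1 nilpotent of rank 2m − 1) has order 2 q^m. -/
theorem result {F : Type*} [Field F] [Fintype F] {q : ℕ} (hF : Fintype.card F = q) (hq : Odd q) {m : ℕ} (hm : 1 ≤ m) (u : Matrix.symplecticGroup (Fin m) F) (hnil : ((u : Matrix (Fin m ⊕ Fin m) (Fin m ⊕ Fin m) F) - 1) ^ (2 * m) = 0) (hreg : ((u : Matrix (Fin m ⊕ Fin m) (Fin m ⊕ Fin m) F) - 1).rank = 2 * m - 1) : Nat.card ↥(Subgroup.centralizer ({u} : Set ↥(Matrix.symplecticGroup (Fin m) F))) = 2 * q ^ m := by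
  classical
  obtain ⟨k, rfl⟩ : ∃ k, m = k + 1 := ⟨m - 1, by omega⟩
  subst hF
  have h2 : (2 : F) ≠ 0 := Ring.two_ne_zero (by
    rw [Ne, FiniteField.even_card_iff_char_two]
    obtain ⟨j, hj⟩ := hq
    omega)
  have h : CfsgLib.Classes.IsRegularUnipotent (u : CfsgLib.Classes.SpMat k F) := ⟨h2, u.2, hnil, hreg⟩
  rw [← CfsgLib.Classes.card_ker_adjNorm h]
  refine (Nat.card_congr ?_).symm
  refine
    { toFun := fun g => ⟨⟨((g.1 : CfsgLib.Classes.SpGL k F) : CfsgLib.Classes.SpMat k F), ?_⟩, ?_⟩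
      invFun := fun s => ⟨⟨⟨s.1.1, CfsgLib.Classes.spAdj s.1.1, CfsgLib.Classes.self_mul_spAdj s.1.2,
        CfsgLib.Classes.spAdj_mul_self s.1.2⟩, ?_⟩, ?_⟩
      left_inv := fun g => Subtype.ext (Subtype.ext (Units.ext rfl))
      right_inv := fun s => Subtype.ext (Subtype.ext rfl) }
  · exact CfsgLib.Classes.mem_symplecticGroup_iff_spAdj.mpr
      (congrArg (fun x : CfsgLib.Classes.commutant (u : CfsgLib.Classes.SpMat k F) => ((x : CfsgLib.Classes.SpGL k F) : CfsgLib.Classes.SpMat k F)) g.2)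
  · rw [Subgroup.mem_centralizer_singleton_iff]
    exact Subtype.ext g.1.2.eq
  · exact congrArg Subtype.val (Subgroup.mem_centralizer_singleton_iff.mp s.2)
  · exact Subtype.ext (Units.ext (CfsgLib.Classes.spAdj_mul_self s.1.2))

end Cfsg.Agent.S2592
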