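import Cfsg.Statements.S2593
import Cfsg.Agent.Lib.Classes.InvolutionCount
import Cfsg.Agent.Lib.Forms.SympBridge
-- import your own Cfsg.Agent.* helpers here

set_option autoImplicit false
open Cfsg

namespace Cfsg.Agent.S2593

open CfsgLib.Classes.InvTwo

/-- Number of conjugacy classes of involutions in the symplectic group Sp_2m(F) over a finite field of characteristic two (m ≥ 1): for each s with 1 ≤ s ≤ m there is one class with rank(t − 1) = s if s is odd and two if s is even (according as v ↦ f(v, tv), f the symplectic form, vanishes identically or not), so m + ⌊m/2⌋ classes in all. -/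
theorem result {F : Type*} [Field F] [Fintype F] [CharP F 2] {m : ℕ} (hm : 1 ≤ m) : Nat.card {C : ConjClasses ↥(Matrix.symplecticGroup (Fin m) F) // ∃ g : Matrix.symplecticGroup (Fin m) F, ConjClasses.mk g = C ∧ orderOf g = 2} = m + m / 2 := by
  classical
  set B := CfsgLib.Omega.sympBilin m F with hBdef
  have hB : B.Nondegenerate := CfsgLib.Forms.sympBilin_nondeg m F
  have hA : B.IsAlt := CfsgLib.Forms.sympBilin_isAlt m F
  let T : Matrix.symplecticGroup (Fin m) F → ((Fin m ⊕ Fin m → F) →ₗ[F] (Fin m ⊕ Fin m → F)) :=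
    fun g => (g : Matrix (Fin m ⊕ Fin m) (Fin m ⊕ Fin m) F).mulVecLin
  have hTmul : ∀ g h v, T (g * h) v = T g (T h v) := fun g h v => by
    simp only [T, Matrix.mulVecLin_apply, Matrix.mulVec_mulVec]; rfl
  have hTone : ∀ v, T 1 v = v := fun v => by simp [T]
  have hTiso : ∀ g u v, B (T g u) (T g v) = B u v := fun g u v => by
    simp only [hBdef, CfsgLib.Omega.sympBilin_apply, T, Matrix.mulVecLin_apply]
    exact CfsgLib.Omega.sympForm_mulVec_of_mem g.2 u v
  have hTinj : ∀ g h, (∀ v, T g v = T h v) → g = h := fun g h hgh =>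
    Subtype.ext (Matrix.ext_of_mulVec_single fun i => hgh _)
  let N : Matrix.symplecticGroup (Fin m) F → ((Fin m ⊕ Fin m → F) →ₗ[F] (Fin m ⊕ Fin m → F)) :=
    fun g => T g - LinearMap.id
  have hord : ∀ g, orderOf g = 2 → IsNilSelf B (N g) ∧ 1 ≤ Module.finrank F (LinearMap.range (N g)) := by
    intro g hg
    have h2 : g * g = 1 := by rw [← sq, ← hg, pow_orderOf_eq_one]
    refine ⟨isNilSelf_sub_id (hTiso g) (fun v => by rw [← hTmul, h2, hTone]), ?_⟩
    by_contra h
    have h0 : LinearMap.range (N g) = ⊥ := Submodule.finrank_eq_zero.mp (by omega)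
    have : g = 1 := hTinj g 1 fun v => by
      have hv := LinearMap.congr_fun (LinearMap.range_eq_bot.mp h0) v
      rw [hTone]; exact sub_eq_zero.mp hv
    rw [this, orderOf_one] at hg
    exact absurd hg (by omega)
  let f : Matrix.symplecticGroup (Fin m) F → ℕ × Bool :=
    fun g => (Module.finrank F (LinearMap.range (N g)), decide (IsAltType B (N g)))
  rw [card_classes_eq (fun g => orderOf g = 2) f (fun g g' hg hg' => by
    constructor
    · intro h
      obtain ⟨c, hc⟩ := isConj_iff.mp h
      rw [mul_inv_eq_iff_eq_mul] at hc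
      let e : (Fin m ⊕ Fin m → F) ≃ₗ[F] (Fin m ⊕ Fin m → F) :=
        LinearEquiv.ofLinearMap (T c) (T c⁻¹) (LinearMap.ext fun v => by simp [← hTmul, hTone])
          (LinearMap.ext fun v => by simp [← hTmul, hTone])
      obtain ⟨h1, h2⟩ := invariants_eq (B := B) (N := N g) (N' := N g') e (hTiso c) (fun v => by
        show T c (T g v - v) = T g' (T c v) - T c v
        rw [map_sub, ← hTmul, ← hTmul, hc])
      exact Prod.ext h1 (by simpa [f] using h2)
    · intro h
      simp only [f, Prod.mk.injEq, decide_eq_decide] at h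
      obtain ⟨e, he, heN⟩ := exists_conj hB hA (hord g hg).1 (hord g' hg').1 h.1 h.2
      let c := CfsgLib.Forms.spOfEquiv e (fun u v => by simpa [hBdef, CfsgLib.Omega.sympBilin_apply] using he u v)
      have hc : ∀ v, T c v = e v := fun v => CfsgLib.Forms.spOfEquiv_mulVec _ _ v
      refine isConj_iff.mpr ⟨c, mul_inv_eq_iff_eq_mul.mpr (hTinj _ _ fun v => ?_)⟩
      rw [hTmul, hTmul, hc, hc]
      have h3 := heN v
      simp only [N, LinearMap.sub_apply, LinearMap.id_apply, map_sub] at h3
      exact sub_left_injective h3)]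
  rw [show m + m / 2 = Nat.card {p : ℕ × Bool // 1 ≤ p.1 ∧ (p.2 = false → p.1 ≤ m) ∧ (p.2 = true → p.1 ≤ m ∧ Even p.1)}
    from (card_types m m).symm]
  refine Nat.card_congr (Equiv.subtypeEquivRight fun p => ⟨?_, ?_⟩)
  · rintro ⟨g, hg, rfl⟩
    obtain ⟨hN, h1⟩ := hord g hg
    have h2 := two_mul_rank_le hB hA hN
    rw [Module.finrank_fintype_fun_eq_card, Fintype.card_sum, Fintype.card_fin] at h2
    refine ⟨h1, fun _ => by simp only [f]; omega, fun h => ⟨by simp only [f]; omega, ?_⟩⟩
    exact IsAltType.even_rank hB hA hN (of_decide_eq_true h)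
  · rintro ⟨h1, h2, h3⟩
    obtain ⟨s, b⟩ := p
    simp only at h1 h2 h3
    have key : ∀ (ι : Type) [Fintype ι] [DecidableEq ι] (σ : ι → ι) (em : ι → Fin m), Function.Involutive σ →
        Function.Injective em → 1 ≤ Fintype.card ι → ∃ g, orderOf g = 2 ∧
          Module.finrank F (LinearMap.range (N g)) = Fintype.card ι ∧
          ((∀ i, σ i ≠ i) → IsAltType B (N g)) ∧ ((∃ i, σ i = i) → ¬IsAltType B (N g)) := by
      intro ι _ _ σ em hσ hem hcard
      let r : ι → (Fin m ⊕ Fin m → F) := fun i => Pi.single (Sum.inl (em i)) 1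
      have hr : LinearIndependent F r := by
        have := (Pi.basisFun F (Fin m ⊕ Fin m)).linearIndependent.comp (fun i => Sum.inl (em i))
          (Sum.inl_injective.comp hem)
        simpa [r, Function.comp_def] using this
      obtain ⟨hN, hrk, ht1, ht2⟩ := stdNil_spec (B := B) hB hA hσ hr (fun i j => by
        rw [hBdef, CfsgLib.Omega.sympBilin_apply, CfsgLib.Omega.sympForm_eq_sum]
        simp [r])
      obtain ⟨hi1, hi2⟩ := add_id_isometry hN
      let e : (Fin m ⊕ Fin m → F) ≃ₗ[F] (Fin m ⊕ Fin m → F) :=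
        LinearEquiv.ofLinearMap (LinearMap.id + stdNil B σ r) (LinearMap.id + stdNil B σ r)
          (LinearMap.ext hi2) (LinearMap.ext hi2)
      let g := CfsgLib.Forms.spOfEquiv e (fun u v => by
        simp only [← CfsgLib.Omega.sympBilin_apply]; exact hi1 u v)
      have hg : ∀ v, T g v = (LinearMap.id + stdNil B σ r : (Fin m ⊕ Fin m → F) →ₗ[F] (Fin m ⊕ Fin m → F)) v := fun v => CfsgLib.Forms.spOfEquiv_mulVec _ _ v
      have hNg : N g = stdNil B σ r := LinearMap.ext fun v => by
        show T g v - v = _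
        rw [hg, LinearMap.add_apply, LinearMap.id_apply, add_sub_cancel_left]
      refine ⟨g, orderOf_eq_prime ?_ ?_, by rw [hNg, hrk], by rw [hNg]; exact ht1, by rw [hNg]; exact ht2⟩
      · refine hTinj _ _ fun v => ?_
        rw [sq, hTmul, hg, hg, hTone]
        exact hi2 v
      · intro h0
        have hz : N g = 0 := LinearMap.ext fun v => by
          show T g v - v = 0
          rw [h0, hTone, sub_self]
        rw [hNg] at hz
        rw [hz, LinearMap.range_zero, finrank_bot] at hrk
        omega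
    cases b
    · obtain ⟨g, hg, hs, -, ht⟩ := key (Fin s) id (Fin.castLE (h2 rfl)) (fun _ => rfl) (Fin.castLE_injective _)
        (by simpa using h1)
      exact ⟨g, hg, Prod.ext (by simpa using hs) (by simpa [f] using ht ⟨⟨0, h1⟩, rfl⟩)⟩
    · obtain ⟨hsm, l, rfl⟩ := h3 rfl
      obtain ⟨g, hg, hs, ht, -⟩ := key (Fin l ⊕ Fin l) Sum.swap (Fin.castLE hsm ∘ finSumFinEquiv)
        (fun a => Sum.swap_swap a) ((Fin.castLE_injective _).comp finSumFinEquiv.injective) (by simp; omega)
      exact ⟨g, hg, Prod.ext (by simpa using hs) (by simpa [f] using ht (fun i => by cases i <;> simp))⟩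

end Cfsg.Agent.S2593
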