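import Cfsg.Statements.S2594
import Cfsg.Agent.Lib.ClassicalLinear.SympCard
-- import your own Cfsg.Agent.* helpers here

set_option autoImplicit false
open Cfsg

namespace Cfsg.Agent.S2594

open CfsgLib.ClassicalLinear

/-- Over a finite field with q elements, q even, an element t of Sp_2m(F) with rank(t − 1) = 1 (a symplectic transvection) has centraliser in Sp_2m(F) of order q^(2m−1) · |Sp_(2m−2)(q)| = q^(2m−1) · q^((m−1)²) · Π_(i=1)^(m−1) (q^(2i) − 1). -/
theorem result {F : Type*} [Field F] [Fintype F] [CharP F 2] {q : ℕ} (hF : Fintype.card F = q) {m : ℕ} (hm : 1 ≤ m) (t : Matrix.symplecticGroup (Fin m) F) (ht : ((t : Matrix (Fin m ⊕ Fin m) (Fin m ⊕ Fin m) F) - 1).rank = 1) : Nat.card ↥(Subgroup.centralizer ({t} : Set ↥(Matrix.symplecticGroup (Fin m) F))) = q ^ (2 * m - 1) * (q ^ ((m - 1) ^ 2) * ∏ i : Fin (m - 1), (q ^ (2 * ((i : ℕ) + 1)) - 1)) := by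
  classical
  obtain ⟨k, rfl⟩ : ∃ k, m = k + 1 := ⟨m - 1, by omega⟩
  set V := Fin (k + 1) ⊕ Fin (k + 1) → F
  set L := ((t : Matrix (Fin (k + 1) ⊕ Fin (k + 1)) (Fin (k + 1) ⊕ Fin (k + 1)) F) - 1).mulVecLin with hL
  have hr : Module.finrank F (LinearMap.range L) = 1 := ht
  obtain ⟨z', hz'0, hz'span⟩ := finrank_eq_one_iff'.mp hr
  set z : V := (z' : V) with hz
  have hz0 : z ≠ 0 := fun h => hz'0 (Subtype.ext h)
  have hspan : ∀ x, ∃ a : F, L x = a • z := fun x => by
    obtain ⟨a, ha⟩ := hz'span ⟨L x, LinearMap.mem_range_self L x⟩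
    exact ⟨a, (congrArg Subtype.val ha).symm⟩
  choose φ hφ using hspan
  have htx : ∀ x : V, t • x = x + φ x • z := fun x => by
    rw [← hφ, hL, Matrix.mulVecLin_apply, Matrix.sub_mulVec, Matrix.one_mulVec, sp_smul_eq]; abel
  have hskew : ∀ x y, φ y * Cfsg.sympForm (k + 1) F x z + φ x * Cfsg.sympForm (k + 1) F z y = 0 := fun x y => by
    have h := sympForm_smul t x y
    rw [htx, htx, sympForm_add_left, sympForm_add_right, sympForm_add_right, sympForm_smul_left,
      sympForm_smul_left, sympForm_smul_right, sympForm_smul_right, sympForm_self] at h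
    linear_combination h
  obtain ⟨y₀, hy₀⟩ := exists_sympForm_eq_one hz0
  set c := -φ y₀ with hc
  have hφc : ∀ x, φ x = c * Cfsg.sympForm (k + 1) F x z := fun x => by
    have h := hskew x y₀
    rw [hy₀] at h
    rw [hc]; linear_combination h
  have hc0 : c ≠ 0 := fun h => by
    have : LinearMap.range L = ⊥ := by
      refine LinearMap.range_eq_bot.mpr (LinearMap.ext fun x => ?_)
      rw [hφ, hφc, h, zero_mul, zero_smul]; rfl
    rw [this, finrank_bot] at hr; exact zero_ne_one hr
  have hteq : t = spT z c := sp_ext fun x => by rw [htx, spT_smul, hφc]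
  have hcent : Subgroup.centralizer ({t} : Set ↥(Matrix.symplecticGroup (Fin (k + 1)) F)) =
      MulAction.stabilizer _ z := by
    ext g
    rw [Subgroup.mem_centralizer_singleton_iff, MulAction.mem_stabilizer_iff]
    constructor
    · intro h
      have h2 : spT (g • z) c = spT z c := by rw [← conj_spT, ← hteq, h, mul_inv_cancel_right]
      obtain ⟨a, ha⟩ : ∃ a : F, g • z = a • z := by
        obtain ⟨y, hy⟩ := exists_sympForm_eq_one (u := g • z) (by
          intro h0; exact hz0 (by rw [← inv_smul_smul g z, h0, sp_smul_eq, Matrix.mulVec_zero]))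
        have h3 := congrArg (fun s : Matrix.symplecticGroup (Fin (k + 1)) F => s • y) h2
        simp only [spT_smul, add_right_inj] at h3
        rw [sympForm_skew y (g • z), hy] at h3
        refine ⟨(c * -1)⁻¹ * (c * Cfsg.sympForm (k + 1) F y z), ?_⟩
        rw [mul_smul, ← h3, smul_smul, inv_mul_cancel₀ (mul_ne_zero hc0 (neg_ne_zero.mpr one_ne_zero)), one_smul]
      have h3 := congrArg (fun s : Matrix.symplecticGroup (Fin (k + 1)) F => s • y₀) h2
      simp only [ha, spT_smul, add_right_inj, smul_smul] at h3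
      have h4 := smul_left_injective F hz0 h3
      rw [sympForm_smul_right, sympForm_skew y₀ z, hy₀] at h4
      have h5 : a ^ 2 = 1 := by
        have : c * (a ^ 2 - 1) = 0 := by linear_combination (-1 : F) * h4
        exact sub_eq_zero.mp ((mul_eq_zero.mp this).resolve_left hc0)
      rw [ha, show a = 1 from CharTwo.sq_injective (by simpa using h5), one_smul]
    · intro h
      refine mul_inv_eq_iff_eq_mul.mp ?_
      rw [hteq, conj_spT, h]
  rw [hcent]
  set G := Matrix.symplecticGroup (Fin (k + 1)) F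
  have horb : MulAction.orbit G z = ({0}ᶜ : Set V) := by
    ext y
    refine ⟨?_, fun hy => ?_⟩
    · rintro ⟨g, rfl⟩ h
      have h' : g • z = 0 := h
      exact hz0 (by rw [← inv_smul_smul g z, h', sp_smul_eq, Matrix.mulVec_zero])
    · exact exists_sp_smul_eq hz0 hy
  have hcount : Nat.card ({0}ᶜ : Set V) = q ^ (2 * (k + 1)) - 1 := by
    rw [Nat.card_coe_set_eq, Set.ncard_compl, Set.ncard_singleton, Nat.card_eq_fintype_card]
    simp [V, hF, two_mul]
  have hmul := (MulAction.stabilizer G z).card_mul_index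
  rw [MulAction.index_stabilizer, ← Nat.card_coe_set_eq, horb, hcount, card_sp, hF, Finset.prod_range_succ] at hmul
  have hpos : 0 < q ^ (2 * (k + 1)) - 1 := by
    have : 1 < q ^ (2 * (k + 1)) := Nat.one_lt_pow (by omega) (hF ▸ Fintype.one_lt_card)
    omega
  rw [Fin.prod_univ_eq_prod_range (fun i => q ^ (2 * (i + 1)) - 1) (k + 1 - 1), Nat.add_sub_cancel]
  refine Nat.eq_of_mul_eq_mul_right hpos (hmul.trans ?_)
  rw [← mul_assoc (q ^ _) (q ^ _), ← pow_add, show 2 * (k + 1) - 1 + k ^ 2 = (k + 1) ^ 2 by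
    rw [show 2 * (k + 1) - 1 = 2 * k + 1 by omega]; ring]
  ring

end Cfsg.Agent.S2594
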