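import Cfsg.Statements.S2597
import Cfsg.Agent.Lib.Classes.InvolutionForms
-- import your own Cfsg.Agent.* helpers here

set_option autoImplicit false
open Cfsg

namespace Cfsg.Agent.S2597

open CfsgLib.Classes.InvTwo

/-- Number of conjugacy classes of involutions in Ω⁺_2m(F) (the commutator subgroup of the orthogonal group of Σ x_i y_i) over a finite field F of characteristic two, m ≥ 1, excluding the case m = 2 over the field of two elements: the involutions of Ω are those with s = rank(t − 1) even, giving two O-classes for each even s with 2 ≤ s ≤ m, each of which is a single Ω-class except that for m even the class with s = m and v ↦ f(v, tv) identically zero splits in two; in all 2⌊m/2⌋ + 1 classes if m is even and 2⌊m/2⌋ if m is odd. -/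
theorem result {F : Type*} [Field F] [Fintype F] [CharP F 2] {m : ℕ} (hm : 1 ≤ m) (h : Fintype.card F ≠ 2 ∨ m ≠ 2) : Nat.card {C : ConjClasses ↥(Cfsg.Omega F (Cfsg.quadFormPlus m F)) // ∃ g : ↥(Cfsg.Omega F (Cfsg.quadFormPlus m F)), ConjClasses.mk g = C ∧ orderOf g = 2} = 2 * (m / 2) + (if Even m then 1 else 0) := by
  classical
  rw [← CfsgLib.Classes.coe_hypQ, card_omega_classes (CfsgLib.Classes.hypQ_nondegenerate F m)
    (CfsgLib.Classes.hypQ_gen F m h)]
  have hpred : ∀ p : (ℕ × Bool) × ℤˣ, RealisedOmega (CfsgLib.Classes.hypQ F m) p ↔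
      (((Even p.1.1 ∧ 1 ≤ p.1.1 ∧ (p.1.2 = false → p.1.1 ≤ m) ∧ (p.1.2 = true → p.1.1 ≤ m ∧ Even p.1.1)) ∧ p.2 = 1) ∨
        (Even m ∧ p = ((m, true), -1))) := by
    rintro ⟨⟨s, b⟩, e⟩
    simp only [RealisedOmega, realised_plus_iff, Fintype.card_sum, Fintype.card_fin, Prod.mk.injEq]
    constructor
    · rintro ⟨h1, h2, h3⟩
      rcases Int.units_eq_one_or e with rfl | rfl
      · exact Or.inl ⟨⟨h1, h2⟩, rfl⟩
      · rcases h3 with ⟨hb, hd⟩ | h3
        · obtain rfl : s = m := by omega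
          exact Or.inr ⟨h1, ⟨rfl, hb⟩, rfl⟩
        · exact absurd h3 (by decide)
    · rintro (⟨⟨h1, h2⟩, rfl⟩ | ⟨he, ⟨rfl, rfl⟩, rfl⟩)
      · exact ⟨h1, h2, Or.inr rfl⟩
      · exact ⟨he, ⟨hm, fun h => by simp at h, fun _ => ⟨le_rfl, he⟩⟩, Or.inl ⟨rfl, by omega⟩⟩
  rw [Nat.card_congr (Equiv.subtypeEquivRight hpred)]
  let A : Set ((ℕ × Bool) × ℤˣ) := {p | (Even p.1.1 ∧ 1 ≤ p.1.1 ∧ (p.1.2 = false → p.1.1 ≤ m) ∧ (p.1.2 = true → p.1.1 ≤ m ∧ Even p.1.1)) ∧ p.2 = 1}
  let B : Set ((ℕ × Bool) × ℤˣ) := {p | Even m ∧ p = ((m, true), -1)}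
  have hA : A.ncard = m / 2 + m / 2 := by
    rw [← card_even_types, ← Nat.card_coe_set_eq]
    exact (Nat.card_congr (Equiv.ofBijective (fun p : {p : ℕ × Bool // Even p.1 ∧ 1 ≤ p.1 ∧ (p.2 = false → p.1 ≤ m) ∧ (p.2 = true → p.1 ≤ m ∧ Even p.1)} => (⟨(p.1, 1), p.2, rfl⟩ : A)) ⟨fun p q hpq =>
      Subtype.ext (congrArg (fun r : A => r.1.1) hpq), fun ⟨⟨p, e⟩, hp, he⟩ => ⟨⟨p, hp⟩, Subtype.ext (Prod.ext rfl he.symm)⟩⟩)).symm
  have hB : B.ncard = if Even m then 1 else 0 := by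
    split_ifs with he
    · rw [show B = {((m, true), -1)} from Set.ext fun p => ⟨fun h => h.2, fun h => ⟨he, h⟩⟩, Set.ncard_singleton]
    · rw [show B = ∅ from Set.ext fun p => ⟨fun h => absurd h.1 he, fun h => h.elim⟩, Set.ncard_empty]
  have hfin : A.Finite := ((((Set.finite_le_nat m).prod Set.finite_univ).prod Set.finite_univ).subset fun p hp =>
    ⟨⟨Bool.casesOn (motive := fun b => p.1.2 = b → p.1.1 ≤ m) p.1.2 hp.1.2.2.1 (fun h => (hp.1.2.2.2 h).1) rfl, trivial⟩, trivial⟩)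
  have hfinB : B.Finite := (Set.finite_singleton ((m, true), (-1 : ℤˣ))).subset fun p hp => hp.2
  have hdis : Disjoint A B := Set.disjoint_left.mpr fun p hp hp' => by
    have := hp.2; rw [hp'.2] at this; exact absurd (show (-1 : ℤˣ) = 1 from this) (by decide)
  show Nat.card ↥(A ∪ B) = _
  rw [Nat.card_coe_set_eq, Set.ncard_union_eq hdis hfin hfinB, hA, hB]
  omega

end Cfsg.Agent.S2597
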