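import Cfsg.Statements.S2599
-- import your own Cfsg.Agent.* helpers here

set_option autoImplicit false
open Cfsg

namespace Cfsg.Agent.S2599

/-- An irreducible invariant subspace of a semisimple isometry is non-degenerate or totally singular: let Q be a quadratic form on F^n (F finite of characteristic p) with non-degenerate polar form f, x an isometry of Q of order prime to p, and U a non-zero x-invariant subspace containing no x-invariant subspace other than 0 and U. Then U meets its f-orthogonal trivially, or Q vanishes on U, or p = 2, U is a line spanned by a non-singular vector and x fixes U pointwise. -/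
theorem result {F : Type*} [Field F] [Fintype F] {p : ℕ} [Fact p.Prime] [CharP F p] {n : ℕ} (Q : QuadraticForm F (Fin n → F)) (hQ : (QuadraticMap.polarBilin Q).Nondegenerate) (x : ↥(Cfsg.isometryGroup F ⇑Q)) (hx : (orderOf x).Coprime p) (U : Submodule F (Fin n → F)) (hU0 : U ≠ ⊥) (hUx : ∀ u ∈ U, ((x : Matrix.GeneralLinearGroup (Fin n) F) : Matrix (Fin n) (Fin n) F).mulVec u ∈ U) (hirr : ∀ W : Submodule F (Fin n → F), W ≤ U → (∀ w ∈ W, ((x : Matrix.GeneralLinearGroup (Fin n) F) : Matrix (Fin n) (Fin n) F).mulVec w ∈ W) → W = ⊥ ∨ W = U) : U ⊓ LinearMap.BilinForm.orthogonal (QuadraticMap.polarBilin Q) U = ⊥ ∨ (∀ u ∈ U, Q u = 0) ∨ (p = 2 ∧ Module.finrank F U = 1 ∧ (∃ u ∈ U, Q u ≠ 0) ∧ ∀ u ∈ U, ((x : Matrix.GeneralLinearGroup (Fin n) F) : Matrix (Fin n) (Fin n) F).mulVec u = u) := by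
  classical
  set M : Matrix (Fin n) (Fin n) F := ((x : Matrix.GeneralLinearGroup (Fin n) F) : Matrix (Fin n) (Fin n) F) with hM
  have hQx : ∀ v, Q (M.mulVec v) = Q v := fun v => x.2 v v
  have hfx : ∀ u v, QuadraticMap.polarBilin Q (M.mulVec u) (M.mulVec v) = QuadraticMap.polarBilin Q u v := by
    intro u v
    simp only [QuadraticMap.polarBilin_apply_apply, QuadraticMap.polar, ← Matrix.mulVec_add, hQx]
  have hinj : Function.Injective M.mulVec :=
    Matrix.mulVec_injective_of_isUnit (x : Matrix.GeneralLinearGroup (Fin n) F).isUnit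
  have hsurj : ∀ u ∈ U, ∃ u' ∈ U, M.mulVec u' = u := by
    let f : U →ₗ[F] U := (Matrix.mulVecLin M).restrict hUx
    have hf : Function.Injective f := fun a b h => Subtype.ext (hinj (congrArg Subtype.val h))
    intro u hu
    obtain ⟨w, hw⟩ := LinearMap.surjective_of_injective hf ⟨u, hu⟩
    exact ⟨w, w.2, congrArg Subtype.val hw⟩
  rcases hirr (U ⊓ LinearMap.BilinForm.orthogonal (QuadraticMap.polarBilin Q) U) inf_le_left (by
    rintro w ⟨hw, hw'⟩
    refine ⟨hUx w hw, fun u hu => ?_⟩
    obtain ⟨u', hu', rfl⟩ := hsurj u hu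
    show QuadraticMap.polarBilin Q (M.mulVec u') (M.mulVec w) = 0
    rw [hfx]
    exact hw' u' hu') with h | h
  · exact Or.inl h
  right
  have hperp : ∀ u ∈ U, ∀ w ∈ U, QuadraticMap.polar Q u w = 0 := fun u hu w hw =>
    (inf_eq_left.mp h) hw u hu
  by_cases hp : p = 2
  · subst hp
    have hadd : ∀ u ∈ U, ∀ w ∈ U, Q (u + w) = Q u + Q w := by
      intro u hu w hw
      have := hperp u hu w hw
      rw [QuadraticMap.polar] at this
      linear_combination this
    let W : Submodule F (Fin n → F) :=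
      { carrier := {u | u ∈ U ∧ Q u = 0}
        add_mem' := fun {a b} ha hb => ⟨U.add_mem ha.1 hb.1, by rw [hadd a ha.1 b hb.1, ha.2, hb.2, add_zero]⟩
        zero_mem' := ⟨U.zero_mem, Q.map_zero⟩
        smul_mem' := fun c a ha => ⟨U.smul_mem c ha.1, by rw [Q.map_smul, ha.2, smul_zero]⟩ }
    rcases hirr W (fun u hu => hu.1) (fun u hu => ⟨hUx u hu.1, (hQx u).trans hu.2⟩) with hW | hW
    · right
      have hz : ∀ u ∈ U, Q u = 0 → u = 0 := fun u hu hu' => by
        have : u ∈ W := ⟨hu, hu'⟩
        rwa [hW, Submodule.mem_bot] at this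
      obtain ⟨u₀, hu₀, hne⟩ := (Submodule.ne_bot_iff U).mp hU0
      have hQ0 : Q u₀ ≠ 0 := fun h' => hne (hz u₀ hu₀ h')
      have heq : ∀ a ∈ U, ∀ b ∈ U, Q a = Q b → a = b := by
        intro a ha b hb hab
        have h2 := hz (a + b) (U.add_mem ha hb) (by rw [hadd a ha b hb, hab, CharTwo.add_self_eq_zero])
        rw [add_eq_zero_iff_eq_neg] at h2
        rw [h2]
        ext k
        exact CharTwo.neg_eq (b k)
      refine ⟨rfl, ?_, ⟨u₀, hu₀, hQ0⟩, fun u hu => heq _ (hUx u hu) _ hu (hQx u)⟩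
      have hspan : U = F ∙ u₀ := le_antisymm (fun u hu => by
        obtain ⟨c, hc⟩ := FiniteField.isSquare_of_char_two (ringChar.eq F 2) (Q u / Q u₀)
        exact Submodule.mem_span_singleton.mpr ⟨c, heq _ (U.smul_mem c hu₀) _ hu (by
          rw [Q.map_smul, smul_eq_mul, ← hc, div_mul_cancel₀ _ hQ0])⟩)
        ((Submodule.span_singleton_le_iff_mem _ _).mpr hu₀)
      rw [hspan]
      exact finrank_span_singleton hne
    · left
      intro u hu
      have : u ∈ W := hW ▸ hu
      exact this.2
  · left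
    intro u hu
    have h2 : (2 : F) ≠ 0 := Ring.two_ne_zero (by rw [ringChar.eq F p]; exact hp)
    have := hperp u hu u hu
    rw [QuadraticMap.polar_self, nsmul_eq_mul, Nat.cast_ofNat] at this
    exact (mul_eq_zero.mp this).resolve_left h2

end Cfsg.Agent.S2599
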