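import Cfsg.Statements.S2601
import Cfsg.Agent.Lib.Classes.PSLOut
-- import your own Cfsg.Agent.* helpers here

set_option autoImplicit false
open Cfsg

namespace Cfsg.Agent.S2601

/-- Structure of the outer automorphism group of PSL_n(q), n ≥ 3, q = p^f: it has a normal cyclic subgroup of order gcd(n, q − 1) (the diagonal automorphisms) whose quotient is the direct product of a cyclic group of order f (field automorphisms) and a group of order 2 (the inverse-transpose graph automorphism). -/
theorem result {F : Type*} [Field F] [Fintype F] {p f n : ℕ} [Fact p.Prime] (hf : 1 ≤ f) (hF : Fintype.card F = p ^ f) (hn : 3 ≤ n) : ∃ φ : Cfsg.Out (Matrix.ProjectiveSpecialLinearGroup (Fin n) F) →* Multiplicative (ZMod f × ZMod 2), Function.Surjective φ ∧ IsCyclic φ.ker ∧ Nat.card φ.ker = Nat.gcd n (p ^ f - 1) := by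
  obtain ⟨e⟩ := CfsgLib.Classes.nonempty_ringAut_equiv (F := F) (p := p) hF
  obtain ⟨ψ, hψ, hker⟩ := CfsgLib.Classes.exists_field_graph_hom (n := n) (F := F) hn
  let E : (F ≃+* F) × Multiplicative (ZMod 2) ≃* Multiplicative (ZMod f × ZMod 2) :=
    (e.prodCongr (MulEquiv.refl _)).trans (MulEquiv.prodMultiplicative _ _).symm
  have h : ∀ x, E (ψ x) = 1 ↔ ψ x = 1 := fun x => EmbeddingLike.map_eq_one_iff
  obtain ⟨φ, h1, h2, h3⟩ := CfsgLib.Classes.exists_out_hom (by omega) (E.toMonoidHom.comp ψ)
    (E.surjective.comp hψ) (by rw [← hker]; ext x; exact h x)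
  refine ⟨φ, h1, h2, ?_⟩
  rw [h3, Nat.card_eq_fintype_card, hF]

end Cfsg.Agent.S2601
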