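import Cfsg.Statements.S2603
import Cfsg.Agent.Lib.Classes.PSLOut
import Cfsg.Agent.Lib.Classes.PSUOut
-- import your own Cfsg.Agent.* helpers here

set_option autoImplicit false
open Cfsg

namespace Cfsg.Agent.S2603

/-- Structure of the outer automorphism group of PSU_n(q), n ≥ 3, (n, q) ≠ (3, 2), q = p^f, realised over the field with q² elements: it has a normal cyclic subgroup of order gcd(n, q + 1) (diagonal automorphisms) with cyclic quotient of order 2f (generated by the Frobenius field automorphism of the field with q² elements, whose f-th power is the graph automorphism). -/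
theorem result {K : Type*} [Field K] [Fintype K] {p f q n : ℕ} [Fact p.Prime] (hf : 1 ≤ f) (hq : q = p ^ f) (hK : Fintype.card K = q ^ 2) (hn : 3 ≤ n) (h32 : ¬ (n = 3 ∧ q = 2)) : ∃ φ : Cfsg.Out (Cfsg.PSU n K q) →* Multiplicative (ZMod (2 * f)), Function.Surjective φ ∧ IsCyclic φ.ker ∧ Nat.card φ.ker = Nat.gcd n (q + 1) := by
  obtain ⟨e⟩ := CfsgLib.Classes.nonempty_ringAut_equiv (F := K) (p := p) (f := 2 * f)
    (by rw [hK, hq, ← pow_mul, mul_comm f 2])
  obtain ⟨ψ, hψ, hker⟩ := CfsgLib.Classes.PSUOut.exists_field_hom hK hn h32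
  refine ⟨e.toMonoidHom.comp ψ, e.surjective.comp hψ, ?_⟩
  have hk : (e.toMonoidHom.comp ψ).ker = (CfsgLib.Classes.PSUOut.toOutHom (n := n) (F := K) (q := q)).range := by
    rw [MonoidHom.ker_comp_of_injective _ _ e.injective, hker]
  rw [hk]
  exact ⟨CfsgLib.Classes.PSUOut.isCyclic_range_toOutHom, CfsgLib.Classes.PSUOut.card_range_toOutHom hK hn h32⟩

end Cfsg.Agent.S2603
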