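import Cfsg.Statements.S2604
import Cfsg.Agent.Lib.Classes.PSLOut
import Cfsg.Agent.Lib.Classes.POmegaOut
import Cfsg.Agent.Lib.ClassicalAut.OrthoStd
-- import your own Cfsg.Agent.* helpers here

set_option autoImplicit false
open Cfsg

namespace Cfsg.Agent.S2604

open CfsgLib.ClassicalForms CfsgLib.Parabolic.POmegaAut CfsgLib.Classes.POmegaOut

/-- Outer automorphism group of the simple orthogonal group Ω_(2m+1)(q), m ≥ 3, q = p^f odd: it is the direct product of a group of order 2 (diagonal automorphisms, from SO) and a cyclic group of order f (field automorphisms). -/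
theorem result {F : Type*} [Field F] [Fintype F] {p f m : ℕ} [Fact p.Prime] (hf : 1 ≤ f) (hF : Fintype.card F = p ^ f) (hp : p ≠ 2) (hm : 3 ≤ m) : Nonempty (Cfsg.Out (Cfsg.POmega F (Cfsg.quadFormOdd m F)) ≃* Multiplicative (ZMod 2 × ZMod f)) := by
  have hcard : Nat.card F = p ^ f := by rw [Nat.card_eq_fintype_card, hF]
  have hodd : Odd p := (Fact.out : p.Prime).odd_of_ne_two hp
  have h2 : (2 : F) ≠ 0 := CfsgLib.ClassicalForms.two_ne_zero_of_odd (hcard ▸ hodd.pow)
  have hΓ := (CfsgLib.ClassicalAut.Ortho.setupOdd h2 m hm).gamma_top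
  have hn : 7 ≤ Fintype.card (Unit ⊕ (Fin m ⊕ Fin m)) := by simp; omega
  have hQf := qOdd_apply (F := F) m
  have hnd := nondeg_qOdd h2 m
  have hgen := isGen_qOdd h2 m
  haveI : Finite (F ≃+* F) := Finite.of_injective _ DFunLike.coe_injective
  haveI : Finite (MulAut (Cfsg.POmega F (Cfsg.quadFormOdd m F))) := Finite.of_injective _ DFunLike.coe_injective
  obtain ⟨φ, hφ⟩ := exists_field_hom _ hQf hnd hn hgen hΓ
  let s : (F ≃+* F) →* Cfsg.Out (Cfsg.POmega F (Cfsg.quadFormOdd m F)) :=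
    MonoidHom.mk' (fun σ => QuotientGroup.mk (semiAut ⟨(1, σ), twist_odd σ⟩)) fun σ τ => by
      rw [← QuotientGroup.mk_mul, semiAut_pmul]
      congr 2
      exact Subtype.ext (Prod.ext (by simp [pmul]) rfl)
  have hout : Nat.card (Cfsg.Out (Cfsg.POmega F (Cfsg.quadFormOdd m F))) = 2 * Nat.card (F ≃+* F) := by
    have h := card_out_mul _ hQf hnd hn hgen
    rw [card_mulAut_odd hm h2 hΓ] at h
    exact (Nat.eq_of_mul_eq_mul_right Nat.card_pos h).trans (mul_comm _ _)
  obtain ⟨E⟩ := nonempty_equiv_two_prod φ s (fun σ => hφ _) hout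
  obtain ⟨e⟩ := CfsgLib.Classes.nonempty_ringAut_equiv (F := F) (p := p) hF
  exact ⟨(E.trans ((MulEquiv.refl _).prodCongr e)).trans (MulEquiv.prodMultiplicative _ _).symm⟩

end Cfsg.Agent.S2604
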