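import Cfsg.Statements.S2605
import Cfsg.Agent.Lib.Classes.OmegaMinusTwo
import Cfsg.Agent.Lib.Parabolic.POmegaAutArith
import Cfsg.Agent.Lib.ClassicalAut.OrthoStd
-- import your own Cfsg.Agent.* helpers here

set_option autoImplicit false
open Cfsg

namespace Cfsg.Agent.S2605

open CfsgLib.ClassicalForms CfsgLib.Parabolic.POmegaAut CfsgLib.Classes.POmegaOut

/-- Outer automorphism group of PΩ⁻_2m(q), m ≥ 4, q = 2^f: cyclic of order 2f, generated by a semilinear map inducing the Frobenius automorphism of the field (its f-th power is a graph automorphism, an orthogonal transvection). -/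
theorem result {F : Type*} [Field F] [Fintype F] {f m : ℕ} (hf : 1 ≤ f) (hF : Fintype.card F = 2 ^ f) (hm : 4 ≤ m) (a b : F) (hab : ∀ z₁ z₂ : F, z₁ ^ 2 + a * z₁ * z₂ + b * z₂ ^ 2 = 0 → z₁ = 0 ∧ z₂ = 0) : IsCyclic (Cfsg.Out (Cfsg.POmega F (Cfsg.quadFormMinus (m - 1) F a b))) ∧ Nat.card (Cfsg.Out (Cfsg.POmega F (Cfsg.quadFormMinus (m - 1) F a b))) = 2 * f := by
  haveI : CharP F 2 := charP_of_card_eq_prime_pow hF
  haveI : Fact (Nat.Prime 2) := ⟨Nat.prime_two⟩
  have hcard : Nat.card F = 2 ^ f := by rw [Nat.card_eq_fintype_card, hF]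
  have hm' : 3 ≤ m - 1 := by omega
  have hΓ := (CfsgLib.ClassicalAut.Ortho.setupMinus hab (m - 1) (by omega)).gamma_top
  have hn : 7 ≤ Fintype.card ((Fin (m - 1) ⊕ Fin (m - 1)) ⊕ Fin 2) := by simp; omega
  have hQf := qMinus_apply (F := F) (m - 1) a b
  have hnd := nondeg_qMinus hab (m - 1)
  have hgen := isGen_qMinus hab (m - 1)
  haveI : Finite (F ≃+* F) := Finite.of_injective _ DFunLike.coe_injective
  haveI : Finite (MulAut (Cfsg.POmega F (Cfsg.quadFormMinus (m - 1) F a b))) := Finite.of_injective _ DFunLike.coe_injective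
  obtain ⟨φ, hφ⟩ := exists_field_hom _ hQf hnd hn hgen hΓ
  have hout : Nat.card (Cfsg.Out (Cfsg.POmega F (Cfsg.quadFormMinus (m - 1) F a b))) = 2 * f := by
    have h := card_out_mul _ hQf hnd hn hgen
    rw [card_mulAut_minus hm' hab hΓ, Cfsg.Agent.S0813.card_field_aut 2 f hcard, hcard,
      two_gcd_minus Nat.prime_two hf (show 1 ≤ m - 1 + 1 by omega), if_pos rfl] at h
    exact (Nat.eq_of_mul_eq_mul_right Nat.card_pos h).trans (mul_comm f 2)
  obtain ⟨p, hpσ, hpf⟩ := CfsgLib.Classes.OmegaMinusTwo.exists_generator hf hF hm' hab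
  set x : Cfsg.Out (Cfsg.POmega F (Cfsg.quadFormMinus (m - 1) F a b)) := QuotientGroup.mk (semiAut p) with hx
  have hd1 : f ∣ orderOf x := by
    have h := orderOf_map_dvd φ x
    rwa [hx, hφ, hpσ, Cfsg.Agent.S2600.orderOf_frob hf hF] at h
  have hd2 : orderOf x ∣ 2 * f := hout ▸ orderOf_dvd_natCard x
  have hne : orderOf x ≠ f := fun h => hpf (h ▸ pow_orderOf_eq_one x)
  have hox : orderOf x = 2 * f := by
    obtain ⟨k, hk⟩ := hd1
    rw [hk, mul_comm 2 f] at hd2
    have hk2 : k ∣ 2 := Nat.dvd_of_mul_dvd_mul_left (by omega) hd2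
    rcases (Nat.dvd_prime Nat.prime_two).1 hk2 with rfl | rfl
    · exact absurd (hk.trans (mul_one f)) hne
    · rw [hk, mul_comm]
  exact ⟨isCyclic_of_orderOf_eq_card x (hox.trans hout.symm), hout⟩

end Cfsg.Agent.S2605
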