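import Cfsg.Statements.S2606
import Cfsg.Agent.Lib.Classes.POmegaOutDihedral
import Cfsg.Agent.Lib.Classes.POmegaOutFrobNe
import Cfsg.Agent.Lib.Classes.CentralCyclicExt
import Cfsg.Agent.Lib.Classes.QuadDisc
import Cfsg.Agent.Lib.Parabolic.POmegaAutArith
import Cfsg.Agent.Lib.ClassicalAut.OrthoStd
import Cfsg.Agent.S0813
-- import your own Cfsg.Agent.* helpers here

set_option autoImplicit false
open Cfsg

namespace Cfsg.Agent.S2606

open Matrix CfsgLib.Classes CfsgLib.ClassicalForms CfsgLib.Parabolic.POmegaAut CfsgLib.Classes.POmegaOut CfsgLib.Classes.POmegaOutEven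

set_option maxHeartbeats 2000000 in
/-- Outer automorphism group of PΩ⁻_2m(q), m ≥ 4, q = p^f odd: it is dihedral of order 8 times cyclic of order f when q ≡ 3 (mod 4) and m is odd, and otherwise the direct product of a group of order 2 with a cyclic group of order 2f. -/
theorem result {F : Type*} [Field F] [Fintype F] {p f m : ℕ} [Fact p.Prime] (hf : 1 ≤ f) (hF : Fintype.card F = p ^ f) (hp : p ≠ 2) (hm : 4 ≤ m) (a b : F) (hab : ∀ z₁ z₂ : F, z₁ ^ 2 + a * z₁ * z₂ + b * z₂ ^ 2 = 0 → z₁ = 0 ∧ z₂ = 0) : if p ^ f % 4 = 3 ∧ Odd m then Nonempty (Cfsg.Out (Cfsg.POmega F (Cfsg.quadFormMinus (m - 1) F a b)) ≃* DihedralGroup 4 × Multiplicative (ZMod f)) else Nonempty (Cfsg.Out (Cfsg.POmega F (Cfsg.quadFormMinus (m - 1) F a b)) ≃* Multiplicative (ZMod 2 × ZMod (2 * f))) := by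
  classical
  haveI : CharP F p := charP_of_card_eq_prime_pow hF
  have hcard : Nat.card F = p ^ f := by rw [Nat.card_eq_fintype_card, hF]
  have hodd : Odd p := (Fact.out : p.Prime).odd_of_ne_two hp
  have hqodd : Odd (p ^ f) := hodd.pow
  have h2 : (2 : F) ≠ 0 := two_ne_zero_of_odd (hcard ▸ hqodd)
  have hm' : 3 ≤ m - 1 := by omega
  have hΓ := (CfsgLib.ClassicalAut.Ortho.setupMinus hab (m - 1) (by omega)).gamma_top
  have hn : 7 ≤ Fintype.card ((Fin (m - 1) ⊕ Fin (m - 1)) ⊕ Fin 2) := by simp; omega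
  have hmι : Fintype.card ((Fin (m - 1) ⊕ Fin (m - 1)) ⊕ Fin 2) = 2 * m := by simp; omega
  set Qf := Cfsg.quadFormMinus (m - 1) F a b with hQfdef
  have hQf := qMinus_apply (F := F) (m - 1) a b
  have hnd := nondeg_qMinus hab (m - 1)
  have hgen := isGen_qMinus hab (m - 1)
  have hall : ∀ c : Fˣ, ∃ g : GL ((Fin (m - 1) ⊕ Fin (m - 1)) ⊕ Fin 2) F,
      ∀ v, Qf ((Units.val g : Matrix _ _ F) *ᵥ v) = (c : F) * Qf v := fun c => exists_gl_minus hab hab (c : F) c.ne_zero
  haveI : Finite (F ≃+* F) := Finite.of_injective _ DFunLike.coe_injective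
  haveI : Finite (MulAut (Cfsg.POmega F Qf)) := Finite.of_injective _ DFunLike.coe_injective
  set Φ := frobeniusEquiv F p with hΦdef
  have hΦ : orderOf Φ = f := orderOf_frobenius p f hf hF
  obtain ⟨g, hg⟩ := exists_gl_minus (m := m - 1) hab (aniso_map Φ hab) 1 one_ne_zero
  have hP0 : ∀ v, Qf ((Units.val g : Matrix _ _ F) *ᵥ (fun i => Φ (v i))) = Φ (Qf v) := fun v => by
    rw [hQfdef, hg, one_mul]
    simp [Cfsg.quadFormMinus, map_sum]
  let P : Pairs Qf := ⟨(g, Φ), 1, fun v => by rw [Units.val_one, one_mul]; exact hP0 v⟩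
  obtain ⟨φ, hφ⟩ := exists_field_hom _ hQf hnd hn hgen hΓ
  have hker := ker_eq_range _ hQf hnd hn hgen hΓ φ hφ
  set K := (simOut (f := Qf)).range with hK
  set x : Cfsg.Out (Cfsg.POmega F Qf) := QuotientGroup.mk (semiAut P) with hxdef
  have hφx : φ x = Φ := hφ P
  have hKφ : ∀ k : Cfsg.Out (Cfsg.POmega F Qf), k ∈ K ↔ φ k = 1 := fun k => by rw [← hker, MonoidHom.mem_ker]
  have hφsurj : Function.Surjective φ := fun σ => by
    obtain ⟨h, hh⟩ := twist_minus (m := m - 1) hab σ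
    exact ⟨QuotientGroup.mk (semiAut ⟨(h, σ), hh⟩), hφ _⟩
  have hσcard : Nat.card (F ≃+* F) = f := Cfsg.Agent.S0813.card_field_aut p f hcard
  have hGK : Nat.card (Cfsg.Out (Cfsg.POmega F Qf)) = Nat.card K * f := by
    have h := Subgroup.index_mul_card φ.ker
    rw [Subgroup.index_ker, MonoidHom.range_eq_top.2 hφsurj, Subgroup.card_top, hσcard, hker] at h
    rw [← h, mul_comm]
  have hKcard : Nat.card K = if Even (m * (p ^ f - 1) / 2) then 4 else 8 := by
    have h := card_out_mul _ hQf hnd hn hgen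
    rw [card_mulAut_minus hm' hab hΓ, hσcard, hcard, show m - 1 + 1 = m by omega,
      two_gcd_minus Fact.out hf (show 1 ≤ m by omega), if_neg hp, hGK] at h
    have h' := Nat.eq_of_mul_eq_mul_right Nat.card_pos h
    rw [mul_comm] at h'
    exact Nat.eq_of_mul_eq_mul_left (by omega) h'
  have hcond : p ^ f % 4 = 3 ∧ Odd m ↔ ¬ Even (m * (p ^ f - 1) / 2) := by
    rw [even_half_iff (Nat.odd_iff.1 hqodd)]
    rcases (show p ^ f % 4 = 1 ∨ p ^ f % 4 = 3 by have := Nat.odd_iff.1 hqodd; omega) with h | h <;>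
      rcases Nat.even_or_odd m with ⟨k, rfl⟩ | ⟨k, rfl⟩ <;>
        simp [h, ← two_mul, pow_add, pow_mul, Nat.pow_mod, Nat.mul_mod, parity_simps]
  have hxf : x ^ f ∈ K := by rw [hKφ, map_pow, hφx, ← hΦ, pow_orderOf_eq_one]
  have hdvd : ∀ z : Cfsg.Out (Cfsg.POmega F Qf), φ z = Φ → f ∣ orderOf z := fun z hz => by
    have h := orderOf_map_dvd φ z
    rwa [hz, hΦ] at h
  by_cases hcase : p ^ f % 4 = 3 ∧ Odd m
  · rw [if_pos hcase]
    have hfodd : Odd f := by
      by_contra h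
      obtain ⟨k, hk⟩ := Nat.not_odd_iff_even.1 h
      have := hcase.1
      rw [hk, pow_add, Nat.mul_mod] at this
      have h4 : p ^ k % 4 = 1 ∨ p ^ k % 4 = 3 := by have := Nat.odd_iff.1 (hodd.pow (n := k)); omega
      rcases h4 with h4 | h4 <;> rw [h4] at this <;> omega
    have hK8 : Nat.card K = 8 := by rw [hKcard, if_neg (hcond.1 hcase)]
    obtain ⟨ν, hν⟩ := FiniteField.exists_nonsquare (F := F) (by rw [ringChar.eq F p]; exact hp)
    obtain ⟨d₀, hd₀⟩ := hall (Units.mk0 ν fun h => hν (h ▸ IsSquare.zero))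
    obtain ⟨v₀, hv₀⟩ := @exists_value_ne_zero F _ _ _ _ _ (qMinus (m - 1) F a b) hnd (Fintype.card_pos_iff.1 (by omega))
    obtain ⟨⟨eK⟩, hcent⟩ := dihedral_of_card_eight (qMinus (m - 1) F a b) hQf hnd hn hgen h2 hK8 hν
      (d₀ := d₀) hd₀ (a₁ := v₀) (by rw [hQf] at hv₀; exact hv₀)
    have h2c := hcent P (fun v => by rw [one_mul]; exact hP0 v)
    obtain ⟨E⟩ := nonempty_equiv_prod_of_sq_central φ K hKφ hΦ hφx hfodd hK8 h2c hGK
    exact ⟨E.trans (eK.prodCongr (MulEquiv.refl _))⟩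
  · rw [if_neg hcase]
    have heven : Even (m * (p ^ f - 1) / 2) := by
      by_contra h; exact hcase (hcond.2 h)
    have hK4 : Nat.card K = 4 := by rw [hKcard, if_pos heven]
    have hAd : (minusMatrix (m - 1) a b).det ≠ 0 := by
      rw [det_minusMatrix]
      refine mul_ne_zero (pow_ne_zero _ (neg_ne_zero.2 one_ne_zero)) fun h0 => ?_
      have := hab (-a) 2 (by linear_combination h0)
      exact h2 this.2
    have hA : ∀ u v, QuadraticMap.polar Qf u v = u ⬝ᵥ minusMatrix (m - 1) a b *ᵥ v := polar_quadFormMinus (m - 1) a b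
    obtain ⟨hcen, hexp⟩ := central_of_card_four (qMinus (m - 1) F a b) hQf hnd hn hgen hmι h2 hall hK4 hA hAd hΓ
    have hns : Even f → ¬ IsSquare (minusMatrix (m - 1) a b).det := by
      intro hfe hsq
      have hm1 : IsSquare (-1 : F) := by
        rw [FiniteField.isSquare_neg_one_iff, hF]
        obtain ⟨k, hk⟩ := hfe
        rw [hk, pow_add, Nat.mul_mod]
        have h4 : p ^ k % 4 = 1 ∨ p ^ k % 4 = 3 := by have := Nat.odd_iff.1 (hodd.pow (n := k)); omega
        rcases h4 with h4 | h4 <;> rw [h4] <;> omega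
      rw [det_minusMatrix] at hsq
      have h1 : IsSquare ((-1 : F) ^ (m - 1) * ((-1) ^ (m - 1) * (4 * b - a ^ 2)) * (-1)) :=
        ((hm1.pow _).mul hsq).mul hm1
      rw [← mul_assoc, ← mul_pow, neg_one_mul, neg_neg, one_pow, one_mul] at h1
      obtain ⟨s, hs⟩ := h1
      exact h2 (hab (-a + s) 2 (by linear_combination -hs)).2
    exact nonempty_equiv_two_two_mul φ K hKφ hΦ hφx hf hK4 (fun k hk y => hcen k hk y) hexp (fun hfe =>
      mk_pow_ne_one (qMinus (m - 1) F a b) p f hQf hnd hn hgen hmι h2 hall hK4 hF hp hfe hA hAd (hns hfe) P rfl hP0) hGK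

end Cfsg.Agent.S2606
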