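import Cfsg.Statements.S2607
import Cfsg.Agent.Lib.Classes.TrialityOutThms
import Cfsg.Agent.Lib.ClassicalAut.OrthoStd
-- import your own Cfsg.Agent.* helpers here

set_option autoImplicit false
open Cfsg

namespace Cfsg.Agent.S2607

open CfsgLib.ClassicalForms CfsgLib.Parabolic.POmegaAut CfsgLib.Classes.POmegaOut CfsgLib.Classes.POmegaOutPlus

/-- Outer automorphism group of PΩ⁺_2m(q), q = 2^f: for m ≥ 5 it is the direct product of a group of order 2 (graph automorphism, an orthogonal transvection) and a cyclic group of order f (field automorphisms); for m = 4 triality enlarges it to S_3 × C_f. -/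
theorem result {F : Type*} [Field F] [Fintype F] {f m : ℕ} (hf : 1 ≤ f) (hF : Fintype.card F = 2 ^ f) (hm : 4 ≤ m) : if m = 4 then Nonempty (Cfsg.Out (Cfsg.POmega F (Cfsg.quadFormPlus m F)) ≃* Equiv.Perm (Fin 3) × Multiplicative (ZMod f)) else Nonempty (Cfsg.Out (Cfsg.POmega F (Cfsg.quadFormPlus m F)) ≃* Multiplicative (ZMod 2 × ZMod f)) := by
  haveI : CharP F 2 := charP_of_card_eq_prime_pow hF
  haveI : Fact (Nat.Prime 2) := ⟨Nat.prime_two⟩
  by_cases h4 : m = 4
  · subst h4
    rw [if_pos rfl]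
    exact CfsgLib.Classes.TrialityOut.nonempty_char_two hf hF
  rw [if_neg h4]
  have hcard : Nat.card F = 2 ^ f := by rw [Nat.card_eq_fintype_card, hF]
  have hΓ := (CfsgLib.ClassicalAut.Ortho.setupPlus (F := F) m (by omega)).gamma_top
  have hn : 7 ≤ Fintype.card (Fin m ⊕ Fin m) := by simp; omega
  have hQf := qPlus_apply (F := F) m
  have hnd := nondeg_qPlus (F := F) m
  have hgen := isGen_qPlus (F := F) m
  haveI : Finite (F ≃+* F) := Finite.of_injective _ DFunLike.coe_injective
  haveI : Finite (MulAut (Cfsg.POmega F (Cfsg.quadFormPlus m F))) := Finite.of_injective _ DFunLike.coe_injective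
  obtain ⟨φ, hφ⟩ := exists_field_hom _ hQf hnd hn hgen hΓ
  have hσ : Nat.card (F ≃+* F) = f := Cfsg.Agent.S0813.card_field_aut 2 f hcard
  have hout : Nat.card (Cfsg.Out (Cfsg.POmega F (Cfsg.quadFormPlus m F))) = 2 * Nat.card (F ≃+* F) := by
    have h := card_out_mul _ hQf hnd hn hgen
    rw [card_mulAut_plus hm hΓ, hσ, hcard, two_gcd_plus Nat.prime_two hf (show 1 ≤ m by omega), if_pos rfl] at h
    rw [hσ]
    exact (Nat.eq_of_mul_eq_mul_right Nat.card_pos h).trans (mul_comm f 2)
  obtain ⟨E⟩ := nonempty_equiv_two_prod φ (fieldOut fun σ => twist_plus σ) (fun σ => hφ (fieldPair _ σ)) hout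
  obtain ⟨e⟩ := nonempty_field_equiv hf hF hσ
  exact ⟨E.trans (((MulEquiv.refl _).prodCongr e).trans (MulEquiv.prodMultiplicative _ _).symm)⟩

end Cfsg.Agent.S2607
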