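import Cfsg.Statements.S2608
import Cfsg.Agent.Lib.Classes.TrialityOutThms
import Cfsg.Agent.Lib.Classes.CentralCyclicExt
import Cfsg.Agent.Lib.Classes.QuadDisc
import Cfsg.Agent.Lib.ClassicalAut.OrthoStd
-- import your own Cfsg.Agent.* helpers here

set_option autoImplicit false
open Cfsg

namespace Cfsg.Agent.S2608

open Matrix CfsgLib.Classes CfsgLib.ClassicalForms CfsgLib.Parabolic.POmegaAut CfsgLib.Classes.POmegaOut CfsgLib.Classes.POmegaOutEven CfsgLib.Classes.POmegaOutPlus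

/-- Outer automorphism group of PΩ⁺_2m(q), q = p^f odd: for m = 4 it is S_4 × C_f (triality); for m ≥ 5 it is C_2 × C_2 × C_f when q ≡ 3 (mod 4) and m is odd, and D_8 × C_f otherwise. -/
theorem result {F : Type*} [Field F] [Fintype F] {p f m : ℕ} [Fact p.Prime] (hf : 1 ≤ f) (hF : Fintype.card F = p ^ f) (hp : p ≠ 2) (hm : 4 ≤ m) : if m = 4 then Nonempty (Cfsg.Out (Cfsg.POmega F (Cfsg.quadFormPlus m F)) ≃* Equiv.Perm (Fin 4) × Multiplicative (ZMod f)) else if p ^ f % 4 = 3 ∧ Odd m then Nonempty (Cfsg.Out (Cfsg.POmega F (Cfsg.quadFormPlus m F)) ≃* Multiplicative (ZMod 2 × ZMod 2 × ZMod f)) else Nonempty (Cfsg.Out (Cfsg.POmega F (Cfsg.quadFormPlus m F)) ≃* DihedralGroup 4 × Multiplicative (ZMod f)) := by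
  classical
  by_cases h4 : m = 4
  · subst h4
    rw [if_pos rfl]
    exact CfsgLib.Classes.TrialityOut.nonempty_odd hf hF hp
  rw [if_neg h4]
  haveI : CharP F p := charP_of_card_eq_prime_pow hF
  have hcard : Nat.card F = p ^ f := by rw [Nat.card_eq_fintype_card, hF]
  have hodd : Odd p := (Fact.out : p.Prime).odd_of_ne_two hp
  have hqodd : Odd (p ^ f) := hodd.pow
  have h2 : (2 : F) ≠ 0 := two_ne_zero_of_odd (hcard ▸ hqodd)
  have hΓ := (CfsgLib.ClassicalAut.Ortho.setupPlus (F := F) m (by omega)).gamma_top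
  have hn : 7 ≤ Fintype.card (Fin m ⊕ Fin m) := by simp; omega
  have hmι : Fintype.card (Fin m ⊕ Fin m) = 2 * m := by simp; omega
  set Qf := Cfsg.quadFormPlus m F with hQfdef
  have hQf := qPlus_apply (F := F) m
  have hnd := nondeg_qPlus (F := F) m
  have hgen := isGen_qPlus (F := F) m
  have hfix : ∀ (σ : F ≃+* F) v, Qf (fun i => σ (v i)) = σ (Qf v) := fun σ v => by
    simp [hQfdef, Cfsg.quadFormPlus, map_sum]
  have htw : ∀ σ : F ≃+* F, Cfsg.IsSemisimilarityPair Qf (1 : GL (Fin m ⊕ Fin m) F) σ := fun σ => twist_plus σ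
  haveI : Finite (F ≃+* F) := Finite.of_injective _ DFunLike.coe_injective
  haveI : Finite (MulAut (Cfsg.POmega F Qf)) := Finite.of_injective _ DFunLike.coe_injective
  set Φ := frobeniusEquiv F p with hΦdef
  have hΦ : orderOf Φ = f := orderOf_frobenius p f hf hF
  obtain ⟨φ, hφ⟩ := exists_field_hom _ hQf hnd hn hgen hΓ
  have hker := ker_eq_range _ hQf hnd hn hgen hΓ φ hφ
  set K := (simOut (f := Qf)).range with hK
  set x : Cfsg.Out (Cfsg.POmega F Qf) := fieldOut htw Φ with hxdef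
  have hφx : φ x = Φ := hφ (fieldPair htw Φ)
  have hKφ : ∀ k : Cfsg.Out (Cfsg.POmega F Qf), k ∈ K ↔ φ k = 1 := fun k => by rw [← hker, MonoidHom.mem_ker]
  have hφsurj : Function.Surjective φ := fun σ => ⟨fieldOut htw σ, hφ (fieldPair htw σ)⟩
  have hσcard : Nat.card (F ≃+* F) = f := Cfsg.Agent.S0813.card_field_aut p f hcard
  have hGK : Nat.card (Cfsg.Out (Cfsg.POmega F Qf)) = Nat.card K * f := by
    have h := Subgroup.index_mul_card φ.ker
    rw [Subgroup.index_ker, MonoidHom.range_eq_top.2 hφsurj, Subgroup.card_top, hσcard, hker] at h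
    rw [← h, mul_comm]
  have hKcard : Nat.card K = if Even (m * (p ^ f - 1) / 2) then 8 else 4 := by
    have h := card_out_mul _ hQf hnd hn hgen
    rw [card_mulAut_plus hm hΓ, hσcard, hcard, two_gcd_plus Fact.out hf (show 1 ≤ m by omega), if_neg hp, hGK] at h
    have h' := Nat.eq_of_mul_eq_mul_right Nat.card_pos h
    rw [mul_comm] at h'
    exact Nat.eq_of_mul_eq_mul_left (by omega) h'
  have hcond : p ^ f % 4 = 3 ∧ Odd m ↔ ¬ Even (m * (p ^ f - 1) / 2) := by
    obtain ⟨k, hk⟩ := hqodd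
    have e : m * (p ^ f - 1) / 2 = m * k := by
      rw [hk, show 2 * k + 1 - 1 = k * 2 from by omega, ← mul_assoc, Nat.mul_div_cancel _ (by norm_num)]
    rw [e, Nat.not_even_iff_odd, Nat.odd_mul, and_comm, hk, Nat.odd_iff (n := k)]
    refine and_congr Iff.rfl ?_
    constructor <;> intro h <;> omega
  have hxf : x ^ f = 1 := by rw [hxdef, ← map_pow, ← hΦ, pow_orderOf_eq_one, map_one]
  have hxo : orderOf x = f := by rw [hxdef, orderOf_fieldOut htw _ hQf hnd hn hgen, hΦ]
  by_cases hcase : p ^ f % 4 = 3 ∧ Odd m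
  · rw [if_pos hcase]
    have hK4 : Nat.card K = 4 := by rw [hKcard, if_neg (hcond.1 hcase)]
    have hall : ∀ c : Fˣ, ∃ g : GL (Fin m ⊕ Fin m) F, ∀ v, Qf ((Units.val g : Matrix _ _ F) *ᵥ v) = (c : F) * Qf v :=
      fun c => exists_gl_plus (c : F) c.ne_zero
    have hAd : (hypMatrix m F).det ≠ 0 := by
      rw [det_hypMatrix]; exact pow_ne_zero _ (neg_ne_zero.2 one_ne_zero)
    have hA : ∀ u v, QuadraticMap.polar Qf u v = u ⬝ᵥ hypMatrix m F *ᵥ v := polar_quadFormPlus m
    obtain ⟨hcen, hexp⟩ := central_of_card_four (qPlus m F) hQf hnd hn hgen hmι h2 hall hK4 hA hAd hΓ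
    obtain ⟨E⟩ := nonempty_prod_zpowers K hxo (fun k hk => hcen k hk x) (inf_zpowers_eq_bot φ K hKφ hΦ hφx hxo) hGK
    have hnc : ¬ IsCyclic K := by
      intro hc
      obtain ⟨g, hg⟩ := hc.exists_generator
      have ho : orderOf g = 4 := by rw [orderOf_eq_card_of_forall_mem_zpowers hg, hK4]
      have h1 : g ^ 2 = 1 := Subtype.ext (by rw [sq]; exact hexp g g.2)
      have h2' := orderOf_dvd_of_pow_eq_one h1
      rw [ho] at h2'
      norm_num at h2'
    haveI : Finite K := Finite.of_injective _ Subtype.val_injective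
    haveI : IsKleinFour K := ⟨hK4, by
      have h1 : Monoid.exponent K ∣ 2 := Monoid.exponent_dvd_of_forall_pow_eq_one fun g => Subtype.ext (by
        rw [sq]; exact hexp g g.2)
      rcases (Nat.dvd_prime Nat.prime_two).1 h1 with h | h
      · exfalso
        have := Monoid.exp_eq_one_iff.1 h
        have := Finite.card_le_one_iff_subsingleton.2 this
        omega
      · exact h⟩
    haveI : IsKleinFour (Multiplicative (ZMod 2 × ZMod 2)) := inferInstance
    obtain ⟨eK⟩ := IsKleinFour.nonempty_mulEquiv (G₁ := K) (G₂ := Multiplicative (ZMod 2 × ZMod 2))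
    exact ⟨E.trans (((eK.prodCongr (MulEquiv.refl _)).trans (MulEquiv.prodMultiplicative _ _).symm).trans
      (AddEquiv.toMultiplicative AddEquiv.prodAssoc))⟩
  · rw [if_neg hcase]
    have hK8 : Nat.card K = 8 := by
      rw [hKcard, if_pos]
      by_contra h; exact hcase (hcond.2 h)
    obtain ⟨ν, hν⟩ := FiniteField.exists_nonsquare (F := F) (by rw [ringChar.eq F p]; exact hp)
    obtain ⟨d₀, hd₀⟩ := exists_gl_plus (m := m) ν (fun h => hν (h ▸ IsSquare.zero))
    obtain ⟨v₀, hv₀⟩ := @exists_value_ne_zero F _ _ _ _ _ (qPlus m F) hnd (Fintype.card_pos_iff.1 (by omega))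
    obtain ⟨⟨eK⟩, hcent⟩ := dihedral_of_card_eight (qPlus m F) hQf hnd hn hgen h2 hK8 hν
      (d₀ := d₀) hd₀ (a₁ := v₀) (by rwa [hQf] at hv₀)
    rcases Nat.even_or_odd f with hfe | hfo
    · obtain ⟨k, hk, hkk, hkx, hc⟩ := exists_central_lift htw (qPlus m F) hQf hnd hn hgen h2 hfix hK8 hν hd₀ hv₀ Φ
      have hφz : φ (k * x) = Φ := by rw [map_mul, (hKφ k).1 hk, one_mul, hφx]
      have hzf : (k * x) ^ f = 1 := by
        rw [hkx.mul_pow, hxf, mul_one]
        obtain ⟨j, rfl⟩ := hfe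
        rw [← two_mul, pow_mul, sq, hkk, one_pow]
      have hzo : orderOf (k * x) = f := Nat.dvd_antisymm (orderOf_dvd_of_pow_eq_one hzf) (by
        have h := orderOf_map_dvd φ (k * x)
        rwa [hφz, hΦ] at h)
      obtain ⟨E⟩ := nonempty_prod_zpowers K hzo hc (inf_zpowers_eq_bot φ K hKφ hΦ hφz hzo) hGK
      exact ⟨E.trans (eK.prodCongr (MulEquiv.refl _))⟩
    · have h2c := hcent (fieldPair htw Φ) (fun v => by
        haveI : Nonempty (Fin m ⊕ Fin m) := Fintype.card_pos_iff.1 (by omega)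
        exact fieldPair_mult htw (qPlus m F) hnd hfix Φ v)
      obtain ⟨E⟩ := nonempty_equiv_prod_of_sq_central φ K hKφ hΦ hφx hfo hK8 h2c hGK
      exact ⟨E.trans (eK.prodCongr (MulEquiv.refl _))⟩

end Cfsg.Agent.S2608
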