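import Cfsg.Statements.S2610
import Cfsg.Agent.Lib.Classes.OmegaPairs
import Cfsg.Agent.Lib.Classes.QuadDisc
-- import your own Cfsg.Agent.* helpers here

set_option autoImplicit false
open Cfsg

namespace Cfsg.Agent.S2610

theorem coe_pmap_prod {F : Type*} [Field F] {n : ℕ} {Q : QuadraticForm F (Fin n → F)} :
    ∀ (t : List (Fin n → F)) (ht : ∀ v ∈ t, Q v ≠ 0),
    (((t.pmap (fun _ hv => CfsgLib.OrthGen.refl Q hv) ht).prod : Matrix.GeneralLinearGroup (Fin n) F) :
      Matrix (Fin n) (Fin n) F) = (t.map fun v => Cfsg.reflectionMatrix (⇑Q) v).prod := by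
  intro t
  induction t with
  | nil => simp
  | cons v t ih =>
    intro ht
    rw [List.pmap_cons, List.prod_cons, Subgroup.coe_mul, Units.val_mul, ih, List.map_cons, List.prod_cons]
    rfl

/-- For a quadratic form Q on F^n with non-degenerate polar form, F finite of odd order and n ≥ 2 even, the isometry −1 lies in Ω (the commutator subgroup of the orthogonal group) if and only if the discriminant of Q (the determinant of the Gram matrix of its polar form) is a square. -/
theorem result {F : Type*} [Field F] [Fintype F] (h2 : (2 : F) ≠ 0) {n : ℕ} (hn : 2 ≤ n) (he : Even n) (Q : QuadraticForm F (Fin n → F)) (hQ : (QuadraticMap.polarBilin Q).Nondegenerate) : (∃ g : ↥(Cfsg.isometryGroup F ⇑Q), g ∈ Cfsg.Omega F ⇑Q ∧ ((g : Matrix.GeneralLinearGroup (Fin n) F) : Matrix (Fin n) (Fin n) F) = -1) ↔ IsSquare (Matrix.of (fun i j : Fin n => QuadraticMap.polar ⇑Q (Pi.single i 1) (Pi.single j 1))).det := by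
  classical
  obtain ⟨b, hb, hb0⟩ := CfsgLib.OrthGen.exists_orth_basis (Q := Q) h2 hQ
  let l : List (Fin n → F) := List.ofFn fun j => b j
  have hl : ∀ v ∈ l, Q v ≠ 0 := by
    intro v hv
    obtain ⟨j, rfl⟩ := List.mem_ofFn.mp hv
    exact hb0 j
  have hmat : (l.map fun v => Cfsg.reflectionMatrix (⇑Q) v).prod = -1 := by
    refine Matrix.ext_of_mulVec_single fun k => ?_
    rw [CfsgLib.Classes.prod_reflectionMatrix_mulVec l hl (List.pairwise_ofFn.mpr fun i j hij => hb i j hij.ne),
      List.map_ofFn, List.sum_ofFn, Matrix.neg_mulVec, Matrix.one_mulVec]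
    generalize (Pi.single k (1 : F) : Fin n → F) = x
    have hx : ∑ j, (CfsgLib.OrthGen.pf Q (b j) x / Q (b j)) • b j = (2 : F) • x := by
      conv_rhs => rw [← b.sum_repr x, Finset.smul_sum]
      refine Finset.sum_congr rfl fun j _ => ?_
      have : CfsgLib.OrthGen.pf Q (b j) x = b.repr x j * (2 * Q (b j)) := by
        conv_lhs => rw [← b.sum_repr x]
        show QuadraticMap.polarBilin Q (b j) _ = _
        rw [map_sum, Finset.sum_eq_single j]
        · rw [map_smul, smul_eq_mul]
          exact congrArg _ (CfsgLib.OrthGen.pf_self Q (b j))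
        · intro i _ hi
          rw [map_smul]
          exact (congrArg (b.repr x i • ·) (hb j i hi.symm)).trans (smul_zero _)
        · simp
      rw [this, smul_smul, ← mul_assoc, mul_div_cancel_right₀ _ (hb0 j), mul_comm]
    show x - ∑ j, _ = -x
    simp only [Function.comp_apply]
    rw [hx]
    module
  let g : ↥(Cfsg.isometryGroup F ⇑Q) := (l.pmap (fun _ hv => CfsgLib.OrthGen.refl Q hv) hl).prod
  have hg : ((g : Matrix.GeneralLinearGroup (Fin n) F) : Matrix (Fin n) (Fin n) F) = -1 := by
    rw [← hmat]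
    exact coe_pmap_prod l hl
  rw [CfsgLib.Classes.exists_mem_omega_iff g _ hg,
    CfsgLib.Classes.prod_refl_mem_omega_iff h2 hQ (by simpa using hn) g l hl (hg.trans hmat.symm)]
  obtain ⟨d, hd, hdet⟩ := CfsgLib.Classes.isSquare_det_gram (fun u v => QuadraticMap.polar (⇑Q) u v)
    (LinearMap.toMatrix₂' F (QuadraticMap.polarBilin Q)) (fun u v => by
      rw [← Matrix.toLinearMap₂'_apply' (LinearMap.toMatrix₂' F (QuadraticMap.polarBilin Q)) u v,
        Matrix.toLinearMap₂'_toMatrix']
      rfl) b
  have hdiag : (Matrix.of fun i j => QuadraticMap.polar (⇑Q) (b i) (b j)) = Matrix.diagonal fun i => 2 * Q (b i) := by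
    ext i j
    by_cases hij : i = j
    · subst hij
      simp only [Matrix.of_apply, Matrix.diagonal_apply_eq]
      exact CfsgLib.OrthGen.pf_self Q (b i)
    · simp only [Matrix.of_apply, Matrix.diagonal_apply_ne _ hij]
      exact hb i j hij
  rw [hdiag, Matrix.det_diagonal, Finset.prod_mul_distrib, Finset.prod_const] at hdet
  have hcard : (Finset.univ : Finset (Fin (Fintype.card (Fin n)))).card = n := by simp
  rw [hcard] at hdet
  have hQ2 : (Matrix.of fun i j : Fin n => QuadraticMap.polar (⇑Q) (Pi.single i 1) (Pi.single j 1)) =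
      LinearMap.toMatrix₂' F (QuadraticMap.polarBilin Q) := by
    ext i j
    simp
  rw [hQ2, ← CfsgLib.Classes.isSquare_sq_mul_iff (x := (LinearMap.toMatrix₂' F (QuadraticMap.polarBilin Q)).det) hd, ← hdet]
  obtain ⟨k, hk⟩ := he
  have h2k : (2 : F) ^ n = ((2 : F) ^ k) ^ 2 := by rw [hk, ← pow_mul]; ring_nf
  rw [h2k, CfsgLib.Classes.isSquare_sq_mul_iff (pow_ne_zero _ h2)]
  simp [l, List.map_ofFn, List.prod_ofFn, hk]
  exact iff_of_eq (congrArg _ (Fintype.prod_equiv (finCongr (by simp [hk])) _ _ fun x => rfl))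

end Cfsg.Agent.S2610
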