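import Cfsg.Statements.S2611
import Cfsg.Agent.Lib.Classes.HyperLevi
import Cfsg.Agent.Lib.Classes.OmegaPairs
-- import your own Cfsg.Agent.* helpers here

set_option autoImplicit false
open Cfsg

namespace Cfsg.Agent.S2611

/-- For the hyperbolic quadratic form Σ x_i y_i on F^(2m) (F finite, m ≥ 1, excluding m = 2 over the field of two elements) and an invertible m × m matrix A, the block-diagonal isometry diag(A, (A⁻¹)ᵀ), which stabilises the two maximal totally singular subspaces x = 0 and y = 0, lies in Ω⁺_2m(F) (the commutator subgroup of the orthogonal group) if and only if det A is a square in F. -/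
theorem result {F : Type*} [Field F] [Fintype F] {m : ℕ} (hm : 1 ≤ m) (h : Fintype.card F ≠ 2 ∨ m ≠ 2) (A : GL (Fin m) F) : (∃ g : ↥(Cfsg.isometryGroup F (Cfsg.quadFormPlus m F)), g ∈ Cfsg.Omega F (Cfsg.quadFormPlus m F) ∧ ((g : Matrix.GeneralLinearGroup (Fin m ⊕ Fin m) F) : Matrix (Fin m ⊕ Fin m) (Fin m ⊕ Fin m) F) = Matrix.fromBlocks (A : Matrix (Fin m) (Fin m) F) 0 0 ((A : Matrix (Fin m) (Fin m) F)⁻¹).transpose) ↔ IsSquare (A : Matrix (Fin m) (Fin m) F).det := by
  classical
  rw [← CfsgLib.Classes.coe_hypQ F m]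
  rw [CfsgLib.Classes.exists_mem_omega_iff (CfsgLib.Classes.levi F m A) _ (CfsgLib.Classes.coe_levi A)]
  have hQ := CfsgLib.Classes.hypQ_nondegenerate F m
  have hdic := CfsgLib.Classes.dicksonSign_levi h A
  by_cases h2 : (2 : F) = 0
  · haveI : CharP F 2 := CharTwo.of_one_ne_zero_of_two_eq_zero one_ne_zero h2
    rw [CfsgLib.Classes.mem_omega_iff_dickson (by simp; omega) hQ
      (CfsgLib.Classes.gen_hyp (h.imp_right fun h' => by simp; omega))]
    exact iff_of_true hdic (FiniteField.isSquare_of_char_two (ringChar.eq F 2) _)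
  · rw [CfsgLib.Classes.mem_omega_iff h2 hQ (by simp; omega),
      CfsgLib.Classes.detHom_eq_one_iff h2 hQ (CfsgLib.Classes.hypQ_gen F m h),
      CfsgLib.Classes.spinSign_levi h2 A]
    split_ifs with hs <;> simp [hdic, hs]

end Cfsg.Agent.S2611
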