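import Cfsg.Statements.S2612
import Cfsg.Agent.Lib.Classes.HyperLevi
-- import your own Cfsg.Agent.* helpers here

set_option autoImplicit false
open Cfsg

namespace Cfsg.Agent.S2612

/-- For the hyperbolic quadratic form Σ x_i y_i on F^(2m) (F finite, m ≥ 1, excluding m = 2 over the field of two elements), Ω⁺_2m(F) (the commutator subgroup of the orthogonal group) contains an element interchanging the two complementary maximal totally singular subspaces {y = 0} and {x = 0} if and only if m is even (dimension divisible by 4). -/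
theorem result {F : Type*} [Field F] [Fintype F] {m : ℕ} (hm : 1 ≤ m) (h : Fintype.card F ≠ 2 ∨ m ≠ 2) : (∃ g : ↥(Cfsg.isometryGroup F (Cfsg.quadFormPlus m F)), g ∈ Cfsg.Omega F (Cfsg.quadFormPlus m F) ∧ (∀ v : Fin m ⊕ Fin m → F, (∀ i, v (Sum.inr i) = 0) → ∀ i, (((g : Matrix.GeneralLinearGroup (Fin m ⊕ Fin m) F) : Matrix (Fin m ⊕ Fin m) (Fin m ⊕ Fin m) F).mulVec v) (Sum.inl i) = 0) ∧ (∀ v : Fin m ⊕ Fin m → F, (∀ i, v (Sum.inl i) = 0) → ∀ i, (((g : Matrix.GeneralLinearGroup (Fin m ⊕ Fin m) F) : Matrix (Fin m ⊕ Fin m) (Fin m ⊕ Fin m) F).mulVec v) (Sum.inr i) = 0)) ↔ Even m := by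
  classical
  rw [← CfsgLib.Classes.coe_hypQ F m]
  have hQ := CfsgLib.Classes.hypQ_nondegenerate F m
  have hgen := CfsgLib.Classes.hypQ_gen F m h
  have hcard : 2 ≤ Fintype.card (Fin m ⊕ Fin m) := by simp; omega
  set Q := CfsgLib.Classes.hypQ F m with hQdef
  have key : ∀ g : ↥(Cfsg.isometryGroup F ⇑Q), CfsgLib.Classes.mapSub g (CfsgLib.Classes.hypU F m) = CfsgLib.Classes.hypW F m →
      CfsgLib.Forms.dicksonSign g = (-1) ^ m := by
    intro g hg
    have h := CfsgLib.Classes.relSign_mapSub hQ hgen CfsgLib.Classes.isMaxSingular_hypU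
      CfsgLib.Classes.isMaxSingular_hypU g
    rw [hg, CfsgLib.Classes.relSign_hypU_hypW, CfsgLib.Classes.relSign, inf_idem,
      CfsgLib.Classes.finrank_hypU] at h
    calc CfsgLib.Forms.dicksonSign g
        = CfsgLib.Forms.dicksonSign g * ((-1) ^ m * (-1) ^ m) := by rw [Int.units_mul_self, mul_one]
      _ = (-1) ^ m := by rw [← mul_assoc, ← h, one_mul]
  constructor
  · rintro ⟨g, hg, hg1, -⟩
    have hmap : CfsgLib.Classes.mapSub g (CfsgLib.Classes.hypU F m) = CfsgLib.Classes.hypW F m :=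
      Submodule.eq_of_le_of_finrank_eq (by
        rintro _ ⟨v, hv, rfl⟩
        exact CfsgLib.Classes.mem_hypW.mpr (hg1 v (CfsgLib.Classes.mem_hypU.mp hv)))
        (by
          have h1 := (CfsgLib.Classes.isMaxSingular_hypW (F := F) (m := m)).2
          have h2 := (CfsgLib.Classes.isMaxSingular_hypU (F := F) (m := m)).2
          rw [CfsgLib.Classes.finrank_mapSub]; omega)
    have hd : CfsgLib.Forms.dicksonSign g = 1 := by
      by_cases h2 : (2 : F) = 0
      · haveI : CharP F 2 := CharTwo.of_one_ne_zero_of_two_eq_zero one_ne_zero h2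
        exact (CfsgLib.Classes.mem_omega_iff_dickson hcard hQ
          (CfsgLib.Classes.gen_hyp (h.imp_right fun h' => by simp; omega)) g).mp hg
      · exact (CfsgLib.Classes.detHom_eq_one_iff h2 hQ hgen g).mp
          ((CfsgLib.Classes.mem_omega_iff h2 hQ hcard g).mp hg).1
    rw [key g hmap] at hd
    rcases Nat.even_or_odd m with he | ho
    · exact he
    · rw [ho.neg_one_pow] at hd; exact absurd hd (by decide)
  · intro he
    let S := CfsgLib.Classes.isoOfEquiv (Q := Q)
      (LinearEquiv.funCongrLeft F F (Equiv.sumComm (Fin m) (Fin m)))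
      (fun v => by
        rw [hQdef, CfsgLib.ClassicalForms.qPlus_apply, CfsgLib.ClassicalForms.qPlus_apply]
        exact Finset.sum_congr rfl fun i _ => mul_comm _ _)
    have hSact : ∀ v k, CfsgLib.OrthGen.act Q S v k = v (k.swap) := fun v k => by
      rw [CfsgLib.Classes.act_isoOfEquiv]; rfl
    have hSmap : CfsgLib.Classes.mapSub S (CfsgLib.Classes.hypU F m) = CfsgLib.Classes.hypW F m := by
      refine le_antisymm ?_ fun v hv => ?_
      · rintro _ ⟨v, hv, rfl⟩
        exact CfsgLib.Classes.mem_hypW.mpr fun i => (hSact v _).trans (CfsgLib.Classes.mem_hypU.mp hv i)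
      · refine ⟨fun k => v k.swap, CfsgLib.Classes.mem_hypU.mpr fun i => CfsgLib.Classes.mem_hypW.mp hv i,
          funext fun k => ?_⟩
        exact (hSact _ k).trans (congrArg v (Sum.swap_swap k))
    have hSd : CfsgLib.Forms.dicksonSign S = 1 := by rw [key S hSmap, he.neg_one_pow]
    suffices hex : ∃ g ∈ Cfsg.Omega F ⇑Q, (∀ v, (∀ i, v (Sum.inr i) = 0) → ∀ i, CfsgLib.OrthGen.act Q g v (Sum.inl i) = 0) ∧
        (∀ v, (∀ i, v (Sum.inl i) = 0) → ∀ i, CfsgLib.OrthGen.act Q g v (Sum.inr i) = 0) from hex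
    by_cases h2 : (2 : F) = 0
    · haveI : CharP F 2 := CharTwo.of_one_ne_zero_of_two_eq_zero one_ne_zero h2
      exact ⟨S, (CfsgLib.Classes.mem_omega_iff_dickson hcard hQ
        (CfsgLib.Classes.gen_hyp (h.imp_right fun h' => by simp; omega)) S).mpr hSd,
        fun v hv i => (hSact v _).trans (hv i), fun v hv i => (hSact v _).trans (hv i)⟩
    have hdet := (CfsgLib.Classes.detHom_eq_one_iff h2 hQ hgen S).mpr hSd
    rcases Int.units_eq_one_or (CfsgLib.OrthGen.spinSign Q 1 S) with hs | hs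
    · exact ⟨S, (CfsgLib.Classes.mem_omega_iff h2 hQ hcard S).mpr ⟨hdet, hs⟩,
        fun v hv i => (hSact v _).trans (hv i), fun v hv i => (hSact v _).trans (hv i)⟩
    obtain ⟨c, hc⟩ := CfsgLib.OrthGen.exists_nonsquare_of_two (F := F) h2
    have hc0 : c ≠ 0 := fun h0 => hc (h0 ▸ IsSquare.zero)
    let z : Fin m := ⟨0, hm⟩
    set k := CfsgLib.Classes.pairElt (CfsgLib.Classes.hypQ_single_inl (F := F) z)
      (CfsgLib.Classes.hypQ_single_inr z) (CfsgLib.Classes.pf_hyp_pair z) hc0 with hkdef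
    refine ⟨k * S, (CfsgLib.Classes.mem_omega_iff h2 hQ hcard _).mpr ⟨?_, ?_⟩, ?_, ?_⟩
    · rw [map_mul, hkdef, CfsgLib.Classes.detHom_pairElt, one_mul, hdet]
    · rw [map_mul, hkdef, CfsgLib.Classes.spinSign_pairElt h2, if_neg hc, hs]; rfl
    · intro v hv i
      rw [CfsgLib.OrthGen.act_mul, hkdef, CfsgLib.Classes.act_pairElt, CfsgLib.Classes.pf_hyp_inr]
      simp [hSact, hv]
    · intro v hv i
      rw [CfsgLib.OrthGen.act_mul, hkdef, CfsgLib.Classes.act_pairElt, CfsgLib.Classes.pf_hyp_inl]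
      simp [hSact, hv]

end Cfsg.Agent.S2612
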