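import Cfsg.Statements.S2613
import Cfsg.Agent.Lib.Classes.PairsDiag
import Cfsg.Agent.Lib.ClassicalForms.Ortho.Generation
-- import your own Cfsg.Agent.* helpers here

set_option autoImplicit false
open Cfsg

namespace Cfsg.Agent.S2613

/-- For the hyperbolic form Σ x_j y_j on F^(2m), F finite with q elements, q odd, and 1 ≤ i ≤ m: the involution negating the first i hyperbolic pairs (x_j, y_j ↦ −x_j, −y_j for j < i) and fixing the rest lies in Ω⁺_2m(q) (commutator subgroup of the orthogonal group) if and only if q^i ≡ 1 (mod 4); its (−1)-eigenspace is a hyperbolic 2i-space. -/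
theorem result {F : Type*} [Field F] [Fintype F] {q : ℕ} (hF : Fintype.card F = q) (hq : Odd q) {m : ℕ} (i : ℕ) (hi : 1 ≤ i) (him : i ≤ m) : (∃ g : ↥(Cfsg.isometryGroup F (Cfsg.quadFormPlus m F)), g ∈ Cfsg.Omega F (Cfsg.quadFormPlus m F) ∧ ((g : Matrix.GeneralLinearGroup (Fin m ⊕ Fin m) F) : Matrix (Fin m ⊕ Fin m) (Fin m ⊕ Fin m) F) = Matrix.diagonal (fun k : Fin m ⊕ Fin m => if (Sum.elim (fun j : Fin m => (j : ℕ)) (fun j : Fin m => (j : ℕ)) k) < i then (-1 : F) else 1)) ↔ q ^ i % 4 = 1 := by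
  classical
  have h2 : (2 : F) ≠ 0 := Ring.two_ne_zero (by
    rw [Ne, FiniteField.even_card_iff_char_two, hF]; have := Nat.odd_iff.mp hq; omega)
  rw [← CfsgLib.Classes.isSquare_neg_one_pow_iff_mod hF hq i]
  refine CfsgLib.Classes.diag_pairs_mem_omega_iff h2 (CfsgLib.ClassicalForms.qPlus m F)
    (CfsgLib.ClassicalForms.qPlus_apply m)
    (CfsgLib.ClassicalForms.nondeg_iff_polarBilin.mpr (CfsgLib.ClassicalForms.nondeg_qPlus m))
    (by simp; omega) (fun j => Sum.inl (Fin.castLE him j)) (fun j => Sum.inr (Fin.castLE him j)) _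
    (fun j => rfl) (fun j => rfl) (fun j => Sum.inl_ne_inr) ?_ ?_ ?_ ?_ ?_ ?_
  · rintro (k | k) hk
    · exact ⟨⟨k, hk⟩, Or.inl rfl⟩
    · exact ⟨⟨k, hk⟩, Or.inr rfl⟩
  · intro j; simp [CfsgLib.ClassicalForms.qPlus_apply, Cfsg.quadFormPlus]
  · intro j; simp [CfsgLib.ClassicalForms.qPlus_apply, Cfsg.quadFormPlus]
  · intro j v
    simp [CfsgLib.OrthGen.pf, QuadraticMap.polar, CfsgLib.ClassicalForms.qPlus_apply, Cfsg.quadFormPlus,
      add_mul, mul_add, Finset.sum_add_distrib, Pi.single_apply]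
  · intro j v
    simp [CfsgLib.OrthGen.pf, QuadraticMap.polar, CfsgLib.ClassicalForms.qPlus_apply, Cfsg.quadFormPlus,
      add_mul, mul_add, Finset.sum_add_distrib, Pi.single_apply]
  · intro v
    unfold Cfsg.quadFormPlus
    refine Finset.sum_congr rfl fun k _ => ?_
    show (if (k : ℕ) < i then (-1 : F) else 1) * _ * ((if (k : ℕ) < i then (-1 : F) else 1) * _) = _
    split_ifs <;> ring

end Cfsg.Agent.S2613
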