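import Cfsg.Statements.S2614
import Cfsg.Agent.Lib.Classes.PairsDiag
import Cfsg.Agent.Lib.ClassicalForms.Ortho.Generation
-- import your own Cfsg.Agent.* helpers here

set_option autoImplicit false
open Cfsg

namespace Cfsg.Agent.S2614

/-- For the form x_0² + Σ x_j y_j on F^(2m+1), F finite with q elements, q odd, and 1 ≤ i ≤ m: the involution of determinant one negating the first i hyperbolic pairs (and fixing x_0 and the other pairs) lies in Ω_(2m+1)(q) (commutator subgroup of the orthogonal group) if and only if q^i ≡ 1 (mod 4); its (−1)-eigenspace is a hyperbolic 2i-space. -/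
theorem result {F : Type*} [Field F] [Fintype F] {q : ℕ} (hF : Fintype.card F = q) (hq : Odd q) {m : ℕ} (i : ℕ) (hi : 1 ≤ i) (him : i ≤ m) : (∃ g : ↥(Cfsg.isometryGroup F (Cfsg.quadFormOdd m F)), g ∈ Cfsg.Omega F (Cfsg.quadFormOdd m F) ∧ ((g : Matrix.GeneralLinearGroup (Unit ⊕ (Fin m ⊕ Fin m)) F) : Matrix (Unit ⊕ (Fin m ⊕ Fin m)) (Unit ⊕ (Fin m ⊕ Fin m)) F) = Matrix.diagonal (fun k : Unit ⊕ (Fin m ⊕ Fin m) => if (Sum.elim (fun _ : Unit => i) (Sum.elim (fun j : Fin m => (j : ℕ)) (fun j : Fin m => (j : ℕ))) k) < i then (-1 : F) else 1)) ↔ q ^ i % 4 = 1 := by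
  classical
  have h2 : (2 : F) ≠ 0 := Ring.two_ne_zero (by
    rw [Ne, FiniteField.even_card_iff_char_two, hF]; have := Nat.odd_iff.mp hq; omega)
  rw [← CfsgLib.Classes.isSquare_neg_one_pow_iff_mod hF hq i]
  refine CfsgLib.Classes.diag_pairs_mem_omega_iff h2 (CfsgLib.ClassicalForms.qOdd m F)
    (CfsgLib.ClassicalForms.qOdd_apply m)
    (CfsgLib.ClassicalForms.nondeg_iff_polarBilin.mpr (CfsgLib.ClassicalForms.nondeg_qOdd h2 m))
    (by simp; omega) (fun j => Sum.inr (Sum.inl (Fin.castLE him j))) (fun j => Sum.inr (Sum.inr (Fin.castLE him j))) _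
    (fun j => rfl) (fun j => rfl) (fun j h => Sum.inl_ne_inr (Sum.inr_injective h)) ?_ ?_ ?_ ?_ ?_ ?_
  · rintro (⟨⟩ | k | k) hk
    · exact absurd hk (lt_irrefl i)
    · exact ⟨⟨k, hk⟩, Or.inl rfl⟩
    · exact ⟨⟨k, hk⟩, Or.inr rfl⟩
  · intro j; simp [CfsgLib.ClassicalForms.qOdd_apply, Cfsg.quadFormOdd]
  · intro j; simp [CfsgLib.ClassicalForms.qOdd_apply, Cfsg.quadFormOdd]
  · intro j v
    simp [CfsgLib.OrthGen.pf, QuadraticMap.polar, CfsgLib.ClassicalForms.qOdd_apply, Cfsg.quadFormOdd,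
      add_mul, mul_add, Finset.sum_add_distrib, Pi.single_apply]
  · intro j v
    simp [CfsgLib.OrthGen.pf, QuadraticMap.polar, CfsgLib.ClassicalForms.qOdd_apply, Cfsg.quadFormOdd,
      add_mul, mul_add, Finset.sum_add_distrib, Pi.single_apply]
  · intro v
    unfold Cfsg.quadFormOdd
    refine congr_arg₂ (· + ·) ?_ (Finset.sum_congr rfl fun k _ => ?_)
    · show ((if i < i then (-1 : F) else 1) * _) ^ 2 = _
      rw [if_neg (lt_irrefl i), one_mul]
    show (if (k : ℕ) < i then (-1 : F) else 1) * _ * ((if (k : ℕ) < i then (-1 : F) else 1) * _) = _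
    split_ifs <;> ring

end Cfsg.Agent.S2614
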