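import Cfsg.Statements.S2615
import Cfsg.Agent.Lib.Classes.PairsDiag
import Cfsg.Agent.Lib.ClassicalForms.Ortho.Generation
-- import your own Cfsg.Agent.* helpers here

set_option autoImplicit false
open Cfsg

namespace Cfsg.Agent.S2615

/-- For an elliptic form Σ_(j<m−1) x_j y_j + (z₁² + a z₁z₂ + b z₂²) (anisotropic binary part) on F^(2m), F finite with q elements, q odd, and 1 ≤ i ≤ m − 1: the involution negating the first i hyperbolic pairs and fixing the rest lies in Ω⁻_2m(q) (commutator subgroup of the orthogonal group) if and only if q^i ≡ 1 (mod 4). -/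
theorem result {F : Type*} [Field F] [Fintype F] {q : ℕ} (hF : Fintype.card F = q) (hq : Odd q) {m : ℕ} (a b : F) (hab : ∀ z₁ z₂ : F, z₁ ^ 2 + a * z₁ * z₂ + b * z₂ ^ 2 = 0 → z₁ = 0 ∧ z₂ = 0) (i : ℕ) (hi : 1 ≤ i) (him : i + 1 ≤ m) : (∃ g : ↥(Cfsg.isometryGroup F (Cfsg.quadFormMinus (m - 1) F a b)), g ∈ Cfsg.Omega F (Cfsg.quadFormMinus (m - 1) F a b) ∧ ((g : Matrix.GeneralLinearGroup ((Fin (m - 1) ⊕ Fin (m - 1)) ⊕ Fin 2) F) : Matrix ((Fin (m - 1) ⊕ Fin (m - 1)) ⊕ Fin 2) ((Fin (m - 1) ⊕ Fin (m - 1)) ⊕ Fin 2) F) = Matrix.diagonal (fun k : (Fin (m - 1) ⊕ Fin (m - 1)) ⊕ Fin 2 => if (Sum.elim (Sum.elim (fun j : Fin (m - 1) => (j : ℕ)) (fun j : Fin (m - 1) => (j : ℕ))) (fun _ : Fin 2 => i) k) < i then (-1 : F) else 1)) ↔ q ^ i % 4 = 1 := by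
  classical
  have him' : i ≤ m - 1 := by omega
  have h2 : (2 : F) ≠ 0 := Ring.two_ne_zero (by
    rw [Ne, FiniteField.even_card_iff_char_two, hF]; have := Nat.odd_iff.mp hq; omega)
  rw [← CfsgLib.Classes.isSquare_neg_one_pow_iff_mod hF hq i]
  refine CfsgLib.Classes.diag_pairs_mem_omega_iff h2 (CfsgLib.ClassicalForms.qMinus (m - 1) F a b)
    (CfsgLib.ClassicalForms.qMinus_apply (m - 1) a b)
    (CfsgLib.ClassicalForms.nondeg_iff_polarBilin.mpr (CfsgLib.ClassicalForms.nondeg_qMinus hab (m - 1)))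
    (by simp) (fun j => Sum.inl (Sum.inl (Fin.castLE him' j))) (fun j => Sum.inl (Sum.inr (Fin.castLE him' j))) _
    (fun j => rfl) (fun j => rfl) (fun j h => Sum.inl_ne_inr (Sum.inl_injective h)) ?_ ?_ ?_ ?_ ?_ ?_
  · rintro ((k | k) | k) hk
    · exact ⟨⟨k, hk⟩, Or.inl rfl⟩
    · exact ⟨⟨k, hk⟩, Or.inr rfl⟩
    · exact absurd hk (lt_irrefl i)
  · intro j; simp [CfsgLib.ClassicalForms.qMinus_apply, Cfsg.quadFormMinus]
  · intro j; simp [CfsgLib.ClassicalForms.qMinus_apply, Cfsg.quadFormMinus]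
  · intro j v
    simp [CfsgLib.OrthGen.pf, QuadraticMap.polar, CfsgLib.ClassicalForms.qMinus_apply, Cfsg.quadFormMinus,
      add_mul, mul_add, Finset.sum_add_distrib, Pi.single_apply]
  · intro j v
    simp [CfsgLib.OrthGen.pf, QuadraticMap.polar, CfsgLib.ClassicalForms.qMinus_apply, Cfsg.quadFormMinus,
      add_mul, mul_add, Finset.sum_add_distrib, Pi.single_apply]
  · intro v
    unfold Cfsg.quadFormMinus
    refine congr_arg₂ (· + ·) (Finset.sum_congr rfl fun k _ => ?_) ?_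
    show (if (k : ℕ) < i then (-1 : F) else 1) * _ * ((if (k : ℕ) < i then (-1 : F) else 1) * _) = _
    split_ifs <;> ring
    show ((if i < i then (-1 : F) else 1) * _) ^ 2 + a * ((if i < i then (-1 : F) else 1) * _) * ((if i < i then (-1 : F) else 1) * _)
      + b * ((if i < i then (-1 : F) else 1) * _) ^ 2 = _
    simp only [lt_irrefl, if_false, one_mul]

end Cfsg.Agent.S2615
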