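import Cfsg.Statements.S2616
import Cfsg.Agent.Lib.Classes.QuadDisc
-- import your own Cfsg.Agent.* helpers here

set_option autoImplicit false
open Cfsg

namespace Cfsg.Agent.S2616

/-- Standard bases of a non-degenerate quadratic space of even dimension 2m over a finite field: either there is a hyperbolic basis e_i, f_i (Q(e_i) = Q(f_i) = 0, B(e_i, f_j) = δ_ij, the e's pairwise orthogonal and the f's pairwise orthogonal, B the polar form), or there is an elliptic basis: hyperbolic pairs e_i, f_i for i < m − 1 together with x, y orthogonal to them with Q(x) = 1, B(x, y) = 1, Q(y) = ζ where t² + t + ζ has no root in the field. -/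
theorem result {F V : Type*} [Field F] [Finite F] [AddCommGroup V] [Module F V] [FiniteDimensional F V] {m : ℕ} (hm : 1 ≤ m) (hV : Module.finrank F V = 2 * m) (Q : QuadraticForm F V) (hQ : (QuadraticMap.polarBilin Q).Nondegenerate) : (∃ b : Module.Basis (Fin m ⊕ Fin m) F V, (∀ i, Q (b (Sum.inl i)) = 0 ∧ Q (b (Sum.inr i)) = 0) ∧ (∀ i j, QuadraticMap.polar ⇑Q (b (Sum.inl i)) (b (Sum.inr j)) = if i = j then 1 else 0) ∧ (∀ i j, QuadraticMap.polar ⇑Q (b (Sum.inl i)) (b (Sum.inl j)) = 0 ∧ QuadraticMap.polar ⇑Q (b (Sum.inr i)) (b (Sum.inr j)) = 0)) ∨ (∃ (b : Module.Basis ((Fin (m - 1) ⊕ Fin (m - 1)) ⊕ Fin 2) F V) (ζ : F), (∀ t : F, t ^ 2 + t + ζ ≠ 0) ∧ (∀ i, Q (b (Sum.inl (Sum.inl i))) = 0 ∧ Q (b (Sum.inl (Sum.inr i))) = 0) ∧ (∀ i j, QuadraticMap.polar ⇑Q (b (Sum.inl (Sum.inl i))) (b (Sum.inl (Sum.inr j))) = if i = j then 1 else 0) ∧ (∀ i j, QuadraticMap.polar ⇑Q (b (Sum.inl (Sum.inl i))) (b (Sum.inl (Sum.inl j))) = 0 ∧ QuadraticMap.polar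 ⇑Q (b (Sum.inl (Sum.inr i))) (b (Sum.inl (Sum.inr j))) = 0) ∧ (∀ i (k : Fin 2), QuadraticMap.polar ⇑Q (b (Sum.inl (Sum.inl i))) (b (Sum.inr k)) = 0 ∧ QuadraticMap.polar ⇑Q (b (Sum.inl (Sum.inr i))) (b (Sum.inr k)) = 0) ∧ Q (b (Sum.inr 0)) = 1 ∧ QuadraticMap.polar ⇑Q (b (Sum.inr 0)) (b (Sum.inr 1)) = 1 ∧ Q (b (Sum.inr 1)) = ζ) := by
  classical
  rcases CfsgLib.Classes.exists_equiv_even hm hV Q hQ with ⟨E, hE⟩ | ⟨E, ζ, hζ, hE⟩
  · left
    let b := (Pi.basisFun F (Fin m ⊕ Fin m)).map E.symm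
    have hv : ∀ k, E (b k) = Pi.single k 1 := fun k => by simp [b]
    have hp : ∀ k k', QuadraticMap.polar ⇑Q (b k) (b k') =
        QuadraticMap.polar (Cfsg.quadFormPlus m F) (Pi.single k 1) (Pi.single k' 1) := fun k k' => by
      simp only [QuadraticMap.polar, hE, map_add, hv]
    refine ⟨b, fun i => ?_, fun i j => ?_, fun i j => ?_⟩
    · simp [hE, hv, Cfsg.quadFormPlus, Pi.single_apply]
    · rw [hp, CfsgLib.Classes.polar_quadFormPlus, CfsgLib.Classes.dotProduct_hypMatrix]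
      simp [Pi.single_apply, eq_comm]
    · constructor <;>
      · rw [hp, CfsgLib.Classes.polar_quadFormPlus, CfsgLib.Classes.dotProduct_hypMatrix]
        simp [Pi.single_apply]
  · right
    let b := (Pi.basisFun F ((Fin (m - 1) ⊕ Fin (m - 1)) ⊕ Fin 2)).map E.symm
    have hv : ∀ k, E (b k) = Pi.single k 1 := fun k => by simp [b]
    have hp : ∀ k k', QuadraticMap.polar ⇑Q (b k) (b k') =
        QuadraticMap.polar (Cfsg.quadFormMinus (m - 1) F 1 ζ) (Pi.single k 1) (Pi.single k' 1) := fun k k' => by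
      simp only [QuadraticMap.polar, hE, map_add, hv]
    have hp' : ∀ k k', QuadraticMap.polar ⇑Q (b k) (b k') = CfsgLib.Classes.minusMatrix (m - 1) 1 ζ k k' := fun k k' => by
      rw [hp, CfsgLib.Classes.polar_quadFormMinus, Matrix.mulVec_single_one, single_one_dotProduct, Matrix.col_apply]
    refine ⟨b, ζ, hζ, fun i => ?_, fun i j => ?_, fun i j => ?_, fun i k => ?_, ?_, ?_, ?_⟩
    · simp [hE, hv, Cfsg.quadFormMinus, Pi.single_apply]
    · rw [hp']
      simp [CfsgLib.Classes.minusMatrix, CfsgLib.Classes.hypMatrix, Matrix.one_apply]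
    · constructor <;>
      · rw [hp']
        simp [CfsgLib.Classes.minusMatrix, CfsgLib.Classes.hypMatrix]
    · constructor <;>
      · rw [hp']
        simp [CfsgLib.Classes.minusMatrix]
    · simp [hE, hv, Cfsg.quadFormMinus, Pi.single_apply]
    · rw [hp']
      simp [CfsgLib.Classes.minusMatrix]
    · simp [hE, hv, Cfsg.quadFormMinus, Pi.single_apply]

end Cfsg.Agent.S2616
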