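import Cfsg.Statements.S2617
import Cfsg.Agent.Lib.Classes.QuadDisc
import Cfsg.Agent.Lib.Forms.Singular
-- import your own Cfsg.Agent.* helpers here

set_option autoImplicit false
open Cfsg

namespace Cfsg.Agent.S2617

/-- The two standard quadratic forms of even dimension 2m over a finite field are not isometric: there is no linear isomorphism carrying the elliptic form Σ_(i<m−1) x_i y_i + z₁² + z₁z₂ + ζ z₂² (t² + t + ζ without roots) to the hyperbolic form Σ_(i<m) x_i y_i (they have different Witt index). -/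
theorem result {F : Type*} [Field F] [Finite F] {m : ℕ} (hm : 1 ≤ m) (ζ : F) (hζ : ∀ t : F, t ^ 2 + t + ζ ≠ 0) (g : (Fin m ⊕ Fin m → F) ≃ₗ[F] ((Fin (m - 1) ⊕ Fin (m - 1)) ⊕ Fin 2 → F)) : ¬ (∀ v : Fin m ⊕ Fin m → F, Cfsg.quadFormMinus (m - 1) F 1 ζ (g v) = Cfsg.quadFormPlus m F v) := by
  classical
  letI := Fintype.ofFinite F
  intro hg
  let W : Submodule F (Fin m ⊕ Fin m → F) := LinearMap.ker (LinearMap.funLeft F F (Sum.inr : Fin m → Fin m ⊕ Fin m))
  have hW0 : ∀ w ∈ W, Cfsg.quadFormPlus m F w = 0 := fun w hw => by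
    refine Finset.sum_eq_zero fun i _ => ?_
    have := congrFun (LinearMap.mem_ker.mp hw) i
    simp only [LinearMap.funLeft_apply, Pi.zero_apply] at this
    rw [this, mul_zero]
  have hWdim : m ≤ Module.finrank F W := by
    show m ≤ Module.finrank F (LinearMap.ker (LinearMap.funLeft F F (Sum.inr : Fin m → Fin m ⊕ Fin m)))
    have h1 := LinearMap.finrank_range_add_finrank_ker (LinearMap.funLeft F F (Sum.inr : Fin m → Fin m ⊕ Fin m))
    have h2 := Submodule.finrank_le (LinearMap.range (LinearMap.funLeft F F (Sum.inr : Fin m → Fin m ⊕ Fin m)))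
    simp only [Module.finrank_fintype_fun_eq_card, Fintype.card_sum, Fintype.card_fin] at h1 h2
    omega
  -- the elliptic form as a quadratic form
  let T : Matrix ((Fin (m - 1) ⊕ Fin (m - 1)) ⊕ Fin 2) ((Fin (m - 1) ⊕ Fin (m - 1)) ⊕ Fin 2) F :=
    Matrix.fromBlocks (Matrix.fromBlocks 0 1 0 0) 0 0 !![1, 1; 0, ζ]
  let Qm : QuadraticForm F ((Fin (m - 1) ⊕ Fin (m - 1)) ⊕ Fin 2 → F) := T.toQuadraticForm'
  have hQm : ∀ v, Qm v = Cfsg.quadFormMinus (m - 1) F 1 ζ v := fun v => by
    show Matrix.toLinearMap₂' F T v v = _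
    rw [Matrix.toLinearMap₂'_apply']
    simp [T, Matrix.fromBlocks_mulVec, dotProduct, Cfsg.quadFormMinus, Fintype.sum_sum_type, Fin.sum_univ_two,
      Matrix.mulVec, Matrix.one_apply]
    ring
  have hpol : ∀ u v, QuadraticMap.polar ⇑Qm u v = u ⬝ᵥ (CfsgLib.Classes.minusMatrix (m - 1) 1 ζ).mulVec v := fun u v => by
    rw [← CfsgLib.Classes.polar_quadFormMinus]
    simp only [QuadraticMap.polar, hQm]
  have hdet : (CfsgLib.Classes.minusMatrix (m - 1) 1 ζ).det ≠ 0 := by
    rw [CfsgLib.Classes.det_minusMatrix]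
    refine mul_ne_zero (pow_ne_zero _ (neg_ne_zero.mpr one_ne_zero)) fun h0 => ?_
    by_cases h2 : (2 : F) = 0
    · rw [show (4 : F) = 2 * 2 by norm_num, h2] at h0
      simp at h0
    · refine hζ (-1 / 2) ?_
      field_simp
      linear_combination h0
  have hndeg : (QuadraticMap.polarBilin Qm).Nondegenerate := CfsgLib.Classes.nondegenerate_polarBilin Qm fun x hx => by
    by_contra hne
    have hx' : ∀ y, x ⬝ᵥ (CfsgLib.Classes.minusMatrix (m - 1) 1 ζ).mulVec y = 0 := fun y => (hpol x y).symm.trans (hx y)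
    refine hdet (Matrix.exists_vecMul_eq_zero_iff.mp ⟨x, hne, funext fun k => ?_⟩)
    have h3 := hx' (Pi.single k 1)
    rw [Matrix.dotProduct_mulVec, dotProduct_single, mul_one] at h3
    exact h3
  let U : Submodule F ((Fin (m - 1) ⊕ Fin (m - 1)) ⊕ Fin 2 → F) :=
    LinearMap.ker (LinearMap.funLeft F F (Sum.elim (Sum.inl ∘ Sum.inr) Sum.inr :
      Fin (m - 1) ⊕ Fin 2 → (Fin (m - 1) ⊕ Fin (m - 1)) ⊕ Fin 2))
  have hU : ∀ u ∈ U, (∀ i, u (.inl (.inr i)) = 0) ∧ (∀ j, u (.inr j) = 0) := fun u hu =>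
    ⟨fun i => congrFun (LinearMap.mem_ker.mp hu) (.inl i), fun j => congrFun (LinearMap.mem_ker.mp hu) (.inr j)⟩
  have hU0 : ∀ u ∈ U, Qm u = 0 := fun u hu => by
    simp [hQm, Cfsg.quadFormMinus, (hU u hu).1, (hU u hu).2]
  let W' := W.map g.toLinearMap
  have hW'0 : ∀ w ∈ W', Qm w = 0 := by
    rintro _ ⟨w, hw, rfl⟩
    rw [hQm]
    exact (hg w).trans (hW0 w hw)
  have hUdim : Module.finrank F U = m - 1 := by
    have h1 := LinearMap.finrank_range_add_finrank_ker (LinearMap.funLeft F F (Sum.elim (Sum.inl ∘ Sum.inr) Sum.inr :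
      Fin (m - 1) ⊕ Fin 2 → (Fin (m - 1) ⊕ Fin (m - 1)) ⊕ Fin 2))
    rw [LinearMap.range_eq_top.mpr (LinearMap.funLeft_surjective_of_injective F F _ (by
      rintro (i | i) (j | j) h <;> simp at h ⊢ <;> exact h)), finrank_top] at h1
    simp only [Module.finrank_fintype_fun_eq_card, Fintype.card_sum, Fintype.card_fin] at h1
    show Module.finrank F (LinearMap.ker _) = m - 1
    omega
  obtain ⟨σ, hσ, hle⟩ := CfsgLib.Forms.exists_isometry_singular_le Qm hndeg U W' hU0 hW'0 (by
    rw [hUdim, LinearEquiv.finrank_map_eq]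
    exact (Nat.sub_le m 1).trans hWdim)
  let S := W'.comap σ.toLinearMap
  have hS0 : ∀ s ∈ S, Qm s = 0 := fun s hs => (hσ s).symm.trans (hW'0 _ hs)
  have hUS : U ≤ S := Submodule.map_le_iff_le_comap.mp hle
  have hSdim : m ≤ Module.finrank F S := by
    show m ≤ Module.finrank F (W'.comap σ.toLinearMap)
    rw [Submodule.comap_equiv_eq_map_symm, LinearEquiv.finrank_map_eq, LinearEquiv.finrank_map_eq]
    exact hWdim
  have hSU : S ≤ U := by
    intro s hs
    have hy : ∀ i, s (.inl (.inr i)) = 0 := fun i => by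
      have hu : Pi.single (.inl (.inl i)) 1 ∈ U := LinearMap.mem_ker.mpr (funext fun k => by
        rcases k with k | k <;> simp [LinearMap.funLeft_apply])
      have h1 := hS0 _ (S.add_mem (hUS hu) hs)
      have h2 : QuadraticMap.polar ⇑Qm (Pi.single (.inl (.inl i)) 1) s = 0 := by
        rw [QuadraticMap.polar, h1, hS0 _ (hUS hu), hS0 _ hs]; ring
      rw [hpol, single_one_dotProduct] at h2
      simpa [CfsgLib.Classes.minusMatrix, CfsgLib.Classes.hypMatrix, Matrix.fromBlocks_mulVec] using h2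
    have h3 := hS0 _ hs
    rw [hQm] at h3
    simp only [Cfsg.quadFormMinus, hy, mul_zero, Finset.sum_const_zero, zero_add] at h3
    obtain ⟨h4, h5⟩ := CfsgLib.Classes.anisotropic_of_noroot hζ _ _ h3
    refine LinearMap.mem_ker.mpr (funext fun k => ?_)
    rcases k with k | k
    · exact hy k
    · fin_cases k
      · exact h4
      · exact h5
  have := Submodule.finrank_mono hSU
  omega

end Cfsg.Agent.S2617
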