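import Cfsg.Statements.S2619
-- import your own Cfsg.Agent.* helpers here

set_option autoImplicit false
open Cfsg

namespace Cfsg.Agent.S2619

/-- Over a finite field of characteristic two, given an alternating bilinear form B on a finite-dimensional space, a basis (v_i) and scalars (λ_i), there is exactly one quadratic form whose polar form is B and whose value at each v_i is λ_i. -/
theorem result {F V ι : Type*} [Field F] [Finite F] [CharP F 2] [AddCommGroup V] [Module F V] [Fintype ι] (b : Module.Basis ι F V) (B : LinearMap.BilinForm F V) (hB : B.IsAlt) (c : ι → F) : ∃! Q : QuadraticForm F V, QuadraticMap.polarBilin Q = B ∧ ∀ i, Q (b i) = c i := by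
  classical
  letI : LinearOrder ι := LinearOrder.lift' _ (Fintype.equivFin ι).injective
  let M : LinearMap.BilinForm F V := b.constr (S := F) fun i => b.constr (S := F) fun j =>
    if i = j then c i else if i < j then B (b i) (b j) else 0
  have hM : ∀ i j, M (b i) (b j) = if i = j then c i else if i < j then B (b i) (b j) else 0 := by
    intro i j
    simp only [M, Module.Basis.constr_basis]
  refine ⟨M.toQuadraticMap, ⟨?_, fun i => ?_⟩, ?_⟩
  · rw [LinearMap.BilinMap.polarBilin_toQuadraticMap]
    refine b.ext fun i => b.ext fun j => ?_
    simp only [LinearMap.add_apply, LinearMap.flip_apply, hM]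
    rcases lt_trichotomy i j with h | h | h
    · simp [h.ne, h.ne', h, h.not_gt]
    · subst h
      simp [CharTwo.add_self_eq_zero, hB.self_eq_zero]
    · rw [if_neg h.ne', if_neg h.not_gt, if_pos h, zero_add, if_neg h.ne, ← CharTwo.neg_eq (B (b j) (b i))]
      exact LinearMap.IsAlt.neg hB (b j) (b i)
  · simp [LinearMap.BilinMap.toQuadraticMap_apply, hM]
  · rintro Q ⟨hQ, hQv⟩
    have hb : Q.toBilin b = M := by
      refine b.ext fun i => b.ext fun j => ?_
      rw [QuadraticMap.toBilin_apply, hM, hQv, ← hQ]
      rfl
    exact (Q.toQuadraticMap_toBilin b).symm.trans (by rw [hb])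

end Cfsg.Agent.S2619
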