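import Cfsg.Statements.S2621
import Cfsg.Agent.Lib.Classes.QuadDisc
-- import your own Cfsg.Agent.* helpers here

set_option autoImplicit false
open Cfsg

namespace Cfsg.Agent.S2621

/-- Discriminant of an elliptic quadratic form Σ_(i<m−1) x_i y_i + z₁² + a z₁z₂ + c z₂² (binary part anisotropic) in dimension 2m over a field with q elements, q odd, m ≥ 1: the determinant of the Gram matrix of its polar form in any basis is a square if and only if m(q − 1)/2 is odd (equivalently q^m ≡ 3 (mod 4)). -/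
theorem result {F : Type*} [Field F] [Fintype F] {q : ℕ} (hF : Fintype.card F = q) (hq : Odd q) {m : ℕ} (hm : 1 ≤ m) (a c : F) (hac : ∀ z₁ z₂ : F, z₁ ^ 2 + a * z₁ * z₂ + c * z₂ ^ 2 = 0 → z₁ = 0 ∧ z₂ = 0) {ι : Type*} [Fintype ι] [DecidableEq ι] (b : Module.Basis ι F ((Fin (m - 1) ⊕ Fin (m - 1)) ⊕ Fin 2 → F)) : IsSquare (Matrix.of (fun i j : ι => QuadraticMap.polar (Cfsg.quadFormMinus (m - 1) F a c) (b i) (b j))).det ↔ ¬ Even (m * (q - 1) / 2) := by
  classical
  have h2 : (2 : F) ≠ 0 := Ring.two_ne_zero (by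
    rw [Ne, FiniteField.even_card_iff_char_two, hF]
    obtain ⟨k, hk⟩ := hq
    omega)
  obtain ⟨d, hd, hdet⟩ := CfsgLib.Classes.isSquare_det_gram _ _ (CfsgLib.Classes.polar_quadFormMinus (F := F) (m - 1) a c) b
  have hns := CfsgLib.Classes.not_isSquare_disc h2 hac
  have hne : a ^ 2 - 4 * c ≠ 0 := fun h => hns (h ▸ IsSquare.zero)
  rw [hdet, CfsgLib.Classes.isSquare_sq_mul_iff hd, CfsgLib.Classes.det_minusMatrix,
    show (-1 : F) ^ (m - 1) * (4 * c - a ^ 2) = (-1) ^ (m - 1 + 1) * (a ^ 2 - 4 * c) by ring,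
    Nat.sub_add_cancel hm, CfsgLib.Classes.isSquare_mul_iff h2 (pow_ne_zero _ (neg_ne_zero.mpr one_ne_zero)) hne,
    CfsgLib.Classes.isSquare_neg_one_pow_iff hF hq]
  simp [hns]

end Cfsg.Agent.S2621
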