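import Cfsg.Statements.S2622
-- import your own Cfsg.Agent.* helpers here

set_option autoImplicit false
open Cfsg

namespace Cfsg.Agent.S2622

/-- Over a finite field of characteristic two, a non-degenerate symmetric bilinear form that is not alternating (some vector v has B(v, v) ≠ 0) admits an orthonormal basis. -/
theorem result {F V : Type*} [Field F] [Finite F] [CharP F 2] [AddCommGroup V] [Module F V] [FiniteDimensional F V] {n : ℕ} (hV : Module.finrank F V = n) (B : LinearMap.BilinForm F V) (hS : B.IsSymm) (hB : B.Nondegenerate) (hna : ∃ v : V, B v v ≠ 0) : ∃ b : Module.Basis (Fin n) F V, ∀ i j, B (b i) (b j) = if i = j then 1 else 0 := by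
  classical
  have hsq : ∀ a : F, IsSquare a := fun a => by
    letI := Fintype.ofFinite F
    exact FiniteField.isSquare_of_char_two (ringChar.eq F 2) a
  have hsymm : ∀ x y, B x y = B y x := fun x y => hS.eq x y
  suffices key : ∀ (k : ℕ) (W : Submodule F V), Module.finrank F W = k →
      (∀ w ∈ W, (∀ u ∈ W, B w u = 0) → w = 0) → (∃ v ∈ W, B v v ≠ 0) →
      ∃ f : Fin k → V, (∀ i, f i ∈ W) ∧ ∀ i j, B (f i) (f j) = if i = j then 1 else 0 by
    obtain ⟨f, -, hf⟩ := key n ⊤ (by rw [finrank_top, hV]) (fun w _ h => hB.1 w fun u => h u trivial)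
      (hna.elim fun v hv => ⟨v, trivial, hv⟩)
    have hli : LinearIndependent F f := Fintype.linearIndependent_iff.mpr fun c hc i => by
      have := congrArg (B (f i)) hc
      simpa [map_sum, hf] using this
    rcases Nat.eq_zero_or_pos n with rfl | hn
    · exact ⟨Module.finBasisOfFinrankEq F V hV, fun i => i.elim0⟩
    haveI : Nonempty (Fin n) := ⟨⟨0, hn⟩⟩
    refine ⟨basisOfLinearIndependentOfCardEqFinrank hli (by simp [hV]), fun i j => ?_⟩
    rw [coe_basisOfLinearIndependentOfCardEqFinrank]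
    exact hf i j
  intro k
  induction k with
  | zero => exact fun W _ _ _ => ⟨Fin.elim0, fun i => i.elim0, fun i => i.elim0⟩
  | succ k ih =>
    intro W hW hnd hv
    -- a unit vector with non-alternating complement
    obtain ⟨v, hvW, hv1, hgood⟩ : ∃ v ∈ W, B v v = 1 ∧
        (k = 0 ∨ ∃ w ∈ W, B v w = 0 ∧ B w w ≠ 0) := by
      obtain ⟨v0, hv0W, hv0⟩ := hv
      obtain ⟨c, hc⟩ := hsq (B v0 v0)⁻¹
      obtain ⟨v, hvW, hv1⟩ : ∃ v ∈ W, B v v = 1 := ⟨c • v0, W.smul_mem c hv0W, by
        simp [← mul_assoc, ← hc, hv0]⟩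
      by_cases hk : k = 0
      · exact ⟨v, hvW, hv1, Or.inl hk⟩
      by_cases halt : ∃ w ∈ W, B v w = 0 ∧ B w w ≠ 0
      · exact ⟨v, hvW, hv1, Or.inr halt⟩
      push Not at halt
      obtain ⟨e, ⟨heW, he⟩, he0⟩ := Submodule.exists_mem_ne_zero_of_ne_bot (p := W ⊓ LinearMap.ker (B v)) (fun hbot => by
        have h1 := Submodule.finrank_sup_add_finrank_inf_eq W (LinearMap.ker (B v))
        have h2 := LinearMap.finrank_range_add_finrank_ker (B v)
        have h3 := Submodule.finrank_le (LinearMap.range (B v))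
        have h4 := Submodule.finrank_le (W ⊔ LinearMap.ker (B v))
        rw [Module.finrank_self] at h3
        rw [hbot, finrank_bot] at h1
        omega)
      have he' : B v e = 0 := he
      obtain ⟨u, huW, hu⟩ : ∃ u ∈ W, B e u ≠ 0 := by
        by_contra h
        push Not at h
        exact he0 (hnd e heW h)
      obtain ⟨f, hfW, hfv, hef⟩ : ∃ f ∈ W, B v f = 0 ∧ B e f = 1 := by
        refine ⟨(B e u)⁻¹ • (u - B v u • v), W.smul_mem _ (W.sub_mem huW (W.smul_mem _ hvW)), ?_, ?_⟩
        · simp [hv1]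
        · simp [hsymm e v, he', hu]
      have hee : B e e = 0 := halt e heW he'
      refine ⟨v + e, W.add_mem hvW heW, ?_, Or.inr ⟨v + f, W.add_mem hvW hfW, ?_, ?_⟩⟩
      · simp [hv1, he', hee, hsymm e v]
      · simp [hv1, hfv, hef, hsymm e v, he', CharTwo.add_self_eq_zero]
      · simp [hv1, hfv, hsymm f v, halt f hfW hfv]
    set W' : Submodule F V := W ⊓ LinearMap.ker (B v) with hW'def
    have hW'mem : ∀ x, x ∈ W' ↔ x ∈ W ∧ B v x = 0 := fun x => Iff.rfl
    have hproj : ∀ x ∈ W, x - B v x • v ∈ W' := fun x hx =>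
      (hW'mem _).mpr ⟨W.sub_mem hx (W.smul_mem _ hvW), by simp [hv1]⟩
    have hW'dim : Module.finrank F W' = k := by
      have h1 := Submodule.finrank_sup_add_finrank_inf_eq (F ∙ v) W'
      have hsup : F ∙ v ⊔ W' = W := le_antisymm
        (sup_le ((Submodule.span_singleton_le_iff_mem _ _).mpr hvW) inf_le_left) (fun x hx => by
          rw [show x = B v x • v + (x - B v x • v) by abel]
          exact Submodule.add_mem_sup (Submodule.smul_mem _ _ (Submodule.mem_span_singleton_self v)) (hproj x hx))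
      have hinf : F ∙ v ⊓ W' = ⊥ := by
        rw [Submodule.eq_bot_iff]
        rintro x ⟨hx, hx'⟩
        obtain ⟨c, rfl⟩ := Submodule.mem_span_singleton.mp hx
        have := ((hW'mem _).mp hx').2
        simp [hv1] at this
        simp [this]
      have hvne : v ≠ 0 := fun h => by simp [h] at hv1
      rw [hsup, hinf, finrank_bot, finrank_span_singleton hvne, hW] at h1
      omega
    rcases hgood with rfl | ⟨w, hwW, hvw, hww⟩
    · exact ⟨fun _ => v, fun _ => hvW, fun i j => by rw [if_pos (Fin.ext (by omega))]; exact hv1⟩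
    obtain ⟨f, hfW, hf⟩ := ih W' hW'dim (fun x hx h => hnd x hx.1 fun y hy => by
        have h2 := h _ (hproj y hy)
        rw [map_sub, map_smul, hsymm x v, ((hW'mem x).mp hx).2, smul_zero, sub_zero] at h2
        exact h2) ⟨w, (hW'mem w).mpr ⟨hwW, hvw⟩, hww⟩
    refine ⟨Fin.cons v f, Fin.cases hvW fun i => (hfW i).1, fun i j => ?_⟩
    refine Fin.cases ?_ (fun i => ?_) i <;> refine Fin.cases ?_ (fun j => ?_) j
    · simp [hv1]
    · simp [((hW'mem _).mp (hfW j)).2, Ne.symm (Fin.succ_ne_zero j)]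
    · simp [hsymm (f i) v, ((hW'mem _).mp (hfW i)).2]
    · simp [hf]

end Cfsg.Agent.S2622
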