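import Cfsg.Statements.S2623
import Cfsg.Agent.Lib.Classes.QuadDisc
-- import your own Cfsg.Agent.* helpers here

set_option autoImplicit false
open Cfsg

namespace Cfsg.Agent.S2623

/-- Over a finite field of odd order, two quadratic forms on F^n with non-degenerate polar forms are isometric (related by an invertible linear change of variables) if and only if their discriminants (determinants of the Gram matrices of their polar forms) lie in the same square class. -/
theorem result {F : Type*} [Field F] [Fintype F] (h2 : (2 : F) ≠ 0) {n : ℕ} (Q₁ Q₂ : QuadraticForm F (Fin n → F)) (h₁ : (QuadraticMap.polarBilin Q₁).Nondegenerate) (h₂ : (QuadraticMap.polarBilin Q₂).Nondegenerate) : (∃ g : (Fin n → F) ≃ₗ[F] (Fin n → F), ∀ v, Q₂ (g v) = Q₁ v) ↔ IsSquare ((Matrix.of (fun i j : Fin n => QuadraticMap.polar ⇑Q₁ (Pi.single i 1) (Pi.single j 1))).det * (Matrix.of (fun i j : Fin n => QuadraticMap.polar ⇑Q₂ (Pi.single i 1) (Pi.single j 1))).det) := by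
  classical
  have gram : ∀ (Q : QuadraticForm F (Fin n → F)),
      (Matrix.of (fun i j : Fin n => QuadraticMap.polar ⇑Q (Pi.single i 1) (Pi.single j 1))).det =
        (LinearMap.toMatrix₂' F (QuadraticMap.polarBilin Q)).det := fun Q => by
    refine congrArg Matrix.det (Matrix.ext fun i j => ?_)
    simp
  constructor
  · rintro ⟨g, hg⟩
    obtain ⟨d, hd, h⟩ := CfsgLib.Classes.det_gram_of_equiv ⇑Q₁ g ⇑Q₂ (fun x => (hg x).symm)
      (LinearMap.toMatrix₂' F (QuadraticMap.polarBilin Q₂)) (fun u v => by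
        rw [← Matrix.toLinearMap₂'_apply' (LinearMap.toMatrix₂' F (QuadraticMap.polarBilin Q₂)) u v,
          Matrix.toLinearMap₂'_toMatrix']
        rfl)
    rw [h, gram Q₂]
    exact ⟨d * (LinearMap.toMatrix₂' F (QuadraticMap.polarBilin Q₂)).det, by ring⟩
  · intro hsq
    have hns : ∀ ζ : F, (∀ t : F, t ^ 2 + t + ζ ≠ 0) → ¬ IsSquare ((1 : F) ^ 2 - 4 * ζ) := fun ζ hζ =>
      CfsgLib.Classes.not_isSquare_disc h2 (CfsgLib.Classes.anisotropic_of_noroot hζ)
    rcases Nat.even_or_odd n with ⟨m, hm⟩ | ⟨m, hm⟩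
    · rcases Nat.eq_zero_or_pos m with rfl | hm0
      · refine ⟨LinearEquiv.refl F _, fun v => ?_⟩
        have : v = 0 := funext fun i => absurd i.2 (by omega)
        simp [this]
      · have hn : Module.finrank F (Fin n → F) = 2 * m := by rw [Module.finrank_fin_fun]; omega
        rcases CfsgLib.Classes.exists_equiv_even hm0 hn Q₁ h₁ with ⟨E, hE⟩ | ⟨E, ζ, hζ, hE⟩ <;>
          rcases CfsgLib.Classes.exists_equiv_even hm0 hn Q₂ h₂ with ⟨E', hE'⟩ | ⟨E', ζ', hζ', hE'⟩
        · exact ⟨E.trans E'.symm, fun v => by simp [hE, hE']⟩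
        · exfalso
          obtain ⟨d, hd, hdet⟩ := CfsgLib.Classes.det_gram_of_equiv _ E _ hE _ (CfsgLib.Classes.polar_quadFormPlus m)
          obtain ⟨d', hd', hdet'⟩ := CfsgLib.Classes.det_gram_of_equiv _ E' _ hE' _ (CfsgLib.Classes.polar_quadFormMinus (m - 1) 1 ζ')
          rw [hdet, hdet', CfsgLib.Classes.det_hypMatrix, CfsgLib.Classes.det_minusMatrix,
            show d ^ 2 * (-1 : F) ^ m * (d' ^ 2 * ((-1) ^ (m - 1) * (4 * ζ' - 1 ^ 2))) =
              (d * d' * (-1) ^ m) ^ 2 * (1 ^ 2 - 4 * ζ') by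
            obtain ⟨k, rfl⟩ : ∃ k, m = k + 1 := ⟨m - 1, by omega⟩
            rw [Nat.add_sub_cancel]
            ring_nf
            try simp [pow_mul],
            CfsgLib.Classes.isSquare_sq_mul_iff (mul_ne_zero (mul_ne_zero hd hd') (pow_ne_zero _ (neg_ne_zero.mpr one_ne_zero)))] at hsq
          exact hns ζ' hζ' hsq
        · exfalso
          obtain ⟨d, hd, hdet⟩ := CfsgLib.Classes.det_gram_of_equiv _ E _ hE _ (CfsgLib.Classes.polar_quadFormMinus (m - 1) 1 ζ)
          obtain ⟨d', hd', hdet'⟩ := CfsgLib.Classes.det_gram_of_equiv _ E' _ hE' _ (CfsgLib.Classes.polar_quadFormPlus m)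
          rw [hdet, hdet', CfsgLib.Classes.det_hypMatrix, CfsgLib.Classes.det_minusMatrix,
            show d ^ 2 * ((-1 : F) ^ (m - 1) * (4 * ζ - 1 ^ 2)) * (d' ^ 2 * (-1) ^ m) =
              (d * d' * (-1) ^ m) ^ 2 * (1 ^ 2 - 4 * ζ) by
            obtain ⟨k, rfl⟩ : ∃ k, m = k + 1 := ⟨m - 1, by omega⟩
            rw [Nat.add_sub_cancel]
            ring_nf
            try simp [pow_mul],
            CfsgLib.Classes.isSquare_sq_mul_iff (mul_ne_zero (mul_ne_zero hd hd') (pow_ne_zero _ (neg_ne_zero.mpr one_ne_zero)))] at hsq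
          exact hns ζ hζ hsq
        · obtain ⟨g, hg⟩ := CfsgLib.Classes.minus_isometric (m - 1) hζ hζ'
          exact ⟨E.trans (g.trans E'.symm), fun v => by simp [hE, hE', hg]⟩
    · have hn : Module.finrank F (Fin n → F) = 2 * m + 1 := by rw [Module.finrank_fin_fun, hm]
      obtain ⟨E, c, -, hc, hE⟩ := CfsgLib.Classes.exists_equiv_odd hn Q₁ h₁
      obtain ⟨E', c', -, hc', hE'⟩ := CfsgLib.Classes.exists_equiv_odd hn Q₂ h₂
      obtain ⟨d, hd, hdet⟩ := CfsgLib.Classes.det_gram_of_equiv _ E _ hE _ (CfsgLib.Classes.polar_oddForm m c)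
      obtain ⟨d', hd', hdet'⟩ := CfsgLib.Classes.det_gram_of_equiv _ E' _ hE' _ (CfsgLib.Classes.polar_oddForm m c')
      rw [hdet, hdet', CfsgLib.Classes.det_oddMatrix, CfsgLib.Classes.det_oddMatrix,
        show d ^ 2 * (2 * c * (-1 : F) ^ m) * (d' ^ 2 * (2 * c' * (-1) ^ m)) =
          (2 * d * d' * (-1) ^ m * c') ^ 2 * (c / c') by field_simp,
        CfsgLib.Classes.isSquare_sq_mul_iff
          (mul_ne_zero (mul_ne_zero (mul_ne_zero (mul_ne_zero h2 hd) hd') (pow_ne_zero _ (neg_ne_zero.mpr one_ne_zero))) hc')] at hsq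
      obtain ⟨s, hs⟩ := hsq
      have hs0 : s ≠ 0 := fun h => div_ne_zero hc hc' (by rw [hs, h, mul_zero])
      let u : Unit ⊕ (Fin m ⊕ Fin m) → Fˣ := Sum.elim (fun _ => Units.mk0 s hs0) fun _ => 1
      let S := LinearEquiv.piCongrRight fun k => LinearEquiv.smulOfUnit (R := F) (M := F) (u k)
      refine ⟨E.trans (S.trans E'.symm), fun v => ?_⟩
      have hS : ∀ z k, S z k = (u k : F) * z k := fun z k => rfl
      rw [hE, hE']
      simp only [LinearEquiv.trans_apply, LinearEquiv.apply_symm_apply, hS, u, Sum.elim_inl, Sum.elim_inr,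
        Units.val_mk0, Units.val_one, one_mul]
      rw [mul_pow, ← mul_assoc, sq s, ← hs, mul_div_cancel₀ _ hc']

end Cfsg.Agent.S2623
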