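import Cfsg.Statements.S2624
import Cfsg.Agent.Lib.Classes.QuadDisc
-- import your own Cfsg.Agent.* helpers here

set_option autoImplicit false
open Cfsg

namespace Cfsg.Agent.S2624

/-- For a quadratic form Q on F^n with non-degenerate polar form, F finite and n ≥ 2 even, every non-zero scalar c is the multiplier of some similarity: there is an invertible linear map g with Q(g v) = c·Q(v) for all v. -/
theorem result {F : Type*} [Field F] [Fintype F] {n : ℕ} (hn : 2 ≤ n) (he : Even n) (Q : QuadraticForm F (Fin n → F)) (hQ : (QuadraticMap.polarBilin Q).Nondegenerate) (c : F) (hc : c ≠ 0) : ∃ g : (Fin n → F) ≃ₗ[F] (Fin n → F), ∀ v, Q (g v) = c * Q v := by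
  classical
  obtain ⟨m, rfl⟩ := he
  have hV : Module.finrank F (Fin (m + m) → F) = 2 * m := by rw [Module.finrank_fin_fun]; omega
  rcases CfsgLib.Classes.exists_equiv_even (by omega : 1 ≤ m) hV Q hQ with ⟨E, hE⟩ | ⟨E, ζ, hζ, hE⟩
  · let u : Fin m ⊕ Fin m → Fˣ := Sum.elim (fun _ => Units.mk0 c hc) fun _ => 1
    let S := LinearEquiv.piCongrRight fun k => LinearEquiv.smulOfUnit (R := F) (M := F) (u k)
    refine ⟨E.trans (S.trans E.symm), fun v => ?_⟩
    have hS : ∀ z k, S z k = (u k : F) * z k := fun z k => rfl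
    simp only [hE, LinearEquiv.trans_apply, LinearEquiv.apply_symm_apply, Cfsg.quadFormPlus, hS, u, Sum.elim_inl,
      Sum.elim_inr, Units.val_mk0, Units.val_one, one_mul, Finset.mul_sum, mul_assoc]
  · obtain ⟨a₁, a₂, ha⟩ : ∃ a₁ a₂ : F, a₁ ^ 2 + a₁ * a₂ + ζ * a₂ ^ 2 = c := by
      by_cases hc2 : ringChar F = 2
      · obtain ⟨r, hr⟩ := FiniteField.isSquare_of_char_two hc2 c
        exact ⟨r, 0, by rw [hr]; ring⟩
      · have h2 : (2 : F) ≠ 0 := Ring.two_ne_zero hc2
        have hne : (4 * ζ - 1) / 4 ≠ 0 := by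
          refine div_ne_zero (fun h0 => hζ (-1 / 2) ?_) ?_
          · field_simp
            linear_combination h0
          · rw [show (4 : F) = 2 * 2 by norm_num]; exact mul_ne_zero h2 h2
        obtain ⟨x, y, hxy⟩ := CfsgLib.Classes.exists_sq_add_sq 1 ((4 * ζ - 1) / 4) c one_ne_zero hne
        refine ⟨x - y / 2, y, ?_⟩
        have h4 : (4 : F) ≠ 0 := by rw [show (4 : F) = 2 * 2 by norm_num]; exact mul_ne_zero h2 h2
        rw [← hxy]
        field_simp
        ring
    let G : (Fin 2 → F) →ₗ[F] (Fin 2 → F) :=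
      Matrix.mulVecLin !![a₁, -(ζ * a₂); a₂, a₁ + a₂]
    have hG : ∀ z, G z 0 ^ 2 + G z 0 * G z 1 + ζ * G z 1 ^ 2 = c * (z 0 ^ 2 + z 0 * z 1 + ζ * z 1 ^ 2) := fun z => by
      simp [G, Matrix.mulVec, dotProduct, Fin.sum_univ_two, ← ha]
      ring
    have hGinj : Function.Injective G := (injective_iff_map_eq_zero G).mpr fun z hz => by
      have := hG z
      rw [hz] at this
      simp only [Pi.zero_apply] at this
      obtain ⟨h0, h1⟩ := CfsgLib.Classes.anisotropic_of_noroot hζ (z 0) (z 1) (by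
        have h3 : c * (z 0 ^ 2 + z 0 * z 1 + ζ * z 1 ^ 2) = 0 := by linear_combination -this
        linear_combination (mul_eq_zero.mp h3).resolve_left hc)
      funext i; fin_cases i
      · exact h0
      · exact h1
    let G' : (Fin 2 → F) ≃ₗ[F] (Fin 2 → F) := LinearEquiv.ofBijective G ⟨hGinj, LinearMap.surjective_of_injective hGinj⟩
    let u : Fin (m - 1) ⊕ Fin (m - 1) → Fˣ := Sum.elim (fun _ => Units.mk0 c hc) fun _ => 1
    let S := LinearEquiv.piCongrRight fun k => LinearEquiv.smulOfUnit (R := F) (M := F) (u k)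
    let P := (LinearEquiv.sumArrowLequivProdArrow (Fin (m - 1) ⊕ Fin (m - 1)) (Fin 2) F F).trans
      ((S.prodCongr G').trans (LinearEquiv.sumArrowLequivProdArrow _ _ F F).symm)
    refine ⟨E.trans (P.trans E.symm), fun v => ?_⟩
    rw [hE, hE]
    simp only [LinearEquiv.trans_apply, LinearEquiv.apply_symm_apply, Cfsg.quadFormMinus, one_mul, mul_add]
    have h1 : ∀ k, P (E v) (.inl k) = (u k : F) * E v (.inl k) := fun k => rfl
    have h2 : ∀ j, P (E v) (.inr j) = G (fun j => E v (.inr j)) j := fun j => rfl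
    simp only [h1, h2, u, Sum.elim_inl, Sum.elim_inr, Units.val_mk0, Units.val_one, one_mul, Finset.mul_sum, mul_assoc]
    exact congrArg (_ + ·) ((hG fun j => E v (.inr j)).trans (by ring))

end Cfsg.Agent.S2624
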