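import Cfsg.Statements.S2625
import Cfsg.Agent.Lib.Classes.QuadDisc
-- import your own Cfsg.Agent.* helpers here

set_option autoImplicit false
open Cfsg

namespace Cfsg.Agent.S2625

/-- For a quadratic form Q on F^n with non-degenerate polar form, F finite and n odd (so |F| is odd), the multiplier of any similarity is a square: if g is an invertible linear map with Q(g v) = c·Q(v) for all v then c is a square. -/
theorem result {F : Type*} [Field F] [Fintype F] {n : ℕ} (hn : Odd n) (Q : QuadraticForm F (Fin n → F)) (hQ : (QuadraticMap.polarBilin Q).Nondegenerate) (g : (Fin n → F) ≃ₗ[F] (Fin n → F)) (c : F) (hg : ∀ v, Q (g v) = c * Q v) : IsSquare c := by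
  classical
  by_cases h2 : ringChar F = 2
  · exact FiniteField.isSquare_of_char_two h2 c
  have hd : (LinearMap.toMatrix₂' F (QuadraticMap.polarBilin Q)).det ≠ 0 := by
    intro h0
    obtain ⟨x, hx, hx'⟩ := Matrix.exists_vecMul_eq_zero_iff.mpr h0
    refine hx (hQ.1 x fun y => ?_)
    rw [← Matrix.toLinearMap₂'_toMatrix' (R := F) (QuadraticMap.polarBilin Q), Matrix.toLinearMap₂'_apply', Matrix.dotProduct_mulVec,
      hx', zero_dotProduct]
  set M := LinearMap.toMatrix₂' F (QuadraticMap.polarBilin Q) with hM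
  obtain ⟨d, hd', h⟩ := CfsgLib.Classes.det_gram_of_equiv (fun x => c * Q x) g ⇑Q (fun x => (hg x).symm) M (fun u v => by
    rw [hM, ← Matrix.toLinearMap₂'_apply' (LinearMap.toMatrix₂' F (QuadraticMap.polarBilin Q)) u v,
      Matrix.toLinearMap₂'_toMatrix']
    rfl)
  have hc : (Matrix.of fun i j : Fin n => QuadraticMap.polar (fun x => c * Q x) (Pi.single i 1) (Pi.single j 1)) = c • M := by
    ext i j
    simp [hM, QuadraticMap.polar, mul_sub]
  rw [hc, Matrix.det_smul, Fintype.card_fin] at h
  obtain ⟨k, rfl⟩ := hn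
  have h' : c * (c ^ k) ^ 2 = d ^ 2 := mul_right_cancel₀ hd (by linear_combination h)
  by_cases hc0 : c = 0
  · exact hc0 ▸ IsSquare.zero
  · refine ⟨d / c ^ k, ?_⟩
    field_simp
    linear_combination h'

end Cfsg.Agent.S2625
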