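import Cfsg.Statements.S2626
-- import your own Cfsg.Agent.* helpers here

set_option autoImplicit false
open Cfsg

namespace Cfsg.Agent.S2626

/-- Block diagonal embedding of the product of two isometry groups. -/
def prodHom {F : Type*} [Field F] {k l : ℕ} (Q₁ : (Fin k → F) → F) (Q₂ : (Fin l → F) → F) :
    ↥(Cfsg.isometryGroup F Q₁) × ↥(Cfsg.isometryGroup F Q₂) →*
      ↥(Cfsg.isometryGroup F (fun v : Fin k ⊕ Fin l → F => Q₁ (v ∘ Sum.inl) + Q₂ (v ∘ Sum.inr))) :=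
  MonoidHom.codRestrict
    (MonoidHom.toHomUnits
      { toFun := fun g => Matrix.fromBlocks (((g.1 : Matrix.GeneralLinearGroup (Fin k) F)) : Matrix (Fin k) (Fin k) F) 0 0
          (((g.2 : Matrix.GeneralLinearGroup (Fin l) F)) : Matrix (Fin l) (Fin l) F)
        map_one' := by simp
        map_mul' := fun a b => by simp [Matrix.fromBlocks_multiply] })
    _ fun g => fun u v => by
      show Q₁ ((Matrix.mulVec (Matrix.fromBlocks _ 0 0 _) u) ∘ Sum.inl) +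
        Q₂ ((Matrix.mulVec (Matrix.fromBlocks _ 0 0 _) u) ∘ Sum.inr) = _
      rw [Matrix.fromBlocks_mulVec]
      simp only [Sum.elim_comp_inl, Sum.elim_comp_inr, Matrix.zero_mulVec, add_zero, zero_add]
      exact congrArg₂ (· + ·) (g.1.2 (u ∘ Sum.inl) (u ∘ Sum.inl)) (g.2.2 (u ∘ Sum.inr) (u ∘ Sum.inr))

lemma map_mem_commutator {G H : Type*} [Group G] [Group H] (f : G →* H) {x : G}
    (hx : x ∈ commutator G) : f x ∈ commutator H := by
  have h2 : f x ∈ (commutator G).map f := Subgroup.mem_map_of_mem f hx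
  rw [commutator_def, Subgroup.map_commutator] at h2
  exact Subgroup.commutator_mono le_top le_top h2


/-- Ω of an orthogonal direct sum contains the product of the Ω's: for quadratic forms Q₁ on F^k and Q₂ on F^l with non-degenerate polar forms (F finite) and Q = Q₁ ⊕ Q₂ on F^(k+l), if g₁ lies in Ω(Q₁) and g₂ in Ω(Q₂) (commutator subgroups of the orthogonal groups) then the block-diagonal isometry diag(g₁, g₂) lies in Ω(Q). -/
theorem result {F : Type*} [Field F] [Fintype F] {k l : ℕ} (Q₁ : QuadraticForm F (Fin k → F)) (Q₂ : QuadraticForm F (Fin l → F)) (h₁ : (QuadraticMap.polarBilin Q₁).Nondegenerate) (h₂ : (QuadraticMap.polarBilin Q₂).Nondegenerate) (g₁ : ↥(Cfsg.isometryGroup F ⇑Q₁)) (g₂ : ↥(Cfsg.isometryGroup F ⇑Q₂)) (hg₁ : g₁ ∈ Cfsg.Omega F ⇑Q₁) (hg₂ : g₂ ∈ Cfsg.Omega F ⇑Q₂) : ∃ g : ↥(Cfsg.isometryGroup F (fun v : Fin k ⊕ Fin l → F => Q₁ (v ∘ Sum.inl) + Q₂ (v ∘ Sum.inr))), g ∈ Cfsg.Omega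 F (fun v : Fin k ⊕ Fin l → F => Q₁ (v ∘ Sum.inl) + Q₂ (v ∘ Sum.inr)) ∧ ((g : Matrix.GeneralLinearGroup (Fin k ⊕ Fin l) F) : Matrix (Fin k ⊕ Fin l) (Fin k ⊕ Fin l) F) = Matrix.fromBlocks ((g₁ : Matrix.GeneralLinearGroup (Fin k) F) : Matrix (Fin k) (Fin k) F) 0 0 ((g₂ : Matrix.GeneralLinearGroup (Fin l) F) : Matrix (Fin l) (Fin l) F) := by
  refine ⟨prodHom ⇑Q₁ ⇑Q₂ (g₁, g₂), ?_, rfl⟩
  have : (g₁, g₂) = ((g₁, 1) : ↥(Cfsg.isometryGroup F ⇑Q₁) × ↥(Cfsg.isometryGroup F ⇑Q₂)) * (1, g₂) := by simp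
  rw [this, map_mul]
  exact mul_mem (map_mem_commutator ((prodHom ⇑Q₁ ⇑Q₂).comp (MonoidHom.inl _ _)) hg₁)
    (map_mem_commutator ((prodHom ⇑Q₁ ⇑Q₂).comp (MonoidHom.inr _ _)) hg₂)

end Cfsg.Agent.S2626
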