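import Cfsg.Statements.S2627
import Cfsg.Agent.Lib.Classes.OrthSum
-- import your own Cfsg.Agent.* helpers here

set_option autoImplicit false
open Cfsg

namespace Cfsg.Agent.S2627

/-- For an orthogonal direct sum Q = Q₁ ⊕ Q₂ of quadratic forms with non-degenerate polar forms over a finite field, an isometry g₁ of Q₁ extended by the identity on the second summand lies in Ω(Q) (the commutator subgroup of the orthogonal group of Q) if and only if g₁ lies in Ω(Q₁). (Excluded: the field of two elements when the first summand or the whole space has dimension 4, where the commutator subgroup of O⁺₄(2) is smaller than the group usually called Ω.) -/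
theorem result {F : Type*} [Field F] [Fintype F] {k l : ℕ} (h : Fintype.card F ≠ 2 ∨ (k ≠ 4 ∧ k + l ≠ 4)) (Q₁ : QuadraticForm F (Fin k → F)) (Q₂ : QuadraticForm F (Fin l → F)) (h₁ : (QuadraticMap.polarBilin Q₁).Nondegenerate) (h₂ : (QuadraticMap.polarBilin Q₂).Nondegenerate) (g₁ : ↥(Cfsg.isometryGroup F ⇑Q₁)) : (∃ g : ↥(Cfsg.isometryGroup F (fun v : Fin k ⊕ Fin l → F => Q₁ (v ∘ Sum.inl) + Q₂ (v ∘ Sum.inr))), g ∈ Cfsg.Omega F (fun v : Fin k ⊕ Fin l → F => Q₁ (v ∘ Sum.inl) + Q₂ (v ∘ Sum.inr)) ∧ ((g : Matrix.GeneralLinearGroup (Fin k ⊕ Fin l) F) : Matrix (Fin k ⊕ Fin l) (Fin k ⊕ Fin l) F) = Matrix.fromBlocks ((g₁ : Matrix.GeneralLinearGroup (Fin k) F) : Matrix (Fin k) (Fin k) F) 0 0 1) ↔ g₁ ∈ Cfsg.Omega F ⇑Q₁ := by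
  classical
  rw [show (fun v : Fin k ⊕ Fin l → F => Q₁ (v ∘ Sum.inl) + Q₂ (v ∘ Sum.inr)) = ⇑(CfsgLib.Classes.qSum Q₁ Q₂) from
    (CfsgLib.Classes.coe_qSum Q₁ Q₂).symm]
  set E := CfsgLib.Classes.extL Q₁ Q₂ with hE
  have hiff : (∃ g : ↥(Cfsg.isometryGroup F ⇑(CfsgLib.Classes.qSum Q₁ Q₂)),
      g ∈ Cfsg.Omega F ⇑(CfsgLib.Classes.qSum Q₁ Q₂) ∧
      ((g : Matrix.GeneralLinearGroup (Fin k ⊕ Fin l) F) : Matrix (Fin k ⊕ Fin l) (Fin k ⊕ Fin l) F) =
        Matrix.fromBlocks ((g₁ : Matrix.GeneralLinearGroup (Fin k) F) : Matrix (Fin k) (Fin k) F) 0 0 1) ↔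
      E g₁ ∈ Cfsg.Omega F ⇑(CfsgLib.Classes.qSum Q₁ Q₂) := by
    refine ⟨fun ⟨g, hg, e⟩ => ?_, fun hg => ⟨_, hg, CfsgLib.Classes.coe_extL Q₁ Q₂ g₁⟩⟩
    have : g = E g₁ := Subtype.ext (Units.ext (e.trans (CfsgLib.Classes.coe_extL Q₁ Q₂ g₁).symm))
    exact this ▸ hg
  rw [hiff]
  have hfun : g₁ ∈ Cfsg.Omega F ⇑Q₁ → E g₁ ∈ Cfsg.Omega F ⇑(CfsgLib.Classes.qSum Q₁ Q₂) := fun hg => by
    rw [← CfsgLib.Classes.ab_eq_one_iff] at hg ⊢
    exact (Abelianization.map_of E g₁).symm.trans (by rw [hg]; exact map_one _)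
  refine ⟨fun hg => ?_, hfun⟩
  by_cases hk : k ≤ 1
  · suffices g₁ = 1 by rw [this]; exact one_mem _
    have hdet := congrArg Units.val (MonoidHom.mem_ker.mp (Abelianization.commutator_subset_ker
      ((Matrix.GeneralLinearGroup.det (n := Fin k ⊕ Fin l) (R := F)).comp (Cfsg.isometryGroup F _).subtype) hg))
    simp only [MonoidHom.comp_apply, Subgroup.coe_subtype, Matrix.GeneralLinearGroup.val_det_apply,
      Units.val_one] at hdet
    rw [hE, CfsgLib.Classes.coe_extL, Matrix.det_fromBlocks_zero₂₁, Matrix.det_one, mul_one] at hdet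
    refine Subtype.ext (Units.ext ?_)
    interval_cases k
    · exact Matrix.ext fun i => i.elim0
    · rw [Matrix.det_fin_one] at hdet
      exact Matrix.ext fun i j => by rw [Subsingleton.elim i 0, Subsingleton.elim j 0, hdet]; simp
  have hex : (∃ c : F, c ≠ 0 ∧ c ≠ 1) ∨ Fintype.card (Fin k) ≠ 4 :=
    CfsgLib.Classes.gen_hyp (h.imp_right fun h' => by simpa using h'.1)
  have hn := CfsgLib.Classes.qSum_nondegenerate h₁ h₂
  have hexs : (∃ c : F, c ≠ 0 ∧ c ≠ 1) ∨ Fintype.card (Fin k ⊕ Fin l) ≠ 4 :=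
    CfsgLib.Classes.gen_hyp (h.imp_right fun h' => by simpa using h'.2)
  have hgen := CfsgLib.Forms.reflClosure_eq_top hn hexs
  have hidx : (commutator ↥(Cfsg.isometryGroup F ⇑Q₁)).index =
      (commutator ↥(Cfsg.isometryGroup F ⇑(CfsgLib.Classes.qSum Q₁ Q₂))).index := by
    by_cases h2 : (2 : F) = 0
    · haveI : CharP F 2 := CharTwo.of_one_ne_zero_of_two_eq_zero one_ne_zero h2
      rw [CfsgLib.Forms.index_commutator_even (by simp; omega) h₁ hex,
        CfsgLib.Forms.index_commutator_even (by simp; omega) hn hexs]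
    · rw [CfsgLib.Forms.index_commutator_odd h2 (by simp; omega) h₁,
        CfsgLib.Forms.index_commutator_odd h2 (by simp; omega) hn]
  have hsurj : Function.Surjective ((CfsgLib.Classes.ab (CfsgLib.Classes.qSum Q₁ Q₂)).comp E) := by
    intro y
    obtain ⟨g, rfl⟩ := QuotientGroup.mk_surjective y
    obtain ⟨z, ⟨z₁, rfl⟩, hz⟩ := CfsgLib.Classes.exists_mul_mem_omega hgen E.range (fun a ha => by
      obtain ⟨x, -, hx⟩ := CfsgLib.Classes.exists_value_mem (Q := Q₁) ⊤ (by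
          rw [top_inf_eq, Submodule.eq_bot_iff]
          exact fun v hv => h₁.2 v fun y => hv y Submodule.mem_top)
        (by simp; omega) ha
      refine ⟨E (CfsgLib.OrthGen.refl Q₁ (hx.trans_ne ha)), ⟨_, rfl⟩, ?_⟩
      rw [hE, CfsgLib.Classes.extL_refl]
      refine CfsgLib.Classes.ab_refl_eq hn ha _ (t := 1) ?_
      rw [CfsgLib.Classes.qSum_elim, QuadraticMap.map_zero, add_zero, hx, one_mul, one_mul]) g
    refine ⟨z₁⁻¹, ?_⟩
    rw [← CfsgLib.Classes.ab_eq_one_iff, map_mul, mul_eq_one_iff_inv_eq] at hz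
    rw [MonoidHom.comp_apply, map_inv, map_inv, hz]
    rfl
  have hker : ((CfsgLib.Classes.ab (CfsgLib.Classes.qSum Q₁ Q₂)).comp E).ker.index =
      (commutator ↥(Cfsg.isometryGroup F ⇑Q₁)).index := by
    rw [Subgroup.index_ker, MonoidHom.range_eq_top.mpr hsurj, Subgroup.card_top, hidx]
    rfl
  have hle : commutator ↥(Cfsg.isometryGroup F ⇑Q₁) ≤
      ((CfsgLib.Classes.ab (CfsgLib.Classes.qSum Q₁ Q₂)).comp E).ker := Abelianization.commutator_subset_ker _
  have hrel := Subgroup.relIndex_mul_index hle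
  rw [hker] at hrel
  have hne : (commutator ↥(Cfsg.isometryGroup F ⇑Q₁)).index ≠ 0 := Subgroup.index_ne_zero_of_finite
  have h1 : (commutator ↥(Cfsg.isometryGroup F ⇑Q₁)).relIndex
      ((CfsgLib.Classes.ab (CfsgLib.Classes.qSum Q₁ Q₂)).comp E).ker = 1 :=
    Nat.eq_of_mul_eq_mul_right (Nat.pos_of_ne_zero hne) (by rw [hrel, one_mul])
  exact Subgroup.relIndex_eq_one.mp h1 (MonoidHom.mem_ker.mpr (CfsgLib.Classes.ab_eq_one_iff.mpr hg))

end Cfsg.Agent.S2627
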