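import Cfsg.Statements.S2628
import Cfsg.Agent.Lib.Classes.OrthSum
-- import your own Cfsg.Agent.* helpers here

set_option autoImplicit false
open Cfsg

namespace Cfsg.Agent.S2628

/-- For the orthogonal direct sum Q ⊕ Q of two copies of a quadratic form Q with non-degenerate polar form on F^k (F finite), every isometry g of Q acting diagonally, diag(g, g), lies in Ω(Q ⊕ Q), the commutator subgroup of the orthogonal group of Q ⊕ Q. (Excluded: k = 2 over the field of two elements, where Q ⊕ Q is the hyperbolic 4-space whose orthogonal group's commutator subgroup is smaller than the group usually called Ω.) -/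
theorem result {F : Type*} [Field F] [Fintype F] {k : ℕ} (h : Fintype.card F ≠ 2 ∨ k ≠ 2) (Q : QuadraticForm F (Fin k → F)) (hQ : (QuadraticMap.polarBilin Q).Nondegenerate) (g : ↥(Cfsg.isometryGroup F ⇑Q)) : ∃ x : ↥(Cfsg.isometryGroup F (fun v : Fin k ⊕ Fin k → F => Q (v ∘ Sum.inl) + Q (v ∘ Sum.inr))), x ∈ Cfsg.Omega F (fun v : Fin k ⊕ Fin k → F => Q (v ∘ Sum.inl) + Q (v ∘ Sum.inr)) ∧ ((x : Matrix.GeneralLinearGroup (Fin k ⊕ Fin k) F) : Matrix (Fin k ⊕ Fin k) (Fin k ⊕ Fin k) F) = Matrix.fromBlocks ((g : Matrix.GeneralLinearGroup (Fin k) F) : Matrix (Fin k) (Fin k) F) 0 0 ((g : Matrix.GeneralLinearGroup (Fin k) F) : Matrix (Fin k) (Fin k) F) := by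
  classical
  open CfsgLib.Classes in
  rw [show (fun v : Fin k ⊕ Fin k → F => Q (v ∘ Sum.inl) + Q (v ∘ Sum.inr)) = ⇑(qSum Q Q) from (coe_qSum Q Q).symm]
  have hn := CfsgLib.Classes.qSum_nondegenerate hQ hQ
  have hgen := CfsgLib.Forms.reflClosure_eq_top hn (CfsgLib.Classes.gen_hyp (by
    rcases h with h | h
    · exact Or.inl h
    · exact Or.inr (by simp only [Fintype.card_sum, Fintype.card_fin]; omega)))
  let S := CfsgLib.Classes.isoOfEquiv (Q := CfsgLib.Classes.qSum Q Q)
    (LinearEquiv.funCongrLeft F F (Equiv.sumComm (Fin k) (Fin k)))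
    (fun v => by
      rw [CfsgLib.Classes.coe_qSum]
      exact add_comm _ _)
  have hS : S * CfsgLib.Classes.extL Q Q g = CfsgLib.Classes.extR Q Q g * S := by
    refine CfsgLib.OrthGen.ext_act fun x => ?_
    rw [CfsgLib.OrthGen.act_mul, CfsgLib.OrthGen.act_mul, CfsgLib.Classes.act_isoOfEquiv,
      CfsgLib.Classes.act_isoOfEquiv]
    rw [show CfsgLib.Classes.extL Q Q g = CfsgLib.Classes.sumHom Q Q (g, 1) from rfl,
      show CfsgLib.Classes.extR Q Q g = CfsgLib.Classes.sumHom Q Q (1, g) from rfl,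
      CfsgLib.Classes.act_sumHom, CfsgLib.Classes.act_sumHom, CfsgLib.OrthGen.act_one, CfsgLib.OrthGen.act_one]
    funext j
    rcases j with i | i <;> rfl
  refine ⟨CfsgLib.Classes.sumHom Q Q (g, g), CfsgLib.Classes.ab_eq_one_iff.mp ?_, rfl⟩
  have hR : CfsgLib.Classes.ab _ (CfsgLib.Classes.extR Q Q g) = CfsgLib.Classes.ab _ (CfsgLib.Classes.extL Q Q g) := by
    have h := congrArg (CfsgLib.Classes.ab _) hS
    rw [map_mul, map_mul, mul_comm] at h
    exact (mul_right_cancel h).symm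
  have hp : ((g, g) : _ × _) = MonoidHom.inl _ _ g * MonoidHom.inr _ _ g := by simp
  rw [hp, map_mul, map_mul]
  show CfsgLib.Classes.ab _ (CfsgLib.Classes.extL Q Q g) * CfsgLib.Classes.ab _ (CfsgLib.Classes.extR Q Q g) = 1
  rw [hR, CfsgLib.Classes.ab_mul_self hgen]

end Cfsg.Agent.S2628
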