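import Cfsg.Statements.S2631
import Cfsg.Agent.Lib.Classes.HyperLevi
-- import your own Cfsg.Agent.* helpers here

set_option autoImplicit false
open Cfsg

namespace Cfsg.Agent.S2631

/-- For the hyperbolic form Σ x_i y_i on F^(2m) over a finite field (m ≥ 1, excluding m = 2 over the field of two elements), Ω (the commutator subgroup of the orthogonal group) acts transitively on each of the two classes of maximal totally singular subspaces: if U and W are m-dimensional totally singular subspaces with m − dim(U ∩ W) even, some element of Ω carries U to W. -/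
theorem result {F : Type*} [Field F] [Fintype F] {m : ℕ} (hm : 1 ≤ m) (h : Fintype.card F ≠ 2 ∨ m ≠ 2) (U W : Submodule F (Fin m ⊕ Fin m → F)) (hU : Module.finrank F U = m) (hW : Module.finrank F W = m) (hU0 : ∀ u ∈ U, Cfsg.quadFormPlus m F u = 0) (hW0 : ∀ w ∈ W, Cfsg.quadFormPlus m F w = 0) (he : Even (m - Module.finrank F ↥(U ⊓ W))) : ∃ g : ↥(Cfsg.isometryGroup F (Cfsg.quadFormPlus m F)), g ∈ Cfsg.Omega F (Cfsg.quadFormPlus m F) ∧ U.map (Matrix.mulVecLin ((g : Matrix.GeneralLinearGroup (Fin m ⊕ Fin m) F) : Matrix (Fin m ⊕ Fin m) (Fin m ⊕ Fin m) F)) = W := by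
  classical
  revert U W
  rw [← CfsgLib.Classes.coe_hypQ F m]
  intro U W hU hW hU0 hW0 he
  have hQ := CfsgLib.Classes.hypQ_nondegenerate F m
  have hgen := CfsgLib.Classes.hypQ_gen F m h
  have hcard : 2 ≤ Fintype.card (Fin m ⊕ Fin m) := by simp; omega
  have hUm : CfsgLib.Classes.IsMaxSingular (CfsgLib.Classes.hypQ F m) U := ⟨hU0, by simp [hU, two_mul]⟩
  set Q := CfsgLib.Classes.hypQ F m
  obtain ⟨g₀, hg₀, hmap⟩ := CfsgLib.Forms.exists_isometry_singular_eq _ hQ U W hU0 hW0 (hU.trans hW.symm)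
  set g := CfsgLib.Classes.isoOfEquiv g₀ hg₀ with hgdef
  have hgU : CfsgLib.Classes.mapSub g U = W := by
    rw [CfsgLib.Classes.mapSub, hgdef, CfsgLib.Classes.toLin_isoOfEquiv]; exact hmap
  have hd : CfsgLib.Forms.dicksonSign g = 1 := by
    rw [← CfsgLib.Classes.even_sub_finrank_iff hQ hgen hUm g, hgU, hU]; exact he
  by_cases h2 : (2 : F) = 0
  · haveI : CharP F 2 := CharTwo.of_one_ne_zero_of_two_eq_zero one_ne_zero h2
    exact ⟨g, (CfsgLib.Classes.mem_omega_iff_dickson hcard hQ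
      (CfsgLib.Classes.gen_hyp (h.imp_right fun h' => by simp; omega)) g).mpr hd, hgU⟩
  have hdet := (CfsgLib.Classes.detHom_eq_one_iff h2 hQ hgen g).mpr hd
  rcases Int.units_eq_one_or (CfsgLib.OrthGen.spinSign (CfsgLib.Classes.hypQ F m) 1 g) with hs | hs
  · exact ⟨g, (CfsgLib.Classes.mem_omega_iff h2 hQ hcard g).mpr ⟨hdet, hs⟩, hgU⟩
  obtain ⟨c, hc⟩ := CfsgLib.OrthGen.exists_nonsquare_of_two (F := F) h2
  have hc0 : c ≠ 0 := fun h0 => hc (h0 ▸ IsSquare.zero)
  have hWm : CfsgLib.Classes.IsMaxSingular (CfsgLib.Classes.hypQ F m) W := ⟨hW0, by simp [hW, two_mul]⟩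
  obtain ⟨e, hew, he0⟩ : ∃ e ∈ W, e ≠ 0 :=
    W.ne_bot_iff.mp fun hb => by rw [hb, finrank_bot] at hW; omega
  obtain ⟨f₀, hf₀⟩ := CfsgLib.OrthGen.exists_pf_eq_one hQ he0
  set f := f₀ - Q f₀ • e with hfdef
  have hef : CfsgLib.OrthGen.pf Q e f = 1 := by
    rw [hfdef, CfsgLib.OrthGen.pf, QuadraticMap.polar_sub_right, QuadraticMap.polar_smul_right,
      ← CfsgLib.OrthGen.pf, ← CfsgLib.OrthGen.pf, hWm.pf_eq_zero hew hew, hf₀, smul_zero, sub_zero]
  have hQf : Q f = 0 := by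
    rw [hfdef, CfsgLib.OrthGen.Q_sub, CfsgLib.OrthGen.Q_smul, hW0 e hew, CfsgLib.OrthGen.pf,
      QuadraticMap.polar_smul_right, QuadraticMap.polar_comm, ← CfsgLib.OrthGen.pf, hf₀, smul_eq_mul]
    ring
  set k := CfsgLib.Classes.pairElt (hW0 e hew) hQf hef hc0 with hkdef
  have hk : k ∈ CfsgLib.Classes.stabSub Q W := CfsgLib.Classes.mem_stabSub_of_le fun w hw => by
    rw [hkdef, CfsgLib.Classes.act_pairElt, hWm.pf_eq_zero hew hw, mul_zero, zero_smul, add_zero]
    exact W.add_mem hw (W.smul_mem _ hew)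
  refine ⟨k * g, (CfsgLib.Classes.mem_omega_iff h2 hQ hcard _).mpr ⟨?_, ?_⟩, ?_⟩
  · rw [map_mul, hkdef, CfsgLib.Classes.detHom_pairElt, one_mul, hdet]
  · rw [map_mul, hkdef, CfsgLib.Classes.spinSign_pairElt h2, if_neg hc, hs]; rfl
  · show CfsgLib.Classes.mapSub (k * g) U = W
    rw [CfsgLib.Classes.mapSub_mul, hgU]; exact hk

end Cfsg.Agent.S2631
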