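import Cfsg.Statements.S2632
import Cfsg.Agent.Lib.Classes.OmegaClasses
-- import your own Cfsg.Agent.* helpers here

set_option autoImplicit false
open Cfsg

namespace Cfsg.Agent.S2632

/-- Ω is transitive on non-degenerate subspaces of each isometry type: for a quadratic form Q on F^n, n ≥ 3, with non-degenerate polar form (F finite; excluding dimension 4 over the field of two elements), if U and W are subspaces on which the polar form is non-degenerate and there is a Q-preserving linear isomorphism U → W, then some element of Ω (the commutator subgroup of the orthogonal group) carries U to W. (In dimension 2 this fails: Ω can be {±1}, which fixes every line.) -/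
theorem result {F : Type*} [Field F] [Fintype F] {n : ℕ} (hn : 3 ≤ n) (h : Fintype.card F ≠ 2 ∨ n ≠ 4) (Q : QuadraticForm F (Fin n → F)) (hQ : (QuadraticMap.polarBilin Q).Nondegenerate) (U W : Submodule F (Fin n → F)) (hU : U ⊓ LinearMap.BilinForm.orthogonal (QuadraticMap.polarBilin Q) U = ⊥) (hW : W ⊓ LinearMap.BilinForm.orthogonal (QuadraticMap.polarBilin Q) W = ⊥) (e : U ≃ₗ[F] W) (he : ∀ u : U, Q (e u : Fin n → F) = Q (u : Fin n → F)) : ∃ g : ↥(Cfsg.isometryGroup F ⇑Q), g ∈ Cfsg.Omega F ⇑Q ∧ U.map (Matrix.mulVecLin ((g : Matrix.GeneralLinearGroup (Fin n) F) : Matrix (Fin n) (Fin n) F)) = W := by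
  classical
  have hgen := CfsgLib.Forms.reflClosure_eq_top hQ (by simpa using CfsgLib.Classes.gen_hyp h)
  obtain ⟨g₀, hg₀, hgx⟩ := CfsgLib.Forms.witt_extension_quadratic Q hQ U (W.subtype ∘ₗ e.toLinearMap)
    (Subtype.val_injective.comp e.injective) he
  have hmap : U.map (g₀ : (Fin n → F) →ₗ[F] (Fin n → F)) = W := by
    ext w
    constructor
    · rintro ⟨u, hu, rfl⟩
      rw [LinearEquiv.coe_coe, show g₀ u = _ from hgx ⟨u, hu⟩]
      exact (e ⟨u, hu⟩).2
    · intro hw
      refine ⟨(e.symm ⟨w, hw⟩ : U), (e.symm ⟨w, hw⟩).2, ?_⟩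
      rw [LinearEquiv.coe_coe, hgx]
      simp
  set W' := LinearMap.BilinForm.orthogonal (QuadraticMap.polarBilin Q) W with hW'
  have hdim : Module.finrank F W' = n - Module.finrank F W := by
    rw [hW', LinearMap.BilinForm.finrank_orthogonal hQ]; simp
  have hrefl : LinearMap.IsRefl (QuadraticMap.polarBilin Q) := fun x y hxy => (QuadraticMap.polar_comm _ y x).trans hxy
  have hW2 : W' ⊓ LinearMap.BilinForm.orthogonal (QuadraticMap.polarBilin Q) W' = ⊥ := by
    rw [hW', LinearMap.BilinForm.orthogonal_orthogonal hQ hrefl, inf_comm, hW]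
  obtain ⟨k, hk, hkg⟩ := CfsgLib.Classes.exists_mul_mem_omega hgen (CfsgLib.Classes.stabSub Q W)
    (fun a ha => by
      by_cases h2W : 2 ≤ Module.finrank F W
      · obtain ⟨x, hx, hxa⟩ := CfsgLib.Classes.exists_value_mem W hW h2W ha
        exact ⟨_, CfsgLib.Classes.refl_mem_stabSub (hxa.trans_ne ha) hx,
          CfsgLib.Classes.ab_refl_eq hQ ha (hxa.trans_ne ha) (t := 1) (by rw [hxa, one_mul, one_mul])⟩
      · obtain ⟨x, hx, hxa⟩ := CfsgLib.Classes.exists_value_mem W' hW2 (by omega) ha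
        exact ⟨_, CfsgLib.Classes.refl_mem_stabSub_of_orth (hxa.trans_ne ha) hx,
          CfsgLib.Classes.ab_refl_eq hQ ha (hxa.trans_ne ha) (t := 1) (by rw [hxa, one_mul, one_mul])⟩)
    (CfsgLib.Classes.isoOfEquiv g₀ hg₀)
  refine ⟨_, hkg, ?_⟩
  show CfsgLib.Classes.mapSub (k * _) U = W
  rw [CfsgLib.Classes.mapSub_mul]
  have : CfsgLib.Classes.mapSub (CfsgLib.Classes.isoOfEquiv g₀ hg₀) U = W := by
    rw [CfsgLib.Classes.mapSub, CfsgLib.Classes.toLin_isoOfEquiv]; exact hmap
  rw [this]; exact hk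

end Cfsg.Agent.S2632
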