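import Cfsg.Statements.S2633
import Cfsg.Agent.Lib.Classes.OmegaClasses
import Cfsg.Agent.Lib.Forms.OddFinite
-- import your own Cfsg.Agent.* helpers here

set_option autoImplicit false
open Cfsg

namespace Cfsg.Agent.S2633

/-- Ω is transitive on totally singular subspaces of each dimension less than half the dimension: for a quadratic form Q on F^n with non-degenerate polar form (F finite; excluding dimension 4 over the field of two elements), if U and W are subspaces of the same dimension k with 2k < n on which Q vanishes, then some element of Ω (the commutator subgroup of the orthogonal group) carries U to W. -/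
theorem result {F : Type*} [Field F] [Fintype F] {n : ℕ} (h : Fintype.card F ≠ 2 ∨ n ≠ 4) (Q : QuadraticForm F (Fin n → F)) (hQ : (QuadraticMap.polarBilin Q).Nondegenerate) (U W : Submodule F (Fin n → F)) {k : ℕ} (hk : 2 * k < n) (hU : Module.finrank F U = k) (hW : Module.finrank F W = k) (hU0 : ∀ u ∈ U, Q u = 0) (hW0 : ∀ w ∈ W, Q w = 0) : ∃ g : ↥(Cfsg.isometryGroup F ⇑Q), g ∈ Cfsg.Omega F ⇑Q ∧ U.map (Matrix.mulVecLin ((g : Matrix.GeneralLinearGroup (Fin n) F) : Matrix (Fin n) (Fin n) F)) = W := by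
  classical
  rcases Nat.eq_zero_or_pos k with rfl | hk0
  · refine ⟨1, one_mem _, ?_⟩
    rw [Submodule.finrank_eq_zero.mp hU, Submodule.finrank_eq_zero.mp hW, Submodule.map_bot]
  have hgen := CfsgLib.Forms.reflClosure_eq_top hQ (by simpa using CfsgLib.Classes.gen_hyp h)
  obtain ⟨g₀, hg₀, hmap⟩ := CfsgLib.Forms.exists_isometry_singular_eq Q hQ U W hU0 hW0 (hU.trans hW.symm)
  have hrefl : LinearMap.IsRefl (QuadraticMap.polarBilin Q) := fun x y hxy =>
    (QuadraticMap.polar_comm _ y x).trans hxy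
  have hWW : ∀ v ∈ W, ∀ w ∈ W, CfsgLib.OrthGen.pf Q v w = 0 := fun v hv w hw => by
    simp [CfsgLib.OrthGen.pf, QuadraticMap.polar, hW0 _ (W.add_mem hv hw), hW0 v hv, hW0 w hw]
  obtain ⟨x, hx, hx0⟩ : ∃ x ∈ LinearMap.BilinForm.orthogonal (QuadraticMap.polarBilin Q) W, Q x ≠ 0 := by
    by_contra hne
    push Not at hne
    have h1 := CfsgLib.Forms.two_mul_finrank_singular_le Q hQ _ hne
    rw [LinearMap.BilinForm.finrank_orthogonal hQ, Module.finrank_fin_fun, hW] at h1
    omega
  obtain ⟨e, he, he0⟩ : ∃ e ∈ W, e ≠ 0 := by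
    have : W ≠ ⊥ := fun hb => by rw [hb, finrank_bot] at hW; omega
    obtain ⟨e, he, he0⟩ := W.ne_bot_iff.mp this
    exact ⟨e, he, he0⟩
  obtain ⟨f₀, hf₀⟩ := CfsgLib.OrthGen.exists_pf_eq_one hQ he0
  have hee : CfsgLib.OrthGen.pf Q e e = 0 := hWW e he e he
  set f := f₀ - Q f₀ • e with hfdef
  have hef : CfsgLib.OrthGen.pf Q e f = 1 := by
    rw [hfdef, CfsgLib.OrthGen.pf, QuadraticMap.polar_sub_right, QuadraticMap.polar_smul_right,
      ← CfsgLib.OrthGen.pf, ← CfsgLib.OrthGen.pf, hee, hf₀, smul_zero, sub_zero]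
  have hQf : Q f = 0 := by
    rw [hfdef, CfsgLib.OrthGen.Q_sub, CfsgLib.OrthGen.Q_smul, hW0 e he, CfsgLib.OrthGen.pf,
      QuadraticMap.polar_smul_right, QuadraticMap.polar_comm, ← CfsgLib.OrthGen.pf, hf₀, smul_eq_mul]
    ring
  have hpair : ∀ {c : F} (hc : c ≠ 0),
      CfsgLib.Classes.pairElt (hW0 e he) hQf hef hc ∈ CfsgLib.Classes.stabSub Q W := fun hc =>
    CfsgLib.Classes.mem_stabSub_of_le fun w hw => by
      rw [CfsgLib.Classes.act_pairElt, hWW e he w hw, mul_zero, zero_smul, add_zero]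
      exact W.add_mem hw (W.smul_mem _ he)
  have hrx := CfsgLib.Classes.refl_mem_stabSub_of_orth hx0 hx
  obtain ⟨j, hj, hjg⟩ := CfsgLib.Classes.exists_mul_mem_omega hgen (CfsgLib.Classes.stabSub Q W)
    (fun a ha => by
      by_cases hsq : IsSquare (Q a / Q x)
      · obtain ⟨t, ht⟩ := hsq
        exact ⟨_, hrx, (CfsgLib.Classes.ab_refl_eq hQ hx0 ha (t := t) (by rw [← ht, div_mul_cancel₀ _ hx0])).symm⟩
      · have h2 : (2 : F) ≠ 0 := fun h2 => hsq (FiniteField.isSquare_of_char_two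
          (@ringChar.eq F _ 2 (CharTwo.of_one_ne_zero_of_two_eq_zero one_ne_zero h2)) _)
        set c := Q a / Q x with hc
        have hc0 : c ≠ 0 := div_ne_zero ha hx0
        have h1 : Q (e + f) = 1 := by rw [CfsgLib.OrthGen.Q_add, hW0 e he, hQf, hef]; ring
        have h1' : Q (e + c • f) = c := by
          rw [CfsgLib.OrthGen.Q_add, CfsgLib.OrthGen.Q_smul, hW0 e he, hQf, CfsgLib.OrthGen.pf,
            QuadraticMap.polar_smul_right, ← CfsgLib.OrthGen.pf, hef, smul_eq_mul]
          ring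
        refine ⟨_, mul_mem hrx (hpair hc0), ?_⟩
        have hu1 : Q (e + f) ≠ 0 := by rw [h1]; exact one_ne_zero
        have hu2 : Q (e + c • f) ≠ 0 := by rw [h1']; exact hc0
        rw [map_mul, CfsgLib.Classes.pairElt, map_mul]
        by_cases hxs : IsSquare (Q x)
        · obtain ⟨s, hs⟩ := hxs
          rw [CfsgLib.Classes.ab_refl_eq hQ hu1 hx0 (t := s) (by rw [h1, mul_one, hs]), ← mul_assoc,
            CfsgLib.Classes.ab_refl_mul_self, one_mul]
          exact (CfsgLib.Classes.ab_refl_eq hQ hu2 ha (t := s)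
            (by rw [h1', ← hs, hc, mul_div_cancel₀ _ hx0])).symm
        · obtain ⟨s, hs⟩ := CfsgLib.Forms.isSquare_mul_of_not hxs hsq
          have hQa : Q a = c * Q x := by rw [hc, div_mul_cancel₀ _ hx0]
          rw [mul_comm (CfsgLib.Classes.ab Q (CfsgLib.OrthGen.refl Q hu1)), ← mul_assoc,
            CfsgLib.Classes.ab_refl_eq hQ hu2 hx0 (t := s / c) (by rw [h1']; field_simp; linear_combination hs),
            CfsgLib.Classes.ab_refl_mul_self, one_mul]
          exact (CfsgLib.Classes.ab_refl_eq hQ hu1 ha (t := s)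
            (by rw [h1, mul_one, hQa]; linear_combination hs)).symm)
    (CfsgLib.Classes.isoOfEquiv g₀ hg₀)
  refine ⟨_, hjg, ?_⟩
  show CfsgLib.Classes.mapSub (j * _) U = W
  rw [CfsgLib.Classes.mapSub_mul]
  have : CfsgLib.Classes.mapSub (CfsgLib.Classes.isoOfEquiv g₀ hg₀) U = W := by
    rw [CfsgLib.Classes.mapSub, CfsgLib.Classes.toLin_isoOfEquiv]; exact hmap
  rw [this]; exact hj

end Cfsg.Agent.S2633
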