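import Cfsg.Statements.S2634
import Cfsg.Agent.Lib.Classes.OmegaClasses
-- import your own Cfsg.Agent.* helpers here

set_option autoImplicit false
open Cfsg

namespace Cfsg.Agent.S2634

/-- Over a finite field of characteristic two, Ω (the commutator subgroup of the orthogonal group of a quadratic form Q on F^n with non-degenerate polar form; excluding dimension 4 over the field of two elements) acts transitively on the non-singular 1-spaces: for u, v with Q(u) ≠ 0 and Q(v) ≠ 0 some element of Ω carries the line through u to the line through v. -/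
theorem result {F : Type*} [Field F] [Fintype F] [CharP F 2] {n : ℕ} (h : Fintype.card F ≠ 2 ∨ n ≠ 4) (Q : QuadraticForm F (Fin n → F)) (hQ : (QuadraticMap.polarBilin Q).Nondegenerate) (u v : Fin n → F) (hu : Q u ≠ 0) (hv : Q v ≠ 0) : ∃ g : ↥(Cfsg.isometryGroup F ⇑Q), g ∈ Cfsg.Omega F ⇑Q ∧ (F ∙ ((g : Matrix.GeneralLinearGroup (Fin n) F) : Matrix (Fin n) (Fin n) F).mulVec u) = F ∙ v := by
  classical
  have h2 : (2 : F) = 0 := CharTwo.two_eq_zero
  have hgen := CfsgLib.Forms.reflClosure_eq_top hQ (by simpa using CfsgLib.Classes.gen_hyp h)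
  obtain ⟨t, ht⟩ := FiniteField.isSquare_of_char_two (ringChar.eq F 2) (Q v / Q u)
  have htQ : Q v = t * t * Q u := by rw [← ht, div_mul_cancel₀ _ hu]
  have ht0 : t ≠ 0 := fun h => hv (by rw [htQ, h]; ring)
  have hu' : u ≠ 0 := fun h => hu (by rw [h, QuadraticMap.map_zero])
  have hv' : v ≠ 0 := fun h => hv (by rw [h, QuadraticMap.map_zero])
  obtain ⟨g, hg⟩ := CfsgLib.Classes.exists_act_eq hQ (smul_ne_zero ht0 hu') hv'
    (by rw [CfsgLib.OrthGen.Q_smul, htQ])
  obtain ⟨k, hk, hkg⟩ := CfsgLib.Classes.exists_mul_mem_omega hgen (CfsgLib.Classes.stabSub Q (F ∙ v))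
    (fun a ha => by
      obtain ⟨s, hs⟩ := FiniteField.isSquare_of_char_two (ringChar.eq F 2) (Q v / Q a)
      exact ⟨_, CfsgLib.Classes.refl_mem_stabSub hv (Submodule.mem_span_singleton_self v),
        CfsgLib.Classes.ab_refl_eq hQ ha hv (t := s) (by rw [← hs, div_mul_cancel₀ _ ha])⟩) g
  refine ⟨k * g, hkg, ?_⟩
  show F ∙ CfsgLib.OrthGen.act Q (k * g) u = F ∙ v
  have h1 : F ∙ CfsgLib.OrthGen.act Q g u = F ∙ v := by
    rw [← Submodule.span_singleton_smul_eq (IsUnit.mk0 t ht0) (CfsgLib.OrthGen.act Q g u),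
      ← CfsgLib.OrthGen.act_smul, hg]
  rw [CfsgLib.OrthGen.act_mul]
  have h2' : F ∙ CfsgLib.OrthGen.act Q k (CfsgLib.OrthGen.act Q g u) =
      CfsgLib.Classes.mapSub k (F ∙ CfsgLib.OrthGen.act Q g u) := by
    rw [CfsgLib.Classes.mapSub, Submodule.map_span, Set.image_singleton]
    rfl
  rw [h2', h1]
  exact hk

end Cfsg.Agent.S2634
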