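import Cfsg.Statements.S2635
import Cfsg.Agent.Lib.Classes.OmegaClasses
-- import your own Cfsg.Agent.* helpers here

set_option autoImplicit false
open Cfsg

namespace Cfsg.Agent.S2635

/-- Over a finite field of characteristic two, for a quadratic form Q on F^n with non-degenerate polar form, n ≥ 2, other than dimension 4 over the field of two elements, Ω (the commutator subgroup of the orthogonal group) is exactly the subgroup generated by the products of two reflections (orthogonal transvections) x ↦ x − Q(v)⁻¹ f(x, v) v, Q(v) ≠ 0: the products of an even number of reflections. -/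
theorem result {F : Type*} [Field F] [Fintype F] [CharP F 2] {n : ℕ} (hn : 2 ≤ n) (h : Fintype.card F ≠ 2 ∨ n ≠ 4) (Q : QuadraticForm F (Fin n → F)) (hQ : (QuadraticMap.polarBilin Q).Nondegenerate) : Cfsg.Omega F ⇑Q = Subgroup.closure {g : ↥(Cfsg.isometryGroup F ⇑Q) | ∃ u v : Fin n → F, Q u ≠ 0 ∧ Q v ≠ 0 ∧ ((g : Matrix.GeneralLinearGroup (Fin n) F) : Matrix (Fin n) (Fin n) F) = Cfsg.reflectionMatrix ⇑Q u * Cfsg.reflectionMatrix ⇑Q v} := by
  classical
  have hex : (∃ c : F, c ≠ 0 ∧ c ≠ 1) ∨ Fintype.card (Fin n) ≠ 4 := by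
    simpa using CfsgLib.Classes.gen_hyp h
  have hgen := CfsgLib.Forms.reflClosure_eq_top hQ hex
  set K := Subgroup.closure {g : ↥(Cfsg.isometryGroup F ⇑Q) | ∃ u v : Fin n → F, Q u ≠ 0 ∧ Q v ≠ 0 ∧
    ((g : Matrix.GeneralLinearGroup (Fin n) F) : Matrix (Fin n) (Fin n) F) =
      Cfsg.reflectionMatrix ⇑Q u * Cfsg.reflectionMatrix ⇑Q v}
  refine le_antisymm ?_ ((Subgroup.closure_le _).mpr ?_)
  · haveI : K.Normal := by
      refine ⟨fun x hx g => ?_⟩
      induction hx using Subgroup.closure_induction with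
      | mem x hx =>
        obtain ⟨u, v, hu, hv, hm⟩ := hx
        refine Subgroup.subset_closure ⟨_, _, (CfsgLib.OrthGen.Q_act g u).trans_ne hu,
          (CfsgLib.OrthGen.Q_act g v).trans_ne hv, ?_⟩
        have hx : x = CfsgLib.OrthGen.refl Q hu * CfsgLib.OrthGen.refl Q hv := Subtype.ext (Units.ext hm)
        rw [hx, show g * (CfsgLib.OrthGen.refl Q hu * CfsgLib.OrthGen.refl Q hv) * g⁻¹ =
          (g * CfsgLib.OrthGen.refl Q hu * g⁻¹) * (g * CfsgLib.OrthGen.refl Q hv * g⁻¹) by group,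
          CfsgLib.OrthGen.conj_refl, CfsgLib.OrthGen.conj_refl]
        rfl
      | one => rw [mul_one, mul_inv_cancel]; exact one_mem K
      | mul x y _ _ hx hy =>
        rw [show g * (x * y) * g⁻¹ = (g * x * g⁻¹) * (g * y * g⁻¹) by group]; exact mul_mem hx hy
      | inv x _ hx => rw [show g * x⁻¹ * g⁻¹ = (g * x * g⁻¹)⁻¹ by group]; exact inv_mem hx
    refine CfsgLib.Forms.commutator_le_of_gen hgen K ?_
    rintro _ ⟨u, hu, rfl⟩ _ ⟨v, hv, rfl⟩
    have hmem : CfsgLib.OrthGen.refl Q hu * CfsgLib.OrthGen.refl Q hv ∈ K :=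
      Subgroup.subset_closure ⟨u, v, hu, hv, rfl⟩
    rw [commutatorElement_def, CfsgLib.OrthGen.refl_inv, CfsgLib.OrthGen.refl_inv, mul_assoc]
    exact mul_mem hmem hmem
  · rintro x ⟨u, v, hu, hv, hm⟩
    have hx : x = CfsgLib.OrthGen.refl Q hu * CfsgLib.OrthGen.refl Q hv := Subtype.ext (Units.ext hm)
    obtain ⟨t, ht⟩ := FiniteField.isSquare_of_char_two (ringChar.eq F 2) (Q v / Q u)
    show x ∈ Cfsg.Omega F ⇑Q
    rw [← CfsgLib.Classes.ab_eq_one_iff, hx, map_mul,
      CfsgLib.Classes.ab_refl_eq hQ hu hv (t := t) (by rw [← ht, div_mul_cancel₀ _ hu]),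
      CfsgLib.Classes.ab_refl_mul_self]

end Cfsg.Agent.S2635
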