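import Cfsg.Statements.S2636
-- import your own Cfsg.Agent.* helpers here

set_option autoImplicit false
open Cfsg

namespace Cfsg.Agent.S2636

/-- Centraliser of a field automorphism in PGL_n: let F be the field with q = q₀^r elements, σ a field automorphism of F of prime order r (so its fixed field has q₀ elements) and n ≥ 1. The invertible matrices g whose entrywise image under σ is a scalar multiple of g — those whose coset modulo scalars is fixed by σ — number (q − 1)/(q₀ − 1) · |GL_n(q₀)|; equivalently the centraliser in PGL_n(q) of the induced automorphism has the order of PGL_n(q₀). -/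
theorem result {F : Type*} [Field F] [Fintype F] {q₀ r n : ℕ} (hr : r.Prime) (hn : 1 ≤ n) (hF : Fintype.card F = q₀ ^ r) (σ : F ≃+* F) (hσ : orderOf σ = r) : Nat.card {g : GL (Fin n) F // ∃ c : F, c ≠ 0 ∧ (g : Matrix (Fin n) (Fin n) F).map σ = c • (g : Matrix (Fin n) (Fin n) F)} = (q₀ ^ r - 1) / (q₀ - 1) * ∏ i : Fin n, (q₀ ^ n - q₀ ^ (i : ℕ)) := by
  classical
  set Γ : Subgroup (RingAut F) := Subgroup.zpowers σ with hΓ
  set E : Subfield F := FixedPoints.subfield Γ F with hE
  haveI : Finite (RingAut F) := Finite.of_injective (fun g => (g : F → F)) DFunLike.coe_injective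
  letI : Fintype Γ := Fintype.ofFinite _
  haveI : FaithfulSMul Γ F := ⟨fun {g g'} h => Subtype.ext (RingEquiv.ext h)⟩
  have hmem : ∀ x : F, x ∈ E ↔ σ x = x := by
    intro x
    refine ⟨fun h => h ⟨σ, Subgroup.mem_zpowers σ⟩, fun h => ?_⟩
    rintro ⟨g, hg⟩
    show g x = x
    have hle : Γ ≤ MulAction.stabilizer (RingAut F) x := by
      rw [hΓ, Subgroup.zpowers_le]
      exact h
    exact hle hg
  have hrank : Module.finrank E F = r := by
    rw [FixedPoints.finrank_eq_card, ← Nat.card_eq_fintype_card, hΓ, Nat.card_zpowers, hσ]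
  have hEcard : Fintype.card E = q₀ := by
    have := Module.card_eq_pow_finrank (K := E) (V := F)
    rw [hrank, hF] at this
    exact (Nat.pow_left_injective hr.ne_zero this).symm
  let ι : GL (Fin n) E →* GL (Fin n) F := Matrix.GeneralLinearGroup.map E.subtype
  let Φ : Fˣ × GL (Fin n) E →* GL (Fin n) F :=
    { toFun := fun p => Matrix.GeneralLinearGroup.scalar (Fin n) p.1 * ι p.2
      map_one' := by simp
      map_mul' := fun p p' => by
        simp only [Prod.fst_mul, Prod.snd_mul, map_mul]
        rw [mul_assoc (Matrix.GeneralLinearGroup.scalar (Fin n) p.1), ← mul_assoc _ (ι p.2) (ι p'.2),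
          Matrix.GeneralLinearGroup.scalar_commute p'.1 (ι p.2)]
        simp only [mul_assoc] }
  have hΦ : ∀ p i j, ((Φ p : GL (Fin n) F) : Matrix (Fin n) (Fin n) F) i j =
      (p.1 : F) * ((p.2 : Matrix (Fin n) (Fin n) E) i j : F) := by
    intro p i j
    show ((Matrix.scalar (Fin n) (p.1 : F)) * ((p.2 : Matrix (Fin n) (Fin n) E).map E.subtype)) i j = _
    rw [Matrix.scalar_apply, Matrix.diagonal_mul]
    rfl
  -- the set in question is the range
  have hrange : ∀ g : GL (Fin n) F, g ∈ Φ.range ↔
      ∃ c : F, c ≠ 0 ∧ (g : Matrix (Fin n) (Fin n) F).map σ = c • (g : Matrix (Fin n) (Fin n) F) := by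
    intro g
    constructor
    · rintro ⟨p, rfl⟩
      refine ⟨σ p.1 * (p.1 : F)⁻¹, mul_ne_zero ?_ (inv_ne_zero p.1.ne_zero), ?_⟩
      · exact (map_ne_zero_iff σ σ.injective).mpr p.1.ne_zero
      · ext i j
        rw [Matrix.map_apply, Matrix.smul_apply, hΦ, map_mul,
          (hmem _).mp ((p.2 : Matrix (Fin n) (Fin n) E) i j).2, smul_eq_mul]
        field_simp
    · rintro ⟨c, hc, hg⟩
      have hne : (g : Matrix (Fin n) (Fin n) F) ≠ 0 := fun h => by
        have := congrArg (· * ((g⁻¹ : GL (Fin n) F) : Matrix (Fin n) (Fin n) F)) h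
        simp only [← Units.val_mul, mul_inv_cancel, Units.val_one, Matrix.zero_mul] at this
        have h2 := congrFun (congrFun this ⟨0, hn⟩) ⟨0, hn⟩
        simp at h2
      obtain ⟨i₀, j₀, ha⟩ : ∃ i j, (g : Matrix (Fin n) (Fin n) F) i j ≠ 0 := by
        by_contra h
        push Not at h
        exact hne (Matrix.ext h)
      set a : F := (g : Matrix (Fin n) (Fin n) F) i₀ j₀ with hadef
      have hσa : σ a = c * a := by
        have := congrFun (congrFun hg i₀) j₀
        simpa using this
      have hfix : ∀ i j, a⁻¹ * (g : Matrix (Fin n) (Fin n) F) i j ∈ E := by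
        intro i j
        rw [hmem, map_mul, map_inv₀, hσa]
        have : σ ((g : Matrix (Fin n) (Fin n) F) i j) = c * (g : Matrix (Fin n) (Fin n) F) i j := by
          have := congrFun (congrFun hg i) j
          simpa using this
        rw [this]
        field_simp
      let H : Matrix (Fin n) (Fin n) E := Matrix.of fun i j => ⟨_, hfix i j⟩
      have hH : H.map E.subtype = a⁻¹ • (g : Matrix (Fin n) (Fin n) F) := rfl
      have hdet : IsUnit H.det := by
        rw [isUnit_iff_ne_zero]
        intro h0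
        have h1 : (H.map E.subtype).det = 0 := by
          rw [← RingHom.mapMatrix_apply, ← RingHom.map_det, h0, map_zero]
        rw [hH, Matrix.det_smul] at h1
        exact mul_ne_zero (pow_ne_zero _ (inv_ne_zero ha))
          (Matrix.GeneralLinearGroup.det g).ne_zero h1
      refine ⟨(Units.mk0 a ha, Matrix.GeneralLinearGroup.mk'' H hdet), Units.ext (Matrix.ext fun i j => ?_)⟩
      rw [hΦ]
      show a * (a⁻¹ * (g : Matrix (Fin n) (Fin n) F) i j) = _
      field_simp
  rw [show Nat.card {g : GL (Fin n) F // ∃ c : F, c ≠ 0 ∧ (g : Matrix (Fin n) (Fin n) F).map σ = c • (g : Matrix (Fin n) (Fin n) F)}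
      = Nat.card Φ.range from Nat.card_congr (Equiv.subtypeEquivRight fun g => (hrange g).symm)]
  -- the kernel is a copy of the units of E
  have hker : Nat.card Φ.ker = q₀ - 1 := by
    let f : Eˣ → Φ.ker := fun u => ⟨((Units.map E.subtype.toMonoidHom u)⁻¹, Matrix.GeneralLinearGroup.scalar (Fin n) u), by
      rw [MonoidHom.mem_ker]
      refine Units.ext (Matrix.ext fun i j => ?_)
      rw [hΦ, Matrix.GeneralLinearGroup.coe_scalar, Matrix.scalar_apply, Units.val_one]
      have hu : ((u : E) : F) ≠ 0 := fun h => u.ne_zero (Subtype.ext h)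
      by_cases hij : i = j
      · subst hij
        simp [Units.val_inv_eq_inv_val, hu]
      · simp [hij]⟩
    have hf : Function.Bijective f := by
      constructor
      · intro u v h
        have := congrArg (fun p : Φ.ker => ((p : Fˣ × GL (Fin n) E).2 : Matrix (Fin n) (Fin n) E) ⟨0, hn⟩ ⟨0, hn⟩) h
        simp [f] at this
        exact Units.ext this
      · rintro ⟨⟨a, h⟩, hk⟩
        rw [MonoidHom.mem_ker] at hk
        have hij : ∀ i j, (a : F) * ((h : Matrix (Fin n) (Fin n) E) i j : F) = if i = j then 1 else 0 := by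
          intro i j
          have := congrArg (fun g : GL (Fin n) F => (g : Matrix (Fin n) (Fin n) F) i j) hk
          simp only [hΦ, Units.val_one, Matrix.one_apply] at this
          exact this
        have h00 := hij ⟨0, hn⟩ ⟨0, hn⟩
        rw [if_pos rfl] at h00
        have hne : (h : Matrix (Fin n) (Fin n) E) ⟨0, hn⟩ ⟨0, hn⟩ ≠ 0 := fun h0 => by simp [h0] at h00
        refine ⟨Units.mk0 _ hne, Subtype.ext (Prod.ext (Units.ext ?_) (Units.ext (Matrix.ext fun i j => Subtype.ext ?_)))⟩
        · simp [f, Units.val_inv_eq_inv_val]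
          exact (eq_inv_of_mul_eq_one_left h00).symm
        · have hh := hij i j
          simp only [f, Matrix.GeneralLinearGroup.coe_scalar, Matrix.scalar_apply, Units.val_mk0, Matrix.diagonal_apply]
          apply mul_left_cancel₀ a.ne_zero
          rw [hh]
          split_ifs
          · exact h00
          · simp
    rw [← Nat.card_eq_of_bijective f hf, Nat.card_units, Nat.card_eq_fintype_card, hEcard]
  have hdom : Nat.card (Fˣ × GL (Fin n) E) = (q₀ ^ r - 1) * ∏ i : Fin n, (q₀ ^ n - q₀ ^ (i : ℕ)) := by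
    rw [Nat.card_prod, Nat.card_units, Nat.card_eq_fintype_card, hF, Matrix.card_GL_field]
    simp [hEcard]
  have hmul : Nat.card Φ.range * (q₀ - 1) = (q₀ ^ r - 1) * ∏ i : Fin n, (q₀ ^ n - q₀ ^ (i : ℕ)) := by
    rw [← hdom, Subgroup.card_eq_card_quotient_mul_card_subgroup Φ.ker,
      Nat.card_congr (QuotientGroup.quotientKerEquivRange Φ).toEquiv, hker]
  have hq0 : 1 < q₀ := hEcard ▸ Fintype.one_lt_card
  obtain ⟨d, hd⟩ : q₀ - 1 ∣ q₀ ^ r - 1 := by simpa using Nat.sub_dvd_pow_sub_pow q₀ 1 r
  rw [hd, Nat.mul_div_cancel_left _ (Nat.sub_pos_of_lt hq0)]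
  rw [hd] at hmul
  have := hmul.trans (by ring : (q₀ - 1) * d * ∏ i : Fin n, (q₀ ^ n - q₀ ^ (i : ℕ)) = d * (∏ i : Fin n, (q₀ ^ n - q₀ ^ (i : ℕ))) * (q₀ - 1))
  exact Nat.eq_of_mul_eq_mul_right (Nat.sub_pos_of_lt hq0) this

end Cfsg.Agent.S2636
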