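import Cfsg.Statements.S2638
-- import your own Cfsg.Agent.* helpers here

set_option autoImplicit false
open Cfsg

namespace Cfsg.Agent.S2638

open Polynomial

/-- A polynomial over a field with `q` elements having a root-of-unity root of prime order `r`
in the quotient field has degree at least the order of `q` modulo `r`. -/
lemma orderOf_le_natDegree {F : Type*} [Field F] [Fintype F] {r : ℕ} (hr : r.Prime) {g : F[X]}
    (hg : Irreducible g) (hdvd : g ∣ X ^ r - 1) (hne : ¬ g ∣ X - 1) :
    orderOf (Fintype.card F : ZMod r) ≤ g.natDegree := by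
  classical
  haveI : Fact (Irreducible g) := ⟨hg⟩
  haveI : Module.Finite F (AdjoinRoot g) := (AdjoinRoot.powerBasis hg.ne_zero).finite
  haveI : Finite (AdjoinRoot g) := Module.finite_of_finite F
  letI : Fintype (AdjoinRoot g) := Fintype.ofFinite _
  have hcard : Fintype.card (AdjoinRoot g) = Fintype.card F ^ g.natDegree := by
    rw [Module.card_eq_pow_finrank (K := F) (V := AdjoinRoot g), (AdjoinRoot.powerBasis hg.ne_zero).finrank]
    rfl
  have hpow : AdjoinRoot.root g ^ r = 1 := by
    have := AdjoinRoot.mk_eq_zero.mpr hdvd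
    rwa [map_sub, map_pow, map_one, AdjoinRoot.mk_X, sub_eq_zero] at this
  have hne1 : AdjoinRoot.root g ≠ 1 := fun h => hne (AdjoinRoot.mk_eq_zero.mp (by
    rw [map_sub, map_one, AdjoinRoot.mk_X, h, sub_self]))
  have hne0 : AdjoinRoot.root g ≠ 0 := fun h => by
    rw [h, zero_pow hr.ne_zero] at hpow
    exact zero_ne_one hpow
  haveI := Fact.mk hr
  have hord : orderOf (AdjoinRoot.root g) = r := orderOf_eq_prime hpow hne1
  have h1 : r ∣ Fintype.card F ^ g.natDegree - 1 := by
    rw [← hord, ← hcard]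
    exact orderOf_dvd_of_pow_eq_one (FiniteField.pow_card_sub_one_eq_one _ hne0)
  have h2 : (Fintype.card F : ZMod r) ^ g.natDegree = 1 := by
    have h3 := (ZMod.natCast_eq_zero_iff _ r).mpr h1
    rw [Nat.cast_sub (Nat.one_le_pow _ _ Fintype.card_pos), sub_eq_zero] at h3
    simpa using h3
  exact Nat.le_of_dvd hg.natDegree_pos (orderOf_dvd_of_pow_eq_one h2)


/-- If an element x of GL_n(q), n ≥ 1, has prime order r and the multiplicative order of q modulo r is n (r is a primitive prime divisor of q^n − 1, so x acts irreducibly), then the centraliser of x in GL_n(q) is cyclic of order q^n − 1 (the multiplicative group of the field with q^n elements, a Singer cycle). -/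
theorem result {F : Type*} [Field F] [Fintype F] {p q : ℕ} [Fact p.Prime] [CharP F p] (hF : Fintype.card F = q) {n r : ℕ} (hn : 1 ≤ n) (hr : r.Prime) (hrp : r ≠ p) (hi : orderOf (q : ZMod r) = n) (x : GL (Fin n) F) (hx : orderOf x = r) : IsCyclic ↥(Subgroup.centralizer ({x} : Set (GL (Fin n) F))) ∧ Nat.card ↥(Subgroup.centralizer ({x} : Set (GL (Fin n) F))) = q ^ n - 1 := by
  classical
  subst hF
  haveI : Nonempty (Fin n) := ⟨⟨0, hn⟩⟩
  set M : Matrix (Fin n) (Fin n) F := (x : Matrix (Fin n) (Fin n) F) with hM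
  have hMr : M ^ r = 1 := by
    rw [hM, ← Units.val_pow_eq_pow_val, ← hx, pow_orderOf_eq_one, Units.val_one]
  have hM1 : M ≠ 1 := fun h => by
    have : x = 1 := Units.ext h
    rw [this, orderOf_one] at hx
    exact hr.ne_one hx.symm
  set f := minpoly F M with hf
  have hint : IsIntegral F M := IsIntegral.of_finite F M
  have hfdvd : f ∣ Polynomial.X ^ r - 1 := minpoly.dvd F M (by simp [hMr])
  have hsep : (Polynomial.X ^ r - 1 : Polynomial F).Separable :=
    Polynomial.X_pow_sub_one_separable_iff.mpr fun h => by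
      rw [CharP.cast_eq_zero_iff F p] at h
      exact hrp ((Nat.prime_dvd_prime_iff_eq (Fact.out) hr).mp h).symm
  have hsq : Squarefree f := (hsep.of_dvd hfdvd).squarefree
  -- some irreducible factor differs from X - 1
  have hX : ¬ f ∣ Polynomial.X - 1 := fun h => hM1 (by
    obtain ⟨c, hc⟩ := h
    have h2 := congrArg (Polynomial.aeval M) hc
    rw [map_mul, hf, minpoly.aeval, zero_mul, map_sub, Polynomial.aeval_X, map_one, sub_eq_zero] at h2
    exact h2)
  obtain ⟨g, hg, hgf, hg1⟩ : ∃ g : Polynomial F, Irreducible g ∧ g ∣ f ∧ ¬ g ∣ Polynomial.X - 1 := by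
    by_contra hall
    push Not at hall
    apply hX
    have hdvd_all : ∀ {h : Polynomial F}, Irreducible h → h ∣ f → Associated h (Polynomial.X - 1) :=
      fun hh hhf => hh.associated_of_dvd (Polynomial.irreducible_X_sub_C (1 : F) |> fun t => by simpa using t) (hall _ hh hhf)
    have hunit : ∀ {c : Polynomial F}, c ≠ 0 → (∀ h, Irreducible h → ¬ h ∣ c) → IsUnit c := fun hc hno => by
      by_contra hcu
      obtain ⟨h, hh, hhc⟩ := WfDvdMonoid.exists_irreducible_factor hcu hc
      exact hno h hh hhc
    obtain ⟨g₀, hg₀, hg₀f⟩ : ∃ g₀, Irreducible g₀ ∧ g₀ ∣ f :=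
      WfDvdMonoid.exists_irreducible_factor (minpoly.not_isUnit F M) (minpoly.ne_zero hint)
    obtain ⟨c, hc⟩ := hg₀f
    have hc0 : c ≠ 0 := fun h => minpoly.ne_zero hint (by show f = 0; rw [hc, h, mul_zero])
    have hcu : IsUnit c := hunit hc0 fun h hh hhc => by
      have a1 := hdvd_all hg₀ ⟨c, hc⟩
      have a2 := hdvd_all hh (hhc.trans ⟨g₀, by rw [hc, mul_comm]⟩)
      exact hh.not_isUnit (hsq h (hc ▸ mul_dvd_mul (a2.trans a1.symm).dvd hhc))
    rw [hc]
    exact (associated_mul_unit_left g₀ c hcu).dvd.trans (hdvd_all hg₀ ⟨c, hc⟩).dvd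
  have hdeg : n ≤ g.natDegree := hi ▸ orderOf_le_natDegree hr hg (hgf.trans hfdvd) hg1
  have hfle : f.natDegree ≤ n := by
    have := Polynomial.natDegree_le_of_dvd (Matrix.minpoly_dvd_charpoly M) M.charpoly_monic.ne_zero
    rwa [Matrix.charpoly_natDegree_eq_dim, Fintype.card_fin] at this
  have hassoc : Associated g f := Polynomial.associated_of_dvd_of_natDegree_le hgf (minpoly.ne_zero hint)
    (hfle.trans hdeg)
  have hirr : Irreducible f := hassoc.irreducible hg
  have hfn : f.natDegree = n := le_antisymm hfle (hdeg.trans (Polynomial.natDegree_le_of_dvd hgf (minpoly.ne_zero hint)))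
  haveI : Fact (Irreducible f) := ⟨hirr⟩
  let φ : AdjoinRoot f →ₐ[F] Matrix (Fin n) (Fin n) F :=
    Ideal.Quotient.liftₐ _ (Polynomial.aeval M) fun a ha => by
      obtain ⟨c, rfl⟩ := Ideal.mem_span_singleton.mp ha
      rw [map_mul, hf, minpoly.aeval, zero_mul]
  have hφroot : φ (AdjoinRoot.root f) = M := by
    show Polynomial.aeval M Polynomial.X = M
    simp
  have hn0 : 0 < n := hn
  let v : Fin n → F := Pi.single ⟨0, hn0⟩ 1
  have hv : v ≠ 0 := fun h => by
    have := congrFun h ⟨0, hn0⟩
    simp [v] at this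
  let ψ : AdjoinRoot f →ₗ[F] (Fin n → F) :=
    (Matrix.mulVecBilin F F).flip v ∘ₗ φ.toLinearMap
  have hψ : ∀ e, ψ e = (φ e).mulVec v := fun e => rfl
  haveI : Module.Finite F (AdjoinRoot f) := (AdjoinRoot.powerBasis hirr.ne_zero).finite
  have hψinj : Function.Injective ψ := by
    rw [← LinearMap.ker_eq_bot, LinearMap.ker_eq_bot']
    intro e he
    by_contra hne
    rw [hψ] at he
    have h2 := congrArg (fun w => (φ e⁻¹).mulVec w) he
    simp only [Matrix.mulVec_mulVec, ← map_mul, inv_mul_cancel₀ hne, map_one, Matrix.one_mulVec,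
      Matrix.mulVec_zero] at h2
    exact hv h2
  have hψsurj : Function.Surjective ψ := (LinearMap.injective_iff_surjective_of_finrank_eq_finrank (by
    rw [(AdjoinRoot.powerBasis hirr.ne_zero).finrank, Module.finrank_fin_fun]
    exact hfn)).mp hψinj
  -- the centraliser is the unit group of the field
  have hcomm : ∀ g : GL (Fin n) F, g ∈ Subgroup.centralizer ({x} : Set (GL (Fin n) F)) →
      ∃ e, φ e = (g : Matrix (Fin n) (Fin n) F) := by
    intro g hg
    rw [Subgroup.mem_centralizer_singleton_iff] at hg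
    obtain ⟨e, he⟩ := hψsurj ((g : Matrix (Fin n) (Fin n) F).mulVec v)
    have hgM : Commute (g : Matrix (Fin n) (Fin n) F) M := congrArg Units.val hg
    have hge : ∀ e', Commute (g : Matrix (Fin n) (Fin n) F) (φ e') := by
      intro e'
      obtain ⟨h, rfl⟩ := Ideal.Quotient.mk_surjective e'
      show Commute _ (Polynomial.aeval M h)
      induction h using Polynomial.induction_on' with
      | add a b ha hb => rw [map_add]; exact ha.add_right hb
      | monomial k c =>
        rw [Polynomial.aeval_monomial]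
        exact (Algebra.commute_algebraMap_right c _).mul_right (hgM.pow_right k)
    refine ⟨e, Matrix.ext_of_mulVec_single fun i => ?_⟩
    obtain ⟨e', he'⟩ := hψsurj (Pi.single i 1)
    rw [← he', hψ, Matrix.mulVec_mulVec, Matrix.mulVec_mulVec, (hge e').eq, ← map_mul, mul_comm e e',
      map_mul, ← Matrix.mulVec_mulVec, ← Matrix.mulVec_mulVec, ← hψ e, he]
  let Ψ : (AdjoinRoot f)ˣ →* Subgroup.centralizer ({x} : Set (GL (Fin n) F)) :=
    (Units.map φ.toRingHom.toMonoidHom).codRestrict _ fun e => by
      rw [Subgroup.mem_centralizer_singleton_iff]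
      refine Units.ext ?_
      show φ e * M = M * φ e
      rw [← hφroot, ← map_mul, ← map_mul, mul_comm]
  have hΨ : Function.Bijective Ψ := by
    constructor
    · intro a b h
      have h2 : φ a = φ b := congrArg (fun z : Subgroup.centralizer ({x} : Set (GL (Fin n) F)) => ((z : GL (Fin n) F) : Matrix (Fin n) (Fin n) F)) h
      exact Units.ext (φ.toRingHom.injective h2)
    · rintro ⟨g, hg⟩
      obtain ⟨e, he⟩ := hcomm g hg
      have hne : e ≠ 0 := fun h0 => by
        rw [h0, map_zero] at he
        have h1 := congrArg (fun w : Matrix (Fin n) (Fin n) F => w * ((g⁻¹ : GL (Fin n) F) : Matrix (Fin n) (Fin n) F)) he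
        simp only [zero_mul, ← Units.val_mul, mul_inv_cancel, Units.val_one] at h1
        simpa using congrFun (congrFun h1 ⟨0, hn0⟩) ⟨0, hn0⟩
      exact ⟨Units.mk0 e hne, Subtype.ext (Units.ext he)⟩
  haveI : Finite (AdjoinRoot f) := Module.finite_of_finite F
  refine ⟨isCyclic_of_surjective Ψ hΨ.2, ?_⟩
  rw [← Nat.card_eq_of_bijective Ψ hΨ, Nat.card_units, Module.natCard_eq_pow_finrank (K := F),
    (AdjoinRoot.powerBasis hirr.ne_zero).finrank, Nat.card_eq_fintype_card]
  rw [show (AdjoinRoot.powerBasis hirr.ne_zero).dim = n from hfn]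

end Cfsg.Agent.S2638
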