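import Cfsg.Statements.S2639
import Cfsg.Agent.Lib.Classes.Realify
-- import your own Cfsg.Agent.* helpers here

set_option autoImplicit false
open Cfsg

namespace Cfsg.Agent.S2639

/-- The unitary group embeds in the symplectic group of twice the dimension over the subfield: for a field K with q² elements and a field F with q elements (isomorphic to the subfield of K of order q), there is an injective homomorphism GU_m(q) → Sp_2m(F). -/
theorem result {K F : Type*} [Field K] [Fintype K] [Field F] [Fintype F] {q : ℕ} (hK : Fintype.card K = q ^ 2) (hF : Fintype.card F = q) (m : ℕ) : ∃ φ : ↥(Cfsg.GU m K q) →* ↥(Matrix.symplecticGroup (Fin m) F), Function.Injective φ := by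
  classical
  obtain ⟨ι⟩ := CfsgLib.Classes.exists_ringHom_of_card_sq hK hF
  letI : Algebra F K := ι.toAlgebra
  obtain ⟨θ, hθ⟩ := CfsgLib.Classes.exists_not_mem_range (F := F) hK hF
  let L : (Fin m ⊕ Fin m → F) →ₗ[F] (Fin m → K) :=
    { toFun := fun v i => algebraMap F K (v (.inl i)) + θ * algebraMap F K (v (.inr i))
      map_add' := fun u v => funext fun i => by simp only [Pi.add_apply, map_add]; ring
      map_smul' := fun r v => funext fun i => by
        simp only [Pi.smul_apply, RingHom.id_apply, smul_eq_mul, Algebra.smul_def, map_mul]; ring }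
  obtain ⟨E, hE⟩ := CfsgLib.Classes.exists_linearEquiv L (fun v hv => funext fun k => by
    have h := fun i => CfsgLib.Classes.mem_range_of_mul_add θ hθ _ _ (congrFun hv i)
    rcases k with i | i
    · exact (h i).1
    · exact (h i).2) (by
    rw [Nat.card_eq_fintype_card, Nat.card_eq_fintype_card, Fintype.card_fun, Fintype.card_fun,
      Fintype.card_sum, Fintype.card_fin, hK, hF, ← pow_mul, two_mul])
  have key : ∀ u v : Fin m ⊕ Fin m → F,
      Cfsg.hermForm m K q (E u) (E v) - Cfsg.hermForm m K q (E v) (E u) =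
        (θ - θ ^ q) * algebraMap F K (u ⬝ᵥ (Matrix.J (Fin m) F).mulVec v) := by
    intro u v
    have hJ : ∀ v : Fin m ⊕ Fin m → F, (Matrix.J (Fin m) F).mulVec v = Sum.elim (-(v ∘ Sum.inr)) (v ∘ Sum.inl) := by
      intro v
      rw [Matrix.J, Matrix.fromBlocks_mulVec]
      simp [Matrix.neg_mulVec]
    rw [hJ]
    simp only [Cfsg.hermForm, hE, dotProduct, Fintype.sum_sum_type, Sum.elim_inl, Sum.elim_inr, Pi.neg_apply,
      Function.comp_apply, map_sum, map_add, map_mul, map_neg, Finset.mul_sum, ← Finset.sum_sub_distrib,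
      ← Finset.sum_add_distrib]
    refine Finset.sum_congr rfl fun i _ => ?_
    simp only [L, LinearMap.coe_mk, AddHom.coe_mk]
    rw [CfsgLib.Classes.add_pow_card hF, CfsgLib.Classes.add_pow_card hF, mul_pow, mul_pow,
      CfsgLib.Classes.algebraMap_pow_card hF, CfsgLib.Classes.algebraMap_pow_card hF,
      CfsgLib.Classes.algebraMap_pow_card hF, CfsgLib.Classes.algebraMap_pow_card hF]
    ring
  have hne : θ - θ ^ q ≠ 0 := sub_ne_zero.mpr (CfsgLib.Classes.pow_card_ne hK hF hθ).symm
  refine ⟨MonoidHom.codRestrict ((Units.coeHom _).comp ((CfsgLib.Classes.realify E).comp (Cfsg.GU m K q).subtype)) _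
    fun g => ?_, ?_⟩
  · rw [SymplecticGroup.mem_iff']
    set A : Matrix (Fin m ⊕ Fin m) (Fin m ⊕ Fin m) F := (CfsgLib.Classes.realify E g.1 : GL _ F).1 with hA
    show A.transpose * Matrix.J (Fin m) F * A = Matrix.J (Fin m) F
    refine Matrix.ext fun i j => ?_
    have h : ∀ u v : Fin m ⊕ Fin m → F, A.mulVec u ⬝ᵥ (Matrix.J (Fin m) F).mulVec (A.mulVec v) =
        u ⬝ᵥ (Matrix.J (Fin m) F).mulVec v := by
      intro u v
      apply (algebraMap F K).injective
      apply mul_left_cancel₀ hne
      rw [← key, ← key, hA, CfsgLib.Classes.realify_mulVec, CfsgLib.Classes.realify_mulVec,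
        CfsgLib.Classes.hermForm_mulVec, CfsgLib.Classes.hermForm_mulVec]
    have h2 := h (Pi.single i 1) (Pi.single j 1)
    rw [Matrix.mulVec_mulVec, Matrix.mulVec_single_one, Matrix.mulVec_single_one, Matrix.mulVec_single_one,
      single_one_dotProduct, Matrix.col_apply] at h2
    rw [Matrix.mul_assoc, Matrix.mul_apply]
    simpa [dotProduct, Matrix.col_apply, Matrix.transpose_apply] using h2
  · intro g g' hgg
    exact Subtype.ext (CfsgLib.Classes.realify_injective E (Units.ext (congrArg Subtype.val hgg)))

end Cfsg.Agent.S2639
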