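import Cfsg.Statements.S2640
import Cfsg.Agent.Lib.Classes.Realify
-- import your own Cfsg.Agent.* helpers here

set_option autoImplicit false
open Cfsg

namespace Cfsg.Agent.S2640

/-- For m even, the unitary group GU_m(q) (over the field with q² elements) embeds in the orthogonal group O⁺_2m(q) of the hyperbolic form Σ x_i y_i over the field with q elements (there is an injective homomorphism). -/
theorem result {K F : Type*} [Field K] [Fintype K] [Field F] [Fintype F] {q : ℕ} (hK : Fintype.card K = q ^ 2) (hF : Fintype.card F = q) (m : ℕ) (hm : Even m) : ∃ φ : ↥(Cfsg.GU m K q) →* ↥(Cfsg.isometryGroup F (Cfsg.quadFormPlus m F)), Function.Injective φ := by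
  classical
  obtain ⟨ι⟩ := CfsgLib.Classes.exists_ringHom_of_card_sq hK hF
  letI : Algebra F K := ι.toAlgebra
  obtain ⟨P⟩ := CfsgLib.Classes.exists_pairParam (F := F) hK hF
  obtain ⟨l, hl⟩ := hm
  let e : Fin m ≃ Fin l × Fin 2 := (finCongr (by omega : m = l * 2)).trans finProdFinEquiv.symm
  let L : (Fin m ⊕ Fin m → F) →ₗ[F] (Fin m → K) :=
    { toFun := fun v => CfsgLib.Classes.pairsFun e P.θ P.c P.c' q (v ∘ Sum.inl) (v ∘ Sum.inr)
      map_add' := fun u v => CfsgLib.Classes.pairsFun_add hF e P.θ P.c P.c' _ _ _ _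
      map_smul' := fun r v => CfsgLib.Classes.pairsFun_smul hF e P.θ P.c P.c' r _ _ }
  obtain ⟨E, hE⟩ := CfsgLib.Classes.exists_linearEquiv L (fun v hv => funext fun k => by
    obtain ⟨h1, h2⟩ := CfsgLib.Classes.pairsFun_eq_zero hK hF P e hv
    rcases k with i | i
    · exact congrFun h1 i
    · exact congrFun h2 i) (by
    rw [Nat.card_eq_fintype_card, Nat.card_eq_fintype_card, Fintype.card_fun, Fintype.card_fun,
      Fintype.card_sum, Fintype.card_fin, hK, hF, ← pow_mul, two_mul])
  refine CfsgLib.Classes.exists_GU_hom_isometryGroup E _ fun v => ?_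
  simp only [Cfsg.hermForm, hE, Cfsg.quadFormPlus]
  exact (CfsgLib.Classes.pairsFun_norm hK hF P e (v ∘ Sum.inl) (v ∘ Sum.inr)).symm

end Cfsg.Agent.S2640
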