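import Cfsg.Statements.S2641
import Cfsg.Agent.Lib.Classes.Realify
-- import your own Cfsg.Agent.* helpers here

set_option autoImplicit false
open Cfsg

namespace Cfsg.Agent.S2641

/-- For m odd, the unitary group GU_m(q) (over the field with q² elements) embeds in the orthogonal group O⁻_2m(q) of an elliptic form (Σ_(i<m−1) x_i y_i plus an anisotropic binary form) over the field with q elements (there is an injective homomorphism). -/
theorem result {K F : Type*} [Field K] [Fintype K] [Field F] [Fintype F] {q : ℕ} (hK : Fintype.card K = q ^ 2) (hF : Fintype.card F = q) (m : ℕ) (hm : Odd m) (a b : F) (hab : ∀ z₁ z₂ : F, z₁ ^ 2 + a * z₁ * z₂ + b * z₂ ^ 2 = 0 → z₁ = 0 ∧ z₂ = 0) : ∃ φ : ↥(Cfsg.GU m K q) →* ↥(Cfsg.isometryGroup F (Cfsg.quadFormMinus (m - 1) F a b)), Function.Injective φ := by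
  classical
  obtain ⟨ι⟩ := CfsgLib.Classes.exists_ringHom_of_card_sq hK hF
  letI : Algebra F K := ι.toAlgebra
  obtain ⟨P⟩ := CfsgLib.Classes.exists_pairParam (F := F) hK hF
  obtain ⟨θ, hθ, hsum, hprod⟩ := CfsgLib.Classes.exists_root_of_anisotropic hK hF a b hab
  obtain ⟨l, hl⟩ := hm
  let e : Fin (m - 1) ≃ Fin l × Fin 2 := (finCongr (by omega : m - 1 = l * 2)).trans finProdFinEquiv.symm
  let e₁ : Fin m ≃ Fin (m - 1) ⊕ Fin 1 := (finCongr (by omega : m = m - 1 + 1)).trans finSumFinEquiv.symm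
  let z : (((Fin (m - 1) ⊕ Fin (m - 1)) ⊕ Fin 2) → F) → K := fun v =>
    algebraMap F K (v (.inr 0)) + θ * algebraMap F K (v (.inr 1))
  let L : (((Fin (m - 1) ⊕ Fin (m - 1)) ⊕ Fin 2) → F) →ₗ[F] (Fin m → K) :=
    { toFun := fun v i => Sum.elim (CfsgLib.Classes.pairsFun e P.θ P.c P.c' q (v ∘ Sum.inl ∘ Sum.inl) (v ∘ Sum.inl ∘ Sum.inr))
        (fun _ => z v) (e₁ i)
      map_add' := fun u v => funext fun i => by
        simp only [Pi.add_apply]
        rcases e₁ i with j | j
        · exact congrFun (CfsgLib.Classes.pairsFun_add hF e P.θ P.c P.c' (u ∘ Sum.inl ∘ Sum.inl)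
            (u ∘ Sum.inl ∘ Sum.inr) (v ∘ Sum.inl ∘ Sum.inl) (v ∘ Sum.inl ∘ Sum.inr)) j
        · simp only [Sum.elim_inr, z, Pi.add_apply, map_add]; ring
      map_smul' := fun r v => funext fun i => by
        simp only [Pi.smul_apply, RingHom.id_apply]
        rcases e₁ i with j | j
        · exact congrFun (CfsgLib.Classes.pairsFun_smul hF e P.θ P.c P.c' r (v ∘ Sum.inl ∘ Sum.inl)
            (v ∘ Sum.inl ∘ Sum.inr)) j
        · simp only [Sum.elim_inr, z, Pi.smul_apply, smul_eq_mul]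
          rw [Algebra.smul_def, map_mul, map_mul]; ring }
  obtain ⟨E, hE⟩ := CfsgLib.Classes.exists_linearEquiv L (fun v hv => funext fun k => by
    have hv' : ∀ j, Sum.elim (CfsgLib.Classes.pairsFun e P.θ P.c P.c' q (v ∘ Sum.inl ∘ Sum.inl) (v ∘ Sum.inl ∘ Sum.inr))
        (fun _ : Fin 1 => z v) j = 0 := fun j => by
      have := congrFun hv (e₁.symm j)
      simpa [L] using this
    obtain ⟨h1, h2⟩ := CfsgLib.Classes.pairsFun_eq_zero hK hF P e (funext fun j => hv' (.inl j))
    obtain ⟨h3, h4⟩ := CfsgLib.Classes.mem_range_of_mul_add θ hθ _ _ (hv' (.inr 0))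
    rcases k with (i | i) | s
    · exact congrFun h1 i
    · exact congrFun h2 i
    · fin_cases s
      · exact h3
      · exact h4) (by
    simp only [Nat.card_eq_fintype_card, Fintype.card_fun, Fintype.card_sum, Fintype.card_fin, hK, hF, ← pow_mul]
    congr 1
    omega)
  refine CfsgLib.Classes.exists_GU_hom_isometryGroup E _ fun v => ?_
  rw [Cfsg.hermForm, ← e₁.symm.sum_comp, Fintype.sum_sum_type]
  have hLl : ∀ j, E v (e₁.symm (.inl j)) = CfsgLib.Classes.pairsFun e P.θ P.c P.c' q (v ∘ Sum.inl ∘ Sum.inl) (v ∘ Sum.inl ∘ Sum.inr) j := fun j => by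
    rw [hE]; simp [L]
  have hLr : ∀ j, E v (e₁.symm (.inr j)) = z v := fun j => by
    rw [hE]; simp [L]
  simp only [hLl, hLr, Fin.sum_univ_one, Cfsg.quadFormMinus, map_add]
  rw [CfsgLib.Classes.pairsFun_norm hK hF P e]
  simp only [z, Function.comp_apply, map_sum, map_mul, map_pow]
  rw [CfsgLib.Classes.add_pow_card hF, mul_pow, CfsgLib.Classes.algebraMap_pow_card hF,
    CfsgLib.Classes.algebraMap_pow_card hF, ← hsum, ← hprod]
  ring

end Cfsg.Agent.S2641
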