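import Cfsg.Statements.S2643
import Cfsg.Agent.Lib.Classes.UnipotentGU
import Cfsg.Agent.Lib.Generators.RegularCentralizer
import Cfsg.Agent.Lib.ClassicalForms.Unitary.Center
-- import your own Cfsg.Agent.* helpers here

set_option autoImplicit false
open Cfsg

namespace Cfsg.Agent.S2643

open CfsgLib.Classes CfsgLib.Generators CfsgLib.ClassicalForms CfsgLib.Geometric Matrix

/-- Regular unipotent classes of SU_n(q), n ≥ 2: the elements u of the special unitary group (isometries of Σ u_i v_i^q of determinant one over the field with q² elements) with (u − 1)^n = 0 and rank(u − 1) = n − 1 form exactly gcd(n, q + 1) conjugacy classes of SU_n(q). -/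
theorem result {K : Type*} [Field K] [Fintype K] {q n : ℕ} (hK : Fintype.card K = q ^ 2) (hn : 2 ≤ n) : Nat.card {C : ConjClasses ↥(Cfsg.SU n K q) // ∃ u : ↥(Cfsg.SU n K q), ConjClasses.mk u = C ∧ (((u : GL (Fin n) K) : Matrix (Fin n) (Fin n) K) - 1) ^ n = 0 ∧ (((u : GL (Fin n) K) : Matrix (Fin n) (Fin n) K) - 1).rank = n - 1} = Nat.gcd n (q + 1) := by
  classical
  have hKn : Nat.card K = q ^ 2 := by rw [Nat.card_eq_fintype_card, hK]
  have hn0 : 0 < n := by omega
  obtain ⟨cj⟩ := exists_conj hKn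
  set J : Matrix (Fin n) (Fin n) K := shiftMatrix n K with hJdef
  have hJn : J ^ n = 0 := shiftMatrix_pow_self
  have hJr : J.rank = n - 1 := shiftMatrix_rank
  obtain ⟨g₀, x₀, hx₀⟩ := exists_gu_similar_of_unipotent (q := q) hK (N := J) ⟨n, hJn⟩
  set M₀ : Matrix (Fin n) (Fin n) K := ((g₀ : GL (Fin n) K) : Matrix (Fin n) (Fin n) K) - 1 with hM₀
  have hMx : M₀ = (x₀ : Matrix (Fin n) (Fin n) K) * J * ((x₀⁻¹ : GL (Fin n) K) : Matrix (Fin n) (Fin n) K) := by
    rw [hM₀, sub_eq_iff_eq_add, ← Units.mul_left_inj x₀, ← hx₀, add_mul, mul_assoc (_ * J), Units.inv_mul, mul_one, one_mul, mul_add, mul_one, add_comm]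
  have hreg : ∀ (x : GL (Fin n) K) (X : Matrix (Fin n) (Fin n) K), X ^ n = 0 → X.rank = n - 1 →
      ((x : Matrix (Fin n) (Fin n) K) * X * ((x⁻¹ : GL (Fin n) K) : Matrix (Fin n) (Fin n) K)) ^ n = 0 ∧
      ((x : Matrix (Fin n) (Fin n) K) * X * ((x⁻¹ : GL (Fin n) K) : Matrix (Fin n) (Fin n) K)).rank = n - 1 := by
    intro x X h1 h2
    rw [Units.conj_pow, h1, mul_zero, zero_mul,
      Matrix.rank_mul_eq_left_of_isUnit_det _ _ ((Matrix.isUnit_iff_isUnit_det _).mp (x⁻¹).isUnit),
      Matrix.rank_mul_eq_right_of_isUnit_det _ _ ((Matrix.isUnit_iff_isUnit_det _).mp x.isUnit)]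
    exact ⟨rfl, h2⟩
  obtain ⟨hMn, hMr⟩ : M₀ ^ n = 0 ∧ M₀.rank = n - 1 := hMx ▸ hreg x₀ J hJn hJr
  -- regular unipotent elements have determinant one
  have hdet1 : guDet n K q g₀ = 1 := by
    refine Units.ext ?_
    show (((g₀ : GL (Fin n) K) : Matrix (Fin n) (Fin n) K)).det = 1
    have h := det_polyIn hMn hn0 (fun i : Fin n => if (i : ℕ) ≤ 1 then (1 : K) else 0)
    rw [if_pos (show ((⟨0, hn0⟩ : Fin n) : ℕ) ≤ 1 from Nat.zero_le 1), one_pow] at h
    refine Eq.trans (congrArg Matrix.det ?_) h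
    rw [polyIn, Finset.sum_eq_add (⟨0, hn0⟩ : Fin n) (⟨1, by omega⟩ : Fin n)]
    · simp [hM₀]
    · simp [Fin.ext_iff]
    · rintro i - ⟨h0, h1⟩
      rw [Ne, Fin.ext_iff] at h0 h1
      rw [if_neg (by simp only at h0 h1; omega), zero_smul]
    · simp
    · simp
  have hdc : ∀ g : Cfsg.GU n K q, guDet n K q (g * g₀ * g⁻¹) = 1 := fun g => by
    rw [map_mul, map_mul, hdet1, mul_one, map_inv, mul_inv_cancel]
  let el : Cfsg.GU n K q → Cfsg.SU n K q := fun g => suOfGU _ (hdc g)
  have hval : ∀ g, (((el g : Cfsg.SU n K q) : GL (Fin n) K) : Matrix (Fin n) (Fin n) K) - 1 =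
      ((g : GL (Fin n) K) : Matrix (Fin n) (Fin n) K) * M₀ * (((g : GL (Fin n) K)⁻¹ : GL (Fin n) K) : Matrix (Fin n) (Fin n) K) := by
    intro g
    rw [hM₀, mul_sub, sub_mul, mul_one, Units.mul_inv]
    rfl
  -- the centraliser in `GU`
  have hcent : ∀ z : Cfsg.GU n K q, Commute z g₀ → ∃ c : Kˣ, c ^ (q + 1) = 1 ∧ guDet n K q z = c ^ n := by
    intro z hz
    set Z : Matrix (Fin n) (Fin n) K := ((z : GL (Fin n) K) : Matrix (Fin n) (Fin n) K) with hZ
    have hzc : Commute Z M₀ := by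
      have h := congrArg (fun t : Cfsg.GU n K q => ((t : GL (Fin n) K) : Matrix (Fin n) (Fin n) K)) hz.eq
      simp only [Subgroup.coe_mul, Units.val_mul] at h
      show Z * M₀ = M₀ * Z
      rw [hM₀, mul_sub, sub_mul, mul_one, one_mul, hZ, h]
    obtain ⟨c, hc⟩ := exists_polyIn_eq hMn hMr hzc
    have hdetZ := det_polyIn hMn hn0 c
    rw [hc] at hdetZ
    set a := c ⟨0, hn0⟩ with ha
    have ha0 : a ≠ 0 := (isUnit_polyIn_iff hMn hn0 c).mp (hc ▸ (z : GL (Fin n) K).isUnit)
    have hnB : IsNilpotent (Z - a • 1) := hc ▸ polyIn_sub_scalar_nilpotent hMn hn0 c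
    have hadj : qAdjoint q Z * Z = 1 := (mem_GU_iff_qAdjoint hK _).mp z.2
    have hnA : IsNilpotent (qAdjoint q Z - (a ^ q) • 1) := by
      have hpow : ∀ (X : Matrix (Fin n) (Fin n) K) (i : ℕ), qAdjoint q (X ^ i) = qAdjoint q X ^ i := fun X i => by
        induction i with
        | zero => rw [pow_zero, pow_zero, qAdjoint_one hK]
        | succ i ih => rw [pow_succ, qAdjoint_mul hK, ih, pow_succ']
      have h1 : qAdjoint q (a • (1 : Matrix (Fin n) (Fin n) K)) = (a ^ q) • 1 := by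
        ext i j
        have hq0 : q ≠ 0 := fun h => by rw [h] at hKn; simp at hKn
        simp only [qAdjoint, Matrix.map_apply, Matrix.transpose_apply, Matrix.smul_apply, Matrix.one_apply, smul_eq_mul]
        split_ifs with h1 h2 h2 <;> simp_all
      have h0 : qAdjoint q (0 : Matrix (Fin n) (Fin n) K) = 0 := by
        have h := qAdjoint_add hK (0 : Matrix (Fin n) (Fin n) K) 0
        rwa [add_zero, left_eq_add] at h
      obtain ⟨m, hm⟩ := hnB
      refine ⟨m, ?_⟩
      have h := qAdjoint_add hK (Z - a • 1) (a • 1)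
      rw [sub_add_cancel, h1] at h
      rw [h, add_sub_cancel_right, ← hpow, hm, h0]
    have hcom : Commute (qAdjoint q Z) Z := hadj.trans (mul_eq_one_comm.mp hadj).symm
    have hnil : IsNilpotent (((1 : K) - a ^ q * a) • (1 : Matrix (Fin n) (Fin n) K)) := by
      have e : ((1 : K) - a ^ q * a) • (1 : Matrix (Fin n) (Fin n) K) =
          (qAdjoint q Z - (a ^ q) • 1) * Z + (a ^ q) • (Z - a • 1) := by
        rw [sub_mul, hadj, Matrix.smul_mul, one_mul, smul_sub, smul_smul, sub_smul, one_smul]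
        abel
      rw [e]
      have hz1 : Commute (qAdjoint q Z - (a ^ q) • 1) Z := hcom.sub_left ((Commute.one_left Z).smul_left _)
      have hz2 : Commute (qAdjoint q Z - (a ^ q) • 1) (Z - a • 1) := hz1.sub_right ((Commute.one_right _).smul_right _)
      refine Commute.isNilpotent_add ?_ (hz1.isNilpotent_mul_right hnA) (hnB.smul _)
      exact ((hz2.mul_left ((Commute.refl Z).sub_right ((Commute.one_right Z).smul_right a))).smul_right _)
    have : (1 : K) - a ^ q * a = 0 := by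
      obtain ⟨m, hm⟩ := hnil
      rw [smul_pow, one_pow] at hm
      have := congrFun (congrFun hm ⟨0, hn0⟩) ⟨0, hn0⟩
      rw [Matrix.smul_apply, Matrix.one_apply_eq, smul_eq_mul, mul_one, Matrix.zero_apply] at this
      exact eq_zero_of_pow_eq_zero this
    refine ⟨Units.mk0 a ha0, Units.ext ?_, Units.ext ?_⟩
    · rw [Units.val_pow_eq_pow_val, Units.val_mk0, Units.val_one, pow_succ]
      exact (sub_eq_zero.mp this).symm
    · rw [Units.val_pow_eq_pow_val, Units.val_mk0]
      exact hdetZ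
  have hscal : ∀ c : Kˣ, c ^ (q + 1) = 1 → ∃ z : Cfsg.GU n K q, Commute z g₀ ∧ guDet n K q z = c ^ n := by
    intro c hc
    have hv : ((Matrix.GeneralLinearGroup.scalar (Fin n) c : GL (Fin n) K) : Matrix (Fin n) (Fin n) K) = (c : K) • 1 := by
      show Matrix.scalar (Fin n) (c : K) = _
      rw [Matrix.scalar_apply, Matrix.smul_one_eq_diagonal]
    refine ⟨⟨Matrix.GeneralLinearGroup.scalar (Fin n) c, fun u v => ?_⟩, Subtype.ext (Units.ext ?_), Units.ext ?_⟩
    · simp only [Units.coeHom_apply, hv, Matrix.smul_mulVec, Matrix.one_mulVec]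
      rw [cj.smul_left, cj.smul_right, ← mul_assoc, cj.mul_conj, ← Units.val_pow_eq_pow_val, hc, Units.val_one, one_mul]
    · rw [Subgroup.coe_mul, Subgroup.coe_mul, Units.val_mul, Units.val_mul, hv, Matrix.smul_mul, Matrix.mul_smul, one_mul, mul_one]
    · show ((Matrix.GeneralLinearGroup.scalar (Fin n) c : GL (Fin n) K) : Matrix (Fin n) (Fin n) K).det = _
      rw [hv, Matrix.det_smul, Matrix.det_one, mul_one, Fintype.card_fin, Units.val_pow_eq_pow_val]
  -- norm one determinants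
  set D := (guDet n K q).range with hD
  have hDle : ∀ d ∈ D, d ^ (q + 1) = 1 := by
    rintro _ ⟨g, rfl⟩
    refine Units.ext ?_
    rw [Units.val_pow_eq_pow_val, Units.val_one, ← cj.mul_conj]
    exact det_gu_norm cj g
  have hDcard : Nat.card D = q + 1 := by
    have h := (guDet n K q).ker.card_mul_index
    rw [Subgroup.index_ker, ← range_suToGU, ← Nat.card_congr (MonoidHom.ofInjective suToGU_injective).toEquiv,
      card_gu_eq_mul_su hKn (by omega), mul_comm (q + 1)] at h
    exact Nat.eq_of_mul_eq_mul_left Nat.card_pos h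
  have hDmem : ∀ c : Kˣ, c ^ (q + 1) = 1 → c ∈ D := by
    intro c hc
    let i : D → {x : Kˣ // x ^ (q + 1) = 1} := fun d => ⟨d, hDle d d.2⟩
    have hi : Function.Bijective i := (Nat.bijective_iff_injective_and_card i).mpr
      ⟨fun a b hab => Subtype.ext (congrArg (fun t : {x : Kˣ // x ^ (q + 1) = 1} => (t : Kˣ)) hab),
        hDcard.trans (card_norm_one hKn).symm⟩
    obtain ⟨d, hd⟩ := hi.2 ⟨c, hc⟩
    have e : ((d : Kˣ)) = c := congrArg (fun t : {x : Kˣ // x ^ (q + 1) = 1} => (t : Kˣ)) hd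
    exact e ▸ d.2
  -- fusion
  have hfus : ∀ g g' : Cfsg.GU n K q, IsConj (el g) (el g') ↔
      ((guDet n K q).rangeRestrict g)⁻¹ * (guDet n K q).rangeRestrict g' ∈ (powMonoidHom n : D →* D).range := by
    intro g g'
    have hel : ∀ g, suToGU (el g) = g * g₀ * g⁻¹ := fun g => suToGU_suOfGU _ _
    constructor
    · intro h
      obtain ⟨s, hs⟩ := isConj_iff.mp h
      have hs' := congrArg suToGU hs
      rw [map_mul, map_mul, map_inv, hel, hel] at hs'
      set t := suToGU s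
      have hz : Commute (g⁻¹ * t⁻¹ * g') g₀ := by
        show _ * g₀ = g₀ * _
        have e : g₀ = g⁻¹ * t⁻¹ * (g' * g₀ * g'⁻¹) * t * g := by rw [← hs']; group
        calc g⁻¹ * t⁻¹ * g' * g₀ = (g⁻¹ * t⁻¹ * (g' * g₀ * g'⁻¹) * t * g) * (g⁻¹ * t⁻¹ * g') := by group
          _ = _ := by rw [← e]
      obtain ⟨c, hc1, hc2⟩ := hcent _ hz
      refine ⟨⟨c, hDmem c hc1⟩, Subtype.ext ?_⟩
      show c ^ n = (guDet n K q g)⁻¹ * guDet n K q g'
      rw [← hc2, map_mul, map_mul, map_inv, map_inv, guDet_suToGU, inv_one, mul_one]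
    · rintro ⟨d, hd⟩
      have hd' : (d : Kˣ) ^ n = (guDet n K q g)⁻¹ * guDet n K q g' := congrArg (fun t : D => (t : Kˣ)) hd
      obtain ⟨z, hz1, hz2⟩ := hscal d (hDle d d.2)
      have ht : guDet n K q (g' * z⁻¹ * g⁻¹) = 1 := by
        rw [map_mul, map_mul, map_inv, map_inv, hz2, hd', _root_.mul_inv_rev, inv_inv, ← mul_assoc, mul_inv_cancel,
          one_mul, mul_inv_cancel]
      refine isConj_iff.mpr ⟨suOfGU _ ht, suToGU_injective ?_⟩
      rw [map_mul, map_mul, map_inv, hel, hel, suToGU_suOfGU]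
      calc g' * z⁻¹ * g⁻¹ * (g * g₀ * g⁻¹) * (g' * z⁻¹ * g⁻¹)⁻¹
          = g' * (z⁻¹ * g₀ * z) * g'⁻¹ := by group
        _ = _ := by rw [mul_assoc z⁻¹, ← hz1.eq, inv_mul_cancel_left]
  set H := (powMonoidHom n : D →* D).range with hH
  let ψ : Cfsg.GU n K q →* D ⧸ H := (QuotientGroup.mk' H).comp (guDet n K q).rangeRestrict
  have hψ : Function.Surjective ψ :=
    (QuotientGroup.mk'_surjective H).comp (guDet n K q).rangeRestrict_surjective
  have hψiff : ∀ g g', IsConj (el g) (el g') ↔ ψ g = ψ g' := fun g g' => by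
    rw [hfus]; exact QuotientGroup.eq.symm
  let f : D ⧸ H → {C : ConjClasses ↥(Cfsg.SU n K q) // ∃ u : ↥(Cfsg.SU n K q), ConjClasses.mk u = C ∧
      (((u : GL (Fin n) K) : Matrix (Fin n) (Fin n) K) - 1) ^ n = 0 ∧
      (((u : GL (Fin n) K) : Matrix (Fin n) (Fin n) K) - 1).rank = n - 1} :=
    fun x => ⟨ConjClasses.mk (el (Function.surjInv hψ x)), el (Function.surjInv hψ x), rfl,
      by rw [hval]; exact hreg _ M₀ hMn hMr⟩
  have hf : Function.Bijective f := by
    refine ⟨fun x y hxy => ?_, ?_⟩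
    · have h := congrArg Subtype.val hxy
      change ConjClasses.mk (el _) = ConjClasses.mk (el _) at h
      rw [ConjClasses.mk_eq_mk_iff_isConj, hψiff, Function.surjInv_eq hψ, Function.surjInv_eq hψ] at h
      exact h
    · rintro ⟨C, u, rfl, hu1, hu2⟩
      obtain ⟨a, ha⟩ := exists_conj_shift hu1 hu2
      obtain ⟨b, hb⟩ := exists_conj_shift hMn hMr
      have hconj : IsConj (g₀ : GL (Fin n) K) ((suToGU u : Cfsg.GU n K q) : GL (Fin n) K) := by
        refine isConj_iff.mpr ⟨a * b⁻¹, mul_inv_eq_iff_eq_mul.mpr (Units.ext ?_)⟩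
        rw [Units.val_mul, Units.val_mul, Units.val_mul]
        show _ = ((u : GL (Fin n) K) : Matrix (Fin n) (Fin n) K) * _
        set U : Matrix (Fin n) (Fin n) K := ((u : GL (Fin n) K) : Matrix (Fin n) (Fin n) K) with hU
        have hb' : ((b⁻¹ : GL (Fin n) K) : Matrix (Fin n) (Fin n) K) * M₀ =
            shiftMatrix n K * ((b⁻¹ : GL (Fin n) K) : Matrix (Fin n) (Fin n) K) := by
          rw [← Units.mul_left_inj b, mul_assoc, hb, Units.inv_mul_cancel_left, mul_assoc, Units.inv_mul, mul_one]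
        have key : (a : Matrix (Fin n) (Fin n) K) * ((b⁻¹ : GL (Fin n) K) : Matrix (Fin n) (Fin n) K) * M₀ =
            (U - 1) * ((a : Matrix (Fin n) (Fin n) K) * ((b⁻¹ : GL (Fin n) K) : Matrix (Fin n) (Fin n) K)) := by
          rw [mul_assoc, hb', ← mul_assoc, ← ha, mul_assoc]
        rw [hM₀, mul_sub, sub_mul, mul_one, one_mul, sub_left_inj] at key
        simpa [Units.val_mul] using key
      obtain ⟨g, hg⟩ := isConj_iff.mp ((isConj_gu_iff hK g₀ (suToGU u)).mpr hconj)
      refine ⟨ψ g, Subtype.ext ?_⟩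
      show ConjClasses.mk (el _) = ConjClasses.mk u
      have hue : el g = u := suToGU_injective ((suToGU_suOfGU _ _).trans hg)
      rw [← hue, ConjClasses.mk_eq_mk_iff_isConj, hψiff, Function.surjInv_eq hψ]
  rw [← Nat.card_congr (Equiv.ofBijective f hf), ← Subgroup.index_eq_card]
  have e1 := (powMonoidHom n : D →* D).range.card_mul_index
  have e3 := (powMonoidHom n : D →* D).ker.card_mul_index
  rw [Subgroup.index_ker, IsCyclic.card_powMonoidHom_ker, hDcard] at e3
  have hpos : 0 < Nat.card (powMonoidHom n : D →* D).range := Nat.card_pos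
  rw [hDcard] at e1
  rw [Nat.gcd_comm]
  exact Nat.eq_of_mul_eq_mul_left hpos (e1.trans (e3.symm.trans (mul_comm _ _)))

end Cfsg.Agent.S2643
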