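import Cfsg.Statements.S2645
import Cfsg.Agent.S2589
import Cfsg.Agent.Lib.Classes.SympSemisimple
-- import your own Cfsg.Agent.* helpers here

set_option autoImplicit false
open Cfsg

namespace Cfsg.Agent.S2645

open Polynomial Matrix UniqueFactorizationMonoid CfsgLib.SemisimpleClasses CfsgLib.Classes.SympSemi

/-- Number of conjugacy classes of elements of odd prime order r, r different from the characteristic, in the symplectic group Sp_2m(q): let i be the multiplicative order of q modulo r and t = (r − 1)/i. If i is odd the eigenvalue orbits pair off (Λ ≠ Λ⁻¹) and the classes correspond to the non-zero (t/2)-tuples (a_j) with 2i Σ a_j ≤ 2m, giving C(⌊m/i⌋ + t/2, t/2) − 1 classes; if i is even (Λ = Λ⁻¹) they correspond to the non-zero t-tuples with i Σ a_j ≤ 2m, giving C(⌊2m/i⌋ + t, t) − 1 classes. -/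
theorem result {F : Type*} [Field F] [Fintype F] {p q : ℕ} [Fact p.Prime] [CharP F p] (hF : Fintype.card F = q) (m r i t : ℕ) (hr : r.Prime) (hr2 : r ≠ 2) (hrp : r ≠ p) (hi : i = orderOf (q : ZMod r)) (ht : t * i = r - 1) : Nat.card {C : ConjClasses ↥(Matrix.symplecticGroup (Fin m) F) // ∃ g : Matrix.symplecticGroup (Fin m) F, ConjClasses.mk g = C ∧ orderOf g = r} = if Odd i then Nat.choose (m / i + t / 2) (t / 2) - 1 else Nat.choose (2 * m / i + t) t - 1 := by
  classical
  have hp : p.Prime := Fact.out
  haveI : Fact r.Prime := ⟨hr⟩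
  have hqr : (q : ZMod r) ≠ 0 := by
    obtain ⟨⟨f, hf0⟩, -, hf⟩ := FiniteField.card F p
    rw [← hF, hf]
    simp only [PNat.mk_coe, Nat.cast_pow]
    refine pow_ne_zero _ ?_
    rw [Ne, CharP.cast_eq_zero_iff (ZMod r) r, Nat.prime_dvd_prime_iff_eq hr hp]
    exact hrp
  have hrF : (r : F) ≠ 0 := fun h => hrp ((Nat.prime_dvd_prime_iff_eq hp hr).mp ((CharP.cast_eq_zero_iff F p r).mp h)).symm
  have hi0 : 0 < i := by
    rcases Nat.eq_zero_or_pos i with h | h
    · rw [h, mul_zero] at ht
      have := hr.two_le
      omega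
    · exact h
  -- the degree of the irreducible factors of the cyclotomic polynomial
  have hdeg : ∀ f : F[X], Irreducible f → f ∣ cyclotomic r F → f.natDegree = i := by
    intro f hf hfd
    obtain ⟨⟨e, he0⟩, -, he⟩ := FiniteField.card F p
    have hcop : p.Coprime r := (Nat.coprime_primes hp hr).mpr hrp.symm
    rw [Polynomial.natDegree_of_dvd_cyclotomic_of_irreducible (K := F) (p := p) (f := e) (n := r)
      (by rw [he]; rfl) hcop hfd hf, hi, ← orderOf_units, ZMod.coe_unitOfCoprime, ← hF, he]
    rfl
  have hcyc0 : cyclotomic r F ≠ 0 := cyclotomic_ne_zero r F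
  have hsplit : (X - 1 : F[X]) * cyclotomic r F = X ^ r - 1 := by
    rw [mul_comm]; exact cyclotomic_prime_mul_X_sub_one F r
  have hX1 : Irreducible (X - C (1 : F)) := irreducible_X_sub_C 1
  have hX1m : (X - C (1 : F)).Monic := monic_X_sub_C 1
  set S := (normalizedFactors (cyclotomic r F)).toFinset with hS
  have hmemS : ∀ f : F[X], f ∈ S ↔ f ∈ normalizedFactors (cyclotomic r F) := fun f => Multiset.mem_toFinset
  have hSirr : ∀ f ∈ S, Irreducible f := fun f hf => irreducible_of_normalized_factor f ((hmemS f).mp hf)
  have hSm : ∀ f ∈ S, f.Monic := fun f hf => by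
    have h := normalize_normalized_factor f ((hmemS f).mp hf)
    rw [← h]
    exact monic_normalize (hSirr f hf).ne_zero
  have hSd : ∀ f ∈ S, f ∣ cyclotomic r F := fun f hf => dvd_of_mem_normalizedFactors ((hmemS f).mp hf)
  have hSne : X - C (1 : F) ∉ S := fun h => by
    have h1 := dvd_iff_isRoot.mp (hSd _ h)
    rw [IsRoot.def, eval_one_cyclotomic_prime] at h1
    exact hrF h1
  have hScard : S.card = t := by
    have hsq : Squarefree (cyclotomic r F) := by
      haveI : NeZero (r : F) := ⟨hrF⟩
      exact Squarefree.squarefree_of_dvd (cyclotomic.dvd_X_pow_sub_one r F)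
        (separable_X_pow_sub_C (1 : F) hrF one_ne_zero).squarefree
    have hnd := (squarefree_iff_nodup_normalizedFactors hcyc0).mp hsq
    have h1 : (normalizedFactors (cyclotomic r F)).prod.natDegree = r - 1 := by
      rw [natDegree_eq_of_degree_eq (degree_eq_degree_of_associated (prod_normalizedFactors hcyc0)),
        natDegree_cyclotomic, Nat.totient_prime hr]
    rw [natDegree_multiset_prod _ (zero_notMem_normalizedFactors _), Multiset.map_congr rfl
      (fun f hf => hdeg f (irreducible_of_normalized_factor f hf) (dvd_of_mem_normalizedFactors hf)),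
      Multiset.map_const', Multiset.sum_replicate, smul_eq_mul, ← ht] at h1
    rw [hS, Multiset.toFinset_card_of_nodup hnd]
    exact Nat.eq_of_mul_eq_mul_right hi0 h1
  have hfac : ∀ f : F[X], f.Monic → Irreducible f → f ∣ (X : F[X]) ^ r - 1 → f = X - C (1 : F) ∨ f ∈ S := by
    intro f hfm hfi hd
    rw [← hsplit] at hd
    rcases hfi.prime.dvd_or_dvd hd with h | h
    · refine Or.inl ?_
      exact eq_of_monic_of_associated hfm hX1m (by rw [map_one]; exact hfi.associated_of_dvd (by simpa using hX1) h)
    · refine Or.inr ((hmemS f).mpr ?_)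
      obtain ⟨g, hg, hfg⟩ := exists_mem_normalizedFactors_of_dvd hcyc0 hfi h
      rwa [← hfm.normalize_eq_self, normalize_eq_normalize_iff_associated.mpr hfg, normalize_normalized_factor g hg]
  have hSr : ∀ f ∈ S, f ∣ (X : F[X]) ^ r - 1 := fun f hf => hsplit ▸ (hSd f hf).mul_left _
  have hSneX : ∀ f ∈ S, f ≠ X - C (1 : F) := fun f hf e => hSne (e ▸ hf)
  have hS0 : ∀ f ∈ S, f.coeff 0 ≠ 0 := fun f hf h => by
    have h1 := (X_dvd_iff.mpr h).trans (hSr f hf)
    rw [X_dvd_iff, coeff_sub, coeff_X_pow, if_neg hr.ne_zero.symm, coeff_one_zero, zero_sub, neg_eq_zero] at h1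
    exact one_ne_zero h1
  have hrS : ∀ f ∈ S, rev f ∈ S := fun f hf => by
    refine (hfac _ (rev_monic (hS0 f hf)) (rev_irreducible (hSm f hf) (hS0 f hf) (hSirr f hf))
      (rev_dvd hr.pos (hSr f hf))).resolve_left fun h => hSneX f hf ?_
    rw [← rev_rev (hSm f hf) (hS0 f hf), h, rev_X_sub_one]
  have hrr : ∀ f ∈ S, rev (rev f) = f := fun f hf => rev_rev (hSm f hf) (hS0 f hf)
  have hself : ∀ f ∈ S, (rev f = f ↔ Even i) := fun f hf =>
    rev_eq_self_iff hF hr hr2 hrF hi hi0 (hSm f hf) (hSirr f hf) (hSd f hf) (hdeg f (hSirr f hf) (hSd f hf))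
  -- representatives of the pairs
  set U := S.filter (fun f => f = rev f ∨ WellOrderingRel f (rev f)) with hUdef
  have hU : ∀ f ∈ U, f ∈ S := fun f hf => (Finset.mem_filter.mp hf).1
  have hUor : ∀ f ∈ S, rev f ≠ f → (rev f ∈ U ↔ f ∉ U) := by
    intro f hf hne
    simp only [hUdef, Finset.mem_filter, hrS f hf, hf, true_and, hrr f hf, Ne.symm hne, hne, false_or]
    have hW : IsWellOrder F[X] WellOrderingRel := inferInstance
    refine ⟨fun h1 h2 => asymm_of WellOrderingRel h1 h2, fun h => ?_⟩
    rcases trichotomous_of WellOrderingRel f (rev f) with h1 | h1 | h1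
    · exact absurd h1 h
    · exact absurd h1.symm hne
    · exact h1
  have hUev : Even i → U = S := fun he => by
    rw [hUdef, Finset.filter_eq_self]
    exact fun f hf => Or.inl ((hself f hf).mpr he).symm
  have hUodd : Odd i → 2 * U.card = t := fun ho => by
    have hne : ∀ f ∈ S, rev f ≠ f := fun f hf h => Nat.not_even_iff_odd.mpr ho ((hself f hf).mp h)
    have himg : U.image rev = S \ U := by
      ext f
      rw [Finset.mem_image, Finset.mem_sdiff]
      constructor
      · rintro ⟨g, hg, rfl⟩
        exact ⟨hrS g (hU g hg), fun h => (hUor g (hU g hg) (hne g (hU g hg))).mp h hg⟩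
      · rintro ⟨hf, hfn⟩
        exact ⟨rev f, (hUor f hf (hne f hf)).mpr hfn, hrr f hf⟩
    have h1 := congrArg Finset.card himg
    rw [Finset.card_image_of_injOn (fun a ha b hb h => by rw [← hrr a (hU a ha), h, hrr b (hU b hb)]),
      Finset.card_sdiff_of_subset (Finset.filter_subset _ _), ← hUdef, hScard] at h1
    have h2 : U.card ≤ t := hScard ▸ Finset.card_filter_le _ _
    omega
  set e := if Even i then i else 2 * i with he
  have he0 : 0 < e := by rw [he]; split_ifs <;> omega
  have heev : Even e := by
    rw [he]; split_ifs with h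
    · exact h
    · exact even_two_mul i
  set n := 2 * m with hn
  set N := n / e with hN
  have hNe : e * N ≤ n := Nat.mul_div_le n e
  -- the polynomials
  let dbl : Multiset F[X] → Multiset F[X] := fun M => M + (M.filter (fun f => rev f ≠ f)).map rev
  have hdblsum : ∀ M : Multiset F[X], (∀ f ∈ M, f ∈ U) → ((dbl M).map natDegree).sum = e * Multiset.card M := by
    intro M hM
    have hd' : ∀ f ∈ dbl M, f.natDegree = i := by
      intro f hf
      rcases Multiset.mem_add.mp hf with h | h
      · exact hdeg f (hSirr f (hU f (hM f h))) (hSd f (hU f (hM f h)))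
      · obtain ⟨g, hg, rfl⟩ := Multiset.mem_map.mp h
        rw [natDegree_rev (hS0 g (hU g (hM g (Multiset.mem_filter.mp hg).1)))]
        exact hdeg g (hSirr g (hU g (hM g (Multiset.mem_filter.mp hg).1))) (hSd g (hU g (hM g (Multiset.mem_filter.mp hg).1)))
    rw [Multiset.map_congr rfl hd', Multiset.map_const', Multiset.sum_replicate, smul_eq_mul, Multiset.card_add, Multiset.card_map, he]
    split_ifs with h
    · rw [Multiset.filter_eq_nil.mpr (fun f hf hne => hne ((hself f (hU f (hM f hf))).mpr h)), Multiset.card_zero, add_zero,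
        mul_comm]
    · rw [(Multiset.filter_eq_self (p := fun f => rev f ≠ f)).mpr (fun f hf h' => h ((hself f (hU f (hM f hf))).mp h'))]
      ring
  have hdblU : ∀ M : Multiset F[X], (∀ f ∈ M, f ∈ U) → (dbl M).filter (fun f => f ∈ U) = M := by
    intro M hM
    rw [Multiset.filter_add, Multiset.filter_eq_self.mpr hM, Multiset.filter_eq_nil.mpr, add_zero]
    intro f hf
    obtain ⟨g, hg, rfl⟩ := Multiset.mem_map.mp hf
    obtain ⟨hgM, hgne⟩ := Multiset.mem_filter.mp hg
    exact fun h => (hUor g (hU g (hM g hgM)) hgne).mp h (hM g hgM)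
  have hdblS : ∀ M : Multiset F[X], (∀ f ∈ M, f ∈ U) → ∀ f ∈ dbl M, f ∈ S := by
    intro M hM f hf
    rcases Multiset.mem_add.mp hf with h | h
    · exact hU f (hM f h)
    · obtain ⟨g, hg, rfl⟩ := Multiset.mem_map.mp h
      exact hrS g (hU g (hM g (Multiset.mem_filter.mp hg).1))
  let somes : Sym (Option U) N → Multiset F[X] := fun s =>
    Multiset.map (Subtype.val : U → F[X]) (Multiset.filterMap (fun o : Option U => o) (s : Multiset (Option U)))
  let facs : Sym (Option U) N → Multiset F[X] := fun s =>
    Multiset.replicate (n - e * Multiset.card (somes s)) (X - C (1 : F)) + dbl (somes s)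
  have hsomes : ∀ s, ∀ f ∈ somes s, f ∈ U := fun s f hf => by
    obtain ⟨g, -, rfl⟩ := Multiset.mem_map.mp hf
    exact g.2
  have hcardle : ∀ s, Multiset.card (somes s) ≤ N := fun s => by
    have h : ∀ M : Multiset (Option U), Multiset.card (M.filterMap (fun o : Option U => o)) ≤ Multiset.card M := by
      intro M
      induction M using Multiset.induction_on with
      | empty => simp
      | cons a M ih =>
        cases a with
        | none => rw [Multiset.filterMap_cons_none _ _ rfl, Multiset.card_cons]; omega
        | some a => simp only [Multiset.filterMap_cons, Multiset.card_cons]; simp; omega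
    show Multiset.card (Multiset.map _ _) ≤ N
    rw [Multiset.card_map]
    exact (h _).trans s.2.le
  have hfirr : ∀ s, ∀ f ∈ facs s, Irreducible f ∧ f.Monic := by
    intro s f hf
    rcases Multiset.mem_add.mp hf with h | h
    · rw [Multiset.eq_of_mem_replicate h]; exact ⟨hX1, hX1m⟩
    · exact ⟨hSirr f (hdblS _ (hsomes s) f h), hSm f (hdblS _ (hsomes s) f h)⟩
  let χ : Sym (Option U) N → F[X] := fun s => (facs s).prod
  have hχn : ∀ s, (χ s).natDegree = n := by
    intro s
    show (facs s).prod.natDegree = n
    rw [natDegree_multiset_prod_of_monic _ fun f hf => (hfirr s f hf).2, Multiset.map_add, Multiset.map_replicate,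
      natDegree_X_sub_C, Multiset.sum_add, Multiset.sum_replicate, smul_eq_mul, mul_one, hdblsum _ (hsomes s)]
    have := Nat.mul_le_mul_left e (hcardle s)
    omega
  have hnf : ∀ s, normalizedFactors (χ s) = facs s := fun s => by
    rw [show χ s = (facs s).prod from rfl, normalizedFactors_prod_eq _ fun f hf => (hfirr s f hf).1]
    exact (Multiset.map_congr rfl fun f hf => (hfirr s f hf).2.normalize_eq_self).trans (Multiset.map_id' _)
  have hχinj : Function.Injective χ := by
    intro s s' h
    have h1 : facs s = facs s' := by rw [← hnf, ← hnf, h]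
    have key : ∀ u, (facs u).filter (fun f => f ∈ U) = somes u := fun u => by
      rw [Multiset.filter_add, hdblU _ (hsomes u), Multiset.filter_eq_nil.mpr
        (fun f hf => by rw [Multiset.eq_of_mem_replicate hf]; exact fun h => hSne (hU _ h)), zero_add]
    have h2 : somes s = somes s' := by rw [← key, ← key, h1]
    have h3 : (s : Multiset (Option U)).filterMap (fun o : Option U => o) = (s' : Multiset (Option U)).filterMap (fun o : Option U => o) :=
      Multiset.map_injective Subtype.val_injective h2
    refine Sym.coe_injective (Multiset.ext.mpr fun o => ?_)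
    have hsome : ∀ (M : Multiset (Option U)) (a : U), M.count (some a) = (M.filterMap (fun o : Option U => o)).count a := by
      intro M a
      induction M using Multiset.induction_on with
      | empty => simp
      | cons b M ih =>
        cases b with
        | none => rw [Multiset.filterMap_cons_none _ _ rfl, Multiset.count_cons_of_ne (by simp), ih]
        | some b => simp [Multiset.filterMap_cons, Multiset.count_cons, ih]
    cases o with
    | some a => rw [hsome, hsome, h3]
    | none =>
      have hcount : ∀ M : Multiset (Option U), M.count none + Multiset.card (M.filterMap (fun o : Option U => o)) = Multiset.card M := by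
        intro M
        induction M using Multiset.induction_on with
        | empty => simp
        | cons b M ih =>
          cases b with
          | none => rw [Multiset.filterMap_cons_none _ _ rfl, Multiset.count_cons_self, Multiset.card_cons]; omega
          | some b => simp [Multiset.filterMap_cons, Multiset.count_cons] at *; omega
      have e1 := hcount s
      have e2 := hcount s'
      have e3 : Multiset.card (s : Multiset (Option U)) = N := s.2
      have e4 : Multiset.card (s' : Multiset (Option U)) = N := s'.2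
      rw [h3, e3] at e1
      rw [e4] at e2
      omega
  -- the polynomials of symplectic elements
  have hχsurj : ∀ g : Matrix.symplecticGroup (Fin m) F, g ^ r = 1 →
      ∃ s, χ s = (g : Matrix (Fin m ⊕ Fin m) (Fin m ⊕ Fin m) F).charpoly := by
    intro g hg
    set G := (g : Matrix (Fin m ⊕ Fin m) (Fin m ⊕ Fin m) F) with hGdef
    have hGr : G ^ r = 1 := by rw [hGdef, ← SubmonoidClass.coe_pow, hg, OneMemClass.coe_one]
    set c := G.charpoly with hcdef
    have hcm : c.Monic := Matrix.charpoly_monic G
    have hcn : c.natDegree = n := by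
      rw [Matrix.charpoly_natDegree_eq_dim, Fintype.card_sum, Fintype.card_fin, hn]; omega
    have hrevc : rev c = c := rev_charpoly_of_form (Matrix.isUnit_det_J _ _) (SymplecticGroup.mem_iff'.mp g.2)
    set M := normalizedFactors c with hM
    have hMprod : M.prod = c := by rw [hM, prod_normalizedFactors_eq hcm.ne_zero, hcm.normalize_eq_self]
    have hMmon : ∀ f ∈ M, f.Monic := fun f hf => by
      rw [← normalize_normalized_factor f hf]
      exact monic_normalize (irreducible_of_normalized_factor f hf).ne_zero
    have hMmem : ∀ f ∈ M, f = X - C (1 : F) ∨ f ∈ S := fun f hf =>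
      hfac f (hMmon f hf) (irreducible_of_normalized_factor f hf)
        (dvd_of_pow_eq_one hGr (irreducible_of_normalized_factor f hf) (dvd_of_mem_normalizedFactors hf))
    have hgood : ∀ f ∈ M, Irreducible (rev f) ∧ (rev f).Monic := by
      intro f hf
      rcases hMmem f hf with h | h
      · rw [h, rev_X_sub_one]; exact ⟨hX1, hX1m⟩
      · exact ⟨hSirr _ (hrS f h), hSm _ (hrS f h)⟩
    have hMrev : M.map rev = M := by
      have hprod : (M.map rev).prod = c := by rw [← rev_prod, hMprod, hrevc]
      have hfs : ∀ f ∈ M.map rev, Irreducible f ∧ f.Monic := fun f hf => by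
        obtain ⟨g, hg', rfl⟩ := Multiset.mem_map.mp hf
        exact hgood g hg'
      have h1 : normalizedFactors (M.map rev).prod = M.map rev :=
        (normalizedFactors_prod_eq _ fun f hf => (hfs f hf).1).trans
          ((Multiset.map_congr rfl fun f hf => (hfs f hf).2.normalize_eq_self).trans (Multiset.map_id' _))
      rw [hprod] at h1
      exact h1.symm.trans hM.symm
    set T0 := M.filter (fun f => f ∈ U) with hT0
    have hsplitM : M = Multiset.replicate (M.count (X - C (1 : F))) (X - C (1 : F)) + dbl T0 := by
      conv_lhs => rw [← Multiset.filter_add_not (fun f => f = X - C (1 : F)) M]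
      rw [Multiset.filter_eq']
      congr 1
      have e1 : M.filter (fun f => ¬ f = X - C (1 : F)) = M.filter (fun f => f ∈ U) + M.filter (fun f => f ∈ S ∧ f ∉ U) := by
        rw [Multiset.filter_add_filter]
        rw [(Multiset.filter_eq_nil (s := M) (p := fun a => a ∈ U ∧ a ∈ S ∧ a ∉ U)).mpr (fun f _ h => h.2.2 h.1), add_zero]
        refine Multiset.filter_congr fun f hf => ⟨fun h => ?_, fun h e' => ?_⟩
        · have hfS := (hMmem f hf).resolve_left h
          by_cases hfU : f ∈ U
          · exact Or.inl hfU
          · exact Or.inr ⟨hfS, hfU⟩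
        · rcases h with h | h
          · exact hSne (e' ▸ hU f h)
          · exact hSne (e' ▸ h.1)
      rw [e1]
      congr 1
      rw [hT0, Multiset.filter_filter]
      conv_lhs => rw [← hMrev, Multiset.filter_map]
      congr 1
      refine Multiset.filter_congr fun f hf => ?_
      rcases hMmem f hf with h | h
      · simp only [Function.comp_apply, h, rev_X_sub_one, hSne, false_and, ne_eq, not_true_eq_false]
      · simp only [Function.comp_apply, hrS f h, true_and]
        by_cases hne : rev f = f
        · have hfU : f ∈ U := Finset.mem_filter.mpr ⟨h, Or.inl hne.symm⟩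
          simp [hne, hfU]
        · rw [hUor f h hne, not_not]
          exact ⟨fun h' => ⟨hne, h'⟩, fun h' => h'.2⟩
    have hT0U : ∀ f ∈ T0, f ∈ U := fun f hf => (Multiset.mem_filter.mp hf).2
    have hdegc : M.count (X - C (1 : F)) + e * Multiset.card T0 = n := by
      have h := congrArg Polynomial.natDegree hMprod
      rw [hsplitM, natDegree_multiset_prod_of_monic, Multiset.map_add, Multiset.map_replicate, natDegree_X_sub_C,
        Multiset.sum_add, Multiset.sum_replicate, smul_eq_mul, mul_one, hdblsum _ hT0U, hcn] at h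
      · exact h
      · intro f hf
        rw [← hsplitM] at hf
        exact hMmon f hf
    let T : Multiset U := T0.pmap (fun f hf => (⟨f, hf⟩ : U)) hT0U
    have hT : Multiset.map (Subtype.val : U → F[X]) T = T0 := by
      rw [Multiset.map_pmap]
      exact (Multiset.pmap_eq_map _ _ _ _).trans (Multiset.map_id' _)
    have hTc : Multiset.card T = Multiset.card T0 := by rw [← hT, Multiset.card_map]
    have hTN : Multiset.card T ≤ N := by
      rw [hN, Nat.le_div_iff_mul_le he0, mul_comm, hTc]
      omega
    refine ⟨⟨T.map some + Multiset.replicate (N - Multiset.card T) none, by simp; omega⟩, ?_⟩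
    have hs : somes ⟨T.map some + Multiset.replicate (N - Multiset.card T) none, by simp; omega⟩ = T0 := by
      show Multiset.map _ (Multiset.filterMap (fun o : Option U => o) (T.map some + Multiset.replicate (N - Multiset.card T) none)) = _
      have h0 : ∀ k : ℕ, Multiset.filterMap (fun o : Option U => o) (Multiset.replicate k none) = 0 := by
        intro k; induction k with
        | zero => simp
        | succ k ih => simp [Multiset.replicate_succ, Multiset.filterMap_cons, ih]
      rw [Multiset.filterMap_add, h0, add_zero, Multiset.filterMap_map]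
      rw [show ((fun o : Option U => o) ∘ some) = some from rfl, Multiset.filterMap_some]
      exact hT
    refine Eq.trans ?_ hMprod
    show (Multiset.replicate (n - e * Multiset.card (somes _)) _ + dbl (somes _)).prod = _
    rw [hs, show n - e * Multiset.card T0 = M.count (X - C (1 : F)) by omega, ← hsplitM]
  -- elements
  have hex : ∀ s, ∃ g : Matrix.symplecticGroup (Fin m) F, g ^ r = 1 ∧
      (g : Matrix (Fin m ⊕ Fin m) (Fin m ⊕ Fin m) F).charpoly = χ s := by
    intro s
    refine SpGood.exists_sp ?_ hr.ne_zero (hχn s)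
    set A := somes s with hA
    have hk : Even (n - e * Multiset.card A) := by
      have := Nat.mul_le_mul_left e (hcardle s)
      rw [← hA] at this
      rw [Nat.even_sub (by omega)]
      exact iff_of_true (hn ▸ even_two_mul m) (heev.mul_right _)
    obtain ⟨k, hk⟩ := hk
    show SpGood r (Multiset.replicate _ _ + dbl A).prod
    rw [Multiset.prod_add, Multiset.prod_replicate, hk, ← two_mul, pow_mul]
    refine ((spGood_sq_X_sub_one r).pow k).mul ?_
    rcases Nat.even_or_odd i with hev | hodd
    · have h0 : A.filter (fun f => rev f ≠ f) = 0 :=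
        Multiset.filter_eq_nil.mpr fun f hf hne => hne ((hself f (hU f (hsomes s f hf))).mpr hev)
      show SpGood r (A + (A.filter _).map rev).prod
      rw [h0, Multiset.map_zero, add_zero, ← Multiset.map_id A]
      exact SpGood.prod A id fun f hf => spGood_self hr hr2 hrp (hSm f (hU f (hsomes s f hf))) (hSirr f (hU f (hsomes s f hf)))
        (hSr f (hU f (hsomes s f hf))) (hSneX f (hU f (hsomes s f hf))) ((hself f (hU f (hsomes s f hf))).mpr hev)
    · have h0 : A.filter (fun f => rev f ≠ f) = A :=
        Multiset.filter_eq_self.mpr fun f hf h => Nat.not_even_iff_odd.mpr hodd ((hself f (hU f (hsomes s f hf))).mp h)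
      show SpGood r (A + (A.filter _).map rev).prod
      rw [h0, Multiset.prod_add, show A.prod * (A.map rev).prod = (A.map fun f => f * rev f).prod by
        rw [Multiset.prod_map_mul, Multiset.map_id']]
      exact SpGood.prod A _ fun f hf => spGood_pair hr.pos (hSm f (hU f (hsomes s f hf))) (hSirr f (hU f (hsomes s f hf)))
        (hSr f (hU f (hsomes s f hf)))
  choose el hel helc using hex
  have hcop : ∀ g : Matrix.symplecticGroup (Fin m) F, g ^ r = 1 → (orderOf g).Coprime p := fun g hg =>
    coprime_of_pow_eq_one ((Nat.coprime_primes hr hp).mpr hrp) hg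
  have hconj : ∀ g h : Matrix.symplecticGroup (Fin m) F, g ^ r = 1 → h ^ r = 1 →
      ((g : Matrix (Fin m ⊕ Fin m) (Fin m ⊕ Fin m) F).charpoly = (h : Matrix (Fin m ⊕ Fin m) (Fin m ⊕ Fin m) F).charpoly ↔ IsConj g h) := by
    intro g h hg hh
    refine ⟨fun hc => ?_, fun hc => ?_⟩
    · let φ := Matrix.reindexAlgEquiv F F (finSumFinEquiv (m := m) (n := m))
      let G : ∀ x : Matrix.symplecticGroup (Fin m) F, x ^ r = 1 → GL (Fin (m + m)) F := fun x _ =>
        Units.map (φ.toMonoidHom) (CfsgLib.Forms.spToGL m F x)
      have hG : ∀ x hx, ((G x hx : GL (Fin (m + m)) F) : Matrix (Fin (m + m)) (Fin (m + m)) F) = φ x.1 := fun x hx => rfl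
      have hGr : ∀ x hx, (orderOf (G x hx)).Coprime p := fun x hx =>
        coprime_of_pow_eq_one ((Nat.coprime_primes hr hp).mpr hrp) (by
          show (Units.map φ.toMonoidHom (CfsgLib.Forms.spToGL m F x)) ^ r = 1
          rw [← map_pow, ← map_pow, hx, map_one, map_one])
      obtain ⟨c, hc'⟩ := exists_conj_GL p (G g hg) (G h hh) (hGr g hg) (hGr h hh) (by
        rw [hG g hg, hG h hh]
        exact (Matrix.charpoly_reindex _ g.1).trans (hc.trans (Matrix.charpoly_reindex _ h.1).symm))
      refine (Cfsg.Agent.S2589.result g h (hcop g hg)).mpr ⟨Units.map φ.symm.toMonoidHom c, ?_⟩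
      have h2 : φ.symm ((c : Matrix (Fin (m + m)) (Fin (m + m)) F) * φ g.1) = φ.symm (φ h.1 * c) := by
        rw [← hG g hg, ← hG h hh]
        exact congrArg φ.symm (congrArg Units.val (mul_inv_eq_iff_eq_mul.mp hc'))
      rw [map_mul, map_mul, φ.symm_apply_apply, φ.symm_apply_apply] at h2
      exact h2
    · obtain ⟨e', he'⟩ := (Matrix.symplecticGroup (Fin m) F).subtype.map_isConj hc
      have he'' : (e' : Matrix (Fin m ⊕ Fin m) (Fin m ⊕ Fin m) F) * g.1 = h.1 * e' := he'
      rw [show h.1 = (e' : Matrix (Fin m ⊕ Fin m) (Fin m ⊕ Fin m) F) * g.1 *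
          ((e'⁻¹ : (Matrix (Fin m ⊕ Fin m) (Fin m ⊕ Fin m) F)ˣ) : Matrix (Fin m ⊕ Fin m) (Fin m ⊕ Fin m) F) by
        rw [he'', Units.mul_inv_cancel_right], Matrix.coe_units_inv, Matrix.charpoly_units_conj]
  obtain ⟨s₀, hs₀⟩ := hχsurj 1 (one_pow r)
  have hord : ∀ g : Matrix.symplecticGroup (Fin m) F, orderOf g = r ↔ g ^ r = 1 ∧ g ≠ 1 := fun g => orderOf_eq_prime_iff
  have hUc : (if Odd i then Nat.choose (m / i + t / 2) (t / 2) - 1 else Nat.choose (2 * m / i + t) t - 1) =
      Nat.choose (N + U.card) U.card - 1 := by
    rcases Nat.even_or_odd i with hev | hodd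
    · rw [if_neg (Nat.not_odd_iff_even.mpr hev), hN, he, if_pos hev, hn, hUev hev, hScard]
    · have := hUodd hodd
      rw [if_pos hodd, hN, he, if_neg (Nat.not_even_iff_odd.mpr hodd), hn, show t / 2 = U.card by omega,
        Nat.mul_div_mul_left _ _ two_pos]
  have hcount : Nat.card {s : Sym (Option U) N // s ≠ s₀} = Nat.choose (N + U.card) U.card - 1 := by
    rw [Nat.card_eq_fintype_card, Fintype.card_subtype_compl, Fintype.card_subtype_eq, Sym.card_sym_eq_choose,
      Fintype.card_option, Fintype.card_coe, show U.card + 1 + N - 1 = N + U.card by rw [Nat.add_right_comm, Nat.add_sub_cancel, Nat.add_comm], Nat.choose_symm_add]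
  rw [hUc, ← hcount]
  refine (Nat.card_eq_of_bijective (fun s => (⟨ConjClasses.mk (el s.1), el s.1, rfl, (hord _).mpr ⟨hel _, fun h1 => ?_⟩⟩ :
    {C : ConjClasses (Matrix.symplecticGroup (Fin m) F) // ∃ g : Matrix.symplecticGroup (Fin m) F, ConjClasses.mk g = C ∧ orderOf g = r})) ⟨?_, ?_⟩).symm
  · exact s.2 (hχinj (by rw [← helc, h1, hs₀]))
  · intro s s' h
    have h1 := ConjClasses.mk_eq_mk_iff_isConj.mp (congrArg Subtype.val h)
    exact Subtype.ext (hχinj (by rw [← helc, ← helc, (hconj _ _ (hel _) (hel _)).mpr h1]))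
  · rintro ⟨C', g, rfl, hg⟩
    obtain ⟨hg1, hgne⟩ := (hord g).mp hg
    obtain ⟨s, hs⟩ := hχsurj g hg1
    have hc : IsConj (el s) g := (hconj _ _ (hel s) hg1).mp ((helc s).trans hs)
    refine ⟨⟨s, fun e' => ?_⟩, Subtype.ext (ConjClasses.mk_eq_mk_iff_isConj.mpr hc)⟩
    exact hgne (isConj_one_right.mp ((hconj 1 g (one_pow r) hg1).mp (by rw [← hs₀, ← e', hs])))

end Cfsg.Agent.S2645
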