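import Cfsg.Statements.S2646
import Cfsg.Agent.Lib.Classes.GUCentralizer
import Cfsg.Agent.Lib.Classes.OrderThree
import Cfsg.Agent.Lib.ClassicalForms.Unitary.Basic
-- import your own Cfsg.Agent.* helpers here

set_option autoImplicit false
open Cfsg

namespace Cfsg.Agent.S2646

open CfsgLib.Classes CfsgLib.Generators CfsgLib.Classes.JordanComm Matrix

set_option maxHeartbeats 1000000 in
/-- Order of the centraliser in the general unitary group GU_n(q) of a unipotent element of given Jordan type: if u ∈ GU_n(q) (isometries of Σ u_i v_i^q over the field with q² elements) is similar to the unipotent matrix with a_i Jordan blocks of size i (all sizes at least 1), then its centraliser in GU_n(q) has order q^γ · Π_i |GU_(a_i)(q)| with γ = 2 Σ_(i<j) i a_i a_j + Σ_i (i − 1) a_i², the same exponent as in GL_n(q), where |GU_a(q)| = q^(a(a−1)/2) Π_(k=1)^a (q^k − (−1)^k). -/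
theorem result {K : Type*} [Field K] [Fintype K] {q n t : ℕ} (hK : Fintype.card K = q ^ 2) (d : Fin t → ℕ) (hd : ∀ k, 1 ≤ d k) (e : ((k : Fin t) × Fin (d k)) ≃ Fin n) (u : ↥(Cfsg.GU n K q)) (hu : IsConj (Matrix.reindex e e (Cfsg.jordanTypeMatrix d K)) ((u : GL (Fin n) K) : Matrix (Fin n) (Fin n) K)) : (Nat.card ↥(Subgroup.centralizer ({u} : Set ↥(Cfsg.GU n K q))) : ℤ) = (q : ℤ) ^ (2 * (∑ i ∈ Finset.range (Finset.univ.sup d + 1), ∑ j ∈ Finset.range (Finset.univ.sup d + 1), if i < j then i * (Finset.univ.filter (fun k : Fin t => d k = i)).card * (Finset.univ.filter (fun k : Fin t => d k = j)).card else 0) + ∑ i ∈ Finset.range (Finset.univ.sup d + 1), (i - 1) * (Finset.univ.filter (fun k : Fin t => d k = i)).card ^ 2) * ∏ i ∈ Finset.range (Finset.univ.sup d + 1), ((q : ℤ) ^ ((Finset.univ.filter (fun k : Fin t => d k = i)).card * ((Finset.univ.filter (fun k : Fin t => d k = i)).card - 1) / 2) * ∏ j : Fin (Finset.univ.filter (fun k : Fin t => d k = i)).card, ((q : ℤ) ^ ((j :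 ℕ) + 1) - (-1) ^ ((j : ℕ) + 1))) := by
  classical
  have hq1 := one_lt_of_card_eq_sq hK
  obtain ⟨φ, hφ, hφ2⟩ := exists_frobenius_half hK
  obtain ⟨cj⟩ := CfsgLib.ClassicalForms.exists_conj (show Nat.card K = q ^ 2 by rw [Nat.card_eq_fintype_card, hK])
  obtain ⟨a, ha⟩ := cj.exists_trace_one
  replace ha : a + φ a = 1 := by
    have h1 : a * cj.σ a = a ^ (q + 1) := cj.mul_conj a
    rcases eq_or_ne a 0 with rfl | ha0
    · simp at ha
    · have : cj.σ a = φ a := by
        rw [hφ]
        rw [pow_succ, mul_comm (a ^ q) a] at h1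
        exact mul_left_cancel₀ ha0 h1
      rwa [this] at ha
  obtain ⟨θ, hθ⟩ := exists_scalar_ne hK
  let ι := (k : Fin t) × Fin (d k)
  set N : Matrix ι ι K := blockShift d with hN
  -- the invariant form
  obtain ⟨ε, hε⟩ : ∃ ε : ℕ → K, ∀ i, ε i ≠ 0 ∧ φ (ε i) = (-1) ^ (i - 1) * ε i := by
    refine ⟨fun i => if Even (i - 1) then 1 else θ - φ θ, fun i => ?_⟩
    dsimp only
    split_ifs with h
    · rw [h.neg_one_pow, one_mul, map_one]; exact ⟨one_ne_zero, rfl⟩
    · rw [(Nat.not_even_iff_odd.mp h).neg_one_pow, map_sub, hφ2, neg_one_mul, neg_sub]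
      exact ⟨sub_ne_zero.mpr (by rw [hφ]; exact hθ.symm), rfl⟩
  let rv : ι → ι := fun x => ⟨x.1, Fin.rev x.2⟩
  let sg : ι → K := fun x => (-1) ^ (x.2 : ℕ) * ε (d x.1)
  have hrv : ∀ x, rv (rv x) = x := fun x => by simp [rv]
  have hsg0 : ∀ x, sg x ≠ 0 := fun x => mul_ne_zero (pow_ne_zero _ (neg_ne_zero.mpr one_ne_zero)) (hε _).1
  have hsgrev : ∀ x, φ (sg (rv x)) = sg x := fun x => by
    obtain ⟨k, j⟩ := x
    simp only [sg, rv, map_mul, map_pow, map_neg, map_one, (hε (d k)).2, Fin.val_rev, ← mul_assoc, ← pow_add]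
    congr 1
    have := j.isLt
    rw [neg_one_pow_eq_pow_mod_two, neg_one_pow_eq_pow_mod_two (n := (j : ℕ))]
    congr 1
    omega
  let H : Matrix ι ι K := Matrix.of fun x y => if y = rv x then sg x else 0
  have hHmul : ∀ (M : Matrix ι ι K) x y, (H * M) x y = sg x * M (rv x) y := fun M x y => by
    rw [Matrix.mul_apply, Finset.sum_eq_single (rv x)]
    · simp [H]
    · intro z _ hz; simp [H, hz]
    · simp
  have hmulH : ∀ (M : Matrix ι ι K) x y, (M * H) x y = M x (rv y) * sg (rv y) := fun M x y => by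
    rw [Matrix.mul_apply, Finset.sum_eq_single (rv y)]
    · simp [H, hrv]
    · intro z _ hz
      have : y ≠ rv z := fun h => hz (by rw [h, hrv])
      simp [H, this]
    · simp
  let Hi : Matrix ι ι K := Matrix.of fun x y => if y = rv x then (sg y)⁻¹ else 0
  have hHH : H * Hi = 1 := by
    ext x y
    rw [hHmul, Matrix.one_apply]
    by_cases h : x = y
    · subst h; simp [Hi, hrv, hsg0]
    · rw [if_neg h]
      simp [Hi, hrv, Ne.symm h]
  have hHiH : Hi * H = 1 := mul_eq_one_comm.mp hHH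
  have hHu : IsUnit H := IsUnit.of_mul_eq_one Hi hHH
  have hq : ∀ x : K, x ^ q = φ x := fun x => (hφ x).symm
  have hHfix : qAdjoint q H = H := by
    ext x y
    show (H y x) ^ q = H x y
    simp only [H, Matrix.of_apply, hq]
    by_cases h : y = rv x
    · subst h; simp [hrv, hsgrev]
    · have h' : x ≠ rv y := fun e => h (by rw [e, hrv])
      simp [h, h']
  let s : Matrix ι ι K → Matrix ι ι K := fun M => Hi * qAdjoint q M * H
  have hsmul : ∀ X Y, s (X * Y) = s Y * s X := fun X Y => by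
    simp only [s, qAdjoint_mul hK, mul_assoc]
    rw [← mul_assoc H Hi, hHH, one_mul]
  have hsadd : ∀ X Y, s (X + Y) = s X + s Y := fun X Y => by
    simp only [s, qAdjoint_add hK, mul_add, add_mul]
  have hadjc : ∀ (c : K) (X : Matrix ι ι K), qAdjoint q (c • X) = c ^ q • qAdjoint q X := fun c X => by
    ext x y; simp [qAdjoint, mul_pow]
  have hssmul : ∀ (c : K) X, s (c • X) = c ^ q • s X := fun c X => by
    simp only [s, hadjc, Matrix.mul_smul, Matrix.smul_mul]
  have hs1 : s 1 = 1 := by simp only [s, qAdjoint_one hK, mul_one, hHiH]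
  have hss : ∀ X, s (s X) = X := fun X => by
    have hHifix : qAdjoint q Hi * H = 1 := by
      have := congrArg (qAdjoint q) hHH
      rwa [qAdjoint_mul hK, hHfix, qAdjoint_one hK] at this
    simp only [s, qAdjoint_mul hK, qAdjoint_qAdjoint hK, hHfix]
    simp only [mul_assoc]
    rw [hHifix, mul_one, ← mul_assoc, hHiH, one_mul]
  have hsN : s N = -N := by
    have key : qAdjoint q N * H = H * (-N) := by
      ext x y
      rw [hmulH, hHmul]
      show (N (rv y) x) ^ q * _ = _
      rw [hq]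
      simp only [N, blockShift, Matrix.of_apply, Matrix.neg_apply, rv, sg]
      by_cases h : x.1 = y.1
      · obtain ⟨k, i⟩ := x
        obtain ⟨l, j⟩ := y
        obtain rfl : k = l := h
        have := i.isLt
        have := j.isLt
        simp only [true_and, Fin.val_rev]
        by_cases hc : d k - ((i : ℕ) + 1) = (j : ℕ) + 1
        · rw [if_pos (by omega), if_pos hc, map_one, one_mul, show d k - ((j : ℕ) + 1) = i + 1 by omega, pow_succ]
          ring
        · rw [if_neg (by omega), if_neg hc, map_zero, zero_mul, neg_zero, mul_zero]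
      · rw [if_neg (fun hh => h hh.1.symm), if_neg (fun hh => h hh.1), map_zero, zero_mul, neg_zero, mul_zero]
    simp only [s, mul_assoc, key]
    rw [← mul_assoc, hHiH, one_mul]
  have hs0 : s 0 = 0 := by
    have h := hsadd 0 0
    rwa [add_zero, left_eq_add] at h
  have hsneg : ∀ X, s (-X) = -s X := fun X => by
    have h := hsadd (-X) X
    rw [neg_add_cancel, hs0] at h
    exact eq_neg_of_add_eq_zero_left h.symm
  have hsC : ∀ M, M ∈ Comm (F := K) d → s M ∈ Comm (F := K) d := fun M hM => by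
    rw [comm_mem] at hM ⊢
    have h := congrArg s hM
    rw [hsmul, hsmul, hsN, mul_neg, neg_mul, neg_inj] at h
    exact h.symm
  -- a unitary element with that commutant
  have hNpow : IsNilpotent N := by
    refine ⟨Finset.univ.sup d + 1, ?_⟩
    have key : ∀ j (x y : ι), (N ^ j) x y ≠ 0 → (y.2 : ℕ) + j ≤ x.2 := by
      intro j
      induction j with
      | zero =>
        intro x y h
        rw [pow_zero, Matrix.one_apply] at h
        rcases eq_or_ne x y with rfl | hne
        · simp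
        · simp [hne] at h
      | succ j ih =>
        intro x y h
        rw [pow_succ, Matrix.mul_apply] at h
        obtain ⟨z, -, hz⟩ := Finset.exists_ne_zero_of_sum_ne_zero h
        have h1 := ih x z (left_ne_zero_of_mul hz)
        have h2 := right_ne_zero_of_mul hz
        simp only [N, blockShift, Matrix.of_apply, ne_eq, ite_eq_right_iff, one_ne_zero, imp_false, not_not] at h2
        omega
    ext x y
    by_contra hne
    have h1 := key _ x y hne
    have := x.2.isLt
    have := Finset.le_sup (f := d) (Finset.mem_univ x.1)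
    omega
  have hP : IsUnit (1 - φ a • N) := (hNpow.smul (φ a)).isUnit_one_sub
  obtain ⟨P, hPv⟩ := hP
  set U₀ : Matrix ι ι K := (1 + a • N) * ((P⁻¹ : (Matrix ι ι K)ˣ) : Matrix ι ι K) with hU₀
  have hcN : Commute N ((P⁻¹ : (Matrix ι ι K)ˣ) : Matrix ι ι K) := by
    have : Commute N (P : Matrix ι ι K) := by
      rw [hPv]; exact (Commute.one_right N).sub_right ((Commute.refl N).smul_right _)
    exact this.units_inv_right
  have hU₀sub : U₀ - 1 = N * ((P⁻¹ : (Matrix ι ι K)ˣ) : Matrix ι ι K) := by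
    have e1 : (1 + a • N) = (P : Matrix ι ι K) + N := by
      rw [hPv, sub_add, ← one_smul K N]
      simp only [smul_smul, mul_one, ← sub_smul]
      rw [show φ a - 1 = -a by linear_combination ha, neg_smul, sub_neg_eq_add]
    rw [hU₀, e1, add_mul, Units.mul_inv, add_sub_cancel_left]
  have hsU₀ : s U₀ * U₀ = 1 := by
    have hsP : s (P : Matrix ι ι K) = 1 + a • N := by
      rw [hPv, sub_eq_add_neg, hsadd, hsneg, hs1, hssmul, hsN, hq, hφ2, smul_neg, neg_neg]
    have h1 : s ((P⁻¹ : (Matrix ι ι K)ˣ) : Matrix ι ι K) * (1 + a • N) = 1 := by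
      rw [← hsP, ← hsmul, Units.mul_inv, hs1]
    have h2 : s (1 + a • N) = (P : Matrix ι ι K) := by rw [← hsP, hss]
    calc s U₀ * U₀ = s ((P⁻¹ : (Matrix ι ι K)ˣ) : Matrix ι ι K) * ((P : Matrix ι ι K) * (1 + a • N)) *
          ((P⁻¹ : (Matrix ι ι K)ˣ) : Matrix ι ι K) := by rw [hU₀, hsmul, h2]; simp only [mul_assoc]
      _ = s ((P⁻¹ : (Matrix ι ι K)ˣ) : Matrix ι ι K) * ((1 + a • N) * P) *
          ((P⁻¹ : (Matrix ι ι K)ˣ) : Matrix ι ι K) := by
            rw [show Commute (P : Matrix ι ι K) (1 + a • N) from by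
              rw [hPv]
              exact ((Commute.one_left (1 + a • N)).sub_left
                (((Commute.one_right N).add_right ((Commute.refl N).smul_right _)).smul_left _))]
      _ = 1 := by rw [← mul_assoc, h1, one_mul, Units.mul_inv]
  have hcomm : ∀ M : Matrix ι ι K, Commute M U₀ ↔ M ∈ Comm (F := K) d := by
    intro M
    rw [comm_mem]
    constructor
    · intro h
      have e : N * (φ a • U₀ + a • 1) = U₀ - 1 := by
        have h1 : U₀ * (P : Matrix ι ι K) = 1 + a • N := by rw [hU₀, mul_assoc, Units.inv_mul, mul_one]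
        rw [hPv, mul_sub, mul_one, Matrix.mul_smul] at h1
        have hUN : U₀ * N = N * U₀ := by
          rw [hU₀, mul_assoc, ← hcN.eq, ← mul_assoc, ← mul_assoc,
            show (1 + a • N) * N = N * (1 + a • N) from ((Commute.one_left N).add_left ((Commute.refl N).smul_left a)).eq]
        rw [mul_add, Matrix.mul_smul, Matrix.mul_smul, mul_one, ← hUN]
        linear_combination (norm := abel) -h1
      have hu : IsUnit (φ a • U₀ + a • (1 : Matrix ι ι K)) := by
        have : φ a • U₀ + a • (1 : Matrix ι ι K) = φ a • (U₀ - 1) + 1 := by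
          have h1 : a • (1 : Matrix ι ι K) + φ a • 1 = 1 := by rw [← add_smul, ha, one_smul]
          rw [smul_sub]
          linear_combination (norm := abel) h1
        rw [this]
        exact ((hU₀sub ▸ hcN.isNilpotent_mul_right hNpow : IsNilpotent (U₀ - 1)).smul _).isUnit_add_one
      obtain ⟨v, hv⟩ := hu
      have hMv : Commute M (v : Matrix ι ι K) := by
        rw [hv]; exact (h.smul_right _).add_right ((Commute.one_right M).smul_right _)
      have hMN : Commute M (N * (v : Matrix ι ι K)) := by rw [hv, e]; exact h.sub_right (Commute.one_right M)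
      have := hMN.mul_right hMv.units_inv_right
      rw [mul_assoc, Units.mul_inv, mul_one] at this
      exact this.eq.symm
    · intro h
      have hMN : Commute M N := h.symm
      refine ((Commute.one_right M).add_right (hMN.smul_right _)).mul_right (Commute.units_inv_right ?_)
      rw [hPv]
      exact (Commute.one_right M).sub_right (hMN.smul_right _)
  -- transport to `GU`
  obtain ⟨Y, hYu, hYH, -⟩ := exists_qAdjoint_mul_eq hK hHu hHfix
  obtain ⟨Y, rfl⟩ := hYu
  let Φ : Matrix ι ι K ≃+* Matrix (Fin n) (Fin n) K :=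
    { toFun := fun M => Matrix.reindex e e ((Y : Matrix ι ι K) * M * ((Y⁻¹ : (Matrix ι ι K)ˣ) : Matrix ι ι K))
      invFun := fun X => ((Y⁻¹ : (Matrix ι ι K)ˣ) : Matrix ι ι K) * (Matrix.reindex e e).symm X * (Y : Matrix ι ι K)
      left_inv := fun M => by
        simp only [Equiv.symm_apply_apply, mul_assoc, Units.inv_mul_cancel_left, Units.inv_mul, mul_one]
      right_inv := fun X => by
        simp only [mul_assoc, Units.mul_inv_cancel_left, Units.mul_inv, mul_one]
        exact Equiv.apply_symm_apply _ _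
      map_mul' := fun M M' => by
        rw [← Matrix.coe_reindexAlgEquiv K K, ← map_mul]
        congr 1
        simp only [mul_assoc, Units.inv_mul_cancel_left]
      map_add' := fun M M' => by
        rw [mul_add, add_mul, ← Matrix.coe_reindexAlgEquiv K K, map_add] }
  have hΦdef : ∀ M, Φ M = Matrix.reindex e e ((Y : Matrix ι ι K) * M * ((Y⁻¹ : (Matrix ι ι K)ˣ) : Matrix ι ι K)) :=
    fun M => rfl
  have hΦadj : ∀ M, qAdjoint q (Φ M) = Φ (s M) := fun M => by
    rw [hΦdef, hΦdef]
    have : ∀ X : Matrix ι ι K, qAdjoint q (Matrix.reindex e e X) = Matrix.reindex e e (qAdjoint q X) := fun X => rfl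
    rw [this]
    congr 1
    have hYi : (qAdjoint q ((Y⁻¹ : (Matrix ι ι K)ˣ) : Matrix ι ι K)) * H = (Y : Matrix ι ι K) := by
      rw [← hYH, ← mul_assoc, ← qAdjoint_mul hK, Units.mul_inv, qAdjoint_one hK, one_mul]
    have hYi' : (Y : Matrix ι ι K) * Hi = qAdjoint q ((Y⁻¹ : (Matrix ι ι K)ˣ) : Matrix ι ι K) := by
      rw [← hYi, mul_assoc, hHH, mul_one]
    have hY' : H * ((Y⁻¹ : (Matrix ι ι K)ˣ) : Matrix ι ι K) = qAdjoint q (Y : Matrix ι ι K) := by
      rw [← hYH, mul_assoc, Units.mul_inv, mul_one]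
    simp only [s, qAdjoint_mul hK, ← hY', ← hYi', mul_assoc]
  have hgu : IsUnit U₀ := IsUnit.of_mul_eq_one_right _ hsU₀
  obtain ⟨G₀, hG₀⟩ := hgu.map Φ
  have hgm : G₀ ∈ Cfsg.GU n K q := by
    rw [mem_GU_iff_qAdjoint hK, hG₀, hΦadj, ← map_mul, hsU₀, map_one]
  set g : Cfsg.GU n K q := ⟨G₀, hgm⟩
  -- similar to `u`
  have hrankΦ : ∀ X : Matrix ι ι K, (Φ X).rank = X.rank := fun X => by
    rw [hΦdef]
    rw [Matrix.rank_reindex, Matrix.rank_mul_eq_left_of_isUnit_det _ _ ((Matrix.isUnit_iff_isUnit_det _).mp (Y⁻¹).isUnit),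
      Matrix.rank_mul_eq_right_of_isUnit_det _ _ ((Matrix.isUnit_iff_isUnit_det _).mp Y.isUnit)]
  have hgnil : IsNilpotent ((G₀ : Matrix (Fin n) (Fin n) K) - 1) := by
    rw [hG₀, ← map_one Φ, ← map_sub, hU₀sub]
    exact (hcN.isNilpotent_mul_right hNpow).map Φ
  have hgrank : ∀ i, (((G₀ : Matrix (Fin n) (Fin n) K) - 1) ^ i).rank = (N ^ i).rank := fun i => by
    rw [hG₀, ← map_one Φ, ← map_sub, hU₀sub, ← map_pow, hrankΦ, hcN.mul_pow,
      Matrix.rank_mul_eq_left_of_isUnit_det _ _ ((Matrix.isUnit_iff_isUnit_det _).mp (Units.isUnit (P⁻¹) |>.pow i))]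
  have hJ : Matrix.reindexAlgEquiv K K e (Cfsg.jordanTypeMatrix d K) - 1 = Matrix.reindexAlgEquiv K K e N := by
    rw [jordanTypeMatrix_eq, map_add, map_one, add_sub_cancel_left]
  obtain ⟨x, hx⟩ := isConj_of_rank_pow_eq (A := Matrix.reindexAlgEquiv K K e (Cfsg.jordanTypeMatrix d K) - 1)
    (B := (G₀ : Matrix (Fin n) (Fin n) K) - 1) (by rw [hJ]; exact hNpow.map _) hgnil (fun i => by
      rw [hgrank, hJ, ← map_pow]; exact Matrix.rank_reindex _ _ _)
  have hconj : IsConj ((u : GL (Fin n) K) : Matrix (Fin n) (Fin n) K) (G₀ : Matrix (Fin n) (Fin n) K) := by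
    refine hu.symm.trans ⟨x, ?_⟩
    show (x : Matrix (Fin n) (Fin n) K) * _ = _ * (x : Matrix (Fin n) (Fin n) K)
    rw [mul_sub, sub_mul, mul_one, one_mul, sub_left_inj] at hx
    exact hx
  have hgl : IsConj (u : GL (Fin n) K) (g : GL (Fin n) K) := by
    obtain ⟨c, hc⟩ := hconj
    exact isConj_iff.mpr ⟨c, mul_inv_eq_iff_eq_mul.mpr (Units.ext hc.eq)⟩
  obtain ⟨w, hw⟩ := isConj_iff.mp ((isConj_gu_iff hK u g).mpr hgl)
  have hcent : Nat.card (Subgroup.centralizer ({u} : Set (Cfsg.GU n K q))) =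
      Nat.card (Subgroup.centralizer ({g} : Set (Cfsg.GU n K q))) := by
    refine Nat.card_congr ((MulAut.conj w).toEquiv.subtypeEquiv fun z => ?_)
    rw [Subgroup.mem_centralizer_singleton_iff, Subgroup.mem_centralizer_singleton_iff, ← hw]
    show z * u = u * z ↔ MulAut.conj w z * MulAut.conj w u = MulAut.conj w u * MulAut.conj w z
    rw [← map_mul, ← map_mul, (MulAut.conj w).injective.eq_iff]
  -- counting
  set ac : ℕ → ℕ := fun i => (Finset.univ.filter (fun k : Fin t => d k = i)).card with hac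
  set D := Finset.univ.sup d + 1 with hD
  have key := card_gu_centralizer_mul hK g
  set π := leadLin (F := K) d hd with hπ
  let R := (i : Fin D) → Matrix {k : Fin t // d k = i} {k : Fin t // d k = i} K
  let C : Submodule K (Matrix ι ι K) :=
    { carrier := Comm (F := K) d
      add_mem' := fun h h' => add_mem h h'
      zero_mem' := zero_mem _
      smul_mem' := fun c M hM => by
        rw [SetLike.mem_coe, comm_mem] at hM ⊢
        rw [Matrix.mul_smul, Matrix.smul_mul, hM] }
  have hπs : ∀ M ∈ Comm (F := K) d, π (s M) = fun i => qAdjoint q (π M i) := by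
    intro M hM
    funext i
    ext ⟨k, hk⟩ ⟨l, hl⟩
    show s M ⟨k, ⟨0, _⟩⟩ ⟨l, ⟨0, _⟩⟩ = (M ⟨l, ⟨0, _⟩⟩ ⟨k, ⟨0, _⟩⟩) ^ q
    simp only [s]
    rw [hmulH, Matrix.mul_apply, Finset.sum_eq_single (rv ⟨k, ⟨0, hd k⟩⟩)]
    swap
    · intro z _ hz; simp [Hi, hz]
    swap
    · simp
    simp only [Hi, Matrix.of_apply, if_true, qAdjoint, Matrix.transpose_apply, Matrix.map_apply]
    have hdkl : d k = d l := hk.trans hl.symm
    have hsgeq : sg (rv ⟨k, ⟨0, hd k⟩⟩) = sg (rv ⟨l, ⟨0, hd l⟩⟩) := by simp [sg, rv, hdkl]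
    rw [hsgeq, mul_comm _ ((M _ _) ^ q), mul_assoc, inv_mul_cancel₀ (hsg0 _), mul_one]
    congr 1
    show M ⟨l, Fin.rev ⟨0, _⟩⟩ ⟨k, Fin.rev ⟨0, _⟩⟩ = _
    rw [entry_eq d ((comm_mem d M).mp hM), if_pos (by simp [Fin.val_rev, hdkl])]
    exact congrArg (fun z => M ⟨l, z⟩ ⟨k, ⟨0, hd k⟩⟩) (Fin.ext (by simp [Fin.val_rev, hdkl]))
  let J : Submodule K (Matrix ι ι K) := C ⊓ LinearMap.ker π
  have hπsurj : ∀ r : R, ∃ M ∈ C, π M = r := fun r => by
    obtain ⟨M, hM⟩ := lead_surjective (F := K) d hd r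
    exact ⟨M.1, M.2, (lead_eq_leadLin d hd M).symm.trans hM⟩
  have hπu : ∀ M ∈ C, (IsUnit M ↔ IsUnit (π M)) := fun M hM => by
    rw [← lead_eq_leadLin d hd ⟨M, hM⟩]
    exact isUnit_iff_lead d hd ⟨M, hM⟩
  choose L hLC hLπ using hπsurj
  let σR : R → R := fun r i => qAdjoint q (r i)
  -- units of the commutant
  have e1 : Nat.card {X : Matrix (Fin n) (Fin n) K // IsUnit X ∧ Commute X ((g : GL (Fin n) K) : Matrix (Fin n) (Fin n) K)} =
      Nat.card {r : R // IsUnit r} * Nat.card J := by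
    rw [← Nat.card_prod]
    refine Nat.card_congr ((Equiv.trans (Φ.symm.toEquiv.subtypeEquiv (q := fun M => IsUnit M ∧ M ∈ C) fun X => ?_) ?_))
    · show _ ↔ IsUnit (Φ.symm X) ∧ Φ.symm X ∈ Comm (F := K) d
      rw [← hcomm, show IsUnit (Φ.symm X) ↔ IsUnit X from MulEquiv.isUnit_map Φ.symm.toMulEquiv]
      refine and_congr_right fun _ => ?_
      rw [show ((g : GL (Fin n) K) : Matrix (Fin n) (Fin n) K) = Φ U₀ from hG₀]
      exact ⟨fun h => by simpa using h.map Φ.symm, fun h => by simpa using h.map Φ⟩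
    · exact
        { toFun := fun M => (⟨π M.1, (hπu _ M.2.2).mp M.2.1⟩, ⟨M.1 - L (π M.1), C.sub_mem M.2.2 (hLC _), by
            simp [hLπ]⟩)
          invFun := fun p => ⟨p.2.1 + L p.1.1, by
            have hm : p.2.1 + L p.1.1 ∈ C := C.add_mem p.2.2.1 (hLC _)
            refine ⟨(hπu _ hm).mpr ?_, hm⟩
            rw [map_add, LinearMap.mem_ker.mp p.2.2.2, zero_add, hLπ]; exact p.1.2⟩
          left_inv := fun M => Subtype.ext (sub_add_cancel _ _)
          right_inv := fun p => by
            have h : π (p.2.1 + L p.1.1) = p.1.1 := by rw [map_add, LinearMap.mem_ker.mp p.2.2.2, zero_add, hLπ]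
            refine Prod.ext (Subtype.ext h) (Subtype.ext ?_)
            show p.2.1 + L p.1.1 - L (π (p.2.1 + L p.1.1)) = _
            rw [h, add_sub_cancel_right] }
  let L' : R → Matrix ι ι K := fun r => a • L r + s (a • L r)
  have hL'C : ∀ r, L' r ∈ C := fun r => C.add_mem (C.smul_mem _ (hLC r)) (hsC _ (C.smul_mem _ (hLC r)))
  have hL'fix : ∀ r, s (L' r) = L' r := fun r => by simp only [L', hsadd, hss]; exact add_comm _ _
  have hL'π : ∀ r, σR r = r → π (L' r) = r := fun r hr => by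
    simp only [L', map_add, map_smul, hπs _ (C.smul_mem a (hLC r)), hLπ]
    funext i
    have h1 : qAdjoint q (a • r i) = a ^ q • qAdjoint q (r i) := by ext; simp [qAdjoint, mul_pow]
    show a • r i + qAdjoint q ((a • r) i) = r i
    rw [Pi.smul_apply, h1, show qAdjoint q (r i) = r i from congrFun hr i, hq, ← add_smul, ha, one_smul]
  have e2 : Nat.card {h : Matrix (Fin n) (Fin n) K // IsUnit h ∧ qAdjoint q h = h ∧
        Commute h ((g : GL (Fin n) K) : Matrix (Fin n) (Fin n) K)} =
      Nat.card {r : R // IsUnit r ∧ σR r = r} * Nat.card {M : Matrix ι ι K // M ∈ J ∧ s M = M} := by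
    rw [← Nat.card_prod]
    refine Nat.card_congr ((Equiv.trans (Φ.symm.toEquiv.subtypeEquiv (q := fun M => IsUnit M ∧ s M = M ∧ M ∈ C) fun X => ?_) ?_))
    · show _ ↔ IsUnit (Φ.symm X) ∧ s (Φ.symm X) = Φ.symm X ∧ Φ.symm X ∈ Comm (F := K) d
      rw [← hcomm, show IsUnit (Φ.symm X) ↔ IsUnit X from MulEquiv.isUnit_map Φ.symm.toMulEquiv]
      refine and_congr_right fun _ => and_congr ?_ ?_
      · rw [← Φ.injective.eq_iff (a := s (Φ.symm X)), ← hΦadj, Φ.apply_symm_apply]
      · rw [show ((g : GL (Fin n) K) : Matrix (Fin n) (Fin n) K) = Φ U₀ from hG₀]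
        exact ⟨fun h => by simpa using h.map Φ.symm, fun h => by simpa using h.map Φ⟩
    · exact
        { toFun := fun M => (⟨π M.1, (hπu _ M.2.2.2).mp M.2.1, by
              show σR (π M.1) = π M.1
              conv_rhs => rw [← M.2.2.1, hπs _ M.2.2.2]⟩,
            ⟨M.1 - L' (π M.1), ⟨C.sub_mem M.2.2.2 (hL'C _), by
              show π (_ - _) = 0
              rw [map_sub, hL'π _ (by show σR (π M.1) = π M.1; conv_rhs => rw [← M.2.2.1, hπs _ M.2.2.2]), sub_self]⟩, by
              rw [sub_eq_add_neg, hsadd, hsneg, M.2.2.1, hL'fix]⟩)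
          invFun := fun p => ⟨p.2.1 + L' p.1.1, by
            have hm : p.2.1 + L' p.1.1 ∈ C := C.add_mem p.2.2.1.1 (hL'C _)
            refine ⟨(hπu _ hm).mpr ?_, by rw [hsadd, p.2.2.2, hL'fix], hm⟩
            rw [map_add, LinearMap.mem_ker.mp p.2.2.1.2, zero_add, hL'π _ p.1.2.2]; exact p.1.2.1⟩
          left_inv := fun M => Subtype.ext (sub_add_cancel _ _)
          right_inv := fun p => by
            have h : π (p.2.1 + L' p.1.1) = p.1.1 := by
              rw [map_add, LinearMap.mem_ker.mp p.2.2.1.2, zero_add, hL'π _ p.1.2.2]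
            refine Prod.ext (Subtype.ext h) (Subtype.ext ?_)
            show p.2.1 + L' p.1.1 - L' (π (p.2.1 + L' p.1.1)) = _
            rw [h, add_sub_cancel_right] }
  rw [e1, e2, ← hcent] at key
  have hblk : ∀ i : Fin D, Nat.card (Cfsg.GU (ac i) K q) *
      Nat.card {r : Matrix {k : Fin t // d k = i} {k : Fin t // d k = i} K // IsUnit r ∧ qAdjoint q r = r} =
      Nat.card {r : Matrix {k : Fin t // d k = i} {k : Fin t // d k = i} K // IsUnit r} := by
    intro i
    have he' : Fintype.card {k : Fin t // d k = (i : ℕ)} = ac i := Fintype.card_subtype _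
    let ee := Fintype.equivFinOfCardEq he'
    let ψ := Matrix.reindexAlgEquiv K K ee
    have hψ : ∀ r, IsUnit (ψ r) ↔ IsUnit r := fun r => MulEquiv.isUnit_map ψ.toMulEquiv
    rw [Nat.card_congr (ψ.toEquiv.subtypeEquiv (q := fun X : Matrix (Fin (ac i)) (Fin (ac i)) K => IsUnit X ∧ qAdjoint q X = X)
        fun r => (and_congr (hψ r).symm (show qAdjoint q r = r ↔ qAdjoint q (ψ r) = ψ r from
          (Matrix.reindex ee ee).injective.eq_iff.symm))),
      Nat.card_congr (ψ.toEquiv.subtypeEquiv (q := fun X : Matrix (Fin (ac i)) (Fin (ac i)) K => IsUnit X) fun r => (hψ r).symm),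
      card_hermitian_units hK]
    exact Nat.card_congr
      { toFun := fun g => ⟨g, g.isUnit⟩, invFun := fun X => X.2.unit, left_inv := fun g => Units.ext rfl,
        right_inv := fun X => Subtype.ext X.2.unit_spec }
  let eR : {r : R // IsUnit r ∧ σR r = r} ≃
      ((i : Fin D) → {x : Matrix {k : Fin t // d k = i} {k : Fin t // d k = i} K // IsUnit x ∧ qAdjoint q x = x}) :=
    { toFun := fun r i => ⟨r.1 i, Pi.isUnit_iff.mp r.2.1 i, congrFun r.2.2 i⟩
      invFun := fun f => ⟨fun i => (f i).1, Pi.isUnit_iff.mpr fun i => (f i).2.1, funext fun i => (f i).2.2⟩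
      left_inv := fun r => rfl
      right_inv := fun f => rfl }
  have hR1 : Nat.card {r : R // IsUnit r} =
      (∏ i : Fin D, Nat.card (Cfsg.GU (ac i) K q)) * Nat.card {r : R // IsUnit r ∧ σR r = r} := by
    rw [Nat.card_congr ((Equiv.subtypeEquivRight fun r : R => Pi.isUnit_iff).trans (Equiv.subtypePiEquivPi)), Nat.card_pi,
      Nat.card_congr eR, Nat.card_pi,
      ← Finset.prod_mul_distrib]
    exact Finset.prod_congr rfl fun i _ => (hblk i).symm
  have hJ2 := card_fixed_sq hK J s hsadd hss hssmul (fun M hM => ⟨hsC M hM.1, LinearMap.mem_ker.mpr <| by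
    rw [hπs M hM.1, show π M = 0 from hM.2]
    funext i
    ext
    simp [qAdjoint, zero_pow (show q ≠ 0 by omega)]⟩)
  set fj := Nat.card {M : Matrix ι ι K // M ∈ J ∧ s M = M} with hfj
  have hfixpos : 0 < Nat.card {r : R // IsUnit r ∧ σR r = r} := by
    haveI : Nonempty {r : R // IsUnit r ∧ σR r = r} := ⟨⟨1, isUnit_one, funext fun i => qAdjoint_one hK⟩⟩
    exact Nat.card_pos
  have hfjpos : 0 < fj := by
    haveI : Nonempty {M : Matrix ι ι K // M ∈ J ∧ s M = M} := ⟨⟨0, J.zero_mem, hs0⟩⟩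
    exact Nat.card_pos
  rw [hR1, hJ2] at key
  have hc' : Nat.card (Subgroup.centralizer ({u} : Set (Cfsg.GU n K q))) =
      (∏ i : Fin D, Nat.card (Cfsg.GU (ac i) K q)) * fj := by
    refine Nat.eq_of_mul_eq_mul_right (Nat.mul_pos hfixpos hfjpos) (key.trans ?_)
    ring
  -- the exponent
  have hCJ : Nat.card J * (q ^ 2) ^ (∑ i ∈ Finset.range D, ac i ^ 2) = (q ^ 2) ^ (∑ kl : Fin t × Fin t, min (d kl.1) (d kl.2)) := by
    have hC : Nat.card C = (q ^ 2) ^ (∑ kl : Fin t × Fin t, min (d kl.1) (d kl.2)) := by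
      rw [← hK]; exact card_comm d hd
    rw [← hC]
    have hR : Nat.card R = (q ^ 2) ^ (∑ i ∈ Finset.range D, ac i ^ 2) := by
      rw [Nat.card_pi, ← Finset.prod_pow_eq_pow_sum, ← Fin.prod_univ_eq_prod_range (fun i => (q ^ 2) ^ ac i ^ 2)]
      refine Finset.prod_congr rfl fun i _ => ?_
      simp [Matrix, Nat.card_fun, Fintype.card_subtype, hK, hac, ← pow_mul, sq]
    rw [← hR, ← Nat.card_prod]
    exact Nat.card_congr
      { toFun := fun p => ⟨p.1.1 + L p.2, C.add_mem p.1.2.1 (hLC _)⟩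
        invFun := fun M => (⟨M.1 - L (π M.1), C.sub_mem M.2 (hLC _), by simp [hLπ]⟩, π M.1)
        left_inv := fun p => by
          have h : π (p.1.1 + L p.2) = p.2 := by rw [map_add, LinearMap.mem_ker.mp p.1.2.2, zero_add, hLπ]
          refine Prod.ext (Subtype.ext ?_) h
          show p.1.1 + L p.2 - L (π (p.1.1 + L p.2)) = _
          rw [h, add_sub_cancel_right]
        right_inv := fun M => Subtype.ext (sub_add_cancel _ _) }
  set γ := 2 * (∑ i ∈ Finset.range D, ∑ j ∈ Finset.range D, if i < j then i * ac i * ac j else 0) +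
    ∑ i ∈ Finset.range D, (i - 1) * ac i ^ 2 with hγ
  have hexp : ∑ kl : Fin t × Fin t, min (d kl.1) (d kl.2) = γ + ∑ i ∈ Finset.range D, ac i ^ 2 := by
    rw [sum_min d D (fun k => Nat.lt_succ_of_le (Finset.le_sup (Finset.mem_univ k))), hγ, add_assoc _ (∑ i ∈ Finset.range D, (i - 1) * ac i ^ 2),
      ← Finset.sum_add_distrib]
    congr 1
    refine Finset.sum_congr rfl fun i _ => ?_
    rcases i with _ | i
    · have h0 : ac 0 = 0 := by
        rw [hac, Finset.card_eq_zero, Finset.filter_eq_empty_iff]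
        exact fun k _ h => absurd (hd k) (by omega)
      simp only [hac] at h0
      simp [h0, hac]
    · rw [Nat.add_sub_cancel, ← add_one_mul]
  have hfjq : fj = q ^ γ := by
    rw [hexp, pow_add] at hCJ
    have h1 := Nat.eq_of_mul_eq_mul_right (pow_pos (pow_pos (by omega : 0 < q) 2) _) hCJ
    rw [hJ2, ← pow_mul, mul_comm 2 γ, pow_mul] at h1
    exact Nat.pow_left_injective two_ne_zero h1
  rw [hc', hfjq, Nat.cast_mul, Nat.cast_pow, Nat.cast_prod, mul_comm]
  congr 1
  rw [Fin.prod_univ_eq_prod_range (fun i => (Nat.card (Cfsg.GU (ac i) K q) : ℤ)) D]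
  refine Finset.prod_congr rfl fun i _ => ?_
  exact card_gu_int (by rw [Nat.card_eq_fintype_card, hK]) _

end Cfsg.Agent.S2646
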