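import Cfsg.Statements.S2653
import Cfsg.Agent.Lib.Classes.AltSections.Triples
-- import your own Cfsg.Agent.* helpers here

set_option autoImplicit false
open scoped MatrixGroups
open Cfsg

namespace Cfsg.Agent.S2653

/-- Alternating sections of finite linear groups. Let `F` be a finite field of characteristic `p` and `n` a natural number, and suppose some subgroup `H` of GL_n(F) has a normal subgroup `K` with `H ⧸ K` isomorphic to the alternating group of degree `r ≥ 9`. Then `n ≥ r - 2` when `p` divides `r`, and `n ≥ r - 1` otherwise (the smallest degree of a nontrivial projective representation of that alternating group in characteristic `p`). The same bound follows for every classical group with natural module of dimension `n` over `F`, since each is a section of a subgroup of GL_n(F). -/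
theorem result {F : Type*} [Field F] [Fintype F] (p : ℕ) [Fact p.Prime] [CharP F p]
    (n : ℕ) (r : ℕ) (H : Subgroup (GL (Fin n) F)) (K : Subgroup ↥H) [K.Normal]
    (h : Nonempty (↥H ⧸ K ≃* ↥(alternatingGroup (Fin r)))) (hr : 9 ≤ r) :
    r - 1 - (if p ∣ r then 1 else 0) ≤ n := by
  classical
  letI := ZMod.algebra F p
  let k := AlgebraicClosure (ZMod p)
  have : Algebra.IsAlgebraic (ZMod p) F := Algebra.IsAlgebraic.of_finite (ZMod p) F
  let φ : F →ₐ[ZMod p] k := IsAlgClosed.lift
  let f : ↥H →* (Module.End k (Fin n → k))ˣ :=
    (Units.map (Matrix.toLinAlgEquiv' (R := k) (n := Fin n)).toRingEquiv.toMonoidHom).comp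
      ((Matrix.GeneralLinearGroup.map φ.toRingHom).comp H.subtype)
  have hf : Function.Injective f := by
    intro x y hxy
    have h1 := congrArg Units.val hxy
    have h2 := (Matrix.toLinAlgEquiv' (R := k) (n := Fin n)).injective h1
    exact Subtype.ext (Units.ext (Matrix.map_injective φ.toRingHom.injective h2))
  have : CharP k p := inferInstance
  obtain ⟨e⟩ := h
  let e' := MonoidHom.ofInjective hf
  have := CfsgLib.Classes.AltSections.sectionBound_all r hr p Fact.out k (Fin n → k) f.range
    ((e.toMonoidHom.comp (QuotientGroup.mk' K)).comp e'.symm.toMonoidHom) f.range.subtype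
    ((e.surjective.comp (QuotientGroup.mk'_surjective K)).comp e'.symm.surjective)
    (by rw [Subgroup.ker_subtype]; exact bot_le)
  rwa [Module.finrank_fin_fun] at this

end Cfsg.Agent.S2653
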