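import Cfsg.Statements.S2657
import Cfsg.Agent.Lib.AltSectF4.Eigen
import Cfsg.Agent.Lib.AltSectF4.Perms
import Cfsg.Agent.Lib.AltSectF4.Torus
-- import your own Cfsg.Agent.* helpers here

set_option autoImplicit false
open scoped MatrixGroups
open Cfsg

namespace Cfsg.Agent.S2657

/-- Alternating sections of the groups of type F₄. Let `F` be a finite field of characteristic `p` and let `G` be the Chevalley group of type F₄ over `F`. If some subgroup of `G` has a quotient isomorphic to the alternating group of degree `r`, then `r` is at most 10, or 11 in characteristic 11. (Only an upper bound is asserted.) -/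
theorem result {F : Type*} [Field F] [Fintype F] (p : ℕ) [Fact p.Prime] [CharP F p]
    (r : ℕ) (H : Subgroup ↥(Cfsg.Lie.chevF4.group F)) (K : Subgroup ↥H) [K.Normal]
    (h : Nonempty (↥H ⧸ K ≃* ↥(alternatingGroup (Fin r)))) :
    r ≤ 10 + (if p = 11 then 1 else 0) := by
  classical
  obtain ⟨e⟩ := h
  set π : ↥H →* alternatingGroup (Fin r) := e.toMonoidHom.comp (QuotientGroup.mk' K)
  have hπ : Function.Surjective π := e.surjective.comp (QuotientGroup.mk'_surjective K)
  by_contra hr
  split_ifs at hr with hp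
  · -- characteristic eleven
    obtain ⟨H', π', hπ'⟩ := CfsgLib.AltSectG2.exists_restrict (m := 12) (by omega) π hπ
    obtain ⟨c, t, hc, ht⟩ := CfsgLib.AltSectF4.exists_thirtyfive
    obtain ⟨u, y, hy, hcomm⟩ := CfsgLib.AltSectF4.exists_lift π' (hπ' c) (hπ' t) (E := 24) (k := 2) hc ht
      (by norm_num) (by norm_num) (fun ℓ hℓ hd => by
        rw [show (35 : ℕ) = 5 * 7 from rfl, Nat.Prime.dvd_mul hℓ] at hd
        rcases hd with hd | hd
        · obtain rfl := (Nat.prime_dvd_prime_iff_eq hℓ (by norm_num)).1 hd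
          norm_num
        · obtain rfl := (Nat.prime_dvd_prime_iff_eq hℓ (by norm_num)).1 hd
          norm_num)
    have h5 : Nat.Prime 5 := by norm_num
    have h7 : Nat.Prime 7 := by norm_num
    let f : ↥H' →* ↥(Cfsg.Lie.chevF4.group F) := H.subtype.comp H'.subtype
    have hf : Function.Injective f := H.subtype_injective.comp H'.subtype_injective
    refine CfsgLib.AltSectF4.no_thirtyfive (p := p) (by omega) (by omega) (u := f u) (y := f (y 5)) (z := f (y 7))
      ?_ ?_ ((hcomm 5 7 h5 (by norm_num) h7 (by norm_num) (by norm_num)).map f) ?_ ?_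
    · rw [orderOf_injective f hf, (hy 5 h5 (by norm_num)).1]
    · rw [orderOf_injective f hf, (hy 7 h7 (by norm_num)).1]
    · rw [← map_inv, ← map_mul, ← map_mul, (hy 5 h5 (by norm_num)).2, map_pow]
    · rw [← map_inv, ← map_mul, ← map_mul, (hy 7 h7 (by norm_num)).2, map_pow]
  · obtain ⟨H', π', hπ'⟩ := CfsgLib.AltSectG2.exists_restrict (m := 11) (by omega) π hπ
    obtain ⟨c, t, hc, ht⟩ := CfsgLib.AltSectF4.exists_eleven
    obtain ⟨u, y, hy, -⟩ := CfsgLib.AltSectF4.exists_lift π' (hπ' c) (hπ' t) (E := 10) (k := 1) hc ht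
      (by norm_num) (by norm_num) (fun ℓ hℓ hd => by
        obtain rfl := (Nat.prime_dvd_prime_iff_eq hℓ (by norm_num)).1 hd
        norm_num)
    have h11 : Nat.Prime 11 := by norm_num
    let f : ↥H' →* ↥(Cfsg.Lie.chevF4.group F) := H.subtype.comp H'.subtype
    have hf : Function.Injective f := H.subtype_injective.comp H'.subtype_injective
    refine CfsgLib.AltSectF4.no_eleven (p := p) hp (u := f u) (y := f (y 11)) ?_ ?_
    · rw [orderOf_injective f hf, (hy 11 h11 dvd_rfl).1]
    · rw [← map_inv, ← map_mul, ← map_mul, (hy 11 h11 dvd_rfl).2, map_pow]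

end Cfsg.Agent.S2657
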