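import Cfsg.Statements.S2658
import Cfsg.Agent.Lib.AltSectG2.Five
import Cfsg.Agent.Lib.AltSectG2.Centralizer
-- import your own Cfsg.Agent.* helpers here

set_option autoImplicit false
open scoped MatrixGroups
open Cfsg

namespace Cfsg.Agent.S2658

/-- Alternating sections of the groups of type G₂. Let `F` be a finite field of characteristic `p` and let `G` be the Chevalley group of type G₂ over `F`. If some subgroup of `G` has a quotient isomorphic to the alternating group of degree `r`, then `r` is at most 6, or 7 in characteristic 5. (Only an upper bound is asserted.) -/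
theorem result {F : Type*} [Field F] [Fintype F] (p : ℕ) [Fact p.Prime] [CharP F p]
    (r : ℕ) (H : Subgroup ↥(Cfsg.Lie.chevG2.group F)) (K : Subgroup ↥H) [K.Normal]
    (h : Nonempty (↥H ⧸ K ≃* ↥(alternatingGroup (Fin r)))) :
    r ≤ 6 + (if p = 5 then 1 else 0) := by
  classical
  obtain ⟨e⟩ := h
  set π : ↥H →* alternatingGroup (Fin r) := e.toMonoidHom.comp (QuotientGroup.mk' K)
  have hπ : Function.Surjective π := e.surjective.comp (QuotientGroup.mk'_surjective K)
  split_ifs with hp
  · -- characteristic five
    by_contra hr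
    obtain ⟨H', π', hπ'⟩ := CfsgLib.AltSectG2.exists_restrict (m := 8) (by omega) π hπ
    have hchar : ringChar F = 5 := hp ▸ ringChar.eq F p
    have hodd : ringChar F ≠ 2 := by omega
    have h3 : (3 : F) ≠ 0 := fun h0 => by
      have := (ringChar.spec F 3).1 (by exact_mod_cast h0)
      rw [hchar] at this
      omega
    let ι := Subgroup.equivMapOfInjective H' H.subtype H.subtype_injective
    exact CfsgLib.AltSectG2.no_sec_eight (CfsgLib.AltSectG2.no_sixteen hodd)
      (fun z hz J hJ hc ρ hρ hm => CfsgLib.AltSectG2.no_cent_section hodd h3 hz J hJ hc ρ hρ hm)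
      _ (H'.map H.subtype) (π'.comp ι.symm.toMonoidHom) le_rfl (hπ'.comp ι.symm.surjective)
  · by_contra hr
    obtain ⟨H', π', hπ'⟩ := CfsgLib.AltSectG2.exists_restrict (m := 7) (by omega) π hπ
    obtain ⟨c, t, hc, ht⟩ := CfsgLib.AltSectG2.exists_five_seven
    obtain ⟨y, hy, hconj⟩ := CfsgLib.AltSectG2.exists_five π' hπ' hc ht
    refine CfsgLib.AltSectG2.not_isConj_sq (p := p) (y := ((y : ↥H) : ↥(Cfsg.Lie.chevG2.group F))) rfl hp ?_ ?_
    · rw [Subgroup.orderOf_coe, Subgroup.orderOf_coe, hy]
    · have h := MonoidHom.map_isConj (H.subtype.comp H'.subtype) hconj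
      rwa [map_pow] at h

end Cfsg.Agent.S2658
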