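import Cfsg.Statements.S2660
import Cfsg.Agent.Lib.AltSectD4.Sylow
-- import your own Cfsg.Agent.* helpers here

set_option autoImplicit false
open scoped MatrixGroups
open Cfsg

namespace Cfsg.Agent.S2660

/-- Alternating sections of the triality-twisted groups ³D₄. Let `q = p^a` be a prime power and `K` a field with `q³` elements, and let `G` be the twisted group ³D₄(q) realised over `K`. If some subgroup of `G` has a quotient isomorphic to the alternating group of degree `r`, then `r` is at most 6, or 7 in characteristic 5. (Only an upper bound is asserted.) -/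
theorem result {K : Type*} [Field K] [Fintype K] (p a : ℕ) [Fact p.Prime] [CharP K p]
    (ha : 1 ≤ a) (hK : Fintype.card K = (p ^ a) ^ 3) (r : ℕ) (H : Subgroup ↥(Cfsg.Lie.twistedD4 K (p ^ a))) (N : Subgroup ↥H) [N.Normal]
    (h : Nonempty (↥H ⧸ N ≃* ↥(alternatingGroup (Fin r)))) :
    r ≤ 6 + (if p = 5 then 1 else 0) := by
  classical
  obtain ⟨e⟩ := h
  set π : ↥H →* alternatingGroup (Fin r) := e.toMonoidHom.comp (QuotientGroup.mk' N)
  have hπ : Function.Surjective π := e.surjective.comp (QuotientGroup.mk'_surjective N)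
  have hq : IsPrimePow (p ^ a) := ⟨p, a, (Fact.out : p.Prime).prime, by omega, rfl⟩
  split_ifs with hp
  · by_contra hr
    obtain ⟨H', π', hπ'⟩ := CfsgLib.AltSectG2.exists_restrict (m := 8) (by omega) π hπ
    let ι := Subgroup.equivMapOfInjective H' H.subtype H.subtype_injective
    exact CfsgLib.AltSectD4.no_alt_eight_twisted hq hK (by rw [hp, Nat.pow_mod]; simp)
      (H'.map H.subtype) (π'.comp ι.symm.toMonoidHom) (hπ'.comp ι.symm.surjective)
  · by_contra hr
    obtain ⟨H', π', hπ'⟩ := CfsgLib.AltSectG2.exists_restrict (m := 7) (by omega) π hπ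
    obtain ⟨c, t, hc, ht⟩ := CfsgLib.AltSectG2.exists_five_seven
    obtain ⟨y, hy, hconj⟩ := CfsgLib.AltSectG2.exists_five π' hπ' hc ht
    refine CfsgLib.AltSectD4.not_isConj_sq (p := p) (a := a) ha hK hp
      (y := ((y : ↥H) : ↥(Cfsg.Lie.twistedD4 K (p ^ a)))) ?_ ?_
    · rw [Subgroup.orderOf_coe, Subgroup.orderOf_coe, hy]
    · have h := MonoidHom.map_isConj (H.subtype.comp H'.subtype) hconj
      rwa [map_pow] at h

end Cfsg.Agent.S2660
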