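import Cfsg.Statements.S2665
-- import your own Cfsg.Agent.* helpers here

set_option autoImplicit false
open scoped MatrixGroups
open Cfsg

namespace Cfsg.Agent.S2665

open Polynomial in
lemma exists_fixed_ne_zero {K : Type*} [Field K] [IsAlgClosed K] (p : ℕ) [Fact p.Prime] [CharP K p]
    (f : ℕ) (hf : 1 ≤ f) {V : Type*} [AddCommGroup V] [Module K V] [FiniteDimensional K V] [Nontrivial V]
    (F : V → V) (hadd : ∀ u v, F (u + v) = F u + F v) (hsmul : ∀ (c : K) v, F (c • v) = c ^ (p ^ f) • F v)
    (hinj : ∀ v, F v = 0 → v = 0) : ∃ w : V, w ≠ 0 ∧ F w = w := by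
  classical
  have hq1 : 1 < p ^ f := Nat.one_lt_pow (by omega) (Fact.out : p.Prime).one_lt
  let Fh : V →+ V := AddMonoidHom.mk' F hadd
  obtain ⟨v, hv⟩ := exists_ne (0 : V)
  have hex : ∃ m, ¬ LinearIndependent K (fun i : Fin (m + 1) => F^[(i : ℕ)] v) := by
    refine ⟨Module.finrank K V, fun h => ?_⟩
    have := h.fintype_card_le_finrank
    simp at this
  set m := Nat.find hex with hm
  have hdep := Nat.find_spec hex
  have hmin : ∀ k, k < m → LinearIndependent K (fun i : Fin (k + 1) => F^[(i : ℕ)] v) :=
    fun k hk => not_not.mp (Nat.find_min hex hk)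
  have hm0 : m ≠ 0 := by
    intro h0
    apply hdep
    rw [← hm, h0]
    exact LinearIndependent.of_subsingleton (ι := Fin 1) 0 (by simpa using hv)
  obtain ⟨k, hk⟩ : ∃ k, m = k + 1 := ⟨m - 1, by omega⟩
  have hli := hmin k (by omega)
  rw [← hm, hk] at hdep
  have hmem : F^[k + 1] v ∈ Submodule.span K (Set.range fun i : Fin (k + 1) => F^[(i : ℕ)] v) := by
    by_contra hno
    apply hdep
    refine (linearIndependent_finSucc'.mpr ⟨?_, ?_⟩)
    · exact hli
    · exact hno
  obtain ⟨a, ha⟩ := Submodule.mem_span_range_iff_exists_fun K |>.mp hmem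
  -- the coefficient recursion
  let c : ℕ → K := fun i => if h : i < k + 1 then a ⟨i, h⟩ else 0
  let P : ℕ → Polynomial K := fun i => Nat.rec (C (c 0) * X ^ (p ^ f))
    (fun j Pj => Pj ^ (p ^ f) + C (c (j + 1)) * X ^ (p ^ f)) i
  have hP0 : P 0 = C (c 0) * X ^ (p ^ f) := rfl
  have hPs : ∀ j, P (j + 1) = P j ^ (p ^ f) + C (c (j + 1)) * X ^ (p ^ f) := fun j => rfl
  have hqK : ((p ^ f : ℕ) : K) = 0 := by
    rw [Nat.cast_pow, CharP.cast_eq_zero, zero_pow (by omega)]
  have hder : ∀ j, (P j).derivative = 0 := by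
    intro j
    cases j with
    | zero => rw [hP0, derivative_C_mul, derivative_X_pow, hqK]; simp
    | succ j => rw [hPs, derivative_add, derivative_pow, derivative_C_mul, derivative_X_pow, hqK]; simp
  have heval0 : ∀ j, (P j).eval 0 = 0 := by
    intro j
    induction j with
    | zero => rw [hP0, eval_mul, eval_pow, eval_X, zero_pow (by omega), mul_zero]
    | succ j ih =>
      rw [hPs, eval_add, eval_pow, eval_mul, eval_pow, eval_X, ih, zero_pow (by omega), mul_zero, add_zero]
  -- some coefficient is non-zero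
  have hane : ∃ j, j ≤ k ∧ c j ≠ 0 := by
    by_contra hno
    push_neg at hno
    have h1 : F^[k + 1] v = 0 := by
      rw [← ha]
      refine Finset.sum_eq_zero fun i _ => ?_
      have h2 := hno i (by omega)
      simp only [c, i.2, dite_true] at h2
      rw [h2, zero_smul]
    have h3 : ∀ n, F^[n] v = 0 → v = 0 := by
      intro n
      induction n with
      | zero => simp
      | succ n ih => intro h; rw [Function.iterate_succ_apply'] at h; exact ih (hinj _ h)
    exact hv (h3 _ h1)
  have hdeg : ∀ j, (∀ i ≤ j, c i = 0) ∧ P j = 0 ∨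
      (1 < (P j).natDegree) := by
    intro j
    induction j with
    | zero =>
      by_cases h : c 0 = 0
      · left; exact ⟨fun i hi => by rwa [Nat.le_zero.mp hi], by rw [hP0, h]; simp⟩
      · right; rw [hP0, natDegree_C_mul_X_pow _ _ h]; exact hq1
    | succ j ih =>
      rcases ih with ⟨h1, h2⟩ | h2
      · rw [hPs, h2, zero_pow (by omega), zero_add]
        by_cases h : c (j + 1) = 0
        · left
          exact ⟨fun i hi => by rcases Nat.le_succ_iff.mp hi with h' | h'; exacts [h1 i h', h' ▸ h],
            by rw [h]; simp⟩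
        · right; rw [natDegree_C_mul_X_pow _ _ h]; exact hq1
      · right
        have h3 : (P j ^ (p ^ f)).natDegree = p ^ f * (P j).natDegree := natDegree_pow _ _
        have h4 : p ^ f < p ^ f * (P j).natDegree := by nlinarith
        have h5 : (C (c (j + 1)) * X ^ (p ^ f)).natDegree ≤ p ^ f := natDegree_C_mul_X_pow_le _ _
        rw [hPs, natDegree_add_eq_left_of_natDegree_lt (by omega), h3]
        omega
  have hPk : 1 < (P k).natDegree := by
    rcases hdeg k with ⟨h1, _⟩ | h
    · obtain ⟨j, hj, hj'⟩ := hane; exact absurd (h1 j hj) hj'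
    · exact h
  set Q := P k - X with hQ
  have hQdeg : 1 < Q.natDegree := by
    rw [hQ, natDegree_sub_eq_left_of_natDegree_lt (by rw [natDegree_X]; omega)]; exact hPk
  have hQsep : Q.Separable := by
    rw [Polynomial.separable_def, hQ, derivative_sub, hder, derivative_X, zero_sub]
    exact isCoprime_one_right.neg_right
  obtain ⟨β, hβ0, hβ⟩ : ∃ β : K, β ≠ 0 ∧ (P k).eval β = β := by
    have hcard : Fintype.card (Q.rootSet K) = Q.natDegree :=
      card_rootSet_eq_natDegree hQsep (IsAlgClosed.splits _)
    obtain ⟨x, y, hxy⟩ := Fintype.one_lt_card_iff.mp (hcard ▸ hQdeg)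
    have hroot : ∀ z : Q.rootSet K, (P k).eval (z : K) = z := fun z => by
      have h := (mem_rootSet.mp z.2).2
      simpa [hQ, sub_eq_zero] using h
    by_cases hx : (x : K) = 0
    · exact ⟨y, fun hy => hxy (Subtype.ext (hx.trans hy.symm)), hroot y⟩
    · exact ⟨x, hx, hroot x⟩
  let b : Fin (k + 1) → K := fun i => (P i).eval β
  refine ⟨∑ i, b i • F^[(i : ℕ)] v, ?_, ?_⟩
  · intro h
    have := Fintype.linearIndependent_iff.mp hli b h (Fin.last k)
    simp only [b, Fin.val_last] at this
    exact hβ0 (hβ ▸ this)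
  · have h1 : F (∑ i, b i • F^[(i : ℕ)] v) = ∑ i, b i ^ (p ^ f) • F^[(i : ℕ) + 1] v := by
      change Fh _ = _
      rw [map_sum]
      refine Finset.sum_congr rfl fun i _ => ?_
      change F _ = _
      rw [hsmul, Function.iterate_succ_apply']
    rw [h1, Fin.sum_univ_castSucc]
    have h2 : b (Fin.last k) = β := by simp [b, hβ]
    simp only [Fin.val_last, Fin.coe_castSucc, h2]
    rw [← ha, Finset.smul_sum, Fin.sum_univ_succ (f := fun i : Fin (k + 1) => β ^ (p ^ f) • a i • F^[(i : ℕ)] v),
      Fin.sum_univ_succ (f := fun i : Fin (k + 1) => b i • F^[(i : ℕ)] v), ← add_assoc,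
      add_comm (∑ i : Fin k, _) _, add_assoc, ← Finset.sum_add_distrib]
    congr 1
    · simp only [b, Fin.val_zero, hP0, smul_smul]
      congr 1
      have h3 : c 0 = a 0 := by simp only [c, dif_pos (Nat.succ_pos k)]; rfl
      rw [eval_mul, eval_pow, eval_X, eval_C, h3, mul_comm]
    · refine Finset.sum_congr rfl fun i _ => ?_
      simp only [b, Fin.val_succ, Fin.coe_castSucc, hPs, smul_smul, ← add_smul]
      congr 1
      have h3 : c ((i : ℕ) + 1) = a i.succ := by
        simp only [c, dif_pos (Nat.succ_lt_succ i.2)]; rfl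
      rw [eval_add, eval_pow, eval_mul, eval_pow, eval_X, eval_C, h3]
      ring

lemma span_fixed_eq_top {K : Type*} [Field K] [IsAlgClosed K] (p : ℕ) [Fact p.Prime] [CharP K p]
    (f : ℕ) (hf : 1 ≤ f) {V : Type*} [AddCommGroup V] [Module K V] [FiniteDimensional K V]
    (F : V → V) (hadd : ∀ u v, F (u + v) = F u + F v) (hsmul : ∀ (c : K) v, F (c • v) = c ^ (p ^ f) • F v)
    (hinj : ∀ v, F v = 0 → v = 0) : Submodule.span K {v | F v = v} = ⊤ := by
  suffices H : ∀ (n : ℕ) (V : Type _) [AddCommGroup V] [Module K V] [FiniteDimensional K V], Module.finrank K V = n →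
      ∀ F : V → V, (∀ u v, F (u + v) = F u + F v) → (∀ (c : K) v, F (c • v) = c ^ (p ^ f) • F v) →
      (∀ v, F v = 0 → v = 0) → Submodule.span K {v | F v = v} = ⊤ from H _ V rfl F hadd hsmul hinj
  intro n
  induction n with
  | zero =>
    intro V _ _ _ hn F _ _ _
    have : Subsingleton V := Module.finrank_zero_iff.mp hn
    exact Subsingleton.elim _ _
  | succ n ih =>
    intro V _ _ _ hn F hadd hsmul hinj
    have : Nontrivial V := Module.nontrivial_of_finrank_eq_succ hn
    obtain ⟨w, hw0, hw⟩ := exists_fixed_ne_zero p f hf F hadd hsmul hinj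
    let W := Submodule.span K {w}
    have hwell : ∀ u v, u - v ∈ W → F u - F v ∈ W := by
      intro u v huv
      obtain ⟨c, hc⟩ := Submodule.mem_span_singleton.mp huv
      refine Submodule.mem_span_singleton.mpr ⟨c ^ (p ^ f), ?_⟩
      have h1 := hadd (u - v) v
      rw [sub_add_cancel, ← hc, hsmul, hw] at h1
      rw [h1, add_sub_cancel_right]
    let Fq : V ⧸ W → V ⧸ W := fun x => Quotient.liftOn' x (fun v => (Submodule.Quotient.mk (F v) : V ⧸ W))
      (fun u v huv => (Submodule.Quotient.eq _).mpr (hwell u v ((Submodule.quotientRel_def _).mp huv)))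
    have hFq : ∀ v, Fq (Submodule.Quotient.mk v) = Submodule.Quotient.mk (F v) := fun v => rfl
    have hrank : Module.finrank K (V ⧸ W) = n := by
      have h1 := W.finrank_quotient_add_finrank
      have h2 : Module.finrank K W = 1 := finrank_span_singleton hw0
      omega
    have haddq : ∀ x y, Fq (x + y) = Fq x + Fq y := by
      intro x y
      obtain ⟨u, rfl⟩ := Submodule.Quotient.mk_surjective W x
      obtain ⟨v, rfl⟩ := Submodule.Quotient.mk_surjective W y
      rw [← Submodule.Quotient.mk_add, hFq, hFq, hFq, hadd, Submodule.Quotient.mk_add]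
    have hsmulq : ∀ (c : K) x, Fq (c • x) = c ^ (p ^ f) • Fq x := by
      intro c x
      obtain ⟨u, rfl⟩ := Submodule.Quotient.mk_surjective W x
      rw [← Submodule.Quotient.mk_smul, hFq, hFq, hsmul, Submodule.Quotient.mk_smul]
    have hinjq : ∀ x, Fq x = 0 → x = 0 := by
      intro x
      obtain ⟨u, rfl⟩ := Submodule.Quotient.mk_surjective W x
      intro hu
      rw [hFq, Submodule.Quotient.mk_eq_zero] at hu
      obtain ⟨c, hc⟩ := Submodule.mem_span_singleton.mp hu
      obtain ⟨d, hd⟩ := IsAlgClosed.exists_pow_nat_eq c (show 0 < p ^ f from pow_pos (Fact.out : p.Prime).pos f)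
      have h1 : F (u - d • w) = 0 := by
        have h2 := hadd (u - d • w) (d • w)
        rw [sub_add_cancel, hsmul, hw, hd, hc] at h2
        simpa using h2.symm
      rw [Submodule.Quotient.mk_eq_zero]
      exact Submodule.mem_span_singleton.mpr ⟨d, (sub_eq_zero.mp (hinj _ h1)).symm⟩
    have hq := ih (V ⧸ W) hrank Fq haddq hsmulq hinjq
    set S := Submodule.span K {v | F v = v} with hS
    have hWS : W ≤ S := Submodule.span_mono (by simpa using hw)
    have hlift : {x | Fq x = x} ⊆ (Submodule.map W.mkQ S : Set (V ⧸ W)) := by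
      intro x hx
      obtain ⟨u, rfl⟩ := Submodule.Quotient.mk_surjective W x
      rw [Set.mem_setOf_eq, hFq, Submodule.Quotient.eq] at hx
      obtain ⟨c, hc⟩ := Submodule.mem_span_singleton.mp hx
      obtain ⟨t, ht⟩ : ∃ t : K, t ^ (p ^ f) + c = t := by
        have hq1 : 1 < p ^ f := Nat.one_lt_pow (by omega) (Fact.out : p.Prime).one_lt
        let R : Polynomial K := Polynomial.X ^ (p ^ f) + (Polynomial.C c - Polynomial.X)
        have hR : R.natDegree = p ^ f := by
          simp only [R]
          rw [Polynomial.natDegree_add_eq_left_of_natDegree_lt, Polynomial.natDegree_X_pow]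
          rw [Polynomial.natDegree_X_pow]
          refine lt_of_le_of_lt (Polynomial.natDegree_sub_le _ _) ?_
          rw [Polynomial.natDegree_C, Polynomial.natDegree_X, Nat.max_eq_right (Nat.zero_le _)]
          exact hq1
        obtain ⟨t, ht⟩ := IsAlgClosed.exists_root R (fun h => by
          exact (show p ^ f ≠ 0 by omega) (hR.symm.trans (Polynomial.natDegree_eq_of_degree_eq_some h)))
        refine ⟨t, ?_⟩
        simp only [R, Polynomial.IsRoot, Polynomial.eval_add, Polynomial.eval_sub, Polynomial.eval_pow,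
          Polynomial.eval_X, Polynomial.eval_C] at ht
        linear_combination ht
      refine ⟨u + t • w, Submodule.subset_span ?_, ?_⟩
      · show F (u + t • w) = u + t • w
        rw [hadd, hsmul, hw, show F u = u + c • w by rw [hc]; abel, add_assoc, ← add_smul, add_comm c, ht]
      · rw [Submodule.mkQ_apply, Submodule.Quotient.eq]
        exact Submodule.mem_span_singleton.mpr ⟨t, by abel⟩
    have h2 : Submodule.map W.mkQ S = ⊤ := top_le_iff.mp (hq ▸ Submodule.span_le.mpr hlift)
    calc S = Submodule.comap W.mkQ (Submodule.map W.mkQ S) := by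
          rw [Submodule.comap_map_eq, Submodule.ker_mkQ, sup_eq_left.mpr hWS]
      _ = ⊤ := by rw [h2, Submodule.comap_top]

lemma exists_basis_fixed {K : Type*} [Field K] {n : ℕ} (F : (Fin n → K) → (Fin n → K))
    (h : Submodule.span K {v | F v = v} = ⊤) : ∃ b : Module.Basis (Fin n) K (Fin n → K), ∀ j, F (b j) = b j := by
  obtain ⟨s, hs, hspan, hli⟩ := exists_linearIndependent K {v : Fin n → K | F v = v}
  let B := Module.Basis.mk hli (by rw [Subtype.range_coe, hspan, h])
  haveI : Fintype s := FiniteDimensional.fintypeBasisIndex B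
  have hc : Fintype.card s = n := by
    have := Module.finrank_eq_card_basis B
    simpa using this.symm
  refine ⟨B.reindex (Fintype.equivFinOfCardEq hc), fun j => ?_⟩
  simp only [B, Module.Basis.reindex_apply, Module.Basis.mk_apply]
  exact hs ((Fintype.equivFinOfCardEq hc).symm j).2

/-- The Lang–Steinberg Theorem for the general linear group. Let `K` be an algebraically closed field of prime characteristic `p`, let `q = p^f` with `f ≥ 1`, and let `σ` be the endomorphism of GL_n(K) raising every matrix entry to the `q`-th power. Then every element `g` of GL_n(K) can be written `g = x · σ(x)⁻¹` for some `x` in GL_n(K): the map `x ↦ x σ(x)⁻¹` is surjective. -/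
theorem result {K : Type*} [Field K] [IsAlgClosed K] (p : ℕ) [Fact p.Prime] [CharP K p]
    (f : ℕ) (hf : 1 ≤ f) (n : ℕ) (g : GL (Fin n) K) :
    ∃ x : GL (Fin n) K, g = x * (Matrix.GeneralLinearGroup.map (iterateFrobenius K p f) x)⁻¹ := by
  have hq0 : p ^ f ≠ 0 := pow_ne_zero _ (Fact.out : p.Prime).ne_zero
  let F : (Fin n → K) → (Fin n → K) := fun v =>
    (g : Matrix (Fin n) (Fin n) K).mulVec (fun i => v i ^ (p ^ f))
  have hadd : ∀ u v, F (u + v) = F u + F v := fun u v => by
    simp only [F, ← Matrix.mulVec_add]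
    congr 1; funext i
    exact add_pow_char_pow ..
  have hsmul : ∀ (c : K) v, F (c • v) = c ^ (p ^ f) • F v := fun c v => by
    simp only [F, ← Matrix.mulVec_smul]
    congr 1; funext i
    simp [mul_pow]
  have hinj : ∀ v, F v = 0 → v = 0 := fun v hv => by
    have h1 := congrArg ((↑(g⁻¹) : Matrix (Fin n) (Fin n) K).mulVec) hv
    simp only [F, Matrix.mulVec_mulVec, ← Units.val_mul, inv_mul_cancel, Units.val_one,
      Matrix.one_mulVec, Matrix.mulVec_zero] at h1
    funext i
    exact (pow_eq_zero_iff hq0).mp (congrFun h1 i)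
  have hspan := span_fixed_eq_top p f hf F hadd hsmul hinj
  obtain ⟨b, hb⟩ := exists_basis_fixed F hspan
  let X : Matrix (Fin n) (Fin n) K := Matrix.of fun i j => b j i
  have hX : IsUnit X.det := by
    have h1 : IsUnit ((Pi.basisFun K (Fin n)).det b) := (Pi.basisFun K (Fin n)).isUnit_det b
    have h2 : ((Pi.basisFun K (Fin n)).toMatrix b) = X := by ext i j; simp [X, Module.Basis.toMatrix_apply]
    rwa [Module.Basis.det_apply, h2] at h1
  refine ⟨Matrix.GeneralLinearGroup.mk'' X hX, ?_⟩
  rw [eq_mul_inv_iff_mul_eq]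
  refine Units.ext (Matrix.ext fun i j => ?_)
  exact congrFun (hb j) i

end Cfsg.Agent.S2665
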