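import Cfsg.Statements.S2666
-- import your own Cfsg.Agent.* helpers here

set_option autoImplicit false
open Cfsg

namespace Cfsg.Agent.S2666

/-- Shintani descent, in an abstract form. Let `σ` be an automorphism of a group `X` such that the maps `a ↦ a·σ(a)⁻¹` and `a ↦ a·σᵉ(a)⁻¹` are surjective on `X` (the Lang–Steinberg property, which holds when `X` is a connected algebraic group and `σ` a Steinberg endomorphism), where `e ≥ 1`. Write `G` for the subgroup of fixed points of `σᵉ` and `H` for the subgroup of fixed points of `σ`. The `G`-conjugacy classes in the coset `G σ` of the semidirect product of `G` by `σ` correspond to the orbits of `G` on itself under twisted conjugation `g ↦ k g σ(k)⁻¹`, and the `e`-th power of `g σ` has `G`-part the norm `g σ(g) ⋯ σ^(e-1)(g)`. For `g` in `G` and any `a` with `g = a σ(a)⁻¹`, put `x = σᵉ(a)⁻¹ a`. Then: (1) `x` lies in `H`, and `a⁻¹ · (g σ(g) ⋯ σ^(e-1)(g)) · a = x`; (2) for `g, g'` in `G` with such elements `a, b` and `x, x'`, the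 elements `g, g'` are twisted-conjugate under `G` if and only if `x, x'` are conjugate in `H`; (3) every element of `H` arises as such an `x`. So `g ↦ x` induces a well-defined bijection from the twisted `G`-classes of `G` onto the conjugacy classes of `H` (the Shintani map). -/
theorem result {X : Type*} [Group X] (σ : MulAut X) (e : ℕ) (he : 1 ≤ e)
    (hL : ∀ g : X, ∃ a : X, g = a * (σ a)⁻¹) (hLe : ∀ g : X, ∃ a : X, g = a * ((σ ^ e) a)⁻¹) :
    (∀ g ∈ (MulEquiv.toMonoidHom (σ ^ e)).eqLocus (MonoidHom.id X), ∀ a : X, g = a * (σ a)⁻¹ →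
        ((σ ^ e) a)⁻¹ * a ∈ (MulEquiv.toMonoidHom σ).eqLocus (MonoidHom.id X) ∧
          a⁻¹ * ((List.range e).map (fun i => (σ ^ i) g)).prod * a = ((σ ^ e) a)⁻¹ * a) ∧
    (∀ g ∈ (MulEquiv.toMonoidHom (σ ^ e)).eqLocus (MonoidHom.id X), ∀ g' ∈ (MulEquiv.toMonoidHom (σ ^ e)).eqLocus (MonoidHom.id X), ∀ a b : X,
        g = a * (σ a)⁻¹ → g' = b * (σ b)⁻¹ →
          ((∃ k ∈ (MulEquiv.toMonoidHom (σ ^ e)).eqLocus (MonoidHom.id X), g' = k * g * (σ k)⁻¹) ↔
            (∃ h ∈ (MulEquiv.toMonoidHom σ).eqLocus (MonoidHom.id X), ((σ ^ e) b)⁻¹ * b = h * (((σ ^ e) a)⁻¹ * a) * h⁻¹))) ∧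
    (∀ x ∈ (MulEquiv.toMonoidHom σ).eqLocus (MonoidHom.id X), ∃ g ∈ (MulEquiv.toMonoidHom (σ ^ e)).eqLocus (MonoidHom.id X), ∃ a : X,
        g = a * (σ a)⁻¹ ∧ ((σ ^ e) a)⁻¹ * a = x) := by
  have key : ∀ (n : ℕ) (g a : X), g = a * (σ a)⁻¹ →
      ((List.range n).map (fun i => (σ ^ i) g)).prod = a * ((σ ^ n) a)⁻¹ := by
    intro n g a h
    induction n with
    | zero => simp
    | succ n ih =>
      rw [List.range_succ, List.map_append, List.prod_append, ih]
      simp [h, pow_succ, MulAut.mul_apply, mul_assoc]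
  have comm : ∀ a : X, σ ((σ ^ e) a) = (σ ^ e) (σ a) := by
    intro a
    rw [← MulAut.mul_apply, ← MulAut.mul_apply, (Commute.refl σ).pow_right e]
  have hmem : ∀ (τ : MulAut X) (k : X),
      k ∈ (MulEquiv.toMonoidHom τ).eqLocus (MonoidHom.id X) ↔ τ k = k := fun _ _ => Iff.rfl
  simp only [hmem] at *
  have hx : ∀ g : X, (σ ^ e) g = g → ∀ a : X, g = a * (σ a)⁻¹ →
      σ (((σ ^ e) a)⁻¹ * a) = ((σ ^ e) a)⁻¹ * a := by
    intro g hg a ha
    rw [ha, map_mul, map_inv, ← comm] at hg
    rw [map_mul, map_inv]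
    have h2 : (σ ((σ ^ e) a))⁻¹ = ((σ ^ e) a)⁻¹ * (a * (σ a)⁻¹) := by
      rw [← hg]; group
    rw [h2]; group
  refine ⟨fun g hg a ha => ⟨hx g hg a ha, by rw [key e g a ha]; group⟩, ?_, ?_⟩
  · intro g hg g' hg' a b ha hb
    constructor
    · rintro ⟨k, hk, hkg⟩
      refine ⟨b⁻¹ * k * a, ?_, ?_⟩
      · rw [map_mul, map_mul, map_inv]
        rw [ha, hb] at hkg
        have h1 : σ b = σ k * σ a * a⁻¹ * k⁻¹ * b := by
          have h2 := congrArg (fun z => z⁻¹ * b) hkg
          simp only [mul_inv_rev, inv_inv, mul_assoc, inv_mul_cancel, mul_one] at h2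
          simpa [mul_assoc] using h2
        rw [h1]; group
      · have h1 : (σ ^ e) (b⁻¹ * k * a) = b⁻¹ * k * a := by
          have h2 : σ (b⁻¹ * k * a) = b⁻¹ * k * a := by
            rw [map_mul, map_mul, map_inv]
            rw [ha, hb] at hkg
            have h1 : σ b = σ k * σ a * a⁻¹ * k⁻¹ * b := by
              have h2 := congrArg (fun z => z⁻¹ * b) hkg
              simp only [mul_inv_rev, inv_inv, mul_assoc, inv_mul_cancel, mul_one] at h2
              simpa [mul_assoc] using h2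
            rw [h1]; group
          clear hkg
          induction e with
          | zero => simp
          | succ n ih =>
            rw [pow_succ, MulAut.mul_apply, h2]
            have h3 : ∀ n : ℕ, (σ ^ n) (b⁻¹ * k * a) = b⁻¹ * k * a := by
              intro n
              induction n with
              | zero => simp
              | succ n ih => rw [pow_succ, MulAut.mul_apply, h2, ih]
            exact h3 n
        rw [map_mul, map_mul, map_inv, hk] at h1
        have h4 : ((σ ^ e) b)⁻¹ = b⁻¹ * k * a * ((σ ^ e) a)⁻¹ * k⁻¹ := by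
          rw [← h1]; group
        rw [h4]; group
    · rintro ⟨h, hh, hx'⟩
      have hhe : ∀ n : ℕ, (σ ^ n) h = h := by
        intro n
        induction n with
        | zero => simp
        | succ n ih => rw [pow_succ, MulAut.mul_apply, hh, ih]
      refine ⟨b * h * a⁻¹, ?_, ?_⟩
      · rw [map_mul, map_mul, map_inv, hhe e]
        have h4 : (σ ^ e) b = b * h * a⁻¹ * (σ ^ e) a * h⁻¹ := by
          have h5 : ((σ ^ e) b)⁻¹ = h * (((σ ^ e) a)⁻¹ * a) * h⁻¹ * b⁻¹ := by
            rw [← hx']; group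
          rw [← inv_inv ((σ ^ e) b), h5]; group
        rw [h4]; group
      · rw [ha, hb, map_mul, map_mul, map_inv, hh]; group
  · intro x hx1
    obtain ⟨c, hc⟩ := hLe x⁻¹
    have hxc : x = (σ ^ e) c * c⁻¹ := by
      rw [← inv_inv x, hc]; group
    have h1 : (σ ^ e) c = x * c := by rw [hxc]; group
    refine ⟨c⁻¹ * (σ c⁻¹)⁻¹, ?_, c⁻¹, rfl, ?_⟩
    · rw [map_inv, inv_inv, map_mul, map_inv, ← comm, h1, map_mul, hx1]; group
    · rw [map_inv, inv_inv, ← hxc]

end Cfsg.Agent.S2666
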