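import Cfsg.Statements.S2668
-- import your own Cfsg.Agent.* helpers here

set_option autoImplicit false
open Cfsg

namespace Cfsg.Agent.S2668

/-- Shintani descent and powers (abstract form). Let `σ` be an automorphism of a group `X`, `e ≥ 1` and `d ≥ 1`, let `g` be fixed by `σᵉ` and let `a` satisfy `g = a σ(a)⁻¹`, so that the Shintani map of `(X, σ, e)` sends the class of `g σ` to the class of `x = σᵉ(a)⁻¹ a`. Put `h = g σ(g) ⋯ σ^(d-1)(g)`, the part in `X` of the `d`-th power `(g σ)^d = h σ^d`. Then `h = a σ^d(a)⁻¹` (so `a` also serves for `h` with respect to `σ^d`), `h` is fixed by `(σ^d)ᵉ`, and `(σ^d)ᵉ(a)⁻¹ a = x^d`: the Shintani map of `(X, σ^d, e)` sends the class of `(g σ)^d` to the class of `x^d`. (When `d` divides `e`, the Shintani map of `(X, σ^d, e/d)` sends it to the class of `x` itself, since `(σ^d)^(e/d) = σᵉ`.) -/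
theorem result {X : Type*} [Group X] (σ : MulAut X) (e d : ℕ) (he : 1 ≤ e) (hd : 1 ≤ d)
    (g : X) (hg : g ∈ (MulEquiv.toMonoidHom (σ ^ e)).eqLocus (MonoidHom.id X)) (a : X) (ha : g = a * (σ a)⁻¹) :
    ((List.range d).map (fun i => (σ ^ i) g)).prod = a * ((σ ^ d) a)⁻¹ ∧
      ((List.range d).map (fun i => (σ ^ i) g)).prod ∈ (MulEquiv.toMonoidHom ((σ ^ d) ^ e)).eqLocus (MonoidHom.id X) ∧
      (((σ ^ d) ^ e) a)⁻¹ * a = (((σ ^ e) a)⁻¹ * a) ^ d := by
  have key : ∀ n : ℕ, ((List.range n).map (fun i => (σ ^ i) g)).prod = a * ((σ ^ n) a)⁻¹ := by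
    intro n
    induction n with
    | zero => simp
    | succ n ih =>
      rw [List.range_succ, List.map_append, List.prod_append, ih]
      simp [ha, pow_succ, MulAut.mul_apply, mul_assoc]
  have hmem : ∀ (τ : MulAut X) (k : X),
      k ∈ (MulEquiv.toMonoidHom τ).eqLocus (MonoidHom.id X) ↔ τ k = k := fun _ _ => Iff.rfl
  simp only [hmem] at *
  have comm : ∀ (i j : ℕ) (z : X), (σ ^ i) ((σ ^ j) z) = (σ ^ j) ((σ ^ i) z) := by
    intro i j z
    rw [← MulAut.mul_apply, ← MulAut.mul_apply, ← pow_add, ← pow_add, add_comm]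
  have hx : σ (((σ ^ e) a)⁻¹ * a) = ((σ ^ e) a)⁻¹ * a := by
    rw [ha, map_mul, map_inv] at hg
    have h1 := comm e 1 a
    simp only [pow_one] at h1
    rw [h1] at hg
    rw [map_mul, map_inv]
    have h2 : (σ ((σ ^ e) a))⁻¹ = ((σ ^ e) a)⁻¹ * (a * (σ a)⁻¹) := by
      rw [← hg]; group
    rw [h2]; group
  have hgall : ∀ n : ℕ, (σ ^ (e * n)) g = g := by
    intro n
    induction n with
    | zero => simp
    | succ n ih => rw [Nat.mul_succ, pow_add, MulAut.mul_apply, hg, ih]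
  have hxall : ∀ n : ℕ, (σ ^ n) (((σ ^ e) a)⁻¹ * a) = ((σ ^ e) a)⁻¹ * a := by
    intro n
    induction n with
    | zero => simp
    | succ n ih => rw [pow_succ, MulAut.mul_apply, hx, ih]
  refine ⟨key d, ?_, ?_⟩
  · rw [← pow_mul, map_list_prod, List.map_map]
    congr 1
    apply List.map_congr_left
    intro i _
    show (σ ^ (d * e)) ((σ ^ i) g) = (σ ^ i) g
    rw [comm, mul_comm d e, hgall]
  · rw [← pow_mul, mul_comm d e, pow_mul]
    have h1 : ∀ n : ℕ, (((σ ^ e) ^ n) a)⁻¹ * a = (((σ ^ e) a)⁻¹ * a) ^ n := by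
      intro n
      induction n with
      | zero => simp
      | succ n ih =>
        have h2 := hxall (e * n)
        rw [map_mul, map_inv, pow_mul] at h2
        have h3 : ((((σ ^ e) ^ n) ((σ ^ e) a)))⁻¹ = ((σ ^ e) a)⁻¹ * a * (((σ ^ e) ^ n) a)⁻¹ := by
          rw [← h2]; group
        rw [pow_succ (σ ^ e), MulAut.mul_apply, h3, mul_assoc, ih, ← pow_succ']
    exact h1 d

end Cfsg.Agent.S2668
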