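import Cfsg.Statements.S2669
-- import your own Cfsg.Agent.* helpers here

set_option autoImplicit false
open Cfsg

namespace Cfsg.Agent.S2669

/-- Shintani descent preserves numbers of fixed points on coset spaces (abstract form). Let `σ` be an automorphism of a group `X` and `e ≥ 1`; write `G` for the fixed points of `σᵉ` and `H` for the fixed points of `σ`, and assume `G` is finite. Let `Y` be a `σ`-stable subgroup of `X` on which the maps `a ↦ a σ(a)⁻¹` and `a ↦ a σᵉ(a)⁻¹` are surjective (as for a closed connected `σ`-stable subgroup of an algebraic group). Let `g ∈ G`, let `a ∈ X` satisfy `g = a σ(a)⁻¹` and put `x = σᵉ(a)⁻¹ a` (the Shintani image, an element of `H`). The element `g σ` of the semidirect product acts on the cosets of `Y ∩ G` in `G` by `k (Y ∩ G) ↦ g σ(k) (Y ∩ G)`, fixing that coset exactly when `k⁻¹ g σ(k) ∈ Y`; and `x` fixes the coset `h (Y ∩ H)`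 of `H` exactly when `h⁻¹ x h ∈ Y`. Then the two numbers of fixed cosets agree; in cross-multiplied form, `#{k ∈ G : k⁻¹ g σ(k) ∈ Y} · |Y ∩ H| = #{h ∈ H : h⁻¹ x h ∈ Y} · |Y ∩ G|`. -/
theorem result {X : Type*} [Group X] (σ : MulAut X) (e : ℕ) (he : 1 ≤ e)
    [Finite ↥((MulEquiv.toMonoidHom (σ ^ e)).eqLocus (MonoidHom.id X))]
    (Y : Subgroup X) (hY : ∀ y : X, y ∈ Y ↔ σ y ∈ Y)
    (hYL : ∀ y ∈ Y, ∃ a ∈ Y, y = a * (σ a)⁻¹) (hYLe : ∀ y ∈ Y, ∃ a ∈ Y, y = a * ((σ ^ e) a)⁻¹)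
    (g : X) (hg : g ∈ (MulEquiv.toMonoidHom (σ ^ e)).eqLocus (MonoidHom.id X)) (a : X) (ha : g = a * (σ a)⁻¹) :
    Nat.card {k : ↥((MulEquiv.toMonoidHom (σ ^ e)).eqLocus (MonoidHom.id X)) // (k : X)⁻¹ * g * σ k ∈ Y} *
        Nat.card ↥(Y ⊓ (MulEquiv.toMonoidHom σ).eqLocus (MonoidHom.id X)) =
      Nat.card {h : ↥((MulEquiv.toMonoidHom σ).eqLocus (MonoidHom.id X)) // (h : X)⁻¹ * (((σ ^ e) a)⁻¹ * a) * h ∈ Y} *
        Nat.card ↥(Y ⊓ (MulEquiv.toMonoidHom (σ ^ e)).eqLocus (MonoidHom.id X)) := by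
  classical
  simp only [MulEquiv.toMonoidHom_eq_coe] at *
  set G : Subgroup X := ((σ ^ e : MulAut X) : X →* X).eqLocus (MonoidHom.id X) with hGdef
  set H : Subgroup X := (σ : X →* X).eqLocus (MonoidHom.id X) with hHdef
  have memG : ∀ k : X, k ∈ G ↔ (σ ^ e) k = k := fun k => Iff.rfl
  have memH : ∀ k : X, k ∈ H ↔ σ k = k := fun k => Iff.rfl
  have hHe : ∀ (n : ℕ) (k : X), k ∈ H → (σ ^ n) k = k := by
    intro n k hk
    induction n with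
    | zero => simp
    | succ n ih => rw [pow_succ, MulAut.mul_apply, (memH k).mp hk, ih]
  have hHG : H ≤ G := fun k hk => hHe e k hk
  have hx : σ (((σ ^ e) a)⁻¹ * a) = ((σ ^ e) a)⁻¹ * a := by
    have hg' : (σ ^ e) g = g := hg
    rw [ha, map_mul, map_inv] at hg'
    have h1 : (σ ^ e) (σ a) = σ ((σ ^ e) a) := by
      rw [← MulAut.mul_apply, ← MulAut.mul_apply, (Commute.refl σ).pow_right e]
    rw [h1] at hg'
    rw [map_mul, map_inv]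
    have h2 : (σ ((σ ^ e) a))⁻¹ = ((σ ^ e) a)⁻¹ * (a * (σ a)⁻¹) := by
      rw [← hg']; group
    rw [h2]; group
  have hxe := hHe e _ ((memH _).mpr hx)
  haveI hfH : Finite H := Finite.of_injective (Subgroup.inclusion hHG) (Subgroup.inclusion_injective hHG)
  -- pairs (k, h) with b := k⁻¹ a h in Y
  have e1 : {k : G // (k : X)⁻¹ * g * σ k ∈ Y} × ↥(Y ⊓ H) ≃
      {p : G × H // (p.1 : X)⁻¹ * a * p.2 ∈ Y} := by
    have hb : ∀ k : {k : G // (k : X)⁻¹ * g * σ k ∈ Y}, ∃ b, b ∈ Y ∧ a⁻¹ * ((k : G) : X) * b ∈ H := by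
      intro k
      obtain ⟨b, hb, hb2⟩ := hYL _ k.2
      refine ⟨b, hb, (memH _).mpr ?_⟩
      have hb3 : ((k : G) : X)⁻¹ * (a * (σ a)⁻¹) * σ ((k : G) : X) = b * (σ b)⁻¹ := by
        rw [← hb2]; simp only [← ha]
      have h1 : σ b = (((k : G) : X)⁻¹ * (a * (σ a)⁻¹) * σ ((k : G) : X))⁻¹ * b := by
        rw [hb3]; group
      rw [map_mul, map_mul, map_inv, h1]; group
    choose b hbY hbH using hb
    refine Equiv.ofBijective (fun p => ⟨(p.1.1, ⟨a⁻¹ * ((p.1 : G) : X) * b p.1 * p.2,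
      H.mul_mem (hbH p.1) (Subgroup.mem_inf.mp p.2.2).2⟩), ?_⟩) ⟨?_, ?_⟩
    · have : ((p.1 : G) : X)⁻¹ * a * (a⁻¹ * ((p.1 : G) : X) * b p.1 * p.2) = b p.1 * p.2 := by group
      simpa [this] using Y.mul_mem (hbY p.1) (Subgroup.mem_inf.mp p.2.2).1
    · rintro ⟨k, y⟩ ⟨k', y'⟩ h
      simp only [Subtype.mk.injEq, Prod.mk.injEq] at h
      obtain ⟨h1, h2⟩ := h
      have hk : k = k' := Subtype.ext h1
      subst hk
      simpa using Subtype.ext (mul_left_cancel h2)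
    · rintro ⟨⟨k, h⟩, hkh⟩
      have hh : σ (h : X) = h := h.2
      have hk : (k : X)⁻¹ * g * σ k ∈ Y := by
        have h1 : (k : X)⁻¹ * g * σ k = ((k : X)⁻¹ * a * h) * (σ ((k : X)⁻¹ * a * h))⁻¹ := by
          rw [ha, map_mul, map_mul, map_inv, hh]; group
        rw [h1]
        exact Y.mul_mem hkh (Y.inv_mem ((hY _).mp hkh))
      refine ⟨(⟨k, hk⟩, ⟨(b ⟨k, hk⟩)⁻¹ * ((k : X)⁻¹ * a * h), Subgroup.mem_inf.mpr
        ⟨Y.mul_mem (Y.inv_mem (hbY _)) hkh, ?_⟩⟩), ?_⟩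
      · have h1 : (b ⟨k, hk⟩)⁻¹ * ((k : X)⁻¹ * a * h) = (a⁻¹ * (k : X) * b ⟨k, hk⟩)⁻¹ * h := by group
        rw [h1]
        exact H.mul_mem (H.inv_mem (hbH ⟨k, hk⟩)) h.2
      · apply Subtype.ext
        refine Prod.ext rfl (Subtype.ext ?_)
        show a⁻¹ * (k : X) * b ⟨k, hk⟩ * ((b ⟨k, hk⟩)⁻¹ * ((k : X)⁻¹ * a * h)) = h
        group
  have hYn : ∀ (n : ℕ) (y : X), y ∈ Y ↔ (σ ^ n) y ∈ Y := by
    intro n y
    induction n with
    | zero => simp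
    | succ n ih => rw [pow_succ', MulAut.mul_apply, ← hY]; exact ih
  have hYe := hYn e
  have e2 : {h : H // (h : X)⁻¹ * (((σ ^ e) a)⁻¹ * a) * h ∈ Y} × ↥(Y ⊓ G) ≃
      {p : G × H // (p.1 : X)⁻¹ * a * p.2 ∈ Y} := by
    have hb : ∀ h : {h : H // (h : X)⁻¹ * (((σ ^ e) a)⁻¹ * a) * h ∈ Y}, ∃ b, b ∈ Y ∧ a * ((h : H) : X) * b ∈ G := by
      intro h
      obtain ⟨c, hc, hc2⟩ := hYLe _ (Y.inv_mem h.2)
      refine ⟨c, hc, (memG _).mpr ?_⟩
      have h1 : (σ ^ e) c = ((h : H) : X)⁻¹ * (((σ ^ e) a)⁻¹ * a) * ((h : H) : X) * c := by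
        rw [← inv_inv (((h : H) : X)⁻¹ * (((σ ^ e) a)⁻¹ * a) * ((h : H) : X)), hc2]; group
      rw [map_mul, map_mul, hHe e _ (h : H).2, h1]; group
    choose b hbY hbG using hb
    refine Equiv.ofBijective (fun p => ⟨(⟨a * ((p.1 : H) : X) * b p.1 * p.2,
      G.mul_mem (hbG p.1) (Subgroup.mem_inf.mp p.2.2).2⟩, p.1.1), ?_⟩) ⟨?_, ?_⟩
    · show (a * ((p.1 : H) : X) * b p.1 * p.2)⁻¹ * a * ((p.1 : H) : X) ∈ Y
      have : (a * ((p.1 : H) : X) * b p.1 * p.2)⁻¹ * a * ((p.1 : H) : X) = (b p.1 * p.2)⁻¹ := by group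
      rw [this]
      exact Y.inv_mem (Y.mul_mem (hbY p.1) (Subgroup.mem_inf.mp p.2.2).1)
    · rintro ⟨h, y⟩ ⟨h', y'⟩ hh
      simp only [Subtype.mk.injEq, Prod.mk.injEq] at hh
      obtain ⟨h1, h2⟩ := hh
      have hk : h = h' := Subtype.ext h2
      subst hk
      simpa using Subtype.ext (mul_left_cancel h1)
    · rintro ⟨⟨k, h⟩, hkh⟩
      have hk : (k : X)⁻¹ * a * h ∈ Y := hkh
      have hke : (σ ^ e) (k : X) = k := k.2
      have hv : (h : X)⁻¹ * (((σ ^ e) a)⁻¹ * a) * h ∈ Y := by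
        have h1 : (h : X)⁻¹ * (((σ ^ e) a)⁻¹ * a) * h =
            ((σ ^ e) ((k : X)⁻¹ * a * h))⁻¹ * ((k : X)⁻¹ * a * h) := by
          rw [map_mul, map_mul, map_inv, hke, hHe e _ h.2]; group
        rw [h1]
        exact Y.mul_mem (Y.inv_mem ((hYe _).mp hk)) hk
      refine ⟨(⟨h, hv⟩, ⟨(b ⟨h, hv⟩)⁻¹ * ((k : X)⁻¹ * a * h)⁻¹, Subgroup.mem_inf.mpr
        ⟨Y.mul_mem (Y.inv_mem (hbY _)) (Y.inv_mem hk), ?_⟩⟩), ?_⟩
      · have h1 : (b ⟨h, hv⟩)⁻¹ * ((k : X)⁻¹ * a * h)⁻¹ = (a * (h : X) * b ⟨h, hv⟩)⁻¹ * k := by group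
        rw [h1]
        exact G.mul_mem (G.inv_mem (hbG ⟨h, hv⟩)) k.2
      · apply Subtype.ext
        refine Prod.ext (Subtype.ext ?_) rfl
        show a * (h : X) * b ⟨h, hv⟩ * ((b ⟨h, hv⟩)⁻¹ * ((k : X)⁻¹ * a * h)⁻¹) = k
        group
  rw [← Nat.card_prod, ← Nat.card_prod]
  exact Nat.card_congr (e1.trans e2.symm)

end Cfsg.Agent.S2669
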