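import Cfsg.Statements.S2670
import Cfsg.Agent.Lib.Classes.PGLPrimeClasses

set_option autoImplicit false
open Cfsg

namespace Cfsg.Agent.S2670

/-- Number of conjugacy classes of elements of prime order r in PGL_n(q) = GL_n(q)/scalars when r divides q − 1 (n ≥ 2): the classes of elements with a diagonalisable lift correspond to the orbits of the cyclic rotation on the r-tuples of eigenvalue multiplicities (a_0, …, a_(r−1)) summing to n with every a_j < n, and when r divides n there are r − 1 further classes (lifts acting irreducibly on blocks of size r); in all (C(n+r−1, r−1) − r − [r ∣ n])/r + r·[r ∣ n] classes. -/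
theorem result {F : Type*} [Field F] [Fintype F] {q : ℕ} (hF : Fintype.card F = q) {n r : ℕ} (hn : 2 ≤ n) (hr : r.Prime) (hrq : r ∣ q - 1) : Nat.card {C : ConjClasses (GL (Fin n) F ⧸ Subgroup.center (GL (Fin n) F)) // ∃ g : GL (Fin n) F ⧸ Subgroup.center (GL (Fin n) F), ConjClasses.mk g = C ∧ orderOf g = r} = (Nat.choose (n + r - 1) (r - 1) - r - (if r ∣ n then 1 else 0)) / r + r * (if r ∣ n then 1 else 0) := by
  have h1 := CfsgLib.Classes.PGLPrime.card_orbits (n := n) (r := r) (by omega) hr
  rw [CfsgLib.Classes.PGLPrime.card_classes hn hr (hF ▸ hrq)]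
  generalize hO : Nat.card (Quotient (AddAction.orbitRel (ZMod r) (CfsgLib.Classes.PGLPrime.NC r n))) = o at *
  generalize Nat.choose (n + r - 1) (r - 1) - r = X at *
  obtain ⟨r', rfl⟩ : ∃ r', r = r' + 1 := ⟨r - 1, by have := hr.pos; omega⟩
  simp only [Nat.add_sub_cancel] at *
  by_cases hd : r' + 1 ∣ n
  · simp only [if_pos hd, mul_one] at *
    rcases o with _ | o
    · rcases Nat.eq_zero_or_pos r' with h | h
      · exact absurd (by rw [h]) hr.ne_one
      · omega
    · have hX : X - 1 = o * (r' + 1) := by rw [add_mul] at h1; omega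
      rw [hX, Nat.mul_div_cancel _ (Nat.succ_pos r')]
      omega
  · simp only [if_neg hd, mul_zero, Nat.add_zero, Nat.sub_zero] at *
    rw [← h1, Nat.mul_div_cancel _ (Nat.succ_pos r')]

end Cfsg.Agent.S2670
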