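import Cfsg.Statements.S2671
import Cfsg.Agent.Lib.Classes.GUPrimeClasses

set_option autoImplicit false
open Cfsg

namespace Cfsg.Agent.S2671

/-- Number of conjugacy classes of elements of odd prime order r in the general unitary group GU_n(q), for r not dividing q(q + 1): let i be the multiplicative order of q modulo r, b = i if i is odd and b = i/2 if i is even, and s = (r − 1)/b. If i ≢ 2 (mod 4) the eigenvalue orbits pair off into dual pairs of totally isotropic blocks and there are C(⌊n/(2b)⌋ + s/2, s/2) − 1 classes; if i ≡ 2 (mod 4) each orbit gives a non-degenerate block of dimension i/2 and there are C(⌊2n/i⌋ + s, s) − 1 classes. -/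
theorem result {K : Type*} [Field K] [Fintype K] {p q n r i b s : ℕ} [Fact p.Prime] [CharP K p] (hK : Fintype.card K = q ^ 2) (hr : r.Prime) (hr2 : r ≠ 2) (hrp : r ≠ p) (hi : i = orderOf (q : ZMod r)) (hi2 : i ≠ 2) (hb : b = if Odd i then i else i / 2) (hs : s * b = r - 1) : Nat.card {C : ConjClasses ↥(Cfsg.GU n K q) // ∃ g : ↥(Cfsg.GU n K q), ConjClasses.mk g = C ∧ orderOf g = r} = if i % 4 = 2 then Nat.choose (2 * n / i + s) s - 1 else Nat.choose (n / (2 * b) + s / 2) (s / 2) - 1 := by
  haveI : Fact r.Prime := ⟨hr⟩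
  obtain ⟨f, hf, -⟩ := CfsgLib.Classes.GUPrime.exists_eq_pow (p := p) (K := K) Fact.out hK
  have hq0 : (q : ZMod r) ≠ 0 := by
    rw [hf, Nat.cast_pow]
    refine pow_ne_zero _ fun h => ?_
    rw [ZMod.natCast_eq_zero_iff] at h
    exact hrp ((Nat.prime_dvd_prime_iff_eq hr Fact.out).1 h)
  rw [CfsgLib.Classes.GUPrime.card_classes hK hr hrp (Units.mk0 _ (neg_ne_zero.2 hq0)) rfl,
    ← orderOf_units, Units.val_mk0]
  have hneg : orderOf (-1 : ZMod r) = 2 := by
    rw [orderOf_neg_one, if_neg]
    rw [ringChar.eq (ZMod r) r]; exact hr2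
  have hi0 : 0 < i := by rw [hi, ← Units.val_mk0 hq0, orderOf_units]; exact orderOf_pos _
  have hr1 : Even (r - 1) := hr.even_sub_one hr2
  rcases Nat.even_or_odd i with he | ho
  · obtain ⟨k, hk⟩ := he
    have hhalf : (q : ZMod r) ^ k = -1 := by
      have h2 : ((q : ZMod r) ^ k) ^ 2 = 1 := by
        rw [← pow_mul, show k * 2 = i by omega, hi, pow_orderOf_eq_one]
      rcases sq_eq_one_iff.1 h2 with h | h
      · exact absurd h (pow_ne_one_of_lt_orderOf (by omega) (by omega))
      · exact h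
    have hd : orderOf (-(q : ZMod r)) = i / Nat.gcd i (k + 1) := by
      rw [show -(q : ZMod r) = (q : ZMod r) ^ (k + 1) by rw [pow_succ, hhalf, neg_one_mul],
        orderOf_pow' _ (by omega), ← hi]
    rw [if_neg (Nat.not_odd_iff_even.2 ⟨k, hk⟩)] at hb
    have hg2 : Nat.gcd i (k + 1) ∣ 2 := by
      have h1 : Nat.gcd i (k + 1) ∣ (k + 1) * 2 := (Nat.gcd_dvd_right _ _).mul_right 2
      have := Nat.dvd_sub h1 (Nat.gcd_dvd_left i (k + 1))
      rwa [show (k + 1) * 2 - i = 2 by omega] at this
    by_cases h4 : i % 4 = 2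
    · have hg : Nat.gcd i (k + 1) = 2 := Nat.dvd_antisymm hg2 (Nat.dvd_gcd (by omega) (by omega))
      rw [if_pos h4, hd, hg, ← hb, ← hs, Nat.mul_div_cancel _ (by omega : 0 < b),
        show 2 * n / i = n / b by rw [show i = 2 * b by omega, Nat.mul_div_mul_left _ _ two_pos]]
    · have hg : Nat.gcd i (k + 1) = 1 := by
        rcases (Nat.dvd_prime Nat.prime_two).1 hg2 with h | h
        · exact h
        · have := h ▸ Nat.gcd_dvd_right i (k + 1)
          omega
      rw [if_neg h4, hd, hg, Nat.div_one, show 2 * b = i by omega, ← hs,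
        show s * b / i = s / 2 by
          rw [show i = b * 2 by omega, ← Nat.div_div_eq_div_mul, Nat.mul_div_cancel _ (by omega : 0 < b)]]
  · rw [if_pos ho] at hb
    have hd : orderOf (-(q : ZMod r)) = 2 * b := by
      rw [← neg_one_mul, (Commute.all _ _).orderOf_mul_eq_mul_orderOf_of_coprime (by
        rw [hneg, ← hi]; exact (Nat.coprime_two_left.2 ho)), hneg, ← hi, hb]
    rw [if_neg (by obtain ⟨k, hk⟩ := ho; omega), hd, ← hs, mul_comm 2 b, ← Nat.div_div_eq_div_mul (s * b),
      Nat.mul_div_cancel _ (by omega : 0 < b)]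

end Cfsg.Agent.S2671
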