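import Cfsg.Statements.S2672
import Cfsg.Agent.Lib.Derangements.PGUPrimeClasses

set_option autoImplicit false
open Cfsg

namespace Cfsg.Agent.S2672

/-- Number of conjugacy classes of elements of odd prime order r in PGU_n(q) = GU_n(q)/scalars (n ≥ 3) when r divides q + 1: as in the linear case with q − 1 replaced by q + 1, the classes correspond to the rotation orbits on r-tuples of eigenvalue multiplicities summing to n with every entry < n, plus r − 1 further classes when r divides n; in all (C(n+r−1, r−1) − r − [r ∣ n])/r + r·[r ∣ n]. -/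
theorem result {K : Type*} [Field K] [Fintype K] {q n r : ℕ} (hK : Fintype.card K = q ^ 2) (hn : 3 ≤ n) (hr : r.Prime) (hr2 : r ≠ 2) (hrq : r ∣ q + 1) : Nat.card {C : ConjClasses (↥(Cfsg.GU n K q) ⧸ Subgroup.center ↥(Cfsg.GU n K q)) // ∃ g : ↥(Cfsg.GU n K q) ⧸ Subgroup.center ↥(Cfsg.GU n K q), ConjClasses.mk g = C ∧ orderOf g = r} = (Nat.choose (n + r - 1) (r - 1) - r - (if r ∣ n then 1 else 0)) / r + r * (if r ∣ n then 1 else 0) := by
  have h1 := CfsgLib.Classes.PGLPrime.card_orbits (n := n) (r := r) (by omega) hr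
  rw [CfsgLib.Derangements.PGUPrime.card_classes hK (by omega) hr hr2 hrq]
  generalize hO : Nat.card (Quotient (AddAction.orbitRel (ZMod r) (CfsgLib.Classes.PGLPrime.NC r n))) = o at *
  generalize Nat.choose (n + r - 1) (r - 1) - r = X at *
  obtain ⟨r', rfl⟩ : ∃ r', r = r' + 1 := ⟨r - 1, by have := hr.pos; omega⟩
  simp only [Nat.add_sub_cancel] at *
  by_cases hd : r' + 1 ∣ n
  · simp only [if_pos hd, mul_one] at *
    rcases o with _ | o
    · rcases Nat.eq_zero_or_pos r' with h | h
      · exact absurd (by rw [h]) hr.ne_one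
      · omega
    · have hX : X - 1 = o * (r' + 1) := by rw [add_mul] at h1; omega
      rw [hX, Nat.mul_div_cancel _ (Nat.succ_pos r')]
      omega
  · simp only [if_neg hd, mul_zero, Nat.add_zero, Nat.sub_zero] at *
    rw [← h1, Nat.mul_div_cancel _ (Nat.succ_pos r')]

end Cfsg.Agent.S2672
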