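import Cfsg.Statements.S2673
import Cfsg.Agent.Lib.Derangements.OrthPrimeArith

set_option autoImplicit false
open Cfsg

namespace Cfsg.Agent.S2673

/-- Number of conjugacy classes of elements of odd prime order r ≠ p in the orthogonal group O_(2m+1)(q) of x_0² + Σ x_j y_j, q odd: with i the multiplicative order of q mod r and t = (r − 1)/i, there are C(⌊m/i⌋ + t/2, t/2) − 1 classes if i is odd (dual pairs of totally singular i-blocks) and C(⌊(2m+1)/i⌋ + t, t) − 1 if i is even (elliptic i-blocks). -/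
theorem result {F : Type*} [Field F] [Fintype F] {p q : ℕ} [Fact p.Prime] [CharP F p] (hF : Fintype.card F = q) (hq : Odd q) (m r i t : ℕ) (hr : r.Prime) (hr2 : r ≠ 2) (hrp : r ≠ p) (hi : i = orderOf (q : ZMod r)) (ht : t * i = r - 1) : Nat.card {C : ConjClasses ↥(Cfsg.isometryGroup F (Cfsg.quadFormOdd m F)) // ∃ g : ↥(Cfsg.isometryGroup F (Cfsg.quadFormOdd m F)), ConjClasses.mk g = C ∧ orderOf g = r} = if Odd i then Nat.choose (m / i + t / 2) (t / 2) - 1 else Nat.choose ((2 * m + 1) / i + t) t - 1 := by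
  haveI : Fact r.Prime := ⟨hr⟩
  have hrF : (r : F) ≠ 0 := CfsgLib.Derangements.OrthExpo.cast_ne_zero_of_ne (p := p) hr hrp
  have hq0 : ((Fintype.card F : ℕ) : ZMod r) ≠ 0 := CfsgLib.Derangements.OrthExpo.card_cast_ne_zero (p := p) hr hrp
  have h2 : (2 : F) ≠ 0 := CfsgLib.ClassicalForms.two_ne_zero_of_odd (by rw [Nat.card_eq_fintype_card, hF]; exact hq)
  set uq : (ZMod r)ˣ := Units.mk0 _ hq0
  have hiu : orderOf uq = i := by rw [← orderOf_units, Units.val_mk0, hF, hi]
  obtain ⟨ho, he⟩ := CfsgLib.Derangements.OrthExpo.uu_params hr2 uq hiu ht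
  rw [← show ⇑(CfsgLib.ClassicalForms.qOdd m F) = Cfsg.quadFormOdd m F from funext (CfsgLib.ClassicalForms.qOdd_apply m),
    CfsgLib.Derangements.OrthExpo.card_classes_odd (uq := uq) hr2 hrF h2 rfl m]
  by_cases h : Odd i
  · rw [if_pos h, (ho h).2, (ho h).1, ← Nat.div_div_eq_div_mul, show (2 * m + 1) / 2 = m by omega]
  · rw [if_neg h, (he h).2, (he h).1]

end Cfsg.Agent.S2673
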