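import Cfsg.Statements.S2675
import Cfsg.Agent.Lib.Derangements.OrthPrimeArith

set_option autoImplicit false
open Cfsg

namespace Cfsg.Agent.S2675

/-- Number of conjugacy classes of elements of odd prime order r ≠ p in the orthogonal group O⁻_2m(q) of an elliptic form Σ_(j<m−1) x_j y_j + z₁² + a z₁z₂ + c z₂² (binary part anisotropic, m ≥ 1): with i the multiplicative order of q mod r and t = (r − 1)/i — if i is odd, C(⌊m/i⌋ + t/2, t/2) − 1 minus, when i divides m, the C(m/i + t/2 − 1, t/2 − 1) tuples filling the whole space (dual pairs of totally singular blocks fill a hyperbolic space); if i is even, C(⌊2m/i⌋ + t, t) − 1 minus, when i divides 2m with even quotient, the C(2m/i + t − 1, t − 1) tuples filling the whole space with an even number of elliptic blocks. -/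
theorem result {F : Type*} [Field F] [Fintype F] {p q : ℕ} [Fact p.Prime] [CharP F p] (hF : Fintype.card F = q) (m r i t : ℕ) (hm : 1 ≤ m) (a c : F) (hac : ∀ z₁ z₂ : F, z₁ ^ 2 + a * z₁ * z₂ + c * z₂ ^ 2 = 0 → z₁ = 0 ∧ z₂ = 0) (hr : r.Prime) (hr2 : r ≠ 2) (hrp : r ≠ p) (hi : i = orderOf (q : ZMod r)) (ht : t * i = r - 1) : Nat.card {C : ConjClasses ↥(Cfsg.isometryGroup F (Cfsg.quadFormMinus (m - 1) F a c)) // ∃ g : ↥(Cfsg.isometryGroup F (Cfsg.quadFormMinus (m - 1) F a c)), ConjClasses.mk g = C ∧ orderOf g = r} = if Odd i then Nat.choose (m / i + t / 2) (t / 2) - 1 - (if i ∣ m then Nat.choose (m / i + t / 2 - 1) (t / 2 - 1) else 0) else Nat.choose (2 * m / i + t) t - 1 - (if i ∣ 2 * m ∧ Even (2 * m / i) then Nat.choose (2 * m / i + t - 1) (t - 1) else 0) := by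
  haveI : Fact r.Prime := ⟨hr⟩
  have hrF : (r : F) ≠ 0 := CfsgLib.Derangements.OrthExpo.cast_ne_zero_of_ne (p := p) hr hrp
  have hq0 : ((Fintype.card F : ℕ) : ZMod r) ≠ 0 := CfsgLib.Derangements.OrthExpo.card_cast_ne_zero (p := p) hr hrp
  set uq : (ZMod r)ˣ := Units.mk0 _ hq0
  have hiu : orderOf uq = i := by rw [← orderOf_units, Units.val_mk0, hF, hi]
  have huq : (uq : ZMod r) = (q : ZMod r) := by rw [Units.val_mk0, hF]
  obtain ⟨ho, he⟩ := CfsgLib.Derangements.OrthExpo.uu_params hr2 uq hiu ht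
  obtain ⟨hpo, hpe⟩ := CfsgLib.Derangements.OrthExpo.pow_full uq (m := m) hiu
  have hD : CfsgLib.Derangements.OrthType.HasDisc (CfsgLib.ClassicalForms.qMinus (m - 1) F a c)
      ((-1) * (Nat.card F : ℤ) ^ m) := by
    have h := CfsgLib.Derangements.OrthType.hasDisc_qMinus (F := F) (a := a) (b := c) hac (m - 1)
    rwa [show m - 1 + 1 = m by omega, ← neg_one_mul] at h
  rw [← show ⇑(CfsgLib.ClassicalForms.qMinus (m - 1) F a c) = Cfsg.quadFormMinus (m - 1) F a c from
      funext (CfsgLib.ClassicalForms.qMinus_apply (m - 1) a c),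
    CfsgLib.Derangements.OrthExpo.card_classes_even (uq := uq) hr2 hrF
      (CfsgLib.ClassicalForms.nondeg_iff_polarBilin.2 (CfsgLib.ClassicalForms.nondeg_qMinus (a := a) (b := c) hac (m - 1)))
      rfl hm (by simp; omega) (ε := -1) (Or.inr rfl) hD, neg_one_mul, Int.cast_neg, Int.cast_pow,
    Int.cast_natCast, Nat.card_eq_fintype_card, hF, ← huq]
  by_cases h : Odd i
  · rw [if_pos h, (ho h).2, (ho h).1, Nat.mul_div_mul_left _ _ two_pos]
    simp only [Nat.mul_dvd_mul_iff_left two_pos]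
    by_cases hd : i ∣ m
    · haveI : Fact (2 < r) := ⟨by have := hr.two_le; omega⟩
      simp only [hd, if_true, hpo h hd, if_neg (ZMod.neg_one_ne_one (n := r))]
      rw [Nat.sub_right_comm]
    · simp [hd]
  · rw [if_neg h, (he h).2, (he h).1]
    by_cases hd : i ∣ 2 * m
    · simp only [hd, if_true, true_and, hpe h hd, (CfsgLib.Derangements.OrthExpo.signed_one hr2 _).2,
        ← Nat.not_odd_iff_even]
      rw [Nat.sub_right_comm]
      split_ifs <;> rfl
    · simp [hd]

end Cfsg.Agent.S2675
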