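import Cfsg.Statements.S2677
import Cfsg.Agent.Lib.ReflectionsSpinor.PSUFieldAut

set_option autoImplicit false
open Cfsg

namespace Cfsg.Agent.S2677

/-- Centraliser of a field automorphism of odd prime order in PGU_n(q): let q = q₀^r with r an odd prime, K the field with q² elements and σ a field automorphism of K of order r (fixed field of order q₀²). The elements g of GU_n(q) whose entrywise image under σ is a scalar multiple of g — those whose coset modulo the q + 1 unitary scalars is fixed by σ — number (q + 1)/(q₀ + 1) · |GU_n(q₀)|; equivalently the centraliser in PGU_n(q) of the induced automorphism has the order of PGU_n(q₀). -/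
theorem result {K : Type*} [Field K] [Fintype K] {q₀ q r n : ℕ} (hr : r.Prime) (hr2 : r ≠ 2) (hn : 1 ≤ n) (hq : q = q₀ ^ r) (hK : Fintype.card K = q ^ 2) (σ : K ≃+* K) (hσ : orderOf σ = r) : (Nat.card {g : ↥(Cfsg.GU n K q) // ∃ c : K, c ≠ 0 ∧ ((g : GL (Fin n) K) : Matrix (Fin n) (Fin n) K).map σ = c • ((g : GL (Fin n) K) : Matrix (Fin n) (Fin n) K)} : ℤ) = ((q + 1) / (q₀ + 1) : ℕ) * ((q₀ : ℤ) ^ (n * (n - 1) / 2) * ∏ i : Fin n, ((q₀ : ℤ) ^ ((i : ℕ) + 1) - (-1) ^ ((i : ℕ) + 1))) := by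
  have hodd : Odd r := hr.odd_of_ne_two hr2
  have h := CfsgLib.ReflectionsSpinor.PSUAut.card_fixed_up_to_scalar (n := n) hK hn σ hσ hodd hq
  set K₀ := CfsgLib.ReflectionsSpinor.fixedField σ
  have hK₀ : Nat.card K₀ = q₀ ^ 2 := by
    have h1 := CfsgLib.ReflectionsSpinor.card_eq_fixedField_pow σ hσ
    rw [Nat.card_eq_fintype_card, hK, hq, ← pow_mul, mul_comm r 2, pow_mul] at h1
    exact Nat.pow_left_injective hr.ne_zero h1.symm
  obtain ⟨d, hd⟩ : q₀ + 1 ∣ q + 1 := by
    rw [hq]; simpa using hodd.nat_add_dvd_pow_add_pow q₀ 1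
  rw [hd, mul_assoc, mul_comm _ (q₀ + 1)] at h
  rw [hd, Nat.mul_div_cancel_left _ (Nat.succ_pos _)]
  rw [Nat.eq_of_mul_eq_mul_left (Nat.succ_pos _) h, CfsgLib.ClassicalForms.card_gu hK₀ n]
  push_cast
  rw [← Fin.prod_univ_eq_prod_range]
  push_cast
  congr 2
  refine Finset.prod_congr rfl fun i _ => ?_
  rcases Nat.even_or_odd (i : ℕ) with he | ho
  · rw [if_pos he, he.add_one.neg_one_pow]; push_cast; ring
  · rw [if_neg (Nat.not_even_iff_odd.2 ho), ho.add_one.neg_one_pow]
    have : 1 ≤ q₀ ^ ((i : ℕ) + 1) := Nat.one_le_pow _ _ (by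
      have := CfsgLib.ClassicalForms.two_le_q hK₀; omega)
    push_cast [this]; ring

end Cfsg.Agent.S2677
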