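import Cfsg.Statements.S2678
import Cfsg.Agent.Lib.ReflectionsSpinor.QuadExt

set_option autoImplicit false
open Cfsg

namespace Cfsg.Agent.S2678

open Matrix

variable {F K : Type*} [Field F] [Field K] [Algebra F K]

lemma exists_descent [FiniteDimensional F K] [Algebra.IsSeparable F K] (a : ℕ)
    (b : Module.Basis (Fin 2) F K) :
    ∃ φ : ↥(Matrix.symplecticGroup (Fin a) K) →* ↥(Matrix.symplecticGroup (Fin (2 * a)) F),
      Function.Injective φ := by
  classical
  set L := Algebra.leftMulMatrix b with hL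
  set S := Algebra.traceMatrix F b with hS
  have hSdet : S.det ≠ 0 := by rw [hS, Algebra.traceMatrix_of_basis]; exact det_traceForm_ne_zero b
  have hSsym : Sᵀ = S := by
    ext i j
    simp [hS, Algebra.traceMatrix_apply, Algebra.traceForm_apply, mul_comm]
  -- trace form identity
  have hSL : ∀ x : K, (L x)ᵀ * S = S * L x := by
    intro x
    have h1 : ∀ (i j : Fin 2), (S * L x) i j = Algebra.trace F K (b i * (x * b j)) := by
      intro i j
      conv_rhs => rw [← b.sum_repr (x * b j), Finset.mul_sum, map_sum]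
      rw [Matrix.mul_apply]
      refine Finset.sum_congr rfl fun k _ => ?_
      rw [hL, Algebra.leftMulMatrix_eq_repr_mul, mul_smul_comm, map_smul, smul_eq_mul, hS,
        Algebra.traceMatrix_apply, Algebra.traceForm_apply, mul_comm]
    ext i j
    have h2 : ((L x)ᵀ * S) i j = (S * L x) j i := by
      conv_lhs => rw [← hSsym, ← Matrix.transpose_mul, Matrix.transpose_apply]
    rw [h2, h1, h1, mul_comm (b j), mul_left_comm (b i) x, mul_assoc]
  have hT : ∀ x : K, S⁻¹ * (L x)ᵀ = L x * S⁻¹ := by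
    intro x
    have hu : IsUnit S.det := isUnit_iff_ne_zero.mpr hSdet
    calc S⁻¹ * (L x)ᵀ = S⁻¹ * ((L x)ᵀ * S) * S⁻¹ := by
          rw [Matrix.mul_assoc, Matrix.mul_assoc, Matrix.mul_nonsing_inv _ hu, Matrix.mul_one]
      _ = L x * S⁻¹ := by rw [hSL, ← Matrix.mul_assoc, Matrix.nonsing_inv_mul _ hu, Matrix.one_mul]
  let ι := Fin a ⊕ Fin a
  -- entrywise descent
  let Φ : Matrix ι ι K →+* Matrix (ι × Fin 2) (ι × Fin 2) F :=
    ((Matrix.compRingEquiv ι (Fin 2) F).toRingHom).comp L.toRingHom.mapMatrix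
  have hΦ : ∀ (X : Matrix ι ι K) (i j : ι) (k l : Fin 2), Φ X (i, k) (j, l) = L (X i j) k l :=
    fun _ _ _ _ _ => rfl
  let C := Matrix.compRingEquiv ι (Fin 2) F
  have hΦC : ∀ X : Matrix ι ι K, Φ X = C (X.map L) := fun _ => rfl
  have hCT : ∀ M : Matrix ι ι (Matrix (Fin 2) (Fin 2) F), (C M)ᵀ = C ((Mᵀ).map Matrix.transpose) :=
    fun M => rfl
  let T : Matrix (ι × Fin 2) (ι × Fin 2) F := C (Matrix.diagonal fun _ => S⁻¹)
  have hTΦ : ∀ X : Matrix ι ι K, T * (Φ X)ᵀ = Φ Xᵀ * T := by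
    intro X
    rw [hΦC, hΦC, hCT, ← map_mul, ← map_mul]
    congr 1
    ext i j : 1
    simp only [Matrix.diagonal_mul, Matrix.mul_diagonal, Matrix.map_apply, Matrix.transpose_apply]
    exact hT _
  -- change of basis on the second half
  let dP : ι → Matrix (Fin 2) (Fin 2) F := Sum.elim (fun _ => 1) (fun _ => S)
  let dQ : ι → Matrix (Fin 2) (Fin 2) F := Sum.elim (fun _ => 1) (fun _ => S⁻¹)
  let P : Matrix (ι × Fin 2) (ι × Fin 2) F := C (Matrix.diagonal dP)
  let Q : Matrix (ι × Fin 2) (ι × Fin 2) F := C (Matrix.diagonal dQ)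
  have hu : IsUnit S.det := isUnit_iff_ne_zero.mpr hSdet
  have hPQ : P * Q = 1 := by
    rw [show P * Q = C (Matrix.diagonal dP * Matrix.diagonal dQ) from (map_mul C _ _).symm,
      Matrix.diagonal_mul_diagonal, ← map_one C, ← Matrix.diagonal_one]
    congr 2; funext i
    rcases i with i | i <;> simp [dP, dQ, Matrix.mul_nonsing_inv _ hu]
  have hQP : Q * P = 1 := mul_eq_one_comm.mp hPQ
  -- index reshuffle
  let e : Fin (2 * a) ⊕ Fin (2 * a) ≃ ι × Fin 2 :=
    ((Equiv.sumCongr ((finCongr (mul_comm 2 a)).trans finProdFinEquiv.symm)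
      ((finCongr (mul_comm 2 a)).trans finProdFinEquiv.symm))).trans
      (Equiv.sumProdDistrib (Fin a) (Fin a) (Fin 2)).symm
  let E : Matrix (ι × Fin 2) (ι × Fin 2) F →* Matrix (Fin (2 * a) ⊕ Fin (2 * a)) (Fin (2 * a) ⊕ Fin (2 * a)) F :=
    (Matrix.reindexAlgEquiv F F e.symm).toMulEquiv.toMonoidHom
  let Ψ : Matrix ι ι K → Matrix (ι × Fin 2) (ι × Fin 2) F := fun X => P * Φ X * Q
  have hΨmul : ∀ X Y, Ψ (X * Y) = Ψ X * Ψ Y := by
    intro X Y
    simp only [Ψ, map_mul]
    calc P * (Φ X * Φ Y) * Q = P * Φ X * (Q * P) * Φ Y * Q := by rw [hQP]; simp [Matrix.mul_assoc]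
      _ = _ := by simp only [Matrix.mul_assoc]
  have hΨone : Ψ 1 = 1 := by simp [Ψ, hPQ]
  -- the standard form
  have hQJ : Q * (Matrix.reindex e e (Matrix.J (Fin (2 * a)) F)) * Qᵀ = Φ (Matrix.J (Fin a) K) * T := by
    have hJe : Matrix.reindex e e (Matrix.J (Fin (2 * a)) F) =
        Φ (Matrix.J (Fin a) K) := by
      ext ⟨i, k⟩ ⟨j, l⟩
      rw [hΦ]
      rcases i with i | i <;> rcases j with j | j <;>
        simp [Matrix.J, e, Matrix.fromBlocks, Matrix.one_apply, Equiv.sumProdDistrib, Prod.ext_iff,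
          Equiv.symm_apply_eq] <;> split_ifs <;> simp_all [map_neg, Matrix.one_apply]
    rw [hJe, hΦC, hCT, ← map_mul, ← map_mul, ← map_mul]
    congr 1
    ext i j : 1
    have hsymI : S⁻¹ᵀ = S⁻¹ := by rw [Matrix.transpose_nonsing_inv, hSsym]
    rw [Matrix.mul_diagonal, Matrix.diagonal_transpose, Matrix.diagonal_map Matrix.transpose_zero,
      Matrix.mul_diagonal, Matrix.diagonal_mul, Matrix.map_apply]
    rcases i with i | i <;> rcases j with j | j <;>
      simp [dQ, Matrix.J, Matrix.fromBlocks, Matrix.one_apply, hsymI] <;> split_ifs <;> simp [hsymI]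
  have hPJ : P * (Φ (Matrix.J (Fin a) K) * T) * Pᵀ = Matrix.reindex e e (Matrix.J (Fin (2 * a)) F) := by
    rw [← hQJ]
    have : (Q : Matrix _ _ F)ᵀ * Pᵀ = 1 := by rw [← Matrix.transpose_mul, hPQ, Matrix.transpose_one]
    calc P * (Q * Matrix.reindex e e (Matrix.J (Fin (2 * a)) F) * Qᵀ) * Pᵀ
        = (P * Q) * Matrix.reindex e e (Matrix.J (Fin (2 * a)) F) * (Qᵀ * Pᵀ) := by simp only [Matrix.mul_assoc]
      _ = _ := by rw [hPQ, this, Matrix.one_mul, Matrix.mul_one]
  have hmem : ∀ X : Matrix ι ι K, X ∈ Matrix.symplecticGroup (Fin a) K →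
      E (Ψ X) ∈ Matrix.symplecticGroup (Fin (2 * a)) F := by
    intro X hX
    rw [SymplecticGroup.mem_iff] at hX ⊢
    have h1 : Ψ X * Matrix.reindex e e (Matrix.J (Fin (2 * a)) F) * (Ψ X)ᵀ =
        Matrix.reindex e e (Matrix.J (Fin (2 * a)) F) := by
      calc Ψ X * Matrix.reindex e e (Matrix.J (Fin (2 * a)) F) * (Ψ X)ᵀ
          = P * (Φ X * (Q * Matrix.reindex e e (Matrix.J (Fin (2 * a)) F) * Qᵀ) * (Φ X)ᵀ) * Pᵀ := by
            simp only [Ψ, Matrix.transpose_mul, Matrix.mul_assoc]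
        _ = P * (Φ (X * Matrix.J (Fin a) K * Xᵀ) * T) * Pᵀ := by
            rw [hQJ, map_mul, map_mul, Matrix.mul_assoc (Φ X * Φ _) (Φ _) T, ← hTΦ]
            simp only [Matrix.mul_assoc]
        _ = _ := by rw [hX, hPJ]
    have h2 := congrArg (fun M => M.submatrix e e) h1
    simpa [E, Matrix.reindex_apply, Matrix.submatrix_mul_equiv, Matrix.transpose_submatrix,
      ← Matrix.submatrix_mul_equiv (e₂ := e)] using h2
  let φ : ↥(Matrix.symplecticGroup (Fin a) K) →* ↥(Matrix.symplecticGroup (Fin (2 * a)) F) :=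
    { toFun := fun X => ⟨E (Ψ X), hmem X X.2⟩
      map_one' := by apply Subtype.ext; show E (Ψ 1) = 1; rw [hΨone, map_one]
      map_mul' := fun X Y => by apply Subtype.ext; show E (Ψ _) = E _ * E _; rw [← map_mul, ← hΨmul]; rfl }
  refine ⟨φ, fun X Y h => ?_⟩
  have h1 : Ψ X.1 = Ψ Y.1 := (Matrix.reindexAlgEquiv F F e.symm).injective (congrArg Subtype.val h)
  have h2 : Φ X.1 = Φ Y.1 := by
    have := congrArg (fun M => Q * M * P) h1
    simpa [Ψ, ← Matrix.mul_assoc, hQP, Matrix.mul_assoc _ Q P] using this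
  apply Subtype.ext
  ext i j
  exact Algebra.leftMulMatrix_injective b (Matrix.ext fun k l => by rw [← hΦ, h2, hΦ])

/-- Field-extension embedding of symplectic groups: for a field K with q² elements and a field F with q elements there is an injective homomorphism Sp_2a(K) → Sp_4a(F). -/
theorem result {K F : Type*} [Field K] [Fintype K] [Field F] [Fintype F] {q : ℕ} (hK : Fintype.card K = q ^ 2) (hF : Fintype.card F = q) (a : ℕ) : ∃ φ : ↥(Matrix.symplecticGroup (Fin a) K) →* ↥(Matrix.symplecticGroup (Fin (2 * a)) F), Function.Injective φ := by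
  obtain ⟨φ₀⟩ := CfsgLib.ReflectionsSpinor.exists_ringHom_of_card hF hK
  letI := φ₀.toAlgebra
  let b : Module.Basis (Fin 2) F K :=
    Module.finBasisOfFinrankEq F K (CfsgLib.ReflectionsSpinor.finrank_eq_of_card hF hK)
  exact exists_descent a b

end Cfsg.Agent.S2678
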