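import Cfsg.Statements.S2679
import Cfsg.Agent.Lib.ReflectionsSpinor.QuadExt
import Cfsg.Agent.Lib.ReflectionsSpinor.BaseChange

set_option autoImplicit false
open Cfsg

namespace Cfsg.Agent.S2679

open Matrix

variable {F K : Type*} [Field F] [Field K] [Algebra F K]

lemma exists_root_quad [Finite K] (a c : F)
    (hac : ∀ z₁ z₂ : F, z₁ ^ 2 + a * z₁ * z₂ + c * z₂ ^ 2 = 0 → z₁ = 0 ∧ z₂ = 0)
    (h2 : Module.finrank F K = 2) : ∃ r : K, r ^ 2 + algebraMap F K a * r + algebraMap F K c = 0 := by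
  open Polynomial in
  let P : Polynomial F := X ^ 2 + (C a * X + C c)
  have hdeg : P.natDegree = 2 := by
    simp only [P]; compute_degree!
  have hirr : Irreducible P := by
    have hmonic : P.Monic := by simp only [P]; monicity!
    rw [Polynomial.Monic.irreducible_iff_roots_eq_zero_of_degree_le_three hmonic (by omega) (by omega)]
    refine Multiset.eq_zero_of_forall_notMem fun x hx => ?_
    have h := (Polynomial.mem_roots hmonic.ne_zero).mp hx
    simp [P, Polynomial.IsRoot] at h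
    exact one_ne_zero (hac x 1 (by linear_combination h)).2
  haveI := Fact.mk hirr
  have hfr : Module.finrank F (AdjoinRoot P) = 2 := by
    rw [(AdjoinRoot.powerBasis hirr.ne_zero).finrank, AdjoinRoot.powerBasis_dim, hdeg]
  obtain ⟨ψ⟩ := FiniteField.nonempty_algHom_of_finrank_dvd (F := F) (K := AdjoinRoot P) (L := K)
    (by rw [hfr, h2])
  refine ⟨ψ (AdjoinRoot.root P), ?_⟩
  have := congrArg ψ (AdjoinRoot.eval₂_root P)
  simp only [P, Polynomial.eval₂_add, Polynomial.eval₂_mul, Polynomial.eval₂_pow, Polynomial.eval₂_X,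
    Polynomial.eval₂_C, map_add, map_mul, map_pow, map_zero, AlgHom.commutes,
    ← AdjoinRoot.algebraMap_eq] at this
  linear_combination this

lemma root_sep [Fintype F] (a c : F)
    (hac : ∀ z₁ z₂ : F, z₁ ^ 2 + a * z₁ * z₂ + c * z₂ ^ 2 = 0 → z₁ = 0 ∧ z₂ = 0)
    (r : K) (hr : r ^ 2 + algebraMap F K a * r + algebraMap F K c = 0) :
    (-algebraMap F K a - r) - r ≠ 0 := by
  intro h
  have hrF : ∀ x : F, algebraMap F K x = r → False := by
    intro x hx
    rw [← hx] at hr
    exact one_ne_zero (hac x 1 ((algebraMap F K).injective (by simpa using hr))).2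
  by_cases h2 : (2 : F) = 0
  · have h2K : (2 : K) = 0 := by rw [← map_ofNat (algebraMap F K) 2, h2, map_zero]
    have ha : algebraMap F K a = 0 := by linear_combination -h + (-r) * h2K
    haveI : CharP F 2 := CharTwo.of_one_ne_zero_of_two_eq_zero one_ne_zero h2
    obtain ⟨s, hs⟩ := FiniteField.isSquare_of_char_two (ringChar.eq F 2) c
    have hs' : algebraMap F K c = algebraMap F K s * algebraMap F K s := by rw [hs, map_mul]
    refine hrF s ?_
    have h3 : (algebraMap F K s - r) ^ 2 = 0 := by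
      linear_combination hr - r * ha - hs' + (-r * algebraMap F K s) * h2K
    exact sub_eq_zero.mp (pow_eq_zero_iff two_ne_zero |>.mp h3)
  · refine hrF (-a / 2) ?_
    have h2K : (2 : K) ≠ 0 := by
      rw [← map_ofNat (algebraMap F K) 2]; exact fun h' => h2 ((algebraMap F K).injective (h'.trans (map_zero _).symm))
    rw [map_div₀, map_neg, map_ofNat, div_eq_iff h2K]
    linear_combination h

abbrev minusMat (n : ℕ) {R : Type*} [CommRing R] (a c : R) :
    Matrix ((Fin n ⊕ Fin n) ⊕ Fin 2) ((Fin n ⊕ Fin n) ⊕ Fin 2) R :=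
  Matrix.fromBlocks (Matrix.fromBlocks 0 1 0 0) 0 0 !![1, a; 0, c]

lemma minusMat_eval (n : ℕ) {R : Type*} [Field R] (a c : R) (v : (Fin n ⊕ Fin n) ⊕ Fin 2 → R) :
    v ⬝ᵥ (minusMat n a c *ᵥ v) = Cfsg.quadFormMinus n R a c v := by
  simp [minusMat, Cfsg.quadFormMinus, dotProduct, Matrix.mulVec, Fintype.sum_sum_type, Fin.sum_univ_two,
    Matrix.one_apply, Matrix.fromBlocks]
  ring

lemma isometry_map (n : ℕ) (a c : F) (g : GL ((Fin n ⊕ Fin n) ⊕ Fin 2) F)
    (hg : g ∈ Cfsg.isometryGroup F (Cfsg.quadFormMinus n F a c)) (v : (Fin n ⊕ Fin n) ⊕ Fin 2 → K) :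
    Cfsg.quadFormMinus n K (algebraMap F K a) (algebraMap F K c)
        ((g : Matrix _ _ F).map (algebraMap F K) *ᵥ v) =
      Cfsg.quadFormMinus n K (algebraMap F K a) (algebraMap F K c) v := by
  have h : ∀ w, w ⬝ᵥ (((g : Matrix _ _ F)ᵀ * minusMat n a c * (g : Matrix _ _ F)) *ᵥ w) =
      w ⬝ᵥ (minusMat n a c *ᵥ w) := fun w => by
    rw [minusMat_eval, ← Matrix.mulVec_mulVec, ← Matrix.mulVec_mulVec, Matrix.dotProduct_mulVec,
      Matrix.vecMul_transpose, minusMat_eval]
    exact hg w w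
  have := CfsgLib.ReflectionsSpinor.dotProduct_mulVec_map_eq (algebraMap F K) _ _ h v
  have hM : (minusMat n a c).map (algebraMap F K) = minusMat n (algebraMap F K a) (algebraMap F K c) := by
    ext i j
    rcases i with (i | i) | i <;> rcases j with (j | j) | j <;>
      simp [minusMat, Matrix.fromBlocks, Matrix.one_apply, apply_ite (algebraMap F K)]
    all_goals (fin_cases i <;> fin_cases j <;> simp)
  rw [Matrix.map_mul, Matrix.map_mul, hM, Matrix.transpose_map, minusMat_eval, ← Matrix.mulVec_mulVec,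
    ← Matrix.mulVec_mulVec, Matrix.dotProduct_mulVec, Matrix.vecMul_transpose, minusMat_eval] at this
  exact this

lemma exists_hyperbolic (n : ℕ) (a c : F) (r : K)
    (hr : r ^ 2 + algebraMap F K a * r + algebraMap F K c = 0) (hne : (-algebraMap F K a - r) - r ≠ 0) :
    ∃ φ : ↥(Cfsg.isometryGroup F (Cfsg.quadFormMinus n F a c)) →*
      ↥(Cfsg.isometryGroup K (Cfsg.quadFormPlus (n + 1) K)), Function.Injective φ := by
  classical
  set r' := -algebraMap F K a - r with hr'
  let e : (Fin n ⊕ Fin n) ⊕ Fin 2 ≃ Fin (n + 1) ⊕ Fin (n + 1) :=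
    ((Equiv.sumCongr (Equiv.refl _) (finSumFinEquiv (m := 1) (n := 1)).symm).trans
      (Equiv.sumSumSumComm _ _ _ _)).trans (Equiv.sumCongr finSumFinEquiv finSumFinEquiv)
  let T : Matrix ((Fin n ⊕ Fin n) ⊕ Fin 2) ((Fin n ⊕ Fin n) ⊕ Fin 2) K :=
    Matrix.fromBlocks 1 0 0 !![1, -r; 1, -r']
  have hdet : IsUnit T.det := by
    simp only [T, Matrix.det_fromBlocks_zero₂₁, Matrix.det_one, one_mul, Matrix.det_fin_two_of, mul_one]
    exact isUnit_iff_ne_zero.mpr fun h => hne (by linear_combination -h)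
  let Tg : GL ((Fin n ⊕ Fin n) ⊕ Fin 2) K := Matrix.GeneralLinearGroup.mk'' T hdet
  have hQ : ∀ v, Cfsg.quadFormPlus (n + 1) K ((T *ᵥ v) ∘ e.symm) =
      Cfsg.quadFormMinus n K (algebraMap F K a) (algebraMap F K c) v := by
    intro v
    have e1 : ∀ i : Fin n, e.symm (.inl i.castSucc) = .inl (.inl i) ∧ e.symm (.inr i.castSucc) = .inl (.inr i) :=
      fun i => ⟨e.symm_apply_eq.mpr (by simp [e, Fin.castSucc, Fin.castAdd]),
        e.symm_apply_eq.mpr (by simp [e, Fin.castSucc, Fin.castAdd])⟩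
    have e2 : e.symm (.inl (Fin.last n)) = .inr 0 ∧ e.symm (.inr (Fin.last n)) = .inr 1 :=
      ⟨e.symm_apply_eq.mpr rfl, e.symm_apply_eq.mpr rfl⟩
    have hv : T *ᵥ v = Sum.elim (v ∘ Sum.inl) (!![1, -r; 1, -r'] *ᵥ (v ∘ Sum.inr)) := by
      rw [Matrix.fromBlocks_mulVec]; simp
    simp only [Cfsg.quadFormPlus, Cfsg.quadFormMinus, Fin.sum_univ_castSucc, Function.comp_apply,
      fun i => (e1 i).1, fun i => (e1 i).2, e2.1, e2.2, hv, Sum.elim_inl, Sum.elim_inr]
    simp [Matrix.mulVec, dotProduct, Fin.sum_univ_two, hr']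
    linear_combination (-v (.inr 1) ^ 2) * hr
  let R : GL ((Fin n ⊕ Fin n) ⊕ Fin 2) K →* GL (Fin (n + 1) ⊕ Fin (n + 1)) K :=
    Units.map (Matrix.reindexAlgEquiv K K e).toMulEquiv.toMonoidHom
  let Ψ : GL ((Fin n ⊕ Fin n) ⊕ Fin 2) F →* GL (Fin (n + 1) ⊕ Fin (n + 1)) K :=
    R.comp ((MulAut.conj Tg).toMonoidHom.comp (Matrix.GeneralLinearGroup.map (algebraMap F K)))
  have hΨ : Function.Injective Ψ := by
    intro x y h
    have h1 := Units.map_injective (f := (Matrix.reindexAlgEquiv K K e).toMulEquiv.toMonoidHom)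
      (Matrix.reindexAlgEquiv K K e).injective h
    have h2 := (MulAut.conj Tg).injective h1
    refine Units.ext (Matrix.map_injective (algebraMap F K).injective ?_)
    exact congrArg Units.val h2
  have hmem : ∀ g : ↥(Cfsg.isometryGroup F (Cfsg.quadFormMinus n F a c)),
      Ψ g.1 ∈ Cfsg.isometryGroup K (Cfsg.quadFormPlus (n + 1) K) := by
    intro g u _
    set M := (Units.val g.1).map (algebraMap F K) with hM
    have hΨv : ((Ψ g.1 : GL _ K) : Matrix _ _ K) = Matrix.reindex e e (T * M * (Units.val Tg⁻¹)) := rfl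
    show Cfsg.quadFormPlus (n + 1) K ((Ψ g.1 : Matrix _ _ K) *ᵥ u) = Cfsg.quadFormPlus (n + 1) K u
    set w := (Units.val Tg⁻¹) *ᵥ (u ∘ e) with hw
    have hu : u = (T *ᵥ w) ∘ e.symm := by
      rw [hw, Matrix.mulVec_mulVec, show T * (Units.val Tg⁻¹) = 1 from Tg.mul_inv, Matrix.one_mulVec]
      funext i; simp
    rw [hΨv, Matrix.reindex_apply, Matrix.submatrix_mulVec_equiv, Equiv.symm_symm, ← Matrix.mulVec_mulVec,
      ← hw, ← Matrix.mulVec_mulVec]
    rw [hQ, isometry_map n a c g.1 g.2, ← hQ, ← hu]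
  exact ⟨(Ψ.comp (Subgroup.subtype _)).codRestrict _ hmem,
    fun x y h => Subtype.ext (hΨ (congrArg Subtype.val h))⟩

/-- An elliptic orthogonal group embeds in the hyperbolic orthogonal group of the same dimension over the quadratic extension: for a field F with q elements and a field K with q² elements there is an injective homomorphism from O⁻_2m(F) (isometries of Σ_(j<m−1) x_j y_j + z₁² + a z₁z₂ + c z₂², binary part anisotropic) to O⁺_2m(K) (isometries of Σ_(j<m) x_j y_j over K). -/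
theorem result {F K : Type*} [Field F] [Fintype F] [Field K] [Fintype K] {q : ℕ} (hF : Fintype.card F = q) (hK : Fintype.card K = q ^ 2) {m : ℕ} (hm : 1 ≤ m) (a c : F) (hac : ∀ z₁ z₂ : F, z₁ ^ 2 + a * z₁ * z₂ + c * z₂ ^ 2 = 0 → z₁ = 0 ∧ z₂ = 0) : ∃ φ : ↥(Cfsg.isometryGroup F (Cfsg.quadFormMinus (m - 1) F a c)) →* ↥(Cfsg.isometryGroup K (Cfsg.quadFormPlus m K)), Function.Injective φ := by
  classical
  obtain ⟨φ₀⟩ := CfsgLib.ReflectionsSpinor.exists_ringHom_of_card hF hK
  letI := φ₀.toAlgebra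
  obtain ⟨r, hr⟩ := exists_root_quad a c hac (CfsgLib.ReflectionsSpinor.finrank_eq_of_card hF hK)
  set A := algebraMap F K a
  set C := algebraMap F K c
  have hne : (-A - r) - r ≠ 0 := root_sep a c hac r hr
  obtain ⟨n, rfl⟩ : ∃ n, m = n + 1 := ⟨m - 1, by omega⟩
  exact exists_hyperbolic n a c r hr hne

end Cfsg.Agent.S2679
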