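import Cfsg.Statements.S2682
import Cfsg.Agent.Lib.Classes.SympInvolutionCentralizer

set_option autoImplicit false
open Cfsg

namespace Cfsg.Agent.S2682

/-- Centraliser order of an involution t of Sp_2m(q), q even, with s = rank(t − 1) even and f(v, tv) ≠ 0 for some v, f the symplectic form (type c_s): |C(t)| = q^(2ms − (3s² − 3s)/2 − 1) · |Sp_(s−2)(q)| · |Sp_(2m−2s)(q)|. -/
theorem result {F : Type*} [Field F] [Fintype F] [CharP F 2] {q : ℕ} (hF : Fintype.card F = q) {m s : ℕ} (t : Matrix.symplecticGroup (Fin m) F) (ht : t ^ 2 = 1) (hs : ((t : Matrix (Fin m ⊕ Fin m) (Fin m ⊕ Fin m) F) - 1).rank = s) (heven : Even s) (hna : ∃ v : Fin m ⊕ Fin m → F, Cfsg.sympForm m F v ((t : Matrix (Fin m ⊕ Fin m) (Fin m ⊕ Fin m) F).mulVec v) ≠ 0) : Nat.card ↥(Subgroup.centralizer ({t} : Set ↥(Matrix.symplecticGroup (Fin m) F))) = q ^ (2 * m * s - (3 * s ^ 2 - 3 * s) / 2 - 1) * ((q : ℕ) ^ (((s - 2) / 2) ^ 2) * ∏ i : Fin ((s - 2)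 / 2), (q ^ (2 * ((i : ℕ) + 1)) - 1)) * ((q : ℕ) ^ ((m - s) ^ 2) * ∏ i : Fin (m - s), (q ^ (2 * ((i : ℕ) + 1)) - 1)) := by
  have hr := CfsgLib.Classes.InvTwo.finrank_spNil t hs
  obtain ⟨v, hv⟩ := hna
  have hnalt : ¬ CfsgLib.Classes.InvTwo.IsAltType (CfsgLib.Omega.sympBilin m F)
      (CfsgLib.Classes.InvTwo.spNil t) := fun h => hv (by
    have h1 := h v
    have h0 := CfsgLib.Omega.sympBilin_self (d := m) v
    simp only [CfsgLib.Classes.InvTwo.spNil, LinearMap.sub_apply, LinearMap.id_apply, Matrix.mulVecLin_apply,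
      map_sub, h0, sub_zero] at h1
    rw [CfsgLib.Omega.sympBilin_apply] at h1
    exact h1)
  obtain ⟨k, rfl⟩ : ∃ k, s = 2 * k + 2 := by
    have hs0 : s ≠ 0 := by
      intro h0
      subst h0
      refine hnalt fun w => ?_
      have hbot := Submodule.finrank_eq_zero.1 hr
      rw [LinearMap.range_eq_bot] at hbot
      rw [hbot, LinearMap.zero_apply, map_zero]
    obtain ⟨j, hj⟩ := heven
    exact ⟨j - 1, by omega⟩
  have h2 := CfsgLib.Classes.InvTwo.two_mul_rank_le (CfsgLib.Forms.sympBilin_nondeg m F)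
    (CfsgLib.Forms.sympBilin_isAlt m F) (CfsgLib.Classes.InvTwo.isNilSelf_spNil t ht)
  rw [hr, Module.finrank_fintype_fun_eq_card, Fintype.card_sum, Fintype.card_fin] at h2
  have hexp : 2 * m * (2 * k + 2) - (3 * (2 * k + 2) ^ 2 - 3 * (2 * k + 2)) / 2 - 1 =
      (2 * m * (2 * k + 2) - (3 * (2 * k + 2) ^ 2 - (2 * k + 2)) / 2) + (2 * k + 1) := by
    obtain ⟨d, rfl⟩ : ∃ d, m = 2 * k + 2 + d := ⟨m - (2 * k + 2), by omega⟩
    ring_nf
    generalize k ^ 2 = X at *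
    generalize k * d = Y at *
    omega
  rw [CfsgLib.Classes.InvTwo.card_centralizer_nonalt t ht hr hnalt, (CfsgLib.Classes.InvTwo.card_orthoMat k).2,
    CfsgLib.ClassicalLinear.card_sp, hF,
    ← Fin.prod_univ_eq_prod_range (fun i => q ^ (2 * (i + 1)) - 1) (m - (2 * k + 2)),
    show (2 * k + 2 - 2) / 2 = k by omega, hexp]
  simp only [pow_add]
  ring

end Cfsg.Agent.S2682
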