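import Cfsg.Statements.S2683
import Cfsg.Agent.Lib.Derangements.OrthInvCentralizerOrders

set_option autoImplicit false
open Cfsg

namespace Cfsg.Agent.S2683

/-- For the hyperbolic form Σ x_j y_j on F^(2m) over a finite field with q elements, q even (excluding m = 2 over the field of two elements), and an involution x of the orthogonal group with s = rank(x − 1) odd (type b_s; such x lie outside Ω): the elements of Ω (the commutator subgroup of the orthogonal group) commuting with x number q^(2m(s−1) − (3s² − 3s)/2) · |Sp_(s−1)(q)| · |Sp_(2m−2s)(q)|, where |Sp_2k(q)| = q^(k²) Π_(i=1)^k (q^(2i) − 1). -/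
theorem result {F : Type*} [Field F] [Fintype F] [CharP F 2] {q : ℕ} (hF : Fintype.card F = q) {m s : ℕ} (h : Fintype.card F ≠ 2 ∨ m ≠ 2) (x : ↥(Cfsg.isometryGroup F (Cfsg.quadFormPlus m F))) (hx : x ^ 2 = 1) (hs : (((x : Matrix.GeneralLinearGroup (Fin m ⊕ Fin m) F) : Matrix (Fin m ⊕ Fin m) (Fin m ⊕ Fin m) F) - 1).rank = s) (hodd : Odd s) : Nat.card {g : ↥(Cfsg.Omega F (Cfsg.quadFormPlus m F)) // (g : ↥(Cfsg.isometryGroup F (Cfsg.quadFormPlus m F))) * x = x * (g : ↥(Cfsg.isometryGroup F (Cfsg.quadFormPlus m F)))} = q ^ (2 * m * (s - 1) - (3 * s ^ 2 - 3 * s) / 2) * ((q : ℕ) ^ (((s - 1) / 2) ^ 2) * ∏ i : Fin ((s - 1) / 2), (q ^ (2 * ((i : ℕ) + 1)) - 1)) * ((q : ℕ) ^ ((m - s) ^ 2) * ∏ i : Fin (m - s), (q ^ (2 * ((i : ℕ) + 1)) - 1)) := by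
  revert x
  rw [← CfsgLib.Classes.coe_hypQ F m]
  intro x hx hs
  have hr := CfsgLib.Derangements.OrthInv.finrank_subOne_of_rank x hs
  obtain ⟨k, rfl⟩ := hodd
  have hN := CfsgLib.Classes.InvTwo.subOne_spec (g := x) (by rw [← sq]; exact hx)
  have ho := CfsgLib.Derangements.OrthInv.orderOf_eq_two hx
    (CfsgLib.Derangements.OrthInv.ne_one_of_finrank hr (by omega))
  have hle := CfsgLib.Derangements.OrthInv.rank_le (CfsgLib.Classes.hypQ_nondegenerate F m) hN hr
  rw [CfsgLib.Derangements.OrthInv.card_omega_centralizer_nonalt h ho hr fun ha => by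
    have he := ha.even_rank (CfsgLib.Classes.hypQ_nondegenerate F m)
      (CfsgLib.Classes.InvTwo.polarBilin_isAlt _) hN.toIsNilSelf
    rw [hr, Nat.even_iff] at he
    omega, (CfsgLib.Classes.InvTwo.card_orthoMat k).1, hF]
  obtain ⟨d, rfl⟩ := Nat.exists_eq_add_of_le hle
  rw [show (2 * k + 1 - 1) / 2 = k by omega]
  congr 3
  have hc := CfsgLib.Derangements.OrthInv.two_mul_choose_two (2 * k + 1)
  rw [Nat.add_sub_cancel_left, Nat.add_sub_cancel,
    show 2 * d * (2 * k) = 4 * (d * k) by ring,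
    show 2 * (2 * k + 1 + d) * (2 * k) = 8 * (k * k) + 4 * k + 4 * (d * k) by ring,
    show 3 * (2 * k + 1) ^ 2 = 12 * (k * k) + 12 * k + 3 by ring]
  rw [show (2 * k + 1) * (2 * k + 1) = 4 * (k * k) + 4 * k + 1 by ring] at hc
  generalize k * k = X at *
  generalize d * k = Y at *
  omega

end Cfsg.Agent.S2683
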