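import Cfsg.Statements.S2685
import Cfsg.Agent.Lib.Derangements.OrthInvCentralizerOrders

set_option autoImplicit false
open Cfsg

namespace Cfsg.Agent.S2685

/-- For the hyperbolic form Q = Σ x_j y_j on F^(2m) over a finite field with q elements, q even (excluding m = 2 over the field of two elements), and an involution x of the orthogonal group with s = rank(x − 1) even and Q not vanishing on the image of x − 1 (f(v, xv) ≠ 0 for some v, where f(u, w) = Q(u + w) − Q(u) − Q(w) is the bilinear form of Q; type c_s, which lies in Ω): its centraliser in Ω (the commutator subgroup of the orthogonal group) has order q^(2m(s−1) − (3s² − 5s)/2 − 1) · |Sp_(s−2)(q)| · |Sp_(2m−2s)(q)|. -/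
theorem result {F : Type*} [Field F] [Fintype F] [CharP F 2] {q : ℕ} (hF : Fintype.card F = q) {m s : ℕ} (h : Fintype.card F ≠ 2 ∨ m ≠ 2) (x : ↥(Cfsg.isometryGroup F (Cfsg.quadFormPlus m F))) (hx : x ^ 2 = 1) (hs : (((x : Matrix.GeneralLinearGroup (Fin m ⊕ Fin m) F) : Matrix (Fin m ⊕ Fin m) (Fin m ⊕ Fin m) F) - 1).rank = s) (heven : Even s) (hna : ∃ v : Fin m ⊕ Fin m → F, Cfsg.quadFormPlus m F ((((x : Matrix.GeneralLinearGroup (Fin m ⊕ Fin m) F) : Matrix (Fin m ⊕ Fin m) (Fin m ⊕ Fin m) F) - 1).mulVec v) ≠ 0) : Nat.card {g : ↥(Cfsg.Omega F (Cfsg.quadFormPlus m F)) // (g : ↥(Cfsg.isometryGroup F (Cfsg.quadFormPlus m F))) * x = x * (g : ↥(Cfsg.isometryGroup F (Cfsg.quadFormPlus m F)))} = q ^ (2 * m * (s - 1) - (3 * s ^ 2 - 5 * s) / 2 - 1) * ((q : ℕ) ^ (((s - 2) / 2) ^ 2) * ∏ i : Fin ((s - 2) / 2), (q ^ (2 * ((i : ℕ) + 1)) - 1)) * ((q : ℕ) ^ ((m - s) ^ 2) * ∏ i : Fin (m - s), (q ^ (2 * ((i : ℕ) + 1)) - 1)) := by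
  revert x
  rw [← CfsgLib.Classes.coe_hypQ F m]
  intro x hx hs hna
  have hr := CfsgLib.Derangements.OrthInv.finrank_subOne_of_rank x hs
  have hN := CfsgLib.Classes.InvTwo.subOne_spec (g := x) (by rw [← sq]; exact hx)
  obtain ⟨v, hv⟩ := hna
  have hv' : CfsgLib.Classes.hypQ F m (CfsgLib.Forms.subOne x v) ≠ 0 := by
    rw [CfsgLib.Forms.subOne_apply]
    rw [Matrix.sub_mulVec, Matrix.one_mulVec] at hv
    exact hv
  have hx1 : x ≠ 1 := fun e => hv' (by
    rw [CfsgLib.Forms.subOne_apply, e, CfsgLib.OrthGen.act_one, sub_self, QuadraticMap.map_zero])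
  have ho := CfsgLib.Derangements.OrthInv.orderOf_eq_two hx hx1
  have hpos := (CfsgLib.Classes.InvTwo.orderOf_two_spec ho).2
  have hle := CfsgLib.Derangements.OrthInv.rank_le (CfsgLib.Classes.hypQ_nondegenerate F m) hN hr
  rw [CfsgLib.Derangements.OrthInv.card_omega_centralizer_nonalt h ho hr fun ha => hv' (by rw [hN.value]; exact ha v)]
  rw [hr] at hpos
  obtain ⟨l, rfl⟩ := heven
  obtain ⟨k, rfl⟩ : ∃ k, l = k + 1 := ⟨l - 1, by omega⟩
  obtain ⟨d, rfl⟩ := Nat.exists_eq_add_of_le hle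
  rw [show k + 1 + (k + 1) = 2 * k + 2 by ring, (CfsgLib.Classes.InvTwo.card_orthoMat k).2, hF,
    show (2 * k + 2 - 2) / 2 = k by omega, ← mul_assoc (q ^ _) (q ^ (2 * k + 1)), ← pow_add]
  congr 3
  have hc := CfsgLib.Derangements.OrthInv.two_mul_choose_two (2 * k + 2)
  rw [Nat.add_sub_cancel_left, show 2 * k + 2 - 1 = 2 * k + 1 by omega,
    show 2 * d * (2 * k + 1) = 4 * (d * k) + 2 * d by ring,
    show 2 * (2 * k + 2 + d) * (2 * k + 1) = 8 * (k * k) + 12 * k + 4 + 4 * (d * k) + 2 * d by ring,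
    show 3 * (2 * k + 2) ^ 2 = 12 * (k * k) + 24 * k + 12 by ring]
  rw [show (2 * k + 2) * (2 * k + 2) = 4 * (k * k) + 8 * k + 4 by ring] at hc
  generalize k * k = X at *
  generalize d * k = Y at *
  omega

end Cfsg.Agent.S2685
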