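import Cfsg.Statements.S2697
import Cfsg.Agent.Lib.ReflectionsSpinor.PSLFieldCent

set_option autoImplicit false
open Cfsg

namespace Cfsg.Agent.S2697

/-- Let T = PSL_n(F) be simple over a finite field (n ≥ 2; |F| ≥ 4 when n = 2) and let x be a field automorphism or a graph-field automorphism of T of prime order r. Then an element y of the coset Inndiag(T)·x (that is, y = δ x with δ in the inner-diagonal group, the image of PGL_n(F)) has order r if and only if y is conjugate to x by an element of Inndiag(T). -/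
theorem result {F : Type*} [Field F] [Fintype F] {p f : ℕ} [Fact p.Prime] (hF : Fintype.card F = p ^ f) (hf : 1 ≤ f) {n : ℕ} (hn : 2 ≤ n) (hs : n = 2 → 4 ≤ Fintype.card F) (x δ : MulAut (Matrix.ProjectiveSpecialLinearGroup (Fin n) F)) (hx : Cfsg.IsFieldAutClassPSL x ∨ Cfsg.IsGraphFieldAutClassPSL x) {r : ℕ} (hr : r.Prime) (hxr : orderOf x = r) (hδ : δ ∈ Cfsg.inndiagPSL n F) :
    orderOf (δ * x) = r ↔ Cfsg.IsConjUnder (Cfsg.inndiagPSL n F) x (δ * x) := by
  have main : ∀ (α x' : MulAut (Matrix.ProjectiveSpecialLinearGroup (Fin n) F)), α * x * α⁻¹ = x' →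
      (∀ δ', δ' ∈ Cfsg.inndiagPSL n F → orderOf x' = r → orderOf (δ' * x') = r →
        Cfsg.IsConjUnder (Cfsg.inndiagPSL n F) x' (δ' * x')) →
      (orderOf (δ * x) = r ↔ Cfsg.IsConjUnder (Cfsg.inndiagPSL n F) x (δ * x)) := by
    intro α x' hα h
    constructor
    · intro ho
      have hx' : orderOf x' = r := by rw [← hα, ← hxr]; exact (MulAut.conj α).orderOf_eq x
      have he : α * (δ * x) * α⁻¹ = (α * δ * α⁻¹) * x' := by rw [← hα]; group
      have h1 := h _ (CfsgLib.ReflectionsSpinor.PSL.conj_mem_inndiag hn α hδ) hx'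
        (by rw [← he, ← ho]; exact (MulAut.conj α).orderOf_eq (δ * x))
      rw [← he, ← hα] at h1
      exact (CfsgLib.ReflectionsSpinor.isConjUnder_conj_iff
        (fun _ h => CfsgLib.ReflectionsSpinor.PSL.conj_mem_inndiag hn α h)
        (fun _ h => CfsgLib.ReflectionsSpinor.PSL.inndiag_conj' hn h)).1 h1
    · rintro ⟨h, -, he⟩
      rw [he, ← hxr]
      exact (MulAut.conj h).orderOf_eq x
  rcases hx with ⟨α, σ, hσ, hstd⟩ | ⟨hn3, α, φ, γ, σ, hσ, hφ, hγ, he⟩
  · refine main α _ rfl fun δ' hδ' hx' ho => ?_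
    rw [CfsgLib.ReflectionsSpinor.PSL.isStdFieldAut_iff.1 hstd] at hx' ho ⊢
    exact (CfsgLib.ReflectionsSpinor.PSL.orderOf_eq_iff_isConjUnder_field hn hx' hδ').1 ho
  · rw [CfsgLib.ReflectionsSpinor.PSL.isStdFieldAut_iff.1 hφ,
      CfsgLib.ReflectionsSpinor.PSL.isInverseTranspose_iff.1 hγ] at he
    refine main α _ he fun δ' hδ' hx' ho => ?_
    obtain rfl := CfsgLib.ReflectionsSpinor.PSL.gf_prime_order_eq_two hn3 hr hx'
    obtain ⟨g, rfl⟩ := CfsgLib.ReflectionsSpinor.PSL.mem_inndiag_iff.1 hδ'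
    have e : CfsgLib.ReflectionsSpinor.PSL.semiAut g 1 *
        (CfsgLib.ReflectionsSpinor.PSL.semiAut 1 σ * CfsgLib.ReflectionsSpinor.PSL.invTr) =
        CfsgLib.ReflectionsSpinor.PSL.semiAut g σ * CfsgLib.ReflectionsSpinor.PSL.invTr := by
      rw [← mul_assoc, CfsgLib.ReflectionsSpinor.PSL.semiAut_mul, map_one, mul_one, one_mul]
    rw [e] at ho ⊢
    exact (CfsgLib.ReflectionsSpinor.PSL.isConjUnder_gf_of_sq_eq_one hn g hσ
      (by rw [← ho]; exact pow_orderOf_eq_one _)).2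

end Cfsg.Agent.S2697
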