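import Cfsg.Statements.S2698
import Cfsg.Agent.Lib.ReflectionsSpinor.PSLFieldCent

set_option autoImplicit false
open Cfsg

namespace Cfsg.Agent.S2698

/-- Let T = PSL_n(F) be simple over the field F with p^f elements (n ≥ 2; p^f ≥ 4 when n = 2), G = Inndiag(T) the image of PGL_n(F) in Aut(T), and x a field automorphism of T of prime order r. Then r divides f; the centralizer C_G(x) is isomorphic to PGL_n(F₀) for the subfield size |F₀| = p^(f/r); and the G-class of x is the union of exactly gcd(n, (p^f − 1)/(p^(f/r) − 1)) classes under conjugation by T (the inner automorphism group). -/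
theorem result {F : Type*} [Field F] [Fintype F] {p f : ℕ} [Fact p.Prime] (hF : Fintype.card F = p ^ f) (hf : 1 ≤ f) {n : ℕ} (hn : 2 ≤ n) (hs : n = 2 → 4 ≤ Fintype.card F) (x : MulAut (Matrix.ProjectiveSpecialLinearGroup (Fin n) F)) (hx : Cfsg.IsFieldAutClassPSL x) {r : ℕ} (hr : r.Prime) (hxr : orderOf x = r) (F₀ : Type*) [Field F₀] [Fintype F₀] (hF₀ : Fintype.card F₀ = p ^ (f / r)) :
    r ∣ f ∧ Nonempty (↥(Cfsg.inndiagPSL n F ⊓ Subgroup.centralizer {x}) ≃* Matrix.ProjGenLinGroup (Fin n) F₀) ∧ Cfsg.splitClassCount (Cfsg.inndiagPSL n F) (Cfsg.Inn (Matrix.ProjectiveSpecialLinearGroup (Fin n) F)) x = Nat.gcd n ((p ^ f - 1) / (p ^ (f / r) - 1)) := by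
  obtain ⟨α, σ, hσ, hstd⟩ := hx
  have he : α * x * α⁻¹ = CfsgLib.ReflectionsSpinor.PSL.semiAut 1 σ :=
    CfsgLib.ReflectionsSpinor.PSL.isStdFieldAut_iff.1 hstd
  have hord : orderOf σ = r := by
    rw [← CfsgLib.ReflectionsSpinor.PSL.orderOf_semiAut_one (n := n) hn σ, ← he, ← hxr]
    exact (MulAut.conj α).orderOf_eq x
  obtain ⟨hrf, hcard⟩ := CfsgLib.ReflectionsSpinor.fixedField_card hF σ hord
  obtain ⟨i, hi, hi'⟩ := CfsgLib.ReflectionsSpinor.exists_hom_onto_fixedField σ F₀ (by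
    rw [hcard, hF₀])
  refine ⟨hrf, ?_, ?_⟩
  · obtain ⟨e⟩ := CfsgLib.ReflectionsSpinor.PSL.nonempty_centralizer_field_equiv (n := n) hn σ i hi hi'
    have e1 := CfsgLib.ReflectionsSpinor.centralizerConjEquiv (H := Cfsg.inndiagPSL n F) (a := α)
      (fun _ h => CfsgLib.ReflectionsSpinor.PSL.conj_mem_inndiag hn α h)
      (fun _ h => CfsgLib.ReflectionsSpinor.PSL.inndiag_conj' hn h) x
    rw [he] at e1
    exact ⟨e1.trans e⟩
  · rw [← CfsgLib.ReflectionsSpinor.PSL.splitClassCount_transport hn α x, he,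
      CfsgLib.ReflectionsSpinor.PSL.split_field hn σ i hi hi']
    simp only [Nat.card_eq_fintype_card, hF, hF₀]

end Cfsg.Agent.S2698
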