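import Cfsg.Statements.S2699
import Cfsg.Agent.Lib.ReflectionsSpinor.GraphEven
import Cfsg.Agent.Lib.ReflectionsSpinor.GraphClassOdd

set_option autoImplicit false
open Cfsg

namespace Cfsg.Agent.S2699

/-- Let T = PSL_n(F) over the field with p^f elements with n ≥ 3 odd, n = 2m + 1, and G = Inndiag(T) the image of PGL_n(F). Every involutory graph automorphism γ of T (an inner-diagonal automorphism followed by inverse-transpose, of order 2) has centralizer C_G(γ) isomorphic to the projective conformal orthogonal group of the form x₀² + Σ xᵢ yᵢ in dimension n (for q even this group is isomorphic to Sp_{n−1}(q)), and any two involutory graph automorphisms are G-conjugate. -/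
theorem result {F : Type*} [Field F] [Fintype F] {p f : ℕ} [Fact p.Prime] (hF : Fintype.card F = p ^ f) (hf : 1 ≤ f) {n : ℕ} (hn : 3 ≤ n) {m : ℕ} (hnm : n = 2 * m + 1) (γ γ' : MulAut (Matrix.ProjectiveSpecialLinearGroup (Fin n) F)) (hγ : Cfsg.IsGraphAutClassPSL γ) (hγ2 : orderOf γ = 2) (hγ' : Cfsg.IsGraphAutClassPSL γ') (hγ'2 : orderOf γ' = 2) :
    Nonempty (↥(Cfsg.inndiagPSL n F ⊓ Subgroup.centralizer {γ}) ≃* Cfsg.PGO F (Cfsg.quadFormOdd m F)) ∧ Cfsg.IsConjUnder (Cfsg.inndiagPSL n F) γ γ' := by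
  have hn2 : 2 ≤ n := by omega
  have hodd : Odd n := ⟨m, hnm⟩
  obtain ⟨A, rfl, hA⟩ := CfsgLib.ReflectionsSpinor.PSL.exists_gr hn γ hγ hγ2
  obtain ⟨A', rfl, hA'⟩ := CfsgLib.ReflectionsSpinor.PSL.exists_gr hn γ' hγ' hγ'2
  let e : Unit ⊕ (Fin m ⊕ Fin m) ≃ Fin n :=
    ((Equiv.sumCongr finOneEquiv.symm finSumFinEquiv).trans finSumFinEquiv).trans (finCongr (by omega))
  by_cases h2 : (2 : F) = 0
  · haveI : CharP F 2 := ringChar.of_eq (CharP.ringChar_of_prime_eq_zero Nat.prime_two (by exact_mod_cast h2))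
    rw [CfsgLib.ReflectionsSpinor.neg_eq_self_matrix, or_self] at hA hA'
    have hc := CfsgLib.ReflectionsSpinor.scalCong_odd hnm e A hA
    have hc' := CfsgLib.ReflectionsSpinor.scalCong_odd hnm e A' hA'
    refine ⟨?_, (CfsgLib.ReflectionsSpinor.PSL.isConjUnder_gr_iff hn2 _ _).2 (hc.trans hc'.symm)⟩
    obtain ⟨E⟩ := CfsgLib.ReflectionsSpinor.PSL.nonempty_centralizer_gr_equiv_of_scalCong hn2 A _ e hc
    obtain ⟨E'⟩ := CfsgLib.ReflectionsSpinor.nonempty_projQuot_oddStd_equiv (F := F) (m := m)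
    obtain ⟨E''⟩ := CfsgLib.ReflectionsSpinor.nonempty_PGO_odd_equiv (F := F) (m := m)
    exact ⟨(E.trans E').trans E''.symm⟩
  · have hsym : ∀ B : GL (Fin n) F,
        ((B : Matrix (Fin n) (Fin n) F).transpose = (B : Matrix (Fin n) (Fin n) F) ∨
          (B : Matrix (Fin n) (Fin n) F).transpose = -(B : Matrix (Fin n) (Fin n) F)) →
        (B : Matrix (Fin n) (Fin n) F).transpose = (B : Matrix (Fin n) (Fin n) F) := by
      rintro B (h | h)
      · exact h
      · exfalso
        have hd := congrArg Matrix.det h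
        rw [Matrix.det_transpose, Matrix.det_neg, Fintype.card_fin, hodd.neg_one_pow, neg_one_mul,
          eq_neg_iff_add_eq_zero, ← two_mul] at hd
        exact ((Matrix.isUnit_iff_isUnit_det _).1 B.isUnit).ne_zero ((mul_eq_zero.1 hd).resolve_left h2)
    have hB : (CfsgLib.Classes.oddMatrix m (1 : F)).det ≠ 0 := by
      rw [CfsgLib.Classes.det_oddMatrix]
      exact mul_ne_zero (by simpa using h2) (pow_ne_zero _ (neg_ne_zero.2 one_ne_zero))
    have hBs : (CfsgLib.ReflectionsSpinor.toGLn e _ hB : Matrix (Fin n) (Fin n) F).transpose =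
        (CfsgLib.ReflectionsSpinor.toGLn e _ hB : Matrix (Fin n) (Fin n) F) := by
      show (Matrix.reindex e e _).transpose = Matrix.reindex e e _
      rw [Matrix.transpose_reindex, CfsgLib.ReflectionsSpinor.transpose_oddMatrix]
    refine ⟨?_, (CfsgLib.ReflectionsSpinor.PSL.isConjUnder_gr_iff hn2 _ _).2
      (CfsgLib.ReflectionsSpinor.scalCong_symm_odd h2 hodd A A' (hsym A hA) (hsym A' hA'))⟩
    obtain ⟨E⟩ := CfsgLib.ReflectionsSpinor.PSL.nonempty_centralizer_gr_equiv_of_scalCong hn2 A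
      (CfsgLib.Classes.oddMatrix m (1 : F)) e
      (CfsgLib.ReflectionsSpinor.scalCong_symm_odd h2 hodd A _ (hsym A hA) hBs)
    rw [← CfsgLib.ReflectionsSpinor.quadSim_odd h2 m] at E
    exact ⟨E⟩

end Cfsg.Agent.S2699
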