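import Cfsg.Statements.S2700
import Cfsg.Agent.Lib.ReflectionsSpinor.GraphClassOdd

set_option autoImplicit false
open Cfsg

namespace Cfsg.Agent.S2700

/-- Let T = PSL_n(F) over a finite field of odd order with n = 2m ≥ 4 even, and G = Inndiag(T) the image of PGL_n(F). The involutory graph automorphisms of T fall into exactly three G-classes, with representatives γ₁, γ₂, γ₃ whose centralizers in G are isomorphic respectively to the projective conformal symplectic group PGSp_n(F), the projective conformal orthogonal group of the plus-type form Σ xᵢ yᵢ, and that of a minus-type form Σ xᵢ yᵢ + z₁² + a z₁ z₂ + b z₂² (anisotropic binary part) in dimension n. -/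
theorem result {F : Type*} [Field F] [Fintype F] (hodd : Odd (Fintype.card F)) {n m : ℕ} (hm : 2 ≤ m) (hnm : n = 2 * m) :
    ∃ (γ₁ γ₂ γ₃ : MulAut (Matrix.ProjectiveSpecialLinearGroup (Fin n) F)) (a b : F), (∀ z₁ z₂ : F, z₁ ^ 2 + a * z₁ * z₂ + b * z₂ ^ 2 = 0 → z₁ = 0 ∧ z₂ = 0) ∧ Cfsg.IsGraphAutClassPSL γ₁ ∧ orderOf γ₁ = 2 ∧ Cfsg.IsGraphAutClassPSL γ₂ ∧ orderOf γ₂ = 2 ∧ Cfsg.IsGraphAutClassPSL γ₃ ∧ orderOf γ₃ = 2 ∧ ¬ Cfsg.IsConjUnder (Cfsg.inndiagPSL n F) γ₁ γ₂ ∧ ¬ Cfsg.IsConjUnder (Cfsg.inndiagPSL n F) γ₁ γ₃ ∧ ¬ Cfsg.IsConjUnder (Cfsg.inndiagPSL n F) γ₂ γ₃ ∧ (∀ γ : MulAut (Matrix.ProjectiveSpecialLinearGroup (Fin n) F), Cfsg.IsGraphAutClassPSL γ → orderOf γ = 2 → Cfsg.IsConjUnder (Cfsg.inndiagPSL n F) γ₁ γ ∨ Cfsg.IsConjUnder (Cfsg.inndiagPSL n F) γ₂ γ ∨ Cfsg.IsConjUnder (Cfsg.inndiagPSL n F) γ₃ γ) ∧ Nonempty (↥(Cfsg.inndiagPSL n F ⊓ Subgroup.centralizer {γ₁}) ≃* Cfsg.PGSp m F) ∧ Nonempty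 (↥(Cfsg.inndiagPSL n F ⊓ Subgroup.centralizer {γ₂}) ≃* Cfsg.PGO F (Cfsg.quadFormPlus m F)) ∧ Nonempty (↥(Cfsg.inndiagPSL n F ⊓ Subgroup.centralizer {γ₃}) ≃* Cfsg.PGO F (Cfsg.quadFormMinus (m - 1) F a b)) := by
  have h2 : (2 : F) ≠ 0 := by
    intro h
    have hp : ringChar F = 2 := CharP.ringChar_of_prime_eq_zero Nat.prime_two (R := F) (by exact_mod_cast h)
    have := FiniteField.even_card_of_char_two hp
    exact (Nat.not_even_iff_odd.2 hodd) (Nat.even_iff.2 this)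
  obtain ⟨k, hk⟩ : ∃ k, m = k + 1 := ⟨m - 1, by omega⟩
  obtain rfl : k = m - 1 := by omega
  have hn2 : 2 ≤ n := by omega
  have hn3 : 3 ≤ n := by omega
  haveI : Nonempty (Fin n) := ⟨⟨0, by omega⟩⟩
  obtain ⟨α, hα⟩ := CfsgLib.ReflectionsSpinor.exists_nonsquare h2
  let e : Fin m ⊕ Fin m ≃ Fin n := finSumFinEquiv.trans (finCongr (by omega))
  let e' : (Fin (m - 1) ⊕ Fin (m - 1)) ⊕ Fin 2 ≃ Fin n :=
    ((Equiv.sumCongr finSumFinEquiv (Equiv.refl _)).trans finSumFinEquiv).trans (finCongr (by omega))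
  have hJd : (Matrix.J (Fin m) F).det ≠ 0 := (Matrix.isUnit_det_J (Fin m) F).ne_zero
  let A₁ := CfsgLib.ReflectionsSpinor.toGLn e _ hJd
  let A₂ := CfsgLib.ReflectionsSpinor.toGLn e _ (CfsgLib.ReflectionsSpinor.det_hyp_ne_zero (F := F) m)
  let A₃ := CfsgLib.ReflectionsSpinor.toGLn e' _ (CfsgLib.ReflectionsSpinor.det_minus_ne_zero h2 (m - 1) hα)
  have h₁ : (A₁ : Matrix (Fin n) (Fin n) F).transpose = -(A₁ : Matrix (Fin n) (Fin n) F) := by
    show (Matrix.reindex e e _).transpose = -Matrix.reindex e e _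
    rw [Matrix.transpose_reindex, Matrix.J_transpose]
    rfl
  have h₂ : (A₂ : Matrix (Fin n) (Fin n) F).transpose = (A₂ : Matrix (Fin n) (Fin n) F) := by
    show (Matrix.reindex e e _).transpose = Matrix.reindex e e _
    rw [Matrix.transpose_reindex, CfsgLib.ReflectionsSpinor.transpose_hypMatrix]
  have h₃ : (A₃ : Matrix (Fin n) (Fin n) F).transpose = (A₃ : Matrix (Fin n) (Fin n) F) := by
    show (Matrix.reindex e' e' _).transpose = Matrix.reindex e' e' _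
    rw [Matrix.transpose_reindex, CfsgLib.ReflectionsSpinor.transpose_minusMatrix]
  have hd₁ : (A₁ : Matrix (Fin n) (Fin n) F).det ≠ 0 :=
    ((Matrix.isUnit_iff_isUnit_det _).1 A₁.isUnit).ne_zero
  refine ⟨CfsgLib.ReflectionsSpinor.PSL.gr A₁, CfsgLib.ReflectionsSpinor.PSL.gr A₂,
    CfsgLib.ReflectionsSpinor.PSL.gr A₃, 0, -α, CfsgLib.ReflectionsSpinor.minus_aniso hα,
    CfsgLib.ReflectionsSpinor.PSL.isGraphAut_gr hn3 _, CfsgLib.ReflectionsSpinor.PSL.orderOf_gr hn3 _ (Or.inr h₁),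
    CfsgLib.ReflectionsSpinor.PSL.isGraphAut_gr hn3 _, CfsgLib.ReflectionsSpinor.PSL.orderOf_gr hn3 _ (Or.inl h₂),
    CfsgLib.ReflectionsSpinor.PSL.isGraphAut_gr hn3 _, CfsgLib.ReflectionsSpinor.PSL.orderOf_gr hn3 _ (Or.inl h₃),
    fun h => CfsgLib.ReflectionsSpinor.not_scalCong_symm_alt h2 hd₁ h₁ h₂
      ((CfsgLib.ReflectionsSpinor.PSL.isConjUnder_gr_iff hn2 _ _).1 h),
    fun h => CfsgLib.ReflectionsSpinor.not_scalCong_symm_alt h2 hd₁ h₁ h₃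
      ((CfsgLib.ReflectionsSpinor.PSL.isConjUnder_gr_iff hn2 _ _).1 h),
    fun h => CfsgLib.ReflectionsSpinor.not_scalCong_plus_minus h2 hk hnm hα e e'
      ((CfsgLib.ReflectionsSpinor.PSL.isConjUnder_gr_iff hn2 _ _).1 h),
    ?_, ?_, ?_, ?_⟩
  · intro γ hγ hγ2
    obtain ⟨A, rfl, hA | hA⟩ := CfsgLib.ReflectionsSpinor.PSL.exists_gr hn3 γ hγ hγ2
    · by_cases hsq : IsSquare ((A : Matrix (Fin n) (Fin n) F).det * (-1) ^ m)
      · exact Or.inr (Or.inl ((CfsgLib.ReflectionsSpinor.PSL.isConjUnder_gr_iff hn2 _ _).2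
          (CfsgLib.ReflectionsSpinor.scalCong_plus h2 (by omega) hnm e A hA hsq).symm))
      · exact Or.inr (Or.inr ((CfsgLib.ReflectionsSpinor.PSL.isConjUnder_gr_iff hn2 _ _).2
          (CfsgLib.ReflectionsSpinor.scalCong_minus h2 hk hnm hα e' A hA hsq).symm))
    · refine Or.inl ((CfsgLib.ReflectionsSpinor.PSL.isConjUnder_gr_iff hn2 _ _).2
        (CfsgLib.ReflectionsSpinor.scalCong_J e A hA fun i => ?_).symm)
      have h := congrFun (congrFun hA i) i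
      rw [Matrix.transpose_apply, Matrix.neg_apply] at h
      exact (mul_eq_zero.1 (show (2 : F) * (A : Matrix (Fin n) (Fin n) F) i i = 0 by linear_combination h)).resolve_left h2
  · obtain ⟨E⟩ := CfsgLib.ReflectionsSpinor.PSL.nonempty_centralizer_gr_equiv_of_scalCong hn2 A₁
      (Matrix.J (Fin m) F) e (CfsgLib.ReflectionsSpinor.ScalCong.refl _)
    rw [← CfsgLib.ReflectionsSpinor.similarityGroup_eq_simA (Cfsg.sympForm m F) _ (fun u v => rfl)] at E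
    exact ⟨E⟩
  · obtain ⟨E⟩ := CfsgLib.ReflectionsSpinor.PSL.nonempty_centralizer_gr_equiv_of_scalCong hn2 A₂
      (CfsgLib.Classes.hypMatrix m F) e (CfsgLib.ReflectionsSpinor.ScalCong.refl _)
    rw [← CfsgLib.ReflectionsSpinor.quadSim_plus h2 m] at E
    exact ⟨E⟩
  · obtain ⟨E⟩ := CfsgLib.ReflectionsSpinor.PSL.nonempty_centralizer_gr_equiv_of_scalCong hn2 A₃
      (CfsgLib.Classes.minusMatrix (m - 1) 0 (-α)) e' (CfsgLib.ReflectionsSpinor.ScalCong.refl _)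
    rw [← CfsgLib.ReflectionsSpinor.quadSim_minus h2] at E
    exact ⟨E⟩

end Cfsg.Agent.S2700
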