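import Cfsg.Statements.S2701
import Cfsg.Agent.Lib.ReflectionsSpinor.GraphEven

set_option autoImplicit false
open Cfsg

namespace Cfsg.Agent.S2701

/-- Let T = PSL_n(F) over a finite field of characteristic 2 with n = 2m ≥ 4 even, and G = Inndiag(T) the image of PGL_n(F). The involutory graph automorphisms of T fall into exactly two G-classes, with representatives γ₁ and γ₃ whose centralizers in G are isomorphic respectively to the symplectic group Sp_n(F) and to the centralizer in Sp_n(F) of a symplectic transvection. -/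
theorem result {F : Type*} [Field F] [Fintype F] [CharP F 2] {n m : ℕ} (hm : 2 ≤ m) (hnm : n = 2 * m) :
    ∃ (γ₁ γ₃ : MulAut (Matrix.ProjectiveSpecialLinearGroup (Fin n) F)) (t : ↥(Matrix.symplecticGroup (Fin m) F)), Cfsg.IsTransvection (t : Matrix (Fin m ⊕ Fin m) (Fin m ⊕ Fin m) F) ∧ Cfsg.IsGraphAutClassPSL γ₁ ∧ orderOf γ₁ = 2 ∧ Cfsg.IsGraphAutClassPSL γ₃ ∧ orderOf γ₃ = 2 ∧ ¬ Cfsg.IsConjUnder (Cfsg.inndiagPSL n F) γ₁ γ₃ ∧ (∀ γ : MulAut (Matrix.ProjectiveSpecialLinearGroup (Fin n) F), Cfsg.IsGraphAutClassPSL γ → orderOf γ = 2 → Cfsg.IsConjUnder (Cfsg.inndiagPSL n F) γ₁ γ ∨ Cfsg.IsConjUnder (Cfsg.inndiagPSL n F) γ₃ γ) ∧ Nonempty (↥(Cfsg.inndiagPSL n F ⊓ Subgroup.centralizer {γ₁}) ≃* ↥(Matrix.symplecticGroup (Fin m) F)) ∧ Nonempty (↥(Cfsg.inndiagPSL n F ⊓ Subgroup.centralizer {γ₃}) ≃* ↥(Subgroup.centralizer ({t} : Set ↥(Matrix.symplecticGroup (Fin m) F)))) := by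
  have hn2 : 2 ≤ n := by omega
  have hn3 : 3 ≤ n := by omega
  let i₀ : Fin m := ⟨0, by omega⟩
  let e₀ : Fin m ⊕ Fin m → F := Pi.single (.inl i₀) 1
  have he₀ : e₀ ≠ 0 := fun h => by simpa [e₀] using congrFun h (.inl i₀)
  let e : Fin m ⊕ Fin m ≃ Fin n := finSumFinEquiv.trans (finCongr (by omega))
  have hJd : IsUnit (Matrix.reindex e e (Matrix.J (Fin m) F)).det := by
    rw [Matrix.det_reindex_self]; exact Matrix.isUnit_det_J (Fin m) F
  have hEd : IsUnit (Matrix.reindex e e (CfsgLib.ReflectionsSpinor.evenMatrix e₀)).det := by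
    rw [Matrix.det_reindex_self]
    exact isUnit_iff_ne_zero.2 (CfsgLib.ReflectionsSpinor.det_evenMatrix_ne_zero e₀)
  let A₁ : GL (Fin n) F := Matrix.GeneralLinearGroup.mk'' _ hJd
  let A₃ : GL (Fin n) F := Matrix.GeneralLinearGroup.mk'' _ hEd
  have h₁ : (A₁ : Matrix (Fin n) (Fin n) F).transpose = (A₁ : Matrix (Fin n) (Fin n) F) := by
    show (Matrix.reindex e e _).transpose = Matrix.reindex e e _
    rw [Matrix.transpose_reindex, CfsgLib.ReflectionsSpinor.J_transpose_self]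
  have h₃ : (A₃ : Matrix (Fin n) (Fin n) F).transpose = (A₃ : Matrix (Fin n) (Fin n) F) := by
    show (Matrix.reindex e e _).transpose = Matrix.reindex e e _
    rw [Matrix.transpose_reindex, CfsgLib.ReflectionsSpinor.transpose_evenMatrix]
  refine ⟨CfsgLib.ReflectionsSpinor.PSL.gr A₁, CfsgLib.ReflectionsSpinor.PSL.gr A₃,
    CfsgLib.ReflectionsSpinor.stdTransvection e₀, ?_,
    CfsgLib.ReflectionsSpinor.PSL.isGraphAut_gr hn3 _, CfsgLib.ReflectionsSpinor.PSL.orderOf_gr hn3 _ (Or.inl h₁),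
    CfsgLib.ReflectionsSpinor.PSL.isGraphAut_gr hn3 _, CfsgLib.ReflectionsSpinor.PSL.orderOf_gr hn3 _ (Or.inl h₃),
    ?_, ?_, ?_, ?_⟩
  · -- a transvection
    have h1 : Cfsg.sympTransvection m e₀ (1 : F) - 1 =
        Matrix.vecMulVec e₀ (Matrix.mulVec (Matrix.J (Fin m) F) e₀) := by
      rw [Cfsg.sympTransvection, one_smul, add_sub_cancel_left]
    show (Cfsg.sympTransvection m e₀ 1 - 1).rank = 1 ∧
      (Cfsg.sympTransvection m e₀ 1 - 1) * (Cfsg.sympTransvection m e₀ 1 - 1) = 0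
    rw [h1]
    refine ⟨le_antisymm (Matrix.rank_vecMulVec_le _ _) ?_, ?_⟩
    · rw [Nat.one_le_iff_ne_zero]
      intro h0
      have hbot : LinearMap.range
          (Matrix.vecMulVec e₀ (Matrix.mulVec (Matrix.J (Fin m) F) e₀)).mulVecLin = ⊥ :=
        Submodule.finrank_eq_zero.1 h0
      have h2 : (Matrix.vecMulVec e₀ (Matrix.mulVec (Matrix.J (Fin m) F) e₀)).mulVec
          (Pi.single (.inr i₀) 1) = 0 :=
        LinearMap.congr_fun (LinearMap.range_eq_bot.1 hbot) _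
      have h3 := congrFun h2 (.inl i₀)
      simp [e₀, Matrix.J, Matrix.vecMulVec_apply] at h3
    · rw [Matrix.vecMulVec_mul_vecMulVec]
      have h0 : dotProduct (Matrix.mulVec (Matrix.J (Fin m) F) e₀) e₀ = 0 := by
        rw [dotProduct_comm]
        exact CfsgLib.ReflectionsSpinor.sympForm_self e₀
      rw [h0, zero_smul]
      ext i j
      simp [Matrix.vecMulVec_apply]
  · intro h
    obtain ⟨P, c, hP⟩ := (CfsgLib.ReflectionsSpinor.PSL.isConjUnder_gr_iff hn2 _ _).1 h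
    -- an alternating matrix is not congruent to a non-alternating one
    have hdiag : ∀ v, dotProduct v ((A₁ : Matrix (Fin n) (Fin n) F).mulVec v) = 0 := by
      intro v
      rw [CfsgLib.ReflectionsSpinor.dot_self_eq_sq _ h₁ 0 (fun i => ?_) v]
      · simp
      · show (0 : F) * 0 = Matrix.reindex e e (Matrix.J (Fin m) F) i i
        rcases hi : e.symm i with a | a <;> simp [hi, Matrix.J]
    obtain ⟨v, hv⟩ : ∃ v, (P : Matrix (Fin n) (Fin n) F).mulVec v = Pi.single (e (.inr i₀)) 1 :=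
      ⟨((P⁻¹ : GL (Fin n) F) : Matrix (Fin n) (Fin n) F).mulVec (Pi.single (e (.inr i₀)) 1), by
        rw [Matrix.mulVec_mulVec, Units.mul_inv, Matrix.one_mulVec]⟩
    have h1 := congrArg (fun X => dotProduct v (Matrix.mulVec X v)) hP
    simp only [Matrix.smul_mulVec, dotProduct_smul, hdiag, smul_zero] at h1
    rw [← CfsgLib.ReflectionsSpinor.dot_congr_mulVec, hv] at h1
    have h2 : (A₃ : Matrix (Fin n) (Fin n) F) = Matrix.reindex e e (CfsgLib.ReflectionsSpinor.evenMatrix e₀) := rfl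
    simp [h2, CfsgLib.ReflectionsSpinor.evenMatrix, Matrix.J, e₀, Matrix.vecMulVec_apply] at h1
  · intro γ hγ hγ2
    obtain ⟨A, rfl, hA⟩ := CfsgLib.ReflectionsSpinor.PSL.exists_gr hn3 γ hγ hγ2
    rw [CfsgLib.ReflectionsSpinor.neg_eq_self_matrix, or_self] at hA
    by_cases hd : ∀ i, (A : Matrix (Fin n) (Fin n) F) i i = 0
    · exact Or.inl ((CfsgLib.ReflectionsSpinor.PSL.isConjUnder_gr_iff hn2 _ _).2
        (CfsgLib.ReflectionsSpinor.scalCong_J e A (hA.trans (CfsgLib.ReflectionsSpinor.neg_eq_self_matrix _).symm)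
          hd).symm)
    · push Not at hd
      exact Or.inr ((CfsgLib.ReflectionsSpinor.PSL.isConjUnder_gr_iff hn2 _ _).2
        (CfsgLib.ReflectionsSpinor.scalCong_even hnm e i₀ A hA hd).symm)
  · obtain ⟨E⟩ := CfsgLib.ReflectionsSpinor.PSL.nonempty_centralizer_gr_equiv_of_scalCong hn2 A₁
      (Matrix.J (Fin m) F) e (CfsgLib.ReflectionsSpinor.ScalCong.refl _)
    obtain ⟨E'⟩ := CfsgLib.ReflectionsSpinor.nonempty_projQuot_J_equiv (F := F) (m := m)
    exact ⟨E.trans E'⟩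
  · obtain ⟨E⟩ := CfsgLib.ReflectionsSpinor.PSL.nonempty_centralizer_gr_equiv_of_scalCong hn2 A₃
      (CfsgLib.ReflectionsSpinor.evenMatrix e₀) e (CfsgLib.ReflectionsSpinor.ScalCong.refl _)
    obtain ⟨E'⟩ := CfsgLib.ReflectionsSpinor.nonempty_projQuot_even_equiv he₀
    exact ⟨E.trans E'⟩

end Cfsg.Agent.S2701
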