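import Cfsg.Statements.S2702
import Cfsg.Agent.Lib.ReflectionsSpinor.GraphCount

set_option autoImplicit false
open Cfsg

namespace Cfsg.Agent.S2702

/-- Let T = PSL_n(F) over the field with q = p^f elements, n ≥ 3, G = Inndiag(T) the image of PGL_n(F), and γ an involutory graph automorphism of T. The G-class of γ is the union of exactly c T-classes, where: if n is even and q is odd, c = gcd(n/2, q − 1) when C_G(γ) is isomorphic to the projective conformal symplectic group PGSp_n(F) (symplectic type) and c = gcd(n, q − 1)/2 otherwise; and c = gcd(n, q − 1) when n is odd or q is even. -/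
theorem result {F : Type*} [Field F] [Fintype F] {p f : ℕ} [Fact p.Prime] (hF : Fintype.card F = p ^ f) (hf : 1 ≤ f) {n : ℕ} (hn : 3 ≤ n) (γ : MulAut (Matrix.ProjectiveSpecialLinearGroup (Fin n) F)) (hγ : Cfsg.IsGraphAutClassPSL γ) (hγ2 : orderOf γ = 2) :
    ((Even n ∧ Odd p ∧ Nonempty (↥(Cfsg.inndiagPSL n F ⊓ Subgroup.centralizer {γ}) ≃* Cfsg.PGSp (n / 2) F)) → Cfsg.splitClassCount (Cfsg.inndiagPSL n F) (Cfsg.Inn (Matrix.ProjectiveSpecialLinearGroup (Fin n) F)) γ = Nat.gcd (n / 2) (p ^ f - 1)) ∧ ((Even n ∧ Odd p ∧ ¬ Nonempty (↥(Cfsg.inndiagPSL n F ⊓ Subgroup.centralizer {γ}) ≃* Cfsg.PGSp (n / 2) F)) → Cfsg.splitClassCount (Cfsg.inndiagPSL n F) (Cfsg.Inn (Matrix.ProjectiveSpecialLinearGroup (Fin n) F)) γ = Nat.gcd n (p ^ f - 1) / 2) ∧ (¬ (Even n ∧ Odd p) → Cfsg.splitClassCount (Cfsg.inndiagPSL n F) (Cfsg.Inn (Matrix.ProjectiveSpecialLinearGroup (Fin n) F)) γ = Nat.gcd n (p ^ f - 1)) := by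
  have hn2 : 2 ≤ n := by omega
  obtain ⟨A, rfl, hA⟩ := CfsgLib.ReflectionsSpinor.PSL.exists_gr hn γ hγ hγ2
  have hq : Nat.card F = p ^ f := by rw [Nat.card_eq_fintype_card, hF]
  have evenCase : Even n → Odd p →
      ((Nonempty (↥(Cfsg.inndiagPSL n F ⊓ Subgroup.centralizer {CfsgLib.ReflectionsSpinor.PSL.gr A}) ≃*
          Cfsg.PGSp (n / 2) F)) ↔
        (A : Matrix (Fin n) (Fin n) F).transpose = -(A : Matrix (Fin n) (Fin n) F)) ∧
      ((A : Matrix (Fin n) (Fin n) F).transpose = -(A : Matrix (Fin n) (Fin n) F) →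
        Cfsg.splitClassCount (Cfsg.inndiagPSL n F) (Cfsg.Inn (Matrix.ProjectiveSpecialLinearGroup (Fin n) F))
          (CfsgLib.ReflectionsSpinor.PSL.gr A) = Nat.gcd (n / 2) (p ^ f - 1)) := by
    intro hev hop
    obtain ⟨m, hm⟩ := hev
    have hnm : n = 2 * m := by omega
    have hn2' : n / 2 = m := by omega
    rw [hn2']
    have hp2 : p ≠ 2 := fun h => by rw [h] at hop; exact absurd hop (by decide)
    have h2 := CfsgLib.ReflectionsSpinor.two_ne_zero_of_card hF hf hp2
    let e : Fin m ⊕ Fin m ≃ Fin n := finSumFinEquiv.trans (finCongr (by omega))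
    have hJ : (A : Matrix (Fin n) (Fin n) F).transpose = -(A : Matrix (Fin n) (Fin n) F) →
        CfsgLib.ReflectionsSpinor.ScalCong (A : Matrix (Fin n) (Fin n) F)
          (Matrix.reindex e e (Matrix.J (Fin m) F)) := fun h =>
      CfsgLib.ReflectionsSpinor.scalCong_J e A h fun i => by
        have hi := congrFun (congrFun h i) i
        rw [Matrix.transpose_apply, Matrix.neg_apply] at hi
        exact (mul_eq_zero.1
          (show (2 : F) * (A : Matrix (Fin n) (Fin n) F) i i = 0 by linear_combination hi)).resolve_left h2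
    refine ⟨⟨fun h => ?_, fun h => ?_⟩, fun h => ?_⟩
    · exact hA.resolve_left fun hs =>
        CfsgLib.ReflectionsSpinor.PSL.not_centralizer_symm_PGSp hF hf hp2 (by omega) hnm A hs h
    · obtain ⟨E⟩ := CfsgLib.ReflectionsSpinor.PSL.nonempty_centralizer_gr_equiv_of_scalCong hn2 A
        (Matrix.J (Fin m) F) e (hJ h)
      rw [← CfsgLib.ReflectionsSpinor.similarityGroup_eq_simA (Cfsg.sympForm m F) _ (fun u v => rfl)] at E
      exact ⟨E⟩
    · rw [CfsgLib.ReflectionsSpinor.PSL.split_gr_symp hn2 hnm A e (hJ h), hq]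
  refine ⟨fun ⟨hev, hop, hiso⟩ => ?_, fun ⟨hev, hop, hiso⟩ => ?_, fun hnot => ?_⟩
  · exact (evenCase hev hop).2 ((evenCase hev hop).1.1 hiso)
  · have hp2 : p ≠ 2 := fun h => by rw [h] at hop; exact absurd hop (by decide)
    have hsym := hA.resolve_right fun h => hiso ((evenCase hev hop).1.2 h)
    obtain ⟨m, hm⟩ := hev
    rw [CfsgLib.ReflectionsSpinor.PSL.split_gr_symm (m := m)
      (CfsgLib.ReflectionsSpinor.two_ne_zero_of_card hF hf hp2) hn2 (by omega) A hsym, hq]
  · rw [CfsgLib.ReflectionsSpinor.PSL.split_gr_of_pow hn2 A ?_, hq]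
    rcases not_and_or.1 hnot with h | h
    · exact CfsgLib.ReflectionsSpinor.PSL.pow_of_odd (Nat.not_even_iff_odd.1 h)
    · have hp2 : p = 2 := (Fact.out : p.Prime).eq_two_or_odd'.resolve_right h
      subst hp2
      have h0 : ((2 : ℕ) : F) = 0 := by
        have h1 := Nat.cast_card_eq_zero F
        rw [hF, Nat.cast_pow] at h1
        exact pow_eq_zero_iff (by omega) |>.1 h1
      haveI : CharP F 2 := ringChar.of_eq (CharP.ringChar_of_prime_eq_zero Nat.prime_two h0)
      exact CfsgLib.ReflectionsSpinor.PSL.pow_of_charTwo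

end Cfsg.Agent.S2702
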