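import Cfsg.Statements.S2703
import Cfsg.Agent.Lib.ReflectionsSpinor.GraphClassOdd

set_option autoImplicit false
open Cfsg

namespace Cfsg.Agent.S2703

/-- Let T = PSL_n(F) over the field with q elements, q odd, n = 2m ≥ 4 even, and ι the inverse-transpose automorphism. Its centralizer in G = Inndiag(T) (the image of PGL_n(F)) is isomorphic to the projective conformal orthogonal group of the plus-type form Σ xᵢ yᵢ in dimension n when n(q − 1)/4 is even, and to that of a minus-type form (Σ xᵢ yᵢ + z₁² + a z₁ z₂ + b z₂² with anisotropic binary part) when n(q − 1)/4 is odd. -/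
theorem result {F : Type*} [Field F] [Fintype F] (hodd : Odd (Fintype.card F)) {n m : ℕ} (hm : 2 ≤ m) (hnm : n = 2 * m) (ι : MulAut (Matrix.ProjectiveSpecialLinearGroup (Fin n) F)) (hι : Cfsg.IsInverseTransposeAutPSL ι) :
    (Even (n * (Fintype.card F - 1) / 4) → Nonempty (↥(Cfsg.inndiagPSL n F ⊓ Subgroup.centralizer {ι}) ≃* Cfsg.PGO F (Cfsg.quadFormPlus m F))) ∧ (¬ Even (n * (Fintype.card F - 1) / 4) → ∃ a b : F, (∀ z₁ z₂ : F, z₁ ^ 2 + a * z₁ * z₂ + b * z₂ ^ 2 = 0 → z₁ = 0 ∧ z₂ = 0) ∧ Nonempty (↥(Cfsg.inndiagPSL n F ⊓ Subgroup.centralizer {ι}) ≃* Cfsg.PGO F (Cfsg.quadFormMinus (m - 1) F a b))) := by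
  have h2 : (2 : F) ≠ 0 := by
    intro h
    have hp : ringChar F = 2 := by
      have := CharP.ringChar_of_prime_eq_zero Nat.prime_two (R := F) (by exact_mod_cast h)
      exact this
    have := FiniteField.even_card_of_char_two hp
    exact (Nat.not_even_iff_odd.2 hodd) (Nat.even_iff.2 this)
  rw [CfsgLib.ReflectionsSpinor.PSL.isInverseTranspose_iff.1 hι, CfsgLib.ReflectionsSpinor.PSL.invTr_eq_gr]
  have hdet : ((1 : GL (Fin n) F) : Matrix (Fin n) (Fin n) F).det * (-1) ^ m = (-1) ^ m := by simp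
  have hev : Even (n * (Fintype.card F - 1) / 4) ↔ IsSquare ((-1 : F) ^ m) := by
    rw [CfsgLib.Classes.isSquare_neg_one_pow_iff rfl hodd,
      show n * (Fintype.card F - 1) / 4 = m * (Fintype.card F - 1) / 2 by
        rw [hnm, mul_assoc, show (4 : ℕ) = 2 * 2 from rfl, Nat.mul_div_mul_left _ _ two_pos]]
  obtain ⟨k, hk⟩ : ∃ k, m = k + 1 := ⟨m - 1, by omega⟩
  have hn2 : 2 ≤ n := by omega
  constructor
  · intro he
    let e : Fin m ⊕ Fin m ≃ Fin n := finSumFinEquiv.trans (finCongr (by omega))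
    obtain ⟨E⟩ := CfsgLib.ReflectionsSpinor.PSL.nonempty_centralizer_gr_equiv_of_scalCong hn2
      (1 : GL (Fin n) F) (CfsgLib.Classes.hypMatrix m F) e
      (CfsgLib.ReflectionsSpinor.scalCong_plus h2 (by omega) hnm e 1 (by simp) (by rw [hdet]; exact hev.1 he))
    rw [← CfsgLib.ReflectionsSpinor.quadSim_plus h2 m] at E
    exact ⟨E⟩
  · intro he
    obtain ⟨α, hα⟩ := CfsgLib.ReflectionsSpinor.exists_nonsquare h2
    refine ⟨0, -α, CfsgLib.ReflectionsSpinor.minus_aniso hα, ?_⟩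
    obtain rfl : k = m - 1 := by omega
    let e : (Fin (m - 1) ⊕ Fin (m - 1)) ⊕ Fin 2 ≃ Fin n :=
      ((Equiv.sumCongr finSumFinEquiv (Equiv.refl _)).trans finSumFinEquiv).trans (finCongr (by omega))
    obtain ⟨E⟩ := CfsgLib.ReflectionsSpinor.PSL.nonempty_centralizer_gr_equiv_of_scalCong hn2
      (1 : GL (Fin n) F) (CfsgLib.Classes.minusMatrix (m - 1) 0 (-α)) e
      (CfsgLib.ReflectionsSpinor.scalCong_minus h2 hk hnm hα e 1 (by simp)
        (by rw [hdet]; exact fun h => he (hev.2 h)))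
    rw [← CfsgLib.ReflectionsSpinor.quadSim_minus h2] at E
    exact ⟨E⟩

end Cfsg.Agent.S2703
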