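import Cfsg.Statements.S2704
import Cfsg.Agent.Lib.ReflectionsSpinor.PSLFieldCent

set_option autoImplicit false
open Cfsg

namespace Cfsg.Agent.S2704

/-- Let T = PSL_n(F) over the field F with p^f elements, n ≥ 3, and G = Inndiag(T) the image of PGL_n(F). If x is an involutory graph-field automorphism of T then f is even; x is G-conjugate to every other involutory graph-field automorphism; C_G(x) is isomorphic to the projective general unitary group PGU_n(q₀) with q₀² = p^f, realised over F itself through the Hermitian form Σ uᵢ vᵢ^{q₀}; and the G-class of x is the union of exactly gcd(n, q₀ − 1) T-classes. -/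
theorem result {F : Type*} [Field F] [Fintype F] {p f : ℕ} [Fact p.Prime] (hF : Fintype.card F = p ^ f) (hf : 1 ≤ f) {n : ℕ} (hn : 3 ≤ n) (x : MulAut (Matrix.ProjectiveSpecialLinearGroup (Fin n) F)) (hx : Cfsg.IsGraphFieldAutClassPSL x) (hx2 : orderOf x = 2) :
    Even f ∧ (∀ y : MulAut (Matrix.ProjectiveSpecialLinearGroup (Fin n) F), Cfsg.IsGraphFieldAutClassPSL y → orderOf y = 2 → Cfsg.IsConjUnder (Cfsg.inndiagPSL n F) x y) ∧ Nonempty (↥(Cfsg.inndiagPSL n F ⊓ Subgroup.centralizer {x}) ≃* Cfsg.PGU n F (p ^ (f / 2))) ∧ Cfsg.splitClassCount (Cfsg.inndiagPSL n F) (Cfsg.Inn (Matrix.ProjectiveSpecialLinearGroup (Fin n) F)) x = Nat.gcd n (p ^ (f / 2) - 1) := by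
  have hn2 : 2 ≤ n := by omega
  -- every involutory graph-field automorphism is conjugate to a standard one
  have norm : ∀ y : MulAut (Matrix.ProjectiveSpecialLinearGroup (Fin n) F),
      Cfsg.IsGraphFieldAutClassPSL y → orderOf y = 2 → ∃ α σ, orderOf σ = 2 ∧
        α * y * α⁻¹ = CfsgLib.ReflectionsSpinor.PSL.semiAut 1 σ * CfsgLib.ReflectionsSpinor.PSL.invTr := by
    rintro y ⟨-, α, φ, γ, σ, hσ, hφ, hγ, he⟩ hy
    rw [CfsgLib.ReflectionsSpinor.PSL.isStdFieldAut_iff.1 hφ,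
      CfsgLib.ReflectionsSpinor.PSL.isInverseTranspose_iff.1 hγ] at he
    refine ⟨α, σ, orderOf_eq_prime ?_ hσ, he⟩
    have h : (CfsgLib.ReflectionsSpinor.PSL.semiAut (n := n) 1 σ * CfsgLib.ReflectionsSpinor.PSL.invTr) ^ 2 = 1 := by
      rw [← he, conj_pow, ← hy, pow_orderOf_eq_one, mul_one, mul_inv_cancel]
    rw [sq]
    exact (CfsgLib.ReflectionsSpinor.PSL.isConjUnder_gf_of_sq_eq_one hn2 1 hσ h).1
  obtain ⟨α, σ, hσ, he⟩ := norm x hx hx2
  obtain ⟨hrf, hcard⟩ := CfsgLib.ReflectionsSpinor.fixedField_card hF σ hσ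
  refine ⟨even_iff_two_dvd.2 hrf, fun y hy hy2 => ?_, ?_, ?_⟩
  · obtain ⟨β, σ', hσ', he'⟩ := norm y hy hy2
    obtain rfl := CfsgLib.ReflectionsSpinor.PSL.involution_unique hσ hσ'
    refine (CfsgLib.ReflectionsSpinor.isConjUnder_conj_iff (a := α)
      (fun _ h => CfsgLib.ReflectionsSpinor.PSL.conj_mem_inndiag hn2 α h)
      (fun _ h => CfsgLib.ReflectionsSpinor.PSL.inndiag_conj' hn2 h)).1 ?_
    rw [he]
    -- a conjugate of the standard automorphism is again of the form `semiAut g σ' * invTr`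
    have h2 : α * y * α⁻¹ = (α * β⁻¹) *
        (CfsgLib.ReflectionsSpinor.PSL.semiAut 1 σ' * CfsgLib.ReflectionsSpinor.PSL.invTr) * (α * β⁻¹)⁻¹ := by
      rw [← he']; group
    have hsq : (α * y * α⁻¹) ^ 2 = 1 := by
      rw [conj_pow, ← hy2, pow_orderOf_eq_one, mul_one, mul_inv_cancel]
    have hform : ∃ g τ, α * y * α⁻¹ =
        CfsgLib.ReflectionsSpinor.PSL.semiAut g τ * CfsgLib.ReflectionsSpinor.PSL.invTr ∧ τ ≠ 1 := by
      have hne : σ' ≠ 1 := fun h => by rw [h, orderOf_one] at hσ'; omega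
      rw [h2]
      -- conjugation by `invTr` fixes the standard automorphism
      have hfix : CfsgLib.ReflectionsSpinor.PSL.invTr *
          (CfsgLib.ReflectionsSpinor.PSL.semiAut 1 σ' * CfsgLib.ReflectionsSpinor.PSL.invTr) *
          (CfsgLib.ReflectionsSpinor.PSL.invTr (n := n) (F := F))⁻¹ =
          CfsgLib.ReflectionsSpinor.PSL.semiAut 1 σ' * CfsgLib.ReflectionsSpinor.PSL.invTr := by
        rw [← mul_assoc, mul_inv_cancel_right, CfsgLib.ReflectionsSpinor.PSL.invTr_mul_semiAut,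
          CfsgLib.ReflectionsSpinor.PSL.contra_one]
      obtain ⟨g, τ, hgτ⟩ : ∃ g τ, (α * β⁻¹) *
          (CfsgLib.ReflectionsSpinor.PSL.semiAut 1 σ' * CfsgLib.ReflectionsSpinor.PSL.invTr) * (α * β⁻¹)⁻¹ =
          CfsgLib.ReflectionsSpinor.PSL.semiAut g τ *
          (CfsgLib.ReflectionsSpinor.PSL.semiAut 1 σ' * CfsgLib.ReflectionsSpinor.PSL.invTr) *
          (CfsgLib.ReflectionsSpinor.PSL.semiAut g τ)⁻¹ := by
        obtain ⟨g, τ, hh | ⟨-, hh⟩⟩ := CfsgLib.ReflectionsSpinor.PSL.exists_semiAut hn2 (α * β⁻¹)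
        · exact ⟨g, τ, by rw [hh]⟩
        · refine ⟨g, τ, ?_⟩
          calc _ = CfsgLib.ReflectionsSpinor.PSL.semiAut g τ * (CfsgLib.ReflectionsSpinor.PSL.invTr *
                (CfsgLib.ReflectionsSpinor.PSL.semiAut 1 σ' * CfsgLib.ReflectionsSpinor.PSL.invTr) *
                (CfsgLib.ReflectionsSpinor.PSL.invTr)⁻¹) * (CfsgLib.ReflectionsSpinor.PSL.semiAut g τ)⁻¹ := by
                  rw [hh]; group
            _ = _ := by rw [hfix]
      rw [hgτ]
      refine ⟨_, _, by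
        rw [CfsgLib.ReflectionsSpinor.PSL.semiAut_inv, mul_assoc (CfsgLib.ReflectionsSpinor.PSL.semiAut g τ),
          mul_assoc (CfsgLib.ReflectionsSpinor.PSL.semiAut 1 σ'),
          CfsgLib.ReflectionsSpinor.PSL.invTr_mul_semiAut, ← mul_assoc, ← mul_assoc,
          CfsgLib.ReflectionsSpinor.PSL.semiAut_mul, CfsgLib.ReflectionsSpinor.PSL.semiAut_mul], ?_⟩
      intro h
      exact hne (by
        calc σ' = τ⁻¹ * (τ * σ' * τ⁻¹) * τ := by group
          _ = 1 := by rw [h]; group)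
    obtain ⟨g, τ, hg, hτ⟩ := hform
    rw [hg] at hsq ⊢
    obtain ⟨hτ2, hc⟩ := CfsgLib.ReflectionsSpinor.PSL.isConjUnder_gf_of_sq_eq_one hn2 g hτ hsq
    obtain rfl := CfsgLib.ReflectionsSpinor.PSL.involution_unique hσ'
      (orderOf_eq_prime (by rw [sq]; exact hτ2) hτ)
    exact hc
  · obtain ⟨e⟩ := CfsgLib.ReflectionsSpinor.PSL.nonempty_centralizer_gf_equiv (n := n) hn2 hσ hcard
    have e1 := CfsgLib.ReflectionsSpinor.centralizerConjEquiv (H := Cfsg.inndiagPSL n F) (a := α)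
      (fun _ h => CfsgLib.ReflectionsSpinor.PSL.conj_mem_inndiag hn2 α h)
      (fun _ h => CfsgLib.ReflectionsSpinor.PSL.inndiag_conj' hn2 h) x
    rw [he] at e1
    exact ⟨e1.trans e⟩
  · rw [← CfsgLib.ReflectionsSpinor.PSL.splitClassCount_transport hn2 α x, he,
      CfsgLib.ReflectionsSpinor.PSL.split_gf hn2 hσ hcard]

end Cfsg.Agent.S2704
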