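import Cfsg.Statements.S2706
import Cfsg.Agent.Lib.ReflectionsSpinor.PSUGraphTypes

set_option autoImplicit false
open Cfsg
open CfsgLib.ReflectionsSpinor

namespace Cfsg.Agent.S2706

/-- Let T = PSU_n(q) be simple with n = 2m + 1 ≥ 3 odd, realised over the field F with q² elements, and G = Inndiag(T) the image of PGU_n(q). Every involutory graph automorphism γ of T (an inner-diagonal automorphism times a standard field automorphism of even order, of order 2) has centralizer C_G(γ) isomorphic to the projective conformal orthogonal group of the form x₀² + Σ xᵢ yᵢ in dimension n over a field F₀ with q elements, and any two involutory graph automorphisms of T are G-conjugate. -/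
theorem result {F : Type*} [Field F] [Fintype F] {p f q : ℕ} [Fact p.Prime] (hq : q = p ^ f) (hf : 1 ≤ f) (hF : Fintype.card F = q ^ 2) {n : ℕ} (hn : 3 ≤ n) (hs : ¬ (n = 3 ∧ q = 2)) {m : ℕ} (hnm : n = 2 * m + 1) (F₀ : Type*) [Field F₀] [Fintype F₀] (hF₀ : Fintype.card F₀ = q) (γ γ' : MulAut (Cfsg.PSU n F q)) (hγ : Cfsg.IsGraphAutClassPSU γ) (hγ2 : orderOf γ = 2) (hγ' : Cfsg.IsGraphAutClassPSU γ') (hγ'2 : orderOf γ' = 2) :
    Nonempty (↥(Cfsg.inndiagPSU n F q ⊓ Subgroup.centralizer {γ}) ≃* Cfsg.PGO F₀ (Cfsg.quadFormOdd m F₀)) ∧ Cfsg.IsConjUnder (Cfsg.inndiagPSU n F q) γ γ' := by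
  obtain ⟨c, i, hi, hi'⟩ := PSUAut.exists_setup hF F₀ hF₀
  obtain ⟨g, A, rfl, hA, hgA⟩ := PSUAut.exists_model c hF hn hs i hi' hγ hγ2
  obtain ⟨g', A', rfl, hA', hgA'⟩ := PSUAut.exists_model c hF hn hs i hi' hγ' hγ'2
  have hodd : Odd n := ⟨m, hnm⟩
  let e : Unit ⊕ (Fin m ⊕ Fin m) ≃ Fin n :=
    ((Equiv.sumCongr finOneEquiv.symm finSumFinEquiv).trans finSumFinEquiv).trans (finCongr (by omega))
  obtain ⟨E0⟩ := PSUAut.nonempty_centralizer_graph_equiv c i hF hn hs hi hi' hgA
  by_cases h2 : (2 : F₀) = 0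
  · haveI : CharP F₀ 2 := ringChar.of_eq (CharP.ringChar_of_prime_eq_zero Nat.prime_two (by exact_mod_cast h2))
    rw [neg_eq_self_matrix, or_self] at hA hA'
    have hc := scalCong_odd hnm e A hA
    have hc' := scalCong_odd hnm e A' hA'
    refine ⟨?_, (PSUAut.isConjUnder_iff_scalCong c hF hn hs i hi hi' hgA hgA').2 (hc.trans hc'.symm)⟩
    obtain ⟨E⟩ := nonempty_projQuot_of_scalCong e hc
    obtain ⟨E'⟩ := nonempty_projQuot_oddStd_equiv (F := F₀) (m := m)
    obtain ⟨E''⟩ := nonempty_PGO_odd_equiv (F := F₀) (m := m)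
    exact ⟨((E0.trans E).trans E').trans E''.symm⟩
  · have hsym : ∀ B : GL (Fin n) F₀,
        ((B : Matrix (Fin n) (Fin n) F₀).transpose = (B : Matrix (Fin n) (Fin n) F₀) ∨
          (B : Matrix (Fin n) (Fin n) F₀).transpose = -(B : Matrix (Fin n) (Fin n) F₀)) →
        (B : Matrix (Fin n) (Fin n) F₀).transpose = (B : Matrix (Fin n) (Fin n) F₀) := by
      rintro B (h | h)
      · exact h
      · exfalso
        have hd := congrArg Matrix.det h
        rw [Matrix.det_transpose, Matrix.det_neg, Fintype.card_fin, hodd.neg_one_pow, neg_one_mul,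
          eq_neg_iff_add_eq_zero, ← two_mul] at hd
        exact ((Matrix.isUnit_iff_isUnit_det _).1 B.isUnit).ne_zero ((mul_eq_zero.1 hd).resolve_left h2)
    have hB : (CfsgLib.Classes.oddMatrix m (1 : F₀)).det ≠ 0 := by
      rw [CfsgLib.Classes.det_oddMatrix]
      exact mul_ne_zero (by simpa using h2) (pow_ne_zero _ (neg_ne_zero.2 one_ne_zero))
    have hBs : (toGLn e _ hB : Matrix (Fin n) (Fin n) F₀).transpose =
        (toGLn e _ hB : Matrix (Fin n) (Fin n) F₀) := by
      show (Matrix.reindex e e _).transpose = Matrix.reindex e e _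
      rw [Matrix.transpose_reindex, transpose_oddMatrix]
    refine ⟨?_, (PSUAut.isConjUnder_iff_scalCong c hF hn hs i hi hi' hgA hgA').2
      (scalCong_symm_odd h2 hodd A A' (hsym A hA) (hsym A' hA'))⟩
    obtain ⟨E⟩ := nonempty_projQuot_of_scalCong (B := CfsgLib.Classes.oddMatrix m (1 : F₀)) e
      (scalCong_symm_odd h2 hodd A _ (hsym A hA) hBs)
    rw [← quadSim_odd h2 m] at E
    exact ⟨E0.trans E⟩

end Cfsg.Agent.S2706
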