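import Cfsg.Statements.S2707
import Cfsg.Agent.Lib.ReflectionsSpinor.PSUGraphTypes

set_option autoImplicit false
open Cfsg
open CfsgLib.ReflectionsSpinor

namespace Cfsg.Agent.S2707

/-- Let T = PSU_n(q) with n = 2m ≥ 4 even and q odd, realised over the field F with q² elements, and G = Inndiag(T) the image of PGU_n(q). The involutory graph automorphisms of T fall into exactly three G-classes, with representatives whose centralizers in G are isomorphic respectively to the projective conformal symplectic group PGSp_n(F₀), the projective conformal orthogonal group of the plus-type form Σ xᵢ yᵢ, and that of a minus-type form Σ xᵢ yᵢ + z₁² + a z₁ z₂ + b z₂² (anisotropic binary part) in dimension n, all over a field F₀ with q elements. -/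
theorem result {F : Type*} [Field F] [Fintype F] {q : ℕ} (hodd : Odd q) (hF : Fintype.card F = q ^ 2) {n m : ℕ} (hm : 2 ≤ m) (hnm : n = 2 * m) (F₀ : Type*) [Field F₀] [Fintype F₀] (hF₀ : Fintype.card F₀ = q) :
    ∃ (γ₁ γ₂ γ₃ : MulAut (Cfsg.PSU n F q)) (a b : F₀), (∀ z₁ z₂ : F₀, z₁ ^ 2 + a * z₁ * z₂ + b * z₂ ^ 2 = 0 → z₁ = 0 ∧ z₂ = 0) ∧ Cfsg.IsGraphAutClassPSU γ₁ ∧ orderOf γ₁ = 2 ∧ Cfsg.IsGraphAutClassPSU γ₂ ∧ orderOf γ₂ = 2 ∧ Cfsg.IsGraphAutClassPSU γ₃ ∧ orderOf γ₃ = 2 ∧ ¬ Cfsg.IsConjUnder (Cfsg.inndiagPSU n F q) γ₁ γ₂ ∧ ¬ Cfsg.IsConjUnder (Cfsg.inndiagPSU n F q) γ₁ γ₃ ∧ ¬ Cfsg.IsConjUnder (Cfsg.inndiagPSU n F q) γ₂ γ₃ ∧ (∀ γ : MulAut (Cfsg.PSU n F q), Cfsg.IsGraphAutClassPSU γ → orderOf γ = 2 → Cfsg.IsConjUnder (Cfsg.inndiagPSU n F q) γ₁ γ ∨ Cfsg.IsConjUnder (Cfsg.inndiagPSU n F q) γ₂ γ ∨ Cfsg.IsConjUnder (Cfsg.inndiagPSU n F q) γ₃ γ) ∧ Nonempty (↥(Cfsg.inndiagPSU n F q ⊓ Subgroup.centralizer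 {γ₁}) ≃* Cfsg.PGSp m F₀) ∧ Nonempty (↥(Cfsg.inndiagPSU n F q ⊓ Subgroup.centralizer {γ₂}) ≃* Cfsg.PGO F₀ (Cfsg.quadFormPlus m F₀)) ∧ Nonempty (↥(Cfsg.inndiagPSU n F q ⊓ Subgroup.centralizer {γ₃}) ≃* Cfsg.PGO F₀ (Cfsg.quadFormMinus (m - 1) F₀ a b)) := by
  obtain ⟨c, i, hi, hi'⟩ := PSUAut.exists_setup hF F₀ hF₀
  have hn : 3 ≤ n := by omega
  have hs : ¬ (n = 3 ∧ q = 2) := by omega
  have h2 : (2 : F₀) ≠ 0 := two_ne_zero_of_odd_card (hF₀ ▸ hodd)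
  obtain ⟨k, hk⟩ : ∃ k, m = k + 1 := ⟨m - 1, by omega⟩
  obtain rfl : k = m - 1 := by omega
  haveI : Nonempty (Fin n) := ⟨⟨0, by omega⟩⟩
  obtain ⟨α, hα⟩ := exists_nonsquare h2
  let e : Fin m ⊕ Fin m ≃ Fin n := finSumFinEquiv.trans (finCongr (by omega))
  let e' : (Fin (m - 1) ⊕ Fin (m - 1)) ⊕ Fin 2 ≃ Fin n :=
    ((Equiv.sumCongr finSumFinEquiv (Equiv.refl _)).trans finSumFinEquiv).trans (finCongr (by omega))
  have hJd : (Matrix.J (Fin m) F₀).det ≠ 0 := (Matrix.isUnit_det_J (Fin m) F₀).ne_zero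
  let A₁ := toGLn e _ hJd
  let A₂ := toGLn e _ (det_hyp_ne_zero (F := F₀) m)
  let A₃ := toGLn e' _ (det_minus_ne_zero h2 (m - 1) hα)
  have h₁ : (A₁ : Matrix (Fin n) (Fin n) F₀).transpose = -(A₁ : Matrix (Fin n) (Fin n) F₀) := by
    show (Matrix.reindex e e _).transpose = -Matrix.reindex e e _
    rw [Matrix.transpose_reindex, Matrix.J_transpose]
    rfl
  have h₂ : (A₂ : Matrix (Fin n) (Fin n) F₀).transpose = (A₂ : Matrix (Fin n) (Fin n) F₀) := by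
    show (Matrix.reindex e e _).transpose = Matrix.reindex e e _
    rw [Matrix.transpose_reindex, transpose_hypMatrix]
  have h₃ : (A₃ : Matrix (Fin n) (Fin n) F₀).transpose = (A₃ : Matrix (Fin n) (Fin n) F₀) := by
    show (Matrix.reindex e' e' _).transpose = Matrix.reindex e' e' _
    rw [Matrix.transpose_reindex, transpose_minusMatrix]
  have hd₁ : (A₁ : Matrix (Fin n) (Fin n) F₀).det ≠ 0 :=
    ((Matrix.isUnit_iff_isUnit_det _).1 A₁.isUnit).ne_zero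
  obtain ⟨g₁, hm₁, hg₁, ho₁⟩ := PSUAut.exists_graph_of_form c hF hn hs i hi A₁ (Or.inr h₁)
  obtain ⟨g₂, hm₂, hg₂, ho₂⟩ := PSUAut.exists_graph_of_form c hF hn hs i hi A₂ (Or.inl h₂)
  obtain ⟨g₃, hm₃, hg₃, ho₃⟩ := PSUAut.exists_graph_of_form c hF hn hs i hi A₃ (Or.inl h₃)
  refine ⟨_, _, _, 0, -α, minus_aniso hα, hg₁, ho₁, hg₂, ho₂, hg₃, ho₃,
    fun h => not_scalCong_symm_alt h2 hd₁ h₁ h₂
      ((PSUAut.isConjUnder_iff_scalCong c hF hn hs i hi hi' hm₁ hm₂).1 h),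
    fun h => not_scalCong_symm_alt h2 hd₁ h₁ h₃
      ((PSUAut.isConjUnder_iff_scalCong c hF hn hs i hi hi' hm₁ hm₃).1 h),
    fun h => not_scalCong_plus_minus h2 hk hnm hα e e'
      ((PSUAut.isConjUnder_iff_scalCong c hF hn hs i hi hi' hm₂ hm₃).1 h),
    ?_, ?_, ?_, ?_⟩
  · intro γ hγ hγ2
    obtain ⟨g, A, rfl, hA | hA, hgA⟩ := PSUAut.exists_model c hF hn hs i hi' hγ hγ2
    · by_cases hsq : IsSquare ((A : Matrix (Fin n) (Fin n) F₀).det * (-1) ^ m)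
      · exact Or.inr (Or.inl ((PSUAut.isConjUnder_iff_scalCong c hF hn hs i hi hi' hm₂ hgA).2
          (scalCong_plus h2 (by omega) hnm e A hA hsq).symm))
      · exact Or.inr (Or.inr ((PSUAut.isConjUnder_iff_scalCong c hF hn hs i hi hi' hm₃ hgA).2
          (scalCong_minus h2 hk hnm hα e' A hA hsq).symm))
    · refine Or.inl ((PSUAut.isConjUnder_iff_scalCong c hF hn hs i hi hi' hm₁ hgA).2
        (scalCong_J e A hA fun j => ?_).symm)
      have h := congrFun (congrFun hA j) j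
      rw [Matrix.transpose_apply, Matrix.neg_apply] at h
      exact (mul_eq_zero.1 (show (2 : F₀) * (A : Matrix (Fin n) (Fin n) F₀) j j = 0 by
        linear_combination h)).resolve_left h2
  · obtain ⟨E0⟩ := PSUAut.nonempty_centralizer_graph_equiv c i hF hn hs hi hi' hm₁
    obtain ⟨E⟩ := nonempty_projQuot_of_scalCong (B := Matrix.J (Fin m) F₀) e (ScalCong.refl (A₁ : Matrix (Fin n) (Fin n) F₀))
    rw [← similarityGroup_eq_simA (Cfsg.sympForm m F₀) _ (fun u v => rfl)] at E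
    exact ⟨E0.trans E⟩
  · obtain ⟨E0⟩ := PSUAut.nonempty_centralizer_graph_equiv c i hF hn hs hi hi' hm₂
    obtain ⟨E⟩ := nonempty_projQuot_of_scalCong (B := CfsgLib.Classes.hypMatrix m F₀) e
      (ScalCong.refl (A₂ : Matrix (Fin n) (Fin n) F₀))
    rw [← quadSim_plus h2 m] at E
    exact ⟨E0.trans E⟩
  · obtain ⟨E0⟩ := PSUAut.nonempty_centralizer_graph_equiv c i hF hn hs hi hi' hm₃
    obtain ⟨E⟩ := nonempty_projQuot_of_scalCong (B := CfsgLib.Classes.minusMatrix (m - 1) 0 (-α)) e'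
      (ScalCong.refl (A₃ : Matrix (Fin n) (Fin n) F₀))
    rw [← quadSim_minus h2] at E
    exact ⟨E0.trans E⟩

end Cfsg.Agent.S2707
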