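import Cfsg.Statements.S2708
import Cfsg.Agent.Lib.ReflectionsSpinor.PSUGraphTypes

set_option autoImplicit false
open Cfsg
open CfsgLib.ReflectionsSpinor

namespace Cfsg.Agent.S2708

/-- Let T = PSU_n(q) with n = 2m ≥ 4 even and q even, realised over the field F (of characteristic 2) with q² elements, and G = Inndiag(T) the image of PGU_n(q). The involutory graph automorphisms of T fall into exactly two G-classes, with representatives whose centralizers in G are isomorphic respectively to the symplectic group Sp_n(F₀) and to the centralizer in Sp_n(F₀) of a symplectic transvection, F₀ a field with q elements. -/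
theorem result {F : Type*} [Field F] [Fintype F] [CharP F 2] {q : ℕ} (hF : Fintype.card F = q ^ 2) {n m : ℕ} (hm : 2 ≤ m) (hnm : n = 2 * m) (F₀ : Type*) [Field F₀] [Fintype F₀] (hF₀ : Fintype.card F₀ = q) :
    ∃ (γ₁ γ₃ : MulAut (Cfsg.PSU n F q)) (t : ↥(Matrix.symplecticGroup (Fin m) F₀)), Cfsg.IsTransvection (t : Matrix (Fin m ⊕ Fin m) (Fin m ⊕ Fin m) F₀) ∧ Cfsg.IsGraphAutClassPSU γ₁ ∧ orderOf γ₁ = 2 ∧ Cfsg.IsGraphAutClassPSU γ₃ ∧ orderOf γ₃ = 2 ∧ ¬ Cfsg.IsConjUnder (Cfsg.inndiagPSU n F q) γ₁ γ₃ ∧ (∀ γ : MulAut (Cfsg.PSU n F q), Cfsg.IsGraphAutClassPSU γ → orderOf γ = 2 → Cfsg.IsConjUnder (Cfsg.inndiagPSU n F q) γ₁ γ ∨ Cfsg.IsConjUnder (Cfsg.inndiagPSU n F q) γ₃ γ) ∧ Nonempty (↥(Cfsg.inndiagPSU n F q ⊓ Subgroup.centralizer {γ₁}) ≃* ↥(Matrix.symplecticGroup (Fin m) F₀)) ∧ Nonempty (↥(Cfsg.inndiagPSU n F q ⊓ Subgroup.centralizer {γ₃}) ≃* ↥(Subgroup.centralizer ({t} : Set ↥(Matrix.symplecticGroup (Fin m) F₀)))) := by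
  obtain ⟨c, i, hi, hi'⟩ := PSUAut.exists_setup hF F₀ hF₀
  haveI : CharP F₀ 2 := (RingHom.charP_iff i i.injective 2).2 inferInstance
  have hn : 3 ≤ n := by omega
  have hs : ¬ (n = 3 ∧ q = 2) := by omega
  let i₀ : Fin m := ⟨0, by omega⟩
  let e₀ : Fin m ⊕ Fin m → F₀ := Pi.single (.inl i₀) 1
  have he₀ : e₀ ≠ 0 := fun h => by simpa [e₀] using congrFun h (.inl i₀)
  let e : Fin m ⊕ Fin m ≃ Fin n := finSumFinEquiv.trans (finCongr (by omega))
  have hJd : IsUnit (Matrix.reindex e e (Matrix.J (Fin m) F₀)).det := by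
    rw [Matrix.det_reindex_self]; exact Matrix.isUnit_det_J (Fin m) F₀
  have hEd : IsUnit (Matrix.reindex e e (evenMatrix e₀)).det := by
    rw [Matrix.det_reindex_self]
    exact isUnit_iff_ne_zero.2 (det_evenMatrix_ne_zero e₀)
  let A₁ : GL (Fin n) F₀ := Matrix.GeneralLinearGroup.mk'' _ hJd
  let A₃ : GL (Fin n) F₀ := Matrix.GeneralLinearGroup.mk'' _ hEd
  have h₁ : (A₁ : Matrix (Fin n) (Fin n) F₀).transpose = (A₁ : Matrix (Fin n) (Fin n) F₀) := by
    show (Matrix.reindex e e _).transpose = Matrix.reindex e e _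
    rw [Matrix.transpose_reindex, J_transpose_self]
  have h₃ : (A₃ : Matrix (Fin n) (Fin n) F₀).transpose = (A₃ : Matrix (Fin n) (Fin n) F₀) := by
    show (Matrix.reindex e e _).transpose = Matrix.reindex e e _
    rw [Matrix.transpose_reindex, transpose_evenMatrix]
  obtain ⟨g₁, hm₁, hg₁, ho₁⟩ := PSUAut.exists_graph_of_form c hF hn hs i hi A₁ (Or.inl h₁)
  obtain ⟨g₃, hm₃, hg₃, ho₃⟩ := PSUAut.exists_graph_of_form c hF hn hs i hi A₃ (Or.inl h₃)
  refine ⟨_, _, stdTransvection e₀, ?_, hg₁, ho₁, hg₃, ho₃, ?_, ?_, ?_, ?_⟩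
  · -- a transvection
    have h1 : Cfsg.sympTransvection m e₀ (1 : F₀) - 1 =
        Matrix.vecMulVec e₀ (Matrix.mulVec (Matrix.J (Fin m) F₀) e₀) := by
      rw [Cfsg.sympTransvection, one_smul, add_sub_cancel_left]
    show (Cfsg.sympTransvection m e₀ 1 - 1).rank = 1 ∧
      (Cfsg.sympTransvection m e₀ 1 - 1) * (Cfsg.sympTransvection m e₀ 1 - 1) = 0
    rw [h1]
    refine ⟨le_antisymm (Matrix.rank_vecMulVec_le _ _) ?_, ?_⟩
    · rw [Nat.one_le_iff_ne_zero]
      intro h0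
      have hbot : LinearMap.range
          (Matrix.vecMulVec e₀ (Matrix.mulVec (Matrix.J (Fin m) F₀) e₀)).mulVecLin = ⊥ :=
        Submodule.finrank_eq_zero.1 h0
      have h2 : (Matrix.vecMulVec e₀ (Matrix.mulVec (Matrix.J (Fin m) F₀) e₀)).mulVec
          (Pi.single (.inr i₀) 1) = 0 :=
        LinearMap.congr_fun (LinearMap.range_eq_bot.1 hbot) _
      have h3 := congrFun h2 (.inl i₀)
      simp [e₀, Matrix.J, Matrix.vecMulVec_apply] at h3
    · rw [Matrix.vecMulVec_mul_vecMulVec]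
      have h0 : dotProduct (Matrix.mulVec (Matrix.J (Fin m) F₀) e₀) e₀ = 0 := by
        rw [dotProduct_comm]
        exact CfsgLib.ReflectionsSpinor.sympForm_self e₀
      rw [h0, zero_smul]
      ext a b
      simp [Matrix.vecMulVec_apply]
  · intro h
    obtain ⟨P, d, hP⟩ := (PSUAut.isConjUnder_iff_scalCong c hF hn hs i hi hi' hm₁ hm₃).1 h
    -- an alternating matrix is not congruent to a non-alternating one
    have hdiag : ∀ v, dotProduct v ((A₁ : Matrix (Fin n) (Fin n) F₀).mulVec v) = 0 := by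
      intro v
      rw [dot_self_eq_sq _ h₁ 0 (fun j => ?_) v]
      · simp
      · show (0 : F₀) * 0 = Matrix.reindex e e (Matrix.J (Fin m) F₀) j j
        rcases hj : e.symm j with a | a <;> simp [hj, Matrix.J]
    obtain ⟨v, hv⟩ : ∃ v, (P : Matrix (Fin n) (Fin n) F₀).mulVec v = Pi.single (e (.inr i₀)) 1 :=
      ⟨((P⁻¹ : GL (Fin n) F₀) : Matrix (Fin n) (Fin n) F₀).mulVec (Pi.single (e (.inr i₀)) 1), by
        rw [Matrix.mulVec_mulVec, Units.mul_inv, Matrix.one_mulVec]⟩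
    have h1 := congrArg (fun X => dotProduct v (Matrix.mulVec X v)) hP
    simp only [Matrix.smul_mulVec, dotProduct_smul, hdiag, smul_zero] at h1
    rw [← dot_congr_mulVec, hv] at h1
    have h2 : (A₃ : Matrix (Fin n) (Fin n) F₀) = Matrix.reindex e e (evenMatrix e₀) := rfl
    simp [h2, evenMatrix, Matrix.J, e₀, Matrix.vecMulVec_apply] at h1
  · intro γ hγ hγ2
    obtain ⟨g, A, rfl, hA, hgA⟩ := PSUAut.exists_model c hF hn hs i hi' hγ hγ2
    rw [neg_eq_self_matrix, or_self] at hA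
    by_cases hd : ∀ j, (A : Matrix (Fin n) (Fin n) F₀) j j = 0
    · exact Or.inl ((PSUAut.isConjUnder_iff_scalCong c hF hn hs i hi hi' hm₁ hgA).2
        (scalCong_J e A (hA.trans (neg_eq_self_matrix _).symm) hd).symm)
    · push Not at hd
      exact Or.inr ((PSUAut.isConjUnder_iff_scalCong c hF hn hs i hi hi' hm₃ hgA).2
        (scalCong_even hnm e i₀ A hA hd).symm)
  · obtain ⟨E0⟩ := PSUAut.nonempty_centralizer_graph_equiv c i hF hn hs hi hi' hm₁
    obtain ⟨E⟩ := nonempty_projQuot_of_scalCong (B := Matrix.J (Fin m) F₀) e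
      (ScalCong.refl (A₁ : Matrix (Fin n) (Fin n) F₀))
    obtain ⟨E'⟩ := nonempty_projQuot_J_equiv (F := F₀) (m := m)
    exact ⟨(E0.trans E).trans E'⟩
  · obtain ⟨E0⟩ := PSUAut.nonempty_centralizer_graph_equiv c i hF hn hs hi hi' hm₃
    obtain ⟨E⟩ := nonempty_projQuot_of_scalCong (B := evenMatrix e₀) e
      (ScalCong.refl (A₃ : Matrix (Fin n) (Fin n) F₀))
    obtain ⟨E'⟩ := nonempty_projQuot_even_equiv he₀
    exact ⟨(E0.trans E).trans E'⟩

end Cfsg.Agent.S2708
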