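import Cfsg.Statements.S2709
import Cfsg.Agent.Lib.ReflectionsSpinor.PSUGraphTypes

set_option autoImplicit false
open Cfsg
open CfsgLib.ReflectionsSpinor

namespace Cfsg.Agent.S2709

/-- Let T = PSU_n(q) be simple (n ≥ 3, (n,q) ≠ (3,2), q = p^f), realised over the field F with q² elements, G = Inndiag(T) the image of PGU_n(q), and γ an involutory graph automorphism of T. The G-class of γ is the union of exactly c T-classes, where: if n is even and q is odd, c = gcd(n/2, q + 1) when C_G(γ) is isomorphic to PGSp_n(F₀) for a field F₀ with q elements (symplectic type) and c = gcd(n, q + 1)/2 otherwise; and c = gcd(n, q + 1) when n is odd or q is even. -/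
theorem result {F : Type*} [Field F] [Fintype F] {p f q : ℕ} [Fact p.Prime] (hq : q = p ^ f) (hf : 1 ≤ f) (hF : Fintype.card F = q ^ 2) {n : ℕ} (hn : 3 ≤ n) (hs : ¬ (n = 3 ∧ q = 2)) (F₀ : Type*) [Field F₀] [Fintype F₀] (hF₀ : Fintype.card F₀ = q) (γ : MulAut (Cfsg.PSU n F q)) (hγ : Cfsg.IsGraphAutClassPSU γ) (hγ2 : orderOf γ = 2) :
    ((Even n ∧ Odd q ∧ Nonempty (↥(Cfsg.inndiagPSU n F q ⊓ Subgroup.centralizer {γ}) ≃* Cfsg.PGSp (n / 2) F₀)) → Cfsg.splitClassCount (Cfsg.inndiagPSU n F q) (Cfsg.Inn (Cfsg.PSU n F q)) γ = Nat.gcd (n / 2) (q + 1)) ∧ ((Even n ∧ Odd q ∧ ¬ Nonempty (↥(Cfsg.inndiagPSU n F q ⊓ Subgroup.centralizer {γ}) ≃* Cfsg.PGSp (n / 2) F₀)) → Cfsg.splitClassCount (Cfsg.inndiagPSU n F q) (Cfsg.Inn (Cfsg.PSU n F q)) γ = Nat.gcd n (q + 1) / 2) ∧ (¬ (Even n ∧ Odd q) → Cfsg.splitClassCount (Cfsg.inndiagPSU n F q) (Cfsg.Inn (Cfsg.PSU n F q)) γ = Nat.gcd n (q + 1)) := by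
  obtain ⟨c, i, hi, hi'⟩ := PSUAut.exists_setup hF F₀ hF₀
  obtain ⟨g, A, rfl, hA, hgA⟩ := PSUAut.exists_model c hF hn hs i hi' hγ hγ2
  obtain ⟨E0⟩ := PSUAut.nonempty_centralizer_graph_equiv c i hF hn hs hi hi' hgA
  have hF₀' : Fintype.card F₀ = p ^ f := hF₀.trans hq
  have evenCase : Even n → Odd q →
      ((A : Matrix (Fin n) (Fin n) F₀).transpose = (A : Matrix (Fin n) (Fin n) F₀) →
        ¬ Nonempty (↥(Cfsg.inndiagPSU n F q ⊓ Subgroup.centralizer {PSUAut.semiAut g (PSUAut.conjE c)}) ≃*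
          Cfsg.PGSp (n / 2) F₀) ∧
        Cfsg.splitClassCount (Cfsg.inndiagPSU n F q) (Cfsg.Inn (Cfsg.PSU n F q))
          (PSUAut.semiAut g (PSUAut.conjE c)) = Nat.gcd n (q + 1) / 2) ∧
      ((A : Matrix (Fin n) (Fin n) F₀).transpose = -(A : Matrix (Fin n) (Fin n) F₀) →
        Nonempty (↥(Cfsg.inndiagPSU n F q ⊓ Subgroup.centralizer {PSUAut.semiAut g (PSUAut.conjE c)}) ≃*
          Cfsg.PGSp (n / 2) F₀) ∧
        Cfsg.splitClassCount (Cfsg.inndiagPSU n F q) (Cfsg.Inn (Cfsg.PSU n F q))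
          (PSUAut.semiAut g (PSUAut.conjE c)) = Nat.gcd (n / 2) (q + 1)) := by
    intro hev hop
    obtain ⟨m, hm⟩ := hev
    have hnm : n = 2 * m := by omega
    have hdiv : n / 2 = m := by omega
    have h2 : (2 : F₀) ≠ 0 := two_ne_zero_of_odd_card (hF₀.symm ▸ hop)
    have hp2 : p ≠ 2 := fun h => h2 (by
      have h1 := Nat.cast_card_eq_zero F₀
      rw [hF₀', h, Nat.cast_pow] at h1
      simpa using (pow_eq_zero_iff (by omega)).1 h1)
    rw [hdiv]
    refine ⟨fun hs' => ⟨fun ⟨E⟩ => not_projQuot_symm_PGSp hF₀' hf hp2 (by omega) hnm A hs' ⟨E0.symm.trans E⟩,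
      PSUAut.split_graph_symm c hF hn hs i hi hi' h2 hop hgA hnm hs'⟩, fun hs' => ?_⟩
    let e : Fin m ⊕ Fin m ≃ Fin n := finSumFinEquiv.trans (finCongr (by omega))
    have hJ := scalCong_J e A hs' fun j => by
      have h := congrFun (congrFun hs' j) j
      rw [Matrix.transpose_apply, Matrix.neg_apply] at h
      exact (mul_eq_zero.1 (show (2 : F₀) * (A : Matrix (Fin n) (Fin n) F₀) j j = 0 by
        linear_combination h)).resolve_left h2
    obtain ⟨E⟩ := nonempty_projQuot_of_scalCong e hJ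
    rw [← similarityGroup_eq_simA (Cfsg.sympForm m F₀) _ (fun u v => rfl)] at E
    exact ⟨⟨E0.trans E⟩, PSUAut.split_graph_symp c hF hn hs i hi hi' hgA hnm e hJ⟩
  refine ⟨fun ⟨hev, hop, hiso⟩ => ?_, fun ⟨hev, hop, hiso⟩ => ?_, fun hnot => ?_⟩
  · rcases hA with hA | hA
    · exact absurd hiso ((evenCase hev hop).1 hA).1
    · exact ((evenCase hev hop).2 hA).2
  · rcases hA with hA | hA
    · exact ((evenCase hev hop).1 hA).2
    · exact absurd ((evenCase hev hop).2 hA).1 hiso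
  · refine PSUAut.split_graph_of_pow c hF hn hs i hi hi' hgA ?_
    rcases not_and_or.1 hnot with h | h
    · exact pow_sqrt_of_odd (Nat.not_even_iff_odd.1 h)
    · haveI : CharP F₀ 2 := charTwo_of_even_card (hF₀.symm ▸ Nat.not_odd_iff_even.1 h)
      exact pow_sqrt_of_charTwo

end Cfsg.Agent.S2709
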