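import Cfsg.Statements.S2710
import Cfsg.Agent.Lib.ReflectionsSpinor.PSUGraphTypes

set_option autoImplicit false
open Cfsg
open CfsgLib.ReflectionsSpinor

namespace Cfsg.Agent.S2710

/-- Let T = PSU_n(q) with n ≥ 4 divisible by 4 (n = 2m) and q odd, realised over the field F with q² elements, G = Inndiag(T) the image of PGU_n(q), and φ the standard field automorphism of T attached to the q-th power map of F (it induces inverse-transpose on the unitary matrices and is a graph automorphism). Its centralizer in G is isomorphic to the projective conformal orthogonal group of the plus-type form Σ xᵢ yᵢ in dimension n over a field F₀ with q elements. (Dimensions n ≡ 2 (mod 4) are not covered.) -/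
theorem result {F : Type*} [Field F] [Fintype F] {q : ℕ} (hodd : Odd q) (hF : Fintype.card F = q ^ 2) {n m : ℕ} (hm : 2 ≤ m) (hnm : n = 2 * m) (h4 : 4 ∣ n) (F₀ : Type*) [Field F₀] [Fintype F₀] (hF₀ : Fintype.card F₀ = q) (σ : F ≃+* F) (hσ : ∀ a : F, σ a = a ^ q) (φ : MulAut (Cfsg.PSU n F q)) (hφ : Cfsg.IsFieldAutPSUOf σ φ) :
    Nonempty (↥(Cfsg.inndiagPSU n F q ⊓ Subgroup.centralizer {φ}) ≃* Cfsg.PGO F₀ (Cfsg.quadFormPlus m F₀)) := by
  obtain ⟨c, i, hi, hi'⟩ := PSUAut.exists_setup hF F₀ hF₀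
  have hn : 3 ≤ n := by omega
  have hs : ¬ (n = 3 ∧ q = 2) := by omega
  have h2 : (2 : F₀) ≠ 0 := two_ne_zero_of_odd_card (hF₀ ▸ hodd)
  obtain rfl : σ = PSUAut.conjE c := RingEquiv.ext fun a => (hσ a).trans (c.apply a).symm
  obtain rfl := PSUAut.isFieldAutOf_iff.1 hφ
  have hmodel : PSUAut.IsModel c i (1 : ↥(Cfsg.GU n F q)) (Units.val (1 : GL (Fin n) F₀)) :=
    ⟨1, 1, 1, by simp [Matrix.map_one], by simp [Matrix.map_one]⟩
  obtain ⟨E0⟩ := PSUAut.nonempty_centralizer_graph_equiv c i hF hn hs hi hi' hmodel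
  let e : Fin m ⊕ Fin m ≃ Fin n := finSumFinEquiv.trans (finCongr (by omega))
  obtain ⟨k, rfl⟩ : Even m := even_iff_two_dvd.2 (by omega)
  obtain ⟨E⟩ := nonempty_projQuot_of_scalCong e (scalCong_plus h2 (by omega) hnm e 1 (by simp) (by
    refine ⟨(-1) ^ k, ?_⟩
    rw [Units.val_one, Matrix.det_one, one_mul, pow_add]))
  rw [← quadSim_plus h2] at E
  exact ⟨E0.trans E⟩

end Cfsg.Agent.S2710
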