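import Cfsg.Statements.S2712
import Cfsg.Agent.Lib.ReflectionsSpinor.PSpFieldAut

set_option autoImplicit false
open Cfsg

namespace Cfsg.Agent.S2712

/-- Let T = PSp_{2m}(F) be simple over the field F with p^f elements (m ≥ 2, (2m, |F|) ≠ (4, 2)), G = Inndiag(T) the image of the projective conformal symplectic group PGSp_{2m}(F), and x a field automorphism of T of prime order r. Then r divides f; C_G(x) is isomorphic to PGSp_{2m}(F₀) for a field F₀ with p^(f/r) elements; and the G-class of x is the union of exactly gcd(gcd(2, p^f − 1), r) T-classes. -/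
theorem result {F : Type*} [Field F] [Fintype F] {p f : ℕ} [Fact p.Prime] (hF : Fintype.card F = p ^ f) (hf : 1 ≤ f) {m : ℕ} (hm : 2 ≤ m) (hs : m = 2 → 3 ≤ Fintype.card F) (x : MulAut (Cfsg.PSp m F)) (hx : Cfsg.IsFieldAutClassPSp x) {r : ℕ} (hr : r.Prime) (hxr : orderOf x = r) (F₀ : Type*) [Field F₀] [Fintype F₀] (hF₀ : Fintype.card F₀ = p ^ (f / r)) :
    r ∣ f ∧ Nonempty (↥(Cfsg.inndiagPSp m F ⊓ Subgroup.centralizer {x}) ≃* Cfsg.PGSp m F₀) ∧ Cfsg.splitClassCount (Cfsg.inndiagPSp m F) (Cfsg.Inn (Cfsg.PSp m F)) x = Nat.gcd (Nat.gcd 2 (p ^ f - 1)) r := by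
  obtain ⟨α, σ, hσ, hstd⟩ := hx
  have he : α * x * α⁻¹ = CfsgLib.ReflectionsSpinor.PSpAut.semiAut 1 σ :=
    CfsgLib.ReflectionsSpinor.PSpAut.isStdFieldAut_iff.1 hstd
  have hord : orderOf σ = r := by
    rw [← CfsgLib.ReflectionsSpinor.PSpAut.orderOf_semiAut_one (m := m) hm σ, ← he, ← hxr]
    exact (MulAut.conj α).orderOf_eq x
  obtain ⟨hrf, hcard⟩ := CfsgLib.ReflectionsSpinor.fixedField_card hF σ hord
  obtain ⟨i, hi, hi'⟩ := CfsgLib.ReflectionsSpinor.exists_hom_onto_fixedField σ F₀ (by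
    rw [hcard, hF₀])
  refine ⟨hrf, ?_, ?_⟩
  · obtain ⟨e⟩ := CfsgLib.ReflectionsSpinor.PSpAut.nonempty_centralizer_field_equiv hm σ i hi hi'
    have e1 := CfsgLib.ReflectionsSpinor.centralizerConjEquiv (H := Cfsg.inndiagPSp m F) (a := α)
      (fun _ h => CfsgLib.ReflectionsSpinor.PSpAut.conj_mem_inndiag hm α h)
      (fun _ h => CfsgLib.ReflectionsSpinor.PSpAut.inndiag_conj' hm α h) x
    rw [he] at e1
    exact ⟨e1.trans e⟩
  · rw [← CfsgLib.ReflectionsSpinor.PSpAut.splitClassCount_transport hm α x, he,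
      CfsgLib.ReflectionsSpinor.PSpAut.split_field hm σ i hi hi']
    simp only [Nat.card_eq_fintype_card, hF, hF₀]
    have hfr : f = f / r * r := (Nat.div_mul_cancel hrf).symm
    have hq₀ : 2 ≤ p ^ (f / r) := by rw [← hF₀]; exact Fintype.one_lt_card
    conv_lhs => rw [hfr, pow_mul]
    conv_rhs => rw [hfr, pow_mul]
    rw [Nat.mul_div_cancel _ hr.pos]
    exact CfsgLib.ReflectionsSpinor.PSpAut.gcd_two_geom_quotient hq₀ hr.one_le

end Cfsg.Agent.S2712
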