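import Cfsg.Statements.S2713
import Cfsg.Agent.Lib.ReflectionsSpinor.PSpFieldAut

set_option autoImplicit false
open Cfsg

namespace Cfsg.Agent.S2713

/-- Let T = PSp_{2m}(F) be simple over a finite field (m ≥ 2, (2m, |F|) ≠ (4, 2)) and let x be a field automorphism of T of prime order r. Then an element y of the coset Inndiag(T)·x (y = δ x with δ in the image of the projective conformal symplectic group) has order r if and only if y is conjugate to x by an element of Inndiag(T). -/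
theorem result {F : Type*} [Field F] [Fintype F] {m : ℕ} (hm : 2 ≤ m) (hs : m = 2 → 3 ≤ Fintype.card F) (x δ : MulAut (Cfsg.PSp m F)) (hx : Cfsg.IsFieldAutClassPSp x) {r : ℕ} (hr : r.Prime) (hxr : orderOf x = r) (hδ : δ ∈ Cfsg.inndiagPSp m F) :
    orderOf (δ * x) = r ↔ Cfsg.IsConjUnder (Cfsg.inndiagPSp m F) x (δ * x) := by
  obtain ⟨α, σ, hσ, hstd⟩ := hx
  have he : α * x * α⁻¹ = CfsgLib.ReflectionsSpinor.PSpAut.semiAut 1 σ :=
    CfsgLib.ReflectionsSpinor.PSpAut.isStdFieldAut_iff.1 hstd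
  have hd' : α * δ * α⁻¹ ∈ Cfsg.inndiagPSp m F :=
    CfsgLib.ReflectionsSpinor.PSpAut.conj_mem_inndiag hm α hδ
  have hmul : α * (δ * x) * α⁻¹ = (α * δ * α⁻¹) * (α * x * α⁻¹) := by group
  have hcx : orderOf (α * x * α⁻¹) = r := by
    rw [← hxr]; exact (MulAut.conj α).orderOf_eq x
  rw [← CfsgLib.ReflectionsSpinor.isConjUnder_conj_iff (a := α)
      (fun _ h => CfsgLib.ReflectionsSpinor.PSpAut.conj_mem_inndiag hm α h)
      (fun _ h => CfsgLib.ReflectionsSpinor.PSpAut.inndiag_conj' hm α h),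
    show orderOf (δ * x) = orderOf (α * (δ * x) * α⁻¹) from ((MulAut.conj α).orderOf_eq _).symm, hmul, he]
  exact CfsgLib.ReflectionsSpinor.PSpAut.orderOf_eq_iff_isConjUnder_field hm (he ▸ hcx) hd'

end Cfsg.Agent.S2713
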