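import Cfsg.Statements.S2718
import Cfsg.Agent.Lib.ReflectionsSpinor.POmegaGraphGamma
import Cfsg.Agent.Lib.ReflectionsSpinor.POmegaPlusFacts

set_option autoImplicit false
open Cfsg
open CfsgLib.ReflectionsSpinor

namespace Cfsg.Agent.S2718

/-- Let T = PΩ⁺_{2m}(F) with m ≥ 4 and |F| = q odd, G = Inndiag(T), and γ an involutory graph automorphism of T induced by a similarity (one interchanging the two classes of maximal totally singular subspaces). Then the G-class of γ is either a single T-class or the union of exactly two T-classes, and it is the union of two unless m is odd and q ≡ 3 (mod 4). -/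
theorem result {F : Type*} [Field F] [Fintype F] (hodd : Odd (Fintype.card F)) {m : ℕ} (hm : 4 ≤ m) (γ : MulAut (Cfsg.POmega F (Cfsg.quadFormPlus m F))) (hγ : Cfsg.IsSimilarityGraphAutPOmegaPlus m γ) (hγ2 : orderOf γ = 2) :
    (Cfsg.splitClassCount (Cfsg.inndiagPOmegaPlus m F) (Cfsg.Inn (Cfsg.POmega F (Cfsg.quadFormPlus m F))) γ = 1 ∨ Cfsg.splitClassCount (Cfsg.inndiagPOmegaPlus m F) (Cfsg.Inn (Cfsg.POmega F (Cfsg.quadFormPlus m F))) γ = 2) ∧ (¬ (Odd m ∧ Fintype.card F % 4 = 3) → Cfsg.splitClassCount (Cfsg.inndiagPOmegaPlus m F) (Cfsg.Inn (Cfsg.POmega F (Cfsg.quadFormPlus m F))) γ = 2) := by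
  have h2 : (2 : F) ≠ 0 := CfsgLib.ClassicalForms.two_ne_zero_of_odd (by rwa [Nat.card_eq_fintype_card])
  have E := POmegaForms.even2_qP h2 hm
  obtain ⟨s, l, h, hs, hsd, hsq, hsp⟩ := POmegaPlus.exists_special E
  have hn := POmegaPlus.negOne_mem_iff_plus E
  obtain ⟨g, hg, hP, hi⟩ := hγ
  have hd : POmegaQuot.delta E ⟨g, hg⟩ = -1 := (Int.units_eq_one_or _).resolve_left
    fun e => hP ((POmegaPlus.preserves_iff_delta E (by omega) ⟨g, hg⟩).2 e)
  have hγe : γ = POmegaAut.simAut _ ⟨g, hg⟩ := (POmegaAut.isInduced_refl_iff hg).1 hi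
  have hgg : γ * γ = 1 := by
    have := pow_orderOf_eq_one γ
    rwa [hγ2, pow_two] at this
  rw [hγe] at hgg ⊢
  rw [POmegaPlus.inndiag_eq E (by omega)]
  have hk : Fintype.card (Fin m ⊕ Fin m) / 2 = m := by simp; omega
  by_cases hc : Odd m ∧ Fintype.card F % 4 = 3
  · exact ⟨(POmegaQuot.split_outside E hs hsd (fun e => hn.1 e hc) ⟨g, hg⟩ hd hgg).1,
      fun e => absurd hc e⟩
  · have := POmegaQuot.split_inside E hs hsd (hn.2 hc)
      (POmegaQuot.inndiag_comm E hs hsd (hn.2 hc) hsq) ⟨g, hg⟩ hd hgg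
    exact ⟨Or.inr this, fun _ => this⟩

end Cfsg.Agent.S2718
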