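import Cfsg.Statements.S2719
import Cfsg.Agent.Lib.ReflectionsSpinor.POmegaGraphGamma

set_option autoImplicit false
open Cfsg
open CfsgLib.ReflectionsSpinor

namespace Cfsg.Agent.S2719

/-- Let T = PΩ⁻_{2m+2}(F) with m ≥ 3 and |F| = q odd (form with anisotropic binary part z₁² + a z₁ z₂ + b z₂²), G = Inndiag(T), and γ an involutory graph automorphism of T (an automorphism in the image of the semisimilarity group, not inner-diagonal, of order 2). Then the G-class of γ is either a single T-class or the union of exactly two T-classes, and it is the union of two unless m is even and q ≡ 1 (mod 4). -/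
theorem result {F : Type*} [Field F] [Fintype F] (hodd : Odd (Fintype.card F)) {m : ℕ} (hm : 3 ≤ m) (a b : F) (hab : (∀ z₁ z₂ : F, z₁ ^ 2 + a * z₁ * z₂ + b * z₂ ^ 2 = 0 → z₁ = 0 ∧ z₂ = 0)) (γ : MulAut (Cfsg.POmega F (Cfsg.quadFormMinus m F a b))) (hγ : Cfsg.IsGraphAutClassPOmegaMinus m a b γ) (hγ2 : orderOf γ = 2) :
    (Cfsg.splitClassCount (Cfsg.inndiagPOmegaMinus m F a b) (Cfsg.Inn (Cfsg.POmega F (Cfsg.quadFormMinus m F a b))) γ = 1 ∨ Cfsg.splitClassCount (Cfsg.inndiagPOmegaMinus m F a b) (Cfsg.Inn (Cfsg.POmega F (Cfsg.quadFormMinus m F a b))) γ = 2) ∧ (¬ (Even m ∧ Fintype.card F % 4 = 1) → Cfsg.splitClassCount (Cfsg.inndiagPOmegaMinus m F a b) (Cfsg.Inn (Cfsg.POmega F (Cfsg.quadFormMinus m F a b))) γ = 2) := by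
  have h2 : (2 : F) ≠ 0 := CfsgLib.ClassicalForms.two_ne_zero_of_odd (by rwa [Nat.card_eq_fintype_card])
  have E := POmegaForms.even2_qM h2 hm (a := a) (b := b) hab
  obtain ⟨s, l, h, hs, hsd, hsq, hsp⟩ := POmegaMinus.exists_special E hab
  have hn := POmegaMinus.negOne_mem_iff_minus E hab
  obtain ⟨hΓ, hnot, -⟩ := hγ
  have hgg : γ * γ = 1 := by
    have := pow_orderOf_eq_one γ
    rwa [hγ2, pow_two] at this
  obtain ⟨g, hγe⟩ := POmegaMinus.exists_sim_of_involution E hm hab hΓ hgg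
  rw [POmegaMinus.inndiag_eq E (by omega) hab] at hnot ⊢
  have hd : POmegaQuot.delta E g = -1 := (Int.units_eq_one_or _).resolve_left
    fun e => hnot ⟨g, e, hγe.symm⟩
  rw [hγe] at hgg ⊢
  by_cases hc : Even m ∧ Fintype.card F % 4 = 3
  · have := POmegaQuot.split_inside E hs hsd (hn.2 hc)
      (POmegaQuot.inndiag_comm E hs hsd (hn.2 hc) hsq) g hd hgg
    exact ⟨Or.inr this, fun _ => this⟩
  · have := POmegaQuot.split_outside E hs hsd (fun e => hc (hn.1 e)) g hd hgg
    refine ⟨this.1, fun h' => this.2 ?_⟩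
    have hm' : Odd m := Nat.not_even_iff_odd.1 fun e => by
      have := Nat.odd_iff.1 hodd
      rcases (show Fintype.card F % 4 = 1 ∨ Fintype.card F % 4 = 3 by omega) with h1 | h1
      exacts [h' ⟨e, h1⟩, hc ⟨e, h1⟩]
    rw [show Fintype.card ((Fin m ⊕ Fin m) ⊕ Fin 2) / 2 = m + 1 by simp; omega]
    exact hm'.add_one

end Cfsg.Agent.S2719
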