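import Cfsg.Statements.S2725
import Cfsg.Agent.Lib.ReflectionsSpinor.POmegaPlusFacts

set_option autoImplicit false
open Cfsg
open CfsgLib.ReflectionsSpinor

namespace Cfsg.Agent.S2725

/-- Let T = PΩ⁺_{2m}(F) with m ≥ 4 and |F| = q odd. The inner-diagonal group G = Inndiag(T) (image of the class-preserving similarities) taken modulo the inner automorphism group T is cyclic of order 2 when m is odd and q ≡ 3 (mod 4), cyclic of order 4 when m is odd and q ≡ 1 (mod 4), and elementary abelian of order 4 when m is even. -/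
theorem result {F : Type*} [Field F] [Fintype F] (hodd : Odd (Fintype.card F)) {m : ℕ} (hm : 4 ≤ m) :
    ((Odd m ∧ Fintype.card F % 4 = 3) → (∃ φ : ↥(Cfsg.inndiagPOmegaPlus m F) →* Multiplicative (ZMod 2), Function.Surjective φ ∧ φ.ker = (Cfsg.Inn (Cfsg.POmega F (Cfsg.quadFormPlus m F))).subgroupOf (Cfsg.inndiagPOmegaPlus m F))) ∧ ((Odd m ∧ Fintype.card F % 4 = 1) → (∃ φ : ↥(Cfsg.inndiagPOmegaPlus m F) →* Multiplicative (ZMod 4), Function.Surjective φ ∧ φ.ker = (Cfsg.Inn (Cfsg.POmega F (Cfsg.quadFormPlus m F))).subgroupOf (Cfsg.inndiagPOmegaPlus m F))) ∧ (Even m → (∃ φ : ↥(Cfsg.inndiagPOmegaPlus m F) →* Multiplicative (ZMod 2 × ZMod 2), Function.Surjective φ ∧ φ.ker = (Cfsg.Inn (Cfsg.POmega F (Cfsg.quadFormPlus m F))).subgroupOf (Cfsg.inndiagPOmegaPlus m F))) := by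
  have h2 : (2 : F) ≠ 0 := CfsgLib.ClassicalForms.two_ne_zero_of_odd (by rwa [Nat.card_eq_fintype_card])
  have E := POmegaForms.even2_qP h2 hm
  obtain ⟨s, l, h, hs, hsd, hsq, hsp⟩ := POmegaPlus.exists_special E
  have hn := POmegaPlus.negOne_mem_iff_plus E
  rw [POmegaPlus.inndiag_eq E (by omega)]
  refine ⟨fun h' => POmegaQuot.inndiag_mod_inn_two E hs hsd (fun e => hn.1 e h'), fun h' => ?_,
    fun h' => ?_⟩
  · refine (POmegaQuot.inndiag_mod_inn_four E hs hsd (hn.2 (fun e => by omega)) hsq).1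
      ((Int.units_eq_one_or _).resolve_left fun e => Nat.not_even_iff_odd.2 h'.1 (hsp.1 e))
  · exact (POmegaQuot.inndiag_mod_inn_four E hs hsd
      (hn.2 fun e => Nat.not_even_iff_odd.2 e.1 h') hsq).2 (hsp.2 h')

end Cfsg.Agent.S2725
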