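import Cfsg.Statements.S2727
import Cfsg.Agent.Lib.ReflectionsSpinor.POmegaMinusFacts

set_option autoImplicit false
open Cfsg
open CfsgLib.ReflectionsSpinor

namespace Cfsg.Agent.S2727

/-- Let T = PΩ⁻_{2m+2}(F) with m ≥ 3 and |F| = q odd (form with anisotropic binary part). The image of the special orthogonal group in Aut(T) contains the inner automorphism group T with index 2 when m is even and q ≡ 3 (mod 4), and coincides with it otherwise (the index is 2 exactly when the discriminant of the form is a square). -/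
theorem result {F : Type*} [Field F] [Fintype F] (hodd : Odd (Fintype.card F)) {m : ℕ} (hm : 3 ≤ m) (a b : F) (hab : (∀ z₁ z₂ : F, z₁ ^ 2 + a * z₁ * z₂ + b * z₂ ^ 2 = 0 → z₁ = 0 ∧ z₂ = 0)) :
    ((Even m ∧ Fintype.card F % 4 = 3) → (Cfsg.Inn (Cfsg.POmega F (Cfsg.quadFormMinus m F a b))).relIndex (Cfsg.psoAut F (Cfsg.quadFormMinus m F a b)) = 2) ∧ (¬ (Even m ∧ Fintype.card F % 4 = 3) → (Cfsg.Inn (Cfsg.POmega F (Cfsg.quadFormMinus m F a b))).relIndex (Cfsg.psoAut F (Cfsg.quadFormMinus m F a b)) = 1) := by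
  have h2 : (2 : F) ≠ 0 := CfsgLib.ClassicalForms.two_ne_zero_of_odd (by rwa [Nat.card_eq_fintype_card])
  have E := POmegaForms.even2_qM h2 hm (a := a) (b := b) hab
  obtain ⟨s, l, h, hs, hsd, hsq, hsp⟩ := POmegaMinus.exists_special E hab
  have hn := POmegaMinus.negOne_mem_iff_minus E hab
  refine ⟨fun h => ?_, fun h => ?_⟩
  · have key := POmegaQuot.relIndex_inn_pso_eq_two E (hn.2 h)
    rw [POmegaForms.coe_qM] at key
    exact key
  · have key := POmegaQuot.relIndex_inn_pso_eq_one E (fun e => h (hn.1 e))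
    rw [POmegaForms.coe_qM] at key
    exact key

end Cfsg.Agent.S2727
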