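import Cfsg.Statements.S2738
-- import your own Cfsg.Agent.* helpers here

set_option autoImplicit false
open Cfsg

namespace Cfsg.Agent.S2738

/-- The special linear group SL(3, 4) has centre of order 3 and does not split over it: no subgroup is a complement to the centre (so SL(3, 4) is a non-split central extension of PSL(3, 4) by a group of order 3). -/
theorem result (F : Type*) [Field F] [Fintype F] (hF : Fintype.card F = 4) : Nat.card ↥(Subgroup.center (Matrix.SpecialLinearGroup (Fin 3) F)) = 3 ∧ ¬ ∃ K : Subgroup (Matrix.SpecialLinearGroup (Fin 3) F), Subgroup.IsComplement' (Subgroup.center (Matrix.SpecialLinearGroup (Fin 3) F)) K := by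
  classical
  haveI : Fact (Nat.Prime 2) := ⟨Nat.prime_two⟩
  have h4 : ∀ x : F, x ≠ 0 → x ^ 3 = 1 := fun x hx => by
    have := FiniteField.pow_card_sub_one_eq_one x hx; rwa [hF] at this
  obtain ⟨w, hw0, hw1⟩ : ∃ w : F, w ≠ 0 ∧ w ≠ 1 := by
    by_contra h
    push_neg at h
    have : Fintype.card F ≤ ({0, 1} : Finset F).card := by
      refine Finset.card_le_card (s := Finset.univ) fun x _ => ?_
      by_cases hx : x = 0 <;> simp [hx, h x]
    have h2 : ({0, 1} : Finset F).card ≤ 2 := Finset.card_le_two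
    omega
  have hw3 := h4 w hw0
  have hcard : Nat.card ↥(Subgroup.center (Matrix.SpecialLinearGroup (Fin 3) F)) = 3 := by
    rw [Nat.card_congr (Matrix.SpecialLinearGroup.center_equiv_rootsOfUnity).toEquiv]
    simp only [Fintype.card_fin]
    have : rootsOfUnity (max 3 1) F = ⊤ := by
      ext u
      simp only [mem_rootsOfUnity, Subgroup.mem_top, iff_true]
      exact Units.ext (by simpa using h4 u u.ne_zero)
    simp only [show max 3 1 = 3 from rfl] at this ⊢
    rw [this, Subgroup.card_top, Nat.card_eq_fintype_card, Fintype.card_units, hF]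
  refine ⟨hcard, ?_⟩
  rintro ⟨K, hK⟩
  let a : Matrix.SpecialLinearGroup (Fin 3) F := ⟨!![1, 0, 0; 0, w, 0; 0, 0, w ^ 2], by
    simp [Matrix.det_fin_three]; linear_combination hw3⟩
  let b : Matrix.SpecialLinearGroup (Fin 3) F := ⟨!![0, 1, 0; 0, 0, 1; 1, 0, 0], by
    simp [Matrix.det_fin_three]⟩
  let c : Matrix.SpecialLinearGroup (Fin 3) F := ⟨!![w, 0, 0; 0, w, 0; 0, 0, w], by
    simp [Matrix.det_fin_three]; linear_combination hw3⟩
  have hc : c ∈ Subgroup.center (Matrix.SpecialLinearGroup (Fin 3) F) := by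
    rw [Matrix.SpecialLinearGroup.mem_center_iff]
    refine ⟨w, by simpa using hw3, ?_⟩
    ext i j; fin_cases i <;> fin_cases j <;> simp [c]
  have hne : c ≠ 1 := fun h => hw1 (by simpa [c] using congrFun (congrFun (congrArg Subtype.val h) 0) 0)
  have hcomm : b * a = c * (a * b) := by
    apply Subtype.ext
    show (!![0, 1, 0; 0, 0, 1; 1, 0, 0] : Matrix (Fin 3) (Fin 3) F) * !![1, 0, 0; 0, w, 0; 0, 0, w ^ 2] =
      !![w, 0, 0; 0, w, 0; 0, 0, w] * (!![1, 0, 0; 0, w, 0; 0, 0, w ^ 2] * !![0, 1, 0; 0, 0, 1; 1, 0, 0])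
    ext i j
    fin_cases i <;> fin_cases j <;> simp [Matrix.mul_apply, Fin.sum_univ_three]
    all_goals first | linear_combination hw3 | linear_combination -hw3 | ring
  obtain ⟨⟨⟨za, hza⟩, ⟨ka, hka⟩⟩, hap⟩ := hK.2 a
  obtain ⟨⟨⟨zb, hzb⟩, ⟨kb, hkb⟩⟩, hbp⟩ := hK.2 b
  simp only at hap hbp
  have e1 := fun x => Subgroup.mem_center_iff.mp hza x
  have e2 := fun x => Subgroup.mem_center_iff.mp hzb x
  have h1 : c = kb * ka * kb⁻¹ * ka⁻¹ := by
    have h0 : c = b * a * b⁻¹ * a⁻¹ := by rw [hcomm]; group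
    rw [h0, ← hap, ← hbp]
    have s1 : zb * kb * (za * ka) * (zb * kb)⁻¹ = kb * (za * ka) * kb⁻¹ := by
      calc zb * kb * (za * ka) * (zb * kb)⁻¹ = zb * (kb * (za * ka) * kb⁻¹) * zb⁻¹ := by group
        _ = (kb * (za * ka) * kb⁻¹) * zb * zb⁻¹ := by rw [e2]
        _ = _ := by group
    rw [s1]
    calc kb * (za * ka) * kb⁻¹ * (za * ka)⁻¹ = kb * za * (ka * kb⁻¹ * ka⁻¹) * za⁻¹ := by group
      _ = za * kb * (ka * kb⁻¹ * ka⁻¹) * za⁻¹ := by rw [e1]
      _ = za * (kb * ka * kb⁻¹ * ka⁻¹) * za⁻¹ := by group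
      _ = (kb * ka * kb⁻¹ * ka⁻¹) * za * za⁻¹ := by rw [e1]
      _ = _ := by group
  have hcK : c ∈ K := by
    rw [h1]
    exact K.mul_mem (K.mul_mem (K.mul_mem hkb hka) (K.inv_mem hkb)) (K.inv_mem hka)
  exact hne (Subgroup.disjoint_def.mp hK.disjoint hc hcK)

end Cfsg.Agent.S2738
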