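import Cfsg.Statements.S2739
-- import your own Cfsg.Agent.* helpers here

set_option autoImplicit false
open scoped Pointwise
open Cfsg

namespace Cfsg.Agent.S2739

open Matrix Polynomial

section aux

variable {F : Type*} [Field F] [Fintype F]

/-- In a field with four elements `-1 = 1`. -/
private theorem neg_one_eq (hF : Fintype.card F = 4) : (-1 : F) = 1 := by
  have h := FiniteField.pow_card_sub_one_eq_one (-1 : F) (neg_ne_zero.2 one_ne_zero)
  rw [hF] at h
  norm_num at h
  exact h

private theorem pow_three (hF : Fintype.card F = 4) {x : F} (hx : x ≠ 0) : x ^ 3 = 1 := by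
  have h := FiniteField.pow_card_sub_one_eq_one x hx
  rwa [hF] at h

/-- A nonscalar `M ∈ SL(3,4)` with scalar cube has cube `1` and characteristic polynomial
`X ^ 3 - 1`. -/
private theorem cube_roots_are_eigenvalues (hF : Fintype.card F = 4)
    (M : Matrix (Fin 3) (Fin 3) F) (hdet : M.det = 1) (s : F) (hs : M ^ 3 = s • 1)
    (hns : ∀ c : F, M ≠ c • 1) (a : F) (ha : a ^ 3 = 1) :
    ∃ v : Fin 3 → F, v ≠ 0 ∧ M *ᵥ v = a • v := by
  have hn1 := neg_one_eq hF
  have hdeg : M.charpoly.natDegree = 3 := by
    rw [Matrix.charpoly_natDegree_eq_dim]; simp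
  have hlead : M.charpoly.coeff 3 = 1 := by
    have h := (Matrix.charpoly_monic M).coeff_natDegree
    rwa [hdeg] at h
  have h0 : M.charpoly.coeff 0 = 1 := by
    have h := Matrix.det_eq_sign_charpoly_coeff M
    rw [hdet, hn1] at h
    simpa using h.symm
  set t : F := M.charpoly.coeff 2 with ht
  set u : F := M.charpoly.coeff 1 with hu
  have hCH : (1 : Matrix (Fin 3) (Fin 3) F) + u • M + t • M ^ 2 + s • (1 : Matrix (Fin 3) (Fin 3) F)
      = 0 := by
    have h := Matrix.aeval_self_charpoly M
    rw [Polynomial.aeval_eq_sum_range, hdeg] at h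
    simp only [Finset.sum_range_succ, Finset.sum_range_zero, zero_add, hlead, h0, pow_zero,
      pow_one, one_smul] at h
    rw [hs, ← ht, ← hu] at h
    exact h
  have htu : t = 0 ∧ u = 0 ∧ s = 1 := by
    have hn : ∀ α β : F, α • M = β • 1 → α = 0 := by
      intro α β h
      by_contra hα
      apply hns (α⁻¹ * β)
      rw [← smul_smul, ← h, inv_smul_smul₀ hα]
    have hscal : ∀ α β : F, α • (1 : Matrix (Fin 3) (Fin 3) F) = β • 1 → α = β := by
      intro α β h
      have := congrFun (congrFun h 0) 0
      simpa using this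
    by_cases ht0 : t = 0
    · have h2 : u • M = (-(1 + s)) • (1 : Matrix (Fin 3) (Fin 3) F) := by
        rw [ht0, zero_smul, add_zero] at hCH
        rw [neg_smul, ← sub_eq_zero, sub_neg_eq_add, ← hCH, add_smul, one_smul]
        abel
      have hu0 := hn _ _ h2
      refine ⟨ht0, hu0, ?_⟩
      rw [hu0, zero_smul, eq_comm, ← zero_smul F (1 : Matrix (Fin 3) (Fin 3) F)] at h2
      have h3 := hscal _ _ h2
      linear_combination -h3 + hn1
    · exfalso
      set α : F := -(u / t)
      set β : F := -((1 + s) / t)
      have hM2 : M ^ 2 = α • M + β • 1 := by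
        have h : t • (M ^ 2 - (α • M + β • 1)) = 0 := by
          rw [← hCH, smul_sub, smul_add, smul_smul, smul_smul,
            show t * α = -u by simp only [α]; field_simp,
            show t * β = -(1 + s) by simp only [β]; field_simp,
            neg_smul, neg_smul, add_smul, one_smul]
          abel
        exact sub_eq_zero.1 ((smul_eq_zero.1 h).resolve_left ht0)
      have hM3 : (α * α + β) • M = (s - α * β) • (1 : Matrix (Fin 3) (Fin 3) F) := by
        have h : M ^ 3 = (α * α + β) • M + (α * β) • 1 := by
          rw [pow_succ, hM2, add_mul, smul_mul_assoc, smul_mul_assoc, one_mul, ← pow_two, hM2,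
            smul_add, smul_smul, smul_smul, add_smul]
          abel
        rw [sub_smul, ← hs, h]
        abel
      have h1 := hn _ _ hM3
      have h2 : s = α * β := by
        rw [h1, zero_smul, eq_comm, ← zero_smul F (1 : Matrix (Fin 3) (Fin 3) F)] at hM3
        exact sub_eq_zero.1 (hscal _ _ hM3)
      have hs1 : s = α ^ 3 := by
        linear_combination h2 + α * h1 + (α ^ 3) * (hn1)
      have hs0 : s ≠ 0 := by
        intro h
        have := congrArg Matrix.det hs
        rw [Matrix.det_pow, hdet, h, zero_smul] at this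
        simp at this
      have hα : α ≠ 0 := by
        intro h
        rw [h] at hs1
        exact hs0 (by simpa using hs1)
      rw [pow_three hF hα] at hs1
      have hβ : β = 0 := by
        simp only [β, hs1]
        rw [show (1 : F) + 1 = 0 by linear_combination -hn1]
        simp
      rw [hβ, mul_zero] at h2
      exact hs0 h2
  have heval : (Matrix.scalar (Fin 3) a - M).det = 0 := by
    rw [← Matrix.eval_charpoly, Polynomial.eval_eq_sum_range, hdeg]
    simp only [Finset.sum_range_succ, Finset.sum_range_zero, zero_add, hlead, h0, ← ht, ← hu,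
      htu.1, htu.2.1]
    linear_combination ha - hn1
  obtain ⟨v, hv, hMv⟩ := Matrix.exists_mulVec_eq_zero_iff.2 heval
  refine ⟨v, hv, ?_⟩
  rw [Matrix.sub_mulVec, sub_eq_zero] at hMv
  rw [← hMv]
  ext i
  simp [Matrix.mulVec_diagonal]

/-- Any two elements of order three of `PSL(3,4)` are conjugate. -/
private theorem isConj_std (hF : Fintype.card F = 4) (w : F) (hw0 : w ≠ 0) (hw1 : w ≠ 1)
    (x : Matrix.ProjectiveSpecialLinearGroup (Fin 3) F) (hx : x ^ 3 = 1) (hx1 : x ≠ 1) :
    ∃ (g : Matrix.ProjectiveSpecialLinearGroup (Fin 3) F)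
      (D : Matrix.SpecialLinearGroup (Fin 3) F),
      (D : Matrix (Fin 3) (Fin 3) F) = Matrix.diagonal ![1, w, w ^ 2] ∧
      g⁻¹ * x * g = QuotientGroup.mk D := by
  induction x using QuotientGroup.induction_on with
  | H A =>
    set M : Matrix (Fin 3) (Fin 3) F := (A : Matrix (Fin 3) (Fin 3) F) with hM
    have hw3 := pow_three hF hw0
    have hcube : ∃ s : F, M ^ 3 = s • 1 := by
      rw [← QuotientGroup.mk_pow, QuotientGroup.eq_one_iff,
        Matrix.SpecialLinearGroup.mem_center_iff] at hx
      obtain ⟨r, -, hr⟩ := hx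
      exact ⟨r, by rw [hM, ← Matrix.SpecialLinearGroup.coe_pow, ← hr, Matrix.smul_one_eq_diagonal];
                   rfl⟩
    have hns : ∀ c : F, M ≠ c • 1 := by
      intro c hc
      apply hx1
      rw [QuotientGroup.eq_one_iff, Matrix.SpecialLinearGroup.mem_center_iff]
      refine ⟨c, ?_, by rw [← hM, hc, Matrix.smul_one_eq_diagonal]; rfl⟩
      have h := A.2
      rw [← hM] at *
      have h2 : M.det = 1 := A.2
      rw [hc, Matrix.det_smul, Matrix.det_one, mul_one] at h2
      simpa using h2
    obtain ⟨s, hs⟩ := hcube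
    have hdet : M.det = 1 := A.2
    have hev := fun a (ha : a ^ 3 = (1:F)) =>
      cube_roots_are_eigenvalues hF M hdet s hs hns a ha
    let e : Fin 3 → F := ![1, w, w ^ 2]
    have he : ∀ i, e i ^ 3 = 1 := by
      intro i; fin_cases i
      · exact one_pow 3
      · exact hw3
      · change (w ^ 2) ^ 3 = 1
        linear_combination (w ^ 3 + 1) * hw3
    have hinj : Function.Injective e := by
      have h2 : w ^ 2 ≠ 1 := fun h => hw1 (by linear_combination hw3 - w * h)
      have h21 : w ^ 2 ≠ w := fun h => hw1 (mul_left_cancel₀ hw0 (by linear_combination h))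
      intro i j h
      fin_cases i <;> fin_cases j <;>
        first
          | rfl
          | exact absurd h hw1
          | exact absurd h.symm hw1
          | exact absurd h h2
          | exact absurd h.symm h2
          | exact absurd h h21
          | exact absurd h.symm h21
    choose v hv0 hv using fun i => hev (e i) (he i)
    have hli : LinearIndependent F v :=
      Module.End.eigenvectors_linearIndependent' (Matrix.toLin' M) e hinj v fun i => by
        refine Module.End.hasEigenvector_iff.2 ⟨?_, hv0 i⟩
        rw [Module.End.mem_eigenspace_iff, Matrix.toLin'_apply, hv i]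
    let P : Matrix (Fin 3) (Fin 3) F := Matrix.of fun i j => v j i
    have hP : IsUnit P := Matrix.linearIndependent_cols_iff_isUnit.1 hli
    have hPd : P.det ≠ 0 := ((Matrix.isUnit_iff_isUnit_det P).1 hP).ne_zero
    let dl : Fin 3 → F := ![P.det⁻¹, 1, 1]
    let Q : Matrix.SpecialLinearGroup (Fin 3) F :=
      ⟨P * Matrix.diagonal dl, by
        rw [Matrix.det_mul, Matrix.det_diagonal, Fin.prod_univ_three]
        simp [dl, hPd]⟩
    let D : Matrix.SpecialLinearGroup (Fin 3) F :=
      ⟨Matrix.diagonal ![1, w, w ^ 2], by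
        rw [Matrix.det_diagonal, Fin.prod_univ_three]
        simp
        linear_combination hw3⟩
    refine ⟨QuotientGroup.mk Q, D, rfl, ?_⟩
    rw [← QuotientGroup.mk_inv, ← QuotientGroup.mk_mul, ← QuotientGroup.mk_mul]
    congr 1
    have hAQ : A * Q = Q * D := by
      apply Subtype.ext
      change M * (P * Matrix.diagonal dl) = P * Matrix.diagonal dl * Matrix.diagonal e
      have hMP : M * P = P * Matrix.diagonal e := by
        ext i j
        rw [Matrix.mul_diagonal, Matrix.mul_apply]
        have := congrFun (hv j) i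
        simpa [P, Matrix.mulVec, dotProduct, mul_comm] using this
      rw [← mul_assoc, hMP, mul_assoc, mul_assoc, Matrix.diagonal_mul_diagonal,
        Matrix.diagonal_mul_diagonal]
      congr 2
      funext i
      rw [mul_comm]
    rw [mul_assoc, hAQ, inv_mul_cancel_left]

end aux

/-- In the projective special linear group PSL(3, 4) all subgroups of order 3 are conjugate. -/
theorem result (F : Type*) [Field F] [Fintype F] (hF : Fintype.card F = 4) (X Y : Subgroup (Matrix.ProjectiveSpecialLinearGroup (Fin 3) F)) (hX : Nat.card ↥X = 3) (hY : Nat.card ↥Y = 3) : ∃ g : Matrix.ProjectiveSpecialLinearGroup (Fin 3) F, MulAut.conj g • X = Y := by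
  classical
  obtain ⟨w, hw0, hw1⟩ : ∃ w : F, w ≠ 0 ∧ w ≠ 1 := by
    by_contra! h
    have hsub : (Finset.univ : Finset F) ⊆ {0, 1} := by
      intro z _
      by_cases hz : z = 0
      · simp [hz]
      · simp [h z hz]
    have := Finset.card_le_card hsub
    rw [Finset.card_univ, hF] at this
    have h2 : ({0, 1} : Finset F).card ≤ 2 := Finset.card_le_two
    omega
  have : Fact (Nat.Prime 3) := ⟨by norm_num⟩
  have hgen : ∀ Z : Subgroup (Matrix.ProjectiveSpecialLinearGroup (Fin 3) F),
      Nat.card Z = 3 → ∃ z, z ^ 3 = 1 ∧ z ≠ 1 ∧ Z = Subgroup.zpowers z := by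
    intro Z hZ
    have : Nontrivial Z := Finite.one_lt_card_iff_nontrivial.1 (by omega)
    obtain ⟨z, hz⟩ := exists_ne (1 : Z)
    refine ⟨z.1, ?_, fun h => hz (Subtype.ext h), ?_⟩
    · have := pow_card_eq_one' (x := z)
      rw [hZ] at this
      exact congrArg Subtype.val this
    · have htop := zpowers_eq_top_of_prime_card hZ hz
      have := congrArg (Subgroup.map Z.subtype) htop
      rw [MonoidHom.map_zpowers, ← MonoidHom.range_eq_map, Subgroup.range_subtype] at this
      exact this.symm
  obtain ⟨x, hx, hx1, rfl⟩ := hgen X hX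
  obtain ⟨y, hy, hy1, rfl⟩ := hgen Y hY
  obtain ⟨g, D, hD, hg⟩ := isConj_std hF w hw0 hw1 x hx hx1
  obtain ⟨k, D', hD', hk⟩ := isConj_std hF w hw0 hw1 y hy hy1
  have hDD : D = D' := Subtype.ext (hD.trans hD'.symm)
  refine ⟨k * g⁻¹, ?_⟩
  have hxy : MulAut.conj (k * g⁻¹) x = y := by
    rw [MulAut.conj_apply, _root_.mul_inv_rev, inv_inv,
      show k * g⁻¹ * x * (g * k⁻¹) = k * (g⁻¹ * x * g) * k⁻¹ by group, hg, hDD, ← hk]
    group
  rw [← hxy]
  exact MonoidHom.map_zpowers (MulAut.conj (k * g⁻¹)).toMonoidHom x

end Cfsg.Agent.S2739
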