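import Cfsg.Statements.S2752
import Cfsg.Agent.Lib.SFourStep.Bounds
import Cfsg.Agent.Lib.SFourFree.Closure

set_option autoImplicit false
universe u
open Cfsg

namespace Cfsg.Agent.S2752

/-- Let M be an elementary abelian 2-subgroup of a finite group L and G a subgroup of L acting faithfully on M by conjugation (G normalizes M and meets C(M) trivially). Assume O₂(G) = 1, the symmetric group of degree 3 is not involved in G, and every non-abelian composition factor of G is a Suzuki group Sz(2^(2n+1)) or a group PSL₂(3^(2n+1)). Then every elementary abelian 2-subgroup A of G satisfies |M / C_M(A)| ≥ |A|² and |[M, A]| ≥ |A|². -/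
theorem result {L : Type u} [Group L] [Finite L] (M G : Subgroup L) (hM : Cfsg.IsElementaryAbelian 2 M) (hGM : G ≤ Subgroup.normalizer (M : Set L)) (hf : G ⊓ Subgroup.centralizer (M : Set L) = ⊥) (ha : Cfsg.pCore 2 ↥G = ⊥) (hb : ¬ Cfsg.Involves (Equiv.Perm (Fin 3)) ↥G) (hc : Cfsg.IsCompositionKGroupWith Cfsg.IsSuzukiOrPSL2OddPowerThree ↥G) (A : Subgroup L) (hA : A ≤ G) (hAe : Cfsg.IsElementaryAbelian 2 A) : Nat.card A ^ 2 * Nat.card ↥(M ⊓ Subgroup.centralizer (A : Set L)) ≤ Nat.card M ∧ Nat.card A ^ 2 ≤ Nat.card ↥⁅M, A⁆ := by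
  set N := Subgroup.normalizer (M : Set L) with hN
  have hMN : M ≤ N := Subgroup.le_normalizer
  haveI : (M.subgroupOf N).Normal := Subgroup.normal_in_normalizer
  have hi := Subgroup.subgroupOfEquivOfLe hGM
  have hI : CfsgLib.SFourStep.Inv3Free ↥G := CfsgLib.SFourStep.inv3Free_of_not_involves hb
  have hG : CfsgLib.SFourStep.StepFree ↥G := CfsgLib.SFourStep.stepFree_of_restricted
    (CfsgLib.SFourStep.restrictedFactors_of_composition hc) ha hI
  have hcent : ∀ X : Subgroup L, X ≤ N →
      (M.subgroupOf N ⊓ Subgroup.centralizer (X.subgroupOf N : Set N)).map N.subtype =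
        M ⊓ Subgroup.centralizer (X : Set L) := fun X hX => by
    rw [CfsgLib.SFourFree.map_inf_centralizer N.subtype_injective,
      Subgroup.map_subgroupOf_eq_of_le hMN, Subgroup.map_subgroupOf_eq_of_le hX]
  have hf' : G.subgroupOf N ⊓ Subgroup.centralizer (M.subgroupOf N : Set N) = ⊥ := by
    refine Subgroup.map_injective N.subtype_injective ?_
    rw [CfsgLib.SFourFree.map_inf_centralizer N.subtype_injective,
      Subgroup.map_subgroupOf_eq_of_le hMN, Subgroup.map_subgroupOf_eq_of_le hGM, hf, Subgroup.map_bot]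
  obtain ⟨h1, h2⟩ := CfsgLib.SFourStep.bounds_of_stepFree
    (CfsgLib.ThompsonJ.isElementaryAbelian_subgroupOf hM) hf'
    (CfsgLib.SFourStep.StepFree.of_mulEquiv hi hG)
    (hI.of_injective hi.toMonoidHom hi.injective) (A.subgroupOf N)
    (Subgroup.comap_mono hA) (CfsgLib.ThompsonJ.isElementaryAbelian_subgroupOf hAe)
  have cA : Nat.card (A.subgroupOf N) = Nat.card A :=
    Nat.card_congr (Subgroup.subgroupOfEquivOfLe (hA.trans hGM)).toEquiv
  have cM : Nat.card (M.subgroupOf N) = Nat.card M :=
    Nat.card_congr (Subgroup.subgroupOfEquivOfLe hMN).toEquiv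
  rw [cA] at h1 h2
  rw [cM, ← Subgroup.card_map_of_injective N.subtype_injective, hcent A (hA.trans hGM)] at h1
  rw [← Subgroup.card_map_of_injective N.subtype_injective, Subgroup.map_commutator,
    Subgroup.map_subgroupOf_eq_of_le hMN, Subgroup.map_subgroupOf_eq_of_le (hA.trans hGM)] at h2
  exact ⟨h1, h2⟩

end Cfsg.Agent.S2752
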