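import Cfsg.Statements.S2756
import Cfsg.Agent.Lib.Amalgams.InvertedLocal

set_option autoImplicit false
open Cfsg

namespace Cfsg.Agent.S2756

/-- For a finite group G the following are equivalent: (a) G has a normal Sylow 2-subgroup; (b) for every odd prime q dividing the order of G and every Sylow q-subgroup T, the normalizer of Z(J(T)) has a normal Sylow 2-subgroup; (c) for every odd prime q and every Sylow q-subgroup T, no nonidentity element of T is inverted by an element of the normalizer of Z(J(T)). Here J(T) is the Thompson subgroup generated by the abelian subgroups of T of largest order. Stated as the two equivalences (a) ⇔ (b) and (a) ⇔ (c). -/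
theorem result {G : Type*} [Group G] [Finite G] : ((∀ P : Sylow 2 G, (P : Subgroup G).Normal) ↔ ∀ (q : ℕ) [Fact q.Prime], q ≠ 2 → q ∣ Nat.card G → ∀ T : Sylow q G, ∀ P : Sylow 2 ↥(Subgroup.normalizer (Cfsg.centerThompsonAOf (T : Subgroup G) : Set G)), (P : Subgroup ↥(Subgroup.normalizer (Cfsg.centerThompsonAOf (T : Subgroup G) : Set G))).Normal) ∧ ((∀ P : Sylow 2 G, (P : Subgroup G).Normal) ↔ ∀ (q : ℕ) [Fact q.Prime], q ≠ 2 → ∀ T : Sylow q G, ∀ x ∈ (T : Subgroup G), x ≠ 1 → ∀ g ∈ Subgroup.normalizer (Cfsg.centerThompsonAOf (T : Subgroup G) : Set G), g * x * g⁻¹ ≠ x⁻¹) := by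
  classical
  have key : ∀ (H : Subgroup G), (∀ P : Sylow 2 G, (P : Subgroup G).Normal) →
      ∀ P : Sylow 2 H, (P : Subgroup H).Normal := by
    intro H hn P
    have : Fact (Nat.Prime 2) := ⟨Nat.prime_two⟩
    obtain ⟨R, hR⟩ := (P.2.map H.subtype).exists_le_sylow
    have := hn R
    have hP : (P : Subgroup H) = (R : Subgroup G).subgroupOf H := by
      refine (P.3 (R.2.comap_of_injective H.subtype H.subtype_injective) fun a ha => ?_).symm
      exact hR ⟨a, ha, rfl⟩
    rw [hP]
    exact Subgroup.Normal.subgroupOf inferInstance H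
  constructor
  · refine ⟨fun hn q _ _ _ T => key _ hn, fun hb => ?_⟩
    rcases CfsgLib.Amalgams.InvertedLocal.normal_or_inverted (G := G) with h | ⟨q, hq, hq2, x, g, hx, h⟩
    · exact h
    exfalso
    have : Fact q.Prime := ⟨hq⟩
    obtain ⟨T⟩ : Nonempty (Sylow q G) := inferInstance
    obtain ⟨y, hy, hy1, n, hn, hny⟩ :=
      CfsgLib.Amalgams.InvertedLocal.inverted_in_normalizer hq2 T hx h
    have hyodd : Odd (orderOf y) := by
      obtain ⟨k, hk⟩ := IsPGroup.iff_orderOf.1 T.2 ⟨y, hy⟩
      rw [Subgroup.orderOf_mk] at hk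
      rw [hk]; exact (hq.odd_of_ne_two hq2).pow
    have hTN : (T : Subgroup G) ≤ Subgroup.normalizer (Cfsg.centerThompsonAOf (T : Subgroup G) : Set G) :=
      Subgroup.le_normalizer.trans
        ((CfsgLib.NormalPComplement.normalizer_le_normalizer_thompsonSubgroupAOf _).trans
          (CfsgLib.FusionBasics.LocalNilpotent.normalizer_le_normalizer_inf _))
    exact CfsgLib.Amalgams.InvertedLocal.not_normal_of_inverted
      (G := ↥(Subgroup.normalizer (Cfsg.centerThompsonAOf (T : Subgroup G) : Set G)))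
      (x := ⟨y, hTN hy⟩) (g := ⟨n, hn⟩) (by rwa [Subgroup.orderOf_mk])
      (fun e => hy1 (congrArg Subtype.val e)) (Subtype.ext hny)
      (fun P => hb q hq2 (hx ▸ orderOf_dvd_natCard x) T P)
  · refine ⟨fun hn q hqf hq2 T x hx hx1 g _ h => ?_, fun hc => ?_⟩
    · refine CfsgLib.Amalgams.InvertedLocal.not_normal_of_inverted ?_ hx1 h hn
      obtain ⟨k, hk⟩ := IsPGroup.iff_orderOf.1 T.2 ⟨x, hx⟩
      rw [Subgroup.orderOf_mk] at hk
      rw [hk]; exact (hqf.out.odd_of_ne_two hq2).pow
    · rcases CfsgLib.Amalgams.InvertedLocal.normal_or_inverted (G := G) with h | ⟨q, hq, hq2, x, g, hx, h⟩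
      · exact h
      exfalso
      have : Fact q.Prime := ⟨hq⟩
      obtain ⟨T⟩ : Nonempty (Sylow q G) := inferInstance
      obtain ⟨y, hy, hy1, n, hn, hny⟩ :=
        CfsgLib.Amalgams.InvertedLocal.inverted_in_normalizer hq2 T hx h
      exact hc q hq2 T y hy hy1 n hn hny

end Cfsg.Agent.S2756
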