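import Cfsg.Statements.S2758
import Cfsg.Agent.Lib.Amalgams.Involves

set_option autoImplicit false
open Cfsg

namespace Cfsg.Agent.S2758

/-- For an odd prime p and a finite group G the following are equivalent: the dihedral group of order 2p is involved in G; some element of 2-power order normalizes but does not centralize some p-subgroup of G; some element of 2-power order inverts some nonidentity element of p-power order. -/
theorem result {G : Type*} [Group G] [Finite G] {p : ℕ} [Fact p.Prime] (hp : p ≠ 2) : (Cfsg.Involves (DihedralGroup p) G ↔ ∃ (x : G) (P : Subgroup G), (∃ k : ℕ, orderOf x = 2 ^ k) ∧ IsPGroup p ↥P ∧ x ∈ Subgroup.normalizer (P : Set G) ∧ x ∉ Subgroup.centralizer (P : Set G)) ∧ (Cfsg.Involves (DihedralGroup p) G ↔ ∃ x y : G, (∃ k : ℕ, orderOf x = 2 ^ k) ∧ (∃ k : ℕ, orderOf y = p ^ k) ∧ y ≠ 1 ∧ x * y * x⁻¹ = y⁻¹) := by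
  have hab : Cfsg.Involves (DihedralGroup p) G → ∃ (x : G) (P : Subgroup G),
      (∃ k : ℕ, orderOf x = 2 ^ k) ∧ IsPGroup p ↥P ∧ x ∈ Subgroup.normalizer (P : Set G) ∧
        x ∉ Subgroup.centralizer (P : Set G) :=
    CfsgLib.Amalgams.exists_not_centralizing_of_involves hp
  refine ⟨⟨hab, ?_⟩, ⟨fun h => ?_, ?_⟩⟩
  · rintro ⟨x, P, hx, hP, hn, hc⟩
    obtain ⟨z, y, hz, hy, hy1, hzy⟩ :=
      CfsgLib.Amalgams.exists_inverts_of_not_centralizing hx hP hn hc
    exact CfsgLib.Amalgams.involves_dihedral_of_inverts hp hz hy hy1 hzy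
  · obtain ⟨x, P, hx, hP, hn, hc⟩ := hab h
    exact CfsgLib.Amalgams.exists_inverts_of_not_centralizing hx hP hn hc
  · rintro ⟨x, y, hx, hy, hy1, hxy⟩
    exact CfsgLib.Amalgams.involves_dihedral_of_inverts hp hx hy hy1 hxy

end Cfsg.Agent.S2758
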