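import Cfsg.Statements.S2759
import Cfsg.Agent.Lib.Amalgams.SymFour

set_option autoImplicit false
open Cfsg

namespace Cfsg.Agent.S2759

theorem two_ne_zero_three : (2 : ZMod 3) ≠ 0 := by decide

/-- The Klein four group of `S₄`, with quotient `S₃`. -/
theorem exists_kleinFour : ∃ (V : Subgroup (Equiv.Perm (Fin 4))) (_ : V.Normal), Nat.card V = 4 ∧
    (∀ s, (∀ v ∈ V, v * s = s * v) → s ∈ V) ∧
    Cfsg.Involves (Equiv.Perm (Fin 3)) (Equiv.Perm (Fin 4) ⧸ V) := by
  classical
  let S : Finset (Equiv.Perm (Fin 4)) := {1, Equiv.swap 0 1 * Equiv.swap 2 3,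
    Equiv.swap 0 2 * Equiv.swap 1 3, Equiv.swap 0 3 * Equiv.swap 1 2}
  have h1 : ∀ a ∈ S, ∀ b ∈ S, a * b ∈ S := by decide
  have h2 : ∀ a ∈ S, a⁻¹ ∈ S := by decide
  have h3 : ∀ g : Equiv.Perm (Fin 4), ∀ a ∈ S, g * a * g⁻¹ ∈ S := by decide
  have h4 : ∀ s : Equiv.Perm (Fin 4), (∀ v ∈ S, v * s = s * v) → s ∈ S := by decide
  let V : Subgroup (Equiv.Perm (Fin 4)) :=
    { carrier := S
      one_mem' := by simp [S]
      mul_mem' := fun {a b} ha hb => h1 a ha b hb
      inv_mem' := fun {a} ha => h2 a ha }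
  have hn : V.Normal := ⟨fun a ha g => h3 g a ha⟩
  refine ⟨V, hn, ?_, h4, ?_⟩
  · show Nat.card (S : Set (Equiv.Perm (Fin 4))) = 4
    rw [Nat.card_coe_set_eq, Set.ncard_coe_finset]
    decide
  · haveI : Fact (Nat.Prime 3) := ⟨Nat.prime_three⟩
    have ha : ¬ Equiv.swap (0 : Fin 4) 1 ∈ S := by decide
    have hb : ¬ Equiv.swap (0 : Fin 4) 1 * Equiv.swap 1 2 ∈ S := by decide
    obtain ⟨e⟩ := CfsgLib.Amalgams.nonempty_dihedral_three_equiv
    refine CfsgLib.Amalgams.involves_mono e.toMonoidHom e.surjective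
      (CfsgLib.Amalgams.involves_dihedral_of_inverts (p := 3) (by norm_num)
        (x := ((Equiv.swap (0 : Fin 4) 1 : Equiv.Perm (Fin 4)) : Equiv.Perm (Fin 4) ⧸ V))
        (y := ((Equiv.swap (0 : Fin 4) 1 * Equiv.swap 1 2 : Equiv.Perm (Fin 4)) :
          Equiv.Perm (Fin 4) ⧸ V)) ⟨1, ?_⟩ ⟨1, ?_⟩ ?_ ?_)
    · rw [pow_one]
      refine orderOf_eq_prime ?_ fun h => ha ((QuotientGroup.eq_one_iff _).1 h)
      rw [← QuotientGroup.mk_pow]
      exact (QuotientGroup.eq_one_iff _).2 (by rw [show Equiv.swap (0 : Fin 4) 1 ^ 2 = 1 by decide]; exact one_mem V)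
    · rw [pow_one]
      refine orderOf_eq_prime ?_ fun h => hb ((QuotientGroup.eq_one_iff _).1 h)
      rw [← QuotientGroup.mk_pow]
      exact (QuotientGroup.eq_one_iff _).2 (by
        rw [show (Equiv.swap (0 : Fin 4) 1 * Equiv.swap 1 2) ^ 3 = 1 by decide]; exact one_mem V)
    · exact fun h => hb ((QuotientGroup.eq_one_iff _).1 h)
    · rw [← QuotientGroup.mk_inv, ← QuotientGroup.mk_mul, ← QuotientGroup.mk_mul,
        ← QuotientGroup.mk_inv]
      exact congrArg _ (by decide)


/-- For a finite group G, the symmetric group of degree 4 is involved in G if and only if there is a 2-subgroup T of G such that the symmetric group of degree 3 is involved in N(T)/C(T). -/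
theorem result {G : Type*} [Group G] [Finite G] : Cfsg.Involves (Equiv.Perm (Fin 4)) G ↔ ∃ T : Subgroup G, IsPGroup 2 ↥T ∧ Cfsg.Involves (Equiv.Perm (Fin 3)) (↥(Subgroup.normalizer (T : Set G)) ⧸ (Subgroup.centralizer (T : Set G)).subgroupOf (Subgroup.normalizer (T : Set G))) := by
  haveI : Fact (Nat.Prime 2) := ⟨Nat.prime_two⟩
  haveI : Fact (Nat.Prime 3) := ⟨Nat.prime_three⟩
  constructor
  · intro h
    obtain ⟨K, f, hf⟩ := CfsgLib.Amalgams.exists_surjective_of_involves h
    obtain ⟨V, hVn, hV4, hVc, hQ⟩ := exists_kleinFour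
    haveI := hVn
    set W := V.comap f with hW
    obtain ⟨P⟩ : Nonempty (Sylow 2 W) := inferInstance
    let T₀ : Subgroup K := (P : Subgroup W).map W.subtype
    let T : Subgroup G := T₀.map K.subtype
    refine ⟨T, (P.2.map _).map _, ?_⟩
    have hWV : ∀ v ∈ V, ∃ t ∈ T₀, f t = v := by
      intro v hv
      let φ : W →* V := (f.comp W.subtype).codRestrict V fun w => w.2
      have hφ : Function.Surjective φ := fun w => by
        obtain ⟨k, hk⟩ := hf w
        exact ⟨⟨k, by show f k ∈ V; rw [hk]; exact w.2⟩, Subtype.ext hk⟩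
      have h1 := Subgroup.index_map_dvd (P : Subgroup W) hφ
      have h2 : ((P : Subgroup W).map φ).index ∣ 4 := (Subgroup.index_dvd_card _).trans hV4.dvd
      have h3 : Nat.Coprime (P : Subgroup W).index 4 :=
        ((Nat.prime_two.coprime_iff_not_dvd.2 P.not_dvd_index).symm).pow_right 2
      have h4 : (P : Subgroup W).map φ = ⊤ :=
        Subgroup.index_eq_one.1 (Nat.eq_one_of_dvd_coprimes h3 h1 h2)
      obtain ⟨w, hw, hwv⟩ : (⟨v, hv⟩ : V) ∈ (P : Subgroup W).map φ := h4 ▸ Subgroup.mem_top _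
      exact ⟨w, ⟨w, hw, rfl⟩, congrArg Subtype.val hwv⟩
    set A : Subgroup K := Subgroup.normalizer (T₀ : Set K) with hA
    let toN : A →* ↥(Subgroup.normalizer (T : Set G)) :=
      (K.subtype.comp A.subtype).codRestrict _ fun a =>
        Subgroup.le_normalizer_map K.subtype ⟨a.1, a.2, rfl⟩
    let ψ := (QuotientGroup.mk'
      ((Subgroup.centralizer (T : Set G)).subgroupOf (Subgroup.normalizer (T : Set G)))).comp toN
    let φ := (QuotientGroup.mk' V).comp (f.comp A.subtype)
    have hφ : Function.Surjective φ := by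
      intro q
      obtain ⟨s, rfl⟩ := QuotientGroup.mk'_surjective V q
      obtain ⟨k, rfl⟩ := hf s
      have hmem : k ∈ W ⊔ A := by
        rw [hA, sup_comm, Sylow.normalizer_sup_eq_top P]; exact Subgroup.mem_top _
      rw [← SetLike.mem_coe, Subgroup.normal_mul] at hmem
      obtain ⟨w, hw, a, ha, rfl⟩ := hmem
      refine ⟨⟨a, ha⟩, ?_⟩
      show (QuotientGroup.mk' V) (f a) = (QuotientGroup.mk' V) (f (w * a))
      rw [map_mul f, map_mul, show (QuotientGroup.mk' V) (f w) = 1 from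
        (QuotientGroup.eq_one_iff _).2 hw, one_mul]
    have hker : ψ.ker ≤ φ.ker := by
      intro a ha
      rw [MonoidHom.mem_ker] at ha ⊢
      refine (QuotientGroup.eq_one_iff _).2 (hVc _ fun v hv => ?_)
      obtain ⟨t, ht, rfl⟩ := hWV v hv
      have h1 := (QuotientGroup.eq_one_iff (toN a)).1 ha
      have h2 : t * (a : K) = (a : K) * t := Subtype.ext (h1 (t : G) ⟨t, ht, rfl⟩)
      simp only [MonoidHom.coe_comp, Subgroup.coe_subtype, Function.comp_apply, ← map_mul, h2]
    let g := ψ.rangeRestrict.liftOfSurjective ψ.rangeRestrict_surjective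
      ⟨φ, by rwa [MonoidHom.ker_rangeRestrict]⟩
    refine CfsgLib.Amalgams.involves_of_involves_image g hQ fun q => ?_
    obtain ⟨a, rfl⟩ := hφ q
    exact ⟨ψ.rangeRestrict a, MonoidHom.liftOfRightInverse_comp_apply _ _ _ _ a⟩
  · rintro ⟨T, hT, h⟩
    obtain ⟨e⟩ := CfsgLib.Amalgams.nonempty_dihedral_three_equiv
    obtain ⟨K, g, hg⟩ := CfsgLib.Amalgams.exists_surjective_of_involves
      (CfsgLib.Amalgams.involves_mono e.symm.toMonoidHom e.symm.surjective h)
    set N := Subgroup.normalizer (T : Set G) with hN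
    set C := (Subgroup.centralizer (T : Set G)).subgroupOf N with hC
    let π := QuotientGroup.mk' C
    let g₀ : K.comap π →* DihedralGroup 3 :=
      g.comp ((π.comp (K.comap π).subtype).codRestrict K fun x => x.2)
    have hg₀ : Function.Surjective g₀ := fun d => by
      obtain ⟨⟨k, hk⟩, rfl⟩ := hg d
      obtain ⟨n, rfl⟩ := QuotientGroup.mk'_surjective C k
      exact ⟨⟨n, hk⟩, rfl⟩
    obtain ⟨x, P, i, ⟨k, hk⟩, hP, hxn, hfx, hfP⟩ := CfsgLib.Amalgams.exists_lift_inverts
      g₀ hg₀ (a := DihedralGroup.sr 0) DihedralGroup.orderOf_r_one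
      (by rw [pow_two]; simp) (by simp)
    have hx' : (x : N) ∈ Subgroup.normalizer ((P.map (K.comap π).subtype : Subgroup N) : Set N) :=
      Subgroup.le_normalizer_map _ ⟨x, hxn, rfl⟩
    set P' := P.map (K.comap π).subtype
    have hxk : orderOf (x : N) = 2 ^ k := by simpa using hk
    have hbar : ∀ t : K.comap π, π t = 1 → g₀ t = 1 := fun t ht => by
      show g ⟨π t, t.2⟩ = 1
      rw [show (⟨π t, t.2⟩ : K) = 1 from Subtype.ext ht, map_one]
    obtain ⟨z, y, hz, hy, ⟨kz, hkz⟩, ⟨ky, hky⟩, hy1, hzy⟩ :=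
      CfsgLib.Amalgams.exists_inverts_mem (p := 3) (x := π x) (P := P'.map π)
        (by
          obtain ⟨j, -, hj⟩ := (Nat.dvd_prime_pow Nat.prime_two).1 (hxk ▸ orderOf_map_dvd π (x : N))
          exact ⟨j, hj⟩)
        ((hP.map _).map _) (Subgroup.le_normalizer_map π ⟨_, hx', rfl⟩) (by
          intro hc
          obtain ⟨t, ht, hft⟩ : DihedralGroup.r (1 : ZMod 3) ∈ P.map g₀ :=
            hfP ▸ Subgroup.mem_zpowers _
          have h1 : π (t : N) * π (x : N) = π (x : N) * π (t : N) :=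
            hc (π (t : N)) ⟨_, ⟨t, ht, rfl⟩, rfl⟩
          have h2 := hbar (t * x * (x * t)⁻¹) (by
            simp only [Subgroup.coe_mul, Subgroup.coe_inv, map_mul, map_inv]
            rw [h1, mul_inv_cancel])
          rw [map_mul, map_inv, map_mul, map_mul, mul_inv_eq_one, hft, hfx,
            DihedralGroup.r_one_pow] at h2
          simp only [DihedralGroup.r_mul_sr, DihedralGroup.r_mul_r, DihedralGroup.sr_mul_r,
            DihedralGroup.sr.injEq] at h2
          have h3 : (2 : ZMod 3) = 0 := by linear_combination -h2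
          exact two_ne_zero_three h3)
    obtain ⟨ky, rfl⟩ : ∃ j, ky = j + 1 := by
      rcases ky with _ | j
      · exact absurd (orderOf_eq_one_iff.1 (by simpa using hky)) hy1
      · exact ⟨j, rfl⟩
    obtain ⟨y₀, hy₀, hy₀'⟩ := pow_mem hy (3 ^ ky)
    obtain ⟨m, rfl⟩ := hz
    set z₀ := (x : N) ^ m
    have hz₀' : π z₀ = π (x : N) ^ m := map_zpow π _ m
    have hTN : T ≤ N := Subgroup.le_normalizer
    have hcent : ∀ n : N, n ∈ C ↔ n ∈ Subgroup.centralizer (T.subgroupOf N : Set N) := by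
      intro n
      constructor
      · intro hn t ht
        exact Subtype.ext (hn (t : G) ht)
      · intro hn t ht
        exact congrArg Subtype.val (hn ⟨t, hTN ht⟩ ht)
    haveI : (T.subgroupOf N).Normal := Subgroup.normal_in_normalizer
    refine CfsgLib.Amalgams.involves_of_involves_image (MonoidHom.id N) ?_ Function.surjective_id
    refine CfsgLib.Amalgams.involves_perm_four (T := T.subgroupOf N) (P := P') (z := z₀) (y := y₀)
      (hT.comap_subtype) (hP.map _) ?_ (zpow_mem hx' m) hy₀ ?_ ?_ ?_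
    · obtain ⟨j, -, hj⟩ := (Nat.dvd_prime_pow Nat.prime_two).1
        (hxk ▸ (Nat.card_zpowers (x : N)).symm ▸
          Subgroup.orderOf_dvd_natCard _ (zpow_mem (Subgroup.mem_zpowers (x : N)) m))
      exact ⟨j, hj⟩
    · rw [← hcent, ← QuotientGroup.eq_one_iff]
      intro h1
      have h2 : y ^ 3 ^ ky = 1 := hy₀'.symm.trans h1
      have := Nat.le_of_dvd (pow_pos (by norm_num) ky) (hky ▸ orderOf_dvd_of_pow_eq_one h2)
      exact absurd this (not_le.2 (Nat.pow_lt_pow_right (by norm_num) ky.lt_succ_self))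
    · rw [← hcent, ← QuotientGroup.eq_one_iff]
      show π (y₀ ^ 3) = 1
      rw [map_pow, hy₀', ← pow_mul, ← pow_succ, ← hky, pow_orderOf_eq_one]
    · rw [← hcent, ← QuotientGroup.eq_one_iff]
      show π (z₀ * y₀ * z₀⁻¹ * y₀) = 1
      rw [map_mul, map_mul, map_mul, map_inv, hz₀', hy₀', ← conj_pow, hzy, inv_pow, inv_mul_cancel]

end Cfsg.Agent.S2759
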