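import Cfsg.Statements.S2760
import Cfsg.Agent.Lib.StronglyPEmbedded.CharP
import Cfsg.Agent.Lib.Cores.PCore

set_option autoImplicit false
open Cfsg

namespace Cfsg.Agent.S2760

/-- Let G be a finite group with C_G(O₂(G)) ≤ O₂(G) and H a subgroup of G such that H is normal in G, or the subgroup O²(H) generated by the elements of H of odd order is normal in G. Then C_H(O₂(H)) ≤ O₂(H). -/
theorem result {G : Type*} [Group G] [Finite G] (hchar : Subgroup.centralizer (Cfsg.pCore 2 G : Set G) ≤ Cfsg.pCore 2 G) (H : Subgroup G) (hH : H.Normal ∨ ((Cfsg.pResidual 2 ↥H).map H.subtype).Normal) : Subgroup.centralizer (Cfsg.pCore 2 ↥H : Set ↥H) ≤ Cfsg.pCore 2 ↥H := by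
  haveI : Fact (Nat.Prime 2) := ⟨Nat.prime_two⟩
  rcases hH with hn | hn
  · exact CfsgLib.StronglyPEmbedded.centralizer_pCore_le_of_injective H.subtype H.subtype_injective
      (by rwa [Subgroup.range_subtype]) hchar
  · set Y := Cfsg.pResidual 2 ↥H with hY
    haveI hYn : Y.Normal := by
      have := Subgroup.Normal.comap hn H.subtype
      rwa [Subgroup.comap_map_eq_self_of_injective H.subtype_injective] at this
    have hcY := CfsgLib.StronglyPEmbedded.centralizer_pCore_le_of_injective (p := 2)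
      (H.subtype.comp Y.subtype) (H.subtype_injective.comp Y.subtype_injective)
      (by rwa [MonoidHom.range_comp, Subgroup.range_subtype]) hchar
    refine CfsgLib.StronglyPEmbedded.centralizer_pCore_le_of_forall_coprime fun x hx hxc => ?_
    have hxY : x ∈ Y := Subgroup.subset_closure hxc
    have hle : (Cfsg.pCore 2 ↥Y).map Y.subtype ≤ Cfsg.pCore 2 ↥H :=
      CfsgLib.Cores.map_subtype_pCore_le hYn.isSubnormal
    have hxY' : (⟨x, hxY⟩ : ↥Y) ∈ Subgroup.centralizer (Cfsg.pCore 2 ↥Y : Set ↥Y) :=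
      fun a ha => Subtype.ext (hx (a : ↥H) (hle ⟨a, ha, rfl⟩))
    exact congrArg Subtype.val (CfsgLib.StronglyPEmbedded.eq_one_of_mem_pGroup_of_coprime
      CfsgLib.StronglyPEmbedded.isPGroup_pCore' (hcY hxY') (by rwa [← Subgroup.orderOf_coe]))

end Cfsg.Agent.S2760
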