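import Cfsg.Statements.S2762
import Cfsg.Agent.Lib.Amalgams.Qd

set_option autoImplicit false
open Cfsg

namespace Cfsg.Agent.S2762

open scoped MatrixGroups

variable {F : Type*} [Field F]

open CfsgLib.Amalgams.Qd in
/-- The linear complement. -/
def emb : SL(2, F) →* Cfsg.qdOver F :=
  MonoidHom.mk' (fun A => aff A 0 0) fun A B => by rw [aff_mul]; simp

open CfsgLib.Amalgams.Qd in
theorem natural {K : Subgroup (Cfsg.qdOver F)} (hK : ∀ M, M ∈ K ↔ ∃ A, M = aff A 0 0) :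
    Cfsg.IsNaturalSL2Module F (trans (F := F)) K := by
  haveI : (trans (F := F)).Normal := MonoidHom.normal_ker _
  refine ⟨by rw [Subgroup.normalizer_eq_top]; exact le_top, lin.comp K.subtype, ?_⟩
  let e : Additive (trans (F := F)) ≃ (Fin 2 → F) :=
    { toFun := fun v => ![((((v.toMul : trans (F := F)) : Cfsg.qdOver F) : SL(3, F)) :
          Matrix (Fin 3) (Fin 3) F) 0 2,
        ((((v.toMul : trans (F := F)) : Cfsg.qdOver F) : SL(3, F)) : Matrix (Fin 3) (Fin 3) F) 1 2]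
      invFun := fun w => Additive.ofMul ⟨aff 1 (w 0) (w 1), mem_trans_iff.2 ⟨_, _, rfl⟩⟩
      left_inv := fun v => by
        obtain ⟨c, f, h⟩ := mem_trans_iff.1 v.toMul.2
        refine congrArg Additive.ofMul (Subtype.ext ?_) |>.trans (ofMul_toMul v)
        show aff 1 _ _ = _
        simp only [h, coe_aff]
        simp
      right_inv := fun w => by
        ext i
        fin_cases i <;> simp [coe_aff] }
  let ψ : Additive (trans (F := F)) ≃+ (Fin 2 → F) :=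
    AddEquiv.mk e fun v w => by
      obtain ⟨c, f, hv⟩ := mem_trans_iff.1 v.toMul.2
      obtain ⟨c', f', hw⟩ := mem_trans_iff.1 w.toMul.2
      ext i
      fin_cases i <;> simp [e, hv, hw, trans_mul, coe_aff, toMul_add]
  refine ⟨ψ, fun A => ⟨⟨aff A 0 0, (hK _).2 ⟨A, rfl⟩⟩, lin_aff A 0 0⟩, ?_, ?_⟩
  · ext ⟨M, hM⟩
    obtain ⟨A, rfl⟩ := (hK M).1 hM
    rw [MonoidHom.mem_ker, Subgroup.mem_subgroupOf]
    simp only [MonoidHom.comp_apply, Subgroup.coe_subtype, lin_aff]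
    constructor
    · rintro rfl
      rw [aff_one]; exact one_mem _
    · intro h
      have key : ∀ a b, (A : Matrix (Fin 2) (Fin 2) F) 0 0 * a + (A : Matrix (Fin 2) (Fin 2) F) 0 1 * b = a ∧
          (A : Matrix (Fin 2) (Fin 2) F) 1 0 * a + (A : Matrix (Fin 2) (Fin 2) F) 1 1 * b = b := fun a b => by
        have h1 := h _ (mem_trans_iff.2 ⟨a, b, rfl⟩)
        have h2 := aff_conj_trans A 0 0 a b
        rw [← h1, mul_inv_cancel_right] at h2
        exact ⟨(aff_inj.1 h2).2.1.symm, (aff_inj.1 h2).2.2.symm⟩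
      have k1 := key 1 0
      have k2 := key 0 1
      simp at k1 k2
      apply Subtype.ext
      ext i j
      fin_cases i <;> fin_cases j <;> simp [k1.1, k1.2, k2.1, k2.2]
  · rintro ⟨M, hM⟩ ⟨v, hv⟩
    obtain ⟨A, rfl⟩ := (hK M).1 hM
    obtain ⟨a, b, rfl⟩ := mem_trans_iff.1 hv
    refine ⟨⟨_, mem_trans_iff.2 ⟨_, _, aff_conj_trans A 0 0 a b⟩⟩, rfl, ?_⟩
    ext i
    show e _ i = _
    fin_cases i <;>
      simp [e, ψ, lin_aff, Matrix.mulVec, dotProduct, coe_aff, aff_conj_trans]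


/-- Structure of Qd over a finite field F of characteristic p (the affine subgroup of SL₃(F)): its largest normal p-subgroup is the group of translations (matrices with upper-left block the identity), the block-diagonal matrices form a complement isomorphic to SL₂(F), and the translation subgroup is a natural SL₂(F)-module for that complement. -/
theorem result {F : Type*} [Field F] [Fintype F] {p : ℕ} [Fact p.Prime] [CharP F p] : (∀ M : ↥(Cfsg.qdOver F), M ∈ Cfsg.pCore p ↥(Cfsg.qdOver F) ↔ ((M : Matrix.SpecialLinearGroup (Fin 3) F) : Matrix (Fin 3) (Fin 3) F) 0 0 = 1 ∧ ((M : Matrix.SpecialLinearGroup (Fin 3) F) : Matrix (Fin 3) (Fin 3) F) 0 1 = 0 ∧ ((M : Matrix.SpecialLinearGroup (Fin 3) F) : Matrix (Fin 3) (Fin 3) F) 1 0 = 0 ∧ ((M : Matrix.SpecialLinearGroup (Fin 3) F) : Matrix (Fin 3) (Fin 3) F) 1 1 = 1) ∧ ∃ K : Subgroup ↥(Cfsg.qdOver F), (∀ M : ↥(Cfsg.qdOver F), M ∈ K ↔ ((M : Matrix.SpecialLinearGroup (Fin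 3) F) : Matrix (Fin 3) (Fin 3) F) 0 2 = 0 ∧ ((M : Matrix.SpecialLinearGroup (Fin 3) F) : Matrix (Fin 3) (Fin 3) F) 1 2 = 0) ∧ K ⊓ Cfsg.pCore p ↥(Cfsg.qdOver F) = ⊥ ∧ K ⊔ Cfsg.pCore p ↥(Cfsg.qdOver F) = ⊤ ∧ Nonempty (↥K ≃* Matrix.SpecialLinearGroup (Fin 2) F) ∧ Cfsg.IsNaturalSL2Module F (Cfsg.pCore p ↥(Cfsg.qdOver F)) K := by
  open CfsgLib.Amalgams.Qd in
  rw [pCore_qdOver]
  refine ⟨fun M => ?_, ?_⟩
  · obtain ⟨A, c, f, rfl⟩ := CfsgLib.Amalgams.Qd.exists_eq_aff M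
    rw [CfsgLib.Amalgams.Qd.mem_trans_iff]
    simp only [CfsgLib.Amalgams.Qd.coe_aff]
    constructor
    · rintro ⟨c', f', h⟩
      obtain ⟨rfl, -, -⟩ := CfsgLib.Amalgams.Qd.aff_inj.1 h
      simp
    · intro h
      refine ⟨c, f, CfsgLib.Amalgams.Qd.aff_inj.2 ⟨Subtype.ext ?_, rfl, rfl⟩⟩
      simp at h
      ext i j
      fin_cases i <;> fin_cases j <;> simp [h.1, h.2.1, h.2.2.1, h.2.2.2]
  · obtain ⟨K, hK⟩ : ∃ K : Subgroup ↥(Cfsg.qdOver F), ∀ M, M ∈ K ↔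
        ∃ A, M = CfsgLib.Amalgams.Qd.aff A 0 0 := by
      refine ⟨(emb (F := F)).range, fun M => ?_⟩
      constructor
      · rintro ⟨A, rfl⟩; exact ⟨A, rfl⟩
      · rintro ⟨A, rfl⟩; exact ⟨A, rfl⟩
    refine ⟨K, fun M => ?_, ?_, ?_, ?_, natural hK⟩
    · obtain ⟨A, c, f, rfl⟩ := CfsgLib.Amalgams.Qd.exists_eq_aff M
      rw [hK]
      simp only [CfsgLib.Amalgams.Qd.coe_aff]
      constructor
      · rintro ⟨B, h⟩
        obtain ⟨-, rfl, rfl⟩ := CfsgLib.Amalgams.Qd.aff_inj.1 h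
        simp
      · intro h
        simp at h
        exact ⟨A, by rw [h.1, h.2]⟩
    · rw [Subgroup.eq_bot_iff_forall]
      rintro M ⟨h1, h2⟩
      obtain ⟨A, rfl⟩ := (hK M).1 h1
      have : CfsgLib.Amalgams.Qd.lin (CfsgLib.Amalgams.Qd.aff A 0 0) = 1 := MonoidHom.mem_ker.1 h2
      rw [CfsgLib.Amalgams.Qd.lin_aff] at this
      rw [this, CfsgLib.Amalgams.Qd.aff_one]
    · rw [eq_top_iff]
      rintro M -
      obtain ⟨A, c, f, rfl⟩ := CfsgLib.Amalgams.Qd.exists_eq_aff M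
      have : CfsgLib.Amalgams.Qd.aff A c f =
          CfsgLib.Amalgams.Qd.aff 1 c f * CfsgLib.Amalgams.Qd.aff A 0 0 := by
        rw [CfsgLib.Amalgams.Qd.aff_mul, one_mul]; simp
      rw [this]
      exact mul_mem (Subgroup.mem_sup_right (CfsgLib.Amalgams.Qd.mem_trans_iff.2 ⟨c, f, rfl⟩))
        (Subgroup.mem_sup_left ((hK _).2 ⟨A, rfl⟩))
    · have hK' : K = (emb (F := F)).range := by
        ext M
        rw [hK]
        constructor <;> rintro ⟨A, h⟩ <;> exact ⟨A, h.symm⟩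
      refine ⟨((MonoidHom.ofInjective (f := emb (F := F)) ?_).trans
        (MulEquiv.subgroupCongr hK'.symm)).symm⟩
      intro A B h
      exact (CfsgLib.Amalgams.Qd.aff_inj.1 h).1

end Cfsg.Agent.S2762
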