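import Cfsg.Statements.S2766
import Cfsg.Agent.Lib.PushUp.RankOne.PlanarLocal

set_option autoImplicit false
open Cfsg

namespace Cfsg.Agent.S2766

/-- Let p ≥ 5 be prime and G a maximal p-local subgroup of a finite group H (G is the normalizer of a nontrivial p-subgroup and lies in no other such normalizer). Suppose C_G(O_p(G)) ≤ O_p(G), G/K ≅ PSL₂(p^n) for some normal K and n ≥ 1, a Sylow p-subgroup S of G lies in exactly one maximal subgroup of G, and N_H(S) is not contained in G. Then G = G₀ × E for subgroups G₀ ≅ Qd(p^n) (the natural semidirect product of the plane over the field with p^n elements by SL₂) and E an elementary abelian p-group. -/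
theorem result {H : Type*} [Group H] [Finite H] {p : ℕ} [Fact p.Prime] (hp : 5 ≤ p) (G : Subgroup H) (hloc : ∃ R : Subgroup H, IsPGroup p ↥R ∧ R ≠ ⊥ ∧ G = Subgroup.normalizer (R : Set H)) (hmax : ∀ R : Subgroup H, IsPGroup p ↥R → R ≠ ⊥ → G ≤ Subgroup.normalizer (R : Set H) → Subgroup.normalizer (R : Set H) = G) (S : Sylow p ↥G) (hE₁ : Subgroup.centralizer (Cfsg.pCore p ↥G : Set ↥G) ≤ Cfsg.pCore p ↥G) (hE₂ : ∃! M : Subgroup ↥G, IsCoatom M ∧ (S : Subgroup ↥G) ≤ M) (K : Subgroup ↥G) [K.Normal] (F : Type) [Field F] [Fintype F] (n : ℕ) (hn : 1 ≤ n) (hF : Fintype.card F = p ^ n) (hE₃ : Nonempty (↥G ⧸ K ≃* Matrix.ProjectiveSpecialLinearGroup (Fin 2) F)) (hN : ¬ Subgroup.normalizer (((S : Subgroup ↥G).map G.subtype : Subgroup H) : Set H) ≤ G) : ∃ G₀ E : Subgroup H, Cfsg.IsInternalDirectProduct G₀ E G ∧ Cfsg.IsElementaryAbelian p E ∧ Nonempty (↥G₀ ≃* ↥(Cfsg.qdOver F)) := by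
  have hp0 : Fact p.Prime := inferInstance
  have hd : ∀ T : Subgroup ↥(S : Subgroup ↥G), T ≠ ⊥ → T.Characteristic →
      ¬ (T.map (S : Subgroup ↥G).subtype).Normal := fun T hT hTc hn => hN (by
    have hcomp : (T.map (S : Subgroup ↥G).subtype).map G.subtype =
        (T.map ((S : Subgroup ↥G).equivMapOfInjective G.subtype G.subtype_injective).toMonoidHom).map
          ((S : Subgroup ↥G).map G.subtype).subtype := by
      rw [Subgroup.map_map, Subgroup.map_map]; rfl
    set T' := T.map ((S : Subgroup ↥G).equivMapOfInjective G.subtype G.subtype_injective).toMonoidHom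
    haveI : T.Characteristic := hTc
    haveI : T'.Characteristic := Subgroup.characteristic_iff_map_eq.2 fun φ => by
      set ε := (S : Subgroup ↥G).equivMapOfInjective G.subtype G.subtype_injective
      have h0 := Subgroup.characteristic_iff_map_eq.1 hTc ((ε.trans φ).trans ε.symm)
      conv_rhs => rw [show T' = T.map ε.toMonoidHom from rfl, ← h0]
      rw [show T' = T.map ε.toMonoidHom from rfl, Subgroup.map_map, Subgroup.map_map]
      congr 1
      ext x
      simp
    have h1 := CfsgLib.Signalizer.CoprimeGen.le_normalizer_map_of_characteristic T'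
    rw [← hcomp] at h1
    refine h1.trans (hmax _ ((S.isPGroup'.to_le (Subgroup.map_subtype_le T)).map _) (fun e => hT ?_)
      fun g hg => ?_).le
    · rwa [Subgroup.map_eq_bot_iff_of_injective _ G.subtype_injective,
        Subgroup.map_eq_bot_iff_of_injective _ (S : Subgroup ↥G).subtype_injective] at e
    · refine CfsgLib.CoprimeAction.mem_normalizer_of_conj_mem ?_
      rintro _ ⟨a, ha, rfl⟩
      exact ⟨_, hn.conj_mem a ha ⟨g, hg⟩, rfl⟩)
  obtain ⟨W, M, hB⟩ := CfsgLib.PushUp.RankOne.exists_base S hE₁ hE₂ K F n hn hF hE₃ hd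
  haveI : CharP F p := by
    obtain ⟨c, hc⟩ := CharP.exists F
    haveI := hc
    obtain ⟨m, hcp, hm⟩ := FiniteField.card F c
    have h1 : c ∣ p := hcp.dvd_of_dvd_pow (hF ▸ hm ▸ dvd_pow_self c m.pos.ne')
    rwa [(Nat.prime_dvd_prime_iff_eq hcp hp0.out).1 h1] at hc
  obtain ⟨V, Z, N, R, hP⟩ := CfsgLib.PushUp.RankOne.exists_planar hB hE₁ hF hp
  obtain ⟨t, V₁, C, D, h⟩ := hP.exists_split hp
  have h2 := CfsgLib.PushUp.RankOne.two_ne_zero_of_five_le (F := F) p hp
  obtain ⟨Φ, hΦi, hΦr⟩ := h.exists_qd hP h2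
  have hDab := CfsgLib.PushUp.RankOne.Split.comm_of_local hp hP h hmax hN
  refine ⟨Φ.range.map G.subtype, D.map G.subtype, ⟨Subgroup.map_subtype_le _, Subgroup.map_subtype_le _,
    ?_, ?_, ?_⟩, ⟨?_, ?_⟩, ?_⟩
  · rintro _ ⟨a, ha, rfl⟩ _ ⟨d, hd, rfl⟩
    obtain ⟨v, hv, c, hc, rfl⟩ := (hΦr a).1 ha
    refine congrArg G.subtype (show v * c * d = d * (v * c) from ?_)
    rw [mul_assoc, h.commCD c hc d hd, ← mul_assoc, h.commVD v hv d hd, mul_assoc]
  · rw [← Subgroup.map_inf _ _ _ G.subtype_injective, Subgroup.map_eq_bot_iff_of_injective _ G.subtype_injective,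
      eq_bot_iff]
    rintro a ⟨ha, ha'⟩
    obtain ⟨v, hv, c, hc, rfl⟩ := (hΦr a).1 ha
    obtain ⟨rfl, rfl⟩ := h.inf_eq_one hP h2 hv hc ha'
    simp
  · rw [← Subgroup.map_sup]
    have : Φ.range ⊔ D = ⊤ := eq_top_iff.2 fun g _ => by
      obtain ⟨v, hv, c, hc, d, hd, rfl⟩ := h.decomp g
      exact Subgroup.mul_mem_sup ((hΦr _).2 ⟨v, hv, c, hc, rfl⟩) hd
    rw [this, ← MonoidHom.range_eq_map, Subgroup.range_subtype]
  · refine ⟨⟨?_⟩⟩
    rintro ⟨_, a, ha, rfl⟩ ⟨_, b, hb, rfl⟩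
    exact Subtype.ext (congrArg G.subtype (hDab a ha b hb))
  · rintro _ ⟨d, hd, rfl⟩
    rw [← map_pow, hP.powS d (h.le_S hP (h.D_le hd)), map_one]
  · exact ⟨((MonoidHom.ofInjective hΦi).trans
      (Φ.range.equivMapOfInjective G.subtype G.subtype_injective)).symm⟩

end Cfsg.Agent.S2766
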