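import Cfsg.Statements.S2768
import Cfsg.Agent.Lib.TwoGroupTricks.PushingUpJTilde

set_option autoImplicit false
open Cfsg

namespace Cfsg.Agent.S2768

/-- Let G be a finite group and p a prime with C_G(O_p(G)) ≤ O_p(G), such that a Sylow p-subgroup S lies in exactly one maximal subgroup of G and G/K ≅ PSL₂(p^n) for some normal K and n ≥ 1. Put J̃(S) = C_S(Z(J(S))), where J(S) is generated by the abelian subgroups of S of largest order. If Z(S) is not normal in G, then J̃(S) is a Sylow p-subgroup of its normal closure ⟨J̃(S)^G⟩. -/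
theorem result {G : Type*} [Group G] [Finite G] {p : ℕ} [Fact p.Prime] (S : Sylow p G) (hE₁ : Subgroup.centralizer (Cfsg.pCore p G : Set G) ≤ Cfsg.pCore p G) (hE₂ : ∃! M : Subgroup G, IsCoatom M ∧ (S : Subgroup G) ≤ M) (K : Subgroup G) [K.Normal] (F : Type) [Field F] [Fintype F] (n : ℕ) (hn : 1 ≤ n) (hF : Fintype.card F = p ^ n) (hE₃ : Nonempty (G ⧸ K ≃* Matrix.ProjectiveSpecialLinearGroup (Fin 2) F)) (hZ : ¬ ((S : Subgroup G) ⊓ Subgroup.centralizer ((S : Subgroup G) : Set G)).Normal) : ∃ P : Sylow p ↥(Subgroup.normalClosure (((S : Subgroup G) ⊓ Subgroup.centralizer (Cfsg.centerThompsonAOf (S : Subgroup G) : Set G)) : Set G)), (P : Subgroup ↥(Subgroup.normalClosure (((S : Subgroup G) ⊓ Subgroup.centralizer (Cfsg.centerThompsonAOf (S : Subgroup G) : Set G)) : Set G))) = (((S : Subgroup G) ⊓ Subgroup.centralizer (Cfsg.centerThompsonAOf (S : Subgroup G) : Set G))).subgroupOf (Subgroup.normalClosure (((S : Subgroup G) ⊓ Subgroup.centralizer (Cfsg.centerThompsonAOf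 (S : Subgroup G) : Set G)) : Set G)) := by
  obtain ⟨M, ⟨hM, hSM⟩, hMu⟩ := hE₂
  have huniq : ∀ X : Subgroup G, (S : Subgroup G) ≤ X → X ≠ ⊤ → X ≤ M := fun X hX hne =>
    CfsgLib.TwoGroupTricks.PushingUp.le_of_ne_top hMu hX hne
  obtain ⟨e⟩ := hE₃
  set N := Subgroup.normalClosure (((S : Subgroup G) ⊓ Subgroup.centralizer (Cfsg.centerThompsonAOf (S : Subgroup G) : Set G)) : Set G)
  have hle := CfsgLib.TwoGroupTricks.PushingUp.inf_normalClosure_jTilde_le S hE₁ hM huniq hn hF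
    (e.toMonoidHom.comp (QuotientGroup.mk' K)) (e.surjective.comp (QuotientGroup.mk'_surjective K)) hZ
  haveI : N.Normal := Subgroup.normalClosure_normal
  obtain ⟨P, hP⟩ := CfsgLib.StronglyPEmbedded.exists_sylow_subgroupOf_eq S (A := N)
    (Subgroup.Normal.isSubnormal inferInstance)
  refine ⟨P, hP.trans ?_⟩
  ext x
  exact ⟨fun hx => hle ⟨hx, x.2⟩, fun hx => (Subgroup.mem_subgroupOf.1 hx).1⟩

end Cfsg.Agent.S2768
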