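import Cfsg.Statements.S2773
import Cfsg.Agent.Lib.PushUp.CommonCore.Control

set_option autoImplicit false
universe u
open Cfsg
open scoped commutatorElement

namespace Cfsg.Agent.S2773

/-- For every nontrivial finite 3-group S there is a nontrivial characteristic subgroup K of S such that, in every finite group G containing S as a Sylow 3-subgroup, S ∩ G' is the product of S ∩ (C_G(Z(S)))' and S ∩ (N_G(K))' (derived subgroups; product taken elementwise). -/
theorem result {S : Type u} [Group S] [Finite S] [Nontrivial S] (hS : IsPGroup 3 S) : ∃ K : Subgroup S, K ≠ ⊥ ∧ K.Characteristic ∧ ∀ (G : Type u) [Group G] [Finite G] (τ : S →* G), Function.Injective τ → (∃ P : Sylow 3 G, (P : Subgroup G) = τ.range) → ∀ g : G, g ∈ τ.range ⊓ commutator G ↔ ∃ a ∈ τ.range ⊓ ⁅Subgroup.centralizer ((τ.range ⊓ Subgroup.centralizer (τ.range : Set G) : Subgroup G) : Set G), Subgroup.centralizer ((τ.range ⊓ Subgroup.centralizer (τ.range : Set G) : Subgroup G) : Set G)⁆, ∃ b ∈ τ.range ⊓ ⁅Subgroup.normalizer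 ((K.map τ : Subgroup G) : Set G), Subgroup.normalizer ((K.map τ : Subgroup G) : Set G)⁆, g = a * b := by
  haveI : Fact (Nat.Prime 3) := ⟨Nat.prime_three⟩
  have hp2 : (3 : ℕ) ≠ 2 := by omega
  have hK := CfsgLib.PushUp.CommonCore.isCharPFunctor_Kfun.{u} hp2
  refine ⟨CfsgLib.PushUp.CommonCore.Kfun 3 S, hK.1 S hS inferInstance,
    CfsgLib.PushUp.CommonCore.Kfun_characteristic S, fun G _ _ τ hτ ⟨P, hP⟩ g => ?_⟩
  set T := τ.range with hT
  set Z := T ⊓ Subgroup.centralizer (T : Set G) with hZ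
  set C := Subgroup.centralizer (Z : Set G) with hC
  set N := Subgroup.normalizer (((CfsgLib.PushUp.CommonCore.Kfun 3 S).map τ : Subgroup G) : Set G) with hN
  have hTp : IsPGroup 3 T := hP ▸ P.2
  -- the value of the functor
  have hval : Cfsg.inducedFunctor (@CfsgLib.PushUp.CommonCore.Kfun 3) T =
      (CfsgLib.PushUp.CommonCore.Kfun 3 S).map τ := by
    show (CfsgLib.PushUp.CommonCore.Kfun 3 ↥T).map T.subtype = _
    rw [← CfsgLib.PushUp.CommonCore.Kfun_map_equiv (MonoidHom.ofInjective hτ), Subgroup.map_map]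
    congr 1
  have hTC : T ≤ C := fun t ht z hz => (hz.2 t ht).symm
  have hNT : Subgroup.normalizer (T : Set G) ≤ N := by
    rw [hN, ← hval]
    exact CfsgLib.ConjFunctor.normalizer_le_normalizer_functor
      (CfsgLib.ConjFunctor.isConjugacyFunctor_inducedFunctor hK) hTp
  have hTN : T ≤ N := Subgroup.le_normalizer.trans hNT
  set A := T ⊓ ⁅C, C⁆ with hA
  set B := T ⊓ ⁅N, N⁆ with hB
  -- `T ∩ N(Z(T))'`
  have hZN : T ⊓ ⁅Subgroup.normalizer (Z : Set G), Subgroup.normalizer (Z : Set G)⁆ ≤ A ⊔ B := by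
    have hTNZ : T ≤ Subgroup.normalizer (Z : Set G) := fun t ht =>
      CfsgLib.CoprimeAction.mem_normalizer_of_conj_mem fun z hz => by
        rwa [hz.2 t ht, mul_inv_cancel_right]
    refine CfsgLib.ConjFunctor.inf_commutator_le hTp hTNZ ?_ ?_ fun b hb u hu hub => ?_
    · intro hd
      have h1 := P.not_dvd_index
      rw [hP] at h1
      exact h1 (hd.trans (Subgroup.relIndex_dvd_index_of_le hTNZ))
    · intro r hr
      show (A ⊔ B).map _ ≤ _
      rw [Subgroup.map_sup]
      refine sup_le_sup ?_ ?_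
      · refine (Subgroup.map_inf_le _ _ _).trans (inf_le_inf ?_ ?_)
        · exact (CfsgLib.ConjFunctor.cj_eq_self_of_mem hr).le
        · exact (Subgroup.map_commutator _ _ _).le.trans (Subgroup.commutator_mono
            (CfsgLib.ConjFunctor.cj_eq_self_of_mem (hTC hr)).le (CfsgLib.ConjFunctor.cj_eq_self_of_mem (hTC hr)).le)
      · refine (Subgroup.map_inf_le _ _ _).trans (inf_le_inf ?_ ?_)
        · exact (CfsgLib.ConjFunctor.cj_eq_self_of_mem hr).le
        · exact (Subgroup.map_commutator _ _ _).le.trans (Subgroup.commutator_mono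
            (CfsgLib.ConjFunctor.cj_eq_self_of_mem (hTN hr)).le (CfsgLib.ConjFunctor.cj_eq_self_of_mem (hTN hr)).le)
    · have hCN : C ≤ Subgroup.normalizer (Z : Set G) := fun c hc =>
        CfsgLib.CoprimeAction.mem_normalizer_of_conj_mem fun z hz => by
          rwa [← hc z hz, mul_inv_cancel_right]
      -- Frattini inside `N(Z)`
      obtain ⟨v, hv, c, hc, rfl⟩ : ∃ v ∈ Subgroup.normalizer (T : Set G), ∃ c ∈ C, c * v = u := by
        have hle : CfsgLib.ConjFunctor.cj u T ≤ C := by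
          rintro _ ⟨t, ht, rfl⟩ z hz
          have h1 := (Subgroup.mem_normalizer_iff''.1 hu z).1 hz
          show z * (u * t * u⁻¹) = u * t * u⁻¹ * z
          calc z * (u * t * u⁻¹) = u * (u⁻¹ * z * u * t) * u⁻¹ := by group
            _ = u * (t * (u⁻¹ * z * u)) * u⁻¹ := by rw [hTC ht _ h1]
            _ = _ := by group
        obtain ⟨c, hc, hcT⟩ := CfsgLib.ConjFunctor.exists_cj_le
          (CfsgLib.ConjFunctor.isPGroup_cj hTp u) hle hTp hTC (by
            intro hd
            have h1 := P.not_dvd_index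
            rw [hP] at h1
            exact h1 (hd.trans (Subgroup.relIndex_dvd_index_of_le hTC)))
        refine ⟨c * u, ?_, c⁻¹, C.inv_mem hc, by group⟩
        rw [← CfsgLib.ConjFunctor.cj_mul] at hcT
        exact CfsgLib.ConjFunctor.cj_eq_self_iff.1
          (Subgroup.eq_of_le_of_card_ge hcT (CfsgLib.ConjFunctor.card_cj _ _).ge)
      have hb' : v * b * v⁻¹ ∈ T := (Subgroup.mem_normalizer_iff.1 hv b).1 hb
      have e : c * v * b * (c * v)⁻¹ * b⁻¹ =
          ⁅c, v * b * v⁻¹⁆ * ⁅v, b⁆ := by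
        rw [commutatorElement_def, commutatorElement_def]; group
      rw [e]
      have h2 : ⁅v, b⁆ ∈ B := by
        refine ⟨?_, Subgroup.commutator_mem_commutator (hNT hv) (hTN hb)⟩
        rw [commutatorElement_def]
        exact T.mul_mem hb' (T.inv_mem hb)
      refine mul_mem (Subgroup.mem_sup_left ⟨?_, Subgroup.commutator_mem_commutator hc (hTC hb')⟩)
        (Subgroup.mem_sup_right h2)
      have h3 : c * v * b * (c * v)⁻¹ * b⁻¹ ∈ T := T.mul_mem hub (T.inv_mem hb)
      rw [e] at h3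
      exact (T.mul_mem_cancel_right h2.1).1 h3
  have hle : T ⊓ ⁅(⊤ : Subgroup G), ⊤⁆ ≤ A ⊔ B := by
    have h1 := CfsgLib.PushUp.CommonCore.transferOK_pair (X := G) hp2 P
    rw [hP] at h1
    refine h1.trans (iSup₂_le ?_)
    rintro _ ⟨W, (rfl | rfl), rfl⟩
    · rw [top_inf_eq]
      show T ⊓ ⁅Subgroup.normalizer ((Cfsg.inducedFunctor @CfsgLib.PushUp.CommonCore.centerFun T : Subgroup G) : Set G),
        Subgroup.normalizer ((Cfsg.inducedFunctor @CfsgLib.PushUp.CommonCore.centerFun T : Subgroup G) : Set G)⁆ ≤ _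
      rw [CfsgLib.PushUp.CommonCore.inducedFunctor_center]
      exact hZN
    · rw [top_inf_eq]
      show T ⊓ ⁅Subgroup.normalizer ((Cfsg.inducedFunctor (@CfsgLib.PushUp.CommonCore.Kfun 3) T : Subgroup G) : Set G),
        Subgroup.normalizer ((Cfsg.inducedFunctor (@CfsgLib.PushUp.CommonCore.Kfun 3) T : Subgroup G) : Set G)⁆ ≤ _
      rw [hval]
      exact le_sup_right
  have hAB : A ≤ Subgroup.normalizer (B : Set G) := fun a ha =>
    CfsgLib.CoprimeAction.mem_normalizer_of_conj_mem fun b hb => by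
      refine ⟨T.mul_mem (T.mul_mem ha.1 hb.1) (T.inv_mem ha.1), ?_⟩
      have h1 : ⁅a, b⁆ ∈ ⁅N, N⁆ := Subgroup.commutator_mem_commutator (hTN ha.1) (hTN hb.1)
      have h2 := mul_mem h1 hb.2
      rwa [commutatorElement_def, inv_mul_cancel_right] at h2
  constructor
  · rintro ⟨hgT, hg⟩
    rw [commutator_def] at hg
    have h1 : g ∈ ((A ⊔ B : Subgroup G) : Set G) := hle ⟨hgT, hg⟩
    rw [Subgroup.coe_mul_of_left_le_normalizer_right A B hAB] at h1
    obtain ⟨a, ha, b, hb, rfl⟩ := h1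
    exact ⟨a, ha, b, hb, rfl⟩
  · rintro ⟨a, ha, b, hb, rfl⟩
    rw [commutator_def]
    exact ⟨T.mul_mem ha.1 hb.1, mul_mem (Subgroup.commutator_mono le_top le_top ha.2)
      (Subgroup.commutator_mono le_top le_top hb.2)⟩

end Cfsg.Agent.S2773
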