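import Cfsg.Statements.S2779
import Cfsg.Agent.Lib.Amalgams.Natural

set_option autoImplicit false
open Cfsg

namespace Cfsg.Agent.S2779

/-- Let L act on the elementary abelian p-group V (inside a finite group, by conjugation, faithfully) as SL₂(F) on its natural module, F a field with p^n elements, and let S be a Sylow p-subgroup of L. Then [V, S, S] = 1; |V| = p^(2n) and |C_V(S)| = p^n; and for every nonidentity s ∈ S and every v ∈ V outside C_V(S): C_V(s) = C_V(S) = [V, S] = [V, s] = the subgroup generated by the commutators [v, t], t ∈ S. -/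
theorem result {G : Type*} [Group G] [Finite G] {p : ℕ} [Fact p.Prime] {F : Type*} [Field F] [Fintype F] (n : ℕ) (hF : Fintype.card F = p ^ n) (V L : Subgroup G) (hnat : Cfsg.IsNaturalSL2Module F V L) (hf : L ⊓ Subgroup.centralizer (V : Set G) = ⊥) (S : Sylow p ↥L) (T : Subgroup G) (hT : T = ((S : Subgroup ↥L).map L.subtype)) : ⁅⁅V, T⁆, T⁆ = ⊥ ∧ Nat.card V = p ^ (2 * n) ∧ Nat.card ↥(V ⊓ Subgroup.centralizer ((T : Subgroup G) : Set G)) = p ^ n ∧ ∀ s ∈ T, s ≠ 1 → (V ⊓ Subgroup.centralizer ({s} : Set G)) = (V ⊓ Subgroup.centralizer ((T : Subgroup G) : Set G)) ∧ ⁅V, T⁆ = (V ⊓ Subgroup.centralizer ((T : Subgroup G) : Set G)) ∧ ⁅V, Subgroup.zpowers s⁆ = (V ⊓ Subgroup.centralizer ((T : Subgroup G) : Set G)) ∧ ∀ v ∈ V, v ∉ Subgroup.centralizer (T : Set G) → Subgroup.closure {x : G | ∃ t ∈ T, x = v * t * v⁻¹ * t⁻¹} = (V ⊓ Subgroup.centralizer ((T : Subgroup G) : Set G)) := by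
  classical
  subst hT
  obtain ⟨c⟩ := CfsgLib.Amalgams.Natural.exists_coords hF hnat hf S
  set T := (S : Subgroup ↥L).map L.subtype
  rw [c.inf_centralizer_eq]
  have hcomm' : ∀ v ∈ V, ∀ t ∈ T, v * t * v⁻¹ * t⁻¹ ∈ c.line := by
    intro v hv t ht
    obtain ⟨a, b, rfl⟩ := c.w_surj v hv
    obtain ⟨x, hx⟩ := c.exists_eq_of_mem_T ht
    exact ⟨_, c.commutator_w hx a b⟩
  have hcomm : ⁅V, T⁆ ≤ c.line := Subgroup.commutator_le.2 fun v hv t ht => by
    rw [commutatorElement_def]; exact hcomm' v hv t ht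
  have hline : ∀ v ∈ c.line, ∀ t ∈ T, t * v = v * t := fun v hv t ht => by
    have h := c.inf_centralizer_eq.symm ▸ hv
    exact h.2 t ht
  refine ⟨?_, ?_, ?_, ?_⟩
  · rw [Subgroup.commutator_eq_bot_iff_le_centralizer]
    intro z hz t ht
    have hz' : z ∈ c.line := hcomm hz
    exact hline z hz' t ht
  · rw [c.card_V, hF, two_mul, pow_add]
  · rw [c.card_line, hF]
  intro s hs hs1
  obtain ⟨x, hx⟩ := c.exists_eq_of_mem_T hs
  have hx0 : x ≠ 0 := by
    intro hx0
    refine hs1 ((Subgroup.mem_bot).1 (hf ▸ ⟨c.T_le hs, fun v hv => ?_⟩))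
    obtain ⟨a, b, rfl⟩ := c.w_surj v hv
    have h := hx a b
    rw [hx0, zero_mul, add_zero, mul_inv_eq_iff_eq_mul] at h
    exact h.symm
  refine ⟨?_, ?_, ?_, ?_⟩
  · apply le_antisymm
    · rintro v ⟨hv, hvc⟩
      obtain ⟨a, b, rfl⟩ := c.w_surj v hv
      have h := hx a b
      rw [hvc s (Set.mem_singleton s), mul_inv_cancel_right] at h
      have hb : x * b = 0 := by simpa using (c.w_inj _ _ _ _ h).1
      exact ⟨a, by rw [(mul_eq_zero.1 hb).resolve_left hx0]⟩
    · intro v hv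
      refine ⟨?_, fun t ht => ?_⟩
      · obtain ⟨a, rfl⟩ := hv; exact c.w_mem a 0
      · rw [Set.mem_singleton_iff.1 ht]; exact hline v hv s hs
  · refine le_antisymm hcomm ?_
    rintro _ ⟨a, rfl⟩
    have := Subgroup.commutator_mem_commutator (c.w_mem 0 (-a / x)) hs
    rwa [commutatorElement_def, c.commutator_w hx, mul_div_cancel₀ _ hx0, neg_neg] at this
  · refine le_antisymm ((Subgroup.commutator_mono le_rfl (Subgroup.zpowers_le.2 hs)).trans
      hcomm) ?_
    rintro _ ⟨a, rfl⟩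
    have := Subgroup.commutator_mem_commutator (c.w_mem 0 (-a / x)) (Subgroup.mem_zpowers s)
    rwa [commutatorElement_def, c.commutator_w hx, mul_div_cancel₀ _ hx0, neg_neg] at this
  · intro v hv hvc
    refine le_antisymm ((Subgroup.closure_le _).2 ?_) ?_
    · rintro _ ⟨t, ht, rfl⟩
      exact hcomm' v hv t ht
    obtain ⟨a, b, rfl⟩ := c.w_surj v hv
    have hb : b ≠ 0 := by
      rintro rfl
      exact hvc fun t ht => hline _ ⟨a, rfl⟩ t ht
    rintro _ ⟨e, rfl⟩
    obtain ⟨t, ht, hta⟩ := c.exists_T_elem (-e / b)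
    exact Subgroup.subset_closure ⟨t, ht, by
      rw [c.commutator_w hta, div_mul_cancel₀ _ hb, neg_neg]⟩

end Cfsg.Agent.S2779
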