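import Cfsg.Statements.S2780
import Cfsg.Agent.Lib.Amalgams.Natural
import Mathlib.FieldTheory.Finite.Basic

set_option autoImplicit false
open Cfsg

namespace Cfsg.Agent.S2780

open CfsgLib.Amalgams.Natural

variable {G : Type*} [Group G] [Finite G] {F : Type*} [Field F] {V L T U : Subgroup G}

theorem diag_scale (c : Coords F V L T)
    (hn : L ⊓ Subgroup.normalizer (T : Set G) ≤ Subgroup.normalizer (U : Set G))
    {e : F} (hu : c.w e 0 ∈ U) (he : e ≠ 0) (a : F) : c.w a 0 ∈ U := by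
  by_cases ha : a = 0
  · rw [ha, c.w_zero]; exact one_mem U
  let A : Matrix.SpecialLinearGroup (Fin 2) F := ⟨!![a / e, 0; 0, e / a], by
    rw [Matrix.det_fin_two]; simp [field]⟩
  have hg : ((c.ρ.symm A : L) : G) ∈ L ⊓ Subgroup.normalizer (T : Set G) :=
    ⟨(c.ρ.symm A).2, c.mem_normalizer (by rw [MulEquiv.apply_symm_apply]; simp [A])⟩
  have h := (Subgroup.mem_normalizer_iff.1 (hn hg) _).1 hu
  rw [c.conj, MulEquiv.apply_symm_apply] at h
  simpa [A, he] using h

theorem diag_scale' (c : Coords F V L T)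
    (hn : L ⊓ Subgroup.normalizer (T : Set G) ≤ Subgroup.normalizer (U : Set G))
    {e : F} (hu : c.w 0 e ∈ U) (he : e ≠ 0) (a : F) : c.w 0 a ∈ U := by
  by_cases ha : a = 0
  · rw [ha, c.w_zero]; exact one_mem U
  let A : Matrix.SpecialLinearGroup (Fin 2) F := ⟨!![e / a, 0; 0, a / e], by
    rw [Matrix.det_fin_two]; simp [field]⟩
  have hg : ((c.ρ.symm A : L) : G) ∈ L ⊓ Subgroup.normalizer (T : Set G) :=
    ⟨(c.ρ.symm A).2, c.mem_normalizer (by rw [MulEquiv.apply_symm_apply]; simp [A])⟩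
  have h := (Subgroup.mem_normalizer_iff.1 (hn hg) _).1 hu
  rw [c.conj, MulEquiv.apply_symm_apply] at h
  simpa [A, he] using h


/-- Let L act on the elementary abelian p-group V (inside a finite group, faithfully) as SL₂(F) on its natural module, F a field with p^n elements, S a Sylow p-subgroup of L. Then: for every g ∈ L not normalizing S, V is the internal direct product of C_V(S) and C_V(gSg⁻¹); every nonidentity element of L of order prime to p acts on V without nonidentity fixed points; and C_V(S) and V/C_V(S) are irreducible for N_L(S): the only N_L(S)-invariant subgroups of C_V(S) are 1 and C_V(S), and the only N_L(S)-invariant subgroups between C_V(S) and V are those two. -/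
theorem result {G : Type*} [Group G] [Finite G] {p : ℕ} [Fact p.Prime] {F : Type*} [Field F] [Fintype F] (n : ℕ) (hF : Fintype.card F = p ^ n) (V L : Subgroup G) (hnat : Cfsg.IsNaturalSL2Module F V L) (hf : L ⊓ Subgroup.centralizer (V : Set G) = ⊥) (S : Sylow p ↥L) (T : Subgroup G) (hT : T = ((S : Subgroup ↥L).map L.subtype)) : (∀ g ∈ L, g ∉ Subgroup.normalizer (T : Set G) → Cfsg.IsInternalDirectProduct (V ⊓ Subgroup.centralizer ((T : Subgroup G) : Set G)) (V ⊓ Subgroup.centralizer ((T.map (MulAut.conj g).toMonoidHom : Subgroup G) : Set G)) V) ∧ (∀ x ∈ L, x ≠ 1 → (orderOf x).Coprime p → (V ⊓ Subgroup.centralizer ({x} : Set G)) = ⊥) ∧ (∀ U : Subgroup G, U ≤ (V ⊓ Subgroup.centralizer ((T : Subgroup G) : Set G)) → L ⊓ Subgroup.normalizer (T : Set G) ≤ Subgroup.normalizer (U : Set G) → U = ⊥ ∨ U = (V ⊓ Subgroup.centralizer ((T : Subgroup G) : Set G))) ∧ (∀ U : Subgroup G, (V ⊓ Subgroup.centralizer ((T : Subgroup G) : Set G)) ≤ U → U ≤ V → L ⊓ Subgroup.normalizer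 (T : Set G) ≤ Subgroup.normalizer (U : Set G) → U = (V ⊓ Subgroup.centralizer ((T : Subgroup G) : Set G)) ∨ U = V) := by
  classical
  subst hT
  obtain ⟨c⟩ := CfsgLib.Amalgams.Natural.exists_coords hF hnat hf S
  set T := (S : Subgroup ↥L).map L.subtype
  rw [c.inf_centralizer_eq]
  refine ⟨?_, ?_, ?_, ?_⟩
  · intro g hg hgn
    set A := (c.ρ ⟨g, hg⟩ : Matrix (Fin 2) (Fin 2) F) with hA
    have h10 : A 1 0 ≠ 0 := fun h => hgn (c.mem_normalizer (l := ⟨g, hg⟩) h)
    have hmap : V ⊓ Subgroup.centralizer ((T.map (MulAut.conj g).toMonoidHom : Subgroup G) : Set G) =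
        (c.line).map (MulAut.conj g).toMonoidHom := by
      have hVg : V.map (MulAut.conj g).toMonoidHom = V := by
        apply le_antisymm
        · rintro _ ⟨v, hv, rfl⟩
          exact (Subgroup.mem_normalizer_iff.1 (hnat.1 hg) v).1 hv
        · intro v hv
          exact ⟨g⁻¹ * v * g, (Subgroup.mem_normalizer_iff.1 (hnat.1 hg) _).2
            (by simpa [mul_assoc] using hv), by simp [mul_assoc]⟩
      rw [← c.inf_centralizer_eq, Subgroup.map_inf _ _ _ (MulEquiv.injective _), hVg]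
      congr 1
      ext y
      constructor
      · intro hy
        refine ⟨g⁻¹ * y * g, fun t ht => ?_, by simp [mul_assoc]⟩
        have := hy _ ⟨t, ht, rfl⟩
        simp only [MulEquiv.coe_toMonoidHom, MulAut.conj_apply] at this
        calc t * (g⁻¹ * y * g) = g⁻¹ * ((g * t * g⁻¹) * y) * g := by simp [mul_assoc]
          _ = g⁻¹ * y * g * t := by rw [this]; simp [mul_assoc]
      · rintro ⟨z, hz, rfl⟩ _ ⟨t, ht, rfl⟩
        simp only [MulEquiv.coe_toMonoidHom, ← map_mul, hz t ht]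
    rw [hmap]
    have himg : ∀ a, g * c.w a 0 * g⁻¹ = c.w (A 0 0 * a) (A 1 0 * a) := by
      intro a
      have := c.conj ⟨g, hg⟩ a 0
      simpa [hA] using this
    refine ⟨?_, ?_, ?_, ?_, ?_⟩
    · rintro _ ⟨a, rfl⟩; exact c.w_mem a 0
    · rintro _ ⟨_, ⟨a, rfl⟩, rfl⟩
      simp only [MulEquiv.coe_toMonoidHom, MulAut.conj_apply, himg]
      exact c.w_mem _ _
    · rintro _ ⟨a, rfl⟩ _ ⟨_, ⟨b, rfl⟩, rfl⟩
      simp only [MulEquiv.coe_toMonoidHom, MulAut.conj_apply, himg, c.w_mul]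
      congr 1 <;> ring
    · rw [Subgroup.eq_bot_iff_forall]
      rintro _ ⟨⟨a, rfl⟩, _, ⟨b, rfl⟩, hb⟩
      simp only [MulEquiv.coe_toMonoidHom, MulAut.conj_apply, himg] at hb
      obtain ⟨h1, h2⟩ := c.w_inj _ _ _ _ hb
      have : b = 0 := (mul_eq_zero.1 h2).resolve_left h10
      rw [← h1, this, mul_zero, c.w_zero]
    · refine le_antisymm (sup_le ?_ ?_) fun v hv => ?_
      · rintro _ ⟨a, rfl⟩; exact c.w_mem a 0
      · rintro _ ⟨_, ⟨a, rfl⟩, rfl⟩
        simp only [MulEquiv.coe_toMonoidHom, MulAut.conj_apply, himg]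
        exact c.w_mem _ _
      · obtain ⟨a, b, rfl⟩ := c.w_surj v hv
        have : c.w a b = c.w (a - A 0 0 * (b / A 1 0)) 0 * (g * c.w (b / A 1 0) 0 * g⁻¹) := by
          rw [himg, c.w_mul, zero_add, mul_div_cancel₀ _ h10, sub_add_cancel]
        rw [this]
        exact mul_mem (Subgroup.mem_sup_left ⟨_, rfl⟩) (Subgroup.mem_sup_right ⟨_, ⟨_, rfl⟩, rfl⟩)
  · intro x hx hx1 hcop
    rw [Subgroup.eq_bot_iff_forall]
    rintro v ⟨hv, hvc⟩
    obtain ⟨a, b, rfl⟩ := c.w_surj v hv
    by_contra hne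
    apply hx1
    set A := (c.ρ ⟨x, hx⟩ : Matrix (Fin 2) (Fin 2) F) with hA
    have h := c.conj ⟨x, hx⟩ a b
    rw [show (x : G) * c.w a b = c.w a b * x from (hvc x (Set.mem_singleton x)),
      mul_inv_cancel_right] at h
    obtain ⟨h1, h2⟩ := c.w_inj _ _ _ _ h
    have hab : ¬ (a = 0 ∧ b = 0) := fun h0 => hne (by rw [h0.1, h0.2, c.w_zero])
    have hd := CfsgLib.SL2.det_eq (c.ρ ⟨x, hx⟩)
    have hdet : (A 0 0 - 1) * (A 1 1 - 1) - A 0 1 * A 1 0 = 0 := by
      by_cases ha : a = 0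
      · have hb : b ≠ 0 := fun hb => hab ⟨ha, hb⟩
        have : b * ((A 0 0 - 1) * (A 1 1 - 1) - A 0 1 * A 1 0) = 0 := by
          linear_combination (-(A 0 0 - 1)) * h2 + (A 1 0) * h1
        exact (mul_eq_zero.1 this).resolve_left hb
      · have : a * ((A 0 0 - 1) * (A 1 1 - 1) - A 0 1 * A 1 0) = 0 := by
          linear_combination (-(A 1 1 - 1)) * h1 + (A 0 1) * h2
        exact (mul_eq_zero.1 this).resolve_left ha
    have htr : A 0 0 + A 1 1 = 2 := by linear_combination hd - hdet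
    haveI : CharP F p := by
      obtain ⟨q, hq⟩ := CharP.exists F
      obtain ⟨m, hqp, hm⟩ := FiniteField.card F q
      have : q = p := by
        have hdvd : q ∣ p ^ n := hF ▸ hm ▸ dvd_pow_self q m.pos.ne'
        exact (Nat.prime_dvd_prime_iff_eq hqp Fact.out).1 (hqp.dvd_of_dvd_pow hdvd)
      exact this ▸ hq
    have hN : (A - 1) ^ 2 = 0 := by
      ext i j
      fin_cases i <;> fin_cases j <;> simp [pow_two, Matrix.mul_apply]
      · linear_combination (A 0 0) * htr - hd
      · linear_combination (A 0 1) * htr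
      · linear_combination (A 1 0) * htr
      · linear_combination (A 1 1) * htr - hd
    have hAp : A ^ p = 1 := by
      have h0 : (A - 1) ^ p = 0 := by
        obtain ⟨k, hk⟩ := Nat.exists_eq_add_of_le (Fact.out : p.Prime).two_le
        rw [hk, pow_add, hN, zero_mul]
      rw [sub_pow_char_of_commute p (Commute.one_right A), one_pow, sub_eq_zero] at h0
      exact h0
    have hxp : (⟨x, hx⟩ : L) ^ p = 1 := c.ρ.injective (by
      rw [map_pow, map_one]
      exact Subtype.ext ((Matrix.SpecialLinearGroup.coe_pow _ _).trans hAp))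
    have hxp' : x ^ p = 1 := congrArg Subtype.val hxp
    exact orderOf_eq_one_iff.1 (Nat.eq_one_of_dvd_coprimes hcop dvd_rfl
      (orderOf_dvd_of_pow_eq_one hxp'))
  · intro U hU hn
    by_cases hbot : U = ⊥
    · exact Or.inl hbot
    refine Or.inr (le_antisymm hU ?_)
    obtain ⟨u, hu, hu1⟩ := U.bot_or_exists_ne_one.resolve_left hbot
    obtain ⟨e, rfl⟩ := hU hu
    have he : e ≠ 0 := fun h => hu1 (by rw [h, c.w_zero])
    rintro _ ⟨a, rfl⟩
    exact diag_scale c hn hu he a
  · intro U hCU hUV hn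
    by_cases hle : U ≤ c.line
    · exact Or.inl (le_antisymm hle hCU)
    refine Or.inr (le_antisymm hUV fun v hv => ?_)
    obtain ⟨u, hu, hu1⟩ := SetLike.not_le_iff_exists.1 hle
    obtain ⟨a, b, rfl⟩ := c.w_surj u (hUV hu)
    have hb : b ≠ 0 := fun h => hu1 ⟨a, by rw [h]⟩
    have h0 : c.w 0 b ∈ U := by
      have := mul_mem (hCU (show c.w (-a) 0 ∈ c.line from ⟨_, rfl⟩)) hu
      rwa [c.w_mul, neg_add_cancel, zero_add] at this
    obtain ⟨x, y, rfl⟩ := c.w_surj v hv
    have hy := diag_scale' c hn h0 hb y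
    have := mul_mem (hCU (show c.w x 0 ∈ c.line from ⟨_, rfl⟩)) hy
    rwa [c.w_mul, add_zero, zero_add] at this

end Cfsg.Agent.S2780
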