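import Cfsg.Statements.S2781
import Mathlib.GroupTheory.Coset.Card
import Mathlib.Tactic.Linarith

set_option autoImplicit false
open Cfsg

namespace Cfsg.Agent.S2781

/-- Let H act faithfully by conjugation on the elementary abelian p-subgroup V of a finite group, let O^p(H) be the subgroup of H generated by its elements of order prime to p, and T a Sylow p-subgroup of O^p(H). If V is generated by the H-conjugates of C_V(T) (V is the smallest H-invariant subgroup containing C_V(T)), then V = [V, O^p(H)]·C_V(O^p(H)). -/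
theorem result {G : Type*} [Group G] [Finite G] {p : ℕ} [Fact p.Prime] (V H : Subgroup G) (hV : Cfsg.IsElementaryAbelian p V) (hHV : H ≤ Subgroup.normalizer (V : Set G)) (hf : H ⊓ Subgroup.centralizer (V : Set G) = ⊥) (R : Subgroup G) (hR : R = (Cfsg.pResidual p ↥H).map H.subtype) (S : Sylow p ↥R) (T : Subgroup G) (hT : T = ((S : Subgroup ↥R).map R.subtype)) (hgen : ∀ W : Subgroup G, H ≤ Subgroup.normalizer (W : Set G) → (V ⊓ Subgroup.centralizer ((T : Subgroup G) : Set G)) ≤ W → V ≤ W) : ⁅V, R⁆ ⊔ (V ⊓ Subgroup.centralizer ((R : Subgroup G) : Set G)) = V := by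
  have hRH : R ≤ H := hR ▸ Subgroup.map_subtype_le _
  have hRnorm : ∀ h ∈ H, ∀ r ∈ R, h * r * h⁻¹ ∈ R := by
    intro h hh r hr
    rw [hR] at hr ⊢
    obtain ⟨r', hr', rfl⟩ := hr
    refine ⟨⟨h, hh⟩ * r' * ⟨h, hh⟩⁻¹, ?_, rfl⟩
    suffices (Cfsg.pResidual p ↥H).map (MulAut.conj (⟨h, hh⟩ : ↥H)).toMonoidHom ≤
        Cfsg.pResidual p ↥H from this ⟨r', hr', rfl⟩
    rw [Cfsg.pResidual, MonoidHom.map_closure]
    refine Subgroup.closure_mono ?_
    rintro _ ⟨t, ht, rfl⟩
    show (orderOf _).Coprime p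
    rw [orderOf_injective _ (MulEquiv.injective _)]
    exact ht
  have hVn : ∀ h ∈ H, ∀ v ∈ V, h * v * h⁻¹ ∈ V := fun h hh v hv =>
    (Subgroup.mem_normalizer_iff.1 (hHV hh) v).1 hv
  have hcomLE : ⁅V, R⁆ ≤ V := by
    rw [Subgroup.commutator_le]
    intro v hv r hr
    rw [commutatorElement_def, mul_assoc, mul_assoc]
    refine mul_mem hv ?_
    rw [← mul_assoc]
    exact hVn r (hRH hr) v⁻¹ (inv_mem hv)
  have hmap : ∀ h ∈ H, ∀ (A : Subgroup G), (∀ a ∈ A, h * a * h⁻¹ ∈ A) →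
      A.map (MulAut.conj h).toMonoidHom ≤ A := fun h _ A hA => by
    rintro _ ⟨a, ha, rfl⟩
    exact hA a ha
  set C := V ⊓ Subgroup.centralizer ((R : Subgroup G) : Set G) with hC
  have hW : ∀ h ∈ H, ∀ w ∈ ⁅V, R⁆ ⊔ C, h * w * h⁻¹ ∈ ⁅V, R⁆ ⊔ C := by
    intro h hh w hw
    suffices (⁅V, R⁆ ⊔ C).map (MulAut.conj h).toMonoidHom ≤ ⁅V, R⁆ ⊔ C from this ⟨w, hw, rfl⟩
    rw [Subgroup.map_sup]
    refine sup_le_sup ?_ (hmap h hh C ?_)
    · rw [Subgroup.map_commutator]
      exact Subgroup.commutator_mono (hmap h hh V (hVn h hh)) (hmap h hh R (hRnorm h hh))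
    · rintro a ⟨ha, hac⟩
      refine ⟨hVn h hh a ha, fun r hr => ?_⟩
      have h1 := hRnorm h⁻¹ (inv_mem hh) r hr
      rw [inv_inv] at h1
      calc r * (h * a * h⁻¹) = h * ((h⁻¹ * r * h) * a) * h⁻¹ := by simp [mul_assoc]
        _ = h * a * h⁻¹ * r := by rw [hac _ h1]; simp [mul_assoc]
  refine le_antisymm (sup_le hcomLE inf_le_left) (hgen _ (fun h hh => ?_) ?_)
  · rw [Subgroup.mem_normalizer_iff]
    refine fun w => ⟨hW h hh w, fun hw => ?_⟩
    simpa [mul_assoc] using hW h⁻¹ (inv_mem hh) _ hw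
  · rintro v ⟨hv, hvT⟩
    classical
    haveI : IsMulCommutative ↥V := hV.1
    letI : CommGroup ↥V :=
      { (inferInstance : Group ↥V) with mul_comm := fun a b => mul_comm' a b }
    haveI : Fintype (↥R ⧸ (S : Subgroup ↥R)) := Fintype.ofFinite _
    let φ : ↥R → ↥V := fun r => ⟨(r : G) * v * (r : G)⁻¹, hVn r (hRH r.2) v hv⟩
    have hφ : ∀ a b : ↥R, a⁻¹ * b ∈ (S : Subgroup ↥R) → φ a = φ b := by
      intro a b hab
      have h1 : ((a⁻¹ * b : ↥R) : G) * v = v * ((a⁻¹ * b : ↥R) : G) :=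
        hvT _ (by rw [hT]; exact ⟨a⁻¹ * b, hab, rfl⟩)
      refine Subtype.ext ?_
      show (a : G) * v * (a : G)⁻¹ = (b : G) * v * (b : G)⁻¹
      have h2 : (b : G) = (a : G) * ((a⁻¹ * b : ↥R) : G) := by simp
      calc (a : G) * v * (a : G)⁻¹
          = (a : G) * (((a⁻¹ * b : ↥R) : G) * v * ((a⁻¹ * b : ↥R) : G)⁻¹) * (a : G)⁻¹ := by
            rw [h1, mul_inv_cancel_right]
        _ = _ := by rw [h2]; simp [mul_assoc]
    let F : ↥R ⧸ (S : Subgroup ↥R) → ↥V :=
      Quotient.lift φ fun a b hab => hφ a b (QuotientGroup.leftRel_apply.1 hab)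
    set P : ↥V := ∏ q, F q with hP
    have hPC : (P : G) ∈ C := by
      refine ⟨P.2, fun r hr => ?_⟩
      let ψ : ↥V →* ↥V := MonoidHom.mk' (fun w => ⟨r * (w : G) * r⁻¹, hVn r (hRH hr) _ w.2⟩)
        fun a b => Subtype.ext (by simp [mul_assoc])
      have hPψ : ψ P = P := by
        rw [hP, map_prod]
        refine Fintype.prod_equiv (MulAction.toPerm (⟨r, hr⟩ : ↥R)) _ _ fun q => ?_
        induction q using QuotientGroup.induction_on with
        | _ a => exact Subtype.ext (by show r * ((a : G) * v * (a : G)⁻¹) * r⁻¹ = _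
                                       simp [F, φ, mul_assoc])
      calc r * (P : G) = r * (P : G) * r⁻¹ * r := by simp
        _ = (P : G) * r := by
          rw [show r * (P : G) * r⁻¹ = (P : G) from congrArg Subtype.val hPψ]
    set n := Fintype.card (↥R ⧸ (S : Subgroup ↥R)) with hn
    have hvn : v ^ n ∈ ⁅V, R⁆ ⊔ C := by
      have h1 : (∏ q, F q * (⟨v, hv⟩ : ↥V)⁻¹) ∈ (⁅V, R⁆ ⊔ C).subgroupOf V := by
        refine prod_mem fun q _ => ?_
        induction q using QuotientGroup.induction_on with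
        | _ a =>
          refine Subgroup.mem_sup_left ?_
          rw [Subgroup.commutator_comm]
          exact Subgroup.commutator_mem_commutator a.2 hv
      rw [Finset.prod_mul_distrib, Finset.prod_const, Finset.card_univ, inv_pow] at h1
      have h2 : P ∈ (⁅V, R⁆ ⊔ C).subgroupOf V := Subgroup.mem_sup_right hPC
      have h3 := inv_mem ((Subgroup.mul_mem_cancel_left _ h2).1 h1)
      rw [inv_inv] at h3
      exact h3
    have hcop : n.Coprime p := by
      rw [hn, ← Nat.card_eq_fintype_card]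
      exact ((Fact.out : p.Prime).coprime_iff_not_dvd.2 S.not_dvd_index).symm
    have hvp : v ^ p = 1 := hV.2 v hv
    obtain ⟨m, hm⟩ : ∃ m : ℤ, (v ^ n) ^ m = v := by
      refine ⟨Nat.gcdA n p, ?_⟩
      have h := Nat.gcd_eq_gcd_ab n p
      rw [Nat.Coprime.gcd_eq_one hcop] at h
      push_cast at h
      calc (v ^ n) ^ Nat.gcdA n p = v ^ ((n : ℤ) * Nat.gcdA n p) := by
            rw [zpow_mul, zpow_natCast]
        _ = v ^ (1 - (p : ℤ) * Nat.gcdB n p) := by congr 1; linarith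
        _ = v := by rw [zpow_sub, zpow_mul, zpow_natCast, hvp, one_zpow, zpow_one, inv_one, mul_one]
    rw [← hm]
    exact zpow_mem hvn m

end Cfsg.Agent.S2781
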