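import Cfsg.Statements.S2787
import Cfsg.Agent.Lib.Amalgams.SLFreeIrreducible
import Cfsg.Agent.Lib.PGroups.SLFreeCriteria
import Cfsg.Agent.Lib.Twisted.ReeCentralizer

set_option autoImplicit false
open Cfsg

namespace Cfsg.Agent.S2787

/-- Let p be a prime and let H act by conjugation on the elementary abelian p-subgroup V of a finite group, irreducibly (no H-invariant subgroups of V other than 1 and V) and nontrivially, and suppose H/C_H(V) is isomorphic to PSL₂(F) for a field F with p^n elements, p^n odd, or p = 3 and H/C_H(V) is isomorphic to a Ree group ²G₂(3^(2m+1)), m ≥ 1. Then no subgroup A of H acting nontrivially on V acts quadratically: [V, A, A] = 1 forces [V, A] = 1. -/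
theorem result {G : Type*} [Group G] [Finite G] {p : ℕ} [Fact p.Prime] (V H : Subgroup G) (hV : Cfsg.IsElementaryAbelian p V) (hHV : H ≤ Subgroup.normalizer (V : Set G)) (hirr : ∀ U : Subgroup G, U ≤ V → H ≤ Subgroup.normalizer (U : Set G) → U = ⊥ ∨ U = V) (hnt : ¬ H ≤ Subgroup.centralizer (V : Set G)) [hn : ((Subgroup.centralizer (V : Set G)).subgroupOf H).Normal] (hq : (∃ (F : Type) (_ : Field F) (_ : Fintype F) (n : ℕ), Fintype.card F = p ^ n ∧ Odd (Fintype.card F) ∧ Nonempty (↥H ⧸ (Subgroup.centralizer (V : Set G)).subgroupOf H ≃* Matrix.ProjectiveSpecialLinearGroup (Fin 2) F)) ∨ (p = 3 ∧ Cfsg.Lie.IsoRee (↥H ⧸ (Subgroup.centralizer (V : Set G)).subgroupOf H))) (A : Subgroup G) (hA : A ≤ H) (hquad : ⁅⁅V, A⁆, A⁆ = ⊥) : ⁅V, A⁆ = ⊥ := by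
  rcases hq with ⟨F, _, _, n, hF, hodd, ⟨e⟩⟩ | ⟨rfl, K, _, _, m, _, hK, ⟨e⟩⟩
  · have hp2 : p ≠ 2 := by
      rintro rfl
      rw [hF, Nat.odd_pow_iff] at hodd
      · exact absurd hodd (by decide)
      · rintro rfl
        exact Fintype.one_lt_card.ne' (by simpa using hF)
    exact CfsgLib.Amalgams.commutator_eq_bot_of_slFree_quadratic hp2 V H hV hHV hirr
      ((CfsgLib.Amalgams.slFree_psl_two hodd hp2).of_injective e.toMonoidHom e.injective) A hA hquad
  · have h3 : (3 : ℕ) ≠ 2 := by decide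
    refine CfsgLib.Amalgams.commutator_eq_bot_of_slFree_quadratic h3 V H hV hHV hirr ?_ A hA hquad
    refine CfsgLib.PGroups.SLFree.of_injective ?_ e.toMonoidHom e.injective
    refine CfsgLib.PGroups.SLFree.of_abelian_sylow_two h3 fun T => ⟨⟨fun a b => ?_⟩⟩
    have hsq : ∀ c : (T : Subgroup ↥(Cfsg.Lie.twistedG2 K (3 ^ m))), c⁻¹ = c := fun c =>
      inv_eq_of_mul_eq_one_right (Subtype.ext ((CfsgLib.Twisted.ree_sylow_two hK T).2 c c.2))
    calc a * b = (a * b)⁻¹ := (hsq _).symm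
      _ = b⁻¹ * a⁻¹ := mul_inv_rev a b
      _ = b * a := by rw [hsq, hsq]

end Cfsg.Agent.S2787
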