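import Cfsg.Statements.S2788
import Cfsg.Agent.Lib.Amalgams.RankOneBounds
import Cfsg.Agent.Lib.CoprimeAction.Glauberman

set_option autoImplicit false
open Cfsg

namespace Cfsg.Agent.S2788

open scoped commutatorElement

/-- Let H act faithfully by conjugation on the elementary abelian p-subgroup V of a finite group with H ≅ SL₂(F), F a field with p^n elements, S a Sylow p-subgroup of H, and A ≤ S a subgroup of order at least 3 acting quadratically on V ([V, A, A] = 1). Then |V/C_V(a)| ≥ p^n for every nonidentity a ∈ A. -/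
theorem result {G : Type*} [Group G] [Finite G] {p : ℕ} [Fact p.Prime] (V H : Subgroup G) (hV : Cfsg.IsElementaryAbelian p V) (hHV : H ≤ Subgroup.normalizer (V : Set G)) (hf : H ⊓ Subgroup.centralizer (V : Set G) = ⊥) {F : Type*} [Field F] [Fintype F] (n : ℕ) (hF : Fintype.card F = p ^ n) (hiso : Nonempty (↥H ≃* Matrix.SpecialLinearGroup (Fin 2) F)) (S : Sylow p ↥H) (T : Subgroup G) (hT : T = ((S : Subgroup ↥H).map H.subtype)) (A : Subgroup G) (hA : A ≤ T) (hA3 : 3 ≤ Nat.card A) (hquad : ⁅⁅V, A⁆, A⁆ = ⊥) : ∀ a ∈ A, a ≠ 1 → p ^ n ≤ ((V ⊓ Subgroup.centralizer ({a} : Set G))).relIndex V := by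
  obtain ⟨iso⟩ := hiso
  have hVp : IsPGroup p V := fun v => ⟨1, Subtype.ext (by simpa using hV.2 v v.2)⟩
  have hn0 : 1 ≤ n := by
    by_contra h
    have := Fintype.one_lt_card (α := F)
    rw [hF, show n = 0 by omega] at this
    simp at this
  have hcard : Nat.card F = p ^ n := by rw [Nat.card_eq_fintype_card, hF]
  have : CharP F p := by
    obtain ⟨c, hc⟩ := CharP.exists F
    obtain ⟨m, hcp, hm⟩ := FiniteField.card F c
    have h1 : p ∣ c ^ (m : ℕ) := hm ▸ hF.symm ▸ dvd_pow_self p (by omega)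
    rwa [(Nat.prime_dvd_prime_iff_eq Fact.out hcp).1 ((Fact.out : p.Prime).dvd_of_dvd_pow h1)]
  intro a ha ha1
  obtain ⟨u, hu, rfl⟩ : a ∈ (S : Subgroup ↥H).map H.subtype := hT ▸ hA ha
  have hu1 : u ≠ 1 := fun h => ha1 (by rw [h]; simp)
  rcases eq_or_ne p 2 with rfl | hp2
  · obtain ⟨i, hi⟩ := IsPGroup.iff_orderOf.1 S.isPGroup' ⟨u, hu⟩
    obtain ⟨h, -⟩ := CfsgLib.Amalgams.sl2_even_bound hn0 hcard hVp hHV hf (π := iso.toMonoidHom)
      iso.surjective (fun b hb => by
        rw [iso.injective (hb.trans (map_one iso).symm), orderOf_one]; exact odd_one) hu1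
      ⟨i, by rw [← hi]; exact (Subgroup.orderOf_coe (⟨u, hu⟩ : (S : Subgroup ↥H)))⟩
    exact (Nat.pow_le_pow_iff_left two_ne_zero).1 h
  -- odd characteristic
  have hqa : ∀ v ∈ V, ⁅⁅v, (u : G)⁆, (u : G)⁆ = 1 := by
    intro v hv
    rw [← Subgroup.mem_bot, ← hquad]
    exact Subgroup.commutator_mem_commutator (Subgroup.commutator_mem_commutator hv ha) ha
  have hqz : ⁅⁅V, Subgroup.zpowers (u : G)⁆, Subgroup.zpowers (u : G)⁆ = ⊥ :=
    CfsgLib.ThompsonJ.quadratic_zpowers_iff.2 hqa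
  have hup : (u : G) ^ p = 1 := by
    have hle : Subgroup.zpowers (u : G) ≤ H := by
      rw [Subgroup.zpowers_le]; exact u.2
    have h := (CfsgLib.ThompsonJ.quadratic_commutator_le hV (hle.trans hHV) hqz).2 _
      (Subgroup.mem_zpowers (u : G))
    rw [← Subgroup.mem_bot, ← hf]
    exact ⟨pow_mem u.2 p, h⟩
  have hxp : iso u ^ p = 1 := by
    rw [← map_pow, ← map_one iso]; congr 1; exact Subtype.ext hup
  have hx1 : iso u ≠ 1 := fun h => hu1 (iso.injective (h.trans (map_one iso).symm))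
  rcases Nat.lt_or_ge n 2 with hn1 | hn2
  · -- the field is prime
    obtain rfl : n = 1 := by omega
    obtain ⟨j, -, hj⟩ := (Nat.dvd_prime_pow (Fact.out : p.Prime)).1
      ((IsPGroup.iff_card.1 hVp).choose_spec ▸
        Subgroup.relIndex_dvd_card (V ⊓ Subgroup.centralizer ({H.subtype u} : Set G)) V)
    rw [hj]
    refine Nat.pow_le_pow_right (Fact.out : p.Prime).pos (Nat.one_le_iff_ne_zero.2 ?_)
    rintro rfl
    rw [pow_zero, Subgroup.relIndex_eq_one] at hj
    refine ha1 ?_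
    rw [← Subgroup.mem_bot, ← hf]
    exact ⟨u.2, fun v hv => Subgroup.mem_centralizer_singleton_iff.1 (hj hv).2⟩
  obtain ⟨y', hb, hw, hyc⟩ := CfsgLib.Amalgams.exists_braid_partner hp2 hxp hx1
  obtain ⟨y, rfl⟩ := iso.surjective y'
  have hb' : u * y * u = y * u * y := iso.injective (by simpa only [map_mul] using hb)
  set z : ↥H := u * y * u * (u * y * u) with hz
  have hzc : ∀ b : ↥H, b * z = z * b := fun b => iso.injective (by
    have : iso z = -1 := by simpa only [hz, map_mul] using hw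
    rw [map_mul iso b z, map_mul iso z b, this]
    simp)
  have hy : y = (u * y * u) * u * (u * y * u)⁻¹ := by
    rw [eq_mul_inv_iff_mul_eq]
    calc y * (u * y * u) = y * u * y * u := by group
      _ = u * y * u * u := by rw [← hb']
  have hiy : CfsgLib.Amalgams.fixIndex V (y : G) = CfsgLib.Amalgams.fixIndex V (u : G) := by
    rw [hy]; exact CfsgLib.Amalgams.fixIndex_conj (hHV (u * y * u).2) _
  have hqy : ∀ v ∈ V, ⁅⁅v, (y : G)⁆, (y : G)⁆ = 1 := by
    intro v hv
    set k : G := ((u * y * u : ↥H) : G) with hk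
    have hv' : k⁻¹ * v * k ∈ V := (Subgroup.mem_normalizer_iff''.1 (hHV (u * y * u).2) v).1 hv
    have e : (y : G) = k * (u : G) * k⁻¹ := congrArg Subtype.val hy
    calc ⁅⁅v, (y : G)⁆, (y : G)⁆ = k * ⁅⁅k⁻¹ * v * k, (u : G)⁆, (u : G)⁆ * k⁻¹ := by
          rw [e]; simp only [commutatorElement_def]; group
      _ = 1 := by rw [hqa _ hv']; group
  -- the fixed points of the central involution
  set K := V ⊓ Subgroup.centralizer ({(z : G)} : Set G) with hK
  have hKn : ∀ b : ↥H, (b : G) ∈ Subgroup.normalizer (K : Set G) := by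
    intro b
    refine CfsgLib.CoprimeAction.mem_normalizer_of_conj_mem fun v hv => ⟨?_, ?_⟩
    · exact (Subgroup.mem_normalizer_iff.1 (hHV b.2) v).1 hv.1
    · refine Subgroup.mem_centralizer_singleton_iff.2 ?_
      have hvz : Commute v (z : G) := Subgroup.mem_centralizer_singleton_iff.1 hv.2
      have hbz : Commute (b : G) (z : G) := congrArg Subtype.val (hzc b)
      exact ((hbz.mul_left hvz).mul_left hbz.inv_left).eq
  have hwK : ((u * y * u * (u * y * u) : ↥H) : G) ∈ Subgroup.centralizer (K : Set G) :=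
    fun v hv => Subgroup.mem_centralizer_singleton_iff.1 hv.2
  have hbK : ((u * y * u : ↥H) : G)⁻¹ * ((y * u * y : ↥H) : G) ∈
      Subgroup.centralizer (K : Set G) := by
    rw [hb', inv_mul_cancel]; exact Subgroup.one_mem _
  have hagree := CfsgLib.Amalgams.quadratic_braid_agree hp2
    (CfsgLib.ThompsonJ.isElementaryAbelian_mono hV inf_le_left) (hKn u) (hKn y)
    (fun v hv => hqa v hv.1) (fun v hv => hqy v hv.1) hbK hwK
  -- so all of `H` centralises `K`
  let C : Subgroup ↥H := (Subgroup.centralizer (K : Set G)).subgroupOf H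
  have hCn : C.Normal := ⟨fun c hc b => by
    intro v hv
    have hv' : (b : G)⁻¹ * v * b ∈ K := (Subgroup.mem_normalizer_iff''.1 (hKn b) v).1 hv
    have : (b : G)⁻¹ * v * b * (c : G) = c * ((b : G)⁻¹ * v * b) := hc _ hv'
    show v * (b * c * b⁻¹ : G) = (b * c * b⁻¹ : G) * v
    calc v * ((b : G) * c * (b : G)⁻¹) = b * ((b : G)⁻¹ * v * b * c) * (b : G)⁻¹ := by group
      _ = b * (c * ((b : G)⁻¹ * v * b)) * (b : G)⁻¹ := by rw [this]
      _ = (b : G) * c * (b : G)⁻¹ * v := by group⟩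
  have hmem : u * y⁻¹ ∈ C := by
    intro v hv
    show v * ((u : G) * (y : G)⁻¹) = (u : G) * (y : G)⁻¹ * v
    have hv' : (y : G)⁻¹ * v * y ∈ K := (Subgroup.mem_normalizer_iff''.1 (hKn y) v).1 hv
    have := hagree _ hv'
    calc v * ((u : G) * (y : G)⁻¹) =
          ((y : G) * ((y : G)⁻¹ * v * y) * (y : G)⁻¹) * ((u : G) * (y : G)⁻¹) := by group
      _ = ((u : G) * ((y : G)⁻¹ * v * y) * (u : G)⁻¹) * ((u : G) * (y : G)⁻¹) := by rw [← this]
      _ = (u : G) * (y : G)⁻¹ * v := by group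
  have hF4 : 4 ≤ Nat.card F := by
    rw [hcard]
    have := (Fact.out : p.Prime).two_le
    calc 4 = 2 ^ 2 := rfl
      _ ≤ p ^ 2 := Nat.pow_le_pow_left this 2
      _ ≤ p ^ n := Nat.pow_le_pow_right (by omega) hn2
  have : (C.map iso.toMonoidHom).Normal := hCn.map _ iso.surjective
  have hCtop : C.map iso.toMonoidHom = ⊤ := CfsgLib.Amalgams.normal_sl2_eq_top hF4
    (Subgroup.mem_map_of_mem _ hmem) (by simpa using hyc)
  obtain ⟨r, e, hr, hrp, hdvd, hmin⟩ :=
    CfsgLib.Amalgams.exists_primitive_power (p := p) Fact.out hn0 (Or.inr hn2)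
  have : Fact r.Prime := ⟨hr⟩
  obtain ⟨g', -, hg', -⟩ := CfsgLib.SL2.exists_torus_generator (F := F)
    (e := Nat.card F + 1) (Or.inr rfl) (by omega)
  obtain ⟨g, hgC, rfl⟩ := (hCtop.symm ▸ Subgroup.mem_top g' : g' ∈ C.map iso.toMonoidHom)
  have hord : r ^ (e + 1) ∣ orderOf (g : G) := by
    rw [Subgroup.orderOf_coe, ← MulEquiv.orderOf_eq iso g]
    exact (hcard ▸ hg' : orderOf (iso g) = p ^ n + 1) ▸ hdvd
  have h1 := CfsgLib.Amalgams.pow_le_fixIndex hVp hHV hf hrp g.2 hord hmin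
  have h2 : CfsgLib.Amalgams.fixIndex V (g : G) ≤
      CfsgLib.Amalgams.fixIndex V (u : G) * CfsgLib.Amalgams.fixIndex V (y : G) := by
    refine CfsgLib.Amalgams.fixIndex_le_mul_of_inf_le fun v hv => ?_
    have c1 : Commute v (u : G) := Subgroup.mem_centralizer_singleton_iff.1 hv.1.2
    have c2 : Commute v (y : G) := Subgroup.mem_centralizer_singleton_iff.1 hv.2
    have hvK : v ∈ K := ⟨hv.1.1, Subgroup.mem_centralizer_singleton_iff.2
      (((c1.mul_right c2).mul_right c1).mul_right ((c1.mul_right c2).mul_right c1)).eq⟩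
    exact Subgroup.mem_centralizer_singleton_iff.2 (hgC v hvK)
  rw [hiy] at h2
  exact (Nat.pow_le_pow_iff_left two_ne_zero).1 (by
    rw [← pow_mul, mul_comm n, sq]; exact h1.trans h2)

end Cfsg.Agent.S2788
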