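import Cfsg.Statements.S2793
import Cfsg.Agent.Lib.ZJFailure.Section
import Cfsg.Agent.Lib.ZJFailure.Borel
import Cfsg.Agent.Lib.ZJFailure.Eigen

set_option autoImplicit false
open Cfsg

namespace Cfsg.Agent.S2793

open CfsgLib.ZJFailure CfsgLib.ConjFunctor CfsgLib.NormalPComplement

open scoped IsMulCommutative

theorem involves_fOver_aux {G : Type*} [Group G] [Finite G] {p : ℕ} [Fact p.Prime] (hp : p ≠ 2)
    {S : Sylow p G} {H Q M₀ Z₀ Z₁ : Subgroup G} {c t v u x h : G} {e f : (ZMod p)ˣ}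
    (d : IsSectionData S Q M₀ Z₀ Z₁ c t v u x e f) (hQH : Q ≤ H) (hcH : c ∈ H) (hhH : h ∈ H)
    (hh : ∀ z ∈ Q, h * z * h⁻¹ = t * z * t⁻¹) :
    Cfsg.Involves ↥(Cfsg.fOver (ZMod p)) ↥H := by
  have hhN : h ∈ Subgroup.normalizer (Z₀ : Set G) := mem_normalizer_of_conj_le fun z hz => by
    rw [hh z (d.Z₁_le (d.Z₀_le hz))]
    exact conj_mem_of_normalizer d.t_norm hz
  obtain ⟨N, hN⟩ : ∃ N : Subgroup ↥H,
      N = (Subgroup.normalizer (Z₀ : Set G)).subgroupOf H := ⟨_, rfl⟩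
  let Z : Subgroup N := (Z₀.subgroupOf H).subgroupOf N
  haveI : Z.Normal := by
    refine Subgroup.normal_subgroupOf_of_le_normalizer fun k hk => ?_
    rw [hN] at hk
    exact mem_normalizer_of_conj_le fun z hz => Subgroup.mem_subgroupOf.2
      (conj_mem_of_normalizer (Subgroup.mem_subgroupOf.1 hk) (Subgroup.mem_subgroupOf.1 hz))
  let π : N →* N ⧸ Z := QuotientGroup.mk' Z
  have mk : ∀ {g : G}, g ∈ H → g ∈ Subgroup.normalizer (Z₀ : Set G) →
      ∃ k : N, ((k : H) : G) = g :=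
    fun {g} h1 h2 => ⟨⟨⟨g, h1⟩, by rw [hN]; exact h2⟩, rfl⟩
  obtain ⟨v', hv'⟩ := mk (hQH (d.Z₁_le d.v_mem)) (d.Z₁_norm d.v_mem)
  obtain ⟨u', hu'⟩ := mk (hQH (d.Z₁_le d.u_mem)) (d.Z₁_norm d.u_mem)
  obtain ⟨c', hc'⟩ := mk hcH d.c_norm
  obtain ⟨h', hh'⟩ := mk hhH hhN
  have heq : ∀ {k l : N}, ((k : H) : G)⁻¹ * ((l : H) : G) ∈ Z₀ → π k = π l :=
    fun h => QuotientGroup.eq.2 h
  have hone : ∀ {k : N}, π k = 1 ↔ ((k : H) : G) ∈ Z₀ := fun {k} =>
    QuotientGroup.eq_one_iff (N := Z) k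
  have hcv : π c' * π v' * (π c')⁻¹ = π v' := by
    rw [← map_inv, ← map_mul, ← map_mul]
    refine (heq ?_).symm
    simpa [hc', hv'] using d.c_v
  have hcu : π c' * π u' * (π c')⁻¹ = π v' * π u' := by
    rw [← map_inv, ← map_mul, ← map_mul, ← map_mul]
    refine (heq ?_).symm
    simpa [hc', hv', hu'] using d.c_u
  have hcomm : Commute (π v') (π u') := by
    show π v' * π u' = π u' * π v'
    rw [← map_mul, ← map_mul]
    refine heq ?_
    simpa [hv', hu'] using d.comm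
  refine CfsgLib.Amalgams.involves_of_involves_image π
    (involves_fOver_of_natural_pair hp (g := π c') (c := π h') (x := π v') (y := π u') hcomm
      ?_ ?_ ?_ ?_ hcv hcu d.e_gen ?_ ?_) (QuotientGroup.mk'_surjective Z)
  · rw [← map_pow, hone]
    simpa [hv'] using d.v_pow
  · rw [← map_pow, hone]
    simpa [hu'] using d.u_pow
  · rw [Ne, hone, hv']
    exact d.v_not
  · rintro ⟨i, hi⟩
    have h1 : π c' * π u' * (π c')⁻¹ = π u' := by
      rw [← hi]
      show π c' * π v' ^ i * (π c')⁻¹ = π v' ^ i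
      rw [← conj_zpow, hcv]
    rw [hcu, mul_eq_right, hone, hv'] at h1
    exact d.v_not h1
  · rw [← map_inv, ← map_mul, ← map_mul, ← map_pow]
    refine (heq ?_).symm
    simp only [Subgroup.coe_mul, Subgroup.coe_inv, SubmonoidClass.coe_pow, hh', hv',
      hh v (d.Z₁_le d.v_mem)]
    exact d.t_v
  · rw [← map_inv, ← map_mul, ← map_mul, ← map_pow]
    refine (heq ?_).symm
    simp only [Subgroup.coe_mul, Subgroup.coe_inv, SubmonoidClass.coe_pow, hh', hu',
      hh u (d.Z₁_le d.u_mem)]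
    exact d.t_u

theorem relIndex_eq_aux {G : Type*} [Group G] [Finite G] {p : ℕ} [Fact p.Prime] {H : Subgroup G}
    {y h : G} (hy : orderOf y = p) (hhH : h ∈ H) {f : (ZMod p)ˣ}
    (hf : ∀ z : (ZMod p)ˣ, z ∈ Subgroup.zpowers f) (hconj : h * y * h⁻¹ = y ^ (f : ZMod p).val) :
    (H ⊓ Subgroup.centralizer (Subgroup.zpowers y : Set G)).relIndex
      (H ⊓ Subgroup.normalizer (Subgroup.zpowers y : Set G)) = p - 1 := by
  obtain ⟨C, hC⟩ : ∃ C, C = Subgroup.zpowers y := ⟨_, rfl⟩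
  rw [← hC]
  have hCp : Nat.card C = p := by rw [hC, Nat.card_zpowers, hy]
  obtain ⟨N, hN⟩ : ∃ N, N = H ⊓ Subgroup.normalizer (C : Set G) := ⟨_, rfl⟩
  let φ : N →* MulAut C :=
    (Subgroup.normalizerMonoidHom C).comp (Subgroup.inclusion (hN ▸ inf_le_right))
  have hker : (H ⊓ Subgroup.centralizer (C : Set G)).subgroupOf N = φ.ker := by
    ext n
    have hn : (n : G) ∈ H := (hN.le n.2).1
    show (n : G) ∈ H ⊓ Subgroup.centralizer (C : Set G) ↔ _
    rw [MonoidHom.mem_ker, MonoidHom.comp_apply]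
    rw [← MonoidHom.mem_ker, Subgroup.normalizerMonoidHom_ker, Subgroup.mem_subgroupOf]
    exact ⟨fun h => h.2, fun h => ⟨hn, h⟩⟩
  have hcard : (H ⊓ Subgroup.centralizer (C : Set G)).relIndex N = Nat.card φ.range := by
    rw [Subgroup.relIndex, hker, Subgroup.index_ker]
  rw [← hN, hcard]
  haveI : IsCyclic C := hC ▸ inferInstance
  have hAut : Nat.card (MulAut C) = p - 1 := by
    rw [IsCyclic.card_mulAut, hCp, Nat.totient_prime Fact.out]
  refine le_antisymm ((Nat.card_le_card_of_injective φ.range.subtype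
    φ.range.subtype_injective).trans_eq hAut) ?_
  have hyC : y ∈ C := hC ▸ Subgroup.mem_zpowers y
  have hhN : h ∈ N := by
    rw [hN]
    refine ⟨hhH, mem_normalizer_of_conj_le fun z hz => ?_⟩
    rw [hC] at hz ⊢
    obtain ⟨i, rfl⟩ := hz
    show h * y ^ i * h⁻¹ ∈ _
    rw [← conj_zpow, hconj]
    exact zpow_mem (pow_mem (Subgroup.mem_zpowers y) _) i
  have hord : p - 1 ∣ orderOf (φ ⟨h, hhN⟩) := by
    rw [← ZMod.card_units p, ← Nat.card_eq_fintype_card,
      ← orderOf_eq_card_of_forall_mem_zpowers hf]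
    refine orderOf_dvd_of_pow_eq_one (Units.ext ?_)
    obtain ⟨n, hn⟩ : ∃ n, n = orderOf (φ ⟨h, hhN⟩) := ⟨_, rfl⟩
    rw [← hn, Units.val_pow_eq_pow_val, Units.val_one]
    have h1 := congrArg (fun a : MulAut C => ((a ⟨y, hyC⟩ : C) : G))
      (pow_orderOf_eq_one (φ ⟨h, hhN⟩))
    rw [← hn, ← map_pow] at h1
    change h ^ n * y * (h ^ n)⁻¹ = y at h1
    have hyp : y ^ p = 1 := hy ▸ pow_orderOf_eq_one y
    rw [conj_pow_eigen hyp hconj] at h1
    have h2 : (((f : ZMod p) ^ n).val : ZMod p) = ((1 : ℕ) : ZMod p) := by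
      rw [ZMod.natCast_eq_natCast_iff]
      have h3 := (pow_eq_pow_iff_modEq (x := y)).1 (h1.trans (pow_one y).symm)
      rwa [hy] at h3
    rwa [ZMod.natCast_zmod_val, Nat.cast_one] at h2
  have hle : orderOf (φ ⟨h, hhN⟩) ∣ Nat.card φ.range :=
    Subgroup.orderOf_dvd_natCard _ ⟨_, rfl⟩
  exact Nat.le_of_dvd Nat.card_pos (hord.trans hle)

/-- Let p be an odd prime, S a Sylow p-subgroup of the finite group G, J(S) the subgroup generated by the abelian subgroups of S of largest order, and suppose Z(J(S)) does not control strong fusion in G. Put H = N_G(Z(J(S))). Then the group F(p) of upper triangular 3 × 3 matrices (a b c; 0 a⁻¹ d; 0 0 1) over the field with p elements is involved in H, and Z(J(S)) contains a subgroup C of order p with |N_H(C) : C_H(C)| = p − 1. -/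
theorem result {G : Type*} [Group G] [Finite G] {p : ℕ} [Fact p.Prime] (hp : p ≠ 2) (S : Sylow p G) (h : ¬ Cfsg.ControlsStrongFusion p (Cfsg.centerThompsonAOf (S : Subgroup G))) (H : Subgroup G) (hH : H = Subgroup.normalizer ((Cfsg.centerThompsonAOf (S : Subgroup G)) : Set G)) : Cfsg.Involves ↥(Cfsg.fOver (ZMod p)) ↥H ∧ ∃ C : Subgroup G, C ≤ (Cfsg.centerThompsonAOf (S : Subgroup G)) ∧ Nat.card C = p ∧ (H ⊓ Subgroup.centralizer (C : Set G)).relIndex (H ⊓ Subgroup.normalizer (C : Set G)) = p - 1 := by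
  subst hH
  obtain ⟨A, g, hAS, hgA, hbad⟩ : ∃ (A : Set G) (g : G), A ⊆ (S : Subgroup G) ∧
      (fun a => g * a * g⁻¹) '' A ⊆ (S : Subgroup G) ∧
      ¬ Rl (Subgroup.normalizer (centerThompsonAOf (S : Subgroup G) : Set G)) g
        (Subgroup.closure A) := by
    by_contra hnone
    refine h ⟨S, zj_le S, fun A hA => ⟨hA, fun g hg => ?_⟩⟩
    by_contra hno
    refine hnone ⟨A, g, hA, hg, fun ⟨k, hk, hk'⟩ => hno ⟨k, hk, fun a ha => ?_⟩⟩
    exact (hk' a (Subgroup.subset_closure ha)).symm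
  obtain ⟨M, Q, F⟩ := exists_isLocalFailure S (normalizer_sylow_le_zj S)
    ((Subgroup.closure_le _).2 hAS) (cj_closure_le_iff.2 hgA) hbad
  obtain ⟨B, E, a, dt⟩ := exists_isQuadDatum hp F
  obtain ⟨Z₀, Z₁, c, t, v, u, x, e, f, d⟩ := exists_sectionData hp F dt
  obtain ⟨k, hk, hk'⟩ := d.t_mem.2
  refine ⟨involves_fOver_aux hp d (F.le_sylow.trans (sylow_le_normalizer_zj S))
    (sylow_le_normalizer_zj S d.c_mem) hk hk', ?_⟩
  obtain ⟨W, hW⟩ : ∃ W, W = centerThompsonAOf (S : Subgroup G) := ⟨_, rfl⟩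
  haveI hab : IsMulCommutative ↥(W ⊓ Z₁) := isMulCommutative_iff_le_centralizer.2 fun y hy z hz => by
    rw [hW] at hy hz
    exact commute_zj hz.1 hy.1
  have htA : t ∈ Subgroup.normalizer ((W ⊓ Z₁ : Subgroup G) : Set G) := by
    refine mem_normalizer_of_conj_le fun z hz => ⟨?_, conj_mem_of_normalizer d.t_norm' hz.2⟩
    rw [← hk' z (d.Z₁_le hz.2), hW]
    exact conj_mem_of_normalizer hk (hW ▸ hz.1)
  obtain ⟨y, hyA, hy, hty⟩ := exists_eigen_of_mod (A := W ⊓ Z₁) (Z := Z₀)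
    (S.2.to_le (inf_le_right.trans (d.Z₁_le.trans F.le_sylow))) d.t_coprime htA d.t_norm
    ⟨hW ▸ d.x_mem, d.x_mem'⟩ d.x_not d.x_pow d.t_x
  refine ⟨Subgroup.zpowers y, Subgroup.zpowers_le.2 (hW ▸ hyA.1), by rw [Nat.card_zpowers, hy],
    relIndex_eq_aux hy hk d.f_gen ?_⟩
  rw [hk' y (d.Z₁_le hyA.2)]
  exact hty

end Cfsg.Agent.S2793
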