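import Cfsg.Statements.S2796
import Cfsg.Agent.Lib.SFourStep.Factor
import Cfsg.Agent.S1997

set_option autoImplicit false
universe u
open Cfsg

namespace Cfsg.Agent.S2796

/-- The functor `Ω₁(Z(Ĵ))`. -/
def omegaJHat (Q : Type u) [Group Q] : Subgroup Q :=
  Cfsg.omegaOne 2 (Cfsg.jHat Q ⊓ Subgroup.centralizer (Cfsg.jHat Q : Set Q))

open CfsgLib.SFourStep CfsgLib.ThompsonJ in
/-- The induced functor. -/
theorem functor_eq {G : Type u} [Group G] (K : Subgroup G) :
    Cfsg.inducedFunctor omegaJHat.{u} K = omegaEGen K := by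
  rw [Cfsg.inducedFunctor, omegaJHat, map_omegaOne K.subtype_injective,
    CfsgLib.ThompsonJ.map_inf_centralizer K.subtype_injective, map_jHat, omegaEGen]

open CfsgLib.SFourStep CfsgLib.ThompsonJ in
theorem isCharPFunctor_omegaEGen :
    Cfsg.IsCharPFunctor.{u} 2 omegaJHat.{u} := by
  haveI : Fact (Nat.Prime 2) := ⟨Nat.prime_two⟩
  refine ⟨fun Q _ _ hQ hnt => ?_, fun Q R _ _ _ hQ φ => ?_⟩
  · have hsub : Cfsg.thompsonSubgroup 2 Q ≤ Cfsg.jHat Q := by
      refine le_sSup ⟨?_, le_rfl⟩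
      have := isEGroup_thompson (⊤ : Subgroup Q)
      rwa [thompsonSubgroupOf_top] at this
    have hd : 2 ∣ Nat.card Q := by
      obtain ⟨n, hn⟩ := IsPGroup.iff_card.1 hQ
      rw [hn]
      refine dvd_pow_self 2 fun h0 => ?_
      rw [h0, pow_zero] at hn
      exact absurd hn (Finite.one_lt_card (α := Q)).ne'
    have hne : Cfsg.jHat Q ≠ ⊥ := fun h =>
      thompsonSubgroup_ne_bot (p := 2) (G := Q) hd (le_bot_iff.1 (h ▸ hsub))
    set J := Cfsg.jHat Q with hJ
    rw [omegaJHat, ← hJ]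
    refine omegaOne_ne_bot ?_
    have hJp : IsPGroup 2 J := hQ.to_subgroup J
    haveI : Nontrivial J := (Subgroup.nontrivial_iff_ne_bot J).2 hne
    haveI := hJp.center_nontrivial
    obtain ⟨⟨x, hx⟩, hx1⟩ := exists_ne (1 : Subgroup.center J)
    have hxc : (x : Q) ∈ J ⊓ Subgroup.centralizer (J : Set Q) :=
      ⟨x.2, Subgroup.mem_centralizer_iff.2 fun y hy =>
        congrArg Subtype.val (Subgroup.mem_center_iff.1 hx ⟨y, hy⟩)⟩
    obtain ⟨n, hn⟩ := IsPGroup.iff_card.1 (hQ.to_subgroup (J ⊓ Subgroup.centralizer (J : Set Q)))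
    rw [hn]
    refine dvd_pow_self 2 fun h0 => ?_
    rw [h0, pow_zero, Subgroup.card_eq_one] at hn
    rw [hn, Subgroup.mem_bot] at hxc
    exact hx1 (Subtype.ext (Subtype.ext hxc))
  · have e : ∀ (P : Type u) [Group P], omegaJHat P = omegaEGen (⊤ : Subgroup P) := by
      intro P _
      have hj : eGen (⊤ : Subgroup P) = Cfsg.jHat P := by
        rw [eGen, Cfsg.jHat, thompsonSubgroupOf_top]
        simp
      rw [omegaJHat, omegaEGen, hj]
    rw [e, e, map_omegaEGen φ.injective, Subgroup.map_top_of_surjective _ φ.surjective]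

/-- The normalizer of `Ĵ` normalises `Ω₁(Z(Ĵ))`. -/
theorem normalizer_eGen_le {G : Type u} [Group G] (K : Subgroup G) :
    Subgroup.normalizer (CfsgLib.SFourStep.eGen K : Set G) ≤
      Subgroup.normalizer (CfsgLib.SFourStep.omegaEGen K : Set G) := by
  intro g hg
  have hinj : Function.Injective (MulAut.conj g).toMonoidHom := (MulAut.conj g).injective
  rw [Subgroup.mem_normalizer_iff_map_conj_eq] at hg ⊢
  show (CfsgLib.SFourStep.omegaEGen K).map (MulAut.conj g).toMonoidHom = _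
  rw [CfsgLib.SFourStep.omegaEGen, CfsgLib.ThompsonJ.map_omegaOne hinj,
    CfsgLib.ThompsonJ.map_inf_centralizer hinj]
  exact congrArg (fun X : Subgroup G => Cfsg.omegaOne 2 (X ⊓ Subgroup.centralizer (X : Set G))) hg

/-- Let G be a finite group in which the symmetric group of degree 4 is not involved, such that for every section K/R of G with C(O₂(K/R)) ≤ O₂(K/R) every non-abelian composition factor of K/R is a Suzuki group Sz(2^(2n+1)) or PSL₂ over a field with 3^(2n+1) elements. Let S be a Sylow 2-subgroup, J_e(S) the subgroup generated by its elementary abelian subgroups of largest order, and A the normal closure of Ω₁(Z(S)) in N_G(J_e(S)). Then A is an elementary abelian subgroup of S, strongly closed in S with respect to G, and A controls strong fusion in G. -/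
theorem result {G : Type u} [Group G] [Finite G] (hfree : ¬ Cfsg.Involves (Equiv.Perm (Fin 4)) G) (hsec : ∀ (K R : Subgroup G) [hR : (R.subgroupOf K).Normal], Subgroup.centralizer (Cfsg.pCore 2 (K ⧸ R.subgroupOf K) : Set (K ⧸ R.subgroupOf K)) ≤ Cfsg.pCore 2 (K ⧸ R.subgroupOf K) → Cfsg.IsCompositionKGroupWith Cfsg.IsSuzukiOrPSL2OddPowerThree (K ⧸ R.subgroupOf K)) (S : Sylow 2 G) (N : Subgroup G) (hN : N = Subgroup.normalizer (Cfsg.thompsonSubgroupOf 2 (S : Subgroup G) : Set G)) (A : Subgroup G) (hA : A = (Subgroup.normalClosure (((Cfsg.omegaOne 2 ((S : Subgroup G) ⊓ Subgroup.centralizer ((S : Subgroup G) : Set G))).subgroupOf N : Subgroup ↥N) : Set ↥N)).map N.subtype) : A ≤ S ∧ Cfsg.IsElementaryAbelian 2 A ∧ Cfsg.IsStronglyClosed A (S : Subgroup G) ∧ Cfsg.ControlsStrongFusion 2 A := by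
  have hW1 : Cfsg.IsCharPFunctor.{u} 2 (fun (Q : Type u) [Group Q] => Cfsg.thompsonSubgroup 2 Q) := by
    haveI : Fact (Nat.Prime 2) := ⟨Nat.prime_two⟩
    refine ⟨fun Q _ _ hQ hnt => ?_, fun Q R _ _ _ _ φ =>
      CfsgLib.ThompsonJ.map_thompsonSubgroup_equiv φ⟩
    refine CfsgLib.ThompsonJ.thompsonSubgroup_ne_bot ?_
    obtain ⟨n, hn⟩ := IsPGroup.iff_card.1 hQ
    rw [hn]
    refine dvd_pow_self 2 fun h0 => ?_
    rw [h0, pow_zero] at hn
    exact absurd hn (Finite.one_lt_card (α := Q)).ne'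
  haveI : Fact (Nat.Prime 2) := ⟨Nat.prime_two⟩
  refine Cfsg.Agent.S1997.result S (fun (Q : Type u) [Group Q] => Cfsg.thompsonSubgroup 2 Q) omegaJHat.{u} hW1 isCharPFunctor_omegaEGen ?_ ?_ N hN A hA
  · intro K R hR hc T
    obtain ⟨h1, h2, h3⟩ := CfsgLib.SFourStep.two_factorisation
      (CfsgLib.SFourStep.restrictedFactors_of_composition (hsec K R hc))
      (CfsgLib.SFourFree.not_involves_quotient
        (CfsgLib.SFourStep.not_involves_subgroup_four hfree K) (R.subgroupOf K)) hc T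
    simp only [functor_eq]
    refine ⟨fun x => ?_, fun x => ?_, fun x => ?_⟩
    · obtain ⟨a, ha, b, hb, hab⟩ := h1 x
      exact ⟨a, Subgroup.centralizer_le (CfsgLib.ThompsonJ.omegaOne_le 2 _) ha, b, hb, hab⟩
    · obtain ⟨a, ha, b, hb, hab⟩ := h2 x
      refine ⟨a, Subgroup.centralizer_le (CfsgLib.ThompsonJ.omegaOne_le 2 _) ha, b, ?_, hab⟩
      exact normalizer_eGen_le _ hb
    · obtain ⟨a, ha, b, hb, hab⟩ := h3 x⁻¹
      refine ⟨b⁻¹, Subgroup.inv_mem _ hb, a⁻¹,
        Subgroup.inv_mem _ (Subgroup.centralizer_le_normalizer _ ha), ?_⟩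
      rw [← mul_inv_rev, ← hab, inv_inv]
  · simp only [functor_eq]
    refine le_inf ((CfsgLib.ThompsonJ.omegaOne_center_le (S : Subgroup G)).trans
      ((CfsgLib.ThompsonJ.omegaOne_le 2 _).trans inf_le_left)) ?_
    refine CfsgLib.ThompsonJ.le_omegaOne (CfsgLib.ThompsonJ.isElementaryAbelian_omegaOne
      (CfsgLib.ThompsonJ.inf_centralizer_le_centralizer_self _)) (le_inf ?_ ?_)
    · exact ((CfsgLib.ThompsonJ.omegaOne_center_le (S : Subgroup G)).trans
        ((CfsgLib.ThompsonJ.omegaOne_le 2 _).trans inf_le_left)).trans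
        (CfsgLib.SFourStep.thompson_le_eGen _)
    · exact ((CfsgLib.ThompsonJ.omegaOne_le 2 _).trans inf_le_right).trans
        (Subgroup.centralizer_le (CfsgLib.SFourStep.eGen_le _))

end Cfsg.Agent.S2796
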