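import Cfsg.Statements.S2856
import Cfsg.Agent.Lib.LargeSubgroups.AmalgamVIter
-- import your own Cfsg.Agent.* helpers here

set_option autoImplicit false
open Cfsg

namespace Cfsg.Agent.S2856

/-- Let (M₁, M₂) be an amalgam pair in X satisfying the rank-two standing hypothesis (characteristic p, the normalizers in M₁ and in M₂ of a Sylow p-subgroup of M₁ ∩ M₂ equal and contained in M₁ ∩ M₂, and strongly p-embedded residues), λ a vertex of the coset graph, L_λ the subgroup of its stabilizer generated by the p-elements, Q_λ = O_p of the stabilizer, O^p(L_λ) the subgroup of L_λ generated by its elements of order prime to p, and V_λ^{(k)} the subgroup generated by the Z_μ over the vertices μ at distance at most k from λ (Z_μ being generated by the Ω₁(Z(S)), S a Sylow p-subgroup of the stabilizer of μ). If n ≥ 1 and V_λ^{(n)} ≤ Q_λ, then O^p(L_λ) does not centralize V_λ^{(n)}/[V_λ^{(n)}, Q_λ], that is, [V_λ^{(n)}, O^p(L_λ)] is not contained in [V_λ^{(n)}, Q_λ]. -/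
theorem result {X : Type*} [Group X] {p : ℕ} [Fact p.Prime] (M₁ M₂ : Subgroup X) (h : Cfsg.IsSpeAmalgamPair p M₁ M₂) (lam : Cfsg.CosetVertex M₁ M₂) (n : ℕ) (hn : 1 ≤ n) (V : Subgroup X) (hV : V = Cfsg.vertexVIter p M₁ M₂ n lam) (hVQ : V ≤ Cfsg.vertexQ p lam) : ¬ ⁅V, ((Cfsg.pResidual p ↥(Cfsg.pElementClosure p (MulAction.stabilizer X lam))).map (Cfsg.pElementClosure p (MulAction.stabilizer X lam)).subtype)⁆ ≤ ⁅V, Cfsg.vertexQ p lam⁆ := by
  obtain ⟨m, rfl⟩ : ∃ m, n = m + 1 := ⟨n - 1, by omega⟩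
  subst hV
  intro hle
  obtain ⟨μ, hμ⟩ := CfsgLib.Amalgams.exists_adj lam
  haveI := CfsgLib.Amalgams.finite_stabilizer h.1 lam
  haveI : Finite ↥(Cfsg.vertexQ p lam) :=
    Finite.of_injective _ (Subgroup.inclusion_injective (CfsgLib.Amalgams.pCoreOf_le _))
  haveI : Group.IsNilpotent ↥(Cfsg.vertexQ p lam) :=
    ((CfsgLib.Cores.isPGroup_pCore p _).map _).isNilpotent (p := p)
  refine CfsgLib.LargeSubgroups.vertexVIter_false h hμ hVQ ?_
  exact CfsgLib.LargeSubgroups.le_of_le_sup_commutator hVQ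
    (CfsgLib.LargeSubgroups.vertexVIter_mono_adj h.1.1.1 hμ m)
    ((CfsgLib.Amalgams.vertexQ_le_edgeStabilizer h.1 hμ).trans
      (inf_le_right.trans (CfsgLib.LargeSubgroups.le_normalizer_vertexVIter h.1.1.1 m μ)))
    (CfsgLib.LargeSubgroups.vertexVIter_le_sup h hμ hle)

end Cfsg.Agent.S2856
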