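import Cfsg.Statements.S2941
import Mathlib
-- import your own Cfsg.Agent.* helpers here

set_option autoImplicit false
open Cfsg

namespace Cfsg.Agent.S2941

/-- Let G be a finite group of characteristic 2 type in which every 2-local subgroup is solvable and the centralizer of Ω₁(Z(S)) lies in N_G(S) for every Sylow 2-subgroup S, and let T be a nontrivial 2-subgroup and K a J(T)-component (J the Thompson subgroup generated by the elementary abelian 2-subgroups of largest order). If a subgroup Q is normalized by ⟨K, J(T)⟩ and normalizes J(T), then Q normalizes K. -/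
theorem result {G : Type*} [Group G] [Finite G] (hL : Cfsg.IsCharacteristicTwoType G) (hN : ∀ N : Subgroup G, Cfsg.IsTwoLocal N → Group.IsSolvable ↥N)
    (hZ : ∀ S : Sylow 2 G, Subgroup.centralizer (Cfsg.omegaCenterOf (S : Subgroup G) : Set G) ≤ Subgroup.normalizer ((S : Subgroup G) : Set G)) (T : Subgroup G) (hT : IsPGroup 2 ↥T) (hT1 : T ≠ ⊥) (K : Subgroup G) (hK : Cfsg.IsJComponent T K)
    (Q : Subgroup G) (hQ1 : K ⊔ Cfsg.thompsonSubgroupOf 2 T ≤ Subgroup.normalizer (Q : Set G)) (hQ2 : Q ≤ Subgroup.normalizer (Cfsg.thompsonSubgroupOf 2 T : Set G)) :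
    Q ≤ Subgroup.normalizer (K : Set G) := by
  open scoped commutatorElement in
  set J := Cfsg.thompsonSubgroupOf 2 T with hJ
  set H := K ⊔ J with hH
  obtain ⟨hgen, hKJ, -⟩ := hK
  -- `K` is normalized by `J`, hence normal in `H`
  have hHK : H ≤ Subgroup.normalizer (K : Set G) := by
    refine sup_le Subgroup.le_normalizer ?_
    intro j hj
    have key : ∀ j ∈ J, ∀ k ∈ K, j * k * j⁻¹ ∈ K := by
      intro j hj k hk
      have h1 : ⁅j, k⁆ ∈ ⁅K, J⁆ := by
        rw [← commutatorElement_inv]
        exact inv_mem (Subgroup.commutator_mem_commutator hk hj)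
      rw [hKJ, commutatorElement_def] at h1
      simpa [mul_assoc] using mul_mem h1 hk
    exact Subgroup.mem_normalizer_iff.2 fun k => ⟨key j hj k, fun hk => by
      simpa [mul_assoc] using key j⁻¹ (inv_mem hj) _ hk⟩
  -- `Q` normalizes `H`
  have hcomm : ∀ q ∈ Q, ∀ h ∈ H, q * h * q⁻¹ ∈ H ⊓ Subgroup.normalizer (K : Set G) := by
    intro q hq h hh
    have : q * h * q⁻¹ ∈ H := by
      let S : Subgroup G :=
        { carrier := {h | h ∈ H ∧ ∀ q ∈ Q, q * h * q⁻¹ * h⁻¹ ∈ H}
          one_mem' := ⟨one_mem _, fun q _ => by simp⟩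
          mul_mem' := by
            rintro a b ⟨ha, ha'⟩ ⟨hb, hb'⟩
            refine ⟨mul_mem ha hb, fun q hq => ?_⟩
            have := mul_mem (mul_mem (mul_mem (ha' q hq) ha) (hb' q hq)) (inv_mem ha)
            simpa [mul_assoc] using this
          inv_mem' := by
            rintro a ⟨ha, ha'⟩
            refine ⟨inv_mem ha, fun q hq => ?_⟩
            have := mul_mem (mul_mem (inv_mem ha) (inv_mem (ha' q hq))) ha
            simpa [mul_assoc] using this }
      have hJS : J ≤ S := fun j hj => ⟨le_sup_right (a := K) hj, fun q hq =>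
        le_sup_right (a := K) (mul_mem ((Subgroup.mem_normalizer_iff.1 (hQ2 hq) j).1 hj) (inv_mem hj))⟩
      have hKS : K ≤ S := by
        rw [← hKJ]
        refine Subgroup.closure_le _ |>.2 ?_
        rintro _ ⟨k, hk, j, hj, rfl⟩
        have hkH : k ∈ H := le_sup_left (b := J) hk
        have hjH : j ∈ H := le_sup_right (a := K) hj
        refine ⟨mul_mem (mul_mem (mul_mem hkH hjH) (inv_mem hkH)) (inv_mem hjH), fun q hq => ?_⟩
        have hqk : k⁻¹ * q * k ∈ Q := by
          simpa using (Subgroup.mem_normalizer_iff.1 (hQ1 (inv_mem hkH)) q).1 hq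
        have hJc : ∀ u ∈ Q, ∀ j ∈ J, u * j * u⁻¹ ∈ H := fun u hu j hj =>
          le_sup_right (a := K) ((Subgroup.mem_normalizer_iff.1 (hQ2 hu) j).1 hj)
        have := mul_mem (mul_mem (mul_mem (mul_mem hkH (hJc _ hqk j hj)) (inv_mem hkH))
          (inv_mem (hJc q hq j hj))) (mul_mem (mul_mem hjH hkH) (mul_mem (inv_mem hjH) (inv_mem hkH)))
        simpa [commutatorElement_def, mul_assoc] using this
      have h2 : h ∈ S := sup_le hKS hJS hh
      simpa [mul_assoc] using mul_mem (h2.2 q hq) hh
    exact ⟨this, hHK this⟩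
  -- elements of odd order of `H` lie in `K`
  have hodd : ∀ h ∈ H, Odd (orderOf h) → h ∈ K := by
    intro h hh ho
    have hJ2 : IsPGroup 2 ↥J := hT.to_le (Subgroup.map_subtype_le _)
    have hJK : J ≤ Subgroup.normalizer (K : Set G) := le_sup_right.trans hHK
    have hh' : h ∈ ((J ⊔ K : Subgroup G) : Set G) := by rw [sup_comm]; exact hh
    rw [Subgroup.coe_mul_of_left_le_normalizer_right J K hJK] at hh'
    obtain ⟨j, hj, k, hk, hjk⟩ := hh'
    obtain ⟨n, hn⟩ := hJ2 ⟨j, hj⟩
    have hjn : j ^ 2 ^ n = 1 := by simpa using congrArg Subtype.val hn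
    have hpow : ∀ m : ℕ, (j * k) ^ m * (j ^ m)⁻¹ ∈ K := by
      intro m
      induction m with
      | zero => simp
      | succ m ih =>
        have h1 : j ^ (m + 1) * k * (j ^ (m + 1))⁻¹ ∈ K :=
          (Subgroup.mem_normalizer_iff.1 (pow_mem (hJK hj) (m + 1)) k).1 hk
        have : (j * k) ^ (m + 1) * (j ^ (m + 1))⁻¹ =
            ((j * k) ^ m * (j ^ m)⁻¹) * (j ^ (m + 1) * k * (j ^ (m + 1))⁻¹) := by
          simp [pow_succ, mul_assoc]
        rw [this]
        exact mul_mem ih h1
    have h2 : h ^ 2 ^ n ∈ K := by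
      have := hpow (2 ^ n)
      rwa [hjn, inv_one, mul_one, show j * k = h from hjk] at this
    have hco : (2 ^ n).Coprime (orderOf h) := (Nat.coprime_two_left.2 ho).pow_left n
    obtain ⟨m, hm⟩ := exists_pow_eq_self_of_coprime hco
    rw [← hm]
    exact pow_mem h2 m
  intro q hq
  have key : ∀ q ∈ Q, ∀ k ∈ K, q * k * q⁻¹ ∈ K := by
    intro q hq k hk
    have hle : K ≤ K.comap (MulAut.conj q).toMonoidHom := by
      conv_lhs => rw [← hgen]
      refine (Subgroup.closure_le _).2 fun g hg => ?_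
      refine hodd _ (hcomm q hq g (le_sup_left (b := J) hg.1)).1 ?_
      rw [orderOf_injective (MulAut.conj q).toMonoidHom (MulAut.conj q).injective g]
      exact hg.2
    exact hle hk
  exact Subgroup.mem_normalizer_iff.2 fun k => ⟨key q hq k, fun hk => by
    simpa [mul_assoc] using key q⁻¹ (inv_mem hq) _ hk⟩

end Cfsg.Agent.S2941
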