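import Cfsg.Statements.S2943
import Cfsg.Agent.Lib.JComponents.LocalComp
import Cfsg.Agent.Lib.JComponents.Conj
-- import your own Cfsg.Agent.* helpers here

set_option autoImplicit false
open Cfsg

namespace Cfsg.Agent.S2943

/-- Let G be a finite group of characteristic 2 type in which every 2-local subgroup is solvable and the centralizer of Ω₁(Z(S)) lies in N_G(S) for every Sylow 2-subgroup S, and let T be a nontrivial 2-subgroup (below, J is the Thompson subgroup generated by the elementary abelian 2-subgroups of largest order), L a subgroup in which T is a Sylow 2-subgroup with J(T) not contained in O₂(L) and C_G(O₂(L)) ≤ O₂(L), and K a J(T)-component contained in L. If Z(T) meets W_K = [Ω₁(Z(O₂(K))), K] nontrivially, then T normalizes K. -/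
theorem result {G : Type*} [Group G] [Finite G] (hL : Cfsg.IsCharacteristicTwoType G) (hN : ∀ N : Subgroup G, Cfsg.IsTwoLocal N → Group.IsSolvable ↥N)
    (hZ : ∀ S : Sylow 2 G, Subgroup.centralizer (Cfsg.omegaCenterOf (S : Subgroup G) : Set G) ≤ Subgroup.normalizer ((S : Subgroup G) : Set G)) (T : Subgroup G) (hT : IsPGroup 2 ↥T) (hT1 : T ≠ ⊥) (L : Subgroup G) (hLT : L ∈ Cfsg.jOvergroups T)
    (K : Subgroup G) (hK : Cfsg.IsJComponent T K) (hKL : K ≤ L)
    (hZW : T ⊓ Subgroup.centralizer (T : Set G) ⊓ Cfsg.wOf K ≠ ⊥) : T ≤ Subgroup.normalizer (K : Set G) := by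
  intro t ht
  rw [Subgroup.mem_normalizer_iff_map_conj_eq]
  have hTt : T.map (MulAut.conj t).toMonoidHom = T :=
    Subgroup.mem_normalizer_iff_map_conj_eq.1 (Subgroup.le_normalizer ht)
  have hK' : Cfsg.IsJComponent T (K.map (MulAut.conj t).toMonoidHom) := by
    have h := CfsgLib.JComponents.IsJComponent_conj hK t
    rwa [hTt] at h
  have htL : t ∈ L := hLT.1.1 ht
  have hK'L : K.map (MulAut.conj t).toMonoidHom ≤ L := by
    rintro _ ⟨k, hk, rfl⟩
    exact L.mul_mem (L.mul_mem htL (hKL hk)) (L.inv_mem htL)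
  refine CfsgLib.JComponents.component_eq_of_wOf ⟨hL, hN, hZ⟩ hT hT1 hLT hK' hK'L hK hKL ?_
  obtain ⟨z, hz, hz1⟩ := (Subgroup.bot_or_exists_ne_one _).resolve_left hZW
  intro hbot
  refine hz1 (Subgroup.mem_bot.1 (hbot ▸ Subgroup.mem_inf.2 ⟨?_, hz.2⟩))
  show z ∈ Cfsg.wOf (Subgroup.map (MulAut.conj t).toMonoidHom K)
  rw [← CfsgLib.JComponents.map_wOf]
  refine ⟨z, hz.2, ?_⟩
  show t * z * t⁻¹ = z
  rw [Subgroup.mem_centralizer_iff.1 hz.1.2 t ht, mul_inv_cancel_right]

end Cfsg.Agent.S2943
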