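import Cfsg.Statements.S2946
import Cfsg.Agent.Lib.JComponents.Component
-- import your own Cfsg.Agent.* helpers here

set_option autoImplicit false
open Cfsg

namespace Cfsg.Agent.S2946

/-- Let G be a finite group of characteristic 2 type in which every 2-local subgroup is solvable and the centralizer of Ω₁(Z(S)) lies in N_G(S) for every Sylow 2-subgroup S, and let T be a nontrivial 2-subgroup (below, J is the Thompson subgroup generated by the elementary abelian 2-subgroups of largest order), K a J(T)-component and Z₀ = Ω₁(Z(J(T))). Then Z₀ meets W_K = [Ω₁(Z(O₂(K))), K] in a subgroup of order 2, and Z₀ is the product of Z₀ ∩ Z(⟨K, J(T)⟩) and Z₀ ∩ W_K. -/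
theorem result {G : Type*} [Group G] [Finite G] (hL : Cfsg.IsCharacteristicTwoType G) (hN : ∀ N : Subgroup G, Cfsg.IsTwoLocal N → Group.IsSolvable ↥N)
    (hZ : ∀ S : Sylow 2 G, Subgroup.centralizer (Cfsg.omegaCenterOf (S : Subgroup G) : Set G) ≤ Subgroup.normalizer ((S : Subgroup G) : Set G)) (T : Subgroup G) (hT : IsPGroup 2 ↥T) (hT1 : T ≠ ⊥) (K : Subgroup G) (hK : Cfsg.IsJComponent T K)
    (Z₀ : Subgroup G) (hZ₀ : Z₀ = Cfsg.omegaCenterOf (Cfsg.thompsonSubgroupOf 2 T)) :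
    Nat.card ↥(Z₀ ⊓ Cfsg.wOf K) = 2 ∧
      (Z₀ ⊓ ((K ⊔ Cfsg.thompsonSubgroupOf 2 T) ⊓ Subgroup.centralizer ((K ⊔ Cfsg.thompsonSubgroupOf 2 T) : Set G))) ⊔ (Z₀ ⊓ Cfsg.wOf K) = Z₀ := by
  subst hZ₀
  obtain ⟨w, hw, hw1, hwZ, hmeet, hdec⟩ := CfsgLib.JComponents.comp_center hK hT
  have hww : w * w = 1 := CfsgLib.JComponents.wOf_sq hK w hw
  refine ⟨?_, le_antisymm (sup_le inf_le_left inf_le_left) fun z hz => ?_⟩
  · have heq : Cfsg.omegaCenterOf (Cfsg.thompsonSubgroupOf 2 T) ⊓ Cfsg.wOf K = Subgroup.zpowers w := by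
      refine le_antisymm (fun z hz => ?_) (Subgroup.zpowers_le.2 ⟨hwZ, hw⟩)
      rcases hmeet z hz.1 hz.2 with rfl | rfl
      · exact one_mem _
      · exact Subgroup.mem_zpowers _
    rw [heq, Nat.card_zpowers, orderOf_eq_prime (by rw [pow_two, hww]) hw1]
  obtain ⟨u, hu, huY, hzu⟩ := hdec z hz
  have hmem : u ∈ (K ⊔ Cfsg.thompsonSubgroupOf 2 T) ⊓
      Subgroup.centralizer ((K : Set G) ⊔ (Cfsg.thompsonSubgroupOf 2 T : Set G)) :=
    ⟨(le_sup_right : Cfsg.thompsonSubgroupOf 2 T ≤ K ⊔ Cfsg.thompsonSubgroupOf 2 T)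
      (CfsgLib.JComponents.omegaCenterOf_le _ hu), Subgroup.mem_centralizer_iff.2 fun y hy => huY y
      ((Set.mem_union _ _ _).1 hy |>.elim (fun h => Subgroup.mem_sup_left h) (fun h => Subgroup.mem_sup_right h))⟩
  rcases hzu with rfl | rfl
  · exact Subgroup.mem_sup_left ⟨hz, hmem⟩
  · exact mul_mem (Subgroup.mem_sup_left ⟨hu, hmem⟩) (Subgroup.mem_sup_right ⟨hwZ, hw⟩)

end Cfsg.Agent.S2946
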