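import Cfsg.Statements.S2947
import Cfsg.Agent.Lib.StronglyPEmbedded.Basic
-- import your own Cfsg.Agent.* helpers here

set_option autoImplicit false
open Cfsg

namespace Cfsg.Agent.S2947

/-- Let G be a finite group of characteristic 2 type in which every 2-local subgroup is solvable and the centralizer of Ω₁(Z(S)) lies in N_G(S) for every Sylow 2-subgroup S; suppose O₂(G) = 1, fix a Sylow 2-subgroup S and a 2-local subgroup M containing N_G(J(S)) (J the Thompson subgroup generated by the elementary abelian 2-subgroups of largest order). Then M is strongly embedded in G (a proper subgroup of even order whose intersection with each conjugate by an element outside M has odd order) if and only if no nontrivial 2-subgroup of M lies in a 2-local subgroup of G not contained in M. -/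
theorem result {G : Type*} [Group G] [Finite G] (hL : Cfsg.IsCharacteristicTwoType G) (hN : ∀ N : Subgroup G, Cfsg.IsTwoLocal N → Group.IsSolvable ↥N)
    (hZ : ∀ S : Sylow 2 G, Subgroup.centralizer (Cfsg.omegaCenterOf (S : Subgroup G) : Set G) ≤ Subgroup.normalizer ((S : Subgroup G) : Set G)) (hO : Cfsg.pCore 2 G = ⊥) (S : Sylow 2 G) (M : Subgroup G) (hM : Cfsg.IsTwoLocal M)
    (hMJ : Subgroup.normalizer (Cfsg.thompsonSubgroupOf 2 (S : Subgroup G) : Set G) ≤ M) :
    Cfsg.IsStronglyEmbedded M ↔ Cfsg.straddlingTwoSubgroups M = ∅ := by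
  open CfsgLib.StronglyPEmbedded in
  haveI : Fact (Nat.Prime 2) := ⟨Nat.prime_two⟩
  have hodd : ∀ n : ℕ, Odd n ↔ ¬ 2 ∣ n := fun n => by rw [← Nat.not_even_iff_odd, even_iff_two_dvd]
  obtain ⟨R₀, hR₀, hR₀1, hMR⟩ := hM
  have hR₀M : R₀ ≤ M := hMR ▸ Subgroup.le_normalizer
  have h2M : 2 ∣ Nat.card ↥M :=
    ((hR₀.card_eq_or_dvd).resolve_left fun h => hR₀1 (Subgroup.card_eq_one.1 h)).trans
      (Subgroup.card_dvd_of_le hR₀M)
  constructor
  · rintro ⟨hne, -, hinf⟩
    have hspe : Cfsg.IsStronglyPEmbedded 2 M :=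
      spe_of_forall_not_dvd hne h2M fun g hg => (hodd _).1 (hinf g hg)
    refine Set.eq_empty_iff_forall_notMem.2 ?_
    rintro T ⟨hT2, hT1, hTM, L, ⟨R, hR, hR1, rfl⟩, hTL, hLM⟩
    obtain ⟨P, hP⟩ := (IsPGroup.to_sup_of_normal_right' hT2 hR hTL).exists_le_sylow
    have hPM := sylow_le_of_inf_ne_bot hspe P fun h =>
      hT1 (le_bot_iff.1 ((le_inf (le_sup_left.trans hP) hTM).trans h.le))
    exact hLM (normalizer_le_of_spe hspe hR hR1 ((le_sup_right.trans hP).trans hPM))
  · intro hempty
    have hne : M ≠ ⊤ := by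
      intro h
      refine hR₀1 (le_bot_iff.1 (hO ▸ le_pCore' ?_ hR₀))
      exact Subgroup.normalizer_eq_top_iff.1 (hMR ▸ h)
    have key : ∀ Q : Subgroup G, IsPGroup 2 ↥Q → Q ≠ ⊥ → Q ≤ M →
        Subgroup.normalizer (Q : Set G) ≤ M := by
      intro Q hQ hQ1 hQM
      by_contra h
      have hmem : Q ∈ Cfsg.straddlingTwoSubgroups M :=
        ⟨hQ, hQ1, hQM, _, ⟨Q, hQ, hQ1, rfl⟩, Subgroup.le_normalizer, h⟩
      rw [hempty] at hmem
      exact hmem
    have hspe := spe_of_forall_normalizer_le hne h2M key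
    exact ⟨hne, even_iff_two_dvd.2 h2M, fun g hg => (hodd _).2 (not_dvd_card_inf_conj hspe hg)⟩

end Cfsg.Agent.S2947
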