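import Cfsg.Statements.S2951
import Cfsg.Agent.Lib.JComponents.Final
-- import your own Cfsg.Agent.* helpers here

set_option autoImplicit false
open Cfsg

namespace Cfsg.Agent.S2951

/-- Let G be a finite group of characteristic 2 type in which every 2-local subgroup is solvable and the centralizer of Ω₁(Z(S)) lies in N_G(S) for every Sylow 2-subgroup S; suppose O₂(G) = 1, fix a Sylow 2-subgroup S and a 2-local subgroup M containing N_G(J(S)) (J the Thompson subgroup generated by the elementary abelian 2-subgroups of largest order), and put Z = Ω₁(Z(S)). Let T ≤ S be maximal (for the order of a largest elementary abelian subgroup, then the order of J(T), then the order of T) among the nontrivial 2-subgroups of M lying in a 2-local subgroup not inside M, K a J(T)-component not contained in M with J(T) the Thompson subgroup of every Sylow 2-subgroup of N_G(W_K) containing J(T), and O₂(⟨K, T⟩) ≠ 1, L a maximal 2-local subgroup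 containing ⟨K, J(T)⟩ (there is only one), and Z₀ = Ω₁(Z(J(T))). Then Z₀ ∩ W_K ≠ 1, and one of: Z = Z₀ has order 2; Z = Z₀ has order 4 and T = S; Ω₁(Z(T)) = Z₀ has order 4 and C_L(Z₀) has index 2 in N_G(Z₀). -/
theorem result {G : Type*} [Group G] [Finite G] (hL : Cfsg.IsCharacteristicTwoType G) (hN : ∀ N : Subgroup G, Cfsg.IsTwoLocal N → Group.IsSolvable ↥N)
    (hZ : ∀ S : Sylow 2 G, Subgroup.centralizer (Cfsg.omegaCenterOf (S : Subgroup G) : Set G) ≤ Subgroup.normalizer ((S : Subgroup G) : Set G)) (hO : Cfsg.pCore 2 G = ⊥) (S : Sylow 2 G) (M : Subgroup G) (hM : Cfsg.IsTwoLocal M)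
    (hMJ : Subgroup.normalizer (Cfsg.thompsonSubgroupOf 2 (S : Subgroup G) : Set G) ≤ M) (T : Subgroup G) (hT : T ∈ Cfsg.maxStraddlingTwoSubgroups M)
    (hTS : T ≤ (S : Subgroup G)) (K : Subgroup G) (hK : K ∈ Cfsg.jComponentsOutside M T)
    (L : Subgroup G) (hLmax : Cfsg.IsMaximalTwoLocal L) (hKL : K ⊔ Cfsg.thompsonSubgroupOf 2 T ≤ L)
    (Z Z₀ : Subgroup G) (hZdef : Z = Cfsg.omegaCenterOf (S : Subgroup G)) (hZ₀ : Z₀ = Cfsg.omegaCenterOf (Cfsg.thompsonSubgroupOf 2 T)) :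
    Z₀ ⊓ Cfsg.wOf K ≠ ⊥ ∧
      ((Z = Z₀ ∧ Nat.card ↥Z₀ = 2) ∨ (Z = Z₀ ∧ Nat.card ↥Z₀ = 4 ∧ T = (S : Subgroup G)) ∨
        (Cfsg.omegaCenterOf T = Z₀ ∧ Nat.card ↥Z₀ = 4 ∧
          (L ⊓ Subgroup.centralizer (Z₀ : Set G)).relIndex (Subgroup.normalizer (Z₀ : Set G)) = 2)) := by
  open CfsgLib.JComponents CfsgLib.ThompsonJ Subgroup in
  obtain ⟨L', K', p⟩ :=
    (⟨⟨hL, hN, hZ⟩, ⟨S, hMJ⟩, hT⟩ : Ctx M T).exists_pair hO hK hLmax hKL
  open CfsgLib.JComponents CfsgLib.ThompsonJ Subgroup in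
  obtain ⟨w, hw, hw1, hwZ, -⟩ := p.h₁.exists_w
  open CfsgLib.JComponents CfsgLib.ThompsonJ Subgroup in
  have hom := p.h₁.omega_eq
  subst hZdef hZ₀
  refine ⟨fun e => hw1 (Subgroup.mem_bot.1 (e ▸ Subgroup.mem_inf.2 ⟨hwZ, hw⟩)), ?_⟩
  open CfsgLib.JComponents CfsgLib.ThompsonJ Subgroup in
  rcases eq_or_lt_of_le hTS with heq | hlt
  · rw [← heq, hom]
    rcases p.card_cases with ⟨c, -⟩ | ⟨c, -⟩
    · exact .inl ⟨rfl, c⟩
    · exact .inr (.inl ⟨rfl, c, rfl⟩)
  open CfsgLib.JComponents CfsgLib.ThompsonJ Subgroup in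
  rcases p.card_cases with ⟨c, -⟩ | ⟨c, -⟩
  · refine .inl ⟨?_, c⟩
    haveI : Fact (Nat.Prime 2) := ⟨Nat.prime_two⟩
    have hle : omegaCenterOf (S : Subgroup G) ≤ zJ T := by
      intro z hz
      have hzT : z ∈ centralizer (T : Set G) :=
        Subgroup.centralizer_le hTS (omegaCenterOf_le_centralizer _ hz)
      rw [← hom]
      exact mem_omegaOne ⟨p.centralizer_le hzT, hzT⟩
        ((isElementaryAbelian_omegaCenterOf _).2 z hz)
    refine eq_of_le_of_card_ge hle ?_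
    show Nat.card (zJ T) ≤ _
    rw [c]
    have : omegaCenterOf (S : Subgroup G) ≠ ⊥ := omegaCenterOf_ne_bot S.2
      (fun e => p.h₁.toSide.ne_bot (le_bot_iff.1 (e ▸ hTS)))
    exact (one_lt_card_iff_ne_bot _).2 this
  · refine .inr (.inr ⟨hom, c, ?_⟩)
    show (L ⊓ centralizer (zJ T : Set G)).relIndex (normalizer (zJ T : Set G)) = 2
    rw [p.centralizer_zJ_eq c, inf_eq_right.2 p.h₁.hLT.1.1]
    exact p.relIndex_normalizer_zJ c S.2 hlt

end Cfsg.Agent.S2951
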