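import Cfsg.Statements.S2953
import Cfsg.Agent.Lib.JComponents.Final
-- import your own Cfsg.Agent.* helpers here

set_option autoImplicit false
open Cfsg

namespace Cfsg.Agent.S2953

/-- Let G be a finite group of characteristic 2 type in which every 2-local subgroup is solvable and the centralizer of Ω₁(Z(S)) lies in N_G(S) for every Sylow 2-subgroup S; suppose O₂(G) = 1, fix a Sylow 2-subgroup S and a 2-local subgroup M containing N_G(J(S)) (J the Thompson subgroup generated by the elementary abelian 2-subgroups of largest order). Let T be maximal (for the order of a largest elementary abelian subgroup, then the order of J(T), then the order of T) among the nontrivial 2-subgroups of M lying in a 2-local subgroup not inside M. Then there are two distinct J(T)-components K₁, K₂ such that, with Pᵢ = ⟨Kᵢ, T⟩: C_G(O₂(Pᵢ)) ≤ O₂(Pᵢ), T is a Sylow 2-subgroup of Pᵢ,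 O₂(Pᵢ) has index 6 in Pᵢ with Pᵢ/O₂(Pᵢ) non-abelian, [Ω₁(Z(T)), Pᵢ] ≠ 1, O₂(⟨P₁, P₂⟩) = 1, and each Pᵢ lies in exactly one maximal 2-local subgroup Lᵢ of G, in which T is a Sylow 2-subgroup. -/
theorem result {G : Type*} [Group G] [Finite G] (hL : Cfsg.IsCharacteristicTwoType G) (hN : ∀ N : Subgroup G, Cfsg.IsTwoLocal N → Group.IsSolvable ↥N)
    (hZ : ∀ S : Sylow 2 G, Subgroup.centralizer (Cfsg.omegaCenterOf (S : Subgroup G) : Set G) ≤ Subgroup.normalizer ((S : Subgroup G) : Set G)) (hO : Cfsg.pCore 2 G = ⊥) (S : Sylow 2 G) (M : Subgroup G) (hM : Cfsg.IsTwoLocal M)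
    (hMJ : Subgroup.normalizer (Cfsg.thompsonSubgroupOf 2 (S : Subgroup G) : Set G) ≤ M) (T : Subgroup G) (hT : T ∈ Cfsg.maxStraddlingTwoSubgroups M) :
    ∃ K₁ K₂ : Subgroup G, K₁ ≠ K₂ ∧ Cfsg.IsJComponent T K₁ ∧ Cfsg.IsJComponent T K₂ ∧
      Cfsg.pCoreOf 2 ((K₁ ⊔ T) ⊔ (K₂ ⊔ T)) = ⊥ ∧
      ∀ P ∈ [K₁ ⊔ T, K₂ ⊔ T],
        Subgroup.centralizer (Cfsg.pCoreOf 2 P : Set G) ≤ Cfsg.pCoreOf 2 P ∧ Cfsg.IsSylowTwoIn T P ∧
        (Cfsg.pCoreOf 2 P).relIndex P = 6 ∧ ¬ ⁅P, P⁆ ≤ Cfsg.pCoreOf 2 P ∧ ⁅Cfsg.omegaCenterOf T, P⁆ ≠ ⊥ ∧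
        ∃ L : Subgroup G, Cfsg.IsMaximalTwoLocal L ∧ P ≤ L ∧ Cfsg.IsSylowTwoIn T L ∧
          ∀ L' : Subgroup G, Cfsg.IsMaximalTwoLocal L' → P ≤ L' → L' = L := by
  open CfsgLib.JComponents Subgroup in
  obtain ⟨L₁, K₁, L₂, K₂, p⟩ := (⟨⟨hL, hN, hZ⟩, ⟨S, hMJ⟩, hT⟩ : Ctx M T).exists_pair' hO
  refine ⟨K₁, K₂, fun e => p.hne (p.local_eq'.trans (e ▸ p.symm.local_eq'.symm)), p.h₁.hK, p.h₂.hK,
    ?_, ?_⟩
  · open CfsgLib.JComponents Subgroup in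
    by_contra hX
    refine p.hne (p.h₁.toSide.eq_of_normalizes p.h₂.toSide (CfsgLib.FFModules.isPGroup_pCoreOf _) hX
      ((sup_le_sup_left (CfsgLib.ThompsonJ.thompsonSubgroupOf_le 2 T) _).trans ?_)
      ((sup_le_sup_left (CfsgLib.ThompsonJ.thompsonSubgroupOf_le 2 T) _).trans ?_))
    · exact le_sup_left.trans (CfsgLib.FFModules.le_normalizer_pCoreOf _)
    · exact le_sup_right.trans (CfsgLib.FFModules.le_normalizer_pCoreOf _)
  intro P hP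
  open CfsgLib.JComponents Subgroup in
  have key : ∀ {L₁ K₁ L₂ K₂ : Subgroup G}, Pair T L₁ K₁ L₂ K₂ →
      centralizer (pCoreOf 2 (K₁ ⊔ T) : Set G) ≤ pCoreOf 2 (K₁ ⊔ T) ∧ IsSylowTwoIn T (K₁ ⊔ T) ∧
      (pCoreOf 2 (K₁ ⊔ T)).relIndex (K₁ ⊔ T) = 6 ∧ ¬ ⁅K₁ ⊔ T, K₁ ⊔ T⁆ ≤ pCoreOf 2 (K₁ ⊔ T) ∧
      ⁅omegaCenterOf T, K₁ ⊔ T⁆ ≠ ⊥ ∧
      ∃ L : Subgroup G, IsMaximalTwoLocal L ∧ K₁ ⊔ T ≤ L ∧ IsSylowTwoIn T L ∧
        ∀ L' : Subgroup G, IsMaximalTwoLocal L' → K₁ ⊔ T ≤ L' → L' = L := by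
    intro L₁ K₁ L₂ K₂ p
    refine ⟨?_, p.h₁.isSylowTwoIn_sup, ?_, ?_, p.h₁.omega_commutator_ne_bot, L₁, p.h₁.hmax,
      p.local_eq'.ge, p.h₁.hLT.1, fun L' hL' hle => p.h₁.huniq L' hL'
        ((sup_le_sup_left (CfsgLib.ThompsonJ.thompsonSubgroupOf_le 2 T) _).trans hle)⟩
    all_goals rw [p.h₁.pCoreOf_sup]
    · exact p.h₁.centralizer_qs_le
    · exact p.h₁.relIndex_qs
    · exact p.h₁.commutator_not_le
  simp only [List.mem_cons, List.not_mem_nil, or_false] at hP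
  rcases hP with rfl | rfl
  · exact key p
  · exact key p.symm

end Cfsg.Agent.S2953
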