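import Cfsg.Statements.S3084
import Cfsg.Agent.Lib.Replacement.PauliExtension
import Cfsg.Agent.Lib.PGroups.Extraspecial

set_option autoImplicit false
open Cfsg

namespace Cfsg.Agent.S3084

open CfsgLib.Replacement.Pauli

theorem exists_hyperbolic {U : Type*} [AddCommGroup U] [Module (ZMod 2) U] [Module.Finite (ZMod 2) U]
    {n : ℕ} (hn : Module.finrank (ZMod 2) U = 2 * n) (q : QuadraticForm (ZMod 2) U)
    (hnd : (QuadraticMap.polarBilin q).Nondegenerate)
    (W : Submodule (ZMod 2) U) (hW : Module.finrank (ZMod 2) ↥W = n) (hWq : ∀ w ∈ W, q w = 0) :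
    ∃ T : (BV n × BV n) ≃ₗ[ZMod 2] U, ∀ u, q (T u) = dot u.1 u.2 := by
  set B := QuadraticMap.polarBilin q with hB
  have hBapp : ∀ x y, B x y = q (x + y) - q x - q y := fun x y => rfl
  have hBW : ∀ x ∈ W, ∀ y ∈ W, B x y = 0 := fun x hx y hy => by
    rw [hBapp, hWq _ (add_mem hx hy), hWq _ hx, hWq _ hy]; simp
  have hflip : ∀ x y, B x y = B y x := fun x y => by rw [hBapp, hBapp, add_comm x y]; ring
  let b := Module.finBasisOfFinrankEq (ZMod 2) ↥W hW
  -- evaluation at the basis of `W`
  let ev : U →ₗ[ZMod 2] BV n := LinearMap.pi fun i => B.flip (b i : U)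
  have hev : ∀ u i, ev u i = B u (b i : U) := fun _ _ => rfl
  have hker : LinearMap.ker ev = W := by
    refine le_antisymm ?_ fun w hw => funext fun i => hBW w hw _ (b i).2
    have hsurj : LinearMap.range ev = ⊤ := by
      by_contra hne
      obtain ⟨f, hf, hle⟩ := Submodule.exists_le_ker_of_lt_top (LinearMap.range ev) (lt_top_iff_ne_top.2 hne)
      apply hf
      set c : BV n := fun i => f (Pi.single i 1) with hc
      have hfx : ∀ x, f x = dot x c := fun x => by
        conv_lhs => rw [show x = ∑ i, x i • (Pi.single i (1 : ZMod 2) : BV n) by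
          funext j; simp [Pi.single_apply]]
        rw [map_sum]
        exact Finset.sum_congr rfl fun i _ => by rw [map_smul]; rfl
      set w : ↥W := ∑ i, c i • b i with hw
      have hw0 : (w : U) = 0 := hnd.2 (w : U) fun x => by
        have h1 : f (ev x) = 0 := hle ⟨x, rfl⟩
        rw [hfx] at h1
        rw [hw, Submodule.coe_sum, map_sum, ← h1, dot]
        exact Finset.sum_congr rfl fun i _ => by
          rw [Submodule.coe_smul, map_smul, smul_eq_mul, hev, mul_comm]
      have hc0 : ∀ i, c i = 0 := Fintype.linearIndependent_iff.1 b.linearIndependent c (Subtype.ext hw0)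
      exact LinearMap.ext fun x => by rw [hfx]; simp [dot, hc0]
    have h := LinearMap.finrank_range_add_finrank_ker ev
    rw [hsurj, finrank_top, Module.finrank_fin_fun, hn] at h
    have hWle : W ≤ LinearMap.ker ev := fun w hw => funext fun i => hBW w hw _ (b i).2
    exact (Submodule.eq_of_le_of_finrank_eq hWle (by omega)).ge
  have hsurj : Function.Surjective ev := by
    have h := LinearMap.finrank_range_add_finrank_ker ev
    rw [hker, hW, hn] at h
    rw [← LinearMap.range_eq_top]
    refine Submodule.eq_top_of_finrank_eq ?_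
    rw [Module.finrank_fin_fun]
    omega
  choose u0 hu0 using fun i : Fin n => hsurj (Pi.single i 1)
  set cc : Fin n → Fin n → ZMod 2 := fun i j =>
    if i = j then q (u0 i) else if i < j then B (u0 i) (u0 j) else 0 with hcc
  set v : Fin n → U := fun i => u0 i + ∑ j, cc i j • (b j : U) with hv
  have hsum : ∀ (c : Fin n → ZMod 2), ∑ j, c j • (b j : U) ∈ W := fun c =>
    W.sum_mem fun j _ => W.smul_mem _ (b j).2
  have hBu : ∀ i j, B (u0 i) (b j : U) = if i = j then 1 else 0 := fun i j => by
    rw [← hev, hu0, Pi.single_apply]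
    simp only [eq_comm]
  have hBc : ∀ i k, B (u0 i) (∑ j, cc k j • (b j : U)) = cc k i := fun i k => by
    rw [map_sum, Finset.sum_eq_single i (fun j _ hj => by
      rw [map_smul, hBu, if_neg (Ne.symm hj), smul_zero])
      (fun h => absurd (Finset.mem_univ i) h), map_smul, hBu, if_pos rfl, smul_eq_mul, mul_one]
  have hqv : ∀ i, q (v i) = 0 := fun i => by
    have h := hBc i i
    rw [hBapp, hWq _ (hsum _)] at h
    have h' : q (v i) = q (u0 i) + cc i i := by rw [← h, hv]; ring
    rw [h', hcc]
    simp only [if_pos rfl]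
    exact CharTwo.add_self_eq_zero _
  have hBv : ∀ i k, i ≠ k → B (v i) (v k) = 0 := fun i k hik => by
    simp only [hv, map_add, LinearMap.add_apply]
    rw [hflip (∑ j, cc i j • (b j : U)) (u0 k), hBc, hBc, hBW _ (hsum _) _ (hsum _), add_zero]
    rcases lt_or_gt_of_ne hik with hlt | hlt
    · simp only [hcc, if_neg hik, if_neg hik.symm, if_pos hlt, if_neg (lt_asymm hlt), add_zero]
      exact CharTwo.add_self_eq_zero _
    · simp only [hcc, if_neg hik, if_neg hik.symm, if_pos hlt, if_neg (lt_asymm hlt), add_zero]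
      rw [hflip (u0 k)]
      exact CharTwo.add_self_eq_zero _
  -- the map
  let T0 : (BV n × BV n) →ₗ[ZMod 2] U :=
    (W.subtype.comp b.equivFun.symm.toLinearMap).coprod (Fintype.linearCombination (ZMod 2) v)
  have hTb : ∀ a c, T0 (a, c) = (∑ i, a i • (b i : U)) + ∑ i, c i • v i := fun a c => by
    simp [T0, LinearMap.coprod_apply, Module.Basis.equivFun_symm_apply, Fintype.linearCombination_apply]
  have hvw : ∀ i j, B (v i) (b j : U) = if i = j then 1 else 0 := fun i j => by
    simp only [hv, map_add, LinearMap.add_apply]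
    rw [hBu, hBW _ (hsum _) _ (b j).2, add_zero]
  have hinj : Function.Injective T0 := by
    rw [injective_iff_map_eq_zero]
    rintro ⟨a, c⟩ h
    rw [hTb] at h
    have hc : c = 0 := funext fun j => by
      have h1 := congrArg (fun x => B x (b j : U)) h
      simp only [map_add, LinearMap.add_apply, map_zero, LinearMap.zero_apply] at h1
      rw [hBW _ (hsum _) _ (b j).2, zero_add, map_sum, LinearMap.sum_apply,
        Finset.sum_eq_single j (fun i _ hi => by
          rw [map_smul, LinearMap.smul_apply, hvw, if_neg hi, smul_zero])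
        (fun h => absurd (Finset.mem_univ j) h), map_smul, LinearMap.smul_apply, hvw, if_pos rfl] at h1
      simpa using h1
    subst hc
    simp only [Pi.zero_apply, zero_smul, Finset.sum_const_zero, add_zero] at h
    have ha : ∀ i, a i = 0 := Fintype.linearIndependent_iff.1 b.linearIndependent a
      (Subtype.ext (by rw [Submodule.coe_sum]; simpa using h))
    exact Prod.ext (funext ha) rfl
  haveI : Finite U := Module.finite_of_finite (ZMod 2)
  let T : (BV n × BV n) ≃ₗ[ZMod 2] U := LinearEquiv.ofBijective T0 ⟨hinj, by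
    refine (LinearMap.injective_iff_surjective_of_finrank_eq_finrank ?_).1 hinj
    rw [Module.finrank_prod, Module.finrank_fin_fun, hn]; omega⟩
  refine ⟨T, fun u => ?_⟩
  obtain ⟨a, c⟩ := u
  show q (T0 (a, c)) = dot a c
  rw [hTb]
  have hadd : ∀ x y, q (x + y) = q x + q y + B x y := fun x y => by rw [hBapp]; ring
  have hq2 : q (∑ i, c i • v i) = 0 := by
    have : ∀ s : Finset (Fin n), q (∑ i ∈ s, c i • v i) = 0 := by
      intro s
      induction s using Finset.induction_on with
      | empty => simp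
      | @insert i s his ih =>
        rw [Finset.sum_insert his, hadd, QuadraticMap.map_smul, hqv, ih, map_sum,
          Finset.sum_eq_zero fun j hj => by
            rw [map_smul, LinearMap.map_smul, LinearMap.smul_apply, hBv i j (fun h => his (h ▸ hj))]
            simp]
        simp
    exact this _
  rw [hadd, hWq _ (hsum _), hq2, zero_add, zero_add, map_sum]
  refine Finset.sum_congr rfl fun i _ => ?_
  rw [map_smul, map_sum, LinearMap.sum_apply, Finset.sum_eq_single i (fun j _ hj => by
    rw [map_smul, LinearMap.smul_apply, hflip, hvw, if_neg (Ne.symm hj), smul_zero])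
    (fun h => absurd (Finset.mem_univ i) h),
    map_smul, LinearMap.smul_apply, hflip, hvw, if_pos rfl]
  simp [mul_comm]

theorem main {K : Type*} [Group K] {U : Type*} [AddCommGroup U] [Module (ZMod 2) U] {n : ℕ}
    (hn : 1 ≤ n) (ρ : Representation (ZMod 2) K U) (hρ : Function.Injective ρ)
    (q : QuadraticForm (ZMod 2) U) (hq : ∀ (k : K) (u : U), q (ρ k u) = q u)
    (T : (BV n × BV n) ≃ₗ[ZMod 2] U) (hT : ∀ u, q (T u) = dot u.1 u.2) :
    ∃ (R : Type) (_ : Group R) (_ : Finite R) (Q : Subgroup R) (hN : Q.Normal) (e : R ⧸ Q ≃* K) (χ : ↥Q →* Multiplicative U), Cfsg.IsExtraspecial 2 ↥Q ∧ Nat.card ↥Q = 2 ^ (2 * n + 1) ∧ Function.Surjective χ ∧ χ.ker = Subgroup.center ↥Q ∧ (∀ (r : R) (a : ↥Q), χ ⟨r * a * r⁻¹, hN.conj_mem (a : R) a.2 r⟩ = Multiplicative.ofAdd (ρ (e (r : R ⧸ Q)) (Multiplicative.toAdd (χ a)))) ∧ ∀ a : ↥Q, a * a = 1 ↔ q (Multiplicative.toAdd (χ a)) = 0 := by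
  classical
  let φ : Pauli n →* Multiplicative U := (AddMonoidHom.toMultiplicative T.toAddMonoidHom).comp pr
  have hφ : ∀ h : Pauli n, Multiplicative.toAdd (φ h) = T (h.a, h.b) := fun _ => rfl
  let Ind : Op n → K → Prop := fun M k => ∀ h : Pauli n, ∃ h', M * op h * M⁻¹ = op h' ∧
    T (h'.a, h'.b) = ρ k (T (h.a, h.b))
  have hmul : ∀ {M M' k k'}, Ind M k → Ind M' k' → Ind (M * M') (k * k') := by
    intro M M' k k' hM hM' h
    obtain ⟨h1, e1, t1⟩ := hM' h
    obtain ⟨h2, e2, t2⟩ := hM h1
    exact ⟨h2, by rw [← e2, ← e1]; group, by rw [t2, t1, map_mul]; rfl⟩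
  have hone : Ind 1 1 := fun h => ⟨h, by group, by rw [map_one]; rfl⟩
  let S : Subgroup (Op n) :=
    { carrier := {M | ∃ k, Ind M k}
      one_mem' := ⟨1, hone⟩
      mul_mem' := fun ⟨k, hk⟩ ⟨k', hk'⟩ => ⟨k * k', hmul hk hk'⟩
      inv_mem' := fun {M} ⟨k, hk⟩ => by
        have hpow : ∀ m : ℕ, Ind (M ^ m) (k ^ m) := fun m => by
          induction m with
          | zero => simpa using hone
          | succ m ih => rw [pow_succ, pow_succ]; exact hmul ih hk
        refine ⟨k ^ (orderOf M - 1), ?_⟩
        have h1 : M⁻¹ = M ^ (orderOf M - 1) := by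
          refine inv_eq_of_mul_eq_one_right ?_
          rw [← pow_succ', Nat.sub_add_cancel (orderOf_pos M), pow_orderOf_eq_one]
        rw [h1]
        exact hpow _ }
  have huniq : ∀ {M k k'}, Ind M k → Ind M k' → k = k' := by
    intro M k k' h1 h2
    refine hρ (LinearMap.ext fun u => ?_)
    obtain ⟨x, rfl⟩ := T.surjective u
    obtain ⟨a, ha, ha'⟩ := h1 ⟨1, x.1, x.2⟩
    obtain ⟨b, hb, hb'⟩ := h2 ⟨1, x.1, x.2⟩
    have hab : a = b := by
      exact op_injective (ha.symm.trans hb)
    rw [← ha', ← hb', hab]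
  let θ : S →* K := MonoidHom.mk' (fun M => M.2.choose) fun M M' =>
    huniq (M * M' : S).2.choose_spec (hmul M.2.choose_spec M'.2.choose_spec)
  have hθ : ∀ M : S, Ind (M : Op n) (θ M) := fun M => M.2.choose_spec
  have hopS : ∀ g : Pauli n, Ind (op g) 1 := fun g h =>
    ⟨g * h * g⁻¹, by simp [map_mul, map_inv], by
      rw [map_one]
      have : φ (g * h * g⁻¹) = φ h := by
        rw [map_mul, map_mul, map_inv, mul_comm (φ g), mul_inv_cancel_right]
      exact congrArg Multiplicative.toAdd this⟩
  let ι : Pauli n →* S := (op (n := n)).codRestrict S fun g => ⟨1, hopS g⟩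
  have hι : Function.Injective ι := fun g g' h => op_injective (congrArg Subtype.val h)
  have hker : θ.ker = ι.range := by
    refine le_antisymm (fun M hM => ?_) ?_
    · rw [MonoidHom.mem_ker] at hM
      have h1 := hθ M
      rw [hM] at h1
      obtain ⟨g, hg⟩ := exists_op_of_trivial (M := (M : Op n)) fun h => by
        obtain ⟨h', e1, t1⟩ := h1 h
        rw [map_one] at t1
        exact ⟨h', e1, congrArg Multiplicative.ofAdd (T.injective t1)⟩
      exact ⟨g, Subtype.ext hg.symm⟩
    · rintro _ ⟨g, rfl⟩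
      exact huniq (hθ (ι g)) (hopS g)
  have hsurj : Function.Surjective θ := by
    intro k
    obtain ⟨M, hM⟩ := exists_lift (T.symm.toLinearMap.comp ((ρ k).comp T.toLinearMap)) fun u => by
      show dot (T.symm (ρ k (T u))).1 (T.symm (ρ k (T u))).2 = _
      rw [← hT, LinearEquiv.apply_symm_apply, hq, hT]
    have hI : Ind M k := fun h => by
      obtain ⟨h', e1, p1⟩ := hM h
      refine ⟨h', e1, ?_⟩
      have p2 : (h'.a, h'.b) = T.symm (ρ k (T (h.a, h.b))) := congrArg Multiplicative.toAdd p1
      rw [p2, LinearEquiv.apply_symm_apply]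
    exact ⟨⟨M, k, hI⟩, huniq (hθ _) hI⟩
  haveI hN : ι.range.Normal := hker ▸ θ.normal_ker
  let ε : Pauli n ≃* ι.range := MonoidHom.ofInjective hι
  have hex : Cfsg.IsExtraspecial 2 ↥ι.range := by
    refine ⟨CfsgLib.PGroups.IsSpecial.of_mulEquiv ε (isExtraspecial hn).1, ?_⟩
    rw [← (isExtraspecial hn).2]
    exact (Nat.card_congr (Subgroup.centerCongr ε).toEquiv).symm
  refine ⟨S, inferInstance, inferInstance, ι.range, hN,
    (QuotientGroup.quotientMulEquivOfEq hker.symm).trans (QuotientGroup.quotientKerEquivOfSurjective θ hsurj),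
    φ.comp ε.symm.toMonoidHom, hex, ?_, ?_, ?_, ?_, ?_⟩
  · rw [← Nat.card_congr ε.toEquiv, card_pauli]
  · intro u
    obtain ⟨g, hg⟩ := pr_surjective (n := n) (Multiplicative.ofAdd (T.symm (Multiplicative.toAdd u)))
    refine ⟨ε g, ?_⟩
    show φ (ε.symm (ε g)) = u
    rw [MulEquiv.symm_apply_apply]
    show Multiplicative.ofAdd (T (Multiplicative.toAdd (pr g))) = u
    rw [hg]
    simp
  · ext a
    obtain ⟨g, rfl⟩ := ε.surjective a
    rw [MonoidHom.mem_ker, MonoidHom.comp_apply, MulEquiv.coe_toMonoidHom, MulEquiv.symm_apply_apply]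
    have : φ g = 1 ↔ pr g = 1 := by
      refine ⟨fun h => ?_, fun h => by rw [MonoidHom.comp_apply, h, map_one]⟩
      have h1 : T (Multiplicative.toAdd (pr g)) = T 0 := (congrArg Multiplicative.toAdd h).trans (map_zero T).symm
      exact congrArg Multiplicative.ofAdd (T.injective h1)
    rw [this, pr_eq_one_iff, Subgroup.mem_center_iff, Subgroup.mem_center_iff]
    exact ⟨fun h b => by obtain ⟨x, rfl⟩ := ε.surjective b; rw [← map_mul, h, map_mul],
      fun h x => ε.injective (by simpa using h (ε x))⟩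
  · intro r a
    obtain ⟨g, rfl⟩ := ε.surjective a
    obtain ⟨h', e1, t1⟩ := hθ r g
    have hr : (⟨r * (ε g : S) * r⁻¹, hN.conj_mem _ (ε g).2 r⟩ : ι.range) = ε h' :=
      Subtype.ext (Subtype.ext e1)
    rw [hr]
    show φ (ε.symm (ε h')) = Multiplicative.ofAdd (ρ (θ r) (Multiplicative.toAdd (φ (ε.symm (ε g)))))
    rw [MulEquiv.symm_apply_apply, MulEquiv.symm_apply_apply]
    exact congrArg Multiplicative.ofAdd t1
  · intro a
    obtain ⟨g, rfl⟩ := ε.surjective a
    rw [← map_mul, map_eq_one_iff _ ε.injective, MonoidHom.comp_apply, MulEquiv.coe_toMonoidHom,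
      MulEquiv.symm_apply_apply, hφ, hT, mul_self_eq, ← sgn_eq_one_iff]
    exact ⟨fun h => congrArg Pauli.s h, fun h => by rw [h]; rfl⟩
/-- Let K be a group acting faithfully and linearly on a finite-dimensional vector space U of dimension 2n ≥ 2 over the field with two elements, preserving a quadratic form q whose polar bilinear form is non-degenerate and which vanishes on some n-dimensional subspace (a non-singular form of plus type). Then there is a finite group R with a normal extraspecial 2-subgroup Q of order 2^(2n+1), an isomorphism of R/Q with K, and a surjective homomorphism χ from Q onto (the additive group of) U with kernel the centre of Q, such that χ carries conjugation by any r in R to the action of the image of r in K, and an element a of Q squares to the identity exactly when q vanishes at χ(a). -/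
theorem result {K : Type*} [Group K] {U : Type*} [AddCommGroup U] [Module (ZMod 2) U] [Module.Finite (ZMod 2) U] (n : ℕ) (hn1 : 1 ≤ n) (hn : Module.finrank (ZMod 2) U = 2 * n) (ρ : Representation (ZMod 2) K U) (hρ : Function.Injective ρ) (q : QuadraticForm (ZMod 2) U) (hq : ∀ (k : K) (u : U), q (ρ k u) = q u) (hnd : (QuadraticMap.polarBilin q).Nondegenerate) (hplus : ∃ W : Submodule (ZMod 2) U, Module.finrank (ZMod 2) ↥W = n ∧ ∀ w ∈ W, q w = 0) : ∃ (R : Type) (_ : Group R) (_ : Finite R) (Q : Subgroup R) (hN : Q.Normal) (e : R ⧸ Q ≃* K) (χ : ↥Q →* Multiplicative U), Cfsg.IsExtraspecial 2 ↥Q ∧ Nat.card ↥Q = 2 ^ (2 * n + 1) ∧ Function.Surjective χ ∧ χ.ker = Subgroup.center ↥Q ∧ (∀ (r : R) (a : ↥Q), χ ⟨r * a * r⁻¹, hN.conj_mem (a : R) a.2 r⟩ = Multiplicative.ofAdd (ρ (e (r : R ⧸ Q)) (Multiplicative.toAdd (χ a)))) ∧ ∀ a : ↥Q, a * a = 1 ↔ q (Multiplicative.toAdd (χ a)) = 0 := by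
  obtain ⟨W, hW, hWq⟩ := hplus
  obtain ⟨T, hT⟩ := exists_hyperbolic hn q hnd W hW hWq
  exact main hn1 ρ hρ q hq T hT
end Cfsg.Agent.S3084
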