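import Cfsg.Statements.S3085

set_option autoImplicit false
open Cfsg
open scoped commutatorElement

namespace Cfsg.Agent.S3085

variable {Q : Type*} [Group Q] [Finite Q]

/-- The properties of an extraspecial 2-group that the argument uses. -/
structure Ctx (Q : Type*) [Group Q] (z : Q) : Prop where
  ne_one : z ≠ 1
  mem : z ∈ Subgroup.center Q
  sq : z * z = 1
  two : ∀ x ∈ Subgroup.center Q, x = 1 ∨ x = z
  cases : ∀ a x : Q, a * x = x * a ∨ a * x = x * a * z
  sqc : ∀ x : Q, x * x ∈ Subgroup.center Q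

theorem exists_ctx (hQ : Cfsg.IsExtraspecial 2 Q) : ∃ z : Q, Ctx Q z := by
  obtain ⟨⟨-, -, hcomm⟩, hcard⟩ := hQ
  obtain ⟨⟨z, hzc⟩, hz1, htwo⟩ : ∃ z : Subgroup.center Q, z ≠ 1 ∧ ∀ x, x = 1 ∨ x = z := by
    obtain ⟨z, hz⟩ : ∃ z : Subgroup.center Q, z ≠ 1 := by
      by_contra hc
      push Not at hc
      have : Subsingleton (Subgroup.center Q) := ⟨fun a b => by rw [hc a, hc b]⟩
      rw [Nat.card_of_subsingleton (1 : Subgroup.center Q)] at hcard
      omega
    refine ⟨z, hz, fun x => ?_⟩
    obtain ⟨y, -, hy⟩ := (Nat.card_eq_two_iff' (1 : Subgroup.center Q)).mp hcard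
    by_cases hx : x = 1
    · exact Or.inl hx
    · exact Or.inr ((hy x hx).trans (hy z hz).symm)
  have hz : z ≠ 1 := fun h => hz1 (Subtype.ext h)
  have htwo' : ∀ x ∈ Subgroup.center Q, x = 1 ∨ x = z := fun x hx =>
    (htwo ⟨x, hx⟩).imp (congrArg Subtype.val) (congrArg Subtype.val)
  have hzz : z * z = 1 := by
    rcases htwo' (z * z) (mul_mem hzc hzc) with h | h
    · exact h
    · exact absurd (mul_left_cancel (h.trans (mul_one z).symm)) hz
  have hcases : ∀ a x : Q, a * x = x * a ∨ a * x = x * a * z := by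
    intro a x
    have hm : ⁅a⁻¹, x⁻¹⁆ ∈ Subgroup.center Q := by
      rw [← hcomm]
      exact Subgroup.commutator_mem_commutator (Subgroup.mem_top _) (Subgroup.mem_top _)
    rw [commutatorElement_def, inv_inv, inv_inv] at hm
    rcases htwo' _ hm with h | h
    · left
      calc a * x = (x * a) * (a⁻¹ * x⁻¹ * a * x) := by group
        _ = x * a := by rw [h, mul_one]
    · right
      calc a * x = (x * a) * (a⁻¹ * x⁻¹ * a * x) := by group
        _ = x * a * z := by rw [h]
  refine ⟨z, hz, hzc, hzz, htwo', hcases, fun x => ?_⟩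
  rw [Subgroup.mem_center_iff]
  intro y
  have hzy : z * x = x * z := (Subgroup.mem_center_iff.mp hzc x).symm
  rcases hcases y x with h | h
  · rw [← mul_assoc, h, mul_assoc, h, ← mul_assoc]
  · calc y * (x * x) = (y * x) * x := (mul_assoc _ _ _).symm
      _ = x * (y * (z * x)) := by rw [h]; group
      _ = x * (y * x) * z := by rw [hzy]; group
      _ = x * x * y * (z * z) := by rw [h]; group
      _ = x * x * y := by rw [hzz, mul_one]

variable {z : Q}

theorem Ctx.comm (c : Ctx Q z) (x : Q) : x * z = z * x := Subgroup.mem_center_iff.mp c.mem x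

/-- The image in the central quotient is commutative. -/
theorem Ctx.quot_comm (c : Ctx Q z) (x y : Q) :
    QuotientGroup.mk' (Subgroup.center Q) x * QuotientGroup.mk' (Subgroup.center Q) y
      = QuotientGroup.mk' (Subgroup.center Q) y * QuotientGroup.mk' (Subgroup.center Q) x := by
  rw [← map_mul, ← map_mul]
  rcases c.cases x y with h | h
  · rw [h]
  · rw [h, map_mul _ (y * x)]
    have : QuotientGroup.mk' (Subgroup.center Q) z = 1 := (QuotientGroup.eq_one_iff z).mpr c.mem
    rw [this, mul_one]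

theorem Ctx.mk_sq (c : Ctx Q z) (x : Q) :
    QuotientGroup.mk' (Subgroup.center Q) x * QuotientGroup.mk' (Subgroup.center Q) x = 1 := by
  rw [← map_mul]
  exact (QuotientGroup.eq_one_iff _).mpr (c.sqc x)

open Classical in
/-- Transvection map attached to `a`. -/
noncomputable def trFun (a x : Q) : Q := if a * x = x * a then x else a * x

theorem trFun_pos {a x : Q} (h : a * x = x * a) : trFun a x = x := if_pos h
theorem trFun_neg {a x : Q} (h : a * x ≠ x * a) : trFun a x = a * x := if_neg h

theorem anti (c : Ctx Q z) {a x : Q} (h : a * x ≠ x * a) : a * x = x * a * z :=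
  (c.cases a x).resolve_left h

theorem cc {a x y : Q} (hx : a * x = x * a) (hy : a * y = y * a) : a * (x * y) = (x * y) * a := by
  rw [← mul_assoc, hx, mul_assoc, hy, ← mul_assoc]

theorem ca (c : Ctx Q z) {a x y : Q} (hx : a * x = x * a) (hy : a * y ≠ y * a) :
    a * (x * y) ≠ (x * y) * a := by
  intro h
  apply c.ne_one
  have h2 : (x * y * a) * z = x * y * a * 1 := by
    rw [mul_one]
    calc x * y * a * z = x * (y * a * z) := by group
      _ = x * (a * y) := by rw [anti c hy]
      _ = (x * a) * y := (mul_assoc _ _ _).symm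
      _ = a * (x * y) := by rw [← hx, mul_assoc]
      _ = x * y * a := h
  exact mul_left_cancel h2

theorem ac (c : Ctx Q z) {a x y : Q} (hx : a * x ≠ x * a) (hy : a * y = y * a) :
    a * (x * y) ≠ (x * y) * a := by
  intro h
  apply c.ne_one
  have h2 : (x * y * a) * z = x * y * a * 1 := by
    rw [mul_one]
    calc x * y * a * z = x * (a * y) * z := by rw [hy]; group
      _ = x * a * (y * z) := by group
      _ = x * a * (z * y) := by rw [c.comm]
      _ = (x * a * z) * y := by group
      _ = a * (x * y) := by rw [← anti c hx]; group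
      _ = x * y * a := h
  exact mul_left_cancel h2

theorem aa (c : Ctx Q z) {a x y : Q} (hx : a * x ≠ x * a) (hy : a * y ≠ y * a) :
    a * (x * y) = (x * y) * a := by
  calc a * (x * y) = (a * x) * y := by group
    _ = x * a * (z * y) := by rw [anti c hx]; group
    _ = x * (a * y) * z := by rw [← c.comm]; group
    _ = x * y * a * (z * z) := by rw [anti c hy]; group
    _ = x * y * a := by rw [c.sq, mul_one]

theorem trFun_mul (c : Ctx Q z) {a : Q} (ha : a * a = z) (x y : Q) :
    trFun a (x * y) = trFun a x * trFun a y := by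
  by_cases hx : a * x = x * a <;> by_cases hy : a * y = y * a
  · rw [trFun_pos hx, trFun_pos hy, trFun_pos (cc hx hy)]
  · rw [trFun_pos hx, trFun_neg hy, trFun_neg (ca c hx hy), ← mul_assoc, hx, mul_assoc]
  · rw [trFun_neg hx, trFun_pos hy, trFun_neg (ac c hx hy), mul_assoc]
  · rw [trFun_neg hx, trFun_neg hy, trFun_pos (aa c hx hy)]
    calc x * y = x * y * (z * z) := by rw [c.sq, mul_one]
      _ = x * ((y * z) * z) := by group
      _ = x * (z * y * z) := by rw [c.comm y]
      _ = x * (a * a) * (y * z) := by rw [ha]; group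
      _ = (x * a) * a * (z * y) := by rw [c.comm y]; group
      _ = (x * a) * (a * z) * y := by group
      _ = (x * a * z) * (a * y) := by rw [c.comm a]; group
      _ = a * x * (a * y) := by rw [← anti c hx]

theorem trFun_injective (c : Ctx Q z) {a : Q} (ha : a * a = z) : Function.Injective (trFun a) := by
  intro x y h
  have h1 : trFun a (1 : Q) = 1 := trFun_pos (by rw [mul_one, one_mul])
  have e : trFun a (x⁻¹ * y) = trFun a (x⁻¹ * x) := by
    rw [trFun_mul c ha, trFun_mul c ha, h]
  rw [inv_mul_cancel, h1] at e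
  by_cases hw : a * (x⁻¹ * y) = (x⁻¹ * y) * a
  · rw [trFun_pos hw] at e
    exact (inv_mul_eq_one).mp e
  · rw [trFun_neg hw] at e
    exfalso
    apply hw
    rw [eq_inv_of_mul_eq_one_right e]
    group

/-- The transvection automorphism attached to an element of order four. -/
noncomputable def tr (c : Ctx Q z) {a : Q} (ha : a * a = z) : MulAut Q :=
  MulEquiv.ofBijective (MonoidHom.mk' (trFun a) (trFun_mul c ha))
    (Finite.injective_iff_bijective.mp (trFun_injective c ha))

theorem tr_apply (c : Ctx Q z) {a : Q} (ha : a * a = z) (x : Q) : tr c ha x = trFun a x := rfl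

theorem tr_sq (c : Ctx Q z) {a : Q} (ha : a * a = z) : tr c ha * tr c ha = MulAut.conj a := by
  ext x
  rw [MulAut.mul_apply, tr_apply, tr_apply, MulAut.conj_apply]
  by_cases h : a * x = x * a
  · rw [trFun_pos h, trFun_pos h, h, mul_inv_cancel_right]
  · rw [trFun_neg h]
    have h2 : a * (a * x) ≠ (a * x) * a := ca c (rfl) h
    rw [trFun_neg h2, eq_mul_inv_iff_mul_eq, ← mul_assoc a a x, ha]
    calc z * x * a = x * a * z := by rw [← c.comm x]; rw [mul_assoc, ← c.comm a]; group
      _ = a * x := (anti c h).symm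

theorem tr_comm (c : Ctx Q z) {a b : Q} (ha : a * a = z) (hb : b * b = z) (hab : a * b = b * a) :
    tr c ha * tr c hb = tr c hb * tr c ha := by
  ext x
  rw [MulAut.mul_apply, MulAut.mul_apply, tr_apply, tr_apply, tr_apply, tr_apply]
  by_cases h1 : a * x = x * a <;> by_cases h2 : b * x = x * b
  · rw [trFun_pos h1, trFun_pos h2, trFun_pos h1]
  · rw [trFun_neg h2, trFun_pos h1, trFun_neg h2, trFun_pos (cc hab h1)]
  · rw [trFun_neg h1, trFun_pos h2, trFun_neg h1, trFun_pos (cc hab.symm h2)]
  · rw [trFun_neg h1, trFun_neg h2, trFun_neg (ca c hab h1), trFun_neg (ca c hab.symm h2),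
      ← mul_assoc, hab, mul_assoc]

theorem conj_map (τ : MulAut Q) (u : Q) : τ * MulAut.conj u = MulAut.conj (τ u) * τ := by
  ext x
  simp [MulAut.mul_apply]

theorem mk_eq_of_conj_eq {u v : Q} (h : MulAut.conj u = MulAut.conj v) :
    QuotientGroup.mk' (Subgroup.center Q) u = QuotientGroup.mk' (Subgroup.center Q) v := by
  apply QuotientGroup.eq.mpr
  rw [Subgroup.mem_center_iff]
  intro x
  have h2 : u * x * u⁻¹ = v * x * v⁻¹ := by
    simpa [MulAut.conj_apply] using MulEquiv.congr_fun h x
  calc x * (u⁻¹ * v) = u⁻¹ * (u * x * u⁻¹) * v := by group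
    _ = u⁻¹ * (v * x * v⁻¹) * v := by rw [h2]
    _ = u⁻¹ * v * x := by group

/-- A complement `L` contains a lift `conj u * τ` of every transvection. -/
theorem exists_lift {L : Subgroup (MulAut Q)} (hL : (Cfsg.Inn Q).IsComplement' L) (τ : MulAut Q) :
    ∃ u : Q, MulAut.conj u * τ ∈ L := by
  obtain ⟨⟨⟨i, u, rfl⟩, ⟨l, hl⟩⟩, hil⟩ := hL.2 τ
  refine ⟨u⁻¹, ?_⟩
  have hil' : MulAut.conj u * l = τ := hil
  rw [← hil', map_inv, inv_mul_cancel_left]
  exact hl

theorem eq_one_of_mem {L : Subgroup (MulAut Q)} (hL : (Cfsg.Inn Q).IsComplement' L) {σ : MulAut Q}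
    (h1 : σ ∈ L) (h2 : σ ∈ Cfsg.Inn Q) : σ = 1 :=
  (Subgroup.mem_bot).mp (hL.disjoint.le_bot ⟨h2, h1⟩)

/-- The lift of the transvection of `a` is an involution, so `u` does not commute with `a`. -/
theorem lift_anti (c : Ctx Q z) {L : Subgroup (MulAut Q)} (hL : (Cfsg.Inn Q).IsComplement' L)
    {a u : Q} (ha : a * a = z) (ha' : a ∉ Subgroup.center Q) (hu : MulAut.conj u * tr c ha ∈ L) :
    a * u ≠ u * a := by
  intro hcm
  have e : (MulAut.conj u * tr c ha) * (MulAut.conj u * tr c ha) = MulAut.conj (u * u * a) := by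
    rw [mul_assoc, ← mul_assoc (tr c ha), conj_map, mul_assoc, tr_sq, ← map_mul, ← map_mul,
      tr_apply, trFun_pos hcm, mul_assoc]
  have h1 : MulAut.conj (u * u * a) = MulAut.conj (1 : Q) := by
    rw [map_one, ← e]
    exact eq_one_of_mem hL (mul_mem hu hu) (e ▸ ⟨_, rfl⟩)
  have h2 := mk_eq_of_conj_eq h1
  rw [map_mul, map_mul, map_one, c.mk_sq, one_mul] at h2
  exact ha' ((QuotientGroup.eq_one_iff a).mp h2)

/-- Lifts of two commuting transvections commute, so `u` commutes with `b`. -/
theorem lift_comm (c : Ctx Q z) {L : Subgroup (MulAut Q)} (hL : (Cfsg.Inn Q).IsComplement' L)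
    {a b u v : Q} (ha : a * a = z) (hb : b * b = z) (hab : a * b = b * a)
    (ha' : a ∉ Subgroup.center Q) (hne : a * b ∉ Subgroup.center Q)
    (hu : MulAut.conj u * tr c ha ∈ L) (hv : MulAut.conj v * tr c hb ∈ L) : a * v = v * a := by
  have e1 : ∀ {a b u v : Q} (ha : a * a = z) (hb : b * b = z),
      (MulAut.conj u * tr c ha) * (MulAut.conj v * tr c hb)
        = MulAut.conj (u * trFun a v) * (tr c ha * tr c hb) := by
    intro a b u v ha hb
    rw [mul_assoc, ← mul_assoc (tr c ha), conj_map, map_mul, tr_apply]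
    group
  have hmem : MulAut.conj (u * trFun a v) * (MulAut.conj (v * trFun b u))⁻¹ ∈ L := by
    have : (MulAut.conj u * tr c ha) * (MulAut.conj v * tr c hb)
        * ((MulAut.conj v * tr c hb) * (MulAut.conj u * tr c ha))⁻¹
        = MulAut.conj (u * trFun a v) * (MulAut.conj (v * trFun b u))⁻¹ := by
      rw [e1 ha hb, e1 hb ha, tr_comm c ha hb hab]
      group
    rw [← this]
    exact mul_mem (mul_mem hu hv) (inv_mem (mul_mem hv hu))
  have heq : MulAut.conj (u * trFun a v) = MulAut.conj (v * trFun b u) := by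
    apply mul_inv_eq_one.mp
    refine eq_one_of_mem hL hmem ?_
    exact mul_mem ⟨_, rfl⟩ (inv_mem ⟨_, rfl⟩)
  have h2 := mk_eq_of_conj_eq heq
  have π1 : ∀ x : Q, x ∉ Subgroup.center Q → QuotientGroup.mk' (Subgroup.center Q) x ≠ 1 :=
    fun x hx h => hx ((QuotientGroup.eq_one_iff x).mp h)
  by_contra hav
  rw [trFun_neg hav, map_mul, map_mul, map_mul] at h2
  by_cases hbu : b * u = u * b
  · rw [trFun_pos hbu, c.quot_comm v u, ← mul_assoc, c.quot_comm u a, mul_assoc] at h2
    exact π1 a ha' (mul_eq_right.mp h2)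
  · rw [trFun_neg hbu, map_mul, ← mul_assoc, c.quot_comm u a, mul_assoc, ← mul_assoc
      (QuotientGroup.mk' (Subgroup.center Q) v), c.quot_comm v b, mul_assoc, c.quot_comm v u] at h2
    have h3 := mul_right_cancel h2
    apply π1 _ hne
    rw [map_mul, h3, c.mk_sq]

/-- Inside an elementary abelian subgroup the centralizer of an element has index at most two. -/
theorem card_le_two_mul (c : Ctx Q z) (E : Subgroup Q) (a : Q) :
    Nat.card E ≤ 2 * Nat.card (E ⊓ Subgroup.centralizer {a} : Subgroup Q) := by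
  classical
  by_cases hall : E ≤ Subgroup.centralizer {a}
  · rw [inf_eq_left.mpr hall]; omega
  obtain ⟨x, hx, hxa⟩ := SetLike.not_le_iff_exists.mp hall
  rw [Subgroup.mem_centralizer_singleton_iff] at hxa
  let f : Fin 2 × (E ⊓ Subgroup.centralizer {a} : Subgroup Q) → E := fun t =>
    if t.1 = 0 then ⟨t.2, (Subgroup.mem_inf.mp t.2.2).1⟩
      else ⟨x * t.2, mul_mem hx (Subgroup.mem_inf.mp t.2.2).1⟩
  have hf : Function.Surjective f := by
    intro y
    by_cases hy : a * (y : Q) = (y : Q) * a
    · refine ⟨(0, ⟨y, Subgroup.mem_inf.mpr ⟨y.2, ?_⟩⟩), ?_⟩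
      · exact Subgroup.mem_centralizer_singleton_iff.mpr hy.symm
      · simp [f]
    · have hxinv : a * x⁻¹ ≠ x⁻¹ * a := by
        intro h
        apply hxa
        calc x * a = x * (a * x⁻¹) * x := by group
          _ = x * (x⁻¹ * a) * x := by rw [h]
          _ = a * x := by group
      refine ⟨(1, ⟨x⁻¹ * y, Subgroup.mem_inf.mpr ⟨mul_mem (inv_mem hx) y.2, ?_⟩⟩), ?_⟩
      · exact Subgroup.mem_centralizer_singleton_iff.mpr (aa c hxinv hy).symm
      · simp [f]
  have := Nat.card_le_card_of_surjective f hf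
  simpa [Nat.card_prod] using this

theorem exists_not_center (c : Ctx Q z) (E : Subgroup Q) (hE : 2 < Nat.card E) :
    ∃ e ∈ E, e ∉ Subgroup.center Q := by
  by_contra hc
  push Not at hc
  have h1 := Subgroup.card_le_of_le (show E ≤ Subgroup.center Q from hc)
  have h2 : Nat.card (Subgroup.center Q) ≤ 2 := by
    have hsurj : Function.Surjective (fun i : Fin 2 =>
        if i = 0 then (1 : Subgroup.center Q) else ⟨z, c.mem⟩) := by
      intro x
      rcases c.two x x.2 with h | h
      · exact ⟨0, by simp [Subtype.ext_iff, h]⟩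
      · exact ⟨1, by simp [Subtype.ext_iff, h]⟩
    simpa using Nat.card_le_card_of_surjective _ hsurj
  omega

theorem exists_anticomm (c : Ctx Q z) {e : Q} (he : e ∉ Subgroup.center Q) :
    ∃ g : Q, g * e ≠ e * g := by
  rw [Subgroup.mem_center_iff] at he
  push Not at he
  exact he

/-- Adjust a non-commuting partner of the involution `e` so that its square is `z`. -/
theorem exists_sq_eq (c : Ctx Q z) {e g : Q} (hee : e * e = 1) (hge : g * e ≠ e * g) :
    ∃ a : Q, (a = g ∨ a = g * e) ∧ a * a = z ∧ a * e ≠ e * a := by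
  rcases c.two _ (c.sqc g) with h | h
  · refine ⟨g * e, Or.inr rfl, ?_, ?_⟩
    · calc g * e * (g * e) = g * (e * g) * e := by group
        _ = g * (e * g * z) * (z * e) := by
              rw [show g * (e * g * z) * (z * e) = g * (e * g * (z * z)) * e by group, c.sq, mul_one]
        _ = g * (g * e) * (z * e) := by rw [← anti c hge]
        _ = (g * g) * (e * z) * e := by group
        _ = z * e * e := by rw [h, one_mul, c.comm]
        _ = z := by rw [mul_assoc, hee, mul_one]
    · intro h2
      apply hge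
      rw [← mul_assoc e g e] at h2
      exact mul_right_cancel h2
  · exact ⟨g, Or.inl rfl, h, hge⟩

theorem commute_of_mem {E : Subgroup Q} (hE : Cfsg.IsElementaryAbelian 2 E) {x y : Q}
    (hx : x ∈ E) (hy : y ∈ E) : x * y = y * x := by
  have := hE.1
  exact congrArg Subtype.val (mul_comm' (⟨x, hx⟩ : E) ⟨y, hy⟩)

theorem sq_of_mem {E : Subgroup Q} (hE : Cfsg.IsElementaryAbelian 2 E) {x : Q}
    (hx : x ∈ E) : x * x = 1 := by
  rw [← sq]; exact hE.2 x hx

/-- In the plus type case with `n ≥ 3` there are three commuting elements of order four. -/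
theorem exists_three (c : Ctx Q z) (E : Subgroup Q) (hE : Cfsg.IsElementaryAbelian 2 E)
    (hcard : 16 ≤ Nat.card E) :
    ∃ a b d : Q, a * a = z ∧ b * b = z ∧ d * d = z ∧ a * b = b * a ∧ a * d = d * a ∧ b * d = d * b ∧
      a * b ∉ Subgroup.center Q ∧ a * d ∉ Subgroup.center Q ∧ b * d ∉ Subgroup.center Q := by
  obtain ⟨e1, he1, he1'⟩ := exists_not_center c E (by omega)
  obtain ⟨g1, hg1⟩ := exists_anticomm c he1'
  obtain ⟨a, -, ha, hae1⟩ := exists_sq_eq c (sq_of_mem hE he1) hg1
  have hc2 := card_le_two_mul c E a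
  obtain ⟨e2, he2, he2'⟩ := exists_not_center c (E ⊓ Subgroup.centralizer {a}) (by omega)
  obtain ⟨he2E, he2a⟩ := Subgroup.mem_inf.mp he2
  rw [Subgroup.mem_centralizer_singleton_iff] at he2a
  obtain ⟨g, hg⟩ := exists_anticomm c he2'
  -- make the partner commute with `a`
  obtain ⟨g2, hg2a, hg2e⟩ : ∃ g2, a * g2 = g2 * a ∧ g2 * e2 ≠ e2 * g2 := by
    by_cases h : a * g = g * a
    · exact ⟨g, h, hg⟩
    · refine ⟨g * e1, aa c h hae1, fun h' => ?_⟩
      exact ac c (a := e2) (x := g) (y := e1) (Ne.symm hg) (commute_of_mem hE he2E he1) h'.symm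
  obtain ⟨b, hb', hb, hbe2⟩ := exists_sq_eq c (sq_of_mem hE he2E) hg2e
  have hab : a * b = b * a := by
    rcases hb' with rfl | rfl
    · exact hg2a
    · exact cc hg2a he2a.symm
  have hc3 := card_le_two_mul c (E ⊓ Subgroup.centralizer {a}) b
  obtain ⟨e3, he3, he3'⟩ :=
    exists_not_center c (E ⊓ Subgroup.centralizer {a} ⊓ Subgroup.centralizer {b}) (by omega)
  obtain ⟨⟨he3E, he3a⟩, he3b⟩ :=
    (fun h => ⟨Subgroup.mem_inf.mp (Subgroup.mem_inf.mp h).1, (Subgroup.mem_inf.mp h).2⟩ :
      e3 ∈ E ⊓ Subgroup.centralizer {a} ⊓ Subgroup.centralizer {b} →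
        (e3 ∈ E ∧ e3 ∈ Subgroup.centralizer {a}) ∧ e3 ∈ Subgroup.centralizer {b}) he3
  rw [Subgroup.mem_centralizer_singleton_iff] at he3a he3b
  obtain ⟨g, hg⟩ := exists_anticomm c he3'
  obtain ⟨g3, hg3a, hg3e⟩ : ∃ g3, a * g3 = g3 * a ∧ g3 * e3 ≠ e3 * g3 := by
    by_cases h : a * g = g * a
    · exact ⟨g, h, hg⟩
    · refine ⟨g * e1, aa c h hae1, fun h' => ?_⟩
      exact ac c (a := e3) (x := g) (y := e1) (Ne.symm hg) (commute_of_mem hE he3E he1) h'.symm
  obtain ⟨g4, hg4a, hg4b, hg4e⟩ :
      ∃ g4, a * g4 = g4 * a ∧ b * g4 = g4 * b ∧ g4 * e3 ≠ e3 * g4 := by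
    by_cases h : b * g3 = g3 * b
    · exact ⟨g3, hg3a, h, hg3e⟩
    · refine ⟨g3 * e2, cc hg3a he2a.symm, aa c h hbe2, fun h' => ?_⟩
      exact ac c (a := e3) (x := g3) (y := e2) (Ne.symm hg3e) (commute_of_mem hE he3E he2E) h'.symm
  obtain ⟨d, hd', hd, hde3⟩ := exists_sq_eq c (sq_of_mem hE he3E) hg4e
  have had : a * d = d * a := by
    rcases hd' with rfl | rfl
    · exact hg4a
    · exact cc hg4a he3a.symm
  have hbd : b * d = d * b := by
    rcases hd' with rfl | rfl
    · exact hg4b
    · exact cc hg4b he3b.symm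
  refine ⟨a, b, d, ha, hb, hd, hab, had, hbd, ?_, ?_, ?_⟩
  · intro h
    exact ca c (a := e2) he2a (Ne.symm hbe2) (Subgroup.mem_center_iff.mp h e2)
  · intro h
    exact ca c (a := e3) he3a (Ne.symm hde3) (Subgroup.mem_center_iff.mp h e3)
  · intro h
    exact ca c (a := e3) he3b (Ne.symm hde3) (Subgroup.mem_center_iff.mp h e3)

theorem not_center_of_sq (c : Ctx Q z) {a : Q} (ha : a * a = z) : a ∉ Subgroup.center Q := by
  intro h
  rcases c.two a h with h1 | h1
  · exact c.ne_one (by rw [← ha, h1, one_mul])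
  · exact c.ne_one (by rw [← ha, h1, c.sq])

/-- Let Q be an extraspecial 2-group of order 2^(2n+1) with n ≥ 3 that is of plus type (it contains an elementary abelian subgroup of order 2^(n+1)). Then the group of inner automorphisms of Q has no complement in the full automorphism group of Q: the extension of the inner automorphism group (elementary abelian of order 2^(2n)) by the outer automorphism group (the orthogonal group of plus type) does not split. -/
theorem result {Q : Type*} [Group Q] [Finite Q] (n : ℕ) (hn : 3 ≤ n) (hQ : Cfsg.IsExtraspecial 2 Q) (hcard : Nat.card Q = 2 ^ (2 * n + 1)) (hplus : ∃ E : Subgroup Q, Cfsg.IsElementaryAbelian 2 E ∧ Nat.card ↥E = 2 ^ (n + 1)) (L : Subgroup (MulAut Q)) : ¬ (Cfsg.Inn Q).IsComplement' L := by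
  intro hL
  obtain ⟨z, c⟩ := exists_ctx hQ
  obtain ⟨E, hE, hEc⟩ := hplus
  have h16 : 16 ≤ Nat.card E := by
    have := Nat.pow_le_pow_right (show 0 < 2 by norm_num) (show 4 ≤ n + 1 by omega)
    rw [hEc]; simpa using this
  obtain ⟨a, b, d, ha, hb, hd, hab, had, hbd, nab, nad, nbd⟩ := exists_three c E hE h16
  have he : a * b * d * (a * b * d) = z := by
    have h1 : a * b * d * (a * b * d) = (a * b) * (a * b) * (d * d) := by
      have : d * (a * b) = a * b * d := by
        rw [← mul_assoc, ← had, mul_assoc, ← hbd, ← mul_assoc]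
      calc a * b * d * (a * b * d) = a * b * (d * (a * b)) * d := by group
        _ = _ := by rw [this]; group
    have h2 : (a * b) * (a * b) = (a * a) * (b * b) := by
      calc (a * b) * (a * b) = a * (b * a) * b := by group
        _ = _ := by rw [← hab]; group
    rw [h1, h2, ha, hb, hd, c.sq, one_mul]
  obtain ⟨u, hu⟩ := exists_lift hL (tr c ha)
  obtain ⟨v, hv⟩ := exists_lift hL (tr c hb)
  obtain ⟨w, hw⟩ := exists_lift hL (tr c hd)
  obtain ⟨y, hy⟩ := exists_lift hL (tr c he)
  have hau := lift_anti c hL ha (not_center_of_sq c ha) hu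
  have hbu := lift_comm c hL hb ha hab.symm (not_center_of_sq c hb) (hab ▸ nab) hv hu
  have hdu := lift_comm c hL hd ha had.symm (not_center_of_sq c hd) (had ▸ nad) hw hu
  have hea : a * b * d * a = a * (a * b * d) := by
    rw [mul_assoc (a * b), ← had, ← mul_assoc, mul_assoc a b a, ← hab]
    group
  have hne : a * b * d * a ∉ Subgroup.center Q := by
    rw [hea, show a * (a * b * d) = (a * a) * (b * d) by group, ha]
    intro h
    apply nbd
    have := mul_mem (inv_mem c.mem) h
    rwa [inv_mul_cancel_left] at this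
  have heu := lift_comm c hL he ha hea (not_center_of_sq c he) hne hy hu
  -- but `u` does not commute with `a * b * d`
  have h1 : u * b = b * u := hbu.symm
  have h2 : u * d = d * u := hdu.symm
  exact ac c (a := u) (ac c (a := u) (Ne.symm hau) h1) h2 heu.symm

end Cfsg.Agent.S3085
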