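import Cfsg.Statements.S3103
import Mathlib
import Cfsg.Agent.Lib.InvChar.GLFourTwo
import Cfsg.Agent.Lib.InvChar.AutElementary
import Cfsg.Agent.Lib.SectRank.Constrained
import Cfsg.Agent.Lib.PGroups.Frattini
import Cfsg.Agent.Lib.CoprimeAction.Basic

set_option autoImplicit false
open Cfsg

namespace Cfsg.Agent.S3103

open scoped commutatorElement

theorem centralizer_le {X : Type*} [Group X] [Finite X] (hc : Cfsg.IsPConstrained 2 X)
    (hO : Cfsg.oddCore X = ⊥) :
    Subgroup.centralizer (Cfsg.pCore 2 X : Set X) ≤ Cfsg.pCore 2 X := by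
  have : Fact (Nat.Prime 2) := ⟨Nat.prime_two⟩
  have hO' : Cfsg.pPrimeCore 2 X = ⊥ := hO
  have hinj : Function.Injective (QuotientGroup.mk' (Cfsg.pPrimeCore 2 X)) := by
    rw [← MonoidHom.ker_eq_bot_iff, QuotientGroup.ker_mk', hO']
  let e : X ≃* X ⧸ Cfsg.pPrimeCore 2 X :=
    MulEquiv.ofBijective _ ⟨hinj, QuotientGroup.mk'_surjective _⟩
  have hmap : (Cfsg.pCore 2 X).map e.toMonoidHom = Cfsg.pCore 2 (X ⧸ Cfsg.pPrimeCore 2 X) :=
    CfsgLib.Cores.map_pCore_equiv e
  have h := CfsgLib.SectRank.isPConstrained_iff.1 hc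
  rw [← hmap] at h
  intro c hc'
  obtain ⟨q, hq, hqe⟩ := h (x := e c) (Subgroup.mem_centralizer_iff.2 (by
    rintro _ ⟨y, hy, rfl⟩
    show e y * e c = e c * e y
    rw [← map_mul, ← map_mul, Subgroup.mem_centralizer_iff.1 hc' y hy]))
  exact e.injective hqe ▸ hq

/-- Let X be a finite 2-constrained group with no nontrivial normal subgroup of odd order such that O₂(X) has sectional 2-rank at most 4. Then X/O₂(X) is isomorphic to a subgroup of the alternating group of degree 8. -/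
theorem result {X : Type*} [Group X] [Finite X] (hc : Cfsg.IsPConstrained 2 X) (hO : Cfsg.oddCore X = ⊥)
    (h4 : Cfsg.SectionalPRankLE 2 4 ↥(Cfsg.pCore 2 X)) :
    ∃ f : X ⧸ Cfsg.pCore 2 X →* ↥(alternatingGroup (Fin 8)), Function.Injective f := by
  have h2f : Fact (Nat.Prime 2) := ⟨Nat.prime_two⟩
  set Q := Cfsg.pCore 2 X with hQdef
  have hQp : IsPGroup 2 ↥Q := CfsgLib.Cores.isPGroup_pCore 2 X
  have hCQ : Subgroup.centralizer (Q : Set X) ≤ Q := centralizer_le hc hO
  -- the action on the Frattini quotient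
  let Φ := frattini ↥Q
  have hVc : ∀ a b : ↥Q ⧸ Φ, a * b = b * a := by
    intro a b
    induction a using QuotientGroup.induction_on with
    | _ a =>
    induction b using QuotientGroup.induction_on with
    | _ b =>
    exact commutatorElement_eq_one_iff_mul_comm.1 (by
      rw [← QuotientGroup.mk'_apply, ← QuotientGroup.mk'_apply, ← map_commutatorElement,
        QuotientGroup.mk'_apply, QuotientGroup.eq_one_iff]
      exact CfsgLib.PGroups.commutatorElement_mem_frattini hQp a b)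
  have hexp : ∀ v : ↥Q ⧸ Φ, v ^ 2 = 1 := by
    intro v
    induction v using QuotientGroup.induction_on with
    | _ a =>
    rw [← QuotientGroup.mk_pow, QuotientGroup.eq_one_iff]
    exact CfsgLib.PGroups.pow_mem_frattini hQp a
  let cg : CommGroup (↥Q ⧸ Φ) := { (inferInstance : Group (↥Q ⧸ Φ)) with mul_comm := hVc }
  have hcard : Nat.card (↥Q ⧸ Φ) ≤ 2 ^ 4 := by
    let N : Subgroup ↥(⊤ : Subgroup ↥Q) := Φ.subgroupOf ⊤
    let e : (↥(⊤ : Subgroup ↥Q)) ⧸ N ≃* ↥Q ⧸ Φ :=
      QuotientGroup.congr N Φ Subgroup.topEquiv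
        (Subgroup.map_comap_eq_self_of_surjective Subgroup.topEquiv.surjective Φ)
    have h := h4 ⊤ N ⊤ ⟨⟨fun a b => Subtype.ext (e.injective (by rw [Subgroup.coe_mul, Subgroup.coe_mul, map_mul, map_mul, hVc]))⟩⟩
      (fun a _ => e.injective (by rw [map_pow, map_one, hexp]))
    rwa [Subgroup.card_top, Nat.card_congr e.toEquiv] at h
  obtain ⟨f, hf⟩ := CfsgLib.InvChar.exists_injective_mulAut_GL hexp hcard
  let c : X →* MulAut ↥Q := MulAut.conjNormal
  have hΦ : ∀ x : X, Φ.map (c x).toMonoidHom = Φ := fun x =>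
    Subgroup.characteristic_iff_map_eq.1 inferInstance (c x)
  let ρ : X →* MulAut (↥Q ⧸ Φ) :=
    { toFun := fun x => QuotientGroup.congr Φ Φ (c x) (hΦ x)
      map_one' := MulEquiv.ext fun v => by
        induction v using QuotientGroup.induction_on with
        | _ a => show QuotientGroup.mk ((c 1) a) = _; rw [map_one]; rfl
      map_mul' := fun x y => MulEquiv.ext fun v => by
        induction v using QuotientGroup.induction_on with
        | _ a => show QuotientGroup.mk ((c (x * y)) a) = _; rw [map_mul]; rfl }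
  have hker : ρ.ker = Q := by
    refine le_antisymm ?_ ?_
    · refine CfsgLib.Cores.le_pCore ?_
      rw [IsPGroup.iff_card]
      refine ⟨_, Nat.eq_prime_pow_of_unique_prime_dvd (p := 2) Nat.card_pos.ne' fun {q} hq hdvd => ?_⟩
      by_contra hne
      have : Fact q.Prime := ⟨hq⟩
      obtain ⟨⟨k, hk⟩, hko⟩ := exists_prime_orderOf_dvd_card' q hdvd
      rw [Subgroup.orderOf_mk] at hko
      have hnQ : ∀ z ∈ Q, orderOf z ≠ q := fun z hz hzo => by
        obtain ⟨m, hm⟩ := hQp ⟨z, hz⟩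
        have h1 : q ∣ 2 ^ m := hzo ▸ orderOf_dvd_of_pow_eq_one (congrArg Subtype.val hm)
        exact hne ((Nat.prime_dvd_prime_iff_eq hq Nat.prime_two).1 (hq.dvd_of_dvd_pow h1))
      apply hnQ k _ hko
      refine hCQ (CfsgLib.CoprimeAction.le_centralizer_of_frattini (A := Subgroup.zpowers k) (K := Q)
        (fun z _ => (Subgroup.normalizer_eq_top (H := Q)).symm ▸ Subgroup.mem_top z) ?_ ?_ (Subgroup.mem_zpowers k))
      · obtain ⟨m, hm⟩ := IsPGroup.iff_card.1 (hQp.to_subgroup (frattini ↥Q))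
        rw [Nat.card_zpowers, hko, hm]
        exact Nat.Coprime.pow_right _ ((Nat.coprime_primes hq Nat.prime_two).2 hne)
      · intro a ha y hy
        obtain ⟨i, rfl⟩ := ha
        have hk1 : ρ (k ^ i) = 1 := by rw [map_zpow, MonoidHom.mem_ker.1 hk, one_zpow]
        have := congrArg (fun φ : MulAut (↥Q ⧸ Φ) => φ (QuotientGroup.mk ⟨y, hy⟩)) hk1
        refine ⟨(⟨y, hy⟩ : ↥Q)⁻¹ * c (k ^ i) ⟨y, hy⟩, ?_, ?_⟩
        · exact QuotientGroup.eq.1 (show QuotientGroup.mk (⟨y, hy⟩ : ↥Q) = QuotientGroup.mk (c (k ^ i) ⟨y, hy⟩) from this.symm)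
        · show y⁻¹ * (c (k ^ i) ⟨y, hy⟩ : X) = _
          rw [MulAut.conjNormal_apply]
    · intro x hx
      rw [MonoidHom.mem_ker]
      refine MulEquiv.ext fun v => ?_
      induction v using QuotientGroup.induction_on with
      | _ a =>
        show QuotientGroup.mk (c x a) = QuotientGroup.mk a
        have e : c x a = (⟨x, hx⟩ : ↥Q) * a * (⟨x, hx⟩ : ↥Q)⁻¹ := Subtype.ext (MulAut.conjNormal_apply x a)
        rw [e, QuotientGroup.mk_mul, QuotientGroup.mk_mul, QuotientGroup.mk_inv, hVc _ (QuotientGroup.mk a),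
          mul_inv_cancel_right]
  refine ⟨(CfsgLib.InvChar.GLFourTwo.equiv.toMonoidHom.comp f).comp
    (QuotientGroup.lift Q ρ (le_of_eq hker.symm)), ?_⟩
  refine (CfsgLib.InvChar.GLFourTwo.equiv.injective.comp hf).comp ?_
  rw [← MonoidHom.ker_eq_bot_iff, QuotientGroup.ker_lift, hker, QuotientGroup.map_mk'_self]

end Cfsg.Agent.S3103
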