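import Cfsg.Statements.S3105
import Cfsg.Agent.S3103
import Cfsg.Agent.S0249
import Cfsg.Agent.Lib.ClassicalLinear.Card
import Cfsg.Agent.Lib.Cores.PCore
import Cfsg.Agent.Lib.RadicalRankFour.Apply
import Cfsg.Agent.Lib.RadicalRankFour.LThreeTop
-- import your own Cfsg.Agent.* helpers here

set_option autoImplicit false
open Cfsg

namespace Cfsg.Agent.S3105

open CfsgLib.RadicalRankFour

theorem mulEquiv_of_section {G : Type*} [Group G] [Finite G] {Q R Z : Subgroup G} {ν : G → V3} {τ : G}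
    (hRQ : R ≤ Q) (hτ : τ ∈ Q) (hτR : τ ∉ R) (hν : Coord R Z ν)
    (hidx : ∀ q ∈ Q, q ∈ R ∨ τ⁻¹ * q ∈ R) (hR2 : ∀ r ∈ R, r * r = 1) (hZ2 : Nat.card Z = 2)
    (hττ : τ * τ ∈ Z) (hne : τ * τ ≠ 1) (hab : ∀ a ∈ Q, ∀ b ∈ Q, a * b = b * a) :
    Nonempty (↥Q ≃* Multiplicative (ZMod 4) × (Fin 3 → Multiplicative (ZMod 2))) := by
  letI : CommGroup Q := { (inferInstance : Group Q) with
    mul_comm := fun a b => Subtype.ext (hab _ a.2 _ b.2) }
  choose s hs hs' using hν.surj
  let tq : Q := ⟨τ, hτ⟩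
  have ht4 : tq ^ 4 = 1 := by
    rw [show 4 = 2 * 2 by norm_num, pow_mul, pow_two tq, pow_two]
    exact Subtype.ext (hR2 _ (hν.le hττ))
  let r : V3 → Q := fun v => ⟨s v, hRQ (hs v)⟩
  have hr2 : ∀ v, r v ^ 2 = 1 := fun v => by rw [pow_two]; exact Subtype.ext (hR2 _ (hs v))
  have hpow : ∀ {n : ℕ} [NeZero n] (x : Q), x ^ n = 1 → ∀ i j : ZMod n,
      x ^ (i + j).val = x ^ i.val * x ^ j.val := by
    intro n _ x hx i j
    rw [ZMod.val_add, ← pow_add]
    conv_rhs => rw [← Nat.mod_add_div (i.val + j.val) n, pow_add, pow_mul, hx, one_pow, mul_one]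
  let e1 := r (1, 0, 0)
  let e2 := r (0, 1, 0)
  let e3 := r (0, 0, 1)
  let F : Multiplicative (ZMod 4) × (Fin 3 → Multiplicative (ZMod 2)) →* Q :=
    { toFun := fun p => tq ^ (Multiplicative.toAdd p.1).val * (e1 ^ (Multiplicative.toAdd (p.2 0)).val *
        (e2 ^ (Multiplicative.toAdd (p.2 1)).val * e3 ^ (Multiplicative.toAdd (p.2 2)).val))
      map_one' := by simp
      map_mul' := fun p q => by
        simp only [Prod.fst_mul, Prod.snd_mul, Pi.mul_apply, toAdd_mul]
        rw [hpow tq ht4, hpow e1 (hr2 _), hpow e2 (hr2 _), hpow e3 (hr2 _)]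
        ac_rfl }
  have hF : ∀ i j k l, F (Multiplicative.ofAdd i, ![Multiplicative.ofAdd j, Multiplicative.ofAdd k,
      Multiplicative.ofAdd l]) = tq ^ i.val * (e1 ^ j.val * (e2 ^ k.val * e3 ^ l.val)) := fun i j k l => rfl
  -- the coordinates of the image
  have hνpow : ∀ (v : V3) (n : ℕ), ν ((r v : G) ^ n) = n • v := by
    intro v n
    induction n with
    | zero => rw [pow_zero, zero_smul, hν.one]
    | succ n ih => rw [pow_succ, hν.mul _ (pow_mem (hs v) n) _ (hs v), ih, succ_nsmul, hs']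
  have hνrest : ∀ j k l : ZMod 2, ((e1 ^ j.val * (e2 ^ k.val * e3 ^ l.val) : Q) : G) ∈ R ∧
      ν ((e1 ^ j.val * (e2 ^ k.val * e3 ^ l.val) : Q) : G) = (j, k, l) := by
    intro j k l
    simp only [Subgroup.coe_mul, SubgroupClass.coe_pow]
    have m1 := pow_mem (hs (1, 0, 0)) j.val
    have m2 := pow_mem (hs (0, 1, 0)) k.val
    have m3 := pow_mem (hs (0, 0, 1)) l.val
    refine ⟨mul_mem m1 (mul_mem m2 m3), ?_⟩
    rw [hν.mul _ m1 _ (mul_mem m2 m3), hν.mul _ m2 _ m3, hνpow, hνpow, hνpow]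
    clear m1 m2 m3; revert j k l; decide
  have hinj : Function.Injective F := by
    refine (injective_iff_map_eq_one F).2 fun p hp => ?_
    obtain ⟨i, w⟩ := p
    obtain ⟨i, rfl⟩ := Multiplicative.ofAdd.surjective i
    have hw : w = ![Multiplicative.ofAdd (Multiplicative.toAdd (w 0)),
        Multiplicative.ofAdd (Multiplicative.toAdd (w 1)), Multiplicative.ofAdd (Multiplicative.toAdd (w 2))] := by
      funext a; fin_cases a <;> rfl
    rw [hw, hF] at hp
    obtain ⟨hm, hnu⟩ := hνrest (Multiplicative.toAdd (w 0)) (Multiplicative.toAdd (w 1)) (Multiplicative.toAdd (w 2))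
    generalize hrest : (e1 ^ (Multiplicative.toAdd (w 0)).val * (e2 ^ (Multiplicative.toAdd (w 1)).val *
      e3 ^ (Multiplicative.toAdd (w 2)).val) : Q) = rest at hp hm hnu
    have htR : τ ^ i.val ∈ R := by
      have h1 := congrArg Subtype.val (eq_inv_of_mul_eq_one_left hp)
      simp only [SubgroupClass.coe_pow, Subgroup.coe_inv, tq] at h1
      rw [h1]; exact inv_mem hm
    have hi : i = 0 ∨ i = 2 := by
      have h4 : ∀ i : ZMod 4, i = 0 ∨ i = 2 ∨ i.val = 2 * 0 + 1 ∨ i.val = 2 * 1 + 1 := by decide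
      rcases h4 i with h | h | h | h
      · exact Or.inl h
      · exact Or.inr h
      all_goals
        exfalso
        rw [h, pow_succ, pow_mul, pow_two] at htR
        exact hτR ((Subgroup.mul_mem_cancel_left R (pow_mem (hν.le hττ) _)).1 htR)
    have hti : ν (τ ^ i.val) = 0 := by
      rcases hi with rfl | rfl
      · rw [ZMod.val_zero, pow_zero, hν.one]
      · rw [show (2 : ZMod 4).val = 2 by rfl, pow_two]; exact (hν.ker _ (hν.le hττ)).2 hττ
    have hsum := congrArg (fun q : Q => ν (q : G)) hp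
    simp only [Subgroup.coe_mul, SubgroupClass.coe_pow, OneMemClass.coe_one, tq] at hsum
    rw [hν.mul _ htR _ hm, hti, hnu, hν.one, zero_add] at hsum
    simp only [Prod.mk_eq_zero] at hsum
    have hw0 : w = 1 := by
      funext a
      fin_cases a
      · exact Multiplicative.toAdd.injective hsum.1
      · exact Multiplicative.toAdd.injective hsum.2.1
      · exact Multiplicative.toAdd.injective hsum.2.2
    subst hw0
    have hr1 : rest = 1 := by rw [← hrest]; simp
    rw [hr1, mul_one] at hp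
    rcases hi with rfl | rfl
    · rfl
    · exfalso
      rw [show (2 : ZMod 4).val = 2 by rfl, pow_two] at hp
      exact hne (congrArg Subtype.val hp)
  have hsurj : Function.Surjective F := by
    have hR : ∀ q : Q, (q : G) ∈ R → q ∈ F.range := by
      intro q hq
      obtain ⟨hm, hnu⟩ := hνrest (ν (q : G)).1 (ν (q : G)).2.1 (ν (q : G)).2.2
      set rest : Q := e1 ^ (ν (q : G)).1.val * (e2 ^ (ν (q : G)).2.1.val * e3 ^ (ν (q : G)).2.2.val)
      have hn : (rest : G)⁻¹ * (q : G) ∈ Z := (hν.eq_iff hm hq).1 hnu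
      have hrest : rest ∈ F.range := ⟨(Multiplicative.ofAdd 0, ![Multiplicative.ofAdd (ν (q : G)).1,
        Multiplicative.ofAdd (ν (q : G)).2.1, Multiplicative.ofAdd (ν (q : G)).2.2]), by
          rw [hF]; simp [rest]⟩
      rw [show q = rest * (rest⁻¹ * q) by group]
      refine mul_mem hrest ?_
      by_cases h1 : rest⁻¹ * q = 1
      · rw [h1]; exact one_mem _
      · have h2 : rest⁻¹ * q = tq * tq := Subtype.ext (two_cases hZ2 hn hττ
          (fun h => h1 (Subtype.ext h)) hne)
        have ht : tq ∈ F.range := ⟨(Multiplicative.ofAdd 1, 1), by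
          simp [F, show ZMod.val (1 : ZMod 4) = 1 from rfl]⟩
        rw [h2]; exact mul_mem ht ht
    intro q
    have ht : tq ∈ F.range := ⟨(Multiplicative.ofAdd 1, 1), by simp [F, show ZMod.val (1 : ZMod 4) = 1 from rfl]⟩
    rcases hidx q q.2 with h | h
    · exact hR q h
    · have := mul_mem ht (hR (tq⁻¹ * q) h)
      rwa [mul_inv_cancel_left] at this
  exact ⟨(MulEquiv.ofBijective F ⟨hinj, hsurj⟩).symm⟩

/-- Let X be a finite nonsolvable 2-constrained group with no nontrivial normal subgroup of odd order and of sectional 2-rank at most 4, and suppose X/O₂(X) is isomorphic to the projective special linear group of dimension 3 over the field with 2 elements. Then O₂(X) is elementary abelian of order 8 or 16, or is isomorphic to the direct product of a cyclic group of order 4 and an elementary abelian group of order 8. -/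
theorem result {X : Type*} [Group X] [Finite X] (hns : ¬ Group.IsSolvable X) (hc : Cfsg.IsPConstrained 2 X) (hO : Cfsg.oddCore X = ⊥)
    (h4 : Cfsg.SectionalPRankLE 2 4 X) {F : Type*} [Field F] [Fintype F] (hF : Fintype.card F = 2)
    (hQ : Nonempty (X ⧸ Cfsg.pCore 2 X ≃* Matrix.ProjectiveSpecialLinearGroup (Fin 3) F)) :
    (Cfsg.IsElementaryAbelian 2 (Cfsg.pCore 2 X) ∧ (Nat.card ↥(Cfsg.pCore 2 X) = 8 ∨ Nat.card ↥(Cfsg.pCore 2 X) = 16)) ∨
      Nonempty (↥(Cfsg.pCore 2 X) ≃* Multiplicative (ZMod 4) × (Fin 3 → Multiplicative (ZMod 2))) := by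
  classical
  haveI : Fact (Nat.Prime 2) := ⟨Nat.prime_two⟩
  haveI : Fact (Nat.Prime 7) := ⟨by norm_num⟩
  set Q := Cfsg.pCore 2 X with hQdef
  obtain ⟨e⟩ := hQ
  haveI : IsSimpleGroup (Matrix.ProjectiveSpecialLinearGroup (Fin 3) F) :=
    Cfsg.Agent.S0249.result 3 le_rfl
  have hL : Nat.card (Matrix.ProjectiveSpecialLinearGroup (Fin 3) F) = 168 := by
    have h := CfsgLib.ClassicalLinear.card_PSL (ι := Fin 3) (F := F)
    simp only [hF, Fintype.card_fin] at h
    rw [Fin.prod_univ_eq_prod_range (fun i => 2 ^ 3 - 2 ^ i), Fintype.card_fin] at h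
    norm_num [Finset.prod_range_succ] at h ⊢
    exact h
  let π : X →* Matrix.ProjectiveSpecialLinearGroup (Fin 3) F := e.toMonoidHom.comp (QuotientGroup.mk' Q)
  have hsurj : Function.Surjective π := e.surjective.comp (QuotientGroup.mk'_surjective Q)
  have hker : π.ker = Q := by
    rw [MonoidHom.ker_comp_of_injective] <;>
      first | exact QuotientGroup.ker_mk' Q | exact e.injective
  have hS : Setting π := setting_of π hsurj (hker.symm ▸ CfsgLib.Cores.isPGroup_pCore 2 X) h4
    (by rw [hker]; exact Cfsg.Agent.S3103.centralizer_le hc hO) 7 (by norm_num) (by rw [hL]; norm_num)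
  rcases hS.three_two hL with hbot | ⟨hZ2, hab, R, ν, τ, hRn, hRQ, hτ, hτR, hν, hidx, hR2, hττ⟩
  · left
    rw [hker] at hbot
    have helem : ∀ q ∈ Q, q * q = 1 := fun q hq => Subgroup.mem_bot.1 (hbot ▸ sq_mem_phi hq)
    refine ⟨⟨⟨⟨fun a b => Subtype.ext ?_⟩⟩, fun q hq => by rw [pow_two]; exact helem q hq⟩, ?_⟩
    · have h := comm_mem_phi (K := Q) a.2 b.2
      rw [hbot, Subgroup.mem_bot, mul_inv_eq_one, mul_inv_eq_iff_eq_mul] at h
      exact h
    have h16 := elementary_le h4 Q helem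
    obtain ⟨n, hn⟩ := IsPGroup.iff_card.1 (CfsgLib.Cores.isPGroup_pCore 2 X)
    rw [← hQdef] at hn
    have h4' : ¬ Nat.card Q ≤ 4 := by
      intro hle
      have hker' : ∀ x ∈ π.ker, ∀ v ∈ Q, x * v * x⁻¹ = v := by
        intro x hx v hv
        rw [hker] at hx
        have h := comm_mem_phi (K := Q) hx hv
        rw [hbot, Subgroup.mem_bot, mul_inv_eq_one] at h
        exact h
      have htriv := small_trivial hL π hsurj Q hker' hle
      obtain ⟨l, hl⟩ : ∃ l : Matrix.ProjectiveSpecialLinearGroup (Fin 3) F, l ≠ 1 := by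
        haveI : Nontrivial (Matrix.ProjectiveSpecialLinearGroup (Fin 3) F) := IsSimpleGroup.toNontrivial
        exact exists_ne 1
      obtain ⟨x, rfl⟩ := hsurj l
      refine hl (MonoidHom.mem_ker.1 (hS.faithful x fun q hq => ?_))
      rw [hker] at hq
      rw [htriv x q hq, mul_inv_cancel]
      exact one_mem _
    have hle : n ≤ 4 := by
      by_contra h
      have := Nat.pow_le_pow_right (n := 2) (by norm_num) (show 5 ≤ n by omega)
      omega
    interval_cases n <;> omega
  · right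
    have hττ' := sq_mem_phi hτ
    rw [hker] at hab hRQ hτ hidx hν hZ2 hττ'
    exact mulEquiv_of_section hRQ hτ hτR hν hidx hR2 hZ2 hττ' hττ hab

end Cfsg.Agent.S3105
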