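import Cfsg.Statements.S3110
import Cfsg.Agent.Lib.Signalizer.ScnThreeCores
import Cfsg.Agent.Lib.Balance.Adapters
import Cfsg.Agent.S0205
import Cfsg.Agent.S0217

set_option autoImplicit false
open Cfsg

namespace Cfsg.Agent.S3110

/-- Let G be a finite group in which every 2-local subgroup is 2-constrained and some Sylow 2-subgroup has a self-centralizing abelian normal subgroup of 2-rank at least 3, and let S be any Sylow 2-subgroup of G. Then there is a subgroup W of G of odd order such that, for every subgroup B of S of 2-rank at least 2, W is generated by the largest normal odd-order subgroups O(C_G(b)) of the centralizers of the non-identity elements b of B, and W is normalized by the normalizer of every such B. -/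
theorem result {G : Type*} [Group G] [Finite G]
    (h2c : ∀ T : Subgroup G, IsPGroup 2 T → T ≠ ⊥ → Cfsg.IsPConstrained 2 ↥(Subgroup.normalizer (T : Set G)))
    (S : Sylow 2 G) (A : Subgroup ↥(S : Subgroup G)) (hAn : A.Normal) (hAab : IsMulCommutative ↥A)
    (hAC : Subgroup.centralizer (A : Set ↥(S : Subgroup G)) = A) (hA3 : ¬ Cfsg.PRankLE 2 2 ↥A) (S' : Sylow 2 G) :
    ∃ W : Subgroup G, Odd (Nat.card ↥W) ∧
      ∀ B : Subgroup G, B ≤ (S' : Subgroup G) → ¬ Cfsg.PRankLE 2 1 ↥B →
        W = (⨆ b : {b : G // b ∈ B ∧ b ≠ 1}, Cfsg.centralizerPPrimeCore 2 (b : G)) ∧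
        Subgroup.normalizer (B : Set G) ≤ Subgroup.normalizer (W : Set G) := by
  haveI : Fact (Nat.Prime 2) := ⟨Nat.prime_two⟩
  exact CfsgLib.Signalizer.ScnThree.exists_closure h2c (fun _ hH => Cfsg.Agent.S0205.result hH)
      (CfsgLib.Balance.solvableFunctorsComplete_of_closure fun A θ h1 h2 h3 h4 h5 h6 h7 h8 =>
        Cfsg.Agent.S0217.result A h1 h2 h3 θ h4 h5 h6 h7 h8)
      S A hAn hAab hA3 S'

end Cfsg.Agent.S3110
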