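import Cfsg.Statements.S3116
import Mathlib

set_option autoImplicit false
open Cfsg

namespace Cfsg.Agent.S3116

theorem core {X : Type*} [Group X] [Finite X] {n : ℕ} (hn : 0 < n) (x y : X) (hx : orderOf x = 2 ^ n)
    (hi : (Subgroup.zpowers x).index = 2) (hy : y ∉ Subgroup.zpowers x)
    (hu : ∀ g : X, orderOf g = 2 ^ n → g ∈ Subgroup.zpowers x) : IsPGroup 2 (MulAut X) := by
  intro φ
  obtain ⟨a, ha⟩ : ∃ a : ℕ, φ x = x ^ a := by
    obtain ⟨a, ha⟩ := (mem_powers_iff_mem_zpowers (x := x)).2 (hu (φ x) (by rw [MulEquiv.orderOf_eq, hx]))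
    exact ⟨a, ha.symm⟩
  have hodd : Nat.Coprime a (2 ^ n) := by
    have h := MulEquiv.orderOf_eq φ x
    rw [ha, orderOf_pow, hx] at h
    have h2 : Nat.gcd (2 ^ n) a = 1 := by
      rcases Nat.eq_or_lt_of_le (Nat.gcd_pos_of_pos_left a (by positivity : 0 < 2 ^ n)) with h3 | h3
      · exact h3.symm
      · exact absurd h (ne_of_lt (Nat.div_lt_self (by positivity) h3))
    exact Nat.Coprime.symm h2
  obtain ⟨e, he, hae⟩ : ∃ e, e = 2 ^ (n - 1) ∧ a ^ e % 2 ^ n = 1 := by
    refine ⟨_, rfl, ?_⟩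
    have := Nat.ModEq.pow_totient hodd
    rw [Nat.totient_prime_pow Nat.prime_two hn] at this
    simp only [Nat.add_one_sub_one, mul_one] at this
    rw [this, Nat.one_mod_eq_one]
    exact ne_of_gt (Nat.one_lt_two_pow (by omega))
  have hpow : ∀ k : ℕ, (φ ^ k) x = x ^ (a ^ k) := by
    intro k
    induction k with
    | zero => simp
    | succ k ih => rw [pow_succ', MulAut.mul_apply, ih, map_pow, ha, ← pow_mul, pow_succ a, mul_comm]
  set ψ := φ ^ e with hψ
  have hψx : ψ x = x := by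
    rw [hψ, hpow, ← pow_mod_orderOf, hx, hae, pow_one]
  have hψy : ψ y * y⁻¹ ∈ Subgroup.zpowers x := by
    rw [Subgroup.mul_mem_iff_of_index_two hi, inv_mem_iff]
    refine iff_of_false (fun h => hy ?_) hy
    obtain ⟨k, hk⟩ := h
    exact ⟨k, ψ.injective (by simp only [map_zpow, hψx]; exact hk)⟩
  obtain ⟨k, hk⟩ := hψy
  have hk' : ψ y = x ^ k * y := by rw [show x ^ k = ψ y * y⁻¹ from hk]; simp
  have hit : ∀ j : ℕ, (ψ ^ j) y = (x ^ k) ^ j * y ∧ (ψ ^ j) x = x := by
    intro j
    induction j with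
    | zero => simp
    | succ j ih =>
      refine ⟨?_, by rw [pow_succ', MulAut.mul_apply, ih.2, hψx]⟩
      rw [pow_succ', MulAut.mul_apply, ih.1, map_mul, map_pow, map_zpow, hψx, hk', ← mul_assoc, ← pow_succ]
  have h1 : (x ^ k) ^ (2 ^ n) = 1 := by
    rw [← zpow_natCast, ← zpow_mul, mul_comm, zpow_mul, zpow_natCast, ← hx, pow_orderOf_eq_one, one_zpow]
  refine ⟨n - 1 + n, ?_⟩
  rw [pow_add, ← he, pow_mul, ← hψ]
  refine MulEquiv.ext fun g => ?_
  obtain ⟨hy', hx'⟩ := hit (2 ^ n)
  rw [h1, one_mul] at hy'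
  rw [MulAut.one_apply]
  by_cases hg : g ∈ Subgroup.zpowers x
  · obtain ⟨j, rfl⟩ := hg
    simp only [map_zpow, hx']
  · have : g * y⁻¹ ∈ Subgroup.zpowers x := by
      rw [Subgroup.mul_mem_iff_of_index_two hi, inv_mem_iff]; exact iff_of_false hg hy
    obtain ⟨j, hj⟩ := this
    have hg' : g = x ^ j * y := by rw [show x ^ j = g * y⁻¹ from hj]; simp
    rw [hg', map_mul, map_zpow, hx', hy']

/-- The automorphism group of a dihedral 2-group of order at least 8, or of a quasi-dihedral (semidihedral) 2-group of order at least 16, is a 2-group. -/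
theorem result {X : Type*} [Group X] [Finite X] (h2 : IsPGroup 2 X)
    (h : (∃ n : ℕ, 4 ≤ n ∧ Nonempty (X ≃* DihedralGroup n)) ∨ Cfsg.IsQuasiDihedral X) : IsPGroup 2 (MulAut X) := by
  rcases h with ⟨n, hn, ⟨e⟩⟩ | ⟨n, hn, hc, x, y, hx, hy, hxy⟩
  · have : NeZero n := ⟨by omega⟩
    obtain ⟨k, hk⟩ : ∃ k, n = 2 ^ k := by
      obtain ⟨m, hm⟩ := IsPGroup.iff_card.1 (h2.of_equiv e)
      rw [Nat.card_eq_fintype_card, DihedralGroup.card] at hm
      obtain ⟨k, -, hk⟩ := (Nat.dvd_prime_pow Nat.prime_two).1 (⟨2, by omega⟩ : n ∣ 2 ^ m)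
      exact ⟨k, hk⟩
    have hk1 : 0 < k := by
      rcases Nat.eq_zero_or_pos k with rfl | h
      · simp at hk; omega
      · exact h
    have hx : orderOf (e.symm (DihedralGroup.r 1)) = 2 ^ k := by
      rw [MulEquiv.orderOf_eq, DihedralGroup.orderOf_r_one, hk]
    refine core hk1 (e.symm (DihedralGroup.r 1)) (e.symm (DihedralGroup.sr 0)) hx ?_ ?_ ?_
    · have := (Subgroup.zpowers (e.symm (DihedralGroup.r (1 : ZMod n)))).card_mul_index
      rw [Nat.card_zpowers, hx, Nat.card_congr e.toEquiv, Nat.card_eq_fintype_card, DihedralGroup.card] at this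
      rw [← hk] at this
      exact Nat.eq_of_mul_eq_mul_left (show 0 < n by omega) (by linarith)
    · rintro ⟨j, hj⟩
      simp only [← map_zpow] at hj
      have := e.symm.injective hj
      rw [DihedralGroup.r_one_zpow] at this
      exact absurd this (by simp)
    · intro g hg
      obtain ⟨g, rfl⟩ := e.symm.surjective g
      cases g with
      | r i => exact ⟨(i.val : ℤ), by simp [← map_zpow]⟩
      | sr i =>
        exfalso
        rw [MulEquiv.orderOf_eq, DihedralGroup.orderOf_sr] at hg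
        omega
  · have hn0 : 0 < n := by omega
    have hyx : y ∉ Subgroup.zpowers x := by
      rintro ⟨j, rfl⟩
      rw [(Commute.zpow_self x j).eq, mul_inv_cancel_right] at hxy
      have := pow_injOn_Iio_orderOf (x := x) (show 1 < orderOf x by rw [hx]; exact Nat.one_lt_two_pow (by omega))
        (show 2 ^ (n - 1) - 1 < orderOf x by
          rw [hx]; have := Nat.pow_lt_pow_right (a := 2) one_lt_two (show n - 1 < n by omega); have := Nat.one_le_two_pow (n := n - 1); omega)
        (by simpa using hxy)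
      have h4 : 2 ^ 2 ≤ 2 ^ (n - 1) := Nat.pow_le_pow_right (by omega) (by omega)
      omega
    have hi : (Subgroup.zpowers x).index = 2 := by
      have := (Subgroup.zpowers x).card_mul_index
      rw [Nat.card_zpowers, hx, hc, pow_succ] at this
      exact Nat.eq_of_mul_eq_mul_left (by positivity) this
    refine core hn0 x y hx hi hyx fun g hg => ?_
    by_contra hgx
    obtain ⟨j, hj⟩ : g * y ∈ Subgroup.zpowers x :=
      (Subgroup.mul_mem_iff_of_index_two hi).2 (iff_of_false hgx hyx)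
    have hyy : y * y = 1 := by rw [← pow_two, ← hy]; exact pow_orderOf_eq_one y
    have hgj : g = x ^ j * y := by rw [show x ^ j = g * y from hj, mul_assoc, hyy, mul_one]
    have hyi : y⁻¹ = y := inv_eq_of_mul_eq_one_right hyy
    have hsq : g * g = x ^ (2 ^ (n - 1) * j) := by
      calc g * g = x ^ j * (y * x ^ j * y⁻¹) := by rw [hgj, hyi]; simp [mul_assoc]
        _ = x ^ j * (x ^ (2 ^ (n - 1) - 1 : ℕ)) ^ j := by rw [← conj_zpow, hxy]
        _ = _ := by
          rw [← zpow_natCast, ← zpow_mul, ← zpow_add]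
          congr 1
          rw [Nat.cast_sub (Nat.one_le_two_pow)]
          push_cast; ring
    have h4 : g ^ 4 = 1 := by
      have h22 : (2 : ℤ) ^ (n - 1) * 2 = 2 ^ n := by rw [← pow_succ]; congr 1; omega
      rw [show g ^ 4 = (g * g) * (g * g) by simp [pow_succ, mul_assoc], hsq, ← zpow_add,
        show (2 : ℤ) ^ (n - 1) * j + 2 ^ (n - 1) * j = 2 ^ n * j by rw [← h22]; ring, zpow_mul]
      norm_cast
      rw [← hx, pow_orderOf_eq_one, one_zpow]
    have h8 := Nat.le_of_dvd (by norm_num) (orderOf_dvd_of_pow_eq_one h4)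
    have : 2 ^ 3 ≤ 2 ^ n := Nat.pow_le_pow_right (by omega) hn
    omega

end Cfsg.Agent.S3116
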