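import Cfsg.Statements.S3356
import Mathlib
import Cfsg.Agent.Lib.HalfTransitive.RegularNormalHalf

set_option autoImplicit false
open Cfsg

namespace Cfsg.Agent.S3356

/-- Let G be a finite 3/2-transitive permutation group: G acts faithfully and transitively on a finite set, the point stabilizers are non-trivial, and for each point a all orbits of G_a on the remaining points have the same size. Suppose G has a regular normal subgroup N and G is not a Frobenius group (some two-point stabilizer is non-trivial). Then N is an elementary abelian p-group for some prime p, and every non-trivial normal subgroup of G contains N (so N is the unique minimal normal subgroup). -/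
theorem result {G Ω : Type*} [Group G] [Finite G]
    [MulAction G Ω] [FaithfulSMul G Ω] [Finite Ω] (htrans : MulAction.IsPretransitive G Ω)
    (hne : ∀ a : Ω, MulAction.stabilizer G a ≠ ⊥)
    (hhalf : ∀ a b c : Ω, b ≠ a → c ≠ a →
      Nat.card (MulAction.orbit (MulAction.stabilizer G a) b) = Nat.card (MulAction.orbit (MulAction.stabilizer G a) c))
    (N : Subgroup G) [hN : N.Normal] (hNt : MulAction.IsPretransitive N Ω) (hNr : ∀ a : Ω, MulAction.stabilizer N a = ⊥)
    (hnotF : ∃ a b : Ω, a ≠ b ∧ MulAction.stabilizer G a ⊓ MulAction.stabilizer G b ≠ ⊥) :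
    (∃ p : ℕ, p.Prime ∧ IsMulCommutative N ∧ ∀ x ∈ N, x ^ p = 1) ∧
    (∀ M : Subgroup G, M.Normal → M ≠ ⊥ → N ≤ M) := by
  classical
  obtain ⟨a, b, hab, hne2⟩ := hnotF
  have hreg : ∀ (n : N) (x : Ω), n • x = x → n = 1 := fun n x h => by
    have h1 : n ∈ MulAction.stabilizer N x := h
    rw [hNr x, Subgroup.mem_bot] at h1
    exact h1
  -- `N` as the point set
  let t : N → Ω := fun n => n • a
  have tinj : Function.Injective t := fun m n h => by
    have := hreg (n⁻¹ * m) a (by rw [mul_smul]; show n⁻¹ • t m = a; rw [h]; exact inv_smul_smul n a)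
    exact (inv_mul_eq_one.1 this).symm
  let φ : MulAction.stabilizer G a →* MulAut N := MulAut.conjNormal.comp (MulAction.stabilizer G a).subtype
  have hequiv : ∀ (h : MulAction.stabilizer G a) (n : N), (h : G) • t n = t (φ h n) := by
    intro h n
    show (h : G) • (n : G) • a = ((φ h n : N) : G) • a
    rw [show ((φ h n : N) : G) = (h : G) * n * (h : G)⁻¹ from MulAut.conjNormal_apply _ _,
      mul_smul, mul_smul, inv_smul_eq_iff.2 (show a = (h : G) • a from h.2.symm)]
  have hfix : ∀ (n : N) (h : MulAction.stabilizer G a),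
      h ∈ CfsgLib.HalfTransitive.Auto.fixer φ n ↔ h ∈ MulAction.stabilizer (MulAction.stabilizer G a) (t n) := by
    intro n h
    show φ h n = n ↔ (h : G) • t n = t n
    rw [hequiv]
    exact tinj.eq_iff.symm
  have hnea : ∀ n : N, n ≠ 1 → t n ≠ a := fun n hn e => hn (hreg n a e)
  have hconst : ∀ n : N, n ≠ 1 → Nat.card (CfsgLib.HalfTransitive.Auto.fixer φ n) =
      Nat.card (MulAction.stabilizer (MulAction.stabilizer G a) b) := by
    intro n hn
    rw [show CfsgLib.HalfTransitive.Auto.fixer φ n = MulAction.stabilizer (MulAction.stabilizer G a) (t n)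
      from Subgroup.ext (hfix n)]
    have h1 : ∀ x : Ω, Nat.card (MulAction.orbit (MulAction.stabilizer G a) x) *
        Nat.card (MulAction.stabilizer (MulAction.stabilizer G a) x) = Nat.card (MulAction.stabilizer G a) := by
      intro x
      rw [← Nat.card_prod, Nat.card_congr (MulAction.orbitProdStabilizerEquivGroup _ x)]
    have e := h1 (t n)
    rw [hhalf a (t n) b (hnea n hn) hab.symm, ← h1 b] at e
    refine Nat.eq_of_mul_eq_mul_left ?_ e
    haveI : Nonempty (MulAction.orbit (MulAction.stabilizer G a) b) := ⟨⟨b, MulAction.mem_orbit_self b⟩⟩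
    exact Nat.card_pos
  have hc1 : 1 < Nat.card (MulAction.stabilizer (MulAction.stabilizer G a) b) := by
    rw [Subgroup.one_lt_card_iff_ne_bot]
    obtain ⟨⟨g, hga, hgb⟩, hg1⟩ := Subgroup.ne_bot_iff_exists_ne_one.1 hne2
    refine fun e => hg1 (Subtype.ext ?_)
    have : (⟨g, hga⟩ : MulAction.stabilizer G a) ∈ MulAction.stabilizer (MulAction.stabilizer G a) b := hgb
    rw [e, Subgroup.mem_bot] at this
    exact (congrArg (fun z : MulAction.stabilizer G a => (z : G)) this :)
  have hφ : Function.Injective φ := by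
    refine (injective_iff_map_eq_one φ).2 fun h hh => Subtype.ext ?_
    refine FaithfulSMul.eq_of_smul_eq_smul (α := Ω) fun x => ?_
    obtain ⟨n, hn⟩ := MulAction.exists_smul_eq N a x
    rw [OneMemClass.coe_one, one_smul, ← hn]
    show (h : G) • t n = t n
    rw [hequiv, hh]
    rfl
  haveI : Nontrivial N := by
    obtain ⟨n, hn⟩ := MulAction.exists_smul_eq N a b
    exact ⟨n, 1, fun e => hab (by rw [← hn, e, one_smul])⟩
  obtain ⟨p, hp, hcomm, hexp⟩ := CfsgLib.HalfTransitive.Auto.elementary_abelian φ hconst hc1 hφ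
  refine ⟨⟨p, hp, ⟨⟨hcomm⟩⟩, fun x hx => congrArg Subtype.val (hexp ⟨x, hx⟩)⟩, fun M hM hM1 => ?_⟩
  haveI := hM
  haveI : (M.subgroupOf N).Normal := Subgroup.normal_subgroupOf
  rcases CfsgLib.HalfTransitive.Auto.invariant_normal φ hconst hc1 hφ (M.subgroupOf N)
    (fun h m hm => by
      show ((φ h m : N) : G) ∈ M
      rw [show ((φ h m : N) : G) = (h : G) * m * (h : G)⁻¹ from MulAut.conjNormal_apply _ _]
      exact hM.conj_mem _ hm _) with e | e
  · exfalso
    apply hM1
    rw [Subgroup.eq_bot_iff_forall]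
    intro g hg
    have hcen : ∀ n ∈ N, n * g = g * n := by
      intro n hn
      have h1 : n * g * n⁻¹ * g⁻¹ ∈ M := M.mul_mem (hM.conj_mem g hg n) (M.inv_mem hg)
      have h2 : n * g * n⁻¹ * g⁻¹ ∈ N := by
        rw [mul_assoc, mul_assoc, ← mul_assoc g]
        exact N.mul_mem hn (hN.conj_mem _ (N.inv_mem hn) g)
      have h3 : (⟨_, h2⟩ : N) ∈ M.subgroupOf N := h1
      rw [e, Subgroup.mem_bot] at h3
      exact mul_inv_eq_iff_eq_mul.1 (mul_inv_eq_one.1 (congrArg Subtype.val h3))
    obtain ⟨n, hn⟩ := MulAction.exists_smul_eq N a (g • a)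
    have hgn : g = n := by
      refine FaithfulSMul.eq_of_smul_eq_smul (α := Ω) fun x => ?_
      obtain ⟨m, rfl⟩ := MulAction.exists_smul_eq N a x
      show g • (m : G) • a = (n : G) • (m : G) • a
      rw [← mul_smul, ← hcen m m.2, mul_smul, ← hn]
      show (m : G) • (n : G) • a = (n : G) • (m : G) • a
      rw [← mul_smul, ← mul_smul]
      exact congrArg (fun z : N => (z : G) • a) (hcomm m n)
    have h3 : (⟨g, hgn ▸ n.2⟩ : N) ∈ M.subgroupOf N := hg
    rw [e, Subgroup.mem_bot] at h3
    exact congrArg Subtype.val h3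
  · exact Subgroup.subgroupOf_eq_top.1 e

end Cfsg.Agent.S3356
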