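import Cfsg.Statements.S3358
import Mathlib
import Cfsg.Agent.Lib.Spectrum.FCStructure

set_option autoImplicit false
open Cfsg

namespace Cfsg.Agent.S3358

/-- Structure of solvable Frobenius complements. Let G be a finite solvable group that occurs as a Frobenius complement. Then G has a normal subgroup G₀ such that G/G₀ is isomorphic to a subgroup of Sym(4) (G₀ is the kernel of a homomorphism to Sym(4)), all Sylow subgroups of G₀ are cyclic, and G₀ has a presentation ⟨x, y | x^n = 1, y^m = 1, x⁻¹ y x = y^r⟩ with n, m ≥ 1, gcd(r − 1, m) = gcd(n, m) = 1 and r^(n/n′) ≡ 1 (mod m), where n′ is the product of the distinct primes dividing n. -/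
theorem result {G : Type*} [Group G] [Finite G] (hsol : Group.IsSolvable G)
    (hFC : ∃ (L : Type) (_ : Group L) (_ : Finite L) (H : Subgroup L), Cfsg.IsFrobeniusComplement H ∧ Nonempty (G ≃* H)) :
    ∃ G₀ : Subgroup G, G₀.Normal ∧
      (∃ f : G →* Equiv.Perm (Fin 4), f.ker = G₀) ∧
      (∀ (p : ℕ) [Fact p.Prime] (P : Sylow p G₀), IsCyclic P) ∧
      ∃ n m r : ℕ, 0 < n ∧ 0 < m ∧ Nat.Coprime (r - 1) m ∧ Nat.Coprime n m ∧ 1 ≤ r ∧
        r ^ (n / ∏ p ∈ n.primeFactors, p) % m = 1 % m ∧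
        Nonempty (G₀ ≃* PresentedGroup
          ({FreeGroup.of (0 : Fin 2) ^ n, FreeGroup.of (1 : Fin 2) ^ m,
            (FreeGroup.of (0 : Fin 2))⁻¹ * FreeGroup.of 1 * FreeGroup.of 0 * (FreeGroup.of (1 : Fin 2) ^ r)⁻¹} :
            Set (FreeGroup (Fin 2)))) := by
  obtain ⟨L, _, _, H, hH, ⟨e⟩⟩ := hFC
  haveI := hsol
  obtain ⟨d, M, hd, hMinj, -, hM⟩ := CfsgLib.Spectrum.FPFIrred.exists_irreducible_fpf (K := AlgebraicClosure ℚ)
    ((CfsgLib.FCRep.normFree_of_isFrobeniusComplement hH).of_injective e.toMonoidHom e.injective)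
  haveI : NeZero d := ⟨hd.ne'⟩
  let ρ : G →* Module.End (AlgebraicClosure ℚ) (Fin d → AlgebraicClosure ℚ) :=
    Matrix.toLinAlgEquiv'.toAlgHom.toMonoidHom.comp
      ((Units.coeHom (Matrix (Fin d) (Fin d) (AlgebraicClosure ℚ))).comp M)
  have hρ : ∀ g : G, g ≠ 1 → ∀ v, ρ g v = v → v = 0 := fun g hg v hv => hM g hg v (by
    simpa [ρ] using hv)
  obtain ⟨f, hf⟩ := CfsgLib.Spectrum.FCStructure.exists_hom_four ρ hρ
  haveI := CfsgLib.Spectrum.FCStructure.isZGroup_ker ρ hρ f hf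
  obtain ⟨x, y, n, m, r, hn, hm, h1, h2, h3, h4, hx, hy, hxy, hcard, hgen⟩ :=
    CfsgLib.Spectrum.FCStructure.exists_generators ρ hρ f.ker
  exact ⟨f.ker, inferInstance, ⟨f, rfl⟩, fun p hp P => IsZGroup.isZGroup p hp.out P, n, m, r, hn, hm,
    h1, h2, h3, h4,
    CfsgLib.Spectrum.FCStructure.presentation_iso x y n m r hn hm hx hy hxy hcard hgen⟩

end Cfsg.Agent.S3358
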