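import Cfsg.Statements.S3361
import Cfsg.Agent.Lib.TransitiveLinear.RegularSolvable
import Cfsg.Agent.S0688

set_option autoImplicit false
open Cfsg

namespace Cfsg.Agent.S3361

/-- Let q be a prime and V a non-trivial finite vector space over the field with q elements, and let G be a finite solvable group acting faithfully and linearly on V and regularly on the non-zero vectors (transitively, with only the identity fixing a non-zero vector). Then either V can be identified with the additive group of a finite field F so that every element of G acts as x ↦ a·σ(x) (a ∈ F, σ a field automorphism), or V has 5^2, 7^2, 11^2 or 23^2 elements. Moreover, if q ≠ 2 then G has a normal subgroup of index 2, except that when V has 25 elements G may be isomorphic to SL(2,3) and when V has 121 elements G may be isomorphic to SL(2,3) × C₅. -/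
theorem result
    (q : ℕ) [Fact q.Prime] {V : Type*} [AddCommGroup V] [Module (ZMod q) V] [Finite V] [Nontrivial V]
    {G : Type*} [Group G] [Finite G] (hsol : Group.IsSolvable G)
    (ρ : G →* (V ≃ₗ[ZMod q] V)) (hρ : Function.Injective ρ)
    (htrans : ∀ v w : V, v ≠ 0 → w ≠ 0 → ∃ g : G, ρ g v = w)
    (hreg : ∀ v : V, v ≠ 0 → ∀ g : G, ρ g v = v → g = 1) :
    ((∃ (F : Type) (_ : Field F) (_ : Fintype F) (e : V ≃+ F),
        ∀ g : G, ∃ (a : F) (σ : F ≃+* F), ∀ v : V, e (ρ g v) = a * σ (e v)) ∨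
      Nat.card V ∈ ({25, 49, 121, 529} : Set ℕ)) ∧
    (q ≠ 2 → (∃ N : Subgroup G, N.Normal ∧ N.index = 2) ∨
      (Nat.card V = 25 ∧ Nonempty (G ≃* Matrix.SpecialLinearGroup (Fin 2) (ZMod 3))) ∨
      (Nat.card V = 121 ∧ Nonempty (G ≃* Matrix.SpecialLinearGroup (Fin 2) (ZMod 3) × Multiplicative (ZMod 5)))) := by
  open CfsgLib.PermGroups.Regular in
  classical
  have : Group.IsSolvable G := hsol
  have hs : Group.IsSolvable ρ.range :=
    Group.isSolvable_of_surjective (f := ρ.rangeRestrict) ρ.rangeRestrict_surjective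
  have hreg' : ∀ v w : V, v ≠ 0 → w ≠ 0 → ∃! h : ρ.range, (h : V ≃ₗ[ZMod q] V) v = w := by
    intro v w hv hw
    obtain ⟨g, hg⟩ := htrans v w hv hw
    refine ⟨⟨ρ g, g, rfl⟩, hg, ?_⟩
    rintro ⟨_, g', rfl⟩ hg'
    have h1 : ρ (g⁻¹ * g') v = v := by
      change ρ g' v = w at hg'
      rw [map_mul]
      show (ρ g⁻¹) (ρ g' v) = v
      rw [hg', ← hg, map_inv]
      exact (ρ g).symm_apply_apply v
    exact Subtype.ext (congrArg ρ (inv_mul_eq_one.1 (hreg v hv _ h1)).symm)
  let e₀ : G ≃* ρ.range := MonoidHom.ofInjective hρ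
  have back : (∃ N : Subgroup ρ.range, N.Normal ∧ N.index = 2) →
      ∃ N : Subgroup G, N.Normal ∧ N.index = 2 := by
    rintro ⟨N, hN, hi⟩
    refine ⟨N.comap e₀.toMonoidHom, hN.comap _, ?_⟩
    exact (N.index_comap_of_surjective (f := e₀.toMonoidHom) e₀.surjective).trans hi
  by_cases hI : CfsgLib.PermGroups.Regular.NoIrredCyclic ρ.range
  · have hcard := Cfsg.Agent.S0688.result ρ.range hreg' hI hs
    refine ⟨Or.inr (by rcases hcard with h | h | h | h <;> simp [h]), fun _ => ?_⟩
    rcases CfsgLib.TransitiveLinear.index_two_or_exception hreg' hI hs with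
      h | ⟨h, ⟨e⟩⟩ | ⟨h, ⟨e⟩⟩ | h
    · exact Or.inl (back h)
    · exact Or.inr (Or.inl ⟨h, ⟨e₀.trans e⟩⟩)
    · exact Or.inr (Or.inr ⟨h, ⟨e₀.trans e⟩⟩)
    · omega
  · simp only [CfsgLib.PermGroups.Regular.NoIrredCyclic, not_forall] at hI
    obtain ⟨A, hA, hc, hI⟩ := hI
    push Not at hI
    have hirr : CfsgLib.PermGroups.Regular.Irred A := fun W hW => by
      by_contra h
      push Not at h
      obtain ⟨a, ha, v, hv, hav⟩ := hI W h.1 h.2
      exact hav (hW a ha v hv)
    have hcomm : IsMulCommutative A := hc.isMulCommutative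
    refine ⟨Or.inl ?_, fun hq => Or.inl (back
      (CfsgLib.TransitiveLinear.index_two_of_irred_abelian hreg' hq hA hcomm hirr))⟩
    obtain ⟨F, iF, iFF, e, he⟩ :=
      CfsgLib.TransitiveLinear.semilinear_of_irred_abelian hA hcomm hirr
    refine ⟨F, iF, iFF, e, fun g => ?_⟩
    obtain ⟨a, σ, h⟩ := he ⟨ρ g, g, rfl⟩
    exact ⟨a, σ, h⟩

end Cfsg.Agent.S3361
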