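import Cfsg.Statements.S3362
import Mathlib
import Cfsg.Agent.Lib.Spectrum.M12Perm
import Cfsg.Agent.Lib.Mathieu.Sharp

set_option autoImplicit false
open Cfsg

namespace Cfsg.Agent.S3362

open CfsgLib.Spectrum.M12Perm

set_option maxRecDepth 100000 in
theorem check_closed : closedL levels = true := by decide +kernel

set_option maxRecDepth 100000 in
theorem check_closed1 : closedL (levels.drop 1) = true := by decide +kernel

set_option maxRecDepth 100000 in
theorem checks : sharpL levels [] = true ∧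
    sharpL (levels.drop 1) [2] = true ∧ memL levels idT = true ∧ memL (levels.drop 1) idT = true ∧
    (genT.all (memL levels)) = true ∧ ((genT.take 7).all (memL (levels.drop 1))) = true ∧
    slpOK (genT ++ [idT]) slp12 = true ∧ slpOK (genT.take 7 ++ [idT]) slp11 = true ∧
    (levels.all fun l => l.2.all fun t => ((genT ++ [idT]) ++ slp12.map Prod.fst).contains t) = true ∧
    ((levels.drop 1).all fun l => l.2.all fun t =>
      ((genT.take 7 ++ [idT]) ++ slp11.map Prod.fst).contains t) = true ∧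
    levels.map Prod.fst = [2, 0, 1, 3, 4] := by
  decide +kernel

theorem realized {K : Subgroup (Equiv.Perm (Fin 12))} {env : List ℕ} {p : List (ℕ × ℕ × ℕ)}
    {L : List (ℕ × List ℕ)} (hp : slpOK env p = true) (he : ∀ t ∈ env, ∃ σ ∈ K, tb σ = t)
    (hL : (L.all fun l => l.2.all fun t => (env ++ p.map Prod.fst).contains t) = true) :
    Realized K L := fun l hl t ht => by
  refine slp_real hp he t ?_
  simpa using List.all_eq_true.1 (List.all_eq_true.1 hL l hl) t ht

/-- An explicit construction of the Mathieu groups of degrees 11 and 12. On the points 0, …, 11 let s = (3 4 5)(6 7 8)(9 10 11), t = (3 6 9)(4 7 10)(5 8 11), u = (4 6 5 9)(7 8 11 10), v = (4 7 5 11)(6 10 9 8), w = (4 10 5 8)(6 11 9 7), x₁ = (0 3)(6 7)(8 10)(9 11), x₂ = (0 1)(6 9)(7 10)(8 11), x₃ = (1 2)(6 11)(7 9)(8 10) (each written as a product of transpositions). Then the group M₁₂ generated by all eight permutations is sharply 5-transitive on the 12 points and has order 95040, and the group M₁₁ generated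 by the first seven has order 7920 and is the stabilizer of the point 2 in M₁₂. -/
theorem result
    (s t u v w x₁ x₂ x₃ : Equiv.Perm (Fin 12))
    (hs : s = Equiv.swap (3 : Fin 12) 5 * Equiv.swap (3 : Fin 12) 4 * Equiv.swap (6 : Fin 12) 8 * Equiv.swap (6 : Fin 12) 7 * Equiv.swap (9 : Fin 12) 11 * Equiv.swap (9 : Fin 12) 10) (ht : t = Equiv.swap (3 : Fin 12) 9 * Equiv.swap (3 : Fin 12) 6 * Equiv.swap (4 : Fin 12) 10 * Equiv.swap (4 : Fin 12) 7 * Equiv.swap (5 : Fin 12) 11 * Equiv.swap (5 : Fin 12) 8)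
    (hu : u = Equiv.swap (4 : Fin 12) 9 * Equiv.swap (4 : Fin 12) 5 * Equiv.swap (4 : Fin 12) 6 * Equiv.swap (7 : Fin 12) 10 * Equiv.swap (7 : Fin 12) 11 * Equiv.swap (7 : Fin 12) 8) (hv : v = Equiv.swap (4 : Fin 12) 11 * Equiv.swap (4 : Fin 12) 5 * Equiv.swap (4 : Fin 12) 7 * Equiv.swap (6 : Fin 12) 8 * Equiv.swap (6 : Fin 12) 9 * Equiv.swap (6 : Fin 12) 10) (hw : w = Equiv.swap (4 : Fin 12) 8 * Equiv.swap (4 : Fin 12) 5 * Equiv.swap (4 : Fin 12) 10 * Equiv.swap (6 : Fin 12) 7 * Equiv.swap (6 : Fin 12) 9 * Equiv.swap (6 : Fin 12) 11)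
    (hx₁ : x₁ = Equiv.swap (0 : Fin 12) 3 * Equiv.swap (6 : Fin 12) 7 * Equiv.swap (8 : Fin 12) 10 * Equiv.swap (9 : Fin 12) 11) (hx₂ : x₂ = Equiv.swap (0 : Fin 12) 1 * Equiv.swap (6 : Fin 12) 9 * Equiv.swap (7 : Fin 12) 10 * Equiv.swap (8 : Fin 12) 11)
    (hx₃ : x₃ = Equiv.swap (1 : Fin 12) 2 * Equiv.swap (6 : Fin 12) 11 * Equiv.swap (7 : Fin 12) 9 * Equiv.swap (8 : Fin 12) 10)
    (M₁₂ M₁₁ : Subgroup (Equiv.Perm (Fin 12))) (hM₁₂ : M₁₂ = Subgroup.closure {s, t, u, v, w, x₁, x₂, x₃})
    (hM₁₁ : M₁₁ = Subgroup.closure {s, t, u, v, w, x₁, x₂}) :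
    MulAction.IsMultiplyPretransitive M₁₂ (Fin 12) 5 ∧ (∀ y : Fin 5 ↪ Fin 12, MulAction.stabilizer M₁₂ y = ⊥) ∧
    Nat.card M₁₂ = 95040 ∧ Nat.card M₁₁ = 7920 ∧
    M₁₁ = M₁₂ ⊓ MulAction.stabilizer (Equiv.Perm (Fin 12)) (2 : Fin 12) := by
  classical
  have hg : genT = [tb s, tb t, tb u, tb v, tb w, tb x₁, tb x₂, tb x₃] := by
    subst hs ht hu hv hw hx₁ hx₂ hx₃
    decide +kernel
  obtain ⟨hsh, hsh1, hid, hid1, hgen, hgen1, hp, hp1, hU, hU1, hb⟩ := checks
  have hc := check_closed
  have hc1 := check_closed1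
  have hR : Realized M₁₂ levels := realized hp (fun a ha => by
    rw [hM₁₂]
    simp only [hg, List.mem_append, List.mem_cons, List.not_mem_nil, or_false] at ha
    rcases ha with (e | e | e | e | e | e | e | e) | e
    exacts [⟨s, Subgroup.subset_closure (by simp), e.symm⟩,
      ⟨t, Subgroup.subset_closure (by simp), e.symm⟩,
      ⟨u, Subgroup.subset_closure (by simp), e.symm⟩,
      ⟨v, Subgroup.subset_closure (by simp), e.symm⟩,
      ⟨w, Subgroup.subset_closure (by simp), e.symm⟩,
      ⟨x₁, Subgroup.subset_closure (by simp), e.symm⟩,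
      ⟨x₂, Subgroup.subset_closure (by simp), e.symm⟩,
      ⟨x₃, Subgroup.subset_closure (by simp), e.symm⟩,
      ⟨1, one_mem _, tb_one.trans e.symm⟩]) hU
  have hR1 : Realized M₁₁ (levels.drop 1) := realized hp1 (fun a ha => by
    rw [hM₁₁]
    simp only [hg, List.take_succ_cons, List.take_zero, List.mem_append, List.mem_cons,
      List.not_mem_nil, or_false] at ha
    rcases ha with (e | e | e | e | e | e | e) | e
    exacts [⟨s, Subgroup.subset_closure (by simp), e.symm⟩,
      ⟨t, Subgroup.subset_closure (by simp), e.symm⟩,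
      ⟨u, Subgroup.subset_closure (by simp), e.symm⟩,
      ⟨v, Subgroup.subset_closure (by simp), e.symm⟩,
      ⟨w, Subgroup.subset_closure (by simp), e.symm⟩,
      ⟨x₁, Subgroup.subset_closure (by simp), e.symm⟩,
      ⟨x₂, Subgroup.subset_closure (by simp), e.symm⟩,
      ⟨1, one_mem _, tb_one.trans e.symm⟩]) hU1
  have h12 : ∀ σ, σ ∈ M₁₂ ↔ InL levels σ := inL_iff hM₁₂ hR hc hid (fun a ha => by
    refine List.all_eq_true.1 hgen _ ?_
    rw [hg]
    simp only [Set.mem_insert_iff, Set.mem_singleton_iff] at ha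
    rcases ha with rfl | rfl | rfl | rfl | rfl | rfl | rfl | rfl <;> simp)
  have h11 : ∀ σ, σ ∈ M₁₁ ↔ InL (levels.drop 1) σ := inL_iff hM₁₁ hR1 hc1 hid1 (fun a ha => by
    refine List.all_eq_true.1 hgen1 _ ?_
    rw [hg]
    simp only [Set.mem_insert_iff, Set.mem_singleton_iff] at ha
    rcases ha with rfl | rfl | rfl | rfl | rfl | rfl | rfl <;> simp)
  let base : Fin 5 ↪ Fin 12 := ⟨![2, 0, 1, 3, 4], by decide +kernel⟩
  have hlen : levels.length = 5 := by simpa using congrArg List.length hb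
  have htrans : ∀ y : Fin 5 ↪ Fin 12, ∃ g : M₁₂, g • base = y := by
    intro y
    obtain ⟨σ, hσ, hmap⟩ := inL_exists_map hR hsh (List.ofFn y) (by simp [hlen])
      (List.nodup_ofFn.2 y.injective) (by simp)
    refine ⟨⟨σ, (h12 σ).2 hσ⟩, DFunLike.ext _ _ fun i => ?_⟩
    have h := hmap i.val (by rw [hlen]; exact i.2) (by simp)
    rw [List.getElem_ofFn] at h
    refine Eq.trans ?_ h
    show σ (base i) = _
    congr 1
    apply Fin.ext
    show _ = (levels[i.val]'(by rw [hlen]; exact i.2)).1 % 12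
    have h3 : (levels[i.val]'(by rw [hlen]; exact i.2)).1 = [2, 0, 1, 3, 4][i.val] := by
      simp only [← hb, List.getElem_map]
    rw [h3]
    fin_cases i <;> rfl
  have hbase : ∀ g : M₁₂, g • base = base → g = 1 := by
    intro g h
    refine Subtype.ext (inL_eq_one hsh ((h12 _).1 g.2) fun b hb' => ?_)
    rw [hb] at hb'
    have hfix : ∀ i, (g : Equiv.Perm (Fin 12)) (base i) = base i := fun i => DFunLike.congr_fun h i
    simp only [List.mem_cons, List.not_mem_nil, or_false] at hb'
    rcases hb' with e | e | e | e | e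
    · rw [show b = base 0 from Fin.ext e]; exact hfix 0
    · rw [show b = base 1 from Fin.ext e]; exact hfix 1
    · rw [show b = base 2 from Fin.ext e]; exact hfix 2
    · rw [show b = base 3 from Fin.ext e]; exact hfix 3
    · rw [show b = base 4 from Fin.ext e]; exact hfix 4
  have hmp : MulAction.IsMultiplyPretransitive M₁₂ (Fin 12) 5 := ⟨fun a b => by
    obtain ⟨g, hga⟩ := htrans a
    obtain ⟨k, hkb⟩ := htrans b
    exact ⟨k * g⁻¹, (mul_smul k g⁻¹ _).trans ((congrArg (k • ·) (by rw [← hga]; exact inv_smul_smul g base)).trans hkb)⟩⟩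
  have hsharp : ∀ y : Fin 5 ↪ Fin 12, MulAction.stabilizer M₁₂ y = ⊥ := by
    intro y
    rw [Subgroup.eq_bot_iff_forall]
    intro k hk
    obtain ⟨g, hgy⟩ := htrans y
    have h : (g⁻¹ * k * g) • base = base := by
      have hk' : k • (g • base) = g • base := by rw [hgy]; exact hk
      exact (mul_smul (g⁻¹ * k) g base).trans ((mul_smul g⁻¹ k _).trans
        ((congrArg (g⁻¹ • ·) hk').trans (inv_smul_smul g base)))
    have := hbase _ h
    rw [mul_assoc, inv_mul_eq_one] at this
    simpa using this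
  haveI := hmp
  have hcard : Nat.card M₁₂ = 95040 := by
    rw [CfsgLib.Mathieu.card_of_sharply hsharp (by rw [Nat.card_fin]; norm_num), Nat.card_fin]
    decide +kernel
  have hlv : levels = (levels.head (by intro h; rw [h] at hlen; simp at hlen)) :: levels.drop 1 := by
    rw [List.drop_one, List.cons_head_tail]
  have heq : M₁₁ = M₁₂ ⊓ MulAction.stabilizer (Equiv.Perm (Fin 12)) (2 : Fin 12) := by
    apply le_antisymm
    · intro σ hσ
      refine ⟨?_, inL_fix hsh1 ((h11 σ).1 hσ) 2 (by simp)⟩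
      have hle : M₁₁ ≤ M₁₂ := by
        rw [hM₁₁, hM₁₂]
        refine Subgroup.closure_mono fun a ha => ?_
        simp only [Set.mem_insert_iff, Set.mem_singleton_iff] at ha ⊢
        exact ha.imp_right fun h => h.imp_right fun h => h.imp_right fun h => h.imp_right fun h =>
          h.imp_right fun h => h.imp_right fun h => Or.inl h
      exact hle hσ
    · rintro σ ⟨hσ, hσ2⟩
      have hσ2' : σ 2 = 2 := hσ2
      obtain ⟨a, b, ha, hb', rfl⟩ : InL (_ :: levels.drop 1) σ := hlv ▸ (h12 σ).1 hσ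
      have hb2 := inL_fix hsh1 hb' 2 (by simp)
      have h0 : (levels.head (by intro h; rw [h] at hlen; simp at hlen)).1 = 2 := by
        have h := hb
        rw [hlv, List.map_cons] at h
        exact (List.cons.injEq _ _ _ _ ▸ h).1
      have ha1 : a = 1 := by
        have hs' := hsh
        rw [hlv] at hs'
        simp only [sharpL, Bool.and_eq_true, List.all_eq_true, Bool.or_eq_true, bne_iff_ne,
          beq_iff_eq] at hs'
        rcases (hs'.1.1.2 _ ha).2 with h | h
        · refine absurd ?_ h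
          rw [h0, show (2 : ℕ) = (2 : Fin 12).val from rfl, imAt_tb]
          rw [Equiv.Perm.mul_apply, hb2] at hσ2'
          rw [hσ2']
        · exact tb_injective (h.trans tb_one.symm)
      rw [ha1, one_mul]
      exact (h11 b).2 hb'
  refine ⟨hmp, hsharp, hcard, ?_, heq⟩
  haveI : MulAction.IsPretransitive M₁₂ (Fin 12) :=
    CfsgLib.Mathieu.isPretransitive_of_le (k := 5) (by norm_num) (by rw [Nat.card_fin]; norm_num)
  have h := (MulAction.stabilizer M₁₂ (2 : Fin 12)).card_mul_index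
  rw [MulAction.index_stabilizer_of_transitive, Nat.card_fin, hcard] at h
  have e : Nat.card M₁₁ = Nat.card (MulAction.stabilizer M₁₂ (2 : Fin 12)) := by
    rw [heq]
    exact Nat.card_congr
      { toFun := fun g => ⟨⟨g.1, g.2.1⟩, g.2.2⟩
        invFun := fun g => ⟨g.1.1, g.1.2, g.2⟩
        left_inv := fun _ => rfl
        right_inv := fun _ => rfl }
  omega

end Cfsg.Agent.S3362
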