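import Cfsg.Statements.S3370
import Mathlib
import Cfsg.Agent.Lib.Spectrum.PowerArith
import Cfsg.Agent.Lib.TwoGroups.RankOne

set_option autoImplicit false
open Cfsg

namespace Cfsg.Agent.S3370

open CfsgLib.Spectrum

/-- An element of order eight. -/
def matX : GL (Fin 2) (ZMod 3) := ⟨!![1, 1; 1, 0], !![0, 1; 1, 2], by decide +kernel, by decide +kernel⟩

/-- An involution acting on it as the Frobenius map. -/
def matY : GL (Fin 2) (ZMod 3) := ⟨!![2, 0; 1, 1], !![2, 0; 1, 1], by decide +kernel, by decide +kernel⟩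

theorem mat_facts : matX ^ 8 = 1 ∧ matX ^ 4 ≠ 1 ∧ matY ^ 2 = 1 ∧ matY ≠ 1 ∧
    matY * matX * matY⁻¹ = matX ^ 3 := by decide +kernel

theorem card_GL23 : Nat.card (GL (Fin 2) (ZMod 3)) = 48 := by
  rw [Nat.card_eq_fintype_card]; decide +kernel

theorem isQuasiDihedral_of_card {G : Type*} [Group G] [Finite G] (φ : G →* GL (Fin 2) (ZMod 3))
    (hφ : Function.Injective φ) (hG : Nat.card G = 16) : Cfsg.IsQuasiDihedral G := by
  haveI : Fact (Nat.Prime 2) := ⟨Nat.prime_two⟩
  obtain ⟨hx8, hx4, hy2, hy1, hrel⟩ := mat_facts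
  have hox : orderOf matX = 2 ^ (2 + 1) := orderOf_eq_prime_pow hx4 hx8
  have hoy : orderOf matY = 2 := orderOf_eq_prime hy2 hy1
  have hnorm : Subgroup.zpowers matY ≤
      Subgroup.normalizer ((Subgroup.zpowers matX : Subgroup (GL (Fin 2) (ZMod 3))) : Set (GL (Fin 2) (ZMod 3))) := by
    rw [Subgroup.zpowers_le, Subgroup.mem_normalizer_iff]
    have hc : ∀ h, h ∈ Subgroup.zpowers matX → matY * h * matY⁻¹ ∈ Subgroup.zpowers matX := by
      rintro _ ⟨i, rfl⟩
      refine ⟨3 * i, ?_⟩
      show matX ^ (3 * i) = matY * matX ^ i * matY⁻¹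
      rw [← conj_zpow, hrel, zpow_mul]
      rfl
    refine fun h => ⟨hc h, fun hh => ?_⟩
    have := hc _ hh
    have hy' : matY⁻¹ = matY := inv_eq_of_mul_eq_one_right (by rw [← pow_two]; exact hy2)
    rw [hy', ← mul_assoc, ← mul_assoc, ← pow_two, hy2, one_mul, mul_assoc, ← pow_two, hy2, mul_one] at this
    exact this
  have hX : IsPGroup 2 (Subgroup.zpowers matX) :=
    IsPGroup.of_card (n := 3) (by rw [Nat.card_zpowers, hox])
  have hY : IsPGroup 2 (Subgroup.zpowers matY) :=
    IsPGroup.of_card (n := 1) (by rw [Nat.card_zpowers, hoy, pow_one])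
  obtain ⟨P, hP⟩ := (IsPGroup.to_sup_of_normal_right' hY hX hnorm).exists_le_sylow
  have hc16 : Nat.card φ.range = 16 :=
    (Nat.card_congr (MonoidHom.ofInjective hφ).toEquiv).symm.trans hG
  obtain ⟨P0, hP0⟩ := (IsPGroup.of_card (p := 2) (n := 4) (G := φ.range) (by rw [hc16]; norm_num)).exists_le_sylow
  have h48 := card_GL23
  have hP0' : (P0 : Subgroup (GL (Fin 2) (ZMod 3))) = φ.range := by
    refine (Subgroup.eq_of_le_of_card_ge hP0 ?_).symm
    rw [hc16]
    obtain ⟨k, hk⟩ := IsPGroup.iff_card.1 P0.isPGroup'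
    have hd : 2 ^ k ∣ 48 := hk ▸ h48 ▸ (P0 : Subgroup (GL (Fin 2) (ZMod 3))).card_subgroup_dvd_card
    rw [hk]
    by_contra hcon
    have : 2 ^ 5 ∣ 48 := (pow_dvd_pow 2 (by
      by_contra h
      have := Nat.pow_le_pow_right (show 0 < 2 by norm_num) (show k ≤ 4 by omega)
      omega : 5 ≤ k)).trans hd
    norm_num at this
  let e : (P : Subgroup (GL (Fin 2) (ZMod 3))) ≃* G :=
    ((P.equiv P0).trans (MulEquiv.subgroupCongr hP0')).trans (MonoidHom.ofInjective hφ).symm
  refine ⟨3, le_rfl, by rw [hG]; norm_num,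
    e ⟨matX, hP (Subgroup.mem_sup_right (Subgroup.mem_zpowers _))⟩,
    e ⟨matY, hP (Subgroup.mem_sup_left (Subgroup.mem_zpowers _))⟩, ?_, ?_, ?_⟩
  · rw [MulEquiv.orderOf_eq, Subgroup.orderOf_mk, hox]
  · rw [MulEquiv.orderOf_eq, Subgroup.orderOf_mk, hoy]
  · rw [← map_inv, ← map_mul, ← map_mul, ← map_pow]
    congr 1
    exact Subtype.ext hrel

/-- Let q be a prime, V a non-trivial finite vector space over the field with q elements, and G a non-trivial finite p-group (p prime) acting faithfully and linearly on V and transitively on the non-zero vectors. Then either q = 2 and G has prime order p = |V| − 1; or p = 2, V has q elements with q = 2^m + 1 and G is cyclic of order 2^m; or p = 2, q = 3, V has 9 elements and G is cyclic of order 8, quaternion of order 8, or semidihedral of order 16. -/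
theorem result (q : ℕ) [Fact q.Prime] {V : Type*} [AddCommGroup V] [Module (ZMod q) V] [Finite V] [Nontrivial V]
    {G : Type*} [Group G] [Finite G] [Nontrivial G] (p : ℕ) [Fact p.Prime] (hG : IsPGroup p G)
    (ρ : G →* (V ≃ₗ[ZMod q] V)) (hρ : Function.Injective ρ)
    (htrans : ∀ v w : V, v ≠ 0 → w ≠ 0 → ∃ g : G, ρ g v = w) :
    (q = 2 ∧ p = Nat.card V - 1 ∧ Nat.card G = p) ∨
    (p = 2 ∧ Nat.card V = q ∧ (∃ m : ℕ, q = 2 ^ m + 1 ∧ Nat.card G = 2 ^ m) ∧ IsCyclic G) ∨
    (p = 2 ∧ q = 3 ∧ Nat.card V = 9 ∧
      ((IsCyclic G ∧ Nat.card G = 8) ∨ Nonempty (G ≃* QuaternionGroup 2) ∨ (Cfsg.IsQuasiDihedral G ∧ Nat.card G = 16))) := by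
  classical
  letI : MulAction G V := MulAction.compHom V ρ
  have hsm : ∀ (g : G) (v : V), g • v = ρ g v := fun _ _ => rfl
  have hV : Nat.card V = q ^ Module.finrank (ZMod q) V := by
    rw [Module.natCard_eq_pow_finrank (K := ZMod q), Nat.card_zmod]
  set N := Module.finrank (ZMod q) V with hNdef
  have hN1 : 1 ≤ N := Module.finrank_pos
  obtain ⟨v, hv⟩ := exists_ne (0 : V)
  have horb : MulAction.orbit G v = {w : V | w ≠ 0} := by
    ext w
    constructor
    · rintro ⟨g, rfl⟩
      show ρ g v ≠ 0
      rwa [Ne, LinearEquiv.map_eq_zero_iff]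
    · intro hw
      obtain ⟨g, hg⟩ := htrans v w hv hw
      exact ⟨g, hg⟩
  have hidx : (MulAction.stabilizer G v).index = Nat.card V - 1 := by
    rw [MulAction.index_stabilizer, horb, show {w : V | w ≠ 0} = ({0} : Set V)ᶜ from rfl,
      Set.ncard_compl, Set.ncard_singleton]
  have hcardG : Nat.card (MulAction.stabilizer G v) * (Nat.card V - 1) = Nat.card G := by
    rw [← hidx, Subgroup.card_mul_index]
  obtain ⟨a, ha⟩ := IsPGroup.iff_card.1 hG
  obtain ⟨e, -, he⟩ := (Nat.dvd_prime_pow (Fact.out : p.Prime)).1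
    (show Nat.card V - 1 ∣ p ^ a from ⟨_, by rw [← ha, ← hcardG, mul_comm]⟩)
  have hq2 : 2 ≤ q := (Fact.out : q.Prime).two_le
  have hV2 : 2 ≤ Nat.card V := Finite.one_lt_card
  have hfaith : ∀ g : G, (∀ w, ρ g w = w) → g = 1 := fun g h =>
    hρ (by rw [map_one]; exact LinearEquiv.ext h)
  rcases (Fact.out : q.Prime).eq_two_or_odd with rfl | hqodd
  · left
    have h1 : p ^ e + 1 = 2 ^ N := by rw [← hV, ← he]; omega
    have he0 : 1 ≤ e := by
      by_contra h0
      rw [show e = 0 by omega, pow_zero] at he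
      obtain ⟨g, hg⟩ := exists_ne (1 : G)
      refine hg (hfaith g fun w => ?_)
      by_cases hw : w = 0
      · rw [hw, map_zero]
      · have h2 : Nat.card V = 2 := by omega
        have : ({0, w, ρ g w} : Finset V).card ≤ 2 := by
          haveI := Fintype.ofFinite V
          exact (Finset.card_le_univ _).trans (by rw [← Nat.card_eq_fintype_card]; omega)
        by_contra hne
        have hgw : ρ g w ≠ 0 := by rwa [Ne, LinearEquiv.map_eq_zero_iff]
        rw [Finset.card_insert_of_notMem (by simp [Ne.symm hw, Ne.symm hgw]),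
          Finset.card_pair (Ne.symm hne)] at this
        omega
    obtain rfl := eq_one_of_pow_add_one_eq_two_pow (Fact.out : p.Prime).two_le he0 h1
    rw [pow_one] at he
    refine ⟨rfl, he.symm, ?_⟩
    have hp : (MulAction.stabilizer G v).index = p := hidx.trans he
    have hmin : (Nat.card G).minFac = p := by
      rw [ha]
      refine (Fact.out : p.Prime).pow_minFac fun h0 => ?_
      rw [h0, pow_zero] at ha
      exact absurd ha (Nat.ne_of_gt Finite.one_lt_card)
    haveI : (MulAction.stabilizer G v).Normal :=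
      Subgroup.normal_of_index_eq_minFac_card (hp.trans hmin.symm)
    have hbot : MulAction.stabilizer G v = ⊥ := by
      rw [Subgroup.eq_bot_iff_forall]
      intro g hg
      refine hfaith g fun w => ?_
      by_cases hw : w = 0
      · rw [hw, map_zero]
      · obtain ⟨h, rfl⟩ := htrans v w hv hw
        have := ‹(MulAction.stabilizer G v).Normal›.conj_mem g hg h⁻¹
        rw [MulAction.mem_stabilizer_iff, inv_inv, mul_smul, mul_smul, inv_smul_eq_iff] at this
        exact this
    rw [← hcardG, hbot, Subgroup.card_bot, one_mul, he]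
  · right
    have hp2 : p = 2 := by
      have h2 : 2 ∣ p ^ e := by
        rw [← he, hV]
        have : q ^ N % 2 = 1 := Nat.odd_iff.1 (Odd.pow (Nat.odd_iff.2 hqodd))
        omega
      exact ((Nat.prime_dvd_prime_iff_eq Nat.prime_two Fact.out).1 (Nat.prime_two.dvd_of_dvd_pow h2)).symm
    subst hp2
    have h1 : 2 ^ e + 1 = q ^ N := by rw [← he, hV]; have := Nat.one_le_pow N q (by omega); omega
    rcases Nat.lt_or_ge N 2 with hlt | hge
    · left
      have hNone : N = 1 := by omega
      rw [hNone, pow_one] at hV h1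
      have hsp : ∀ w : V, ∃ c : ZMod q, c • v = w := fun w =>
        exists_smul_eq_of_finrank_eq_one (hNdef ▸ hNone) hv w
      choose c hc using hsp
      have hinj := smul_left_injective (ZMod q) hv
      let f : G →* ZMod q :=
        { toFun := fun g => c (ρ g v)
          map_one' := hinj (by simp [hc])
          map_mul' := fun g h => hinj (by
            show c (ρ (g * h) v) • v = (c (ρ g v) * c (ρ h v)) • v
            rw [hc, map_mul, LinearEquiv.mul_apply, mul_comm, mul_smul, hc, ← map_smul, hc]) }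
      have hfix : ∀ g : G, ρ g v = v → g = 1 := fun g hg => hfaith g fun w => by
        rw [← hc w, map_smul, hg]
      have hf : Function.Injective f := by
        intro g h hgh
        have e' : ρ g v = ρ h v := by rw [← hc (ρ g v), ← hc (ρ h v)]; exact congrArg (· • v) hgh
        refine (inv_mul_eq_one.1 (hfix (h⁻¹ * g) ?_)).symm
        show (h⁻¹ * g) • v = v
        rw [mul_smul, inv_smul_eq_iff]
        exact e'
      refine ⟨rfl, hV, ⟨e, h1.symm, ?_⟩, isCyclic_of_subgroup_isDomain f hf⟩
      have hbot : MulAction.stabilizer G v = ⊥ :=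
        (Subgroup.eq_bot_iff_forall _).2 fun g hg => hfix g hg
      rw [← hcardG, hbot, Subgroup.card_bot, one_mul, he]
    · right
      obtain ⟨rfl, hN2, rfl⟩ := eq_nine_of_two_pow_add_one hq2 hge h1
      rw [hN2] at hV
      refine ⟨rfl, rfl, hV.trans (by norm_num), ?_⟩
      let b := Module.finBasisOfFinrankEq (ZMod 3) V (hNdef ▸ hN2)
      let L : G →* Matrix (Fin 2) (Fin 2) (ZMod 3) :=
        { toFun := fun g => LinearMap.toMatrix b b (ρ g : V →ₗ[ZMod 3] V)
          map_one' := by rw [map_one]; exact LinearMap.toMatrix_id b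
          map_mul' := fun g h => by
            rw [map_mul]; exact LinearMap.toMatrix_comp b b b _ _ }
      have hLinj : Function.Injective L := fun g h e => hρ (LinearEquiv.toLinearMap_injective
        ((LinearMap.toMatrix b b).injective e))
      let φ : G →* GL (Fin 2) (ZMod 3) := L.toHomUnits
      have hφ : Function.Injective φ := fun g h e => hLinj (congrArg Units.val e)
      have hd : 2 ^ a ∣ 48 := by
        rw [← ha, ← card_GL23,
          Nat.card_congr (MonoidHom.ofInjective hφ).toEquiv]
        exact φ.range.card_subgroup_dvd_card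
      have ha4 : a ≤ 4 := by
        by_contra hcon
        have : 2 ^ 5 ∣ 48 := (pow_dvd_pow 2 (show 5 ≤ a by omega)).trans hd
        norm_num at this
      have ha3 : 3 ≤ a := by
        have : 2 ^ 3 ∣ 2 ^ a := ⟨_, by rw [← ha, ← hcardG, he, mul_comm]⟩
        exact (Nat.pow_dvd_pow_iff_le_right (by norm_num)).1 this
      rcases (show a = 3 ∨ a = 4 by omega) with rfl | rfl
      · have hbot : MulAction.stabilizer G v = ⊥ := by
          refine Subgroup.card_eq_one.1 ?_
          rw [ha, he] at hcardG
          omega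
        have hfree : ∀ (g : G) (w : V), w ≠ 0 → g • w = w → g = 1 := by
          intro g w hw hg
          obtain ⟨h, rfl⟩ := htrans v w hv hw
          have hmem : h⁻¹ * g * h ∈ MulAction.stabilizer G v := by
            rw [MulAction.mem_stabilizer_iff, mul_smul, mul_smul, inv_smul_eq_iff]
            exact hg
          rw [hbot, Subgroup.mem_bot] at hmem
          calc g = h * (h⁻¹ * g * h) * h⁻¹ := by group
            _ = 1 := by rw [hmem]; group
        have huniq : ∀ g : G, orderOf g = 2 → ∀ w, ρ g w = -w := by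
          intro g hg w
          have h2 : g • g • w = w := by
            rw [smul_smul, ← pow_two, ← hg, pow_orderOf_eq_one, one_smul]
          by_contra hne
          have hw : w + ρ g w ≠ 0 := fun h => hne (eq_neg_of_add_eq_zero_right h)
          have := hfree g _ hw (by
            show ρ g (w + ρ g w) = w + ρ g w
            rw [map_add, show ρ g (ρ g w) = w from h2, add_comm])
          rw [this, orderOf_one] at hg
          norm_num at hg
        rcases CfsgLib.TwoGroups.isCyclic_or_quaternion hG (fun x y hx hy => by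
          have : x = y := hρ (LinearEquiv.ext fun w => by rw [huniq x hx, huniq y hy])
          rw [this]; exact Subgroup.mem_zpowers _) with h | ⟨-, m, hm, ⟨eQ⟩⟩
        · exact Or.inl ⟨h, by rw [ha]; norm_num⟩
        · refine Or.inr (Or.inl ?_)
          have h8 := Nat.card_congr eQ.toEquiv
          rw [ha, Nat.card_eq_fintype_card, QuaternionGroup.card] at h8
          have hm2 : 2 ^ m = 2 := by norm_num at h8; omega
          rw [hm2] at eQ
          exact ⟨eQ⟩
      · exact Or.inr (Or.inr ⟨isQuasiDihedral_of_card φ hφ (by rw [ha]; norm_num), by rw [ha]; norm_num⟩)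

end Cfsg.Agent.S3370
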