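import Cfsg.Statements.S3371
import Mathlib
import Cfsg.Agent.Lib.Spectrum.HalfTransPGroup

set_option autoImplicit false
open Cfsg

namespace Cfsg.Agent.S3371

/-- Let q be a prime, V a non-trivial finite vector space over the field with q elements, and G a finite p-group (p prime) acting faithfully and linearly on V such that all G-orbits on the non-zero vectors have the same size. Then one of the following holds: G is cyclic or generalized quaternion and acts semiregularly on the non-zero vectors; or V has q² elements with q = 2^m − 1 and G is dihedral of order 2^(m+1) or semidihedral of order 2^(m+2); or V has q² elements with q = 2^m + 1 and, in suitable coordinates V = F_q², G is exactly the group of maps (x, y) ↦ (a x, ± a⁻¹ y) and (x, y) ↦ (± a⁻¹ y, a x) with a ≠ 0; or V has 81 elements (q = 3) and G is a 2-group. -/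
theorem result (q : ℕ) [Fact q.Prime] {V : Type*} [AddCommGroup V] [Module (ZMod q) V] [Finite V] [Nontrivial V]
    {G : Type*} [Group G] [Finite G] (p : ℕ) [Fact p.Prime] (hG : IsPGroup p G)
    (ρ : G →* (V ≃ₗ[ZMod q] V)) (hρ : Function.Injective ρ)
    (hhalf : ∀ v w : V, v ≠ 0 → w ≠ 0 → Nat.card {u : V | ∃ g : G, ρ g v = u} = Nat.card {u : V | ∃ g : G, ρ g w = u}) :
    ((IsCyclic G ∨ ∃ n : ℕ, Nonempty (G ≃* QuaternionGroup n)) ∧ ∀ v : V, v ≠ 0 → ∀ g : G, ρ g v = v → g = 1) ∨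
    (Nat.card V = q ^ 2 ∧ ∃ m : ℕ, q = 2 ^ m - 1 ∧
      (Nonempty (G ≃* DihedralGroup (2 ^ m)) ∨ (Cfsg.IsQuasiDihedral G ∧ Nat.card G = 2 ^ (m + 2)))) ∨
    (Nat.card V = q ^ 2 ∧ (∃ m : ℕ, q = 2 ^ m + 1) ∧
      ∃ e : V ≃ₗ[ZMod q] (Fin 2 → ZMod q), ∀ f : (Fin 2 → ZMod q) ≃ₗ[ZMod q] (Fin 2 → ZMod q),
        (∃ g : G, f = e.symm.trans ((ρ g).trans e)) ↔
        ∃ a s : ZMod q, a ≠ 0 ∧ (s = 1 ∨ s = -1) ∧
          ((∀ v, f v = ![a * v 0, s * a⁻¹ * v 1]) ∨ (∀ v, f v = ![s * a⁻¹ * v 1, a * v 0]))) ∨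
    (Nat.card V = 81 ∧ q = 3 ∧ p = 2) := by
  classical
  obtain ⟨v₀, hv₀⟩ := exists_ne (0 : V)
  set c := Nat.card (CfsgLib.Spectrum.HalfTransP.stab ρ v₀) with hcdef
  have hc : ∀ v : V, v ≠ 0 → Nat.card (CfsgLib.Spectrum.HalfTransP.stab ρ v) = c := by
    intro v hv
    have h1 := CfsgLib.Spectrum.HalfTransP.orbit_mul_stab ρ v
    have h2 := CfsgLib.Spectrum.HalfTransP.orbit_mul_stab ρ v₀
    rw [← hhalf v v₀ hv hv₀, ← h1] at h2
    refine (Nat.eq_of_mul_eq_mul_left ?_ h2).symm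
    haveI : Nonempty {u : V | ∃ g : G, ρ g v = u} := ⟨⟨ρ 1 v, 1, rfl⟩⟩
    exact Nat.card_pos
  by_cases hc1 : c = 1
  · exact Or.inl (CfsgLib.Spectrum.HalfTransP.semiregular_case ρ hρ hc hG hc1)
  have hc1' : 1 < c := by
    have : 0 < c := Nat.card_pos
    omega
  have hirr := CfsgLib.Spectrum.HalfTransP.irreducible_of_one_lt ρ hρ hc hc1'
  have hfaith : ∀ g : G, (∀ v, ρ g v = v) → g = 1 := fun g h => hρ (by
    rw [map_one]; exact LinearEquiv.ext h)
  -- `p = 2`
  have hp2 : p = 2 := by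
    by_contra hne
    letI : DistribMulAction G V :=
      { smul := fun g v => ρ g v
        one_smul := fun v => by show ρ 1 v = v; rw [map_one]; rfl
        mul_smul := fun a b v => by show ρ (a * b) v = ρ a (ρ b v); rw [map_mul]; rfl
        smul_zero := fun g => map_zero (ρ g)
        smul_add := fun g => map_add (ρ g) }
    haveI : FaithfulSMul G V := ⟨fun {a b} h => hρ (LinearEquiv.ext h)⟩
    have hfpf := (CfsgLib.HalfTransitive.fpf_of_const_stabilizer (P := G) (E := V) hne hG (Fact.out : q.Prime)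
      (fun e => by rw [← Nat.cast_smul_eq_nsmul (ZMod q), ZMod.natCast_self, zero_smul])
      (fun a b ha hb => (hc a ha).trans (hc b hb).symm)).2
    refine hc1 ?_
    rw [hcdef, Subgroup.card_eq_one, Subgroup.eq_bot_iff_forall]
    exact fun g hg => by_contra fun h => hv₀ (hfpf g h v₀ hg)
  subst hp2
  have hq2 : q ≠ 2 := by
    intro hq
    subst hq
    letI : MulAction G V :=
      { smul := fun g v => ρ g v
        one_smul := fun v => by show ρ 1 v = v; rw [map_one]; rfl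
        mul_smul := fun a b v => by show ρ (a * b) v = ρ a (ρ b v); rw [map_mul]; rfl }
    have hord : addOrderOf v₀ = 2 := addOrderOf_eq_prime (by
      rw [← Nat.cast_smul_eq_nsmul (ZMod 2), ZMod.natCast_self, zero_smul]) hv₀
    obtain ⟨b, hb, hb0⟩ := hG.exists_fixed_point_of_prime_dvd_card_of_fixed_point V
      (hord ▸ addOrderOf_dvd_natCard v₀) (a := (0 : V)) (fun g => map_zero (ρ g))
    have htop : CfsgLib.Spectrum.HalfTransP.stab ρ b = ⊤ := eq_top_iff.2 fun g _ => hb g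
    have hb' : b ≠ 0 := Ne.symm hb0
    have hall : ∀ g : G, g = 1 := by
      intro g
      refine hfaith g fun v => ?_
      by_cases hv : v = 0
      · rw [hv, map_zero]
      have h1 := hc b hb'
      rw [htop, Subgroup.card_top, ← hc v hv] at h1
      have h2 := Subgroup.eq_top_of_card_eq _ h1.symm
      exact (h2 ▸ Subgroup.mem_top g : g ∈ CfsgLib.Spectrum.HalfTransP.stab ρ v)
    refine hc1 ?_
    rw [hcdef, Subgroup.card_eq_one, Subgroup.eq_bot_iff_forall]
    exact fun g _ => hall g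
  -- some involution is not central
  have hinvol : ¬ ∀ w : G, w * w = 1 → ∀ g : G, g * w = w * g := by
    intro hall
    obtain ⟨⟨g, hg⟩, hg1⟩ : ∃ g : CfsgLib.Spectrum.HalfTransP.stab ρ v₀, g ≠ 1 := by
      haveI : Nontrivial (CfsgLib.Spectrum.HalfTransP.stab ρ v₀) :=
        Finite.one_lt_card_iff_nontrivial.1 hc1'
      exact exists_ne 1
    obtain ⟨e, he⟩ := IsPGroup.iff_orderOf.1 hG g
    obtain ⟨e, rfl⟩ : ∃ e', e = e' + 1 := ⟨e - 1, by
      rcases e with _ | e
      · rw [pow_zero, orderOf_eq_one_iff] at he; exact absurd (Subtype.ext he) hg1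
      · rfl⟩
    set w := g ^ 2 ^ e with hw
    have hww : w * w = 1 := by
      rw [hw, ← pow_add, show 2 ^ e + 2 ^ e = 2 ^ (e + 1) by ring, ← he, pow_orderOf_eq_one]
    have hw1 : w ≠ 1 := fun h => by
      have h1 := Nat.le_of_dvd (Nat.two_pow_pos e) (he ▸ orderOf_dvd_of_pow_eq_one h)
      have h9 := Nat.two_pow_pos e
      have h10 : 2 ^ (e + 1) = 2 ^ e * 2 := pow_succ 2 e
      omega
    rcases hirr (LinearMap.eqLocus (ρ w : V →ₗ[ZMod q] V) LinearMap.id) (fun g u hu => by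
      show ρ w (ρ g u) = ρ g u
      rw [← LinearEquiv.mul_apply, ← map_mul, ← hall w hww g, map_mul, LinearEquiv.mul_apply]
      exact congrArg (ρ g) hu) with h | h
    · have : v₀ ∈ LinearMap.eqLocus (ρ w : V →ₗ[ZMod q] V) LinearMap.id :=
        ((CfsgLib.Spectrum.HalfTransP.stab ρ v₀).pow_mem hg (2 ^ e) :)
      rw [h, Submodule.mem_bot] at this
      exact hv₀ this
    · exact hw1 (hfaith w fun u => (h ▸ Submodule.mem_top :
        u ∈ LinearMap.eqLocus (ρ w : V →ₗ[ZMod q] V) LinearMap.id))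
  by_cases hn : CfsgLib.TwoGroups.NormalAbelianCyclic G
  swap
  · rcases CfsgLib.Spectrum.HalfTransP.imprimitive_case ρ hρ hc hq2 hc1' hG hn with h | ⟨h1, h2⟩
    · exact Or.inr (Or.inr (Or.inl h))
    · exact Or.inr (Or.inr (Or.inr ⟨h1, h2, rfl⟩))
  rcases CfsgLib.TwoGroups.isCyclic_or_of_normalAbelianCyclic hG hn with
    hcy | ⟨-, ⟨m, hm, ⟨e⟩⟩ | ⟨m, -, ⟨e⟩⟩ | hsd⟩
  · haveI := hcy
    exact absurd (fun w _ g => (IsCyclic.commutative (α := G)).is_comm.comm g w) hinvol
  · -- dihedral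
    haveI : NeZero (2 ^ m) := ⟨(Nat.two_pow_pos m).ne'⟩
    have hcard : Nat.card G = 2 * 2 ^ m := by rw [Nat.card_congr e.toEquiv, DihedralGroup.nat_card]
    have hox : orderOf (e.symm (DihedralGroup.r 1)) = 2 ^ m := by
      rw [MulEquiv.orderOf_eq, DihedralGroup.orderOf_r_one]
    have hy : e.symm (DihedralGroup.sr 0) ∉ Subgroup.zpowers (e.symm (DihedralGroup.r 1)) := by
      rintro ⟨i, hi⟩
      have := congrArg e hi
      simp [map_zpow] at this
    have hy2 : e.symm (DihedralGroup.sr 0) * e.symm (DihedralGroup.sr 0) = 1 := by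
      rw [← map_mul, DihedralGroup.sr_mul_sr, sub_self, DihedralGroup.r_zero, map_one]
    have hr : e.symm (DihedralGroup.sr 0) * e.symm (DihedralGroup.r 1) * (e.symm (DihedralGroup.sr 0))⁻¹ =
        e.symm (DihedralGroup.r 1) ^ (2 ^ m - 1) := by
      rw [← map_inv, ← map_mul, ← map_mul, ← map_pow, DihedralGroup.r_one_pow, DihedralGroup.sr_mul_r,
        DihedralGroup.inv_sr, DihedralGroup.sr_mul_sr, Nat.cast_sub (Nat.two_pow_pos m), ZMod.natCast_self]
      simp
    obtain ⟨h1, h2⟩ := CfsgLib.Spectrum.HalfTransP.cyclicMax_case ρ hρ hc hq2 hc1' (k := m) (s := m)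
      (by omega) hox hcard hy hy2 hr (Or.inl ⟨rfl, rfl⟩)
    exact Or.inr (Or.inl ⟨h1, m, h2, Or.inl ⟨e⟩⟩)
  · -- quaternion
    haveI : NeZero (2 ^ m) := ⟨(Nat.two_pow_pos m).ne'⟩
    refine absurd (fun w hw g => e.injective ?_) hinvol
    rw [map_mul, map_mul]
    have h1 : e w * e w = 1 := by rw [← map_mul, hw, map_one]
    generalize e w = u at h1 ⊢
    generalize e g = v
    rcases u with i | i <;> rcases v with j | j
    · simp [add_comm]
    · rw [QuaternionGroup.a_mul_a, QuaternionGroup.one_def] at h1; injection h1 with h1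
      simp only [QuaternionGroup.a_mul_xa, QuaternionGroup.xa_mul_a, QuaternionGroup.xa.injEq]
      linear_combination h1
    all_goals
      exfalso
      rw [QuaternionGroup.xa_mul_xa, QuaternionGroup.one_def] at h1; injection h1 with h1
      have h2 : ((2 ^ m : ℕ) : ZMod (2 * 2 ^ m)) = 0 := by linear_combination h1
      rw [ZMod.natCast_eq_zero_iff] at h2
      have h3 := Nat.le_of_dvd (Nat.two_pow_pos m) h2
      have := Nat.two_pow_pos m
      omega
  · -- semidihedral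
    obtain ⟨n, hn3, hcard, x, y, hx, hy, hxy⟩ := hsd
    have hyy : y * y = 1 := by rw [← pow_two, ← hy, pow_orderOf_eq_one]
    have hyX : y ∉ Subgroup.zpowers x := by
      intro h
      obtain ⟨i, hi⟩ := Subgroup.mem_zpowers_iff.1 h
      have h1 : x ^ (2 ^ (n - 1) - 1) = x ^ 1 := by
        rw [← hxy, ← hi, pow_one]; group
      rw [pow_eq_pow_iff_modEq, hx] at h1
      have h2 : 2 ^ n = 2 * 2 ^ (n - 1) := by rw [← pow_succ', Nat.sub_add_cancel (by omega : 1 ≤ n)]
      have h4 : 4 ≤ 2 ^ (n - 1) := le_trans (by norm_num : 4 ≤ 2 ^ 2) (Nat.pow_le_pow_right (by norm_num) (by omega))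
      rw [Nat.ModEq, Nat.mod_eq_of_lt (by omega), Nat.mod_eq_of_lt (by omega)] at h1
      omega
    obtain ⟨h1, h2⟩ := CfsgLib.Spectrum.HalfTransP.cyclicMax_case ρ hρ hc hq2 hc1' (k := n) (s := n - 1)
      (by omega) hx (by rw [hcard, pow_succ, mul_comm]) hyX hyy hxy (Or.inr ⟨hn3, rfl, by omega⟩)
    exact Or.inr (Or.inl ⟨h1, n - 1, h2, Or.inr ⟨⟨n, hn3, hcard, x, y, hx, hy, hxy⟩, by
      rw [hcard, show n - 1 + 2 = n + 1 by omega]⟩⟩)

end Cfsg.Agent.S3371
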