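import Cfsg.Statements.S3374
import Mathlib
import Cfsg.Agent.Lib.Spectrum.FrobSemidirect

set_option autoImplicit false
open Cfsg

namespace Cfsg.Agent.S3374

open scoped Matrix

/-- A 2×2 matrix with natural number entries. -/
abbrev Q2 := ℕ × ℕ × ℕ × ℕ

/-- Product modulo `p`. -/
def qmul (p : ℕ) (x y : Q2) : Q2 :=
  ((x.1 * y.1 + x.2.1 * y.2.2.1) % p, (x.1 * y.2.1 + x.2.1 * y.2.2.2) % p,
    (x.2.2.1 * y.1 + x.2.2.2 * y.2.2.1) % p, (x.2.2.1 * y.2.1 + x.2.2.2 * y.2.2.2) % p)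

/-- The matrix of a quadruple. -/
def qmat (p : ℕ) (x : Q2) : Matrix (Fin 2) (Fin 2) (ZMod p) :=
  !![(x.1 : ZMod p), (x.2.1 : ZMod p); (x.2.2.1 : ZMod p), (x.2.2.2 : ZMod p)]

theorem qmat_qmul (p : ℕ) (x y : Q2) : qmat p (qmul p x y) = qmat p x * qmat p y := by
  ext i j
  fin_cases i <;> fin_cases j <;> simp [qmat, qmul, Matrix.mul_apply, Fin.sum_univ_two]

/-- Entries of an element of SL(2,5). -/
def key (g : Matrix.SpecialLinearGroup (Fin 2) (ZMod 5)) : Q2 :=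
  ((g.1 0 0).val, (g.1 0 1).val, (g.1 1 0).val, (g.1 1 1).val)

theorem qmat_key (g : Matrix.SpecialLinearGroup (Fin 2) (ZMod 5)) : qmat 5 (key g) = g.1 := by
  ext i j
  fin_cases i <;> fin_cases j <;> simp [qmat, key]

theorem key_mul (g h : Matrix.SpecialLinearGroup (Fin 2) (ZMod 5)) : key (g * h) = qmul 5 (key g) (key h) := by
  simp only [key, qmul, Matrix.SpecialLinearGroup.coe_mul, Matrix.mul_apply, Fin.sum_univ_two, ZMod.val_add,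
    ZMod.val_mul, Nat.add_mod_mod, Nat.mod_add_mod]

/-- Elements of SL(2,5) and their images in SL(2,11). -/
def table : List (Q2 × Q2) := [
  ((1, 0, 0, 1), (1, 0, 0, 1)),
  ((0, 4, 1, 0), (0, 10, 1, 0)),
  ((1, 1, 0, 1), (1, 4, 3, 2)),
  ((4, 0, 0, 4), (10, 0, 0, 10)),
  ((0, 4, 1, 1), (8, 9, 1, 4)),
  ((1, 4, 1, 0), (4, 10, 2, 8)),
  ((1, 2, 0, 1), (2, 1, 9, 5)),
  ((0, 1, 4, 0), (0, 1, 10, 0)),
  ((4, 4, 0, 4), (10, 7, 8, 9)),
  ((4, 0, 1, 4), (9, 3, 4, 10)),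
  ((0, 4, 1, 2), (2, 6, 2, 1)),
  ((1, 0, 1, 1), (1, 3, 4, 2)),
  ((2, 4, 1, 0), (1, 9, 5, 2)),
  ((1, 3, 0, 1), (5, 10, 2, 2)),
  ((0, 1, 4, 4), (3, 2, 10, 7)),
  ((4, 1, 4, 0), (7, 1, 9, 3)),
  ((4, 3, 0, 4), (9, 10, 2, 6)),
  ((4, 4, 1, 0), (7, 9, 1, 3)),
  ((4, 0, 2, 4), (6, 9, 1, 9)),
  ((0, 4, 1, 3), (9, 9, 5, 10)),
  ((0, 4, 1, 4), (3, 10, 2, 7)),
  ((1, 1, 1, 2), (10, 10, 10, 9)),
  ((2, 1, 1, 1), (6, 0, 0, 2)),
  ((3, 4, 1, 0), (10, 6, 2, 9)),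
  ((1, 4, 0, 1), (2, 7, 8, 1)),
  ((1, 0, 4, 1), (2, 8, 7, 1)),
  ((0, 1, 4, 3), (9, 5, 9, 10)),
  ((4, 0, 4, 4), (10, 8, 7, 9)),
  ((3, 1, 4, 0), (10, 2, 6, 9)),
  ((4, 2, 0, 4), (6, 1, 9, 9)),
  ((4, 1, 0, 4), (9, 4, 3, 10)),
  ((4, 3, 1, 1), (1, 2, 10, 10)),
  ((4, 4, 2, 1), (0, 9, 6, 0)),
  ((4, 0, 3, 4), (9, 2, 10, 6)),
  ((1, 4, 2, 4), (10, 1, 9, 1)),
  ((1, 2, 1, 3), (7, 5, 4, 3)),
  ((1, 3, 1, 4), (0, 5, 2, 0)),
  ((2, 3, 1, 2), (6, 2, 6, 4)),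
  ((3, 2, 1, 1), (6, 8, 7, 4)),
  ((1, 1, 4, 0), (4, 2, 10, 8)),
  ((1, 0, 3, 1), (5, 2, 10, 2)),
  ((0, 1, 4, 2), (2, 2, 6, 1)),
  ((0, 1, 4, 1), (8, 1, 9, 4)),
  ((4, 4, 4, 3), (1, 1, 1, 2)),
  ((3, 4, 4, 4), (5, 0, 0, 9)),
  ((2, 1, 4, 0), (1, 5, 9, 2)),
  ((3, 1, 1, 4), (2, 10, 10, 1)),
  ((4, 2, 1, 2), (7, 8, 7, 5)),
  ((4, 1, 1, 3), (9, 0, 0, 5)),
  ((4, 3, 2, 3), (5, 7, 6, 2)),
  ((4, 4, 3, 2), (4, 7, 6, 8)),
  ((1, 0, 2, 1), (2, 9, 1, 5)),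
  ((2, 4, 3, 4), (5, 4, 3, 7)),
  ((3, 3, 2, 4), (2, 5, 4, 5)),
  ((2, 0, 1, 3), (1, 6, 7, 10)),
  ((2, 2, 1, 4), (8, 5, 4, 4)),
  ((3, 0, 1, 2), (8, 7, 8, 3)),
  ((1, 2, 4, 4), (10, 9, 1, 1)),
  ((1, 1, 3, 4), (0, 2, 5, 0)),
  ((4, 1, 3, 1), (1, 10, 2, 10)),
  ((4, 3, 4, 2), (4, 6, 7, 8)),
  ((4, 2, 4, 1), (0, 6, 9, 0)),
  ((3, 2, 4, 3), (5, 9, 5, 7)),
  ((2, 3, 4, 4), (5, 3, 4, 7)),
  ((2, 1, 2, 4), (8, 4, 5, 4)),
  ((3, 1, 3, 3), (7, 6, 2, 5)),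
  ((4, 2, 2, 0), (4, 1, 1, 6)),
  ((4, 1, 2, 2), (7, 7, 8, 5)),
  ((4, 3, 3, 0), (3, 8, 8, 7)),
  ((1, 1, 2, 3), (7, 4, 5, 3)),
  ((2, 1, 3, 2), (6, 6, 2, 4)),
  ((3, 1, 2, 1), (6, 7, 8, 4)),
  ((0, 3, 3, 4), (6, 10, 10, 4)),
  ((0, 2, 2, 4), (7, 3, 3, 3)),
  ((3, 3, 1, 3), (7, 2, 6, 5)),
  ((2, 4, 4, 1), (9, 1, 1, 10)),
  ((1, 3, 4, 3), (4, 3, 4, 6)),
  ((1, 4, 4, 2), (2, 0, 0, 6)),
  ((1, 2, 3, 2), (6, 4, 5, 9)),
  ((2, 2, 3, 1), (9, 6, 7, 6)),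
  ((3, 0, 4, 2), (10, 5, 4, 1)),
  ((3, 3, 4, 1), (3, 6, 7, 7)),
  ((2, 0, 4, 3), (3, 4, 3, 8)),
  ((2, 3, 2, 1), (9, 7, 6, 6)),
  ((3, 4, 3, 1), (3, 7, 6, 7)),
  ((2, 1, 0, 3), (1, 7, 6, 10)),
  ((3, 1, 0, 2), (8, 8, 7, 3)),
  ((4, 2, 3, 3), (5, 6, 7, 2)),
  ((1, 4, 3, 3), (4, 4, 3, 6)),
  ((1, 2, 2, 0), (8, 3, 3, 4)),
  ((1, 3, 2, 2), (6, 5, 4, 9)),
  ((2, 3, 3, 0), (2, 3, 3, 5)),
  ((3, 4, 2, 3), (5, 5, 9, 7)),
  ((0, 3, 3, 2), (3, 0, 0, 4)),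
  ((0, 2, 2, 1), (5, 1, 1, 7)),
  ((3, 2, 3, 4), (2, 4, 5, 5)),
  ((2, 4, 2, 2), (4, 5, 9, 6)),
  ((1, 3, 3, 0), (7, 10, 10, 5)),
  ((0, 3, 3, 1), (4, 8, 8, 8)),
  ((2, 2, 4, 2), (4, 9, 5, 6)),
  ((2, 0, 2, 3), (8, 6, 2, 3)),
  ((2, 3, 0, 3), (0, 7, 3, 0)),
  ((3, 4, 0, 2), (10, 4, 5, 1)),
  ((2, 4, 0, 3), (3, 3, 4, 8)),
  ((3, 3, 0, 2), (3, 9, 5, 8)),
  ((2, 0, 3, 3), (0, 3, 7, 0)),
  ((3, 2, 2, 0), (9, 8, 8, 6)),
  ((3, 0, 2, 2), (0, 8, 4, 0)),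
  ((0, 3, 3, 0), (3, 1, 1, 8)),
  ((0, 2, 2, 3), (8, 0, 0, 7)),
  ((3, 0, 3, 2), (3, 5, 9, 8)),
  ((0, 3, 3, 3), (6, 3, 3, 9)),
  ((2, 2, 2, 0), (4, 0, 0, 3)),
  ((3, 3, 3, 0), (7, 0, 0, 8)),
  ((2, 0, 0, 3), (10, 3, 3, 1)),
  ((3, 2, 0, 2), (0, 4, 8, 0)),
  ((2, 2, 0, 3), (8, 2, 6, 3)),
  ((3, 0, 0, 2), (1, 8, 8, 10)),
  ((0, 2, 2, 0), (8, 10, 10, 3)),
  ((0, 2, 2, 2), (5, 8, 8, 2))]

/-- Table lookup. -/
def look (x : Q2) : Q2 :=
  match table.find? (fun r => decide (r.1 = x)) with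
  | some r => r.2
  | none => (0, 0, 0, 0)

theorem table_ok : table.all (fun r =>
    decide (look r.1 = r.2) && decide (look (qmul 5 r.1 (0, 4, 1, 0)) = qmul 11 r.2 (0, 10, 1, 0)) &&
    decide (look (qmul 5 r.1 (1, 1, 0, 1)) = qmul 11 r.2 (1, 4, 3, 2)) &&
    (decide (r.1 = (1, 0, 0, 1)) ||
      decide (((r.2.1 + 10) * (r.2.2.2.2 + 10) + 10 * (r.2.2.1 * r.2.2.2.1)) % 11 ≠ 0))) = true := by decide +kernel

theorem complete : ∀ a b c d : Fin 5, (a.val * d.val + 4 * (b.val * c.val)) % 5 = 1 →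
    (table.map Prod.fst).contains (a.val, b.val, c.val, d.val) = true := by decide +kernel

theorem key_mem (g : Matrix.SpecialLinearGroup (Fin 2) (ZMod 5)) : ∃ r ∈ table, r.1 = key g := by
  have hd : g.1 0 0 * g.1 1 1 - g.1 0 1 * g.1 1 0 = 1 := by rw [← Matrix.det_fin_two]; exact g.2
  have h := complete (g.1 0 0) (g.1 0 1) (g.1 1 0) (g.1 1 1) (by
    have e : ((((g.1 0 0).val * (g.1 1 1).val + 4 * ((g.1 0 1).val * (g.1 1 0).val) : ℕ)) : ZMod 5) = ((1 : ℕ) : ZMod 5) := by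
      push_cast
      rw [ZMod.natCast_val, ZMod.natCast_val, ZMod.natCast_val, ZMod.natCast_val, ZMod.cast_id, ZMod.cast_id,
        ZMod.cast_id, ZMod.cast_id]
      have h4 : (4 : ZMod 5) = -1 := by decide +kernel
      rw [h4]
      linear_combination hd
    exact (ZMod.natCast_eq_natCast_iff' _ _ _).mp e)
  rw [List.contains_iff_mem, List.mem_map] at h
  exact h

/-- The image matrix. -/
def emb (g : Matrix.SpecialLinearGroup (Fin 2) (ZMod 5)) : Matrix (Fin 2) (Fin 2) (ZMod 11) :=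
  qmat 11 (look (key g))

/-- The first generator of SL(2,5). -/
def genS : Matrix.SpecialLinearGroup (Fin 2) (ZMod 5) := ⟨!![0, -1; 1, 0], by simp [Matrix.det_fin_two]⟩

/-- Upper unitriangular elements. -/
def genT (x : ZMod 5) : Matrix.SpecialLinearGroup (Fin 2) (ZMod 5) := ⟨!![1, x; 0, 1], by simp [Matrix.det_fin_two]⟩

/-- Lower unitriangular elements. -/
def genL (x : ZMod 5) : Matrix.SpecialLinearGroup (Fin 2) (ZMod 5) := ⟨!![1, 0; x, 1], by simp [Matrix.det_fin_two]⟩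

theorem genS_val : (genS : Matrix (Fin 2) (Fin 2) (ZMod 5)) = !![0, -1; 1, 0] := rfl

theorem genT_val (x : ZMod 5) : (genT x : Matrix (Fin 2) (Fin 2) (ZMod 5)) = !![1, x; 0, 1] := rfl

theorem genL_val (x : ZMod 5) : (genL x : Matrix (Fin 2) (Fin 2) (ZMod 5)) = !![1, 0; x, 1] := rfl

theorem emb_facts (g : Matrix.SpecialLinearGroup (Fin 2) (ZMod 5)) :
    emb (g * genS) = emb g * qmat 11 (0, 10, 1, 0) ∧ emb (g * genT 1) = emb g * qmat 11 (1, 4, 3, 2) := by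
  obtain ⟨r, hr, hk⟩ := key_mem g
  have h := List.all_eq_true.mp table_ok r hr
  simp only [Bool.and_eq_true, decide_eq_true_eq] at h
  obtain ⟨⟨⟨h1, h2⟩, h3⟩, -⟩ := h
  have eS : key genS = (0, 4, 1, 0) := by decide +kernel
  have eT : key (genT 1) = (1, 1, 0, 1) := by decide +kernel
  rw [emb, emb, emb, key_mul, key_mul, eS, eT, ← hk, h2, h3, h1, qmat_qmul, qmat_qmul]
  exact ⟨rfl, rfl⟩

theorem emb_one : emb 1 = 1 := by
  rw [emb, show look (key 1) = (1, 0, 0, 1) by decide +kernel, qmat]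
  simp [Matrix.one_fin_two]

/-- Elements that `emb` respects on the right. -/
def good : Submonoid (Matrix.SpecialLinearGroup (Fin 2) (ZMod 5)) where
  carrier := {h | ∀ g, emb (g * h) = emb g * emb h}
  one_mem' := fun g => by rw [mul_one, emb_one, mul_one]
  mul_mem' := fun {a b} ha hb g => by rw [← mul_assoc, hb, ha, mul_assoc, ← hb]

theorem all_good (h : Matrix.SpecialLinearGroup (Fin 2) (ZMod 5)) : h ∈ good := by
  have hS : genS ∈ good := fun g => by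
    have h1 := (emb_facts 1).1
    rw [one_mul, emb_one, one_mul] at h1
    rw [(emb_facts g).1, h1]
  have hT1 : genT 1 ∈ good := fun g => by
    have h1 := (emb_facts 1).2
    rw [one_mul, emb_one, one_mul] at h1
    rw [(emb_facts g).2, h1]
  have hT : ∀ x, genT x ∈ good := by
    intro x
    rw [← ZMod.natCast_zmod_val x]
    induction x.val with
    | zero => convert good.one_mem using 1; ext i j; fin_cases i <;> fin_cases j <;> simp [genT_val]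
    | succ k ih =>
      convert good.mul_mem ih hT1 using 1
      ext i j; fin_cases i <;> fin_cases j <;> simp [genT_val, Matrix.SpecialLinearGroup.coe_mul, Matrix.mul_apply, Fin.sum_univ_two, add_comm]
  have hL : ∀ x, genL x ∈ good := by
    intro x
    convert good.mul_mem (good.mul_mem hS (hT (-x))) (good.mul_mem hS (good.mul_mem hS hS)) using 1
    ext i j; fin_cases i <;> fin_cases j <;> simp [genS_val, genT_val, genL_val, Matrix.SpecialLinearGroup.coe_mul, Matrix.mul_apply, Fin.sum_univ_two]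
  haveI : Fact (Nat.Prime 5) := ⟨by norm_num⟩
  have main : ∀ g : Matrix.SpecialLinearGroup (Fin 2) (ZMod 5), g.1 1 0 ≠ 0 → g ∈ good := by
    intro g hc
    have hd : g.1 0 0 * g.1 1 1 - g.1 0 1 * g.1 1 0 = 1 := by rw [← Matrix.det_fin_two]; exact g.2
    convert good.mul_mem (good.mul_mem (hT ((g.1 0 0 - 1) * (g.1 1 0)⁻¹)) (hL (g.1 1 0)))
      (hT ((g.1 1 1 - 1) * (g.1 1 0)⁻¹)) using 1
    ext i j
    fin_cases i <;> fin_cases j <;> simp [genT_val, genL_val, Matrix.SpecialLinearGroup.coe_mul, Matrix.mul_apply, Fin.sum_univ_two] <;> field_simp <;>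
      (first
        | ring1
        | linear_combination hd
        | linear_combination -hd
        | linear_combination (norm := ring_nf) hd * (1 : ZMod 5))
  by_cases hc : h.1 1 0 = 0
  · have hd : h.1 0 0 * h.1 1 1 - h.1 0 1 * h.1 1 0 = 1 := by rw [← Matrix.det_fin_two]; exact h.2
    have h' : h * genL 1 ∈ good := by
      apply main
      simp [genL_val, Matrix.SpecialLinearGroup.coe_mul, Matrix.mul_apply, Fin.sum_univ_two, hc]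
      intro e
      simp [hc, e] at hd
    convert good.mul_mem h' (hL (-1)) using 1
    rw [mul_assoc]
    have : genL 1 * genL (-1) = 1 := by
      ext i j; fin_cases i <;> fin_cases j <;> simp [genL_val, Matrix.SpecialLinearGroup.coe_mul, Matrix.mul_apply, Fin.sum_univ_two]
    rw [this, mul_one]
  · exact main h hc

/-- The embedding of SL(2,5) into GL(2,11). -/
def embHom : Matrix.SpecialLinearGroup (Fin 2) (ZMod 5) →* Matrix.GeneralLinearGroup (Fin 2) (ZMod 11) :=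
  MonoidHom.toHomUnits
    { toFun := emb
      map_one' := emb_one
      map_mul' := fun g h => all_good h g }

theorem fpf (h : Matrix.SpecialLinearGroup (Fin 2) (ZMod 5)) (hh : h ≠ 1) (v : Fin 2 → ZMod 11)
    (hv : (embHom h : Matrix (Fin 2) (Fin 2) (ZMod 11)) *ᵥ v = v) : v = 0 := by
  haveI : Fact (Nat.Prime 11) := ⟨by norm_num⟩
  have hv' : emb h *ᵥ v = v := hv
  obtain ⟨r, hr, hk⟩ := key_mem h
  have ht := List.all_eq_true.mp table_ok r hr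
  simp only [Bool.and_eq_true, Bool.or_eq_true, decide_eq_true_eq] at ht
  obtain ⟨⟨⟨h1, -⟩, -⟩, h4⟩ := ht
  rcases h4 with e | e
  · exfalso
    apply hh
    apply Subtype.ext
    rw [← qmat_key h, ← hk, e]
    simp [qmat, Matrix.one_fin_two]
  · refine Matrix.eq_zero_of_mulVec_eq_zero (M := emb h - 1) ?_ (by rw [Matrix.sub_mulVec, hv', Matrix.one_mulVec, sub_self])
    intro hz
    apply e
    have h10 : (10 : ZMod 11) = -1 := rfl
    rw [Matrix.det_fin_two, emb, ← hk, h1] at hz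
    simp [qmat] at hz
    have : ((((r.2.1 + 10) * (r.2.2.2.2 + 10) + 10 * (r.2.2.1 * r.2.2.2.1)) : ℕ) : ZMod 11) = 0 := by
      push_cast
      rw [h10]
      linear_combination hz
    exact Nat.mod_eq_zero_of_dvd ((ZMod.natCast_eq_zero_iff _ _).mp this)

/-- SL(2,5) occurs as a Frobenius complement: there is a finite group L with a subgroup H isomorphic to SL(2,5) which is a non-trivial proper subgroup meeting each conjugate gHg⁻¹ with g outside H trivially. -/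
theorem result :
    ∃ (L : Type) (_ : Group L) (_ : Finite L) (H : Subgroup L),
      Cfsg.IsFrobeniusComplement H ∧ Nonempty (H ≃* Matrix.SpecialLinearGroup (Fin 2) (ZMod 5)) := by
  let φ : Matrix.SpecialLinearGroup (Fin 2) (ZMod 5) →* MulAut (Multiplicative (Fin 2 → ZMod 11)) :=
    (CfsgLib.Spectrum.matAction (Fin 2) (ZMod 11)).comp embHom
  haveI : Finite (Multiplicative (Fin 2 → ZMod 11) ⋊[φ] Matrix.SpecialLinearGroup (Fin 2) (ZMod 5)) :=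
    Finite.of_equiv _ SemidirectProduct.equivProd.symm
  refine ⟨Multiplicative (Fin 2 → ZMod 11) ⋊[φ] Matrix.SpecialLinearGroup (Fin 2) (ZMod 5), inferInstance, inferInstance,
    SemidirectProduct.inr.range, ?_, ⟨(MonoidHom.ofInjective SemidirectProduct.inr_injective).symm⟩⟩
  haveI : Nontrivial (Matrix.SpecialLinearGroup (Fin 2) (ZMod 5)) :=
    ⟨⟨genT 1, 1, fun h => absurd (congrArg (fun g : Matrix.SpecialLinearGroup (Fin 2) (ZMod 5) => g.1 0 1) h) (by decide +kernel)⟩⟩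
  haveI : Nontrivial (Multiplicative (Fin 2 → ZMod 11)) :=
    ⟨⟨Multiplicative.ofAdd (fun _ => 1), 1, fun h => absurd (congrFun (congrArg Multiplicative.toAdd h) 0) (by decide +kernel)⟩⟩
  refine CfsgLib.Spectrum.isFrobeniusComplement_inr φ ?_
  intro h hh v hv
  exact Multiplicative.toAdd.injective (fpf h hh v.toAdd (congrArg Multiplicative.toAdd hv))

end Cfsg.Agent.S3374
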