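import Cfsg.Statements.S3375
import Mathlib

set_option autoImplicit false
open Cfsg

namespace Cfsg.Agent.S3375

/-- Let γ be an automorphism of order 2 of a finite group H. (i) If γ fixes only the identity, then H is abelian and γ inverts every element. (ii) If γ has exactly two fixed points and H has a subgroup of index 2, then H has a γ-invariant abelian subgroup of index 2 on which γ acts by inversion. -/
theorem result {H : Type*} [Group H] [Finite H] (γ : MulAut H) (hγ : orderOf γ = 2) :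
    ((∀ h : H, γ h = h → h = 1) → (∀ a b : H, a * b = b * a) ∧ ∀ h : H, γ h = h⁻¹) ∧
    ((Nat.card {h : H // γ h = h} = 2 ∧ ∃ M : Subgroup H, M.index = 2) →
      ∃ A : Subgroup H, A.index = 2 ∧ IsMulCommutative A ∧ (∀ a ∈ A, γ a ∈ A) ∧ ∀ a ∈ A, γ a = a⁻¹) := by
  have hinv : ∀ h, γ (γ h) = h := fun h => by
    rw [← MulAut.mul_apply, ← sq, ← hγ, pow_orderOf_eq_one, MulAut.one_apply]
  have hdiff : ∀ h, γ (h⁻¹ * γ h) = (h⁻¹ * γ h)⁻¹ := fun h => by
    rw [map_mul, map_inv, hinv]; group
  have hab : ∀ A : Set H, (∀ a ∈ A, γ a = a⁻¹) → ∀ a ∈ A, ∀ b ∈ A, a * b ∈ A → a * b = b * a := by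
    intro A hA a ha b hb hm
    have h := hA _ hm
    rw [map_mul, hA a ha, hA b hb] at h
    simpa [eq_comm] using congrArg (·⁻¹) h
  constructor
  · intro hfree
    have hinj : Function.Injective (fun h : H => h⁻¹ * γ h) := by
      intro a b hab'
      have : γ (b * a⁻¹) = b * a⁻¹ := by
        have : b * (a⁻¹ * γ a) = γ b := by simp only at hab'; rw [hab']; group
        rw [map_mul, map_inv, ← this]; group
      exact (mul_inv_eq_one.mp (hfree _ this)).symm
    have hall : ∀ x, γ x = x⁻¹ := fun x => by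
      obtain ⟨h, rfl⟩ := Finite.surjective_of_injective hinj x
      exact hdiff h
    exact ⟨fun a b => hab Set.univ (fun x _ => hall x) a trivial b trivial trivial, hall⟩
  · rintro ⟨hC, M, hM⟩
    obtain ⟨A, hA, hAinv⟩ : ∃ A : Subgroup H, A.index = 2 ∧ ∀ a, γ a ∈ A ↔ a ∈ A := by
      by_cases hMM : ∀ a, γ a ∈ M ↔ a ∈ M
      · exact ⟨M, hM, hMM⟩
      have hmul := fun a b : H => Subgroup.mul_mem_iff_of_index_two hM (a := a) (b := b)
      let A : Subgroup H :=
        { carrier := {a | γ a ∈ M ↔ a ∈ M}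
          one_mem' := by simp
          mul_mem' := fun {a b} ha hb => by
            show γ (a * b) ∈ M ↔ a * b ∈ M
            rw [map_mul, hmul, hmul]
            rw [Set.mem_setOf_eq] at ha hb
            rw [ha, hb]
          inv_mem' := fun {a} ha => by
            show γ a⁻¹ ∈ M ↔ a⁻¹ ∈ M
            rw [map_inv, inv_mem_iff, inv_mem_iff]; exact ha }
      refine ⟨A, ?_, fun a => ?_⟩
      · push_neg at hMM
        obtain ⟨c, hc⟩ := hMM
        rw [Subgroup.index_eq_two_iff]
        refine ⟨c, fun b => ?_⟩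
        show Xor' (γ (b * c) ∈ M ↔ b * c ∈ M) (γ b ∈ M ↔ b ∈ M)
        rw [map_mul, hmul, hmul]
        unfold Xor'
        by_cases h1 : γ b ∈ M <;> by_cases h2 : b ∈ M <;> by_cases h3 : γ c ∈ M <;>
          by_cases h4 : c ∈ M <;> simp_all
      · show (γ (γ a) ∈ M ↔ γ a ∈ M) ↔ (γ a ∈ M ↔ a ∈ M)
        rw [hinv]; exact ⟨Iff.symm, Iff.symm⟩
    have hrange : ∀ h, h⁻¹ * γ h ∈ A := fun h => by
      rw [Subgroup.mul_mem_iff_of_index_two hA, inv_mem_iff, hAinv]
    let f : H → A := fun h => ⟨h⁻¹ * γ h, hrange h⟩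
    have hsurj : ∀ a ∈ A, ∃ h, h⁻¹ * γ h = a := by
      let s : Set.range f → H := fun x => x.2.choose
      have hs : ∀ x, f (s x) = x.1 := fun x => x.2.choose_spec
      have hfx : ∀ h, γ (h * (s ⟨f h, h, rfl⟩)⁻¹) = h * (s ⟨f h, h, rfl⟩)⁻¹ := by
        intro h
        have h1 := congrArg Subtype.val (hs ⟨f h, h, rfl⟩)
        simp only [f] at h1
        set r := s ⟨f h, h, rfl⟩
        have h2 : γ r = r * (h⁻¹ * γ h) := by rw [← h1]; group
        rw [map_mul, map_inv, h2]; group
      let F : H → Set.range f × {h : H // γ h = h} := fun h => (⟨f h, h, rfl⟩, ⟨_, hfx h⟩)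
      have hF : Function.Injective F := by
        intro a b hab'
        simp only [F, Prod.mk.injEq] at hab'
        have h2 : a * (s ⟨f a, a, rfl⟩)⁻¹ = b * (s ⟨f b, b, rfl⟩)⁻¹ := congrArg Subtype.val hab'.2
        rw [hab'.1] at h2
        exact mul_right_cancel h2
      have hle := Nat.card_le_card_of_injective F hF
      rw [Nat.card_prod, hC] at hle
      have hcard := A.card_mul_index
      rw [hA] at hcard
      have hf : Set.range f = Set.univ := by
        apply Set.eq_univ_of_forall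
        intro a
        by_contra hne
        have : (Set.range f).ncard < (Set.univ : Set A).ncard :=
          Set.ncard_lt_ncard ⟨Set.subset_univ _, fun h => hne (h trivial)⟩
        rw [Set.ncard_univ] at this
        rw [Nat.card_coe_set_eq] at hle
        omega
      intro a ha
      obtain ⟨h, hh⟩ := (hf ▸ Set.mem_univ (⟨a, ha⟩ : A) : (⟨a, ha⟩ : A) ∈ Set.range f)
      exact ⟨h, congrArg Subtype.val hh⟩
    have hall : ∀ a ∈ A, γ a = a⁻¹ := fun a ha => by
      obtain ⟨h, rfl⟩ := hsurj a ha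
      exact hdiff h
    exact ⟨A, hA, ⟨⟨fun a b => Subtype.ext (hab A hall a a.2 b b.2 (mul_mem a.2 b.2))⟩⟩,
      fun a ha => (hAinv a).mpr ha, hall⟩

end Cfsg.Agent.S3375
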