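import Cfsg.Statements.S3377
import Mathlib
import Cfsg.Agent.Lib.Spectrum.Icosahedral

set_option autoImplicit false
open Cfsg

namespace Cfsg.Agent.S3377

/-- The alternating group of degree 5 has the presentation ⟨x, y | x³ = 1, y⁵ = 1, (xy)² = 1⟩: the group so presented is isomorphic to Alt(5). -/
theorem result :
    Nonempty (PresentedGroup ({FreeGroup.of (0 : Fin 2) ^ 3, FreeGroup.of (1 : Fin 2) ^ 5,
        (FreeGroup.of (0 : Fin 2) * FreeGroup.of 1) ^ 2} : Set (FreeGroup (Fin 2))) ≃* alternatingGroup (Fin 5)) := by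
  classical
  set rels : Set (FreeGroup (Fin 2)) := {FreeGroup.of (0 : Fin 2) ^ 3, FreeGroup.of (1 : Fin 2) ^ 5,
        (FreeGroup.of (0 : Fin 2) * FreeGroup.of 1) ^ 2} with hrels
  set x : PresentedGroup rels := PresentedGroup.of 0 with hx
  set y : PresentedGroup rels := PresentedGroup.of 1 with hy
  have hone : ∀ r ∈ rels, PresentedGroup.mk rels r = 1 := fun r hr => PresentedGroup.one_of_mem hr
  have h3 : x ^ 3 = 1 := by
    rw [← hone (FreeGroup.of 0 ^ 3) (by simp [hrels]), map_pow]; rfl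
  have h5 : y ^ 5 = 1 := by
    rw [← hone (FreeGroup.of 1 ^ 5) (by simp [hrels]), map_pow]; rfl
  have h2 : (x * y) ^ 2 = 1 := by
    rw [← hone ((FreeGroup.of 0 * FreeGroup.of 1) ^ 2) (by simp [hrels]), map_pow, map_mul]; rfl
  set H : Subgroup (PresentedGroup rels) := Subgroup.zpowers y with hH
  have hfy : IsOfFinOrder y := isOfFinOrder_iff_pow_eq_one.mpr ⟨5, by norm_num, h5⟩
  haveI : Finite H := hfy.finite_zpowers.to_subtype
  have hH5 : Nat.card H ≤ 5 := by
    rw [hH, Nat.card_zpowers]; exact Nat.le_of_dvd (by norm_num) (orderOf_dvd_of_pow_eq_one h5)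
  obtain ⟨hfin, hle⟩ := CfsgLib.Spectrum.Icosahedral.coset_bound H (x := x) (y := y)
    (Subgroup.mem_zpowers y)
    (fun q => by rw [smul_smul, smul_smul, show x * x * x = x ^ 3 by simp [pow_succ, mul_assoc], h3, one_smul])
    (fun q => by rw [smul_smul, smul_smul, smul_smul, smul_smul,
      show y * y * y * y * y = y ^ 5 by simp [pow_succ, mul_assoc], h5, one_smul])
    (fun q => by rw [smul_smul, smul_smul, smul_smul,
      show x * y * x * y = (x * y) ^ 2 by simp [pow_succ, mul_assoc], h2, one_smul])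
    _ (PresentedGroup.closure_range_of rels) (by
      rintro _ ⟨i, rfl⟩
      fin_cases i <;> simp [hx, hy])
  haveI := hfin
  have hcard : Nat.card (PresentedGroup rels) ≤ 60 := by omega
  let a : alternatingGroup (Fin 5) := ⟨⟨![0, 4, 1, 3, 2], ![0, 2, 4, 3, 1], by decide, by decide⟩,
    by rw [Equiv.Perm.mem_alternatingGroup]; decide⟩
  let b : alternatingGroup (Fin 5) := ⟨⟨![1, 2, 3, 4, 0], ![4, 0, 1, 2, 3], by decide, by decide⟩,
    by rw [Equiv.Perm.mem_alternatingGroup]; decide⟩
  have ha : a ^ 3 = 1 ∧ a ≠ 1 := by decide +kernel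
  have hb : b ^ 5 = 1 ∧ b ≠ 1 := by decide +kernel
  have hab : (a * b) ^ 2 = 1 ∧ a * b ≠ 1 := by decide +kernel
  let φ : PresentedGroup rels →* alternatingGroup (Fin 5) :=
    PresentedGroup.toGroup (f := ![a, b]) (by
      intro r hr
      simp only [hrels, Set.mem_insert_iff, Set.mem_singleton_iff] at hr
      rcases hr with rfl | rfl | rfl <;> simp [ha.1, hb.1, hab.1])
  have hφx : φ x = a := by simp [φ, hx]
  have hφy : φ y = b := by simp [φ, hy]
  haveI : Fact (Nat.Prime 2) := ⟨Nat.prime_two⟩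
  haveI : Fact (Nat.Prime 3) := ⟨Nat.prime_three⟩
  haveI : Fact (Nat.Prime 5) := ⟨Nat.prime_five⟩
  have d3 : 3 ∣ Nat.card φ.range := by
    have := Subgroup.orderOf_dvd_natCard φ.range (x := a) ⟨x, hφx⟩
    rwa [orderOf_eq_prime ha.1 ha.2] at this
  have d5 : 5 ∣ Nat.card φ.range := by
    have := Subgroup.orderOf_dvd_natCard φ.range (x := b) ⟨y, hφy⟩
    rwa [orderOf_eq_prime hb.1 hb.2] at this
  have d2 : 2 ∣ Nat.card φ.range := by
    have := Subgroup.orderOf_dvd_natCard φ.range (x := (a * b)) ⟨x * y, by rw [map_mul, hφx, hφy]⟩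
    rwa [orderOf_eq_prime hab.1 hab.2] at this
  have hA : Nat.card (alternatingGroup (Fin 5)) = 60 := by
    rw [Nat.card_eq_fintype_card]; decide +kernel
  have hd : 30 ∣ Nat.card φ.range := by omega
  have htop : φ.range = ⊤ := by
    have h := φ.range.card_mul_index
    rw [hA] at h
    obtain ⟨k, hk⟩ := hd
    rw [hk] at h
    have hidx : φ.range.index = 1 ∨ φ.range.index = 2 := by
      have : φ.range.index ∣ 2 := ⟨k, by nlinarith⟩
      exact (Nat.dvd_prime Nat.prime_two).1 this
    rcases hidx with e | e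
    · exact Subgroup.index_eq_one.1 e
    · haveI := Subgroup.normal_of_index_eq_two e
      haveI : IsSimpleGroup (alternatingGroup (Fin 5)) := alternatingGroup.isSimpleGroup_five
      rcases (inferInstance : φ.range.Normal).eq_bot_or_eq_top with e' | e'
      · rw [e', Subgroup.card_bot] at hk; omega
      · exact e'
  have hs : Function.Surjective φ := MonoidHom.range_eq_top.1 htop
  exact ⟨MulEquiv.ofBijective φ ((Nat.bijective_iff_surjective_and_card _).2
    ⟨hs, le_antisymm (hcard.trans hA.ge) (Nat.card_le_card_of_surjective φ hs)⟩)⟩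

end Cfsg.Agent.S3377
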