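import Cfsg.Statements.S3378
import Mathlib
import Cfsg.Agent.Lib.Spectrum.Icosahedral
import Cfsg.Agent.Lib.PermGroups.Zassenhaus.Main
import Cfsg.Agent.Lib.CharTheory.Burnside
import Cfsg.Agent.Lib.SmallGroups.Basic
import Cfsg.Agent.Lib.SL2.Dickson.Sixty
import Cfsg.Agent.S3359

set_option autoImplicit false
open Cfsg

namespace Cfsg.Agent.S3378

open scoped MatrixGroups

theorem not_perfect_of_cyclic_two {G : Type*} [Group G] [Finite G] (hperf : commutator G = ⊤)
    (h2 : 2 ∣ Nat.card G) (P : Sylow 2 G) (hP : IsCyclic P) : False := by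
  haveI : Fact (Nat.Prime 2) := ⟨Nat.prime_two⟩
  have hm : (Nat.card G).minFac = 2 := by rw [Nat.minFac_eq_two_iff]; exact h2
  haveI : IsMulCommutative (P : Subgroup G) := inferInstance
  set f := MonoidHom.transferSylow P (hP.normalizer_le_centralizer hm) with hf
  have hk : f.ker = ⊤ := eq_top_iff.2 (hperf ▸ by
    rw [commutator_def, Subgroup.commutator_le]
    intro a _ b _
    rw [MonoidHom.mem_ker, map_commutatorElement]
    exact commutatorElement_eq_one_iff_mul_comm.2 (IsMulCommutative.is_comm.comm _ _))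
  have hc := MonoidHom.ker_transferSylow_isComplement' P (hP.normalizer_le_centralizer hm)
  rw [← hf, hk] at hc
  exact P.ne_bot_of_dvd_card h2 (Subgroup.isComplement'_top_left.1 hc)

theorem eq_top_of_perfect_quotient {G : Type*} [Group G] [Finite G] (hperf : commutator G = ⊤)
    (N : Subgroup G) [N.Normal] (hs : Group.IsSolvable (G ⧸ N)) : N = ⊤ := by
  by_contra h
  haveI : Nontrivial (G ⧸ N) := QuotientGroup.nontrivial_iff.2 h
  have h1 := Group.IsSolvable.commutator_lt_top_of_nontrivial (G ⧸ N)
  rw [commutator_def, ← Subgroup.map_top_of_surjective _ (QuotientGroup.mk'_surjective N),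
    ← Subgroup.map_commutator, ← commutator_def, hperf] at h1
  exact lt_irrefl _ h1

theorem equiv_of_quaternion.{u} {G : Type u} [Group G] [Finite G] (h120 : Nat.card G = 120)
    (hns : ¬ Group.IsSolvable G)
    (hQ : ∀ P : Sylow 2 G, Nonempty ((P : Subgroup G) ≃* QuaternionGroup 2)) :
    Nonempty (G ≃* SL(2, ZMod 5)) := by
  classical
  haveI : Fact (Nat.Prime 2) := ⟨Nat.prime_two⟩
  haveI : Fact (Nat.Prime 5) := ⟨Nat.prime_five⟩
  -- subgroups of quaternion groups of order at most four are cyclic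
  have hsmall : ∀ R : Subgroup G, IsPGroup 2 R → Nat.card R ≠ 8 → IsCyclic R := by
    intro R hR h8
    obtain ⟨P, hP⟩ := hR.exists_le_sylow
    obtain ⟨e⟩ := hQ P
    have hd : Nat.card R ∣ 8 := by
      refine (Subgroup.card_dvd_of_le hP).trans ?_
      rw [Nat.card_congr e.toEquiv, Nat.card_eq_fintype_card, QuaternionGroup.card]
    have huniq : ∀ a b : QuaternionGroup 2, a ^ 2 = 1 → a ≠ 1 → b ^ 2 = 1 → b ≠ 1 → a = b := by
      decide
    let ι : R →* QuaternionGroup 2 := e.toMonoidHom.comp (Subgroup.inclusion hP)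
    have hι : Function.Injective ι := e.injective.comp (Subgroup.inclusion_injective hP)
    have h4 : Nat.card R ∣ 4 := by
      obtain ⟨k, hk, hk'⟩ := (Nat.dvd_prime_pow Nat.prime_two).1 (show Nat.card R ∣ 2 ^ 3 from hd)
      rw [hk']
      exact pow_dvd_pow 2 (show k ≤ 2 by
        rcases Nat.lt_or_ge k 3 with h | h
        · omega
        · exact absurd (hk'.trans (by rw [show k = 3 by omega]; norm_num)) h8)
    obtain ⟨k, hk, hk'⟩ := (Nat.dvd_prime_pow Nat.prime_two).1 (show Nat.card R ∣ 2 ^ 2 from h4)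
    interval_cases k
    · haveI := (Nat.card_eq_one_iff_unique.1 hk').1
      exact isCyclic_of_subsingleton
    · exact isCyclic_of_prime_card (p := 2) (by simpa using hk')
    · by_contra hnc
      haveI : Fintype R := Fintype.ofFinite R
      have hall : ∀ r : R, r ^ 2 = 1 := by
        intro r
        have h := orderOf_dvd_natCard r
        rw [hk'] at h
        obtain ⟨j, hj, hj'⟩ := (Nat.dvd_prime_pow Nat.prime_two).1 h
        rcases Nat.lt_or_ge j 2 with hlt | hge
        · exact orderOf_dvd_iff_pow_eq_one.1 (hj' ▸ (pow_dvd_pow 2 (Nat.lt_succ_iff.1 hlt)).trans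
            (by norm_num))
        · exact absurd (isCyclic_of_orderOf_eq_card r (by rw [hj', hk', show j = 2 by omega])) hnc
      have h3 : (Finset.univ : Finset R) ⊆ {1} ∪ (Finset.univ.filter fun r => r ≠ 1) := by
        intro r _; by_cases hr : r = 1 <;> simp [hr]
      have hcard : 1 < (Finset.univ.filter fun r : R => r ≠ 1).card := by
        have := (Finset.card_le_card h3).trans (Finset.card_union_le _ _)
        rw [Finset.card_univ, ← Nat.card_eq_fintype_card, hk', Finset.card_singleton] at this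
        omega
      obtain ⟨a, ha, b, hb, hab⟩ := Finset.one_lt_card.1 hcard
      simp only [Finset.mem_filter, Finset.mem_univ, true_and] at ha hb
      exact hab (hι (huniq _ _ (by rw [← map_pow, hall, map_one])
        (fun h => ha (hι (h.trans (map_one _).symm))) (by rw [← map_pow, hall, map_one])
        (fun h => hb (hι (h.trans (map_one _).symm)))))
  -- the group is perfect
  have hperf : commutator G = ⊤ := by
    by_contra hne
    obtain ⟨D, hDn, hD1, hDD⟩ := Cfsg.Agent.S3359.exists_perfect_normal hns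
    have hperfD : commutator D = ⊤ := by
      apply Subgroup.map_injective D.subtype_injective
      rw [commutator_def, Subgroup.map_commutator, ← MonoidHom.range_eq_map, Subgroup.range_subtype,
        hDD]
    haveI : Nontrivial D := D.nontrivial_iff_ne_bot.2 hD1
    have hnsD : ¬ Group.IsSolvable D := fun h => by
      have := Group.IsSolvable.commutator_lt_top_of_nontrivial D
      rw [hperfD] at this
      exact lt_irrefl _ this
    have hDG : D ≠ ⊤ := fun h => hne (by rw [commutator_def, ← h]; exact hDD)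
    have hdvd : Nat.card D ∣ 120 := h120 ▸ D.card_subgroup_dvd_card
    have hlt : Nat.card D < 120 := by
      refine lt_of_le_of_ne (Nat.le_of_dvd (by norm_num) hdvd) fun h => hDG ?_
      exact Subgroup.eq_top_of_card_eq D (h.trans h120.symm)
    have h2 : 2 ∣ Nat.card D := by
      by_contra h
      refine hnsD (CfsgLib.CharTheory.isSolvable_of_card_dvd_pow_mul_pow 3 5 1 1 Nat.prime_three
        Nat.prime_five ?_)
      exact (((Nat.prime_two.coprime_iff_not_dvd.2 h).pow_left 3).symm).dvd_of_dvd_mul_left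
        (show Nat.card D ∣ 2 ^ 3 * (3 ^ 1 * 5 ^ 1) by norm_num; exact hdvd)
    obtain ⟨R⟩ := (inferInstance : Nonempty (Sylow 2 D))
    have h8 : Nat.card R ≠ 8 := by
      intro h
      have h8d : 8 ∣ Nat.card D := h ▸ (R : Subgroup D).card_subgroup_dvd_card
      obtain ⟨k, hk⟩ := h8d
      have hk15 : k ∣ 15 := Nat.dvd_of_mul_dvd_mul_left (show 0 < 8 by norm_num) (hk ▸ hdvd)
      have hk5 : k = 1 ∨ k = 3 ∨ k = 5 := by
        have : k ≤ 15 := Nat.le_of_dvd (by norm_num) hk15
        interval_cases k <;> simp_all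
      rcases hk5 with rfl | rfl | rfl
      · exact hnsD (CfsgLib.CharTheory.isSolvable_of_card_dvd_pow_mul_pow 2 3 3 0 Nat.prime_two
          Nat.prime_three (by rw [hk]; norm_num))
      · exact hnsD (CfsgLib.CharTheory.isSolvable_of_card_dvd_pow_mul_pow 2 3 3 1 Nat.prime_two
          Nat.prime_three (by rw [hk]; norm_num))
      · exact hnsD (CfsgLib.CharTheory.isSolvable_of_card_dvd_pow_mul_pow 2 5 3 1 Nat.prime_two
          Nat.prime_five (by rw [hk]; norm_num))
    have hc := hsmall ((R : Subgroup D).map D.subtype) (R.isPGroup'.map _) (by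
      rwa [Nat.card_congr ((R : Subgroup D).equivMapOfInjective _ D.subtype_injective).toEquiv.symm])
    exact not_perfect_of_cyclic_two hperfD h2 R
      (isCyclic_of_surjective _ ((R : Subgroup D).equivMapOfInjective _ D.subtype_injective).symm.surjective)
  -- the kernel of the action on the six Sylow 5-subgroups
  have hsol5 : ∀ R : Subgroup G, Nat.card R = 5 → ¬ R.Normal := by
    intro R hR hn
    haveI := hn
    have h24 : Nat.card (G ⧸ R) = 24 := by
      have := R.card_eq_card_quotient_mul_card_subgroup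
      rw [h120, hR] at this; omega
    have h := eq_top_of_perfect_quotient hperf R
      (CfsgLib.CharTheory.isSolvable_of_card_dvd_pow_mul_pow 2 3 3 1 Nat.prime_two Nat.prime_three
        (by rw [h24]; norm_num))
    rw [h, Subgroup.card_top] at hR; omega
  obtain ⟨P⟩ := (inferInstance : Nonempty (Sylow 5 G))
  have hP5 : Nat.card (P : Subgroup G) = 5 :=
    (CfsgLib.SmallGroups.card_sylow_eq (m := 24) (a := 1) (by rw [h120]; norm_num) (by norm_num) P).trans
      (by norm_num)
  have h6 : Nat.card (Sylow 5 G) = 6 := by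
    have h := CfsgLib.SmallGroups.card_sylow_mem (G := G) (p := 5) (a := 1) (m := 24)
      (by rw [h120]; norm_num) (by norm_num)
    rw [show (Nat.divisors 24).filter (fun d => d % 5 = 1) = {1, 6} by decide] at h
    simp only [Finset.mem_insert, Finset.mem_singleton] at h
    refine h.resolve_left fun h1 => hsol5 _ hP5 ?_
    rw [P.card_eq_index_normalizer, Subgroup.index_eq_one] at h1
    exact Subgroup.normalizer_eq_top_iff.1 h1
  haveI : Fintype (Sylow 5 G) := Fintype.ofFinite _
  let φ : G →* Equiv.Perm (Sylow 5 G) := MulAction.toPermHom G _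
  have hA : φ.range ≤ alternatingGroup (Sylow 5 G) := by
    rintro _ ⟨g, rfl⟩
    have hg : g ∈ (Equiv.Perm.sign.comp φ).ker :=
      Abelianization.commutator_subset_ker _ (hperf ▸ Subgroup.mem_top g)
    exact hg
  have hKne : φ.ker ≠ ⊥ := by
    intro hbot
    have hinj := (MonoidHom.ker_eq_bot_iff φ).1 hbot
    let ψ : G →* alternatingGroup (Sylow 5 G) := φ.codRestrict _ fun x => hA ⟨x, rfl⟩
    have hψ : Function.Injective ψ := fun a b h => hinj (congrArg Subtype.val h)
    have hc6 : Nat.card (alternatingGroup (Sylow 5 G)) = 360 := by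
      haveI : Nontrivial (Sylow 5 G) := Finite.one_lt_card_iff_nontrivial.1 (by omega)
      have h2 := two_mul_nat_card_alternatingGroup (α := Sylow 5 G)
      rw [Nat.card_perm, h6, show Nat.factorial 6 = 720 from rfl] at h2
      omega
    have hidx : ψ.range.index = 3 := by
      have := ψ.range.card_mul_index
      rw [hc6, ← Nat.card_congr (MonoidHom.ofInjective hψ).toEquiv, h120] at this
      omega
    haveI : IsSimpleGroup (alternatingGroup (Sylow 5 G)) :=
      alternatingGroup.isSimpleGroup (by rw [h6]; norm_num)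
    let X := alternatingGroup (Sylow 5 G) ⧸ ψ.range
    let θ : alternatingGroup (Sylow 5 G) →* Equiv.Perm X := MulAction.toPermHom _ X
    have hθ : θ.ker = ⊥ := by
      refine (inferInstance : θ.ker.Normal).eq_bot_or_eq_top.resolve_right fun h => ?_
      have h1 : ψ.range = ⊤ := by
        rw [eq_top_iff]
        intro a _
        have ha : θ a = 1 := MonoidHom.mem_ker.1 (h ▸ Subgroup.mem_top a)
        have := congrArg (fun σ : Equiv.Perm X => σ (QuotientGroup.mk 1)) ha
        simp [θ, X, MulAction.toPermHom_apply, QuotientGroup.eq] at this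
        simpa using this
      rw [h1, Subgroup.index_top] at hidx
      omega
    have := Nat.card_le_card_of_injective θ ((MonoidHom.ker_eq_bot_iff θ).1 hθ)
    rw [Nat.card_perm, show Nat.card X = 3 from hidx, hc6] at this
    norm_num [Nat.factorial] at this
  set K := φ.ker with hK
  have hKN : K ≤ Subgroup.normalizer ((P : Subgroup G) : Set G) := by
    intro g hg
    have h : g • P = P := congrArg (fun σ : Equiv.Perm (Sylow 5 G) => σ P) (MonoidHom.mem_ker.1 hg)
    exact Sylow.smul_eq_iff_mem_normalizer.mp h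
  have hN20 : Nat.card (Subgroup.normalizer ((P : Subgroup G) : Set G)) = 20 := by
    have := (Subgroup.normalizer ((P : Subgroup G) : Set G)).card_mul_index
    rw [show (Subgroup.normalizer ((P : Subgroup G) : Set G)).index = 6 from
      P.card_eq_index_normalizer.symm.trans h6, h120] at this
    omega
  have hKd : Nat.card K ∣ 20 := hN20 ▸ Subgroup.card_dvd_of_le hKN
  have hK5 : ¬ 5 ∣ Nat.card K := by
    intro h5
    obtain ⟨R⟩ := (inferInstance : Nonempty (Sylow 5 K))
    have hR5 : Nat.card (R : Subgroup K) = 5 := by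
      obtain ⟨m, hm⟩ := h5
      have hm4 : m ∣ 4 := Nat.dvd_of_mul_dvd_mul_left (show 0 < 5 by norm_num) (hm ▸ hKd)
      refine (CfsgLib.SmallGroups.card_sylow_eq (m := m) (a := 1) (by rw [hm]; norm_num) ?_ R).trans
        (by norm_num)
      exact fun h => absurd (Nat.le_of_dvd (by norm_num) (h.trans hm4)) (by norm_num)
    have h1 : Nat.card (Sylow 5 K) = 1 := by
      have hmod := card_sylow_modEq_one 5 K
      have hdv : Nat.card (Sylow 5 K) ∣ (R : Subgroup K).index := R.card_dvd_index
      have hi : (R : Subgroup K).index ∣ 4 := by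
        refine Nat.dvd_of_mul_dvd_mul_left (show 0 < 5 by norm_num) ?_
        have h := (R : Subgroup K).card_mul_index
        rw [hR5] at h
        rw [h]
        exact hKd
      have hle := Nat.le_of_dvd (by norm_num) (hdv.trans hi)
      unfold Nat.ModEq at hmod
      omega
    haveI : Subsingleton (Sylow 5 K) := (Nat.card_eq_one_iff_unique.1 h1).1
    haveI : (R : Subgroup K).Characteristic := Sylow.characteristic_of_subsingleton R
    exact hsol5 ((R : Subgroup K).map K.subtype)
      ((Nat.card_congr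
        ((R : Subgroup K).equivMapOfInjective _ K.subtype_injective).toEquiv).symm.trans hR5) inferInstance
  have hK4 : Nat.card K ∣ 4 :=
    ((Nat.prime_five.coprime_iff_not_dvd.2 hK5).symm).dvd_of_dvd_mul_left
      (show Nat.card K ∣ 5 * 4 from hKd)
  have hKcyc : IsCyclic K := by
    refine hsmall K (fun k => ⟨2, ?_⟩) fun h => ?_
    · exact orderOf_dvd_iff_pow_eq_one.1 ((orderOf_dvd_natCard k).trans hK4)
    · rw [h] at hK4; norm_num at hK4
  haveI := hKcyc
  have hKc : ∀ g : G, ∀ k ∈ K, g * k = k * g := by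
    have hcomm : ∀ a b : MulAut K, a * b = b * a := by
      intro a b
      obtain ⟨m, hm⟩ := MonoidHom.map_cyclic a.toMonoidHom
      obtain ⟨n, hn⟩ := MonoidHom.map_cyclic b.toMonoidHom
      ext k
      have hm' : ∀ k, a k = k ^ m := hm
      have hn' : ∀ k, b k = k ^ n := hn
      rw [MulAut.mul_apply, MulAut.mul_apply, hn', hm', hm', hn', ← zpow_mul, ← zpow_mul, mul_comm]
    intro g k hk
    have hg : g ∈ (MulAut.conjNormal (H := K)).ker := by
      have : commutator G ≤ (MulAut.conjNormal (H := K)).ker := by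
        rw [commutator_def, Subgroup.commutator_le]
        intro a _ b _
        rw [MonoidHom.mem_ker, map_commutatorElement]
        exact commutatorElement_eq_one_iff_mul_comm.2 (hcomm _ _)
      exact this (hperf ▸ Subgroup.mem_top g)
    have h := congrArg (fun a : MulAut K => ((a ⟨k, hk⟩ : K) : G)) (MonoidHom.mem_ker.1 hg)
    simp [MulAut.conjNormal_apply] at h
    exact mul_inv_eq_iff_eq_mul.1 h
  have hK1 : Nat.card K ≠ 1 := fun h => hKne (Subgroup.card_eq_one.1 h)
  have hperfQ : commutator (G ⧸ K) = ⊤ := by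
    rw [commutator_def, ← Subgroup.map_top_of_surjective _ (QuotientGroup.mk'_surjective K),
      ← Subgroup.map_commutator, ← commutator_def, hperf]
  have hK2 : Nat.card K = 2 := by
    obtain ⟨i, hi, hi'⟩ := (Nat.dvd_prime_pow Nat.prime_two).1 (show Nat.card K ∣ 2 ^ 2 from hK4)
    interval_cases i
    · simp at hi'; contradiction
    · simpa using hi'
    · exfalso
      have h30 : Nat.card (G ⧸ K) = 30 := by
        have := K.card_eq_card_quotient_mul_card_subgroup
        rw [h120, hi'] at this; omega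
      obtain ⟨R⟩ := (inferInstance : Nonempty (Sylow 2 (G ⧸ K)))
      have hR : Nat.card (R : Subgroup (G ⧸ K)) = 2 :=
        (CfsgLib.SmallGroups.card_sylow_eq (m := 15) (a := 1) (by rw [h30]; norm_num) (by norm_num) R).trans
          (by norm_num)
      exact not_perfect_of_cyclic_two hperfQ (by rw [h30]; norm_num) R
        (isCyclic_of_prime_card (p := 2) hR)
  have h60 : Nat.card (G ⧸ K) = 60 := by
    have := K.card_eq_card_quotient_mul_card_subgroup
    rw [h120, hK2] at this; omega
  obtain ⟨e⟩ := CfsgLib.SL2.Dickson.Sixty.nonempty_mulEquiv_alternating_five h60 (fun R hR hn => by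
    haveI := hn
    have h12 : Nat.card ((G ⧸ K) ⧸ R) = 12 := by
      have := R.card_eq_card_quotient_mul_card_subgroup
      rw [h60, hR] at this; omega
    have h := eq_top_of_perfect_quotient hperfQ R
      (CfsgLib.CharTheory.isSolvable_of_card_dvd_pow_mul_pow 2 3 2 1 Nat.prime_two Nat.prime_three
        (by rw [h12]; norm_num))
    rw [h, Subgroup.card_top] at hR; omega)
  obtain ⟨z0, hz0⟩ := exists_prime_orderOf_dvd_card' 2 (G := K) (hK2 ▸ dvd_rfl)
  have hz0' : orderOf (z0 : G) = 2 := by rw [Subgroup.orderOf_coe, hz0]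
  have hz : (z0 : G) * z0 = 1 := by rw [← pow_two, ← hz0', pow_orderOf_eq_one]
  have hz1 : (z0 : G) ≠ 1 := fun h => by rw [h, orderOf_one] at hz0'; norm_num at hz0'
  have hset : ∀ g, g ∈ K → g = 1 ∨ g = (z0 : G) := by
    intro g hg
    by_contra hcon
    rw [not_or] at hcon
    have hthree : ({(1 : G), (z0 : G), g} : Set G) ⊆ (K : Set G) := by
      rintro x (rfl | rfl | rfl)
      exacts [K.one_mem, z0.2, hg]
    have hn := Set.ncard_le_ncard hthree (Set.toFinite _)
    have h3 : ({(1 : G), (z0 : G), g} : Set G).ncard = 3 := by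
      rw [Set.ncard_insert_of_notMem (by simp [Ne.symm hz1, Ne.symm hcon.1]), Set.ncard_pair (Ne.symm hcon.2)]
    rw [h3, ← Nat.card_coe_set_eq, SetLike.coe_sort_coe, hK2] at hn
    omega
  let π : G →* Equiv.Perm (Fin 5) :=
    (alternatingGroup (Fin 5)).subtype.comp (e.toMonoidHom.comp (QuotientGroup.mk' K))
  refine CfsgLib.PermGroups.equiv_sl_two_five hperf hz hz1 (fun g => hKc g _ z0.2) π (fun g => ?_) ?_
  · constructor
    · intro h
      have h1 : e (QuotientGroup.mk' K g) = 1 := Subtype.ext h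
      exact hset g ((QuotientGroup.eq_one_iff g).1 (e.injective (h1.trans (map_one e).symm)))
    · intro h
      have hg : g ∈ K := by
        rcases h with rfl | rfl
        exacts [K.one_mem, z0.2]
      simp [π, (QuotientGroup.eq_one_iff g).2 hg]
  · ext σ
    constructor
    · rintro ⟨g, rfl⟩; exact (e (QuotientGroup.mk' K g)).2
    · intro hσ
      obtain ⟨g, hg⟩ := QuotientGroup.mk'_surjective K (e.symm ⟨σ, hσ⟩)
      exact ⟨g, by simp [π, ← QuotientGroup.mk'_apply, hg]⟩

/-- An element of order three. -/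
def matA : SL(2, ZMod 5) := ⟨!![0, 4; 1, 4], by decide⟩

/-- An element of order five. -/
def matB : SL(2, ZMod 5) := ⟨!![1, 1; 0, 1], by decide⟩

/-- The central involution. -/
def matC : SL(2, ZMod 5) := ⟨!![4, 0; 0, 4], by decide⟩

theorem matA_facts : matA ^ 3 = 1 ∧ matA ≠ 1 := by decide +kernel

theorem matB_facts : matB ^ 5 = 1 ∧ matB ≠ 1 := by decide +kernel

theorem matC_facts : matC ^ 2 = 1 ∧ matC ≠ 1 ∧ (matA * matB) ^ 2 = matC ∧
    matC⁻¹ * matA * matC * matA⁻¹ = 1 ∧ matC⁻¹ * matB * matC * matB⁻¹ = 1 := by decide +kernel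

/-- Every non-solvable group of order 120 whose Sylow 2-subgroups are quaternion of order 8 is isomorphic to SL(2,5), and SL(2,5) has the presentation ⟨x, y, z | x³ = y⁵ = z² = 1, z⁻¹xz = x, z⁻¹yz = y, (xy)² = z⟩. -/
theorem result :
    (∀ (G : Type*) [Group G] [Finite G], Nat.card G = 120 → ¬ Group.IsSolvable G →
      (∀ P : Sylow 2 G, Nonempty ((P : Subgroup G) ≃* QuaternionGroup 2)) →
      Nonempty (G ≃* Matrix.SpecialLinearGroup (Fin 2) (ZMod 5))) ∧
    Nonempty (PresentedGroup ({FreeGroup.of (0 : Fin 3) ^ 3, FreeGroup.of (1 : Fin 3) ^ 5, FreeGroup.of (2 : Fin 3) ^ 2,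
        (FreeGroup.of (2 : Fin 3))⁻¹ * FreeGroup.of 0 * FreeGroup.of 2 * (FreeGroup.of (0 : Fin 3))⁻¹,
        (FreeGroup.of (2 : Fin 3))⁻¹ * FreeGroup.of 1 * FreeGroup.of 2 * (FreeGroup.of (1 : Fin 3))⁻¹,
        (FreeGroup.of (0 : Fin 3) * FreeGroup.of 1) ^ 2 * (FreeGroup.of (2 : Fin 3))⁻¹} : Set (FreeGroup (Fin 3)))
      ≃* Matrix.SpecialLinearGroup (Fin 2) (ZMod 5)) := by
  refine ⟨fun G _ _ h120 hns hQ => equiv_of_quaternion h120 hns hQ, ?_⟩
  classical
  set rels : Set (FreeGroup (Fin 3)) := {FreeGroup.of (0 : Fin 3) ^ 3, FreeGroup.of (1 : Fin 3) ^ 5, FreeGroup.of (2 : Fin 3) ^ 2,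
        (FreeGroup.of (2 : Fin 3))⁻¹ * FreeGroup.of 0 * FreeGroup.of 2 * (FreeGroup.of (0 : Fin 3))⁻¹,
        (FreeGroup.of (2 : Fin 3))⁻¹ * FreeGroup.of 1 * FreeGroup.of 2 * (FreeGroup.of (1 : Fin 3))⁻¹,
        (FreeGroup.of (0 : Fin 3) * FreeGroup.of 1) ^ 2 * (FreeGroup.of (2 : Fin 3))⁻¹} with hrels
  set x : PresentedGroup rels := PresentedGroup.of 0 with hx
  set y : PresentedGroup rels := PresentedGroup.of 1 with hy
  set z : PresentedGroup rels := PresentedGroup.of 2 with hz
  have hone : ∀ r ∈ rels, PresentedGroup.mk rels r = 1 := fun r hr => PresentedGroup.one_of_mem hr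
  have h3 : x ^ 3 = 1 := by
    rw [← hone (FreeGroup.of 0 ^ 3) (by simp [hrels]), map_pow]; rfl
  have h5 : y ^ 5 = 1 := by
    rw [← hone (FreeGroup.of 1 ^ 5) (by simp [hrels]), map_pow]; rfl
  have hz2 : z ^ 2 = 1 := by
    rw [← hone (FreeGroup.of 2 ^ 2) (by simp [hrels]), map_pow]; rfl
  have hzx : x * z = z * x := by
    have h := hone ((FreeGroup.of (2 : Fin 3))⁻¹ * FreeGroup.of 0 * FreeGroup.of 2 * (FreeGroup.of (0 : Fin 3))⁻¹) (by simp [hrels])
    simp only [map_mul, map_inv] at h
    have h' : z⁻¹ * x * z * x⁻¹ = 1 := h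
    rw [mul_inv_eq_one, mul_assoc, inv_mul_eq_iff_eq_mul] at h'
    exact h'
  have hzy : y * z = z * y := by
    have h := hone ((FreeGroup.of (2 : Fin 3))⁻¹ * FreeGroup.of 1 * FreeGroup.of 2 * (FreeGroup.of (1 : Fin 3))⁻¹) (by simp [hrels])
    simp only [map_mul, map_inv] at h
    have h' : z⁻¹ * y * z * y⁻¹ = 1 := h
    rw [mul_inv_eq_one, mul_assoc, inv_mul_eq_iff_eq_mul] at h'
    exact h'
  have h2 : (x * y) ^ 2 = z := by
    have h := hone ((FreeGroup.of (0 : Fin 3) * FreeGroup.of 1) ^ 2 * (FreeGroup.of (2 : Fin 3))⁻¹) (by simp [hrels])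
    simp only [map_mul, map_inv, map_pow] at h
    exact mul_inv_eq_one.1 h
  have hzc : ∀ g : PresentedGroup rels, g * z = z * g := by
    intro g
    have hg : g ∈ Subgroup.closure (Set.range (PresentedGroup.of : Fin 3 → PresentedGroup rels)) := by
      rw [PresentedGroup.closure_range_of]; trivial
    have hle : Subgroup.closure (Set.range (PresentedGroup.of : Fin 3 → PresentedGroup rels)) ≤
        Subgroup.centralizer {z} := by
      rw [Subgroup.closure_le]
      rintro _ ⟨i, rfl⟩
      refine Subgroup.mem_centralizer_singleton_iff.2 ?_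
      fin_cases i
      exacts [hzx, hzy, rfl]
    exact Subgroup.mem_centralizer_singleton_iff.1 (hle hg)
  set H : Subgroup (PresentedGroup rels) :=
    (MonoidHom.noncommCoprod (Subgroup.zpowers y).subtype (Subgroup.zpowers z).subtype (fun a b => by
      obtain ⟨i, hi⟩ := Subgroup.mem_zpowers_iff.1 b.2
      show Commute (a : PresentedGroup rels) b
      rw [← hi]
      exact (show Commute (a : PresentedGroup rels) z from hzc a).zpow_right i)).range with hH
  haveI : Finite (Subgroup.zpowers y) :=
    (isOfFinOrder_iff_pow_eq_one.mpr ⟨5, by norm_num, h5⟩ : IsOfFinOrder y).finite_zpowers.to_subtype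
  haveI : Finite (Subgroup.zpowers z) :=
    (isOfFinOrder_iff_pow_eq_one.mpr ⟨2, by norm_num, hz2⟩ : IsOfFinOrder z).finite_zpowers.to_subtype
  haveI : Finite H := hH ▸ Finite.of_surjective _ (MonoidHom.rangeRestrict_surjective _)
  have hH10 : Nat.card H ≤ 10 := by
    rw [hH]
    refine (Nat.card_le_card_of_surjective _ (MonoidHom.rangeRestrict_surjective _)).trans ?_
    rw [Nat.card_prod, Nat.card_zpowers, Nat.card_zpowers]
    exact Nat.mul_le_mul (Nat.le_of_dvd (by norm_num) (orderOf_dvd_of_pow_eq_one h5))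
      (Nat.le_of_dvd (by norm_num) (orderOf_dvd_of_pow_eq_one hz2))
  have hyH : y ∈ H := ⟨(⟨y, Subgroup.mem_zpowers y⟩, 1), by simp⟩
  have hzH : z ∈ H := ⟨(1, ⟨z, Subgroup.mem_zpowers z⟩), by simp⟩
  have hzq : ∀ q : PresentedGroup rels ⧸ H, z • q = q := by
    intro q
    induction q using QuotientGroup.induction_on with
    | H g =>
      rw [MulAction.Quotient.smul_coe, smul_eq_mul, QuotientGroup.eq, mul_inv_rev, mul_assoc,
        show z⁻¹ * g = g * z⁻¹ from ((show Commute g z from hzc g).inv_right).eq.symm,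
        inv_mul_cancel_left]
      exact H.inv_mem hzH
  obtain ⟨hfin, hle⟩ := CfsgLib.Spectrum.Icosahedral.coset_bound H (x := x) (y := y) hyH
    (fun q => by rw [smul_smul, smul_smul, show x * x * x = x ^ 3 by simp [pow_succ, mul_assoc], h3,
      one_smul])
    (fun q => by rw [smul_smul, smul_smul, smul_smul, smul_smul,
      show y * y * y * y * y = y ^ 5 by simp [pow_succ, mul_assoc], h5, one_smul])
    (fun q => by rw [smul_smul, smul_smul, smul_smul,
      show x * y * x * y = (x * y) ^ 2 by simp [pow_succ, mul_assoc], h2, hzq])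
    _ (PresentedGroup.closure_range_of rels) (by
      rintro _ ⟨i, rfl⟩
      fin_cases i
      · exact Or.inl rfl
      · exact Or.inr (Or.inl rfl)
      · exact Or.inr (Or.inr hzq))
  haveI := hfin
  haveI : Fact (Nat.Prime 5) := ⟨Nat.prime_five⟩
  haveI : Fact (Nat.Prime 3) := ⟨Nat.prime_three⟩
  haveI : Fact (Nat.Prime 2) := ⟨Nat.prime_two⟩
  have hcard : Nat.card (PresentedGroup rels) ≤ 120 := by omega
  let a : SL(2, ZMod 5) := matA
  let b : SL(2, ZMod 5) := matB
  let c : SL(2, ZMod 5) := matC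
  have ha : a ^ 3 = 1 ∧ a ≠ 1 := matA_facts
  have hb : b ^ 5 = 1 ∧ b ≠ 1 := matB_facts
  have hc : c ^ 2 = 1 ∧ c ≠ 1 ∧ (a * b) ^ 2 = c ∧ c⁻¹ * a * c * a⁻¹ = 1 ∧ c⁻¹ * b * c * b⁻¹ = 1 :=
    matC_facts
  let φ : PresentedGroup rels →* SL(2, ZMod 5) :=
    PresentedGroup.toGroup (f := ![a, b, c]) (by
      intro r hr
      simp only [hrels, Set.mem_insert_iff, Set.mem_singleton_iff] at hr
      rcases hr with rfl | rfl | rfl | rfl | rfl | rfl <;>
        simp [ha.1, hb.1, hc.1, hc.2.2.1, hc.2.2.2.1, hc.2.2.2.2])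
  have hφx : φ x = a := by simp [φ, hx]
  have hφy : φ y = b := by simp [φ, hy]
  have d3 : 3 ∣ Nat.card φ.range := by
    have := Subgroup.orderOf_dvd_natCard φ.range (x := a) ⟨x, hφx⟩
    rwa [orderOf_eq_prime ha.1 ha.2] at this
  have d5 : 5 ∣ Nat.card φ.range := by
    have := Subgroup.orderOf_dvd_natCard φ.range (x := b) ⟨y, hφy⟩
    rwa [orderOf_eq_prime hb.1 hb.2] at this
  have d4 : 4 ∣ Nat.card φ.range := by
    have := Subgroup.orderOf_dvd_natCard φ.range (x := a * b) ⟨x * y, by rw [map_mul, hφx, hφy]⟩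
    rwa [orderOf_eq_prime_pow (p := 2) (n := 1) (by rw [pow_one, hc.2.2.1]; exact hc.2.1)
      (by rw [show (2 : ℕ) ^ (1 + 1) = 2 * 2 by norm_num, pow_mul, hc.2.2.1]; exact hc.1)] at this
  have hA : Nat.card SL(2, ZMod 5) = 120 := by
    rw [CfsgLib.SL2.card_SL, Nat.card_eq_fintype_card, ZMod.card]; norm_num
  have hd : 60 ∣ Nat.card φ.range := by omega
  have htop : φ.range = ⊤ := by
    have h := φ.range.card_mul_index
    rw [hA] at h
    obtain ⟨k, hk⟩ := hd
    rw [hk] at h
    have hidx : φ.range.index = 1 ∨ φ.range.index = 2 := by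
      have : φ.range.index ∣ 2 := ⟨k, by nlinarith⟩
      exact (Nat.dvd_prime Nat.prime_two).1 this
    rcases hidx with e | e
    · exact Subgroup.index_eq_one.1 e
    · haveI := Subgroup.normal_of_index_eq_two e
      have hperf : commutator SL(2, ZMod 5) = ⊤ :=
        CfsgLib.ClassicalLinear.commutator_sl_eq_top (Or.inr ⟨(2 : ZMod 5),
          CfsgLib.PermGroups.two_facts_five.1, CfsgLib.PermGroups.two_facts_five.2⟩)
      refine eq_top_of_perfect_quotient hperf φ.range
        (CfsgLib.CharTheory.isSolvable_of_card_dvd_pow_mul_pow 2 3 1 0 Nat.prime_two Nat.prime_three ?_)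
      rw [← Subgroup.index_eq_card, e]
      norm_num
  have hs : Function.Surjective φ := MonoidHom.range_eq_top.1 htop
  exact ⟨MulEquiv.ofBijective φ ((Nat.bijective_iff_surjective_and_card _).2
    ⟨hs, le_antisymm (hcard.trans hA.ge) (Nat.card_le_card_of_surjective φ hs)⟩)⟩

end Cfsg.Agent.S3378
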