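import Cfsg.Statements.S3379
import Mathlib

set_option autoImplicit false
open Cfsg

namespace Cfsg.Agent.S3379

open scoped commutatorElement

/-- Let G be a finite group all of whose Sylow subgroups are cyclic. Then G is generated by two elements x and y of coprime orders n and m with x⁻¹yx = y^r, where gcd(r − 1, m) = 1 and r^n ≡ 1 (mod m). -/
theorem result {G : Type*} [Group G] [Finite G]
    (hZ : ∀ (p : ℕ) [Fact p.Prime] (P : Sylow p G), IsCyclic (P : Subgroup G)) :
    ∃ (x y : G) (n m r : ℕ), Subgroup.closure {x, y} = ⊤ ∧ orderOf x = n ∧ orderOf y = m ∧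
      x⁻¹ * y * x = y ^ r ∧ Nat.Coprime (r - 1) m ∧ Nat.Coprime n m ∧ 1 ≤ r ∧ r ^ n % m = 1 % m := by
  haveI : IsZGroup G := ⟨fun p hp P => @hZ p ⟨hp⟩ P⟩
  obtain ⟨H, hH⟩ := Subgroup.exists_right_complement'_of_coprime (IsZGroup.coprime_commutator_index G)
  have e : G ⧸ commutator G ≃* H := hH.symm.QuotientMulEquiv
  haveI : IsCyclic (Abelianization G) := inferInstance
  haveI : IsCyclic (G ⧸ commutator G) := (inferInstance : IsCyclic (Abelianization G))
  haveI : IsCyclic H := isCyclic_of_surjective e e.surjective
  haveI : IsCyclic (commutator G) := IsZGroup.isCyclic_commutator G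
  obtain ⟨x, hx⟩ := IsCyclic.exists_generator (α := H)
  obtain ⟨y, hy⟩ := IsCyclic.exists_generator (α := commutator G)
  have hHx : H = Subgroup.zpowers (x : G) := by
    ext g
    constructor
    · intro hg
      obtain ⟨k, hk⟩ := hx ⟨g, hg⟩
      exact ⟨k, by simpa using congrArg Subtype.val hk⟩
    · rintro ⟨k, rfl⟩; exact zpow_mem x.2 k
  have hCy : commutator G = Subgroup.zpowers (y : G) := by
    ext g
    constructor
    · intro hg
      obtain ⟨k, hk⟩ := hy ⟨g, hg⟩
      exact ⟨k, by simpa using congrArg Subtype.val hk⟩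
    · rintro ⟨k, rfl⟩; exact zpow_mem y.2 k
  set a : G := (x : G) with ha
  set b : G := (y : G) with hb
  have hmem : a⁻¹ * b * a ∈ Subgroup.zpowers b := by
    rw [← hCy]
    simpa using (inferInstance : (commutator G).Normal).conj_mem b (hCy ▸ Subgroup.mem_zpowers b) a⁻¹
  obtain ⟨k, hk⟩ := mem_powers_iff_mem_zpowers.mpr hmem
  simp only at hk
  set m := orderOf b with hm
  set n := orderOf a with hn
  have hm0 : 0 < m := orderOf_pos b
  refine ⟨a, b, n, m, k + m, ?_, rfl, rfl, ?_, ?_, ?_, by omega, ?_⟩
  · rw [eq_top_iff, ← hH.sup_eq_top, sup_le_iff, hHx, hCy, Subgroup.zpowers_le, Subgroup.zpowers_le]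
    exact ⟨Subgroup.subset_closure (by simp), Subgroup.subset_closure (by simp)⟩
  · rw [pow_add, hm, pow_orderOf_eq_one, mul_one]; exact hk.symm
  · -- `b ^ (k - 1)` generates the commutator subgroup
    set c := b ^ (k + m - 1) with hc
    have hmem' : c ∈ Subgroup.zpowers b := Subgroup.pow_mem _ (Subgroup.mem_zpowers b) _
    have hab : a⁻¹ * b * a = b * c := by
      rw [hc, ← pow_succ', show k + m - 1 + 1 = k + m by omega, pow_add, hm, pow_orderOf_eq_one, mul_one, hk]
    have hcomm : Commute c b := (Commute.self_pow b _).symm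
    have hconjc : a⁻¹ * c * a = c ^ (k + m) := by
      have : a⁻¹ * c * a = (a⁻¹ * b * a) ^ (k + m - 1) := by
        rw [hc]; simpa using (conj_pow (a := a⁻¹) (b := b) (i := k + m - 1)).symm
      rw [this, hab, hc, ← pow_succ' b (k + m - 1), ← pow_mul, ← pow_mul]
      congr 1
      rw [show k + m - 1 + 1 = k + m by omega, Nat.mul_comm]
    have hnorm : (Subgroup.zpowers c).Normal := by
      have hle : Subgroup.closure {a, b} ≤ Subgroup.normalizer (Subgroup.zpowers c : Set G) := by
        rw [Subgroup.closure_le]
        rintro z (rfl | rfl)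
        · rw [SetLike.mem_coe, ← inv_mem_iff]
          apply Subgroup.mem_normalizer_fintype
          rintro d ⟨j, rfl⟩
          refine ⟨((k + m : ℕ) : ℤ) * j, ?_⟩
          simp only [zpow_mul, zpow_natCast, ← hconjc, inv_inv]
          simpa using (conj_zpow (a := a⁻¹) (b := c) (i := j))
        · apply Subgroup.centralizer_le_normalizer
          rw [Subgroup.mem_centralizer_iff]
          rintro d ⟨j, rfl⟩
          exact (hcomm.zpow_left j).eq
      have htop : Subgroup.closure {a, b} = ⊤ := by
        rw [eq_top_iff, ← hH.sup_eq_top, sup_le_iff, hHx, hCy, Subgroup.zpowers_le, Subgroup.zpowers_le]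
        exact ⟨Subgroup.subset_closure (by simp), Subgroup.subset_closure (by simp)⟩
      rw [htop, top_le_iff, Subgroup.normalizer_eq_top_iff] at hle
      exact hle
    haveI := hnorm
    have hle : commutator G ≤ Subgroup.zpowers c := by
      let π := QuotientGroup.mk' (Subgroup.zpowers c)
      have hcl : Subgroup.closure {π a, π b} = ⊤ := by
        have htop : Subgroup.closure ({a, b} : Set G) = ⊤ := by
          rw [eq_top_iff, ← hH.sup_eq_top, sup_le_iff, hHx, hCy, Subgroup.zpowers_le, Subgroup.zpowers_le]
          exact ⟨Subgroup.subset_closure (by simp), Subgroup.subset_closure (by simp)⟩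
        rw [← Set.image_pair, ← MonoidHom.map_closure, htop, Subgroup.map_top_of_surjective]
        exact QuotientGroup.mk'_surjective _
      have hπ : π a * π b = π b * π a := by
        have h1 : π (a⁻¹ * b * a) = π b := by
          rw [hab, map_mul, show π c = 1 from (QuotientGroup.eq_one_iff c).mpr (Subgroup.mem_zpowers c), mul_one]
        rw [map_mul, map_mul, map_inv] at h1
        calc π a * π b = π a * ((π a)⁻¹ * π b * π a) := by rw [h1]
          _ = _ := by group
      have : IsMulCommutative (Subgroup.closure ({π a, π b} : Set _)) := by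
        refine Subgroup.isMulCommutative_closure ?_
        rintro u (rfl | rfl) v (rfl | rfl)
        · rfl
        · exact hπ
        · exact hπ.symm
        · rfl
      rw [hcl] at this
      rw [commutator_def, Subgroup.commutator_le]
      intro u _ v _
      rw [← QuotientGroup.eq_one_iff]
      show π ⁅u, v⁆ = 1
      rw [map_commutatorElement, commutatorElement_eq_one_iff_mul_comm]
      exact congrArg Subtype.val (this.1.comm ⟨π u, Subgroup.mem_top _⟩ ⟨π v, Subgroup.mem_top _⟩)
    have hord : orderOf c = m := by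
      apply Nat.dvd_antisymm (hc ▸ orderOf_pow_dvd _)
      rw [← Nat.card_zpowers, hm, ← Nat.card_zpowers]
      exact Subgroup.card_dvd_of_le (hCy ▸ hle)
    rw [hc, orderOf_pow, ← hm] at hord
    rw [Nat.coprime_comm, Nat.coprime_iff_gcd_eq_one]
    exact (Nat.div_eq_self.mp hord).resolve_left hm0.ne'
  · have := IsZGroup.coprime_commutator_index G
    rw [hH.symm.index_eq_card, hCy, hHx, Nat.card_zpowers, Nat.card_zpowers] at this
    exact this.symm
  · have hkey : ∀ j : ℕ, (a ^ j)⁻¹ * b * a ^ j = b ^ ((k + m) ^ j) := by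
      intro j
      induction j with
      | zero => simp
      | succ j ih =>
        calc (a ^ (j + 1))⁻¹ * b * a ^ (j + 1) = a⁻¹ * ((a ^ j)⁻¹ * b * a ^ j) * a := by
              rw [pow_succ]; group
          _ = (a⁻¹ * b * a) ^ ((k + m) ^ j) := by
              rw [ih]; simpa using (conj_pow (a := a⁻¹) (b := b) (i := (k + m) ^ j)).symm
          _ = b ^ ((k + m) ^ (j + 1)) := by
              rw [← hk, pow_succ', pow_mul, pow_add, hm, pow_orderOf_eq_one, mul_one]
    have h := hkey n
    rw [hn, pow_orderOf_eq_one, inv_one, one_mul, mul_one] at h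
    exact (pow_eq_pow_iff_modEq.mp ((pow_one b).symm ▸ h : b ^ 1 = b ^ ((k + m) ^ orderOf a))).symm

end Cfsg.Agent.S3379
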