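import Cfsg.Statements.S3381
import Mathlib

set_option autoImplicit false
open Cfsg

namespace Cfsg.Agent.S3381

/-- Let G be a finite group acting faithfully and linearly on a non-trivial finite vector space V over the field with q elements (q prime) so that every non-zero vector has a stabilizer of order 2, and suppose G has a central involution. Then V has q^(2r) elements for some r and G contains exactly q^r + 1 non-central involutions. -/
theorem result
    (q : ℕ) [Fact q.Prime] {V : Type*} [AddCommGroup V] [Module (ZMod q) V] [Finite V] [Nontrivial V]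
    {G : Type*} [Group G] [Finite G] (ρ : G →* (V ≃ₗ[ZMod q] V)) (hρ : Function.Injective ρ)
    (hstab : ∀ v : V, v ≠ 0 → Nat.card {g : G // ρ g v = v} = 2)
    (z : G) (hz : orderOf z = 2) (hzc : z ∈ Subgroup.center G) :
    ∃ r : ℕ, Nat.card V = q ^ (2 * r) ∧
      Nat.card {g : G // orderOf g = 2 ∧ g ∉ Subgroup.center G} = q ^ r + 1 := by
  classical
  let W : G → Submodule (ZMod q) V := fun g => LinearMap.eqLocus (ρ g : V →ₗ[ZMod q] V) LinearMap.id
  have hW : ∀ g v, v ∈ W g ↔ ρ g v = v := fun g v => Iff.rfl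
  have hfaith : ∀ g : G, (∀ w, ρ g w = w) → g = 1 := fun g h =>
    hρ (by rw [map_one]; exact LinearEquiv.ext h)
  have huniq : ∀ (g h : G) (v : V), v ≠ 0 → g ≠ 1 → h ≠ 1 → ρ g v = v → ρ h v = v → g = h := by
    intro g h v hv hg1 hh1 hg hh
    by_contra hne
    have h3 := hstab v hv
    have hsub : ({1, g, h} : Set G) ⊆ {x | ρ x v = v} := by
      rintro x (rfl | rfl | rfl)
      · show ρ 1 v = v
        rw [map_one]; rfl
      exacts [hg, hh]
    have := Set.ncard_le_ncard hsub (Set.toFinite _)
    rw [Set.ncard_insert_of_notMem (by simp [Ne.symm hg1, Ne.symm hh1]), Set.ncard_pair hne,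
      ← Nat.card_coe_set_eq, show Nat.card ↥{x : G | ρ x v = v} = 2 from h3] at this
    omega
  have hexists : ∀ v : V, v ≠ 0 → ∃ g : G, g ≠ 1 ∧ ρ g v = v := by
    intro v hv
    by_contra hcon
    have : Subsingleton {g : G // ρ g v = v} := ⟨fun a b => Subtype.ext (by
      rw [show a.1 = 1 from by_contra fun h => hcon ⟨a, h, a.2⟩,
        show b.1 = 1 from by_contra fun h => hcon ⟨b, h, b.2⟩])⟩
    have h1 := Finite.card_le_one_iff_subsingleton.2 this
    rw [hstab v hv] at h1
    omega
  have hord : ∀ (g : G) (v : V), v ≠ 0 → g ≠ 1 → ρ g v = v → orderOf g = 2 := by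
    intro g v hv hg1 hg
    refine orderOf_eq_prime ?_ hg1
    by_contra hne
    have hg2 : ρ (g ^ 2) v = v := by rw [pow_two, map_mul, LinearEquiv.mul_apply, hg, hg]
    have := huniq g (g ^ 2) v hv hg1 hne hg hg2
    rw [pow_two, eq_comm, mul_eq_left] at this
    exact hg1 this
  have hsq : ∀ g : G, orderOf g = 2 → g ^ 2 = 1 := fun g h => orderOf_dvd_iff_pow_eq_one.1 h.dvd
  have hzc' : ∀ g : G, g * z = z * g := Subgroup.mem_center_iff.1 hzc
  have hz1 : z ≠ 1 := fun h => by rw [h, orderOf_one] at hz; norm_num at hz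
  -- a central involution is minus the identity
  have key : ∀ c : G, orderOf c = 2 → (∀ g : G, g * c = c * g) → ∀ v, ρ c v = -v := by
    intro c hc hcc v
    have hc1 : c ≠ 1 := fun h => by rw [h, orderOf_one] at hc; norm_num at hc
    have h2 : ρ c (ρ c v) = v := by
      rw [← LinearEquiv.mul_apply, ← map_mul, ← pow_two, ← hc, pow_orderOf_eq_one, map_one]; rfl
    by_contra hne
    have hw : v + ρ c v ≠ 0 := fun h => hne (eq_neg_of_add_eq_zero_right h)
    have hwfix : ρ c (v + ρ c v) = v + ρ c v := by rw [map_add, h2, add_comm]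
    obtain ⟨u, hu⟩ : ∃ u : V, ρ c u ≠ u := by
      by_contra h
      push_neg at h
      exact hc1 (hfaith c h)
    have hu0 : u ≠ 0 := fun h => hu (by rw [h, map_zero])
    have h2u : ρ c (ρ c u) = u := by
      rw [← LinearEquiv.mul_apply, ← map_mul, ← pow_two, ← hc, pow_orderOf_eq_one, map_one]; rfl
    -- a vector with a non-zero component in the fixed space of `c` is fixed by nothing else
    have hfix : ∀ x : V, x + ρ c x ≠ 0 → ρ c x = x := by
      intro x hx
      by_contra hcx
      have hx0 : x ≠ 0 := fun h => hcx (by rw [h, map_zero])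
      obtain ⟨t, ht1, ht⟩ := hexists x hx0
      have htc : ρ t (ρ c x) = ρ c x := by
        rw [← LinearEquiv.mul_apply, ← map_mul, hcc, map_mul, LinearEquiv.mul_apply, ht]
      have h2x : ρ c (ρ c x) = x := by
        rw [← LinearEquiv.mul_apply, ← map_mul, ← pow_two, ← hc, pow_orderOf_eq_one, map_one]; rfl
      have := huniq t c (x + ρ c x) hx ht1 hc1 (by rw [map_add, ht, htc])
        (by rw [map_add, h2x, add_comm])
      exact hcx (this ▸ ht)
    by_cases hu' : u + ρ c u = 0
    · -- `u` is negated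
      have hsum : (v + ρ c v + u) + ρ c (v + ρ c v + u) ≠ 0 := by
        intro h
        rw [map_add, hwfix] at h
        have e : (v + ρ c v) + (v + ρ c v) = 0 := by
          rw [← h, show v + ρ c v + u + (v + ρ c v + ρ c u) = v + ρ c v + (v + ρ c v) + (u + ρ c u) by abel,
            hu', add_zero]
        by_cases hq : q = 2
        · subst hq
          apply hu
          have hneg : ∀ y : V, -y = y := fun y => by
            rw [← neg_one_smul (ZMod 2) y, show (-1 : ZMod 2) = 1 from rfl, one_smul]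
          rw [eq_neg_of_add_eq_zero_right hu', hneg]
        · have h20 : (2 : ZMod q) ≠ 0 := by
            intro h0
            have : q ∣ 2 := (ZMod.natCast_eq_zero_iff 2 q).1 (by exact_mod_cast h0)
            exact hq ((Nat.prime_dvd_prime_iff_eq Fact.out Nat.prime_two).1 this)
          rw [← two_smul (ZMod q)] at e
          exact hw ((smul_eq_zero.1 e).resolve_left h20)
      have := hfix _ hsum
      rw [map_add, hwfix, add_right_inj] at this
      exact hu this
    · exact hu (hfix u hu')
  have hz' := key z hz hzc'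
  have hq2 : ∀ v : V, v ≠ 0 → -v ≠ v := by
    intro v hv h
    refine hz1 (hfaith z fun w => ?_)
    rw [hz']
    by_cases hw : w = 0
    · rw [hw, neg_zero]
    · by_contra hne
      have h20 : (2 : ZMod q) • v = 0 := by rw [two_smul]; nth_rewrite 1 [← h]; exact neg_add_cancel v
      have h2 : (2 : ZMod q) = 0 := (smul_eq_zero.1 h20).resolve_right hv
      apply hne
      rw [neg_eq_iff_add_eq_zero, ← two_smul (ZMod q), h2, zero_smul]
  -- the non-central involutions
  let T := {g : G // orderOf g = 2 ∧ g ∉ Subgroup.center G}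
  have hT : ∀ t : G, (orderOf t = 2 ∧ t ∉ Subgroup.center G) → t ≠ 1 := fun t ht h => by
    have := ht.1; rw [h, orderOf_one] at this; norm_num at this
  have hTmem : ∀ (g : G) (v : V), v ≠ 0 → g ≠ 1 → ρ g v = v → orderOf g = 2 ∧ g ∉ Subgroup.center G := by
    intro g v hv hg1 hg
    refine ⟨hord g v hv hg1 hg, fun hc => ?_⟩
    have := key g (hord g v hv hg1 hg) (Subgroup.mem_center_iff.1 hc) v
    rw [hg] at this
    exact hq2 v hv this.symm
  have hmulz : ∀ t : T, orderOf (t.1 * z) = 2 ∧ t.1 * z ∉ Subgroup.center G := by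
    intro t
    refine ⟨orderOf_eq_prime ?_ ?_, fun h => t.2.2 ?_⟩
    · rw [(show Commute t.1 z from hzc' t.1).mul_pow,
        show t.1 ^ 2 = 1 from hsq _ t.2.1,
        show z ^ 2 = 1 by rw [← hz, pow_orderOf_eq_one], one_mul]
    · intro h
      exact t.2.2 (by rw [eq_inv_of_mul_eq_one_left h]; exact Subgroup.inv_mem _ hzc)
    · have := Subgroup.mul_mem _ h (Subgroup.inv_mem _ hzc)
      rwa [mul_inv_cancel_right] at this
  have hWz : ∀ (g : G) (v : V), v ∈ W (g * z) ↔ ρ g v = -v := by
    intro g v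
    rw [hW, map_mul, LinearEquiv.mul_apply, hz', map_neg, neg_eq_iff_eq_neg]
  have hcompl : ∀ t : T, IsCompl (W t.1) (W (t.1 * z)) := by
    intro t
    constructor
    · rw [Submodule.disjoint_def]
      intro v h1 h2
      rw [hW] at h1
      rw [hWz, h1] at h2
      by_contra hv
      exact hq2 v hv h2.symm
    · rw [codisjoint_iff, eq_top_iff]
      intro v _
      have h2 : ρ t.1 (ρ t.1 v) = v := by
        rw [← LinearEquiv.mul_apply, ← map_mul, ← pow_two, hsq _ t.2.1, map_one]; rfl
      have hh : (2 : ZMod q) ≠ 0 := by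
        intro h0
        obtain ⟨u, hu⟩ := exists_ne (0 : V)
        refine hq2 u hu ?_
        rw [neg_eq_iff_add_eq_zero, ← two_smul (ZMod q), h0, zero_smul]
      have e : v = (2 : ZMod q)⁻¹ • (v + ρ t.1 v) + (2 : ZMod q)⁻¹ • (v - ρ t.1 v) := by
        rw [← smul_add, show v + ρ t.1 v + (v - ρ t.1 v) = (2 : ZMod q) • v by rw [two_smul]; abel,
          inv_smul_smul₀ hh]
      rw [e]
      refine Submodule.add_mem_sup (Submodule.smul_mem _ _ ?_) (Submodule.smul_mem _ _ ?_)
      · rw [hW, map_add, h2, add_comm]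
      · rw [hWz, map_sub, h2, neg_sub]
  have hdis : ∀ t u : T, t ≠ u → Disjoint (W t.1) (W u.1) := by
    intro t u hne
    rw [Submodule.disjoint_def]
    intro v h1 h2
    by_contra hv
    exact hne (Subtype.ext (huniq _ _ v hv (hT _ t.2) (hT _ u.2) h1 h2))
  set d := fun g : G => Module.finrank (ZMod q) (W g) with hd
  set n := Module.finrank (ZMod q) V with hn
  have hadd : ∀ t : T, d t.1 + d (t.1 * z) = n := fun t => Submodule.finrank_add_eq_of_isCompl (hcompl t)
  have hle : ∀ t u : T, t ≠ u → d t.1 + d u.1 ≤ n := fun t u hne =>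
    Submodule.finrank_add_finrank_le_of_disjoint (hdis t u hne)
  obtain ⟨v0, hv0⟩ := exists_ne (0 : V)
  obtain ⟨g0, hg01, hg0⟩ := hexists v0 hv0
  let t0 : T := ⟨g0, hTmem g0 v0 hv0 hg01 hg0⟩
  have hpos : ∀ t : T, 1 ≤ d t.1 := by
    intro t
    refine Nat.one_le_iff_ne_zero.2 fun h0 => ?_
    have hbot := Submodule.finrank_eq_zero.1 h0
    have hall : ∀ v : V, ρ t.1 v = -v := by
      intro v
      have htop := (hcompl t).sup_eq_top
      rw [hbot, bot_sup_eq] at htop
      exact (hWz _ v).1 (htop ▸ Submodule.mem_top)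
    exact t.2.2 (by
      rw [show t.1 = z from hρ (LinearEquiv.ext fun v => by rw [hall, hz'])]; exact hzc)
  have hmem : ∀ v : V, v ≠ 0 → ∃ t : T, v ∈ W t.1 := fun v hv => by
    obtain ⟨g, hg1, hg⟩ := hexists v hv
    exact ⟨⟨g, hTmem g v hv hg1 hg⟩, hg⟩
  have hhalf : ∀ t : T, 2 * d t.1 = n := by
    intro t
    let t' : T := ⟨t.1 * z, hmulz t⟩
    -- a third involution
    obtain ⟨u, hu1, hu2⟩ : ∃ u : T, u ≠ t ∧ u ≠ t' := by
      obtain ⟨a, ha, ha0⟩ := Submodule.exists_mem_ne_zero_of_ne_bot (fun h => by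
        have := hpos t; rw [hd] at this; simp only at this; rw [h, finrank_bot] at this; omega : W t.1 ≠ ⊥)
      obtain ⟨b, hb, hb0⟩ := Submodule.exists_mem_ne_zero_of_ne_bot (fun h => by
        have := hpos t'; rw [hd] at this; simp only at this; rw [h, finrank_bot] at this; omega : W t'.1 ≠ ⊥)
      have hab : a + b ≠ 0 := fun h => by
        have : a ∈ W t'.1 := by rw [eq_neg_of_add_eq_zero_left h]; exact Submodule.neg_mem _ hb
        exact ha0 (Submodule.disjoint_def.1 (hcompl t).disjoint a ha this)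
      obtain ⟨u, hu⟩ := hmem _ hab
      refine ⟨u, ?_, ?_⟩
      · rintro rfl
        exact hb0 (Submodule.disjoint_def.1 (hcompl u).disjoint b
          (by simpa using Submodule.sub_mem _ hu ha) hb)
      · rintro rfl
        exact ha0 (Submodule.disjoint_def.1 (hcompl t).disjoint a ha
          (by simpa using Submodule.sub_mem _ hu hb))
    let u' : T := ⟨u.1 * z, hmulz u⟩
    have hu'1 : u' ≠ t := fun h => hu2 (Subtype.ext (by
      show u.1 = t.1 * z
      rw [← congrArg Subtype.val h]
      show u.1 = u.1 * z * z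
      rw [mul_assoc, ← pow_two, hsq z hz, mul_one]))
    have hu'2 : u' ≠ t' := fun h => hu1 (Subtype.ext (mul_right_cancel (congrArg Subtype.val h)))
    have e1 := hle u t hu1
    have e2 := hle u t' hu2
    have e3 := hle u' t hu'1
    have e4 := hle u' t' hu'2
    have e5 : d t.1 + d t'.1 = n := hadd t
    have e6 : d u.1 + d u'.1 = n := hadd u
    omega
  refine ⟨d t0.1, ?_, ?_⟩
  · rw [Module.natCard_eq_pow_finrank (K := ZMod q), Nat.card_zmod, hhalf t0]
  · set r := d t0.1
    have hr : ∀ t : T, d t.1 = r := fun t => by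
      have := hhalf t; have := hhalf t0; omega
    haveI : Fintype V := Fintype.ofFinite V
    haveI : Fintype T := Fintype.ofFinite T
    let E : (Σ t : T, {v : W t.1 // v ≠ 0}) ≃ {v : V // v ≠ 0} := Equiv.ofBijective
      (fun p => ⟨(p.2.1 : V), fun h => p.2.2 (Subtype.ext h)⟩) ⟨by
        rintro ⟨t, v⟩ ⟨u, w⟩ h
        have h' : (v.1 : V) = w.1 := congrArg Subtype.val h
        obtain rfl : t = u := by
          by_contra hne
          exact v.2 (Subtype.ext (Submodule.disjoint_def.1 (hdis t u hne) _ v.1.2 (h' ▸ w.1.2)))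
        exact congrArg (Sigma.mk t) (Subtype.ext (Subtype.ext h')), fun v => by
        obtain ⟨t, ht⟩ := hmem v.1 v.2
        exact ⟨⟨t, ⟨⟨v.1, ht⟩, fun h => v.2 (congrArg Subtype.val h)⟩⟩, rfl⟩⟩
    have hcard := Nat.card_congr E
    rw [Nat.card_sigma] at hcard
    have hne : ∀ (X : Type _) [Finite X] [Zero X], Nat.card {x : X // x ≠ 0} = Nat.card X - 1 := by
      intro X _ _
      haveI := Fintype.ofFinite X
      rw [Nat.card_eq_fintype_card, Fintype.card_subtype_compl, Fintype.card_subtype_eq,
        Nat.card_eq_fintype_card]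
    have hWc : ∀ t : T, Nat.card {v : W t.1 // v ≠ 0} = q ^ r - 1 := fun t => by
      haveI := Fintype.ofFinite (W t.1)
      rw [Nat.card_eq_fintype_card, Fintype.card_subtype_compl, Fintype.card_subtype_eq,
        ← Nat.card_eq_fintype_card, Module.natCard_eq_pow_finrank (K := ZMod q), Nat.card_zmod,
        ← hr t]
    rw [Finset.sum_congr rfl fun t _ => hWc t, Finset.sum_const, Finset.card_univ, smul_eq_mul,
      hne V, ← Nat.card_eq_fintype_card, Module.natCard_eq_pow_finrank (K := ZMod q) (V := V), Nat.card_zmod,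
      show Module.finrank (ZMod q) V = 2 * r from (hhalf t0).symm] at hcard
    have hr1 : 2 ≤ q ^ r := le_trans (Fact.out : q.Prime).two_le (Nat.le_self_pow (by have := hpos t0; omega) q)
    obtain ⟨m, hm⟩ : ∃ m, q ^ r = m + 1 := ⟨q ^ r - 1, by omega⟩
    rw [mul_comm 2 r, pow_mul, hm, show (m + 1) ^ 2 - 1 = (m + 2) * m by
      rw [show (m + 1) ^ 2 = (m + 2) * m + 1 by ring]; simp, show m + 1 - 1 = m from rfl] at hcard
    rw [hm]
    exact Nat.eq_of_mul_eq_mul_right (show 0 < m by omega) hcard

end Cfsg.Agent.S3381
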