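import Cfsg.Statements.S3382
import Mathlib

set_option autoImplicit false
open Cfsg

namespace Cfsg.Agent.S3382

attribute [-simp] ZMod.inv_coe_unit

/-- A fixed point of an automorphism of order an odd prime on an invariant set of 2-power size. -/
theorem exists_fixed {α : Type*} [Finite α] {p : ℕ} [hp : Fact p.Prime] (hp2 : p ≠ 2)
    (σ : Equiv.Perm α) (hσ : σ ^ p = 1) {j : ℕ} (hj : Nat.card α = 2 ^ j) : ∃ x, σ x = x := by
  haveI := Fintype.ofFinite α
  classical
  refine Equiv.Perm.exists_fixed_point_of_prime (p := p) (n := 1) ?_ (by rwa [pow_one])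
  rw [← Nat.card_eq_fintype_card, hj]
  exact fun h => hp2 ((Nat.prime_dvd_prime_iff_eq hp.out Nat.prime_two).1 (hp.out.dvd_of_dvd_pow h))

theorem exists_fixed_mem {T : Type*} [Group T] [Finite T] {p : ℕ} [hp : Fact p.Prime] (hp2 : p ≠ 2)
    (φ : MulAut T) (hφ : φ ^ p = 1) (S : Set T) (hS : ∀ x, x ∈ S ↔ φ x ∈ S) {j : ℕ}
    (hj : S.ncard = 2 ^ j) : ∃ x ∈ S, φ x = x := by
  let σ : Equiv.Perm S := φ.toEquiv.subtypeEquiv hS
  have hpow : ∀ (n : ℕ) (x : S), ((σ ^ n) x : T) = (φ ^ n) x := by
    intro n
    induction n with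
    | zero => intro x; rfl
    | succ n ih =>
      intro x
      rw [pow_succ', pow_succ', Equiv.Perm.mul_apply, MulAut.mul_apply]
      show φ ((σ ^ n) x : T) = _
      rw [ih]
  obtain ⟨x, hx⟩ := exists_fixed hp2 σ (Equiv.ext fun x => Subtype.ext (by rw [hpow, hφ]; rfl)) (j := j)
    (by rw [Nat.card_coe_set_eq, hj])
  exact ⟨x.1, x.2, congrArg Subtype.val hx⟩

/-- An automorphism of odd prime order fixing `g` is trivial if the centraliser of `g` is large. -/
theorem eq_one_of_fixed {T : Type*} [Group T] [Finite T] {p : ℕ} [hp : Fact p.Prime] (hp2 : p ≠ 2)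
    (hT : IsPGroup 2 T) (φ : MulAut T) (hφ : φ ^ p = 1) (g : T) (hg : φ g = g)
    (h1 : (Subgroup.zpowers g).relIndex (Subgroup.centralizer {g}) ≤ 2)
    (h2 : (Subgroup.centralizer ({g} : Set T)).index ≤ 2) : φ = 1 := by
  haveI : Fact (Nat.Prime 2) := ⟨Nat.prime_two⟩
  let K : Subgroup T := φ.toMonoidHom.eqLocus (MonoidHom.id T)
  have hK : ∀ x, x ∈ K ↔ φ x = x := fun x => Iff.rfl
  have step : ∀ A B : Subgroup T, A ≤ B → A.relIndex B ≤ 2 → A ≤ K →
      (∀ x, x ∈ B ↔ φ x ∈ B) → B ≤ K := by
    intro A B hAB hi hAK hB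
    have hmul := Subgroup.relIndex_mul_index hAB
    have h0 : A.relIndex B ≠ 0 := fun h => by
      rw [h, zero_mul] at hmul; exact Subgroup.index_ne_zero_of_finite hmul.symm
    rcases (show A.relIndex B = 1 ∨ A.relIndex B = 2 by omega) with h | h
    · exact (Subgroup.relIndex_eq_one.1 h).trans hAK
    · by_contra hcon
      have hne : ¬ B ≤ A := fun hle => by rw [Subgroup.relIndex_eq_one.2 hle] at h; omega
      obtain ⟨k, hk⟩ := IsPGroup.iff_card.1 (hT.to_subgroup A)
      have hcardB : Nat.card B = 2 * Nat.card A := by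
        have h3 := A.relIndex_mul_index hAB
        have h4 := A.card_mul_index
        have h5 := B.card_mul_index
        rw [h] at h3
        have hpos : 0 < B.index := Nat.pos_of_ne_zero Subgroup.index_ne_zero_of_finite
        rw [← h3, ← h5] at h4
        exact Nat.eq_of_mul_eq_mul_right hpos (by rw [← h4]; ring)
      have hdiff : ((B : Set T) \ (A : Set T)).ncard = 2 ^ k := by
        rw [Set.ncard_diff (by exact hAB) (Set.toFinite _), ← Nat.card_coe_set_eq, ← Nat.card_coe_set_eq]
        show Nat.card B - Nat.card A = _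
        rw [hcardB, hk]; omega
      have hAinv : ∀ x, x ∈ A ↔ φ x ∈ A := fun x => by
        constructor
        · intro hx; rw [(hK x).1 (hAK hx)]; exact hx
        · intro hx
          have := (hK _).1 (hAK hx)
          rwa [φ.injective this] at hx
      obtain ⟨x, hx, hfx⟩ := exists_fixed_mem hp2 φ hφ _
        (fun x => and_congr (hB x) (not_congr (hAinv x))) hdiff
      refine hcon fun b hb => ?_
      have hsup : B ≤ A ⊔ Subgroup.zpowers x := by
        intro b hb
        have hle : (A ⊔ Subgroup.zpowers x) ≤ B := sup_le hAB (Subgroup.zpowers_le.2 hx.1)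
        have heq : A ⊔ Subgroup.zpowers x = B := by
          refine Subgroup.eq_of_le_of_card_ge hle ?_
          have hlt : A < A ⊔ Subgroup.zpowers x := lt_of_le_of_ne le_sup_left fun e =>
            hx.2 (e ▸ Subgroup.mem_sup_right (Subgroup.mem_zpowers x))
          obtain ⟨c, hc⟩ := Subgroup.card_dvd_of_le hlt.le
          have hc1 : c ≠ 1 := fun e => hlt.ne (Subgroup.eq_of_le_of_card_ge hlt.le (by rw [hc, e, mul_one]))
          have hc0 : c ≠ 0 := fun e => by rw [e, mul_zero] at hc; exact Nat.card_pos.ne' hc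
          rw [hc, hcardB, mul_comm 2]
          exact Nat.mul_le_mul_left _ (by omega)
        rw [heq]; exact hb
      exact sup_le hAK (Subgroup.zpowers_le.2 ((hK x).2 hfx)) (hsup hb)
  have hgK : Subgroup.zpowers g ≤ K := Subgroup.zpowers_le.2 hg
  have hgC : Subgroup.zpowers g ≤ Subgroup.centralizer {g} :=
    Subgroup.zpowers_le.2 (Subgroup.mem_centralizer_singleton_iff.2 rfl)
  have hC : Subgroup.centralizer ({g} : Set T) ≤ K := step _ _ hgC h1 hgK fun x => by
    simp only [Subgroup.mem_centralizer_singleton_iff]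
    rw [← φ.injective.eq_iff, map_mul, map_mul, hg]
  have htop : (⊤ : Subgroup T) ≤ K := step _ _ le_top (by rwa [Subgroup.relIndex_top_right]) hC
    (fun x => by simp)
  exact MulEquiv.ext fun x => htop (Subgroup.mem_top x)

theorem units_two : ∀ a : (ZMod 2)ˣ, a = 1 := by decide

variable {q : ℕ}

/-- The monomial maps, in coordinates. -/
def tfun (a c : ZMod q) (b : Bool) (v : Fin 2 → ZMod q) : Fin 2 → ZMod q :=
  if b then ![c * v 1, a * v 0] else ![a * v 0, c * v 1]

theorem tfun_inj {a c a' c' : ZMod q} {b b' : Bool} (ha : a ≠ 0)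
    (h : ∀ v, tfun a c b v = tfun a' c' b' v) : a = a' ∧ c = c' ∧ b = b' := by
  have h10 := congrFun (h ![1, 0]) 0
  have h11 := congrFun (h ![1, 0]) 1
  have h20 := congrFun (h ![0, 1]) 0
  have h21 := congrFun (h ![0, 1]) 1
  cases b <;> cases b' <;> simp [tfun] at h10 h11 h20 h21 <;>
    first | exact ⟨h10, h21, rfl⟩ | exact ⟨h11, h20, rfl⟩ | exact absurd h10 ha | exact absurd h11 ha

/-- Let q = 2^m + 1 be a prime other than 5. Then the automorphism group of the group of linear maps of F_q² of the forms (x, y) ↦ (a x, ± a⁻¹ y) and (x, y) ↦ (± a⁻¹ y, a x) with a ≠ 0 is itself a 2-group. -/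
theorem result (q m : ℕ) [Fact q.Prime] (hq : q = 2 ^ m + 1) (hq5 : q ≠ 5)
    (T : Subgroup ((Fin 2 → ZMod q) ≃ₗ[ZMod q] (Fin 2 → ZMod q)))
    (hT : ∀ f, f ∈ T ↔ ∃ a s : ZMod q, a ≠ 0 ∧ (s = 1 ∨ s = -1) ∧
      ((∀ v, f v = ![a * v 0, s * a⁻¹ * v 1]) ∨ (∀ v, f v = ![s * a⁻¹ * v 1, a * v 0]))) :
    IsPGroup 2 (MulAut T) := by
  classical
  haveI : Finite ((Fin 2 → ZMod q) ≃ₗ[ZMod q] (Fin 2 → ZMod q)) :=
    Finite.of_injective (fun f => (f : (Fin 2 → ZMod q) → (Fin 2 → ZMod q))) DFunLike.coe_injective
  have hq2 : 2 ≤ q := (Fact.out : q.Prime).two_le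
  -- coordinates
  have hcoord : ∀ t : T, ∃ (a : (ZMod q)ˣ) (s : ZMod q) (b : Bool), (s = 1 ∨ s = -1) ∧
      ∀ v, (t.1 : (Fin 2 → ZMod q) ≃ₗ[ZMod q] (Fin 2 → ZMod q)) v = tfun (a : ZMod q) (s * (a : ZMod q)⁻¹) b v := by
    intro t
    obtain ⟨a, s, ha, hs, h | h⟩ := (hT t.1).1 t.2
    · exact ⟨Units.mk0 a ha, s, false, hs, fun v => by simp [tfun, h v]⟩
    · exact ⟨Units.mk0 a ha, s, true, hs, fun v => by simp [tfun, h v]⟩
  have hmem : ∀ (a : (ZMod q)ˣ) (s : ZMod q) (b : Bool), (s = 1 ∨ s = -1) →
      ∃ t : T, ∀ v, (t.1 : (Fin 2 → ZMod q) ≃ₗ[ZMod q] (Fin 2 → ZMod q)) v = tfun (a : ZMod q) (s * (a : ZMod q)⁻¹) b v := by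
    intro a s b hs
    have hne : s * (a : ZMod q)⁻¹ ≠ 0 := by
      rcases hs with rfl | rfl <;> simp [a.ne_zero]
    let lin : (Fin 2 → ZMod q) →ₗ[ZMod q] (Fin 2 → ZMod q) :=
      { toFun := tfun (a : ZMod q) (s * (a : ZMod q)⁻¹) b
        map_add' := fun u v => by
          funext i; cases b <;> fin_cases i <;> simp [tfun, mul_add]
        map_smul' := fun r v => by
          funext i; cases b <;> fin_cases i <;> simp [tfun, mul_left_comm] }
    have hinj : Function.Injective lin := by
      intro u v h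
      have h0 := congrFun h 0
      have h1 := congrFun h 1
      funext i
      cases b <;> fin_cases i <;> simp [lin, tfun, hne, a.ne_zero] at h0 h1 <;> assumption
    refine ⟨⟨LinearEquiv.ofBijective lin (Finite.injective_iff_bijective.1 hinj), (hT _).2 ?_⟩, fun v => rfl⟩
    refine ⟨a, s, a.ne_zero, hs, ?_⟩
    cases b
    · exact Or.inl fun v => by rw [LinearEquiv.ofBijective_apply]; simp [lin, tfun]
    · exact Or.inr fun v => by rw [LinearEquiv.ofBijective_apply]; simp [lin, tfun]
  -- bijection with coordinates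
  let sg : Bool → ZMod q := fun e => if e then -1 else 1
  choose mk hmk using fun x : (ZMod q)ˣ × Bool × Bool =>
    hmem x.1 (sg x.2.1) x.2.2 (by simp only [sg]; split_ifs <;> simp)
  have hsurj : Function.Surjective mk := by
    intro t
    obtain ⟨a, s, b, hs, h⟩ := hcoord t
    rcases hs with rfl | rfl
    · exact ⟨(a, false, b), Subtype.ext (LinearEquiv.ext fun v => by rw [hmk, h]; simp [sg])⟩
    · exact ⟨(a, true, b), Subtype.ext (LinearEquiv.ext fun v => by rw [hmk, h]; simp [sg])⟩
  by_cases hq' : q = 2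
  · -- two elements
    subst hq'
    intro φ
    refine ⟨0, MulEquiv.ext fun x => ?_⟩
    rw [pow_zero, pow_one, MulAut.one_apply]
    have hc : Nat.card T ≤ 2 := by
      refine (Nat.card_le_card_of_surjective (fun b : Bool => mk (1, false, b)) fun t => ?_).trans (by simp)
      obtain ⟨⟨a, e, b⟩, rfl⟩ := hsurj t
      refine ⟨b, Subtype.ext (LinearEquiv.ext fun v => ?_)⟩
      rw [hmk, hmk, units_two a]
      cases e <;> rfl
    by_cases hx : x = 1
    · rw [hx, map_one]
    · by_contra hne
      have h3 : ({1, x, φ x} : Set T).ncard ≤ 2 :=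
        (Set.ncard_le_ncard (Set.subset_univ _) (Set.toFinite _)).trans (by rw [Set.ncard_univ]; exact hc)
      rw [Set.ncard_insert_of_notMem (by simp [hx, eq_comm (a := (1 : T))]),
        Set.ncard_pair (Ne.symm hne)] at h3
      omega
  have hneg : (-1 : ZMod q) ≠ 1 := by
    haveI : Fact (2 < q) := ⟨by omega⟩
    exact ZMod.neg_one_ne_one
  have hsgne : ∀ e, sg e ≠ 0 := fun e => by cases e <;> simp [sg]
  have hinj : Function.Injective mk := by
    rintro ⟨a, e, b⟩ ⟨a', e', b'⟩ h
    obtain ⟨h1, h2, h3⟩ := tfun_inj a.ne_zero fun v =>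
      (hmk (a, e, b) v).symm.trans (by rw [h]; exact hmk (a', e', b') v)
    simp only at h1 h2 h3
    obtain rfl : a = a' := Units.ext h1
    subst h3
    have h4 : sg e = sg e' := mul_right_cancel₀ (inv_ne_zero a.ne_zero) h2
    cases e <;> cases e' <;> simp [sg, hneg, Ne.symm hneg] at h4 ⊢
  let E := Equiv.ofBijective mk ⟨hinj, hsurj⟩
  have hq1 : Fintype.card (ZMod q)ˣ = 2 ^ m := by
    rw [ZMod.card_units]; omega
  have hcardT : Nat.card T = 2 ^ (m + 2) := by
    rw [← Nat.card_congr E, Nat.card_prod, Nat.card_prod, Nat.card_eq_fintype_card, hq1,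
      Nat.card_eq_fintype_card, Fintype.card_bool]
    ring
  have hT2 : IsPGroup 2 T := IsPGroup.of_card hcardT
  -- products
  have hmul : ∀ x y : (ZMod q)ˣ × Bool × Bool, ∀ v, ((mk x * mk y : T).1) v =
      tfun (x.1 : ZMod q) (sg x.2.1 * (x.1 : ZMod q)⁻¹) x.2.2
        (tfun (y.1 : ZMod q) (sg y.2.1 * (y.1 : ZMod q)⁻¹) y.2.2 v) := fun x y v => by
    rw [← hmk y, ← hmk x]; rfl
  have hone : mk (1, false, false) = 1 :=
    Subtype.ext (LinearEquiv.ext fun v => by
      rw [hmk]; funext i; fin_cases i <;> simp [tfun, sg])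
  have hsgsq : ∀ e, sg e * sg e = 1 := fun e => by cases e <;> simp [sg]
  have hdd : ∀ a a' e e', mk (a, e, false) * mk (a', e', false) = mk (a * a', Bool.xor e e', false) := by
    intro a a' e e'
    refine Subtype.ext (LinearEquiv.ext fun v => ?_)
    rw [hmul, hmk]
    funext i
    cases e <;> cases e' <;> fin_cases i <;> simp [tfun, sg] <;> ring
  have hflip : ∀ a e, mk (a, e, true) * mk (a, e, true) = mk (if e then -1 else 1, false, false) := by
    intro a e
    refine Subtype.ext (LinearEquiv.ext fun v => ?_)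
    rw [hmul, hmk]
    funext i
    cases e <;> fin_cases i <;> simp [tfun, sg]
  have hdpow : ∀ a (n : ℕ), mk (a, false, false) ^ n = mk (a ^ n, false, false) := by
    intro a n
    induction n with
    | zero => rw [pow_zero, pow_zero, hone]
    | succ n ih => rw [pow_succ, ih, hdd, pow_succ]; rfl
  have hflip4 : ∀ a e, mk (a, e, true) ^ 4 = 1 := by
    intro a e
    rw [show 4 = 2 * 2 from rfl, pow_mul, pow_two (mk (a, e, true)), hflip, pow_two, hdd, ← hone]
    cases e <;> simp
  intro φ
  obtain ⟨n, hn⟩ : ∃ n, orderOf φ = 2 ^ n := by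
    refine ⟨(orderOf φ).primeFactorsList.length, ?_⟩
    refine Nat.eq_prime_pow_of_unique_prime_dvd (orderOf_pos φ).ne' fun {p} hp hpd => ?_
    by_contra hp2
    haveI : Fact p.Prime := ⟨hp⟩
    set ψ := φ ^ (orderOf φ / p) with hψ
    have hψo : orderOf ψ = p := orderOf_pow_orderOf_div (orderOf_pos φ).ne' hpd
    have hψ1 : ψ ≠ 1 := fun h => by rw [h, orderOf_one] at hψo; exact hp.one_lt.ne hψo
    have hψp : ψ ^ p = 1 := by rw [← hψo, pow_orderOf_eq_one]
    apply hψ1
    rcases Nat.lt_or_ge m 3 with hm | hm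
    · -- three elements of the field
      have hm1 : m = 1 := by
        interval_cases m
        · omega
        · rfl
        · exact absurd hq (by omega)
      subst hm1
      have hsq : ∀ a : (ZMod q)ˣ, a ^ 2 = 1 := fun a => by
        have := pow_card_eq_one (x := a); rwa [hq1] at this
      set g := mk (1, true, true) with hg
      have hneg1 : mk (-1, false, false) ≠ 1 := by
        rw [← hone]
        intro h
        have h' := congrArg (fun u : (ZMod q)ˣ × Bool × Bool => (u.1 : ZMod q)) (hinj h)
        simp at h'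
        exact hneg h'
      have hS : ∀ t : T, t ^ 2 ≠ 1 ↔ ∃ a, t = mk (a, true, true) := by
        intro t
        obtain ⟨⟨a, e, b⟩, rfl⟩ := hsurj t
        constructor
        · intro h
          cases b
          · exact absurd (by rw [pow_two, hdd, Bool.xor_self, ← pow_two, hsq, hone]) h
          · cases e
            · exact absurd (by rw [pow_two, hflip, if_neg (by simp), hone]) h
            · exact ⟨a, rfl⟩
        · rintro ⟨a', h⟩
          rw [h, pow_two, hflip, if_pos rfl]
          exact hneg1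
      have hcard : {t : T | t ^ 2 ≠ 1}.ncard = 2 ^ 1 := by
        rw [show {t : T | t ^ 2 ≠ 1} = Set.range fun a => mk (a, true, true) by
          ext t; rw [Set.mem_ofPred_eq, hS]; simp [eq_comm]]
        rw [Set.ncard_range_of_injective (fun a a' h => congrArg Prod.fst (hinj h)),
          Nat.card_eq_fintype_card, hq1]
      obtain ⟨x, hx, hfx⟩ := exists_fixed_mem hp2 ψ hψp _ (fun t => by
        simp only [Set.mem_ofPred_eq, ← map_pow, MulEquiv.map_ne_one_iff]) hcard
      obtain ⟨a, rfl⟩ := (hS x).1 hx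
      refine eq_one_of_fixed hp2 hT2 ψ hψp _ hfx ?_ ?_
      all_goals
        have ho : orderOf (mk (a, true, true)) = 2 ^ (1 + 1) := orderOf_eq_prime_pow (by rw [pow_one]; exact hx)
          (by rw [show 2 ^ (1 + 1) = 4 by norm_num]; exact hflip4 _ _)
        have h1 : (Subgroup.zpowers (mk (a, true, true))).index = 2 := by
          have := (Subgroup.zpowers (mk (a, true, true))).card_mul_index
          rw [Nat.card_zpowers, ho, hcardT] at this
          omega
        have h2 := Subgroup.relIndex_mul_index (H := Subgroup.zpowers (mk (a, true, true)))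
          (K := Subgroup.centralizer {mk (a, true, true)})
          (Subgroup.zpowers_le.2 (Subgroup.mem_centralizer_singleton_iff.2 rfl))
        rw [h1] at h2
      · exact Nat.le_of_dvd (by norm_num) ⟨_, h2.symm⟩
      · exact Nat.le_of_dvd (by norm_num) ⟨_, by rw [mul_comm]; exact h2.symm⟩
    · -- the elements of largest order
      obtain ⟨j, rfl⟩ : ∃ j, m = j + 3 := ⟨m - 3, by omega⟩
      have hordd : ∀ a e, orderOf (mk (a, e, false)) = 2 ^ (j + 3) ↔ orderOf a = 2 ^ (j + 3) := by
        intro a e
        have hsq : mk (a, e, false) ^ 2 = mk (a, false, false) ^ 2 := by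
          rw [pow_two, pow_two, hdd, hdd, Bool.xor_self]; rfl
        have key : ∀ k, mk (a, e, false) ^ 2 ^ (k + 1) = mk (a ^ 2 ^ (k + 1), false, false) := fun k => by
          rw [pow_succ' 2 k, pow_mul, hsq, ← pow_mul, hdpow]
        have h1 : ∀ k, mk (a ^ k, false, false) = 1 ↔ a ^ k = 1 := fun k => by
          rw [← hone]; exact ⟨fun h => congrArg Prod.fst (hinj h), fun h => by rw [h]⟩
        have hall : a ^ 2 ^ (j + 3) = 1 := by rw [← hq1]; exact pow_card_eq_one
        constructor <;> intro h
        · refine orderOf_eq_prime_pow (n := j + 2) (fun h' => ?_) hall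
          have := orderOf_dvd_of_pow_eq_one (show mk (a, e, false) ^ 2 ^ (j + 2) = 1 by
            rw [key (j + 1), h1]; exact h')
          rw [h, Nat.pow_dvd_pow_iff_le_right (by norm_num)] at this
          omega
        · refine orderOf_eq_prime_pow (n := j + 2) (fun h' => ?_) (by rw [key (j + 2), h1]; exact hall)
          rw [key (j + 1), h1] at h'
          have := orderOf_dvd_of_pow_eq_one h'
          rw [h, Nat.pow_dvd_pow_iff_le_right (by norm_num)] at this
          omega
      have hnflip : ∀ a e, orderOf (mk (a, e, true)) ≠ 2 ^ (j + 3) := fun a e h => by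
        have := Nat.le_of_dvd (by norm_num) (orderOf_dvd_of_pow_eq_one (hflip4 a e))
        rw [h] at this
        have : 8 ≤ 2 ^ (j + 3) := by rw [pow_add]; have := Nat.one_le_two_pow (n := j); omega
        omega
      haveI : IsCyclic (ZMod q)ˣ := inferInstance
      have hgen : Nat.card {a : (ZMod q)ˣ // orderOf a = 2 ^ (j + 3)} = 2 ^ (j + 2) := by
        rw [Nat.card_eq_fintype_card, Fintype.card_subtype, IsCyclic.card_orderOf_eq_totient (hq1 ▸ dvd_rfl),
          Nat.totient_prime_pow Nat.prime_two (by omega)]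
        simp
      have hcard : {t : T | orderOf t = 2 ^ (j + 3)}.ncard = 2 ^ (j + 3) := by
        rw [show {t : T | orderOf t = 2 ^ (j + 3)} = Set.range
            (fun x : {a : (ZMod q)ˣ // orderOf a = 2 ^ (j + 3)} × Bool => mk (x.1.1, x.2, false)) by
          ext t
          constructor
          · intro ht
            obtain ⟨⟨a, e, b⟩, rfl⟩ := hsurj t
            cases b
            · exact ⟨(⟨a, (hordd a e).1 ht⟩, e), rfl⟩
            · exact absurd ht (hnflip a e)
          · rintro ⟨⟨⟨a, ha⟩, e⟩, rfl⟩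
            exact (hordd a e).2 ha]
        rw [Set.ncard_range_of_injective (fun x y h => by
          obtain ⟨h1, h2⟩ := Prod.mk.injEq _ _ _ _ ▸ hinj h
          exact Prod.ext (Subtype.ext h1) (congrArg Prod.fst h2)), Nat.card_prod, hgen,
          Nat.card_eq_fintype_card, Fintype.card_bool]
        ring
      obtain ⟨x, hx, hfx⟩ := exists_fixed_mem hp2 ψ hψp _ (fun t => by
        simp only [Set.mem_ofPred_eq, MulEquiv.orderOf_eq]) hcard
      obtain ⟨⟨a, e, b⟩, rfl⟩ := hsurj x
      cases b
      swap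
      · exact absurd hx (hnflip a e)
      have ha := (hordd a e).1 hx
      set g := mk (a, e, false) with hg
      set C := Subgroup.centralizer ({g} : Set T) with hC
      have hgC : Subgroup.zpowers g ≤ C :=
        Subgroup.zpowers_le.2 (Subgroup.mem_centralizer_singleton_iff.2 rfl)
      have h4 : (Subgroup.zpowers g).index = 4 := by
        have := (Subgroup.zpowers g).card_mul_index
        rw [Nat.card_zpowers, hx, hcardT, show j + 3 + 2 = j + 3 + 2 from rfl, pow_add 2 (j + 3) 2] at this
        exact Nat.eq_of_mul_eq_mul_left (Nat.two_pow_pos _) this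
      have hne1 : (Subgroup.zpowers g).relIndex C ≠ 1 := by
        rw [Ne, Subgroup.relIndex_eq_one]
        intro hle
        have hw : mk (1, true, false) ∈ C := by
          rw [hC, Subgroup.mem_centralizer_singleton_iff, hg, hdd, hdd, mul_comm a 1, Bool.xor_comm]
        obtain ⟨i, hi⟩ := Subgroup.mem_zpowers_iff.1 (hle hw)
        obtain ⟨k, hk⟩ := (isOfFinOrder_of_finite g).mem_powers_iff_mem_zpowers.2 ⟨i, hi⟩
        change g ^ k = mk (1, true, false) at hk
        have hsq1 : g ^ (2 * k) = 1 := by
          rw [mul_comm, pow_mul, hk, pow_two, hdd, mul_one, Bool.xor_self, hone]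
        have hdv := orderOf_dvd_of_pow_eq_one hsq1
        rw [hx, pow_succ', Nat.mul_dvd_mul_iff_left (by norm_num)] at hdv
        obtain ⟨c, rfl⟩ := hdv
        have : mk (1, true, false) = mk (a ^ (2 ^ (j + 2) * c), false, false) := by
          rw [← hk, ← hdpow, hg, show 2 ^ (j + 2) * c = 2 * (2 ^ (j + 1) * c) by ring, pow_mul (mk (a, e, false)),
            pow_mul (mk (a, false, false)), pow_two (mk (a, e, false)), pow_two (mk (a, false, false)), hdd,
            hdd, Bool.xor_self]
          rfl
        have := congrArg (fun u : (ZMod q)ˣ × Bool × Bool => u.2.1) (hinj this)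
        simp at this
      have hne2 : C.index ≠ 1 := by
        rw [Ne, Subgroup.index_eq_one]
        intro htop
        have hw : mk (1, false, true) ∈ C := htop ▸ Subgroup.mem_top _
        rw [hC, Subgroup.mem_centralizer_singleton_iff] at hw
        have hv := congrArg (fun t : T => t.1 ![1, 0] 1) hw
        simp only [hg, hmul] at hv
        simp [tfun, sg] at hv
        -- a and s/a coincide
        have hsq : a ^ 4 = 1 := by
          refine Units.ext ?_
          push_cast
          have ha0 : (a : ZMod q) ≠ 0 := a.ne_zero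
          have hinv : (a : ZMod q) * (a : ZMod q)⁻¹ = 1 := mul_inv_cancel₀ ha0
          cases e
          · have h2 : (a : ZMod q) * a = 1 := by
              simp at hv; nth_rewrite 2 [hv]; exact hinv
            linear_combination ((a : ZMod q) * a + 1) * h2
          · have h2 : (a : ZMod q) * a = -1 := by
              simp at hv; nth_rewrite 2 [hv]; rw [mul_neg, hinv]
            linear_combination ((a : ZMod q) * a - 1) * h2
        have := Nat.le_of_dvd (by norm_num) (orderOf_dvd_of_pow_eq_one hsq)
        rw [ha] at this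
        have : 8 ≤ 2 ^ (j + 3) := by rw [pow_add]; have := Nat.one_le_two_pow (n := j); omega
        omega
      have hprod := Subgroup.relIndex_mul_index hgC
      rw [h4] at hprod
      have h0 : C.index ≠ 0 := Subgroup.index_ne_zero_of_finite
      have hd1 : (Subgroup.zpowers g).relIndex C ∣ 4 := ⟨_, hprod.symm⟩
      have hle := Nat.le_of_dvd (by norm_num) hd1
      refine eq_one_of_fixed hp2 hT2 ψ hψp g hfx ?_ ?_
      all_goals
        rw [← hC]
        interval_cases h : (Subgroup.zpowers g).relIndex C <;> omega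
  exact ⟨n, by rw [← hn, pow_orderOf_eq_one]⟩

end Cfsg.Agent.S3382
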