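import Cfsg.Statements.S3383
import Mathlib

set_option autoImplicit false
open Cfsg

namespace Cfsg.Agent.S3383

open scoped Pointwise

/-- Let H be a Frobenius complement in a finite group L and K the Frobenius kernel (as a subgroup). Then K is characteristic in L, and every normal subgroup of L either contains K or is contained in K. -/
theorem result {L : Type*} [Group L] [Finite L]
    (H : Subgroup L) (hH : Cfsg.IsFrobeniusComplement H)
    (K : Subgroup L) (hK : (K : Set L) = Cfsg.frobeniusKernel H) :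
    K.Characteristic ∧ ∀ N : Subgroup L, N.Normal → K ≤ N ∨ N ≤ K := by
  have hK' : ∀ x, x ∈ K ↔ (x = 1 ∨ ∀ g : L, x ∉ MulAut.conj g • H) := fun x => by
    rw [← SetLike.mem_coe, hK]; rfl
  have hmem : ∀ g x : L, x ∈ MulAut.conj g • H ↔ g⁻¹ * x * g ∈ H := fun g x => by
    rw [Subgroup.mem_pointwise_smul_iff_inv_smul_mem, ← map_inv, MulAut.smul_def, MulAut.conj_apply,
      inv_inv]
  have hKn : K.Normal := by
    refine ⟨fun x hx g => ?_⟩
    rw [hK'] at hx ⊢
    rcases hx with rfl | hx
    · left; group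
    · right; intro g' hg'
      apply hx (g⁻¹ * g')
      rw [hmem] at hg' ⊢
      convert hg' using 1; group
  have hKH : ∀ x ∈ K, x ∈ H → x = 1 := fun x hx hxH => by
    rcases (hK' x).mp hx with h | h
    · exact h
    · exact absurd ((hmem 1 x).mpr (by simpa using hxH)) (h 1)
  have key : ∀ N : Subgroup L, N.Normal → K ≤ N ∨ N ≤ K := by
    intro N hN
    by_contra hcon
    push_neg at hcon
    obtain ⟨h1, h2⟩ := hcon
    apply h1
    obtain ⟨x, hxN, hxK⟩ := SetLike.not_le_iff_exists.mp h2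
    rw [hK'] at hxK; push_neg at hxK
    obtain ⟨hx1, g, hxg⟩ := hxK
    rw [hmem] at hxg
    set h := g⁻¹ * x * g with hh
    have hhN : h ∈ N := by simpa [hh] using hN.conj_mem x hxN g⁻¹
    have hne : h ≠ 1 := fun e => hx1 (by
      have : x = g * h * g⁻¹ := by rw [hh]; group
      rw [this, e]; group)
    let f : K → K := fun k => ⟨(k : L) * (h * (k : L)⁻¹ * h⁻¹), mul_mem k.2 (hKn.conj_mem _ (inv_mem k.2) h)⟩
    have hinj : Function.Injective f := by
      rintro ⟨a, ha⟩ ⟨b, hb⟩ hab
      have hab' : a * (h * a⁻¹ * h⁻¹) = b * (h * b⁻¹ * h⁻¹) := congrArg Subtype.val hab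
      have hcm : (b⁻¹ * a) * h * (b⁻¹ * a)⁻¹ = h := by
        calc (b⁻¹ * a) * h * (b⁻¹ * a)⁻¹ = b⁻¹ * (a * (h * a⁻¹ * h⁻¹)) * h * b := by group
          _ = h := by rw [hab']; group
      have hkK : b⁻¹ * a ∈ K := mul_mem (inv_mem hb) ha
      by_cases hkH : b⁻¹ * a ∈ H
      · exact Subtype.ext (inv_mul_eq_one.mp (hKH _ hkK hkH)).symm
      · exfalso
        have := hH.2.2 _ hkH
        apply hne
        rw [← Subgroup.mem_bot, ← this]
        refine ⟨hxg, (hmem _ h).mpr ?_⟩
        have : (b⁻¹ * a)⁻¹ * h * (b⁻¹ * a) = h := by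
          conv_lhs => rw [← hcm]
          group
        rw [this]; exact hxg
    intro k hk
    obtain ⟨k', hk'⟩ := Finite.surjective_of_injective hinj ⟨k, hk⟩
    have : k = (k' : L) * (h * (k' : L)⁻¹ * h⁻¹) := (congrArg Subtype.val hk').symm
    rw [this, ← mul_assoc, ← mul_assoc]
    exact mul_mem (hN.conj_mem h hhN k') (inv_mem hhN)
  refine ⟨?_, key⟩
  rw [Subgroup.characteristic_iff_map_eq]
  intro φ
  have hc : Nat.card (K.map φ.toMonoidHom) = Nat.card K :=
    Subgroup.card_map_of_injective φ.injective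
  rcases key _ (hKn.map φ.toMonoidHom φ.surjective) with h | h
  · exact (Subgroup.eq_of_le_of_card_ge h (le_of_eq hc)).symm
  · exact Subgroup.eq_of_le_of_card_ge h (le_of_eq hc.symm)

end Cfsg.Agent.S3383
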