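import Cfsg.Statements.S3419
import Mathlib
import Cfsg.Agent.Lib.Hall.Existence
import Cfsg.Agent.Lib.Spectrum.TwoPrimes
import Cfsg.Agent.Lib.Spectrum.AltSpectrum

set_option autoImplicit false
open Cfsg

namespace Cfsg.Agent.S3419

open CfsgLib.Spectrum

theorem no_solvable {G : Type*} [Group G] [Finite G] {n : ℕ} (hsol : Group.IsSolvable G)
    (hspec : Set.range (orderOf : G → ℕ) = Set.range (orderOf : ↥(alternatingGroup (Fin n)) → ℕ))
    (p q a r : ℕ) (hp : p.Prime) (hq : q.Prime) (hlt : p < q) (hsum : n < p + q) (hdiv : ¬ p ∣ q - 1)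
    (ha : 0 < a) (hG : Nat.card G = (p ^ a * q) * r) (hcop : (p ^ a * q).Coprime r)
    (hsyl : ∀ d, d ∣ p ^ a → d % q = 1 → d = 1) : False := by
  haveI := hsol
  obtain ⟨H, hH⟩ := CfsgLib.Hall.exists_isPiHall (G := G) {s | s ∣ p ^ a * q}
  have hHc : Nat.card H = p ^ a * q := CfsgLib.Hall.card_eq_of_isPiHall_dvd hG hcop hH
  haveI := Fact.mk hp
  haveI := Fact.mk hq
  obtain ⟨Q⟩ : Nonempty (Sylow q H) := inferInstance
  have hQc : Nat.card Q = q := by
    have hnd : ¬ q ∣ p ^ a := fun h => hlt.ne' ((Nat.prime_dvd_prime_iff_eq hq hp).mp (hq.dvd_of_dvd_pow h))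
    rw [Q.card_eq_multiplicity, hHc,
      Nat.factorization_mul (pow_ne_zero _ hp.ne_zero) hq.ne_zero]
    rw [Finsupp.add_apply, hq.factorization_self, Nat.factorization_eq_zero_of_not_dvd hnd, zero_add, pow_one]
  have hidx : (Q : Subgroup H).index = p ^ a := by
    have := (Q : Subgroup H).card_mul_index
    rw [hHc, show Nat.card (Q : Subgroup H) = q from hQc, mul_comm (p ^ a) q] at this
    exact Nat.eq_of_mul_eq_mul_left hq.pos this
  have hone : Nat.card (Sylow q H) = 1 := by
    refine hsyl _ (hidx ▸ Sylow.card_dvd_index Q) ?_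
    have h := card_sylow_modEq_one q H
    rw [Nat.ModEq, Nat.mod_eq_of_lt hq.one_lt] at h
    exact h
  haveI : Subsingleton (Sylow q H) := (Nat.card_eq_one_iff_unique.mp hone).1
  haveI : (Q : Subgroup H).Normal := Sylow.normal_of_subsingleton Q
  obtain ⟨y, hy⟩ := exists_prime_orderOf_dvd_card' p (G := H) (by
    rw [hHc]; exact (dvd_pow_self p ha.ne').mul_right q)
  obtain ⟨g, hg⟩ := exists_orderOf_mul hq hp hlt.ne' hdiv (Q : Subgroup H) hQc y hy
    (by rw [Subgroup.normalizer_eq_top_iff.mpr inferInstance]; trivial)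
  exact no_element hspec hq hp hlt.ne' (by omega) (g : G) (by rw [Subgroup.orderOf_coe, hg])

theorem choice_primes {G : Type*} [Group G] [Finite G] (n : ℕ) (hn : 5 ≤ n) (h2 : 2 * Nat.card G = n.factorial)
    (hcard : Nat.card G = Nat.card ↥(alternatingGroup (Fin n))) :
    ∃ p q a r : ℕ, p.Prime ∧ q.Prime ∧ p < q ∧ n < p + q ∧ ¬ p ∣ q - 1 ∧ 0 < a ∧
      Nat.card G = (p ^ a * q) * r ∧ (p ^ a * q).Coprime r ∧ (∀ d, d ∣ p ^ a → d % q = 1 → d = 1) := by
  have small : ∀ (p q a r : ℕ), n.factorial = 2 * ((p ^ a * q) * r) → p.Prime → q.Prime → p < q → n < p + q →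
      ¬ p ∣ q - 1 → 0 < a → (p ^ a * q).Coprime r → (∀ d ∈ (p ^ a).divisors, d % q = 1 → d = 1) →
      ∃ p q a r : ℕ, p.Prime ∧ q.Prime ∧ p < q ∧ n < p + q ∧ ¬ p ∣ q - 1 ∧ 0 < a ∧
      Nat.card G = (p ^ a * q) * r ∧ (p ^ a * q).Coprime r ∧ (∀ d, d ∣ p ^ a → d % q = 1 → d = 1) := by
    intro p q a r e hp hq hlt hsum hdiv ha hcop hd
    exact ⟨p, q, a, r, hp, hq, hlt, hsum, hdiv, ha, by omega, hcop,
      fun d h => hd d (Nat.mem_divisors.mpr ⟨h, pow_ne_zero _ hp.ne_zero⟩)⟩
  by_cases h11 : n < 11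
  · interval_cases n
    · exact small 3 5 1 4 (by decide +kernel) (by norm_num) (by norm_num) (by norm_num) (by norm_num) (by norm_num) (by norm_num) (by norm_num) (by decide +kernel)
    · exact small 3 5 2 8 (by decide +kernel) (by norm_num) (by norm_num) (by norm_num) (by norm_num) (by norm_num) (by norm_num) (by norm_num) (by decide +kernel)
    · exact small 5 7 1 72 (by decide +kernel) (by norm_num) (by norm_num) (by norm_num) (by norm_num) (by norm_num) (by norm_num) (by norm_num) (by decide +kernel)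
    · exact small 5 7 1 576 (by decide +kernel) (by norm_num) (by norm_num) (by norm_num) (by norm_num) (by norm_num) (by norm_num) (by norm_num) (by decide +kernel)
    · exact small 5 7 1 5184 (by decide +kernel) (by norm_num) (by norm_num) (by norm_num) (by norm_num) (by norm_num) (by norm_num) (by norm_num) (by decide +kernel)
    · exact small 5 7 2 10368 (by decide +kernel) (by norm_num) (by norm_num) (by norm_num) (by norm_num) (by norm_num) (by norm_num) (by norm_num) (by decide +kernel)
  · obtain ⟨p, q, hp, hq, hnp, hlt, hqn⟩ := exists_two_primes_half n (by omega)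
    obtain ⟨hp1, hp2⟩ := card_alternating_prime (n := n) (by omega) hp (by omega) hnp (by omega)
    obtain ⟨hq1, hq2⟩ := card_alternating_prime (n := n) (by omega) hq (by omega) (by omega) hqn
    rw [← hcard] at hp1 hp2 hq1 hq2
    have hpq : Nat.Coprime p q := (Nat.coprime_primes hp hq).mpr hlt.ne
    obtain ⟨r, hr⟩ := hpq.mul_dvd_of_dvd_of_dvd hp1 hq1
    refine ⟨p, q, 1, r, hp, hq, hlt, by omega, ?_, one_pos, by rw [pow_one]; exact hr, ?_, ?_⟩
    · intro hd
      obtain ⟨c, hc⟩ := hd
      have hodd := hp.eq_two_or_odd.resolve_left (by omega)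
      have hodd' := hq.eq_two_or_odd.resolve_left (by omega)
      have h0 := hp.two_le
      rcases c with _ | _ | c
      · omega
      · omega
      · nlinarith [Nat.sub_le q 1]
    · rw [pow_one, Nat.coprime_mul_iff_left, hp.coprime_iff_not_dvd, hq.coprime_iff_not_dvd]
      constructor
      · intro h; exact hp2 (hr ▸ by rw [sq, mul_assoc]; exact mul_dvd_mul_left p (h.mul_left q))
      · intro h; exact hq2 (hr ▸ by rw [sq, mul_comm p q, mul_assoc]; exact mul_dvd_mul_left q (h.mul_left p))
    · intro d hd hd'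
      rw [pow_one] at hd
      rcases (Nat.dvd_prime hp).mp hd with e | e
      · exact e
      · rw [e, Nat.mod_eq_of_lt hlt] at hd'
        exact absurd hd' hp.ne_one

/-- Let n ≥ 5 and let G be a finite group with the same order and the same set of element orders as the alternating group of degree n. Then G is not solvable. -/
theorem result {G : Type*} [Group G] [Finite G] (n : ℕ) (hn : 5 ≤ n)
    (hcard : Nat.card G = Nat.card ↥(alternatingGroup (Fin n)))
    (hspec : Set.range (orderOf : G → ℕ) = Set.range (orderOf : ↥(alternatingGroup (Fin n)) → ℕ)) :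
    ¬ Group.IsSolvable G := by
  intro hsol
  haveI : Nontrivial (Fin n) := Fin.nontrivial_iff_two_le.mpr (by omega)
  have h2 : 2 * Nat.card G = n.factorial := by
    rw [hcard, Nat.card_eq_fintype_card, two_mul_card_alternatingGroup, Fintype.card_perm, Fintype.card_fin]
  obtain ⟨p, q, a, r, hp, hq, hlt, hsum, hdiv, ha, hG, hcop, hsyl⟩ := choice_primes n hn h2 hcard
  exact no_solvable hsol hspec p q a r hp hq hlt hsum hdiv ha hG hcop hsyl

end Cfsg.Agent.S3419
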