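import Cfsg.Statements.S3420
import Mathlib
import Cfsg.Agent.Lib.Spectrum.TwoPrimes
import Cfsg.Agent.Lib.Spectrum.AltSpectrum

set_option autoImplicit false
open Cfsg

namespace Cfsg.Agent.S3420

open CfsgLib.Spectrum

/-- Let n ≥ 11 and let G be a finite group with the same order and the same set of element orders as the alternating group of degree n. Then G has normal subgroups N < H such that H/N is a non-abelian simple group whose order is divisible by every prime p with n/2 < p ≤ n. -/
theorem result {G : Type*} [Group G] [Finite G] (n : ℕ) (hn : 11 ≤ n)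
    (hcard : Nat.card G = Nat.card ↥(alternatingGroup (Fin n)))
    (hspec : Set.range (orderOf : G → ℕ) = Set.range (orderOf : ↥(alternatingGroup (Fin n)) → ℕ)) :
    ∃ (N H : Subgroup G) (_ : N.Normal), H.Normal ∧ N < H ∧
      IsSimpleGroup (↥H ⧸ N.subgroupOf H) ∧ ¬ IsMulCommutative (↥H ⧸ N.subgroupOf H) ∧
      ∀ p : ℕ, p.Prime → n < 2 * p → p ≤ n → p ∣ Nat.card (↥H ⧸ N.subgroupOf H) := by
  classical
  obtain ⟨p₀, q₀, hp₀, hq₀, hnp, hlt, hqn⟩ := exists_two_primes_half n hn
  let inI : ℕ → Prop := fun p => p.Prime ∧ n < 2 * p ∧ p ≤ n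
  have hI : ∀ p, inI p → p ∣ Nat.card G ∧ ¬ p ^ 2 ∣ Nat.card G := fun p hp => by
    rw [hcard]
    exact card_alternating_prime (by omega) hp.1 (by have := hp.2.1; omega) hp.2.1 hp.2.2
  -- no proper large interval prime divides `p - 1`
  have hdiv : ∀ p q, inI p → inI q → p ≠ q → ¬ q ∣ p - 1 := by
    rintro p q ⟨hp, hp1, hp2⟩ ⟨hq, hq1, hq2⟩ hne ⟨c, hc⟩
    have hodd := hp.eq_two_or_odd.resolve_left (by omega)
    have hodd' := hq.eq_two_or_odd.resolve_left (by omega)
    rcases c with _ | _ | c
    · omega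
    · omega
    · nlinarith [Nat.sub_le p 1]
  have noEl : ∀ p q, inI p → inI q → p ≠ q → ∀ g : G, orderOf g ≠ p * q := fun p q hp hq hne =>
    no_element hspec hp.1 hq.1 hne (by have := hp.2.1; have := hq.2.1; omega)
  have mkI : inI p₀ ∧ inI q₀ := ⟨⟨hp₀, hnp, by omega⟩, ⟨hq₀, by omega, hqn⟩⟩
  -- maximal normal subgroup avoiding the interval primes
  let S : Set (Subgroup G) := {N | N.Normal ∧ ∀ p, inI p → ¬ p ∣ Nat.card N}
  obtain ⟨N, hN⟩ := Set.Finite.exists_maximal (s := S) (Set.toFinite _) ⟨⊥, inferInstance, fun p hp => by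
    rw [Subgroup.card_bot]; exact hp.1.not_dvd_one⟩
  haveI hNn : N.Normal := hN.1.1
  have hNtop : N < ⊤ := lt_of_le_of_ne le_top fun h => hN.1.2 p₀ mkI.1 (by
    rw [h, Subgroup.card_top]; exact (hI _ mkI.1).1)
  obtain ⟨H, hH⟩ := Set.Finite.exists_minimal (s := {H : Subgroup G | H.Normal ∧ N < H}) (Set.toFinite _)
    ⟨⊤, inferInstance, hNtop⟩
  haveI hHn : H.Normal := hH.1.1
  have hNH : N < H := hH.1.2
  obtain ⟨p, hpI, hpH⟩ : ∃ p, inI p ∧ p ∣ Nat.card H := by
    by_contra hcon
    push_neg at hcon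
    exact hNH.not_ge (hN.2 ⟨hHn, hcon⟩ hNH.le)
  have hall : ∀ q, inI q → q ∣ Nat.card H := by
    intro q hqI
    by_contra hqH
    have hne : p ≠ q := fun e => hqH (e ▸ hpH)
    haveI := Fact.mk hpI.1
    haveI := Fact.mk hqI.1
    obtain ⟨P⟩ : Nonempty (Sylow p H) := inferInstance
    have hfr := Sylow.normalizer_sup_eq_top P
    set P' : Subgroup G := (P : Subgroup H).map H.subtype with hP'
    have hP'c : Nat.card P' = p := by
      rw [Subgroup.card_map_of_injective H.subtype_injective]
      obtain ⟨k, hk⟩ := IsPGroup.iff_card.mp P.2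
      have hdv : Nat.card (P : Subgroup H) ∣ Nat.card G :=
        (Subgroup.card_subgroup_dvd_card _).trans (Subgroup.card_subgroup_dvd_card H)
      have h1 : p ∣ Nat.card (P : Subgroup H) := P.dvd_card_of_dvd_card hpH
      rw [hk] at hdv h1
      rcases k with _ | _ | k
      · exact absurd h1 hpI.1.not_dvd_one
      · rw [hk, zero_add, pow_one]
      · exact absurd ((pow_dvd_pow p (by omega : 2 ≤ k + 1 + 1)).trans hdv) (hI p hpI).2
    have hmul : Nat.card G ∣ Nat.card H * Nat.card ↥(Subgroup.normalizer (P' : Set G)) := by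
      have hfr' : Subgroup.normalizer (P' : Set G) ⊔ H = ⊤ := hfr
      have h1 : H.relIndex (Subgroup.normalizer (P' : Set G)) = H.index := by
        rw [← Subgroup.relIndex_sup_right, hfr', Subgroup.relIndex_top_right]
      rw [← H.card_mul_index, ← h1]
      exact mul_dvd_mul_left _ (Subgroup.index_dvd_card _)
    have hqN : q ∣ Nat.card ↥(Subgroup.normalizer (P' : Set G)) :=
      ((hqI.1.dvd_mul.mp ((hI q hqI).1.trans hmul))).resolve_left hqH
    obtain ⟨y, hy⟩ := exists_prime_orderOf_dvd_card' q hqN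
    obtain ⟨g, hg⟩ := exists_orderOf_mul hpI.1 hqI.1 hne (hdiv p q hpI hqI hne) P' hP'c (y : G)
      (by rw [Subgroup.orderOf_coe, hy]) y.2
    exact noEl p q hpI hqI hne g hg
  set N' : Subgroup H := N.subgroupOf H with hN'
  have hN'top : N' ≠ ⊤ := fun h => hNH.not_ge (Subgroup.subgroupOf_eq_top.mp h)
  have hN'q : ∀ q, inI q → ¬ q ∣ Nat.card N' := fun q hq h => hN.1.2 q hq (by
    rwa [← Nat.card_congr (Subgroup.subgroupOfEquivOfLe hNH.le).toEquiv])
  have hMq : ∀ q, inI q → q ∣ Nat.card (H ⧸ N') := by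
    intro q hq
    have h := hall q hq
    rw [Subgroup.card_eq_card_quotient_mul_card_subgroup N'] at h
    exact (hq.1.dvd_mul.mp h).resolve_right (hN'q q hq)
  refine ⟨N, H, hNn, hHn, hNH, ?_, ?_, fun q hq h1 h2 => hMq q ⟨hq, h1, h2⟩⟩
  · -- simplicity
    obtain ⟨K, hK⟩ := Set.Finite.exists_maximal (s := {K : Subgroup H | K.Normal ∧ N' ≤ K ∧ K ≠ ⊤})
      (Set.toFinite _) ⟨N', inferInstance, le_rfl, hN'top⟩
    haveI hKn : K.Normal := hK.1.1
    suffices hKN : K = N' by
      subst hKN
      haveI : Nontrivial (H ⧸ N.subgroupOf H) := by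
        rw [← Finite.one_lt_card_iff_nontrivial]
        have := Subgroup.one_lt_index_of_ne_top hN'top
        rwa [Subgroup.index_eq_card] at this
      refine ⟨fun X hX => ?_⟩
      let X' := X.comap (QuotientGroup.mk' (N.subgroupOf H))
      have hle : N.subgroupOf H ≤ X' := fun x hx => by
        show QuotientGroup.mk' (N.subgroupOf H) x ∈ X
        rw [show QuotientGroup.mk' (N.subgroupOf H) x = 1 from (QuotientGroup.eq_one_iff x).mpr hx]
        exact one_mem X
      by_cases hX' : X' = ⊤
      · right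
        rw [eq_top_iff]
        intro x _
        obtain ⟨y, rfl⟩ := QuotientGroup.mk'_surjective _ x
        exact (eq_top_iff.mp hX') (Subgroup.mem_top y)
      · left
        have := hK.2 ⟨(inferInstance : X'.Normal), hle, hX'⟩ hle
        rw [eq_bot_iff]
        intro x hx
        obtain ⟨y, rfl⟩ := QuotientGroup.mk'_surjective _ x
        exact (QuotientGroup.eq_one_iff y).mpr (this hx)
    -- `K` is stable under conjugation by `G`
    have hcase : ∀ q, inI q → ¬ q ∣ Nat.card K → ∀ g : G, K.map (MulAut.conjNormal g).toMonoidHom = K := by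
      intro q hq hqK g
      set f : H ≃* H := MulAut.conjNormal g with hf
      set K' := K.map f.toMonoidHom with hK'
      haveI hK'n : K'.Normal := hKn.map _ f.surjective
      by_contra hne
      have hle : ¬ K' ≤ K := fun h => hne (Subgroup.eq_of_le_of_card_ge h
        (Subgroup.card_map_of_injective f.injective).ge)
      have htop : K ⊔ K' = ⊤ := by
        by_contra h
        exact hle (le_sup_right.trans (hK.2 ⟨inferInstance, hK.1.2.1.trans le_sup_left, h⟩ le_sup_left))
      have h1 : K'.index = K.index := Subgroup.index_map_equiv _ f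
      have h2 : K.relIndex K' = K.index := by
        rw [← Subgroup.relIndex_sup_right, sup_comm, htop, Subgroup.relIndex_top_right]
      have h3 : q ∣ K.index := by
        have := hall q hq
        rw [← K.card_mul_index] at this
        exact (hq.1.dvd_mul.mp this).resolve_left hqK
      apply (hI q hq).2
      have h4 : (K ⊓ K').index = K.index * K.index := by
        rw [← Subgroup.relIndex_mul_index (inf_le_right : K ⊓ K' ≤ K'), Subgroup.inf_relIndex_right, h2, h1]
      have h5 : (K ⊓ K').index ∣ Nat.card G :=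
        (Subgroup.index_dvd_card _).trans (Subgroup.card_subgroup_dvd_card H)
      rw [h4] at h5
      rw [sq]
      exact (Nat.mul_dvd_mul h3 h3).trans h5
    obtain ⟨q, hq, hqK⟩ : ∃ q, inI q ∧ ¬ q ∣ Nat.card K := by
      by_contra hcon
      push_neg at hcon
      have hKlt : K < ⊤ := lt_of_le_of_ne le_top hK.1.2.2
      -- the index of `K` is prime to every interval prime, so all conjugates of `K` contain their Sylow subgroups
      obtain ⟨r, hr, hrK⟩ := Nat.exists_prime_and_dvd (mt Subgroup.index_eq_one.mp hK.1.2.2)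
      let D : Subgroup G := (K.map H.subtype).normalCore
      haveI : D.Normal := Subgroup.normalCore_normal _
      have hND : N ≤ D := Subgroup.normal_le_normalCore.mpr fun x hx =>
        ⟨⟨x, hNH.le hx⟩, hK.1.2.1 hx, rfl⟩
      have hDH : D ≤ H := (Subgroup.normalCore_le _).trans (Subgroup.map_subtype_le _)
      have hDne : ¬ H ≤ D := fun h => hK.1.2.2 (by
        rw [eq_top_iff]
        intro x _
        obtain ⟨z, hz, e⟩ := Subgroup.normalCore_le _ (h x.2)
        exact (Subtype.ext e : z = x) ▸ hz)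
      have hDN : D = N := by
        refine le_antisymm ?_ hND
        by_contra hlt
        exact hDne (hH.2 ⟨inferInstance, lt_of_le_not_ge hND hlt⟩ hDH)
      apply hN.1.2 p hpI
      rw [← hDN]
      haveI := Fact.mk hpI.1
      obtain ⟨x, hx⟩ := exists_prime_orderOf_dvd_card' p hpH
      have hxK : ∀ g : G, MulAut.conjNormal g x ∈ K := by
        intro g
        rw [← QuotientGroup.eq_one_iff, ← orderOf_eq_one_iff]
        have h1 : orderOf (QuotientGroup.mk' K (MulAut.conjNormal g x)) ∣ p := by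
          refine (orderOf_map_dvd _ _).trans ?_
          rw [MulEquiv.orderOf_eq, hx]
        have h2 : orderOf (QuotientGroup.mk' K (MulAut.conjNormal g x)) ∣ K.index := by
          rw [Subgroup.index_eq_card]; exact orderOf_dvd_natCard _
        rcases (Nat.dvd_prime hpI.1).mp h1 with e | e
        · exact e
        · exfalso
          apply (hI p hpI).2
          rw [e] at h2
          refine dvd_trans ?_ (Subgroup.card_subgroup_dvd_card H)
          rw [← K.card_mul_index, sq]
          exact Nat.mul_dvd_mul (hcon p hpI) h2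
      have hxD : (x : G) ∈ D := fun g => ⟨MulAut.conjNormal g x, hxK g, rfl⟩
      have := orderOf_dvd_natCard (⟨(x : G), hxD⟩ : D)
      rwa [Subgroup.orderOf_mk, Subgroup.orderOf_coe, hx] at this
    have hK2 : (K.map H.subtype).Normal := by
      refine ⟨?_⟩
      rintro _ ⟨x, hx, rfl⟩ g
      refine ⟨MulAut.conjNormal g x, ?_, rfl⟩
      rw [← hcase q hq hqK g]
      exact ⟨x, hx, rfl⟩
    have hle : N ≤ K.map H.subtype := fun x hx => ⟨⟨x, hNH.le hx⟩, hK.1.2.1 hx, rfl⟩
    rcases eq_or_lt_of_le hle with e | e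
    · refine le_antisymm (fun x hx => ?_) hK.1.2.1
      show (x : G) ∈ N
      rw [e]; exact ⟨x, hx, rfl⟩
    · exfalso
      apply hK.1.2.2
      rw [eq_top_iff]
      intro x _
      obtain ⟨z, hz, e'⟩ := hH.2 ⟨hK2, e⟩ (Subgroup.map_subtype_le _) x.2
      exact (Subtype.ext e' : z = x) ▸ hz
  · intro hc
    haveI := Fact.mk hp₀
    haveI := Fact.mk hq₀
    obtain ⟨a, ha⟩ := exists_prime_orderOf_dvd_card' p₀ (hMq _ mkI.1)
    obtain ⟨b, hb⟩ := exists_prime_orderOf_dvd_card' q₀ (hMq _ mkI.2)
    have hab : orderOf (a * b) = p₀ * q₀ := by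
      rw [Commute.orderOf_mul_eq_mul_orderOf_of_coprime (hc.1.comm a b)]
      · rw [ha, hb]
      · rw [ha, hb]; exact (Nat.coprime_primes hp₀ hq₀).mpr hlt.ne
    obtain ⟨x, hx⟩ := QuotientGroup.mk'_surjective N' (a * b)
    have hd : p₀ * q₀ ∣ orderOf (x : G) := by
      rw [Subgroup.orderOf_coe, ← hab, ← hx]; exact orderOf_map_dvd _ x
    refine noEl p₀ q₀ mkI.1 mkI.2 hlt.ne ((x : G) ^ (orderOf (x : G) / (p₀ * q₀))) ?_
    exact orderOf_pow_orderOf_div (orderOf_pos _).ne' hd

end Cfsg.Agent.S3420
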