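import Cfsg.Statements.S3430
import Cfsg.Agent.Lib.Zsigmondy.Large

set_option autoImplicit false
open Cfsg

namespace Cfsg.Agent.S3430

set_option synthInstance.maxSize 1000 in
theorem rows_ok : ∀ row ∈ CfsgLib.Zsigmondy.smallRows,
    (row.1 = 2 ∧ (row.2.1 = 4 ∨ row.2.1 = 6 ∨ row.2.1 = 10 ∨ row.2.1 = 12 ∨ row.2.1 = 18)) ∨
      (row.1 = 3 ∧ (row.2.1 = 4 ∨ row.2.1 = 6)) ∨ (row.1 = 5 ∧ row.2.1 = 6) ∨
      (1 < row.2.2.2 ∧ row.2.2.2 ∣ row.1 ^ row.2.1 - 1 ∧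
        (∀ i < row.2.1, 1 ≤ i → ¬ row.2.2.2 ∣ row.1 ^ i - 1) ∧
        (row.2.1 + 1 < row.2.2.2 ∨ row.2.2.2 ^ 2 ∣ row.1 ^ row.2.1 - 1)) := by
  decide +kernel

theorem rows_prime : ∀ row ∈ CfsgLib.Zsigmondy.smallRows, 1 < row.2.2.2 → row.2.2.2.Prime := by
  norm_num [CfsgLib.Zsigmondy.smallRows]

/-- Let q, n ≥ 2 be integers. Unless (n = 2 and q + 1 = 2^s·3^t for some s ≥ 0 and t ≤ 1), or (q = 2 and n ∈ {4, 6, 10, 12, 18}), or (q = 3 and n ∈ {4, 6}), or (q, n) = (5, 6), there is a prime p dividing q^n − 1 but no q^i − 1 with 1 ≤ i < n (a primitive prime divisor), such that p > n + 1 or p² divides q^n − 1. -/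
theorem result (q n : ℕ) (hq : 2 ≤ q) (hn : 2 ≤ n)
    (h1 : ¬ (n = 2 ∧ ∃ s t : ℕ, t ≤ 1 ∧ q + 1 = 2 ^ s * 3 ^ t))
    (h2 : ¬ (q = 2 ∧ (n = 4 ∨ n = 6 ∨ n = 10 ∨ n = 12 ∨ n = 18)))
    (h3 : ¬ (q = 3 ∧ (n = 4 ∨ n = 6))) (h4 : ¬ (q = 5 ∧ n = 6)) :
    ∃ p : ℕ, p.Prime ∧ p ∣ q ^ n - 1 ∧ (∀ i : ℕ, 1 ≤ i → i < n → ¬ p ∣ q ^ i - 1) ∧ (n + 1 < p ∨ p ^ 2 ∣ q ^ n - 1) := by
  rcases (show n = 2 ∨ 2 < n by omega) with rfl | hn2
  · -- `q + 1` has a large prime or is divisible by nine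
    have hsq : q ^ 2 - 1 = (q + 1) * (q - 1) := by simpa using Nat.sq_sub_sq q 1
    by_cases h5 : ∃ p, p.Prime ∧ 5 ≤ p ∧ p ∣ q + 1
    · obtain ⟨p, hp, hp5, hpd⟩ := h5
      refine ⟨p, hp, hsq ▸ hpd.mul_right _, fun i hi1 hi2 hd => ?_, Or.inl (by omega)⟩
      obtain rfl : i = 1 := by omega
      rw [pow_one] at hd
      have h := Nat.dvd_sub hpd hd
      rw [show q + 1 - (q - 1) = 2 by omega] at h
      exact absurd (Nat.le_of_dvd (by norm_num) h) (by omega)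
    · push Not at h5
      obtain ⟨s, m, hm, hqm⟩ := Nat.exists_eq_pow_mul_and_not_dvd (show q + 1 ≠ 0 by omega) 2 (by omega)
      have hm0 : m ≠ 0 := fun h => by simp [h] at hm
      obtain ⟨t, hmt⟩ : ∃ t, m = 3 ^ t := ⟨_, Nat.eq_prime_pow_of_unique_prime_dvd hm0 fun {l} hl hlm => by
        have h' := h5 l hl
        have h2' := hl.two_le
        rcases (show l = 2 ∨ l = 3 ∨ l = 4 ∨ 5 ≤ l by omega) with rfl | rfl | rfl | h
        · exact absurd hlm hm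
        · rfl
        · norm_num at hl
        · exact absurd (hqm ▸ hlm.mul_left _) (h' h)⟩
      have ht : 2 ≤ t := by
        by_contra ht
        exact h1 ⟨rfl, s, t, by omega, by rw [hqm, hmt]⟩
      have h9 : 3 ^ 2 ∣ q + 1 := by rw [hqm, hmt]; exact (pow_dvd_pow 3 ht).mul_left _
      refine ⟨3, Nat.prime_three, hsq ▸ ((dvd_pow_self 3 two_ne_zero).trans h9).mul_right _,
        fun i hi1 hi2 hd => ?_, Or.inr (hsq ▸ h9.mul_right _)⟩
      obtain rfl : i = 1 := by omega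
      rw [pow_one] at hd
      have : 3 ∣ q + 1 := (dvd_pow_self 3 two_ne_zero).trans h9
      omega
  by_cases hs : n ∈ CfsgLib.Zsigmondy.smallExps ∧ (q - 1) ^ n.totient ≤ n * (2 * n + 1)
  · obtain ⟨row, hrow, rfl, rfl⟩ := CfsgLib.Zsigmondy.exists_row hq hs.1 hs.2
    rcases rows_ok row hrow with h | h | h | ⟨h1', h2', h3', h4'⟩
    · exact absurd h h2
    · exact absurd h h3
    · exact absurd h h4
    · exact ⟨_, rows_prime row hrow h1', h2', fun i hi hin => h3' i hin hi, h4'⟩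
  · obtain ⟨M, hM, hppd, -, hlarge⟩ := CfsgLib.Zsigmondy.exists_large_primitive_part hq hn2 hs
    by_contra hcon
    push Not at hcon
    have hall : ∀ {p : ℕ}, p.Prime → p ∣ M → p = n + 1 := by
      intro p hp hpM
      have h := hppd p hp hpM
      have := hcon p hp h.2.1 (fun i hi hin => h.2.2 i hi hin)
      have := h.lt hq (by omega)
      omega
    have hM0 : M ≠ 0 := by omega
    have hpow := Nat.eq_prime_pow_of_unique_prime_dvd hM0 hall
    generalize M.primeFactorsList.length = t at hpow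
    rcases t with _ | _ | t
    · simp at hpow; omega
    · simp at hpow; omega
    · obtain ⟨p, hp, hpM⟩ := Nat.exists_prime_and_dvd (show M ≠ 1 by omega)
      obtain rfl := hall hp hpM
      refine (hcon (n + 1) hp (hppd _ hp hpM).2.1 fun i hi hin => (hppd _ hp hpM).2.2 i hi hin).2 ?_
      exact ((pow_dvd_pow (n + 1) (by omega : 2 ≤ t + 2)).trans (dvd_of_eq hpow.symm)).trans hM

end Cfsg.Agent.S3430
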