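import Cfsg.Statements.S3431
import Cfsg.Agent.Lib.Spectrum.NseAltFour
import Cfsg.Agent.Lib.Spectrum.NseAltFive
import Cfsg.Agent.Lib.Spectrum.NseAltSix

set_option autoImplicit false
open Cfsg

namespace Cfsg.Agent.S3431

open CfsgLib.Spectrum in
/-- Counting elements of order `m` through powers. -/
theorem orderCount_eq_card {H : Type*} [Group H] [Fintype H] [DecidableEq H] (m : ℕ) (hm : 0 < m) :
    orderCount H m = (Finset.univ.filter fun g : H => g ^ m = 1 ∧ ∀ k < m, 0 < k → g ^ k ≠ 1).card := by
  rw [orderCount, Nat.card_eq_fintype_card, Fintype.card_subtype]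
  congr 1
  ext g
  simp [orderOf_eq_iff hm]

open CfsgLib.Spectrum in
/-- The set of order counts from finitely many evaluated counts. -/
theorem image_eq {H : Type*} [Group H] [Finite H] (A : Finset ℕ)
    (hsum : ∑ m ∈ A, orderCount H m = Nat.card H) (hne : ∀ m ∈ A, orderCount H m ≠ 0) :
    (fun m : ℕ => Nat.card {g : H // orderOf g = m}) '' Set.range (orderOf : H → ℕ) =
      (fun m => orderCount H m) '' (A : Set ℕ) := by
  have hr : Set.range (orderOf : H → ℕ) = (A : Set ℕ) := by
    refine Set.Subset.antisymm ?_ fun m hm => orderCount_ne_zero_iff.1 (hne m hm)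
    rintro _ ⟨g, rfl⟩
    by_contra hg
    rw [Finset.mem_coe] at hg
    have h := orderCount_add_le (G := H) (A := insert (orderOf g) A)
    rw [Finset.sum_insert hg, hsum] at h
    have := orderCount_ne_zero_iff.2 ⟨g, rfl⟩
    omega
  rw [hr]
  rfl

open CfsgLib.Spectrum in
theorem hyps_of_image_eq {G : Type*} [Group G] [Finite G] {V : Set ℕ}
    (h : (fun m : ℕ => Nat.card {g : G // orderOf g = m}) '' Set.range (orderOf : G → ℕ) = V) :
    (∀ m, orderCount G m ≠ 0 → orderCount G m ∈ V) ∧ ∀ v ∈ V, ∃ m, orderCount G m = v := by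
  subst h
  refine ⟨fun m hm => ?_, ?_⟩
  · obtain ⟨g, rfl⟩ := orderCount_ne_zero_iff.1 hm
    exact ⟨orderOf g, ⟨g, rfl⟩, rfl⟩
  · rintro _ ⟨m, -, rfl⟩
    exact ⟨m, rfl⟩

open CfsgLib.Spectrum in
theorem alt_four_counts : orderCount (alternatingGroup (Fin 4)) 2 = 3 ∧
    orderCount (alternatingGroup (Fin 4)) 3 = 8 := by
  refine ⟨?_, ?_⟩ <;> rw [orderCount_eq_card _ (by norm_num)] <;> decide +kernel

open CfsgLib.Spectrum in
theorem alt_five_counts : orderCount (alternatingGroup (Fin 5)) 2 = 15 ∧
    orderCount (alternatingGroup (Fin 5)) 3 = 20 ∧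
    orderCount (alternatingGroup (Fin 5)) 5 = 24 := by
  refine ⟨?_, ?_, ?_⟩ <;> rw [orderCount_eq_card _ (by norm_num)] <;> decide +kernel

open CfsgLib.Spectrum in
theorem alt_six_counts : orderCount (alternatingGroup (Fin 6)) 2 = 45 ∧
    orderCount (alternatingGroup (Fin 6)) 3 = 80 ∧ orderCount (alternatingGroup (Fin 6)) 4 = 90 ∧
    orderCount (alternatingGroup (Fin 6)) 5 = 144 := by
  refine ⟨?_, ?_, ?_, ?_⟩ <;> rw [orderCount_eq_card _ (by norm_num)] <;> decide +kernel

/-- Let n be 4, 5 or 6 and let G be a finite group whose set of sizes of same-order classes (the set of numbers #{g : o(g) = m} over the element orders m of G) equals that of the alternating group of degree n. Then G is isomorphic to that alternating group. -/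
theorem result {G : Type*} [Group G] [Finite G] (n : ℕ) (hn : n = 4 ∨ n = 5 ∨ n = 6)
    (h : ((fun m : ℕ => Nat.card {g : G // orderOf g = m}) '' Set.range (orderOf : G → ℕ)) = ((fun m : ℕ => Nat.card {g : ↥(alternatingGroup (Fin n)) // orderOf g = m}) '' Set.range (orderOf : ↥(alternatingGroup (Fin n)) → ℕ))) :
    Nonempty (G ≃* ↥(alternatingGroup (Fin n))) := by
  rcases hn with rfl | rfl | rfl
  · obtain ⟨a2, a3⟩ := alt_four_counts
    have a1 := CfsgLib.Spectrum.orderCount_one (G := alternatingGroup (Fin 4))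
    rw [image_eq (H := alternatingGroup (Fin 4)) {1, 2, 3}
      (by rw [Finset.sum_insert (by decide), Finset.sum_pair (by decide), a1, a2, a3,
            Nat.card_eq_fintype_card]; decide +kernel)
      (by simp [a1, a2, a3])] at h
    simp only [Finset.coe_insert, Finset.coe_singleton, Set.image_insert_eq, Set.image_singleton,
      a1, a2, a3] at h
    obtain ⟨hV, hA⟩ := hyps_of_image_eq h
    exact CfsgLib.Spectrum.iso_alt_four_of_nse (fun m hm => by simpa using hV m hm)
      (hA 3 (by simp)) (hA 8 (by simp))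
  · obtain ⟨a2, a3, a5⟩ := alt_five_counts
    have a1 := CfsgLib.Spectrum.orderCount_one (G := alternatingGroup (Fin 5))
    rw [image_eq (H := alternatingGroup (Fin 5)) {1, 2, 3, 5}
      (by rw [Finset.sum_insert (by decide), Finset.sum_insert (by decide), Finset.sum_pair (by decide),
            a1, a2, a3, a5, Nat.card_eq_fintype_card]; decide +kernel)
      (by simp [a1, a2, a3, a5])] at h
    simp only [Finset.coe_insert, Finset.coe_singleton, Set.image_insert_eq, Set.image_singleton,
      a1, a2, a3, a5] at h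
    obtain ⟨hV, hA⟩ := hyps_of_image_eq h
    exact CfsgLib.Spectrum.iso_alt_five_of_nse (fun m hm => by simpa using hV m hm)
      (hA 15 (by simp)) (hA 20 (by simp)) (hA 24 (by simp))
  · obtain ⟨a2, a3, a4, a5⟩ := alt_six_counts
    have a1 := CfsgLib.Spectrum.orderCount_one (G := alternatingGroup (Fin 6))
    rw [image_eq (H := alternatingGroup (Fin 6)) {1, 2, 3, 4, 5}
      (by rw [Finset.sum_insert (by decide), Finset.sum_insert (by decide),
            Finset.sum_insert (by decide), Finset.sum_pair (by decide),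
            a1, a2, a3, a4, a5, Nat.card_eq_fintype_card]; decide +kernel)
      (by simp [a1, a2, a3, a4, a5])] at h
    simp only [Finset.coe_insert, Finset.coe_singleton, Set.image_insert_eq, Set.image_singleton,
      a1, a2, a3, a4, a5] at h
    obtain ⟨hV, hA⟩ := hyps_of_image_eq h
    exact CfsgLib.Spectrum.iso_alt_six_of_nse (fun m hm => by simpa using hV m hm)
      (hA 45 (by simp)) (hA 80 (by simp)) (hA 90 (by simp)) (hA 144 (by simp))

end Cfsg.Agent.S3431
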