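import Cfsg.Statements.S3433
import Cfsg.Agent.Lib.SmallSpectrum.Main
import Cfsg.Agent.S1475

set_option autoImplicit false
open Cfsg

namespace Cfsg.Agent.S3433

/-- A finite group whose set of element orders is exactly {1, 2, 3, 4, 5} is isomorphic to the alternating group of degree 6, or has a normal elementary abelian 2-subgroup with quotient isomorphic to the alternating group of degree 5. -/
theorem result {G : Type*} [Group G] [Finite G] (h : Set.range (orderOf : G → ℕ) = {k : ℕ | 1 ≤ k ∧ k ≤ 5}) :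
    Nonempty (G ≃* ↥(alternatingGroup (Fin 6))) ∨
      ∃ (N : Subgroup G) (_ : N.Normal), Cfsg.IsElementaryAbelian 2 N ∧ Nonempty (G ⧸ N ≃* ↥(alternatingGroup (Fin 5))) := by
  have hs : CfsgLib.SmallSpectrum.Spec G := fun g => by
    have hg : orderOf g ∈ Set.range (orderOf : G → ℕ) := ⟨g, rfl⟩
    rw [h] at hg
    exact hg.2
  have hmem : ∀ k, 1 ≤ k → k ≤ 5 → ∃ g : G, orderOf g = k := fun k h1 h2 => by
    have hk : k ∈ Set.range (orderOf : G → ℕ) := by rw [h]; exact ⟨h1, h2⟩
    exact hk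
  have hdvd : ∀ k, 1 ≤ k → k ≤ 5 → k ∣ Nat.card G := fun k h1 h2 => by
    obtain ⟨g, rfl⟩ := hmem k h1 h2
    exact orderOf_dvd_natCard g
  refine hs.good fun hsol => ?_
  haveI := hsol
  have hpp : ∀ g : G, IsPrimePow (orderOf g) ∨ g = 1 := fun g => by
    rcases hs.orderOf_eq g with e | e | e | e | e
    · exact Or.inr (orderOf_eq_one_iff.1 e)
    · exact Or.inl (e ▸ Nat.prime_two.isPrimePow)
    · exact Or.inl (e ▸ Nat.prime_three.isPrimePow)
    · exact Or.inl (e ▸ (Nat.prime_two.isPrimePow.pow (n := 2) two_ne_zero))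
    · exact Or.inl (e ▸ Nat.prime_five.isPrimePow)
  have h2 := Cfsg.Agent.S1475.result hpp
  have hsub : ({2, 3, 5} : Finset ℕ) ⊆ (Nat.card G).primeFactors := by
    intro p hp
    simp only [Finset.mem_insert, Finset.mem_singleton] at hp
    rw [Nat.mem_primeFactors]
    rcases hp with rfl | rfl | rfl
    · exact ⟨Nat.prime_two, hdvd 2 (by norm_num) (by norm_num), Nat.card_pos.ne'⟩
    · exact ⟨Nat.prime_three, hdvd 3 (by norm_num) (by norm_num), Nat.card_pos.ne'⟩
    · exact ⟨Nat.prime_five, hdvd 5 (by norm_num) (by norm_num), Nat.card_pos.ne'⟩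
  have h3 := (Finset.card_le_card hsub).trans h2
  simp at h3

end Cfsg.Agent.S3433
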