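import Cfsg.Statements.S3704


set_option autoImplicit false
open Cfsg

namespace Cfsg.Agent.S3704

open MulAction

/-- Two invariant sets cover everything: the incidence matrix argument. -/
theorem cover_of_disjoint {G Ω : Type*} [Group G] [Finite G] [MulAction G Ω] [Finite Ω]
    (h2 : MulAction.IsMultiplyPretransitive G Ω 2) (H : Subgroup G) (hidx : H.index = Nat.card Ω)
    (Γ Δ : Set Ω) (hΓ : ∀ h ∈ H, ∀ x, h • x ∈ Γ ↔ x ∈ Γ) (hΔ : ∀ h ∈ H, ∀ x, h • x ∈ Δ ↔ x ∈ Δ)
    (y₀ z₀ : Ω) (hy₀ : y₀ ∈ Γ) (hz₀ : z₀ ∈ Δ) (hdisj : ∀ x ∈ Γ, x ∉ Δ) :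
    ∀ x, x ∈ Γ ∨ x ∈ Δ := by
  classical
  have := Fintype.ofFinite Ω
  have := Fintype.ofFinite G
  let inc : Set Ω → (G ⧸ H) → Ω → ℚ := fun S B y => if (B.out)⁻¹ • y ∈ S then 1 else 0
  have hmk : ∀ (S : Set Ω), (∀ h ∈ H, ∀ x, h • x ∈ S ↔ x ∈ S) → ∀ (g : G) (y : Ω),
      inc S (g : G ⧸ H) y = if g⁻¹ • y ∈ S then 1 else 0 := by
    intro S hS g y
    obtain ⟨h, hh⟩ := QuotientGroup.mk_out_eq_mul H g
    have : ((QuotientGroup.mk g : G ⧸ H).out)⁻¹ • y ∈ S ↔ g⁻¹ • y ∈ S := by
      rw [hh, mul_inv_rev, mul_smul]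
      exact hS _ (H.inv_mem h.2) _
    simp only [inc, this]
  have hequiv : ∀ (S : Set Ω), (∀ h ∈ H, ∀ x, h • x ∈ S ↔ x ∈ S) → ∀ (k : G) (B : G ⧸ H) (y : Ω),
      inc S (k • B) (k • y) = inc S B y := by
    intro S hS k B y
    induction B using QuotientGroup.induction_on with
    | H g =>
      rw [MulAction.Quotient.smul_mk, hmk S hS, hmk S hS, smul_eq_mul, mul_inv_rev, mul_smul,
        inv_smul_smul]
  have htwo : ∀ {a b c d : Ω}, a ≠ b → c ≠ d → ∃ g : G, g • a = c ∧ g • b = d := fun hab hcd =>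
    MulAction.is_two_pretransitive_iff.mp h2 hab hcd
  let M : Matrix (G ⧸ H) Ω ℚ := Matrix.of (inc Γ)
  have hM : ∀ k B y, M (k • B) (k • y) = M B y := hequiv Γ hΓ
  have hne : y₀ ≠ z₀ := fun h => hdisj _ hy₀ (h ▸ hz₀)
  have hz₀Γ : z₀ ∉ Γ := fun h => hdisj _ h hz₀
  have hN : ∀ a b c d : Ω, (∃ g : G, g • a = c ∧ g • b = d) →
      ∑ B, M B c * M B d = ∑ B, M B a * M B b := by
    rintro a b c d ⟨g, rfl, rfl⟩
    exact (Fintype.sum_equiv (MulAction.toPerm g) _ _ fun B => by
      simp [hM]).symm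
  have hpre : MulAction.IsPretransitive G Ω := MulAction.isPretransitive_of_is_two_pretransitive
  set r := ∑ B, M B y₀ * M B y₀ with hr
  set lam := ∑ B, M B y₀ * M B z₀ with hlam
  have hNeq : ∀ a b : Ω, ∑ B, M B a * M B b = if a = b then r else lam := by
    intro a b
    split
    · next h =>
      subst h
      obtain ⟨g, rfl⟩ := MulAction.exists_smul_eq G y₀ a
      exact hN _ _ _ _ ⟨g, rfl, rfl⟩
    · next h => exact hN _ _ _ _ (htwo hne h)
  have hM01 : ∀ B y, M B y = 0 ∨ M B y = 1 := fun B y => by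
    simp only [M, Matrix.of_apply, inc]; split <;> simp
  have hrl : lam < r := by
    apply Finset.sum_lt_sum
    · intro B _
      rcases hM01 B y₀ with h | h <;> rcases hM01 B z₀ with h' | h' <;> simp [h, h']
    · refine ⟨((1 : G) : G ⧸ H), Finset.mem_univ _, ?_⟩
      simp [M, hmk Γ hΓ, hy₀, hz₀Γ]
  have hlam0 : 0 ≤ lam := Finset.sum_nonneg fun B _ => by
    rcases hM01 B y₀ with h | h <;> rcases hM01 B z₀ with h' | h' <;> simp [h, h']
  have hinj : Function.Injective M.mulVecLin := by
    rw [← LinearMap.ker_eq_bot]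
    rw [LinearMap.ker_eq_bot']
    intro v hv
    have h0 : ∀ a : Ω, (r - lam) * v a + lam * ∑ b, v b = 0 := by
      intro a
      have h1 : ∑ B, M B a * (M.mulVec v) B = 0 := by
        have : M.mulVec v = 0 := hv
        simp [this]
      simp only [Matrix.mulVec, dotProduct, Finset.mul_sum] at h1
      rw [Finset.sum_comm] at h1
      have h2 : ∀ b, ∑ B, M B a * (M B b * v b) = (if a = b then r else lam) * v b := by
        intro b
        rw [← hNeq, Finset.sum_mul]
        simp only [mul_assoc]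
      simp only [h2] at h1
      rw [← h1, Finset.mul_sum]
      have h3 : (r - lam) * v a = ∑ b, if a = b then (r - lam) * v b else 0 := by simp
      rw [h3, ← Finset.sum_add_distrib]
      refine Finset.sum_congr rfl fun b _ => ?_
      split <;> ring
    have hs : ∑ b, v b = 0 := by
      have h1 : ∑ a, ((r - lam) * v a + lam * ∑ b, v b) = 0 := by simp [h0]
      rw [Finset.sum_add_distrib, ← Finset.mul_sum, Finset.sum_const, nsmul_eq_mul, ← mul_assoc,
        ← add_mul] at h1
      rcases mul_eq_zero.mp h1 with h | h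
      · have : (0 : ℚ) ≤ ((Finset.univ : Finset Ω).card : ℚ) * lam :=
          mul_nonneg (Nat.cast_nonneg _) hlam0
        linarith
      · exact h
    funext a
    have := h0 a
    rw [hs, mul_zero, add_zero, mul_eq_zero] at this
    exact this.resolve_left (by linarith)
  have hdim : Module.finrank ℚ (Ω → ℚ) = Module.finrank ℚ ((G ⧸ H) → ℚ) := by
    rw [Module.finrank_fintype_fun_eq_card, Module.finrank_fintype_fun_eq_card,
      ← Nat.card_eq_fintype_card, ← Nat.card_eq_fintype_card, ← hidx]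
    rfl
  have hsurj : Function.Surjective M.mulVecLin :=
    (LinearMap.injective_iff_surjective_of_finrank_eq_finrank hdim).mp hinj
  choose X hX using fun z => hsurj (fun B => inc Δ B z)
  have hXequiv : ∀ (k : G) (y z : Ω), X (k • z) (k • y) = X z y := by
    intro k y z
    have : (fun y => X (k • z) (k • y)) = X z := by
      apply hinj
      rw [hX z]
      funext B
      have h := congrFun (hX (k • z)) (k • B)
      simp only [hequiv Δ hΔ] at h
      rw [← h]
      simp only [Matrix.mulVecLin_apply, Matrix.mulVec, dotProduct]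
      exact Fintype.sum_equiv (MulAction.toPerm k) _ _ fun y => by simp [hM]
    exact congrFun this y
  set α := X y₀ y₀ - X y₀ z₀
  set β := X y₀ z₀
  have hXeq : ∀ z y, X z y = (if z = y then α else 0) + β := by
    intro z y
    split
    · next h =>
      subst h
      obtain ⟨g, rfl⟩ := MulAction.exists_smul_eq G y₀ z
      rw [hXequiv]; simp [α, β]
    · next h =>
      obtain ⟨g, rfl, rfl⟩ := htwo hne h
      rw [hXequiv]; simp [β]
  set B₀ : G ⧸ H := ((1 : G) : G ⧸ H)
  have hfin : ∀ z, (if z ∈ Δ then (1 : ℚ) else 0) = α * (if z ∈ Γ then 1 else 0) + β * ∑ y, M B₀ y := by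
    intro z
    have h := congrFun (hX z) B₀
    simp only [B₀, hmk Δ hΔ, inv_one, one_smul] at h
    rw [← h]
    simp only [Matrix.mulVecLin_apply, Matrix.mulVec, dotProduct, hXeq, mul_add, mul_ite, mul_zero,
      Finset.sum_add_distrib, Finset.sum_ite_eq, Finset.mem_univ, if_true]
    rw [← Finset.sum_mul, mul_comm _ β, mul_comm _ α]
    simp [M, B₀, hmk Γ hΓ, mul_ite]
  intro x
  by_contra hc
  push Not at hc
  have e1 := hfin z₀
  have e2 := hfin x
  simp [hz₀, hz₀Γ] at e1
  simp [hc.1, hc.2] at e2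
  rcases e2 with e2 | e2 <;> simp [e2] at e1

/-- Let G be a finite group acting faithfully and 2-transitively on a finite set Ω of size n, and let H be a subgroup of index n in G which is not transitive on Ω and fixes no point of Ω. Then H has exactly two orbits on Ω. -/
theorem result {G Ω : Type*} [Group G] [Finite G] [MulAction G Ω] [FaithfulSMul G Ω] [Finite Ω] (h2 : MulAction.IsMultiplyPretransitive G Ω 2) (H : Subgroup G) (hidx : H.index = Nat.card Ω) (hnt : ¬ MulAction.IsPretransitive H Ω) (hfix : ∀ a : Ω, ∃ h : H, h • a ≠ a) : Nat.card (MulAction.orbitRel.Quotient H Ω) = 2 := by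
  classical
  have hΩ : Nonempty Ω := by
    by_contra h
    rw [not_nonempty_iff] at h
    exact hnt ⟨fun x => h.elim x⟩
  obtain ⟨a⟩ := hΩ
  obtain ⟨b, hb⟩ : ∃ b, b ∉ MulAction.orbit H a := by
    by_contra h
    push Not at h
    exact hnt (MulAction.isPretransitive_iff_base a |>.mpr fun x => h x)
  have hinv : ∀ c : Ω, ∀ h ∈ H, ∀ x, h • x ∈ MulAction.orbit H c ↔ x ∈ MulAction.orbit H c := by
    intro c h hh x
    rw [← MulAction.orbit_eq_iff, ← MulAction.orbit_eq_iff,
      show h • x = (⟨h, hh⟩ : H) • x from rfl, MulAction.orbit_smul]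
  have hcov := cover_of_disjoint h2 H hidx (MulAction.orbit H a) (MulAction.orbit H b) (hinv a) (hinv b)
    a b (MulAction.mem_orbit_self a) (MulAction.mem_orbit_self b) (fun x hxa hxb => hb (by
      rw [← MulAction.orbit_eq_iff] at hxa hxb ⊢
      rw [← hxb, hxa]))
  rw [Nat.card_eq_two_iff]
  refine ⟨Quotient.mk'' a, Quotient.mk'' b, fun h => hb ?_, ?_⟩
  · exact MulAction.orbitRel_apply.mp (Quotient.eq''.mp h.symm)
  · rw [Set.eq_univ_iff_forall]
    intro q
    induction q using Quotient.inductionOn' with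
    | _ x =>
      rcases hcov x with h | h
      · left; exact Quotient.eq''.mpr (MulAction.orbitRel_apply.mpr h)
      · right; exact Quotient.eq''.mpr (MulAction.orbitRel_apply.mpr h)

end Cfsg.Agent.S3704
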