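import Cfsg.Statements.S3706
import Cfsg.Agent.Lib.MetacyclicP.ItoDesign.Group

set_option autoImplicit false
open Cfsg

namespace Cfsg.Agent.S3706

/-- Let G be a finite group acting faithfully and 2-transitively on a finite set Ω of size n, and let H be a subgroup of index n in G which is not transitive on Ω and fixes no point of Ω. Suppose H acts unfaithfully on one of its orbits: some non-identity element of H fixes every point of that orbit. Then there are an integer m ≥ 2 and a finite field F with #Ω = (#F^(m+1) − 1)/(#F − 1), and G has a normal subgroup isomorphic to PSL_{m+1}(F) whose centralizer in G is trivial (so that G lies between PSL_{m+1}(F) and its automorphism group). -/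
theorem result {G Ω : Type*} [Group G] [Finite G] [MulAction G Ω] [FaithfulSMul G Ω] [Finite Ω] (h2 : MulAction.IsMultiplyPretransitive G Ω 2) (H : Subgroup G) (hidx : H.index = Nat.card Ω) (hnt : ¬ MulAction.IsPretransitive H Ω) (hfix : ∀ a : Ω, ∃ h : H, h • a ≠ a) (hunf : ∃ a : Ω, ∃ h : H, h ≠ 1 ∧ ∀ b ∈ MulAction.orbit H a, h • b = b) : ∃ (m : ℕ) (F : Type) (_ : Field F) (_ : Fintype F), 2 ≤ m ∧ Nat.card Ω = (Fintype.card F ^ (m + 1) - 1) / (Fintype.card F - 1) ∧ ∃ N : Subgroup G, N.Normal ∧ Nonempty (N ≃* Matrix.ProjectiveSpecialLinearGroup (Fin (m + 1)) F) ∧ Subgroup.centralizer (N : Set G) = ⊥ := by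
  classical
  cases nonempty_fintype G
  cases nonempty_fintype Ω
  haveI : Fintype (G ⧸ H) := Fintype.ofFinite _
  obtain ⟨a, h, hh1, hhfix⟩ := hunf
  let O : Set Ω := MulAction.orbit H a
  have hO : ∀ (u : H) (x : Ω), (u : G) • x ∈ O ↔ x ∈ O := by
    intro u x
    constructor
    · rintro ⟨v, hv⟩
      refine ⟨u⁻¹ * v, ?_⟩
      simp only at hv ⊢
      rw [mul_smul, hv, Subgroup.smul_def, Subgroup.coe_inv, inv_smul_smul]
    · rintro ⟨v, rfl⟩
      exact ⟨u * v, by simp [mul_smul, Subgroup.smul_def]⟩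
  let M : Ω → G ⧸ H → Prop := fun x y => ∀ g : G, (g : G ⧸ H) = y → g⁻¹ • x ∈ O
  have hmk : ∀ (x : Ω) (g : G), M x (g : G ⧸ H) ↔ g⁻¹ • x ∈ O := by
    refine fun x g => ⟨fun hx => hx g rfl, fun hx g' hg' => ?_⟩
    have hu : g'⁻¹ * g ∈ H := QuotientGroup.eq.1 hg'
    have := (hO ⟨_, hu⟩ (g⁻¹ • x)).2 hx
    rwa [Subgroup.coe_mk, mul_smul, smul_inv_smul] at this
  have hB : ∀ x, M x ((1 : G) : G ⧸ H) ↔ x ∈ O := fun x => by rw [hmk, inv_one, one_smul]
  have hM : ∀ (g : G) x y, M (g • x) (g • y) ↔ M x y := by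
    intro g x y
    induction y using QuotientGroup.induction_on with
    | H t =>
      rw [show g • (t : G ⧸ H) = ((g * t : G) : G ⧸ H) from rfl, hmk, hmk, mul_inv_rev, mul_smul,
        inv_smul_smul]
  have h2' : ∀ p q p' q' : Ω, p ≠ q → p' ≠ q' → ∃ g : G, g • p = p' ∧ g • q = q' :=
    fun p q p' q' hp hq => MulAction.is_two_pretransitive_iff.1 h2 hp hq
  have hcard : Fintype.card (G ⧸ H) = Fintype.card Ω := by
    rw [← Nat.card_eq_fintype_card, ← Nat.card_eq_fintype_card]; exact hidx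
  obtain ⟨u, hu⟩ := hfix a
  obtain ⟨b, hb⟩ : ∃ b, b ∉ O := by
    by_contra hall
    push Not at hall
    refine hnt ⟨fun x y => ?_⟩
    obtain ⟨p, rfl⟩ := hall x
    obtain ⟨q, rfl⟩ := hall y
    exact ⟨q * p⁻¹, by simp [mul_smul]⟩
  obtain ⟨w, hw⟩ := hfix b
  have hbw : (w : G) • b ∉ O := fun hx => hb ((hO w b).1 hx)
  have hcardO : Nat.card {x // M x ((1 : G) : G ⧸ H)} = (Finset.univ.filter fun x => x ∈ O).card := by
    rw [Nat.card_eq_fintype_card, Fintype.card_subtype]
    exact congrArg Finset.card (Finset.filter_congr fun x _ => hB x)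
  have hk : 2 ≤ Nat.card {x // M x ((1 : G) : G ⧸ H)} := by
    rw [hcardO]
    exact Finset.one_lt_card.2 ⟨a, by simp [O, MulAction.mem_orbit_self], u • a,
      by simp [O, MulAction.mem_orbit], fun e => hu e.symm⟩
  have hk' : Nat.card {x // M x ((1 : G) : G ⧸ H)} + 2 ≤ Fintype.card Ω := by
    have h3 : ({b, (w : G) • b} : Finset Ω).card = 2 := Finset.card_pair (fun e => hw e.symm)
    rw [hcardO, ← h3, ← Finset.card_union_of_disjoint]
    · exact Finset.card_le_univ _
    · rw [Finset.disjoint_right]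
      intro x hx hx'
      simp only [Finset.mem_insert, Finset.mem_singleton] at hx
      simp only [Finset.mem_filter, Finset.mem_univ, true_and] at hx'
      rcases hx with rfl | rfl
      · exact hb hx'
      · exact hbw hx'
  obtain ⟨D, hD⟩ := CfsgLib.MetacyclicP.ItoDesign.exists_design M hM inferInstance h2'
    (fun g hg => eq_of_smul_eq_smul fun x : Ω => (hg x).trans (one_smul G x).symm)
    hcard ((1 : G) : G ⧸ H) hk hk'
  have hA : D.HasAxial := by
    refine ⟨(h : G), ((1 : G) : G ⧸ H), fun x hx => ?_, fun e => hh1 (Subtype.ext e)⟩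
    rw [hD, hB] at hx
    exact hhfix x hx
  obtain ⟨m, K, fK, fiK, hm, hc, hN⟩ := D.exists_psl hA
  exact ⟨m, K, fK, fiK, hm, by rw [Nat.card_eq_fintype_card]; exact hc, hN⟩

end Cfsg.Agent.S3706
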