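import Cfsg.Statements.S3733

set_option autoImplicit false
open Cfsg

namespace Cfsg.Agent.S3733

/-- Let A and V be subgroups of a finite group with V abelian and nontrivial and A normalizing V. Suppose a nonempty finite family of proper subgroups of A partitions A: every non-identity element of A lies in exactly one member. If the number of members minus one is coprime to the order of V, then some member B of the family has a non-identity fixed point on V, that is V ∩ C(B) ≠ 1. -/
theorem result {G : Type*} [Group G] [Finite G] (A V : Subgroup G) (hVab : IsMulCommutative V) (hV : V ≠ ⊥) (hAV : A ≤ Subgroup.normalizer (V : Set G)) (𝒜 : Finset (Subgroup G)) (hne : 𝒜.Nonempty) (hprop : ∀ B ∈ 𝒜, B < A) (hpart : ∀ a ∈ A, a ≠ 1 → ∃! B, B ∈ 𝒜 ∧ a ∈ B) (hk : (𝒜.card - 1).Coprime (Nat.card V)) : ∃ B ∈ 𝒜, V ⊓ Subgroup.centralizer (B : Set G) ≠ ⊥ := by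
  classical
  have : Fintype A := Fintype.ofFinite _
  by_contra hcon
  push Not at hcon
  let f : A → V → V := fun a v =>
    ⟨(a : G) * v * (a : G)⁻¹, (Subgroup.mem_normalizer_iff.mp (hAV a.2) v).mp v.2⟩
  let : CommGroup V := { mul_comm := hVab.is_comm.comm }
  let cj : A → V →* V := fun a =>
    { toFun := f a
      map_one' := Subtype.ext (by simp [f])
      map_mul' := fun x y => Subtype.ext (by simp [f, mul_assoc]) }
  let N : Subgroup G → V → V := fun B v => ∏ a ∈ Finset.univ.filter (fun a : A => (a : G) ∈ B), cj a v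
  have hfix : ∀ B : Subgroup G, B ≤ A → ∀ v : V,
      (N B v : G) ∈ Subgroup.centralizer (B : Set G) := by
    intro B hBA v b hb
    have hcj : cj ⟨b, hBA hb⟩ (N B v) = N B v := by
      simp only [N, map_prod]
      refine Finset.prod_bij' (fun a _ => (⟨b, hBA hb⟩ : A) * a)
        (fun a _ => (⟨b, hBA hb⟩ : A)⁻¹ * a) ?_ ?_ ?_ ?_ ?_
      · intro a ha
        simp only [Finset.mem_filter, Finset.mem_univ, true_and] at ha ⊢
        exact B.mul_mem hb ha
      · intro a ha
        simp only [Finset.mem_filter, Finset.mem_univ, true_and] at ha ⊢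
        exact B.mul_mem (B.inv_mem hb) ha
      · intro a _; simp
      · intro a _; simp
      · intro a _; exact Subtype.ext (by simp [cj, f, mul_assoc])
    have h := congrArg Subtype.val hcj
    simp only [cj, f, MonoidHom.coe_mk, OneHom.coe_mk] at h
    exact mul_inv_eq_iff_eq_mul.mp h
  have htriv : ∀ B ∈ 𝒜, ∀ v : V, N B v = 1 := fun B hB v => Subtype.ext <| by
    have h := hcon B hB
    have hm : (N B v : G) ∈ V ⊓ Subgroup.centralizer (B : Set G) :=
      ⟨(N B v).2, hfix B (hprop B hB).le v⟩
    rw [h] at hm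
    exact hm
  have hA1 : ∀ v : V, N A v = 1 := fun v => Subtype.ext <| by
    obtain ⟨B, hB⟩ := hne
    have hm : (N A v : G) ∈ V ⊓ Subgroup.centralizer (B : Set G) :=
      ⟨(N A v).2, Subgroup.centralizer_le (by exact_mod_cast (hprop B hB).le) (hfix A le_rfl v)⟩
    rw [hcon B hB] at hm
    exact hm
  apply hV
  rw [eq_bot_iff]
  intro x hx
  set v : V := ⟨x, hx⟩ with hv
  have hsum : (∏ B ∈ 𝒜, N B v) = N A v * v ^ (𝒜.card - 1) := by
    simp only [N]
    simp_rw [Finset.prod_filter]
    rw [Finset.prod_comm]
    have hcount : ∀ a : A, (∏ B ∈ 𝒜, if (a : G) ∈ B then cj a v else 1) =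
        cj a v * (if a = 1 then v ^ (𝒜.card - 1) else 1) := by
      intro a
      rw [← Finset.prod_filter, Finset.prod_const]
      by_cases ha : a = 1
      · subst ha
        have hone : cj 1 v = v := Subtype.ext (by simp [cj, f])
        rw [if_pos rfl, hone, Finset.filter_true_of_mem (fun B _ => by simp [B.one_mem]),
          ← pow_succ', Nat.sub_add_cancel hne.card_pos]
      · obtain ⟨B, ⟨hB, haB⟩, huniq⟩ := hpart a a.2 (fun h => ha (Subtype.ext h))
        have : 𝒜.filter (fun B => (a : G) ∈ B) = {B} := by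
          ext C
          simp only [Finset.mem_filter, Finset.mem_singleton]
          exact ⟨fun h => huniq C h, fun h => h ▸ ⟨hB, haB⟩⟩
        rw [this, Finset.card_singleton, pow_one, if_neg ha, mul_one]
    simp_rw [hcount]
    rw [Finset.prod_mul_distrib, Finset.prod_ite_eq' Finset.univ (1 : A)]
    simp
  rw [Finset.prod_eq_one (fun B hB => htriv B hB v), hA1, one_mul] at hsum
  have h1 : orderOf v = 1 := Nat.eq_one_of_dvd_coprimes hk (orderOf_dvd_of_pow_eq_one hsum.symm)
    (orderOf_dvd_natCard v)
  rw [orderOf_eq_one_iff] at h1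
  exact congrArg Subtype.val h1

end Cfsg.Agent.S3733
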