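import Cfsg.Statements.S3734
import Mathlib
import Cfsg.Agent.Lib.CoprimeAction.Abelian
import Cfsg.Agent.Lib.CoprimeAction.Aut

set_option autoImplicit false
open Cfsg

namespace Cfsg.Agent.S3734

open scoped commutatorElement
theorem normalizer_iSup {X : Type*} [Group X] [Finite X] {ι : Type*} {p : ι → Prop} (H : ι → Subgroup X)
    (g : X) (h : ∀ i, p i → g ∈ Subgroup.normalizer (H i : Set X)) :
    g ∈ Subgroup.normalizer ((⨆ i, ⨆ _ : p i, H i : Subgroup X) : Set X) := by
  refine CfsgLib.CoprimeAction.mem_normalizer_of_conj_mem fun x hx => ?_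
  have hle : (⨆ i, ⨆ _ : p i, H i) ≤ (⨆ i, ⨆ _ : p i, H i).comap (MulAut.conj g).toMonoidHom :=
    iSup₂_le fun i hi y hy => le_iSup₂ (f := fun i (_ : p i) => H i) i hi
      (CfsgLib.CoprimeAction.conj_mem (h i hi) hy)
  exact hle hx

theorem normalizer_inf {X : Type*} [Group X] [Finite X] (A G : Subgroup X) [IsMulCommutative A]
    (hAG : A ≤ Subgroup.normalizer (G : Set X)) (B : Subgroup X) (hB : B ≤ A) :
    A ≤ Subgroup.normalizer ((G ⊓ Subgroup.centralizer (B : Set X) : Subgroup X) : Set X) := fun a ha =>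
  CfsgLib.CoprimeAction.mem_normalizer_of_conj_mem fun x hx =>
    ⟨CfsgLib.CoprimeAction.conj_mem (hAG ha) hx.1, by
      have ha' : a ∈ Subgroup.centralizer (B : Set X) := Subgroup.mem_centralizer_iff.mpr fun b hb =>
        congrArg Subtype.val (IsMulCommutative.is_comm.comm (⟨b, hB hb⟩ : A) ⟨a, ha⟩)
      exact Subgroup.mul_mem _ (Subgroup.mul_mem _ ha' hx.2) (Subgroup.inv_mem _ ha')⟩

theorem gen {X : Type*} [Group X] [Finite X] (A G : Subgroup X) [IsMulCommutative A]
    (hAG : A ≤ Subgroup.normalizer (G : Set X)) (hcop : (Nat.card A).Coprime (Nat.card G)) :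
    (⨆ B ∈ {B : Subgroup X | B ≤ A ∧ ∃ a ∈ A, B ⊔ Subgroup.zpowers a = A},
      G ⊓ Subgroup.centralizer (B : Set X)) = G := by
  refine le_antisymm (iSup₂_le fun B _ => inf_le_left) ?_
  induction G using WellFoundedLT.induction with
  | ind G ih =>
    let H : Subgroup X := ⨆ B ∈ {B : Subgroup X | B ≤ A ∧ ∃ a ∈ A, B ⊔ Subgroup.zpowers a = A},
      G ⊓ Subgroup.centralizer (B : Set X)
    show G ≤ H
    let ψ : A →* MulAut G :=
      { toFun := fun a =>
          { toFun := fun g => ⟨a * g * (a : X)⁻¹, CfsgLib.CoprimeAction.conj_mem (hAG a.2) g.2⟩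
            invFun := fun g => ⟨(a : X)⁻¹ * g * a, CfsgLib.CoprimeAction.conj_mem' (hAG a.2) g.2⟩
            left_inv := fun g => Subtype.ext (by simp [mul_assoc])
            right_inv := fun g => Subtype.ext (by simp [mul_assoc])
            map_mul' := fun g h => Subtype.ext (by simp [mul_assoc]) }
        map_one' := MulEquiv.ext fun g => Subtype.ext (by simp)
        map_mul' := fun a b => MulEquiv.ext fun g => Subtype.ext (by
          show (a * b : X) * g * (a * b : X)⁻¹ = a * (b * g * (b : X)⁻¹) * (a : X)⁻¹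
          simp [mul_assoc]) }
    have hψ : ∀ (a : A) (g : G), (ψ a g : X) = a * g * (a : X)⁻¹ := fun _ _ => rfl
    by_cases hc : IsCyclic ψ.range
    · obtain ⟨⟨_, a, rfl⟩, ha⟩ := IsCyclic.exists_generator (α := ψ.range)
      let B : Subgroup X := ψ.ker.map A.subtype
      have hB : B ≤ A ∧ ∃ a' ∈ A, B ⊔ Subgroup.zpowers a' = A := by
        refine ⟨Subgroup.map_subtype_le _, a, a.2, le_antisymm
          (sup_le (Subgroup.map_subtype_le _) (Subgroup.zpowers_le.mpr a.2)) fun x hx => ?_⟩
        obtain ⟨n, hn⟩ := Subgroup.mem_zpowers_iff.mp (ha ⟨ψ ⟨x, hx⟩, _, rfl⟩)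
        have hn' : ψ (a ^ n) = ψ ⟨x, hx⟩ := by rw [map_zpow]; exact congrArg Subtype.val hn
        have hk : (⟨x, hx⟩ : A) * (a ^ n)⁻¹ ∈ ψ.ker := by
          rw [MonoidHom.mem_ker, map_mul, map_inv, hn', mul_inv_cancel]
        have := Subgroup.mul_mem_sup (Subgroup.mem_map_of_mem A.subtype hk)
          (Subgroup.zpow_mem_zpowers (a : X) n)
        simpa using this
      refine le_trans (fun g hg => ?_) (le_iSup₂ (f := fun B (_ : B ∈ {B : Subgroup X | B ≤ A ∧
        ∃ a ∈ A, B ⊔ Subgroup.zpowers a = A}) => G ⊓ Subgroup.centralizer (B : Set X)) B hB)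
      refine ⟨hg, Subgroup.mem_centralizer_iff.mpr ?_⟩
      rintro _ ⟨b, hb, rfl⟩
      have h1 := congrArg (fun e : MulAut G => (e ⟨g, hg⟩ : X)) hb
      exact mul_inv_eq_iff_eq_mul.mp (show (b : X) * g * (b : X)⁻¹ = g from (hψ b _).symm.trans h1)
    let φ : ψ.range →* MulAut G := ψ.range.subtype
    haveI := CfsgLib.CoprimeAction.finite_semidirect φ
    let i : G →* G ⋊[φ] ψ.range := SemidirectProduct.inl
    let j : ψ.range →* G ⋊[φ] ψ.range := SemidirectProduct.inr
    have hcomm : IsMulCommutative j.range := by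
      refine ⟨⟨?_⟩⟩
      rintro ⟨_, ⟨_, a, rfl⟩, rfl⟩ ⟨_, ⟨_, b, rfl⟩, rfl⟩
      refine Subtype.ext ?_
      show j _ * j _ = j _ * j _
      rw [← map_mul, ← map_mul]
      congr 1
      refine Subtype.ext ?_
      show ψ a * ψ b = ψ b * ψ a
      rw [← map_mul, ← map_mul, IsMulCommutative.is_comm.comm a b]
    have hnc : ¬ IsCyclic j.range := fun h => hc (isCyclic_of_surjective
      (MonoidHom.ofInjective (f := j) SemidirectProduct.inr_injective).symm.toMonoidHom (MulEquiv.surjective _))
    have hnorm : j.range ≤ Subgroup.normalizer (i.range : Set (G ⋊[φ] ψ.range)) := by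
      rw [show i.range = (⊤ : Subgroup G).map i from MonoidHom.range_eq_map i]
      exact CfsgLib.CoprimeAction.inr_le_normalizer_map_inl fun a n _ => Subgroup.mem_top _
    have hcop' : (Nat.card j.range).Coprime (Nat.card i.range) := by
      rw [← Nat.card_congr (MonoidHom.ofInjective (f := j) SemidirectProduct.inr_injective).toEquiv,
        ← Nat.card_congr (MonoidHom.ofInjective (f := i) SemidirectProduct.inl_injective).toEquiv]
      exact hcop.coprime_dvd_left (Subgroup.card_range_dvd ψ)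
    have hmain := CfsgLib.CoprimeAction.le_of_centralizers (A := j.range) (K := i.range)
      (H := (H.subgroupOf G).map i) hnc hnorm hcop' ?_
    · intro g hg
      obtain ⟨y, hy, hye⟩ := hmain (show i ⟨g, hg⟩ ∈ i.range from ⟨_, rfl⟩)
      rw [SemidirectProduct.inl_injective hye] at hy
      exact hy
    rintro _ ⟨⟨_, a, rfl⟩, rfl⟩ hne _ ⟨⟨g, rfl⟩, hg⟩
    refine ⟨g, ?_, rfl⟩
    show (g : X) ∈ H
    let C : Subgroup X := G ⊓ Subgroup.centralizer ({(a : X)} : Set X)
    have hgC : (g : X) ∈ C := by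
      refine ⟨g.2, Subgroup.mem_centralizer_singleton_iff.mpr ?_⟩
      have h := Subgroup.mem_centralizer_singleton_iff.mp hg
      have h2 : i (φ ⟨ψ a, a, rfl⟩ g) = i g := by
        show SemidirectProduct.inl _ = _
        rw [SemidirectProduct.inl_aut, map_inv]
        exact mul_inv_eq_iff_eq_mul.mpr h.symm
      have h3 := congrArg (fun x : G => (x : X)) (SemidirectProduct.inl_injective h2)
      exact (mul_inv_eq_iff_eq_mul.mp (show (a : X) * g * (a : X)⁻¹ = g from h3)).symm
    have hClt : C < G := by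
      refine lt_of_le_not_ge inf_le_left fun h => hne ?_
      have h1 : ψ a = 1 := MulEquiv.ext fun x => Subtype.ext <| by
        show (a : X) * x * (a : X)⁻¹ = x
        rw [← Subgroup.mem_centralizer_singleton_iff.mp (h x.2).2, mul_inv_cancel_right]
      show j _ = 1
      rw [← map_one j]
      exact congrArg j (Subtype.ext h1)
    have hCA : A ≤ Subgroup.normalizer (C : Set X) := by
      have := normalizer_inf A G hAG (Subgroup.zpowers (a : X)) (Subgroup.zpowers_le.mpr a.2)
      rw [Subgroup.zpowers_eq_closure, Subgroup.centralizer_closure] at this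
      exact this
    refine (ih C hClt hCA (hcop.coprime_dvd_right (Subgroup.card_dvd_of_le hClt.le))).trans ?_ hgC
    exact iSup₂_mono fun B _ => inf_le_inf_right _ hClt.le

/-- Let A and G be subgroups of a finite group with A abelian, A normalizing G and the orders of A and G coprime. Then G is generated by the fixed-point subgroups C_G(B) of those subgroups B of A for which A/B is cyclic (that is, A = ⟨B, a⟩ for some a), and [G, A] is generated by the commutator subgroups [C_G(B), A] over the same subgroups B. -/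
theorem result {X : Type*} [Group X] [Finite X] (A G : Subgroup X) (hAab : IsMulCommutative A) (hAG : A ≤ Subgroup.normalizer (G : Set X)) (hcop : (Nat.card A).Coprime (Nat.card G)) : (⨆ B ∈ {B : Subgroup X | B ≤ A ∧ ∃ a ∈ A, B ⊔ Subgroup.zpowers a = A}, G ⊓ Subgroup.centralizer (B : Set X)) = G ∧ (⨆ B ∈ {B : Subgroup X | B ≤ A ∧ ∃ a ∈ A, B ⊔ Subgroup.zpowers a = A}, ⁅G ⊓ Subgroup.centralizer (B : Set X), A⁆) = ⁅G, A⁆ := by
  haveI := hAab
  refine ⟨gen A G hAG hcop, le_antisymm (iSup₂_le fun B _ => Subgroup.commutator_mono inf_le_left le_rfl) ?_⟩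
  let 𝓑 := {B : Subgroup X | B ≤ A ∧ ∃ a ∈ A, B ⊔ Subgroup.zpowers a = A}
  let D : Subgroup X := ⨆ B ∈ 𝓑, ⁅G ⊓ Subgroup.centralizer (B : Set X), A⁆
  have hsA : Group.IsSolvable A := CfsgLib.CoprimeAction.isSolvable_of_isMulCommutative A
  let K : Subgroup X := ⁅G, A⁆
  have hKG : K ≤ G := CfsgLib.CoprimeAction.commutator_le_left hAG
  have hAK : A ≤ Subgroup.normalizer (K : Set X) :=
    le_sup_right.trans (CfsgLib.CoprimeAction.sup_le_normalizer_commutator A G)
  have hcopK : (Nat.card A).Coprime (Nat.card K) := hcop.coprime_dvd_right (Subgroup.card_dvd_of_le hKG)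
  have hAC : ∀ B ∈ 𝓑, A ≤ Subgroup.normalizer ((G ⊓ Subgroup.centralizer (B : Set X) : Subgroup X) : Set X) :=
    fun B hB => normalizer_inf A G hAG B hB.1
  have hDA : A ≤ Subgroup.normalizer (D : Set X) := by
    intro a ha
    exact normalizer_iSup _ _ fun B hB =>
      (le_sup_right.trans (CfsgLib.CoprimeAction.sup_le_normalizer_commutator A _)) ha
  let C : Subgroup X := G ⊓ Subgroup.centralizer (A : Set X)
  have hCD : C ≤ Subgroup.normalizer (D : Set X) := by
    intro c hc
    refine normalizer_iSup _ _ fun B hB => ?_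
    refine le_sup_left.trans (CfsgLib.CoprimeAction.sup_le_normalizer_commutator A _) ?_
    exact ⟨hc.1, CfsgLib.CoprimeAction.centralizer_mono hB.1 hc.2⟩
  have hKgen : K ≤ D ⊔ (K ⊓ C) := by
    conv_lhs => rw [← gen A K hAK hcopK]
    refine iSup₂_le fun B hB => ?_
    have h := CfsgLib.CoprimeAction.commutator_sup_centralizer (A := A)
      (normalizer_inf A K hAK B hB.1)
      (hcopK.coprime_dvd_right (Subgroup.card_dvd_of_le inf_le_left)) (Or.inl hsA)
    rw [← h]
    refine sup_le ((Subgroup.commutator_mono (inf_le_inf_right _ hKG) le_rfl).trans ?_ |>.trans le_sup_left)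
      (le_trans ?_ le_sup_right)
    · exact le_iSup₂ (f := fun B (_ : B ∈ 𝓑) => ⁅G ⊓ Subgroup.centralizer (B : Set X), A⁆) B hB
    · exact fun x hx => ⟨hx.1.1, hKG hx.1.1, hx.2⟩
  calc K = ⁅K, A⁆ := (CfsgLib.CoprimeAction.commutator_commutator_eq hAG hcop (Or.inl hsA)).symm
    _ ≤ D := by
      refine Subgroup.commutator_le.mpr fun k hk a ha => ?_
      have h := hKgen hk
      rw [← SetLike.mem_coe,
        Subgroup.coe_mul_of_right_le_normalizer_left D (K ⊓ C) (inf_le_right.trans hCD)] at h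
      obtain ⟨d, hd, c, hc, hdc⟩ := h
      have hca : a * c = c * a := Subgroup.mem_centralizer_iff.mp hc.2.2 a ha
      have : ⁅k, a⁆ = d * (a * d⁻¹ * a⁻¹) := by
        rw [← hdc, commutatorElement_def, mul_assoc d c a, ← hca]
        simp [mul_assoc]
      rw [this]
      exact D.mul_mem hd (CfsgLib.CoprimeAction.conj_mem (hDA ha) (D.inv_mem hd))

end Cfsg.Agent.S3734
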