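import Cfsg.Statements.S3735

set_option autoImplicit false
open Cfsg

namespace Cfsg.Agent.S3735

theorem normalizer_map_conj {G : Type*} [Group G] {M : Subgroup G} {A : Subgroup G} {g : G}
    (hA : A ≤ Subgroup.normalizer (M : Set G)) (hg : g ∈ Subgroup.normalizer (A : Set G)) :
    A ≤ Subgroup.normalizer ((M.map (MulAut.conj g).toMonoidHom : Subgroup G) : Set G) := by
  intro a ha
  rw [Subgroup.mem_normalizer_iff_map_conj_eq, Subgroup.map_map]
  have h' : g⁻¹ * a * g ∈ A := by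
    have := (Subgroup.mem_normalizer_iff.mp (inv_mem hg) a).mp ha
    simpa using this
  have hc := Subgroup.mem_normalizer_iff_map_conj_eq.mp (hA h')
  conv_rhs => rw [← hc, Subgroup.map_map]
  congr 1
  ext x
  simp [mul_assoc]

theorem mem_normalizer_sup {G : Type*} [Group G] {P Q : Subgroup G} {g : G}
    (hP : g ∈ Subgroup.normalizer (P : Set G)) (hQ : g ∈ Subgroup.normalizer (Q : Set G)) :
    g ∈ Subgroup.normalizer ((P ⊔ Q : Subgroup G) : Set G) := by
  rw [Subgroup.mem_normalizer_iff_map_conj_eq] at hP hQ ⊢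
  erw [Subgroup.map_sup, hP, hQ]

theorem mem_normalizer_inf {G : Type*} [Group G] {P Q : Subgroup G} {g : G}
    (hP : g ∈ Subgroup.normalizer (P : Set G)) (hQ : g ∈ Subgroup.normalizer (Q : Set G)) :
    g ∈ Subgroup.normalizer ((P ⊓ Q : Subgroup G) : Set G) := by
  rw [Subgroup.mem_normalizer_iff] at hP hQ ⊢
  intro x
  exact and_congr (hP x) (hQ x)

/-- Clifford's Theorem for actions on finite abelian groups, first part. Let H and V be subgroups of a finite group with V abelian and H normalizing V, and let A be a normal subgroup of H. If every H-invariant subgroup of V has an H-invariant complement in V, then every A-invariant subgroup of V has an A-invariant complement in V. -/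
theorem result {G : Type*} [Group G] [Finite G] (H A V : Subgroup G) (hVab : IsMulCommutative V) (hHV : H ≤ Subgroup.normalizer (V : Set G)) (hAH : A ≤ H) (hAn : H ≤ Subgroup.normalizer (A : Set G)) (hss : ∀ U : Subgroup G, U ≤ V → H ≤ Subgroup.normalizer (U : Set G) → ∃ W : Subgroup G, W ≤ V ∧ H ≤ Subgroup.normalizer (W : Set G) ∧ U ⊓ W = ⊥ ∧ U ⊔ W = V) (U : Subgroup G) (hUV : U ≤ V) (hAU : A ≤ Subgroup.normalizer (U : Set G)) : ∃ W : Subgroup G, W ≤ V ∧ A ≤ Subgroup.normalizer (W : Set G) ∧ U ⊓ W = ⊥ ∧ U ⊔ W = V := by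
  classical
  -- the minimal `A`-invariant subgroups of `V`
  let Mins : Set (Subgroup G) := {M | Minimal
    (fun M : Subgroup G => M ≤ V ∧ M ≠ ⊥ ∧ A ≤ Subgroup.normalizer (M : Set G)) M}
  have hex : ∀ R : Subgroup G, R ≤ V → R ≠ ⊥ → A ≤ Subgroup.normalizer (R : Set G) →
      ∃ M ∈ Mins, M ≤ R := by
    intro R h1 h2 h3
    obtain ⟨M, hMR, hM⟩ := exists_minimal_le_of_wellFoundedLT
      (fun M : Subgroup G => M ≤ V ∧ M ≠ ⊥ ∧ A ≤ Subgroup.normalizer (M : Set G)) R ⟨h1, h2, h3⟩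
    exact ⟨M, hM, hMR⟩
  have hconj : ∀ h ∈ H, ∀ M ∈ Mins, M.map (MulAut.conj h).toMonoidHom ∈ Mins := by
    have h0 : ∀ h ∈ H, ∀ M : Subgroup G, M ≤ V ∧ M ≠ ⊥ ∧ A ≤ Subgroup.normalizer (M : Set G) →
        M.map (MulAut.conj h).toMonoidHom ≤ V ∧ M.map (MulAut.conj h).toMonoidHom ≠ ⊥ ∧
        A ≤ Subgroup.normalizer ((M.map (MulAut.conj h).toMonoidHom : Subgroup G) : Set G) := by
      intro h hh M hM
      refine ⟨?_, ?_, normalizer_map_conj hM.2.2 (hAn hh)⟩
      · rintro _ ⟨x, hx, rfl⟩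
        exact (Subgroup.mem_normalizer_iff.mp (hHV hh) x).mp (hM.1 hx)
      · rw [Ne, Subgroup.map_eq_bot_iff_of_injective _ (MulAut.conj h).injective]
        exact hM.2.1
    intro h hh M hM
    refine ⟨h0 h hh M hM.1, fun N hN hle => ?_⟩
    have h1 := h0 h⁻¹ (H.inv_mem hh) N hN
    have h2 : N.map (MulAut.conj h⁻¹).toMonoidHom ≤ M := by
      rintro _ ⟨x, hx, rfl⟩
      obtain ⟨y, hy, hxy⟩ := hle hx
      simp only [MulEquiv.coe_toMonoidHom, MulAut.conj_apply] at hxy ⊢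
      rw [← hxy]
      simpa [mul_assoc] using hy
    have h3 := hM.2 h1 h2
    rintro _ ⟨y, hy, rfl⟩
    obtain ⟨x, hx, rfl⟩ := h3 hy
    simpa [mul_assoc] using hx
  set S : Subgroup G := sSup Mins with hS
  have hSV : S ≤ V := sSup_le fun M hM => hM.1.1
  have hHS : H ≤ Subgroup.normalizer (S : Set G) := by
    intro h hh
    rw [Subgroup.mem_normalizer_iff_map_conj_eq]
    apply le_antisymm
    · rw [hS, (Subgroup.gc_map_comap _).l_sSup]
      exact iSup₂_le fun M hM => le_sSup (hconj h hh M hM)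
    · rw [hS]
      refine sSup_le fun M hM => ?_
      intro x hx
      refine ⟨h⁻¹ * x * h, le_sSup (hconj h⁻¹ (H.inv_mem hh) M hM) ⟨x, hx, by simp⟩, ?_⟩
      simp [mul_assoc]
  have hSeq : S = V := by
    obtain ⟨T, hTV, hTn, hST, hsup⟩ := hss S hSV hHS
    by_cases hT : T = ⊥
    · rwa [hT, sup_bot_eq] at hsup
    · obtain ⟨M, hM, hMT⟩ := hex T hTV hT (hAH.trans hTn)
      have : M ≤ S ⊓ T := le_inf (le_sSup hM) hMT
      rw [hST, le_bot_iff] at this
      exact absurd this hM.1.2.1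
  obtain ⟨W, hW⟩ := Set.Finite.exists_maximal (s := {W : Subgroup G | W ≤ V ∧
      A ≤ Subgroup.normalizer (W : Set G) ∧ U ⊓ W = ⊥}) (Set.toFinite _)
    ⟨⊥, bot_le, fun a _ => Subgroup.mem_normalizer_iff.mpr fun x => by simp, by simp⟩
  obtain ⟨hWV, hWA, hUW⟩ := hW.1
  refine ⟨W, hWV, hWA, hUW, le_antisymm (sup_le hUV hWV) ?_⟩
  rw [← hSeq]
  refine sSup_le fun M hM => ?_
  by_contra hnot
  have hcap : M ⊓ (U ⊔ W) = ⊥ := by
    by_contra hne
    have h1 : A ≤ Subgroup.normalizer ((M ⊓ (U ⊔ W) : Subgroup G) : Set G) := fun a ha =>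
      mem_normalizer_inf (hM.1.2.2 ha) (mem_normalizer_sup (hAU ha) (hWA ha))
    exact hnot ((hM.2 ⟨inf_le_left.trans hM.1.1, hne, h1⟩ inf_le_left).trans inf_le_right)
  have hMV := hM.1.1
  have hMW : M ≤ Subgroup.normalizer (W : Set G) :=
    le_trans (fun m hm => Subgroup.mem_centralizer_iff.mpr fun w hw =>
      congrArg Subtype.val (hVab.is_comm.comm ⟨w, hWV hw⟩ ⟨m, hMV hm⟩))
      (Subgroup.centralizer_le_normalizer (W : Set G))
  have hbig : U ⊓ (W ⊔ M) = ⊥ := by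
    rw [eq_bot_iff]
    rintro x ⟨hxU, hx⟩
    have hx' : x ∈ ((M ⊔ W : Subgroup G) : Set G) := by rwa [sup_comm]
    rw [Subgroup.coe_mul_of_left_le_normalizer_right M W hMW] at hx'
    clear hx
    rename' hx' => hx
    obtain ⟨m, hm, w, hw, rfl⟩ := hx
    have h1 : m ∈ M ⊓ (U ⊔ W) := ⟨hm, by
      have : m = (m * w) * w⁻¹ := by group
      rw [this]
      exact Subgroup.mul_mem _ (Subgroup.mem_sup_left hxU) (Subgroup.mem_sup_right (W.inv_mem hw))⟩
    rw [hcap, Subgroup.mem_bot] at h1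
    subst h1
    have h2 : w ∈ U ⊓ W := ⟨by simpa using hxU, hw⟩
    rw [hUW, Subgroup.mem_bot] at h2
    simp [h2]
  have hWM : W ⊔ M ≤ W := hW.2 ⟨sup_le hWV hMV,
    fun a ha => mem_normalizer_sup (hWA ha) (hM.1.2.2 ha), hbig⟩ le_sup_left
  exact hnot ((le_sup_right.trans hWM).trans le_sup_right)

end Cfsg.Agent.S3735
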