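import Cfsg.Statements.S3738
import Cfsg.Agent.Lib.Zsigmondy.RankTwoAction

set_option autoImplicit false
open Cfsg

namespace Cfsg.Agent.S3738

theorem rank_bound {X : Type*} [Group X] [Finite X] {P R : Subgroup X} (hRP : R ≤ P)
    (hrank : ∀ V : Subgroup X, V ≤ P → IsMulCommutative V → Cfsg.PRankLE 2 2 V)
    (V : Subgroup R) (hV : Cfsg.IsElementaryAbelian 2 V) : Nat.card V ≤ 4 := by
  have hc := hV.1
  have h : IsMulCommutative ↥(V.map R.subtype) := Subgroup.map_isMulCommutative V _
  have h2 := hrank (V.map R.subtype) ((Subgroup.map_subtype_le V).trans hRP) h ⊤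
    (isMulCommutative_iff.mpr fun a b => Subtype.ext (h.is_comm.comm (a : ↥(V.map R.subtype)) (b : ↥(V.map R.subtype))))
    fun a _ => by
      obtain ⟨a, v, hv, rfl⟩ := a
      exact Subtype.ext (show R.subtype v ^ 2 = 1 by rw [← map_pow, hV.2 v hv, map_one])
  rw [Subgroup.card_top, Subgroup.card_subtype] at h2
  exact h2

/-- Let d be a non-identity 3-element of a finite group and P a 2-subgroup normalized by d on which ⟨d⟩ acts faithfully (no non-identity power of d centralizes P) and without non-identity fixed points (C_P(d) = 1). If every abelian subgroup of P has 2-rank at most 2, then d has order 3. -/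
theorem result {X : Type*} [Group X] [Finite X] (d : X) (n : ℕ) (hn : 1 ≤ n) (hd : orderOf d = 3 ^ n) (P : Subgroup X) (hP : IsPGroup 2 P) (hdP : d ∈ Subgroup.normalizer (P : Set X)) (hfaith : Subgroup.zpowers d ⊓ Subgroup.centralizer (P : Set X) = ⊥) (hfpf : P ⊓ Subgroup.centralizer {d} = ⊥) (hrank : ∀ V : Subgroup X, V ≤ P → IsMulCommutative V → Cfsg.PRankLE 2 2 V) : orderOf d = 3 := by
  classical
  obtain ⟨m, rfl⟩ : ∃ m, n = m + 1 := ⟨n - 1, by omega⟩
  by_contra hne
  have hm : 1 ≤ m := by
    by_contra h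
    have : m = 0 := by omega
    subst this
    exact hne (by simpa using hd)
  set e := d ^ 3 ^ m with he
  have hord : orderOf e = 3 := by
    rw [he, orderOf_pow' d (pow_ne_zero _ (by norm_num)), hd,
      Nat.gcd_eq_right (pow_dvd_pow 3 (by omega)), pow_succ]
    simp
  set A := Subgroup.zpowers e
  set B := Subgroup.zpowers d
  have hAB : A ≤ B := Subgroup.zpowers_le.mpr (Subgroup.pow_mem _ (Subgroup.mem_zpowers d) _)
  have hBA : B ≤ Subgroup.normalizer (A : Set X) := Subgroup.zpowers_le.mpr (by
    rw [Subgroup.mem_normalizer_iff]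
    intro x
    have hc : Commute d e := Commute.self_pow d _
    constructor <;> intro hx <;> obtain ⟨i, hi⟩ := Subgroup.mem_zpowers_iff.mp hx <;>
      refine Subgroup.mem_zpowers_iff.mpr ⟨i, ?_⟩
    · rw [← hi, (hc.zpow_right i).eq, mul_inv_cancel_right]
    · have : x = d⁻¹ * (d * x * d⁻¹) * d := by group
      rw [this, ← hi, ← (hc.zpow_right i).inv_left.eq.symm, mul_assoc, inv_mul_cancel, mul_one])
  have hBP : B ≤ Subgroup.normalizer (P : Set X) := Subgroup.zpowers_le.mpr hdP
  have hA2 : (Nat.card A).Coprime 2 := by rw [Nat.card_zpowers, hord]; norm_num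
  have hPA : ⁅P, A⁆ ≠ ⊥ := by
    intro h
    have h' : A ≤ Subgroup.centralizer (P : Set X) :=
      Subgroup.commutator_eq_bot_iff_le_centralizer.mp (by rwa [Subgroup.commutator_comm])
    have : e ∈ Subgroup.zpowers d ⊓ Subgroup.centralizer (P : Set X) :=
      ⟨hAB (Subgroup.mem_zpowers e), h' (Subgroup.mem_zpowers e)⟩
    rw [hfaith, Subgroup.mem_bot] at this
    rw [this, orderOf_one] at hord
    norm_num at hord
  obtain ⟨U, hUP, hU⟩ := exists_minimal_le_of_wellFoundedLT
    (fun U : Subgroup X => U ≤ P ∧ B ≤ Subgroup.normalizer (U : Set X) ∧ ⁅U, A⁆ ≠ ⊥) P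
    ⟨le_rfl, hBP, hPA⟩
  obtain ⟨-, hBU, hUA⟩ := hU.1
  have hUp : IsPGroup 2 U := hP.to_le hUP
  obtain ⟨hUeq, hstruct, -, -⟩ := CfsgLib.MinimalAction.minimal_action B A U hUp hBU hAB hBA hA2 hUA
    fun W hW hBW => by
      by_contra h
      exact hW.not_ge (hU.2 ⟨hW.le.trans hUP, hBW, h⟩ hW.le)
  have hcop : (Nat.card A).Coprime (Nat.card U) := by
    obtain ⟨k, hk⟩ := IsPGroup.iff_card.mp hUp
    exact hk ▸ hA2.pow_right k
  have hfix := CfsgLib.MinimalAction.inf_centralizer_le_commutator (hAB.trans hBU) hcop hUeq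
  -- the free action of `⟨d⟩` outside a subgroup containing the derived group
  have hfree : ∀ C : Subgroup U, ⁅U, U⁆ ≤ C.map U.subtype →
      B ≤ Subgroup.normalizer ((C.map U.subtype : Subgroup X) : Set X) →
      3 ^ (m + 1) ∣ Nat.card {x : U // x ∉ C} := by
    intro C hDC hBC
    let _ : MulAction B {x : U // x ∉ C} :=
      { smul := fun b x => ⟨⟨(b : X) * x.1 * (b : X)⁻¹,
            (Subgroup.mem_normalizer_iff.mp (hBU b.2) _).mp x.1.2⟩, fun h => x.2 (by
          have h' : ((b : X) * x.1 * (b : X)⁻¹) ∈ C.map U.subtype := ⟨_, h, rfl⟩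
          obtain ⟨y, hy, hyx⟩ := (Subgroup.mem_normalizer_iff.mp (hBC b.2) _).mpr h'
          rwa [← show y = x.1 from Subtype.ext hyx])⟩
        one_smul := fun x => Subtype.ext (Subtype.ext (by
          show (1 : X) * x.1 * (1 : X)⁻¹ = x.1
          group))
        mul_smul := fun a b x => Subtype.ext (Subtype.ext (by
          show ((a : X) * b) * x.1 * ((a : X) * b)⁻¹ = a * ((b : X) * x.1 * (b : X)⁻¹) * (a : X)⁻¹
          group)) }
    have hst : ∀ x : {x : U // x ∉ C}, MulAction.stabilizer B x = ⊥ := by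
      intro x
      rw [eq_bot_iff]
      intro b hb
      rw [Subgroup.mem_bot]
      by_contra hb1
      have hbx : (b : X) * x.1 = x.1 * b := by
        have h : ((b : X) * x.1 * (b : X)⁻¹) = x.1 :=
          congrArg (fun y : {x : U // x ∉ C} => ((y.1 : U) : X)) hb
        exact mul_inv_eq_iff_eq_mul.mp h
      -- a nontrivial subgroup of `⟨d⟩` contains `e`
      have hmem : e ∈ Subgroup.zpowers (b : X) := by
        obtain ⟨j, hjle, hj⟩ := (Nat.dvd_prime_pow Nat.prime_three).mp (show orderOf (b : X) ∣ 3 ^ (m + 1) by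
          rw [← hd, ← Nat.card_zpowers d]; exact Subgroup.orderOf_dvd_natCard B b.2)
        obtain ⟨j, rfl⟩ : ∃ l, j = l + 1 := ⟨j - 1, by
          rcases j with _ | j
          · exact absurd (orderOf_eq_one_iff.mp (by simpa using hj)) fun hh => hb1 (Subtype.ext hh)
          · rfl⟩
        set f := (b : X) ^ 3 ^ j with hf
        have hf3 : f ^ 3 = 1 := by rw [hf, ← pow_mul, ← pow_succ, ← hj, pow_orderOf_eq_one]
        have hf1 : f ≠ 1 := fun hh => by
          have := orderOf_dvd_of_pow_eq_one hh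
          rw [hj] at this
          have := Nat.le_of_dvd (pow_pos (by norm_num) _) this
          exact absurd this (not_le.mpr (Nat.pow_lt_pow_right (by norm_num) (by omega)))
        obtain ⟨i, hi⟩ := Subgroup.mem_zpowers_iff.mp (B.pow_mem b.2 (3 ^ j))
        rw [← hf] at hi
        have hfA : f ∈ A := by
          have h3i : (orderOf d : ℤ) ∣ i * 3 := by
            rw [orderOf_dvd_iff_zpow_eq_one, zpow_mul, hi]
            exact_mod_cast hf3
          rw [hd, pow_succ] at h3i
          push_cast at h3i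
          obtain ⟨k, hk⟩ : (3 : ℤ) ^ m ∣ i := (mul_dvd_mul_iff_right (by norm_num)).mp h3i
          refine Subgroup.mem_zpowers_iff.mpr ⟨k, ?_⟩
          rw [← hi, hk, zpow_mul, he, ← zpow_natCast]
          norm_num
        have : Fact (Nat.Prime 3) := ⟨Nat.prime_three⟩
        obtain ⟨l, hl⟩ := Subgroup.mem_zpowers_iff.mp (mem_zpowers_of_prime_card
          (g := (⟨f, hfA⟩ : A)) (g' := (⟨e, Subgroup.mem_zpowers e⟩ : A))
          (by rw [Nat.card_zpowers, hord]) (fun hh => hf1 (congrArg Subtype.val hh)))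
        have hle : f ∈ Subgroup.zpowers (b : X) := Subgroup.pow_mem _ (Subgroup.mem_zpowers _) _
        have hle' : f ^ l = e := congrArg Subtype.val hl
        exact hle' ▸ Subgroup.zpow_mem _ hle l
      have hxA : (x.1 : X) ∈ U ⊓ Subgroup.centralizer (A : Set X) := by
        refine ⟨x.1.2, Subgroup.mem_centralizer_iff.mpr fun a ha => ?_⟩
        obtain ⟨k, rfl⟩ := Subgroup.mem_zpowers_iff.mp ha
        obtain ⟨l, hl⟩ := Subgroup.mem_zpowers_iff.mp hmem
        have hc : Commute (b : X) (x.1 : X) := hbx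
        rw [← hl]
        exact ((hc.zpow_left l).zpow_left k).eq
      obtain ⟨y, hy, hyx⟩ := hDC (hfix hxA)
      exact x.2 (by rwa [← show y = x.1 from Subtype.ext hyx])
    rw [← hd, ← Nat.card_zpowers]
    exact ⟨Nat.card (Quotient (MulAction.orbitRel B {x : U // x ∉ C})),
      by rw [Nat.card_congr (MulAction.selfEquivOrbitsQuotientProd hst), Nat.card_prod, mul_comm]⟩
  have h9 : 9 ∣ 3 ^ (m + 1) := pow_dvd_pow (3 : ℕ) (show 2 ≤ m + 1 by omega)
  have hne1 : U ≠ ⊥ := fun h => hUA (by rw [h, Subgroup.commutator_bot_left])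
  rcases hstruct with hel | hsp
  · -- elementary abelian: at most four elements
    have h4 : Nat.card U ≤ 4 := by
      have := hrank U hUP hel.1 ⊤ (isMulCommutative_iff.mpr fun a b =>
        Subtype.ext (hel.1.is_comm.comm (a : U) (b : U))) fun a _ => Subtype.ext (hel.2 a a.2)
      rwa [Subgroup.card_top] at this
    have hbot : (⁅U, U⁆ : Subgroup X) = ⊥ :=
      (Subgroup.commutator_self_eq_bot_iff (H := U)).mpr hel.1
    have h := h9.trans (hfree ⊥ (by rw [hbot]; exact bot_le) (by
      rw [Subgroup.map_bot, Subgroup.normalizer_eq_top]; exact le_top))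
    rw [CfsgLib.MinimalAction.card_not_mem, Subgroup.card_bot, one_mul, Subgroup.index_bot] at h
    have h1 : 1 < Nat.card U := (Subgroup.one_lt_card_iff_ne_bot U).mpr hne1
    have := Nat.le_of_dvd (by omega) h
    omega
  · set Z := (Subgroup.center U).map U.subtype with hZ
    have hZU : Z ≤ U := Subgroup.map_subtype_le _
    have hBZ : B ≤ Subgroup.normalizer (Z : Set X) :=
      hBU.trans (CfsgLib.Cores.normalizer_le_normalizer_map_subtype U _)
    have : Group.IsNilpotent U := hUp.isNilpotent
    have : Nontrivial U := (Subgroup.nontrivial_iff_ne_bot U).mpr hne1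
    have htop : Subgroup.center U ≠ ⊤ := fun h => hUA (by
      apply le_bot_iff.mp
      have hZtop : frattini U = ⊤ := by rw [hsp.2.1, h]
      have hbt : (⊥ : Subgroup U) = ⊤ := frattini_nongenerating (by rw [hZtop, sup_top_eq])
      exact absurd (congrArg Nat.card (congrArg (fun S : Subgroup U => ↥S) hbt)) (by
        rw [Subgroup.card_bot, Subgroup.card_top]; exact Finite.one_lt_card.ne))
    have hC4 : Nat.card (Subgroup.center U) = 4 := by
      have hle := rank_bound hUP hrank _ (CfsgLib.PGroups.IsSpecial.center_elementary hsp)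
      obtain ⟨k, hk⟩ := IsPGroup.iff_card.mp (hUp.to_subgroup (Subgroup.center U))
      have h0 : Nat.card (Subgroup.center U) ≠ 1 := fun h =>
        (Subgroup.nontrivial_iff_ne_bot _).mp hUp.center_nontrivial
          (Subgroup.eq_bot_of_card_eq _ h)
      have h2 : Nat.card (Subgroup.center U) ≠ 2 := by
        intro h
        rw [← Subgroup.card_subtype, ← hZ] at h
        obtain ⟨z, hz, hz1⟩ : ∃ z ∈ Z, z ≠ 1 := by
          by_contra hh
          push Not at hh
          rw [(Subgroup.eq_bot_iff_forall Z).mpr hh, Subgroup.card_bot] at h; omega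
        have huniq : ∀ y ∈ Z, y ≠ 1 → y = z := by
          intro y hy hy1
          obtain ⟨w, hw, hwuniq⟩ := (Nat.card_eq_two_iff' (⟨1, Z.one_mem⟩ : Z)).mp h
          have := (hwuniq ⟨y, hy⟩ (fun hh => hy1 (congrArg Subtype.val hh))).trans
            (hwuniq ⟨z, hz⟩ (fun hh => hz1 (congrArg Subtype.val hh))).symm
          exact congrArg Subtype.val this
        have hdz := huniq (d * z * d⁻¹)
          ((Subgroup.mem_normalizer_iff.mp (hBZ (Subgroup.mem_zpowers d)) z).mp hz)
          (fun hh => hz1 (conj_eq_one_iff.mp hh))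
        have hzf : z ∈ P ⊓ Subgroup.centralizer {d} :=
          ⟨hUP (hZU hz), Subgroup.mem_centralizer_singleton_iff.mpr (mul_inv_eq_iff_eq_mul.mp hdz).symm⟩
        rw [hfpf, Subgroup.mem_bot] at hzf
        exact hz1 hzf
      rw [hk] at hle h0 h2 ⊢
      rcases k with _ | _ | _ | k
      · simp at h0
      · simp at h2
      · rfl
      · exfalso
        simp only [pow_succ] at hle
        have : 0 < 2 ^ k := pow_pos (by norm_num) k
        omega
    refine CfsgLib.MinimalAction.false_of_special hsp hC4 htop ?_ (rank_bound hUP hrank)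
    have hDZ : ⁅U, U⁆ ≤ Z := by
      rw [hZ, ← hsp.2.2, Subgroup.map_subtype_commutator]
    have h := h9.trans (hfree (Subgroup.center U) hDZ hBZ)
    rw [CfsgLib.MinimalAction.card_not_mem, hC4] at h
    exact (show Nat.Coprime 9 4 by norm_num).dvd_of_dvd_mul_left h

end Cfsg.Agent.S3738
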