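import Cfsg.Statements.S3739
import Cfsg.Agent.Lib.Zsigmondy.RankTwoAction
import Cfsg.Agent.Lib.Cores.PCore
import Cfsg.Agent.Lib.TwoGroups.NormalAbelian
import Cfsg.Agent.Lib.ThompsonJ.ElemAbelian

set_option autoImplicit false
open Cfsg

namespace Cfsg.Agent.S3739

theorem fix_of_card_two {G : Type*} [Group G] {T : Subgroup G} (hT : Nat.card T = 2) {g : G}
    (hg : g ∈ Subgroup.normalizer (T : Set G)) {x : G} (hx : x ∈ T) : g * x * g⁻¹ = x := by
  by_cases h1 : x = 1
  · simp [h1]
  obtain ⟨w, hw, hu⟩ := (Nat.card_eq_two_iff' (⟨1, T.one_mem⟩ : T)).mp hT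
  have a := hu ⟨x, hx⟩ fun hh => h1 (congrArg Subtype.val hh)
  have b := hu ⟨g * x * g⁻¹, (Subgroup.mem_normalizer_iff.mp hg x).mp hx⟩
    fun hh => h1 (conj_eq_one_iff.mp (congrArg Subtype.val hh))
  exact congrArg Subtype.val (b.trans a.symm)

/-- An element of order dividing three fixing an involution of a four-group centralizes it. -/
theorem centralizes_four {G : Type*} [Group G] [Finite G] {W : Subgroup G}
    (hW : Cfsg.IsElementaryAbelian 2 W) (h4 : Nat.card W = 4) {s : G} (hs : s ^ 3 = 1)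
    (hn : s ∈ Subgroup.normalizer (W : Set G)) {w : G} (hw : w ∈ W) (hw1 : w ≠ 1)
    (hfix : s * w * s⁻¹ = w) {x : G} (hx : x ∈ W) : s * x * s⁻¹ = x := by
  classical
  by_cases hx1 : x = 1
  · simp [hx1]
  by_cases hxw : x = w
  · rw [hxw, hfix]
  have hsq : w * w = 1 := by rw [← pow_two]; exact hW.2 w hw
  have hall : ∀ y ∈ W, y = 1 ∨ y = w ∨ y = x ∨ y = w * x := by
    intro y hy
    by_contra h
    push Not at h
    obtain ⟨h1, h2, h3, h4'⟩ := h
    have h5 : w * x ≠ 1 := fun h => hxw (by rw [← one_mul x, ← hsq, mul_assoc, h, mul_one])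
    have h6 : w * x ≠ w := by simpa using hx1
    have h7 : w * x ≠ x := by simpa using hw1
    let s5 : Finset G := {1, w, x, w * x, y}
    have hc : s5.card = 5 := by
      simp only [s5, Finset.card_insert_of_notMem, Finset.mem_insert, Finset.mem_singleton,
        Finset.card_singleton, not_or, Ne.symm hw1, Ne.symm hx1, Ne.symm h5, Ne.symm h1,
        Ne.symm hxw, Ne.symm h6, Ne.symm h2, Ne.symm h7, Ne.symm h3, Ne.symm h4', not_false_iff,
        and_self]
    have hle : Nat.card s5 ≤ Nat.card W := Nat.card_le_card_of_injective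
      (fun z : s5 => (⟨z.1, by
        have hz := z.2
        simp only [s5, Finset.mem_insert, Finset.mem_singleton] at hz
        rcases hz with h | h | h | h | h <;> rw [h]
        · exact W.one_mem
        · exact hw
        · exact hx
        · exact W.mul_mem hw hx
        · exact hy⟩ : W)) fun a b hab => Subtype.ext (congrArg Subtype.val hab : _)
    rw [Nat.card_eq_fintype_card, Fintype.card_coe, hc, h4] at hle
    omega
  have hy := (Subgroup.mem_normalizer_iff.mp hn x).mp hx
  rcases hall _ hy with h | h | h | h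
  · exact absurd (conj_eq_one_iff.mp h) hx1
  · exfalso
    apply hxw
    calc x = s⁻¹ * (s * x * s⁻¹) * s := by group
      _ = s⁻¹ * (s * w * s⁻¹) * s := by rw [h, hfix]
      _ = w := by group
  · exact h
  · exfalso
    have h2 : s * (w * x) * s⁻¹ = x := by
      calc s * (w * x) * s⁻¹ = (s * w * s⁻¹) * (s * x * s⁻¹) := by group
        _ = x := by rw [hfix, h, ← mul_assoc, hsq, one_mul]
    have h3 : s ^ 3 * x * (s ^ 3)⁻¹ = w * x := by
      calc s ^ 3 * x * (s ^ 3)⁻¹ = s * (s * (s * x * s⁻¹) * s⁻¹) * s⁻¹ := by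
            simp only [pow_succ, pow_zero, one_mul, mul_inv_rev, mul_assoc]
        _ = w * x := by rw [h, h2, h]
    rw [hs] at h3
    simp at h3
    exact hw1 (by simpa using h3)

/-- Let G be a finite group with C_G(O₂(G)) ≤ O₂(G) containing an element of order 6, and let d be a non-identity 3-element of G normalizing a nontrivial elementary abelian 2-subgroup W with C_W(d) = 1. Then G has an elementary abelian subgroup of order 8. -/
theorem result {G : Type*} [Group G] [Finite G] (hchar : Subgroup.centralizer (Cfsg.pCore 2 G : Set G) ≤ Cfsg.pCore 2 G) (hsix : ∃ g : G, orderOf g = 6) (d : G) (hd1 : d ≠ 1) (hd : IsPGroup 3 ↥(Subgroup.zpowers d)) (W : Subgroup G) (hW : Cfsg.IsElementaryAbelian 2 W) (hW1 : W ≠ ⊥) (hdW : d ∈ Subgroup.normalizer (W : Set G)) (hfpf : W ⊓ Subgroup.centralizer {d} = ⊥) : ∃ E : Subgroup G, Cfsg.IsElementaryAbelian 2 E ∧ Nat.card E = 8 := by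
  classical
  by_contra hcon
  push Not at hcon
  have : Fact (Nat.Prime 2) := ⟨Nat.prime_two⟩
  have : Fact (Nat.Prime 3) := ⟨Nat.prime_three⟩
  -- every elementary abelian 2-subgroup has at most four elements
  have hsmall : ∀ E : Subgroup G, Cfsg.IsElementaryAbelian 2 E → Nat.card E ≤ 4 := by
    intro E hE
    by_contra hgt
    obtain ⟨k, hk⟩ := IsPGroup.iff_card.mp
      (CfsgLib.ThompsonJ.isPGroup_of_isElementaryAbelian hE)
    have hk3 : 3 ≤ k := by
      by_contra hk3
      have : 2 ^ k ≤ 2 ^ 2 := Nat.pow_le_pow_right (by norm_num) (by omega)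
      omega
    obtain ⟨K, hK⟩ := Sylow.exists_subgroup_card_pow_prime (G := E) 2 (n := 3)
      (hk ▸ pow_dvd_pow 2 hk3)
    refine hcon (K.map E.subtype)
      (CfsgLib.ThompsonJ.isElementaryAbelian_mono hE (Subgroup.map_subtype_le K)) ?_
    rw [Subgroup.card_subtype, hK]
    norm_num
  have hgrow : ∀ (E : Subgroup G) (x : G), Cfsg.IsElementaryAbelian 2 E → Nat.card E = 4 →
      x ^ 2 = 1 → (∀ c ∈ E, c * x = x * c) → x ∈ E := by
    intro E x hE hE4 hx hc
    have h := hsmall _ (CfsgLib.MinimalAction.closure_pair_elementary E hE hx hc)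
    rw [Subgroup.eq_of_le_of_card_ge (le_sup_left : E ≤ E ⊔ Subgroup.zpowers x) (hE4 ▸ h)]
    exact Subgroup.mem_sup_right (Subgroup.mem_zpowers x)
  have hfix2 : ∀ T : Subgroup G, T ≤ W → d ∈ Subgroup.normalizer (T : Set G) → Nat.card T ≠ 2 := by
    intro T hT hdT h2
    obtain ⟨z, hz, hz1⟩ : ∃ z ∈ T, z ≠ 1 := by
      by_contra hh
      push Not at hh
      rw [(Subgroup.eq_bot_iff_forall T).mpr hh, Subgroup.card_bot] at h2; omega
    have h : z ∈ W ⊓ Subgroup.centralizer {d} := ⟨hT hz,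
      Subgroup.mem_centralizer_singleton_iff.mpr
        (mul_inv_eq_iff_eq_mul.mp (fix_of_card_two h2 hdT hz)).symm⟩
    rw [hfpf, Subgroup.mem_bot] at h
    exact hz1 h
  have hW4 : Nat.card W = 4 := by
    have hle := hsmall W hW
    obtain ⟨k, hk⟩ := IsPGroup.iff_card.mp (CfsgLib.ThompsonJ.isPGroup_of_isElementaryAbelian hW)
    have h1 : Nat.card W ≠ 1 := fun h => hW1 (Subgroup.eq_bot_of_card_eq W h)
    have h2 := hfix2 W le_rfl hdW
    rw [hk] at hle h1 h2 ⊢
    rcases k with _ | _ | _ | k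
    · simp at h1
    · simp at h2
    · rfl
    · exfalso
      simp only [pow_succ] at hle
      have : 0 < 2 ^ k := pow_pos (by norm_num) k
      omega
  set P := Cfsg.pCore 2 G with hPdef
  have hP : IsPGroup 2 P := CfsgLib.Cores.isPGroup_pCore 2 G
  have hP1 : P ≠ ⊥ := by
    intro h
    apply hd1
    have hmem : d ∈ Subgroup.centralizer (P : Set G) := Subgroup.mem_centralizer_iff.mpr fun x hx => by
      rw [h, SetLike.mem_coe, Subgroup.mem_bot] at hx
      simp [hx]
    have := hchar hmem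
    rwa [h, Subgroup.mem_bot] at this
  set Zc := (Subgroup.center P).map P.subtype with hZc
  have hZcn : Zc.Normal := CfsgLib.Cores.normal_map_subtype P _
  have hZcP : Zc ≤ P := Subgroup.map_subtype_le _
  have hZc1 : Zc ≠ ⊥ := by
    have : Nontrivial P := (Subgroup.nontrivial_iff_ne_bot P).mpr hP1
    rw [hZc, Ne, Subgroup.map_eq_bot_iff_of_injective _ P.subtype_injective]
    exact (Subgroup.nontrivial_iff_ne_bot _).mp hP.center_nontrivial
  -- a central involution of `P` centralizing a given 2-subgroup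
  have hinv : ∀ Q : Subgroup G, IsPGroup 2 Q →
      ∃ z ∈ Zc, z ≠ 1 ∧ z ^ 2 = 1 ∧ ∀ q ∈ Q, q * z = z * q := by
    intro Q hQ
    set S := P ⊔ Q
    have hS : IsPGroup 2 S := hP.to_sup_of_normal_left hQ
    have hle : Zc ≤ S := hZcP.trans le_sup_left
    have hne : Zc.subgroupOf S ≠ ⊥ := by
      rw [Ne, Subgroup.subgroupOf_eq_bot, disjoint_iff, inf_eq_left.mpr hle]
      exact hZc1
    obtain ⟨z, hz, hz1, hzc⟩ := CfsgLib.TwoGroups.exists_mem_center_of_normal hS hne
    obtain ⟨k, hk⟩ := IsPGroup.iff_orderOf.mp hS z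
    obtain ⟨l, rfl⟩ : ∃ l, k = l + 1 := ⟨k - 1, by
      rcases k with _ | k
      · exact absurd (orderOf_eq_one_iff.mp (by simpa using hk)) hz1
      · rfl⟩
    refine ⟨((z ^ 2 ^ l : S) : G), ?_, ?_, ?_, ?_⟩
    · exact Zc.pow_mem hz _
    · intro hh
      have h1 : z ^ 2 ^ l = 1 := Subtype.ext hh
      have h2 := Nat.le_of_dvd (pow_pos (by norm_num) l) (orderOf_dvd_of_pow_eq_one h1)
      rw [hk] at h2
      exact absurd h2 (not_le.mpr (Nat.pow_lt_pow_right (by norm_num) (by omega)))
    · rw [← SubgroupClass.coe_pow, ← pow_mul, ← pow_succ, ← hk, pow_orderOf_eq_one]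
      rfl
    · intro q hq
      exact congrArg Subtype.val
        (Subgroup.mem_center_iff.mp (Subgroup.pow_mem _ hzc (2 ^ l)) ⟨q, Subgroup.mem_sup_right hq⟩)
  have hWZ : W ≤ Zc := by
    obtain ⟨z, hzZ, hz1, hz2, hzc⟩ := hinv W (CfsgLib.ThompsonJ.isPGroup_of_isElementaryAbelian hW)
    have hzW : z ∈ W := hgrow W z hW hW4 hz2 hzc
    have hle := Subgroup.card_le_of_le (inf_le_left : W ⊓ Zc ≤ W)
    have hnot2 : Nat.card ↥(W ⊓ Zc) ≠ 2 := hfix2 _ inf_le_left (Subgroup.mem_normalizer_iff.mpr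
      fun x => and_congr (Subgroup.mem_normalizer_iff.mp hdW x)
        (Subgroup.mem_normalizer_iff.mp (Subgroup.normalizer_eq_top_iff.mpr hZcn ▸ Subgroup.mem_top d) x))
    have hnot1 : Nat.card ↥(W ⊓ Zc) ≠ 1 := fun h =>
      hz1 ((Subgroup.eq_bot_iff_forall _).mp (Subgroup.eq_bot_of_card_eq _ h) z ⟨hzW, hzZ⟩)
    have hdvd := Subgroup.card_dvd_of_le (inf_le_left : W ⊓ Zc ≤ W)
    rw [hW4] at hle hdvd
    have : Nat.card ↥(W ⊓ Zc) = 4 := by
      generalize Nat.card ↥(W ⊓ Zc) = c at *
      interval_cases c <;> omega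
    exact (Subgroup.eq_of_le_of_card_ge inf_le_left (by rw [this, hW4]) : W ⊓ Zc = W).ge.trans inf_le_right
  have hWc : ∀ w ∈ W, ∀ x ∈ P, w * x = x * w := by
    intro w hw x hx
    obtain ⟨z, hz, rfl⟩ := hWZ hw
    exact (congrArg Subtype.val (Subgroup.mem_center_iff.mp hz ⟨x, hx⟩)).symm
  have hinvol : ∀ x ∈ P, x ^ 2 = 1 → x ∈ W := fun x hx hx2 =>
    hgrow W x hW hW4 hx2 fun c hc => hWc c hc x hx
  have hWP : W ≤ P := hWZ.trans hZcP
  have hWn : W.Normal := ⟨fun w hw g => hinvol _ ((inferInstance : P.Normal).conj_mem w (hWP hw) g)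
    (by rw [← MulAut.conj_apply, ← map_pow, hW.2 w hw, map_one])⟩
  have hnW : ∀ g : G, g ∈ Subgroup.normalizer (W : Set G) := fun g => by
    rw [Subgroup.normalizer_eq_top_iff.mpr hWn]; trivial
  -- an element of order three centralizing `W`
  obtain ⟨g6, hg6⟩ := hsix
  set s := g6 ^ 2 with hs
  set t := g6 ^ 3 with ht
  have hs3 : s ^ 3 = 1 := by
    rw [hs, ← pow_mul, show 2 * 3 = orderOf g6 by omega, pow_orderOf_eq_one]
  have ht2 : t ^ 2 = 1 := by
    rw [ht, ← pow_mul, show 3 * 2 = orderOf g6 by omega, pow_orderOf_eq_one]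
  have hs1 : s ≠ 1 := pow_ne_one_of_lt_orderOf (by norm_num) (by omega)
  have ht1 : t ≠ 1 := pow_ne_one_of_lt_orderOf (by norm_num) (by omega)
  have hst : s * t = t * s := (Commute.pow_pow_self g6 2 3).eq
  have hsW : ∀ x ∈ W, s * x * s⁻¹ = x := by
    intro x hx
    by_cases htW : t ∈ W
    · exact centralizes_four hW hW4 hs3 (hnW s) htW ht1 (by rw [hst, mul_inv_cancel_right]) hx
    · set T := W ⊓ Subgroup.centralizer ({t} : Set G) with hT
      obtain ⟨z, hzZ, hz1, hz2, hzc⟩ := hinv (Subgroup.zpowers t)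
        (IsPGroup.of_card (n := 1) (by rw [Nat.card_zpowers, pow_one]; exact orderOf_eq_prime ht2 ht1))
      have hzW : z ∈ W := hinvol z (hZcP hzZ) hz2
      have hzT : z ∈ T := ⟨hzW, Subgroup.mem_centralizer_singleton_iff.mpr
        (hzc t (Subgroup.mem_zpowers t)).symm⟩
      have hcard : Nat.card T = 2 := by
        have hdvd := Subgroup.card_dvd_of_le (inf_le_left : T ≤ W)
        rw [hW4] at hdvd
        have h1 : Nat.card T ≠ 1 := fun h =>
          hz1 ((Subgroup.eq_bot_iff_forall _).mp (Subgroup.eq_bot_of_card_eq _ h) z hzT)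
        have h4 : Nat.card T ≠ 4 := fun h => htW (hgrow W t hW hW4 ht2 fun c hc => by
          have : c ∈ T := (Subgroup.eq_of_le_of_card_ge inf_le_left (by rw [h, hW4]) : T = W) ▸ hc
          exact Subgroup.mem_centralizer_singleton_iff.mp this.2)
        have hle := Nat.le_of_dvd (by norm_num) hdvd
        generalize Nat.card T = c at *
        interval_cases c <;> omega
      have hsn : s ∈ Subgroup.normalizer (T : Set G) := by
        rw [Subgroup.mem_normalizer_iff]
        intro y
        refine and_congr (Subgroup.mem_normalizer_iff.mp (hnW s) y) ?_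
        show y ∈ Subgroup.centralizer ({t} : Set G) ↔ s * y * s⁻¹ ∈ Subgroup.centralizer ({t} : Set G)
        rw [Subgroup.mem_centralizer_singleton_iff, Subgroup.mem_centralizer_singleton_iff]
        have e : MulAut.conj s t = t := by rw [MulAut.conj_apply, hst, mul_inv_cancel_right]
        constructor <;> intro h
        · have h' := congrArg (MulAut.conj s) h
          rw [map_mul, map_mul, e] at h'
          exact h'
        · apply (MulAut.conj s).injective
          rw [map_mul, map_mul, e]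
          exact h
      exact centralizes_four hW hW4 hs3 (hnW s) hzW hz1 (fix_of_card_two hcard hsn hzT) hx
  -- a Sylow 3-subgroup with a fixed-point-free element
  obtain ⟨T, hsT⟩ := IsPGroup.exists_le_sylow (p := 3) (P := Subgroup.zpowers s)
    (IsPGroup.of_card (n := 1) (by rw [Nat.card_zpowers, pow_one]; exact orderOf_eq_prime hs3 hs1))
  obtain ⟨T₀, hdT₀⟩ := IsPGroup.exists_le_sylow hd
  obtain ⟨g, hg⟩ := MulAction.exists_smul_eq G T₀ T
  set d' := g * d * g⁻¹ with hd'
  have hd'T : d' ∈ (T : Subgroup G) := by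
    rw [← hg, Sylow.coe_subgroup_smul]
    exact ⟨d, hdT₀ (Subgroup.mem_zpowers d), rfl⟩
  have hfpf' : ∀ w ∈ W, d' * w * d'⁻¹ = w → w = 1 := by
    intro w hw h
    have h1 : g⁻¹ * w * g ∈ W ⊓ Subgroup.centralizer {d} := by
      refine ⟨by simpa using hWn.conj_mem w hw g⁻¹, Subgroup.mem_centralizer_singleton_iff.mpr ?_⟩
      have h2 : d' * w = w * d' := mul_inv_eq_iff_eq_mul.mp h
      calc g⁻¹ * w * g * d = g⁻¹ * (w * d') * g := by rw [hd']; group
        _ = g⁻¹ * (d' * w) * g := by rw [h2]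
        _ = d * (g⁻¹ * w * g) := by rw [hd']; group
    rw [hfpf, Subgroup.mem_bot] at h1
    calc w = g * (g⁻¹ * w * g) * g⁻¹ := by group
      _ = 1 := by rw [h1]; group
  set B := (T : Subgroup G) with hB
  set A := B ⊓ Subgroup.centralizer (W : Set G) with hA
  have hsA : s ∈ A := ⟨hsT (Subgroup.mem_zpowers s), Subgroup.mem_centralizer_iff.mpr
    fun x hx => (mul_inv_eq_iff_eq_mul.mp (hsW x hx)).symm⟩
  have hBA : B ≤ Subgroup.normalizer (A : Set G) := fun b hb => by
    rw [Subgroup.mem_normalizer_iff]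
    intro x
    exact and_congr (Subgroup.mem_normalizer_iff.mp (Subgroup.le_normalizer hb) x)
      (Subgroup.mem_normalizer_iff.mp
        (show b ∈ Subgroup.normalizer ((Subgroup.centralizer (W : Set G) : Subgroup G) : Set G) by
          rw [Subgroup.normalizer_eq_top_iff.mpr inferInstance]; trivial) x)
  have hAp : IsPGroup 3 A := T.isPGroup'.to_le inf_le_left
  have hA2 : (Nat.card A).Coprime 2 := by
    obtain ⟨k, hk⟩ := IsPGroup.iff_card.mp hAp
    rw [hk]; exact Nat.Coprime.pow_left k (by norm_num)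
  have hBP : B ≤ Subgroup.normalizer (P : Set G) := by
    rw [Subgroup.normalizer_eq_top_iff.mpr inferInstance]; exact le_top
  have hPA : ⁅P, A⁆ ≠ ⊥ := by
    intro h
    have hsP : s ∈ P := hchar (Subgroup.commutator_eq_bot_iff_le_centralizer.mp
      (by rwa [Subgroup.commutator_comm]) hsA)
    obtain ⟨k, hk⟩ := IsPGroup.iff_orderOf.mp hP ⟨s, hsP⟩
    rw [Subgroup.orderOf_mk, orderOf_eq_prime hs3 hs1] at hk
    rcases k with _ | k
    · simp at hk
    · rw [pow_succ] at hk; omega
  obtain ⟨R, hRP, hR⟩ := exists_minimal_le_of_wellFoundedLT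
    (fun R : Subgroup G => R ≤ P ∧ B ≤ Subgroup.normalizer (R : Set G) ∧ ⁅R, A⁆ ≠ ⊥) P
    ⟨le_rfl, hBP, hPA⟩
  obtain ⟨-, hBR, hRA⟩ := hR.1
  have hRp : IsPGroup 2 R := hP.to_le hRP
  obtain ⟨hReq, hstruct, -, -⟩ := CfsgLib.MinimalAction.minimal_action B A R hRp hBR inf_le_left
    hBA hA2 hRA fun U hU hBU => by
      by_contra h
      exact hU.not_ge (hR.2 ⟨hU.le.trans hRP, hBU, h⟩ hU.le)
  have hcop : (Nat.card A).Coprime (Nat.card R) := by
    obtain ⟨k, hk⟩ := IsPGroup.iff_card.mp hRp
    exact hk ▸ hA2.pow_right k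
  have hfixR := CfsgLib.MinimalAction.inf_centralizer_le_commutator (inf_le_left.trans hBR) hcop hReq
  have hWA : ∀ w ∈ W, ∀ a ∈ A, a * w = w * a := fun w hw a ha =>
    (Subgroup.mem_centralizer_iff.mp ha.2 w hw).symm
  rcases hstruct with hel | hsp
  · apply hRA
    rw [eq_bot_iff]
    refine Subgroup.commutator_le.mpr fun x hx a ha => ?_
    rw [Subgroup.mem_bot, commutatorElement_eq_one_iff_mul_comm]
    exact (hWA x (hinvol x (hRP hx) (hel.2 x hx)) a ha).symm
  · set Z := (Subgroup.center R).map R.subtype with hZ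
    have hBZ : B ≤ Subgroup.normalizer (Z : Set G) :=
      hBR.trans (CfsgLib.Cores.normalizer_le_normalizer_map_subtype R _)
    have hR1 : R ≠ ⊥ := fun h => hRA (by rw [h, Subgroup.commutator_bot_left])
    have : Nontrivial R := (Subgroup.nontrivial_iff_ne_bot R).mpr hR1
    have hZW : Z ≤ W := by
      rintro _ ⟨z, hz, rfl⟩
      refine hinvol _ (hRP z.2) ?_
      exact congrArg Subtype.val ((CfsgLib.PGroups.IsSpecial.center_elementary hsp).2 z hz)
    have hZeq : Z = W := by
      have hdvd := Subgroup.card_dvd_of_le hZW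
      rw [hW4] at hdvd
      have h1 : Nat.card Z ≠ 1 := fun h => by
        rw [hZ, Subgroup.card_subtype] at h
        exact (Subgroup.nontrivial_iff_ne_bot _).mp hRp.center_nontrivial
          (Subgroup.eq_bot_of_card_eq _ h)
      have h2 : Nat.card Z ≠ 2 := fun h => by
        obtain ⟨z, hz, hz1⟩ : ∃ z ∈ Z, z ≠ 1 := by
          by_contra hh
          push Not at hh
          rw [(Subgroup.eq_bot_iff_forall Z).mpr hh, Subgroup.card_bot] at h; omega
        exact hz1 (hfpf' z (hZW hz) (fix_of_card_two h (hBZ hd'T) hz))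
      have hle := Nat.le_of_dvd (by norm_num) hdvd
      have h4 : Nat.card Z = 4 := by
        generalize Nat.card Z = c at *
        interval_cases c <;> omega
      exact Subgroup.eq_of_le_of_card_ge hZW (by rw [h4, hW4])
    have hC4 : Nat.card (Subgroup.center R) = 4 := by
      rw [← Subgroup.card_subtype R (Subgroup.center R), ← hZ, hZeq, hW4]
    have htop : Subgroup.center R ≠ ⊤ := fun h => by
      have hZtop : frattini R = ⊤ := by rw [hsp.2.1, h]
      have hbt : (⊥ : Subgroup R) = ⊤ := frattini_nongenerating (by rw [hZtop, sup_top_eq])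
      exact absurd (congrArg Nat.card (congrArg (fun S : Subgroup R => ↥S) hbt))
        (by rw [Subgroup.card_bot, Subgroup.card_top]; exact Finite.one_lt_card.ne)
    have hmemW : ∀ x : R, (x : G) ∈ W → x ∈ Subgroup.center R := by
      intro x hx
      obtain ⟨y, hy, hyx⟩ := hZeq.ge hx
      rwa [← show y = x from Subtype.ext hyx]
    have hsqW : ∀ x : R, (x : G) ^ 2 ∈ W := fun x =>
      hZW ⟨x ^ 2, CfsgLib.PGroups.IsSpecial.pow_mem_center hsp x, rfl⟩
    -- the fibres of the squaring map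
    let F : G → Type _ := fun w => {x : R // x ∉ Subgroup.center R ∧ (x : G) ^ 2 = w}
    have hconjmem : ∀ b ∈ B, ∀ w : G, ∀ x : F w,
        ∃ y : F (b * w * b⁻¹), ((y.1 : R) : G) = b * x.1 * b⁻¹ := by
      intro b hb w x
      have hmem : b * (x.1 : G) * b⁻¹ ∈ R :=
        (Subgroup.mem_normalizer_iff.mp (hBR hb) _).mp x.1.2
      refine ⟨⟨⟨_, hmem⟩, fun h => x.2.1 (hmemW _ ?_), ?_⟩, rfl⟩
      · have h' : b * (x.1 : G) * b⁻¹ ∈ W := hZW ⟨_, h, rfl⟩
        simpa [mul_assoc] using hWn.conj_mem _ h' b⁻¹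
      · show (b * (x.1 : G) * b⁻¹) ^ 2 = _
        rw [← MulAut.conj_apply, ← map_pow, MulAut.conj_apply, x.2.2]
    have h3 : ∀ w ∈ W, 3 ∣ Nat.card (F w) := by
      intro w hw
      let act : MulAction A (F w) :=
        { smul := fun a x => ⟨⟨(a : G) * x.1 * (a : G)⁻¹,
              (Subgroup.mem_normalizer_iff.mp (hBR a.2.1) _).mp x.1.2⟩, by
            obtain ⟨y, hy⟩ := hconjmem a a.2.1 w x
            have e : (⟨(a : G) * x.1 * (a : G)⁻¹,
              (Subgroup.mem_normalizer_iff.mp (hBR a.2.1) _).mp x.1.2⟩ : R) = y.1 := Subtype.ext hy.symm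
            rw [e]
            refine ⟨y.2.1, y.2.2.trans ?_⟩
            rw [hWA w hw a a.2, mul_inv_cancel_right]⟩
          one_smul := fun x => Subtype.ext (Subtype.ext (by
            show (1 : G) * x.1 * (1 : G)⁻¹ = x.1
            group))
          mul_smul := fun a b x => Subtype.ext (Subtype.ext (by
            show ((a : G) * b) * x.1 * ((a : G) * b)⁻¹ = a * ((b : G) * x.1 * (b : G)⁻¹) * (a : G)⁻¹
            group)) }
      have hempty : MulAction.fixedPoints A (F w) = ∅ := by
        rw [Set.eq_empty_iff_forall_notMem]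
        intro x hx
        have hxC : (x.1 : G) ∈ R ⊓ Subgroup.centralizer (A : Set G) := ⟨x.1.2,
          Subgroup.mem_centralizer_iff.mpr fun a ha => by
            have h := congrArg (fun y : F w => ((y.1 : R) : G)) (hx ⟨a, ha⟩)
            exact mul_inv_eq_iff_eq_mul.mp h⟩
        have h' := hfixR hxC
        rw [← Subgroup.map_subtype_commutator, hsp.2.2] at h'
        exact x.2.1 (hmemW _ (hZW h'))
      have := hAp.card_modEq_card_fixedPoints (F w)
      rw [hempty, Nat.card_eq_fintype_card (α := (∅ : Set (F w)))] at this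
      simpa [Nat.ModEq, Nat.dvd_iff_mod_eq_zero] using this
    have hle : ∀ b ∈ B, ∀ w : G, Nat.card (F w) ≤ Nat.card (F (b * w * b⁻¹)) := by
      intro b hb w
      choose f hf using hconjmem b hb w
      refine Nat.card_le_card_of_injective f fun x y hxy => ?_
      have h := congrArg (fun z : F (b * w * b⁻¹) => ((z.1 : R) : G)) hxy
      simp only [hf] at h
      exact Subtype.ext (Subtype.ext (mul_left_cancel (mul_right_cancel h)))
    have heq : ∀ b ∈ B, ∀ w : G, Nat.card (F (b * w * b⁻¹)) = Nat.card (F w) := by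
      intro b hb w
      refine le_antisymm ?_ (hle b hb w)
      have h := hle b⁻¹ (B.inv_mem hb) (b * w * b⁻¹)
      have e : b⁻¹ * (b * w * b⁻¹) * b⁻¹⁻¹ = w := by group
      rwa [e] at h
    obtain ⟨w₀, hw₀, hw₀1⟩ : ∃ w ∈ W, w ≠ 1 := by
      by_contra hh
      push Not at hh
      exact hW1 ((Subgroup.eq_bot_iff_forall W).mpr hh)
    set w₁ := d' * w₀ * d'⁻¹ with hw₁
    set w₂ := d' * w₁ * d'⁻¹ with hw₂
    have hw₁W : w₁ ∈ W := hWn.conj_mem _ hw₀ d'
    have hw₂W : w₂ ∈ W := hWn.conj_mem _ hw₁W d'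
    have h11 : w₁ ≠ 1 := fun h => hw₀1 (conj_eq_one_iff.mp h)
    have h21 : w₂ ≠ 1 := fun h => h11 (conj_eq_one_iff.mp h)
    have h10 : w₁ ≠ w₀ := fun h => hw₀1 (hfpf' _ hw₀ h)
    have h21' : w₂ ≠ w₁ := fun h => h11 (hfpf' _ hw₁W h)
    have h20 : w₂ ≠ w₀ := by
      intro h
      -- otherwise the product of the two is fixed
      have hcw : w₁ * w₀ = w₀ * w₁ := congrArg Subtype.val (hW.1.is_comm.comm ⟨w₁, hw₁W⟩ ⟨w₀, hw₀⟩)
      have hfix : d' * (w₀ * w₁) * d'⁻¹ = w₀ * w₁ := by
        calc d' * (w₀ * w₁) * d'⁻¹ = w₁ * w₂ := by rw [hw₂, hw₁]; group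
          _ = w₀ * w₁ := by rw [h, hcw]
      have h1 := hfpf' _ (W.mul_mem hw₀ hw₁W) hfix
      apply h10
      have hsq : w₀ * w₀ = 1 := by rw [← pow_two]; exact hW.2 w₀ hw₀
      calc w₁ = (w₀ * w₀) * w₁ := by rw [hsq, one_mul]
        _ = w₀ := by rw [mul_assoc, h1, mul_one]
    have hfib : ∀ w : {w : G // w ∈ W ∧ w ≠ 1}, Nat.card (F w.1) = Nat.card (F w₀) := by
      rintro ⟨w, hw, hw1⟩
      have hall : w = w₀ ∨ w = w₁ ∨ w = w₂ := by
        by_contra h
        push Not at h
        let s5 : Finset G := {1, w₀, w₁, w₂, w}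
        have hc : s5.card = 5 := by
          simp only [s5, Finset.card_insert_of_notMem, Finset.mem_insert, Finset.mem_singleton,
            Finset.card_singleton, not_or, Ne.symm hw₀1, Ne.symm h11, Ne.symm h21, Ne.symm hw1,
            Ne.symm h10, Ne.symm h20, Ne.symm h.1, Ne.symm h21', Ne.symm h.2.1, Ne.symm h.2.2,
            not_false_iff, and_self]
        have hle' : Nat.card s5 ≤ Nat.card W := Nat.card_le_card_of_injective
          (fun z : s5 => (⟨z.1, by
            have hz := z.2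
            simp only [s5, Finset.mem_insert, Finset.mem_singleton] at hz
            rcases hz with e | e | e | e | e <;> rw [e]
            · exact W.one_mem
            · exact hw₀
            · exact hw₁W
            · exact hw₂W
            · exact hw⟩ : W)) fun a b hab => Subtype.ext (congrArg Subtype.val hab : _)
        rw [Nat.card_eq_fintype_card, Fintype.card_coe, hc, hW4] at hle'
        omega
      rcases hall with e | e | e <;> simp only [e]
      · rw [hw₁, heq d' hd'T]
      · rw [hw₂, heq d' hd'T, hw₁, heq d' hd'T]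
    let sq : {x : R // x ∉ Subgroup.center R} → {w : G // w ∈ W ∧ w ≠ 1} := fun x =>
      ⟨((x.1 : R) : G) ^ 2, hsqW x.1, fun h => x.2 (hmemW _ (hinvol _ (hRP x.1.2) h))⟩
    have hcard : Nat.card {x : R // x ∉ Subgroup.center R} =
        Nat.card {w : G // w ∈ W ∧ w ≠ 1} * Nat.card (F w₀) := by
      have : Fintype {w : G // w ∈ W ∧ w ≠ 1} := Fintype.ofFinite _
      have hF : ∀ w, Nat.card {x // sq x = w} = Nat.card (F w₀) := fun w => by
        rw [← hfib w]
        exact Nat.card_congr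
          { toFun := fun x => ⟨x.1.1, x.1.2, congrArg Subtype.val x.2⟩
            invFun := fun y => ⟨⟨y.1, y.2.1⟩, Subtype.ext y.2.2⟩
            left_inv := fun x => rfl
            right_inv := fun y => rfl }
      rw [← Nat.card_congr (Equiv.sigmaFiberEquiv sq), Nat.card_sigma]
      simp only [hF, Finset.sum_const, Finset.card_univ, smul_eq_mul, ← Nat.card_eq_fintype_card]
    have hW3 : Nat.card {w : G // w ∈ W ∧ w ≠ 1} = 3 := by
      have e : {w : G // w ∈ W ∧ w ≠ 1} ≃ {w : W // w ≠ 1} :=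
        { toFun := fun w => ⟨⟨w.1, w.2.1⟩, fun h => w.2.2 (congrArg Subtype.val h)⟩
          invFun := fun w => ⟨w.1.1, w.1.2, fun h => w.2 (Subtype.ext h)⟩
          left_inv := fun w => rfl
          right_inv := fun w => rfl }
      have : Fintype W := Fintype.ofFinite _
      rw [Nat.card_congr e, Nat.card_eq_fintype_card, Fintype.card_subtype_compl,
        Fintype.card_subtype_eq, ← Nat.card_eq_fintype_card, hW4]
    refine CfsgLib.MinimalAction.false_of_special hsp hC4 htop ?_ fun V hV => ?_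
    · rw [CfsgLib.MinimalAction.card_not_mem, hC4, hW3] at hcard
      obtain ⟨c, hc⟩ := h3 w₀ hw₀
      have : 9 ∣ 4 * ((Subgroup.center R).index - 1) := ⟨c, by rw [hcard, hc]; ring⟩
      exact (show Nat.Coprime 9 4 by norm_num).dvd_of_dvd_mul_left this
    · rw [← Subgroup.card_subtype R V]
      exact hsmall _ (CfsgLib.ThompsonJ.isElementaryAbelian_map hV _)

end Cfsg.Agent.S3739
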