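import Cfsg.Statements.S3740
import Cfsg.Agent.Lib.SL2.Basic
import Cfsg.Agent.Lib.SL2.Sylow
import Cfsg.Agent.Lib.CoprimeAction.Sylow
import Cfsg.Agent.Lib.TwoGroups.RankOne
import Cfsg.Agent.Lib.PGroups.SLTwoThree

set_option autoImplicit false
open Cfsg

namespace Cfsg.Agent.S3740

open scoped MatrixGroups commutatorElement
open CfsgLib

variable {F : Type} [Field F] [Fintype F] {p : ℕ} [Fact p.Prime] [CharP F p]

theorem tr_eq_two_of_pow_eq_one {a : SL(2, F)} {k : ℕ} (ha : a ^ p ^ k = 1) : SL2.tr a = 2 := by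
  let M := Matrix (Fin 2) (Fin 2) F
  have h1 : (a : M) ^ p ^ k = 1 := by
    have := congrArg (fun x : SL(2, F) => (x : M)) ha
    simpa using this
  have h2 : ((a : M) - 1) ^ p ^ k = 0 := by
    have : CharP M p := inferInstance
    rw [sub_pow_char_pow_of_commute (p := p) (n := k) (h := Commute.one_right (a : M)), h1, one_pow, sub_self]
  have h3 := (Matrix.isNilpotent_trace_of_isNilpotent ⟨_, h2⟩).eq_zero
  rw [Matrix.trace_sub, Matrix.trace_one, Matrix.trace_fin_two] at h3
  simp [SL2.tr] at h3 ⊢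
  linear_combination h3

theorem sq_eq_one_of_tr_sq {g : SL(2, F)} (ht : SL2.tr g ^ 2 = 4)
    (hg : (orderOf g).Coprime p) : g ^ 2 = 1 := by
  have h : orderOf g ∣ 2 * p := orderOf_dvd_of_pow_eq_one (SL2.orderOf_dvd_of_tr_sq_eq (p := p) ht)
  exact orderOf_dvd_iff_pow_eq_one.1 (hg.dvd_of_dvd_mul_right h)

theorem eq_pm_one_of_commute_conj (h2 : (2 : F) ≠ 0) {a b : SL(2, F)}
    (hao : Odd (orderOf a)) (hat : SL2.tr a = 2) (hac : a ∉ Subgroup.center SL(2, F))
    (hb : (orderOf b).Coprime p) (hc : Commute b (a * b * a⁻¹)) : b = 1 ∨ b = -1 := by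
  have hpm : ∀ g : SL(2, F), SL2.tr g ^ 2 = 4 → (orderOf g).Coprime p → g = 1 ∨ g = -1 := by
    intro g ht hg
    by_cases h1 : g = 1
    · exact Or.inl h1
    · exact Or.inr (SL2.eq_neg_one_of_sq_eq_one h2 (sq_eq_one_of_tr_sq ht hg) h1)
  by_contra hne
  have hbc : b ∉ Subgroup.center SL(2, F) := fun h => hne ((SL2.mem_center_iff b).1 h)
  have ht4 : SL2.tr b ^ 2 ≠ 4 := fun h => hne (hpm b h hb)
  obtain ⟨α, β, he⟩ := (SL2.mem_centralizer_singleton_iff' hbc (a * b * a⁻¹)).1
    (Subgroup.mem_centralizer_singleton_iff.2 hc.symm.eq)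
  have htr : α + α + β * SL2.tr b = SL2.tr b := by
    have := SL2.tr_conj b a
    simp only [SL2.tr, he] at this
    simp [SL2.tr] at this ⊢
    linear_combination this
  have hdet : α ^ 2 + SL2.tr b * α * β + β ^ 2 = 1 := by
    rw [← SL2.det_lin, ← he]; exact Matrix.SpecialLinearGroup.det_coe _
  have hβ : (SL2.tr b ^ 2 - 4) * (1 - β * β) = 0 := by
    linear_combination -(2 * α + β * SL2.tr b + SL2.tr b) * htr + 4 * hdet
  have hβ1 : β * β = 1 := by
    rcases mul_eq_zero.1 hβ with h | h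
    · exact absurd (sub_eq_zero.1 h) ht4
    · exact (sub_eq_zero.1 h).symm
  have hcases : a * b * a⁻¹ = b ∨ a * b * a⁻¹ = b⁻¹ := by
    rcases mul_self_eq_one_iff.1 hβ1 with rfl | rfl
    · left
      have hα : α = 0 := by
        have : (2 : F) * α = 0 := by linear_combination htr
        exact (mul_eq_zero.1 this).resolve_left h2
      refine Subtype.ext ?_
      rw [he, hα, zero_smul, one_smul, zero_add]
    · right
      have hα : α = SL2.tr b := by
        have : (2 : F) * (α - SL2.tr b) = 0 := by linear_combination htr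
        exact sub_eq_zero.1 ((mul_eq_zero.1 this).resolve_left h2)
      refine Subtype.ext ?_
      rw [he, SL2.coe_inv_eq, hα]
      simp [sub_eq_add_neg]
  have hcomm : Commute a b := by
    have key : Commute (a * a) b := by
      have h : a * a * b * (a * a)⁻¹ = b := by
        rcases hcases with h | h
        · calc a * a * b * (a * a)⁻¹ = a * (a * b * a⁻¹) * a⁻¹ := by group
            _ = b := by rw [h, h]
        · calc a * a * b * (a * a)⁻¹ = a * (a * b * a⁻¹) * a⁻¹ := by group
            _ = a * b⁻¹ * a⁻¹ := by rw [h]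
            _ = (a * b * a⁻¹)⁻¹ := by group
            _ = b := by rw [h, inv_inv]
      calc a * a * b = a * a * b * (a * a)⁻¹ * (a * a) := by group
        _ = b * (a * a) := by rw [h]
    obtain ⟨m, hm⟩ := exists_pow_eq_self_of_coprime
      (show Nat.Coprime 2 (orderOf a) from Nat.coprime_two_left.2 hao)
    rw [← hm, pow_two]
    exact key.pow_left m
  obtain ⟨γ, δ, hx⟩ := (SL2.mem_centralizer_singleton_iff' hac b).1
    (Subgroup.mem_centralizer_singleton_iff.2 hcomm.symm.eq)
  refine hne (hpm b ?_ hb)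
  have hd : γ ^ 2 + SL2.tr a * γ * δ + δ ^ 2 = 1 := by
    rw [← SL2.det_lin, ← hx]; exact b.det_coe
  have htb : SL2.tr b = 2 * γ + 2 * δ := by
    simp only [SL2.tr, hx]
    simp [SL2.tr] at hat ⊢
    linear_combination δ * hat
  rw [htb]
  rw [hat] at hd
  linear_combination 4 * hd

set_option maxHeartbeats 1000000

/-- Let F be a finite field of odd characteristic p and let a be a p-element of SL₂(F) normalizing a subgroup R of order prime to p with [R, a] ≠ 1. Then p = 3, R is a quaternion group of order 8, and R⟨a⟩ is isomorphic to SL₂(3). -/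
theorem result (F : Type) [Field F] [Fintype F] {p : ℕ} [Fact p.Prime] [CharP F p] (hp : p ≠ 2) (a : Matrix.SpecialLinearGroup (Fin 2) F) (ha : IsPGroup p ↥(Subgroup.zpowers a)) (R : Subgroup (Matrix.SpecialLinearGroup (Fin 2) F)) (hR : (Nat.card R).Coprime p) (haR : a ∈ Subgroup.normalizer (R : Set (Matrix.SpecialLinearGroup (Fin 2) F))) (hnt : ⁅R, Subgroup.zpowers a⁆ ≠ ⊥) : p = 3 ∧ Nonempty (↥R ≃* QuaternionGroup 2) ∧ Nonempty (↥(R ⊔ Subgroup.zpowers a) ≃* Matrix.SpecialLinearGroup (Fin 2) (ZMod 3)) := by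
  have hpp : p.Prime := Fact.out
  have hpodd : Odd p := hpp.odd_of_ne_two hp
  have h2 : (2 : F) ≠ 0 := Ring.two_ne_zero (by rwa [ringChar.eq F p])
  obtain ⟨k, hk⟩ := ha ⟨a, Subgroup.mem_zpowers a⟩
  have hk' : a ^ p ^ k = 1 := congrArg Subtype.val hk
  have hat : SL2.tr a = 2 := tr_eq_two_of_pow_eq_one hk'
  have hao : Odd (orderOf a) := hpodd.pow.of_dvd_nat (orderOf_dvd_of_pow_eq_one hk')
  have hap : a ^ p = 1 := by
    have h := orderOf_dvd_of_pow_eq_one
      (SL2.orderOf_dvd_of_tr_sq_eq (p := p) (g := a) (by rw [hat]; norm_num))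
    exact orderOf_dvd_iff_pow_eq_one.1 ((Nat.coprime_two_right.2 hao).dvd_of_dvd_mul_left h)
  have hfix : ¬ ∀ r ∈ R, a * r * a⁻¹ = r := by
    intro h
    refine hnt ?_
    rw [Subgroup.commutator_eq_bot_iff_le_centralizer]
    intro r hr
    rw [Subgroup.mem_centralizer_iff]
    intro x hx
    obtain ⟨i, rfl⟩ := Subgroup.mem_zpowers_iff.1 hx
    have : Commute a r := by
      calc a * r = a * r * a⁻¹ * a := by group
        _ = r * a := by rw [h r hr]
    exact (this.zpow_left i).eq
  have hac : a ∉ Subgroup.center SL(2, F) := fun h => hfix fun r _ => by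
    rw [← Subgroup.mem_center_iff.1 h r, mul_inv_cancel_right]
  have hinv : ∀ r ∈ R, a * r * a⁻¹ ∈ R := fun r hr => (Subgroup.mem_normalizer_iff.1 haR r).1 hr
  have hord : ∀ b ∈ R, (orderOf b).Coprime p := fun b hb =>
    hR.coprime_dvd_left (Subgroup.orderOf_dvd_natCard R hb)
  have key : ∀ b ∈ R, Commute b (a * b * a⁻¹) → b = 1 ∨ b = -1 := fun b hb =>
    eq_pm_one_of_commute_conj h2 hao hat hac (hord b hb)
  have hA : Subgroup.zpowers a ≤ Subgroup.normalizer (R : Set SL(2, F)) :=
    Subgroup.zpowers_le.2 haR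
  have hcop : (Nat.card (Subgroup.zpowers a)).Coprime (Nat.card R) := by
    rw [Nat.card_zpowers]
    exact ((hR.symm).pow_left k).coprime_dvd_left (orderOf_dvd_of_pow_eq_one hk')
  have hsolv : Group.IsSolvable (Subgroup.zpowers a) := inferInstance
  have hR2 : IsPGroup 2 R := by
    refine IsPGroup.of_card (n := (Nat.card R).primeFactorsList.length)
      (Nat.eq_prime_pow_of_unique_prime_dvd Nat.card_pos.ne' fun {q} hq hqR => ?_)
    by_contra hq2
    have := Fact.mk hq
    obtain ⟨P, hP⟩ := CoprimeAction.exists_invariant_sylow hA hcop (Or.inl hsolv) q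
    have : Nontrivial (P : Subgroup R) :=
      (Subgroup.nontrivial_iff_ne_bot _).2 (P.ne_bot_of_dvd_card hqR)
    obtain ⟨⟨z, hz⟩, hz1⟩ :=
      (nontrivial_iff_exists_ne (1 : Subgroup.center (P : Subgroup R))).1 P.isPGroup'.center_nontrivial
    have hz1' : ((z : R) : SL(2, F)) ≠ 1 := fun e =>
      hz1 (Subtype.ext (Subtype.ext (Subtype.ext e)))
    have hmem : a * ((z : R) : SL(2, F)) * a⁻¹ ∈ (P : Subgroup R).map R.subtype :=
      (Subgroup.mem_normalizer_iff.1 (hP (Subgroup.mem_zpowers a)) _).1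
        (Subgroup.mem_map_of_mem R.subtype z.2)
    obtain ⟨w, hw, hwe⟩ := hmem
    have hcm : Commute ((z : R) : SL(2, F)) (a * ((z : R) : SL(2, F)) * a⁻¹) := by
      rw [← hwe]
      have := Subgroup.mem_center_iff.1 hz ⟨w, hw⟩
      exact (congrArg (fun x : (P : Subgroup R) => ((x : R) : SL(2, F))) this).symm
    rcases key _ (z : R).2 hcm with h | h
    · exact hz1' h
    · obtain ⟨n, hn⟩ := (IsPGroup.iff_orderOf.1 P.isPGroup') z
      have e : z ^ 2 = 1 := by
        refine Subtype.ext (Subtype.ext ?_)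
        push_cast
        rw [h, neg_one_sq]
      have h' := orderOf_dvd_of_pow_eq_one e
      have : orderOf z = 1 := Nat.eq_one_of_dvd_coprimes
        (((Nat.coprime_primes hq Nat.prime_two).2 hq2).pow_left n) (dvd_of_eq hn) h'
      exact hz1' (by rw [orderOf_eq_one_iff.1 this]; rfl)
  have hu : TwoGroups.UniqueOrderP 2 R := by
    have h : ∀ x : R, orderOf x = 2 → (x : SL(2, F)) = -1 := by
      intro x hx
      refine SL2.eq_neg_one_of_sq_eq_one h2 ?_ ?_
      · have := congrArg Subtype.val (pow_orderOf_eq_one x)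
        rwa [hx] at this
      · intro e
        rw [OneMemClass.coe_eq_one] at e
        simp [e] at hx
    intro x y hx hy
    have : y = x := Subtype.ext ((h y hy).trans (h x hx).symm)
    rw [this]; exact Subgroup.mem_zpowers x
  let α : MulAut R :=
    { toFun := fun r => ⟨a * r * a⁻¹, hinv r r.2⟩
      invFun := fun r => ⟨a⁻¹ * r * a, by
        refine (Subgroup.mem_normalizer_iff.1 haR _).2 ?_
        simp [mul_assoc]⟩
      left_inv := fun r => Subtype.ext (by simp [mul_assoc])
      right_inv := fun r => Subtype.ext (by simp [mul_assoc])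
      map_mul' := fun r s => Subtype.ext (by simp [mul_assoc]) }
  have hαn : ∀ (n : ℕ) (r : R), ((α ^ n) r : SL(2, F)) = a ^ n * r * (a ^ n)⁻¹ := by
    intro n
    induction n with
    | zero => intro r; simp
    | succ n ih =>
      intro r
      rw [pow_succ', MulAut.mul_apply]
      show a * ((α ^ n) r : SL(2, F)) * a⁻¹ = _
      rw [ih]; simp [pow_succ', mul_assoc]
  have hαp : α ^ p = 1 := MulEquiv.ext fun r => Subtype.ext (by simp [hαn, hap])
  have hα1 : α ≠ 1 := fun h => hfix fun r hr => congrArg Subtype.val (DFunLike.congr_fun h ⟨r, hr⟩)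
  have hαo : Odd (orderOf α) := hpodd.of_dvd_nat (orderOf_dvd_of_pow_eq_one hαp)
  rcases TwoGroups.isCyclic_or_quaternion hR2 hu with hc | ⟨-, m, hm, ⟨e⟩⟩
  · exact absurd (PGroups.mulAut_eq_one_of_cyclic hR2 α hαo) hα1
  obtain rfl : m = 1 := by
    by_contra h
    exact hα1 (PGroups.mulAut_eq_one_of_quaternion (by omega) e α hαo)
  obtain ⟨x, y, hxy, hyx, hx4, hxx, hyy, hconj, hgen⟩ := PGroups.exists_pair e α hαo hα1
  have hαxy : α (x * y) = x := by
    rw [map_mul, hxy, hyx, ← mul_assoc, hconj, mul_assoc, hyy, ← pow_add, pow_succ, hx4, one_mul]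
  have hα3 : α ^ 3 = 1 := by
    refine MulEquiv.ext fun g => ?_
    obtain ⟨i, j, rfl⟩ := hgen g
    simp only [pow_succ, pow_zero, one_mul, MulAut.mul_apply, map_mul, map_pow, hxy, hyx, hαxy,
      MulAut.one_apply]
    have hxyx : x * y * x = y := by rw [mul_assoc, hconj, ← mul_assoc, ← pow_succ', hx4, one_mul]
    rw [hxyx]
  have hαord : orderOf α = p := orderOf_eq_prime hαp hα1
  have hp3 : p = 3 := (Nat.prime_dvd_prime_iff_eq hpp Nat.prime_three).1
    (hαord ▸ orderOf_dvd_of_pow_eq_one hα3)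
  subst hp3
  refine ⟨rfl, ⟨e⟩, ?_⟩
  set L := R ⊔ Subgroup.zpowers a
  let ι : R →* L := Subgroup.inclusion le_sup_left
  let s : L := ⟨a, Subgroup.mem_sup_right (Subgroup.mem_zpowers a)⟩
  have hs : ∀ r : R, s * ι r = ι (α r) * s := fun r =>
    Subtype.ext (show a * (r : SL(2, F)) = a * r * a⁻¹ * a by group)
  have hP : PGroups.SLPres (ι x) (ι y) s := by
    refine ⟨by rw [← map_pow, hx4, map_one], by rw [← map_mul, ← map_pow, hyy],
      Subtype.ext ?_, by rw [← map_mul, hconj, map_mul, map_pow],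
      by rw [hs, hxy], by rw [hs, hyx, map_mul]⟩
    show a * (a * a) = 1
    rw [← pow_two, ← pow_succ']; exact hap
  refine hP.nonempty_mulEquiv ?_ ?_
  · refine eq_top_iff.2 fun l _ => ?_
    have hle : L ≤ (Subgroup.closure {ι x, ι y, s}).map L.subtype := by
      refine sup_le (fun r hr => ?_) (Subgroup.zpowers_le.2 ?_)
      · obtain ⟨i, j, hij⟩ := hgen ⟨r, hr⟩
        refine ⟨ι x ^ (i : ℕ) * ι y ^ (j : ℕ), mul_mem (pow_mem (Subgroup.subset_closure (by simp)) _)
          (pow_mem (Subgroup.subset_closure (by simp)) _), ?_⟩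
        rw [← map_pow, ← map_pow, ← map_mul, ← hij]
        rfl
      · exact ⟨s, Subgroup.subset_closure (by simp), rfl⟩
    obtain ⟨m, hm, hml⟩ := hle l.2
    rwa [← Subtype.ext hml]
  · have h8 : Nat.card R = 8 := by
      rw [Nat.card_congr e.toEquiv, Nat.card_eq_fintype_card]; decide
    have h3 : orderOf a = 3 := orderOf_eq_prime hap fun h => hac (h ▸ Subgroup.one_mem _)
    refine Nat.le_of_dvd Nat.card_pos (Nat.Coprime.mul_dvd_of_dvd_of_dvd
      (show Nat.Coprime 8 3 by decide) ?_ ?_)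
    · exact h8 ▸ Subgroup.card_dvd_of_le le_sup_left
    · exact h3 ▸ Subgroup.orderOf_dvd_natCard L (Subgroup.mem_sup_right (Subgroup.mem_zpowers a))

end Cfsg.Agent.S3740
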