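import Cfsg.Statements.S3741
import Cfsg.Agent.Lib.TwoGroups.NormalAbelian

set_option autoImplicit false
open Cfsg

namespace Cfsg.Agent.S3741

open scoped commutatorElement in
theorem index_le {G : Type*} [Group G] [Finite G] {p : ℕ} [Fact p.Prime] (hG : IsPGroup p G)
    (A B R : Subgroup G) (hR : ∀ a ∈ A, ∀ b ∈ B, ⁅a, b⁆ ∈ R) (hRle : R ≤ A)
    (hRA : ∀ r ∈ R, ∀ a ∈ A, r * a = a * r) (hcard : Nat.card R ≤ p) :
    (A ⊓ Subgroup.centralizer (B : Set G)).relIndex A ≤
      (B ⊓ Subgroup.centralizer (A : Set G)).relIndex B := by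
  set B₀ := B ⊓ Subgroup.centralizer (A : Set G)
  obtain ⟨H, hH⟩ := Set.Finite.exists_maximal (s := {H : Subgroup G | B₀ ≤ H ∧ H ≤ B ∧
      (A ⊓ Subgroup.centralizer (H : Set G)).relIndex A ≤ B₀.relIndex H}) (Set.toFinite _)
    ⟨B₀, le_rfl, inf_le_left, by
      rw [Subgroup.relIndex_self, inf_eq_left.mpr, Subgroup.relIndex_self]
      exact Subgroup.le_centralizer_iff.mp inf_le_right⟩
  obtain ⟨h0, hB, hle⟩ := hH.1
  rcases hB.eq_or_lt with rfl | hlt
  · exact hle
  exfalso
  obtain ⟨b, hb, hbH⟩ := SetLike.exists_of_lt hlt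
  let H' := H ⊔ Subgroup.zpowers b
  have hHH : H < H' := lt_of_le_of_ne le_sup_left fun he =>
    hbH (by rw [he]; exact Subgroup.mem_sup_right (Subgroup.mem_zpowers b))
  have hH'B : H' ≤ B := sup_le hB (Subgroup.zpowers_le.mpr hb)
  set C := A ⊓ Subgroup.centralizer (H : Set G) with hC
  set C' := A ⊓ Subgroup.centralizer (H' : Set G) with hC'
  let f : C →* R :=
    { toFun := fun c => ⟨⁅(c : G), b⁆, hR _ c.2.1 _ hb⟩
      map_one' := Subtype.ext (by simp [commutatorElement_def])
      map_mul' := fun c d => Subtype.ext (by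
        have hd := hRA _ (hR _ d.2.1 _ hb) _ c.2.1
        have hcd := hRA _ (hR _ c.2.1 _ hb) _ (hRle (hR _ d.2.1 _ hb))
        have e : ⁅(c : G) * d, b⁆ = c * ⁅(d : G), b⁆ * (c : G)⁻¹ * ⁅(c : G), b⁆ := by
          simp only [commutatorElement_def]; group
        change ⁅(c : G) * d, b⁆ = ⁅(c : G), b⁆ * ⁅(d : G), b⁆
        rw [e, ← hd, mul_inv_cancel_right, hcd]) }
  have hker : f.ker.map C.subtype ≤ C' := by
    rintro _ ⟨c, hc, rfl⟩
    refine ⟨c.2.1, ?_⟩
    have hcb : (c : G) * b = b * c :=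
      commutatorElement_eq_one_iff_mul_comm.mp (congrArg Subtype.val hc)
    have : H' ≤ Subgroup.centralizer ({(c : G)} : Set G) := by
      refine sup_le (fun h hh => ?_) (Subgroup.zpowers_le.mpr ?_) <;>
        rw [Subgroup.mem_centralizer_singleton_iff]
      · exact c.2.2 h hh
      · exact hcb.symm
    exact fun h hh => Subgroup.mem_centralizer_singleton_iff.mp (this hh)
  have hCC : C' ≤ C := inf_le_inf_left _ (Subgroup.centralizer_le (by exact_mod_cast hHH.le))
  have hidx : C'.relIndex C ≤ p := by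
    have h1 : C'.relIndex C ∣ f.ker.index := by
      have h2 := Subgroup.index_dvd_of_le (H := f.ker) (K := C'.subgroupOf C) (fun c hc =>
        hker ⟨c, hc, rfl⟩)
      exact h2
    refine le_trans (Nat.le_of_dvd (Nat.pos_of_ne_zero Subgroup.index_ne_zero_of_finite) h1) ?_
    rw [Subgroup.index_ker]
    exact le_trans (Nat.card_le_card_of_injective _ Subtype.val_injective) hcard
  have hp' : p ≤ H.relIndex H' := by
    obtain ⟨m, hm⟩ := IsPGroup.index (hG.to_subgroup H') (H.subgroupOf H')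
    have hm' : H.relIndex H' = p ^ m := hm
    rw [hm']
    rcases m with _ | m
    · exact absurd (Subgroup.relIndex_eq_one.mp (by simpa using hm')) hHH.not_ge
    · exact Nat.le_self_pow (by omega) p
  have hnew : C'.relIndex A ≤ B₀.relIndex H' := by
    rw [← Subgroup.relIndex_mul_relIndex C' C A hCC inf_le_left,
      ← Subgroup.relIndex_mul_relIndex B₀ H H' h0 hHH.le, mul_comm (C'.relIndex C)]
    exact Nat.mul_le_mul hle (hidx.trans hp')
  exact hHH.not_ge (hH.2 ⟨h0.trans hHH.le, hH'B, hnew⟩ hHH.le)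

/-- Let A and B be subgroups of a finite p-group with [A, B] ≤ A ∩ B and [A, B] of order at most p. Then |A : C_A(B)| = |B : C_B(A)|. -/
theorem result {G : Type*} [Group G] [Finite G] {p : ℕ} [Fact p.Prime] (hG : IsPGroup p G) (A B : Subgroup G) (hAB : ⁅A, B⁆ ≤ A ⊓ B) (hcard : Nat.card ↥⁅A, B⁆ ≤ p) : (A ⊓ Subgroup.centralizer (B : Set G)).relIndex A = (B ⊓ Subgroup.centralizer (A : Set G)).relIndex B := by
  set R := ⁅A, B⁆ with hR
  -- `R` is central in the subgroup generated by `A` and `B`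
  have hn : A ⊔ B ≤ Subgroup.normalizer (R : Set G) :=
    sup_le (Subgroup.normalizer_commutator_ge_left A B) (Subgroup.normalizer_commutator_ge_right A B)
  have hRle : R ≤ A ⊔ B := hAB.trans (inf_le_left.trans le_sup_left)
  have hcent : ∀ r ∈ R, ∀ x ∈ A ⊔ B, r * x = x * r := by
    intro r hr x hx
    by_cases hbot : R = ⊥
    · rw [hbot, Subgroup.mem_bot] at hr
      simp [hr]
    have : (R.subgroupOf (A ⊔ B)).Normal := Subgroup.normal_subgroupOf_of_le_normalizer hn
    have hne : R.subgroupOf (A ⊔ B) ≠ ⊥ := by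
      rw [Ne, Subgroup.subgroupOf_eq_bot]
      intro hd
      rw [disjoint_iff, inf_eq_left.mpr hRle] at hd
      exact hbot hd
    obtain ⟨z, hz, hz1, hzc⟩ :=
      CfsgLib.TwoGroups.exists_mem_center_of_normal (hG.to_subgroup (A ⊔ B)) hne
    obtain ⟨m, hm⟩ := IsPGroup.iff_card.mp (hG.to_subgroup R)
    have hm1 : Nat.card R = p := by
      rcases m with _ | _ | m
      · exact absurd (Subgroup.eq_bot_of_card_eq R (by simpa using hm)) hbot
      · simpa using hm
      · exfalso
        have h2 : p ^ 2 ≤ p ^ (m + 2) := Nat.pow_le_pow_right (Fact.out : p.Prime).pos (by omega)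
        have := (Fact.out : p.Prime).two_le
        nlinarith
    have hzR : (⟨(z : G), hz⟩ : R) ≠ 1 := fun h =>
      hz1 (Subtype.ext (congrArg Subtype.val h : (z : G) = 1))
    obtain ⟨i, hi⟩ := Subgroup.mem_zpowers_iff.mp
      (mem_zpowers_of_prime_card hm1 hzR (g' := ⟨r, hr⟩))
    have hzi : (z : G) ^ i = r := congrArg Subtype.val hi
    have hc : ∀ w : ↥(A ⊔ B), w * z = z * w := fun w => Subgroup.mem_center_iff.mp hzc w
    have hx' : Commute (z : G) x := (congrArg Subtype.val (hc ⟨x, hx⟩)).symm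
    rw [← hzi]
    exact (hx'.zpow_left i).eq
  have hmem := fun (a : G) (ha : a ∈ A) (b : G) (hb : b ∈ B) => (Subgroup.commutator_mem_commutator ha hb : _ ∈ R)
  apply le_antisymm
  · exact index_le hG A B R hmem (hAB.trans inf_le_left)
      (fun r hr a ha => hcent r hr a (Subgroup.mem_sup_left ha)) hcard
  · refine index_le hG B A R (fun b hb a ha => ?_) (hAB.trans inf_le_right)
      (fun r hr a ha => hcent r hr a (Subgroup.mem_sup_right ha)) hcard
    rw [← commutatorElement_inv]
    exact R.inv_mem (hmem a ha b hb)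

end Cfsg.Agent.S3741
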