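import Cfsg.Statements.S3742

set_option autoImplicit false
open Cfsg

namespace Cfsg.Agent.S3742

/-- The elements `i`, `j`, `k` and their negatives. -/
def tri : Fin 4 → Fin 3 → QuaternionGroup 2
  | 0 => ![.a 1, .xa 0, .a 1 * .xa 0]
  | 1 => ![.a 1, .xa 0, .a 2 * (.a 1 * .xa 0)]
  | 2 => ![.a 1, .a 2 * .xa 0, .a 1 * .xa 0]
  | 3 => ![.a 2 * .a 1, .xa 0, .a 1 * .xa 0]

/-- The map determined by the images of the two generators. -/
def ext2 (u v : QuaternionGroup 2) : QuaternionGroup 2 → QuaternionGroup 2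
  | .a i => u ^ i.val
  | .xa i => v * u ^ i.val

/-- The images of the two generators under an automorphism. -/
def okPair (u v : QuaternionGroup 2) : Bool :=
  decide ((∀ g h, ext2 u v (g * h) = ext2 u v g * ext2 u v h) ∧ ∀ g h, ext2 u v g = ext2 u v h → g = h)

/-- Whether a map sends the triple `x` into the triple `y` up to a common sign. -/
def sends (f : QuaternionGroup 2 → QuaternionGroup 2) (x y : Fin 4) : Bool :=
  decide ((∀ s, ∃ t, f (tri x s) = tri y t) ∨ ∀ s, ∃ t, .a 2 * f (tri x s) = tri y t)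

/-- The action on the four triples. -/
def act (u v : QuaternionGroup 2) (x : Fin 4) : Fin 4 :=
  ((List.finRange 4).find? (fun y => sends (ext2 u v) x y)).getD 0

/-- All pairs of images of generators. -/
def okPairs : Finset (QuaternionGroup 2 × QuaternionGroup 2) :=
  Finset.univ.filter fun q => okPair q.1 q.2

theorem table_card : okPairs.card = 24 := by decide +kernel

theorem table_inj : ∀ q ∈ okPairs, ∀ x y, act q.1 q.2 x = act q.1 q.2 y → x = y := by
  decide +kernel

theorem table_faithful : ∀ q ∈ okPairs, ∀ r ∈ okPairs,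
    (∀ x, act q.1 q.2 x = act r.1 r.2 x) → q = r := by
  decide +kernel

theorem table_comp : ∀ q ∈ okPairs, ∀ r ∈ okPairs, ∀ x,
    act (ext2 q.1 q.2 r.1) (ext2 q.1 q.2 r.2) x = act q.1 q.2 (act r.1 r.2 x) := by
  decide +kernel

theorem ext2_eq (φ : MulAut (QuaternionGroup 2)) :
    ext2 (φ (.a 1)) (φ (.xa 0)) = φ := by
  funext g
  rcases g with i | i
  · show φ (.a 1) ^ i.val = φ (.a i)
    rw [← map_pow, QuaternionGroup.a_one_pow, ZMod.natCast_rightInverse i]
  · show φ (.xa 0) * φ (.a 1) ^ i.val = φ (.xa i)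
    rw [← map_pow, ← map_mul, QuaternionGroup.a_one_pow, ZMod.natCast_rightInverse i,
      QuaternionGroup.xa_mul_a, zero_add]

theorem mem_okPairs (φ : MulAut (QuaternionGroup 2)) :
    (φ (.a 1), φ (.xa 0)) ∈ okPairs := by
  simp only [okPairs, Finset.mem_filter, Finset.mem_univ, true_and, okPair, decide_eq_true_eq,
    ext2_eq φ]
  exact ⟨map_mul φ, fun _ _ h => φ.injective h⟩

/-- The permutation of the triples induced by an automorphism. -/
noncomputable def toPerm (φ : MulAut (QuaternionGroup 2)) : Equiv.Perm (Fin 4) :=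
  Equiv.ofBijective (act (φ (.a 1)) (φ (.xa 0)))
    (Finite.injective_iff_bijective.mp (fun x y h => table_inj _ (mem_okPairs φ) x y h))

/-- The homomorphism to the permutations of the triples. -/
noncomputable def toPermHom : MulAut (QuaternionGroup 2) →* Equiv.Perm (Fin 4) :=
  MonoidHom.mk' toPerm fun φ ψ => Equiv.ext fun x => by
    have h := table_comp _ (mem_okPairs φ) _ (mem_okPairs ψ) x
    rw [ext2_eq φ] at h
    exact h

/-- The automorphism group of the quaternion group of order 8 is isomorphic to the symmetric group of degree 4. -/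
theorem result : Nonempty (MulAut (QuaternionGroup 2) ≃* Equiv.Perm (Fin 4)) := by
  refine ⟨MulEquiv.ofBijective toPermHom ?_⟩
  have hinj : Function.Injective toPermHom := by
    intro φ ψ h
    have h' : act (φ (.a 1)) (φ (.xa 0)) = act (ψ (.a 1)) (ψ (.xa 0)) :=
      funext fun x => Equiv.ext_iff.mp h x
    have h2 := table_faithful _ (mem_okPairs φ) _ (mem_okPairs ψ) (congrFun h')
    simp only [Prod.mk.injEq] at h2
    apply MulEquiv.ext
    intro g
    rw [← ext2_eq φ, ← ext2_eq ψ, h2.1, h2.2]
  have hsurj : ∀ q ∈ okPairs, ∃ φ : MulAut (QuaternionGroup 2),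
      (φ (.a 1), φ (.xa 0)) = q := by
    intro q hq
    simp only [okPairs, Finset.mem_filter, Finset.mem_univ, true_and, okPair,
      decide_eq_true_eq] at hq
    refine ⟨MulEquiv.ofBijective (MonoidHom.mk' (ext2 q.1 q.2) hq.1)
      (Finite.injective_iff_bijective.mp (fun a b h => hq.2 a b h)), ?_⟩
    ext1
    · show q.1 ^ (1 : ZMod (2 * 2)).val = q.1
      exact pow_one _
    · show q.2 * q.1 ^ (0 : ZMod (2 * 2)).val = q.2
      rw [show (0 : ZMod (2 * 2)).val = 0 from rfl, pow_zero, mul_one]
  choose g hg using hsurj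
  refine ⟨hinj, ?_⟩
  have hcard : Nat.card (Equiv.Perm (Fin 4)) ≤ Nat.card okPairs := by
    rw [Nat.card_perm, Nat.card_fin, Nat.card_eq_fintype_card, Fintype.card_coe, table_card]
    simp [Nat.factorial]
  have hh : Function.Injective (fun q : okPairs => toPermHom (g q.1 q.2)) := fun q r h => by
    apply Subtype.ext
    rw [← hg q.1 q.2, ← hg r.1 r.2, hinj h]
  have hb := (Nat.bijective_iff_injective_and_card _).mpr
    ⟨hh, le_antisymm (Nat.card_le_card_of_injective _ hh) hcard⟩
  intro σ
  obtain ⟨q, hq⟩ := hb.2 σ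
  exact ⟨_, hq⟩

end Cfsg.Agent.S3742
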