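import Cfsg.Statements.S3743
import Cfsg.Agent.Lib.BGAppendix.PiCore
import Cfsg.Agent.Lib.Cores.Fitting

set_option autoImplicit false
open Cfsg

namespace Cfsg.Agent.S3743

theorem le_piCore_aux {G : Type*} [Group G] [Finite G] {π : Set ℕ} {S : Subgroup G}
    (hS : S.IsSubnormal) :
    ∀ P : Subgroup G, P ≤ S → S ≤ Subgroup.normalizer (P : Set G) → Cfsg.IsPiSubgroup π P →
      P ≤ Cfsg.piCore π G := by
  induction hS with
  | top =>
    intro P _ hn hP
    exact CfsgLib.BGAppendix.le_piCore (Subgroup.normalizer_eq_top_iff.1 (top_le_iff.1 hn)) hP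
  | step A B hAB _ hN ih =>
    intro P hPA hn hP
    have hPQ : P ≤ Cfsg.piCoreOf π A := CfsgLib.BGAppendix.le_piCoreOf hPA hn hP
    refine hPQ.trans (ih _ ((CfsgLib.BGAppendix.piCoreOf_le π A).trans hAB) ?_
      (CfsgLib.BGAppendix.piSubgroup_piCoreOf π A))
    rw [Subgroup.normal_subgroupOf_iff_le_normalizer hAB] at hN
    exact hN.trans (CfsgLib.BGAppendix.normalizer_le_normalizer_piCoreOf π A)

/-- In a finite group G, every subnormal nilpotent subgroup lies in the Fitting subgroup F(G), and, for a set of primes π, every subnormal subgroup all of whose prime divisors lie in π lies in O_π(G). -/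
theorem result {G : Type*} [Group G] [Finite G] (A : Subgroup G) (hA : A.IsSubnormal) : (Group.IsNilpotent A → A ≤ Cfsg.fittingSubgroup G) ∧ ∀ π : Set ℕ, (∀ p : ℕ, p.Prime → p ∣ Nat.card A → p ∈ π) → A ≤ Cfsg.piCore π G := by
  exact ⟨fun h => CfsgLib.Cores.le_fittingSubgroup_of_subnormal hA h,
    fun π hπ => le_piCore_aux hA A le_rfl Subgroup.le_normalizer hπ⟩

end Cfsg.Agent.S3743
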