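import Cfsg.Statements.S3744
import Mathlib
import Cfsg.Agent.Lib.Hall.Existence
import Cfsg.Agent.Lib.PSolvable.Basic

set_option autoImplicit false
open Cfsg

namespace Cfsg.Agent.S3744

open scoped Pointwise
open CfsgLib.Hall in
theorem step {G : Type*} [Group G] [Finite G] {p : ℕ} [Fact p.Prime] (hG : Cfsg.IsPSolvable p G)
    (N : Subgroup G) [N.Normal] (hN : N ≠ ⊤) : ∃ M : Subgroup G, M.Normal ∧ N < M ∧
      (IsPiNum ({p}ᶜ : Set ℕ) (N.relIndex M) ∨ (IsPiNum ({p}ᶜ : Set ℕ)ᶜ (N.relIndex M) ∧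
        (True → Group.IsSolvable ↥(M.map (QuotientGroup.mk' N))))) := by
  let q := QuotientGroup.mk' N
  have hq : Function.Surjective q := QuotientGroup.mk'_surjective N
  have main : ∀ C : Subgroup (G ⧸ N), C.Normal → C ≠ ⊥ → (C.comap q).Normal ∧ N < C.comap q ∧
      N.relIndex (C.comap q) = Nat.card C ∧ (C.comap q).map q = C := by
    intro C hC hne
    have hle : N ≤ C.comap q := (QuotientGroup.ker_mk' N).ge.trans (MonoidHom.ker_le_comap _ _)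
    have hm : (C.comap q).map q = C := Subgroup.map_comap_eq_self_of_surjective hq C
    refine ⟨hC.comap q, hle.lt_of_ne fun h => hne ?_, ?_, hm⟩
    · rw [← hm, ← h, QuotientGroup.map_mk'_self]
    · rw [← card_map_mk' hle, hm]
  have hnorm : (Cfsg.pCore p (G ⧸ N)).Normal ∧ (Cfsg.pPrimeCore p (G ⧸ N)).Normal :=
    ⟨inferInstance, inferInstance⟩
  rcases CfsgLib.PSolvable.core_quotient_ne_bot hG N hN with h | h
  · obtain ⟨h1, h2, h3, h4⟩ := main _ hnorm.1 h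
    obtain ⟨k, hk⟩ := IsPGroup.iff_card.mp (CfsgLib.Cores.isPGroup_pCore p (G ⧸ N))
    refine ⟨_, h1, h2, Or.inr ⟨?_, fun _ => ?_⟩⟩
    · rw [compl_compl, h3, hk]
      exact fun r hr hd => (Nat.prime_dvd_prime_iff_eq hr Fact.out).mp (hr.dvd_of_dvd_pow hd)
    · rw [h4]
      haveI := (CfsgLib.Cores.isPGroup_pCore p (G ⧸ N)).isNilpotent
      infer_instance
  · obtain ⟨h1, h2, h3, -⟩ := main _ hnorm.2 h
    refine ⟨_, h1, h2, Or.inl fun r hr hd hrp => ?_⟩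
    rw [h3] at hd
    exact hr.ne_one (Nat.eq_one_of_dvd_coprimes (CfsgLib.Cores.card_pPrimeCore_coprime (G := G ⧸ N) p) hd
      (dvd_of_eq (hrp : r = p)))

/-- A finite p-soluble group has a p-complement, all its p-complements are conjugate, and every subgroup of order prime to p lies in one of them. Here a p-complement is a subgroup of order prime to p whose index is a power of p. -/
theorem result {G : Type*} [Group G] [Finite G] {p : ℕ} [Fact p.Prime] (hG : Cfsg.IsPSolvable p G) : (∃ H : Subgroup G, (Nat.card H).Coprime p ∧ ∃ n : ℕ, H.index = p ^ n) ∧ (∀ H₁ H₂ : Subgroup G, (Nat.card H₁).Coprime p → (∃ n : ℕ, H₁.index = p ^ n) → (Nat.card H₂).Coprime p → (∃ n : ℕ, H₂.index = p ^ n) → ∃ g : G, H₂ = H₁.map (MulAut.conj g).toMonoidHom) ∧ (∀ U : Subgroup G, (Nat.card U).Coprime p → ∃ H : Subgroup G, (Nat.card H).Coprime p ∧ (∃ n : ℕ, H.index = p ^ n) ∧ ∃ g : G, U.map (MulAut.conj g).toMonoidHom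 ≤ H) := by
  obtain ⟨H, hH, hdom⟩ := CfsgLib.Hall.exists_isPiHall_dominating (G := G) ({p}ᶜ : Set ℕ) True
    (fun N _ hN => step hG N hN)
  have hp : p.Prime := Fact.out
  have hiff : ∀ K : Subgroup G, Cfsg.IsPiHall ({p}ᶜ : Set ℕ) K ↔
      ((Nat.card K).Coprime p ∧ ∃ n : ℕ, K.index = p ^ n) := by
    intro K
    rw [CfsgLib.Hall.isPiHall_iff, compl_compl]
    refine and_congr ⟨fun h => (hp.coprime_iff_not_dvd.mpr fun hd => h p hp hd rfl).symm,
      fun h q hq hd hqp => ?_⟩ ⟨fun h => ⟨_, Nat.eq_prime_pow_of_unique_prime_dvd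
        K.index_ne_zero_of_finite fun {q} hq hd => h q hq hd⟩, fun ⟨n, hn⟩ q hq hd => ?_⟩
    · obtain rfl : q = p := hqp
      exact hp.ne_one (Nat.eq_one_of_dvd_coprimes h hd dvd_rfl)
    · exact (Nat.prime_dvd_prime_iff_eq hq hp).mp (hq.dvd_of_dvd_pow (hn ▸ hd))
  have hsub : ∀ U : Subgroup G, (Nat.card U).Coprime p → ∃ g : G, U ≤ MulAut.conj g • H := fun U hU =>
    hdom U (fun q hq hd hqp => hp.ne_one (Nat.eq_one_of_dvd_coprimes hU ((hqp : q = p) ▸ hd) dvd_rfl))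
      (Or.inr trivial)
  refine ⟨⟨H, ((hiff H).mp hH).1, ((hiff H).mp hH).2⟩, fun H₁ H₂ a₁ b₁ a₂ b₂ => ?_, fun U hU => ?_⟩
  · obtain ⟨g₁, hg₁⟩ := hsub H₁ a₁
    obtain ⟨g₂, hg₂⟩ := hsub H₂ a₂
    have h1 : H₁ = MulAut.conj g₁ • H := CfsgLib.Hall.eq_of_isPiHall_le ((hiff H₁).mpr ⟨a₁, b₁⟩)
      (CfsgLib.Hall.isPiHall_conj hH g₁).1 hg₁
    have h2 : H₂ = MulAut.conj g₂ • H := CfsgLib.Hall.eq_of_isPiHall_le ((hiff H₂).mpr ⟨a₂, b₂⟩)
      (CfsgLib.Hall.isPiHall_conj hH g₂).1 hg₂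
    refine ⟨g₂ * g₁⁻¹, ?_⟩
    show H₂ = MulAut.conj (g₂ * g₁⁻¹) • H₁
    rw [h1, h2, map_mul, map_inv, mul_smul, inv_smul_smul]
  · obtain ⟨g, hg⟩ := hsub U hU
    refine ⟨H, ((hiff H).mp hH).1, ((hiff H).mp hH).2, g⁻¹, ?_⟩
    show MulAut.conj g⁻¹ • U ≤ H
    rw [map_inv, Subgroup.pointwise_smul_subset_iff, inv_inv]
    exact hg

end Cfsg.Agent.S3744
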