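import Cfsg.Statements.S3746
import Cfsg.Agent.Lib.Cores.GenFitting

set_option autoImplicit false
open Cfsg

namespace Cfsg.Agent.S3746

open scoped commutatorElement in
theorem aux_three {G : Type*} [Group G] {A B N : Subgroup G} (h1 : ⁅⁅A, N⁆, A⁆ = ⊥) (h2 : ⁅⁅N, A⁆, A⁆ = ⊥)
    (hA : ⁅A, A⁆ = B) : ⁅B, N⁆ = ⊥ :=
  hA ▸ Subgroup.commutator_commutator_eq_bot_of_rotate h1 h2

/-- Let Z ≤ Z(G) be a central subgroup of a finite group G and E a subgroup of G containing Z whose image E/Z is a component of G/Z (subnormal and quasisimple). Then the derived subgroup [E, E] is a component of G. -/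
theorem result {G : Type*} [Group G] [Finite G] (Z : Subgroup G) (hZ : Z ≤ Subgroup.center G) [Z.Normal] (E : Subgroup G) (hZE : Z ≤ E) (hE : Cfsg.IsComponent (E.map (QuotientGroup.mk' Z))) : Cfsg.IsComponent ⁅E, E⁆ := by
  set f := QuotientGroup.mk' Z with hf
  have hfs : Function.Surjective f := QuotientGroup.mk'_surjective Z
  have hker : f.ker = Z := QuotientGroup.ker_mk' Z
  set S := ⁅E, E⁆ with hS
  set K := E.map f with hK
  have hmapS : S.map f = K := by
    rw [hS, Subgroup.map_commutator]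
    exact CfsgLib.Cores.commutator_self_eq_of_isComponent hE
  have hEsn : E.IsSubnormal := by
    have := hE.1.comap f
    rwa [hK, Subgroup.comap_map_eq_self (hker.trans_le hZE)] at this
  have hSle : S ≤ E := Subgroup.commutator_le_self E
  have hSsn : S.IsSubnormal := Subgroup.IsSubnormal.step _ E hSle hEsn
    ((Subgroup.normal_subgroupOf_iff_le_normalizer hSle).2 (Subgroup.normalizer_commutator_ge_left E E))
  have hES : E ≤ S ⊔ Z := by
    intro e he
    have : f e ∈ S.map f := by rw [hmapS]; exact Subgroup.mem_map_of_mem f he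
    obtain ⟨s, hs, hse⟩ := this
    have : s⁻¹ * e ∈ Z := by rw [← hker, MonoidHom.mem_ker, map_mul, map_inv, hse, inv_mul_cancel]
    rw [← mul_inv_cancel_left s e]
    exact Subgroup.mul_mem_sup hs this
  have hcentral : ∀ A B : Subgroup G, B ≤ Z → ⁅A, B⁆ = ⊥ := fun A B hB =>
    Subgroup.commutator_eq_bot_iff_le_centralizer.2 fun a _ => Subgroup.mem_centralizer_iff.2
      fun b hb => (Subgroup.mem_center_iff.1 (hZ (hB hb)) a).symm
  have hkey : ∀ A : Subgroup G, A ≤ S ⊔ Z → ⁅A, A⁆ ≤ ⁅S, S⁆ := by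
    intro A hA
    rw [Subgroup.commutator_le]
    intro a ha b hb
    have dec : ∀ x ∈ S ⊔ Z, ∃ s ∈ S, ∃ z ∈ Z, x = s * z := fun x hx => by
      rw [← SetLike.mem_coe, Subgroup.mul_normal S Z] at hx
      obtain ⟨s, hs, z, hz, rfl⟩ := hx
      exact ⟨s, hs, z, hz, rfl⟩
    obtain ⟨s, hs, z, hz, rfl⟩ := dec a (hA ha)
    obtain ⟨t, ht, w, hw, rfl⟩ := dec b (hA hb)
    have hzc : ∀ g : G, g * z = z * g := fun g => Subgroup.mem_center_iff.1 (hZ hz) g
    have hwc : ∀ g : G, g * w = w * g := fun g => Subgroup.mem_center_iff.1 (hZ hw) g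
    open scoped commutatorElement in
    have : ⁅s * z, t * w⁆ = ⁅s, t⁆ := by
      simp only [commutatorElement_def, mul_inv_rev]
      calc s * z * (t * w) * (z⁻¹ * s⁻¹) * (w⁻¹ * t⁻¹)
          = s * (z * t) * w * z⁻¹ * s⁻¹ * w⁻¹ * t⁻¹ := by group
        _ = s * t * (z * w) * z⁻¹ * s⁻¹ * w⁻¹ * t⁻¹ := by rw [← hzc t]; group
        _ = s * t * (w * s⁻¹) * w⁻¹ * t⁻¹ := by rw [hwc z]; group
        _ = s * t * s⁻¹ * t⁻¹ := by rw [← hwc s⁻¹]; group
    rw [this]
    exact Subgroup.commutator_mem_commutator hs ht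
  have hperf : ⁅S, S⁆ = S := le_antisymm (Subgroup.commutator_le_self S) (hkey E hES)
  have hne : S ≠ ⊥ := by
    intro h
    exact CfsgLib.Cores.ne_bot_of_isComponent hE (by rw [← hmapS, h, Subgroup.map_bot])
  refine CfsgLib.Cores.isComponent_of_minimal hSsn hperf hne fun N hN ht => ?_
  set N' := N.map S.subtype with hN'
  have hN'S : N' ≤ S := Subgroup.map_subtype_le N
  have hlt : N' ≠ S := fun h => ht (by
    apply Subgroup.map_injective S.subtype_injective
    rw [← hN', h, ← MonoidHom.range_eq_map, Subgroup.range_subtype])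
  have hN'n : S ≤ Subgroup.normalizer (N' : Set G) := by
    rw [← Subgroup.normal_subgroupOf_iff_le_normalizer hN'S, hN', Subgroup.subgroupOf, Subgroup.comap_map_eq_self_of_injective S.subtype_injective]
    exact hN
  set M := N'.map f with hM
  have hMK : M ≤ K := hmapS ▸ Subgroup.map_mono hN'S
  have hMn : (M.subgroupOf K).Normal := by
    rw [Subgroup.normal_subgroupOf_iff_le_normalizer hMK, ← hmapS]
    exact (Subgroup.map_mono hN'n).trans (Subgroup.le_normalizer_map f)
  rcases CfsgLib.Cores.normal_eq_top_or_le_center hE.2 (M.subgroupOf K) with h | h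
  · exfalso
    apply hlt
    refine le_antisymm hN'S ?_
    have hSN : S ≤ N' ⊔ Z := by
      intro s hs
      have h1 : f s ∈ M := Subgroup.subgroupOf_eq_top.1 h (hmapS ▸ Subgroup.mem_map_of_mem f hs)
      obtain ⟨n, hn, hns⟩ := h1
      have : n⁻¹ * s ∈ Z := by rw [← hker, MonoidHom.mem_ker, map_mul, map_inv, hns, inv_mul_cancel]
      rw [← mul_inv_cancel_left n s]
      exact Subgroup.mul_mem_sup hn this
    rw [← hperf, Subgroup.commutator_le]
    intro a ha b hb
    obtain ⟨s, hs, z, hz, rfl⟩ : ∃ s ∈ N', ∃ z ∈ Z, a = s * z := by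
      have hx := hSN ha
      rw [← SetLike.mem_coe, Subgroup.mul_normal N' Z] at hx
      obtain ⟨s, hs, z, hz, rfl⟩ := hx
      exact ⟨s, hs, z, hz, rfl⟩
    have hzc : ∀ g : G, g * z = z * g := fun g => Subgroup.mem_center_iff.1 (hZ hz) g
    open scoped commutatorElement in
    have : ⁅s * z, b⁆ = s * (b * s⁻¹ * b⁻¹) := by
      simp only [commutatorElement_def, mul_inv_rev]
      calc s * z * b * (z⁻¹ * s⁻¹) * b⁻¹ = s * (z * b) * z⁻¹ * s⁻¹ * b⁻¹ := by group
        _ = s * (b * s⁻¹ * b⁻¹) := by rw [← hzc b]; group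
    rw [this]
    exact N'.mul_mem hs ((Subgroup.mem_normalizer_iff.1 (hN'n hb) _).1 (N'.inv_mem hs))
  · have hcomm : ⁅M, K⁆ = ⊥ := by
      rw [Subgroup.commutator_eq_bot_iff_le_centralizer]
      intro m hm
      rw [Subgroup.mem_centralizer_iff]
      intro k hk
      exact congrArg Subtype.val (Subgroup.mem_center_iff.1 (h (show (⟨m, hMK hm⟩ : K) ∈ M.subgroupOf K from hm)) ⟨k, hk⟩)
    have hNSZ : ⁅N', S⁆ ≤ Z := by
      have := hcomm
      rw [← hmapS, hM, ← Subgroup.map_commutator] at this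
      rw [← hker]
      intro x hx
      rw [MonoidHom.mem_ker, ← Subgroup.mem_bot, ← this]
      exact Subgroup.mem_map_of_mem f hx
    have h3 : ⁅S, N'⁆ = ⊥ := aux_three
      (by rw [Subgroup.commutator_comm S N', Subgroup.commutator_comm]; exact hcentral _ _ hNSZ)
      (by rw [Subgroup.commutator_comm]; exact hcentral _ _ hNSZ) hperf
    intro x hx
    rw [Subgroup.mem_center_iff]
    intro y
    exact Subtype.ext ((Subgroup.mem_centralizer_iff.1
      (Subgroup.commutator_eq_bot_iff_le_centralizer.1 h3 y.2) x (Subgroup.mem_map_of_mem S.subtype hx)).symm)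

end Cfsg.Agent.S3746
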