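import Cfsg.Statements.S3747
import Cfsg.Agent.Lib.Cores.GenFitting
import Cfsg.Agent.Lib.Balance.LayerCenter

set_option autoImplicit false
open Cfsg

namespace Cfsg.Agent.S3747

theorem conj_component {G : Type*} [Group G] {K : Subgroup G} (hK : Cfsg.IsComponent K) (g : G) :
    Cfsg.IsComponent (K.map (MulAut.conj g).toMonoidHom) :=
  CfsgLib.Cores.isComponent_map_equiv hK (MulAut.conj g)

theorem center_map_eq_bot {G : Type*} [Group G] {K : Subgroup G} (hK : Subgroup.center ↥K = ⊥) (g : G) :
    (Subgroup.center ↥(K.map (MulAut.conj g).toMonoidHom)).map (K.map (MulAut.conj g).toMonoidHom).subtype = ⊥ := by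
  rw [eq_bot_iff]
  intro x hx
  obtain ⟨⟨k, hk, rfl⟩, hc⟩ := CfsgLib.Balance.mem_map_center_iff.1 hx
  have hkc : (⟨k, hk⟩ : K) ∈ Subgroup.center ↥K := Subgroup.mem_center_iff.2 fun y => Subtype.ext
    ((MulAut.conj g).injective (by
      have := hc _ (Subgroup.mem_map_of_mem (MulAut.conj g).toMonoidHom y.2)
      simpa using this))
  rw [hK, Subgroup.mem_bot] at hkc
  have : k = 1 := congrArg Subtype.val hkc
  simp [this]

theorem normalClosure_minimal {G : Type*} [Group G] [Finite G] {K : Subgroup G} (hK : Cfsg.IsComponent K)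
    (hZ : Subgroup.center ↥K = ⊥) (N : Subgroup G) (hN : N.Normal)
    (hle : N ≤ Subgroup.normalClosure (K : Set G)) :
    N = ⊥ ∨ N = Subgroup.normalClosure (K : Set G) := by
  classical
  by_cases hex : ∃ g : G, K.map (MulAut.conj g).toMonoidHom ≤ N
  · right
    obtain ⟨g, hg⟩ := hex
    refine le_antisymm hle (Subgroup.normalClosure_le_normal fun k hk => ?_)
    have := hN.conj_mem _ (hg (Subgroup.mem_map_of_mem _ hk)) g⁻¹
    simpa [mul_assoc] using this
  · left
    push Not at hex
    set s : Finset (Subgroup G) :=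
      (Set.toFinite (Set.range fun g : G => K.map (MulAut.conj g).toMonoidHom)).toFinset with hs
    have hmem : ∀ L, L ∈ s ↔ ∃ g : G, K.map (MulAut.conj g).toMonoidHom = L := fun L => by simp [hs]
    have hcl : Subgroup.normalClosure (K : Set G) ≤ s.sup id := by
      refine (Subgroup.closure_le _).2 fun x hx => ?_
      obtain ⟨k, hk, hc⟩ := Group.mem_conjugatesOfSet_iff.1 hx
      obtain ⟨g, hg⟩ := isConj_iff.1 hc
      exact Finset.le_sup (f := id) ((hmem _).2 ⟨g, rfl⟩) ⟨k, hk, hg⟩
    rw [eq_bot_iff]
    intro x hx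
    have hcomp : ∀ L ∈ s, Cfsg.IsComponent L := fun L hL => by
      obtain ⟨g, rfl⟩ := (hmem L).1 hL
      exact conj_component hK g
    have hz := CfsgLib.Balance.mem_iSup_center_of_mem_sSup s
      (fun A hA B hB => CfsgLib.Cores.le_centralizer_of_isComponent_ne (hcomp A hA) (hcomp B hB))
      x (hcl (hle hx)) (fun L hL y hy => by
        obtain ⟨g, rfl⟩ := (hmem L).1 hL
        exact (Subgroup.mem_centralizer_iff.1
          (CfsgLib.Cores.le_centralizer_of_not_le (conj_component hK g) hN.isSubnormal (hex g) hy) x hx).symm)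
    refine SetLike.le_def.1 (Finset.sup_le fun L hL => ?_) hz
    obtain ⟨g, rfl⟩ := (hmem L).1 hL
    exact (center_map_eq_bot hZ g).le

/-- Let G be a finite group. (a) If K is a component of G with trivial centre, then the normal closure of K in G is a minimal normal subgroup of G. (b) If the Fitting subgroup of G is trivial, then the layer E(G) is generated by the minimal normal subgroups of G. -/
theorem result {G : Type*} [Group G] [Finite G] : (∀ K : Subgroup G, Cfsg.IsComponent K → Subgroup.center ↥K = ⊥ → (Subgroup.normalClosure (K : Set G) ≠ ⊥ ∧ ∀ N : Subgroup G, N.Normal → N ≤ Subgroup.normalClosure (K : Set G) → N = ⊥ ∨ N = Subgroup.normalClosure (K : Set G))) ∧ (Cfsg.fittingSubgroup G = ⊥ → sSup {N : Subgroup G | N ≠ ⊥ ∧ N.Normal ∧ ∀ N' : Subgroup G, N'.Normal → N' ≤ N → N' = ⊥ ∨ N' = N} = Cfsg.layer G) := by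
  have hne : ∀ K : Subgroup G, Cfsg.IsComponent K → Subgroup.normalClosure (K : Set G) ≠ ⊥ := fun K hK h =>
    CfsgLib.Cores.ne_bot_of_isComponent hK (le_bot_iff.1 (Subgroup.le_normalClosure.trans h.le))
  refine ⟨fun K hK hZ => ⟨hne K hK, normalClosure_minimal hK hZ⟩, fun hF => ?_⟩
  refine le_antisymm (sSup_le ?_) (CfsgLib.Cores.layer_le_iff.2 fun K hK => ?_)
  · rintro N ⟨hN0, hN, hmin⟩
    have := hN
    rcases hmin (N ⊓ Cfsg.layer G) inferInstance inf_le_left with h | h
    · exfalso
      apply hN0
      haveI := hN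
      have hc : N ≤ Subgroup.centralizer (Cfsg.generalizedFittingSubgroup G : Set G) := by
        rw [← Subgroup.commutator_eq_bot_iff_le_centralizer, Cfsg.generalizedFittingSubgroup, hF,
          sup_bot_eq, ← le_bot_iff, ← h]
        exact Subgroup.commutator_le_inf (H₁ := N) (H₂ := Cfsg.layer G)
      have h2 := hc.trans CfsgLib.Cores.centralizer_generalizedFittingSubgroup_le
      rw [Cfsg.generalizedFittingSubgroup, hF, sup_bot_eq] at h2
      rwa [inf_eq_left.2 h2] at h
    · exact inf_eq_left.1 h
  · have hZ : Subgroup.center ↥K = ⊥ := by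
      have hsn : ((Subgroup.center ↥K).map K.subtype).IsSubnormal :=
        (Subgroup.normal_of_characteristic (Subgroup.center ↥K)).isSubnormal.trans' hK.1
      haveI : Group.IsNilpotent (Subgroup.center ↥K) := by
        letI : CommGroup (Subgroup.center ↥K) :=
          { (inferInstance : Group ↥(Subgroup.center ↥K)) with
            mul_comm := fun a b => Subtype.ext (Subgroup.mem_center_iff.1 b.2 a) }
        exact CommGroup.isNilpotent
      have hn : Group.IsNilpotent ((Subgroup.center ↥K).map K.subtype) :=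
        Group.nilpotent_of_mulEquiv ((Subgroup.center ↥K).equivMapOfInjective _ K.subtype_injective)
      have h := CfsgLib.Cores.le_fittingSubgroup_of_subnormal hsn hn
      rw [hF, le_bot_iff] at h
      exact (Subgroup.map_eq_bot_iff_of_injective _ K.subtype_injective).1 h
    exact le_trans Subgroup.le_normalClosure (le_sSup ⟨hne K hK, inferInstance, normalClosure_minimal hK hZ⟩)

end Cfsg.Agent.S3747
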