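import Cfsg.Statements.S3748
import Cfsg.Agent.Lib.Cores.Fitting
import Cfsg.Agent.Lib.Cores.MinimalNormal
import Cfsg.Agent.Lib.Subnormal.Join

set_option autoImplicit false
open Cfsg

namespace Cfsg.Agent.S3748

/-- Call a proper subgroup M of G primitive when M = N_G(N) for every non-trivial normal subgroup N of M. If M is a primitive subgroup of the finite group G, then no non-trivial subnormal subgroup of G is contained in M; in particular M ∩ F(G) = 1. -/
theorem result {G : Type*} [Group G] [Finite G] (M : Subgroup G) (hM : M ≠ ⊤) (hprim : ∀ N : Subgroup G, N ≤ M → M ≤ Subgroup.normalizer (N : Set G) → N ≠ ⊥ → Subgroup.normalizer (N : Set G) = M) : (∀ L : Subgroup G, L.IsSubnormal → L ≤ M → L = ⊥) ∧ M ⊓ Cfsg.fittingSubgroup G = ⊥ := by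
  have key : ∀ L : Subgroup G, L.IsSubnormal → L ≤ M → L = ⊥ := by
    intro L hL hLM
    by_contra hne
    set D := sSup {S : Subgroup G | S.IsSubnormal ∧ S ≤ M} with hD
    have hDM : D ≤ M := sSup_le fun S hS => hS.2
    have hDsn : D.IsSubnormal := CfsgLib.Subnormal.isSubnormal_sSup fun S hS => hS.1
    have hDne : D ≠ ⊥ := fun h => hne (le_bot_iff.1 (h ▸ le_sSup (a := L) ⟨hL, hLM⟩))
    have hconj : ∀ m ∈ M, D.map (MulAut.conj m).toMonoidHom ≤ D := by
      intro m hm
      rw [hD, (Subgroup.gc_map_comap _).l_sSup]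
      refine iSup₂_le fun S hS => le_sSup ⟨hS.1.map (MulAut.conj m).surjective, ?_⟩
      rintro _ ⟨s, hs, rfl⟩
      exact M.mul_mem (M.mul_mem hm (hS.2 hs)) (M.inv_mem hm)
    have hMn : M ≤ Subgroup.normalizer (D : Set G) := by
      intro m hm
      rw [Subgroup.mem_normalizer_iff]
      intro x
      refine ⟨fun hx => hconj m hm (Subgroup.mem_map_of_mem _ hx), fun hx => ?_⟩
      simpa [mul_assoc] using hconj m⁻¹ (M.inv_mem hm) (Subgroup.mem_map_of_mem _ hx)
    have hN := hprim D hDM hMn hDne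
    have htop : (⊤ : Subgroup G) ≠ ⊥ := fun h => hM (le_antisymm le_top (h ▸ bot_le))
    obtain ⟨Q, hQn, -, hQne, hQmin⟩ := CfsgLib.Cores.exists_minimal_normal_le htop
    have hQM : Q ≤ M := hN ▸ CfsgLib.Subnormal.le_normalizer_of_minimal_normal hDsn hQmin
    have := hprim Q hQM (by rw [Subgroup.normalizer_eq_top]; exact le_top) hQne
    rw [Subgroup.normalizer_eq_top] at this
    exact hM this.symm
  refine ⟨key, key _ ?_ inf_le_left⟩
  haveI := CfsgLib.Cores.isNilpotent_fittingSubgroup (G := G)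
  exact Subgroup.IsSubnormal.trans inf_le_right (CfsgLib.Subnormal.isSubnormal_of_isNilpotent _)
    (CfsgLib.Cores.fittingSubgroup_normal G).isSubnormal

end Cfsg.Agent.S3748
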