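import Cfsg.Statements.S3749
import Mathlib
import Cfsg.Agent.Lib.CoprimeAction.Sylow
import Cfsg.Agent.Lib.Cores.PCore

set_option autoImplicit false
open Cfsg

namespace Cfsg.Agent.S3749

theorem not_dvd {G : Type*} [Group G] [Finite G] {p : ℕ} [Fact p.Prime] (N R : Subgroup G) [N.Normal]
    (hR : IsPGroup p R) (hfix : ∀ x ∈ N, x ∈ Subgroup.normalizer (R : Set G) → x = 1) :
    ¬ p ∣ Nat.card N := by
  intro hd
  obtain ⟨P, hP⟩ := hR.exists_le_sylow
  obtain ⟨S⟩ := (inferInstance : Nonempty (Sylow p N))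
  obtain ⟨P', hP'⟩ := (S.isPGroup'.map N.subtype).exists_le_sylow
  obtain ⟨g, hg⟩ := MulAction.exists_smul_eq G P' P
  let D : Subgroup G := N ⊓ P
  have hne : D ≠ ⊥ := by
    intro hb
    obtain ⟨s, hs⟩ := exists_prime_orderOf_dvd_card' (G := (S : Subgroup N)) p (by
      obtain ⟨k, hk⟩ := IsPGroup.iff_card.mp S.isPGroup'
      have hk0 : k ≠ 0 := fun h0 => S.ne_bot_of_dvd_card hd (Subgroup.card_eq_one.mp (by rw [hk, h0, pow_zero]))
      exact hk ▸ dvd_pow_self p hk0)
    have hmem : g * ((s : N) : G) * g⁻¹ ∈ D := by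
      refine ⟨(inferInstance : N.Normal).conj_mem _ (s : N).2 g, ?_⟩
      rw [← hg]
      exact ⟨((s : N) : G), hP' ⟨s, s.2, rfl⟩, rfl⟩
    rw [hb, Subgroup.mem_bot, conj_eq_one_iff] at hmem
    have : s = 1 := Subtype.ext (Subtype.ext hmem)
    rw [this, orderOf_one] at hs
    exact (Fact.out : p.Prime).ne_one hs.symm
  let act : MulAction R D :=
    { smul := fun r x => ⟨r * x * (r : G)⁻¹, (inferInstance : N.Normal).conj_mem _ x.2.1 _,
        (P : Subgroup G).mul_mem ((P : Subgroup G).mul_mem (hP r.2) x.2.2) ((P : Subgroup G).inv_mem (hP r.2))⟩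
      one_smul := fun x => Subtype.ext (show (1 : G) * x * (1 : G)⁻¹ = x by simp)
      mul_smul := fun a b x => Subtype.ext (show (a * b : G) * x * (a * b : G)⁻¹ = a * (b * x * (b : G)⁻¹) * (a : G)⁻¹ by
        simp [mul_assoc]) }
  have hDp : IsPGroup p D := P.isPGroup'.to_le inf_le_right
  obtain ⟨k, hk⟩ := IsPGroup.iff_card.mp hDp
  have hk0 : k ≠ 0 := fun h0 => hne (Subgroup.card_eq_one.mp (by rw [hk, h0, pow_zero]))
  obtain ⟨z, hz, hzne⟩ := @IsPGroup.exists_fixed_point_of_prime_dvd_card_of_fixed_point p R _ hR _ D act _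
    (hk ▸ dvd_pow_self p hk0) (1 : D) (fun r => Subtype.ext (show (r : G) * (1 : G) * (r : G)⁻¹ = 1 by simp))
  refine hzne (Subtype.ext (hfix z z.2.1 ?_)).symm
  refine Subgroup.centralizer_le_normalizer _ (Subgroup.mem_centralizer_iff.mpr fun r hr => ?_)
  exact mul_inv_eq_iff_eq_mul.mp (congrArg Subtype.val (hz ⟨r, hr⟩) :)

/-- Call a proper subgroup M of G primitive when M = N_G(N) for every non-trivial normal subgroup N of M. Let M be a primitive subgroup of the finite group G, p a prime with O_p(M) ≠ 1, and N a normal subgroup of G with M ∩ N = 1. Then p does not divide the order of N; for every prime q there is exactly one Sylow q-subgroup of N normalized by M; and if the order of N has at least two prime divisors then M is not a maximal subgroup of G. -/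
theorem result {G : Type*} [Group G] [Finite G] (M : Subgroup G) (hM : M ≠ ⊤) (hprim : ∀ N : Subgroup G, N ≤ M → M ≤ Subgroup.normalizer (N : Set G) → N ≠ ⊥ → Subgroup.normalizer (N : Set G) = M) {p : ℕ} [Fact p.Prime] (hOp : Cfsg.pCore p ↥M ≠ ⊥) (N : Subgroup G) [N.Normal] (hMN : M ⊓ N = ⊥) : ¬ p ∣ Nat.card N ∧ (∀ q : ℕ, [Fact q.Prime] → ∃! Q : Sylow q ↥N, M ≤ Subgroup.normalizer ((Q : Subgroup ↥N).map N.subtype : Set G)) ∧ ((∃ q r : ℕ, q.Prime ∧ r.Prime ∧ q ≠ r ∧ q ∣ Nat.card N ∧ r ∣ Nat.card N) → ¬ IsCoatom M) := by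
  let R : Subgroup G := (Cfsg.pCore p ↥M).map M.subtype
  have hRM : R ≤ M := Subgroup.map_subtype_le _
  have hRne : R ≠ ⊥ := fun h => hOp ((Subgroup.map_eq_bot_iff_of_injective _ M.subtype_injective).mp h)
  have hMR : M ≤ Subgroup.normalizer (R : Set G) := by
    rw [← Subgroup.normal_subgroupOf_iff_le_normalizer hRM, Subgroup.subgroupOf,
      Subgroup.comap_map_eq_self_of_injective M.subtype_injective]
    infer_instance
  have hNR : Subgroup.normalizer (R : Set G) = M := hprim R hRM hMR hRne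
  have hRp : IsPGroup p R := (CfsgLib.Cores.isPGroup_pCore p ↥M).map _
  have hRN : R ≤ Subgroup.normalizer (N : Set G) := (Subgroup.normalizer_eq_top (H := N)).symm ▸ le_top
  have hfix : ∀ x ∈ N, x ∈ Subgroup.normalizer (R : Set G) → x = 1 := fun x hx hxn => by
    rw [hNR] at hxn
    have : x ∈ M ⊓ N := ⟨hxn, hx⟩
    rwa [hMN, Subgroup.mem_bot] at this
  have hpN : ¬ p ∣ Nat.card N := not_dvd N R hRp hfix
  have hcop : (Nat.card R).Coprime (Nat.card N) := by
    obtain ⟨k, hk⟩ := IsPGroup.iff_card.mp hRp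
    rw [hk]
    exact ((Fact.out : p.Prime).coprime_iff_not_dvd.mpr hpN).pow_left k
  have hsR : Group.IsSolvable R := by
    haveI := hRp.isNilpotent
    infer_instance
  have huniq : ∀ q : ℕ, [Fact q.Prime] → ∃! Q : Sylow q ↥N,
      M ≤ Subgroup.normalizer ((Q : Subgroup ↥N).map N.subtype : Set G) := by
    intro q _
    obtain ⟨Q, hQ⟩ := CfsgLib.CoprimeAction.exists_invariant_sylow hRN hcop (Or.inl hsR) q
    have hu : ∀ Q' : Sylow q N, R ≤ Subgroup.normalizer ((Q' : Subgroup ↥N).map N.subtype : Set G) →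
        Q' = Q := by
      intro Q' hQ'
      obtain ⟨c, hc, hce⟩ :=
        CfsgLib.CoprimeAction.invariant_sylow_conj hRN hcop (Or.inl hsR) Q' Q hQ' hQ
      have h1 : c = 1 := Subtype.ext (hfix c c.2 (Subgroup.centralizer_le_normalizer _ hc))
      rw [h1] at hce
      simpa using hce
    refine ⟨Q, fun m hm => ?_, fun Q' hQ' => hu Q' (hRM.trans hQ')⟩
    let e : MulAut N := MulAut.conjNormal m
    let Q' : Sylow q N := Q.comapOfInjective e.symm.toMonoidHom e.symm.injective
      (by rw [MonoidHom.range_eq_top.mpr e.symm.surjective]; exact le_top)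
    have hmap : (Q' : Subgroup N).map N.subtype =
        ((Q : Subgroup N).map N.subtype).map (MulAut.conj m).toMonoidHom := by
      rw [show (Q' : Subgroup N) = (Q : Subgroup N).map e.toMonoidHom from
        (Subgroup.map_equiv_eq_comap_symm e _).symm, Subgroup.map_map, Subgroup.map_map]
      rfl
    have hinv : R ≤ Subgroup.normalizer ((Q' : Subgroup ↥N).map N.subtype : Set G) := by
      intro r hr
      rw [hmap]
      refine CfsgLib.CoprimeAction.mem_normalizer_of_conj_mem ?_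
      rintro _ ⟨x, hx, rfl⟩
      have hr' : m⁻¹ * r * m ∈ R := CfsgLib.CoprimeAction.conj_mem' (hMR hm) hr
      exact ⟨_, CfsgLib.CoprimeAction.conj_mem (hQ hr') hx, by simp [mul_assoc]⟩
    rw [hu Q' hinv] at hmap
    exact CfsgLib.CoprimeAction.conj_smul_eq_self.mp hmap.symm
  refine ⟨hpN, huniq, fun ⟨q, r, hq, hr, hqr, hqd, hrd⟩ hco => ?_⟩
  haveI := Fact.mk hq
  haveI := Fact.mk hr
  obtain ⟨Q, hQ, -⟩ := huniq q
  have hQne : (Q : Subgroup N).map N.subtype ≠ ⊥ := fun h =>
    Q.ne_bot_of_dvd_card hqd ((Subgroup.map_eq_bot_iff_of_injective _ N.subtype_injective).mp h)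
  have hQM : ¬ (Q : Subgroup N).map N.subtype ≤ M := fun h =>
    hQne (eq_bot_iff.mpr (hMN ▸ le_inf h (Subgroup.map_subtype_le _)))
  have htop : M ⊔ (Q : Subgroup N).map N.subtype = ⊤ :=
    hco.2 _ (lt_of_le_not_ge le_sup_left fun h => hQM (le_sup_right.trans h))
  have hQtop : (Q : Subgroup N) = ⊤ := by
    refine top_le_iff.mp fun x _ => ?_
    have h2 : (x : G) ∈ M ⊔ (Q : Subgroup N).map N.subtype := htop ▸ Subgroup.mem_top _
    rw [← SetLike.mem_coe, Subgroup.coe_mul_of_left_le_normalizer_right M _ hQ] at h2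
    obtain ⟨a, ha, _, ⟨b, hb, rfl⟩, hab⟩ := h2
    have hxb : (a : G) ∈ N := by
      rw [show a = (x : G) * (N.subtype b)⁻¹ from eq_mul_inv_of_mul_eq hab]
      exact N.mul_mem x.2 (N.inv_mem b.2)
    have : a ∈ M ⊓ N := ⟨ha, hxb⟩
    rw [hMN, Subgroup.mem_bot] at this
    have hbx : x = b := Subtype.ext (by rw [← hab, this]; simp)
    exact hbx ▸ hb
  have hNq : IsPGroup q N := Q.isPGroup'.of_surjective (Q : Subgroup N).subtype
    fun x => ⟨⟨x, hQtop ▸ Subgroup.mem_top x⟩, rfl⟩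
  obtain ⟨k, hk⟩ := IsPGroup.iff_card.mp hNq
  exact hqr ((Nat.prime_dvd_prime_iff_eq hr hq).mp (hr.dvd_of_dvd_pow (hk ▸ hrd))).symm

end Cfsg.Agent.S3749
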