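import Cfsg.Statements.S3750
import Cfsg.Agent.S3748
import Cfsg.Agent.Lib.FFModules.FStar
import Cfsg.Agent.Lib.Cores.GenFitting
import Cfsg.Agent.Lib.Cores.MinimalNormal

set_option autoImplicit false
open Cfsg

namespace Cfsg.Agent.S3750

/-- Call a proper subgroup M of G primitive when M = N_G(N) for every non-trivial normal subgroup N of M. Let M be a primitive subgroup of the finite group G and N a normal subgroup of G with M ∩ F*(N) ≠ 1. Then F(G) = 1 and F*(N) = F*(G) = E(G); in particular every minimal normal subgroup of G is contained in N. -/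
theorem result {G : Type*} [Group G] [Finite G] (M : Subgroup G) (hM : M ≠ ⊤) (hprim : ∀ N : Subgroup G, N ≤ M → M ≤ Subgroup.normalizer (N : Set G) → N ≠ ⊥ → Subgroup.normalizer (N : Set G) = M) (N : Subgroup G) [N.Normal] (hMF : M ⊓ (Cfsg.generalizedFittingSubgroup ↥N).map N.subtype ≠ ⊥) : Cfsg.fittingSubgroup G = ⊥ ∧ (Cfsg.generalizedFittingSubgroup ↥N).map N.subtype = Cfsg.generalizedFittingSubgroup G ∧ Cfsg.generalizedFittingSubgroup G = Cfsg.layer G ∧ ∀ K : Subgroup G, K.Normal → K ≠ ⊥ → (∀ K' : Subgroup G, K'.Normal → K' ≤ K → K' = ⊥ ∨ K' = K) → K ≤ N := by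
  obtain ⟨key, -⟩ := Cfsg.Agent.S3748.result M hM hprim
  have hNn : N.Normal := inferInstance
  set FN := (Cfsg.generalizedFittingSubgroup ↥N).map N.subtype with hFN
  have hFNN : FN ≤ N := Subgroup.map_subtype_le _
  have hFNn : FN.Normal := inferInstance
  set D := M ⊓ FN with hD
  have hDn : M ≤ Subgroup.normalizer (D : Set G) :=
    fun m hm => by
      rw [Subgroup.mem_normalizer_iff]
      intro z
      exact and_congr (Subgroup.mem_normalizer_iff.1 (Subgroup.le_normalizer hm) z)
        (Subgroup.mem_normalizer_iff.1 (by rw [Subgroup.normalizer_eq_top]; trivial) z)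
  have hN := hprim D inf_le_left hDn hMF
  have hcD : Subgroup.centralizer (D : Set G) ≤ M := hN ▸ Subgroup.centralizer_le_normalizer _
  -- subnormal subgroups centralising `N` are trivial
  have hc : ∀ S : Subgroup G, S.IsSubnormal → S ≤ Subgroup.centralizer (N : Set G) → S = ⊥ :=
    fun S hS h => key S hS ((h.trans (Subgroup.centralizer_le (SetLike.coe_subset_coe.2 (inf_le_right.trans hFNN)))).trans hcD)
  have hmin : ∀ K : Subgroup G, K.Normal → K ≠ ⊥ →
      (∀ K' : Subgroup G, K'.Normal → K' ≤ K → K' = ⊥ ∨ K' = K) → K ≤ N := by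
    intro K hK hKne hKmin
    rcases hKmin (K ⊓ N) inferInstance inf_le_left with h | h
    · exfalso
      apply hKne
      refine hc K hK.isSubnormal (Subgroup.commutator_eq_bot_iff_le_centralizer.1 ?_)
      rw [← le_bot_iff, ← h]
      exact Subgroup.commutator_le_inf (H₁ := K) (H₂ := N)
    · exact inf_eq_left.1 h
  set FtN := (Cfsg.fittingSubgroup ↥N).map N.subtype with hFtN
  have hFtN1 : FtN = ⊥ := by
    by_contra hne
    haveI := CfsgLib.Cores.isNilpotent_fittingSubgroup (G := ↥N)
    set F := Cfsg.fittingSubgroup ↥N with hFdef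
    set Z := (Subgroup.center ↥F).map F.subtype with hZ
    have : Z.Characteristic := inferInstance
    have hZsn : (Z.map N.subtype).IsSubnormal :=
      (Subgroup.normal_of_characteristic Z).isSubnormal.trans' hNn.isSubnormal
    have hZFN : Z.map N.subtype ≤ Subgroup.centralizer (FN : Set G) := by
      have h1 : Z ≤ Subgroup.centralizer (Cfsg.generalizedFittingSubgroup ↥N : Set ↥N) := by
        rw [Subgroup.le_centralizer_iff, Cfsg.generalizedFittingSubgroup]
        refine sup_le ?_ ?_
        · exact (Subgroup.le_centralizer_iff.1 CfsgLib.Cores.fittingSubgroup_le_centralizer_layer).trans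
            (Subgroup.centralizer_le (SetLike.coe_subset_coe.2 (Subgroup.map_subtype_le _)))
        · intro f hf
          rw [Subgroup.mem_centralizer_iff]
          rintro z hz
          obtain ⟨c, hc, rfl⟩ := hz
          exact (congrArg Subtype.val (Subgroup.mem_center_iff.1 hc ⟨f, hf⟩)).symm
      rintro _ ⟨z, hz, rfl⟩
      rw [Subgroup.mem_centralizer_iff]
      rintro _ ⟨f, hf, rfl⟩
      exact congrArg Subtype.val (Subgroup.mem_centralizer_iff.1 (h1 hz) f hf)
    have hZ1 := key _ hZsn ((hZFN.trans (Subgroup.centralizer_le (SetLike.coe_subset_coe.2 (inf_le_right : D ≤ FN)))).trans hcD)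
    rw [Subgroup.map_eq_bot_iff_of_injective _ N.subtype_injective, hZ,
      Subgroup.map_eq_bot_iff_of_injective _ F.subtype_injective] at hZ1
    have hF : F ≠ ⊥ := fun h => hne (by rw [hFtN, h, Subgroup.map_bot])
    haveI : Nontrivial ↥F := (Subgroup.nontrivial_iff_ne_bot F).2 hF
    exact Group.IsNilpotent.center_ne_bot ↥F hZ1
  have hF : Cfsg.fittingSubgroup G = ⊥ := by
    by_contra hne
    obtain ⟨K, hK, hKF, hKne, hKmin⟩ := CfsgLib.Cores.exists_minimal_normal_le (K := Cfsg.fittingSubgroup G) hne
    apply hKne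
    rw [← le_bot_iff, ← hFtN1, hFtN, CfsgLib.Cores.map_subtype_fittingSubgroup_eq hNn.isSubnormal]
    exact le_inf hKF (hmin K hK hKne hKmin)
  have hE : Cfsg.generalizedFittingSubgroup G = Cfsg.layer G := by
    rw [Cfsg.generalizedFittingSubgroup, hF, sup_bot_eq]
  have hlay : Cfsg.layer G ≤ N := CfsgLib.Cores.layer_le_iff.2 fun K hK => by
    by_contra hKN
    exact CfsgLib.Cores.ne_bot_of_isComponent hK
      (hc K hK.1 (CfsgLib.Cores.le_centralizer_of_not_le hK hNn.isSubnormal hKN))
  refine ⟨hF, ?_, hE, hmin⟩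
  rw [hFN, CfsgLib.FFModules.map_fstar_of_isSubnormal hNn.isSubnormal, inf_eq_left, hE]
  exact hlay

end Cfsg.Agent.S3750
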