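import Cfsg.Statements.S3751
import Cfsg.Agent.Lib.Cores.PCore

set_option autoImplicit false
open Cfsg

namespace Cfsg.Agent.S3751

set_option linter.style.haveILetI false
set_option linter.unusedSectionVars false
open scoped commutatorElement

variable {G : Type*} [Group G] [Finite G] {p : ℕ} [Fact p.Prime]

/-- `O_p(H)` as a subgroup of `G`. -/
private def pc (p : ℕ) (H : Subgroup G) : Subgroup G := (Cfsg.pCore p H).map H.subtype

/-- A maximal `p`-local subgroup. -/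
private def IsMaxLocal (p : ℕ) (M : Subgroup G) : Prop :=
  (∃ T : Subgroup G, IsPGroup p T ∧ T ≠ ⊥ ∧ M = Subgroup.normalizer (T : Set G)) ∧
    ∀ L : Subgroup G, (∃ T : Subgroup G, IsPGroup p T ∧ T ≠ ⊥ ∧ L = Subgroup.normalizer (T : Set G)) →
      M ≤ L → L = M

omit [Finite G] [Fact p.Prime] in
private theorem pc_le (H : Subgroup G) : pc p H ≤ H := Subgroup.map_subtype_le _

omit [Finite G] [Fact p.Prime] in
private theorem pc_isPGroup (H : Subgroup G) : IsPGroup p (pc p H) :=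
  (CfsgLib.Cores.isPGroup_pCore p H).map _

omit [Finite G] [Fact p.Prime] in
private theorem le_pc {H T : Subgroup G} (hT : IsPGroup p T) (hTH : T ≤ H)
    (hn : H ≤ Subgroup.normalizer (T : Set G)) : T ≤ pc p H := by
  haveI : (T.subgroupOf H).Normal :=
    ⟨fun a ha g => (Subgroup.mem_normalizer_iff.1 (hn g.2) a).1 ha⟩
  have h1 : T.subgroupOf H ≤ Cfsg.pCore p H :=
    CfsgLib.Cores.le_pCore (hT.comap_of_injective _ Subtype.val_injective)
  intro t ht
  exact ⟨⟨t, hTH ht⟩, h1 ht, rfl⟩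

omit [Finite G] [Fact p.Prime] in
/-- Whatever normalises `H` normalises `O_p(H)`. -/
private theorem normalizer_le_normalizer_pc (H : Subgroup G) :
    Subgroup.normalizer (H : Set G) ≤ Subgroup.normalizer (pc p H : Set G) := by
  intro g hg
  rw [Subgroup.mem_normalizer_iff_map_conj_eq] at hg ⊢
  let e : H ≃* H := (Subgroup.equivMapOfInjective H (MulAut.conj g).toMonoidHom
    (MulAut.conj g).injective).trans (MulEquiv.subgroupCongr hg)
  show ((Cfsg.pCore p H).map H.subtype).map _ = (Cfsg.pCore p H).map H.subtype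
  conv_rhs => rw [← CfsgLib.Cores.map_pCore_equiv e, Subgroup.map_map]
  rw [Subgroup.map_map]
  congr 1

omit [Fact p.Prime] in
private theorem exists_maxLocal_ge {T : Subgroup G} (hT : IsPGroup p T) (h1 : T ≠ ⊥) :
    ∃ M, IsMaxLocal p M ∧ Subgroup.normalizer (T : Set G) ≤ M := by
  obtain ⟨M, hM, hMmax⟩ := Finite.exists_le_maximal
    (p := fun L : Subgroup G =>
      ∃ T : Subgroup G, IsPGroup p T ∧ T ≠ ⊥ ∧ L = Subgroup.normalizer (T : Set G))
    (a := Subgroup.normalizer (T : Set G)) ⟨T, hT, h1, rfl⟩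
  exact ⟨M, ⟨hMmax.prop, fun L hL hle => le_antisymm (hMmax.2 hL hle) hle⟩, hM⟩

omit [Fact p.Prime] in
private theorem normalizer_eq {M T : Subgroup G} (hM : IsMaxLocal p M) (hT : IsPGroup p T)
    (h1 : T ≠ ⊥) (hn : M ≤ Subgroup.normalizer (T : Set G)) :
    Subgroup.normalizer (T : Set G) = M :=
  hM.2 _ ⟨T, hT, h1, rfl⟩ hn

omit [Finite G] [Fact p.Prime] in
private theorem pc_ne_bot {M : Subgroup G} (hM : IsMaxLocal p M) : pc p M ≠ ⊥ := by
  obtain ⟨T, hT, h1, rfl⟩ := hM.1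
  exact fun h => h1 (le_bot_iff.1 (h ▸ le_pc hT Subgroup.le_normalizer le_rfl))

omit [Finite G] [Fact p.Prime] in
private theorem le_normalizer_pc (M : Subgroup G) : M ≤ Subgroup.normalizer (pc p M : Set G) :=
  Subgroup.le_normalizer.trans (normalizer_le_normalizer_pc M)

private theorem map_conj_ne {M : Subgroup G} (hM : IsMaxLocal p M) {g : G} (hg : g ∉ M) :
    M.map (MulAut.conj g).toMonoidHom ≠ M := fun h => hg (by
  rw [← normalizer_eq hM (pc_isPGroup M) (pc_ne_bot hM) (le_normalizer_pc M)]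
  exact normalizer_le_normalizer_pc M (Subgroup.mem_normalizer_iff_map_conj_eq.2 h))

omit [Fact p.Prime] in
private theorem isMaxLocal_conj {M : Subgroup G} (hM : IsMaxLocal p M) (g : G) :
    IsMaxLocal p (M.map (MulAut.conj g).toMonoidHom) := by
  have hconj : ∀ (c : G) (T : Subgroup G),
      (Subgroup.normalizer (T : Set G)).map (MulAut.conj c).toMonoidHom =
        Subgroup.normalizer ((T.map (MulAut.conj c).toMonoidHom : Subgroup G) : Set G) := by
    intro c T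
    rw [Subgroup.map_equiv_normalizer_eq]
  have hne : ∀ (c : G) (T : Subgroup G), T ≠ ⊥ → T.map (MulAut.conj c).toMonoidHom ≠ ⊥ := by
    intro c T h h1
    exact h ((Subgroup.map_eq_bot_iff_of_injective _ (MulAut.conj c).injective).1 h1)
  obtain ⟨T, hT, h1, hMT⟩ := hM.1
  refine ⟨⟨_, hT.map _, hne g T h1, by rw [hMT, hconj]⟩, ?_⟩
  rintro L ⟨U, hU, hU1, rfl⟩ hle
  have hback : ∀ (c : G) (H : Subgroup G),
      (H.map (MulAut.conj c⁻¹).toMonoidHom).map (MulAut.conj c).toMonoidHom = H := by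
    intro c H
    rw [Subgroup.map_map, show (MulAut.conj c).toMonoidHom.comp (MulAut.conj c⁻¹).toMonoidHom =
      MonoidHom.id G from MonoidHom.ext fun x => by simp [mul_assoc], Subgroup.map_id]
  have h2 := hM.2 _ ⟨_, hU.map (MulAut.conj g⁻¹).toMonoidHom, hne g⁻¹ U hU1, rfl⟩ (by
    rw [← hconj]
    have := Subgroup.map_mono (f := (MulAut.conj g⁻¹).toMonoidHom) hle
    rwa [show (M.map (MulAut.conj g).toMonoidHom).map (MulAut.conj g⁻¹).toMonoidHom = M by
      have := hback g⁻¹ M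
      rwa [inv_inv] at this] at this)
  rw [← h2, ← hconj, hback]

/-- A pair of maximal locals containing each other's `O_p` is a primitive pair. -/
private theorem pair_of_pc_le (hloc : Cfsg.IsOfLocalCharacteristic p G) {M L : Subgroup G}
    (hM : IsMaxLocal p M) {A : Subgroup G} (hA : A ≠ ⊥) (hAML : A ≤ M ⊓ L)
    (hn : M ≤ Subgroup.normalizer (A : Set G)) :
    L ⊓ Subgroup.normalizer (A : Set G) = M ⊓ L := by
  obtain ⟨T, hT, hT1, hMT⟩ := hM.1
  have hchar : Subgroup.centralizer (Cfsg.pCore p M : Set M) ≤ Cfsg.pCore p M := by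
    subst hMT
    exact hloc.2 T hT hT1
  have hmeet : A ⊓ pc p M ≠ ⊥ := by
    intro h
    refine hA (le_bot_iff.1 (le_trans (le_inf le_rfl fun a ha => ?_) h.le))
    refine ⟨⟨a, (hAML ha).1⟩, hchar (Subgroup.mem_centralizer_iff.2 fun o ho => ?_), rfl⟩
    refine Subtype.ext ?_
    show (o : G) * a = a * o
    have hop : (o : G) ∈ pc p M := Subgroup.mem_map_of_mem _ ho
    have : ⁅(o : G), a⁆ ∈ A ⊓ pc p M := by
      refine ⟨?_, ?_⟩
      · rw [commutatorElement_def]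
        exact A.mul_mem ((Subgroup.mem_normalizer_iff.1 (hn o.2) a).1 ha) (A.inv_mem ha)
      · rw [commutatorElement_def]
        have h1 := (Subgroup.mem_normalizer_iff.1 (le_normalizer_pc M (hAML ha).1) (o : G)⁻¹).1
          ((pc p M).inv_mem hop)
        simpa [mul_assoc] using (pc p M).mul_mem hop h1
    rw [h, Subgroup.mem_bot, commutatorElement_eq_one_iff_mul_comm] at this
    exact this
  have hne : pc p A ≠ ⊥ := fun h => hmeet (le_bot_iff.1 (h ▸ le_pc
    ((pc_isPGroup M).to_le inf_le_right) inf_le_left (fun a ha =>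
      Subgroup.mem_normalizer_iff.2 fun x => by
        have h1 := Subgroup.mem_normalizer_iff.1 (le_normalizer_pc (p := p) M (hAML ha).1) x
        have h2 := Subgroup.mem_normalizer_iff.1 (Subgroup.le_normalizer (H := A) ha) x
        simp only [Subgroup.mem_inf]
        exact ⟨fun hx => ⟨h2.1 hx.1, h1.1 hx.2⟩, fun hx => ⟨h2.2 hx.1, h1.2 hx.2⟩⟩)))
  have hle : Subgroup.normalizer (A : Set G) ≤ M := by
    rw [← normalizer_eq hM (pc_isPGroup A) hne (hn.trans (normalizer_le_normalizer_pc A))]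
    exact normalizer_le_normalizer_pc A
  exact le_antisymm (le_inf (inf_le_right.trans hle) inf_le_left)
    (le_inf inf_le_right (inf_le_left.trans hn))

/-- Two distinct subgroups M₁, M₂ of G form a primitive pair when, for {i, j} = {1, 2}, every non-trivial normal subgroup A of M_i contained in M₁ ∩ M₂ satisfies N_{M_j}(A) = M₁ ∩ M₂; the pair has characteristic p when moreover C_{M_i}(O_p(M_i)) ≤ O_p(M_i) for both i and O_p(M₁)O_p(M₂) ≤ M₁ ∩ M₂. Let G be a finite group, p a prime dividing its order, with O_p(G) = 1 and every p-local subgroup of characteristic p. Then either G has a primitive pair of characteristic p, or every maximal p-local subgroup M of G is strongly p-embedded in G: M is a proper subgroup, p divides its order, and for every g ∉ M the order of M ∩ gMg⁻¹ is prime to p. -/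
theorem result {G : Type*} [Group G] [Finite G] {p : ℕ} [Fact p.Prime] (hloc : Cfsg.IsOfLocalCharacteristic p G) (hOp : Cfsg.pCore p G = ⊥) : (∃ M₁ M₂ : Subgroup G, M₁ ≠ M₂ ∧ (∀ A : Subgroup G, A ≠ ⊥ → A ≤ M₁ ⊓ M₂ → (M₁ ≤ Subgroup.normalizer (A : Set G) → M₂ ⊓ Subgroup.normalizer (A : Set G) = M₁ ⊓ M₂) ∧ (M₂ ≤ Subgroup.normalizer (A : Set G) → M₁ ⊓ Subgroup.normalizer (A : Set G) = M₁ ⊓ M₂)) ∧ Subgroup.centralizer (Cfsg.pCore p ↥M₁ : Set ↥M₁) ≤ Cfsg.pCore p ↥M₁ ∧ Subgroup.centralizer (Cfsg.pCore p ↥M₂ : Set ↥M₂) ≤ Cfsg.pCore p ↥M₂ ∧ (Cfsg.pCore p ↥M₁).map M₁.subtype ⊔ (Cfsg.pCore p ↥M₂).map M₂.subtype ≤ M₁ ⊓ M₂) ∨ (∀ M : Subgroup G, (∃ T : Subgroup G, IsPGroup p T ∧ T ≠ ⊥ ∧ M = Subgroup.normalizer (T : Set G)) → (∀ L : Subgroup G, (∃ T : Subgroup G, IsPGroup p T ∧ T ≠ ⊥ ∧ L = Subgroup.normalizer (T : Set G)) → M ≤ L → L = M) → M ≠ ⊤ ∧ p ∣ Nat.card M ∧ ∀ g : G, g ∉ M → ¬ p ∣ Nat.card ↥(M ⊓ M.map (MulAut.conj g).toMonoidHom)) := by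
  classical
  by_cases hgoal : ∃ M L : Subgroup G, IsMaxLocal p M ∧ IsMaxLocal p L ∧ M ≠ L ∧
      ∃ T : Subgroup G, IsPGroup p T ∧ T ≠ ⊥ ∧ T ≤ M ⊓ L
  · left
    obtain ⟨M₀, L₀, hM₀, hL₀, hne₀, T₀, hT₀⟩ := hgoal
    obtain ⟨⟨⟨M, L⟩, T⟩, ⟨hM, hL, hne, hT, hT1, hTle⟩, hmax⟩ := Set.exists_max_image
      {x : (Subgroup G × Subgroup G) × Subgroup G | IsMaxLocal p x.1.1 ∧ IsMaxLocal p x.1.2 ∧
        x.1.1 ≠ x.1.2 ∧ IsPGroup p x.2 ∧ x.2 ≠ ⊥ ∧ x.2 ≤ x.1.1 ⊓ x.1.2}
      (fun x => Nat.card x.2) (Set.toFinite _)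
      ⟨((M₀, L₀), T₀), hM₀, hL₀, hne₀, hT₀.1, hT₀.2.1, hT₀.2.2⟩
    simp only at hM hL hne hT hT1 hTle hmax
    -- a larger intersection forces equality
    have key : ∀ X Y : Subgroup G, IsMaxLocal p X → IsMaxLocal p Y → ∀ U : Subgroup G,
        IsPGroup p U → T < U → U ≤ X ⊓ Y → X = Y := by
      intro X Y hX hY U hU hTU hUle
      by_contra hXY
      exact (not_le.2 (Set.ncard_lt_ncard (SetLike.coe_ssubset_coe.2 hTU) (Set.toFinite _)))
        (by
          have := hmax ((X, Y), U) ⟨hX, hY, hXY, hU, ne_bot_of_gt hTU, hUle⟩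
          rwa [← Nat.card_coe_set_eq, ← Nat.card_coe_set_eq])
    -- finish with a pair in which `T` is maximal on both sides
    have finish : ∀ X Y : Subgroup G, IsMaxLocal p X → IsMaxLocal p Y → X ≠ Y → T ≤ X ⊓ Y →
        (∀ U : Subgroup G, IsPGroup p U → T ≤ U → U ≤ X → U = T) →
        (∀ U : Subgroup G, IsPGroup p U → T ≤ U → U ≤ Y → U = T) →
        ∃ M₁ M₂ : Subgroup G, M₁ ≠ M₂ ∧ (∀ A : Subgroup G, A ≠ ⊥ → A ≤ M₁ ⊓ M₂ →
          (M₁ ≤ Subgroup.normalizer (A : Set G) → M₂ ⊓ Subgroup.normalizer (A : Set G) = M₁ ⊓ M₂) ∧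
          (M₂ ≤ Subgroup.normalizer (A : Set G) → M₁ ⊓ Subgroup.normalizer (A : Set G) = M₁ ⊓ M₂)) ∧
          Subgroup.centralizer (Cfsg.pCore p ↥M₁ : Set ↥M₁) ≤ Cfsg.pCore p ↥M₁ ∧
          Subgroup.centralizer (Cfsg.pCore p ↥M₂ : Set ↥M₂) ≤ Cfsg.pCore p ↥M₂ ∧
          (Cfsg.pCore p ↥M₁).map M₁.subtype ⊔ (Cfsg.pCore p ↥M₂).map M₂.subtype ≤ M₁ ⊓ M₂ := by
      intro X Y hX hY hXY hTXY hXmax hYmax
      have hchar : ∀ Z : Subgroup G, IsMaxLocal p Z →
          Subgroup.centralizer (Cfsg.pCore p ↥Z : Set ↥Z) ≤ Cfsg.pCore p ↥Z := by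
        intro Z hZ
        obtain ⟨U, hU, hU1, rfl⟩ := hZ.1
        exact hloc.2 U hU hU1
      have hpc : ∀ Z : Subgroup G, T ≤ Z →
          (∀ U : Subgroup G, IsPGroup p U → T ≤ U → U ≤ Z → U = T) → pc p Z ≤ T := by
        intro Z hTZ hZ
        have := hZ (T ⊔ pc p Z)
          (hT.to_sup_of_normal_right' (pc_isPGroup Z) (hTZ.trans (le_normalizer_pc Z)))
          le_sup_left (sup_le hTZ (pc_le Z))
        exact le_sup_right.trans this.le
      refine ⟨X, Y, hXY, fun A hA hAXY => ⟨fun h => pair_of_pc_le hloc hX hA hAXY h,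
        fun h => ?_⟩, hchar X hX, hchar Y hY,
        sup_le ((hpc X (hTXY.trans inf_le_left) hXmax).trans hTXY)
          ((hpc Y (hTXY.trans inf_le_right) hYmax).trans hTXY)⟩
      rw [inf_comm X Y]
      exact pair_of_pc_le hloc hY hA (inf_comm X Y ▸ hAXY) h
    have grow : ∀ X : Subgroup G, T ≤ X → ∀ U : Subgroup G, IsPGroup p U → T ≤ U → U ≤ X → U ≠ T →
        ∃ s, s ∈ U ∧ s ∈ Subgroup.normalizer (T : Set G) ∧ s ∉ T := by
      intro X _ U hU hTU _ hne'
      haveI := hU.isNilpotent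
      have hlt : (T.subgroupOf U) < ⊤ := lt_top_iff_ne_top.2 fun h =>
        hne' (le_antisymm (Subgroup.subgroupOf_eq_top.1 h) hTU)
      obtain ⟨s, hs, hs'⟩ := SetLike.exists_of_lt (Group.normalizerCondition_of_isNilpotent _ hlt)
      refine ⟨s, s.2, ?_, hs'⟩
      rw [Subgroup.mem_normalizer_iff]
      intro x
      rw [Subgroup.mem_normalizer_iff] at hs
      constructor
      · intro hx
        exact (hs ⟨x, hTU hx⟩).1 hx
      · intro hx
        have hxU : x ∈ U := by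
          have := U.mul_mem (U.mul_mem (U.inv_mem s.2) (hTU hx)) s.2
          simpa [mul_assoc] using this
        exact (hs ⟨x, hxU⟩).2 hx
    obtain ⟨R, hR, hNR⟩ := exists_maxLocal_ge hT hT1
    have side : ∀ X : Subgroup G, IsMaxLocal p X → T ≤ X → X ≠ R →
        ∀ U : Subgroup G, IsPGroup p U → T ≤ U → U ≤ X → U = T := by
      intro X hX hTX hXR U hU hTU hUX
      by_contra hne'
      obtain ⟨s, hsU, hsN, hsT⟩ := grow X hTX U hU hTU hUX hne'
      refine hXR (key X R hX hR (T ⊔ Subgroup.zpowers s) (hU.to_le (sup_le hTU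
        (Subgroup.zpowers_le.2 hsU))) ?_ (le_inf (sup_le hTX (Subgroup.zpowers_le.2 (hUX hsU)))
        (sup_le (Subgroup.le_normalizer.trans hNR) (Subgroup.zpowers_le.2 (hNR hsN)))))
      exact lt_of_le_of_ne le_sup_left fun h => hsT (h ▸ Subgroup.mem_sup_right
        (Subgroup.mem_zpowers s))
    -- name the member in which `T` is maximal
    have main : ∀ X Y : Subgroup G, IsMaxLocal p X → IsMaxLocal p Y → X ≠ Y → T ≤ X ⊓ Y → Y ≠ R →
        ∃ M₁ M₂ : Subgroup G, M₁ ≠ M₂ ∧ (∀ A : Subgroup G, A ≠ ⊥ → A ≤ M₁ ⊓ M₂ →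
          (M₁ ≤ Subgroup.normalizer (A : Set G) → M₂ ⊓ Subgroup.normalizer (A : Set G) = M₁ ⊓ M₂) ∧
          (M₂ ≤ Subgroup.normalizer (A : Set G) → M₁ ⊓ Subgroup.normalizer (A : Set G) = M₁ ⊓ M₂)) ∧
          Subgroup.centralizer (Cfsg.pCore p ↥M₁ : Set ↥M₁) ≤ Cfsg.pCore p ↥M₁ ∧
          Subgroup.centralizer (Cfsg.pCore p ↥M₂ : Set ↥M₂) ≤ Cfsg.pCore p ↥M₂ ∧
          (Cfsg.pCore p ↥M₁).map M₁.subtype ⊔ (Cfsg.pCore p ↥M₂).map M₂.subtype ≤ M₁ ⊓ M₂ := by
      intro X Y hX hY hXY hTXY hYR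
      have hYmax := side Y hY (hTXY.trans inf_le_right) hYR
      by_cases hXmax : ∀ U : Subgroup G, IsPGroup p U → T ≤ U → U ≤ X → U = T
      · exact finish X Y hX hY hXY hTXY hXmax hYmax
      · push Not at hXmax
        obtain ⟨U, hU, hTU, hUX, hne'⟩ := hXmax
        obtain ⟨s, hsU, hsN, hsT⟩ := grow X (hTXY.trans inf_le_left) U hU hTU hUX hne'
        have hTY := hTXY.trans inf_le_right
        have hsY : s ∉ Y := fun h => hsT (by
          have := hYmax (T ⊔ Subgroup.zpowers s)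
            (hU.to_le (sup_le hTU (Subgroup.zpowers_le.2 hsU))) le_sup_left
            (sup_le hTY (Subgroup.zpowers_le.2 h))
          exact this ▸ Subgroup.mem_sup_right (Subgroup.mem_zpowers s))
        have hTs := Subgroup.mem_normalizer_iff_map_conj_eq.1 hsN
        refine finish Y (Y.map (MulAut.conj s).toMonoidHom) hY (isMaxLocal_conj hY s)
          (map_conj_ne hY hsY).symm (le_inf hTY (hTs.ge.trans (Subgroup.map_mono hTY))) hYmax ?_
        intro V hV hTV hVY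
        have h1 := hYmax (V.map (MulAut.conj s⁻¹).toMonoidHom) (hV.map _) ?_ ?_
        · rw [← hTs, ← h1]
          ext v
          constructor
          · intro hv
            exact ⟨_, ⟨v, hv, rfl⟩, by simp [mul_assoc]⟩
          · rintro ⟨_, ⟨w, hw, rfl⟩, rfl⟩
            simpa [mul_assoc] using hw
        · intro t ht
          exact ⟨s * t * s⁻¹, hTV ((Subgroup.mem_normalizer_iff.1 hsN t).1 ht), by simp [mul_assoc]⟩
        · rintro _ ⟨v, hv, rfl⟩
          obtain ⟨y, hy, hyv⟩ := hVY hv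
          rw [← hyv]
          simpa [mul_assoc] using hy
    by_cases hLR : L = R
    · exact main L M hL hM (Ne.symm hne) (inf_comm M L ▸ hTle) (hLR ▸ hne)
    · exact main M L hM hL hne hTle hLR
  · right
    intro M hM hmax
    have hMmax : IsMaxLocal p M := ⟨hM, hmax⟩
    obtain ⟨T, hT, hT1, hMT⟩ := hM
    refine ⟨fun h => hT1 ?_, ?_, fun g hg hdvd => ?_⟩
    · haveI : T.Normal := Subgroup.normalizer_eq_top_iff.1 (hMT.symm.trans h)
      exact le_bot_iff.1 (hOp ▸ CfsgLib.Cores.le_pCore hT)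
    · obtain ⟨k, hk⟩ := hT.exists_card_eq
      have hk0 : k ≠ 0 := fun h => hT1 (Subgroup.eq_bot_of_card_eq T (by rw [hk, h, pow_zero]))
      exact (dvd_pow_self p hk0).trans (hk ▸ Subgroup.card_dvd_of_le
        (hMT ▸ Subgroup.le_normalizer))
    · refine hgoal ⟨M, _, hMmax, isMaxLocal_conj hMmax g, (map_conj_ne hMmax hg).symm, ?_⟩
      obtain ⟨z, hz⟩ := exists_prime_orderOf_dvd_card' p hdvd
      have hzo : orderOf (z : G) = p := by rw [Subgroup.orderOf_coe, hz]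
      refine ⟨Subgroup.zpowers (z : G), IsPGroup.of_card (n := 1) (by
        rw [Nat.card_zpowers, hzo, pow_one]), fun h => ?_, Subgroup.zpowers_le.2 z.2⟩
      rw [Subgroup.zpowers_eq_bot] at h
      rw [h, orderOf_one] at hzo
      exact (Fact.out : p.Prime).one_lt.ne hzo

end Cfsg.Agent.S3751
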