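import Cfsg.Statements.S3752
import Cfsg.Agent.Lib.Cores.GenFitting
import Cfsg.Agent.Lib.Cores.PCore
import Cfsg.Agent.Lib.Subnormal.Basic

set_option autoImplicit false
open Cfsg

namespace Cfsg.Agent.S3752

open scoped commutatorElement

variable {G : Type*} [Group G]

/-- Fitting subgroup of a subgroup, inside the group. -/
def fitIn (M : Subgroup G) : Subgroup G := (Cfsg.fittingSubgroup ↥M).map M.subtype

/-- `O_p` of a subgroup, inside the group. -/
def opAt (p : ℕ) (M : Subgroup G) : Subgroup G := (Cfsg.pCore p ↥M).map M.subtype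

/-- The `p'`-part of the Fitting subgroup of a subgroup. -/
def qAt (p : ℕ) (M : Subgroup G) : Subgroup G :=
  (Cfsg.pPrimeCore p ↥M ⊓ Cfsg.fittingSubgroup ↥M).map M.subtype

theorem le_normalizer_map_of_normal {M : Subgroup G} (X : Subgroup ↥M) [X.Normal] :
    M ≤ Subgroup.normalizer ((X.map M.subtype : Subgroup G) : Set G) := by
  have h := Subgroup.le_normalizer_map (H := X) M.subtype
  rwa [Subgroup.normalizer_eq_top, ← MonoidHom.range_eq_map, Subgroup.range_subtype] at h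

theorem commute_of_normalizing {A B : Subgroup G} (hA : B ≤ Subgroup.normalizer (A : Set G))
    (hB : A ≤ Subgroup.normalizer (B : Set G)) (h : A ⊓ B = ⊥) {a b : G} (ha : a ∈ A) (hb : b ∈ B) :
    Commute a b := by
  have h1 : a * b * a⁻¹ * b⁻¹ ∈ A ⊓ B := by
    refine ⟨?_, ?_⟩
    · have := A.mul_mem ha ((Subgroup.mem_normalizer_iff.1 (hA hb) a⁻¹).1 (A.inv_mem ha))
      simpa [mul_assoc] using this
    · exact B.mul_mem ((Subgroup.mem_normalizer_iff.1 (hB ha) b).1 hb) (B.inv_mem hb)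
  rw [h, Subgroup.mem_bot] at h1
  exact mul_inv_eq_iff_eq_mul.1 (mul_inv_eq_one.1 h1)

variable [Finite G]

theorem inf_opAt_qAt (p : ℕ) [Fact p.Prime] (M₁ M₂ : Subgroup G) : opAt p M₁ ⊓ qAt p M₂ = ⊥ := by
  rw [Subgroup.inf_eq_bot_of_coprime]
  obtain ⟨k, hk⟩ := IsPGroup.iff_card.1 ((CfsgLib.Cores.isPGroup_pCore p ↥M₁).map M₁.subtype)
  rw [show Nat.card ↥(opAt p M₁) = p ^ k from hk]
  refine Nat.Coprime.pow_left k (Nat.Coprime.symm ?_)
  unfold qAt
  rw [Subgroup.card_subtype]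
  exact CfsgLib.Cores.card_coprime_of_le_pPrimeCore inf_le_left

theorem mem_opAt {p : ℕ} [Fact p.Prime] {M : Subgroup G} {x : G} (hx : x ∈ fitIn M) {n : ℕ}
    (hn : x ^ p ^ n = 1) : x ∈ opAt p M := by
  obtain ⟨y, hy, rfl⟩ := hx
  refine Subgroup.mem_map_of_mem _ (CfsgLib.Cores.le_pCore_of_subnormal ?_ ?_ (Subgroup.mem_zpowers y))
  · haveI := CfsgLib.Cores.isNilpotent_fittingSubgroup (G := ↥M)
    exact Subgroup.IsSubnormal.trans (Subgroup.zpowers_le.2 hy) (CfsgLib.Subnormal.isSubnormal_of_isNilpotent _)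
      (CfsgLib.Cores.fittingSubgroup_normal ↥M).isSubnormal
  · have h : orderOf y ∣ p ^ n := orderOf_dvd_of_pow_eq_one (Subtype.ext (by simpa using hn))
    obtain ⟨k, -, hk⟩ := (Nat.dvd_prime_pow Fact.out).1 h
    exact IsPGroup.of_card (n := k) (by rw [Nat.card_zpowers, hk])

theorem mem_qAt {p : ℕ} {M : Subgroup G} {x : G} (hx : x ∈ fitIn M)
    (hn : (orderOf x).Coprime p) : x ∈ qAt p M := by
  obtain ⟨y, hy, rfl⟩ := hx
  refine Subgroup.mem_map_of_mem _ ⟨CfsgLib.Cores.le_pPrimeCore_of_subnormal ?_ ?_ (Subgroup.mem_zpowers y), hy⟩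
  · haveI := CfsgLib.Cores.isNilpotent_fittingSubgroup (G := ↥M)
    exact Subgroup.IsSubnormal.trans (Subgroup.zpowers_le.2 hy) (CfsgLib.Subnormal.isSubnormal_of_isNilpotent _)
      (CfsgLib.Cores.fittingSubgroup_normal ↥M).isSubnormal
  · rw [Nat.card_zpowers, ← Subgroup.orderOf_coe]
    exact hn

theorem qAt_le (p : ℕ) {M₁ M₂ : Subgroup G} [hp : Fact p.Prime]
    (hprim : ∀ A : Subgroup G, A ≠ ⊥ → A ≤ M₁ ⊓ M₂ → M₂ ≤ Subgroup.normalizer (A : Set G) →
      M₁ ⊓ Subgroup.normalizer (A : Set G) = M₁ ⊓ M₂)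
    (hF1 : fitIn M₁ ≤ M₂) (hF2 : fitIn M₂ ≤ M₁)
    (hC : ∀ g ∈ M₁, (∀ f ∈ fitIn M₁, Commute g f) → g ∈ fitIn M₁)
    (hP2 : opAt p M₂ ≠ ⊥) : qAt p M₂ ≤ qAt p M₁ := by
  set D := M₁ ⊓ M₂ with hD
  have hP1F : opAt p M₁ ≤ fitIn M₁ := Subgroup.map_mono (CfsgLib.Cores.pCore_le_fittingSubgroup p)
  have hP2F : opAt p M₂ ≤ fitIn M₂ := Subgroup.map_mono (CfsgLib.Cores.pCore_le_fittingSubgroup p)
  have hQ1F : qAt p M₁ ≤ fitIn M₁ := Subgroup.map_mono inf_le_right
  have hQ2F : qAt p M₂ ≤ fitIn M₂ := Subgroup.map_mono inf_le_right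
  have hP1D : opAt p M₁ ≤ D := le_inf (Subgroup.map_subtype_le _) (hP1F.trans hF1)
  have hP2D : opAt p M₂ ≤ D := le_inf (hP2F.trans hF2) (Subgroup.map_subtype_le _)
  have hQ1D : qAt p M₁ ≤ D := le_inf (Subgroup.map_subtype_le _) (hQ1F.trans hF1)
  have hQ2D : qAt p M₂ ≤ D := le_inf (hQ2F.trans hF2) (Subgroup.map_subtype_le _)
  have hN1 : M₁ ≤ Subgroup.normalizer ((opAt p M₁ : Subgroup G) : Set G) := le_normalizer_map_of_normal _
  have hN2 : M₂ ≤ Subgroup.normalizer ((opAt p M₂ : Subgroup G) : Set G) := le_normalizer_map_of_normal _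
  have hNQ1 : M₁ ≤ Subgroup.normalizer ((qAt p M₁ : Subgroup G) : Set G) := le_normalizer_map_of_normal _
  have hNQ2 : M₂ ≤ Subgroup.normalizer ((qAt p M₂ : Subgroup G) : Set G) := le_normalizer_map_of_normal _
  have c21 : ∀ y ∈ opAt p M₂, ∀ b ∈ qAt p M₁, Commute y b := fun y hy b hb =>
    commute_of_normalizing ((hQ1D.trans inf_le_right).trans hN2) ((hP2D.trans inf_le_left).trans hNQ1)
      (inf_opAt_qAt p M₂ M₁) hy hb
  have c12 : ∀ y ∈ opAt p M₁, ∀ b ∈ qAt p M₂, Commute y b := fun y hy b hb =>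
    commute_of_normalizing ((hQ2D.trans inf_le_left).trans hN1) ((hP1D.trans inf_le_right).trans hNQ2)
      (inf_opAt_qAt p M₁ M₂) hy hb
  -- `p'`-elements of `C_{M₁}(P₁)` centralise `P₂`
  have key : ∀ x ∈ M₁, (orderOf x).Coprime p → (∀ a ∈ opAt p M₁, Commute x a) →
      ∀ y ∈ opAt p M₂, Commute x y := by
    intro x hx hxo hxP y hy
    have hyM : y ∈ M₁ := (hP2D hy).1
    set h := x * y * x⁻¹ * y⁻¹ with hh
    have hhM : h ∈ M₁ := M₁.mul_mem (M₁.mul_mem (M₁.mul_mem hx hyM) (M₁.inv_mem hx)) (M₁.inv_mem hyM)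
    -- `h` commutes with the `p`-part and with the `p'`-part of the Fitting subgroup
    have hcP : ∀ a ∈ opAt p M₁, Commute h a := by
      intro a ha
      have ha' : y⁻¹ * a * y ∈ opAt p M₁ := by
        simpa using (Subgroup.mem_normalizer_iff.1 (hN1 (M₁.inv_mem hyM)) a).1 ha
      have h1 : Commute x (y⁻¹ * a * y) := hxP _ ha'
      calc h * a = x * y * (x⁻¹ * (y⁻¹ * a * y)) * y⁻¹ := by rw [hh]; group
        _ = x * y * ((y⁻¹ * a * y) * x⁻¹) * y⁻¹ := by rw [h1.inv_left.eq]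
        _ = (x * a) * y * x⁻¹ * y⁻¹ := by group
        _ = a * h := by rw [(hxP a ha).eq, hh]; group
    have hcQ : ∀ a ∈ qAt p M₁, Commute h a := by
      intro a ha
      have ha' : x⁻¹ * a * x ∈ qAt p M₁ := by
        simpa using (Subgroup.mem_normalizer_iff.1 (hNQ1 (M₁.inv_mem hx)) a).1 ha
      have h1 : Commute y (x⁻¹ * a * x) := c21 y hy _ ha'
      calc h * a = x * y * x⁻¹ * (y⁻¹ * a) := by rw [hh]; group
        _ = x * y * x⁻¹ * (a * y⁻¹) := by rw [(c21 y hy a ha).inv_left.eq]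
        _ = x * (y * (x⁻¹ * a * x)) * x⁻¹ * y⁻¹ := by group
        _ = x * ((x⁻¹ * a * x) * y) * x⁻¹ * y⁻¹ := by rw [h1.eq]
        _ = a * h := by rw [hh]; group
    have split : ∀ g ∈ fitIn M₁, ∃ a ∈ opAt p M₁, ∃ b ∈ qAt p M₁,
        g = a * b ∧ a ∈ Subgroup.zpowers g ∧ b ∈ Subgroup.zpowers g := by
      intro g hg
      obtain ⟨n, m, hm, hnm⟩ := Nat.exists_eq_pow_mul_and_not_dvd (orderOf_pos g).ne' p hp.out.ne_one
      have hcop : (m : ℕ).Coprime (p ^ n) :=
        Nat.Coprime.pow_right n ((hp.out.coprime_iff_not_dvd.2 hm).symm)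
      obtain ⟨u, v, huv⟩ : ∃ u v : ℤ, (m : ℤ) * u + ((p ^ n : ℕ) : ℤ) * v = 1 :=
        ⟨Nat.gcdA m (p ^ n), Nat.gcdB m (p ^ n), by rw [← Nat.gcd_eq_gcd_ab, hcop]; rfl⟩
      refine ⟨g ^ ((m : ℤ) * u), mem_opAt ((fitIn M₁).zpow_mem hg _) (n := n) ?_,
        g ^ (((p ^ n : ℕ) : ℤ) * v), mem_qAt ((fitIn M₁).zpow_mem hg _) ?_,
        by rw [← zpow_add, huv, zpow_one], Subgroup.zpow_mem _ (Subgroup.mem_zpowers g) _,
        Subgroup.zpow_mem _ (Subgroup.mem_zpowers g) _⟩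
      · rw [← zpow_natCast (g ^ ((m : ℤ) * u)), ← zpow_mul,
          show (m : ℤ) * u * ((p ^ n : ℕ) : ℤ) = ((p ^ n * m : ℕ) : ℤ) * u by push_cast; ring,
          zpow_mul, zpow_natCast, ← hnm, pow_orderOf_eq_one, one_zpow]
      · refine (Nat.Coprime.coprime_dvd_left ?_ (hp.out.coprime_iff_not_dvd.2 hm).symm)
        apply orderOf_dvd_of_pow_eq_one
        rw [← zpow_natCast, ← zpow_mul,
          show ((p ^ n : ℕ) : ℤ) * v * (m : ℤ) = ((p ^ n * m : ℕ) : ℤ) * v by push_cast; ring,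
          zpow_mul, zpow_natCast, ← hnm, pow_orderOf_eq_one, one_zpow]
    have hhF : h ∈ fitIn M₁ := by
      refine hC h hhM fun f hf => ?_
      obtain ⟨a, ha, b, hb, rfl, -, -⟩ := split f hf
      exact (hcP a ha).mul_right (hcQ b hb)
    obtain ⟨a, ha, b, hb, hab, haz, -⟩ := split h hhF
    have hb1 : b = 1 := by
      have hyb : Commute (a * y) b := by
        have h1 : Commute a b := by
          obtain ⟨i, hi⟩ := Subgroup.mem_zpowers_iff.1 haz
          exact hi ▸ (hcQ b hb).zpow_left i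
        exact h1.mul_left (c21 y hy b hb)
      have hU : IsPGroup p ↥(opAt p M₁ ⊔ opAt p M₂ : Subgroup G) :=
        IsPGroup.to_sup_of_normal_left' ((CfsgLib.Cores.isPGroup_pCore p ↥M₁).map _)
          ((CfsgLib.Cores.isPGroup_pCore p ↥M₂).map _) ((hP2D.trans inf_le_left).trans hN1)
      obtain ⟨i, hi⟩ := hU ⟨a * y, Subgroup.mul_mem_sup ha hy⟩
      have hi' : (a * y) ^ p ^ i = 1 := congrArg Subtype.val hi
      obtain ⟨j, hj⟩ := ((CfsgLib.Cores.isPGroup_pCore p ↥M₂).map M₂.subtype) ⟨y, hy⟩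
      have hj' : y ^ p ^ j = 1 := congrArg Subtype.val hj
      have hxy : x * y * x⁻¹ = (a * y) * b := by
        calc x * y * x⁻¹ = h * y := by rw [hh]; group
          _ = a * (b * y) := by rw [hab, mul_assoc]
          _ = a * (y * b) := by rw [(c21 y hy b hb).eq]
          _ = (a * y) * b := (mul_assoc _ _ _).symm
      have h1 : b ^ p ^ (i + j) = 1 := by
        have h2 : (x * y * x⁻¹) ^ p ^ (i + j) = 1 := by
          rw [← MulAut.conj_apply, ← map_pow, pow_add, mul_comm, pow_mul, hj', one_pow, map_one]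
        rw [hxy, hyb.mul_pow, pow_add p i j, pow_mul (a * y), hi', one_pow, one_mul, ← pow_add] at h2
        exact h2
      have h3 : b ∈ opAt p M₁ := mem_opAt (hQ1F hb) h1
      exact (Subgroup.eq_bot_iff_forall _).1 (inf_opAt_qAt p M₁ M₁) b ⟨h3, hb⟩
    rw [hb1, mul_one] at hab
    have hhP : h ∈ opAt p M₁ := hab ▸ ha
    have hxh : Commute x h := hxP h hhP
    have hk : ∀ k : ℕ, x ^ k * y * (x ^ k)⁻¹ = h ^ k * y := by
      intro k
      induction k with
      | zero => simp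
      | succ k ih =>
        calc x ^ (k + 1) * y * (x ^ (k + 1))⁻¹ = x * (x ^ k * y * (x ^ k)⁻¹) * x⁻¹ := by
              rw [pow_succ' x k]; group
          _ = (x * h ^ k) * y * x⁻¹ := by rw [ih]; group
          _ = h ^ k * (x * y * x⁻¹ * y⁻¹) * y := by rw [(hxh.pow_right k).eq]; group
          _ = h ^ (k + 1) * y := by rw [pow_succ]
    have h4 := hk (orderOf x)
    rw [pow_orderOf_eq_one, one_mul, inv_one, mul_one] at h4
    have h5 : h ^ orderOf x = 1 := right_eq_mul.1 h4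
    obtain ⟨i, hi⟩ := ((CfsgLib.Cores.isPGroup_pCore p ↥M₁).map M₁.subtype) ⟨h, hhP⟩
    have hi' : h ^ p ^ i = 1 := congrArg Subtype.val hi
    have h6 := pow_gcd_eq_one.2 ⟨h5, hi'⟩
    rw [Nat.Coprime.gcd_eq_one (hxo.pow_right i), pow_one] at h6
    exact mul_inv_eq_iff_eq_mul.1 (mul_inv_eq_one.1 h6)
  -- the closure of these elements
  set S : Set G := {x | x ∈ M₁ ∧ (orderOf x).Coprime p ∧ ∀ a ∈ opAt p M₁, Commute x a} with hS
  set J := Subgroup.closure S with hJ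
  have hJM : J ≤ M₁ := (Subgroup.closure_le _).2 fun x hx => hx.1
  have hJD : J ≤ D := by
    refine (Subgroup.closure_le _).2 fun x hx => ?_
    show x ∈ D
    rw [← hprim _ hP2 hP2D hN2]
    refine ⟨hx.1, Subgroup.centralizer_le_normalizer _ (Subgroup.mem_centralizer_iff.2 fun y hy => ?_)⟩
    exact (key x hx.1 hx.2.1 hx.2.2 y hy).symm.eq
  have hJn : M₁ ≤ Subgroup.normalizer (J : Set G) := by
    have hc : ∀ g ∈ M₁, ∀ z ∈ J, g * z * g⁻¹ ∈ J := by
      intro g hg z hz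
      have : J.map (MulAut.conj g).toMonoidHom ≤ J := by
        rw [hJ, MonoidHom.map_closure]
        refine Subgroup.closure_mono ?_
        rintro _ ⟨x, ⟨hxM, hxo, hxc⟩, rfl⟩
        refine ⟨M₁.mul_mem (M₁.mul_mem hg hxM) (M₁.inv_mem hg), ?_, fun a ha => ?_⟩
        · rwa [show ((MulAut.conj g).toMonoidHom x) = (MulAut.conj g) x from rfl, MulEquiv.orderOf_eq]
        · have ha' : g⁻¹ * a * g ∈ opAt p M₁ := by
            simpa using (Subgroup.mem_normalizer_iff.1 (hN1 (M₁.inv_mem hg)) a).1 ha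
          have := (hxc _ ha').map (MulAut.conj g).toMonoidHom
          simpa [mul_assoc] using this
      exact this (Subgroup.mem_map_of_mem _ hz)
    intro g hg
    rw [Subgroup.mem_normalizer_iff]
    refine fun z => ⟨hc g hg z, fun hz => ?_⟩
    simpa [mul_assoc] using hc g⁻¹ (M₁.inv_mem hg) _ hz
  have hQJ : qAt p M₂ ≤ J := fun x hx => Subgroup.subset_closure
    ⟨(hQ2D hx).1, by
      have h1 := Subgroup.orderOf_dvd_natCard _ hx
      unfold qAt at h1
      rw [Subgroup.card_subtype] at h1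
      exact (CfsgLib.Cores.card_coprime_of_le_pPrimeCore inf_le_left).coprime_dvd_left h1,
    fun a ha => (c12 a ha x hx).symm⟩
  have hsn : ((qAt p M₂).subgroupOf M₁).IsSubnormal := by
    refine Subgroup.IsSubnormal.step _ (J.subgroupOf M₁) (Subgroup.comap_mono hQJ)
      ((Subgroup.normal_subgroupOf_iff_le_normalizer hJM).2 hJn).isSubnormal ?_
    rw [Subgroup.normal_subgroupOf_iff_le_normalizer
      (show (qAt p M₂).subgroupOf M₁ ≤ J.subgroupOf M₁ from Subgroup.comap_mono hQJ)]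
    exact (Subgroup.comap_mono ((hJD.trans inf_le_right).trans hNQ2)).trans
      (Subgroup.le_normalizer_comap M₁.subtype)
  have hQ2M : qAt p M₂ ≤ M₁ := hQ2D.trans inf_le_left
  have hnil : Group.IsNilpotent ↥((qAt p M₂).subgroupOf M₁) := by
    haveI := CfsgLib.Cores.isNilpotent_fittingSubgroup (G := ↥M₂)
    haveI h1 : Group.IsNilpotent ↥(Cfsg.pPrimeCore p ↥M₂ ⊓ Cfsg.fittingSubgroup ↥M₂ : Subgroup ↥M₂) :=
      Group.nilpotent_of_mulEquiv (Subgroup.subgroupOfEquivOfLe (inf_le_right :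
        Cfsg.pPrimeCore p ↥M₂ ⊓ Cfsg.fittingSubgroup ↥M₂ ≤ Cfsg.fittingSubgroup ↥M₂))
    exact Group.nilpotent_of_mulEquiv ((Subgroup.equivMapOfInjective _ M₂.subtype M₂.subtype_injective).trans
      (Subgroup.subgroupOfEquivOfLe hQ2M).symm)
  rw [← Subgroup.map_subgroupOf_eq_of_le hQ2M]
  refine Subgroup.map_mono (le_inf (CfsgLib.Cores.le_pPrimeCore_of_subnormal hsn ?_)
    (CfsgLib.Cores.le_fittingSubgroup_of_subnormal hsn hnil))
  rw [Nat.card_congr (Subgroup.subgroupOfEquivOfLe hQ2M).toEquiv]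
  unfold qAt
  rw [Subgroup.card_subtype]
  exact CfsgLib.Cores.card_coprime_of_le_pPrimeCore inf_le_left

theorem component_transfer {M₁ D : Subgroup G} (hDM : D ≤ M₁)
    (hF : (Cfsg.generalizedFittingSubgroup ↥M₁).map M₁.subtype ≤ D) :
    (Cfsg.layer ↥D).map D.subtype = (Cfsg.layer ↥M₁).map M₁.subtype := by
  set F := Cfsg.generalizedFittingSubgroup ↥M₁ with hFdef
  set D' := D.subgroupOf M₁ with hD'
  set e : ↥D' ≃* ↥D := Subgroup.subgroupOfEquivOfLe hDM with he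
  have hrw : (Cfsg.layer ↥D).map D.subtype = ((Cfsg.layer ↥D').map D'.subtype).map M₁.subtype := by
    rw [← CfsgLib.Cores.map_layer_equiv e, Subgroup.map_map, Subgroup.map_map]
    rfl
  rw [hrw]
  congr 1
  have hFD : F ≤ D' := fun f hf => hF (Subgroup.mem_map_of_mem _ hf)
  refine le_antisymm ?_ (CfsgLib.Cores.layer_le_of_forall fun K hK =>
    ((CfsgLib.Cores.le_layer hK).trans le_sup_left).trans hFD)
  rw [Cfsg.layer, (Subgroup.gc_map_comap D'.subtype).l_sSup]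
  refine iSup₂_le fun K hK => ?_
  have hsn : (F.subgroupOf D').IsSubnormal := ((inferInstance : F.Normal).subgroupOf D').isSubnormal
  rcases CfsgLib.Cores.le_or_commutator_eq_bot hK hsn with h | h
  · have hKF : K.map D'.subtype ≤ F := (Subgroup.map_mono h).trans (Subgroup.map_subgroupOf_eq_of_le hFD).le
    refine CfsgLib.Cores.le_layer ⟨?_, (CfsgLib.Cores.isQuasisimple_congr
      (K.equivMapOfInjective D'.subtype D'.subtype_injective)).1 hK.2⟩
    refine Subgroup.IsSubnormal.trans hKF ?_ (inferInstance : F.Normal).isSubnormal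
    have hK2 : (K.map D'.subtype).subgroupOf F = K.comap (Subgroup.inclusion hFD) := by
      ext ⟨f, hf⟩
      constructor
      · rintro ⟨k, hk, rfl⟩; exact hk
      · intro hk; exact ⟨⟨f, hFD hf⟩, hk, rfl⟩
    rw [hK2]
    exact hK.1.comap _
  · exfalso
    apply CfsgLib.Cores.ne_bot_of_isComponent hK
    have hc : K.map D'.subtype ≤ Subgroup.centralizer (F : Set ↥M₁) := by
      rw [← Subgroup.commutator_eq_bot_iff_le_centralizer]
      have := congrArg (Subgroup.map D'.subtype) h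
      rwa [Subgroup.map_commutator, Subgroup.map_subgroupOf_eq_of_le hFD, Subgroup.map_bot] at this
    have h2 : K.map D'.subtype ≤ Subgroup.centralizer ((K.map D'.subtype : Subgroup ↥M₁) : Set ↥M₁) :=
      hc.trans (Subgroup.centralizer_le
        (SetLike.coe_subset_coe.2 (hc.trans CfsgLib.Cores.centralizer_generalizedFittingSubgroup_le)))
    rw [← Subgroup.commutator_eq_bot_iff_le_centralizer, ← Subgroup.map_commutator,
      CfsgLib.Cores.commutator_self_eq_of_isComponent hK,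
      Subgroup.map_eq_bot_iff_of_injective _ D'.subtype_injective] at h2
    exact h2

/-- Bender's Theorem on primitive pairs. Two distinct subgroups M₁, M₂ of G form a primitive pair when, for {i, j} = {1, 2}, every non-trivial normal subgroup A of M_i contained in M₁ ∩ M₂ satisfies N_{M_j}(A) = M₁ ∩ M₂; the pair has characteristic p when moreover C_{M_i}(O_p(M_i)) ≤ O_p(M_i) for both i and O_p(M₁)O_p(M₂) ≤ M₁ ∩ M₂. If (M₁, M₂) is a primitive pair of the finite group G with F*(M₁) ≤ M₂ and F*(M₂) ≤ M₁, then for some prime p the pair has characteristic p. -/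
theorem result {G : Type*} [Group G] [Finite G] (M₁ M₂ : Subgroup G) (hne : M₁ ≠ M₂) (hP : ∀ A : Subgroup G, A ≠ ⊥ → A ≤ M₁ ⊓ M₂ → (M₁ ≤ Subgroup.normalizer (A : Set G) → M₂ ⊓ Subgroup.normalizer (A : Set G) = M₁ ⊓ M₂) ∧ (M₂ ≤ Subgroup.normalizer (A : Set G) → M₁ ⊓ Subgroup.normalizer (A : Set G) = M₁ ⊓ M₂)) (h₁ : (Cfsg.generalizedFittingSubgroup ↥M₁).map M₁.subtype ≤ M₂) (h₂ : (Cfsg.generalizedFittingSubgroup ↥M₂).map M₂.subtype ≤ M₁) : ∃ p : ℕ, p.Prime ∧ Subgroup.centralizer (Cfsg.pCore p ↥M₁ : Set ↥M₁) ≤ Cfsg.pCore p ↥M₁ ∧ Subgroup.centralizer (Cfsg.pCore p ↥M₂ : Set ↥M₂) ≤ Cfsg.pCore p ↥M₂ ∧ (Cfsg.pCore p ↥M₁).map M₁.subtype ⊔ (Cfsg.pCore p ↥M₂).map M₂.subtype ≤ M₁ ⊓ M₂ := by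
  set D := M₁ ⊓ M₂ with hD
  have hboth : ∀ A : Subgroup G, A ≤ D → M₁ ≤ Subgroup.normalizer (A : Set G) →
      M₂ ≤ Subgroup.normalizer (A : Set G) → A = ⊥ := by
    intro A hA n1 n2
    by_contra h
    obtain ⟨q1, q2⟩ := hP A h hA
    have e1 := q1 n1
    have e2 := q2 n2
    rw [inf_eq_left.2 n2] at e1
    rw [inf_eq_left.2 n1] at e2
    exact hne (e2.trans e1.symm)
  have hE12 : (Cfsg.layer ↥M₁).map M₁.subtype = (Cfsg.layer ↥M₂).map M₂.subtype := by
    rw [← component_transfer (M₁ := M₁) (D := D) inf_le_left (le_inf (Subgroup.map_subtype_le _) h₁),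
      component_transfer (M₁ := M₂) (D := D) inf_le_right (le_inf h₂ (Subgroup.map_subtype_le _))]
  have hE0 : (Cfsg.layer ↥M₁).map M₁.subtype = ⊥ := by
    refine hboth _ (le_inf (Subgroup.map_subtype_le _) ((Subgroup.map_mono le_sup_left).trans h₁))
      (le_normalizer_map_of_normal _) ?_
    rw [hE12]
    exact le_normalizer_map_of_normal _
  have hF1 : Cfsg.generalizedFittingSubgroup ↥M₁ = Cfsg.fittingSubgroup ↥M₁ := by
    rw [Cfsg.generalizedFittingSubgroup,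
      (Subgroup.map_eq_bot_iff_of_injective _ M₁.subtype_injective).1 hE0, bot_sup_eq]
  have hF2 : Cfsg.generalizedFittingSubgroup ↥M₂ = Cfsg.fittingSubgroup ↥M₂ := by
    rw [Cfsg.generalizedFittingSubgroup,
      (Subgroup.map_eq_bot_iff_of_injective _ M₂.subtype_injective).1 (hE12.symm.trans hE0), bot_sup_eq]
  have hC : ∀ M : Subgroup G, Cfsg.generalizedFittingSubgroup ↥M = Cfsg.fittingSubgroup ↥M →
      ∀ g ∈ M, (∀ f ∈ fitIn M, Commute g f) → g ∈ fitIn M := by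
    intro M hM g hg hc
    have h := CfsgLib.Cores.centralizer_generalizedFittingSubgroup_le (G := ↥M)
    rw [hM] at h
    refine ⟨⟨g, hg⟩, h (Subgroup.mem_centralizer_iff.2 fun f hf => Subtype.ext ?_), rfl⟩
    exact (hc f (Subgroup.mem_map_of_mem _ hf)).symm.eq
  have h1 : fitIn M₁ ≤ M₂ := (Subgroup.map_mono hF1.ge).trans h₁
  have h2 : fitIn M₂ ≤ M₁ := (Subgroup.map_mono hF2.ge).trans h₂
  have hD1 : fitIn M₁ ≤ D := le_inf (Subgroup.map_subtype_le _) h1
  have hD2 : fitIn M₂ ≤ D := le_inf h2 (Subgroup.map_subtype_le _)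
  have hint : fitIn M₁ ⊓ fitIn M₂ ≠ ⊥ := by
    intro h
    have hle : fitIn M₂ ≤ fitIn M₁ := fun y hy => hC M₁ hF1 y (hD2 hy).1 fun f hf =>
      (commute_of_normalizing ((hD2.trans inf_le_left).trans (le_normalizer_map_of_normal _))
        ((hD1.trans inf_le_right).trans (le_normalizer_map_of_normal _)) h hf hy).symm
    rw [inf_eq_right.2 hle] at h
    have hM2 : M₂ = ⊥ := by
      by_contra hM
      haveI : Nontrivial ↥M₂ := (Subgroup.nontrivial_iff_ne_bot M₂).2 hM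
      exact CfsgLib.Cores.generalizedFittingSubgroup_ne_bot
        (hF2.trans ((Subgroup.map_eq_bot_iff_of_injective _ M₂.subtype_injective).1 h))
    have hM1 : M₁ = ⊥ := by
      by_contra hM
      haveI : Nontrivial ↥M₁ := (Subgroup.nontrivial_iff_ne_bot M₁).2 hM
      refine CfsgLib.Cores.generalizedFittingSubgroup_ne_bot ((Subgroup.map_eq_bot_iff_of_injective _ M₁.subtype_injective).1 ?_)
      rw [eq_bot_iff, ← hM2]
      exact h₁
    exact hne (hM1.trans hM2.symm)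
  obtain ⟨p, hp, hpd⟩ := Nat.exists_prime_and_dvd (fun h => hint (Subgroup.eq_bot_of_card_eq _ h))
  haveI : Fact p.Prime := ⟨hp⟩
  obtain ⟨x, hx⟩ := exists_prime_orderOf_dvd_card' p hpd
  have hx0 : (x : G) ≠ 1 := fun h => hp.ne_one (by rw [← hx, ← Subgroup.orderOf_coe, h, orderOf_one])
  have hxp : (x : G) ^ p ^ 1 = 1 := by
    rw [pow_one, ← hx, ← Subgroup.orderOf_coe, pow_orderOf_eq_one]
  have hP1 : opAt p M₁ ≠ ⊥ := fun h => hx0 (Subgroup.mem_bot.1 (h ▸ mem_opAt x.2.1 hxp))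
  have hP2 : opAt p M₂ ≠ ⊥ := fun h => hx0 (Subgroup.mem_bot.1 (h ▸ mem_opAt x.2.2 hxp))
  have le21 : qAt p M₂ ≤ qAt p M₁ :=
    qAt_le p (fun A a b c => (hP A a b).2 c) h1 h2 (hC M₁ hF1) hP2
  have le12 : qAt p M₁ ≤ qAt p M₂ :=
    qAt_le p (fun A a b c => by
      rw [inf_comm M₂ M₁] at b ⊢
      exact (hP A a b).1 c) h2 h1 (hC M₂ hF2) hP1
  have hQ0 : qAt p M₁ = ⊥ := by
    refine hboth _ ((Subgroup.map_mono inf_le_right).trans hD1) (le_normalizer_map_of_normal _) ?_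
    rw [le_antisymm le12 le21]
    exact le_normalizer_map_of_normal _
  have fin : ∀ M : Subgroup G, Cfsg.generalizedFittingSubgroup ↥M = Cfsg.fittingSubgroup ↥M →
      qAt p M = ⊥ → Subgroup.centralizer (Cfsg.pCore p ↥M : Set ↥M) ≤ Cfsg.pCore p ↥M := by
    intro M hM hQ
    have hFP : Cfsg.fittingSubgroup ↥M ≤ Cfsg.pCore p ↥M := by
      refine CfsgLib.Cores.le_pCore fun f => ?_
      obtain ⟨n, m, hm, hnm⟩ := Nat.exists_eq_pow_mul_and_not_dvd (orderOf_pos f).ne' p hp.ne_one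
      refine ⟨n, ?_⟩
      have hq : ((f ^ p ^ n : ↥(Cfsg.fittingSubgroup ↥M)) : ↥M).1 ∈ qAt p M := by
        refine mem_qAt (Subgroup.mem_map_of_mem _ (f ^ p ^ n).2) ?_
        rw [Subgroup.orderOf_coe, Subgroup.orderOf_coe]
        refine Nat.Coprime.coprime_dvd_left ?_ (hp.coprime_iff_not_dvd.2 hm).symm
        apply orderOf_dvd_of_pow_eq_one
        rw [← pow_mul, ← hnm, pow_orderOf_eq_one]
      rw [hQ, Subgroup.mem_bot] at hq
      exact Subtype.ext (Subtype.ext hq)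
    have hP : Cfsg.fittingSubgroup ↥M = Cfsg.pCore p ↥M :=
      le_antisymm hFP (CfsgLib.Cores.pCore_le_fittingSubgroup p)
    have h := CfsgLib.Cores.centralizer_generalizedFittingSubgroup_le (G := ↥M)
    rwa [hM, hP] at h
  refine ⟨p, hp, fin M₁ hF1 hQ0, fin M₂ hF2 (le_bot_iff.1 (hQ0 ▸ le21)), sup_le ?_ ?_⟩
  · exact (Subgroup.map_mono (CfsgLib.Cores.pCore_le_fittingSubgroup p)).trans hD1
  · exact (Subgroup.map_mono (CfsgLib.Cores.pCore_le_fittingSubgroup p)).trans hD2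

end Cfsg.Agent.S3752
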