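import Cfsg.Statements.S3753
import Cfsg.Agent.Lib.KInf.AnyPSubgroup
import Cfsg.Agent.Lib.PGroups.SLFreeCriteria

set_option autoImplicit false
open Cfsg

namespace Cfsg.Agent.S3753

open CfsgLib

universe u

/-- Only the trivial subgroup of the intersection is normal in both members. -/
theorem eq_bot_of_normalized {G : Type u} [Group G] (M₁ M₂ : Subgroup G) (hne : M₁ ≠ M₂)
    (hP : ∀ A : Subgroup G, A ≠ ⊥ → A ≤ M₁ ⊓ M₂ → (M₁ ≤ Subgroup.normalizer (A : Set G) → M₂ ⊓ Subgroup.normalizer (A : Set G) = M₁ ⊓ M₂) ∧ (M₂ ≤ Subgroup.normalizer (A : Set G) → M₁ ⊓ Subgroup.normalizer (A : Set G) = M₁ ⊓ M₂))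
    {A : Subgroup G} (hA : A ≤ M₁ ⊓ M₂) (h1 : M₁ ≤ Subgroup.normalizer (A : Set G))
    (h2 : M₂ ≤ Subgroup.normalizer (A : Set G)) : A = ⊥ := by
  by_contra hne'
  obtain ⟨e1, e2⟩ := hP A hne' hA
  refine hne (le_antisymm ?_ ?_)
  · exact (le_inf le_rfl h1).trans ((e2 h2).le.trans inf_le_right)
  · exact (le_inf le_rfl h2).trans ((e1 h1).le.trans inf_le_left)

theorem le_normalizer_opIn {G : Type u} [Group G] [Finite G] (p : ℕ) (M : Subgroup G) :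
    M ≤ Subgroup.normalizer ((pCore p ↥M).map M.subtype : Set G) := fun m hm => by
  refine CoprimeAction.mem_normalizer_of_conj_mem ?_
  rintro _ ⟨x, hx, rfl⟩
  exact ⟨⟨m, hm⟩ * x * ⟨m, hm⟩⁻¹,
    (inferInstance : (pCore p ↥M).Normal).conj_mem x hx _, rfl⟩

theorem opIn_ne_bot {G : Type u} [Group G] {p : ℕ} {M : Subgroup G} (hM : M ≠ ⊥)
    (hc : Subgroup.centralizer (pCore p ↥M : Set ↥M) ≤ pCore p ↥M) :
    (pCore p ↥M).map M.subtype ≠ ⊥ := by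
  intro e
  have e' : pCore p ↥M = ⊥ := Subgroup.map_injective M.subtype_injective (by rw [e, Subgroup.map_bot])
  rw [e'] at hc
  refine hM ((Subgroup.eq_bot_iff_forall M).2 fun m hm => ?_)
  have h1 : (⟨m, hm⟩ : M) ∈ (⊥ : Subgroup M) := hc (Subgroup.mem_centralizer_iff.2 fun x hx => by
    rw [Subgroup.mem_bot.1 hx]; simp)
  exact congrArg Subtype.val (Subgroup.mem_bot.1 h1)

/-- The K-infinity subgroup of a `p`-subgroup containing the core of `M` is normalized by `M`. -/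
theorem le_normalizer_kInf {G : Type u} [Group G] [Finite G] {p : ℕ} [Fact p.Prime] (hp2 : p ≠ 2)
    {M S : Subgroup G} (hab : ∀ T : Sylow 2 ↥M, IsMulCommutative (T : Subgroup ↥M))
    (hc : Subgroup.centralizer (pCore p ↥M : Set ↥M) ≤ pCore p ↥M) (hS : IsPGroup p S)
    (hSM : S ≤ M) (hOS : (pCore p ↥M).map M.subtype ≤ S) :
    M ≤ Subgroup.normalizer (Cfsg.inducedFunctor Cfsg.kInfLower S : Set G) := by
  have hT : IsPGroup p (S.subgroupOf M) := hS.comap_subtype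
  have hn := KInf.normal_kInfLower_of_core_le (PGroups.SLFree.of_abelian_sylow_two hp2 hab) hp2 hc
    (S.subgroupOf M) hT fun x hx => Subgroup.mem_subgroupOf.2 (hOS ⟨x, hx, rfl⟩)
  have e := ConjFunctor.inducedFunctor_map KInf.isKInf_lower.isCharPFunctor M.subtype hT
    (fun x _ hx => Subtype.ext hx)
  rw [Subgroup.map_subgroupOf_eq_of_le hSM] at e
  rw [e]
  refine le_trans (le_of_eq ?_) (Subgroup.le_normalizer_map M.subtype)
  rw [Subgroup.normalizer_eq_top_iff.2 hn, ← MonoidHom.range_eq_map, Subgroup.range_subtype]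

/-- With abelian Sylow 2-subgroups a constrained group of characteristic 2 has a normal Sylow subgroup. -/
theorem two_subgroup_le_opIn {G : Type u} [Group G] [Finite G] [Fact (Nat.Prime 2)]
    {M S : Subgroup G} (hab : ∀ T : Sylow 2 ↥M, IsMulCommutative (T : Subgroup ↥M))
    (hc : Subgroup.centralizer (pCore 2 ↥M : Set ↥M) ≤ pCore 2 ↥M) (hS : IsPGroup 2 S)
    (hSM : S ≤ M) : S ≤ (pCore 2 ↥M).map M.subtype := by
  obtain ⟨T, hT⟩ := (hS.comap_subtype (K := M)).exists_le_sylow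
  intro s hs
  refine ⟨⟨s, hSM hs⟩, hc (Subgroup.mem_centralizer_iff.2 fun x hx => ?_), rfl⟩
  exact congrArg Subtype.val ((hab T).is_comm.comm ⟨x, Cores.pCore_le_sylow T hx⟩ ⟨⟨s, hSM hs⟩, hT hs⟩)

/-- Two distinct subgroups M₁, M₂ of G form a primitive pair when, for {i, j} = {1, 2}, every non-trivial normal subgroup A of M_i contained in M₁ ∩ M₂ satisfies N_{M_j}(A) = M₁ ∩ M₂; the pair has characteristic p when moreover C_{M_i}(O_p(M_i)) ≤ O_p(M_i) for both i and O_p(M₁)O_p(M₂) ≤ M₁ ∩ M₂. If the finite group G has a primitive pair (M₁, M₂) of characteristic p for some prime p, then M₁ or M₂ has non-abelian Sylow 2-subgroups. In particular no group of odd order has a primitive pair of characteristic p. -/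
theorem result {G : Type*} [Group G] [Finite G] {p : ℕ} [Fact p.Prime] (M₁ M₂ : Subgroup G) (hne : M₁ ≠ M₂) (hP : ∀ A : Subgroup G, A ≠ ⊥ → A ≤ M₁ ⊓ M₂ → (M₁ ≤ Subgroup.normalizer (A : Set G) → M₂ ⊓ Subgroup.normalizer (A : Set G) = M₁ ⊓ M₂) ∧ (M₂ ≤ Subgroup.normalizer (A : Set G) → M₁ ⊓ Subgroup.normalizer (A : Set G) = M₁ ⊓ M₂)) (hc₁ : Subgroup.centralizer (Cfsg.pCore p ↥M₁ : Set ↥M₁) ≤ Cfsg.pCore p ↥M₁) (hc₂ : Subgroup.centralizer (Cfsg.pCore p ↥M₂ : Set ↥M₂) ≤ Cfsg.pCore p ↥M₂) (hO : (Cfsg.pCore p ↥M₁).map M₁.subtype ⊔ (Cfsg.pCore p ↥M₂).map M₂.subtype ≤ M₁ ⊓ M₂) : (∃ S : Sylow 2 ↥M₁, ¬ IsMulCommutative (S : Subgroup ↥M₁)) ∨ (∃ S : Sylow 2 ↥M₂, ¬ IsMulCommutative (S : Subgroup ↥M₂)) := by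
  by_contra hab
  push Not at hab
  obtain ⟨hab₁, hab₂⟩ := hab
  obtain ⟨O₁, hO₁⟩ : ∃ O, O = (pCore p ↥M₁).map M₁.subtype := ⟨_, rfl⟩
  obtain ⟨O₂, hO₂⟩ : ∃ O, O = (pCore p ↥M₂).map M₂.subtype := ⟨_, rfl⟩
  rw [← hO₁, ← hO₂] at hO
  obtain ⟨hO₁D, hO₂D⟩ := sup_le_iff.1 hO
  have hn₁ : M₁ ≤ Subgroup.normalizer (O₁ : Set G) := hO₁ ▸ le_normalizer_opIn p M₁
  have hn₂ : M₂ ≤ Subgroup.normalizer (O₂ : Set G) := hO₂ ▸ le_normalizer_opIn p M₂
  have hS : IsPGroup p ↥(O₁ ⊔ O₂) := by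
    refine IsPGroup.to_sup_of_normal_left' ?_ ?_ ((hO₂D.trans inf_le_left).trans hn₁)
    · exact hO₁ ▸ (Cores.isPGroup_pCore p ↥M₁).map _
    · exact hO₂ ▸ (Cores.isPGroup_pCore p ↥M₂).map _
  -- one of the members is non-trivial
  have hnb : O₁ ⊔ O₂ ≠ ⊥ := by
    intro e
    rw [eq_bot_iff, sup_le_iff] at e
    refine hne ?_
    have h1 : M₁ = ⊥ := by
      by_contra h
      exact opIn_ne_bot h hc₁ (hO₁ ▸ le_bot_iff.1 e.1)
    have h2 : M₂ = ⊥ := by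
      by_contra h
      exact opIn_ne_bot h hc₂ (hO₂ ▸ le_bot_iff.1 e.2)
    rw [h1, h2]
  rcases eq_or_ne p 2 with rfl | hp2
  · have e1 : O₁ ⊔ O₂ = O₁ := le_antisymm
      ((two_subgroup_le_opIn hab₁ hc₁ hS (hO.trans inf_le_left)).trans hO₁.ge) le_sup_left
    have e2 : O₁ ⊔ O₂ = O₂ := le_antisymm
      ((two_subgroup_le_opIn hab₂ hc₂ hS (hO.trans inf_le_right)).trans hO₂.ge) le_sup_right
    exact hnb (eq_bot_of_normalized M₁ M₂ hne hP hO (e1.symm ▸ hn₁) (e2.symm ▸ hn₂))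
  · refine hnb ?_
    by_contra hne'
    have h1 := le_normalizer_kInf hp2 hab₁ hc₁ hS (hO.trans inf_le_left) (hO₁ ▸ le_sup_left)
    have h2 := le_normalizer_kInf hp2 hab₂ hc₂ hS (hO.trans inf_le_right) (hO₂ ▸ le_sup_right)
    have hle : Cfsg.inducedFunctor Cfsg.kInfLower (O₁ ⊔ O₂) ≤ M₁ ⊓ M₂ :=
      (Subgroup.map_subtype_le _).trans hO
    have hbot := eq_bot_of_normalized M₁ M₂ hne hP hle h1 h2
    haveI : Nontrivial ↥(O₁ ⊔ O₂) := (Subgroup.nontrivial_iff_ne_bot _).2 hne'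
    exact KInf.kInfLower_ne_bot hS
      (Subgroup.map_injective (O₁ ⊔ O₂).subtype_injective (by rw [Subgroup.map_bot]; exact hbot))

end Cfsg.Agent.S3753
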