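import Cfsg.Statements.S3754
import Cfsg.Agent.Lib.Cores.PCore
import Cfsg.Agent.Lib.PSolvable.Basic
import Cfsg.Agent.Lib.MetacyclicP.ExpBound
import Cfsg.Agent.Lib.CoprimeAction.Abelian
import Cfsg.Agent.Lib.PGroups.Frattini
import Cfsg.Agent.Lib.Transfer.Residual

set_option autoImplicit false
open Cfsg

namespace Cfsg.Agent.S3754

open CfsgLib
open scoped commutatorElement Pointwise

theorem eq_one_of_mem_zpowers_prime {G : Type*} [Group G] [Finite G] {p : ℕ} [Fact p.Prime]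
    {b y : G} {S : Subgroup G} (hb : b ^ p = 1) (hbS : b ∉ S) (hy : y ∈ Subgroup.zpowers b)
    (hyS : y ∈ S) : y = 1 := by
  by_contra hy1
  have hb1 : b ≠ 1 := fun h => hbS (h ▸ S.one_mem)
  have ho : orderOf b = p := orderOf_eq_prime hb hb1
  have hd : orderOf y ∣ p := by
    have := Subgroup.orderOf_dvd_natCard _ hy
    rwa [Nat.card_zpowers, ho] at this
  have hoy : orderOf y = p := ((Nat.dvd_prime (Fact.out : p.Prime)).1 hd).resolve_left
    (fun h => hy1 (orderOf_eq_one_iff.1 h))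
  have heq : Subgroup.zpowers y = Subgroup.zpowers b :=
    Subgroup.eq_of_le_of_card_ge (Subgroup.zpowers_le.2 hy) (by simp [Nat.card_zpowers, ho, hoy])
  exact hbS (Subgroup.zpowers_le.2 hyS (heq ▸ Subgroup.mem_zpowers b))

/-- The choice of the hyperplane `B` of the elementary abelian group `A` and of `w`. -/
theorem exists_hyperplane {G : Type*} [Group G] [Finite G] {p : ℕ} [Fact p.Prime]
    {A W : Subgroup G} [W.Normal] (hc : ∀ x ∈ A, ∀ y ∈ A, x * y = y * x)
    (hexp : ∀ x ∈ A, x ^ p = 1) (hcop : (Nat.card W).Coprime p) (hAW : A ⊓ W = ⊥)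
    (hact : ¬ W ≤ Subgroup.centralizer (A : Set G)) :
    ∃ B ≤ A, B.relIndex A = p ∧ ∃ w ∈ W, w ∈ Subgroup.centralizer (B : Set G) ∧
      w ∉ Subgroup.normalizer (A : Set G) := by
  have hpp : p.Prime := Fact.out
  have : IsMulCommutative A := ⟨⟨fun x y => Subtype.ext (hc x x.2 y y.2)⟩⟩
  obtain ⟨B, hB⟩ : ∃ B, Maximal (fun B : Subgroup G =>
      B ≤ A ∧ ¬ W ⊓ Subgroup.centralizer (B : Set G) ≤ Subgroup.centralizer (A : Set G)) B :=
    Set.Finite.exists_maximal (Set.toFinite _) ⟨⊥, bot_le, fun h => hact fun x hx => h ⟨hx, by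
      show x ∈ Subgroup.centralizer ((⊥ : Subgroup G) : Set G)
      rw [Subgroup.mem_centralizer_iff]
      rintro y (rfl : y = 1)
      simp⟩⟩
  obtain ⟨hBA, hBc⟩ := hB.prop
  have hBlt : B ≠ A := fun h => hBc (h ▸ inf_le_right)
  obtain ⟨a, haA, haB⟩ := SetLike.exists_of_lt (lt_of_le_of_ne hBA hBlt)
  obtain ⟨w, hwK, hwA⟩ := SetLike.not_le_iff_exists.1 hBc
  have hbig : ∀ z ∈ A, z ∉ B →
      W ⊓ Subgroup.centralizer (B : Set G) ⊓ Subgroup.centralizer ({z} : Set G) ≤
        Subgroup.centralizer (A : Set G) := by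
    intro z hzA hzB x hx
    by_contra hxA
    have := hB.le_of_ge ⟨sup_le hBA (Subgroup.zpowers_le.2 hzA),
      fun h => hxA (h ⟨hx.1.1, ?_⟩)⟩ (le_sup_left (b := Subgroup.zpowers z))
    · exact hzB (this (Subgroup.mem_sup_right (Subgroup.mem_zpowers z)))
    · have hle : B ⊔ Subgroup.zpowers z ≤ Subgroup.centralizer ({x} : Set G) := by
        refine sup_le (fun y hy => ?_) (Subgroup.zpowers_le.2 ?_)
        · exact Subgroup.mem_centralizer_singleton_iff.2 (Subgroup.mem_centralizer_iff.1 hx.1.2 y hy)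
        · exact Subgroup.mem_centralizer_singleton_iff.2
            (Subgroup.mem_centralizer_singleton_iff.1 hx.2).symm
      show x ∈ Subgroup.centralizer ((B ⊔ Subgroup.zpowers z : Subgroup G) : Set G)
      rw [Subgroup.mem_centralizer_iff]
      intro y hy
      exact Subgroup.mem_centralizer_singleton_iff.1 (hle hy)
  have hnorm : ∀ H K : Subgroup G, H ≤ A → K ≤ A → H ≤ Subgroup.normalizer (K : Set G) := by
    intro H K hH hK h hh
    rw [Subgroup.mem_normalizer_iff]
    intro k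
    constructor
    · intro hk
      rwa [hc h (hH hh) k (hK hk), mul_inv_cancel_right]
    · intro hk
      have e : h⁻¹ * (h * k * h⁻¹) * h = k := by group
      rw [mul_assoc, ← hc h (hH hh) _ (hK hk), ← mul_assoc, inv_mul_cancel, one_mul] at e
      rwa [← e]
  have hgen : A = B ⊔ Subgroup.zpowers a := by
    refine le_antisymm (fun b hbA => ?_) (sup_le hBA (Subgroup.zpowers_le.2 haA))
    by_contra hb
    have ha' : Subgroup.zpowers a ≤ A := Subgroup.zpowers_le.2 haA
    have hb' : Subgroup.zpowers b ≤ A := Subgroup.zpowers_le.2 hbA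
    set A₂ := Subgroup.zpowers a ⊔ Subgroup.zpowers b with hA₂
    have hA₂A : A₂ ≤ A := sup_le ha' hb'
    have : IsMulCommutative A₂ := ⟨⟨fun x y => Subtype.ext (hc x (hA₂A x.2) y (hA₂A y.2))⟩⟩
    have hncyc : ¬ IsCyclic A₂ := by
      rw [Subgroup.isCyclic_iff_exists_zpowers_eq_top]
      rintro ⟨c, hcA⟩
      have hbn : b ∉ Subgroup.zpowers a := fun h => hb (Subgroup.mem_sup_right h)
      have hcn : c ∉ Subgroup.zpowers a := fun h => hbn (Subgroup.zpowers_le.2 h
        (hcA ▸ Subgroup.mem_sup_right (Subgroup.mem_zpowers b)))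
      have hcm : c ∈ A := hA₂A (hcA ▸ Subgroup.mem_zpowers c)
      exact haB (by
        rw [eq_one_of_mem_zpowers_prime (hexp c hcm) hcn
          (hcA ▸ Subgroup.mem_sup_left (Subgroup.mem_zpowers a)) (Subgroup.mem_zpowers a)]
        exact B.one_mem)
    refine hBc (CoprimeAction.le_of_centralizers hncyc ?_ ?_ ?_)
    · intro x hx
      have hxA := hA₂A hx
      rw [Subgroup.mem_normalizer_iff]
      have key : ∀ x ∈ A, ∀ y ∈ W ⊓ Subgroup.centralizer (B : Set G),
          x * y * x⁻¹ ∈ W ⊓ Subgroup.centralizer (B : Set G) := by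
        intro x hxA y hy
        refine ⟨(inferInstance : W.Normal).conj_mem y hy.1 x, ?_⟩
        show x * y * x⁻¹ ∈ Subgroup.centralizer (B : Set G)
        rw [Subgroup.mem_centralizer_iff]
        intro z hz
        have hzx := hc x hxA z (hBA hz)
        calc z * (x * y * x⁻¹) = (z * x) * y * x⁻¹ := by simp only [mul_assoc]
          _ = x * (z * y) * x⁻¹ := by rw [← hzx]; simp only [mul_assoc]
          _ = x * (y * z) * x⁻¹ := by rw [Subgroup.mem_centralizer_iff.1 hy.2 z hz]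
          _ = x * y * (z * x⁻¹) := by simp only [mul_assoc]
          _ = x * y * x⁻¹ * z := by
            rw [← hc x⁻¹ (A.inv_mem hxA) z (hBA hz)]; simp only [mul_assoc]
      intro y
      refine ⟨key x hxA y, fun h => ?_⟩
      have := key x⁻¹ (A.inv_mem hxA) _ h
      simpa [mul_assoc] using this
    · refine ((Nat.Coprime.coprime_dvd_left (Subgroup.card_dvd_of_le inf_le_left) ?_)).symm
      have hpA : IsPGroup p A₂ := fun x => ⟨1, Subtype.ext (by simpa using hexp x (hA₂A x.2))⟩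
      obtain ⟨n, hn⟩ := IsPGroup.iff_card.1 hpA
      rw [hn]; exact hcop.pow_right n
    · intro z hz hz1
      refine hbig z (hA₂A hz) fun hzB => hz1 ?_
      have hz' : z ∈ (Subgroup.zpowers a : Set G) * (Subgroup.zpowers b : Set G) := by
        rw [← Subgroup.coe_mul_of_left_le_normalizer_right _ _ (hnorm _ _ ha' hb')]
        exact hz
      obtain ⟨u, hu, v, hv, rfl⟩ := Set.mem_mul.1 hz'
      have hv1 : v = 1 := eq_one_of_mem_zpowers_prime (hexp b hbA) hb hv (by
        rw [← inv_mul_cancel_left u v]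
        exact mul_mem (inv_mem (Subgroup.mem_sup_right hu)) (Subgroup.mem_sup_left hzB))
      subst hv1
      rw [mul_one] at hzB ⊢
      exact eq_one_of_mem_zpowers_prime (hexp a haA) haB hu hzB
  refine ⟨B, hBA, ?_, w, hwK.1, hwK.2, ?_⟩
  · have hdis : Subgroup.zpowers a ⊓ B = ⊥ := eq_bot_iff.2 fun y hy =>
      Subgroup.mem_bot.2 (eq_one_of_mem_zpowers_prime (hexp a haA) haB hy.1 hy.2)
    have hle : B.relIndex A ≤ p := by
      let f : Subgroup.zpowers a → A ⧸ B.subgroupOf A := fun x =>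
        QuotientGroup.mk ⟨x, Subgroup.zpowers_le.2 haA x.2⟩
      have hf : Function.Surjective f := by
        intro q
        induction q using QuotientGroup.induction_on with
        | H z =>
          have hz' : (z : G) ∈ (Subgroup.zpowers a : Set G) * (B : Set G) := by
            rw [← Subgroup.coe_mul_of_left_le_normalizer_right _ _
              (hnorm _ _ (Subgroup.zpowers_le.2 haA) hBA), sup_comm, ← hgen]
            exact z.2
          obtain ⟨u, hu, v, hv, huv⟩ := Set.mem_mul.1 hz'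
          refine ⟨⟨u, hu⟩, QuotientGroup.eq.2 ?_⟩
          show u⁻¹ * (z : G) ∈ B
          rw [← huv, inv_mul_cancel_left]
          exact hv
      have := Nat.card_le_card_of_surjective f hf
      rwa [Nat.card_zpowers, orderOf_eq_prime (hexp a haA) (fun h => haB (h ▸ B.one_mem))] at this
    have hA : IsPGroup p A := fun x => ⟨1, Subtype.ext (by simpa using hexp x x.2)⟩
    obtain ⟨n, hn⟩ := hA.index (B.subgroupOf A)
    change B.relIndex A = p ^ n at hn
    have hne : B.relIndex A ≠ 1 := fun h => haB (Subgroup.relIndex_eq_one.1 h haA)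
    rcases n with _ | _ | n
    · simp at hn; exact absurd (Subgroup.relIndex_eq_one.2 hn) hne
    · simpa using hn
    · exfalso
      have : p ^ 2 ≤ p ^ (n + 2) := Nat.pow_le_pow_right hpp.pos (by omega)
      have := hpp.two_le
      nlinarith
  · intro hwn
    refine hwA (Subgroup.mem_centralizer_iff.2 fun x hx => ?_)
    have h1 : w * x * w⁻¹ * x⁻¹ ∈ A ⊓ W :=
      ⟨A.mul_mem ((Subgroup.mem_normalizer_iff.1 hwn x).1 hx) (A.inv_mem hx), by
        show _ ∈ W
        rw [show w * x * w⁻¹ * x⁻¹ = w * (x * w⁻¹ * x⁻¹) by group]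
        exact mul_mem hwK.1 ((inferInstance : W.Normal).conj_mem _ (inv_mem hwK.1) x)⟩
    rw [hAW, Subgroup.mem_bot] at h1
    calc x * w = w * x * w⁻¹ * x⁻¹ * (x * w) := by rw [h1, one_mul]
      _ = w * x := by group

/-- Two Sylow `p`-subgroups of `L ≤ W ⊔ A` are conjugate by an element of `L ⊓ W`. -/
theorem exists_conj_mem_inf {G : Type*} [Group G] [Finite G] {p : ℕ} [Fact p.Prime]
    {A W L : Subgroup G} [W.Normal] (hA : IsPGroup p A) (hcop : (Nat.card W).Coprime p)
    (hAL : A ≤ L) (hL : L ≤ W ⊔ A) {w : G} (hwL : A.map (MulAut.conj w).toMonoidHom ≤ L) :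
    ∃ v ∈ L ⊓ W, A.map (MulAut.conj v).toMonoidHom = A.map (MulAut.conj w).toMonoidHom := by
  have hAW : W.relIndex A = Nat.card A := by
    rw [← Subgroup.inf_relIndex_right]
    have : W ⊓ A = ⊥ := by
      refine Subgroup.eq_bot_of_card_eq _ (Nat.eq_one_of_dvd_coprimes ?_
        (Subgroup.card_dvd_of_le inf_le_left) (Subgroup.card_dvd_of_le inf_le_right))
      obtain ⟨n, hn⟩ := IsPGroup.iff_card.1 hA
      rw [hn]; exact hcop.pow_right n
    rw [this, Subgroup.relIndex_bot_left]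
  have hrel : A.relIndex (W ⊔ A) = Nat.card W := by
    have h1 := Subgroup.relIndex_mul_relIndex _ _ _ (bot_le (a := A)) (le_sup_right (a := W))
    have h2 := Subgroup.relIndex_mul_relIndex _ _ _ (bot_le (a := W)) (le_sup_left (b := A))
    rw [Subgroup.relIndex_bot_left, Subgroup.relIndex_bot_left] at h1 h2
    have h3 : W.relIndex (W ⊔ A) = Nat.card A := by
      rw [sup_comm, Subgroup.relIndex_sup_right, hAW]
    rw [h3, ← h1, mul_comm] at h2
    exact (Nat.eq_of_mul_eq_mul_left Nat.card_pos h2).symm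
  have hnd : ¬ p ∣ (A.subgroupOf L).index := fun h => by
    have hd : A.relIndex L ∣ Nat.card W :=
      ⟨_, (hrel.symm.trans (Subgroup.relIndex_mul_relIndex _ _ _ hAL hL).symm)⟩
    exact (Fact.out : p.Prime).not_dvd_one
      (hcop ▸ Nat.dvd_gcd (h.trans hd) dvd_rfl)
  let P : Sylow p L := (hA.comap_subtype (K := L)).toSylow hnd
  have hB : IsPGroup p (A.map (MulAut.conj w).toMonoidHom) := hA.map _
  obtain ⟨Q, hQ⟩ := (hB.comap_subtype (K := L)).exists_le_sylow
  obtain ⟨l, hl⟩ := MulAction.exists_smul_eq L P Q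
  have hle : A.map (MulAut.conj w).toMonoidHom ≤ A.map (MulAut.conj (l : G)).toMonoidHom := by
    intro y hy
    have h1 : (⟨y, hwL hy⟩ : L) ∈ (Q : Subgroup L) := hQ hy
    rw [← hl, Sylow.coe_subgroup_smul] at h1
    obtain ⟨z, hz, hzy⟩ := h1
    exact ⟨z, hz, congrArg Subtype.val hzy⟩
  have heq : A.map (MulAut.conj (l : G)).toMonoidHom = A.map (MulAut.conj w).toMonoidHom :=
    (Subgroup.eq_of_le_of_card_ge hle (by
      rw [Subgroup.card_map_of_injective (MulAut.conj (l : G)).injective,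
        Subgroup.card_map_of_injective (MulAut.conj w).injective])).symm
  obtain ⟨v, hv, a, ha, hva⟩ := Subgroup.mem_sup_of_normal_left.1 (hL l.2)
  refine ⟨v, ⟨?_, hv⟩, ?_⟩
  · rw [eq_mul_inv_of_mul_eq hva]
    exact L.mul_mem l.2 (L.inv_mem (hAL ha))
  · rw [← heq, ← hva, map_mul]
    show _ = A.map ((MulAut.conj v).toMonoidHom.comp (MulAut.conj a).toMonoidHom)
    rw [← Subgroup.map_map]
    exact congrArg (Subgroup.map _)
      (Subgroup.mem_normalizer_iff_map_conj_eq.1 (Subgroup.le_normalizer ha)).symm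

/-- Let M be a finite p-soluble group and A a p-subgroup of M with Φ(A) ≤ O_p(M) but A ≰ O_p(M). Then there is x ∈ O_{p,p'}(M) such that L = ⟨A, xAx⁻¹⟩ satisfies: x ∈ O^p(L) and O^p(L) ≤ O_{p,p'}(M); [O^p(L), A] = O^p(L); A ∩ O_p(L) has index p in A; and [A ∩ O_p(L), L] ≤ O_p(M). Here O^p(L) is the subgroup generated by the p'-elements of L and O_{p,p'}(M) the preimage of O_{p'}(M/O_p(M)). -/
theorem result {M : Type*} [Group M] [Finite M] {p : ℕ} [Fact p.Prime] (hM : Cfsg.IsPSolvable p M) (A : Subgroup M) (hA : IsPGroup p A) (hΦ : (frattini ↥A).map A.subtype ≤ Cfsg.pCore p M) (hnot : ¬ A ≤ Cfsg.pCore p M) : ∃ x ∈ (Cfsg.pPrimeCore p (M ⧸ Cfsg.pCore p M)).comap (QuotientGroup.mk' (Cfsg.pCore p M)), x ∈ (Cfsg.pResidual p ↥(A ⊔ A.map (MulAut.conj x).toMonoidHom)).map (A ⊔ A.map (MulAut.conj x).toMonoidHom).subtype ∧ (Cfsg.pResidual p ↥(A ⊔ A.map (MulAut.conj x).toMonoidHom)).map (A ⊔ A.map (MulAut.conj x).toMonoidHom).subtype ≤ (Cfsg.pPrimeCore p (M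 ⧸ Cfsg.pCore p M)).comap (QuotientGroup.mk' (Cfsg.pCore p M)) ∧ ⁅(Cfsg.pResidual p ↥(A ⊔ A.map (MulAut.conj x).toMonoidHom)).map (A ⊔ A.map (MulAut.conj x).toMonoidHom).subtype, A⁆ = (Cfsg.pResidual p ↥(A ⊔ A.map (MulAut.conj x).toMonoidHom)).map (A ⊔ A.map (MulAut.conj x).toMonoidHom).subtype ∧ (A ⊓ (Cfsg.pCore p ↥(A ⊔ A.map (MulAut.conj x).toMonoidHom)).map (A ⊔ A.map (MulAut.conj x).toMonoidHom).subtype).relIndex A = p ∧ ⁅A ⊓ (Cfsg.pCore p ↥(A ⊔ A.map (MulAut.conj x).toMonoidHom)).map (A ⊔ A.map (MulAut.conj x).toMonoidHom).subtype, A ⊔ A.map (MulAut.conj x).toMonoidHom⁆ ≤ Cfsg.pCore p M := by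
  classical
  set Q := Cfsg.pCore p M with hQdef
  set π := QuotientGroup.mk' Q with hπ
  set W := Cfsg.pPrimeCore p (M ⧸ Q) with hW
  set Ab := A.map π with hAb
  have hπsurj : Function.Surjective π := QuotientGroup.mk'_surjective Q
  have hcop : (Nat.card W).Coprime p := Cores.card_pPrimeCore_coprime p
  have hself := MetacyclicP.centralizer_pPrimeCore_le_self (PSolvable.isPSolvable_quotient hM Q)
    (Cores.pCore_quotient_pCore p M)
  have hAbp : IsPGroup p Ab := hA.map π
  have hΦ' : ∀ z : A, z ∈ frattini ↥A → π (z : M) = 1 := fun z hz =>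
    (QuotientGroup.eq_one_iff _).2 (hΦ (Subgroup.mem_map_of_mem A.subtype hz))
  have hexp : ∀ x ∈ Ab, x ^ p = 1 := by
    rintro _ ⟨x, hx, rfl⟩
    rw [← map_pow]
    exact hΦ' (⟨x, hx⟩ ^ p) (PGroups.pow_mem_frattini hA ⟨x, hx⟩)
  have hcomm : ∀ x ∈ Ab, ∀ y ∈ Ab, x * y = y * x := by
    rintro _ ⟨x, hx, rfl⟩ _ ⟨y, hy, rfl⟩
    refine commutatorElement_eq_one_iff_mul_comm.1 ?_
    rw [← map_commutatorElement]
    exact hΦ' ⁅(⟨x, hx⟩ : A), ⟨y, hy⟩⁆ (PGroups.commutator_le_frattini hA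
      (Subgroup.commutator_mem_commutator (Subgroup.mem_top _) (Subgroup.mem_top _)))
  have hAW : Ab ⊓ W = ⊥ := by
    refine Subgroup.eq_bot_of_card_eq _ (Nat.eq_one_of_dvd_coprimes ?_
      (Subgroup.card_dvd_of_le inf_le_left) (Subgroup.card_dvd_of_le inf_le_right))
    obtain ⟨n, hn⟩ := IsPGroup.iff_card.1 hAbp
    rw [hn]; exact (hcop.pow_right n).symm
  have hact : ¬ W ≤ Subgroup.centralizer (Ab : Set (M ⧸ Q)) := by
    intro h
    have h1 : Ab ≤ W := (Subgroup.le_centralizer_iff.1 h).trans hself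
    rw [inf_eq_left.2 h1] at hAW
    refine hnot fun x hx => (QuotientGroup.eq_one_iff x).1 ?_
    exact Subgroup.mem_bot.1 (hAW ▸ Subgroup.mem_map_of_mem π hx)
  obtain ⟨Bb, hBbA, hBrel, w, hwW, hwB, hwn⟩ := exists_hyperplane hcomm hexp hcop hAW hact
  let L : M → Subgroup M := fun g => A ⊔ A.map (MulAut.conj g).toMonoidHom
  let R : M → Subgroup M := fun g => (Cfsg.pResidual p ↥(L g)).map (L g).subtype
  let P : M → Prop := fun g => π g ∈ W ∧ π g ∈ Subgroup.centralizer (Bb : Set (M ⧸ Q)) ∧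
    π g ∉ Subgroup.normalizer (Ab : Set (M ⧸ Q))
  obtain ⟨g₀, hg₀⟩ := hπsurj w
  obtain ⟨g, hgmin⟩ : ∃ g, MinimalFor P (fun g => Nat.card (L g)) g :=
    Set.Finite.exists_minimalFor _ {g | P g} (Set.toFinite _)
      ⟨g₀, by simp only [P, Set.mem_setOf_eq, hg₀]; exact ⟨hwW, hwB, hwn⟩⟩
  obtain ⟨hgW, hgB, hgn⟩ := hgmin.prop
  set K := W.comap π with hK
  have hπL : ∀ h : M, π h ∈ W → π h ∈ Subgroup.centralizer (Bb : Set (M ⧸ Q)) →
      ∀ y ∈ L h, π y ∈ Subgroup.centralizer (Bb : Set (M ⧸ Q)) ∧ π y ∈ W ⊔ Ab := by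
    intro h hhW hhB y hy
    have hle : L h ≤ (Subgroup.centralizer (Bb : Set (M ⧸ Q)) ⊓ (W ⊔ Ab)).comap π := by
      have hA' : A ≤ (Subgroup.centralizer (Bb : Set (M ⧸ Q)) ⊓ (W ⊔ Ab)).comap π := by
        intro a ha
        exact ⟨Subgroup.mem_centralizer_iff.2 fun b hb =>
            hcomm b (hBbA hb) (π a) (Subgroup.mem_map_of_mem π ha),
          Subgroup.mem_sup_right (Subgroup.mem_map_of_mem π ha)⟩
      refine sup_le hA' ?_
      rintro _ ⟨a, ha, rfl⟩
      show π (h * a * h⁻¹) ∈ Subgroup.centralizer (Bb : Set (M ⧸ Q)) ⊓ (W ⊔ Ab)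
      rw [map_mul, map_mul, map_inv]
      exact mul_mem (mul_mem (Subgroup.mem_inf.2 ⟨hhB, Subgroup.mem_sup_left hhW⟩) (hA' ha))
        (inv_mem (Subgroup.mem_inf.2 ⟨hhB, Subgroup.mem_sup_left hhW⟩))
    exact hle hy
  have hRK : ∀ h : M, π h ∈ W → R h ≤ K := by
    intro h hh
    let ψ := QuotientGroup.mk' K
    have hle : L h ≤ (A.map ψ).comap ψ := by
      refine sup_le (fun a ha => ⟨a, ha, rfl⟩) ?_
      rintro _ ⟨a, ha, rfl⟩
      show ψ (h * a * h⁻¹) ∈ A.map ψ
      rw [map_mul, map_mul, map_inv, show ψ h = 1 from (QuotientGroup.eq_one_iff h).2 hh]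
      simpa using Subgroup.mem_map_of_mem ψ ha
    let f : L h →* A.map ψ := (ψ.comp (L h).subtype).codRestrict _ fun y => hle y.2
    rintro _ ⟨y, hy, rfl⟩
    have := Transfer.pResidual_le_ker (hA.map ψ) f hy
    exact (QuotientGroup.eq_one_iff _).1 (congrArg Subtype.val this)
  -- Sylow's theorem in the image of `L g`
  set Lb := (L g).map π with hLb
  have hwAb : Ab.map (MulAut.conj (π g)).toMonoidHom =
      (A.map (MulAut.conj g).toMonoidHom).map π := by
    simp only [Ab, Subgroup.map_map]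
    congr 1
  obtain ⟨v, hv, hveq⟩ := exists_conj_mem_inf (L := Lb) (w := π g) hAbp hcop
    (Subgroup.map_mono le_sup_left)
    (by rintro _ ⟨y, hy, rfl⟩; exact (hπL g hgW hgB y hy).2)
    (hwAb ▸ Subgroup.map_mono le_sup_right)
  obtain ⟨y, hyL, hyv⟩ := hv.1
  obtain ⟨r, hrR, hrv⟩ : ∃ r ∈ R g, π r = v := by
    set k := (orderOf (⟨y, hyL⟩ : L g)).factorization p
    have hmem : (⟨y, hyL⟩ : L g) ^ p ^ k ∈ Cfsg.pResidual p ↥(L g) := by
      refine Transfer.mem_pResidual_of_coprime ?_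
      rw [orderOf_pow_of_dvd (pow_ne_zero _ (Fact.out : p.Prime).ne_zero) (Nat.ordProj_dvd _ _)]
      exact (Nat.coprime_ordCompl (Fact.out : p.Prime) (orderOf_pos _).ne').symm
    obtain ⟨m, hm⟩ := exists_pow_eq_self_of_coprime (show (p ^ k).Coprime (orderOf v) from
      ((hcop.coprime_dvd_left (Subgroup.orderOf_dvd_natCard W hv.2)).symm.pow_left k))
    refine ⟨(y ^ p ^ k) ^ m, pow_mem (Subgroup.mem_map_of_mem (L g).subtype hmem) m, ?_⟩
    rw [map_pow, map_pow, hyv, hm]
  have hrL : r ∈ L g := Subgroup.map_subtype_le _ hrR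
  have hsub : L r ≤ L g := by
    refine sup_le le_sup_left ?_
    rintro _ ⟨a, ha, rfl⟩
    exact mul_mem (mul_mem hrL (Subgroup.mem_sup_left ha)) (inv_mem hrL)
  have hPr : P r := by
    refine ⟨hrv ▸ hv.2, (hπL g hgW hgB r hrL).1, fun h => hgn ?_⟩
    rw [Subgroup.mem_normalizer_iff_map_conj_eq] at h ⊢
    rw [hrv] at h
    exact hveq.symm.trans h
  have hLeq : L r = L g := Subgroup.eq_of_le_of_card_ge hsub
    (hgmin.le_of_le hPr (Nat.le_of_dvd Nat.card_pos (Subgroup.card_dvd_of_le hsub)))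
  have hrR' : r ∈ R r := by
    show r ∈ (Cfsg.pResidual p ↥(L r)).map (L r).subtype
    rw [hLeq]; exact hrR
  obtain ⟨hrW, hrB, hrn⟩ := hPr
  refine ⟨r, hrW, hrR', hRK r hrW, ?_, ?_⟩
  · show ⁅R r, A⁆ = R r
    have hn : (Cfsg.pResidual p ↥(L r)).Normal := Transfer.pResidual_normal
    have hconj : ∀ l ∈ L r, ∀ x ∈ R r, l * x * l⁻¹ ∈ R r := by
      rintro l hl _ ⟨x, hx, rfl⟩
      exact ⟨⟨l, hl⟩ * x * ⟨l, hl⟩⁻¹, hn.conj_mem x hx ⟨l, hl⟩, rfl⟩
    have hCR : ⁅R r, A⁆ ≤ R r := by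
      refine Subgroup.commutator_le.2 fun x hx a ha => ?_
      rw [commutatorElement_def, show x * a * x⁻¹ * a⁻¹ = x * (a * x⁻¹ * a⁻¹) by group]
      exact mul_mem hx (hconj a (Subgroup.mem_sup_left ha) _ (inv_mem hx))
    refine le_antisymm hCR ?_
    set C := ⁅R r, A⁆
    have hLle : L r ≤ R r ⊔ A := by
      refine sup_le le_sup_right ?_
      rintro _ ⟨a, ha, rfl⟩
      exact mul_mem (mul_mem (Subgroup.mem_sup_left hrR') (Subgroup.mem_sup_right ha))
        (inv_mem (Subgroup.mem_sup_left hrR'))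
    have hLn : L r ≤ Subgroup.normalizer (C : Set M) := by
      refine hLle.trans ?_
      show R r ⊔ A ≤ Subgroup.normalizer ((⁅R r, A⁆ : Subgroup M) : Set M)
      exact CoprimeAction.sup_le_normalizer_commutator A (R r)
    have hCn : (C.subgroupOf (L r)).Normal := Subgroup.normal_subgroupOf_iff_le_normalizer
      (hCR.trans (Subgroup.map_subtype_le _)) |>.2 hLn
    let φ : A →* ↥(L r) ⧸ C.subgroupOf (L r) :=
      (QuotientGroup.mk' _).comp (Subgroup.inclusion le_sup_left)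
    have hφ : Function.Surjective φ := by
      intro q
      obtain ⟨z, rfl⟩ := QuotientGroup.mk'_surjective _ q
      have hLC : L r ≤ C ⊔ A := by
        refine sup_le le_sup_right ?_
        rintro _ ⟨a, ha, rfl⟩
        show r * a * r⁻¹ ∈ C ⊔ A
        rw [show r * a * r⁻¹ = ⁅r, a⁆ * a by rw [commutatorElement_def]; group]
        exact mul_mem (Subgroup.mem_sup_left (Subgroup.commutator_mem_commutator hrR' ha))
          (Subgroup.mem_sup_right ha)
      have hz : (z : M) ∈ (C : Set M) * (A : Set M) := by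
        rw [← Subgroup.coe_mul_of_right_le_normalizer_left _ _
          ((le_sup_left : A ≤ L r).trans hLn)]
        exact hLC z.2
      obtain ⟨c, hc, a, ha, hca⟩ := Set.mem_mul.1 hz
      refine ⟨⟨a, ha⟩, ?_⟩
      rw [eq_comm]
      refine (QuotientGroup.eq_iff_div_mem).2 ?_
      show (z : M) / a ∈ C
      rw [← hca, mul_div_cancel_right]
      exact hc
    have hle := Transfer.pResidual_le_of_isPGroup (hA.of_surjective φ hφ)
    rintro _ ⟨x, hx, rfl⟩
    exact hle hx
  · show (A ⊓ (Cfsg.pCore p ↥(L r)).map (L r).subtype).relIndex A = p ∧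
      ⁅A ⊓ (Cfsg.pCore p ↥(L r)).map (L r).subtype, L r⁆ ≤ Q
    set O := (Cfsg.pCore p ↥(L r)).map (L r).subtype with hO
    have hBO : A ⊓ Bb.comap π ≤ A ⊓ O := by
      refine le_inf inf_le_left fun x hx => ?_
      let N : Subgroup ↥(L r) := (Bb.comap π).subgroupOf (L r)
      have hNn : N.Normal := by
        refine ⟨fun x hx l => ?_⟩
        show π ((l : M) * x * (l : M)⁻¹) ∈ Bb
        rw [map_mul, map_mul, map_inv,
          ← Subgroup.mem_centralizer_iff.1 (hπL r hrW hrB l l.2).1 (π x) hx, mul_inv_cancel_right]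
        exact hx
      have hNp : IsPGroup p N := by
        have hker : IsPGroup p π.ker := by
          rw [hπ, QuotientGroup.ker_mk']; exact Cores.isPGroup_pCore p M
        exact ((hAbp.to_le hBbA).comap_of_ker_isPGroup π hker).comap_subtype
      exact ⟨⟨x, Subgroup.mem_sup_left hx.1⟩, Cores.le_pCore hNp hx.2, rfl⟩
    have hrel : (A ⊓ Bb.comap π).relIndex A = p := by
      rw [inf_comm, Subgroup.inf_relIndex_right, Subgroup.relIndex_comap, ← hAb, hBrel]
    have hXA : (A ⊓ O).relIndex A ≠ 1 := by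
      intro h
      have hAO : A ≤ O := (Subgroup.relIndex_eq_one.1 h).trans inf_le_right
      have hOn : ∀ l ∈ L r, ∀ x ∈ O, l * x * l⁻¹ ∈ O := by
        rintro l hl _ ⟨x, hx, rfl⟩
        exact ⟨⟨l, hl⟩ * x * ⟨l, hl⟩⁻¹,
          (inferInstance : (Cfsg.pCore p ↥(L r)).Normal).conj_mem x hx ⟨l, hl⟩, rfl⟩
      have hLO : L r ≤ O := by
        refine sup_le hAO ?_
        rintro _ ⟨a, ha, rfl⟩
        exact hOn r (Subgroup.map_subtype_le _ hrR') a (hAO ha)
      have hLp : IsPGroup p ↥(L r) := ((Cores.isPGroup_pCore p _).map _).to_le hLO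
      obtain ⟨x, hx, hxr⟩ := hrR'
      have hx1 : x = 1 := Transfer.pResidual_le_ker hLp (MonoidHom.id _) hx
      refine hrn ?_
      rw [← hxr, hx1, map_one, map_one]
      exact Subgroup.one_mem _
    have hmul := Subgroup.relIndex_mul_relIndex _ _ _ hBO (inf_le_left : A ⊓ O ≤ A)
    rw [hrel] at hmul
    rcases (Nat.dvd_prime (Fact.out : p.Prime)).1 ⟨_, (mul_comm _ _).trans hmul |>.symm⟩ with h | h
    · exact absurd h hXA
    refine ⟨h, ?_⟩
    have hXB : A ⊓ O ≤ A ⊓ Bb.comap π := by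
      rw [← Subgroup.relIndex_eq_one]
      rw [h] at hmul
      exact (Nat.mul_eq_right (Fact.out : p.Prime).ne_zero).1 hmul
    refine Subgroup.commutator_le.2 fun x hx l hl => (QuotientGroup.eq_one_iff _).1 ?_
    show π ⁅x, l⁆ = 1
    rw [map_commutatorElement, commutatorElement_eq_one_iff_mul_comm]
    exact Subgroup.mem_centralizer_iff.1 (hπL r hrW hrB l hl).1 (π x) (hXB hx).2

end Cfsg.Agent.S3754
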