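import Cfsg.Statements.S3755
import Cfsg.Agent.Lib.CoprimeAction.Abelian
import Cfsg.Agent.Lib.Amalgams.Involves
import Cfsg.Agent.Lib.ThompsonJ.ElemAbelian
import Cfsg.Agent.Lib.Cores.PCore

set_option autoImplicit false
open Cfsg

namespace Cfsg.Agent.S3755

theorem four_le_relIndex {X : Type*} [Group X] [Finite X] {p : ℕ} [hpf : Fact p.Prime] (hp : 5 ≤ p)
    {W : Subgroup X} (hW : Cfsg.IsElementaryAbelian 2 W) {a x : X} (hx : orderOf x = p)
    (hxW : x ∈ Subgroup.normalizer (W : Set X)) (haW : a ∈ Subgroup.normalizer (W : Set X))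
    (hinv : a * x * a⁻¹ = x⁻¹) (hnt : ¬ W ≤ Subgroup.centralizer ({x} : Set X)) :
    4 ≤ (W ⊓ Subgroup.centralizer ({a} : Set X)).relIndex W := by
  by_contra hlt
  apply hnt
  have hWp : IsPGroup 2 W := CfsgLib.ThompsonJ.isPGroup_of_isElementaryAbelian hW
  have : Fact (Nat.Prime 2) := ⟨Nat.prime_two⟩
  set C := W ⊓ Subgroup.centralizer ({a} : Set X) with hC
  have hidx : C.relIndex W ≤ 2 := by
    obtain ⟨k, hk⟩ := IsPGroup.index hWp (C.subgroupOf W)
    have hk' : C.relIndex W = 2 ^ k := hk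
    rw [hk'] at hlt ⊢
    rcases k with _ | _ | k
    · norm_num
    · norm_num
    · exfalso; apply hlt
      calc 4 = 2 ^ 2 := by norm_num
        _ ≤ _ := Nat.pow_le_pow_right (by norm_num) (by omega)
  set C' := W ⊓ Subgroup.centralizer ({x * a * x⁻¹} : Set X) with hC'
  have hconj : C.map (MulAut.conj x).toMonoidHom = C' := by
    ext y
    simp only [Subgroup.mem_map, hC, hC', Subgroup.mem_inf, Subgroup.mem_centralizer_singleton_iff,
      MulEquiv.coe_toMonoidHom, MulAut.conj_apply]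
    constructor
    · rintro ⟨z, ⟨hz, hza⟩, rfl⟩
      refine ⟨(Subgroup.mem_normalizer_iff.mp hxW z).mp hz, ?_⟩
      have := congrArg (MulAut.conj x) hza
      simpa [mul_assoc] using this
    · rintro ⟨hy, hya⟩
      refine ⟨x⁻¹ * y * x, ⟨?_, ?_⟩, by group⟩
      · have := (Subgroup.mem_normalizer_iff.mp (inv_mem hxW) y).mp hy
        simpa using this
      · have := congrArg (MulAut.conj x⁻¹) hya
        simpa [mul_assoc] using this
  have hidx' : C'.relIndex W ≤ 2 := by
    rw [← hconj]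
    have hWW : W.map (MulAut.conj x).toMonoidHom = W := Subgroup.mem_normalizer_iff_map_conj_eq.mp hxW
    conv_lhs => arg 2; rw [← hWW]
    rw [Subgroup.relIndex_map_map_of_injective _ _ (MulAut.conj x).injective]
    exact hidx
  have hD : (C ⊓ C').relIndex W ≤ 4 :=
    le_trans Subgroup.relIndex_inf_le (Nat.mul_le_mul hidx hidx')
  let δ : W →* W :=
    { toFun := fun w => ⟨x * w * x⁻¹, (Subgroup.mem_normalizer_iff.mp hxW w).mp w.2⟩ * w⁻¹
      map_one' := Subtype.ext (by simp)
      map_mul' := fun u v => by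
        have hcm := hW.1.is_comm.comm
        apply Subtype.ext
        have h1 : ∀ s t : W, (s : X) * t = t * s := fun s t => congrArg Subtype.val (hcm s t)
        simp only [Subgroup.coe_mul, InvMemClass.coe_inv]
        rw [h1 u v]
        calc x * ((v : X) * u) * x⁻¹ * ((v : X) * u)⁻¹
            = (x * v * x⁻¹) * ((x * u * x⁻¹ * (u : X)⁻¹) * (v : X)⁻¹) := by group
          _ = (x * v * x⁻¹) * ((v : X)⁻¹ * (x * u * x⁻¹ * (u : X)⁻¹)) := by
              rw [show x * u * x⁻¹ * (u : X)⁻¹ * (v : X)⁻¹ = (v : X)⁻¹ * (x * u * x⁻¹ * (u : X)⁻¹) from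
                h1 ⟨_, W.mul_mem ((Subgroup.mem_normalizer_iff.mp hxW u).mp u.2) (W.inv_mem u.2)⟩ (v⁻¹)]
          _ = (x * v * x⁻¹ * (v : X)⁻¹) * (x * u * x⁻¹ * (u : X)⁻¹) := by group
          _ = (x * u * x⁻¹ * (u : X)⁻¹) * (x * v * x⁻¹ * (v : X)⁻¹) :=
              h1 ⟨_, W.mul_mem ((Subgroup.mem_normalizer_iff.mp hxW v).mp v.2) (W.inv_mem v.2)⟩
                ⟨_, W.mul_mem ((Subgroup.mem_normalizer_iff.mp hxW u).mp u.2) (W.inv_mem u.2)⟩ }
  have hδ : ∀ w : W, ((δ w : W) : X) = x * w * x⁻¹ * (w : X)⁻¹ := fun w => rfl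
  have hx2 : ∀ w : X, w ∈ C ⊓ C' → x * w * x⁻¹ = w := by
    intro w hw
    have h1 : Commute w a := Subgroup.mem_centralizer_singleton_iff.mp hw.1.2
    have h2 : Commute w (x * a * x⁻¹) := Subgroup.mem_centralizer_singleton_iff.mp hw.2.2
    have hxx : (x * a * x⁻¹) * a⁻¹ = x ^ 2 := by
      calc (x * a * x⁻¹) * a⁻¹ = x * (a * x * a⁻¹)⁻¹ := by group
        _ = x ^ 2 := by rw [hinv, inv_inv, pow_two]
    have h3 : Commute w (x ^ 2) := hxx ▸ h2.mul_right h1.inv_right
    obtain ⟨m, hm⟩ : Odd p := hpf.out.odd_of_ne_two (by omega)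
    have h4 : (x ^ 2) ^ (m + 1) = x := by
      rw [← pow_mul, show 2 * (m + 1) = p + 1 by omega, pow_succ, ← hx, pow_orderOf_eq_one, one_mul]
    have h5 : Commute w x := h4 ▸ h3.pow_right (m + 1)
    rw [← h5.eq, mul_inv_cancel_right]
  have hrange : Nat.card δ.range ≤ 4 := by
    rw [← Subgroup.index_ker]
    refine le_trans (Nat.le_of_dvd (Nat.pos_of_ne_zero Subgroup.index_ne_zero_of_finite) ?_) hD
    exact Subgroup.index_dvd_of_le (H := (C ⊓ C').subgroupOf W) fun w hw => Subtype.ext (by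
      have h := hx2 (w : X) hw
      rw [hδ, h, mul_inv_cancel]; rfl)
  let _ : MulAction (Subgroup.zpowers x) δ.range :=
    { smul := fun g r => ⟨⟨(g : X) * r.1 * (g : X)⁻¹,
          (Subgroup.mem_normalizer_iff.mp ((Subgroup.zpowers_le.mpr hxW) g.2) _).mp r.1.2⟩, by
        obtain ⟨w, hw⟩ := r.2
        refine ⟨⟨(g : X) * w * (g : X)⁻¹,
          (Subgroup.mem_normalizer_iff.mp ((Subgroup.zpowers_le.mpr hxW) g.2) _).mp w.2⟩, Subtype.ext ?_⟩
        obtain ⟨i, hi⟩ := Subgroup.mem_zpowers_iff.mp g.2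
        have hc : Commute x (g : X) := hi ▸ Commute.self_zpow x i
        have hr' : ((r.1 : W) : X) = x * w * x⁻¹ * (w : X)⁻¹ := (congrArg Subtype.val hw.symm).trans (hδ w)
        rw [hδ]
        show x * ((g : X) * w * (g : X)⁻¹) * x⁻¹ * ((g : X) * w * (g : X)⁻¹)⁻¹ =
          (g : X) * ((r.1 : W) : X) * (g : X)⁻¹
        rw [hr']
        show x * ((g : X) * w * (g : X)⁻¹) * x⁻¹ * ((g : X) * w * (g : X)⁻¹)⁻¹ =
          (g : X) * (x * w * x⁻¹ * (w : X)⁻¹) * (g : X)⁻¹
        calc x * ((g : X) * w * (g : X)⁻¹) * x⁻¹ * ((g : X) * w * (g : X)⁻¹)⁻¹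
            = (x * g) * w * ((g : X)⁻¹ * x⁻¹) * g * (w : X)⁻¹ * (g : X)⁻¹ := by group
          _ = (g * x) * w * (x⁻¹ * (g : X)⁻¹) * g * (w : X)⁻¹ * (g : X)⁻¹ := by
              rw [hc.eq, hc.inv_inv.eq]
          _ = _ := by group⟩
      one_smul := fun r => Subtype.ext (Subtype.ext (by
        show (1 : X) * r.1 * (1 : X)⁻¹ = r.1
        group))
      mul_smul := fun g k r => Subtype.ext (Subtype.ext (by
        show ((g : X) * k) * r.1 * ((g : X) * k)⁻¹ = g * ((k : X) * r.1 * (k : X)⁻¹) * (g : X)⁻¹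
        group)) }
  have hfixed : ∀ r ∈ MulAction.fixedPoints (Subgroup.zpowers x) δ.range, r = 1 := by
    intro r hr
    obtain ⟨w, hw⟩ := r.2
    set e : X := ((r.1 : W) : X) with he
    have he1 : x * e * x⁻¹ = e :=
      congrArg (fun y : δ.range => ((y.1 : W) : X)) (hr ⟨x, Subgroup.mem_zpowers x⟩)
    have hwe : x * w * x⁻¹ = e * w := by
      rw [he, ← hw, hδ]; group
    have hk : ∀ k : ℕ, x ^ k * w * (x ^ k)⁻¹ = e ^ k * w := by
      intro k
      induction k with
      | zero => simp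
      | succ k ih =>
        calc x ^ (k + 1) * w * (x ^ (k + 1))⁻¹ = x * (x ^ k * w * (x ^ k)⁻¹) * x⁻¹ := by
              rw [pow_succ' x k]; group
          _ = (x * e ^ k * x⁻¹) * (x * w * x⁻¹) := by rw [ih]; group
          _ = e ^ (k + 1) * w := by
              rw [← MulAut.conj_apply, map_pow, MulAut.conj_apply, he1, hwe, pow_succ]; group
    have h1 := hk p
    rw [← hx, pow_orderOf_eq_one] at h1
    have hep : e ^ p = 1 := by
      rw [hx] at h1
      simpa using h1.symm
    have he2 : e ^ 2 = 1 := hW.2 _ r.1.2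
    have h2 := pow_gcd_eq_one.2 ⟨hep, he2⟩
    rw [Nat.Coprime.gcd_eq_one ((Nat.coprime_primes hpf.out Nat.prime_two).mpr (by omega)), pow_one] at h2
    exact Subtype.ext (Subtype.ext h2)
  have hone : MulAction.fixedPoints (Subgroup.zpowers x) δ.range = {1} := by
    refine Set.eq_singleton_iff_unique_mem.mpr ⟨fun g => Subtype.ext (Subtype.ext ?_), hfixed⟩
    show (g : X) * ((1 : W) : X) * (g : X)⁻¹ = ((1 : W) : X)
    simp
  have hmod := (IsPGroup.of_card (p := p) (n := 1)
    (by rw [Nat.card_zpowers, hx, pow_one]) : IsPGroup p (Subgroup.zpowers x)).card_modEq_card_fixedPoints δ.range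
  rw [hone] at hmod
  have hcard1 : Nat.card δ.range = 1 := by
    have hone' : Nat.card ({1} : Set δ.range) = 1 := Nat.card_unique
    rw [hone'] at hmod
    unfold Nat.ModEq at hmod
    rw [Nat.mod_eq_of_lt (by omega), Nat.mod_eq_of_lt (by omega)] at hmod
    exact hmod
  intro w hw
  rw [Subgroup.mem_centralizer_singleton_iff]
  have h := (Subgroup.card_eq_one.mp hcard1 ▸ (⟨⟨w, hw⟩, rfl⟩ : δ ⟨w, hw⟩ ∈ δ.range) : δ ⟨w, hw⟩ ∈ (⊥ : Subgroup W))
  rw [Subgroup.mem_bot] at h
  have h' := congrArg Subtype.val h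
  rw [hδ] at h'
  have h'' : x * w * x⁻¹ = w := mul_inv_eq_one.mp h'
  exact (mul_inv_eq_iff_eq_mul.mp h'').symm

theorem sq_card_le {X : Type*} [Group X] [Finite X] {M V K : Subgroup X}
    (hV : Cfsg.IsElementaryAbelian 2 V) (hMV : M ≤ Subgroup.normalizer (V : Set X))
    (hfaith : M ⊓ Subgroup.centralizer (V : Set X) = ⊥) (hKM : K ≤ M)
    (hKn : M ≤ Subgroup.normalizer (K : Set X)) (hK : Odd (Nat.card K))
    (hno : ¬ Cfsg.Involves (Equiv.Perm (Fin 3)) ↥M) :
    ∀ A : Subgroup X, A ≤ M → Cfsg.IsElementaryAbelian 2 A →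
      A ⊓ Subgroup.centralizer (K : Set X) = ⊥ →
      Nat.card A ^ 2 ≤ (V ⊓ Subgroup.centralizer (A : Set X)).relIndex V := by
  intro A
  induction A using WellFoundedLT.induction with
  | _ A ih =>
  intro hAM hA hAK
  have : Fact (Nat.Prime 2) := ⟨Nat.prime_two⟩
  by_cases hA1 : A = ⊥
  · subst hA1
    rw [Subgroup.card_bot, one_pow]
    exact Nat.pos_of_ne_zero Subgroup.index_ne_zero_of_finite
  have hcopK : ∀ B : Subgroup X, B ≤ A → (Nat.card B).Coprime (Nat.card K) := fun B hB => by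
    obtain ⟨k, hk⟩ := IsPGroup.iff_card.mp
      ((CfsgLib.ThompsonJ.isPGroup_of_isElementaryAbelian hA).to_le hB)
    rw [hk]
    exact (Nat.coprime_two_left.mpr hK).pow_left k
  obtain ⟨B, hBmax⟩ := Set.Finite.exists_maximal
    (s := {B : Subgroup X | B ≤ A ∧ ¬ K ⊓ Subgroup.centralizer (B : Set X) ≤ Subgroup.centralizer (A : Set X)})
    (Set.toFinite _) ⟨⊥, bot_le, fun h => hA1 (by
      rw [← hAK, eq_comm, inf_eq_left]
      refine Subgroup.le_centralizer_iff.mp (le_trans (le_inf le_rfl ?_) h)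
      intro k _
      rw [Subgroup.mem_centralizer_iff]
      intro y hy
      rw [SetLike.mem_coe, Subgroup.mem_bot] at hy
      simp [hy])⟩
  obtain ⟨hBA, hBK⟩ := hBmax.1
  have hcm : ∀ u ∈ A, ∀ v ∈ A, u * v = v * u := fun u hu v hv =>
    congrArg Subtype.val (hA.1.is_comm.comm ⟨u, hu⟩ ⟨v, hv⟩)
  set L := K ⊓ Subgroup.centralizer (B : Set X) with hL
  have hAL : A ≤ Subgroup.normalizer (L : Set X) := fun u hu => by
    rw [Subgroup.mem_normalizer_iff]
    intro y
    refine and_congr (Subgroup.mem_normalizer_iff.mp (hKn (hAM hu)) y) ?_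
    show y ∈ Subgroup.centralizer (B : Set X) ↔ u * y * u⁻¹ ∈ Subgroup.centralizer (B : Set X)
    simp only [Subgroup.mem_centralizer_iff]
    refine forall₂_congr fun b hb => ?_
    have hub : MulAut.conj u b = b := by
      rw [MulAut.conj_apply, hcm u hu b (hBA hb), mul_inv_cancel_right]
    conv_rhs => rw [← hub, ← MulAut.conj_apply, ← map_mul, ← map_mul, (MulAut.conj u).injective.eq_iff]
  have hgt : ∀ e ∈ A, e ∉ B → L ⊓ Subgroup.centralizer ({e} : Set X) ≤ Subgroup.centralizer (A : Set X) := by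
    intro e he heB
    by_contra hnot
    have hle : K ⊓ Subgroup.centralizer ((B ⊔ Subgroup.zpowers e : Subgroup X) : Set X) =
        L ⊓ Subgroup.centralizer ({e} : Set X) := by
      refine le_antisymm (le_inf (inf_le_inf_left _ (Subgroup.centralizer_le
        (by exact_mod_cast (le_sup_left : B ≤ B ⊔ Subgroup.zpowers e))))
        (inf_le_right.trans (Subgroup.centralizer_le
          (Set.singleton_subset_iff.mpr (Subgroup.mem_sup_right (Subgroup.mem_zpowers e)))))) ?_
      refine le_inf (inf_le_left.trans inf_le_left) (Subgroup.le_centralizer_iff.mp ?_)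
      refine sup_le (Subgroup.le_centralizer_iff.mp (inf_le_left.trans inf_le_right))
        (Subgroup.zpowers_le.mpr ?_)
      rw [Subgroup.mem_centralizer_iff]
      exact fun y hy => Subgroup.mem_centralizer_singleton_iff.mp hy.2
    have := hBmax.2 ⟨sup_le hBA (Subgroup.zpowers_le.mpr he), by rw [hle]; exact hnot⟩ le_sup_left
    exact heB (this (Subgroup.mem_sup_right (Subgroup.mem_zpowers e)))
  obtain ⟨a, haA, haB⟩ := SetLike.exists_of_lt (lt_of_le_of_ne hBA fun h => hBK (inf_le_right.trans (Subgroup.centralizer_le (by rw [h]))))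
  have hsup : B ⊔ Subgroup.zpowers a = A := by
    by_contra hne
    obtain ⟨c, hcA, hc⟩ := SetLike.exists_of_lt
      (lt_of_le_of_ne (sup_le hBA (Subgroup.zpowers_le.mpr haA)) hne)
    apply hBK
    set E : Subgroup X := Subgroup.closure {a, c}
    have hEA : E ≤ A := (Subgroup.closure_le _).mpr (by rintro z (rfl | rfl) <;> assumption)
    have : IsMulCommutative E := (CfsgLib.ThompsonJ.isElementaryAbelian_mono hA hEA).1
    have haE : a ∈ E := Subgroup.subset_closure (by simp)
    have hcE : c ∈ E := Subgroup.subset_closure (by simp)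
    have ha2 : a * a = 1 := by rw [← pow_two]; exact hA.2 a haA
    have hc2 : c * c = 1 := by rw [← pow_two]; exact hA.2 c hcA
    have hEB : E ⊓ B = ⊥ := by
      rw [eq_bot_iff]
      rintro e ⟨he, heB⟩
      rw [Subgroup.mem_bot]
      by_contra he1
      -- the only elements of the closure are products of powers
      have hS : e ∈ Subgroup.zpowers a ⊔ Subgroup.zpowers c := by
        have : E ≤ Subgroup.zpowers a ⊔ Subgroup.zpowers c := (Subgroup.closure_le _).mpr (by
          rintro z (rfl | rfl)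
          · exact Subgroup.mem_sup_left (Subgroup.mem_zpowers _)
          · exact Subgroup.mem_sup_right (Subgroup.mem_zpowers _))
        exact this he
      have hn : Subgroup.zpowers a ≤ Subgroup.normalizer ((Subgroup.zpowers c : Subgroup X) : Set X) :=
        le_trans (Subgroup.zpowers_le.mpr (Subgroup.mem_centralizer_iff.mpr fun z hz => by
          obtain ⟨i, rfl⟩ := Subgroup.mem_zpowers_iff.mp hz
          exact ((show Commute c a from hcm c hcA a haA).zpow_left i).eq))
          (Subgroup.centralizer_le_normalizer _)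
      rw [← SetLike.mem_coe, Subgroup.coe_mul_of_left_le_normalizer_right _ _ hn] at hS
      obtain ⟨u, hu, v, hv, rfl⟩ := hS
      have htwo : ∀ {g : X}, g * g = 1 → ∀ z ∈ Subgroup.zpowers g, z = 1 ∨ z = g := by
        intro g hg z hz
        obtain ⟨i, rfl⟩ := Subgroup.mem_zpowers_iff.mp hz
        rcases Int.even_or_odd' i with ⟨j, rfl | rfl⟩
        · left; rw [zpow_mul, zpow_two, hg, one_zpow]
        · right; rw [zpow_add_one, zpow_mul, zpow_two, hg, one_zpow, one_mul]
      rcases htwo ha2 u hu with rfl | rfl <;> rcases htwo hc2 v hv with rfl | rfl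
      · exact he1 (one_mul _)
      · exact hc (Subgroup.mem_sup_left (by simpa using heB))
      · exact haB (by simpa using heB)
      · apply hc
        have : v = u * (u * v) := by rw [← mul_assoc, ha2, one_mul]
        rw [this]
        exact Subgroup.mul_mem _ (Subgroup.mem_sup_right (Subgroup.mem_zpowers _)) (Subgroup.mem_sup_left heB)
    have hnc : ¬ IsCyclic E := by
      intro hcyc
      obtain ⟨g, hg⟩ := hcyc.exists_generator
      have hsub : ∀ z : E, z = 1 ∨ z = g := by
        intro z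
        obtain ⟨i, hi⟩ := Subgroup.mem_zpowers_iff.mp (hg z)
        have hgg : g * g = 1 := Subtype.ext (by
          show (g : X) * g = 1
          rw [← pow_two]; exact hA.2 _ (hEA g.2))
        rcases Int.even_or_odd' i with ⟨j, rfl | rfl⟩
        · left; rw [← hi, zpow_mul, zpow_two, hgg, one_zpow]
        · right; rw [← hi, zpow_add_one, zpow_mul, zpow_two, hgg, one_zpow, one_mul]
      have hne1 : (⟨a, haE⟩ : E) ≠ 1 := fun h => haB (by
        have : a = 1 := congrArg Subtype.val h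
        rw [this]; exact B.one_mem)
      have hne2 : (⟨c, hcE⟩ : E) ≠ 1 := fun h => hc (by
        have : c = 1 := congrArg Subtype.val h
        rw [this]; exact one_mem _)
      have := ((hsub ⟨a, haE⟩).resolve_left hne1).trans ((hsub ⟨c, hcE⟩).resolve_left hne2).symm
      have hac : a = c := congrArg Subtype.val this
      exact hc (hac ▸ Subgroup.mem_sup_right (Subgroup.mem_zpowers a))
    refine CfsgLib.CoprimeAction.le_of_centralizers hnc (hEA.trans hAL)
      ((hcopK E hEA).coprime_dvd_right (Subgroup.card_dvd_of_le inf_le_left)) fun e he he1 => ?_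
    exact hgt e (hEA he) fun heB => he1 ((Subgroup.eq_bot_iff_forall _).mp hEB e ⟨he, heB⟩)
  -- an element of prime order inverted by `a`
  obtain ⟨l, hlL, hla⟩ : ∃ l ∈ L, a * l ≠ l * a := by
    by_contra hh
    push Not at hh
    apply hBK
    refine Subgroup.le_centralizer_iff.mp ?_
    rw [← hsup]
    refine sup_le (Subgroup.le_centralizer_iff.mp inf_le_right) (Subgroup.zpowers_le.mpr ?_)
    exact Subgroup.mem_centralizer_iff.mpr fun y hy => (hh y hy).symm
  have ha2 : a * a = 1 := by rw [← pow_two]; exact hA.2 a haA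
  set y := l * (a * l⁻¹ * a⁻¹) with hy
  have hyL : y ∈ L := L.mul_mem hlL ((Subgroup.mem_normalizer_iff.mp (hAL haA) _).mp (L.inv_mem hlL))
  have hy1 : y ≠ 1 := fun h => hla (by
    have h2 : a * l⁻¹ * a⁻¹ = l⁻¹ := eq_inv_of_mul_eq_one_right h
    calc a * l = (a * l⁻¹ * a⁻¹)⁻¹ * a := by group
      _ = l * a := by rw [h2, inv_inv])
  have hyinv : a * y * a⁻¹ = y⁻¹ := by
    have : a⁻¹ = a := inv_eq_of_mul_eq_one_right ha2
    rw [hy]
    simp only [mul_inv_rev, inv_inv, this, mul_assoc, ha2, mul_one]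
  obtain ⟨p, hp, hpd⟩ := Nat.exists_prime_and_dvd (show orderOf y ≠ 1 by simpa using hy1)
  have : Fact p.Prime := ⟨hp⟩
  set x := y ^ (orderOf y / p) with hx
  have hxo : orderOf x = p := by
    rw [hx, orderOf_pow_of_dvd (Nat.div_pos (Nat.le_of_dvd (orderOf_pos y) hpd) hp.pos).ne'
      (Nat.div_dvd_of_dvd hpd), Nat.div_div_self hpd (orderOf_pos y).ne']
  have hxL : x ∈ L := L.pow_mem hyL _
  have hxinv : a * x * a⁻¹ = x⁻¹ := by
    rw [hx, ← MulAut.conj_apply, map_pow, MulAut.conj_apply, hyinv, inv_pow]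
  have hp2 : p ≠ 2 := by
    intro h
    have : p ∣ Nat.card K := hxo ▸ Subgroup.orderOf_dvd_natCard K hxL.1
    rw [h] at this
    exact (Nat.not_even_iff_odd.mpr hK) (even_iff_two_dvd.mpr this)
  have hxM : x ∈ M := hKM hxL.1
  have hp5 : 5 ≤ p := by
    have := hp.two_le
    rcases (show p = 2 ∨ p = 3 ∨ p = 4 ∨ 5 ≤ p by omega) with h | h | h | h
    · exact absurd h hp2
    · exfalso
      subst h
      apply hno
      obtain ⟨e⟩ := CfsgLib.Amalgams.nonempty_dihedral_three_equiv
      refine CfsgLib.Amalgams.involves_mono e.toMonoidHom e.surjective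
        (CfsgLib.Amalgams.involves_dihedral_of_inverts (G := M) (x := ⟨a, hAM haA⟩) (y := ⟨x, hxM⟩)
          (by norm_num) ⟨1, ?_⟩ ⟨1, ?_⟩ ?_ (Subtype.ext hxinv))
      · rw [Subgroup.orderOf_mk, pow_one]
        exact orderOf_eq_prime (hA.2 a haA) fun hh => haB (hh ▸ B.one_mem)
      · rw [Subgroup.orderOf_mk, pow_one, hxo]
      · intro hh
        have : x = 1 := congrArg Subtype.val hh
        rw [this, orderOf_one] at hxo
        omega
    · exact absurd (h ▸ hp) (by norm_num)
    · exact h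
  set W := V ⊓ Subgroup.centralizer (B : Set X) with hW
  have hWV : W ≤ V := inf_le_left
  have hBn : ∀ g : X, g ∈ Subgroup.normalizer (V : Set X) → g ∈ Subgroup.centralizer (B : Set X) →
      g ∈ Subgroup.normalizer (W : Set X) := by
    intro g hgV hgB
    rw [Subgroup.mem_normalizer_iff]
    intro z
    refine and_congr (Subgroup.mem_normalizer_iff.mp hgV z) ?_
    show z ∈ Subgroup.centralizer (B : Set X) ↔ g * z * g⁻¹ ∈ Subgroup.centralizer (B : Set X)
    rw [Subgroup.mul_mem_cancel_right _ (inv_mem hgB), Subgroup.mul_mem_cancel_left _ hgB]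
  have haC : a ∈ Subgroup.centralizer (B : Set X) :=
    Subgroup.mem_centralizer_iff.mpr fun b hb => hcm b (hBA hb) a haA
  have hxB : x ∈ Subgroup.centralizer (B : Set X) := hxL.2
  have hnt : ¬ W ≤ Subgroup.centralizer ({x} : Set X) := by
    intro hh
    have hWx : W ≤ Subgroup.centralizer ((Subgroup.zpowers x : Subgroup X) : Set X) := by
      rw [Subgroup.le_centralizer_iff]
      exact Subgroup.zpowers_le.mpr (Subgroup.mem_centralizer_iff.mpr fun z hz =>
        Subgroup.mem_centralizer_singleton_iff.mp (hh hz))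
    have h := CfsgLib.CoprimeAction.pxq (p := 2) (P := B) (Q := Subgroup.zpowers x) (U := V)
      ((CfsgLib.ThompsonJ.isPGroup_of_isElementaryAbelian hA).to_le hBA)
      (by rw [Nat.card_zpowers, hxo]; exact (Nat.coprime_primes hp Nat.prime_two).mpr hp2)
      (CfsgLib.ThompsonJ.isPGroup_of_isElementaryAbelian hV)
      (Subgroup.le_centralizer_iff.mp (Subgroup.zpowers_le.mpr hxB))
      (hBA.trans (hAM.trans hMV)) (Subgroup.zpowers_le.mpr (hMV hxM)) hWx
    have hx1 : x ∈ M ⊓ Subgroup.centralizer (V : Set X) := ⟨hxM, h (Subgroup.mem_zpowers x)⟩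
    rw [hfaith, Subgroup.mem_bot] at hx1
    rw [hx1, orderOf_one] at hxo
    omega
  have h4 := four_le_relIndex hp5 (CfsgLib.ThompsonJ.isElementaryAbelian_mono hV hWV) hxo
    (hBn x (hMV hxM) hxB) (hBn a (hMV (hAM haA)) haC) hxinv hnt
  have hBlt : B < A := lt_of_le_of_ne hBA fun h => haB (h ▸ haA)
  have hind := ih B hBlt (hBA.trans hAM) (CfsgLib.ThompsonJ.isElementaryAbelian_mono hA hBA)
    (le_bot_iff.mp (hAK ▸ inf_le_inf_right _ hBA))
  have hcard : Nat.card A ≤ Nat.card B * 2 := by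
    rw [← hsup]
    have hn : B ≤ Subgroup.normalizer ((Subgroup.zpowers a : Subgroup X) : Set X) := fun b hb =>
      Subgroup.centralizer_le_normalizer _ (Subgroup.mem_centralizer_iff.mpr fun z hz => by
        obtain ⟨i, rfl⟩ := Subgroup.mem_zpowers_iff.mp hz
        exact ((show Commute a b from hcm a haA b (hBA hb)).zpow_left i).eq)
    have h2 : Nat.card ↥(B ⊔ Subgroup.zpowers a) ≤ Nat.card B * Nat.card (Subgroup.zpowers a) := by
      rw [← Nat.card_prod]
      refine Nat.card_le_card_of_surjective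
        (fun q : B × Subgroup.zpowers a => (⟨(q.1 : X) * q.2,
          Subgroup.mul_mem _ (Subgroup.mem_sup_left q.1.2) (Subgroup.mem_sup_right q.2.2)⟩ :
          ↥(B ⊔ Subgroup.zpowers a))) ?_
      intro z
      have hz : (z : X) ∈ ((B ⊔ Subgroup.zpowers a : Subgroup X) : Set X) := z.2
      rw [Subgroup.coe_mul_of_left_le_normalizer_right _ _ hn] at hz
      obtain ⟨u, hu, v, hv, huv⟩ := hz
      exact ⟨(⟨u, hu⟩, ⟨v, hv⟩), Subtype.ext huv⟩
    refine h2.trans (Nat.mul_le_mul_left _ ?_)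
    rw [Nat.card_zpowers]
    exact Nat.le_of_dvd (by norm_num) (orderOf_dvd_of_pow_eq_one (hA.2 a haA))
  have hWA : V ⊓ Subgroup.centralizer (A : Set X) ≤ W ⊓ Subgroup.centralizer ({a} : Set X) :=
    le_inf (inf_le_inf_left _ (Subgroup.centralizer_le (by exact_mod_cast hBA)))
      (inf_le_right.trans (Subgroup.centralizer_le (Set.singleton_subset_iff.mpr haA)))
  calc Nat.card A ^ 2 ≤ (Nat.card B * 2) ^ 2 := Nat.pow_le_pow_left hcard 2
    _ = 4 * Nat.card B ^ 2 := by ring
    _ ≤ (W ⊓ Subgroup.centralizer ({a} : Set X)).relIndex W * W.relIndex V := Nat.mul_le_mul h4 hind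
    _ = (W ⊓ Subgroup.centralizer ({a} : Set X)).relIndex V :=
        Subgroup.relIndex_mul_relIndex _ _ _ inf_le_left hWV
    _ ≤ _ := Nat.le_of_dvd (Nat.pos_of_ne_zero Subgroup.index_ne_zero_of_finite)
        (Subgroup.relIndex_dvd_of_le_left V hWA)

/-- Let M and V be subgroups of a finite group with V an elementary abelian 2-group, M normalizing V and acting faithfully on it (M ∩ C(V) = 1), and C_M(O_{2'}(M)) ≤ O_{2'}(M). If some elementary abelian 2-subgroup A of M satisfies |V : C_V(A)| < |A|², then M has a section isomorphic to the symmetric group of degree 3. -/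
theorem result {X : Type*} [Group X] [Finite X] (M V : Subgroup X) (hV : Cfsg.IsElementaryAbelian 2 V) (hMV : M ≤ Subgroup.normalizer (V : Set X)) (hfaith : M ⊓ Subgroup.centralizer (V : Set X) = ⊥) (hcon : Subgroup.centralizer (Cfsg.pPrimeCore 2 ↥M : Set ↥M) ≤ Cfsg.pPrimeCore 2 ↥M) (A : Subgroup X) (hAM : A ≤ M) (hA : Cfsg.IsElementaryAbelian 2 A) (hsmall : (V ⊓ Subgroup.centralizer (A : Set X)).relIndex V < Nat.card A ^ 2) : Cfsg.Involves (Equiv.Perm (Fin 3)) ↥M := by
  by_contra hno
  have : Fact (Nat.Prime 2) := ⟨Nat.prime_two⟩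
  set O := Cfsg.pPrimeCore 2 ↥M with hO
  set K := O.map M.subtype with hK
  have hKM : K ≤ M := Subgroup.map_subtype_le _
  have hKn : M ≤ Subgroup.normalizer (K : Set X) := by
    intro m hm
    rw [Subgroup.mem_normalizer_iff]
    intro z
    constructor
    · rintro ⟨w, hw, rfl⟩
      exact ⟨⟨m, hm⟩ * w * ⟨m, hm⟩⁻¹, (inferInstance : O.Normal).conj_mem w hw _, rfl⟩
    · rintro ⟨w, hw, hwz⟩
      refine ⟨⟨m, hm⟩⁻¹ * w * ⟨m, hm⟩, by simpa using (inferInstance : O.Normal).conj_mem w hw ⟨m, hm⟩⁻¹, ?_⟩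
      show m⁻¹ * (w : X) * m = z
      rw [show (w : X) = m * z * m⁻¹ from hwz]
      group
  have hKodd : Odd (Nat.card K) := by
    rw [hK, Subgroup.card_subtype]
    exact Nat.coprime_two_right.mp (CfsgLib.Cores.card_pPrimeCore_coprime 2)
  have hAK : A ⊓ Subgroup.centralizer (K : Set X) = ⊥ := by
    rw [eq_bot_iff]
    rintro a ⟨haA, haK⟩
    rw [Subgroup.mem_bot]
    have haO : (⟨a, hAM haA⟩ : M) ∈ O := hcon (Subgroup.mem_centralizer_iff.mpr fun w hw =>
      Subtype.ext (Subgroup.mem_centralizer_iff.mp haK (w : X) ⟨w, hw, rfl⟩))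
    have h1 : orderOf a ∣ Nat.card O := by
      have := Subgroup.orderOf_dvd_natCard O haO
      rwa [Subgroup.orderOf_mk] at this
    have h2 := Nat.eq_one_of_dvd_coprimes (CfsgLib.Cores.card_pPrimeCore_coprime 2) h1
      (orderOf_dvd_of_pow_eq_one (hA.2 a haA))
    exact orderOf_eq_one_iff.mp h2
  have := sq_card_le hV hMV hfaith hKM hKn hKodd hno A hAM hA hAK
  omega

end Cfsg.Agent.S3755
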