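import Cfsg.Statements.S3756
import Cfsg.Agent.Lib.SFourFree.Closure
import Cfsg.Agent.Lib.PushUp.ConjFunctor
import Cfsg.Agent.Lib.Cores.PCore

set_option autoImplicit false
open Cfsg

namespace Cfsg.Agent.S3756

open CfsgLib.PushUp (cmap mem_cmap cmap_one cmap_mul cmap_mono cmap_inv_cmap cmap_cmap_inv
  card_cmap cmap_eq_bot cmap_eq_of_mem_normalizer mem_normalizer_of_cmap_eq cmap_normalizer)

section Helpers

variable {G : Type*} [Group G]

theorem isTwoLocal_cmap {L : Subgroup G} (hL : Cfsg.IsTwoLocal L) (g : G) :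
    Cfsg.IsTwoLocal (cmap g L) := by
  obtain ⟨T, hT, hT1, rfl⟩ := hL
  exact ⟨cmap g T, hT.map _, fun h => hT1 (cmap_eq_bot.1 h), cmap_normalizer g T⟩

theorem exists_grow {p : ℕ} [Fact p.Prime] [Finite G] {P T : Subgroup G} (hP : IsPGroup p P)
    (hT : T ≤ P) (hne : T ≠ P) : T < P ⊓ Subgroup.normalizer (T : Set G) := by
  have : Group.IsNilpotent ↥P := IsPGroup.isNilpotent hP
  have hlt : T.subgroupOf P < ⊤ := by
    rw [lt_top_iff_ne_top, Ne, Subgroup.subgroupOf_eq_top]
    exact fun h => hne (le_antisymm hT h)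
  have hn := Group.normalizerCondition_of_isNilpotent _ hlt
  obtain ⟨y, hy, hyT⟩ := SetLike.exists_of_lt hn
  refine lt_of_le_of_ne (le_inf hT Subgroup.le_normalizer) fun heq => hyT ?_
  rw [Subgroup.mem_subgroupOf, heq]
  refine ⟨y.2, ?_⟩
  have h := Subgroup.le_normalizer_map P.subtype (Subgroup.mem_map_of_mem P.subtype hy)
  rwa [Subgroup.map_subgroupOf_eq_of_le hT] at h

theorem exists_max_two [Finite G] (K : Subgroup G) :
    ∃ T : Subgroup G, IsPGroup 2 T ∧ T ≤ K ∧
      (2 ∣ Nat.card K → T ≠ ⊥) ∧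
      ∀ R : Subgroup G, IsPGroup 2 R → R ≤ K → T ≤ R → R = T := by
  haveI : Fact (Nat.Prime 2) := ⟨Nat.prime_two⟩
  obtain ⟨P⟩ : Nonempty (Sylow 2 K) := inferInstance
  refine ⟨(P : Subgroup K).map K.subtype, P.2.map _, Subgroup.map_subtype_le _, fun h2 h => ?_,
    fun R hR hRK hPR => ?_⟩
  · exact P.ne_bot_of_dvd_card h2
      ((Subgroup.map_eq_bot_iff_of_injective _ K.subtype_injective).1 h)
  · have h1 : R.subgroupOf K = P := P.3 hR.comap_subtype
      (Subgroup.map_le_iff_le_comap.1 hPR)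
    rw [← h1, Subgroup.map_subgroupOf_eq_of_le hRK]

theorem normalizer_le_normalizer_omega (p : ℕ) (T : Subgroup G) :
    Subgroup.normalizer (T : Set G) ≤ Subgroup.normalizer
      ((Cfsg.omegaOne p (T ⊓ Subgroup.centralizer (T : Set G)) : Subgroup G) : Set G) := by
  intro g hg
  have hinj : Function.Injective (MulAut.conj g).toMonoidHom := (MulAut.conj g).injective
  apply mem_normalizer_of_cmap_eq
  rw [cmap, CfsgLib.ThompsonJ.map_omegaOne hinj, CfsgLib.ThompsonJ.map_inf_centralizer hinj,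
    show T.map (MulAut.conj g).toMonoidHom = T from cmap_eq_of_mem_normalizer hg]

theorem omega_center_ne_bot [Finite G] {T : Subgroup G} (hT : IsPGroup 2 T) (hT1 : T ≠ ⊥) :
    Cfsg.omegaOne 2 (T ⊓ Subgroup.centralizer (T : Set G)) ≠ ⊥ := by
  haveI : Fact (Nat.Prime 2) := ⟨Nat.prime_two⟩
  haveI : Nontrivial ↥T := (Subgroup.nontrivial_iff_ne_bot T).2 hT1
  haveI := hT.center_nontrivial
  obtain ⟨n, hn⟩ := IsPGroup.iff_card.1 (hT.to_subgroup (Subgroup.center ↥T))
  have h2 : 2 ∣ Nat.card (Subgroup.center ↥T) := by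
    rw [hn]
    refine dvd_pow_self 2 fun h0 => ?_
    rw [h0, pow_zero] at hn
    exact absurd hn (ne_of_gt Finite.one_lt_card)
  obtain ⟨z, hz⟩ := exists_prime_orderOf_dvd_card' 2 h2
  intro h
  have hzm : ((z : T) : G) ∈ Cfsg.omegaOne 2 (T ⊓ Subgroup.centralizer (T : Set G)) := by
    refine Subgroup.subset_closure ⟨⟨(z : T).2, ?_⟩, ?_⟩
    · refine Subgroup.mem_centralizer_iff.2 fun t ht => ?_
      exact congrArg Subtype.val (Subgroup.mem_center_iff.1 z.2 ⟨t, ht⟩)
    · have : z ^ 2 = 1 := hz ▸ pow_orderOf_eq_one z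
      have h' := congrArg (fun w : Subgroup.center ↥T => ((w : T) : G)) this
      simpa using h'
  rw [h, Subgroup.mem_bot] at hzm
  have : z = 1 := Subtype.ext (Subtype.ext hzm)
  rw [this, orderOf_one] at hz
  omega

end Helpers

/-- Let G be a finite group of even order with O₂(G) = 1 such that every 2-local subgroup of G is solvable, of characteristic 2, and has no section isomorphic to the symmetric group of degree 4. Then every maximal 2-local subgroup of G is strongly embedded in G. -/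
theorem result {G : Type*} [Group G] [Finite G] (heven : Even (Nat.card G)) (hO : Cfsg.pCore 2 G = ⊥) (hloc : ∀ M : Subgroup G, Cfsg.IsTwoLocal M → Group.IsSolvable M ∧ Cfsg.IsOfCharacteristicTwo ↥M ∧ ¬ Cfsg.Involves (Equiv.Perm (Fin 4)) ↥M) (M : Subgroup G) (hM : Cfsg.IsMaximalTwoLocal M) : Cfsg.IsStronglyEmbedded M := by
  haveI : Fact (Nat.Prime 2) := ⟨Nat.prime_two⟩
  obtain ⟨S⟩ : Nonempty (Sylow 2 G) := inferInstance
  have hS1 : (S : Subgroup G) ≠ ⊥ := S.ne_bot_of_dvd_card (even_iff_two_dvd.1 heven)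
  set J := thompsonSubgroupOf 2 (S : Subgroup G) with hJdef
  have hJS : J ≤ (S : Subgroup G) := CfsgLib.ThompsonJ.thompsonSubgroupOf_le 2 _
  set Z := omegaOne 2 ((S : Subgroup G) ⊓ Subgroup.centralizer ((S : Subgroup G) : Set G)) with hZdef
  set Om := omegaOne 2 (centerThompsonOf 2 (S : Subgroup G)) with hOmdef
  set gens : Set G := {y | ∃ g ∈ Subgroup.normalizer (J : Set G), ∃ z ∈ Z, y = g * z * g⁻¹}
    with hgens
  set V := Subgroup.closure gens with hVdef
  have hZOm : Z ≤ Om := CfsgLib.ThompsonJ.omegaOne_center_le _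
  have hJOm : Subgroup.normalizer (J : Set G) ≤ Subgroup.normalizer (Om : Set G) :=
    normalizer_le_normalizer_omega 2 J
  have hVOm : V ≤ Om := by
    refine (Subgroup.closure_le _).2 ?_
    rintro _ ⟨g, hg, z, hz, rfl⟩
    exact (Subgroup.mem_normalizer_iff.1 (hJOm hg) z).1 (hZOm hz)
  have hVe : IsElementaryAbelian 2 V := CfsgLib.ThompsonJ.isElementaryAbelian_mono
    (CfsgLib.ThompsonJ.isElementaryAbelian_omegaOne_centerThompsonOf 2 _) hVOm
  have hVS : V ≤ (S : Subgroup G) :=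
    hVOm.trans (((CfsgLib.ThompsonJ.omegaOne_le 2 _).trans inf_le_left).trans hJS)
  have hZV : Z ≤ V := fun z hz =>
    Subgroup.subset_closure ⟨1, Subgroup.one_mem _, z, hz, by group⟩
  have hV1 : V ≠ ⊥ := fun h => omega_center_ne_bot S.2 hS1 (eq_bot_iff.2 (h ▸ hZV))
  have hJV : Subgroup.normalizer (J : Set G) ≤ Subgroup.normalizer (V : Set G) := by
    intro g hg
    apply mem_normalizer_of_cmap_eq
    refine Subgroup.eq_of_le_of_card_ge ?_ (le_of_eq (card_cmap g V).symm)
    rw [cmap, hVdef, MonoidHom.map_closure, Subgroup.closure_le]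
    rintro _ ⟨y, ⟨k, hk, z, hz, rfl⟩, rfl⟩
    refine Subgroup.subset_closure ⟨g * k, mul_mem hg hk, z, hz, ?_⟩
    show g * (k * z * k⁻¹) * g⁻¹ = g * k * z * (g * k)⁻¹
    group
  have hSJ : (S : Subgroup G) ≤ Subgroup.normalizer (J : Set G) :=
    Subgroup.le_normalizer.trans (CfsgLib.ThompsonJ.normalizer_le_normalizer_thompsonSubgroupOf 2 _)
  set M0 := Subgroup.normalizer (V : Set G) with hM0
  have hSM0 : (S : Subgroup G) ≤ M0 := hSJ.trans hJV
  have hM0loc : IsTwoLocal M0 := ⟨V, S.2.to_le hVS, hV1, rfl⟩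
  have hgood : CfsgLib.SFourFree.GoodMod V := by
    refine CfsgLib.SFourFree.goodMod_of_generated S hVe hSM0 (hloc M0 hM0loc).1
      (hloc M0 hM0loc).2.2 ((Subgroup.closure_le _).2 ?_)
    rintro _ ⟨g, hg, z, hz, rfl⟩
    exact Subgroup.subset_closure
      ⟨g, hJV hg, z, hZV hz, ((CfsgLib.ThompsonJ.omegaOne_le 2 _) hz).2, rfl⟩
  have hA : ∀ L : Subgroup G, IsTwoLocal L → (S : Subgroup G) ≤ L → L ≤ M0 := by
    intro L hL hSL
    obtain ⟨hsol, hchar, h4⟩ := hloc L hL
    haveI := hsol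
    have hVL : V ≤ L := hVS.trans hSL
    rw [← Subgroup.normal_subgroupOf_iff_le_normalizer hVL]
    refine CfsgLib.SFourFree.normal_of_goodMod h4 hchar (S.subtype hSL)
      (CfsgLib.ThompsonJ.isElementaryAbelian_subgroupOf hVe) (fun x hx => hVS hx) ?_
      (CfsgLib.SFourFree.goodMod_subgroupOf hgood hVL) ?_
    · intro x hx
      have hxn : (x : G) ∈ Subgroup.normalizer (V : Set G) := hSM0 hx
      rw [Subgroup.mem_normalizer_iff] at hxn ⊢
      exact fun y => hxn (y : G)
    · intro x hx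
      have h := Subgroup.le_normalizer_map L.subtype (Subgroup.mem_map_of_mem L.subtype hx)
      rw [CfsgLib.ThompsonJ.map_thompsonSubgroupOf L.subtype_injective, Sylow.coe_subtype,
        Subgroup.map_subgroupOf_eq_of_le hSL] at h
      have hxn : (x : G) ∈ Subgroup.normalizer (V : Set G) := hJV h
      rw [Subgroup.mem_normalizer_iff] at hxn ⊢
      exact fun y => hxn (y : G)
  have hB : ∀ (n : ℕ) (L T : Subgroup G), IsTwoLocal L → IsPGroup 2 T → T ≠ ⊥ → T ≤ L → T ≤ M0 →
      Nat.card (S : Subgroup G) - Nat.card T = n → L ≤ M0 := by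
    intro n
    induction n using Nat.strong_induction_on with
    | _ n ih =>
    intro L T hL hT hT1 hTL hTM hn
    have hbound : ∀ R : Subgroup G, IsPGroup 2 R → Nat.card R ≤ Nat.card (S : Subgroup G) := by
      intro R hR
      obtain ⟨P, hP⟩ := hR.exists_le_sylow
      exact (Subgroup.card_le_of_le hP).trans_eq (Nat.card_congr (P.equiv S).toEquiv)
    have step : ∀ K T' : Subgroup G, IsTwoLocal K → IsPGroup 2 T' → T < T' → T' ≤ K → T' ≤ M0 →
        K ≤ M0 := by
      intro K T' hK hT' hlt hT'K hT'M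
      have h1 : Nat.card T < Nat.card T' := by
        by_contra! hc
        exact hlt.ne (Subgroup.eq_of_le_of_card_ge hlt.le hc)
      have h2 := hbound T' hT'
      exact ih _ (by omega) K T' hK hT' (fun h => hT1 (eq_bot_iff.2 (hlt.le.trans_eq h))) hT'K hT'M rfl
    by_cases hmax : ∃ R : Subgroup G, IsPGroup 2 R ∧ T < R ∧ R ≤ L ∧ R ≤ M0
    · obtain ⟨R, hR, hlt, hRL, hRM⟩ := hmax
      exact step L R hL hR hlt hRL hRM
    push Not at hmax
    obtain ⟨S1, hS1le⟩ := (hT.comap_subtype (K := M0)).exists_le_sylow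
    obtain ⟨m, hm⟩ := MulAction.exists_smul_eq M0 (S.subtype hSM0) S1
    have hTS : T ≤ cmap (m : G) (S : Subgroup G) := by
      intro t ht
      have h1 : (⟨t, hTM ht⟩ : M0) ∈ (S1 : Subgroup M0) := hS1le ht
      rw [← hm, Sylow.coe_subgroup_smul, Subgroup.pointwise_smul_def] at h1
      obtain ⟨s, hs, hst⟩ := h1
      exact ⟨(s : G), hs, congrArg Subtype.val hst⟩
    have hmM : cmap (m : G) M0 = M0 := cmap_eq_of_mem_normalizer (Subgroup.le_normalizer m.2)
    have hSmM : cmap (m : G) (S : Subgroup G) ≤ M0 := (cmap_mono _ hSM0).trans_eq hmM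
    by_cases hTeq : T = cmap (m : G) (S : Subgroup G)
    · have h1 := hA (cmap (m : G)⁻¹ L) (isTwoLocal_cmap hL _) (by
        rw [← cmap_inv_cmap (m : G) (S : Subgroup G)]
        exact cmap_mono _ (hTeq ▸ hTL))
      calc L = cmap (m : G) (cmap (m : G)⁻¹ L) := (cmap_cmap_inv _ _).symm
        _ ≤ cmap (m : G) M0 := cmap_mono _ h1
        _ = M0 := hmM
    · set T' := cmap (m : G) (S : Subgroup G) ⊓ Subgroup.normalizer (T : Set G) with hT'def
      have hlt : T < T' := exists_grow (S.2.map _) hTS hTeq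
      have hT'p : IsPGroup 2 T' := (S.2.map _).to_le inf_le_left
      have hT'M : T' ≤ M0 := inf_le_left.trans hSmM
      have hNT : Subgroup.normalizer (T : Set G) ≤ M0 :=
        step _ T' ⟨T, hT, hT1, rfl⟩ hT'p hlt inf_le_right hT'M
      obtain ⟨hsol, hchar, h4⟩ := hloc L hL
      haveI := hsol
      obtain ⟨P, hP⟩ := (hT.comap_subtype (K := L)).exists_le_sylow
      have hPT : (P : Subgroup L).map L.subtype = T := by
        have hle : T ≤ (P : Subgroup L).map L.subtype := fun t ht => ⟨⟨t, hTL ht⟩, hP ht, rfl⟩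
        by_contra hne
        have hlt2 := exists_grow (P.2.map L.subtype) hle (Ne.symm hne)
        exact hmax _ ((P.2.map L.subtype).to_le inf_le_left) hlt2
          (inf_le_left.trans (Subgroup.map_subtype_le _)) (inf_le_right.trans hNT)
      have hfac := CfsgLib.SFourFree.normalizer_thompson_sup_centralizer_omegaOne h4 hchar P
      have hmap := congrArg (Subgroup.map L.subtype) hfac
      rw [← MonoidHom.range_eq_map, Subgroup.range_subtype, Subgroup.map_sup] at hmap
      have hNTn : Subgroup.normalizer (T : Set G) ≤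
          Subgroup.normalizer ((thompsonSubgroupOf 2 T : Subgroup G) : Set G) :=
        CfsgLib.ThompsonJ.normalizer_le_normalizer_thompsonSubgroupOf 2 T
      rw [← hmap]
      refine sup_le ?_ ?_
      · refine (Subgroup.le_normalizer_map _).trans ?_
        rw [CfsgLib.ThompsonJ.map_thompsonSubgroupOf L.subtype_injective, hPT]
        refine step _ T' ⟨_, hT.to_le (CfsgLib.ThompsonJ.thompsonSubgroupOf_le 2 T), ?_, rfl⟩ hT'p
          hlt (inf_le_right.trans hNTn) hT'M
        refine CfsgLib.ThompsonJ.thompsonSubgroupOf_ne_bot ?_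
        obtain ⟨k, hk⟩ := IsPGroup.iff_card.1 hT
        exact hk ▸ dvd_pow_self 2 fun h0 => hT1 (Subgroup.card_eq_one.1 (by rw [hk, h0, pow_zero]))
      · set ZT := omegaOne 2 (T ⊓ Subgroup.centralizer (T : Set G)) with hZT
        refine le_trans ?_ (step (Subgroup.normalizer (ZT : Set G)) T'
          ⟨ZT, hT.to_le ((CfsgLib.ThompsonJ.omegaOne_le 2 _).trans inf_le_left),
            omega_center_ne_bot hT hT1, rfl⟩ hT'p hlt
          (inf_le_right.trans (normalizer_le_normalizer_omega 2 T)) hT'M)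
        refine le_trans ?_ (Subgroup.centralizer_le_normalizer _)
        rintro _ ⟨c, hc, rfl⟩
        have := CfsgLib.SFourFree.map_mem_centralizer L.subtype hc
        rwa [CfsgLib.ThompsonJ.map_omegaOne L.subtype_injective,
          CfsgLib.ThompsonJ.map_inf_centralizer L.subtype_injective, hPT] at this
  have hB' : ∀ L R : Subgroup G, IsTwoLocal L → IsPGroup 2 R → R ≠ ⊥ → R ≤ L → R ≤ M0 → L ≤ M0 :=
    fun L R h1 h2 h3 h4 h5 => hB _ L R h1 h2 h3 h4 h5 rfl
  obtain ⟨hMloc, hMmax⟩ := hM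
  obtain ⟨T0, hT0, hT01, hMT0⟩ := id hMloc
  obtain ⟨S', hS'⟩ := hT0.exists_le_sylow
  obtain ⟨g, rfl⟩ := MulAction.exists_smul_eq G S S'
  rw [Sylow.coe_subgroup_smul, Subgroup.pointwise_smul_def] at hS'
  have hT0M : T0 ≤ M := hMT0 ▸ Subgroup.le_normalizer
  have hMg : M = cmap g M0 := by
    refine (hMmax _ (isTwoLocal_cmap hM0loc g) ?_).symm
    have h := hB' (cmap g⁻¹ M) (cmap g⁻¹ T0) (isTwoLocal_cmap hMloc _) (hT0.map _)
      (fun h => hT01 (cmap_eq_bot.1 h)) (cmap_mono _ hT0M)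
      ((cmap_mono _ hS').trans ((cmap_inv_cmap g (S : Subgroup G)).trans_le hSM0))
    calc M = cmap g (cmap g⁻¹ M) := (cmap_cmap_inv _ _).symm
      _ ≤ cmap g M0 := cmap_mono _ h
  have hBM : ∀ (k : G) (L R : Subgroup G), IsTwoLocal L → IsPGroup 2 R → R ≠ ⊥ → R ≤ L →
      R ≤ cmap k M → L ≤ cmap k M := by
    intro k L R h1 h2 h3 h4 h5
    rw [hMg, ← cmap_mul] at h5 ⊢
    have h := hB' (cmap (k * g)⁻¹ L) (cmap (k * g)⁻¹ R) (isTwoLocal_cmap h1 _) (h2.map _)
      (fun h => h3 (cmap_eq_bot.1 h)) (cmap_mono _ h4)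
      ((cmap_mono _ h5).trans_eq (cmap_inv_cmap _ _))
    calc L = cmap (k * g) (cmap (k * g)⁻¹ L) := (cmap_cmap_inv _ _).symm
      _ ≤ cmap (k * g) M0 := cmap_mono _ h
  refine ⟨fun htop => hT01 ?_, ?_, fun x hx => ?_⟩
  · haveI : T0.Normal := Subgroup.normalizer_eq_top_iff.1 (hMT0 ▸ htop)
    exact eq_bot_iff.2 ((CfsgLib.Cores.le_pCore hT0).trans_eq hO)
  · obtain ⟨n, hn⟩ := IsPGroup.iff_card.1 hT0
    rw [even_iff_two_dvd]
    refine dvd_trans (hn ▸ dvd_pow_self 2 fun h0 => hT01 (Subgroup.card_eq_one.1 ?_))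
      (Subgroup.card_dvd_of_le hT0M)
    rw [hn, h0, pow_zero]
  · by_contra hodd
    rw [Nat.not_odd_iff_even, even_iff_two_dvd] at hodd
    obtain ⟨T, hT, hTK, hT1, hTmax⟩ := exists_max_two (M ⊓ cmap x M)
    have hT1 := hT1 hodd
    have hN1 : Subgroup.normalizer (T : Set G) ≤ M := by
      have := hBM 1 _ T ⟨T, hT, hT1, rfl⟩ hT hT1 Subgroup.le_normalizer
      rw [cmap_one] at this
      exact this (hTK.trans inf_le_left)
    have hN2 : Subgroup.normalizer (T : Set G) ≤ cmap x M :=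
      hBM x _ T ⟨T, hT, hT1, rfl⟩ hT hT1 Subgroup.le_normalizer (hTK.trans inf_le_right)
    obtain ⟨P, hP⟩ := hT.exists_le_sylow
    have hTP : T = (P : Subgroup G) := by
      by_contra hne
      have hlt := exists_grow P.2 hP hne
      exact hlt.ne (hTmax _ (P.2.to_le inf_le_left)
        (le_inf (inf_le_right.trans hN1) (inf_le_right.trans hN2)) hlt.le).symm
    subst hTP
    have hPM : (P : Subgroup G) ≤ M := hTK.trans inf_le_left
    have hQM : ((x⁻¹ • P : Sylow 2 G) : Subgroup G) ≤ M := by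
      rw [Sylow.coe_subgroup_smul, Subgroup.pointwise_smul_def]
      exact (cmap_mono x⁻¹ (hTK.trans inf_le_right)).trans_eq (cmap_inv_cmap x M)
    obtain ⟨m, hm⟩ := MulAction.exists_smul_eq M (P.subtype hPM) ((x⁻¹ • P).subtype hQM)
    have heq : cmap (m : G) (P : Subgroup G) = cmap x⁻¹ (P : Subgroup G) := by
      refine Subgroup.eq_of_le_of_card_ge ?_ (le_of_eq (by rw [card_cmap, card_cmap]))
      rintro _ ⟨q, hq, rfl⟩
      have h1 : m * ⟨q, hPM hq⟩ * m⁻¹ ∈ (((x⁻¹ • P).subtype hQM : Sylow 2 M) : Subgroup M) := by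
        rw [← hm, Sylow.coe_subgroup_smul, Subgroup.pointwise_smul_def]
        exact ⟨⟨q, hPM hq⟩, hq, rfl⟩
      rw [Sylow.coe_subtype, Subgroup.mem_subgroupOf, Sylow.coe_subgroup_smul,
        Subgroup.pointwise_smul_def] at h1
      exact h1
    refine hx ?_
    have hxm : x * (m : G) ∈ M := hN1 (mem_normalizer_of_cmap_eq (by
      rw [cmap_mul, heq, cmap_cmap_inv]))
    simpa using M.mul_mem hxm (M.inv_mem m.2)

end Cfsg.Agent.S3756
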