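import Cfsg.Statements.S3760

set_option autoImplicit false
open Cfsg

namespace Cfsg.Agent.S3760

theorem conj_le_stabilizer_iff {G : Type*} [Group G] {X : Type*} [MulAction G X] (x : X)
    (K : Subgroup G) (g : G) :
    K.map (MulAut.conj g).toMonoidHom ≤ MulAction.stabilizer G x ↔
      ∀ k ∈ K, k • g⁻¹ • x = g⁻¹ • x := by
  constructor
  · intro h k hk
    have h' : MulAut.conj g k • x = x := h ⟨k, hk, rfl⟩
    rw [MulAut.conj_apply, mul_smul, mul_smul, smul_eq_iff_eq_inv_smul] at h'
    exact h'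
  · rintro h _ ⟨k, hk, rfl⟩
    show MulAut.conj g k • x = x
    rw [MulAut.conj_apply, mul_smul, mul_smul, h k hk, smul_inv_smul]

theorem map_conj_mul {G : Type*} [Group G] (K : Subgroup G) (g h : G) :
    K.map (MulAut.conj (g * h)).toMonoidHom =
      (K.map (MulAut.conj h).toMonoidHom).map (MulAut.conj g).toMonoidHom := by
  rw [Subgroup.map_map]; congr 1
  ext y; simp [mul_assoc]

/-- Let the group G act transitively on a set X, let x ∈ X with stabilizer H = G_x, and let K ≤ H. Then N_G(K) acts transitively on the set of fixed points of K if and only if every G-conjugate of K contained in H is already an H-conjugate of K. -/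
theorem result {G : Type*} [Group G] {X : Type*} [MulAction G X] (htrans : ∀ a b : X, ∃ g : G, g • a = b) (x : X) (K : Subgroup G) (hK : K ≤ MulAction.stabilizer G x) : (∀ a b : X, (∀ k ∈ K, k • a = a) → (∀ k ∈ K, k • b = b) → ∃ g ∈ Subgroup.normalizer (K : Set G), g • a = b) ↔ ∀ g : G, K.map (MulAut.conj g).toMonoidHom ≤ MulAction.stabilizer G x → ∃ h ∈ MulAction.stabilizer G x, K.map (MulAut.conj g).toMonoidHom = K.map (MulAut.conj h).toMonoidHom := by
  constructor
  · intro h g hg
    have hg' := (conj_le_stabilizer_iff x K g).mp hg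
    obtain ⟨n, hn, hnx⟩ := h x (g⁻¹ • x) (fun k hk => hK hk) hg'
    refine ⟨g * n, ?_, ?_⟩
    · show (g * n) • x = x
      rw [mul_smul, hnx, smul_inv_smul]
    · rw [map_conj_mul]; erw [Subgroup.mem_normalizer_iff_map_conj_eq.mp hn]
  · intro h a b ha hb
    have key : ∀ c : X, (∀ k ∈ K, k • c = c) → ∃ n ∈ Subgroup.normalizer (K : Set G), n • x = c := by
      intro c hc
      obtain ⟨g, rfl⟩ := htrans x c
      obtain ⟨s, hs, heq⟩ := h g⁻¹ ((conj_le_stabilizer_iff x K g⁻¹).mpr (by simpa using hc))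
      refine ⟨g * s, ?_, ?_⟩
      · refine Subgroup.mem_normalizer_iff_map_conj_eq.mpr ?_
        show K.map (MulAut.conj (g * s)).toMonoidHom = K
        rw [map_conj_mul, ← heq, ← map_conj_mul]
        simp only [mul_inv_cancel, map_one]
        exact Subgroup.map_id K
      · rw [mul_smul]
        exact congrArg (g • ·) hs
    obtain ⟨n₁, hn₁, rfl⟩ := key a ha
    obtain ⟨n₂, hn₂, rfl⟩ := key b hb
    exact ⟨n₂ * n₁⁻¹, mul_mem hn₂ (inv_mem hn₁), by rw [mul_smul, inv_smul_smul]⟩

end Cfsg.Agent.S3760
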