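import Cfsg.Statements.S3761
import Cfsg.Agent.Lib.TwoGroups.RankOne
import Cfsg.Agent.Lib.TwoGroups.CyclicMax

set_option autoImplicit false
open Cfsg

namespace Cfsg.Agent.S3761

universe uG

section Aux

open CfsgLib.TwoGroups

variable {G : Type uG} [Group G] [Finite G] {p : ℕ} [hp : Fact p.Prime]

/-- Sum of the powers of `1 + c p^(m+1)`. -/
theorem geom_sum_near_one (m : ℕ) (c : ℤ) (hcase : Odd p ∨ 1 ≤ m) :
    ∃ u : ℤ, IsCoprime u (p : ℤ) ∧
      ∑ j ∈ Finset.range p, (1 + c * (p : ℤ) ^ (m + 1)) ^ j = p * u := by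
  rcases hp.out.eq_two_or_odd' with rfl | hodd
  · have hm : 1 ≤ m := hcase.resolve_left (by decide)
    obtain ⟨k, rfl⟩ : ∃ k, m = k + 1 := ⟨m - 1, by omega⟩
    refine ⟨1 + c * 2 ^ (k + 1), ⟨1, -(c * 2 ^ k), by push_cast; ring⟩, ?_⟩
    simp [Finset.sum_range_succ]
    ring
  · exact geom_sum_eq_mul hodd (show (p : ℤ) ∣ 1 + c * (p : ℤ) ^ (m + 1) - 1 from
      ⟨c * (p : ℤ) ^ m, by ring⟩)

theorem exists_coprime_step {g : G} {H : Subgroup G} (hG : IsPGroup p G) (hg : g ∉ H) :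
    ∃ j : ℕ, g ^ p ^ j ∉ H ∧ (g ^ p ^ j) ^ p ∈ H := by
  classical
  obtain ⟨m, hm⟩ := IsPGroup.iff_orderOf.1 hG g
  have hex : ∃ i, g ^ p ^ i ∈ H := ⟨m, by rw [← hm, pow_orderOf_eq_one]; exact one_mem _⟩
  rcases hj : Nat.find hex with _ | j
  · have := Nat.find_spec hex
    rw [hj, pow_zero, pow_one] at this
    exact absurd this hg
  exact ⟨j, Nat.find_min hex (by omega), by
    rw [← pow_mul, ← pow_succ, ← hj]; exact Nat.find_spec hex⟩

theorem main_aux (hG : IsPGroup p G) (hna : ¬ IsMulCommutative G) {x : G} {m : ℕ}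
    (hx : orderOf x = p ^ (m + 2)) (hnorm : (Subgroup.zpowers x).Normal)
    (hcent : ∀ g, Commute g x → g ∈ Subgroup.zpowers x) :
    (p = 2 ∧ Nat.card G = 2 ^ (m + 3) ∧ ((∃ k : ℕ, Nonempty (G ≃* DihedralGroup k)) ∨
      (∃ k : ℕ, Nonempty (G ≃* QuaternionGroup k)) ∨ Cfsg.IsQuasiDihedral G)) ∨
    ∃ z w : G, (∀ g : G, Commute g (x ^ p) ↔ ∃ i j : ℤ, g = x ^ i * w ^ j) ∧
      (Subgroup.zpowers x).relIndex (Subgroup.centralizer ({x ^ p} : Set G)) = p ∧
      orderOf z = p ∧ z ∈ Subgroup.zpowers x ∧ w ^ p = 1 ∧ w ∉ Subgroup.zpowers x ∧ Commute z w ∧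
      (∀ i j : ℤ, (x ^ i * w ^ j) ^ p = 1 → x ^ i ∈ Subgroup.zpowers z) ∧
      (∀ v : G, v * x * v⁻¹ * x⁻¹ ∈ Subgroup.zpowers z → Commute v (x ^ p)) := by
  have hp0 : (p : ℤ) ≠ 0 := by exact_mod_cast hp.out.ne_zero
  have hiff : ∀ a b : ℤ, x ^ a = x ^ b ↔ ((p : ℤ) ^ (m + 2)) ∣ b - a := fun a b => by
    rw [zpow_eq_zpow_iff_dvd hx]; push_cast; rfl
  have hiff1 : ∀ a : ℤ, x ^ a = 1 ↔ ((p : ℤ) ^ (m + 2)) ∣ a := fun a => by
    rw [zpow_eq_one_iff_dvd hx]; push_cast; rfl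
  have hact : ∀ g : G, ∃ r : ℤ, g * x * g⁻¹ = x ^ r := fun g => by
    obtain ⟨r, hr⟩ := Subgroup.mem_zpowers_iff.1 (hnorm.conj_mem x (Subgroup.mem_zpowers x) g)
    exact ⟨r, hr.symm⟩
  have hM : ∀ (g : G) (r : ℤ), g * x * g⁻¹ = x ^ r →
      (Commute g (x ^ p) ↔ (p : ℤ) ^ (m + 1) ∣ r - 1) := by
    intro g r hr
    have h1 : g * x ^ p * g⁻¹ = x ^ (r * p) := by rw [← conj_pow, hr, ← zpow_natCast, ← zpow_mul]
    have h2 : Commute g (x ^ p) ↔ g * x ^ p * g⁻¹ = x ^ p := ⟨fun h => by rw [h.eq, mul_inv_cancel_right],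
      fun h => mul_inv_eq_iff_eq_mul.1 h⟩
    rw [h2, h1, ← zpow_natCast x p, hiff, pow_succ _ (m + 1),
      show (p : ℤ) - r * p = -((r - 1) * p) by ring, dvd_neg, mul_dvd_mul_iff_right hp0]
  have hU : ∀ (g : G) (r : ℤ), g * x * g⁻¹ = x ^ r →
      (g ∈ Subgroup.zpowers x ↔ (p : ℤ) ^ (m + 2) ∣ r - 1) := by
    intro g r hr
    constructor
    · intro hg
      obtain ⟨i, rfl⟩ := Subgroup.mem_zpowers_iff.1 hg
      have h1 : x ^ (1 : ℤ) = x ^ r := by rw [← hr]; group
      exact (hiff _ _).1 h1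
    · intro h
      refine hcent g (mul_inv_eq_iff_eq_mul.1 ?_)
      rw [hr]; conv_rhs => rw [← zpow_one x]
      rw [hiff, ← neg_sub, dvd_neg]; exact h
  have hxp : ∀ i : ℤ, Commute (x ^ i) (x ^ p) := fun i => ((Commute.refl x).zpow_left i).pow_right p
  set z := x ^ ((p : ℤ) ^ (m + 1)) with hz
  have hzo : orderOf z = p := by
    refine orderOf_eq_prime ?_ ?_
    · rw [hz, ← zpow_natCast, ← zpow_mul, hiff1, ← pow_succ]
    · rw [Ne, hiff1, pow_succ]
      intro hd
      have h1 : (p : ℤ) ∣ 1 := (mul_dvd_mul_iff_left (a := (p : ℤ) ^ (m + 1))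
        (pow_ne_zero _ hp0)).1 (by rwa [mul_one])
      exact hp.out.ne_one (by exact_mod_cast Int.eq_one_of_dvd_one (by positivity) h1)
  by_cases hcaseA : (Odd p ∨ 1 ≤ m) ∧ ∃ y : G, y ∉ Subgroup.zpowers x ∧ Commute y (x ^ p)
  · right
    obtain ⟨hcase, y, hyU, hyM⟩ := hcaseA
    obtain ⟨r, hr⟩ := hact y
    obtain ⟨c, hc⟩ := (hM y r hr).1 hyM
    have hpc : ¬ (p : ℤ) ∣ c := fun ⟨d, hd⟩ => hyU ((hU y r hr).2 ⟨d, by rw [hc, hd]; ring⟩)
    have hrc : r = 1 + c * (p : ℤ) ^ (m + 1) := by linear_combination hc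
    have hconj : ∀ k : ℕ, y ^ k * x * (y ^ k)⁻¹ = x ^ (r ^ k) := by
      intro k
      induction k with
      | zero => simp
      | succ k ih =>
        rw [pow_succ', show y * y ^ k * x * (y * y ^ k)⁻¹ = y * (y ^ k * x * (y ^ k)⁻¹) * y⁻¹ by
          group, ih, conj_zpow_eq hr, pow_succ']
    have hrk : ∀ k : ℕ, (p : ℤ) ^ (m + 2) ∣ r ^ k - (1 + k * (c * (p : ℤ) ^ (m + 1))) := by
      intro k
      induction k with
      | zero => simp
      | succ k ih =>
        obtain ⟨d, hd⟩ := ih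
        exact ⟨d * r + k * c * c * (p : ℤ) ^ m, by
          push_cast; rw [hrc] at hd ⊢; linear_combination (1 + c * (p : ℤ) ^ (m + 1)) * hd⟩
    -- the power lies in the cyclic subgroup
    have hypU : y ^ p ∈ Subgroup.zpowers x := by
      refine (hU _ _ (hconj p)).2 ?_
      obtain ⟨d, hd⟩ := hrk p
      exact ⟨d + c, by linear_combination hd⟩
    obtain ⟨e, he⟩ := Subgroup.mem_zpowers_iff.1 hypU
    obtain ⟨f, rfl⟩ : (p : ℤ) ∣ e := by
      have h1 : y * x ^ e * y⁻¹ = x ^ e := by rw [he]; group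
      rw [conj_zpow_eq hr, hiff, hrc, show e - (1 + c * (p : ℤ) ^ (m + 1)) * e =
        -((c * e) * (p : ℤ) ^ (m + 1)) by ring, dvd_neg, pow_succ' _ (m + 1),
        mul_dvd_mul_iff_right (pow_ne_zero _ hp0)] at h1
      exact ((Nat.prime_iff_prime_int.1 hp.out).dvd_or_dvd h1).resolve_left hpc
    obtain ⟨u, hu, hsum⟩ := geom_sum_near_one m c hcase
    rw [← hrc] at hsum
    obtain ⟨a, b, hab⟩ := hu.pow_right (n := m + 2)
    set w := x ^ (-(f * a)) * y with hw
    have hwr : w * x * w⁻¹ = x ^ r := by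
      rw [hw, show x ^ (-(f * a)) * y * x * (x ^ (-(f * a)) * y)⁻¹ =
        x ^ (-(f * a)) * (y * x * y⁻¹) * x ^ (f * a) by group, hr, ← zpow_add, ← zpow_add]
      congr 1; ring
    have hwp : w ^ p = 1 := by
      rw [hw, zpow_mul_pow_eq hr, ← he, ← zpow_add, hsum, hiff1]
      exact ⟨(p : ℤ) * f * b, by linear_combination (-(p : ℤ) * f) * hab⟩
    have hwU : w ∉ Subgroup.zpowers x := fun hm => hyU ((Subgroup.mul_mem_cancel_left _
      (Subgroup.zpow_mem_zpowers x _)).1 hm)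
    have hzw : Commute z w := by
      refine (mul_inv_eq_iff_eq_mul.1 ?_ : w * z = z * w).symm
      rw [hz, conj_zpow_eq hwr, hiff, hrc]
      exact ⟨-(c * (p : ℤ) ^ m), by ring⟩
    have hwk : ∀ k : ℕ, w ^ k * x * (w ^ k)⁻¹ = x ^ (r ^ k) := by
      intro k
      induction k with
      | zero => simp
      | succ k ih =>
        rw [pow_succ', show w * w ^ k * x * (w * w ^ k)⁻¹ = w * (w ^ k * x * (w ^ k)⁻¹) * w⁻¹ by
          group, ih, conj_zpow_eq hwr, pow_succ']
    have hMw : ∀ g : G, Commute g (x ^ p) ↔ ∃ i j : ℤ, g = x ^ i * w ^ j := by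
      intro g
      constructor
      · intro hg
        obtain ⟨s, hs⟩ := hact g
        obtain ⟨d, hd⟩ := (hM g s hs).1 hg
        obtain ⟨a', b', hab'⟩ := (Nat.prime_iff_prime_int.1 hp.out).coprime_iff_not_dvd.2 hpc
        set k : ℕ := ((d * b') % (p : ℤ)).toNat with hk
        have hkval : (k : ℤ) = (d * b') % (p : ℤ) := Int.toNat_of_nonneg (Int.emod_nonneg _ hp0)
        have h1 : (w ^ k)⁻¹ * g ∈ Subgroup.zpowers x := by
          refine hcent _ ?_
          have h2 : w ^ k * x * (w ^ k)⁻¹ = g * x * g⁻¹ := by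
            rw [hwk, hs, hiff]
            obtain ⟨t, ht⟩ := hrk k
            have hdk : (p : ℤ) ∣ d - k * c := ⟨d * a' + c * ((d * b') / (p : ℤ)), by
              have hem := Int.emod_add_mul_ediv (d * b') (p : ℤ)
              rw [hkval]
              linear_combination (-d) * hab' + (-c) * hem⟩
            obtain ⟨q, hq⟩ := hdk
            exact ⟨q - t, by linear_combination hd + (-1) * ht + (p : ℤ) ^ (m + 1) * hq⟩
          show (w ^ k)⁻¹ * g * x = x * ((w ^ k)⁻¹ * g)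
          calc (w ^ k)⁻¹ * g * x = (w ^ k)⁻¹ * (g * x * g⁻¹) * g := by group
            _ = x * ((w ^ k)⁻¹ * g) := by rw [← h2]; group
        obtain ⟨i, hi⟩ := Subgroup.mem_zpowers_iff.1 h1
        refine ⟨i * r ^ k, k, ?_⟩
        rw [zpow_natCast]
        calc g = w ^ k * ((w ^ k)⁻¹ * g) := by group
          _ = (w ^ k * x ^ i * (w ^ k)⁻¹) * w ^ k := by rw [← hi]; group
          _ = _ := by rw [conj_zpow_eq (hwk k), mul_comm (r ^ k) i]
      · rintro ⟨i, j, rfl⟩
        have hwc : Commute w (x ^ p) := (hM w r hwr).2 ⟨c, hc⟩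
        exact (hxp i).mul_left (hwc.zpow_left j)
    refine ⟨z, w, hMw, ?_, hzo, Subgroup.zpow_mem_zpowers x _, hwp, hwU, hzw, ?_, ?_⟩
    · set M := Subgroup.centralizer ({x ^ p} : Set G) with hMdef
      have hxM : Subgroup.zpowers x ≤ M :=
        Subgroup.zpowers_le.2 (Subgroup.mem_centralizer_singleton_iff.2 ((Commute.refl x).pow_right p))
      have hMle : M = Subgroup.zpowers w ⊔ Subgroup.zpowers x := by
        refine le_antisymm (fun g hg => ?_) (sup_le (Subgroup.zpowers_le.2 ?_) hxM)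
        · obtain ⟨i, j, rfl⟩ := (hMw g).1 (Subgroup.mem_centralizer_singleton_iff.1 hg)
          exact mul_mem (Subgroup.mem_sup_right (Subgroup.zpow_mem_zpowers x i))
            (Subgroup.mem_sup_left (Subgroup.zpow_mem_zpowers w j))
        · exact Subgroup.mem_centralizer_singleton_iff.2 ((hMw w).2 ⟨0, 1, by simp⟩)
      haveI := hnorm
      rw [hMle, Subgroup.relIndex_sup_right]
      have hw1 : w ≠ 1 := fun h => hwU (h ▸ one_mem _)
      have hwo : Nat.card (Subgroup.zpowers w) = p := by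
        rw [Nat.card_zpowers, orderOf_eq_prime hwp hw1]
      rcases (Nat.dvd_prime hp.out).1 (hwo ▸ Subgroup.relIndex_dvd_card (Subgroup.zpowers x) (Subgroup.zpowers w)) with h1 | h1
      · exact absurd (Subgroup.relIndex_eq_one.1 h1 (Subgroup.mem_zpowers w)) hwU
      · exact h1
    · intro i j hij
      obtain ⟨j', hj'⟩ : ∃ j' : ℕ, w ^ j = w ^ j' := by
        refine ⟨(j % (p : ℤ)).toNat, ?_⟩
        conv_lhs => rw [← Int.emod_add_mul_ediv j (p : ℤ)]
        rw [zpow_add, zpow_mul, zpow_natCast, hwp, one_zpow, mul_one, ← zpow_natCast,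
          Int.toNat_of_nonneg (Int.emod_nonneg _ hp0)]
      rw [hj'] at hij
      obtain ⟨t, ht⟩ := hrk j'
      have hrj : r ^ j' = 1 + (j' * c + (p : ℤ) * t) * (p : ℤ) ^ (m + 1) := by linear_combination ht
      obtain ⟨u', hu', hsum'⟩ := geom_sum_near_one m (j' * c + (p : ℤ) * t) hcase
      rw [← hrj] at hsum'
      rw [zpow_mul_pow_eq (hwk j'), hsum', ← pow_mul, mul_comm j', pow_mul, hwp, one_pow, mul_one,
        hiff1, pow_succ, show i * ((p : ℤ) * u') = (i * u') * p by ring,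
        mul_dvd_mul_iff_right hp0] at hij
      obtain ⟨q, hq⟩ := (hu'.pow_right (n := m + 1)).symm.dvd_of_dvd_mul_right hij
      exact Subgroup.mem_zpowers_iff.2 ⟨q, by rw [hz, ← zpow_mul, hq]⟩
    · intro v hv
      obtain ⟨s, hs⟩ := hact v
      obtain ⟨q, hq⟩ := Subgroup.mem_zpowers_iff.1 hv
      refine (hM v s hs).2 ?_
      rw [hs, hz, ← zpow_mul, show x ^ s * x⁻¹ = x ^ (s - 1) by group, hiff] at hq
      obtain ⟨t, ht⟩ := hq
      exact ⟨q + (p : ℤ) * t, by linear_combination ht⟩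
  left
  push Not at hcaseA
  -- every element outside `⟨x⟩` inverts modulo `p^(m+1)`
  have hsq : p = 2 ∧ ∀ g : G, g ∉ Subgroup.zpowers x → ∀ r : ℤ, g * x * g⁻¹ = x ^ r →
      (p : ℤ) ^ (m + 1) ∣ r + 1 := by
    have hrp : ∀ g : G, ∀ r : ℤ, g * x * g⁻¹ = x ^ r → g ^ p ∈ Subgroup.zpowers x →
        (p : ℤ) ^ (m + 2) ∣ r ^ p - 1 := by
      intro g r hr hgp
      have key : ∀ k : ℕ, g ^ k * x * (g ^ k)⁻¹ = x ^ (r ^ k) := by
        intro k
        induction k with
        | zero => simp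
        | succ k ih =>
          rw [pow_succ', show g * g ^ k * x * (g * g ^ k)⁻¹ = g * (g ^ k * x * (g ^ k)⁻¹) * g⁻¹ by
            group, ih, conj_zpow_eq hr, pow_succ']
      exact (hU _ _ (key p)).1 hgp
    rcases hp.out.eq_two_or_odd' with hp2 | hodd
    · refine ⟨hp2, fun g hg r hr => ?_⟩
      subst hp2
      have hodd' : ∀ (g : G) (r : ℤ), g * x * g⁻¹ = x ^ r → ∃ d, r = 2 * d + 1 := by
        intro g r hr
        rcases Int.even_or_odd r with ⟨d, rfl⟩ | ⟨d, rfl⟩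
        · exfalso
          have h1 : (g * x * g⁻¹) ^ (2 ^ (m + 1)) = 1 := by
            rw [hr, ← zpow_natCast, ← zpow_mul, hiff1]
            exact ⟨d, by push_cast; ring⟩
          rw [conj_pow, conj_eq_one_iff] at h1
          have := orderOf_dvd_of_pow_eq_one h1
          rw [hx, Nat.pow_dvd_pow_iff_le_right (by norm_num)] at this
          omega
        · exact ⟨d, rfl⟩
      rcases Nat.eq_zero_or_pos m with rfl | hm
      · obtain ⟨d, rfl⟩ := hodd' g r hr
        exact ⟨d + 1, by push_cast; ring⟩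
      obtain ⟨j, hj1, hj2⟩ := exists_coprime_step hG hg
      rcases j with _ | j
      · simp only [pow_zero, pow_one] at hj2
        have h2 := hrp g r hr hj2
        rw [pow_two] at h2
        push_cast at h2 ⊢
        rcases sq_sub_one_cases (m := m) h2 with h | h
        · exact absurd ((hM g r hr).2 (by push_cast; exact h)) (hcaseA (Or.inr hm) g hg)
        · exact h
      exfalso
      set g' := g ^ 2 ^ j with hg'
      have hw2 : g ^ 2 ^ (j + 1) = g' ^ 2 := by rw [hg', ← pow_mul, ← pow_succ]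
      rw [hw2] at hj1 hj2
      obtain ⟨r', hr'⟩ := hact g'
      have h2 : g' ^ 2 * x * (g' ^ 2)⁻¹ = x ^ (r' * r') := by
        rw [← conj_zpow_eq hr' r', ← hr', pow_two g', mul_inv_rev]; simp only [mul_assoc]
      have h3 := hrp _ _ h2 hj2
      rw [pow_two] at h3
      push_cast at h3
      rcases sq_sub_one_cases (m := m) h3 with h | h
      · exact hcaseA (Or.inr hm) _ hj1 ((hM _ _ h2).2 (by push_cast; exact h))
      · obtain ⟨d, rfl⟩ := hodd' _ _ hr'
        obtain ⟨q, hq⟩ := (pow_dvd_pow (2 : ℤ) (show 2 ≤ m + 1 by omega)).trans h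
        ring_nf at hq
        omega
    · exfalso
      obtain ⟨g₀, hg₀⟩ : ∃ g, g ∉ Subgroup.zpowers x := by
        by_contra! hall
        refine hna (isMulCommutative_iff.2 fun a b => ?_)
        obtain ⟨i, rfl⟩ := Subgroup.mem_zpowers_iff.1 (hall a)
        obtain ⟨j, rfl⟩ := Subgroup.mem_zpowers_iff.1 (hall b)
        exact ((Commute.refl x).zpow_zpow i j).eq
      obtain ⟨j, hj1, hj2⟩ := exists_coprime_step hG hg₀
      obtain ⟨r, hr⟩ := hact (g₀ ^ p ^ j)
      have h2 := hrp _ r hr hj2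
      have hr1 : (p : ℤ) ∣ r - 1 := by
        have h1 : ((r ^ p - 1 : ℤ) : ZMod p) = 0 :=
          (ZMod.intCast_zmod_eq_zero_iff_dvd _ _).2 ((dvd_pow_self _ (by omega : m + 2 ≠ 0)).trans h2)
        rw [← ZMod.intCast_zmod_eq_zero_iff_dvd]
        push_cast at h1 ⊢
        rwa [ZMod.pow_card] at h1
      obtain ⟨u, hu, hsum⟩ := geom_sum_eq_mul hodd hr1
      rw [← geom_sum_mul, hsum, pow_succ, show (p : ℤ) * u * (r - 1) = (u * (r - 1)) * p by ring,
        mul_dvd_mul_iff_right hp0] at h2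
      exact hcaseA (Or.inl hodd) _ hj1
        ((hM _ _ hr).2 ((hu.pow_right (n := m + 1)).symm.dvd_of_dvd_mul_left h2))
  obtain ⟨rfl, hinv⟩ := hsq
  obtain ⟨y, hy⟩ : ∃ y, y ∉ Subgroup.zpowers x := by
    by_contra! hall
    refine hna (isMulCommutative_iff.2 fun a b => ?_)
    obtain ⟨i, rfl⟩ := Subgroup.mem_zpowers_iff.1 (hall a)
    obtain ⟨j, rfl⟩ := Subgroup.mem_zpowers_iff.1 (hall b)
    exact ((Commute.refl x).zpow_zpow i j).eq
  have hidx : (Subgroup.zpowers x).index = 2 := by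
    rw [Subgroup.index_eq_two_iff]
    refine ⟨y, fun b => ?_⟩
    by_cases hb : b ∈ Subgroup.zpowers x
    · exact Or.inr ⟨hb, fun hh => hy ((Subgroup.mul_mem_cancel_left _ hb).1 hh)⟩
    refine Or.inl ⟨?_, hb⟩
    by_contra hby
    obtain ⟨s, hs⟩ := hact y
    obtain ⟨t, ht⟩ := hact b
    have h1 : b * y * x * (b * y)⁻¹ = x ^ (t * s) := by
      rw [show b * y * x * (b * y)⁻¹ = b * (y * x * y⁻¹) * b⁻¹ by group, hs, conj_zpow_eq ht,
        mul_comm]
    obtain ⟨q₁, hq₁⟩ := hinv y hy s hs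
    obtain ⟨q₂, hq₂⟩ := hinv b hb t ht
    have hmod : (2 : ℤ) ^ (m + 1) ∣ t * s - 1 :=
      ⟨-q₁ - q₂ + 2 ^ (m + 1) * q₁ * q₂, by
        push_cast at hq₁ hq₂
        rw [eq_sub_of_add_eq hq₁, eq_sub_of_add_eq hq₂]; ring⟩
    rcases Nat.eq_zero_or_pos m with rfl | hm
    · -- order four: both act as inversion
      refine hby ((hU _ _ h1).2 ?_)
      have hodd2 : ∀ (g : G) (a : ℤ), g * x * g⁻¹ = x ^ a → g ∉ Subgroup.zpowers x → (4 : ℤ) ∣ a + 1 := by
        intro g a ha hg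
        obtain ⟨q, hq⟩ := hinv g hg a ha
        push_cast at hq
        rcases Int.even_or_odd q with ⟨d, rfl⟩ | ⟨d, rfl⟩
        · exact ⟨d, by linear_combination hq⟩
        · exfalso
          exact hg ((hU g a ha).2 ⟨d, by push_cast; linear_combination hq⟩)
      obtain ⟨k₁, hk₁⟩ := hodd2 y s hs hy
      obtain ⟨k₂, hk₂⟩ := hodd2 b t ht hb
      exact ⟨-k₁ - k₂ + 4 * k₁ * k₂, by
        rw [eq_sub_of_add_eq hk₁, eq_sub_of_add_eq hk₂]; push_cast; ring⟩
    · exact hcaseA (Or.inr hm) _ hby ((hM _ _ h1).2 (by push_cast; exact hmod))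
  have hcard : Nat.card G = 2 ^ (m + 3) := by
    rw [← Subgroup.index_mul_card (Subgroup.zpowers x), hidx, Nat.card_zpowers, hx]; ring
  refine ⟨rfl, hcard, ?_⟩
  rcases cyclicMax_classification hx hcard with hc | hd | ⟨-, hq⟩ | hs | ⟨h3, y', hy', -, hyr⟩
  · exact absurd hc hna
  · exact Or.inl ⟨_, hd⟩
  · exact Or.inr (Or.inl ⟨_, hq⟩)
  · exact Or.inr (Or.inr hs)
  · exfalso
    refine hcaseA (Or.inr (by omega)) y' hy' ((hM _ _ hyr).2 ?_)
    rw [show m + 2 - 1 = m + 1 by omega]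
    exact ⟨1, by push_cast; ring⟩

end Aux

/-- Let G be a finite non-abelian p-group with a cyclic normal subgroup U of order p^n such that C_G(U) = U. Then either p = 2 and G is dihedral, generalized quaternion or semidihedral of order 2^(n+1); or, writing U₁ for the subgroup generated by the p-th powers of elements of U and M = C_G(U₁), the subgroup U has index p in M and the subgroup Ω₁(M) generated by the elements of M of order dividing p is elementary abelian of order p² and characteristic in G. -/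
theorem result {G : Type*} [Group G] [Finite G] {p : ℕ} [Fact p.Prime] (hG : IsPGroup p G) (hna : ¬ IsMulCommutative G) (U : Subgroup G) [U.Normal] (hU : IsCyclic U) (n : ℕ) (hUn : Nat.card U = p ^ n) (hC : Subgroup.centralizer (U : Set G) = U) : (p = 2 ∧ Nat.card G = 2 ^ (n + 1) ∧ ((∃ m : ℕ, Nonempty (G ≃* DihedralGroup m)) ∨ (∃ m : ℕ, Nonempty (G ≃* QuaternionGroup m)) ∨ Cfsg.IsQuasiDihedral G)) ∨ (U.relIndex (Subgroup.centralizer (Cfsg.powerClosure p 1 U : Set G)) = p ∧ Cfsg.IsElementaryAbelian p (Cfsg.omegaOne p (Subgroup.centralizer (Cfsg.powerClosure p 1 U : Set G))) ∧ Nat.card ↥(Cfsg.omegaOne p (Subgroup.centralizer (Cfsg.powerClosure p 1 U : Set G))) = p ^ 2 ∧ (Cfsg.omegaOne p (Subgroup.centralizer (Cfsg.powerClosure p 1 U : Set G))).Characteristic) := by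
  have hp' : p.Prime := Fact.out
  obtain ⟨x, hxU⟩ := (Subgroup.isCyclic_iff_exists_zpowers_eq_top U).1 hU
  obtain rfl : U = Subgroup.zpowers x := hxU.symm
  have hx : orderOf x = p ^ n := by rw [← Nat.card_zpowers, hUn]
  have hnorm : (Subgroup.zpowers x).Normal := inferInstance
  have hcent : ∀ g, Commute g x → g ∈ Subgroup.zpowers x := fun g hg => by
    rw [← hC, Subgroup.mem_centralizer_iff]
    intro t ht
    obtain ⟨i, rfl⟩ := Subgroup.mem_zpowers_iff.1 ht
    exact (hg.zpow_right i).symm.eq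
  have hzcen : Subgroup.center G ≤ Subgroup.zpowers x := fun g hg =>
    hcent g (Subgroup.mem_center_iff.1 hg x).symm
  obtain ⟨m, rfl⟩ : ∃ m, n = m + 2 := by
    refine ⟨n - 2, ?_⟩
    by_contra hn
    refine hna ?_
    have hle : Nat.card (Subgroup.zpowers x) ≤ p := by
      rw [hUn]; calc p ^ n ≤ p ^ 1 := Nat.pow_le_pow_right hp'.pos (by omega)
        _ = p := pow_one p
    rcases subsingleton_or_nontrivial G with h | h
    · exact isMulCommutative_iff.2 fun a b => Subsingleton.elim _ _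
    haveI := hG.center_nontrivial
    have hcard : p ≤ Nat.card (Subgroup.center G) := by
      obtain ⟨k, hk⟩ := IsPGroup.iff_card.1 (hG.to_subgroup (Subgroup.center G))
      have h1 : 1 < Nat.card (Subgroup.center G) := Finite.one_lt_card
      rw [hk] at h1 ⊢
      exact Nat.le_self_pow (fun h0 => by simp [h0] at h1) p
    have heq := Subgroup.eq_of_le_of_card_ge hzcen (hle.trans hcard)
    refine isMulCommutative_iff.2 fun a b => ?_
    have : a ∈ Subgroup.center G := by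
      rw [heq]
      refine hcent a ?_
      have hxc : x ∈ Subgroup.center G := heq ▸ Subgroup.mem_zpowers x
      exact Subgroup.mem_center_iff.1 hxc a
    exact (Subgroup.mem_center_iff.1 this b).symm
  rcases main_aux hG hna hx hnorm hcent with ⟨hp2, hcard, hrest⟩ | ⟨z, w, hMw, hidx, hzo, hzU, hwp, hwU, hzw, hord, hback⟩
  · exact Or.inl ⟨hp2, hcard, hrest⟩
  right
  have hcl : Cfsg.powerClosure p 1 (Subgroup.zpowers x) = Subgroup.zpowers (x ^ p) := by
    refine le_antisymm ((Subgroup.closure_le _).2 ?_) (Subgroup.zpowers_le.2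
      (Subgroup.subset_closure ⟨x, Subgroup.mem_zpowers x, by rw [pow_one]⟩))
    rintro _ ⟨y, hy, rfl⟩
    obtain ⟨i, rfl⟩ := Subgroup.mem_zpowers_iff.1 hy
    refine Subgroup.mem_zpowers_iff.2 ⟨i, ?_⟩
    rw [pow_one, ← zpow_natCast x, ← zpow_mul, mul_comm, zpow_mul, zpow_natCast]
  have hM : Subgroup.centralizer (Cfsg.powerClosure p 1 (Subgroup.zpowers x) : Set G) =
      Subgroup.centralizer ({x ^ p} : Set G) := by
    rw [hcl]
    refine le_antisymm (Subgroup.centralizer_le (by simp [Subgroup.mem_zpowers])) fun g hg => ?_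
    rw [Subgroup.mem_centralizer_iff]
    intro t ht
    obtain ⟨i, rfl⟩ := Subgroup.mem_zpowers_iff.1 ht
    exact ((show Commute g (x ^ p) from Subgroup.mem_centralizer_singleton_iff.1 hg).zpow_right i).symm.eq
  have hcn : (Cfsg.powerClosure p 1 (Subgroup.zpowers x)).Normal := by
    refine ⟨fun y hy g => ?_⟩
    rw [hcl] at hy ⊢
    obtain ⟨i, rfl⟩ := Subgroup.mem_zpowers_iff.1 hy
    obtain ⟨r, hr⟩ := Subgroup.mem_zpowers_iff.1 (hnorm.conj_mem x (Subgroup.mem_zpowers x) g)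
    refine Subgroup.mem_zpowers_iff.2 ⟨r * i, ?_⟩
    rw [← conj_zpow, ← conj_pow, ← hr, ← zpow_natCast (x ^ r), ← zpow_mul, ← zpow_mul,
      ← zpow_natCast x, ← zpow_mul]
    congr 1; ring
  rw [hM]
  set M := Subgroup.centralizer ({x ^ p} : Set G) with hMdef
  haveI hMn : M.Normal := by rw [← hM]; haveI := hcn; infer_instance
  have hmemM : ∀ g, g ∈ M ↔ ∃ i j : ℤ, g = x ^ i * w ^ j := fun g =>
    (Subgroup.mem_centralizer_singleton_iff).trans (hMw g)
  have hxpp : ∀ u ∈ Subgroup.zpowers z, u ^ p = 1 := by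
    intro u hu
    obtain ⟨i, rfl⟩ := Subgroup.mem_zpowers_iff.1 hu
    have hzp : z ^ p = 1 := hzo ▸ pow_orderOf_eq_one z
    rw [← zpow_natCast, ← zpow_mul, mul_comm, zpow_mul, zpow_natCast, hzp, one_zpow]
  -- the subgroup generated by `z` and `w`
  let E : Subgroup G :=
    { carrier := {g | ∃ a b : ℤ, g = z ^ a * w ^ b}
      one_mem' := ⟨0, 0, by simp⟩
      mul_mem' := by
        rintro _ _ ⟨a, b, rfl⟩ ⟨a', b', rfl⟩
        refine ⟨a + a', b + b', ?_⟩
        have h : Commute (w ^ b) (z ^ a') := (hzw.symm.zpow_zpow b a')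
        rw [zpow_add, zpow_add, mul_assoc, ← mul_assoc (w ^ b), h.eq, mul_assoc, mul_assoc]
      inv_mem' := by
        rintro _ ⟨a, b, rfl⟩
        refine ⟨-a, -b, ?_⟩
        have h : Commute (w ^ (-b)) (z ^ (-a)) := (hzw.symm.zpow_zpow (-b) (-a))
        rw [mul_inv_rev, ← zpow_neg, ← zpow_neg, h.eq] }
  have hEp : ∀ g ∈ E, g ^ p = 1 := by
    rintro _ ⟨a, b, rfl⟩
    rw [((hzw.zpow_zpow a b)).mul_pow, hxpp _ (Subgroup.zpow_mem_zpowers z a), one_mul,
      ← zpow_natCast, ← zpow_mul, mul_comm, zpow_mul, zpow_natCast, hwp, one_zpow]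
  have hEM : E ≤ M := by
    rintro _ ⟨a, b, rfl⟩
    obtain ⟨i, hi⟩ := Subgroup.mem_zpowers_iff.1 hzU
    exact (hmemM _).2 ⟨i * a, b, by rw [← hi, zpow_mul]⟩
  have hOm : Cfsg.omegaOne p M = E := by
    refine le_antisymm ((Subgroup.closure_le _).2 ?_) (fun g hg => Subgroup.subset_closure ⟨hEM hg, hEp g hg⟩)
    rintro g ⟨hgM, hgp⟩
    obtain ⟨i, j, rfl⟩ := (hmemM g).1 hgM
    obtain ⟨a, ha⟩ := Subgroup.mem_zpowers_iff.1 (hord i j hgp)
    exact ⟨a, j, by rw [ha]⟩
  rw [hOm]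
  have hEea : Cfsg.IsElementaryAbelian p E := by
    refine ⟨⟨⟨?_⟩⟩, hEp⟩
    rintro ⟨_, a, b, rfl⟩ ⟨_, a', b', rfl⟩
    refine Subtype.ext ?_
    show z ^ a * w ^ b * (z ^ a' * w ^ b') = z ^ a' * w ^ b' * (z ^ a * w ^ b)
    exact ((((Commute.refl z).zpow_zpow a a').mul_right (hzw.zpow_zpow a b')).mul_left
      (((hzw.symm).zpow_zpow b a').mul_right ((Commute.refl w).zpow_zpow b b'))).eq
  have hEn : E.Normal := by
    refine ⟨fun g hg t => ?_⟩
    rw [← hOm]
    refine Subgroup.subset_closure ⟨hMn.conj_mem g (hEM hg) t, ?_⟩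
    rw [conj_pow, hEp g hg, mul_one, mul_inv_cancel]
  have hEcard : Nat.card E = p ^ 2 := by
    let F : ↥(Subgroup.zpowers z) × ↥(Subgroup.zpowers w) → E := fun uv => ⟨uv.1.1 * uv.2.1, by
      obtain ⟨a, ha⟩ := Subgroup.mem_zpowers_iff.1 uv.1.2
      obtain ⟨b, hb⟩ := Subgroup.mem_zpowers_iff.1 uv.2.2
      exact ⟨a, b, by rw [ha, hb]⟩⟩
    have hF : Function.Bijective F := by
      refine ⟨?_, ?_⟩
      · rintro ⟨⟨u, hu⟩, ⟨v, hv⟩⟩ ⟨⟨u', hu'⟩, ⟨v', hv'⟩⟩ h
        have h' : u * v = u' * v' := congrArg Subtype.val h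
        have h2 : v * v'⁻¹ = u⁻¹ * u' := by
          calc v * v'⁻¹ = u⁻¹ * (u * v) * v'⁻¹ := by group
            _ = u⁻¹ * u' := by rw [h']; group
        have hw1 : w ≠ 1 := fun h => hwU (h ▸ one_mem _)
        have hvv : v * v'⁻¹ = 1 := by
          by_contra hne
          haveI : Fact (Nat.card (Subgroup.zpowers w)).Prime :=
            ⟨by rw [Nat.card_zpowers, orderOf_eq_prime hwp hw1]; exact hp'⟩
          have hgen : Subgroup.zpowers (v * v'⁻¹) = Subgroup.zpowers w := by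
            refine Subgroup.eq_of_le_of_card_ge (Subgroup.zpowers_le.2 (mul_mem hv (inv_mem hv'))) ?_
            rw [Nat.card_zpowers, Nat.card_zpowers, orderOf_eq_prime hwp hw1]
            have : (v * v'⁻¹) ^ p = 1 := by
              rw [h2]; exact hxpp _ (mul_mem (inv_mem hu) hu')
            rw [orderOf_eq_prime this hne]
          exact hwU ((Subgroup.zpowers_le.2 hzU) ((show Subgroup.zpowers (v * v'⁻¹) ≤ Subgroup.zpowers z by
            rw [Subgroup.zpowers_le, h2]; exact mul_mem (inv_mem hu) hu') (hgen ▸ Subgroup.mem_zpowers w)))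
        have hv2 : v = v' := mul_inv_eq_one.1 hvv
        subst hv2
        have hu2 : u = u' := mul_right_cancel h'
        subst hu2
        rfl
      · rintro ⟨g, a, b, rfl⟩
        exact ⟨(⟨z ^ a, Subgroup.zpow_mem_zpowers z a⟩, ⟨w ^ b, Subgroup.zpow_mem_zpowers w b⟩), rfl⟩
    rw [← Nat.card_eq_of_bijective F hF, Nat.card_prod, Nat.card_zpowers, Nat.card_zpowers, hzo,
      orderOf_eq_prime hwp (fun h => hwU (h ▸ one_mem _)), pow_two]
  refine ⟨hidx, hEea, hEcard, ?_⟩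
  rw [Subgroup.characteristic_iff_map_le]
  intro φ
  have hn' : (E.map φ.toMonoidHom).Normal := hEn.map _ φ.surjective
  have hsub : E.map φ.toMonoidHom ⊓ Subgroup.zpowers x ≤ Subgroup.zpowers z := by
    rintro g ⟨⟨g', hg', rfl⟩, hgx⟩
    obtain ⟨i, hi⟩ := Subgroup.mem_zpowers_iff.1 hgx
    have h1 := hord i 0 (by rw [zpow_zero, mul_one, hi, ← map_pow, hEp g' hg', map_one])
    rwa [hi] at h1
  rintro v hv0
  have hv : v ∈ E.map φ.toMonoidHom := hv0
  have hvM : v ∈ M := by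
    refine Subgroup.mem_centralizer_singleton_iff.2 (hback v (hsub ⟨?_, ?_⟩))
    · have h1 : x * v⁻¹ * x⁻¹ ∈ E.map φ.toMonoidHom := hn'.conj_mem _ (inv_mem hv) x
      have := mul_mem hv h1
      simpa [mul_assoc] using this
    · exact (Subgroup.zpowers x).mul_mem (hnorm.conj_mem x (Subgroup.mem_zpowers x) v)
        ((Subgroup.zpowers x).inv_mem (Subgroup.mem_zpowers x))
  rw [← hOm]
  refine Subgroup.subset_closure ⟨hvM, ?_⟩
  obtain ⟨g', hg', rfl⟩ := hv
  rw [← map_pow, hEp g' hg', map_one]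

end Cfsg.Agent.S3761
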