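import Cfsg.Statements.S3762
import Cfsg.Agent.Lib.Transfer.Critical
import Cfsg.Agent.Lib.PGroups.Extraspecial
import Cfsg.Agent.Lib.PGroups.Frattini
import Cfsg.Agent.Lib.TwoGroups.NormalCyclic
import Cfsg.Agent.Lib.TwoGroups.NormalAbelian
import Cfsg.Agent.Lib.CoprimeAction.Abelian

set_option autoImplicit false
open Cfsg

namespace Cfsg.Agent.S3762

set_option linter.style.haveILetI false
set_option linter.unusedSectionVars false
set_option maxHeartbeats 1000000

open scoped commutatorElement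

variable {G : Type*} [Group G] [Finite G] {p : ℕ} [hp : Fact p.Prime]

/-- In a `p`-group the action on a cyclic normal subgroup is trivial modulo `p`. -/
private theorem conj_exp_modEq (hG : IsPGroup p G) {x g : G} {n : ℕ} (hx : orderOf x = p ^ (n + 1))
    {a : ℤ} (h : g * x * g⁻¹ = x ^ a) : (p : ℤ) ∣ a - 1 := by
  obtain ⟨k, hk⟩ := hG g
  have key : ∀ m : ℕ, g ^ m * x * (g ^ m)⁻¹ = x ^ (a ^ m) := by
    intro m
    induction m with
    | zero => simp
    | succ m ih =>
      rw [pow_succ', show g * g ^ m * x * (g * g ^ m)⁻¹ = g * (g ^ m * x * (g ^ m)⁻¹) * g⁻¹ by group,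
        ih, CfsgLib.TwoGroups.conj_zpow_eq h, pow_succ']
  have h1 := key (p ^ k)
  rw [hk, one_mul, inv_one, mul_one] at h1
  nth_rewrite 1 [← zpow_one x] at h1
  rw [CfsgLib.TwoGroups.zpow_eq_zpow_iff_dvd hx] at h1
  have h2 : ((a ^ p ^ k - 1 : ℤ) : ZMod p) = 0 :=
    (ZMod.intCast_zmod_eq_zero_iff_dvd _ _).2
      (dvd_trans (by push_cast; exact dvd_pow_self _ n.succ_ne_zero) h1)
  rw [← ZMod.intCast_zmod_eq_zero_iff_dvd]
  push_cast at h2 ⊢
  rwa [ZMod.pow_card_pow] at h2

/-- Commutators with a central value are multiplicative. -/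
private theorem comm_mul_left {a b c : G} (h : ⁅b, c⁆ ∈ Subgroup.center G) :
    ⁅a * b, c⁆ = ⁅a, c⁆ * ⁅b, c⁆ := by
  calc ⁅a * b, c⁆ = a * ⁅b, c⁆ * a⁻¹ * ⁅a, c⁆ := by simp only [commutatorElement_def]; group
    _ = ⁅b, c⁆ * ⁅a, c⁆ := by rw [Subgroup.mem_center_iff.1 h a, mul_inv_cancel_right]
    _ = _ := (Subgroup.mem_center_iff.1 h _).symm

private theorem map_commutator_mem {H : Subgroup G} (φ : G ≃* G)
    (hH : H.map φ.toMonoidHom = H) {a : G} (ha : a ∈ H) : φ a ∈ H :=
  hH ▸ Subgroup.mem_map_of_mem _ ha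

/-- **The structure.** -/
private theorem main [Nontrivial G] (hG : IsPGroup p G)
    (hsymp : ∀ A : Subgroup G, A.Characteristic → IsMulCommutative A → IsCyclic A) :
    ∃ E R : Subgroup G, (∀ e ∈ E, ∀ r ∈ R, e * r = r * e) ∧ E ⊔ R = ⊤ ∧
      (E = ⊥ ∨ Cfsg.IsExtraspecial p ↥E) ∧ (IsCyclic R ∨ (p = 2 ∧ 16 ≤ Nat.card R ∧
        ((∃ m : ℕ, Nonempty (↥R ≃* DihedralGroup m)) ∨
          (∃ m : ℕ, Nonempty (↥R ≃* QuaternionGroup m)) ∨ Cfsg.IsQuasiDihedral ↥R))) := by
  classical
  obtain ⟨C, hCc, hCΦ, hCG, hCC⟩ := CfsgLib.Transfer.exists_critical hG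
  set Zc := Subgroup.centralizer (C : Set G) with hZc
  have hmapC : ∀ φ : G ≃* G, ∀ a ∈ C, φ a ∈ C := fun φ a ha =>
    Subgroup.characteristic_iff_map_le.1 hCc φ ⟨a, ha, rfl⟩
  have hmapZ : ∀ φ : G ≃* G, ∀ a ∈ Zc, φ a ∈ Zc := fun φ a ha => by
    rw [hZc, Subgroup.mem_centralizer_iff] at ha ⊢
    intro c hc
    have := congrArg φ (ha (φ.symm c) (hmapC φ.symm c hc))
    simpa using this
  have hZchar : Zc.Characteristic := Subgroup.characteristic_iff_map_le.2 fun φ => by
    rintro _ ⟨a, ha, rfl⟩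
    exact hmapZ φ a ha
  have hZn : Zc.Normal := inferInstance
  have hZC : Zc ≤ C := hCC
  have hZab : ∀ a ∈ Zc, ∀ b ∈ Zc, a * b = b * a := fun a ha b hb =>
    Subgroup.mem_centralizer_iff.1 hb a (hZC ha)
  haveI hZcyc : IsCyclic Zc := hsymp Zc hZchar ⟨⟨fun a b => Subtype.ext (hZab a a.2 b b.2)⟩⟩
  obtain ⟨x, hxZ⟩ := (Subgroup.isCyclic_iff_exists_zpowers_eq_top Zc).1 hZcyc
  have hxmem : x ∈ Zc := hxZ ▸ Subgroup.mem_zpowers x
  -- `Zc` is not trivial
  obtain ⟨n, hn⟩ : ∃ n, orderOf x = p ^ (n + 1) := by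
    obtain ⟨k, hk⟩ := IsPGroup.iff_orderOf.1 hG x
    rcases k with _ | k
    · exfalso
      obtain ⟨c, -, hc1, hc⟩ := CfsgLib.TwoGroups.exists_mem_center_of_normal hG
        (N := (⊤ : Subgroup G)) top_ne_bot
      have hcZ : c ∈ Zc := Subgroup.mem_centralizer_iff.2 fun a _ => Subgroup.mem_center_iff.1 hc a
      rw [pow_zero, orderOf_eq_one_iff] at hk
      rw [← hxZ, hk, Subgroup.zpowers_one_eq_bot, Subgroup.mem_bot] at hcZ
      exact hc1 hcZ
    · exact ⟨k, hk⟩
  have hp0 : (p : ℤ) ≠ 0 := by exact_mod_cast hp.out.ne_zero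
  have hiff : ∀ a b : ℤ, x ^ a = x ^ b ↔ ((p : ℤ) ^ (n + 1)) ∣ b - a := fun a b => by
    rw [CfsgLib.TwoGroups.zpow_eq_zpow_iff_dvd hn]; push_cast; rfl
  have hiff1 : ∀ a : ℤ, x ^ a = 1 ↔ ((p : ℤ) ^ (n + 1)) ∣ a := fun a => by
    rw [CfsgLib.TwoGroups.zpow_eq_one_iff_dvd hn]; push_cast; rfl
  set z := x ^ ((p : ℤ) ^ n) with hzdef
  have hzp : z ^ p = 1 := by rw [hzdef, ← zpow_natCast, ← zpow_mul, ← pow_succ, hiff1]
  have hz1 : z ≠ 1 := by
    rw [Ne, hzdef, hiff1, pow_succ]
    intro hd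
    have h1 : ((p : ℤ)) ∣ 1 := (mul_dvd_mul_iff_left (a := (p : ℤ) ^ n) (pow_ne_zero n hp0)).1
      (by rwa [mul_one])
    exact hp.out.ne_one (by exact_mod_cast Int.eq_one_of_dvd_one (by positivity) h1)
  have hzo : orderOf z = p := orderOf_eq_prime hzp hz1
  set D := Subgroup.zpowers z with hD
  have hzZ : z ∈ Zc := Zc.zpow_mem hxmem _
  have hDZ : D ≤ Zc := Subgroup.zpowers_le.2 hzZ
  have hpowD : ∀ i : ℤ, x ^ i ∈ D ↔ ((p : ℤ) ^ n) ∣ i := by
    intro i
    constructor
    · intro h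
      obtain ⟨j, hj⟩ := Subgroup.mem_zpowers_iff.1 h
      rw [hzdef, ← zpow_mul, hiff] at hj
      have h1 : ((p : ℤ) ^ n) ∣ i - (p : ℤ) ^ n * j := (pow_dvd_pow _ n.le_succ).trans hj
      have h2 := dvd_add h1 (dvd_mul_right ((p : ℤ) ^ n) j)
      rwa [sub_add_cancel] at h2
    · rintro ⟨j, rfl⟩
      exact Subgroup.mem_zpowers_iff.2 ⟨j, by rw [hzdef, ← zpow_mul]⟩
  have hmemZ : ∀ a ∈ Zc, ∃ i : ℤ, x ^ i = a := fun a ha =>
    Subgroup.mem_zpowers_iff.1 (hxZ ▸ ha)
  have hordp : ∀ a ∈ Zc, a ^ p = 1 → a ∈ D := by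
    intro a ha hap
    obtain ⟨i, rfl⟩ := hmemZ a ha
    rw [← zpow_natCast, ← zpow_mul, hiff1, pow_succ, mul_dvd_mul_iff_right hp0] at hap
    exact (hpowD i).2 hap
  have hzc : z ∈ Subgroup.center G := by
    rw [Subgroup.mem_center_iff]
    intro g
    obtain ⟨a, ha⟩ := hmemZ _ (hZn.conj_mem x hxmem g)
    obtain ⟨c, hc⟩ := conj_exp_modEq hG hn ha.symm
    have h1 : g * z * g⁻¹ = z := by
      rw [hzdef, CfsgLib.TwoGroups.conj_zpow_eq ha.symm, hiff]
      exact ⟨-c, by rw [show a = 1 + p * c by omega]; ring⟩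
    calc g * z = g * z * g⁻¹ * g := by group
      _ = z * g := by rw [h1]
  have hDc : D ≤ Subgroup.center G := Subgroup.zpowers_le.2 hzc
  have hDn : D.Normal := ⟨fun a ha g => by
    rw [Subgroup.mem_center_iff.1 (hDc ha) g, mul_inv_cancel_right]; exact ha⟩
  -- powers and commutators in `C`
  have hcp : ∀ c ∈ C, c ^ p ∈ Zc := fun c hc =>
    hCΦ ⟨(⟨c, hc⟩ : C) ^ p, CfsgLib.PGroups.pow_mem_frattini (hG.to_subgroup C) _, rfl⟩
  have hcomZ : ∀ c ∈ C, ∀ g : G, ⁅c, g⁆ ∈ Zc := fun c hc g =>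
    (hCG (Subgroup.commutator_mem_commutator hc (Subgroup.mem_top g))).2
  have hCD : ∀ c ∈ C, ∀ d ∈ C, ⁅c, d⁆ ∈ D := by
    intro c hc d hd
    refine hordp _ (hcomZ c hc d) ?_
    have hcen : ∀ a ∈ C, ∀ b ∈ C, ∀ e ∈ C, e * ⁅a, b⁆ = ⁅a, b⁆ * e := fun a ha b _ e he =>
      Subgroup.mem_centralizer_iff.1 (hcomZ a ha b) e he
    have hstep : ∀ k : ℕ, ⁅c ^ k, d⁆ = ⁅c, d⁆ ^ k := by
      intro k
      induction k with
      | zero => simp
      | succ k ih =>
        have e : ⁅c ^ (k + 1), d⁆ = c ^ k * ⁅c, d⁆ * (c ^ k)⁻¹ * ⁅c ^ k, d⁆ := by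
          rw [pow_succ]; simp only [commutatorElement_def]; group
        rw [e, hcen c hc d hd _ (C.pow_mem hc k), mul_inv_cancel_right, ih, pow_succ']
    rw [← hstep, commutatorElement_eq_one_iff_mul_comm]
    exact (Subgroup.mem_centralizer_iff.1 (hcp c hc) d hd).symm
  have hpowhom : ∀ c ∈ C, ∀ d ∈ C, ∃ e ∈ D, (c * d) ^ p = c ^ p * d ^ p * e := by
    intro c hc d hd
    have hh : Commute (QuotientGroup.mk' D c) (QuotientGroup.mk' D d) := by
      rw [← commutatorElement_eq_one_iff_commute, ← map_commutatorElement]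
      exact (QuotientGroup.eq_one_iff _).2 (hCD c hc d hd)
    refine ⟨(c ^ p * d ^ p)⁻¹ * (c * d) ^ p, ?_, by rw [mul_inv_cancel_left]⟩
    refine (QuotientGroup.eq_one_iff (N := D) _).1 ?_
    show QuotientGroup.mk' D _ = 1
    rw [map_mul, map_inv, map_mul, map_pow, map_pow, map_pow, map_mul, hh.mul_pow, inv_mul_cancel]
  -- the subgroup `K₀`
  let K0 : Subgroup G :=
    { carrier := {c | c ∈ C ∧ c ^ p ∈ D}
      one_mem' := ⟨C.one_mem, by rw [one_pow]; exact D.one_mem⟩
      mul_mem' := fun {c d} hc hd => ⟨C.mul_mem hc.1 hd.1, by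
        obtain ⟨e, he, h⟩ := hpowhom c hc.1 d hd.1
        rw [h]; exact D.mul_mem (D.mul_mem hc.2 hd.2) he⟩
      inv_mem' := fun {c} hc => ⟨C.inv_mem hc.1, by rw [inv_pow]; exact D.inv_mem hc.2⟩ }
  have hDK : D ≤ K0 := fun a ha => ⟨hZC (hDZ ha), D.pow_mem ha p⟩
  have hmapD : ∀ φ : G ≃* G, ∀ a ∈ D, φ a ∈ D := fun φ a ha =>
    hordp _ (hmapZ φ a (hDZ ha)) (by
      obtain ⟨i, rfl⟩ := Subgroup.mem_zpowers_iff.1 ha
      rw [← map_pow, ← zpow_natCast, ← zpow_mul, mul_comm, zpow_mul, zpow_natCast, hzp, one_zpow,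
        map_one])
  -- its centre lies in `Zc`
  have hK0Z : ∀ f ∈ K0, (∀ k ∈ K0, k * f = f * k) → f ∈ Zc := by
    intro f hf hfc
    let ZK : Subgroup G := K0 ⊓ Subgroup.centralizer (K0 : Set G)
    have hmapK : ∀ φ : G ≃* G, ∀ a ∈ K0, φ a ∈ K0 := fun φ a ha =>
      ⟨hmapC φ a ha.1, by rw [← map_pow]; exact hmapD φ _ ha.2⟩
    have hchar : ZK.Characteristic := Subgroup.characteristic_iff_map_le.2 fun φ => by
      rintro _ ⟨a, ⟨ha, hac⟩, rfl⟩
      refine ⟨hmapK φ a ha, Subgroup.mem_centralizer_iff.2 fun k hk => ?_⟩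
      have := congrArg φ (Subgroup.mem_centralizer_iff.1 hac (φ.symm k) (hmapK φ.symm k hk))
      simpa using this
    have hab : IsMulCommutative ZK := ⟨⟨fun a b => Subtype.ext
      (Subgroup.mem_centralizer_iff.1 b.2.2 a a.2.1)⟩⟩
    obtain ⟨u, hu⟩ := (Subgroup.isCyclic_iff_exists_zpowers_eq_top ZK).1 (hsymp ZK hchar hab)
    have hfu : f ∈ Subgroup.zpowers u := hu ▸ ⟨hf, Subgroup.mem_centralizer_iff.2 hfc⟩
    have huK : u ∈ ZK := hu ▸ Subgroup.mem_zpowers u
    rcases Nat.eq_zero_or_pos n with hn0 | hn1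
    · -- `Zc` has order `p`, so `K₀` is all of `C`
      refine Subgroup.mem_centralizer_iff.2 fun c hc => hfc c ⟨hc, ?_⟩
      obtain ⟨i, hi⟩ := hmemZ _ (hcp c hc)
      rw [← hi, hpowD, hn0, pow_zero]
      exact one_dvd i
    · set w := x ^ ((p : ℤ) ^ (n - 1)) with hwdef
      have hwK : w ∈ ZK := by
        have hwZ : w ∈ Zc := Zc.zpow_mem hxmem _
        refine ⟨⟨hZC hwZ, ?_⟩, Subgroup.mem_centralizer_iff.2 fun k hk =>
          Subgroup.mem_centralizer_iff.1 hwZ k hk.1⟩
        rw [hwdef, ← zpow_natCast, ← zpow_mul, hpowD, ← pow_succ, Nat.sub_add_cancel hn1]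
      have huo : orderOf u ∣ p ^ 2 := by
        refine orderOf_dvd_of_pow_eq_one ?_
        obtain ⟨j, hj⟩ := Subgroup.mem_zpowers_iff.1 huK.1.2
        rw [pow_two, pow_mul, ← hj, ← zpow_natCast, ← zpow_mul, mul_comm, zpow_mul, zpow_natCast, hzp,
          one_zpow]
      have hwo : orderOf w = p ^ 2 := by
        refine orderOf_eq_prime_pow (n := 1) ?_ ?_
        · rw [pow_one, hwdef, ← zpow_natCast, ← zpow_mul, ← pow_succ, Nat.sub_add_cancel hn1]
          exact hz1
        · rw [hwdef, ← zpow_natCast, ← zpow_mul, Nat.cast_pow, ← pow_add,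
            show n - 1 + (1 + 1) = n + 1 by omega, hiff1]
      have heq : Subgroup.zpowers w = Subgroup.zpowers u := by
        refine Subgroup.eq_of_le_of_card_ge (Subgroup.zpowers_le.2 (hu ▸ hwK)) ?_
        rw [Nat.card_zpowers, Nat.card_zpowers, hwo]
        exact Nat.le_of_dvd (pow_pos hp.out.pos 2) huo
      exact Subgroup.zpowers_le.2 (Zc.zpow_mem hxmem _) (heq ▸ hfu : f ∈ Subgroup.zpowers w)
  -- a complement `E` of `Zc` over `D`
  obtain ⟨E, hE⟩ := exists_minimal_of_wellFoundedLT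
    (fun E : Subgroup G => D ≤ E ∧ E ≤ K0 ∧ K0 ≤ E ⊔ Zc) ⟨K0, hDK, le_rfl, le_sup_left⟩
  obtain ⟨hDE, hEK, hKE⟩ := hE.prop
  have hEC : E ≤ C := fun a ha => (hEK ha).1
  have hEDn : ∀ a ∈ E, ∀ b ∈ E, ⁅a, b⁆ ∈ D := fun a ha b hb => hCD a (hEC ha) b (hEC hb)
  have hEZ : E ⊓ Zc ≤ D := by
    rintro w ⟨hwE, hwZ⟩
    by_contra hwD
    obtain ⟨M, ⟨hDM, hME, hwM⟩, hMmax⟩ := Set.Finite.exists_maximal
      (s := {M : Subgroup G | D ≤ M ∧ M ≤ E ∧ w ∉ M}) (Set.toFinite _) ⟨D, le_rfl, hDE, hwD⟩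
    have hEM : ∀ g ∈ E, ∃ m ∈ M, ∃ i : ℤ, g = m * w ^ i := by
      intro g hg
      by_cases hgM : g ∈ M
      · exact ⟨g, hgM, 0, by simp⟩
      · have hnorm : ∀ a ∈ E, ∀ m ∈ M, a * m * a⁻¹ ∈ M := fun a ha m hm => by
          rw [show a * m * a⁻¹ = ⁅a, m⁆ * m by simp only [commutatorElement_def]; group]
          exact M.mul_mem (hDM (hEDn a ha m (hME hm))) hm
        let M' : Subgroup G :=
          { carrier := {a | ∃ m ∈ M, ∃ i : ℤ, a = m * g ^ i}
            one_mem' := ⟨1, M.one_mem, 0, by simp⟩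
            mul_mem' := by
              rintro a b ⟨m, hm, i, rfl⟩ ⟨m', hm', j, rfl⟩
              exact ⟨m * (g ^ i * m' * (g ^ i)⁻¹), M.mul_mem hm (hnorm _ (E.zpow_mem hg i) m' hm'),
                i + j, by group⟩
            inv_mem' := by
              rintro a ⟨m, hm, i, rfl⟩
              exact ⟨(g ^ i)⁻¹ * m⁻¹ * g ^ i, by
                have := hnorm _ (E.inv_mem (E.zpow_mem hg i)) _ (M.inv_mem hm)
                simpa using this, -i, by group⟩ }
        have hwM' : w ∈ M' := by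
          by_contra h
          have hM'E : M' ≤ E := by
            rintro _ ⟨m, hm, i, rfl⟩
            exact E.mul_mem (hME hm) (E.zpow_mem hg i)
          have hMM' : M ≤ M' := fun m hm => ⟨m, hm, 0, by simp⟩
          exact hgM (hMmax ⟨hDM.trans hMM', hM'E, h⟩ hMM' ⟨1, M.one_mem, 1, by simp⟩)
        obtain ⟨m, hm, i, hwi⟩ := hwM'
        have hgp : g ^ (p : ℤ) ∈ M := by rw [zpow_natCast]; exact hDM (hEK hg).2
        have hpi : ¬ (p : ℤ) ∣ i := fun ⟨c, hc⟩ => hwM (by
          rw [hwi, hc, zpow_mul]; exact M.mul_mem hm (M.zpow_mem hgp c))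
        obtain ⟨a, b, hab⟩ :=
          ((Nat.prime_iff_prime_int.1 hp.out).coprime_iff_not_dvd.2 hpi)
        have hgi : g ^ i = m⁻¹ * w := by rw [hwi, inv_mul_cancel_left]
        have hcomm : ∀ k : ℕ, ∃ m' ∈ M, (m⁻¹ * w) ^ k = m' * w ^ k := by
          intro k
          induction k with
          | zero => exact ⟨1, M.one_mem, by simp⟩
          | succ k ih =>
            obtain ⟨m', hm', h⟩ := ih
            exact ⟨m' * (w ^ k * m⁻¹ * (w ^ k)⁻¹),
              M.mul_mem hm' (hnorm _ (E.pow_mem hwE k) _ (M.inv_mem hm)),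
              by rw [pow_succ, h, pow_succ]; group⟩
        have hzp' : ∀ j : ℤ, ∃ m' ∈ M, (m⁻¹ * w) ^ j = m' * w ^ j := by
          intro j
          obtain ⟨k, rfl | rfl⟩ := j.eq_nat_or_neg
          · simpa using hcomm k
          · obtain ⟨m', hm', h⟩ := hcomm k
            refine ⟨(w ^ k)⁻¹ * m'⁻¹ * w ^ k, ?_, by
              rw [zpow_neg, zpow_natCast, h, zpow_neg, zpow_natCast]; group⟩
            have := hnorm _ (E.inv_mem (E.pow_mem hwE k)) _ (M.inv_mem hm')
            simpa using this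
        obtain ⟨m', hm', h⟩ := hzp' b
        refine ⟨(g ^ (p : ℤ)) ^ a * m', M.mul_mem (M.zpow_mem hgp a) hm', b, ?_⟩
        rw [mul_assoc, ← h, ← hgi, ← zpow_mul, ← zpow_mul, ← zpow_add,
          show (p : ℤ) * a + i * b = 1 by linarith [hab], zpow_one]
    refine hwM (hE.le_of_le ⟨hDM, hME.trans hEK, fun k hk => ?_⟩ hME hwE)
    obtain ⟨e, he, y, hy, rfl⟩ := Subgroup.mem_sup_of_normal_right.1 (hKE hk)
    obtain ⟨m, hm, i, rfl⟩ := hEM e he
    rw [mul_assoc]
    exact Subgroup.mul_mem_sup hm (Zc.mul_mem (Zc.zpow_mem hwZ i) hy)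
  -- elements centralising `E` centralise `K₀`
  have hEK0 : ∀ a, a ∈ C → (∀ e ∈ E, e * a = a * e) → ∀ k ∈ K0, k * a = a * k := by
    intro a haC ha k hk
    obtain ⟨e, he, y, hy, rfl⟩ := Subgroup.mem_sup_of_normal_right.1 (hKE hk)
    have h1 : y * a = a * y := (Subgroup.mem_centralizer_iff.1 hy a haC).symm
    rw [mul_assoc, h1, ← mul_assoc, ha e he, mul_assoc]
  set R := Subgroup.centralizer (E : Set G) with hR
  have hcentE : ∀ e ∈ E, (∀ e' ∈ E, e' * e = e * e') → e ∈ D := fun e he hc =>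
    hEZ ⟨he, hK0Z e (hEK he) (hEK0 e (hEC he) hc)⟩
  -- `E = D` or `E` is extraspecial
  have hEx : E = D ∨ Cfsg.IsExtraspecial p E := by
    refine or_iff_not_imp_left.2 fun hne => ?_
    have hEp : IsPGroup p E := hG.to_subgroup E
    have hcenter : Subgroup.center E = D.subgroupOf E := by
      ext a
      rw [Subgroup.mem_center_iff, Subgroup.mem_subgroupOf]
      exact ⟨fun h => hcentE a a.2 fun e' he' => congrArg Subtype.val (h ⟨e', he'⟩),
        fun h e => Subtype.ext (Subgroup.mem_center_iff.1 (hDc h) e)⟩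
    have hcard : Nat.card (Subgroup.center E) = p := by
      rw [hcenter, Nat.card_congr (Subgroup.subgroupOfEquivOfLe hDE).toEquiv, Nat.card_zpowers, hzo]
    have hcomm_ne : commutator E ≠ ⊥ := by
      intro h
      refine hne (le_antisymm (fun a ha => hcentE a ha fun e' he' => ?_) hDE)
      have h2 : ⁅(⟨e', he'⟩ : E), ⟨a, ha⟩⁆ ∈ commutator E :=
        Subgroup.commutator_mem_commutator (Subgroup.mem_top _) (Subgroup.mem_top _)
      rw [h, Subgroup.mem_bot, commutatorElement_eq_one_iff_mul_comm] at h2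
      exact congrArg Subtype.val h2
    have hcle : commutator E ≤ Subgroup.center E := by
      rw [commutator_def, Subgroup.commutator_le, hcenter]
      exact fun a _ b _ => hEDn a a.2 b b.2
    have hceq : commutator E = Subgroup.center E := by
      haveI := Fact.mk (hcard.symm ▸ hp.out : (Nat.card (Subgroup.center E)).Prime)
      rcases ((commutator E).subgroupOf (Subgroup.center E)).eq_bot_or_eq_top_of_prime_card with h | h
      · exact absurd ((Subgroup.subgroupOf_eq_bot.1 h).eq_bot_of_le hcle) hcomm_ne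
      · exact le_antisymm hcle (Subgroup.subgroupOf_eq_top.1 h)
    refine ⟨⟨hEp, le_antisymm (CfsgLib.PGroups.frattini_le_of (p := p) hcle fun a => ?_)
      (hceq ▸ (CfsgLib.PGroups.commutator_le_frattini hEp)), hceq⟩, hcard⟩
    rw [hcenter]
    exact (hEK a.2).2
  -- `G = E R`
  have hGE : ∀ g : G, ∃ e ∈ E, ∃ r ∈ R, g = e * r := by
    intro g
    have hsup : E ⊔ R = ⊤ := by
      rcases hEx with h | h
      · refine eq_top_iff.2 (le_trans (fun a _ => ?_) le_sup_right)
        refine Subgroup.mem_centralizer_iff.2 fun e he => ?_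
        exact (Subgroup.mem_center_iff.1 (hDc (h ▸ he)) a).symm
      · refine CfsgLib.PGroups.IsExtraspecial.sup_centralizer_eq_top E h ?_
        rw [Subgroup.commutator_le]
        intro a _ e he
        have hmem : ⁅a, e⁆ ∈ D := by
          refine hordp _ ?_ ?_
          · rw [← commutatorElement_inv]
            exact Zc.inv_mem (hcomZ e (hEC he) a)
          · have h1 : a * e ^ p * a⁻¹ = e ^ p := by
              rw [Subgroup.mem_center_iff.1 (hDc (hEK he).2) a, mul_inv_cancel_right]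
            have h2 : Commute ⁅a, e⁆ e := by
              have h3 : ⁅a, e⁆ ∈ Zc := by
                rw [← commutatorElement_inv]
                exact Zc.inv_mem (hcomZ e (hEC he) a)
              exact (Subgroup.mem_centralizer_iff.1 h3 e (hEC he)).symm
            rw [← conj_pow, show a * e * a⁻¹ = ⁅a, e⁆ * e by
              simp only [commutatorElement_def]; group, h2.mul_pow, mul_eq_right] at h1
            exact h1
        exact ⟨hDE hmem, Subgroup.mem_centralizer_iff.2 fun b _ =>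
          Subgroup.mem_center_iff.1 (hDc hmem) b⟩
    have hnor : E ≤ Subgroup.normalizer (R : Set G) := fun e he => by
      rw [Subgroup.mem_normalizer_iff]
      intro r
      have hcomm : ∀ s ∈ R, e * s * e⁻¹ = s := fun s hs => by
        rw [Subgroup.mem_centralizer_iff.1 hs e he, mul_inv_cancel_right]
      constructor
      · intro hr; rwa [hcomm r hr]
      · intro hr
        have := hcomm _ hr
        rw [mul_left_inj, mul_right_inj] at this
        exact this ▸ hr
    have hg : g ∈ ((E ⊔ R : Subgroup G) : Set G) := by rw [hsup]; exact Subgroup.mem_top g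
    rw [Subgroup.coe_mul_of_left_le_normalizer_right E R hnor] at hg
    obtain ⟨e, he, r, hr, rfl⟩ := hg
    exact ⟨e, he, r, hr, rfl⟩
  -- `C = K₀ Zc`
  have hCKZ : ∀ c ∈ C, c ∈ K0 ⊔ Zc := by
    by_contra hcon
    push Not at hcon
    obtain ⟨c₁, hc₁, hc₁n⟩ := hcon
    obtain ⟨i₁, hi₁⟩ := hmemZ _ (hcp c₁ hc₁)
    have hpi : ¬ (p : ℤ) ∣ i₁ := by
      rintro ⟨c, rfl⟩
      refine hc₁n ?_
      rw [show c₁ = c₁ * (x ^ c)⁻¹ * x ^ c by group]
      refine Subgroup.mul_mem_sup ⟨C.mul_mem hc₁ (C.inv_mem (hZC (Zc.zpow_mem hxmem c))), ?_⟩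
        (Zc.zpow_mem hxmem c)
      obtain ⟨e, he, h⟩ := hpowhom c₁ hc₁ _ (C.inv_mem (hZC (Zc.zpow_mem hxmem c)))
      rw [h, ← hi₁, inv_pow, ← zpow_natCast, ← zpow_mul, mul_comm c, mul_inv_cancel, one_mul]
      exact he
    obtain ⟨e₁, he₁, d, hd, hcd⟩ := hGE c₁
    have hdC : d ∈ C := by
      rw [show d = e₁⁻¹ * c₁ by rw [hcd, inv_mul_cancel_left]]
      exact C.mul_mem (C.inv_mem (hEC he₁)) hc₁
    have hdE : ∀ e ∈ E, e * d = d * e := Subgroup.mem_centralizer_iff.1 hd
    have hdc₁ : c₁ * d = d * c₁ := by rw [hcd, mul_assoc, ← mul_assoc d e₁, ← hdE e₁ he₁, mul_assoc]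
    have hdZ : d ∈ Zc := by
      refine Subgroup.mem_centralizer_iff.2 fun c hc => ?_
      obtain ⟨i, hi⟩ := hmemZ _ (hcp c hc)
      obtain ⟨a, b, hab⟩ := IsCoprime.pow_left (m := n + 1)
        ((Nat.prime_iff_prime_int.1 hp.out).coprime_iff_not_dvd.2 hpi)
      -- `c` lies in `K₀ ⟨c₁⟩`
      set k : ℕ := ((i * b) % (p : ℤ) ^ (n + 1)).toNat with hk
      have hkK : c * (c₁ ^ k)⁻¹ ∈ K0 := by
        refine ⟨C.mul_mem hc (C.inv_mem (C.pow_mem hc₁ k)), ?_⟩
        obtain ⟨e, he, h⟩ := hpowhom c hc _ (C.inv_mem (C.pow_mem hc₁ k))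
        rw [h, ← hi, inv_pow, ← pow_mul, mul_comm k, pow_mul, ← hi₁, ← zpow_natCast (x ^ i₁),
          ← zpow_mul, ← zpow_neg, ← zpow_add]
        refine D.mul_mem ((hpowD _).2 ((pow_dvd_pow _ (show n ≤ n + 1 by omega)).trans ?_)) he
        have hk' : (k : ℤ) = (i * b) % (p : ℤ) ^ (n + 1) :=
          Int.toNat_of_nonneg (Int.emod_nonneg _ (pow_ne_zero _ hp0))
        rw [hk', Int.emod_def]
        exact ⟨i * a + i₁ * ((i * b) / (p : ℤ) ^ (n + 1)), by linear_combination (-i) * hab⟩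
      calc c * d = (c * (c₁ ^ k)⁻¹) * (c₁ ^ k * d) := by group
        _ = (c * (c₁ ^ k)⁻¹) * (d * c₁ ^ k) := by rw [((show Commute c₁ d from hdc₁).pow_left k).eq]
        _ = (c * (c₁ ^ k)⁻¹) * d * c₁ ^ k := by rw [mul_assoc _ d]
        _ = d * (c * (c₁ ^ k)⁻¹) * c₁ ^ k := by rw [hEK0 d hdC hdE _ hkK]
        _ = d * c := by group
    exact hc₁n (hcd ▸ Subgroup.mul_mem_sup (hEK he₁) hdZ)
  -- `x` generates its own centraliser in `R`
  have hCR : ∀ r ∈ R, r * x = x * r → r ∈ Zc := by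
    intro r hr hrx
    refine Subgroup.mem_centralizer_iff.2 fun c hc => ?_
    obtain ⟨k, hk, y, hy, rfl⟩ := Subgroup.mem_sup_of_normal_right.1 (hCKZ c hc)
    obtain ⟨e, he, y', hy', rfl⟩ := Subgroup.mem_sup_of_normal_right.1 (hKE hk)
    have hyr : ∀ y ∈ Zc, y * r = r * y := by
      intro y hy
      obtain ⟨i, rfl⟩ := hmemZ y hy
      exact ((show Commute x r from hrx.symm).zpow_left i).eq
    rw [mul_assoc e, mul_assoc, hyr _ (Zc.mul_mem hy' hy), ← mul_assoc,
      Subgroup.mem_centralizer_iff.1 hr e he, mul_assoc]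
  have hxR : x ∈ R := Subgroup.mem_centralizer_iff.2 fun e he =>
    Subgroup.mem_centralizer_iff.1 hxmem e (hEC he)
  have hconjx : ∀ g : G, ∃ c : ℤ, ⁅g, x⁆ = x ^ ((p : ℤ) * c) := by
    intro g
    obtain ⟨a, ha⟩ := hmemZ _ (hZn.conj_mem x hxmem g)
    obtain ⟨c, hc⟩ := conj_exp_modEq hG hn ha.symm
    exact ⟨c, by rw [commutatorElement_def, ← ha, ← hc, zpow_sub, zpow_one]⟩
  -- the finish for `E`
  let E' : Subgroup G := if E = D then ⊥ else E
  have hE'ok : E' = ⊥ ∨ Cfsg.IsExtraspecial p E' := by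
    by_cases h : E = D
    · exact Or.inl (if_pos h)
    · have he : E' = E := if_neg h
      exact Or.inr (he.symm ▸ hEx.resolve_left h)
  have hE'le : E' ≤ E := by
    by_cases h : E = D
    · simp [E', h]
    · simp [E', h]
  have hE'sup : E' ⊔ R = ⊤ := by
    refine eq_top_iff.2 fun g _ => ?_
    obtain ⟨e, he, r, hr, rfl⟩ := hGE g
    by_cases h : E = D
    · refine Subgroup.mem_sup_right (R.mul_mem ?_ hr)
      exact Subgroup.mem_centralizer_iff.2 fun b _ => Subgroup.mem_center_iff.1 (hDc (h ▸ he)) b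
    · exact Subgroup.mul_mem_sup (by simp [E', h, he]) hr
  have hE'R : ∀ e ∈ E', ∀ r ∈ R, e * r = r * e := fun e he r hr =>
    Subgroup.mem_centralizer_iff.1 hr e (hE'le he)
  by_cases hcycR : IsCyclic R
  · exact ⟨E', R, hE'R, hE'sup, hE'ok, Or.inl hcycR⟩
  obtain ⟨r₀, hr₀, hr₀x⟩ : ∃ r ∈ R, r ∉ Zc := by
    by_contra hcon
    push Not at hcon
    exact hcycR (Subgroup.isCyclic_of_le hcon)
  rcases Nat.lt_or_ge n 2 with hn2 | hn2
  · -- then `G` itself is extraspecial
    have hn1 : n = 1 := by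
      rcases Nat.eq_zero_or_pos n with h0 | h0
      · exfalso
        refine hr₀x (hCR r₀ hr₀ ?_)
        obtain ⟨c, hc⟩ := hconjx r₀
        rw [(hiff1 ((p : ℤ) * c)).2 (by rw [h0, zero_add, pow_one]; exact dvd_mul_right _ _)] at hc
        exact commutatorElement_eq_one_iff_mul_comm.1 hc
      · omega
    have hxD : ∀ g : G, ⁅g, x⁆ ∈ D := by
      intro g
      obtain ⟨c, hc⟩ := hconjx g
      rw [hc, hpowD, hn1, pow_one]
      exact dvd_mul_right _ _
    have hrD : ∀ r ∈ R, r ^ p ∈ D := by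
      intro r hr
      by_cases hrZ : r ∈ Zc
      · obtain ⟨i, rfl⟩ := hmemZ r hrZ
        rw [← zpow_natCast, ← zpow_mul, hpowD, hn1, pow_one]
        exact dvd_mul_left _ _
      have hrp : r ^ p ∈ Zc := by
        refine hCR _ (R.pow_mem hr p) (commutatorElement_eq_one_iff_mul_comm.1 ?_)
        have : ∀ k : ℕ, ⁅r ^ k, x⁆ = ⁅r, x⁆ ^ k := by
          intro k
          induction k with
          | zero => simp
          | succ k ih => rw [pow_succ, comm_mul_left (hDc (hxD r)), ih, pow_succ]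
        obtain ⟨j, hj⟩ := Subgroup.mem_zpowers_iff.1 (hxD r)
        rw [this, ← hj, ← zpow_natCast, ← zpow_mul, mul_comm, zpow_mul, zpow_natCast, hzp, one_zpow]
      obtain ⟨i, hi⟩ := hmemZ _ hrp
      rw [← hi, hpowD, hn1, pow_one]
      by_contra hpi
      obtain ⟨a, b, hab⟩ := IsCoprime.pow_left (m := n + 1)
        ((Nat.prime_iff_prime_int.1 hp.out).coprime_iff_not_dvd.2 hpi)
      have hx' : x = (r ^ p) ^ b := by
        rw [← hi, ← zpow_mul]
        conv_lhs => rw [← zpow_one x]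
        rw [hiff]
        exact ⟨-a, by linear_combination hab⟩
      refine hrZ (hCR r hr ?_)
      rw [hx']
      exact (((Commute.refl r).pow_right p).zpow_right b).eq
    have hRD : ∀ a ∈ R, ∀ b ∈ R, ⁅a, b⁆ ∈ D := by
      -- `R` is generated by `r₀` and `x` modulo `D`
      obtain ⟨j₀, hj₀⟩ := Subgroup.mem_zpowers_iff.1 (hxD r₀)
      have hj₀p : ¬ (p : ℤ) ∣ j₀ := by
        rintro ⟨c, rfl⟩
        refine hr₀x (hCR r₀ hr₀ (commutatorElement_eq_one_iff_mul_comm.1 ?_))
        rw [← hj₀, zpow_mul, zpow_natCast, hzp, one_zpow]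
      have hgen : ∀ a ∈ R, ∃ k : ℕ, ∃ y ∈ Zc, a = r₀ ^ k * y := by
        intro a ha
        obtain ⟨ja, hja⟩ := Subgroup.mem_zpowers_iff.1 (hxD a)
        obtain ⟨u, v, huv⟩ :=
          ((Nat.prime_iff_prime_int.1 hp.out).coprime_iff_not_dvd.2 hj₀p)
        set k : ℕ := ((ja * v) % (p : ℤ)).toNat
        refine ⟨k, (r₀ ^ k)⁻¹ * a, ?_, by rw [mul_inv_cancel_left]⟩
        refine hCR _ (R.mul_mem (R.inv_mem (R.pow_mem hr₀ k)) ha)
          (commutatorElement_eq_one_iff_mul_comm.1 ?_)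
        have hpow : ∀ k : ℕ, ⁅r₀ ^ k, x⁆ = ⁅r₀, x⁆ ^ k := by
          intro k
          induction k with
          | zero => simp
          | succ k ih => rw [pow_succ, comm_mul_left (hDc (hxD r₀)), ih, pow_succ]
        have h1 : ⁅(r₀ ^ k)⁻¹, x⁆ * ⁅r₀ ^ k, x⁆ = 1 := by
          rw [← comm_mul_left (hDc (hxD _)), inv_mul_cancel, commutatorElement_one_left]
        rw [comm_mul_left (hDc (hxD a)), eq_inv_of_mul_eq_one_left h1, hpow, inv_mul_eq_one, ← hj₀,
          ← hja, ← zpow_natCast, ← zpow_mul, zpow_eq_zpow_iff_modEq, hzo, Int.modEq_iff_dvd,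
          Int.toNat_of_nonneg (Int.emod_nonneg _ hp0), Int.emod_def]
        exact ⟨ja * u + j₀ * ((ja * v) / (p : ℤ)), by linear_combination (-ja) * huv⟩
      intro a ha b hb
      obtain ⟨k, y, hy, rfl⟩ := hgen a ha
      obtain ⟨l, y', hy', rfl⟩ := hgen b hb
      refine (QuotientGroup.eq_one_iff (N := D) _).1 ?_
      show QuotientGroup.mk' D _ = 1
      rw [map_commutatorElement, commutatorElement_eq_one_iff_commute, map_mul, map_mul, map_pow,
        map_pow]
      have hyr : ∀ y ∈ Zc, Commute (QuotientGroup.mk' D r₀) (QuotientGroup.mk' D y) := by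
        intro y hy
        obtain ⟨i, rfl⟩ := hmemZ y hy
        rw [map_zpow]
        refine Commute.zpow_right ?_ i
        rw [← commutatorElement_eq_one_iff_commute, ← map_commutatorElement]
        exact (QuotientGroup.eq_one_iff _).2 (hxD r₀)
      have hyy : Commute (QuotientGroup.mk' D y) (QuotientGroup.mk' D y') :=
        (show Commute y y' from hZab y hy y' hy').map _
      exact (((Commute.refl _).pow_pow k l).mul_right ((hyr y' hy').pow_left k)).mul_left
        (((hyr y hy).symm.pow_right l).mul_right hyy)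
    refine ⟨⊤, ⊥, fun e _ r hr => by rw [Subgroup.mem_bot.1 hr, mul_one, one_mul], sup_bot_eq _,
      Or.inr ?_, Or.inl inferInstance⟩
    have hcenter : ∀ g : G, g ∈ Subgroup.center G ↔ g ∈ D := by
      refine fun g => ⟨fun hg => ?_, fun h => hDc h⟩
      have hgR : g ∈ R := Subgroup.mem_centralizer_iff.2 fun e _ => Subgroup.mem_center_iff.1 hg e
      have hgZ : g ∈ Zc := hCR g hgR (Subgroup.mem_center_iff.1 hg x).symm
      obtain ⟨i, rfl⟩ := hmemZ g hgZ
      rw [hpowD, hn1, pow_one]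
      by_contra hpi
      obtain ⟨a, b, hab⟩ := IsCoprime.pow_left (m := n + 1)
        ((Nat.prime_iff_prime_int.1 hp.out).coprime_iff_not_dvd.2 hpi)
      have hx' : x = (x ^ i) ^ b := by
        rw [← zpow_mul]
        conv_lhs => rw [← zpow_one x]
        rw [hiff]
        exact ⟨-a, by linear_combination hab⟩
      refine hr₀x (hCR r₀ hr₀ ?_)
      rw [hx']
      exact ((show Commute r₀ (x ^ i) from Subgroup.mem_center_iff.1 hg r₀).zpow_right b).eq
    have hcent : Subgroup.center G = D := by ext g; exact hcenter g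
    have hall : ∀ g h : G, ⁅g, h⁆ ∈ D := by
      intro g h
      refine (QuotientGroup.eq_one_iff (N := D) _).1 ?_
      show QuotientGroup.mk' D _ = 1
      rw [map_commutatorElement, commutatorElement_eq_one_iff_commute]
      obtain ⟨e, he, r, hr, rfl⟩ := hGE g
      obtain ⟨e', he', r', hr', rfl⟩ := hGE h
      have hq : ∀ {a b : G}, ⁅a, b⁆ ∈ D → Commute (QuotientGroup.mk' D a) (QuotientGroup.mk' D b) :=
        fun {a b} hab => by
          rw [← commutatorElement_eq_one_iff_commute, ← map_commutatorElement]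
          exact (QuotientGroup.eq_one_iff _).2 hab
      have her : ∀ a ∈ E, ∀ b ∈ R, Commute (QuotientGroup.mk' D a) (QuotientGroup.mk' D b) :=
        fun a ha b hb => (show Commute a b from Subgroup.mem_centralizer_iff.1 hb a ha).map _
      rw [map_mul, map_mul]
      exact ((hq (hEDn e he e' he')).mul_right (her e he r' hr')).mul_left
        ((her e' he' r hr).symm.mul_right (hq (hRD r hr r' hr')))
    have hGp : ∀ g : G, g ^ p ∈ D := by
      intro g
      obtain ⟨e, he, r, hr, rfl⟩ := hGE g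
      rw [(show Commute e r from Subgroup.mem_centralizer_iff.1 hr e he).mul_pow]
      exact D.mul_mem (hEK he).2 (hrD r hr)
    have hcomm : commutator G = D := by
      refine le_antisymm ?_ ?_
      · rw [commutator_def, Subgroup.commutator_le]
        exact fun a _ b _ => hall a b
      · refine Subgroup.zpowers_le.2 ?_
        obtain ⟨j, hj⟩ := Subgroup.mem_zpowers_iff.1 (hxD r₀)
        have hjp : ¬ (p : ℤ) ∣ j := by
          rintro ⟨c, rfl⟩
          refine hr₀x (hCR r₀ hr₀ (commutatorElement_eq_one_iff_mul_comm.1 ?_))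
          rw [← hj, zpow_mul, zpow_natCast, hzp, one_zpow]
        obtain ⟨a, b, hab⟩ := ((Nat.prime_iff_prime_int.1 hp.out).coprime_iff_not_dvd.2 hjp)
        have hzj : z = (z ^ j) ^ b := by
          rw [← zpow_mul]
          conv_lhs => rw [← zpow_one z]
          rw [zpow_eq_zpow_iff_modEq, hzo, Int.modEq_iff_dvd]
          exact ⟨-a, by linear_combination hab⟩
        rw [hzj, hj]
        exact Subgroup.zpow_mem _
          (Subgroup.commutator_mem_commutator (Subgroup.mem_top r₀) (Subgroup.mem_top x)) b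
    refine CfsgLib.PGroups.IsExtraspecial.of_mulEquiv Subgroup.topEquiv.symm ⟨⟨hG, ?_, ?_⟩, ?_⟩
    · refine le_antisymm (CfsgLib.PGroups.frattini_le_of (p := p) (hcomm.trans hcent.symm).le fun g => ?_) ?_
      · rw [hcent]; exact hGp g
      · rw [hcent, ← hcomm]; exact CfsgLib.PGroups.commutator_le_frattini hG
    · rw [hcomm, hcent]
    · rw [hcent, Nat.card_zpowers, hzo]
  -- `n ≥ 2`: no element of order `p` outside `Zc` acts as `x ↦ x z`
  have hnoy : ∀ w ∈ R, w ^ p = 1 → ⁅w, x⁆ ∈ D → w ∈ Zc := by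
    intro w hwR hwp hwx
    by_contra hwZ
    let S : Set G := {g | g ^ p = 1 ∧ ⁅g, x⁆ ∈ D}
    have hSmap : ∀ φ : G ≃* G, ∀ g ∈ S, φ g ∈ S := by
      rintro φ g ⟨hg1, hg2⟩
      refine ⟨by rw [← map_pow, hg1, map_one], ?_⟩
      have hxφ : φ.symm x ∈ Zc := hmapZ φ.symm x hxmem
      obtain ⟨i, hi⟩ := hmemZ _ hxφ
      have h1 : ⁅g, x ^ i⁆ ∈ D := by
        refine (QuotientGroup.eq_one_iff (N := D) _).1 ?_
        show QuotientGroup.mk' D _ = 1
        rw [map_commutatorElement, commutatorElement_eq_one_iff_commute, map_zpow]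
        refine Commute.zpow_right ?_ i
        rw [← commutatorElement_eq_one_iff_commute, ← map_commutatorElement]
        exact (QuotientGroup.eq_one_iff _).2 hg2
      rw [hi] at h1
      have := hmapD φ _ h1
      simpa [map_commutatorElement] using this
    let W := Subgroup.closure S
    have hWw : W ≤ Subgroup.centralizer ({w} : Set G) := by
      rw [Subgroup.closure_le]
      rintro g ⟨hg1, hg2⟩
      rw [SetLike.mem_coe, Subgroup.mem_centralizer_iff]
      rintro b rfl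
      obtain ⟨e, he, r, hr, rfl⟩ := hGE g
      have her : Commute e r := Subgroup.mem_centralizer_iff.1 hr e he
      have hex : e * x = x * e := Subgroup.mem_centralizer_iff.1 hxmem e (hEC he)
      have hrx : ⁅r, x⁆ ∈ D := by
        have h1 : ⁅e * r, x⁆ = e * ⁅r, x⁆ * e⁻¹ * ⁅e, x⁆ := by
          simp only [commutatorElement_def]; group
        rw [h1, commutatorElement_eq_one_iff_mul_comm.2 hex, mul_one] at hg2
        have := hDn.conj_mem _ hg2 e⁻¹
        simpa [mul_assoc] using this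
      -- write `r = x ^ a * w ^ b`
      obtain ⟨jw, hjw⟩ := Subgroup.mem_zpowers_iff.1 hwx
      obtain ⟨jr, hjr⟩ := Subgroup.mem_zpowers_iff.1 hrx
      have hjwp : ¬ (p : ℤ) ∣ jw := by
        rintro ⟨c, rfl⟩
        refine hwZ (hCR b hwR (commutatorElement_eq_one_iff_mul_comm.1 ?_))
        rw [← hjw, zpow_mul, zpow_natCast, hzp, one_zpow]
      obtain ⟨u, v, huv⟩ := ((Nat.prime_iff_prime_int.1 hp.out).coprime_iff_not_dvd.2 hjwp)
      set k : ℕ := ((jr * v) % (p : ℤ)).toNat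
      have hbk : ∀ k : ℕ, ⁅b ^ k, x⁆ = ⁅b, x⁆ ^ k := by
        intro k
        induction k with
        | zero => simp
        | succ k ih => rw [pow_succ, comm_mul_left (hDc hwx), ih, pow_succ]
      have hrb : r * (b ^ k)⁻¹ ∈ Zc := by
        refine hCR _ (R.mul_mem hr (R.inv_mem (R.pow_mem hwR k)))
          (commutatorElement_eq_one_iff_mul_comm.1 ?_)
        have hbD : ⁅b ^ k, x⁆ ∈ Subgroup.center G := hDc (by rw [hbk]; exact D.pow_mem hwx k)
        have h1 : ⁅(b ^ k)⁻¹, x⁆ * ⁅b ^ k, x⁆ = 1 := by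
          rw [← comm_mul_left hbD, inv_mul_cancel, commutatorElement_one_left]
        have h2 : ⁅(b ^ k)⁻¹, x⁆ ∈ Subgroup.center G := by
          rw [eq_inv_of_mul_eq_one_left h1]; exact inv_mem hbD
        rw [comm_mul_left h2, eq_inv_of_mul_eq_one_left h1, hbk, mul_inv_eq_one, ← hjw, ← hjr,
          ← zpow_natCast (z ^ jw), ← zpow_mul z, zpow_eq_zpow_iff_modEq, hzo, Int.modEq_iff_dvd,
          Int.toNat_of_nonneg (Int.emod_nonneg _ hp0), Int.emod_def]
        exact ⟨-(jr * u + jw * ((jr * v) / (p : ℤ))), by linear_combination jr * huv⟩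
      obtain ⟨a, ha⟩ := hmemZ _ hrb
      have hr' : r = x ^ a * b ^ k := by rw [ha, inv_mul_cancel_right]
      -- `x ^ a` commutes with `w`
      have hrp : r ^ p ∈ D := by
        rw [her.mul_pow] at hg1
        rw [eq_inv_of_mul_eq_one_right hg1]
        exact D.inv_mem (hEK he).2
      have hxw : Commute (QuotientGroup.mk' D (x ^ a)) (QuotientGroup.mk' D (b ^ k)) := by
        rw [map_pow, map_zpow]
        refine (Commute.zpow_left ?_ a).pow_right k
        rw [← commutatorElement_eq_one_iff_commute, ← map_commutatorElement]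
        refine (QuotientGroup.eq_one_iff _).2 ?_
        rw [← commutatorElement_inv]
        exact D.inv_mem hwx
      have hxa : (x ^ a) ^ p ∈ D := by
        have h1 : QuotientGroup.mk' D (r ^ p) = 1 := (QuotientGroup.eq_one_iff _).2 hrp
        rw [map_pow, hr', map_mul, hxw.mul_pow, ← map_pow, ← map_pow, ← pow_mul, mul_comm k,
          pow_mul, hwp, one_pow, map_one, mul_one] at h1
        exact (QuotientGroup.eq_one_iff _).1 h1
      rw [← zpow_natCast, ← zpow_mul, hpowD, show n = (n - 1) + 1 by omega, pow_succ,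
        mul_dvd_mul_iff_right hp0] at hxa
      have hpa : (p : ℤ) ∣ a := (dvd_pow_self _ (by omega)).trans hxa
      have hxaw : Commute (x ^ a) b := by
        obtain ⟨c, rfl⟩ := hpa
        have h1 : ∀ j : ℕ, b * x ^ j * b⁻¹ = x ^ j * (⁅b, x⁆) ^ j := by
          intro j
          induction j with
          | zero => simp
          | succ j ih =>
            have hc : Commute (⁅b, x⁆ ^ j) x :=
              (Subgroup.mem_center_iff.1 (pow_mem (hDc hwx) j) x).symm
            calc b * x ^ (j + 1) * b⁻¹ = (b * x ^ j * b⁻¹) * (⁅b, x⁆ * x) := by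
                  rw [pow_succ]; simp only [commutatorElement_def]; group
              _ = x ^ j * ⁅b, x⁆ ^ j * (x * ⁅b, x⁆) := by
                  rw [ih, Subgroup.mem_center_iff.1 (hDc hwx) x]
              _ = x ^ (j + 1) * ⁅b, x⁆ ^ (j + 1) := by
                  rw [mul_assoc, ← mul_assoc (⁅b, x⁆ ^ j), hc.eq, mul_assoc x, ← mul_assoc (x ^ j),
                    ← pow_succ, ← pow_succ]
        have h2 := h1 p
        rw [show ⁅b, x⁆ ^ p = 1 by
          rw [← hjw, ← zpow_natCast, ← zpow_mul, mul_comm, zpow_mul, zpow_natCast, hzp, one_zpow],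
          mul_one, mul_inv_eq_iff_eq_mul] at h2
        have h3 : Commute (x ^ (p : ℤ)) b := by rw [zpow_natCast]; exact h2.symm
        rw [zpow_mul]
        exact h3.zpow_left c
      have heb : Commute e b := Subgroup.mem_centralizer_iff.1 hwR e he
      rw [hr']
      exact (heb.mul_left (hxaw.mul_left ((Commute.refl b).pow_left k))).symm.eq
    let A : Subgroup G := W ⊓ Subgroup.centralizer (W : Set G)
    have hWmap : ∀ φ : G ≃* G, ∀ a ∈ W, φ a ∈ W := by
      intro φ a ha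
      induction ha using Subgroup.closure_induction with
      | mem a ha => exact Subgroup.subset_closure (hSmap φ a ha)
      | one => simp
      | mul a b _ _ iha ihb => rw [map_mul]; exact mul_mem iha ihb
      | inv a _ iha => rw [map_inv]; exact inv_mem iha
    have hAchar : A.Characteristic := Subgroup.characteristic_iff_map_le.2 fun φ => by
      rintro _ ⟨a, ⟨ha, hac⟩, rfl⟩
      refine ⟨hWmap φ a ha, Subgroup.mem_centralizer_iff.2 fun k hk => ?_⟩
      have := congrArg φ (Subgroup.mem_centralizer_iff.1 hac (φ.symm k) (hWmap φ.symm k hk))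
      simpa using this
    obtain ⟨u, hu⟩ := (Subgroup.isCyclic_iff_exists_zpowers_eq_top A).1
      (hsymp A hAchar ⟨⟨fun a b => Subtype.ext (Subgroup.mem_centralizer_iff.1 b.2.2 a a.2.1)⟩⟩)
    have hwS : w ∈ S := ⟨hwp, hwx⟩
    have hwA : w ∈ A := ⟨Subgroup.subset_closure hwS, Subgroup.mem_centralizer_iff.2 fun k hk =>
      (Subgroup.mem_centralizer_iff.1 (hWw hk) w rfl).symm⟩
    have hzS : z ∈ S := ⟨hzp, by
      rw [commutatorElement_eq_one_iff_mul_comm.2 (Subgroup.mem_center_iff.1 hzc x).symm]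
      exact D.one_mem⟩
    have hzA : z ∈ A := ⟨Subgroup.subset_closure hzS,
      Subgroup.mem_centralizer_iff.2 fun k _ => Subgroup.mem_center_iff.1 hzc k⟩
    refine hwZ (hDZ ?_)
    have hwne : w ≠ 1 := fun h => hwZ (h ▸ Zc.one_mem)
    haveI : IsCyclic A := (Subgroup.isCyclic_iff_exists_zpowers_eq_top A).2 ⟨u, hu⟩
    haveI : Fintype A := Fintype.ofFinite A
    have hsub : (Subgroup.zpowers (⟨z, hzA⟩ : A) : Set A).toFinset ⊆
        Finset.univ.filter (fun a : A => a ^ p = 1) := by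
      intro a ha
      rw [Set.mem_toFinset] at ha
      obtain ⟨j, rfl⟩ := Subgroup.mem_zpowers_iff.1 ha
      refine Finset.mem_filter.2 ⟨Finset.mem_univ _, ?_⟩
      refine Subtype.ext ?_
      show (z ^ j) ^ p = 1
      rw [← zpow_natCast, ← zpow_mul, mul_comm, zpow_mul, zpow_natCast, hzp, one_zpow]
    have heq := Finset.eq_of_subset_of_card_le hsub ((IsCyclic.card_pow_eq_one_le hp.out.pos).trans
      (le_of_eq (by
        rw [Set.toFinset_card, ← Nat.card_eq_fintype_card]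
        show p = Nat.card (Subgroup.zpowers (⟨z, hzA⟩ : A))
        rw [Nat.card_zpowers, ← Subgroup.orderOf_coe, hzo])))
    have hwT : (⟨w, hwA⟩ : A) ∈ (Subgroup.zpowers (⟨z, hzA⟩ : A) : Set A).toFinset := by
      rw [heq]
      exact Finset.mem_filter.2 ⟨Finset.mem_univ _, Subtype.ext hwp⟩
    obtain ⟨j, hj⟩ := Subgroup.mem_zpowers_iff.1 (Set.mem_toFinset.1 hwT)
    exact Subgroup.mem_zpowers_iff.2 ⟨j, congrArg Subtype.val hj⟩
  have hNAC : CfsgLib.TwoGroups.NormalAbelianCyclic R := by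
    intro B hBn hBc
    letI : CommGroup B := { (inferInstance : Group B) with mul_comm := hBc.is_comm.comm }
    have hsol : ∀ w : B, w ^ p = 1 → ((w : R) : G) ∈ D := by
      intro w hw
      have hwp : ((w : R) : G) ^ p = 1 := congrArg (fun t : B => ((t : R) : G)) hw
      refine hordp _ (hnoy _ (w : R).2 hwp ?_) hwp
      have hc : (⁅(w : R), ⟨x, hxR⟩⁆ : R) ∈ B := by
        rw [commutatorElement_def, mul_assoc (w : R), mul_assoc (w : R)]
        exact B.mul_mem w.2 (hBn.conj_mem _ (B.inv_mem w.2) _)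
      refine hordp _ ?_ ?_
      · rw [commutatorElement_def]
        exact Zc.mul_mem (hZn.conj_mem x hxmem _) (Zc.inv_mem hxmem)
      · have h1 : (⟨x, hxR⟩ : R) * (w : R)⁻¹ * (⟨x, hxR⟩ : R)⁻¹ ∈ B :=
          hBn.conj_mem _ (B.inv_mem w.2) _
        have h2 : (w * ⟨_, h1⟩ : B) ^ p = 1 := by
          rw [mul_pow, hw, one_mul]
          refine Subtype.ext (Subtype.ext ?_)
          show (x * ((w : R) : G)⁻¹ * x⁻¹) ^ p = 1
          rw [conj_pow, inv_pow, hwp, inv_one, mul_one, mul_inv_cancel]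
        have h3 := congrArg (fun t : B => ((t : R) : G)) h2
        simpa [commutatorElement_def, mul_assoc] using h3
    refine CfsgLib.CoprimeAction.isCyclic_of_prime_roots fun q hq => ?_
    classical
    rcases eq_or_ne q p with rfl | hqp
    · calc Nat.card {a : B // a ^ q = 1} ≤ Nat.card D :=
            Nat.card_le_card_of_injective
              (fun a => (⟨((a.1 : R) : G), hsol a.1 a.2⟩ : D))
              (fun a b h => Subtype.ext (Subtype.ext (Subtype.ext (congrArg (fun t : D => (t : G)) h :))))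
        _ ≤ q := by rw [Nat.card_zpowers, hzo]
    · refine le_trans (le_of_eq ?_) hq.pos
      rw [Nat.card_eq_one_iff_unique]
      refine ⟨⟨fun a b => Subtype.ext ?_⟩, ⟨⟨1, one_pow q⟩⟩⟩
      have hone : ∀ a : B, a ^ q = 1 → a = 1 := by
        intro a ha
        obtain ⟨k, hk⟩ := ((hG.to_subgroup R).to_subgroup B) a
        have := (pow_gcd_eq_one (a := a)).2 ⟨ha, hk⟩
        rwa [((Nat.coprime_primes hq hp.out).2 hqp).pow_right k |>.gcd_eq_one, pow_one] at this
      rw [hone a.1 a.2, hone b.1 b.2]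
  rcases CfsgLib.TwoGroups.isCyclic_or_of_normalAbelianCyclic (hG.to_subgroup R) hNAC with h | h
  · exact absurd h hcycR
  obtain ⟨hp2, hshape⟩ := h
  refine ⟨E', R, hE'R, hE'sup, hE'ok, Or.inr ⟨hp2, ?_, ?_⟩⟩
  · -- `⟨x⟩` is a proper subgroup of order at least eight
    have hxRle : Subgroup.zpowers x ≤ R := Subgroup.zpowers_le.2 hxR
    have hlt : Subgroup.zpowers x < R :=
      lt_of_le_of_ne hxRle fun h => hr₀x (hxZ ▸ h ▸ hr₀)
    have h1 : 2 * Nat.card (Subgroup.zpowers x) ≤ Nat.card R := by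
      have hdiv := Subgroup.card_dvd_of_le hxRle
      obtain ⟨c, hc⟩ := hdiv
      have hlt' : Nat.card (Subgroup.zpowers x) < Nat.card R := by
        refine lt_of_le_of_ne (Nat.le_of_dvd Nat.card_pos ⟨c, hc⟩) fun h => hlt.ne ?_
        exact Subgroup.eq_of_le_of_card_ge hxRle h.ge
      rcases c with _ | _ | c
      · rw [mul_zero] at hc; omega
      · rw [hc] at hlt'; omega
      · rw [hc, mul_comm]; exact Nat.mul_le_mul_left _ (by omega)
    rw [Nat.card_zpowers, hn, hp2] at h1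
    have : 2 ^ 3 ≤ 2 ^ (n + 1) := Nat.pow_le_pow_right (by norm_num) (by omega)
    omega
  · rcases hshape with ⟨m, -, hm⟩ | ⟨m, -, hm⟩ | hm
    · exact Or.inl ⟨_, hm⟩
    · exact Or.inr (Or.inl ⟨_, hm⟩)
    · exact Or.inr (Or.inr hm)

/-- Let G be a finite p-group of symplectic type: every characteristic abelian subgroup of G is cyclic. Then G = E ∗ R is a central product of subgroups E and R (they commute elementwise and generate G) where E is extraspecial or trivial, and R is cyclic, or p = 2 and R is dihedral, semidihedral or generalized quaternion of order at least 16. -/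
theorem result {G : Type*} [Group G] [Finite G] {p : ℕ} [Fact p.Prime] (hG : IsPGroup p G) (hsymp : ∀ A : Subgroup G, A.Characteristic → IsMulCommutative A → IsCyclic A) : ∃ E R : Subgroup G, (∀ e ∈ E, ∀ r ∈ R, e * r = r * e) ∧ E ⊔ R = ⊤ ∧ (E = ⊥ ∨ Cfsg.IsExtraspecial p ↥E) ∧ (IsCyclic R ∨ (p = 2 ∧ 16 ≤ Nat.card R ∧ ((∃ m : ℕ, Nonempty (↥R ≃* DihedralGroup m)) ∨ (∃ m : ℕ, Nonempty (↥R ≃* QuaternionGroup m)) ∨ Cfsg.IsQuasiDihedral ↥R))) := by
  classical
  rcases subsingleton_or_nontrivial G with h | h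
  · exact ⟨⊥, ⊤, fun e he r _ => Subsingleton.elim _ _, bot_sup_eq _, Or.inl rfl, Or.inl inferInstance⟩
  · exact main hG hsymp

end Cfsg.Agent.S3762
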