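import Cfsg.Statements.S3763
import Cfsg.Agent.Lib.Minimal.ExtraspecialTwo
import Cfsg.Agent.Lib.ThompsonJ.Replacement
import Cfsg.Agent.Lib.ClassK.Extraspecial

set_option autoImplicit false
open Cfsg

namespace Cfsg.Agent.S3763

open CfsgLib.Minimal.ExtraspecialTwo

universe uE

open scoped Pointwise

section Aux

variable {E : Type uE} [Group E] [Finite E]

def IsEA (A : Subgroup E) : Prop := IsMulCommutative A ∧ ∀ a ∈ A, a ^ 2 = 1

omit [Finite E] in
theorem IsEA.comm {A : Subgroup E} (h : IsEA A) {a b : E} (ha : a ∈ A) (hb : b ∈ A) :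
    a * b = b * a := congrArg Subtype.val (h.1.is_comm.comm (⟨a, ha⟩ : A) ⟨b, hb⟩)

omit [Finite E] in
theorem isEA_sup {A B : Subgroup E} (hA : IsEA A) (hB : IsEA B)
    (hAB : ∀ a ∈ A, ∀ b ∈ B, a * b = b * a) : IsEA (A ⊔ B) := by
  have hn : A ≤ Subgroup.normalizer (B : Set E) := fun a ha => by
    rw [Subgroup.mem_normalizer_iff]
    intro b
    constructor
    · intro hb; rw [hAB a ha b hb, mul_inv_cancel_right]; exact hb
    · intro hb
      have h1 := hAB a ha _ hb
      have : b = a * b * a⁻¹ := mul_left_cancel (a := a) (by rw [h1]; group)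
      rw [this]; exact hb
  have hc : ((A ⊔ B : Subgroup E) : Set E) = (A : Set E) * (B : Set E) :=
    Subgroup.coe_mul_of_left_le_normalizer_right A B hn
  refine ⟨⟨⟨fun x y => Subtype.ext ?_⟩⟩, fun x hx => ?_⟩
  · obtain ⟨a, ha, b, hb, hxe⟩ : (x : E) ∈ (A : Set E) * (B : Set E) := hc ▸ x.2
    obtain ⟨a', ha', b', hb', hye⟩ : (y : E) ∈ (A : Set E) * (B : Set E) := hc ▸ y.2
    show (x : E) * y = y * x
    rw [← hxe, ← hye]
    have h1 : Commute a a' := hA.comm ha ha'
    have h2 : Commute b b' := hB.comm hb hb'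
    have h3 : Commute a b' := hAB a ha b' hb'
    have h4 : Commute b a' := (hAB a' ha' b hb).symm
    exact ((h1.mul_right h3).mul_left (h4.mul_right h2)).eq
  · obtain ⟨a, ha, b, hb, hxe⟩ : x ∈ (A : Set E) * (B : Set E) := hc ▸ hx
    rw [← hxe]
    show (a * b) ^ 2 = 1
    rw [(show Commute a b from hAB a ha b hb).mul_pow, hA.2 a ha, hB.2 b hb, one_mul]

theorem isEA_center (hE : Cfsg.IsExtraspecial 2 E) : IsEA (Subgroup.center E) :=
  ⟨⟨⟨fun x y => Subtype.ext (Subgroup.mem_center_iff.1 y.2 x)⟩⟩, fun x hx => by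
    rcases zE_cases hE hx with rfl | rfl
    · exact one_pow 2
    · rw [pow_two, zE_sq hE]⟩

omit [Finite E] in
theorem isEA_map {C : Subgroup E} {A : Subgroup C} (h : IsEA A) : IsEA (A.map C.subtype) := by
  refine ⟨⟨⟨fun x y => Subtype.ext ?_⟩⟩, ?_⟩
  · obtain ⟨a, ha, hax⟩ := x.2
    obtain ⟨b, hb, hby⟩ := y.2
    show (x : E) * y = y * x
    rw [← hax, ← hby, ← map_mul, ← map_mul, h.comm ha hb]
  · rintro _ ⟨a, ha, rfl⟩
    rw [← map_pow, h.2 a ha, map_one]

theorem isEA_zpowers {x : E} (hx : x ^ 2 = 1) : IsEA (Subgroup.zpowers x) := by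
  refine ⟨inferInstance, ?_⟩
  intro a ha
  obtain ⟨k, rfl⟩ := Subgroup.mem_zpowers_iff.1 ha
  rw [← zpow_natCast, ← zpow_mul, mul_comm, zpow_mul, zpow_natCast, hx, one_zpow]

theorem sign_exists_ea (hE : Cfsg.IsExtraspecial 2 E) :
    ∃ m : ℕ, 1 ≤ m ∧ Nat.card E = 2 ^ (2 * m + 1) ∧
      ((numSq E = 2 ^ (2 * m) + 2 ^ m ∧ ∃ A : Subgroup E, IsEA A ∧ Nat.card A = 2 ^ (m + 1)) ∨
        (numSq E + 2 ^ m = 2 ^ (2 * m) ∧ ∃ A : Subgroup E, IsEA A ∧ Nat.card A = 2 ^ m)) := by
  induction hn : Nat.card E using Nat.strong_induction_on generalizing E with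
  | _ n ih =>
  rcases normal_form hE with ⟨a, b, ha, hb, hab⟩ | ⟨h8, hall⟩
  · have h4 := card_eq_four_mul hE hab
    have hs := numSq_step hE hab ha hb
    have ha2 : a ^ 2 = 1 := by rw [pow_two, ha]
    have han : a ∉ pairCentralizer a b := fun h => hab (mem_pairCentralizer.1 h).2
    have double : ∀ A : Subgroup (pairCentralizer a b), IsEA A →
        ∃ A' : Subgroup E, IsEA A' ∧ Nat.card A' = 2 * Nat.card A := by
      intro A hA
      refine ⟨Subgroup.zpowers a ⊔ A.map (pairCentralizer a b).subtype,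
        isEA_sup (isEA_zpowers ha2) (isEA_map hA) ?_, ?_⟩
      · rintro x hx _ ⟨y, -, rfl⟩
        obtain ⟨k, rfl⟩ := Subgroup.mem_zpowers_iff.1 hx
        exact ((show Commute a (y : E) from (mem_pairCentralizer.1 y.2).1.symm).zpow_left k).eq
      · have hdis : Subgroup.zpowers a ⊓ A.map (pairCentralizer a b).subtype = ⊥ := by
          rw [eq_bot_iff]
          rintro x ⟨hx, hxA⟩
          obtain ⟨k, rfl⟩ := Subgroup.mem_zpowers_iff.1 hx
          rcases Int.even_or_odd k with ⟨j, rfl⟩ | ⟨j, rfl⟩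
          · rw [Subgroup.mem_bot, zpow_add, ← (Commute.refl a).mul_zpow, ha, one_zpow]
          · exfalso
            refine han ?_
            rw [zpow_add, zpow_mul, zpow_ofNat, ha2, one_zpow, one_mul, zpow_one] at hxA
            exact Subgroup.map_subtype_le _ hxA
        have hn : Subgroup.zpowers a ≤
            Subgroup.normalizer ((A.map (pairCentralizer a b).subtype : Subgroup E) : Set E) := by
          rw [Subgroup.zpowers_le, Subgroup.mem_normalizer_iff]
          intro y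
          constructor
          · rintro ⟨w, hw, rfl⟩
            refine ⟨w, hw, ?_⟩
            show (w : E) = a * (w : E) * a⁻¹
            rw [← (mem_pairCentralizer.1 w.2).1, mul_inv_cancel_right]
          · rintro ⟨w, hw, hwe⟩
            refine ⟨w, hw, ?_⟩
            have hw' : (w : E) = a * y * a⁻¹ := hwe
            show (w : E) = y
            calc (w : E) = a⁻¹ * ((w : E) * a) := by rw [(mem_pairCentralizer.1 w.2).1, inv_mul_cancel_left]
              _ = y := by rw [hw']; group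
        have := CfsgLib.ThompsonJ.card_sup_mul_card_inf (Subgroup.zpowers a)
          (A.map (pairCentralizer a b).subtype) hn
        rw [hdis, Subgroup.card_bot, mul_one, Nat.card_zpowers,
          Subgroup.card_map_of_injective (Subgroup.subtype_injective _),
          orderOf_eq_prime ha2 (fun h => hab (by rw [h, one_mul, mul_one]))] at this
        exact this
    by_cases h2 : 2 < Nat.card (pairCentralizer a b)
    · obtain ⟨m, hm1, hmc, hm⟩ := ih _ (by omega) (extraspecial_pairCentralizer hE hab h2) rfl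
      have e1 : 2 ^ (2 * (m + 1) + 1) = 4 * 2 ^ (2 * m + 1) := by ring
      have e2 : 2 ^ (2 * (m + 1)) = 4 * 2 ^ (2 * m) := by ring
      have e3 : 2 ^ (m + 1) = 2 * 2 ^ m := by ring
      have e4 : 2 ^ (2 * m + 1) = 2 * 2 ^ (2 * m) := by ring
      have e5 : 2 ^ (m + 1 + 1) = 2 * 2 ^ (m + 1) := by ring
      refine ⟨m + 1, by omega, by omega, ?_⟩
      rcases hm with ⟨hq, A, hA, hAc⟩ | ⟨hq, A, hA, hAc⟩ <;> obtain ⟨A', hA', hAc'⟩ := double A hA
      · exact Or.inl ⟨by omega, A', hA', by omega⟩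
      · exact Or.inr ⟨by omega, A', hA', by omega⟩
    · have hle := Subgroup.card_le_of_le (center_le_pairCentralizer a b)
      rw [hE.2] at hle
      have hc : Nat.card (pairCentralizer a b) = 2 := by omega
      have htop : IsEA (⊤ : Subgroup (pairCentralizer a b)) := by
        have hall2 : ∀ x : pairCentralizer a b, x ^ 2 = 1 := fun x => by rw [← hc]; exact pow_card_eq_one'
        refine ⟨⟨⟨fun x y => Subtype.ext ?_⟩⟩, fun x _ => hall2 x⟩
        show (x : pairCentralizer a b) * y = y * x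
        exact (Commute.of_orderOf_dvd_two (fun g => orderOf_dvd_of_pow_eq_one (hall2 g)) _ _).eq
      obtain ⟨A', hA', hAc'⟩ := double ⊤ htop
      rw [Subgroup.card_top, hc] at hAc'
      rw [hc] at h4 hs
      rw [numSq_of_card_two hc] at hs
      refine ⟨1, le_rfl, by omega, Or.inl ⟨by omega, A', hA', by omega⟩⟩
  · have hs := numSq_eight_minus hE hall
    exact ⟨1, le_rfl, by omega, Or.inr ⟨by omega, Subgroup.center E, isEA_center hE, hE.2⟩⟩

theorem card_sq_le (hE : Cfsg.IsExtraspecial 2 E) {A : Subgroup E} (hA : IsEA A) :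
    Nat.card A * Nat.card A ≤ 2 * Nat.card E ∧
      (Subgroup.center E ≤ A → Nat.card ↥(Subgroup.centralizer (A : Set E)) * Nat.card A = 2 * Nat.card E) := by
  have htop : Cfsg.IsExtraspecial 2 ↥(⊤ : Subgroup E) :=
    CfsgLib.PGroups.IsExtraspecial.of_mulEquiv Subgroup.topEquiv.symm hE
  have key : ∀ D : Subgroup E, Subgroup.center E ≤ D →
      Nat.card ↥(Subgroup.centralizer (D : Set E)) * Nat.card D = 2 * Nat.card E := by
    intro D hD
    have h := CfsgLib.ClassK.card_inf_centralizer_mul_card (G := E) htop (D := D) ?_ le_top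
    · rw [top_inf_eq, Subgroup.card_top] at h; exact h
    · rintro _ ⟨x, hx, rfl⟩
      exact hD (Subgroup.mem_center_iff.2 fun g =>
        congrArg Subtype.val (Subgroup.mem_center_iff.1 hx ⟨g, Subgroup.mem_top g⟩))
  refine ⟨?_, key A⟩
  set D := A ⊔ Subgroup.center E with hD
  have hDe : IsEA D := isEA_sup hA (isEA_center hE) fun a _ b hb => Subgroup.mem_center_iff.1 hb a
  have h1 := key D le_sup_right
  have h2 : Nat.card D ≤ Nat.card ↥(Subgroup.centralizer (D : Set E)) :=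
    Subgroup.card_le_of_le fun d hd => Subgroup.mem_centralizer_iff.2 fun c hc => hDe.comm hc hd
  have h3 : Nat.card A ≤ Nat.card D := Subgroup.card_le_of_le le_sup_left
  exact h1 ▸ Nat.mul_le_mul (h3.trans h2) h3

theorem numSq_of_large_ea (hE : Cfsg.IsExtraspecial 2 E) {A : Subgroup E} (hA : IsEA A) {m : ℕ}
    (hc : Nat.card E = 2 ^ (2 * m + 1)) (hAc : Nat.card A = 2 ^ (m + 1)) :
    numSq E = 2 ^ (2 * m) + 2 ^ m := by
  classical
  have hsq : Nat.card A * Nat.card A = 2 * Nat.card E := by rw [hAc, hc]; ring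
  have hZA : Subgroup.center E ≤ A := by
    by_contra h
    have hDe : IsEA (A ⊔ Subgroup.center E) :=
      isEA_sup hA (isEA_center hE) fun a _ b hb => Subgroup.mem_center_iff.1 hb a
    have h1 := (card_sq_le hE hDe).1
    have h2 : Nat.card A < Nat.card ↥(A ⊔ Subgroup.center E) := by
      by_contra! h2
      exact h ((le_sup_right : Subgroup.center E ≤ A ⊔ Subgroup.center E).trans_eq
        (Subgroup.eq_of_le_of_card_ge le_sup_left h2).symm)
    have h3 := Nat.mul_lt_mul'' h2 h2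
    omega
  have hCA : Subgroup.centralizer (A : Set E) = A := by
    refine (Subgroup.eq_of_le_of_card_ge
      (fun d hd => Subgroup.mem_centralizer_iff.2 fun c hc => hA.comm hc hd) ?_).symm
    have h1 := (card_sq_le hE hA).2 hZA
    rw [← hsq] at h1
    exact (Nat.eq_of_mul_eq_mul_right Nat.card_pos h1).le
  have hex : ∀ q : E ⧸ A, ∃ a ∈ A, q.out ∉ A → q.out * a ≠ a * q.out := by
    intro q
    by_cases hq : q.out ∈ A
    · exact ⟨1, A.one_mem, fun h => absurd hq h⟩
    · have h : q.out ∉ Subgroup.centralizer (A : Set E) := by rwa [hCA]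
      rw [Subgroup.mem_centralizer_iff] at h
      push Not at h
      obtain ⟨a, ha, hne⟩ := h
      exact ⟨a, ha, fun _ => Ne.symm hne⟩
  choose F hFA hFne using hex
  have hflip : ∀ x : E, x ∉ A → x * F (x : E ⧸ A) ≠ F (x : E ⧸ A) * x := by
    intro x hx h
    obtain ⟨⟨d, hd⟩, he⟩ := QuotientGroup.mk_out_eq_mul A x
    refine hFne (x : E ⧸ A) ?_ ?_
    · rw [he]; exact fun h' => hx ((A.mul_mem_cancel_right hd).1 h')
    · rw [he]
      show x * d * F (x : E ⧸ A) = F (x : E ⧸ A) * (x * d)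
      rw [mul_assoc, hA.comm hd (hFA _), ← mul_assoc, h, mul_assoc]
  let s : E → E := fun x => x * F (x : E ⧸ A)
  have hsA : ∀ {x}, x ∉ A → s x ∉ A := fun {x} hx h => hx ((A.mul_mem_cancel_right (hFA _)).1 h)
  have hss : ∀ x, s (s x) = x := fun x => by
    show x * F (x : E ⧸ A) * F ((x * F (x : E ⧸ A) : E) : E ⧸ A) = x
    rw [QuotientGroup.mk_mul_of_mem x (hFA _), mul_assoc, ← pow_two, hA.2 _ (hFA _), mul_one]
  have hsq2 : ∀ x, x ∉ A → (s x) ^ 2 = x ^ 2 * zE hE := by
    intro x hx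
    have h := swap_eq hE (hflip x hx)
    have hz := zE_comm hE
    calc (s x) ^ 2 = x * (F (x : E ⧸ A) * x) * F (x : E ⧸ A) := by rw [pow_two]; simp [s, mul_assoc]
      _ = zE hE * (x * x) * (F (x : E ⧸ A) * F (x : E ⧸ A)) := by
        rw [h, ← mul_assoc x (zE hE), ← hz x]; simp [mul_assoc]
      _ = x ^ 2 * zE hE := by rw [← pow_two, ← pow_two, hA.2 _ (hFA _), mul_one, hz]
  have hmaps : ∀ x : E, x ∉ A → (¬ (s x) ^ 2 = 1 ↔ x ^ 2 = 1) := by
    intro x hx
    rw [hsq2 x hx, pow_two x]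
    rcases sq_cases hE x with h | h <;> simp [h, zE_ne hE, zE_sq hE]
  let e : {x : E // x ∉ A ∧ x ^ 2 = 1} ≃ {x : E // x ∉ A ∧ ¬ x ^ 2 = 1} :=
    { toFun := fun x => ⟨s x, hsA x.2.1, (hmaps x x.2.1).2 x.2.2⟩
      invFun := fun x => ⟨s x, hsA x.2.1, by
        have := hmaps (s x) (hsA x.2.1)
        rw [hss] at this
        exact this.1 x.2.2⟩
      left_inv := fun x => Subtype.ext (hss x)
      right_inv := fun x => Subtype.ext (hss x) }
  have heq := Nat.card_congr e
  have hout : Nat.card {x : E // x ∉ A ∧ x ^ 2 = 1} + Nat.card {x : E // x ∉ A ∧ ¬ x ^ 2 = 1} =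
      Nat.card {x : E // x ∉ A} := by
    rw [← Nat.card_sum]
    exact Nat.card_congr ((Equiv.sumCongr (Equiv.subtypeSubtypeEquivSubtypeInter (fun x : E => x ∉ A) (fun x => x ^ 2 = 1)).symm
      (Equiv.subtypeSubtypeEquivSubtypeInter (fun x : E => x ∉ A) (fun x => ¬ x ^ 2 = 1)).symm).trans (Equiv.sumCompl _))
  have hE' : Nat.card {x : E // x ∈ A} + Nat.card {x : E // x ∉ A} = Nat.card E := by
    rw [← Nat.card_sum, Nat.card_congr (Equiv.sumCompl _)]
  have hnum : numSq E = Nat.card {x : E // x ∈ A} + Nat.card {x : E // x ∉ A ∧ x ^ 2 = 1} := by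
    rw [numSq, ← Nat.card_congr (Equiv.sumCompl (fun x : {x : E // x ^ 2 = 1} => (x : E) ∈ A)),
      Nat.card_sum]
    congr 1
    · exact Nat.card_congr ((Equiv.subtypeSubtypeEquivSubtypeInter (fun x : E => x ^ 2 = 1) (fun x => x ∈ A)).trans
        (Equiv.subtypeEquivRight fun x => ⟨fun h => h.2, fun h => ⟨hA.2 x h, h⟩⟩))
    · exact Nat.card_congr ((Equiv.subtypeSubtypeEquivSubtypeInter (fun x : E => x ^ 2 = 1) (fun x => x ∉ A)).trans
        (Equiv.subtypeEquivRight fun x => and_comm))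
  have hAc' : Nat.card {x : E // x ∈ A} = 2 ^ (m + 1) := hAc
  have e4 : 2 ^ (2 * m + 1) = 2 * 2 ^ (2 * m) := by ring
  have e5 : 2 ^ (m + 1) = 2 * 2 ^ m := by ring
  omega

theorem rank_dichotomy (hE : Cfsg.IsExtraspecial 2 E) {m : ℕ} (hc : Nat.card E = 2 ^ (2 * m + 1)) :
    (numSq E = 2 ^ (2 * m) + 2 ^ m ∧ Cfsg.PRankLE 2 (m + 1) E ∧ ¬ Cfsg.PRankLE 2 m E) ∨
      (numSq E + 2 ^ m = 2 ^ (2 * m) ∧ Cfsg.PRankLE 2 m E ∧ ¬ Cfsg.PRankLE 2 (m - 1) E) := by
  have hp : Fact (Nat.Prime 2) := ⟨Nat.prime_two⟩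
  obtain ⟨m', hm1, hmc, hm⟩ := sign_exists_ea hE
  obtain rfl : m' = m := by
    have := Nat.pow_right_injective (le_refl 2) (hmc.symm.trans hc); omega
  have hup : ∀ A : Subgroup E, IsEA A → Nat.card A ≤ 2 ^ (m' + 1) := by
    intro A hA
    have h := (card_sq_le hE hA).1
    rw [hc, show 2 * 2 ^ (2 * m' + 1) = 2 ^ (m' + 1) * 2 ^ (m' + 1) by ring] at h
    exact Nat.mul_self_le_mul_self_iff.1 h
  rcases hm with ⟨hq, A, hA, hAc⟩ | ⟨hq, A, hA, hAc⟩
  · refine Or.inl ⟨hq, fun B h1 h2 => hup B ⟨h1, h2⟩, fun h => ?_⟩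
    have := h A hA.1 hA.2
    rw [hAc] at this
    exact absurd this (not_le.2 (Nat.pow_lt_pow_right (by norm_num) (Nat.lt_succ_self _)))
  · refine Or.inr ⟨hq, fun B h1 h2 => ?_, fun h => ?_⟩
    · obtain ⟨k, hk⟩ := IsPGroup.iff_card.1 (hE.1.1.to_subgroup B)
      have hle := hup B ⟨h1, h2⟩
      rw [hk] at hle ⊢
      have hk1 : k ≤ m' + 1 := (Nat.pow_le_pow_iff_right (by norm_num)).1 hle
      refine Nat.pow_le_pow_right (by norm_num) ?_
      by_contra hlt
      have hkeq : k = m' + 1 := by omega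
      have := numSq_of_large_ea hE ⟨h1, h2⟩ hc (hkeq ▸ hk)
      have := Nat.two_pow_pos m'
      omega
    · have := h A hA.1 hA.2
      rw [hAc] at this
      exact absurd this (not_le.2 (Nat.pow_lt_pow_right (by norm_num) (by omega)))

end Aux

/-- Let E be an extraspecial 2-group of order 2^(2n+1). Then the largest elementary abelian subgroups of E have order 2^n or 2^(n+1); and two extraspecial 2-groups of the same order whose largest elementary abelian subgroups have the same order are isomorphic. -/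
theorem result {E : Type*} [Group E] [Finite E] (hE : Cfsg.IsExtraspecial 2 E) (n : ℕ) (hn : Nat.card E = 2 ^ (2 * n + 1)) : ((Cfsg.PRankLE 2 n E ∧ ¬ Cfsg.PRankLE 2 (n - 1) E) ∨ (Cfsg.PRankLE 2 (n + 1) E ∧ ¬ Cfsg.PRankLE 2 n E)) ∧ ∀ (E' : Type*) [Group E'] [Finite E'], Cfsg.IsExtraspecial 2 E' → Nat.card E' = Nat.card E → (∀ k : ℕ, Cfsg.PRankLE 2 k E ↔ Cfsg.PRankLE 2 k E') → Nonempty (E ≃* E') := by
  rcases rank_dichotomy hE hn with ⟨hq, hr1, hr2⟩ | ⟨hq, hr1, hr2⟩
  all_goals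
    refine ⟨?_, fun E' _ _ hE' hcard hiff => ?_⟩
  · exact Or.inr ⟨hr1, hr2⟩
  · refine CfsgLib.Minimal.ExtraspecialTwo.nonempty_mulEquiv hE hE' hcard ?_
    rcases rank_dichotomy hE' (hcard.trans hn) with ⟨hq', -, -⟩ | ⟨-, hr1', -⟩
    · omega
    · exact absurd ((hiff n).2 hr1') hr2
  · exact Or.inl ⟨hr1, hr2⟩
  · refine CfsgLib.Minimal.ExtraspecialTwo.nonempty_mulEquiv hE hE' hcard ?_
    rcases rank_dichotomy hE' (hcard.trans hn) with ⟨-, -, hr2'⟩ | ⟨hq', -, -⟩
    · exact absurd ((hiff n).1 hr1) hr2'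
    · omega

end Cfsg.Agent.S3763
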