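import Cfsg.Statements.S3764
import Cfsg.Agent.Lib.ExtraspecialFPF.Setting
import Cfsg.Agent.Lib.HallHigmanB.Minimal
import Cfsg.Agent.Lib.HallHigmanB.Reduction

set_option autoImplicit false
open Cfsg

namespace Cfsg.Agent.S3764

set_option linter.style.haveILetI false

/-- A module over `ZMod p` with endomorphisms, over the algebraic closure of `ZMod p`. -/
private theorem exists_rep' {H M : Type*} [Group H] [AddCommGroup M] [Finite M] {p : ℕ}
    [Fact p.Prime] [Module (ZMod p) M] (f : H → M →+ M) (h1 : ∀ a, f 1 a = a)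
    (hm : ∀ g h a, f (g * h) a = f g (f h a)) :
    ∃ (N : ℕ) (Ψ : H →* Module.End (AlgebraicClosure (ZMod p)) (Fin N → AlgebraicClosure (ZMod p))),
      (∀ g, Ψ g = 1 → ∀ a, f g a = a) ∧ ∀ g, (∀ a, f g a = a → a = 0) → IsUnit (Ψ g - 1) := by
  haveI : Module.Finite (ZMod p) M := Module.Finite.of_finite
  let ι : H →* Module.End (ZMod p) M :=
    { toFun := fun g => (f g).toZModLinearMap p
      map_one' := LinearMap.ext fun x => h1 x
      map_mul' := fun g h => LinearMap.ext fun x => hm g h x }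
  obtain ⟨Φ, hΦ⟩ := CfsgLib.HallHigmanB.exists_baseChange (F := ZMod p) (V := M)
    (AlgebraicClosure (ZMod p))
  refine ⟨_, Φ.toMonoidHom.comp ι, fun g h a => ?_, fun g hg => ?_⟩
  · have h1 : ι g = 1 := hΦ (by rw [map_one]; exact h)
    exact LinearMap.congr_fun h1 a
  · have hinj : Function.Injective (ι g - 1 : Module.End (ZMod p) M) := by
      rw [← LinearMap.ker_eq_bot, eq_bot_iff]
      intro a ha
      rw [LinearMap.mem_ker, LinearMap.sub_apply, Module.End.one_apply, sub_eq_zero] at ha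
      exact hg a ha
    have := ((Module.End.isUnit_iff _).2 (Finite.injective_iff_bijective.1 hinj)).map Φ
    rwa [map_sub, map_one] at this

/-- An elementary abelian group with automorphisms, over the algebraic closure of `ZMod p`. -/
private theorem exists_rep {H A : Type*} [Group H] [CommGroup A] [Finite A] {p : ℕ} [Fact p.Prime]
    (hA : ∀ a : A, a ^ p = 1) (f : H →* MulAut A) :
    ∃ (N : ℕ) (Ψ : H →* Module.End (AlgebraicClosure (ZMod p)) (Fin N → AlgebraicClosure (ZMod p))),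
      (∀ g, Ψ g = 1 → f g = 1) ∧ ∀ g, (∀ a, f g a = a → a = 1) → IsUnit (Ψ g - 1) := by
  let inst : Module (ZMod p) (Additive A) := AddCommGroup.zmodModule (fun v => by
    show Additive.ofMul ((Additive.toMul v) ^ p) = _
    rw [hA]; rfl)
  obtain ⟨N, Ψ, h1, h2⟩ := @exists_rep' H (Additive A) _ _ _ p _ inst
    (fun g => MonoidHom.toAdditive (f g).toMonoidHom) (fun a => by simp) (fun g h a => by simp)
  exact ⟨N, Ψ, fun g hg => MulEquiv.ext fun a => congrArg Additive.toMul (h1 g hg (Additive.ofMul a)),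
    fun g hg => h2 g fun a ha =>
      Additive.toMul.injective (hg a.toMul (congrArg Additive.toMul ha))⟩

/-- Let p, q, r be distinct primes and let X, Q, V be subgroups of a finite group with X of order r, Q an extraspecial q-group normalized by X with C_Q(X) = Z(Q), and V an elementary abelian p-group normalized by X and Q on which XQ acts faithfully ((X ⊔ Q) ∩ C(V) = 1). If C_V(X) = 1, then q = 2, r = 2^n + 1 for some n, and Q has order 2^(2n+1). -/
theorem result {G : Type*} [Group G] [Finite G] {p q r : ℕ} (hp : p.Prime) (hq : q.Prime) (hr : r.Prime) (hpq : p ≠ q) (hpr : p ≠ r) (hqr : q ≠ r) (X Q V : Subgroup G) (hX : Nat.card X = r) (hQ : Cfsg.IsExtraspecial q ↥Q) (hXQ : X ≤ Subgroup.normalizer (Q : Set G)) (hCQ : Q ⊓ Subgroup.centralizer (X : Set G) = (Subgroup.center ↥Q).map Q.subtype) (hV : Cfsg.IsElementaryAbelian p V) (hXV : X ≤ Subgroup.normalizer (V : Set G)) (hQV : Q ≤ Subgroup.normalizer (V : Set G)) (hfaith : (X ⊔ Q) ⊓ Subgroup.centralizer (V :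 Set G) = ⊥) (hCV : V ⊓ Subgroup.centralizer (X : Set G) = ⊥) : q = 2 ∧ ∃ n : ℕ, r = 2 ^ n + 1 ∧ Nat.card Q = 2 ^ (2 * n + 1) := by
  classical
  haveI := Fact.mk hp
  haveI := Fact.mk hq
  obtain ⟨x, hxX, hord⟩ : ∃ x ∈ X, orderOf x = r := by
    haveI := Fact.mk hr
    haveI : IsCyclic X := isCyclic_of_prime_card hX
    obtain ⟨⟨x, hx⟩, hxg⟩ := IsCyclic.exists_generator (α := X)
    exact ⟨x, hx, by rw [← Subgroup.orderOf_mk x hx, orderOf_eq_card_of_forall_mem_zpowers hxg, hX]⟩
  let φ : MulAut Q := Subgroup.normalizerMonoidHom Q ⟨x, hXQ hxX⟩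
  have hφk : ∀ (k : ℕ) (g : Q), ((φ ^ k) g : G) = x ^ k * g * (x ^ k)⁻¹ := by
    intro k g
    simp only [φ, ← map_pow]
    rfl
  have hφh : φ ^ r = 1 := by
    ext g
    rw [hφk, ← hord, pow_orderOf_eq_one]
    simp
  have hcent : ∀ z ∈ Subgroup.center Q, (z : G) ∈ Subgroup.centralizer (X : Set G) := fun z hz =>
    ((hCQ ▸ Subgroup.mem_map_of_mem Q.subtype hz :
      (z : G) ∈ Q ⊓ Subgroup.centralizer (X : Set G))).2
  have hZ : ∀ z ∈ Subgroup.center Q, φ z = z := fun z hz => Subtype.ext (by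
    rw [← pow_one φ, hφk, pow_one, Subgroup.mem_centralizer_iff.1 (hcent z hz) x hxX,
      mul_inv_cancel_right])
  have hgen : ∀ i, 0 < i → i < r → ∀ y ∈ X, y ∈ Subgroup.zpowers (x ^ i) := by
    intro i hi hir y hy
    haveI := Fact.mk hr
    have h1 : (⟨x, hxX⟩ : X) ^ i ≠ 1 := fun h => pow_ne_one_of_lt_orderOf hi.ne'
      (hord ▸ hir) (congrArg Subtype.val h)
    obtain ⟨j, hj⟩ := Subgroup.mem_zpowers_iff.1
      (mem_zpowers_of_prime_card (g := (⟨x, hxX⟩ : X) ^ i) hX h1 (g' := ⟨y, hy⟩))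
    exact Subgroup.mem_zpowers_iff.2 ⟨j, congrArg Subtype.val hj⟩
  have hfpf : ∀ g i, 0 < i → i < r → (φ ^ i) g = g → g ∈ Subgroup.center Q := by
    intro g i hi hir hg
    have h1 := congrArg Subtype.val hg
    rw [hφk, mul_inv_eq_iff_eq_mul] at h1
    have : (g : G) ∈ Q ⊓ Subgroup.centralizer (X : Set G) := by
      refine ⟨g.2, Subgroup.mem_centralizer_iff.2 fun y hy => ?_⟩
      obtain ⟨j, rfl⟩ := Subgroup.mem_zpowers_iff.1 (hgen i hi hir y hy)
      exact (Commute.zpow_left h1 j).eq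
    rw [hCQ] at this
    obtain ⟨g', hg', hgg⟩ := this
    rwa [show g = g' from Subtype.ext hgg.symm]
  -- the module
  letI : CommGroup V := { (inferInstance : Group V) with
    mul_comm := fun a b => hV.1.is_comm.comm a b }
  -- over the algebraic closure
  let K := AlgebraicClosure (ZMod p)
  haveI : CharP K p := charP_of_injective_algebraMap (algebraMap (ZMod p) K).injective p
  obtain ⟨d, Ψ, hΨ1, hΨfix⟩ := exists_rep (p := p) (fun v : V => Subtype.ext (hV.2 v v.2))
    (Subgroup.normalizerMonoidHom V)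
  let ρ : Q →* Module.End K (Fin d → K) := Ψ.comp (Subgroup.inclusion hQV)
  let xW : Module.End K (Fin d → K) := Ψ ⟨x, hXV hxX⟩
  have hxW : ∀ g, xW * ρ g = ρ (φ g) * xW := by
    intro g
    show Ψ _ * Ψ _ = Ψ _ * Ψ _
    rw [← map_mul Ψ, ← map_mul Ψ]
    congr 1
    refine Subtype.ext ?_
    have := hφk 1 g
    rw [pow_one, pow_one] at this
    show x * (g : G) = ((φ g : Q) : G) * x
    rw [this, inv_mul_cancel_right]
  have hxWr : xW ^ r = 1 := by
    rw [← map_pow Ψ, show (⟨x, hXV hxX⟩ : Subgroup.normalizer (V : Set G)) ^ r = 1 from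
      Subtype.ext (by rw [SubmonoidClass.coe_pow, ← hord, pow_orderOf_eq_one]; rfl), map_one]
  have hfixW : ∀ w, xW w = w → w = 0 := by
    intro w hw
    have hu : IsUnit (xW - 1) := by
      refine hΨfix _ fun v hv => ?_
      have h1 := congrArg Subtype.val hv
      change x * (v : G) * x⁻¹ = v at h1
      rw [mul_inv_eq_iff_eq_mul] at h1
      have : (v : G) ∈ V ⊓ Subgroup.centralizer (X : Set G) := by
        refine ⟨v.2, Subgroup.mem_centralizer_iff.2 fun y hy => ?_⟩
        obtain ⟨j, rfl⟩ := Subgroup.mem_zpowers_iff.1 (hgen 1 one_pos hr.one_lt y hy)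
        rw [pow_one]
        exact (Commute.zpow_left h1 j).eq
      rw [hCV, Subgroup.mem_bot] at this
      exact Subtype.ext this
    refine ((Module.End.isUnit_iff _).1 hu).1 ?_
    rw [map_zero, LinearMap.sub_apply, Module.End.one_apply, hw, sub_self]
  -- an irreducible constituent faithful on the centre
  have hcard := CfsgLib.PGroups.IsExtraspecial.card_center hQ
  obtain ⟨⟨z, hz⟩, hz1⟩ : ∃ z : Subgroup.center Q, z ≠ 1 := by
    have : Nontrivial (Subgroup.center Q) :=
      Finite.one_lt_card_iff_nontrivial.1 (by rw [hcard]; exact hq.one_lt)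
    exact exists_ne 1
  have hzq : z ^ q = 1 := by
    have h3 := pow_card_eq_one' (G := Subgroup.center Q) (x := ⟨z, hz⟩)
    rw [hcard] at h3
    exact congrArg Subtype.val h3
  have hpK : ∀ m : ℕ, ¬ p ∣ m → (m : K) ≠ 0 := fun m hm h => hm ((CharP.cast_eq_zero_iff K p m).1 h)
  have hqK : (q : K) ≠ 0 := hpK q fun h => hpq ((Nat.prime_dvd_prime_iff_eq hp hq).1 h)
  have hrK : (r : K) ≠ 0 := hpK r fun h => hpr ((Nat.prime_dvd_prime_iff_eq hp hr).1 h)
  have hρz : ρ z ≠ 1 := by
    intro h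
    have h1 := hΨ1 (Subgroup.inclusion hQV z) h
    apply hz1
    refine Subtype.ext (Subtype.ext ?_)
    have : (z : G) ∈ (X ⊔ Q) ⊓ Subgroup.centralizer (V : Set G) := by
      refine ⟨le_sup_right (a := X) z.2, Subgroup.mem_centralizer_iff.2 fun v hv => ?_⟩
      have h2 := congrArg (fun f : MulAut V => ((f ⟨v, hv⟩ : V) : G)) h1
      change (z : G) * v * (z : G)⁻¹ = v at h2
      rw [mul_inv_eq_iff_eq_mul] at h2
      exact h2.symm
    rw [hfaith, Subgroup.mem_bot] at this
    exact this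
  obtain ⟨U, hUinv, hU0, hUirr, w, hw, hwne⟩ :=
    CfsgLib.HallHigmanB.exists_irreducible_nontrivial ρ hzq hqK hz hρz
  let σ : Q →* Module.End K U :=
    { toFun := fun g => (ρ g).restrict (hUinv g)
      map_one' := LinearMap.ext fun v => Subtype.ext (by simp)
      map_mul' := fun a b => LinearMap.ext fun v => Subtype.ext (by simp) }
  haveI : Nontrivial U := Submodule.nontrivial_iff_ne_bot.2 hU0
  have hirr : ∀ S : Submodule K U, (∀ g, ∀ v ∈ S, σ g v ∈ S) → S = ⊥ ∨ S = ⊤ := by
    intro S hS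
    rcases hUirr (S.map U.subtype) (Submodule.map_subtype_le U S) (by
      rintro g _ ⟨v, hv, rfl⟩
      exact ⟨σ g v, hS g v hv, rfl⟩) with h | h
    · exact Or.inl (Submodule.map_injective_of_injective U.subtype_injective (by simpa using h))
    · exact Or.inr (Submodule.map_injective_of_injective U.subtype_injective (by simpa using h))
  haveI : NeZero (r : K) := ⟨hrK⟩
  obtain ⟨ζ, hζ⟩ : ∃ ζ : K, IsPrimitiveRoot ζ r :=
    HasEnoughRootsOfUnity.exists_primitiveRoot K r
  have hrq : r.Coprime q := (Nat.coprime_primes hr hq).2 (Ne.symm hqr)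
  obtain ⟨hcardQ, -, y, t, hyr, hyσ, -, hmiss⟩ :=
    CfsgLib.ExtraspecialFPF.exists_multiplicities_of_extraspecial hQ hqK σ hirr
      ⟨z, hz, fun h => hwne (congrArg Subtype.val (LinearMap.congr_fun h ⟨w, hw⟩))⟩
      φ hrK hζ hφh hrq hZ hfpf
  obtain ⟨i, hi⟩ := CfsgLib.ExtraspecialFPF.exists_missing_eigenvalue σ hirr ρ U.subtype
    (fun g u => rfl) (fun h => hU0 (by rw [← Submodule.range_subtype U, h, LinearMap.range_zero]))
    φ xW y hxW hyσ hxWr hyr hrK hζ hfixW
  set N := Module.finrank K U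
  have hN1 : N ≠ 1 := by
    intro h
    obtain ⟨a, b, hab⟩ := CfsgLib.PGroups.IsExtraspecial.exists_not_commute hQ
    rw [h, one_pow, mul_one, ← hcard] at hcardQ
    have htop := Subgroup.eq_top_of_card_eq _ hcardQ.symm
    exact hab (Subgroup.mem_center_iff.1 (htop ▸ Subgroup.mem_top b) a)
  have hN : N + 1 = r := (hmiss i hi).resolve_left hN1
  obtain ⟨m, hm⟩ := IsPGroup.iff_card.1 (CfsgLib.PGroups.IsExtraspecial.isPGroup hQ)
  obtain ⟨n, -, hn⟩ := (Nat.dvd_prime_pow hq).1
    (show N ∣ q ^ m by rw [← hm, hcardQ, pow_two, ← mul_assoc]; exact dvd_mul_left _ _)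
  have hn0 : n ≠ 0 := fun h => hN1 (by rw [hn, h, pow_zero])
  have hq2 : q = 2 := by
    rcases hq.eq_two_or_odd' with h | h
    · exact h
    · have hodd : Odd N := hn ▸ h.pow
      have hev : Even r := hN ▸ hodd.add_one
      have := (Nat.Prime.even_iff hr).1 hev
      omega
  subst hq2
  refine ⟨rfl, n, by rw [← hn, hN], ?_⟩
  rw [hcardQ, hn, ← pow_mul, ← pow_succ', mul_comm n 2]

end Cfsg.Agent.S3764
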