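import Cfsg.Statements.S3765
import Cfsg.Agent.Lib.ExtraspecialFPF.FixedPoint

set_option autoImplicit false
open Cfsg

namespace Cfsg.Agent.S3765

set_option linter.style.haveILetI false

/-- Let p, q, r be distinct primes and let X, Q, V be subgroups of a finite group with X of order r normalizing the q-group Q and acting faithfully on it (X ∩ C(Q) = 1), and V a nontrivial elementary abelian p-group normalized by X and Q on which XQ acts faithfully. If q = 2 and r has the form 2^n + 1, assume in addition that Q is abelian. Then C_V(X) ≠ 1. -/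
theorem result {G : Type*} [Group G] [Finite G] {p q r : ℕ} (hp : p.Prime) (hq : q.Prime) (hr : r.Prime) (hpq : p ≠ q) (hpr : p ≠ r) (hqr : q ≠ r) (X Q V : Subgroup G) (hX : Nat.card X = r) (hQ : IsPGroup q Q) (hXQ : X ≤ Subgroup.normalizer (Q : Set G)) (hXfaith : X ⊓ Subgroup.centralizer (Q : Set G) = ⊥) (hV : Cfsg.IsElementaryAbelian p V) (hV1 : V ≠ ⊥) (hXV : X ≤ Subgroup.normalizer (V : Set G)) (hQV : Q ≤ Subgroup.normalizer (V : Set G)) (hfaith : (X ⊔ Q) ⊓ Subgroup.centralizer (V : Set G) = ⊥) (hexc : q = 2 → (∃ n : ℕ, r = 2 ^ n + 1) → IsMulCommutative Q) : V ⊓ Subgroup.centralizer (X : Set G) ≠ ⊥ := by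
  classical
  obtain ⟨x, hxX, hord⟩ : ∃ x ∈ X, orderOf x = r := by
    haveI := Fact.mk hr
    haveI : IsCyclic X := isCyclic_of_prime_card hX
    obtain ⟨⟨x, hx⟩, hxg⟩ := IsCyclic.exists_generator (α := X)
    exact ⟨x, hx, by rw [← Subgroup.orderOf_mk x hx, orderOf_eq_card_of_forall_mem_zpowers hxg, hX]⟩
  have hgen : ∀ y ∈ X, y ∈ Subgroup.zpowers x := by
    intro y hy
    haveI := Fact.mk hr
    have h1 : (⟨x, hxX⟩ : X) ≠ 1 := fun h => by
      rw [show x = 1 from congrArg Subtype.val h, orderOf_one] at hord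
      exact hr.one_lt.ne hord
    obtain ⟨j, hj⟩ := Subgroup.mem_zpowers_iff.1
      (mem_zpowers_of_prime_card (g := (⟨x, hxX⟩ : X)) hX h1 (g' := ⟨y, hy⟩))
    exact Subgroup.mem_zpowers_iff.2 ⟨j, congrArg Subtype.val hj⟩
  letI : CommGroup V := { (inferInstance : Group V) with
    mul_comm := fun a b => hV.1.is_comm.comm a b }
  let f := Subgroup.normalizerMonoidHom V
  have hf : ∀ (g : Subgroup.normalizer (V : Set G)) (v : V), ((f g v : V) : G) = g * v * (g : G)⁻¹ :=
    fun g v => rfl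
  let x' : Subgroup.normalizer (V : Set G) := ⟨x, hXV hxX⟩
  let R : Subgroup (MulAut V) := (Q.subgroupOf (Subgroup.normalizer (V : Set G))).map f
  have hyR : f x' ∈ Subgroup.normalizer (R : Set (MulAut V)) := by
    refine Subgroup.le_normalizer_map f (Subgroup.mem_map_of_mem f ?_)
    rw [Subgroup.mem_normalizer_iff]
    intro g
    exact Subgroup.mem_normalizer_iff.1 (hXQ hxX) (g : G)
  have hne : ∃ g ∈ R, f x' * g ≠ g * f x' := by
    obtain ⟨g, hg, hgx⟩ : ∃ g ∈ Q, g * x ≠ x * g := by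
      by_contra hcon
      push Not at hcon
      have : x ∈ X ⊓ Subgroup.centralizer (Q : Set G) :=
        ⟨hxX, Subgroup.mem_centralizer_iff.2 hcon⟩
      rw [hXfaith, Subgroup.mem_bot] at this
      rw [this, orderOf_one] at hord
      exact hr.one_lt.ne hord
    refine ⟨f ⟨g, hQV hg⟩, Subgroup.mem_map_of_mem f hg, fun h => hgx ?_⟩
    rw [← map_mul, ← map_mul, ← mul_inv_eq_one, ← map_inv, ← map_mul] at h
    have hmem : x * g * (g * x)⁻¹ ∈ (X ⊔ Q) ⊓ Subgroup.centralizer (V : Set G) := by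
      have hxS : x ∈ X ⊔ Q := Subgroup.mem_sup_left hxX
      have hgS : g ∈ X ⊔ Q := Subgroup.mem_sup_right hg
      refine ⟨(X ⊔ Q).mul_mem ((X ⊔ Q).mul_mem hxS hgS) ((X ⊔ Q).inv_mem ((X ⊔ Q).mul_mem hgS hxS)),
        Subgroup.mem_centralizer_iff.2 fun v hv => ?_⟩
      have h2 := congrArg (fun σ : MulAut V => ((σ ⟨v, hv⟩ : V) : G)) h
      change (x * g * (g * x)⁻¹) * v * (x * g * (g * x)⁻¹)⁻¹ = v at h2
      rw [mul_inv_eq_iff_eq_mul] at h2
      exact h2.symm
    rw [hfaith, Subgroup.mem_bot, mul_inv_eq_one] at hmem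
    exact hmem.symm
  obtain ⟨a, ha1, ha⟩ := CfsgLib.ExtraspecialFPF.exists_fixed_ne_one_aut hp hq hr hpq hpr hqr
    (fun v : V => Subtype.ext (hV.2 v v.2)) (f x')
    (by
      rw [← map_pow, show x' ^ r = 1 from Subtype.ext (by
        rw [SubmonoidClass.coe_pow, ← hord, pow_orderOf_eq_one]; rfl), map_one])
    R ((hQ.comap_of_injective _ Subtype.val_injective).map f) hyR hne
    (fun h1 h2 => ⟨⟨by
      rintro ⟨_, a, ha, rfl⟩ ⟨_, b, hb, rfl⟩
      refine Subtype.ext ?_
      show f a * f b = f b * f a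
      rw [← map_mul, ← map_mul]
      congr 1
      exact Subtype.ext (congrArg Subtype.val
        ((hexc h1 h2).is_comm.comm ⟨a.1, ha⟩ ⟨b.1, hb⟩) :)⟩⟩)
  intro hbot
  refine ha1 (Subtype.ext ?_)
  have h1 := congrArg Subtype.val ha
  rw [hf, mul_inv_eq_iff_eq_mul] at h1
  have : (a : G) ∈ V ⊓ Subgroup.centralizer (X : Set G) := by
    refine ⟨a.2, Subgroup.mem_centralizer_iff.2 fun y hy => ?_⟩
    obtain ⟨j, rfl⟩ := Subgroup.mem_zpowers_iff.1 (hgen y hy)
    exact (Commute.zpow_left h1 j).eq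
  rw [hbot, Subgroup.mem_bot] at this
  exact this

end Cfsg.Agent.S3765
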