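import Cfsg.Statements.S3766
import Cfsg.Agent.Lib.Cores.Fitting
import Cfsg.Agent.Lib.Kreknin.LCSRing

set_option autoImplicit false
open Cfsg

namespace Cfsg.Agent.S3766

open scoped commutatorElement

universe uG

section Aux

variable {G : Type uG} [Group G] [Finite G]

/-- A nilpotent normal subgroup centralises every chief factor. -/
theorem commutator_le_of_chief {M : Subgroup G} [M.Normal] (hM : Group.IsNilpotent M) {U V : Subgroup G}
    [U.Normal] [V.Normal] (hlt : V < U)
    (hc : ∀ W : Subgroup G, W.Normal → V ≤ W → W ≤ U → W = V ∨ W = U) : ⁅U, M⁆ ≤ V := by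
  set f := QuotientGroup.mk' V with hf
  have hle : ⁅U, M⁆ ⊔ V ≤ U := sup_le (Subgroup.commutator_le_left U M) hlt.le
  rcases hc (⁅U, M⁆ ⊔ V) inferInstance le_sup_right hle with h | h
  · exact le_sup_left.trans h.le
  exfalso
  have hU : U.map f = ⁅U.map f, M.map f⁆ := by
    conv_lhs => rw [← h]
    rw [Subgroup.map_sup, ← Subgroup.map_commutator,
      (Subgroup.map_eq_bot_iff V).2 (QuotientGroup.ker_mk' V).ge, sup_bot_eq]
  haveI : (M.map f).Normal := Subgroup.Normal.map inferInstance f (QuotientGroup.mk'_surjective V)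
  have hk : ∀ k, U.map f ≤ (M.map f).lowerCentralSeries k := by
    intro k
    induction k with
    | zero => rw [hU, Subgroup.lowerCentralSeries_zero]; exact Subgroup.commutator_le_right _ _
    | succ k ih =>
      rw [hU, Subgroup.lowerCentralSeries_succ]
      exact Subgroup.commutator_mono ih le_rfl
  obtain ⟨n, hn⟩ := (Subgroup.isNilpotent_iff_lowerCentralSeries M).1 hM
  have hbot := hk n
  rw [← Subgroup.map_lowerCentralSeries, hn, Subgroup.map_bot, le_bot_iff, Subgroup.map_eq_bot_iff,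
    QuotientGroup.ker_mk'] at hbot
  exact hlt.not_ge hbot

omit [Finite G] in
/-- Elements centralising a family of sections form a subgroup. -/
theorem exists_centralizing (N : Subgroup G) [N.Normal] (F : Subgroup G) :
    ∃ C : Subgroup G, C.Normal ∧ C ≤ N ∧ ∀ g, g ∈ C ↔ g ∈ N ∧ ∀ U V : Subgroup G,
      (U.Normal ∧ V.Normal ∧ V < U ∧ ∀ W : Subgroup G, W.Normal → V ≤ W → W ≤ U → W = V ∨ W = U) →
        U ≤ F → ∀ u ∈ U, u * g * u⁻¹ * g⁻¹ ∈ V := by
  let P : G → Prop := fun g => ∀ U V : Subgroup G,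
      (U.Normal ∧ V.Normal ∧ V < U ∧ ∀ W : Subgroup G, W.Normal → V ≤ W → W ≤ U → W = V ∨ W = U) →
        U ≤ F → ∀ u ∈ U, u * g * u⁻¹ * g⁻¹ ∈ V
  let C : Subgroup G :=
    { carrier := {g | g ∈ N ∧ P g}
      one_mem' := ⟨N.one_mem, fun U V _ _ u _ => by simp⟩
      mul_mem' := fun {a b} ha hb => ⟨N.mul_mem ha.1 hb.1, fun U V h hF u hu => by
        haveI := h.2.1
        have e : u * (a * b) * u⁻¹ * (a * b)⁻¹ =
            (u * a * u⁻¹ * a⁻¹) * (a * (u * b * u⁻¹ * b⁻¹) * a⁻¹) := by group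
        rw [e]
        exact V.mul_mem (ha.2 U V h hF u hu) (h.2.1.conj_mem _ (hb.2 U V h hF u hu) a)⟩
      inv_mem' := fun {a} ha => ⟨N.inv_mem ha.1, fun U V h hF u hu => by
        have e : u * a⁻¹ * u⁻¹ * a⁻¹⁻¹ = a⁻¹ * (u * a * u⁻¹ * a⁻¹)⁻¹ * a⁻¹⁻¹ := by group
        rw [e]
        exact h.2.1.conj_mem _ (V.inv_mem (ha.2 U V h hF u hu)) _⟩ }
  refine ⟨C, ⟨fun a ha g => ⟨(inferInstance : N.Normal).conj_mem _ ha.1 g, fun U V h hF u hu => ?_⟩⟩,
    fun a ha => ha.1, fun g => Iff.rfl⟩
  have hu' : g⁻¹ * u * g ∈ U := by simpa using h.1.conj_mem u hu g⁻¹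
  have e : u * (g * a * g⁻¹) * u⁻¹ * (g * a * g⁻¹)⁻¹ =
      g * ((g⁻¹ * u * g) * a * (g⁻¹ * u * g)⁻¹ * a⁻¹) * g⁻¹ := by group
  rw [e]
  exact h.2.1.conj_mem _ (ha.2 U V h hF _ hu') g

/-- Iterated commutator with `C`. -/
def iterComm (F C : Subgroup G) : ℕ → Subgroup G
  | 0 => F
  | k + 1 => ⁅iterComm F C k, C⁆

/-- A group stabilising the chief factors below `F` and centralised modulo `F` is nilpotent. -/
theorem isNilpotent_of_stabilizes {F C : Subgroup G} [F.Normal] [C.Normal]
    (hst : ∀ U V : Subgroup G, U.Normal → V.Normal → V < U →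
      (∀ W : Subgroup G, W.Normal → V ≤ W → W ≤ U → W = V ∨ W = U) → U ≤ F → ⁅U, C⁆ ≤ V)
    (hcen : C ⊓ Subgroup.centralizer (F : Set G) ≤ F) : Group.IsNilpotent C := by
  have hn : ∀ k, (iterComm F C k).Normal := by
    intro k
    induction k with
    | zero => exact inferInstanceAs F.Normal
    | succ k ih => haveI := ih; exact inferInstanceAs (⁅iterComm F C k, C⁆).Normal
  have hleF : ∀ k, iterComm F C k ≤ F := by
    intro k
    induction k with
    | zero => exact le_rfl
    | succ k ih => haveI := hn k; exact (Subgroup.commutator_le_left _ _).trans ih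
  have hdec : ∀ k, iterComm F C k = ⊥ ∨ Nat.card ↥(iterComm F C k) + k ≤ Nat.card F := by
    intro k
    induction k with
    | zero => exact Or.inr le_rfl
    | succ k ih =>
      by_cases h0 : iterComm F C k = ⊥
      · left
        show ⁅iterComm F C k, C⁆ = ⊥
        rw [h0, Subgroup.commutator_bot_left]
      rcases ih with h | h
      · exact absurd h h0
      right
      haveI := hn k
      obtain ⟨V, ⟨hVn, hVX⟩, hmax⟩ := Set.Finite.exists_maximal
        (Set.toFinite {Y : Subgroup G | Y.Normal ∧ Y < iterComm F C k})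
        ⟨⊥, inferInstance, bot_lt_iff_ne_bot.2 h0⟩
      have hle : iterComm F C (k + 1) ≤ V := hst _ _ inferInstance hVn hVX (fun W hW h1 h2 => by
        rcases eq_or_lt_of_le h2 with h' | h'
        · exact Or.inr h'
        · exact Or.inl (le_antisymm (hmax ⟨hW, h'⟩ h1) h1)) (hleF k)
      have h1 : Nat.card ↥(iterComm F C (k + 1)) < Nat.card ↥(iterComm F C k) := by
        by_contra! hc
        exact (hle.trans_lt hVX).ne (Subgroup.eq_of_le_of_card_ge (hle.trans hVX.le) hc)
      omega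
  have hbot : iterComm F C (Nat.card F) = ⊥ := by
    rcases hdec (Nat.card F) with h | h
    · exact h
    · have : 0 < Nat.card ↥(iterComm F C (Nat.card F)) := Nat.card_pos
      omega
  have hln : ∀ i, (C.lowerCentralSeries i).Normal := by
    intro i
    induction i with
    | zero => exact inferInstanceAs C.Normal
    | succ i ih => haveI := ih; exact inferInstanceAs (⁅C.lowerCentralSeries i, C⁆).Normal
  have key : ∀ i j, ⁅iterComm F C j, C.lowerCentralSeries i⁆ ≤ iterComm F C (i + j + 1) := by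
    intro i
    induction i with
    | zero => intro j; rw [Nat.zero_add]; exact le_rfl
    | succ i ih =>
      intro j
      haveI := hn (i + 1 + j + 1)
      rw [Subgroup.commutator_comm]
      refine CfsgLib.Kreknin.commutator_three_le (A := C.lowerCentralSeries i) (B := C)
        (C := iterComm F C j) ?_ ?_
      · rw [Subgroup.commutator_comm C (iterComm F C j)]
        exact (ih (j + 1)).trans_eq (by rw [show i + (j + 1) + 1 = i + 1 + j + 1 by omega])
      · exact (Subgroup.commutator_mono (ih j) le_rfl).trans_eq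
          (by rw [show i + 1 + j + 1 = i + j + 1 + 1 by omega]; rfl)
  set k := Nat.card F with hk
  have hFcen : C.lowerCentralSeries k ≤ Subgroup.centralizer (F : Set G) := by
    rw [← Subgroup.commutator_eq_bot_iff_le_centralizer, Subgroup.commutator_comm, eq_bot_iff]
    refine (key k 0).trans ?_
    show ⁅iterComm F C (k + 0), C⁆ ≤ ⊥
    rw [Nat.add_zero, hbot, Subgroup.commutator_bot_left]
  have hlcF : C.lowerCentralSeries k ≤ F :=
    (le_inf ((Subgroup.lowerCentralSeries_antitone C (Nat.zero_le k)).trans_eq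
      (Subgroup.lowerCentralSeries_zero C)) hFcen).trans hcen
  have hj : ∀ j, C.lowerCentralSeries (k + j) ≤ iterComm F C j := by
    intro j
    induction j with
    | zero => exact hlcF
    | succ j ih => exact Subgroup.commutator_mono ih le_rfl
  exact (Subgroup.isNilpotent_iff_lowerCentralSeries C).2
    ⟨k + k, le_bot_iff.1 ((hj k).trans hbot.le)⟩

end Aux

/-- Let G be a finite solvable group and N a normal subgroup of G. Call a pair V < U of normal subgroups of G a chief factor of G when no normal subgroup of G lies strictly between them; an element g centralizes the chief factor U/V when u g u⁻¹ g⁻¹ ∈ V for all u ∈ U. Then an element of G lies in the Fitting subgroup F(N) if and only if it lies in N and centralizes every chief factor of G; and also if and only if it lies in N and centralizes every chief factor U/V of G with U ≤ F(N). -/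
theorem result {G : Type*} [Group G] [Finite G] (hG : Group.IsSolvable G) (N : Subgroup G) [N.Normal] (g : G) : (g ∈ (Cfsg.fittingSubgroup ↥N).map N.subtype ↔ g ∈ N ∧ ∀ U V : Subgroup G, (U.Normal ∧ V.Normal ∧ V < U ∧ ∀ W : Subgroup G, W.Normal → V ≤ W → W ≤ U → W = V ∨ W = U) → ∀ u ∈ U, u * g * u⁻¹ * g⁻¹ ∈ V) ∧ (g ∈ (Cfsg.fittingSubgroup ↥N).map N.subtype ↔ g ∈ N ∧ ∀ U V : Subgroup G, (U.Normal ∧ V.Normal ∧ V < U ∧ ∀ W : Subgroup G, W.Normal → V ≤ W → W ≤ U → W = V ∨ W = U) → U ≤ (Cfsg.fittingSubgroup ↥N).map N.subtype → ∀ u ∈ U, u * g * u⁻¹ * g⁻¹ ∈ V) := by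
  haveI := hG
  haveI : Group.IsSolvable N := inferInstance
  have hN : N.IsSubnormal := Subgroup.Normal.isSubnormal inferInstance
  set F := (Cfsg.fittingSubgroup ↥N).map N.subtype with hF
  have hFeq : F = Cfsg.fittingSubgroup G ⊓ N := CfsgLib.Cores.map_subtype_fittingSubgroup_eq hN
  have h1 : g ∈ F → g ∈ N ∧ ∀ U V : Subgroup G, (U.Normal ∧ V.Normal ∧ V < U ∧
      ∀ W : Subgroup G, W.Normal → V ≤ W → W ≤ U → W = V ∨ W = U) →
      ∀ u ∈ U, u * g * u⁻¹ * g⁻¹ ∈ V := by
    intro hg
    rw [hFeq] at hg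
    refine ⟨hg.2, fun U V h u hu => ?_⟩
    haveI := h.1
    haveI := h.2.1
    exact commutator_le_of_chief (M := Cfsg.fittingSubgroup G) CfsgLib.Cores.isNilpotent_fittingSubgroup h.2.2.1 h.2.2.2
      (Subgroup.commutator_mem_commutator hu hg.1)
  have h2 : (g ∈ N ∧ ∀ U V : Subgroup G, (U.Normal ∧ V.Normal ∧ V < U ∧
      ∀ W : Subgroup G, W.Normal → V ≤ W → W ≤ U → W = V ∨ W = U) → U ≤ F →
      ∀ u ∈ U, u * g * u⁻¹ * g⁻¹ ∈ V) → g ∈ F := by
    intro hg
    obtain ⟨C, hC, hCN, hmem⟩ := exists_centralizing N F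
    haveI := hC
    haveI : F.Normal := by rw [hFeq]; infer_instance
    have hnil : Group.IsNilpotent C := by
      refine isNilpotent_of_stabilizes (F := F) (fun U V hU hV hlt hcf hUF => ?_) ?_
      · exact Subgroup.commutator_le.2 fun u hu c hc =>
          ((hmem c).1 hc).2 U V ⟨hU, hV, hlt, hcf⟩ hUF u hu
      · rintro x ⟨hxC, hx⟩
        refine ⟨⟨x, hCN hxC⟩, CfsgLib.Cores.centralizer_fittingSubgroup_le ?_, rfl⟩
        exact Subgroup.mem_centralizer_iff.2 fun y hy => Subtype.ext
          (Subgroup.mem_centralizer_iff.1 hx (y : G) (Subgroup.mem_map_of_mem _ hy))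
    rw [hFeq]
    exact ⟨CfsgLib.Cores.le_fittingSubgroup hnil ((hmem g).2 hg), hg.1⟩
  exact ⟨⟨h1, fun h => h2 ⟨h.1, fun U V hc _ => h.2 U V hc⟩⟩,
    ⟨fun h => ⟨(h1 h).1, fun U V hc _ => (h1 h).2 U V hc⟩, h2⟩⟩

end Cfsg.Agent.S3766
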