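import Cfsg.Statements.S3767
import Cfsg.Agent.Lib.ExtraspecialFPF.Setting
import Cfsg.Agent.Lib.Frobenius.Separate

set_option autoImplicit false
open Cfsg

namespace Cfsg.Agent.S3767

private theorem irreducible_submodules {k G V : Type*} [Field k] [Group G] [AddCommGroup V]
    [Module k V] (ρ : Representation k G V) (h : ρ.IsIrreducible) :
    Nontrivial V ∧ ∀ W : Submodule k V, (∀ g, ∀ w ∈ W, ρ g w ∈ W) → W = ⊥ ∨ W = ⊤ := by
  have := h
  refine ⟨?_, fun W hW => ?_⟩
  · rw [← not_subsingleton_iff_nontrivial]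
    intro hs
    obtain ⟨a, b, hab⟩ := h.toNontrivial.exists_pair_ne
    exact hab (Subrepresentation.toSubmodule_injective (Subsingleton.elim _ _))
  · rcases IsSimpleOrder.eq_bot_or_eq_top
      (⟨W, fun g v hv => hW g v hv⟩ : Subrepresentation ρ) with h1 | h1
    · exact Or.inl (congrArg Subrepresentation.toSubmodule h1)
    · exact Or.inr (congrArg Subrepresentation.toSubmodule h1)

/-- Let P be an extraspecial p-group of order p^(2n+1) and H a cyclic group of order h prime to p acting on P (inside a common finite group: H normalizes P) so that C_P(x) = Z(P) for every non-identity x ∈ H. Then h divides p^n + 1 or h divides p^n − 1. -/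
theorem result {G : Type*} [Group G] [Finite G] {p : ℕ} [Fact p.Prime] (P H : Subgroup G) (hP : Cfsg.IsExtraspecial p ↥P) (n : ℕ) (hn : Nat.card P = p ^ (2 * n + 1)) (hH : IsCyclic H) (hcop : (Nat.card H).Coprime p) (hHP : H ≤ Subgroup.normalizer (P : Set G)) (hfix : ∀ x ∈ H, x ≠ 1 → P ⊓ Subgroup.centralizer {x} = (Subgroup.center ↥P).map P.subtype) : Nat.card H ∣ p ^ n + 1 ∨ Nat.card H ∣ p ^ n - 1 := by
  classical
  have hp : p.Prime := Fact.out
  obtain ⟨⟨x, hxH⟩, hx⟩ := hH.exists_generator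
  set h := Nat.card H with hh
  have hord : orderOf x = h := by
    rw [← Subgroup.orderOf_mk x hxH]
    exact orderOf_eq_card_of_forall_mem_zpowers hx
  have h0 : 0 < h := Nat.card_pos
  let φ : MulAut P := Subgroup.normalizerMonoidHom P ⟨x, hHP hxH⟩
  have hφk : ∀ (k : ℕ) (g : P), ((φ ^ k) g : G) = x ^ k * g * (x ^ k)⁻¹ := by
    intro k g
    simp only [φ, ← map_pow]
    rfl
  have hφh : φ ^ h = 1 := by
    ext g
    rw [hφk, ← hord, pow_orderOf_eq_one]
    simp
  have hZmap : ∀ z ∈ Subgroup.center P, ∀ y ∈ H, y * (z : G) = (z : G) * y := by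
    intro z hz y hy
    by_cases hy1 : y = 1
    · subst hy1; simp
    · have : (z : G) ∈ P ⊓ Subgroup.centralizer {y} :=
        (hfix y hy hy1).symm ▸ Subgroup.mem_map_of_mem P.subtype hz
      exact (Subgroup.mem_centralizer_singleton_iff.1 this.2).symm
  have hZ : ∀ z ∈ Subgroup.center P, φ z = z := fun z hz => Subtype.ext (by
    rw [← pow_one φ, hφk, pow_one, hZmap z hz x hxH, mul_inv_cancel_right])
  have hfpf : ∀ g i, 0 < i → i < h → (φ ^ i) g = g → g ∈ Subgroup.center P := by
    intro g i hi hih hg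
    have hxi : x ^ i ≠ 1 := pow_ne_one_of_lt_orderOf hi.ne' (hord ▸ hih)
    have : (g : G) ∈ P ⊓ Subgroup.centralizer {x ^ i} := by
      refine ⟨g.2, Subgroup.mem_centralizer_singleton_iff.2 ?_⟩
      have h1 := congrArg Subtype.val hg
      rw [hφk, mul_inv_eq_iff_eq_mul] at h1
      exact h1.symm
    rw [hfix _ (pow_mem hxH i) hxi] at this
    obtain ⟨g', hg', hgg⟩ := this
    rwa [show g = g' from Subtype.ext hgg.symm]
  have hcard := CfsgLib.PGroups.IsExtraspecial.card_center hP
  obtain ⟨⟨z, hz⟩, hz1⟩ : ∃ z : Subgroup.center P, z ≠ 1 := by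
    have : Nontrivial (Subgroup.center P) :=
      Finite.one_lt_card_iff_nontrivial.1 (by rw [hcard]; exact hp.one_lt)
    exact exists_ne 1
  obtain ⟨d, ρ, hρ, hρz⟩ := CfsgLib.Frobenius.exists_irreducible_apply_ne_one (z := z)
    (fun h1 => hz1 (Subtype.ext h1))
  obtain ⟨hnt, hirr⟩ := irreducible_submodules ρ hρ
  obtain ⟨h1, -, y, t, -, -, h2, -⟩ :=
    CfsgLib.ExtraspecialFPF.exists_multiplicities_of_extraspecial hP (by exact_mod_cast hp.ne_zero)
      ρ hirr ⟨z, hz, hρz⟩ φ (by exact_mod_cast h0.ne') (Complex.isPrimitiveRoot_exp h h0.ne') hφh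
      hcop hZ hfpf
  set N := Module.finrank ℂ (Fin d → ℂ)
  have hN : N = p ^ n := by
    rw [hn, pow_succ', mul_right_inj' hp.ne_zero, mul_comm 2 n, pow_mul] at h1
    exact (Nat.pow_left_injective two_ne_zero h1).symm
  rw [hN] at h2
  rcases h2 with h2 | h2
  · exact Or.inr (by rw [h2, Nat.add_sub_cancel]; exact dvd_mul_right _ _)
  · exact Or.inl (h2 ▸ dvd_mul_right _ _)

end Cfsg.Agent.S3767
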