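import Cfsg.Statements.S3768
import Cfsg.Agent.Lib.Frobenius.Kernel

set_option autoImplicit false
open Cfsg

namespace Cfsg.Agent.S3768

/-- Let G be a finite Frobenius group with Frobenius complement R and Frobenius kernel K (the identity together with the elements in no conjugate of R), and let N be a normal subgroup of G not containing K. Then G/N is a Frobenius group with Frobenius complement RN/N whose Frobenius kernel is the image of K. -/
theorem result {G : Type*} [Group G] [Finite G] (R : Subgroup G) (hR : Cfsg.IsFrobeniusComplement R) (N : Subgroup G) [N.Normal] (hKN : ¬ Cfsg.frobeniusKernel R ⊆ N) : Cfsg.IsFrobeniusComplement (R.map (QuotientGroup.mk' N)) ∧ Cfsg.frobeniusKernel (R.map (QuotientGroup.mk' N)) = QuotientGroup.mk' N '' Cfsg.frobeniusKernel R := by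
  obtain ⟨K, hK, hKn, hc⟩ := CfsgLib.Frobenius.exists_kernel hR
  haveI := hKn
  rw [← hK] at hKN ⊢
  have hKN' : ¬ K ≤ N := fun h => hKN h
  have hK1 : K ≠ ⊥ := fun h => hKN' (h ▸ bot_le)
  have hfpf := (CfsgLib.Frobenius.isFrobeniusComplement_iff_fpf K R hc hK1 hR.1).1 hR
  -- `N` is contained in the kernel
  have hNK : N ≤ K := by
    intro x hx
    show x ∈ (K : Set G)
    rw [hK]
    by_cases hx1 : x = 1
    · exact Or.inl hx1
    refine Or.inr fun g hg => hKN' fun k hk => ?_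
    rw [CfsgLib.Frobenius.mem_conj_smul] at hg
    have hy : g⁻¹ * x * g ∈ N := by simpa using (inferInstance : N.Normal).conj_mem x hx g⁻¹
    have hy1 : g⁻¹ * x * g ≠ 1 := fun h => hx1 (by
      calc x = g * (g⁻¹ * x * g) * g⁻¹ := by group
        _ = 1 := by rw [h]; group)
    obtain ⟨a, -, ha⟩ := CfsgLib.Frobenius.exists_conj_eq K R hfpf hg hy1 hk
    have he : k = a * (g⁻¹ * x * g) * a⁻¹ * (g⁻¹ * x * g)⁻¹ := by rw [ha]; group
    rw [he]
    exact N.mul_mem ((inferInstance : N.Normal).conj_mem _ hy a) (N.inv_mem hy)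
  set f := QuotientGroup.mk' N with hf
  have hfs : Function.Surjective f := QuotientGroup.mk'_surjective N
  have hmem : ∀ y : G, f y = 1 ↔ y ∈ N := fun y => QuotientGroup.eq_one_iff y
  haveI : (K.map f).Normal := Subgroup.Normal.map hKn f hfs
  have hdisj : K.map f ⊓ R.map f = ⊥ := by
    rw [eq_bot_iff]
    rintro y ⟨⟨k, hk, rfl⟩, r, hr, hrk⟩
    have h1 : k⁻¹ * r ∈ N := (hmem _).1 (by rw [map_mul, map_inv, hrk, inv_mul_cancel])
    have h2 : r ∈ K ⊓ R := ⟨by simpa using K.mul_mem hk (hNK h1), hr⟩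
    rw [disjoint_iff.1 hc.disjoint, Subgroup.mem_bot] at h2
    rw [Subgroup.mem_bot, ← hrk, h2, map_one]
  have hsup : K.map f ⊔ R.map f = ⊤ := by
    rw [← Subgroup.map_sup, hc.sup_eq_top, Subgroup.map_top_of_surjective f hfs]
  have hK1' : K.map f ≠ ⊥ := by
    rw [Ne, Subgroup.map_eq_bot_iff, QuotientGroup.ker_mk']
    exact hKN'
  have hR1 : R.map f ≠ ⊥ := by
    rw [Ne, Subgroup.map_eq_bot_iff, QuotientGroup.ker_mk']
    exact fun h => hR.1 (eq_bot_iff.2 fun r hr =>
      (disjoint_iff.1 hc.disjoint).le ⟨hNK (h hr), hr⟩)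
  have hfrob : Cfsg.IsFrobeniusComplement (R.map f) := by
    refine CfsgLib.Frobenius.isFrobeniusComplement_of_fpf _ _ hdisj hsup hK1' hR1 ?_
    rintro _ ⟨r, hr, rfl⟩ hr1 _ ⟨k, hk, rfl⟩ hcomm
    have hr0 : r ≠ 1 := fun h => hr1 (by rw [h, map_one])
    have hm : k * r * k⁻¹ * r⁻¹ ∈ N := (hmem _).1 (by
      rw [map_mul, map_mul, map_mul, map_inv, map_inv, ← hcomm]; group)
    obtain ⟨a, ha, ha'⟩ := CfsgLib.Frobenius.exists_conj_eq N R
      (fun h hh h1 n hn => hfpf h hh h1 n (hNK hn)) hr hr0 hm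
    have h3 : a⁻¹ * k = 1 := by
      refine hfpf r hr hr0 _ (K.mul_mem (K.inv_mem (hNK ha)) hk) ?_
      calc r * (a⁻¹ * k) = a⁻¹ * (a * r * a⁻¹) * k := by group
        _ = a⁻¹ * k * r := by rw [ha']; group
    rw [inv_mul_eq_one] at h3
    rw [hmem, ← h3]
    exact ha
  refine ⟨hfrob, ?_⟩
  rw [← CfsgLib.Frobenius.coe_eq_kernel hfrob (K.map f)
    (Subgroup.isComplement'_of_disjoint_and_mul_eq_univ (disjoint_iff.2 hdisj) (by
      rw [← Subgroup.normal_mul, hsup, Subgroup.coe_top]))]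
  rfl

end Cfsg.Agent.S3768
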