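import Cfsg.Statements.S3769
import Cfsg.Agent.Lib.ExtraspecialFPF.FixedPoint
import Cfsg.Agent.Lib.CoprimeAction.Sylow

set_option autoImplicit false
open Cfsg

namespace Cfsg.Agent.S3769

set_option linter.style.haveILetI false
open scoped commutatorElement

/-- Let G and V be subgroups of a finite group with G solvable of odd order normalizing V, V an elementary abelian ℓ-group for a prime ℓ not dividing the order of G, and suppose G has a normal Hall subgroup K with a complement R of prime order. If C_V(R) = 1, then [R, K] centralizes V. -/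
theorem result {X : Type*} [Group X] [Finite X] (G : Subgroup X) (hsolv : Group.IsSolvable G) (hodd : Odd (Nat.card G)) (V : Subgroup X) {ℓ : ℕ} (hℓ : ℓ.Prime) (hV : Cfsg.IsElementaryAbelian ℓ V) (hℓG : ¬ ℓ ∣ Nat.card G) (hGV : G ≤ Subgroup.normalizer (V : Set X)) (K R : Subgroup X) (hKG : K ≤ G) (hKn : G ≤ Subgroup.normalizer (K : Set X)) (hHall : (Nat.card K).Coprime (K.relIndex G)) (hRG : R ≤ G) (hR : (Nat.card R).Prime) (hKR : K ⊓ R = ⊥) (hKRG : K ⊔ R = G) (hCV : V ⊓ Subgroup.centralizer (R : Set X) = ⊥) : ⁅R, K⁆ ≤ Subgroup.centralizer (V : Set X) := by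
  classical
  haveI := Fact.mk hR
  set r := Nat.card R with hr
  have hKN : K ≤ Subgroup.normalizer (V : Set X) := hKG.trans hGV
  have hRN : R ≤ Subgroup.normalizer (V : Set X) := hRG.trans hGV
  have hRK : R ≤ Subgroup.normalizer (K : Set X) := hRG.trans hKn
  obtain ⟨⟨x, hx⟩, hxg⟩ : ∃ x : R, ∀ y : R, y ∈ Subgroup.zpowers x := by
    haveI : IsCyclic R := isCyclic_of_prime_card hr.symm
    exact IsCyclic.exists_generator
  have hord : orderOf x = r := by
    rw [← Subgroup.orderOf_mk x hx, orderOf_eq_card_of_forall_mem_zpowers hxg]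
  -- `r` is the index of `K` in `G`
  have hrel : r ∣ K.relIndex G := by
    have hx' : x ∈ G := hRG hx
    let Kn := K.subgroupOf G
    haveI : Kn.Normal := ⟨fun a ha g => (Subgroup.mem_normalizer_iff.1 (hKn g.2) a).1 ha⟩
    let ψ : R →* G ⧸ Kn := (QuotientGroup.mk' Kn).comp (Subgroup.inclusion hRG)
    have hψ : Function.Injective ψ := by
      rw [injective_iff_map_eq_one]
      intro a ha
      have h1 : (Subgroup.inclusion hRG a) ∈ Kn := (QuotientGroup.eq_one_iff _).1 ha
      have h2 : (a : X) ∈ K ⊓ R := ⟨h1, a.2⟩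
      rw [hKR, Subgroup.mem_bot] at h2
      exact Subtype.ext h2
    exact Subgroup.card_dvd_of_injective ψ hψ
  have hcop : (Nat.card R).Coprime (Nat.card K) := (hHall.of_dvd_right hrel).symm
  letI : CommGroup V := { (inferInstance : Group V) with
    mul_comm := fun a b => hV.1.is_comm.comm a b }
  let f := Subgroup.normalizerMonoidHom V
  have hf : ∀ (g : Subgroup.normalizer (V : Set X)) (v : V), ((f g v : V) : X) = g * v * (g : X)⁻¹ :=
    fun g v => rfl
  let ι : K →* Subgroup.normalizer (V : Set X) := Subgroup.inclusion hKN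
  let x' : Subgroup.normalizer (V : Set X) := ⟨x, hRN hx⟩
  let α : K →* MulAut V := f.comp ι
  let β : K →* MulAut V := (MulAut.conj (f x')).toMonoidHom.comp α
  let E : Subgroup K := α.eqLocus β
  have hsylow : ∀ (q : ℕ), q.Prime → q ^ (Nat.card K).factorization q ∣ Nat.card E := by
    intro q hq
    haveI := Fact.mk hq
    obtain ⟨P, hP⟩ := CfsgLib.CoprimeAction.exists_invariant_sylow hRK hcop
      (Or.inl (by
        haveI : IsCyclic R := isCyclic_of_prime_card hr.symm
        letI := IsCyclic.commGroup (α := R)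
        infer_instance)) q
    rw [← P.card_eq_multiplicity]
    refine Subgroup.card_dvd_of_le ?_
    intro k hk
    show α k = β k
    by_contra hne
    rcases eq_or_ne ((Nat.card K).factorization q) 0 with h0 | h0
    · have h1 : Nat.card (P : Subgroup K) = 1 := by rw [P.card_eq_multiplicity, h0, pow_zero]
      rw [Subgroup.eq_bot_of_card_eq _ h1, Subgroup.mem_bot] at hk
      subst hk
      exact hne ((map_one α).trans (map_one β).symm)
    have hqK : q ∣ Nat.card K := Nat.dvd_of_factorization_pos h0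
    have hqG : q ∣ Nat.card G := hqK.trans (Subgroup.card_dvd_of_le hKG)
    have hrG : r ∣ Nat.card G := Subgroup.card_dvd_of_le hRG
    have hq2 : q ≠ 2 := fun h => by
      subst h
      exact (Nat.not_even_iff_odd.2 hodd) (even_iff_two_dvd.2 hqG)
    let Q : Subgroup (MulAut V) := (P : Subgroup K).map α
    have hyQ : f x' ∈ Subgroup.normalizer (Q : Set (MulAut V)) := by
      have hQ : Q = (((P : Subgroup K).map K.subtype).subgroupOf
          (Subgroup.normalizer (V : Set X))).map f := by
        ext σ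
        constructor
        · rintro ⟨a, ha, rfl⟩
          exact ⟨ι a, ⟨a, ha, rfl⟩, rfl⟩
        · rintro ⟨b, ⟨a, ha, hab⟩, rfl⟩
          exact ⟨a, ha, congrArg f (Subtype.ext hab)⟩
      rw [hQ]
      refine Subgroup.le_normalizer_map f (Subgroup.mem_map_of_mem f ?_)
      rw [Subgroup.mem_normalizer_iff]
      intro g
      exact Subgroup.mem_normalizer_iff.1 (hP hx) (g : X)
    obtain ⟨a, ha1, ha⟩ := CfsgLib.ExtraspecialFPF.exists_fixed_ne_one_aut hℓ hq hR
      (fun h => hℓG (h ▸ hqG)) (fun h => hℓG (h ▸ hrG))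
      (fun h => by
        have := Nat.eq_one_of_dvd_coprimes hcop (h ▸ dvd_rfl) hqK
        exact hq.one_lt.ne' this)
      (fun v : V => Subtype.ext (hV.2 v v.2)) (f x')
      (by
        rw [← map_pow, show x' ^ r = 1 from Subtype.ext (by
          rw [SubmonoidClass.coe_pow, ← hord, pow_orderOf_eq_one]; rfl), map_one])
      Q (P.isPGroup'.map α) hyQ
      ⟨α k, Subgroup.mem_map_of_mem α hk, fun h => hne (by
        show α k = f x' * α k * (f x')⁻¹
        rw [h, mul_inv_cancel_right])⟩
      (fun h => absurd h hq2)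
    refine ha1 (Subtype.ext ?_)
    have h1 := congrArg Subtype.val ha
    rw [hf, mul_inv_eq_iff_eq_mul] at h1
    have : (a : X) ∈ V ⊓ Subgroup.centralizer (R : Set X) := by
      refine ⟨a.2, Subgroup.mem_centralizer_iff.2 fun y hy => ?_⟩
      obtain ⟨j, hj⟩ := Subgroup.mem_zpowers_iff.1 (hxg ⟨y, hy⟩)
      rw [show y = x ^ j from (congrArg Subtype.val hj).symm]
      exact (Commute.zpow_left h1 j).eq
    rw [hCV, Subgroup.mem_bot] at this
    exact this
  have htop : E = ⊤ := by
    refine Subgroup.eq_top_of_card_eq _ (Nat.dvd_antisymm (Subgroup.card_subgroup_dvd_card E) ?_)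
    refine (Nat.dvd_iff_prime_pow_dvd_dvd _ _).2 fun q j hq hj => ?_
    exact (pow_dvd_pow q ((hq.pow_dvd_iff_le_factorization Nat.card_pos.ne').1 hj)).trans (hsylow q hq)
  rw [Subgroup.commutator_le]
  intro s hs k hk
  rw [Subgroup.mem_centralizer_iff]
  intro v hv
  obtain ⟨j, hj⟩ := Subgroup.mem_zpowers_iff.1 (hxg ⟨s, hs⟩)
  have hsx : s = x ^ j := (congrArg Subtype.val hj).symm
  have hk' : Commute (f x') (α ⟨k, hk⟩) := by
    have h1 : α ⟨k, hk⟩ = f x' * α ⟨k, hk⟩ * (f x')⁻¹ :=
      (htop ▸ Subgroup.mem_top (⟨k, hk⟩ : K) : (⟨k, hk⟩ : K) ∈ E)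
    exact (eq_mul_inv_iff_mul_eq.1 h1).symm
  have h2 : f ⁅(x' ^ j), ι ⟨k, hk⟩⁆ = 1 := by
    rw [map_commutatorElement, map_zpow, commutatorElement_eq_one_iff_mul_comm]
    exact (hk'.zpow_left j).eq
  have h3 := congrArg (fun σ : MulAut V => ((σ ⟨v, hv⟩ : V) : X)) h2
  simp only [hf, MulAut.one_apply] at h3
  rw [mul_inv_eq_iff_eq_mul] at h3
  rw [hsx]
  simpa [commutatorElement_def, x', ι] using h3.symm

end Cfsg.Agent.S3769
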