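import Cfsg.Statements.S3770
import Cfsg.Agent.Lib.Frobenius.NormIdentity
import Cfsg.Agent.Lib.Frobenius.Kernel
import Cfsg.Agent.Lib.NormalPComplement.FixedPointFree

set_option autoImplicit false
open Cfsg

namespace Cfsg.Agent.S3770

/-- Let G and V be subgroups of a finite group with G a Frobenius group with complement R of prime order and kernel K, G normalizing V, and V an elementary abelian ℓ-group for a prime ℓ not dividing the order of G. If C_V(R) has order ℓ, then the derived subgroup of K centralizes V. -/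
theorem result {X : Type*} [Group X] [Finite X] (G : Subgroup X) (V : Subgroup X) {ℓ : ℕ} (hℓ : ℓ.Prime) (hV : Cfsg.IsElementaryAbelian ℓ V) (hℓG : ¬ ℓ ∣ Nat.card G) (hGV : G ≤ Subgroup.normalizer (V : Set X)) (R : Subgroup ↥G) (hR : Cfsg.IsFrobeniusComplement R) (hRp : (Nat.card R).Prime) (hCV : Nat.card ↥(V ⊓ Subgroup.centralizer ((R.map G.subtype : Subgroup X) : Set X)) = ℓ) : ⁅Subgroup.closure (Subtype.val '' Cfsg.frobeniusKernel R), Subgroup.closure (Subtype.val '' Cfsg.frobeniusKernel R)⁆ ≤ Subgroup.centralizer (V : Set X) := by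
  classical
  obtain ⟨K, hK, hKn, hKR⟩ := CfsgLib.Frobenius.exists_kernel hR
  have hnil : Group.IsNilpotent K :=
    CfsgLib.NormalPComplement.isNilpotent_frobeniusKernel hR K hK
  have himg : Subgroup.closure (Subtype.val '' Cfsg.frobeniusKernel R) = K.map G.subtype := by
    rw [← hK]
    exact (congrArg Subgroup.closure (Subgroup.coe_map G.subtype K).symm).trans
      (Subgroup.closure_eq _)
  rw [himg]
  letI : CommGroup V := { (inferInstance : Group V) with
    mul_comm := fun a b => hV.1.is_comm.comm a b }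
  letI : MulDistribMulAction G V :=
    { smul := fun g v => ⟨(g : X) * v * (g : X)⁻¹,
        (Subgroup.mem_normalizer_iff.1 (hGV g.2) v).1 v.2⟩
      one_smul := fun v => Subtype.ext (by
        show ((1 : G) : X) * v * ((1 : G) : X)⁻¹ = v
        simp)
      mul_smul := fun g h v => Subtype.ext (by
        show ((g * h : G) : X) * v * ((g * h : G) : X)⁻¹
          = (g : X) * ((h : X) * v * (h : X)⁻¹) * (g : X)⁻¹
        push_cast
        group)
      smul_mul := fun g a b => Subtype.ext (by
        show (g : X) * ((a : X) * b) * (g : X)⁻¹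
          = ((g : X) * a * (g : X)⁻¹) * ((g : X) * b * (g : X)⁻¹)
        group)
      smul_one := fun g => Subtype.ext (by
        show (g : X) * 1 * (g : X)⁻¹ = 1
        group) }
  have hsmul : ∀ (g : G) (v : V), ((g • v : V) : X) = (g : X) * v * (g : X)⁻¹ := fun _ _ => rfl
  have hVp : IsPGroup ℓ V := fun v => ⟨1, by
    rw [pow_one]; exact Subtype.ext (hV.2 v v.2)⟩
  have := Fact.mk hℓ
  obtain ⟨m, hm⟩ := hVp.exists_card_eq
  have hcop : (Nat.card V).Coprime (Nat.card K) := by
    rw [hm]
    exact ((hℓ.coprime_iff_not_dvd.2 hℓG).pow_left m).of_dvd_right K.card_subgroup_dvd_card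
  have hfree : ∀ s ∈ R, s ≠ 1 → ∀ k ∈ K, s * k = k * s → k = 1 :=
    (CfsgLib.Frobenius.centralizer_inf_iff K R).1 fun s hs h1 => by
      refine (Subgroup.eq_bot_iff_forall _).2 fun k hk => ?_
      exact CfsgLib.Frobenius.eq_one_of_mem_kernel_of_mem (hK.le hk.1)
        (CfsgLib.Frobenius.centralizer_le hR hs h1 hk.2)
  have hCcard : Nat.Prime (Nat.card {v : V // ∀ s ∈ R, s • v = v}) := by
    rw [show Nat.card {v : V // ∀ s ∈ R, s • v = v} =
        Nat.card ↥(V ⊓ Subgroup.centralizer ((R.map G.subtype : Subgroup X) : Set X)) from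
      Nat.card_congr
        { toFun := fun v => ⟨v.1.1, v.1.2, Subgroup.mem_centralizer_iff.2 fun y hy => by
            obtain ⟨s, hs, rfl⟩ := hy
            have := congrArg Subtype.val (v.2 s hs)
            rw [hsmul, mul_inv_eq_iff_eq_mul] at this
            exact this⟩
          invFun := fun v => ⟨⟨v.1, v.2.1⟩, fun s hs => Subtype.ext (by
            rw [hsmul, mul_inv_eq_iff_eq_mul]
            exact Subgroup.mem_centralizer_iff.1 v.2.2 _ ⟨s, hs, rfl⟩)⟩
          left_inv := fun v => rfl
          right_inv := fun v => rfl }]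
    rw [hCV]
    exact hℓ
  rw [Subgroup.commutator_le]
  rintro _ ⟨a, ha, rfl⟩ _ ⟨b, hb, rfl⟩
  rw [Subgroup.mem_centralizer_iff]
  intro v hv
  have h := CfsgLib.Frobenius.NormIdentity.commutator_smul_eq (A := V) K R
    hfree hcop hCcard ha hb ⟨v, hv⟩
  have h' := congrArg Subtype.val h
  rw [hsmul, mul_inv_eq_iff_eq_mul] at h'
  rw [commutatorElement_def]
  simpa using h'.symm

end Cfsg.Agent.S3770
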