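import Cfsg.Statements.S3771
import Cfsg.Agent.Lib.TwoGroups.NormalAbelian

set_option autoImplicit false
open Cfsg

namespace Cfsg.Agent.S3771

/-- Let p be a prime and R a finite p-group of p-rank at most 2 (no elementary abelian subgroup of order p³) in which every element has order dividing p. Then R has order at most p³. -/
theorem result {R : Type*} [Group R] [Finite R] {p : ℕ} [Fact p.Prime] (hR : IsPGroup p R) (hrank : Cfsg.PRankLE p 2 R) (hexp : ∀ x : R, x ^ p = 1) : Nat.card R ≤ p ^ 3 := by
  have hp : p.Prime := Fact.out
  obtain ⟨A, -, hAn, hAc, hself⟩ := CfsgLib.TwoGroups.exists_normal_abelian_centralizer_eq hR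
    (B := (⊥ : Subgroup R)) inferInstance inferInstance
  have hA2 : Nat.card A ≤ p ^ 2 := hrank A hAc fun a _ => hexp a
  by_cases hcen : A ≤ Subgroup.center R
  · have hC : Subgroup.centralizer (A : Set R) = ⊤ := by
      rw [Subgroup.centralizer_eq_top_iff_subset]
      exact hcen
    rw [hself] at hC
    rw [hC, Subgroup.card_top] at hA2
    exact hA2.trans (Nat.pow_le_pow_right hp.pos (by norm_num))
  obtain ⟨a, haA, haZ⟩ := SetLike.not_le_iff_exists.mp hcen
  -- the centralizer of `a` is `A`
  have hCa : Subgroup.centralizer ({a} : Set R) = A := by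
    apply le_antisymm
    · rw [← hself]
      intro g hg
      rw [Subgroup.mem_centralizer_singleton_iff] at hg
      let D : Subgroup R := A ⊓ Subgroup.centralizer ({g} : Set R)
      have haD : a ∈ D := ⟨haA, Subgroup.mem_centralizer_singleton_iff.mpr hg.symm⟩
      have hZD : A ⊓ Subgroup.center R ≤ D := fun z hz =>
        ⟨hz.1, Subgroup.mem_centralizer_singleton_iff.mpr ((Subgroup.mem_center_iff.mp hz.2 g).symm)⟩
      obtain ⟨z, hzA, hz1, hzZ⟩ := CfsgLib.TwoGroups.exists_mem_center_of_normal hR (N := A)
        fun h => hcen (h ▸ bot_le)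
      have hDA : D = A := by
        refine Subgroup.eq_of_le_of_card_ge inf_le_left ?_
        refine le_trans hA2 ?_
        have h0 : A ⊓ Subgroup.center R < D :=
          lt_of_le_of_ne hZD fun he => haZ (he ▸ haD : a ∈ A ⊓ Subgroup.center R).2
        obtain ⟨i, hi⟩ := IsPGroup.iff_card.mp (hR.to_subgroup (A ⊓ Subgroup.center R))
        obtain ⟨j, hj⟩ := IsPGroup.iff_card.mp (hR.to_subgroup D)
        have hlt : Nat.card ↥(A ⊓ Subgroup.center R) < Nat.card D := by
          by_contra hge
          exact h0.ne (Subgroup.eq_of_le_of_card_ge hZD (not_lt.mp hge))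
        have hone : 1 < Nat.card ↥(A ⊓ Subgroup.center R) := by
          rw [Subgroup.one_lt_card_iff_ne_bot]
          intro hbot
          exact hz1 ((Subgroup.eq_bot_iff_forall _).mp hbot z ⟨hzA, hzZ⟩)
        rw [hi] at hlt hone
        rw [hj] at hlt ⊢
        have h1 := (Nat.pow_lt_pow_iff_right hp.one_lt).mp hlt
        have h2 : i ≠ 0 := fun h => by simp [h] at hone
        exact Nat.pow_le_pow_right hp.pos (by omega)
      intro y hy
      exact Subgroup.mem_centralizer_singleton_iff.mp (hDA.ge hy).2
    · intro y hy
      rw [Subgroup.mem_centralizer_singleton_iff]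
      exact congrArg Subtype.val (hAc.is_comm.comm ⟨y, hy⟩ ⟨a, haA⟩)
  -- so the class of `a` has size at most `p`
  have horb : (Subgroup.centralizer ({a} : Set R)).index ≤ p := by
    obtain ⟨m, hm⟩ := hR.index (Subgroup.centralizer ({a} : Set R))
    have hlt : (Subgroup.centralizer ({a} : Set R)).index < p ^ 2 := by
      refine lt_of_lt_of_le ?_ hA2
      rw [Subgroup.index_eq_card]
      have hmem : ∀ g : R, g * a * g⁻¹ ∈ A := fun g => hAn.conj_mem a haA g
      let φ : R ⧸ Subgroup.centralizer ({a} : Set R) → A := Quotient.lift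
        (fun g => (⟨g * a * g⁻¹, hmem g⟩ : A)) (fun g h hgh => Subtype.ext (by
          have h' := (QuotientGroup.leftRel_apply.mp hgh)
          rw [Subgroup.mem_centralizer_singleton_iff] at h'
          show g * a * g⁻¹ = h * a * h⁻¹
          have : h = g * (g⁻¹ * h) := by group
          rw [this]
          generalize g⁻¹ * h = c at h' ⊢
          rw [mul_assoc g c a, h']
          group))
      have hinj : Function.Injective φ := by
        intro u v
        induction u using Quotient.inductionOn with | _ g => ?_
        induction v using Quotient.inductionOn with | _ h => ?_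
        intro he
        have he' : g * a * g⁻¹ = h * a * h⁻¹ := congrArg Subtype.val he
        apply Quotient.sound
        refine QuotientGroup.leftRel_apply.mpr ?_
        rw [Subgroup.mem_centralizer_singleton_iff]
        calc g⁻¹ * h * a = g⁻¹ * (h * a * h⁻¹) * h := by group
          _ = g⁻¹ * (g * a * g⁻¹) * h := by rw [he']
          _ = a * (g⁻¹ * h) := by group
      have : Fintype A := Fintype.ofFinite _
      have : Fintype (R ⧸ Subgroup.centralizer ({a} : Set R)) := Fintype.ofFinite _
      rw [Nat.card_eq_fintype_card, Nat.card_eq_fintype_card]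
      refine Fintype.card_lt_of_injective_of_notMem φ hinj (b := 1) ?_
      rintro ⟨u, hu⟩
      induction u using Quotient.inductionOn with | _ g => ?_
      have hu' : g * a * g⁻¹ = 1 := congrArg Subtype.val hu
      rw [conj_eq_one_iff] at hu'
      exact haZ (hu' ▸ one_mem _)
    rw [hm] at hlt ⊢
    have h1 := (Nat.pow_lt_pow_iff_right hp.one_lt).mp hlt
    exact (Nat.pow_le_pow_right hp.pos (by omega : m ≤ 1)).trans (pow_one p).le
  rw [hCa] at horb
  rw [← A.card_mul_index, pow_succ]
  exact Nat.mul_le_mul hA2 horb

end Cfsg.Agent.S3771
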