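import Cfsg.Statements.S3772
import Cfsg.Agent.Lib.PGroups.Extraspecial

set_option autoImplicit false
open Cfsg

namespace Cfsg.Agent.S3772

universe uG

section Aux

variable {G : Type uG} [Group G] [Finite G]

theorem involution_count [Fintype G] [DecidableEq G] {z : G} (hz1 : z ≠ 1) (hzz : z * z = 1)
    (hzc : ∀ x : G, z * x = x * z) (hsq : ∀ x : G, x * x = 1 ∨ x * x = z)
    (hcom : ∀ x y : G, y * x = x * y ∨ y * x = z * (x * y)) :
    2 * Nat.card {x : G // x * x = 1} = Nat.card G ∨
      ((∀ h ∈ Subgroup.center G, h * h = 1) ∧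
        ((2 * (Nat.card {x : G // x * x = 1} : ℤ) - Nat.card G) ^ 2 =
          Nat.card G * Nat.card (Subgroup.center G))) := by
  set χ : G → ℤ := fun x => if x * x = 1 then 1 else -1 with hχ
  set ε : G → G → ℤ := fun x h => if x * h = h * x then 1 else -1 with hε
  have hswap : ∀ x a h : G, ε a h = -1 → ε (x * a) h = - ε x h := by
    intro x a h ha
    have hna : ¬ a * h = h * a := fun hc => by simp [hε, hc] at ha
    have hca : h * a = z * (a * h) := (hcom a h).resolve_left (fun e => hna e.symm)
    by_cases hx : x * h = h * x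
    · have : ¬ x * a * h = h * (x * a) := by
        intro e
        refine hna (mul_left_cancel (a := x) ?_)
        rw [← mul_assoc, e, ← mul_assoc, ← hx, mul_assoc]
      simp [hε, hx, this]
    · have hcx : h * x = z * (x * h) := (hcom x h).resolve_left (fun e => hx e.symm)
      have : x * a * h = h * (x * a) := by
        calc x * a * h = z * z * (x * (a * h)) := by rw [hzz, one_mul, mul_assoc]
          _ = z * (x * (z * (a * h))) := by rw [← mul_assoc x z, ← hzc x]; simp [mul_assoc]
          _ = z * (x * (h * a)) := by rw [hca]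
          _ = (z * (x * h)) * a := by simp [mul_assoc]
          _ = h * (x * a) := by rw [← hcx, mul_assoc]
      simp [hε, hx, this]
  have hmul : ∀ x h : G, χ (x * h) = χ x * χ h * ε x h := by
    intro x h
    have hsq' : x * h * (x * h) = x * (h * x) * h := by simp [mul_assoc]
    have hzx : ∀ t : G, x * (z * t) = z * (x * t) := fun t => by rw [← mul_assoc, ← hzc x, mul_assoc]
    by_cases hc : x * h = h * x
    · have e : x * h * (x * h) = (x * x) * (h * h) := by rw [hsq', ← hc]; simp [mul_assoc]
      rcases hsq x with h1 | h1 <;> rcases hsq h with h2 | h2 <;>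
        simp [hχ, hε, hc, e, h1, h2, hz1, hzz] <;> simp [← hc, e, h1, h2, hz1, hzz]
    · have hcx : h * x = z * (x * h) := (hcom x h).resolve_left (fun e => hc e.symm)
      have e : x * h * (x * h) = z * ((x * x) * (h * h)) := by
        rw [hsq', hcx]; simp [mul_assoc, hzx]
      rcases hsq x with h1 | h1 <;> rcases hsq h with h2 | h2 <;>
        simp [hχ, hε, hc, e, h1, h2, hz1, hzz]
  have hχsq : ∀ x, χ x * χ x = 1 := fun x => by by_cases h : x * x = 1 <;> simp [hχ, h]
  have hεsum : ∀ h : G, ∑ x : G, ε x h = if h ∈ Subgroup.center G then (Nat.card G : ℤ) else 0 := by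
    intro h
    by_cases hh : h ∈ Subgroup.center G
    · rw [if_pos hh, Nat.card_eq_fintype_card]
      have : ∀ x : G, ε x h = 1 := fun x => by simp [hε, Subgroup.mem_center_iff.1 hh x]
      simp [this]
    · rw [if_neg hh]
      obtain ⟨a, ha⟩ : ∃ a, ε a h = -1 := by
        rw [Subgroup.mem_center_iff] at hh
        push Not at hh
        obtain ⟨a, ha⟩ := hh
        exact ⟨a, by simp [hε, ha]⟩
      have h1 : ∑ x : G, ε x h = - ∑ x : G, ε x h := by
        conv_lhs => rw [← Equiv.sum_comp (Equiv.mulRight a) (fun x => ε x h)]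
        rw [← Finset.sum_neg_distrib]
        exact Finset.sum_congr rfl fun x _ => hswap x a h ha
      omega
  set S := ∑ x : G, χ x with hS
  have hSS : S * S = (Nat.card G : ℤ) * ∑ h : Subgroup.center G, χ h := by
    calc S * S = ∑ x : G, χ x * S := by rw [Finset.sum_mul]
      _ = ∑ x : G, ∑ h : G, χ x * χ (x * h) := Finset.sum_congr rfl fun x _ => by
          rw [← Finset.mul_sum]; congr 1; exact (Equiv.sum_comp (Equiv.mulLeft x) χ).symm
      _ = ∑ x : G, ∑ h : G, χ h * ε x h := Finset.sum_congr rfl fun x _ =>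
          Finset.sum_congr rfl fun h _ => by rw [hmul, ← mul_assoc, ← mul_assoc, hχsq, one_mul]
      _ = ∑ h : G, χ h * ∑ x : G, ε x h := by
          rw [Finset.sum_comm]; simp_rw [Finset.mul_sum]
      _ = ∑ h : G, if h ∈ Subgroup.center G then χ h * (Nat.card G : ℤ) else 0 := by
          refine Finset.sum_congr rfl fun h _ => ?_
          rw [hεsum]; split <;> simp
      _ = _ := by
          rw [← Finset.sum_filter, Finset.mul_sum,
            Finset.sum_subtype (p := fun x => x ∈ Subgroup.center G) _ (fun x => by simp)]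
          exact Finset.sum_congr rfl fun h _ => mul_comm _ _
  have hjS : S = 2 * (Nat.card {x : G // x * x = 1} : ℤ) - Nat.card G := by
    have h1 : S = ∑ x : G, ((2 : ℤ) * (if x * x = 1 then 1 else 0) - 1) :=
      Finset.sum_congr rfl fun x _ => by by_cases h : x * x = 1 <;> simp [hχ, h]
    rw [h1, Finset.sum_sub_distrib, ← Finset.mul_sum, Finset.sum_boole]
    simp [Nat.card_eq_fintype_card, Fintype.card_subtype]
  by_cases hZ : ∀ h ∈ Subgroup.center G, h * h = 1
  · right
    refine ⟨hZ, ?_⟩
    have h1 : ∑ h : Subgroup.center G, χ h = (Nat.card (Subgroup.center G) : ℤ) := by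
      rw [Finset.sum_congr rfl (fun (h : Subgroup.center G) _ =>
        show χ h = 1 by simp [hχ, hZ h h.2])]
      simp [Nat.card_eq_fintype_card]
    rw [← hjS, pow_two, hSS, h1]
  · left
    push Not at hZ
    obtain ⟨a, ha, ha2⟩ := hZ
    have h1 : ∑ h : Subgroup.center G, χ h = - ∑ h : Subgroup.center G, χ h := by
      conv_lhs => rw [← Equiv.sum_comp (Equiv.mulRight (⟨a, ha⟩ : Subgroup.center G))]
      rw [← Finset.sum_neg_distrib]
      refine Finset.sum_congr rfl fun h _ => ?_
      show χ ((h : G) * a) = - χ h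
      rw [hmul, show χ a = -1 by simp [hχ, ha2],
        show ε (h : G) a = 1 by simp [hε, Subgroup.mem_center_iff.1 ha (h : G)]]
      ring
    have hS0 : S = 0 := by
      have : ∑ h : Subgroup.center G, χ h = 0 := by omega
      rw [this, mul_zero] at hSS
      exact mul_self_eq_zero.1 hSS
    omega

end Aux

/-- Let G be a finite 2-group whose Frattini subgroup Φ(G) has order 2, with |G : Φ(G)| = 2^d, and let j be the number of elements x of G with x² = 1. Then j = 2^d, or j = 2^d + 2^(d−r) or j = 2^d − 2^(d−r) for some positive integer r with 2r ≤ d. Moreover if d = 2r and j is 2^d + 2^r or 2^d − 2^r, then G is extraspecial. -/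
theorem result {G : Type*} [Group G] [Finite G] (hG : IsPGroup 2 G) (hΦ : Nat.card (frattini G) = 2) (d : ℕ) (hd : (frattini G).index = 2 ^ d) : (Nat.card {x : G // x ^ 2 = 1} = 2 ^ d ∨ ∃ r : ℕ, 1 ≤ r ∧ 2 * r ≤ d ∧ (Nat.card {x : G // x ^ 2 = 1} = 2 ^ d + 2 ^ (d - r) ∨ Nat.card {x : G // x ^ 2 = 1} + 2 ^ (d - r) = 2 ^ d)) ∧ (∀ r : ℕ, d = 2 * r → (Nat.card {x : G // x ^ 2 = 1} = 2 ^ d + 2 ^ r ∨ Nat.card {x : G // x ^ 2 = 1} + 2 ^ r = 2 ^ d) → Cfsg.IsExtraspecial 2 G) := by
  classical
  haveI := Fintype.ofFinite G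
  haveI : Fact (Nat.Prime 2) := ⟨Nat.prime_two⟩
  obtain ⟨z, hz1', huniq⟩ := (Nat.card_eq_two_iff' (1 : frattini G)).1 hΦ
  have hmemΦ : ∀ x ∈ frattini G, x = 1 ∨ x = (z : G) := fun x hx => by
    by_cases h : (⟨x, hx⟩ : frattini G) = 1
    · exact Or.inl (congrArg Subtype.val h)
    · exact Or.inr (congrArg Subtype.val (huniq ⟨x, hx⟩ h))
  have hz1 : (z : G) ≠ 1 := fun h => hz1' (Subtype.ext h)
  have hsq : ∀ x : G, x * x = 1 ∨ x * x = (z : G) := fun x => by
    rw [← pow_two]; exact hmemΦ _ (CfsgLib.PGroups.pow_mem_frattini hG x)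
  have hcom' : ∀ x y : G, x * y * x⁻¹ * y⁻¹ = 1 ∨ x * y * x⁻¹ * y⁻¹ = (z : G) := fun x y =>
    hmemΦ _ (CfsgLib.PGroups.commutatorElement_mem_frattini hG x y)
  have hzc : ∀ x : G, (z : G) * x = x * z := by
    intro x
    have hm : x * (z : G) * x⁻¹ ∈ frattini G := (inferInstance : (frattini G).Normal).conj_mem _ z.2 x
    rcases hmemΦ _ hm with h | h
    · exact absurd (by simpa using h) hz1
    · conv_lhs => rw [← h]
      group
  have hzz : (z : G) * z = 1 := by
    rcases hmemΦ _ ((frattini G).mul_mem z.2 z.2) with h | h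
    · exact h
    · exact absurd (mul_eq_left.1 h) hz1
  have hcom : ∀ x y : G, y * x = x * y ∨ y * x = (z : G) * (x * y) := by
    intro x y
    rcases hcom' y x with h | h
    · left; rw [← mul_inv_eq_one, mul_inv_rev, ← h]; group
    · right; rw [← h]; group
  have hcount := involution_count hz1 hzz hzc hsq hcom
  have hj : Nat.card {x : G // x ^ 2 = 1} = Nat.card {x : G // x * x = 1} :=
    Nat.card_congr (Equiv.subtypeEquivRight fun x => by rw [pow_two])
  rw [hj]
  have hGc : Nat.card G = 2 * 2 ^ d := by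
    rw [← (frattini G).card_mul_index, hΦ, hd]
  set j := Nat.card {x : G // x * x = 1} with hjdef
  obtain ⟨e, he⟩ := IsPGroup.iff_card.1 (hG.to_subgroup (Subgroup.center G))
  have hzZ : (z : G) ∈ Subgroup.center G := Subgroup.mem_center_iff.2 fun x => (hzc x).symm
  have hΦZ : frattini G ≤ Subgroup.center G := fun x hx => by
    rcases hmemΦ x hx with rfl | rfl
    · exact one_mem _
    · exact hzZ
  have key : j = 2 ^ d ∨ ∃ c r : ℕ, Nat.card (Subgroup.center G) = 2 ^ (c + 1) ∧ 1 ≤ r ∧
      d = 2 * r + c ∧ (j = 2 ^ d + 2 ^ (d - r) ∨ j + 2 ^ (d - r) = 2 ^ d) := by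
    rcases hcount with h | ⟨hZall, hS⟩
    · left; omega
    right
    have he1 : 1 ≤ e := by
      have h1 := Subgroup.card_le_of_le hΦZ
      rw [hΦ, he] at h1
      by_contra h0
      rw [show e = 0 by omega, pow_zero] at h1
      omega
    obtain ⟨k, hk⟩ : ∃ k, ((2 * (j : ℤ) - Nat.card G).natAbs) = 2 ^ k ∧ 2 * k = d + 1 + e := by
      set u := (2 * (j : ℤ) - Nat.card G).natAbs with hu
      have h1 : u * u = 2 ^ (d + 1 + e) := by
        have := congrArg Int.natAbs hS
        rw [Int.natAbs_pow, Int.natAbs_mul, Int.natAbs_natCast, Int.natAbs_natCast, ← hu, he, hGc,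
          pow_two] at this
        rw [this]; ring
      obtain ⟨k, -, hk⟩ := (Nat.dvd_prime_pow Nat.prime_two).1 (Dvd.intro u h1)
      refine ⟨k, hk, ?_⟩
      rw [hk, ← pow_add] at h1
      have := Nat.pow_right_injective (le_refl 2) h1
      omega
    have hlt : e ≤ d := by
      by_contra hlt
      have hle : Nat.card G ≤ Nat.card (Subgroup.center G) := by
        rw [hGc, he, ← pow_succ']
        exact Nat.pow_le_pow_right (by norm_num) (by omega)
      have htop : Subgroup.center G = ⊤ := Subgroup.eq_top_of_card_eq _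
        (le_antisymm (Subgroup.card_le_card_group _) hle)
      have hall : ∀ x : G, x ^ 2 = 1 := fun x => by rw [pow_two]; exact hZall x (htop ▸ Subgroup.mem_top x)
      have hbot : frattini G = ⊥ := le_bot_iff.1 (CfsgLib.PGroups.frattini_le_of (p := 2)
        ((commutator_eq_bot_iff_center_eq_top G).2 htop).le (fun x => by rw [hall x]; exact one_mem _))
      rw [hbot, Subgroup.card_bot] at hΦ
      omega
    obtain ⟨hk, hk2⟩ := hk
    refine ⟨e - 1, d + 1 - k, by rw [he, Nat.sub_add_cancel he1], by omega, by omega, ?_⟩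
    rw [show d - (d + 1 - k) = k - 1 by omega]
    have e1 : 2 ^ k = 2 * 2 ^ (k - 1) := by
      rw [← pow_succ']; congr 1; omega
    rcases Int.natAbs_eq (2 * (j : ℤ) - Nat.card G) with h | h <;> rw [hk, hGc] at h <;>
      push_cast at h
    · left
      have : (2 * j : ℕ) = 2 * 2 ^ d + 2 ^ k := by
        zify; linarith
      omega
    · right
      have : (2 * j + 2 ^ k : ℕ) = 2 * 2 ^ d := by
        zify; linarith
      omega
  refine ⟨?_, fun r hr hjr => ?_⟩
  · rcases key with h | ⟨c, r, -, hr1, hdr, h⟩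
    · exact Or.inl h
    · exact Or.inr ⟨r, hr1, by omega, h⟩
  · have hpos := Nat.two_pow_pos r
    rcases key with h | ⟨c, r', hZc, hr1, hdr, h⟩
    · omega
    have hpos' := Nat.two_pow_pos (d - r')
    have hpow : 2 ^ (d - r') = 2 ^ r := by omega
    have heq := Nat.pow_right_injective (le_refl 2) hpow
    have hc0 : c = 0 := by omega
    rw [hc0] at hZc
    have hZΦ : frattini G = Subgroup.center G :=
      Subgroup.eq_of_le_of_card_ge hΦZ (by rw [hZc, hΦ]; norm_num)
    have hcomm : commutator G = Subgroup.center G := by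
      have hle : commutator G ≤ Subgroup.center G :=
        (CfsgLib.PGroups.commutator_le_frattini hG).trans hΦZ
      refine Subgroup.eq_of_le_of_card_ge hle ?_
      rw [hZc]
      by_contra hlt
      have h0 : commutator G = ⊥ := Subgroup.eq_bot_of_card_le _ (by norm_num at hlt ⊢; omega)
      have htop := (commutator_eq_bot_iff_center_eq_top G).1 h0
      rw [htop, Subgroup.card_top, hGc] at hZc
      have : 2 ^ 1 ≤ 2 ^ d := Nat.pow_le_pow_right (by norm_num) (by omega)
      norm_num at hZc this
      omega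
    exact ⟨⟨hG, hZΦ, hcomm⟩, by rw [hZc]; norm_num⟩

end Cfsg.Agent.S3772
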