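import Cfsg.Statements.S3773
import Cfsg.Agent.Lib.PGroups.Extraspecial
import Mathlib.GroupTheory.Index

set_option autoImplicit false
open Cfsg

namespace Cfsg.Agent.S3773

universe uG

section Degree

variable {G : Type uG} [Group G]

/-- Functions of degree at most `d`. -/
def Deg : ℕ → (G → ZMod 2) → Prop
  | 0, f => ∀ x, f x = f 1
  | d + 1, f => ∀ a, Deg d fun x => f (x * a) + f x

theorem deg_zero_fun : ∀ d, Deg d (fun _ : G => (0 : ZMod 2))
  | 0 => fun _ => rfl
  | d + 1 => fun a => by simpa using deg_zero_fun d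

theorem deg_const (c : ZMod 2) : ∀ d, Deg d (fun _ : G => c)
  | 0 => fun _ => rfl
  | d + 1 => fun a => by
    have : c + c = 0 := CharTwo.add_self_eq_zero c
    simp only [this]
    exact deg_zero_fun d

theorem deg_mono : ∀ {d : ℕ} {f : G → ZMod 2}, Deg d f → Deg (d + 1) f
  | 0, f, hf => fun a => by
    intro x
    show f (x * a) + f x = f (1 * a) + f 1
    rw [hf (x * a), hf x, hf (1 * a)]
  | d + 1, f, hf => fun a => deg_mono (hf a)

theorem deg_le {d e : ℕ} {f : G → ZMod 2} (hf : Deg d f) (h : d ≤ e) : Deg e f := by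
  induction h with
  | refl => exact hf
  | step _ ih => exact deg_mono ih

theorem deg_add : ∀ {d : ℕ} {f g : G → ZMod 2}, Deg d f → Deg d g → Deg d (fun x => f x + g x)
  | 0, f, g, hf, hg => fun x => by show f x + g x = f 1 + g 1; rw [hf x, hg x]
  | d + 1, f, g, hf, hg => fun a => by
    have := deg_add (hf a) (hg a)
    convert this using 2 with x
    ring

theorem deg_shift : ∀ {d : ℕ} {f : G → ZMod 2}, Deg d f → ∀ c, Deg d (fun x => f (x * c))
  | 0, f, hf, c => fun x => by show f (x * c) = f (1 * c); rw [hf (x * c), hf (1 * c)]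
  | d + 1, f, hf, c => fun a => by
    have := deg_shift (hf (c⁻¹ * a * c)) c
    convert this using 2 with x
    simp [mul_assoc]

theorem deg_smul : ∀ {d : ℕ} {f : G → ZMod 2}, Deg d f → ∀ c, Deg d (fun x => c * f x)
  | 0, f, hf, c => fun x => by show c * f x = c * f 1; rw [hf x]
  | d + 1, f, hf, c => fun a => by
    have := deg_smul (hf a) c
    convert this using 2 with x
    ring

theorem deg_mul : ∀ (n d e : ℕ) {f g : G → ZMod 2}, d + e = n → Deg d f → Deg e g →
    Deg n (fun x => f x * g x) := by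
  intro n
  induction n with
  | zero =>
    intro d e f g h hf hg x
    obtain ⟨rfl, rfl⟩ : d = 0 ∧ e = 0 := by omega
    show f x * g x = f 1 * g 1
    rw [hf x, hg x]
  | succ n ih =>
    intro d e f g h hf hg
    cases d with
    | zero =>
      have hfc : f = fun _ => f 1 := funext hf
      obtain rfl : e = n + 1 := by omega
      have := deg_smul hg (f 1)
      rw [hfc]
      exact this
    | succ d =>
      cases e with
      | zero =>
        have hgc : ∀ x, g x = g 1 := hg
        have := deg_smul hf (g 1)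
        obtain rfl : d = n := by omega
        convert this using 2 with x
        rw [hgc x]; ring
      | succ e =>
        intro a
        have h1 := ih d (e + 1) (by omega) (hf a) (deg_shift hg a)
        have h2 := ih (d + 1) e (by omega) hf (hg a)
        convert deg_add h1 h2 using 2 with x
        have key : ∀ p q r s : ZMod 2, p * q + r * s = (p + r) * q + r * (q + s) := by decide
        exact key _ _ _ _

theorem card_le_support [Finite G] : ∀ {d : ℕ} {f : G → ZMod 2}, Deg d f → (∃ x, f x ≠ 0) →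
    Nat.card G ≤ 2 ^ d * Nat.card {x : G // f x ≠ 0}
  | 0, f, hf, ⟨y, hy⟩ => by
    rw [pow_zero, one_mul]
    refine le_of_eq (Nat.card_congr (Equiv.subtypeUnivEquiv fun x => ?_)).symm
    rw [hf x, ← hf y]; exact hy
  | d + 1, f, hf, ⟨y, hy⟩ => by
    by_cases h : ∀ a x, f (x * a) + f x = 0
    · have hc : ∀ x, f x ≠ 0 := fun x hx => by
        have h1 := h (x⁻¹ * y) x
        rw [mul_inv_cancel_left, hx, add_zero] at h1
        exact hy h1
      rw [Nat.card_congr (Equiv.subtypeUnivEquiv hc)]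
      exact Nat.le_mul_of_pos_left _ (Nat.two_pow_pos _)
    push Not at h
    obtain ⟨a, ha⟩ := h
    have h1 := card_le_support (hf a) ha
    have h2 : Nat.card {x : G // f (x * a) + f x ≠ 0} ≤ 2 * Nat.card {x : G // f x ≠ 0} := by
      classical
      let F : {x : G // f (x * a) + f x ≠ 0} → {x : G // f x ≠ 0} ⊕ {x : G // f x ≠ 0} := fun x =>
        if h : f x.1 ≠ 0 then Sum.inl ⟨x.1, h⟩ else
          Sum.inr ⟨x.1 * a, fun h' => x.2 (by rw [h', not_not.1 h, add_zero])⟩
      have hF : Function.Injective F := by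
        intro u v huv
        simp only [F] at huv
        split at huv <;> split at huv <;> simp at huv <;>
          first
            | exact Subtype.ext huv
            | exact Subtype.ext (by simpa using huv)
      have := Nat.card_le_card_of_injective F hF
      rw [Nat.card_sum] at this
      omega
    calc Nat.card G ≤ 2 ^ d * Nat.card {x : G // f (x * a) + f x ≠ 0} := h1
      _ ≤ 2 ^ d * (2 * Nat.card {x : G // f x ≠ 0}) := Nat.mul_le_mul_left _ h2
      _ = _ := by ring

/-- Indicator of the elements with square in a subgroup. -/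
noncomputable def sqInd (K : Subgroup G) (x : G) : ZMod 2 :=
  haveI := Classical.dec (x * x ∈ K)
  if x * x ∈ K then 1 else 0

theorem sqInd_ne_zero {K : Subgroup G} {x : G} : sqInd K x ≠ 0 ↔ x * x ∈ K := by
  unfold sqInd; split <;> simp_all

theorem sqInd_inf (H K : Subgroup G) (x : G) : sqInd (H ⊓ K) x = sqInd H x * sqInd K x := by
  unfold sqInd
  by_cases h1 : x * x ∈ H <;> by_cases h2 : x * x ∈ K <;> simp [h1, h2, Subgroup.mem_inf]

variable {W : Subgroup G}

theorem exists_index_two_avoid [Finite G] (hW : ∀ w ∈ W, w * w = 1)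
    (hWc : W ≤ Subgroup.center G) {K : Subgroup G} (hK : K ≤ W) {w : G} (hw : w ∈ W) (hwK : w ∉ K) :
    ∃ H : Subgroup G, K ≤ H ∧ H ≤ W ∧ w ∉ H ∧ ∀ y ∈ W, y ∉ H → w * y ∈ H := by
  obtain ⟨H, ⟨hKH, hHW, hwH⟩, hmax⟩ := Set.Finite.exists_maximal
    (Set.toFinite {H : Subgroup G | K ≤ H ∧ H ≤ W ∧ w ∉ H}) ⟨K, le_rfl, hK, hwK⟩
  refine ⟨H, hKH, hHW, hwH, fun y hy hyH => ?_⟩
  have hw' : w ∈ H ⊔ Subgroup.zpowers y := by
    by_contra hn
    have := hmax ⟨hKH.trans le_sup_left, sup_le hHW (Subgroup.zpowers_le.2 hy), hn⟩ le_sup_left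
    exact hyH (this (Subgroup.mem_sup_right (Subgroup.mem_zpowers y)))
  have hle : H ≤ Subgroup.normalizer ((Subgroup.zpowers y : Subgroup G) : Set G) := by
    intro u hu
    haveI : (Subgroup.zpowers y).Normal := ⟨fun v hv g => by
      have hvW : v ∈ W := Subgroup.zpowers_le.2 hy hv
      rw [Subgroup.mem_center_iff.1 (hWc hvW) g, mul_inv_cancel_right]; exact hv⟩
    exact Subgroup.normalizer_eq_top (Subgroup.zpowers y) ▸ Subgroup.mem_top u
  rw [← SetLike.mem_coe, Subgroup.coe_mul_of_left_le_normalizer_right H _ hle] at hw'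
  obtain ⟨h, hh, v, hv, hwe⟩ := hw'
  obtain ⟨k, rfl⟩ := Subgroup.mem_zpowers_iff.1 hv
  have hwe' : h * y ^ k = w := hwe
  rcases Int.even_or_odd k with ⟨j, rfl⟩ | ⟨j, rfl⟩
  · exfalso
    apply hwH
    rw [← hwe', zpow_add, ← (Commute.refl y).mul_zpow, hW y hy, one_zpow, mul_one]
    exact hh
  · rw [← hwe', zpow_add, zpow_mul, zpow_ofNat, pow_two, hW y hy, one_zpow, one_mul, zpow_one,
      mul_assoc, hW y hy, mul_one]
    exact hh

theorem deg_sqInd_index_two (hWc : W ≤ Subgroup.center G) (hsq : ∀ x, x * x ∈ W)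
    (hcom : ∀ x y : G, x * y * x⁻¹ * y⁻¹ ∈ W) {H : Subgroup G} (hHW : H ≤ W) {w : G} (hw : w ∈ W)
    (hwH : w ∉ H) (hidx : ∀ y ∈ W, y ∉ H → w * y ∈ H) :
    Deg 2 (sqInd H) ∧ ((∀ x y : G, x * y * x⁻¹ * y⁻¹ ∈ H) → Deg 1 (sqInd H)) := by
  classical
  set χ : G → ZMod 2 := fun u => if u ∈ H then 1 else 0 with hχ
  have hprod : ∀ u v, u ∈ W → v ∈ W → χ (u * v) = χ u + χ v + 1 := by
    intro u v hu hv
    have hwc := fun t => Subgroup.mem_center_iff.1 (hWc hw) t
    by_cases h1 : u ∈ H <;> by_cases h2 : v ∈ H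
    · simp [hχ, h1, h2, H.mul_mem h1 h2]; decide
    · have : u * v ∉ H := fun h => h2 ((H.mul_mem_cancel_left h1).1 h)
      simp [hχ, h1, h2, this]; decide
    · have : u * v ∉ H := fun h => h1 ((H.mul_mem_cancel_right h2).1 h)
      simp [hχ, h1, h2, this]; decide
    · have h3 := H.mul_mem (H.inv_mem (hidx u hu h1)) (hidx v hv h2)
      have h4 : u⁻¹ * v ∈ H := by simpa [mul_assoc] using h3
      have huu : u * u ∈ H := by
        by_contra hn
        have := hidx (u * u) (W.mul_mem hu hu) hn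
        have h5 : u ∈ H := by
          have h6 := H.mul_mem (H.inv_mem (hidx u hu h1)) this
          simpa [mul_assoc] using h6
        exact h1 h5
      have : u * v ∈ H := by
        have := H.mul_mem huu h4
        simpa [mul_assoc] using this
      simp [hχ, h1, h2, this]
  set κ : G → G → ZMod 2 := fun a x => χ (a * x * a⁻¹ * x⁻¹) + 1 with hκ
  have hsqform : ∀ a x, sqInd H (x * a) + sqInd H x = sqInd H a + 1 + κ a x := by
    intro a x
    have hc := hcom a x
    have e : x * a * (x * a) = (a * x * a⁻¹ * x⁻¹) * ((x * x) * (a * a)) := by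
      have hz := Subgroup.mem_center_iff.1 (hWc hc) x
      calc x * a * (x * a) = x * (a * x * a⁻¹ * x⁻¹) * (x * a * a) := by group
        _ = (a * x * a⁻¹ * x⁻¹) * x * (x * a * a) := by rw [hz]
        _ = _ := by group
    have he : ∀ u : G, sqInd H u = χ (u * u) := fun u => by
      unfold sqInd; simp [hχ]
    rw [he, he, he, e, hprod _ _ hc (W.mul_mem (hsq x) (hsq a)), hprod _ _ (hsq x) (hsq a)]
    have key : ∀ p q r : ZMod 2, p + (q + r + 1) + 1 + q = r + 1 + (p + 1) := by decide
    exact key _ _ _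
  have hκhom : ∀ a x y, κ a (x * y) = κ a x + κ a y := by
    intro a x y
    have hz := Subgroup.mem_center_iff.1 (hWc (hcom a y))
    have e : a * (x * y) * a⁻¹ * (x * y)⁻¹ = (a * x * a⁻¹ * x⁻¹) * (a * y * a⁻¹ * y⁻¹) := by
      calc a * (x * y) * a⁻¹ * (x * y)⁻¹
          = (a * x * a⁻¹) * (a * y * a⁻¹ * y⁻¹) * x⁻¹ := by group
        _ = (a * x * a⁻¹) * (x⁻¹ * (a * y * a⁻¹ * y⁻¹)) := by rw [mul_assoc, hz]
        _ = _ := by group
    show χ _ + 1 = _
    rw [e, hprod _ _ (hcom a x) (hcom a y)]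
    have key : ∀ p q : ZMod 2, p + q + 1 + 1 = p + 1 + (q + 1) := by decide
    exact key _ _
  refine ⟨fun a b x => ?_, fun hH a x => ?_⟩
  · show (sqInd H (x * b * a) + sqInd H (x * b)) + (sqInd H (x * a) + sqInd H x) =
      (sqInd H (1 * b * a) + sqInd H (1 * b)) + (sqInd H (1 * a) + sqInd H 1)
    rw [hsqform, hsqform, hsqform, hsqform, hκhom, hκhom]
    have key : ∀ p q r s : ZMod 2, p + (q + r) + (p + q) = p + (s + r) + (p + s) := by decide
    exact key _ _ _ _
  · show sqInd H (x * a) + sqInd H x = sqInd H (1 * a) + sqInd H 1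
    rw [hsqform, hsqform]
    have : ∀ u, κ a u = 0 := fun u => by
      show χ _ + 1 = 0
      simp [hχ, hH a u]; decide
    rw [this, this]

theorem deg_sqInd [Finite G] (hW : ∀ w ∈ W, w * w = 1) (hWc : W ≤ Subgroup.center G)
    (hsq : ∀ x, x * x ∈ W) (hcom : ∀ x y : G, x * y * x⁻¹ * y⁻¹ ∈ W) :
    ∀ (n : ℕ) (K : Subgroup G), K ≤ W → Nat.card W ≤ 2 ^ n * Nat.card K → Deg (2 * n) (sqInd K)
  | 0, K, hK, hc => by
    rw [pow_zero, one_mul] at hc
    rw [Subgroup.eq_of_le_of_card_ge hK hc]
    intro x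
    have h1 : ∀ y, sqInd W y = 1 := fun y => by unfold sqInd; simp [hsq y]
    rw [h1 x, h1 1]
  | n + 1, K, hK, hc => by
    by_cases hKW : K = W
    · exact deg_le (deg_sqInd hW hWc hsq hcom 0 K hK (by rw [hKW]; simp)) (Nat.zero_le _)
    obtain ⟨w, hw, hwK⟩ := SetLike.exists_of_lt (lt_of_le_of_ne hK hKW)
    obtain ⟨H, hKH, hHW, hwH, hidx⟩ := exists_index_two_avoid hW hWc hK hw hwK
    set K' := K ⊔ Subgroup.zpowers w with hK'
    have hK'W : K' ≤ W := sup_le hK (Subgroup.zpowers_le.2 hw)
    have hcard : 2 * Nat.card K ≤ Nat.card K' := by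
      have hlt : K < K' := lt_of_le_of_ne le_sup_left
        (fun h => hwK (h ▸ Subgroup.mem_sup_right (Subgroup.mem_zpowers w)))
      obtain ⟨t, ht⟩ := Subgroup.card_dvd_of_le hlt.le
      rcases t with _ | _ | t
      · rw [mul_zero] at ht; exact absurd ht Nat.card_pos.ne'
      · exact absurd (Subgroup.eq_of_le_of_card_ge hlt.le (by rw [ht]; simp)) hlt.ne
      · rw [ht, mul_comm 2]; exact Nat.mul_le_mul_left _ (by omega)
    have hinf : K = H ⊓ K' := by
      refine le_antisymm (le_inf hKH le_sup_left) ?_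
      rintro x ⟨hxH, hxK'⟩
      have hle : K ≤ Subgroup.normalizer ((Subgroup.zpowers w : Subgroup G) : Set G) := by
        intro u _
        haveI : (Subgroup.zpowers w).Normal := ⟨fun v hv g => by
          rw [Subgroup.mem_center_iff.1 (hWc (Subgroup.zpowers_le.2 hw hv)) g, mul_inv_cancel_right]
          exact hv⟩
        exact Subgroup.normalizer_eq_top (Subgroup.zpowers w) ▸ Subgroup.mem_top u
      have hxK2 : x ∈ ((K ⊔ Subgroup.zpowers w : Subgroup G) : Set G) := hxK'
      rw [Subgroup.coe_mul_of_left_le_normalizer_right K _ hle] at hxK2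
      obtain ⟨k, hk, v, hv, rfl⟩ := hxK2
      obtain ⟨i, rfl⟩ := Subgroup.mem_zpowers_iff.1 hv
      rcases Int.even_or_odd i with ⟨j, rfl⟩ | ⟨j, rfl⟩
      · show k * w ^ (j + j) ∈ K
        rw [zpow_add, ← (Commute.refl w).mul_zpow, hW w hw, one_zpow, mul_one]
        exact hk
      · exfalso
        apply hwH
        have h1 : k * w ^ (2 * j + 1) ∈ H := hxH
        rw [zpow_add, zpow_mul, zpow_ofNat, pow_two, hW w hw, one_zpow, one_mul, zpow_one] at h1
        exact (H.mul_mem_cancel_left (hKH hk)).1 h1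
    have hd := deg_sqInd hW hWc hsq hcom n K' hK'W (by
      calc Nat.card W ≤ 2 ^ (n + 1) * Nat.card K := hc
        _ = 2 ^ n * (2 * Nat.card K) := by ring
        _ ≤ 2 ^ n * Nat.card K' := Nat.mul_le_mul_left _ hcard)
    have := deg_mul (2 * (n + 1)) 2 (2 * n) (by omega) (deg_sqInd_index_two hWc hsq hcom hHW hw hwH hidx).1 hd
    rw [hinf]
    convert this using 1
    funext x
    exact sqInd_inf H K' x

end Degree

/-- Let G be a finite 2-group of nilpotency class at most 2 and exponent dividing 4 in which the elements x with x² = 1 form a subgroup N. Then |G| ≤ |N|³, and |G| < |N|³ unless G is special. -/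
theorem result {G : Type*} [Group G] [Finite G] (hG : IsPGroup 2 G) (hcl : (⊤ : Subgroup G).lowerCentralSeries 2 = ⊥) (hexp : ∀ x : G, x ^ 4 = 1) (hN : ∀ x y : G, x ^ 2 = 1 → y ^ 2 = 1 → (x * y) ^ 2 = 1) : Nat.card G ≤ Nat.card {x : G // x ^ 2 = 1} ^ 3 ∧ (¬ Cfsg.IsSpecial 2 G → Nat.card G < Nat.card {x : G // x ^ 2 = 1} ^ 3) := by
  classical
  haveI : Fact (Nat.Prime 2) := ⟨Nat.prime_two⟩
  let N : Subgroup G :=
    { carrier := {x | x ^ 2 = 1}
      one_mem' := one_pow 2
      mul_mem' := fun ha hb => hN _ _ ha hb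
      inv_mem' := fun {a} ha => by simp only [Set.mem_ofPred_eq] at ha ⊢; rw [inv_pow, ha, inv_one] }
  have hNcard : Nat.card {x : G // x ^ 2 = 1} = Nat.card N := rfl
  rw [hNcard]
  have hlc : commutator G ≤ Subgroup.center G := by
    intro u hu
    rw [Subgroup.mem_center_iff]
    intro g
    have h : ⁅(⊤ : Subgroup G).lowerCentralSeries 1, (⊤ : Subgroup G)⁆ = ⊥ := hcl
    rw [Subgroup.top_lowerCentralSeries_one] at h
    exact Subgroup.mem_centralizer_iff.1
      (Subgroup.commutator_eq_bot_iff_le_centralizer.1 h hu) g (Subgroup.mem_top g)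
  have hcmem : ∀ x y : G, x * y * x⁻¹ * y⁻¹ ∈ commutator G := fun x y =>
    Subgroup.commutator_mem_commutator (Subgroup.mem_top x) (Subgroup.mem_top y)
  have hzc : ∀ x y t : G, t * (x * y * x⁻¹ * y⁻¹) = (x * y * x⁻¹ * y⁻¹) * t := fun x y t =>
    Subgroup.mem_center_iff.1 (hlc (hcmem x y)) t
  have hcom2 : ∀ x y : G, (x * y * x⁻¹ * y⁻¹) ^ 2 = 1 := by
    intro x y
    set c := x * y * x⁻¹ * y⁻¹ with hc
    have hcc : ∀ t, t * c = c * t := hzc x y
    have hxy : x * y = c * (y * x) := by rw [hc]; group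
    have hyx : ∀ t, x * (y * t) = c * (y * (x * t)) := fun t => by
      rw [← mul_assoc, hxy]; simp [mul_assoc]
    have hcl' : ∀ t u, t * (c * u) = c * (t * u) := fun t u => by
      rw [← mul_assoc, hcc, mul_assoc]
    have e : (y * x) ^ 4 = c ^ 6 * (y ^ 4 * x ^ 4) := by
      simp only [pow_succ, pow_zero, one_mul, mul_assoc]
      simp [hyx, hcl', hxy, mul_assoc]
    rw [hexp, hexp, hexp, mul_one, mul_one] at e
    have h4 := hexp c
    calc c ^ 2 = c ^ 2 * c ^ 4 := by rw [h4, mul_one]
      _ = c ^ 6 := by rw [← pow_add]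
      _ = 1 := e.symm
  have hsqc : ∀ x : G, x ^ 2 ∈ Subgroup.center G := by
    intro x
    rw [Subgroup.mem_center_iff]
    intro g
    set c := g * x * g⁻¹ * x⁻¹ with hc
    have hcc := hzc g x
    have hgx : g * x = c * (x * g) := by rw [hc]; group
    have hcl' : ∀ t u : G, t * (c * u) = c * (t * u) := fun t u => by
      rw [← mul_assoc, hcc, mul_assoc]
    have hgx' : ∀ t, g * (x * t) = c * (x * (g * t)) := fun t => by
      rw [← mul_assoc, hgx]; simp [mul_assoc]
    calc g * x ^ 2 = g * (x * x) := by rw [pow_two]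
      _ = c * (x * (c * (x * g))) := by rw [hgx', hgx]
      _ = c ^ 2 * (x ^ 2 * g) := by rw [hcl', pow_two, pow_two]; simp only [mul_assoc]
      _ = x ^ 2 * g := by rw [hcom2, one_mul]
  set W := N ⊓ Subgroup.center G with hWdef
  have hW : ∀ w ∈ W, w * w = 1 := fun w hw => by
    have := hw.1; rw [← pow_two]; exact this
  have hWc : W ≤ Subgroup.center G := inf_le_right
  have hsq : ∀ x, x * x ∈ W := fun x => by
    rw [← pow_two]
    refine ⟨?_, hsqc x⟩
    show (x ^ 2) ^ 2 = 1
    rw [← pow_mul]; exact hexp x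
  have hcom : ∀ x y : G, x * y * x⁻¹ * y⁻¹ ∈ W := fun x y => ⟨hcom2 x y, hlc (hcmem x y)⟩
  obtain ⟨m, hm⟩ := IsPGroup.iff_card.1 (hG.to_subgroup W)
  obtain ⟨n, hn⟩ := IsPGroup.iff_card.1 (hG.to_subgroup N)
  have hmn : m ≤ n := by
    have := Subgroup.card_le_of_le (inf_le_left : W ≤ N)
    rw [hm, hn] at this
    exact (Nat.pow_le_pow_iff_right (le_refl 2)).1 this
  have hsupp : ∀ K : Subgroup G, ∀ d, Deg d (sqInd K) →
      Nat.card G ≤ 2 ^ d * Nat.card {x : G // x * x ∈ K} := fun K d hd => by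
    have := card_le_support hd ⟨1, sqInd_ne_zero.2 (by simp)⟩
    rwa [Nat.card_congr (Equiv.subtypeEquivRight fun x => sqInd_ne_zero (K := K) (x := x))] at this
  have hbase : Nat.card G ≤ 2 ^ (2 * m) * Nat.card N := by
    have := hsupp ⊥ (2 * m) (deg_sqInd hW hWc hsq hcom m ⊥ bot_le (by simp [hm]))
    rwa [Nat.card_congr (Equiv.subtypeEquivRight fun x : G =>
      show x * x ∈ (⊥ : Subgroup G) ↔ x ∈ N by rw [Subgroup.mem_bot, ← pow_two]; rfl)] at this
  have hcube : Nat.card N ^ 3 = 2 ^ (2 * n) * 2 ^ n := by rw [hn]; ring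
  refine ⟨?_, fun hns => ?_⟩
  · rw [hcube]
    refine hbase.trans ?_
    rw [hn]
    exact Nat.mul_le_mul_right _ (Nat.pow_le_pow_right (by norm_num) (by omega))
  · by_contra hlt
    push Not at hlt
    rw [hcube] at hlt
    rw [hn] at hbase
    have hnm : m = n := by
      have h := (hlt.trans hbase)
      have := Nat.le_of_mul_le_mul_right h (Nat.two_pow_pos n)
      have := (Nat.pow_le_pow_iff_right (le_refl 2)).1 this
      omega
    have hWN : W = N := Subgroup.eq_of_le_of_card_ge inf_le_left (by rw [hm, hn, hnm])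
    have hNZ : N ≤ Subgroup.center G := hWN ▸ inf_le_right
    have hNW : N ≤ W := hWN.ge
    -- the centre consists of involutions
    have hZN : Subgroup.center G ≤ N := by
      intro x0 hx0
      by_contra hx
      set a := x0 * x0 with ha
      have ha1 : a ≠ 1 := fun h => hx (by show x0 ^ 2 = 1; rw [pow_two]; exact h)
      have haW : a ∈ W := hsq x0
      have hn1 : 1 ≤ n := by
        by_contra h0
        have : W = ⊥ := Subgroup.card_eq_one.1 (by rw [hm, hnm, show n = 0 by omega, pow_zero])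
        rw [this, Subgroup.mem_bot] at haW
        exact ha1 haW
      have hKc : Nat.card (Subgroup.zpowers a) = 2 := by
        rw [Nat.card_zpowers, orderOf_eq_prime (by rw [pow_two]; exact hW a haW) ha1]
      have hd := hsupp (Subgroup.zpowers a) (2 * (n - 1))
        (deg_sqInd hW hWc hsq hcom (n - 1) _ (Subgroup.zpowers_le.2 haW) (by
          rw [hm, hKc, hnm, ← pow_succ, Nat.sub_add_cancel hn1]))
      have hle : Nat.card {x : G // x * x ∈ Subgroup.zpowers a} ≤ 2 * Nat.card N := by
        let F : {x : G // x * x ∈ Subgroup.zpowers a} → N ⊕ N := fun x =>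
          if h : x.1 * x.1 = 1 then Sum.inl ⟨x.1, by show x.1 ^ 2 = 1; rw [pow_two, h]⟩ else
            Sum.inr ⟨x0⁻¹ * x.1, by
              have hxa : x.1 * x.1 = a := by
                obtain ⟨i, hi⟩ := Subgroup.mem_zpowers_iff.1 x.2
                rcases Int.even_or_odd i with ⟨j, rfl⟩ | ⟨j, rfl⟩
                · exact absurd (by rw [← hi, zpow_add, ← (Commute.refl a).mul_zpow, hW a haW, one_zpow]) h
                · rw [← hi, zpow_add, zpow_mul, zpow_ofNat, pow_two, hW a haW, one_zpow, one_mul, zpow_one]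
              show (x0⁻¹ * x.1) ^ 2 = 1
              have hcx : Commute x0⁻¹ x.1 := (Commute.symm (Subgroup.mem_center_iff.1 hx0 x.1)).inv_left
              rw [hcx.mul_pow, inv_pow, pow_two, pow_two, hxa, ← ha, inv_mul_cancel]⟩
        have hF : Function.Injective F := by
          intro u v huv
          simp only [F] at huv
          split at huv <;> split at huv <;> simp at huv <;> exact Subtype.ext huv
        have := Nat.card_le_card_of_injective F hF
        rw [Nat.card_sum] at this
        omega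
      have h3 := hlt.trans (hd.trans (Nat.mul_le_mul_left _ hle))
      rw [hn, show 2 ^ (2 * (n - 1)) * (2 * 2 ^ n) = 2 ^ (2 * (n - 1) + 1) * 2 ^ n by ring] at h3
      have := Nat.le_of_mul_le_mul_right h3 (Nat.two_pow_pos n)
      have := (Nat.pow_le_pow_iff_right (le_refl 2)).1 this
      omega
    have hNc : N ≤ commutator G := by
      intro w hw
      by_contra hwc
      have hcW : commutator G ≤ W := by
        rw [hWN]
        rw [commutator_eq_closure, Subgroup.closure_le]
        rintro _ ⟨x, y, rfl⟩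
        exact hWN ▸ hcom x y
      obtain ⟨H, hKH, hHW, hwH, hidx⟩ := exists_index_two_avoid hW hWc hcW (hNW hw) hwc
      have hn1 : 1 ≤ n := by
        by_contra h0
        have : N = ⊥ := Subgroup.card_eq_one.1 (by rw [hn, show n = 0 by omega, pow_zero])
        rw [this, Subgroup.mem_bot] at hw
        exact hwH (hw ▸ one_mem H)
      have hd1 := (deg_sqInd_index_two hWc hsq hcom hHW (hNW hw) hwH hidx).2 (fun x y => hKH (hcmem x y))
      have hK2 : Nat.card (Subgroup.zpowers w) = 2 := by
        rw [Nat.card_zpowers, orderOf_eq_prime (show w ^ 2 = 1 from hw) (fun h => hwH (h ▸ one_mem H))]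
      have hd2 := deg_sqInd hW hWc hsq hcom (n - 1) (Subgroup.zpowers w)
        (Subgroup.zpowers_le.2 (hNW hw))
        (by rw [hm, hK2, hnm, ← pow_succ, Nat.sub_add_cancel hn1])
      have hmul := deg_mul (1 + 2 * (n - 1)) 1 (2 * (n - 1)) rfl hd1 hd2
      have hbot : H ⊓ Subgroup.zpowers w = ⊥ := by
        rw [eq_bot_iff]
        rintro x ⟨hxH, hxw⟩
        obtain ⟨i, rfl⟩ := Subgroup.mem_zpowers_iff.1 hxw
        rcases Int.even_or_odd i with ⟨j, rfl⟩ | ⟨j, rfl⟩
        · rw [Subgroup.mem_bot, zpow_add, ← (Commute.refl w).mul_zpow, hW w (hNW hw), one_zpow]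
        · refine absurd ?_ hwH
          have h1 : w ^ (2 * j + 1) ∈ H := hxH
          rwa [zpow_add, zpow_mul, zpow_ofNat, pow_two, hW w (hNW hw), one_zpow, one_mul, zpow_one] at h1
      have hd3 : Deg (1 + 2 * (n - 1)) (sqInd (⊥ : Subgroup G)) := by
        rw [← hbot]
        convert hmul using 1
        funext x
        exact sqInd_inf _ _ x
      have h3 := hsupp ⊥ _ hd3
      rw [Nat.card_congr (Equiv.subtypeEquivRight fun x : G =>
        show x * x ∈ (⊥ : Subgroup G) ↔ x ∈ N by rw [Subgroup.mem_bot, ← pow_two]; rfl)] at h3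
      rw [hn] at h3
      have := Nat.le_of_mul_le_mul_right (hlt.trans h3) (Nat.two_pow_pos n)
      have := (Nat.pow_le_pow_iff_right (le_refl 2)).1 this
      omega
    have hZeq : Subgroup.center G = N := le_antisymm hZN hNZ
    have hceq : commutator G = N := le_antisymm (hlc.trans hZN) hNc
    refine hns ⟨hG, ?_, hceq.trans hZeq.symm⟩
    rw [hZeq]
    refine le_antisymm (CfsgLib.PGroups.frattini_le_of (p := 2) (hlc.trans hZN) fun x => ?_) ?_
    · rw [← hWN, pow_two]; exact hsq x
    · exact hceq ▸ CfsgLib.PGroups.commutator_le_frattini hG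

end Cfsg.Agent.S3773
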