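import Cfsg.Statements.S3774

set_option autoImplicit false
open Cfsg

namespace Cfsg.Agent.S3774

private theorem exists_pow_involution {G : Type*} [Group G] [Finite G] (hG : IsPGroup 2 G) (x : G)
    (hx : x ≠ 1) : ∃ e : ℕ, (x ^ e) ^ 2 = 1 ∧ x ^ e ≠ 1 := by
  obtain ⟨k, hk⟩ := (IsPGroup.iff_orderOf (p := 2)).mp hG x
  rcases k with _ | j
  · simp at hk; exact absurd hk hx
  · refine ⟨2 ^ j, ?_, ?_⟩
    · rw [← pow_mul, ← pow_succ, ← hk, pow_orderOf_eq_one]
    · apply pow_ne_one_of_lt_orderOf (by positivity)
      rw [hk]; exact Nat.pow_lt_pow_right (by norm_num) (by omega)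

/-- Let G be a nontrivial finite 2-group whose automorphism group permutes the involutions of G transitively. Then every involution of G is central, so that the involutions together with 1 form the subgroup Ω₁(Z(G)), and if this subgroup has order q then |G| is a power of q. -/
theorem result {G : Type*} [Group G] [Finite G] [Nontrivial G] (hG : IsPGroup 2 G) (htrans : ∀ x y : G, x ≠ 1 → x ^ 2 = 1 → y ≠ 1 → y ^ 2 = 1 → ∃ a : MulAut G, a x = y) : (∀ x : G, x ^ 2 = 1 → x ∈ Subgroup.center G) ∧ ∃ m : ℕ, Nat.card G = Nat.card {z : G // z ^ 2 = 1} ^ m := by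
  classical
  have := Fintype.ofFinite G
  obtain ⟨e0, he0⟩ : ∃ z ∈ Subgroup.center G, z ≠ 1 ∧ z ^ 2 = 1 := by
    have : Nontrivial (Subgroup.center G) := IsPGroup.center_nontrivial hG
    obtain ⟨⟨y, hy⟩, hy1⟩ := exists_ne (1 : Subgroup.center G)
    obtain ⟨e, h1, h2⟩ := exists_pow_involution hG y (by simpa using hy1)
    exact ⟨y ^ e, pow_mem hy e, h2, h1⟩
  obtain ⟨hz0, hz1, hz2⟩ := he0
  refine ⟨fun x hx => ?_, ?_⟩
  · by_cases h1 : x = 1
    · subst h1; exact one_mem _
    · obtain ⟨a, rfl⟩ := htrans e0 x hz1 hz2 h1 hx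
      rw [Subgroup.mem_center_iff] at hz0 ⊢
      intro g
      obtain ⟨g, rfl⟩ := a.surjective g
      simp only [← map_mul, hz0 g]
  · -- every orbit of `MulAut G` on `G ∖ {1}` has size divisible by the number of involutions
    set S : Set G := {z | z ^ 2 = 1 ∧ z ≠ 1} with hS
    have horb : ∀ z ∈ S, MulAction.orbit (MulAut G) z = S := by
      intro z hz
      ext y
      constructor
      · rintro ⟨a, rfl⟩
        refine ⟨?_, ?_⟩
        · show (a z) ^ 2 = 1
          rw [← map_pow, hz.1, map_one]
        · show a z ≠ 1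
          simpa using hz.2
      · intro hy
        obtain ⟨a, ha⟩ := htrans z y hz.2 hz.1 hy.2 hy.1
        exact ⟨a, ha⟩
    have hdvd : ∀ x : G, x ≠ 1 → S.ncard ∣ (MulAction.orbit (MulAut G) x).ncard := by
      intro x hx
      obtain ⟨e, h1, h2⟩ := exists_pow_involution hG x hx
      rw [← horb (x ^ e) ⟨h1, h2⟩, ← MulAction.index_stabilizer, ← MulAction.index_stabilizer]
      apply Subgroup.index_dvd_of_le
      intro a ha
      rw [MulAction.mem_stabilizer_iff] at ha ⊢
      rw [smul_pow', ha]
    have hsum : S.ncard ∣ Nat.card G - 1 := by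
      have hcard : Nat.card G - 1 = (Finset.univ.filter (fun x : G => x ≠ 1)).card := by
        rw [Finset.filter_ne', Finset.card_erase_of_mem (Finset.mem_univ _),
          Nat.card_eq_fintype_card]
        rfl
      rw [hcard, Finset.card_eq_sum_card_image (fun x : G => MulAction.orbit (MulAut G) x)]
      refine Finset.dvd_sum fun o ho => ?_
      simp only [Finset.mem_image, Finset.mem_filter, Finset.mem_univ, true_and] at ho
      obtain ⟨x, hx, rfl⟩ := ho
      refine (hdvd x hx).trans (dvd_of_eq ?_)
      rw [Set.ncard_eq_toFinset_card']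
      congr 1
      ext y
      simp only [Set.mem_toFinset, Finset.mem_filter, Finset.mem_univ, true_and,
        MulAction.orbit_eq_iff]
      refine ⟨fun h => ⟨?_, h⟩, fun h => h.2⟩
      rintro rfl
      obtain ⟨a, ha⟩ := h
      exact hx (by simpa using ha)
    have hq : Nat.card {z : G // z ^ 2 = 1} = S.ncard + 1 := by
      have : {z : G | z ^ 2 = 1} = insert 1 S := by
        ext z
        simp only [hS, Set.mem_insert_iff, Set.mem_setOf_eq]
        constructor
        · intro h; by_cases h1 : z = 1 <;> simp [h1, h]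
        · rintro (rfl | h)
          · simp
          · exact h.1
      rw [show Nat.card {z : G // z ^ 2 = 1} = ({z : G | z ^ 2 = 1}).ncard from
        Nat.card_coe_set_eq _, this, Set.ncard_insert_of_notMem (by simp [hS])]
    have hcomm : ∀ a b : G, a ^ 2 = 1 → b ^ 2 = 1 → (a * b) ^ 2 = 1 := by
      intro a b ha hb
      have hac : a ∈ Subgroup.center G := by
        by_cases h1 : a = 1
        · subst h1; exact one_mem _
        · obtain ⟨f, rfl⟩ := htrans e0 a hz1 hz2 h1 ha
          rw [Subgroup.mem_center_iff] at hz0 ⊢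
          intro g
          obtain ⟨g, rfl⟩ := f.surjective g
          simp only [← map_mul, hz0 g]
      have : Commute a b := (Subgroup.mem_center_iff.mp hac b).symm
      rw [this.mul_pow, ha, hb, mul_one]
    let A : Subgroup G :=
      { carrier := {z | z ^ 2 = 1}
        one_mem' := by simp
        mul_mem' := fun ha hb => hcomm _ _ ha hb
        inv_mem' := fun ha => by simpa using ha }
    obtain ⟨k, hk⟩ := (hG.to_subgroup A).exists_card_eq
    obtain ⟨N, hN⟩ := hG.exists_card_eq
    have hkA : Nat.card {z : G // z ^ 2 = 1} = 2 ^ k := hk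
    have hdiv : 2 ^ k - 1 ∣ 2 ^ N - 1 := by
      rw [← hkA, ← hN, hq, Nat.add_sub_cancel]; exact hsum
    have hkN : k ∣ N := by
      have h := Nat.pow_sub_one_gcd_pow_sub_one 2 k N
      rw [Nat.gcd_eq_left hdiv] at h
      have h' : 2 ^ k = 2 ^ Nat.gcd k N := by
        have := Nat.one_le_two_pow (n := k)
        have := Nat.one_le_two_pow (n := Nat.gcd k N)
        omega
      have := Nat.pow_right_injective (le_refl 2) h'
      exact this ▸ Nat.gcd_dvd_right k N
    obtain ⟨m, rfl⟩ := hkN
    exact ⟨m, by rw [hN, hkA, pow_mul]⟩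

end Cfsg.Agent.S3774
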