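import Cfsg.Statements.S3776
import Cfsg.Agent.Lib.SuzukiTrans.Class
import Cfsg.Agent.Lib.PGroups.Frattini

set_option autoImplicit false
open Cfsg
open scoped commutatorElement

namespace Cfsg.Agent.S3776

/-- Let G be a finite non-abelian 2-group with more than one involution admitting a solvable group of automorphisms that permutes its involutions transitively. Then the derived subgroup, the Frattini subgroup and the centre of G coincide and consist exactly of the elements x with x² = 1. -/
theorem result {G : Type*} [Group G] [Finite G] (hG : IsPGroup 2 G) (hna : ¬ IsMulCommutative G) (htwo : ∃ x y : G, x ≠ y ∧ x ≠ 1 ∧ x ^ 2 = 1 ∧ y ≠ 1 ∧ y ^ 2 = 1) (hY : ∃ Y : Subgroup (MulAut G), Group.IsSolvable Y ∧ ∀ x y : G, x ≠ 1 → x ^ 2 = 1 → y ≠ 1 → y ^ 2 = 1 → ∃ a ∈ Y, a x = y) : commutator G = frattini G ∧ frattini G = Subgroup.center G ∧ ∀ x : G, x ∈ Subgroup.center G ↔ x ^ 2 = 1 := by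
  obtain ⟨Y, hsol, htr⟩ := hY
  simp only [pow_two] at htwo htr
  have hT : CfsgLib.SuzukiTrans.IsTrans Y :=
    { finite := inferInstance
      isPGroup := hG
      nonab := by
        by_contra h
        push Not at h
        exact hna ⟨⟨h⟩⟩
      two := htwo
      trans := fun x y h1 h2 h3 h4 => by
        obtain ⟨a, ha, hax⟩ := htr x y h1 h2 h3 h4
        exact ⟨⟨a, ha⟩, hax⟩ }
  obtain ⟨F, _, _, _, η, n, d, hC⟩ := hT.exists_coord hsol
  have htop := CfsgLib.SuzukiTrans.layer_center_eq_top hT hC
  have hmem : ∀ y : G, y * y ∈ Subgroup.center G ∧ ∀ p : G, ⁅p, y⁆ ∈ Subgroup.center G :=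
    fun y => CfsgLib.SuzukiTrans.mem_layer.1 (htop ▸ Subgroup.mem_top y)
  have hle : commutator G ≤ Subgroup.center G := by
    rw [commutator_def, Subgroup.commutator_le]
    exact fun a _ b _ => (hmem b).2 a
  have hne : commutator G ≠ ⊥ := fun h => hna ⟨⟨fun x y => by
    have := Subgroup.commutator_mem_commutator (Subgroup.mem_top x) (Subgroup.mem_top y)
    rw [← commutator_def, h, Subgroup.mem_bot] at this
    exact commutatorElement_eq_one_iff_mul_comm.1 this⟩⟩
  have hge : Subgroup.center G ≤ commutator G := fun x hx =>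
    hT.involution_mem (fun k a ha => Subgroup.characteristic_iff_le_comap.1
      (inferInstance : (commutator G).Characteristic) (k : MulAut G) ha) hne
      (CfsgLib.SuzukiTrans.center_sq_eq_one hT hC hx)
  have := Fact.mk Nat.prime_two
  have hcf := CfsgLib.PGroups.commutator_le_frattini hG
  have hfz : frattini G ≤ Subgroup.center G :=
    CfsgLib.PGroups.frattini_le_of hle fun x => by rw [pow_two]; exact (hmem x).1
  exact ⟨le_antisymm hcf (hfz.trans hge), le_antisymm hfz (hge.trans hcf),
    fun x => by rw [pow_two]; exact CfsgLib.SuzukiTrans.mem_center_iff_sq hT hC⟩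

end Cfsg.Agent.S3776
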