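import Cfsg.Statements.S3777
import Cfsg.Agent.Lib.VaughanLee.Main

set_option autoImplicit false
open Cfsg

namespace Cfsg.Agent.S3777

/-- Vaughan-Lee's Theorem: if G is a finite p-group in which every conjugacy class has at most p^b elements (every element has centralizer of index at most p^b), then the derived subgroup of G has order at most p^(b(b+1)/2). -/
theorem result {G : Type*} [Group G] [Finite G] {p : ℕ} [Fact p.Prime] (hG : IsPGroup p G) (b : ℕ) (hb : ∀ x : G, (Subgroup.centralizer ({x} : Set G)).index ≤ p ^ b) : Nat.card (commutator G) ≤ p ^ (b * (b + 1) / 2) := by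
  by_cases hc : ∀ a c : G, a * c = c * a
  · have h : commutator G = ⊥ := by
      rw [commutator_def, eq_bot_iff, Subgroup.commutator_le]
      intro a _ c _
      rw [Subgroup.mem_bot, commutatorElement_eq_one_iff_mul_comm]
      exact hc a c
    rw [h, Subgroup.card_bot]
    exact Nat.one_le_pow _ _ (Fact.out : p.Prime).pos
  · have hne : Subgroup.center G ≠ ⊤ := fun h =>
      hc fun a c => Subgroup.mem_center_iff.1 (h ▸ Subgroup.mem_top c) a
    obtain ⟨M, -, hMn, hM, -⟩ := CfsgLib.PGroups.exists_le_index_prime hG hne
    exact CfsgLib.VaughanLee.breadthBound p b G hG M hMn hM fun y _ => hb y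

end Cfsg.Agent.S3777
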