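import Cfsg.Statements.S3778
import Cfsg.Agent.Lib.Kreknin.LCSRing

set_option autoImplicit false
open Cfsg

namespace Cfsg.Agent.S3778

open scoped commutatorElement

universe uG

section Aux

open CfsgLib.Kreknin

variable {G : Type uG} [Group G]

/-- The two-step centralizer. -/
def twoStep (i : ℕ) : Subgroup G where
  carrier := {x | ∀ g ∈ lc G i, ⁅g, x⁆ ∈ lc G (i + 2)}
  one_mem' g _ := by simp
  mul_mem' {x y} hx hy g hg := by
    have e : ⁅g, x * y⁆ = ⁅g, x⁆ * (x * ⁅g, y⁆ * x⁻¹) := by simp [commutatorElement_def, mul_assoc]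
    rw [e]
    exact mul_mem (hx g hg) ((inferInstance : (lc G (i + 2)).Normal).conj_mem _ (hy g hg) x)
  inv_mem' {x} hx g hg := by
    have e : ⁅g, x⁻¹⁆ = x⁻¹ * ⁅g, x⁆⁻¹ * x⁻¹⁻¹ := by simp [commutatorElement_def, mul_assoc]
    rw [e]
    exact (inferInstance : (lc G (i + 2)).Normal).conj_mem _ (inv_mem (hx g hg)) _

theorem card_centralizer_mul_pow_le [Finite G] {p : ℕ} [Fact p.Prime] (hG : IsPGroup p G) (x : G)
    [DecidablePred fun i => x ∉ twoStep (G := G) i] :
    ∀ n : ℕ, Nat.card ↥(lc G n ⊔ Subgroup.centralizer ({x} : Set G)) *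
      p ^ ((Finset.range n).filter fun i => x ∉ twoStep i).card ≤ Nat.card G
  | 0 => by simpa using Subgroup.card_le_card_group _
  | n + 1 => by
    have ih := card_centralizer_mul_pow_le hG x n
    rw [Finset.range_add_one, Finset.filter_insert]
    set K := lc G n ⊔ Subgroup.centralizer ({x} : Set G)
    set K' := lc G (n + 1) ⊔ Subgroup.centralizer ({x} : Set G)
    have hle : K' ≤ K := sup_le_sup_right (lc_succ_le n) _
    by_cases hx : x ∉ twoStep n
    · rw [if_pos hx, Finset.card_insert_of_notMem (by simp)]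
      have hlt : K' ≠ K := by
        intro he
        apply hx
        intro g hg
        have hgK : g ∈ K' := he ▸ Subgroup.mem_sup_left hg
        rw [Subgroup.mem_sup_of_normal_left] at hgK
        obtain ⟨h, hh, c, hc, rfl⟩ := hgK
        have hcx : ⁅c, x⁆ = 1 :=
          commutatorElement_eq_one_iff_mul_comm.2 (Subgroup.mem_centralizer_singleton_iff.1 hc)
        have e : ⁅h * c, x⁆ = (h * ⁅c, x⁆ * h⁻¹) * ⁅h, x⁆ := by
          simp [commutatorElement_def, mul_assoc]
        rw [e, hcx, mul_one, mul_inv_cancel, one_mul]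
        exact lc_comm_mem hh (mem_lc_zero x) (by omega)
      have hcard : Nat.card K' * p ≤ Nat.card K := by
        obtain ⟨a, ha⟩ := IsPGroup.iff_card.1 (hG.to_subgroup K')
        obtain ⟨b, hb⟩ := IsPGroup.iff_card.1 (hG.to_subgroup K)
        rw [ha, hb, ← pow_succ]
        refine Nat.pow_le_pow_right (Fact.out : p.Prime).pos ?_
        by_contra hlt'
        exact hlt (Subgroup.eq_of_le_of_card_ge hle (by
          rw [ha, hb]; exact Nat.pow_le_pow_right (Fact.out : p.Prime).pos (by omega)))
      calc Nat.card K' * p ^ (((Finset.range n).filter fun i => x ∉ twoStep i).card + 1)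
          = Nat.card K' * p * p ^ ((Finset.range n).filter fun i => x ∉ twoStep i).card := by
            rw [pow_succ']; ring
        _ ≤ Nat.card K * p ^ ((Finset.range n).filter fun i => x ∉ twoStep i).card :=
            Nat.mul_le_mul_right _ hcard
        _ ≤ _ := ih
    · rw [if_neg hx]
      exact (Nat.mul_le_mul_right _ (Subgroup.card_le_of_le hle)).trans ih

theorem class_bound [Finite G] {p : ℕ} [hp : Fact p.Prime] (hG : IsPGroup p G) (b : ℕ)
    (hb : ∀ x : G, (Subgroup.centralizer ({x} : Set G)).index ≤ p ^ b) {c : ℕ} (hc : lc G c = ⊥)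
    (hmin : ∀ m < c, lc G m ≠ ⊥) (hc2 : 2 ≤ c) : (c - 1) * (p - 1) < b * p := by
  classical
  have := Fintype.ofFinite G
  have hproper : ∀ i < c - 1, Nat.card ↥(twoStep (G := G) i) * p ≤ Nat.card G := by
    intro i hi
    obtain ⟨a, ha⟩ := IsPGroup.iff_card.1 (hG.to_subgroup (twoStep (G := G) i))
    obtain ⟨t, ht⟩ := IsPGroup.iff_card.1 hG
    rw [ha, ht, ← pow_succ]
    refine Nat.pow_le_pow_right hp.out.pos ?_
    by_contra hlt
    have htop : twoStep (G := G) i = ⊤ := Subgroup.eq_top_of_card_eq _
      (le_antisymm (Subgroup.card_le_card_group _) (by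
        rw [ha, ht]; exact Nat.pow_le_pow_right hp.out.pos (by omega)))
    have hstep : lc G (i + 1) ≤ lc G (i + 2) := Subgroup.commutator_le.2 fun g hg x _ =>
      (htop ▸ Subgroup.mem_top x : x ∈ twoStep i) g hg
    have hall : ∀ m, lc G (i + 1) ≤ lc G (i + 1 + m) := by
      intro m
      induction m with
      | zero => exact le_rfl
      | succ m ih => exact hstep.trans ((Subgroup.commutator_mono ih le_rfl).trans_eq (by rfl))
    refine hmin (i + 1) (by omega) (le_bot_iff.1 ((hall c).trans ?_))
    rw [← hc]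
    exact Subgroup.lowerCentralSeries_antitone (⊤ : Subgroup G) (Nat.le_add_left c (i + 1))
  set inC : G → ℕ := fun x => ((Finset.range (c - 1)).filter fun i => x ∈ twoStep i).card with hin
  have hsum : (∑ x : G, inC x) * p ≤ Nat.card G * (c - 1) := by
    have : ∑ x : G, inC x = ∑ i ∈ Finset.range (c - 1), Nat.card ↥(twoStep (G := G) i) := by
      simp only [hin, Finset.card_filter]
      rw [Finset.sum_comm]
      refine Finset.sum_congr rfl fun i _ => ?_
      rw [← Finset.card_filter, Nat.card_eq_fintype_card, ← Fintype.card_subtype]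
    rw [this, Finset.sum_mul]
    calc ∑ i ∈ Finset.range (c - 1), Nat.card ↥(twoStep (G := G) i) * p
        ≤ ∑ _i ∈ Finset.range (c - 1), Nat.card G :=
          Finset.sum_le_sum fun i hi => hproper i (Finset.mem_range.1 hi)
      _ = _ := by rw [Finset.sum_const, Finset.card_range, smul_eq_mul, mul_comm]
  obtain ⟨x, hx⟩ : ∃ x : G, inC x * p < c - 1 := by
    by_contra hno
    push Not at hno
    have h1 : inC (1 : G) = c - 1 := by
      simp [hin, one_mem, Finset.filter_true_of_mem]
    have hlt : ∑ _x : G, (c - 1) < ∑ x : G, inC x * p := by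
      refine Finset.sum_lt_sum (fun x _ => hno x) ⟨1, Finset.mem_univ 1, ?_⟩
      rw [h1]
      calc c - 1 = (c - 1) * 1 := (mul_one _).symm
        _ < (c - 1) * p := Nat.mul_lt_mul_of_pos_left hp.out.one_lt (by omega)
    rw [Finset.sum_const, Finset.card_univ, smul_eq_mul, ← Nat.card_eq_fintype_card,
      ← Finset.sum_mul] at hlt
    omega
  set q := ((Finset.range (c - 1)).filter fun i => x ∉ twoStep i).card with hq
  have hqc : inC x + q = c - 1 := by
    rw [hq, hin]
    exact (Finset.card_filter_add_card_filter_not _).trans (Finset.card_range _)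
  have hqb : q ≤ b := by
    have h1 := card_centralizer_mul_pow_le hG x (c - 1)
    rw [← hq] at h1
    have h2 : Nat.card ↥(Subgroup.centralizer ({x} : Set G)) * p ^ q ≤
        Nat.card ↥(Subgroup.centralizer ({x} : Set G)) * p ^ b := by
      refine ((Nat.mul_le_mul_right _ (Subgroup.card_le_of_le le_sup_right)).trans h1).trans ?_
      rw [← (Subgroup.centralizer ({x} : Set G)).card_mul_index]
      exact Nat.mul_le_mul_left _ (hb x)
    exact (Nat.pow_le_pow_iff_right hp.out.one_lt).1 (Nat.le_of_mul_le_mul_left h2 Nat.card_pos)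
  obtain ⟨r, hr⟩ : ∃ r, p = r + 1 := ⟨p - 1, by have := hp.out.pos; omega⟩
  have key : (c - 1) * r < q * p := by
    subst hr
    rw [← hqc] at hx ⊢
    nlinarith
  have := Nat.mul_le_mul_right p hqb
  rw [show p - 1 = r by omega]
  omega

end Aux

/-- If G is a finite p-group in which every conjugacy class has at most p^b elements (every element has centralizer of index at most p^b), then G is abelian when b = 0, and when b ≥ 1 its nilpotency class c satisfies (c − 1)(p − 1) < bp, that is c < bp/(p − 1) + 1, and hence c ≤ 2b. -/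
theorem result {G : Type*} [Group G] [Finite G] {p : ℕ} [Fact p.Prime] (hG : IsPGroup p G) (b : ℕ) (hb : ∀ x : G, (Subgroup.centralizer ({x} : Set G)).index ≤ p ^ b) : ∃ c : ℕ, (⊤ : Subgroup G).lowerCentralSeries c = ⊥ ∧ (b ≠ 0 → (c - 1) * (p - 1) < b * p ∧ c ≤ 2 * b) ∧ (b = 0 → c ≤ 1) := by
  have hp : p.Prime := Fact.out
  have hex : ∃ n, (⊤ : Subgroup G).lowerCentralSeries n = ⊥ :=
    Subgroup.nilpotent_iff_lowerCentralSeries.1 hG.isNilpotent
  classical
  refine ⟨Nat.find hex, Nat.find_spec hex, fun hb0 => ?_, fun hb0 => ?_⟩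
  · by_cases hc : 2 ≤ Nat.find hex
    · have h := class_bound hG b hb (Nat.find_spec hex) (fun m hm => Nat.find_min hex hm) hc
      refine ⟨h, ?_⟩
      obtain ⟨r, hr⟩ : ∃ r, p = r + 2 := ⟨p - 2, by have := hp.two_le; omega⟩
      subst hr
      simp only [show r + 2 - 1 = r + 1 by omega] at h
      obtain ⟨d, hd⟩ : ∃ d, Nat.find hex = d + 1 := ⟨Nat.find hex - 1, by omega⟩
      rw [hd] at h ⊢
      simp only [Nat.add_sub_cancel] at h
      by_contra hcon
      have h2b : 2 * b ≤ d := by omega
      have := Nat.mul_le_mul_right (r + 1) h2b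
      nlinarith
    · refine ⟨?_, by omega⟩
      rw [show Nat.find hex - 1 = 0 by omega, zero_mul]
      exact Nat.mul_pos (Nat.pos_of_ne_zero hb0) hp.pos
  · refine (Nat.find_le_iff hex 1).2 ⟨1, le_rfl, ?_⟩
    rw [Subgroup.top_lowerCentralSeries_one, commutator_eq_bot_iff_center_eq_top, eq_top_iff]
    intro x _
    have h1 := hb x
    rw [hb0, pow_zero] at h1
    have htop : Subgroup.centralizer ({x} : Set G) = ⊤ :=
      Subgroup.index_eq_one.1 (le_antisymm h1 (Nat.pos_of_ne_zero Subgroup.index_ne_zero_of_finite))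
    exact Subgroup.mem_center_iff.2 fun g =>
      Subgroup.mem_centralizer_singleton_iff.1 (htop ▸ Subgroup.mem_top g)

end Cfsg.Agent.S3778
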