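import Cfsg.Statements.S3783
import Mathlib
import Cfsg.Agent.Lib.MetacyclicP.ExpBound

set_option autoImplicit false
open Cfsg

namespace Cfsg.Agent.S3783

/-- Let G be a finite p-soluble group in which, for every prime q ≠ p, the Sylow q-subgroups are abelian. If the Sylow p-subgroups of G have exponent dividing p^n, then G has p-length at most n. -/
theorem result {G : Type*} [Group G] [Finite G] {p : ℕ} [Fact p.Prime] (hG : Cfsg.IsPSolvable p G) (hab : ∀ (q : ℕ) [Fact q.Prime], q ≠ p → ∀ Q : Sylow q G, IsMulCommutative (Q : Subgroup G)) (n : ℕ) (hexp : ∀ (P : Sylow p G), ∀ x ∈ (P : Subgroup G), x ^ p ^ n = 1) : Cfsg.PLengthLE p n G := by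
  have hp : p.Prime := Fact.out
  refine CfsgLib.MetacyclicP.pLengthLE_of_exponent n hG (fun q hq hqp H hH a ha b hb => ?_) fun g ⟨k, hk⟩ => ?_
  · haveI := Fact.mk hq
    obtain ⟨Q, hQ⟩ := hH.exists_le_sylow
    exact congrArg Subtype.val ((hab q hqp Q).is_comm.comm ⟨a, hQ ha⟩ ⟨b, hQ hb⟩)
  · obtain ⟨j, -, hj⟩ := (Nat.dvd_prime_pow hp).1 (orderOf_dvd_of_pow_eq_one hk)
    have hz : IsPGroup p (Subgroup.zpowers g) := IsPGroup.of_card (n := j) (by rw [Nat.card_zpowers, hj])
    obtain ⟨T, hT⟩ := hz.exists_le_sylow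
    exact hexp T g (hT (Subgroup.mem_zpowers g))

end Cfsg.Agent.S3783
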