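import Cfsg.Statements.S3785
import Mathlib
import Cfsg.Agent.Lib.Cores.PCore
import Cfsg.Agent.Lib.Cores.Fitting
import Cfsg.Agent.Lib.CoprimeAction.Glauberman
import Cfsg.Agent.Lib.MetacyclicP.Small


set_option autoImplicit false
open Cfsg

namespace Cfsg.Agent.S3785

open CfsgLib.Cores

/-- The elements commuting with every element of prime order of `F(G)`. -/
def primeCent (G : Type*) [Group G] : Subgroup G :=
  Subgroup.centralizer {x : G | x ∈ fittingSubgroup G ∧ (orderOf x).Prime}

theorem primeCent_normal (G : Type*) [Group G] : (primeCent G).Normal := by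
  constructor
  intro c hc g x hx
  have hx' : g⁻¹ * x * g ∈ {x : G | x ∈ fittingSubgroup G ∧ (orderOf x).Prime} := by
    refine ⟨(inferInstance : (fittingSubgroup G).Normal).conj_mem' x hx.1 g, ?_⟩
    have h1 : orderOf (MulAut.conj g⁻¹ x) = orderOf x :=
      orderOf_injective (MulAut.conj g⁻¹).toMonoidHom (MulAut.conj g⁻¹).injective x
    rw [MulAut.conj_apply, inv_inv] at h1
    rw [h1]; exact hx.2
  have h := hc _ hx'
  calc x * (g * c * g⁻¹) = g * (g⁻¹ * x * g * c) * g⁻¹ := by group
    _ = g * (c * (g⁻¹ * x * g)) * g⁻¹ := by rw [h]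
    _ = g * c * g⁻¹ * x := by group


/-- Let G be a finite solvable group whose Fitting subgroup F(G) has odd order. If an element g of G commutes with every element of prime order of F(G), then g ∈ F(G). -/
theorem result {G : Type*} [Group G] [Finite G] (hG : Group.IsSolvable G) (hodd : Odd (Nat.card (Cfsg.fittingSubgroup G))) (g : G) (hg : ∀ x ∈ Cfsg.fittingSubgroup G, (orderOf x).Prime → g * x = x * g) : g ∈ Cfsg.fittingSubgroup G := by
  set F := fittingSubgroup G with hF
  haveI := primeCent_normal G
  suffices hC : primeCent G ≤ F from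
    hC (fun x hx => (hg x hx.1 hx.2).symm)
  by_contra hne
  -- a member of the derived series just above `F`
  obtain ⟨n, hn⟩ := Group.IsSolvable.solvable (G := G)
  obtain ⟨M, hMn, hMC, hMF, hMF'⟩ : ∃ M : Subgroup G, M.Normal ∧ M ≤ primeCent G ∧ ¬ M ≤ F ∧
      ⁅M, M⁆ ≤ F := by
    have hex : ∀ k (M : Subgroup G), M.Normal → M ≤ primeCent G → ¬ M ≤ F →
        M ≤ derivedSeries G (n - k) →
        ∃ M : Subgroup G, M.Normal ∧ M ≤ primeCent G ∧ ¬ M ≤ F ∧ ⁅M, M⁆ ≤ F := by
      intro k
      induction k with
      | zero =>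
        intro M _ _ hMF hM
        rw [Nat.sub_zero, hn, le_bot_iff] at hM
        exact absurd (hM ▸ bot_le) hMF
      | succ k ih =>
        intro M hMn hMC hMF hM
        by_cases h : ⁅M, M⁆ ≤ F
        · exact ⟨M, hMn, hMC, hMF, h⟩
        refine ih _ inferInstance ((Subgroup.commutator_le_self M).trans hMC) h ?_
        refine (Subgroup.commutator_mono hM hM).trans ?_
        rw [← derivedSeries_succ]
        exact derivedSeries_antitone G (by omega)
    exact hex n _ inferInstance le_rfl hne (by simp)
  apply hMF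
  haveI := hMn
  suffices hnil : Group.IsNilpotent M from le_fittingSubgroup hnil
  refine ((Group.isNilpotent_of_finite_tfae (G := M)).out 0 3).2 ?_
  intro q hq P
  haveI := hq
  -- each element of `P` centralises the other primary parts of `F`
  have hother : ∀ x ∈ P, ∀ s : ℕ, s.Prime → s ≠ q →
      pCore s G ≤ Subgroup.centralizer ({((x : M) : G)} : Set G) := by
    intro x hx s hs hsq
    haveI := Fact.mk hs
    rcases eq_or_ne s 2 with rfl | hs2
    · have h2 : pCore 2 G = ⊥ := by
        obtain ⟨k, hk⟩ := IsPGroup.iff_card.1 (isPGroup_pCore 2 G)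
        apply Subgroup.card_eq_one.1
        rw [hk]
        rcases k with _ | k
        · simp
        · exfalso
          have h3 : 2 ∣ Nat.card F := (dvd_pow_self 2 k.succ_ne_zero).trans
            (hk ▸ Subgroup.card_dvd_of_le (pCore_le_fittingSubgroup 2))
          exact Nat.not_even_iff_odd.2 hodd (even_iff_two_dvd.2 h3)
      rw [h2]; exact bot_le
    have hxc : ((x : M) : G) ∈ Subgroup.centralizer (pCore s G : Set G) := by
      refine CfsgLib.MetacyclicP.mem_centralizer_of_fixes_small (isPGroup_pCore s G)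
        (by rw [Subgroup.normalizer_eq_top_iff.2 inferInstance]; exact Subgroup.mem_top _) ?_ ?_
      · obtain ⟨k, hk⟩ := P.isPGroup' ⟨x, hx⟩
        have h1 : ((x : M) : G) ^ q ^ k = 1 := by
          have := congrArg (fun u : P => (((u : M)) : G)) hk
          simpa using this
        exact ((((Nat.coprime_primes hq.out hs).2 (Ne.symm hsq)).pow_left k)).coprime_dvd_left
          (orderOf_dvd_of_pow_eq_one h1)
      · intro y hy hys
        have hyp := CfsgLib.MetacyclicP.smallElt_of_odd hs2 hys
        rcases eq_or_ne y 1 with rfl | hy1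
        · simp
        exact (hMC x.2 y ⟨pCore_le_fittingSubgroup s hy, by
          rw [orderOf_eq_prime hyp hy1]; exact hs⟩).symm
    intro y hy
    exact Subgroup.mem_centralizer_singleton_iff.2 (hxc y hy)
  have hWP : F.subgroupOf M ≤ Subgroup.normalizer ((P : Subgroup M) : Set M) := by
    intro w hw
    apply CfsgLib.CoprimeAction.mem_normalizer_of_conj_mem
    intro x hx
    have hle : F ≤ pCore q G ⊔ Subgroup.centralizer ({((x : M) : G)} : Set G) := by
      rw [hF, fittingSubgroup_eq_iSup_pCore]
      refine iSup_le fun s => ?_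
      rcases eq_or_ne (s : ℕ) q with e | e
      · exact le_sup_of_le_left (e ▸ le_rfl)
      · exact le_sup_of_le_right (hother x hx s (Nat.prime_of_mem_primeFactors s.2) e)
    have hwF : (w : G) ∈ pCore q G ⊔ Subgroup.centralizer ({((x : M) : G)} : Set G) := hle hw
    rw [Subgroup.mem_sup_of_normal_left] at hwF
    obtain ⟨a, ha, b, hb, hab⟩ := hwF
    rw [Subgroup.mem_centralizer_singleton_iff] at hb
    have hq' : (w * x * w⁻¹) * x⁻¹ ∈ (pCore q G).subgroupOf M := by
      show ((w * x * w⁻¹ * x⁻¹ : M) : G) ∈ pCore q G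
      push_cast
      rw [← hab, show a * b * (x : G) * (a * b)⁻¹ * (x : G)⁻¹ =
        a * (b * (x : G) * b⁻¹) * a⁻¹ * (x : G)⁻¹ by group, hb, mul_inv_cancel_right,
        show a * (x : G) * a⁻¹ * (x : G)⁻¹ = a * ((x : G) * a⁻¹ * (x : G)⁻¹) by group]
      exact (pCore q G).mul_mem ha
        ((inferInstance : (pCore q G).Normal).conj_mem _ ((pCore q G).inv_mem ha) _)
    have hsub : (pCore q G).subgroupOf M ≤ P :=
      (le_pCore (isPGroup_pCore q G |>.comap_of_injective M.subtype M.subtype_injective)).trans
        (pCore_le_sylow P)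
    have := (P : Subgroup M).mul_mem (hsub hq') hx
    simpa using this
  have hcomm : commutator M ≤ F.subgroupOf M := by
    rw [commutator_def, Subgroup.commutator_le]
    intro a _ b _
    exact hMF' (Subgroup.commutator_mem_commutator a.2 b.2)
  haveI hN0 : ((P : Subgroup M) ⊔ F.subgroupOf M).Normal :=
    ⟨fun y hy m => by
      have h1 : m * y * m⁻¹ * y⁻¹ ∈ (P : Subgroup M) ⊔ F.subgroupOf M :=
        Subgroup.mem_sup_right (hcomm (Subgroup.commutator_mem_commutator (Subgroup.mem_top m)
          (Subgroup.mem_top y)))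
      simpa using Subgroup.mul_mem _ h1 hy⟩
  have hPn : ((P : Subgroup M) ⊔ F.subgroupOf M) ≤ Subgroup.normalizer ((P : Subgroup M) : Set M) :=
    sup_le Subgroup.le_normalizer hWP
  have hfr := Sylow.normalizer_sup_eq_top' (N := (P : Subgroup M) ⊔ F.subgroupOf M) P le_sup_left
  exact Subgroup.normalizer_eq_top_iff.1 (eq_top_iff.2 (hfr.ge.trans (sup_le le_rfl hPn)))

end Cfsg.Agent.S3785
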