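import Cfsg.Statements.S3787
import Cfsg.Agent.Lib.HallHigmanExc.PLengthExp
import Cfsg.Agent.Lib.HallHigmanExc.WreathSection

set_option autoImplicit false
open Cfsg

namespace Cfsg.Agent.S3787

set_option linter.style.haveILetI false

/-- Let G be a finite p-soluble group, p an odd prime not of the form 2^k + 1, and suppose the wreath product C_p ≀ C_p (of order p^(p+1)) is not involved in a Sylow p-subgroup of G: no section of a Sylow p-subgroup is isomorphic to it. Then G has p-length at most 1. -/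
theorem result {G : Type*} [Group G] [Finite G] {p : ℕ} [Fact p.Prime] (hp2 : p ≠ 2) (hnf : (¬ ∃ k : ℕ, p = 2 ^ k + 1)) (hG : Cfsg.IsPSolvable p G) (P : Sylow p G) (hwr : ∀ (W : Type) [Group W] [Finite W], (∃ (B : Subgroup W) (t : W), B.Normal ∧ IsMulCommutative B ∧ (∀ b ∈ B, b ^ p = 1) ∧ Nat.card B = p ^ p ∧ orderOf t = p ∧ t ∉ B ∧ Nat.card W = p ^ (p + 1) ∧ Nat.card ↥(B ⊓ Subgroup.centralizer ({t} : Set W)) = p) → ¬ Cfsg.Involves W ↥(P : Subgroup G)) : Cfsg.PLengthLE p 1 G := by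
  classical
  have hpp : p.Prime := Fact.out
  refine CfsgLib.HallHigmanExc.pLengthLE_succ_of_quotient (l := 0) ?_
  set O := Cfsg.pPrimeCore p G with hO
  set P1 := Cfsg.pCore p (G ⧸ O) with hP1
  rw [CfsgLib.PSolvable.pLengthLE_zero_iff, Nat.coprime_comm, hpp.coprime_iff_not_dvd]
  intro hd
  have hG1 : Cfsg.IsPSolvable p (G ⧸ O) := CfsgLib.PSolvable.isPSolvable_quotient hG _
  -- an element of order `p` in the image of the Sylow subgroup
  let π : G →* (G ⧸ O) := QuotientGroup.mk' O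
  have hπ : Function.Surjective π := QuotientGroup.mk'_surjective O
  let T1 := P.mapSurjective hπ
  let T2 := T1.mapSurjective (QuotientGroup.mk'_surjective P1)
  obtain ⟨⟨u, hu⟩, hord⟩ := exists_prime_orderOf_dvd_card' (G := (T2 : Subgroup ((G ⧸ O) ⧸ P1))) p
    (T2.dvd_card_of_dvd_card hd)
  rw [Subgroup.orderOf_mk] at hord
  obtain ⟨g, hgT, hgu⟩ := hu
  have hgP : g ^ p ∈ P1 := by
    rw [← QuotientGroup.eq_one_iff, QuotientGroup.mk_pow,
      show (g : (G ⧸ O) ⧸ P1) = u from hgu]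
    exact orderOf_dvd_iff_pow_eq_one.1 hord.dvd
  obtain ⟨d, r, ρ, hρ, hr, hr0, hrρ, hspan⟩ :=
    CfsgLib.HallHigmanExc.exists_frattini_rep hG1 (CfsgLib.Cores.pPrimeCore_quotient_pPrimeCore (G := G) p)
  haveI : CharP (AlgebraicClosure (ZMod p)) p :=
    charP_of_injective_algebraMap (algebraMap (ZMod p) _).injective p
  have hne : ((ρ u - 1) ^ (p - 1)) ≠ 0 := by
    intro h0
    have hsum : ∑ i ∈ Finset.range ((p - 1) + 1),
        (fun _ => (1 : AlgebraicClosure (ZMod p))) i • ρ u ^ i = 0 := by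
      rw [Nat.sub_add_cancel hpp.one_le]
      simpa [h0] using (CfsgLib.HallHigmanB.sub_one_pow_eq_sum (K := AlgebraicClosure (ZMod p))
        (p := p) (ρ u) 1).symm
    obtain ⟨q, j, m, hq, -, -, hm, hjm, -, -⟩ := CfsgLib.HallHigmanExc.exists_exception (p := p)
      (CfsgLib.PSolvable.isPSolvable_quotient hG1 P1) (CfsgLib.Cores.pCore_quotient_pCore p _) hρ
      (n := 1) le_rfl (by rw [hord, pow_one]) (s := p - 1)
      (by rw [pow_one]; exact Nat.sub_lt hpp.pos one_pos)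
      (c := fun _ => (1 : AlgebraicClosure (ZMod p))) one_ne_zero hsum
    obtain rfl := CfsgLib.HallHigmanExc.eq_two_of_pow_sub_one hpp hp2 hq hm hjm
    exact hnf (CfsgLib.HallHigmanExc.exists_fermat_of_pow_sub_one hpp hp2 hjm)
  obtain ⟨v, hv⟩ : ∃ v, ((ρ u - 1) ^ (p - 1)) (r v) ≠ 0 := by
    by_contra! hall
    refine hne (LinearMap.ext_on hspan ?_)
    rintro _ ⟨v, rfl⟩
    exact hall v
  rw [← show (g : (G ⧸ O) ⧸ P1) = u from hgu] at hv
  obtain ⟨W, iW, iF, hW, hinv⟩ := CfsgLib.HallHigmanExc.exists_wreath_section (p := p) r hr hr0 ρ hrρ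
    (T := (T1 : Subgroup (G ⧸ O))) (CfsgLib.Cores.pCore_le_sylow T1) hgT hgP hv
  refine hwr W hW ?_
  exact CfsgLib.Amalgams.involves_of_involves_image (A := (⊤ : Subgroup ↥(P : Subgroup G)))
    ((π.subgroupMap (P : Subgroup G)).comp (⊤ : Subgroup ↥(P : Subgroup G)).subtype) hinv
    (fun y => by
      obtain ⟨x, hx⟩ := π.subgroupMap_surjective (P : Subgroup G) y
      exact ⟨⟨x, Subgroup.mem_top x⟩, hx⟩)

end Cfsg.Agent.S3787
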