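import Cfsg.Statements.S3794
import Mathlib
import Cfsg.Agent.Lib.MetacyclicP.FPFMain


set_option autoImplicit false
open Cfsg

namespace Cfsg.Agent.S3794

/-- Let G be a finite solvable group with an automorphism σ satisfying σ⁴ = 1 and fixing only the identity. Then the derived subgroup G' is nilpotent. -/
theorem result {G : Type*} [Group G] [Finite G] (hG : Group.IsSolvable G) (σ : MulAut G) (hσ : σ ^ 4 = 1) (hfpf : ∀ g : G, σ g = g → g = 1) : Group.IsNilpotent (commutator G) := by
  haveI := hG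
  have hgen : ∀ a : Subgroup.zpowers σ,
      a = 1 ∨ a = ⟨σ, Subgroup.mem_zpowers σ⟩ ∨ a = ⟨σ, Subgroup.mem_zpowers σ⟩ ^ 2 ∨
        a = ⟨σ, Subgroup.mem_zpowers σ⟩ ^ 3 := by
    rintro ⟨a, k, rfl⟩
    have e : σ ^ k = σ ^ (k % 4) := by
      conv_lhs => rw [← Int.emod_add_mul_ediv k 4, zpow_add, zpow_mul,
        show σ ^ (4 : ℤ) = 1 from by exact_mod_cast hσ, one_zpow, mul_one]
    have h4 : k % 4 = 0 ∨ k % 4 = 1 ∨ k % 4 = 2 ∨ k % 4 = 3 := by omega
    rcases h4 with h | h | h | h <;> rw [h] at e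
    · exact Or.inl (Subtype.ext (by simpa using e))
    · exact Or.inr (Or.inl (Subtype.ext (by simpa using e)))
    · exact Or.inr (Or.inr (Or.inl (Subtype.ext (by simpa using e))))
    · exact Or.inr (Or.inr (Or.inr (Subtype.ext (by simpa using e))))
  exact CfsgLib.MetacyclicP.isNilpotent_commutator_of_fpf_four
    (φ := (Subgroup.zpowers σ).subtype) hgen (Subtype.ext (by simpa using hσ)) hfpf

end Cfsg.Agent.S3794
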