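import Cfsg.Statements.S3796
import Mathlib
import Cfsg.Agent.Lib.MetacyclicP.FPFMain


set_option autoImplicit false
open Cfsg

namespace Cfsg.Agent.S3796

/-- Ward's Theorem: let G be a finite solvable group and A an elementary abelian group of automorphisms of G of order p² (p a prime) with no non-identity common fixed point. Then G has Fitting height at most 2: G has Fitting height at most m when there is a chain of normal subgroups 1 = F₀ ≤ F₁ ≤ ⋯ ≤ F_m = G with each F_{i+1}/F_i nilpotent. -/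
theorem result {G : Type*} [Group G] [Finite G] (hG : Group.IsSolvable G) {p : ℕ} (hp : p.Prime) (A : Subgroup (MulAut G)) (hA : Cfsg.IsElementaryAbelian p A) (hcard : Nat.card A = p ^ 2) (hfpf : ∀ g : G, (∀ a ∈ A, a g = g) → g = 1) : ∃ F : Fin (2 + 1) → Subgroup G, F 0 = ⊥ ∧ F (Fin.last 2) = ⊤ ∧ Monotone F ∧ (∀ i, (F i).Normal) ∧ ∀ i : Fin 2, ∃ k : ℕ, (F i.succ).lowerCentralSeries k ≤ F i.castSucc := by
  haveI := hG
  have hA2 : CfsgLib.MetacyclicP.IsRankTwo A p :=
    ⟨hp, fun a b => hA.1.is_comm.comm a b, fun a => Subtype.ext (by simpa using hA.2 a a.2),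
      hcard⟩
  haveI := hA2.finite
  obtain ⟨L, hLn, ⟨k, hk⟩, ⟨k', hk'⟩⟩ :=
    CfsgLib.MetacyclicP.fittingHeight_of_fpf_rankTwo hA2 (φ := A.subtype)
      (fun g hg => hfpf g fun a ha => hg ⟨a, ha⟩)
  refine ⟨![⊥, L, ⊤], rfl, rfl, ?_, ?_, ?_⟩
  · refine Fin.monotone_iff_le_succ.2 ?_
    intro i; fin_cases i <;> simp
  · intro i; fin_cases i <;> simp <;> infer_instance
  · intro i
    fin_cases i
    · exact ⟨k, by simp [hk]⟩
    · exact ⟨k', by simpa using hk'⟩

end Cfsg.Agent.S3796
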