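import Cfsg.Statements.S3797
import Mathlib
import Cfsg.Agent.Lib.MetacyclicP.InvConj

set_option autoImplicit false
open Cfsg
open scoped IsMulCommutative

namespace Cfsg.Agent.S3797

open CfsgLib.Cores in
/-- An abelian finite 2-group whose automorphisms are transitive on involutions is homocyclic. -/
theorem homocyclic {S : Type*} [CommGroup S] [Finite S] (hS : IsPGroup 2 S)
    (htrans : ∀ x y : S, x ≠ 1 → x ^ 2 = 1 → y ≠ 1 → y ^ 2 = 1 → ∃ a : MulAut S, a x = y) :
    ∃ m r : ℕ, Nonempty (S ≃* (Fin r → Multiplicative (ZMod (2 ^ m)))) := by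
  classical
  obtain ⟨ι, hι, n, hn, ⟨e⟩⟩ := CommGroup.equiv_prod_multiplicative_zmod_of_finite S
  haveI := hι
  rcases isEmpty_or_nonempty ι with hemp | hne
  · haveI : Subsingleton S := ⟨fun a b => e.injective (funext fun i => hemp.elim i)⟩
    refine ⟨0, 0, ⟨?_⟩⟩
    exact
      { toFun := fun _ => 1
        invFun := fun _ => 1
        left_inv := fun a => Subsingleton.elim _ _
        right_inv := fun a => funext fun i => i.elim0
        map_mul' := fun _ _ => (mul_one _).symm }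
  have hpow : ∀ i, ∃ m : ℕ, n i = 2 ^ m := by
    intro i
    obtain ⟨m, hm⟩ := IsPGroup.iff_orderOf.1 (hS.of_equiv e)
      (Pi.mulSingle i (Multiplicative.ofAdd (1 : ZMod (n i))))
    refine ⟨m, ?_⟩
    rw [← hm, orderOf_piMulSingle, orderOf_ofAdd_eq_addOrderOf, ZMod.addOrderOf_one]
  choose ms hms using hpow
  obtain ⟨k, hk⟩ := Finite.exists_max ms
  have hms0 : ∀ i, 0 < ms i := by
    intro i
    rcases Nat.eq_zero_or_pos (ms i) with h | h
    · have h1 := hn i
      rw [hms i, h, pow_zero] at h1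
      exact absurd h1 (lt_irrefl 1)
    · exact h
  -- the involution of a component
  let t : ι → (∀ j, Multiplicative (ZMod (n j))) := fun i =>
    Pi.mulSingle i (Multiplicative.ofAdd ((2 ^ (ms i - 1) : ℕ) : ZMod (n i)))
  have ht2 : ∀ i, t i ^ 2 = 1 := by
    intro i
    show Pi.mulSingle i _ ^ 2 = 1
    rw [← Pi.mulSingle_pow, ← ofAdd_nsmul, nsmul_eq_mul, ← Nat.cast_mul,
      show 2 * 2 ^ (ms i - 1) = n i by rw [hms i, ← pow_succ', Nat.sub_add_cancel (hms0 i)],
      ZMod.natCast_self, ofAdd_zero, Pi.mulSingle_one]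
  have ht1 : ∀ i, t i ≠ 1 := by
    intro i h
    have h1 : Multiplicative.ofAdd ((2 ^ (ms i - 1) : ℕ) : ZMod (n i)) = 1 := by
      have h' := congrFun h i
      rwa [show t i i = _ from Pi.mulSingle_eq_same i _, Pi.one_apply] at h'
    rw [← ofAdd_zero, Multiplicative.ofAdd.injective.eq_iff, ZMod.natCast_eq_zero_iff, hms i,
      Nat.pow_dvd_pow_iff_le_right one_lt_two] at h1
    have := hms0 i; omega
  have hall : ∀ i, n i = 2 ^ ms k := by
    intro i
    rw [hms i]
    congr 1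
    refine le_antisymm (hk i) ?_
    by_contra hlt
    push Not at hlt
    obtain ⟨a, ha⟩ := htrans (e.symm (t k)) (e.symm (t i))
      (by simpa using ht1 k) (by rw [← map_pow, ht2, map_one])
      (by simpa using ht1 i) (by rw [← map_pow, ht2, map_one])
    have hti : t k = Pi.mulSingle k (Multiplicative.ofAdd (1 : ZMod (n k))) ^ (2 ^ (ms k - 1)) := by
      show Pi.mulSingle k _ = _
      rw [← Pi.mulSingle_pow, ← ofAdd_nsmul, nsmul_one]
    have h1 : t i = e (a (e.symm (Pi.mulSingle k (Multiplicative.ofAdd (1 : ZMod (n k)))))) ^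
        (2 ^ (ms k - 1)) := by
      rw [← map_pow, ← map_pow, ← map_pow, ← hti, ha, MulEquiv.apply_symm_apply]
    have h2 := congrFun h1 i
    rw [Pi.pow_apply] at h2
    generalize (e (a (e.symm (Pi.mulSingle k (Multiplicative.ofAdd (1 : ZMod (n k))))))) i = y at h2
    rw [← ofAdd_toAdd y, ← ofAdd_nsmul, nsmul_eq_mul,
      (ZMod.natCast_eq_zero_iff (2 ^ (ms k - 1)) (n i)).2 (by
        rw [hms i]; exact Nat.pow_dvd_pow 2 (by omega)), zero_mul, ofAdd_zero] at h2
    exact ht1 i (funext fun j => by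
      rcases eq_or_ne j i with rfl | hji
      · exact h2
      · exact Pi.mulSingle_eq_of_ne hji _)
  refine ⟨ms k, Fintype.card ι, ⟨e.trans ?_⟩⟩
  exact (MulEquiv.piCongrRight fun i =>
    (AddEquiv.toMultiplicative (ZMod.ringEquivCongr (hall i)).toAddEquiv)).trans
    { toFun := fun f j => f ((Fintype.equivFin ι).symm j)
      invFun := fun f i => f (Fintype.equivFin ι i)
      left_inv := fun f => funext fun i => by simp
      right_inv := fun f => funext fun i => by simp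
      map_mul' := fun f g => rfl }

/-- Let G be a finite solvable group of even order whose Sylow 2-subgroups contain more than one involution, and suppose all involutions of G are conjugate. Then G has 2-length at most 1, and a Sylow 2-subgroup S of G is either homocyclic (a direct product of cyclic groups of one common order) or a non-abelian 2-group with more than one involution admitting a solvable group of automorphisms transitive on its involutions. -/
theorem result {G : Type*} [Group G] [Finite G] (hG : Group.IsSolvable G) (heven : Even (Nat.card G)) (S : Sylow 2 G) (htwo : ∃ x y : G, x ∈ (S : Subgroup G) ∧ y ∈ (S : Subgroup G) ∧ x ≠ y ∧ x ≠ 1 ∧ x ^ 2 = 1 ∧ y ≠ 1 ∧ y ^ 2 = 1) (hconj : ∀ x y : G, x ≠ 1 → x ^ 2 = 1 → y ≠ 1 → y ^ 2 = 1 → IsConj x y) : Cfsg.PLengthLE 2 1 G ∧ ((∃ m r : ℕ, Nonempty (↥(S : Subgroup G) ≃* (Fin r → Multiplicative (ZMod (2 ^ m))))) ∨ (¬ IsMulCommutative (S : Subgroup G) ∧ ∃ Y : Subgroup (MulAut ↥(S : Subgroup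 G)), Group.IsSolvable Y ∧ ∀ x y : ↥(S : Subgroup G), x ≠ 1 → x ^ 2 = 1 → y ≠ 1 → y ^ 2 = 1 → ∃ a ∈ Y, a x = y)) := by
  classical
  haveI := hG
  haveI := Fact.mk Nat.prime_two
  obtain ⟨x₀, y₀, hx₀, hy₀, hxy, hx1, hx2, hy1, hy2⟩ := htwo
  set O := Cfsg.pPrimeCore 2 G with hO
  set π := QuotientGroup.mk' O with hπ
  have hπs : Function.Surjective π := QuotientGroup.mk'_surjective O
  have hπ1 : ∀ g, π g = 1 ↔ g ∈ O := fun g => QuotientGroup.eq_one_iff g
  have hOodd : Odd (Nat.card O) :=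
    Nat.coprime_two_left.1 (CfsgLib.Cores.card_pPrimeCore_coprime (G := G) 2).symm
  have hSO : ∀ g ∈ (S : Subgroup G), g ∈ O → g = 1 := by
    intro g hg hgO
    obtain ⟨k, hk⟩ := IsPGroup.iff_orderOf.1 S.isPGroup' ⟨g, hg⟩
    rw [Subgroup.orderOf_mk] at hk
    have h := hOodd.of_dvd_nat (Subgroup.orderOf_mk g hgO ▸ orderOf_dvd_natCard _)
    rw [hk] at h
    rcases k with _ | k
    · exact orderOf_eq_one_iff.1 (by rw [hk, pow_zero])
    · exact absurd h (Nat.not_odd_iff_even.2 (Nat.even_pow.2 ⟨even_two, Nat.succ_ne_zero k⟩))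
  -- involutions of the quotient lift
  have hlift : ∀ u : G ⧸ O, u ≠ 1 → u * u = 1 → ∃ g : G, g ≠ 1 ∧ g ^ 2 = 1 ∧ π g = u := by
    intro u hu1 hu2
    obtain ⟨g, rfl⟩ := hπs u
    refine ⟨g ^ Nat.card O, fun h => hu1 ?_, ?_, ?_⟩
    rotate_left
    · rw [← pow_mul, mul_comm, pow_mul]
      have hg2 : g ^ 2 ∈ O := by rw [← hπ1, map_pow, sq]; exact hu2
      exact congrArg Subtype.val (pow_card_eq_one' (x := (⟨g ^ 2, hg2⟩ : O)))
    · obtain ⟨j, hj⟩ := hOodd
      rw [map_pow, hj, pow_succ, pow_mul, sq, hu2, one_pow, one_mul]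
    · obtain ⟨j, hj⟩ := hOodd
      have h' := congrArg π h
      rwa [map_pow, map_one, hj, pow_succ, pow_mul, sq, hu2, one_pow, one_mul] at h'
  haveI : Group.IsSolvable (G ⧸ O) := Group.isSolvable_of_surjective hπs
  have hmain : Odd (Cfsg.pCore 2 (G ⧸ O)).index := by
    refine CfsgLib.MetacyclicP.odd_index_pCore_two (CfsgLib.Cores.pPrimeCore_quotient_pPrimeCore 2) ?_ ?_
    · have hne : ∀ g ∈ (S : Subgroup G), g ≠ 1 → π g ≠ 1 := fun g hg hg1 h =>
        hg1 (hSO g hg ((hπ1 g).1 h))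
      refine ⟨π x₀, π y₀, fun h => hxy ?_, hne _ hx₀ hx1, by rw [← map_mul, ← sq, hx2, map_one],
        hne _ hy₀ hy1, by rw [← map_mul, ← sq, hy2, map_one]⟩
      refine mul_inv_eq_one.1 (hSO _ (Subgroup.mul_mem _ hx₀ (Subgroup.inv_mem _ hy₀)) ?_)
      rw [← hπ1, map_mul, map_inv, h, mul_inv_cancel]
    · intro u v hu1 hu2 hv1 hv2
      obtain ⟨a, ha1, ha2, rfl⟩ := hlift u hu1 hu2
      obtain ⟨b, hb1, hb2, rfl⟩ := hlift v hv1 hv2
      exact π.map_isConj (hconj a b ha1 ha2 hb1 hb2)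
  set M := Cfsg.pPrimePCore 2 G with hM
  have hMdef : M = (Cfsg.pCore 2 (G ⧸ O)).comap π := rfl
  have hMidx : Odd M.index := by
    rw [hMdef, Subgroup.index_comap_of_surjective _ hπs]; exact hmain
  refine ⟨CfsgLib.PSolvable.pLengthLE_of_pPrimePCore_quotient_coprime
    (Nat.coprime_two_left.2 hMidx).symm, ?_⟩
  haveI hMn : M.Normal := inferInstance
  have hSM : (S : Subgroup G) ≤ M := by
    intro g hg
    rw [← QuotientGroup.eq_one_iff (N := M) g]
    show QuotientGroup.mk' M g = 1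
    obtain ⟨k, hk⟩ := IsPGroup.iff_orderOf.1 (S.isPGroup'.map (QuotientGroup.mk' M)) ⟨_, g, hg, rfl⟩
    replace hk : orderOf (QuotientGroup.mk' M g) = 2 ^ k := by
      rw [← hk]; exact orderOf_submonoid (H := ((S : Subgroup G).map (QuotientGroup.mk' M)).toSubmonoid) ⟨_, g, hg, rfl⟩
    have h : Odd (orderOf (QuotientGroup.mk' M g)) := by
      rw [Subgroup.index_eq_card] at hMidx
      exact hMidx.of_dvd_nat (orderOf_dvd_natCard _)
    rw [hk] at h
    rcases k with _ | k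
    · rw [pow_zero] at hk; exact orderOf_eq_one_iff.1 hk
    · exact absurd h (Nat.not_odd_iff_even.2 (Nat.even_pow.2 ⟨even_two, Nat.succ_ne_zero k⟩))
  have hNM : Subgroup.normalizer ((S : Subgroup G) : Set G) ⊔ M = ⊤ :=
    Sylow.normalizer_sup_eq_top' S hSM
  have hMOS : ∀ m ∈ M, ∃ o ∈ O, ∃ s ∈ (S : Subgroup G), o * s = m := by
    intro m hm
    have hm' : π m ∈ Cfsg.pCore 2 (G ⧸ O) := hm
    have h1 := CfsgLib.Cores.pCore_le_sylow (S.mapSurjective hπs) hm'
    obtain ⟨s, hs, hsm⟩ := h1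
    exact ⟨m * s⁻¹, by rw [← hπ1, map_mul, map_inv, hsm, mul_inv_cancel], s, hs, by group⟩
  set N := Subgroup.normalizer ((S : Subgroup G) : Set G) with hN
  have htransN : ∀ x y : G, x ∈ (S : Subgroup G) → y ∈ (S : Subgroup G) → x ≠ 1 → x ^ 2 = 1 →
      y ≠ 1 → y ^ 2 = 1 → ∃ n ∈ N, n * x * n⁻¹ = y := by
    intro x y hx hy hx1 hx2 hy1 hy2
    obtain ⟨g, hg⟩ := isConj_iff.1 (hconj x y hx1 hx2 hy1 hy2)
    have hmem : g ∈ ((N ⊔ M : Subgroup G) : Set G) := by rw [hNM]; trivial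
    rw [Subgroup.mul_normal] at hmem
    obtain ⟨n, hn, m, hm, rfl⟩ := hmem
    obtain ⟨o, ho, s, hs, rfl⟩ := hMOS m hm
    set x' := s * x * s⁻¹ with hx'
    have hx'S : x' ∈ (S : Subgroup G) :=
      Subgroup.mul_mem _ (Subgroup.mul_mem _ hs hx) (Subgroup.inv_mem _ hs)
    have h1 : o * x' * o⁻¹ ∈ (S : Subgroup G) := by
      have h := (Subgroup.mem_normalizer_iff.1 (N.inv_mem hn) y).1 hy
      rw [← hg] at h
      convert h using 1
      rw [hx']; group
    have h2 : o * x' * o⁻¹ * x'⁻¹ = 1 := by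
      refine hSO _ (Subgroup.mul_mem _ h1 (Subgroup.inv_mem _ hx'S)) ?_
      rw [show o * x' * o⁻¹ * x'⁻¹ = o * (x' * o⁻¹ * x'⁻¹) by group]
      exact O.mul_mem ho ((inferInstance : O.Normal).conj_mem _ (O.inv_mem ho) x')
    refine ⟨n * s, N.mul_mem hn (Subgroup.le_normalizer hs), ?_⟩
    rw [← hg, show n * s * x * (n * s)⁻¹ = n * x' * n⁻¹ by rw [hx']; group,
      show n * (o * s) * x * (n * (o * s))⁻¹ = n * (o * x' * o⁻¹) * n⁻¹ by rw [hx']; group,
      mul_inv_eq_one.1 h2]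
  let ψ : N →* MulAut ↥(S : Subgroup G) := Subgroup.normalizerMonoidHom (S : Subgroup G)
  have hψ : ∀ (n : N) (z : (S : Subgroup G)), ((ψ n z : (S : Subgroup G)) : G) = (n : G) * z * (n : G)⁻¹ :=
    fun n z => rfl
  have htransY : ∀ x y : ↥(S : Subgroup G), x ≠ 1 → x ^ 2 = 1 → y ≠ 1 → y ^ 2 = 1 →
      ∃ a ∈ ψ.range, a x = y := by
    intro x y hx1 hx2 hy1 hy2
    obtain ⟨n, hn, hxy⟩ := htransN x y x.2 y.2 (fun h => hx1 (Subtype.ext h))
      (by rw [← SubmonoidClass.coe_pow, hx2]; rfl) (fun h => hy1 (Subtype.ext h))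
      (by rw [← SubmonoidClass.coe_pow, hy2]; rfl)
    exact ⟨ψ ⟨n, hn⟩, ⟨_, rfl⟩, Subtype.ext ((hψ ⟨n, hn⟩ x).trans hxy)⟩
  by_cases hab : IsMulCommutative (S : Subgroup G)
  · haveI := hab
    left
    exact homocyclic S.isPGroup' fun x y a b c d =>
      (htransY x y a b c d).imp fun _ h => h.2
  · exact Or.inr ⟨hab, ψ.range, Group.isSolvable_of_surjective ψ.rangeRestrict_surjective, htransY⟩

end Cfsg.Agent.S3797
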