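import Cfsg.Statements.S3798
import Mathlib
import Cfsg.Agent.Eqn.Local
import Cfsg.Agent.Lib.Cores.Basic
import Cfsg.Agent.Lib.Cores.PCore
import Cfsg.Agent.Lib.PSolvable.Basic
import Cfsg.Agent.Lib.PSolvable.HallHigman
import Cfsg.Agent.Lib.PSolvable.Series
import Cfsg.Agent.Lib.CoprimeAction.Basic
import Cfsg.Agent.Lib.MetacyclicP.Small


set_option autoImplicit false
open Cfsg

namespace Cfsg.Agent.S3798

open scoped Pointwise

open CfsgLib.Cores

theorem index_pCore_coprime {G : Type*} [Group G] [Finite G] {p : ℕ} [Fact p.Prime] (hp : p ≠ 2)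
    (hdvd : p ∣ Nat.card G) (hG : Cfsg.IsPSolvable p G) (h0 : pPrimeCore p G = ⊥)
    (htrans : ∀ U V : Subgroup G, Nat.card U = p → Nat.card V = p →
      ∃ a : MulAut G, U.map a.toMonoidHom = V) : ¬ p ∣ (pCore p G).index := by
  intro hidx
  set Q := pCore p G with hQdef
  have hp' : p.Prime := Fact.out
  haveI : Nontrivial G := by
    rw [← Finite.one_lt_card_iff_nontrivial]
    exact lt_of_lt_of_le hp'.one_lt (Nat.le_of_dvd Nat.card_pos hdvd)
  have hQne : Q ≠ ⊥ :=
    (CfsgLib.PSolvable.core_ne_bot hG).resolve_right fun h => h h0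
  have hQp : IsPGroup p Q := isPGroup_pCore p G
  have hQt : Q ≠ ⊤ := fun h => hp'.not_dvd_one (by rw [h, Subgroup.index_top] at hidx; exact hidx)
  set Zc := Q ⊓ Subgroup.centralizer (Q : Set G) with hZc
  -- every element of order `p` lies in the centre of `Q`
  have hmapQ : ∀ a : MulAut G, Q.map a.toMonoidHom = Q := fun a => map_pCore_equiv a
  have hmapC : ∀ (a : MulAut G) (D : Subgroup G), D.map a.toMonoidHom = D →
      ∀ x ∈ Subgroup.centralizer (D : Set G), a x ∈ Subgroup.centralizer (D : Set G) := by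
    intro a D hD x hx d hd
    obtain ⟨d', hd', rfl⟩ := hD.ge hd
    show a d' * a x = a x * a d'
    rw [← map_mul, ← map_mul, hx d' hd']
  have hzero : ∀ W : Subgroup G, W ≠ ⊥ → IsPGroup p W →
      (∀ (a : MulAut G), ∀ x ∈ W, a x ∈ W) → ∀ x : G, orderOf x = p → x ∈ W := by
    intro W hW hWp hWinv x hx
    obtain ⟨n, hn⟩ := IsPGroup.iff_card.1 hWp
    have hdv : p ∣ Nat.card W := by
      rw [hn]
      refine dvd_pow_self p fun e => hW ?_
      rw [e, pow_zero] at hn
      exact Subgroup.card_eq_one.1 hn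
    obtain ⟨z, hz⟩ := exists_prime_orderOf_dvd_card' p hdv
    obtain ⟨a, ha⟩ := htrans (Subgroup.zpowers (z : G)) (Subgroup.zpowers x)
      (by rw [Nat.card_zpowers, Subgroup.orderOf_coe, hz]) (by rw [Nat.card_zpowers, hx])
    obtain ⟨y, hy, hyx⟩ := ha.ge (Subgroup.mem_zpowers x)
    rw [← hyx]
    exact hWinv a y (Subgroup.zpowers_le.2 z.2 hy)
  have hZne : Zc ≠ ⊥ := by
    haveI : Nontrivial Q := (Subgroup.nontrivial_iff_ne_bot Q).2 hQne
    haveI := hQp.center_nontrivial
    obtain ⟨z, hz⟩ := exists_ne (1 : Subgroup.center Q)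
    intro e
    apply hz
    have hmem : ((z : Q) : G) ∈ Zc :=
      ⟨(z : Q).2, fun w hw => congrArg Subtype.val (Subgroup.mem_center_iff.1 z.2 ⟨w, hw⟩)⟩
    rw [e, Subgroup.mem_bot] at hmem
    exact Subtype.ext (Subtype.ext hmem)
  have hZinv : ∀ (a : MulAut G), ∀ x ∈ Zc, a x ∈ Zc := fun a x hx =>
    ⟨(hmapQ a).le ⟨x, hx.1, rfl⟩, hmapC a Q (hmapQ a) x hx.2⟩
  have hall : ∀ x : G, orderOf x = p → x ∈ Zc :=
    hzero Zc hZne (hQp.to_le inf_le_left) hZinv
  -- the next term of the series
  set K := (upperPSeries p G 3).1 with hKdef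
  have hU2 : (upperPSeries p G 2).1 = Q := by
    rw [CfsgLib.PSolvable.upperPSeries_two, CfsgLib.PSolvable.pPrimePCore_eq_pCore h0]
  have hQK : Q < K := by
    have := CfsgLib.PSolvable.upperPSeries_lt_succ hG 1 (by
      show (upperPSeries p G 2).1 ≠ ⊤
      rwa [hU2])
    rw [show 1 + 1 = 2 from rfl, hU2] at this
    exact this
  have hKn : K.Normal := (upperPSeries p G 3).2
  have hKcop : (Q.relIndex K).Coprime p := by
    have e : K = (pPrimeCore p (G ⧸ Q)).comap (QuotientGroup.mk' Q) := by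
      rw [hKdef, CfsgLib.PSolvable.upperPSeries_succ_of_even (n := 2) (by decide),
        CfsgLib.PSolvable.comap_pPrimeCore_congr hU2]
    rw [CfsgLib.PSolvable.relIndex_eq_card_map, e,
      Subgroup.map_comap_eq_self_of_surjective (QuotientGroup.mk'_surjective Q)]
    exact card_pPrimeCore_coprime p
  obtain ⟨nQ, hnQ⟩ := IsPGroup.iff_card.1 hQp
  have hcardQ : Nat.card (Q.subgroupOf K) = p ^ nQ := by
    rw [Nat.card_congr (Subgroup.subgroupOfEquivOfLe hQK.le).toEquiv, hnQ]
  obtain ⟨L', hL'⟩ := Subgroup.exists_right_complement'_of_coprime (N := Q.subgroupOf K) (by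
    rw [hcardQ]; exact (Nat.Coprime.pow_left nQ hKcop.symm))
  set L := L'.map K.subtype with hL
  have hLK : L ≤ K := Subgroup.map_subtype_le L'
  have hcardL : Nat.card L = Q.relIndex K := by
    rw [hL, Subgroup.card_subtype]
    exact (hL'.symm.index_eq_card).symm
  have hLcop : (Nat.card L).Coprime p := hcardL ▸ hKcop
  have hKsup : K ≤ Q ⊔ L := by
    intro k hk
    obtain ⟨⟨u, v⟩, e⟩ := hL'.2 ⟨k, hk⟩
    rw [← show ((u : K) : G) * ((v : K) : G) = k from congrArg Subtype.val e]
    exact Subgroup.mul_mem_sup u.2 ⟨v, v.2, rfl⟩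
  set Z0 := Zc ⊓ Subgroup.centralizer (K : Set G) with hZ0
  by_cases hZ0ne : Z0 = ⊥
  · -- complements of `Q` in `K` split `G` over `Q`
    have hdisj : ∀ x, x ∈ Q → x ∈ Subgroup.normalizer (L : Set G) → x = 1 := by
      intro x hxQ hxN
      by_contra hx1
      obtain ⟨n, hn⟩ := IsPGroup.iff_card.1 (hQp.to_le
        (inf_le_left : Q ⊓ Subgroup.normalizer (L : Set G) ≤ Q))
      have hdv : p ∣ Nat.card (Q ⊓ Subgroup.normalizer (L : Set G) : Subgroup G) := by
        rw [hn]
        refine dvd_pow_self p fun e => hx1 ?_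
        rw [e, pow_zero] at hn
        have := Subgroup.card_eq_one.1 hn
        exact (Subgroup.eq_bot_iff_forall _).1 this x ⟨hxQ, hxN⟩
      obtain ⟨⟨z, hzQ, hzN⟩, hz⟩ := exists_prime_orderOf_dvd_card' p hdv
      have hz1 : orderOf z = p := by rw [← hz]; exact (Subgroup.orderOf_mk _ _).symm
      have hzc := hall z hz1
      have hzL : ∀ l ∈ L, l * z = z * l := by
        intro l hl
        have h1 : l * z * l⁻¹ * z⁻¹ ∈ Q :=
          Q.mul_mem ((inferInstance : Q.Normal).conj_mem z hzQ l) (Q.inv_mem hzQ)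
        have h2 : l * z * l⁻¹ * z⁻¹ ∈ L := by
          have h3 := (Subgroup.mem_normalizer_iff.1 hzN l⁻¹).1 (L.inv_mem hl)
          simpa [mul_assoc] using L.mul_mem hl h3
        have h4 : orderOf (l * z * l⁻¹ * z⁻¹) = 1 := by
          refine Nat.eq_one_of_dvd_coprimes (Nat.Coprime.pow_right nQ hLcop) ?_ ?_
          · rw [← Subgroup.orderOf_mk _ h2]; exact orderOf_dvd_natCard _
          · rw [← hnQ, ← Subgroup.orderOf_mk _ h1]; exact orderOf_dvd_natCard _
        rw [orderOf_eq_one_iff, mul_inv_eq_one, mul_inv_eq_iff_eq_mul] at h4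
        exact h4
      have hzK : z ∈ Subgroup.centralizer (K : Set G) := by
        have : K ≤ Subgroup.centralizer ({z} : Set G) := by
          refine hKsup.trans (sup_le ?_ ?_)
          · intro w hw; exact Subgroup.mem_centralizer_singleton_iff.2 (hzc.2 w hw)
          · intro l hl; exact Subgroup.mem_centralizer_singleton_iff.2 (hzL l hl)
        intro k hk
        exact Subgroup.mem_centralizer_singleton_iff.1 (this hk)
      have : z ∈ Z0 := ⟨hzc, hzK⟩
      rw [hZ0ne, Subgroup.mem_bot] at this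
      rw [this, orderOf_one] at hz1
      exact hp'.ne_one hz1.symm
    let f : Subgroup.normalizer (L : Set G) →* G ⧸ Q :=
      (QuotientGroup.mk' Q).comp (Subgroup.normalizer (L : Set G)).subtype
    have hf : Function.Surjective f := by
      intro y
      induction y using QuotientGroup.induction_on with | _ g => ?_
      have hB : (MulAut.conj g • L : Subgroup G) ≤ Q ⊔ L := by
        refine le_trans ?_ hKsup
        rintro _ ⟨l, hl, rfl⟩
        exact hKn.conj_mem l (hLK hl) g
      obtain ⟨n, hn, hle⟩ := CfsgLib.CoprimeAction.exists_le_conj_of_coprime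
        (N := Q) (H := L)
        (by rw [Subgroup.normalizer_eq_top_iff.2 inferInstance]; exact le_top) hB
        (by rw [CfsgLib.CoprimeAction.card_conj_smul, hnQ]; exact hLcop.pow_right nQ)
        (Or.inr (by haveI := hQp.isNilpotent; infer_instance))
      have heq : (MulAut.conj g • L : Subgroup G) = MulAut.conj n • L :=
        Subgroup.eq_of_le_of_card_ge hle (by
          rw [CfsgLib.CoprimeAction.card_conj_smul, CfsgLib.CoprimeAction.card_conj_smul])
      have hw : n⁻¹ * g ∈ Subgroup.normalizer (L : Set G) := by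
        rw [← CfsgLib.CoprimeAction.conj_smul_eq_self, map_mul, mul_smul, heq, map_inv,
          inv_smul_smul]
      refine ⟨⟨n⁻¹ * g, hw⟩, ?_⟩
      show ((n⁻¹ * g : G) : G ⧸ Q) = (g : G ⧸ Q)
      rw [QuotientGroup.mk_mul, QuotientGroup.mk_inv, (QuotientGroup.eq_one_iff n).2 hn, inv_one,
        one_mul]
    have hd : p ∣ Nat.card (Subgroup.normalizer (L : Set G)) :=
      (show p ∣ Nat.card (G ⧸ Q) from hidx).trans (Subgroup.card_dvd_of_surjective f hf)
    obtain ⟨⟨z, hzN⟩, hz⟩ := exists_prime_orderOf_dvd_card' p hd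
    have hz1 : orderOf z = p := by rw [← hz]; exact (Subgroup.orderOf_mk _ _).symm
    have := hdisj z (hall z hz1).1 hzN
    rw [this, orderOf_one] at hz1
    exact hp'.ne_one hz1.symm
  · -- `K` centralises all elements of order `p`, so it centralises `Q`
    have hKinv : ∀ a : MulAut G, K.map a.toMonoidHom = K := fun a =>
      CfsgLib.PSolvable.map_upperPSeries_equiv a 3
    have hKall : ∀ x : G, orderOf x = p → x ∈ Z0 :=
      hzero Z0 hZ0ne (hQp.to_le (inf_le_left.trans inf_le_left)) fun a x hx =>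
        ⟨hZinv a x hx.1, hmapC a K (hKinv a) x hx.2⟩
    have hLC : L ≤ Subgroup.centralizer (Q : Set G) := by
      intro l hl
      refine CfsgLib.MetacyclicP.mem_centralizer_of_fixes_small hQp
        (by rw [Subgroup.normalizer_eq_top_iff.2 inferInstance]; exact Subgroup.mem_top l)
        (hLcop.coprime_dvd_left (by rw [← Subgroup.orderOf_mk l hl]; exact orderOf_dvd_natCard _)) ?_
      intro x _ hx
      have hxp := CfsgLib.MetacyclicP.smallElt_of_odd hp hx
      rcases eq_or_ne x 1 with rfl | hx1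
      · simp
      exact (hKall x (orderOf_eq_prime hxp hx1)).2 l (hLK hl)
    have hLQ := hLC.trans (CfsgLib.PSolvable.centralizer_pCore_le hG h0)
    exact hQK.not_ge (hKsup.trans (sup_le le_rfl hLQ))


/-- The Gaschütz–Yen Theorem: let G be a finite p-soluble group, p an odd prime dividing its order, such that the automorphism group of G permutes the subgroups of G of order p transitively. Then G has p-length at most 1. -/
theorem result {G : Type*} [Group G] [Finite G] {p : ℕ} [Fact p.Prime] (hp : p ≠ 2) (hdvd : p ∣ Nat.card G) (hG : Cfsg.IsPSolvable p G) (htrans : ∀ U V : Subgroup G, Nat.card U = p → Nat.card V = p → ∃ a : MulAut G, U.map a.toMonoidHom = V) : Cfsg.PLengthLE p 1 G := by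
  have hp' : p.Prime := Fact.out
  set N := pPrimeCore p G with hN
  have hNp : ¬ p ∣ Nat.card N := CfsgLib.Cores.not_dvd_card_pPrimeCore
  have htrans' : ∀ U V : Subgroup (G ⧸ N), Nat.card U = p → Nat.card V = p →
      ∃ a : MulAut (G ⧸ N), U.map a.toMonoidHom = V := by
    have lift : ∀ U : Subgroup (G ⧸ N), Nat.card U = p → ∃ y : G, orderOf y = p ∧
        (Subgroup.zpowers y).map (QuotientGroup.mk' N) = U := by
      intro U hU
      obtain ⟨⟨y, hy⟩, hyo⟩ := exists_prime_orderOf_dvd_card' p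
        (G := U.comap (QuotientGroup.mk' N))
        (by rw [CfsgLib.Cores.card_comap_mk', hU]; exact dvd_mul_left p _)
      rw [Subgroup.orderOf_mk] at hyo
      refine ⟨y, hyo, ?_⟩
      have hyN : (y : G ⧸ N) ≠ 1 := by
        rw [Ne, QuotientGroup.eq_one_iff]
        intro h
        exact hNp (hyo ▸ (Subgroup.orderOf_mk y h ▸ orderOf_dvd_natCard _))
      rw [MonoidHom.map_zpowers]
      refine Subgroup.eq_of_le_of_card_ge (Subgroup.zpowers_le.2 hy) ?_
      rw [hU, Nat.card_zpowers, QuotientGroup.mk'_apply,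
        orderOf_eq_prime (x := (y : G ⧸ N)) (by
          have hyp : y ^ p = 1 := by rw [← hyo]; exact pow_orderOf_eq_one y
          rw [← QuotientGroup.mk_pow, hyp]; rfl) hyN]
    intro U V hU hV
    obtain ⟨u, hu, rfl⟩ := lift U hU
    obtain ⟨v, hv, rfl⟩ := lift V hV
    obtain ⟨a, ha⟩ := htrans (Subgroup.zpowers u) (Subgroup.zpowers v)
      (by rw [Nat.card_zpowers, hu]) (by rw [Nat.card_zpowers, hv])
    refine ⟨QuotientGroup.congr N N a (CfsgLib.Cores.map_pPrimeCore_equiv a), ?_⟩
    rw [← ha, Subgroup.map_map, Subgroup.map_map]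
    rfl
  have hd' : p ∣ Nat.card (G ⧸ N) :=
    ((hp'.dvd_mul).1 (N.card_eq_card_quotient_mul_card_subgroup ▸ hdvd)).resolve_right hNp
  have h := index_pCore_coprime hp hd' (CfsgLib.PSolvable.isPSolvable_quotient hG N)
    (CfsgLib.Cores.pPrimeCore_quotient_pPrimeCore p) htrans'
  refine CfsgLib.PSolvable.pLengthLE_of_pPrimePCore_quotient_coprime ?_
  rw [Cfsg.pPrimePCore, Subgroup.index_comap_of_surjective _ (QuotientGroup.mk'_surjective N)]
  exact (hp'.coprime_iff_not_dvd.2 h).symm

end Cfsg.Agent.S3798
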