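import Cfsg.Statements.S3799
import Mathlib
import Cfsg.Agent.Lib.PGroups.Frattini

open scoped commutatorElement


set_option autoImplicit false
open Cfsg

namespace Cfsg.Agent.S3799

open CfsgLib.PGroups

variable {p n : ℕ}

/-- Matrix with first row `r` (off the diagonal) and last column `c`. -/
def heisMat (r : Fin (n + 1) → ZMod p) (c : Fin n → ZMod p) :
    Matrix (Fin (n + 2)) (Fin (n + 2)) (ZMod p) := fun i j =>
  (Fin.cases (Fin.cases 0 r j : ZMod p)
    (fun i' => if j = Fin.last (n + 1) then Fin.lastCases 0 c i' else 0) i : ZMod p)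

/-- The bilinear pairing of the row and column parts. -/
def heisDot (r : Fin (n + 1) → ZMod p) (c : Fin n → ZMod p) : ZMod p :=
  ∑ t : Fin n, r t.castSucc * c t

/-- The central parameter. -/
def heisCen (z : ZMod p) : Fin (n + 1) → ZMod p := Pi.single (Fin.last n) z

theorem heisMat_mul (r r' : Fin (n + 1) → ZMod p) (c c' : Fin n → ZMod p) :
    heisMat r c * heisMat r' c' = heisMat (heisCen (heisDot r c')) 0 := by
  ext i k
  rw [Matrix.mul_apply, Fin.sum_univ_succ]
  induction i using Fin.cases with
  | zero =>
    induction k using Fin.cases with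
    | zero =>
      simp only [heisMat, Fin.cases_zero, Fin.cases_succ, zero_mul, zero_add]
      refine Finset.sum_eq_zero fun j _ => ?_
      rw [if_neg (by simp [← Fin.succ_last, (Fin.succ_ne_zero _).symm]), mul_zero]
    | succ k =>
      simp only [heisMat, heisCen, Fin.cases_zero, Fin.cases_succ, zero_mul, zero_add]
      by_cases hk : k = Fin.last n
      · subst hk
        simp [Fin.sum_univ_castSucc, heisDot, Fin.succ_last]
      · rw [Pi.single_apply, if_neg hk]
        refine Finset.sum_eq_zero fun j _ => ?_
        rw [if_neg (by rw [← Fin.succ_last]; simpa using hk), mul_zero]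
  | succ i =>
    simp only [heisMat, Fin.cases_zero, Fin.cases_succ]
    have h0 : ((0 : Fin (n + 2)) = Fin.last (n + 1)) = False := by
      simp [← Fin.succ_last, (Fin.succ_ne_zero _).symm]
    simp only [h0, if_false, zero_mul, zero_add]
    have hr : (if k = Fin.last (n + 1) then (Fin.lastCases 0 (0 : Fin n → ZMod p) i : ZMod p) else 0) = 0 := by
      split_ifs
      · induction i using Fin.lastCases <;> simp
      · rfl
    rw [hr]
    refine Finset.sum_eq_zero fun j _ => ?_
    by_cases hj : j = Fin.last n
    · subst hj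
      simp
    · rw [if_neg (by rw [← Fin.succ_last]; simpa using hj), zero_mul]

theorem heisMat_add (r r' : Fin (n + 1) → ZMod p) (c c' : Fin n → ZMod p) :
    heisMat (r + r') (c + c') = heisMat r c + heisMat r' c' := by
  ext i j
  induction i using Fin.cases with
  | zero => induction j using Fin.cases <;> simp [heisMat]
  | succ i =>
    simp only [heisMat, Matrix.add_apply, Fin.cases_succ]
    split_ifs
    · induction i using Fin.lastCases <;> simp
    · simp

theorem heisMat_zero : heisMat (0 : Fin (n + 1) → ZMod p) (0 : Fin n → ZMod p) = 0 := by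
  ext i j
  induction i using Fin.cases with
  | zero => induction j using Fin.cases <;> simp [heisMat]
  | succ i =>
    simp only [heisMat, Matrix.zero_apply, Fin.cases_succ]
    split_ifs
    · induction i using Fin.lastCases <;> simp
    · rfl

theorem heisMat_neg (r : Fin (n + 1) → ZMod p) (c : Fin n → ZMod p) :
    heisMat (-r) (-c) = -heisMat r c := by
  rw [eq_neg_iff_add_eq_zero, ← heisMat_add, neg_add_cancel, neg_add_cancel, heisMat_zero]

/-- The Heisenberg element. -/
def heis (r : Fin (n + 1) → ZMod p) (c : Fin n → ZMod p) :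
    Matrix.GeneralLinearGroup (Fin (n + 2)) (ZMod p) where
  val := 1 + heisMat r c
  inv := 1 + heisMat (-r + heisCen (heisDot r c)) (-c)
  val_inv := by
    have e : heisMat (-r + heisCen (heisDot r c)) (-c) =
        -heisMat r c + heisMat (heisCen (heisDot r c)) 0 := by
      rw [← heisMat_neg, ← heisMat_add, add_zero]
    have e2 : heisMat r c * heisMat (-r + heisCen (heisDot r c)) (-c) =
        -heisMat (heisCen (heisDot r c)) 0 := by
      rw [heisMat_mul, ← heisMat_neg, neg_zero]
      congr 1
      simp [heisDot, heisCen, ← Pi.single_neg]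
    simp only [mul_add, add_mul, mul_one, one_mul]
    rw [e2, e]
    abel
  inv_val := by
    have e : heisMat (-r + heisCen (heisDot r c)) (-c) =
        -heisMat r c + heisMat (heisCen (heisDot r c)) 0 := by
      rw [← heisMat_neg, ← heisMat_add, add_zero]
    have e2 : heisMat (-r + heisCen (heisDot r c)) (-c) * heisMat r c =
        -heisMat (heisCen (heisDot r c)) 0 := by
      rw [heisMat_mul, ← heisMat_neg, neg_zero]
      congr 1
      simp [heisDot, heisCen, Finset.sum_neg_distrib, ← Pi.single_neg, Fin.castSucc_lt_last,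
        Fin.ne_of_lt]
    simp only [mul_add, add_mul, mul_one, one_mul]
    rw [e2, e]
    abel

theorem heis_mul (r r' : Fin (n + 1) → ZMod p) (c c' : Fin n → ZMod p) :
    heis r c * heis r' c' = heis (r + r' + heisCen (heisDot r c')) (c + c') := by
  apply Units.ext
  show (1 + heisMat r c) * (1 + heisMat r' c') = 1 + heisMat _ _
  simp only [mul_add, add_mul, mul_one, one_mul]
  rw [heisMat_mul, heisMat_add r r' c c' |>
    fun h => (show heisMat (r + r' + heisCen (heisDot r c')) (c + c') =
      heisMat r c + heisMat r' c' + heisMat (heisCen (heisDot r c')) 0 by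
        rw [← h, ← heisMat_add, add_zero])]
  abel

theorem heis_zero : heis (0 : Fin (n + 1) → ZMod p) (0 : Fin n → ZMod p) = 1 := by
  apply Units.ext
  show (1 : Matrix _ _ (ZMod p)) + heisMat 0 0 = 1
  rw [heisMat_zero, add_zero]

theorem heis_injective {r r' : Fin (n + 1) → ZMod p} {c c' : Fin n → ZMod p}
    (h : heis r c = heis r' c') : r = r' ∧ c = c' := by
  have h1 : heisMat r c = heisMat r' c' := add_left_cancel (congrArg Units.val h)
  constructor
  · funext t
    have := congrFun (congrFun h1 0) t.succ
    simpa [heisMat] using this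
  · funext t
    have := congrFun (congrFun h1 t.castSucc.succ) (Fin.last (n + 1))
    simpa [heisMat] using this

variable (p n)

/-- The Heisenberg group. -/
def heisGroup : Subgroup (Matrix.GeneralLinearGroup (Fin (n + 2)) (ZMod p)) where
  carrier := Set.range fun x : (Fin (n + 1) → ZMod p) × (Fin n → ZMod p) => heis x.1 x.2
  one_mem' := ⟨(0, 0), heis_zero⟩
  mul_mem' := by
    rintro _ _ ⟨⟨r, c⟩, rfl⟩ ⟨⟨r', c'⟩, rfl⟩
    exact ⟨(_, _), (heis_mul r r' c c').symm⟩
  inv_mem' := by
    rintro _ ⟨⟨r, c⟩, rfl⟩
    exact ⟨(-r + heisCen (heisDot r c), -c), Units.ext rfl⟩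

variable {p n}

theorem heis_pow (r : Fin (n + 1) → ZMod p) (c : Fin n → ZMod p) (k : ℕ) :
    heis r c ^ k = heis (k • r + k.choose 2 • heisCen (heisDot r c)) (k • c) := by
  induction k with
  | zero => simp [heis_zero]
  | succ k ih =>
    rw [pow_succ, ih, heis_mul]
    congr 1
    · have e : heisDot (k • r + k.choose 2 • heisCen (heisDot r c)) c = k • heisDot r c := by
        simp [heisDot, heisCen, Finset.mul_sum, mul_assoc, Fin.castSucc_lt_last, Fin.ne_of_lt]
      rw [e, Nat.choose_succ_succ' k 1, Nat.choose_one_right, succ_nsmul r k, add_nsmul]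
      have e2 : heisCen (n := n) (k • heisDot r c) = k • heisCen (heisDot r c) := by
        simp [heisCen, ← Pi.single_smul]
      rw [e2]; abel
    · exact (succ_nsmul c k).symm


/-- For every odd prime p and every n ≥ 1 there is an extraspecial p-group of order p^(1+2n) and exponent p; concretely, the general linear group of degree n + 2 over the field with p elements contains such a subgroup. -/
theorem result (p : ℕ) [Fact p.Prime] (hp : p ≠ 2) (n : ℕ) (hn : 1 ≤ n) : ∃ E : Subgroup (Matrix.GeneralLinearGroup (Fin (n + 2)) (ZMod p)), Cfsg.IsExtraspecial p ↥E ∧ Nat.card E = p ^ (1 + 2 * n) ∧ ∀ x ∈ E, x ^ p = 1 := by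
  have hp' : p.Prime := Fact.out
  refine ⟨heisGroup p n, ?_, ?_, ?_⟩
  case refine_2 =>
    rw [show (1 + 2 * n) = (n + 1) + n by ring, pow_add]
    rw [show Nat.card (heisGroup p n) =
      Nat.card ((Fin (n + 1) → ZMod p) × (Fin n → ZMod p)) from
      Nat.card_range_of_injective (f := fun x : (Fin (n + 1) → ZMod p) × (Fin n → ZMod p) =>
        heis x.1 x.2) fun a b h => Prod.ext (heis_injective h).1 (heis_injective h).2]
    simp [Nat.card_prod, Nat.card_fun, Nat.card_zmod]
  case refine_3 =>
    rintro _ ⟨⟨r, c⟩, rfl⟩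
    rw [heis_pow]
    have h1 : ∀ {M : Type} [AddCommGroup M] [Module (ZMod p) M] (m : M), p • m = 0 := fun m => by
      rw [← Nat.cast_smul_eq_nsmul (ZMod p), ZMod.natCast_self, zero_smul]
    have h2 : p.choose 2 • heisCen (n := n) (heisDot r c) = 0 := by
      obtain ⟨m, hm⟩ := hp'.dvd_choose_self (k := 2) (by omega)
        (lt_of_le_of_ne hp'.two_le (Ne.symm hp))
      rw [hm, mul_comm, mul_nsmul', h1, nsmul_zero]
    show heis _ _ = 1
    rw [h1, h1, h2, add_zero, heis_zero]
  haveI : Finite (heisGroup p n) := inferInstance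
  have hmem : ∀ x : heisGroup p n, ∃ r c, (x : Matrix.GeneralLinearGroup _ (ZMod p)) = heis r c :=
    fun x => let ⟨y, hy⟩ := x.2; ⟨y.1, y.2, hy.symm⟩
  have hexp : ∀ x : heisGroup p n, x ^ p = 1 := by
    intro x
    obtain ⟨r, c, hx⟩ := hmem x
    apply Subtype.ext
    rw [Subgroup.coe_pow, hx, heis_pow]
    have h1 : ∀ {M : Type} [AddCommGroup M] [Module (ZMod p) M] (m : M), p • m = 0 := fun m => by
      rw [← Nat.cast_smul_eq_nsmul (ZMod p), ZMod.natCast_self, zero_smul]
    have h2 : p.choose 2 • heisCen (n := n) (heisDot r c) = 0 := by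
      obtain ⟨m, hm⟩ := hp'.dvd_choose_self (k := 2) (by omega)
        (lt_of_le_of_ne hp'.two_le (Ne.symm hp))
      rw [hm, mul_comm, mul_nsmul', h1, nsmul_zero]
    rw [h1, h1, h2, add_zero, heis_zero]; rfl
  have hP : IsPGroup p (heisGroup p n) := fun x => ⟨1, by rw [pow_one]; exact hexp x⟩
  have hmk : ∀ r c, heis r c ∈ heisGroup p n := fun r c => ⟨(r, c), rfl⟩
  have hcen : ∀ x : heisGroup p n, x ∈ Subgroup.center (heisGroup p n) ↔
      ∃ z : ZMod p, (x : Matrix.GeneralLinearGroup (Fin (n + 2)) (ZMod p)) =
        heis (heisCen z) (0 : Fin n → ZMod p) := by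
    intro x
    obtain ⟨r, c, hx⟩ := hmem x
    rw [Subgroup.mem_center_iff]
    constructor
    · intro h
      have key : ∀ r' c', heisDot r c' = heisDot r' c := by
        intro r' c'
        have e := congrArg Subtype.val (h ⟨_, hmk r' c'⟩)
        simp only [Subgroup.coe_mul, hx, heis_mul] at e
        have e1 := congrFun (heis_injective e).1 (Fin.last n)
        simp only [heisCen, Pi.add_apply, Pi.single_eq_same] at e1
        linear_combination -e1
      have hc : c = 0 := by
        funext t
        have := key (Pi.single t.castSucc 1) 0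
        simpa [heisDot, Pi.single_apply, Fin.castSucc_inj] using this.symm
      have hr : ∀ t : Fin n, r t.castSucc = 0 := by
        intro t
        have := key 0 (Pi.single t 1)
        simpa [heisDot, Pi.single_apply] using this
      refine ⟨r (Fin.last n), ?_⟩
      rw [hx, hc]
      congr 1
      funext t
      induction t using Fin.lastCases with
      | last => simp [heisCen]
      | cast t => simp [heisCen, hr, Fin.castSucc_lt_last, Fin.ne_of_lt]
    · rintro ⟨z, hz⟩ g
      obtain ⟨r', c', hg⟩ := hmem g
      apply Subtype.ext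
      simp only [Subgroup.coe_mul, hz, hg, heis_mul]
      have e1 : heisDot (heisCen (n := n) z) c' = 0 := by
        simp [heisDot, heisCen, Fin.castSucc_lt_last, Fin.ne_of_lt]
      have e2 : heisDot r' (0 : Fin n → ZMod p) = 0 := by simp [heisDot]
      rw [e1, e2, add_zero, zero_add, add_comm r']
  have hcard : Nat.card (Subgroup.center (heisGroup p n)) = p := by
    have e : Subgroup.center (heisGroup p n) ≃ ZMod p :=
      (Equiv.ofBijective (fun z => (⟨⟨heis (heisCen z) 0, hmk _ _⟩, (hcen _).2 ⟨z, rfl⟩⟩ :
          Subgroup.center (heisGroup p n)))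
        ⟨fun a b h => by
          have h' : heis (heisCen (n := n) a) (0 : Fin n → ZMod p) = heis (heisCen b) 0 :=
            congrArg (fun u : Subgroup.center (heisGroup p n) =>
              ((u : heisGroup p n) : Matrix.GeneralLinearGroup (Fin (n + 2)) (ZMod p))) h
          have := congrFun (heis_injective h').1 (Fin.last n)
          simpa [heisCen] using this,
        fun u => let ⟨z, hz⟩ := (hcen _).1 u.2; ⟨z, Subtype.ext (Subtype.ext hz.symm)⟩⟩).symm
    rw [Nat.card_congr e, Nat.card_zmod]
  have hcommle : commutator (heisGroup p n) ≤ Subgroup.center (heisGroup p n) := by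
    rw [commutator_def, Subgroup.commutator_le]
    intro a _ b _
    obtain ⟨r, c, ha⟩ := hmem a
    obtain ⟨r', c', hb⟩ := hmem b
    rw [hcen]
    refine ⟨heisDot r c' - heisDot r' c, ?_⟩
    have hswap : (a : Matrix.GeneralLinearGroup (Fin (n + 2)) (ZMod p)) *
        (b : Matrix.GeneralLinearGroup (Fin (n + 2)) (ZMod p)) =
        heis (heisCen (heisDot r c' - heisDot r' c)) 0 *
          ((b : Matrix.GeneralLinearGroup (Fin (n + 2)) (ZMod p)) *
            (a : Matrix.GeneralLinearGroup (Fin (n + 2)) (ZMod p))) := by
      rw [ha, hb, heis_mul, heis_mul, heis_mul]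
      congr 1
      · have e3 : heisDot (heisCen (n := n) (heisDot r c' - heisDot r' c)) (c' + c) = 0 := by
          simp [heisDot, heisCen, Fin.castSucc_lt_last, Fin.ne_of_lt]
        rw [e3]
        simp only [heisCen, Pi.single_sub, Pi.single_zero]
        abel
      · abel
    rw [commutatorElement_def]
    push_cast
    rw [hswap]
    group
  have hne : commutator (heisGroup p n) ≠ ⊥ := by
    intro e
    have hab : ∀ x y : heisGroup p n, x * y = y * x := fun x y =>
      commutatorElement_eq_one_iff_mul_comm.1 (Subgroup.mem_bot.1 (e ▸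
        Subgroup.commutator_mem_commutator (Subgroup.mem_top x) (Subgroup.mem_top y)))
    have h := congrArg Subtype.val (hab ⟨_, hmk (Pi.single (⟨0, by omega⟩ : Fin n).castSucc 1) 0⟩
      ⟨_, hmk 0 (Pi.single (⟨0, by omega⟩ : Fin n) 1)⟩)
    simp only [Subgroup.coe_mul, heis_mul] at h
    have := congrFun (heis_injective h).1 (Fin.last n)
    simp [heisCen, heisDot, Fin.castSucc_lt_last, Fin.ne_of_lt, Pi.single_apply] at this
  have hcomm : commutator (heisGroup p n) = Subgroup.center (heisGroup p n) := by
    refine Subgroup.eq_of_le_of_card_ge hcommle ?_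
    rcases (Nat.dvd_prime hp').1 (hcard ▸ Subgroup.card_dvd_of_le hcommle) with h | h
    · exact absurd (Subgroup.card_eq_one.1 h) hne
    · rw [hcard, h]
  refine ⟨⟨hP, ?_, hcomm⟩, hcard⟩
  exact le_antisymm (frattini_le_of hcommle fun x => by rw [hexp x]; exact Subgroup.one_mem _)
    (hcomm ▸ commutator_le_frattini hP)

end Cfsg.Agent.S3799
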