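import Cfsg.Statements.S3800
import Mathlib
import Cfsg.Agent.Lib.CoprimeAction.Basic
import Cfsg.Agent.Lib.CoprimeAction.Glauberman


set_option autoImplicit false
open Cfsg

namespace Cfsg.Agent.S3800

open scoped Pointwise



/-- Let G be a finite group, N a normal subgroup of G whose order is prime to p, and P a p-subgroup of G. Then in G/N the normalizer of the image of P is the image of N_G(P), and the centralizer of the image of P is the image of C_G(P). -/
theorem result {G : Type*} [Group G] [Finite G] {p : ℕ} [Fact p.Prime] (N : Subgroup G) [N.Normal] (hN : (Nat.card N).Coprime p) (P : Subgroup G) (hP : IsPGroup p P) : Subgroup.normalizer ((P.map (QuotientGroup.mk' N)) : Set (G ⧸ N)) = (Subgroup.normalizer (P : Set G)).map (QuotientGroup.mk' N) ∧ Subgroup.centralizer ((P.map (QuotientGroup.mk' N)) : Set (G ⧸ N)) = (Subgroup.centralizer (P : Set G)).map (QuotientGroup.mk' N) := by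
  classical
  set f := QuotientGroup.mk' N with hf
  obtain ⟨n, hn⟩ := IsPGroup.iff_card.1 hP
  have hcop : (Nat.card P).Coprime (Nat.card N) := by rw [hn]; exact hN.symm.pow_left n
  haveI : Group.IsNilpotent P := hP.isNilpotent
  have hconjmem : ∀ w : G, w ∈ Subgroup.normalizer (P : Set G) →
      f w ∈ Subgroup.normalizer (P.map f : Set (G ⧸ N)) := by
    intro w hw
    exact Subgroup.le_normalizer_map f ⟨w, hw, rfl⟩
  refine ⟨le_antisymm ?_ ?_, le_antisymm ?_ ?_⟩
  · intro x hx
    obtain ⟨g, rfl⟩ := QuotientGroup.mk'_surjective N x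
    have hB : (MulAut.conj g • P : Subgroup G) ≤ N ⊔ P := by
      rintro _ ⟨q, hq, rfl⟩
      obtain ⟨q', hq', hqe⟩ := (Subgroup.mem_normalizer_iff.1 hx (f q)).1 ⟨q, hq, rfl⟩
      have h1 : g * q * g⁻¹ * q'⁻¹ ∈ N := by
        rw [← QuotientGroup.eq_one_iff]
        show f (g * q * g⁻¹ * q'⁻¹) = 1
        rw [map_mul, map_inv, hqe, map_mul, map_mul, map_inv, mul_inv_cancel]
      have := Subgroup.mul_mem_sup h1 hq'
      simpa [mul_assoc] using this
    obtain ⟨m, hm, hle⟩ := CfsgLib.CoprimeAction.exists_le_conj_of_coprime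
      (N := N) (H := P) (by rw [Subgroup.normalizer_eq_top_iff.2 inferInstance]; exact le_top) hB
      (by rw [CfsgLib.CoprimeAction.card_conj_smul]; exact hcop)
      (Or.inl (by haveI := (hP.of_equiv (Subgroup.equivSMul (MulAut.conj g) P)).isNilpotent; infer_instance))
    have heq : (MulAut.conj g • P : Subgroup G) = MulAut.conj m • P :=
      Subgroup.eq_of_le_of_card_ge hle (by
        rw [CfsgLib.CoprimeAction.card_conj_smul, CfsgLib.CoprimeAction.card_conj_smul])
    refine ⟨m⁻¹ * g, ?_, ?_⟩
    · show m⁻¹ * g ∈ Subgroup.normalizer (P : Set G)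
      rw [← CfsgLib.CoprimeAction.conj_smul_eq_self, map_mul, mul_smul, heq, map_inv,
        inv_smul_smul]
    · show f (m⁻¹ * g) = f g
      rw [map_mul, map_inv, (show f m = 1 from (QuotientGroup.eq_one_iff m).2 hm), inv_one,
        one_mul]
  · rintro _ ⟨w, hw, rfl⟩
    exact hconjmem w hw
  · intro x hx
    obtain ⟨g, rfl⟩ := QuotientGroup.mk'_surjective N x
    obtain ⟨c, hc, hgc⟩ := CfsgLib.CoprimeAction.exists_centralizer_mem_coset (A := P) (N := N)
      (by rw [Subgroup.normalizer_eq_top_iff.2 inferInstance]; exact le_top) hcop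
      (Or.inl inferInstance) g (by
        intro a ha
        rw [← QuotientGroup.eq_one_iff]
        show f (g⁻¹ * (a * g * a⁻¹)) = 1
        rw [map_mul, map_inv, map_mul, map_mul, map_inv, hx (f a) ⟨a, ha, rfl⟩, ← hf,
          mul_inv_cancel_right, inv_mul_cancel])
    exact ⟨c, hc, (QuotientGroup.eq.2 hgc).symm⟩
  · rintro _ ⟨w, hw, rfl⟩ _ ⟨q, hq, rfl⟩
    rw [← map_mul, ← map_mul, hw q hq]

end Cfsg.Agent.S3800
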