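import Cfsg.Statements.S3953
import Cfsg.Agent.Lib.SchurCover.Transfer
-- import your own Cfsg.Agent.* helpers here

set_option autoImplicit false
open Cfsg

namespace Cfsg.Agent.S3953

/-- Let `P` be a Sylow `p`-subgroup of the finite group `G`, let `A` be the Schur multiplier of `G` and `B` that of `P`. Then the `p`-primary component of `A` is isomorphic to a direct factor of `B`: there are subgroups `C` and `D` of `B` meeting trivially and generating `B`, with `C` isomorphic to the `p`-primary component of `A`. -/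
theorem result {G : Type*} [Group G] [Finite G] (p : ℕ) [Fact p.Prime] (P : Sylow p G) {A B : Type*} [CommGroup A] [CommGroup B] (hA : Cfsg.HasSchurMultiplier G A) (hB : Cfsg.HasSchurMultiplier P B) : ∃ C D : Subgroup B, C ⊓ D = ⊥ ∧ C ⊔ D = ⊤ ∧ Nonempty (CommGroup.primaryComponent A p ≃* C) := by
  obtain ⟨eA⟩ := CfsgLib.SchurCover.hasSchurMultiplier_iff.1 hA
  obtain ⟨eB⟩ := CfsgLib.SchurCover.hasSchurMultiplier_iff.1 hB
  obtain ⟨res₀, cor₀, h₀⟩ := CfsgLib.SchurCover.exists_cor (P : Subgroup G)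
  have : Finite A := Finite.of_equiv _ eA.toEquiv
  let res : B →* A := eA.toMonoidHom.comp (res₀.comp eB.symm.toMonoidHom)
  let cor : A →* B := eB.toMonoidHom.comp (cor₀.comp eA.symm.toMonoidHom)
  set m := (P : Subgroup G).index
  have h : ∀ a, res (cor a) = a ^ m := fun a => by simp [res, cor, h₀, m]
  have hm : Nat.Coprime p m :=
    (Nat.Prime.coprime_iff_not_dvd (Fact.out : p.Prime)).2 P.not_dvd_index
  -- split `|A|` into its `p`-part and the rest
  obtain ⟨v, q, hq, hcard⟩ := Nat.exists_eq_pow_mul_and_not_dvd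
    (Nat.card_pos (α := A)).ne' p (Fact.out : p.Prime).ne_one
  have hcop : Nat.Coprime (p ^ v) q :=
    ((Nat.Prime.coprime_iff_not_dvd (Fact.out : p.Prime)).2 hq).pow_left v
  obtain ⟨k, hk1, hk2⟩ := Nat.chineseRemainder hcop 1 0
  have hprim : ∀ a : A, a ∈ CommGroup.primaryComponent A p ↔ a ^ p ^ v = 1 := by
    intro a
    rw [CommGroup.mem_primaryComponent]
    constructor
    · rintro ⟨i, hi⟩
      obtain ⟨j, -, hj⟩ := (Nat.dvd_prime_pow (Fact.out : p.Prime)).1 (orderOf_dvd_of_pow_eq_one hi)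
      rw [← orderOf_dvd_iff_pow_eq_one, hj]
      have h1 : p ^ j ∣ p ^ v * q := by rw [← hcard, ← hj]; exact orderOf_dvd_natCard a
      exact (((Nat.Prime.coprime_iff_not_dvd (Fact.out : p.Prime)).2 hq).pow_left j).dvd_of_dvd_mul_right h1
    · exact fun ha => ⟨v, ha⟩
  have hk : ∀ a : A, a ^ p ^ v = 1 → a ^ k = a := fun a ha => by
    conv_rhs => rw [← pow_one a]
    rw [pow_eq_pow_iff_modEq]
    exact Nat.ModEq.of_dvd (orderOf_dvd_of_pow_eq_one ha) hk1
  have hk' : ∀ a : A, (a ^ k) ^ p ^ v = 1 := fun a => by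
    obtain ⟨c, rfl⟩ := Nat.modEq_zero_iff_dvd.1 hk2
    rw [← pow_mul, show q * c * p ^ v = (p ^ v * q) * c by ring, ← hcard, pow_mul, pow_card_eq_one',
      one_pow]
  -- inverse of `m` on the primary part
  obtain ⟨m', -, hm'⟩ : ∃ m', True ∧ m * m' ≡ 1 [MOD p ^ v] := by
    obtain ⟨c, hc1, hc2⟩ := Nat.chineseRemainder (hm.pow_left v) 1 0
    obtain ⟨d, rfl⟩ := Nat.modEq_zero_iff_dvd.1 hc2
    exact ⟨d, trivial, hc1⟩
  have hinv : ∀ a : A, a ^ p ^ v = 1 → (a ^ m') ^ m = a := fun a ha => by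
    conv_rhs => rw [← pow_one a]
    rw [← pow_mul, pow_eq_pow_iff_modEq, mul_comm]
    exact Nat.ModEq.of_dvd (orderOf_dvd_of_pow_eq_one ha) hm'
  let C : Subgroup B := (CommGroup.primaryComponent A p).map cor
  let D : Subgroup B := ((powMonoidHom k : A →* A).comp res).ker
  have hCinj : ∀ a ∈ CommGroup.primaryComponent A p, a ^ m = 1 → a = 1 := fun a ha h1 => by
    rw [hprim] at ha
    rw [← hinv a ha, ← pow_mul, mul_comm, pow_mul, h1, one_pow]
  refine ⟨C, D, ?_, ?_, ⟨?_⟩⟩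
  · refine (Subgroup.eq_bot_iff_forall _).2 ?_
    rintro _ ⟨⟨a, ha, rfl⟩, hD⟩
    have h1 : (res (cor a)) ^ k = 1 := hD
    have ha' := (hprim a).1 ha
    rw [h, hk _ (by rw [← pow_mul, mul_comm, pow_mul, ha', one_pow])] at h1
    rw [hCinj a ha h1, map_one]
  · rw [eq_top_iff]
    intro b _
    let a : A := ((res b) ^ k) ^ m'
    have hak : ((res b) ^ k) ^ p ^ v = 1 := hk' _
    have ha : a ^ p ^ v = 1 := by rw [← pow_mul, mul_comm, pow_mul, hak, one_pow]
    have h1 : (cor a)⁻¹ * b ∈ D := by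
      show (res ((cor a)⁻¹ * b)) ^ k = 1
      rw [map_mul, map_inv, h, mul_pow, inv_pow, hinv _ hak, hk _ hak, inv_mul_cancel]
    have h2 : cor a ∈ C := ⟨a, (hprim a).2 ha, rfl⟩
    simpa using Subgroup.mul_mem_sup h2 h1
  · refine MulEquiv.ofBijective
      ((cor.comp (CommGroup.primaryComponent A p).subtype).codRestrict C fun a => ⟨a, a.2, rfl⟩)
      ⟨fun a b hab => ?_, ?_⟩
    · have h1 : cor a = cor b := congrArg Subtype.val hab
      have h2 := congrArg res h1
      rw [h, h] at h2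
      refine Subtype.ext ?_
      rw [← hinv a ((hprim a).1 a.2), ← hinv b ((hprim b).1 b.2), ← pow_mul, ← pow_mul, mul_comm,
        pow_mul, pow_mul, h2]
    · rintro ⟨_, a, ha, rfl⟩
      exact ⟨⟨a, ha⟩, rfl⟩

end Cfsg.Agent.S3953
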