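import Cfsg.Statements.S3954
import Cfsg.Agent.Lib.SchurCover.Transfer
import Cfsg.Agent.Lib.SchurCover.FiniteAbelianDual
-- import your own Cfsg.Agent.* helpers here

set_option autoImplicit false
open Cfsg

namespace Cfsg.Agent.S3954

/-- Let `U` be a subgroup of index `m` in the finite group `G`, let `A` be the Schur multiplier of `G` and `B` that of `U`. Then the subgroup of `m`-th powers of `A` is isomorphic to a subgroup of `B`. -/
theorem result {G : Type*} [Group G] [Finite G] (U : Subgroup G) {A B : Type*} [CommGroup A] [CommGroup B] (hA : Cfsg.HasSchurMultiplier G A) (hB : Cfsg.HasSchurMultiplier U B) : ∃ C : Subgroup B, Nonempty ((powMonoidHom U.index : A →* A).range ≃* C) := by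
  obtain ⟨eA⟩ := CfsgLib.SchurCover.hasSchurMultiplier_iff.1 hA
  obtain ⟨eB⟩ := CfsgLib.SchurCover.hasSchurMultiplier_iff.1 hB
  obtain ⟨res, cor, h⟩ := CfsgLib.SchurCover.exists_cor U
  have : Finite B := Finite.of_equiv _ eB.toEquiv
  let g : B →* A := eA.toMonoidHom.comp (res.comp eB.symm.toMonoidHom)
  have hle : (powMonoidHom U.index : A →* A).range ≤ g.range := by
    rintro _ ⟨a, rfl⟩
    refine ⟨eB (cor (eA.symm a)), ?_⟩
    simp [g, h]
  let : CommGroup g.range := Subgroup.toCommGroup _
  obtain ⟨D, ⟨e⟩⟩ := CfsgLib.SchurCover.exists_subgroup_equiv_of_surjective g.rangeRestrict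
    g.rangeRestrict_surjective
  let F : (powMonoidHom U.index : A →* A).range →* B :=
    D.subtype.comp (e.toMonoidHom.comp (Subgroup.inclusion hle))
  exact ⟨F.range, ⟨MonoidHom.ofInjective (f := F)
    ((Subtype.val_injective).comp (e.injective.comp (Subgroup.inclusion_injective hle)))⟩⟩

end Cfsg.Agent.S3954
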