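import Cfsg.Statements.S3960
import Cfsg.Agent.Lib.SchurCover.Cover
-- import your own Cfsg.Agent.* helpers here

set_option autoImplicit false
universe u
open Cfsg

namespace Cfsg.Agent.S3960

/-- A finite perfect group `Q` has a universal central extension: a finite perfect group `G` in the universe of `Q` and a surjective homomorphism `π : G →* Q` with central kernel such that for every group `X` in that universe and every surjective homomorphism `ξ : X →* Q` with central kernel there is exactly one homomorphism `η : G →* X` with `ξ ∘ η = π`. -/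
theorem result {Q : Type u} [Group Q] [Finite Q] (hQ : Group.IsPerfect Q) : ∃ (G : Type u) (_ : Group G) (_ : Finite G) (π : G →* Q), Group.IsPerfect G ∧ Function.Surjective π ∧ π.ker ≤ Subgroup.center G ∧ ∀ (X : Type u) [Group X] (ξ : X →* Q), Function.Surjective ξ → ξ.ker ≤ Subgroup.center X → ∃! η : G →* X, ξ.comp η = π := by
  open CfsgLib.SchurCover in
  have hQ' : commutator Q = ⊤ := hQ.commutator_eq_top
  let U := CfsgLib.SchurCover.Univ Q
  let π : ↥(commutator U) →* Q := (CfsgLib.SchurCover.proj Q).comp (commutator U).subtype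
  have hs : Function.Surjective π := fun q => by
    have : q ∈ (commutator U).map (CfsgLib.SchurCover.proj Q) := by
      rw [map_commutator_eq, MonoidHom.range_eq_top.2 CfsgLib.SchurCover.proj_surjective,
        ← commutator_def, hQ']
      trivial
    obtain ⟨x, hx, he⟩ := this
    exact ⟨⟨x, hx⟩, he⟩
  have hk : π.ker ≤ Subgroup.center ↥(commutator U) := fun x hx =>
    Subgroup.mem_center_iff.2 fun y => Subtype.ext
      (Subgroup.mem_center_iff.1 (CfsgLib.SchurCover.ker_proj_le_center hx) (y : U))
  have hfin : Finite ↥(commutator U) := inferInstance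
  have hperf := CfsgLib.SchurCover.isPerfect_commutator_univ hQ'
  refine ⟨↥(commutator U), inferInstance, hfin, π, ⟨hperf⟩, hs, hk, fun X _ ξ hξ hc => ?_⟩
  obtain ⟨f, hf⟩ := CfsgLib.SchurCover.exists_lift ξ hξ hc
  refine ⟨f.comp (commutator U).subtype, ?_, fun η hη => ?_⟩
  · show ξ.comp (f.comp (commutator U).subtype) = π
    rw [← MonoidHom.comp_assoc, hf]
  · refine CfsgLib.SchurCover.hom_ext_of_perfect hperf ξ hc ?_
    rw [hη, ← MonoidHom.comp_assoc, hf]

end Cfsg.Agent.S3960
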