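import Cfsg.Statements.S3961
import Cfsg.Agent.Lib.SchurCover.Cover
-- import your own Cfsg.Agent.* helpers here

set_option autoImplicit false
universe u v
open Cfsg

namespace Cfsg.Agent.S3961

/-- Let `π : G →* Q` be a surjective homomorphism with central kernel from a finite perfect group `G` (a perfect cover of `Q`). Then `π` is universal, in the sense that every surjective homomorphism `ξ : X →* Q` with central kernel from a group `X` in the universe of `G` admits a homomorphism `η : G →* X` with `ξ ∘ η = π`, if and only if `G` has trivial Schur multiplier. -/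
theorem result {G : Type u} {Q : Type v} [Group G] [Group Q] [Finite G] (hG : Group.IsPerfect G) (π : G →* Q) (hπ : Function.Surjective π) (hker : π.ker ≤ Subgroup.center G) : (∀ (X : Type u) [Group X] (ξ : X →* Q), Function.Surjective ξ → ξ.ker ≤ Subgroup.center X → ∃ η : G →* X, ξ.comp η = π) ↔ Cfsg.HasCyclicSchurMultiplier G 1 := by
  open CfsgLib.SchurCover in
  have hG' : commutator G = ⊤ := hG.commutator_eq_top
  rw [CfsgLib.SchurCover.hasCyclicSchurMultiplier_one_iff]
  constructor
  · intro huniv
    obtain ⟨Γ₀, i₁, i₂, σ₀, f₀, hf₀, hσ₀, hb⟩ := CfsgLib.SchurCover.exists_cover (Q := G)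
    have hperf : commutator Γ₀ = ⊤ := by
      have h1 : Function.Surjective (σ₀.comp (commutator Γ₀).subtype) := fun g => by
        have : g ∈ (commutator Γ₀).map σ₀ := by
          rw [map_commutator_eq, MonoidHom.range_eq_top.2 hσ₀.1, ← commutator_def, hG']
          trivial
        obtain ⟨x, hx, he⟩ := this
        exact ⟨⟨x, hx⟩, he⟩
      have h2 := CfsgLib.SchurCover.stem_lift_surjective σ₀ hσ₀ (commutator Γ₀).subtype h1
      rwa [← MonoidHom.range_eq_top, Subgroup.range_subtype] at h2
    have hcen : (π.comp σ₀).ker ≤ Subgroup.center Γ₀ := fun x hx =>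
      CfsgLib.SchurCover.mem_center_of_perfect hperf x fun y => by
        refine hσ₀.2.1 ?_
        rw [MonoidHom.mem_ker]
        simp only [map_mul, map_inv]
        rw [← Subgroup.mem_center_iff.1 (hker (show σ₀ x ∈ π.ker from hx)) (σ₀ y)]
        group
    obtain ⟨η, hη⟩ := huniv Γ₀ (π.comp σ₀) (hπ.comp hσ₀.1) hcen
    have hid : σ₀.comp η = MonoidHom.id G :=
      CfsgLib.SchurCover.hom_ext_of_perfect hG' π hker (by
        rw [← MonoidHom.comp_assoc, hη, MonoidHom.comp_id])
    have hs : Function.Surjective η :=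
      CfsgLib.SchurCover.stem_lift_surjective σ₀ hσ₀ η (by rw [hid]; exact fun g => ⟨g, rfl⟩)
    have hk : σ₀.ker = ⊥ := (Subgroup.eq_bot_iff_forall _).2 fun x hx => by
      obtain ⟨g, rfl⟩ := hs x
      have : g = 1 := (DFunLike.congr_fun hid g).symm.trans hx
      rw [this, map_one]
    rw [← Subgroup.card_eq_one, Nat.card_congr (Equiv.ofBijective _ hb), hk, Subgroup.card_bot]
  · intro h0 X _ ξ hξ hc
    obtain ⟨f, hf⟩ := CfsgLib.SchurCover.exists_hom_surj ξ hξ hc π
    let ι := (commutator (CfsgLib.SchurCover.Univ G)).subtype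
    have hbij : Function.Bijective ((CfsgLib.SchurCover.proj G).comp ι) := by
      refine ⟨(MonoidHom.ker_eq_bot_iff _).1 ((Subgroup.eq_bot_iff_forall _).2 fun x hx => ?_),
        fun g => ?_⟩
      · have : (x : CfsgLib.SchurCover.Univ G) ∈ CfsgLib.SchurCover.M0 G := ⟨hx, x.2⟩
        rw [h0] at this
        exact Subtype.ext this
      · have : g ∈ (commutator (CfsgLib.SchurCover.Univ G)).map (CfsgLib.SchurCover.proj G) := by
          rw [map_commutator_eq, MonoidHom.range_eq_top.2 CfsgLib.SchurCover.proj_surjective,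
            ← commutator_def, hG']
          trivial
        obtain ⟨x, hx, he⟩ := this
        exact ⟨⟨x, hx⟩, he⟩
    let e := MulEquiv.ofBijective _ hbij
    refine ⟨(f.comp ι).comp e.symm.toMonoidHom, MonoidHom.ext fun g => ?_⟩
    have h1 := DFunLike.congr_fun hf (ι (e.symm g))
    exact h1.trans (congrArg π (e.apply_symm_apply g))

end Cfsg.Agent.S3961
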