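import Cfsg.Statements.S3962

-- import your own Cfsg.Agent.* helpers here

set_option autoImplicit false
open Cfsg

namespace Cfsg.Agent.S3962


/-- Let `G` be a perfect group and `π : G →* Q` a surjective homomorphism whose kernel is central. Then `π` maps the centre of `G` onto the centre of `Q`. Taking `π` to be the map to `G ⧸ Z(G)` shows that the central quotient of a perfect group has trivial centre. -/
theorem result {G Q : Type*} [Group G] [Group Q] (hG : Group.IsPerfect G) (π : G →* Q) (hπ : Function.Surjective π) (hker : π.ker ≤ Subgroup.center G) : (Subgroup.center G).map π = Subgroup.center Q := by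
  refine le_antisymm ?_ fun q hq => ?_
  · rintro _ ⟨g, hg, rfl⟩
    refine Subgroup.mem_center_iff.2 fun q => ?_
    obtain ⟨x, rfl⟩ := hπ q
    rw [← map_mul, ← map_mul, Subgroup.mem_center_iff.1 hg x]
  obtain ⟨g, rfl⟩ := hπ q
  refine ⟨g, Subgroup.mem_center_iff.2 fun x => ?_, rfl⟩
  let φ : G →* π.ker := MonoidHom.mk' (fun y => ⟨g * y * g⁻¹ * y⁻¹, by
      rw [MonoidHom.mem_ker]
      simp only [map_mul, map_inv, ← Subgroup.mem_center_iff.1 hq (π y), mul_inv_cancel_right,
        mul_inv_cancel]⟩)
    fun a b => by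
      apply Subtype.ext
      show g * (a * b) * g⁻¹ * (a * b)⁻¹ = g * a * g⁻¹ * a⁻¹ * (g * b * g⁻¹ * b⁻¹)
      have hz : g * b * g⁻¹ * b⁻¹ ∈ π.ker := by
        rw [MonoidHom.mem_ker]
        simp only [map_mul, map_inv, ← Subgroup.mem_center_iff.1 hq (π b), mul_inv_cancel_right,
          mul_inv_cancel]
      have hc := Subgroup.mem_center_iff.1 (hker hz)
      calc g * (a * b) * g⁻¹ * (a * b)⁻¹
          = g * a * g⁻¹ * ((g * b * g⁻¹ * b⁻¹) * a⁻¹) := by group
        _ = _ := by rw [← hc a⁻¹]; group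
  have hab : ∀ p q : π.ker, p * q = q * p := fun p q =>
    Subtype.ext (Subgroup.mem_center_iff.1 (hker q.2) p)
  have hle : commutator G ≤ φ.ker := by
    rw [commutator_eq_closure, Subgroup.closure_le]
    rintro _ ⟨a, b, rfl⟩
    rw [SetLike.mem_coe, MonoidHom.mem_ker, map_commutatorElement,
      commutatorElement_eq_one_iff_mul_comm]
    exact hab _ _
  have h1 : (φ x : G) = 1 := by
    have : x ∈ commutator G := by rw [hG.commutator_eq_top]; trivial
    rw [MonoidHom.mem_ker.1 (hle this)]; rfl
  have h2 : g * x * g⁻¹ * x⁻¹ = 1 := h1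
  rw [mul_inv_eq_one, mul_inv_eq_iff_eq_mul] at h2
  exact h2.symm

end Cfsg.Agent.S3962
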