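import Cfsg.Statements.S3963
import Cfsg.Agent.Lib.SchurCover.Metacyclic
-- import your own Cfsg.Agent.* helpers here

set_option autoImplicit false
open Cfsg

namespace Cfsg.Agent.S3963

/-- For every `n ≥ 1` the dicyclic (generalized quaternion) group of order `4 n` has trivial Schur multiplier. -/
theorem result (n : ℕ) [NeZero n] : Cfsg.HasCyclicSchurMultiplier (QuaternionGroup n) 1 := by
  have h : CfsgLib.SchurCover.MetaGens (QuaternionGroup.a 1 : QuaternionGroup n)
      (QuaternionGroup.xa 0) (2 * n) 2 n (4 * n - 2) :=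
    { gen := by
        rw [eq_top_iff]
        rintro x -
        cases x with
        | a i =>
          obtain ⟨k, rfl⟩ := ZMod.natCast_zmod_surjective (n := 2 * n) i
          rw [← QuaternionGroup.a_one_pow]
          exact Subgroup.pow_mem _ (Subgroup.subset_closure (by simp)) _
        | xa i =>
          obtain ⟨k, rfl⟩ := ZMod.natCast_zmod_surjective (n := 2 * n) i
          have : (QuaternionGroup.xa k : QuaternionGroup n) =
              QuaternionGroup.xa 0 * QuaternionGroup.a 1 ^ k := by
            rw [QuaternionGroup.a_one_pow, QuaternionGroup.xa_mul_a, zero_add]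
          rw [this]
          exact Subgroup.mul_mem _ (Subgroup.subset_closure (by simp))
            (Subgroup.pow_mem _ (Subgroup.subset_closure (by simp)) _)
      pow_a := QuaternionGroup.a_one_pow_n
      pow_b := by rw [QuaternionGroup.a_one_pow, QuaternionGroup.xa_sq]
      conj := by
        rw [mul_inv_eq_iff_eq_mul, QuaternionGroup.a_one_pow, QuaternionGroup.xa_mul_a,
          QuaternionGroup.a_mul_xa]
        congr 1
        have h4 : ((4 * n - 2 + 1 : ℕ) : ZMod (2 * n)) + 1 = 0 := by
          have : 4 * n - 2 + 1 + 1 = 2 * n * 2 := by have := NeZero.pos n; omega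
          rw [← Nat.cast_add_one, this, ZMod.natCast_eq_zero_iff]
          exact dvd_mul_right _ _
        linear_combination h4 }
  have he : ∀ k : ℕ, (QuaternionGroup.a 1 : QuaternionGroup n) ^ ((4 * n - 2) * k) = 1 → n ∣ k := by
    intro k hk
    rw [← orderOf_dvd_iff_pow_eq_one, QuaternionGroup.orderOf_a_one] at hk
    have e : 4 * n - 2 = 2 * (2 * n - 1) := by omega
    rw [e, mul_assoc, Nat.mul_dvd_mul_iff_left two_pos] at hk
    refine (Nat.Coprime.dvd_of_dvd_mul_left ?_ hk)
    rw [show 2 * n - 1 = (n - 1) + n * 1 by omega, Nat.coprime_add_mul_left_right]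
    exact Nat.coprime_self_sub_right (NeZero.pos n) |>.2 (Nat.coprime_one_right n)
  obtain ⟨-, h2⟩ := CfsgLib.SchurCover.M0_metacyclic h n 1 he
    ((Nat.gcd_dvd_left _ _).trans ((Nat.gcd_dvd_right _ _).trans (dvd_mul_right _ _)))
  rw [CfsgLib.SchurCover.hasCyclicSchurMultiplier_one_iff]
  exact Subgroup.card_eq_one.1 (Nat.dvd_one.1 h2)

end Cfsg.Agent.S3963
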