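import Cfsg.Statements.S3964
import Cfsg.Agent.Lib.SchurCover.DihedralMult
-- import your own Cfsg.Agent.* helpers here

set_option autoImplicit false
open Cfsg

namespace Cfsg.Agent.S3964

/-- For odd `n` the dihedral group of order `2 n` has trivial Schur multiplier. -/
theorem result (n : ℕ) (hn : Odd n) : Cfsg.HasCyclicSchurMultiplier (DihedralGroup n) 1 := by
  have : NeZero n := ⟨by rintro rfl; exact absurd hn (by decide)⟩
  obtain ⟨-, h2⟩ := CfsgLib.SchurCover.M0_dihedral n
  rw [Nat.Coprime.gcd_eq_one (Nat.coprime_two_right.2 hn)] at h2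
  rw [CfsgLib.SchurCover.hasCyclicSchurMultiplier_one_iff]
  exact Subgroup.card_eq_one.1 (Nat.dvd_one.1 h2)

end Cfsg.Agent.S3964
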