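import Cfsg.Statements.S3966
import Mathlib

-- import your own Cfsg.Agent.* helpers here

set_option autoImplicit false
open Cfsg

namespace Cfsg.Agent.S3966
open QuaternionGroup in
open scoped commutatorElement in
theorem stem_exists (n : ℕ) [NeZero n] (hn : Even n) :
    ∃ σ : QuaternionGroup n →* DihedralGroup n, Cfsg.IsStemExtension σ ∧ Nat.card σ.ker = 2 := by
  let c : ZMod (2 * n) →+* ZMod n := ZMod.castHom (dvd_mul_left n 2) (ZMod n)
  have hcn : c (n : ZMod (2 * n)) = 0 := by simp [c]
  let σ : QuaternionGroup n →* DihedralGroup n :=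
    MonoidHom.mk' (fun
      | a i => DihedralGroup.r (c i)
      | xa i => DihedralGroup.sr (c i)) fun x y => by
      cases x <;> cases y <;> simp [a_mul_a, a_mul_xa, xa_mul_a, xa_mul_xa, hcn]
  have hs : Function.Surjective σ := by
    intro x
    cases x with
    | r i =>
      obtain ⟨j, rfl⟩ := ZMod.castHom_surjective (dvd_mul_left n 2) i
      exact ⟨a j, rfl⟩
    | sr i =>
      obtain ⟨j, rfl⟩ := ZMod.castHom_surjective (dvd_mul_left n 2) i
      exact ⟨xa j, rfl⟩
  have hcard : Nat.card σ.ker = 2 := by
    have h1 := σ.ker.index_mul_card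
    rw [Subgroup.index_ker, MonoidHom.range_eq_top.2 hs, Subgroup.card_top, DihedralGroup.nat_card,
      Nat.card_eq_fintype_card (α := QuaternionGroup n), QuaternionGroup.card,
      show 4 * n = 2 * n * 2 by ring] at h1
    exact Nat.eq_of_mul_eq_mul_left (Nat.mul_pos two_pos (NeZero.pos n)) h1
  have hmem : ∀ x ∈ σ.ker, x = a 0 ∨ x = a (n : ZMod (2 * n)) := by
    intro x hx
    cases x with
    | xa i => exact absurd (MonoidHom.mem_ker.1 hx) (by rw [DihedralGroup.one_def]; intro (h : DihedralGroup.sr (c i) = DihedralGroup.r 0); cases h)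
    | a i =>
      have h0 : c i = 0 := by
        have := MonoidHom.mem_ker.1 hx
        rw [DihedralGroup.one_def] at this
        exact DihedralGroup.r.inj this
      obtain ⟨k, rfl⟩ := ZMod.natCast_zmod_surjective (n := 2 * n) i
      rw [map_natCast, ZMod.natCast_eq_zero_iff] at h0
      obtain ⟨q, rfl⟩ := h0
      rcases Nat.even_or_odd q with ⟨r, rfl⟩ | ⟨r, rfl⟩
      · left; congr 1
        rw [ZMod.natCast_eq_zero_iff]; exact ⟨r, by ring⟩
      · right; congr 1
        rw [show n * (2 * r + 1) = 2 * n * r + n by ring]
        push_cast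
        have : (2 * n : ZMod (2 * n)) = 0 := by exact_mod_cast ZMod.natCast_self (2 * n)
        rw [this, zero_mul, zero_add]
  refine ⟨σ, ⟨hs, fun x hx => ?_, fun x hx => ?_⟩, hcard⟩
  · rcases hmem x hx with rfl | rfl
    · rw [a_zero]; exact one_mem _
    · refine Subgroup.mem_center_iff.2 fun y => ?_
      have h2 : (n : ZMod (2 * n)) + n = 0 := by
        rw [← Nat.cast_add, ZMod.natCast_eq_zero_iff]; exact ⟨1, by ring⟩
      cases y with
      | a i => simp [a_mul_a, add_comm]
      | xa i =>
        rw [xa_mul_a, a_mul_xa]
        congr 1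
        linear_combination h2
  · rcases hmem x hx with rfl | rfl
    · rw [a_zero]; exact one_mem _
    · obtain ⟨i, hi⟩ := hn
      have h2 : (n : ZMod (2 * n)) = i + i := by rw [hi, Nat.cast_add]
      have : a (n : ZMod (2 * n)) = ⁅(a (i : ZMod (2 * n)) : QuaternionGroup n), xa 0⁆ := by
        rw [commutatorElement_def, show (a (i : ZMod (2 * n)) : QuaternionGroup n)⁻¹ = a (-(i : ZMod (2 * n))) from rfl,
          show (xa 0 : QuaternionGroup n)⁻¹ = xa ((n : ZMod (2 * n)) + 0) from rfl, a_mul_xa, xa_mul_a,
          xa_mul_xa]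
        congr 1
        have hnn : (n : ZMod (2 * n)) + n = 0 := by
          rw [← Nat.cast_add, ZMod.natCast_eq_zero_iff]; exact ⟨1, by ring⟩
        linear_combination -hnn + h2
      rw [this]
      exact Subgroup.commutator_mem_commutator (Subgroup.mem_top _) (Subgroup.mem_top _)


/-- For even `n ≥ 2` the dicyclic group of order `4 n` is a stem extension of the dihedral group of order `2 n` with kernel of order `2`: there is a surjective homomorphism `QuaternionGroup n →* DihedralGroup n` whose kernel is central, lies in the commutator subgroup and has two elements. Together with the order of the multiplier this exhibits the dicyclic group as a Schur covering group of the dihedral group. -/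
theorem result (n : ℕ) [NeZero n] (hn : Even n) : ∃ σ : QuaternionGroup n →* DihedralGroup n, Cfsg.IsStemExtension σ ∧ Nat.card σ.ker = 2 := by
  exact stem_exists n hn

end Cfsg.Agent.S3966
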