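import Cfsg.Statements.S3965
import Cfsg.Agent.Lib.SchurCover.DihedralMult
import Cfsg.Agent.S3966
-- import your own Cfsg.Agent.* helpers here

set_option autoImplicit false
open Cfsg

namespace Cfsg.Agent.S3965

/-- For even `n ≥ 2` the dihedral group of order `2 n` has Schur multiplier cyclic of order `2`. -/
theorem result (n : ℕ) [NeZero n] (hn : Even n) : Cfsg.HasCyclicSchurMultiplier (DihedralGroup n) 2 := by
  obtain ⟨h1, h2⟩ := CfsgLib.SchurCover.M0_dihedral n
  obtain ⟨σ, hσ, hc⟩ := Cfsg.Agent.S3966.stem_exists n hn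
  have h3 := CfsgLib.SchurCover.card_ker_dvd σ hσ
  rw [hc] at h3
  exact CfsgLib.SchurCover.hasCyclicSchurMultiplier_iff.2
    ⟨h1, Nat.dvd_antisymm (h2.trans (Nat.gcd_dvd_right _ _)) h3⟩

end Cfsg.Agent.S3965
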