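import Cfsg.Statements.S3967
import Cfsg.Agent.Lib.SchurCover.MetacyclicExt
import Cfsg.Agent.Lib.SchurCover.Heis
-- import your own Cfsg.Agent.* helpers here

set_option autoImplicit false
open Cfsg

namespace Cfsg.Agent.S3967
open CfsgLib.SchurCover CfsgLib.SchurCover.MetaExt in
theorem main (m n r l d e s' S' g : ℕ) (hm : m = d * e) (hm0 : 0 < m) (hn : 0 < n)
    (hr : r = d * s' + 1) (hS : ∑ i ∈ Finset.range n, r ^ i = e * S')
    (hco : Nat.Coprime s' e) (hg : g = Nat.gcd (Nat.gcd l d) S') (hg0 : 0 < g) :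
    Cfsg.HasCyclicSchurMultiplier (PresentedGroup (rels m n (e * l) r)) g := by
  obtain ⟨hP, ha, Γ, i₁, i₂, σ, hσ, hk⟩ := exists_ext m n r l d e s' S' g hm hm0 hn hr hS
    (Nat.isCoprime_iff_coprime.2 hco)
    (hg ▸ (Nat.gcd_dvd_left _ _).trans (Nat.gcd_dvd_left _ _))
    (hg ▸ (Nat.gcd_dvd_left _ _).trans (Nat.gcd_dvd_right _ _))
    (hg ▸ Nat.gcd_dvd_right _ _) hg0
  have h : MetaGens (genA m n (e * l) r) (genB m n (e * l) r) m n (e * l) (d * s') :=
    ⟨closure_gen, genA_pow, genB_pow, by rw [genB_conj, ← hr]⟩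
  obtain ⟨h1, h2⟩ := M0_metacyclic h e g (fun k hk => by
    rw [← orderOf_dvd_iff_pow_eq_one, ha, hm, mul_assoc] at hk
    have hd0 : 0 < d := Nat.pos_of_ne_zero fun h0 => by simp [h0] at hm; omega
    exact hco.symm.dvd_of_dvd_mul_left (Nat.dvd_of_mul_dvd_mul_left hd0 hk)) (by
    rw [← hr, hS, hg, hm, mul_comm d e, Nat.gcd_mul_left, Nat.gcd_mul_left, Nat.gcd_comm d l])
  have : NeZero g := ⟨hg0.ne'⟩
  exact hasCyclicSchurMultiplier_iff.2 ⟨h1, Nat.dvd_antisymm h2 (hk ▸ card_ker_dvd σ hσ)⟩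

/-- Let `m, n ≥ 1`, `r ≥ 1` with `r ^ n ≡ 1 (mod m)`, and `l` a natural number; put `d = gcd(m, r - 1)`, `t = m l / d` and `h = d · gcd(m, 1 + r + ⋯ + r^(n-1)) / m`. The group presented by generators `a, b` and relations `a ^ m = 1`, `b ^ n = a ^ t`, `b a b⁻¹ = a ^ r` (a metacyclic group of order `m n`) has Schur multiplier cyclic of order `gcd(l, h)`. -/
theorem result (m n r l : ℕ) (hm : 0 < m) (hn : 0 < n) (hr : 0 < r) (hrn : r ^ n ≡ 1 [MOD m]) : Cfsg.HasCyclicSchurMultiplier (PresentedGroup ({FreeGroup.of true ^ m, (FreeGroup.of false) ^ n * (FreeGroup.of true ^ (m * l / Nat.gcd m (r - 1)))⁻¹, FreeGroup.of false * FreeGroup.of true * (FreeGroup.of false)⁻¹ * (FreeGroup.of true ^ r)⁻¹} : Set (FreeGroup Bool))) (Nat.gcd l (Nat.gcd m (r - 1) * Nat.gcd m (∑ i ∈ Finset.range n, r ^ i) / m)) := by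
  obtain ⟨s, rfl⟩ : ∃ s, r = s + 1 := ⟨r - 1, by omega⟩
  rw [show s + 1 - 1 = s from Nat.add_sub_cancel s 1]
  have hd0 : 0 < Nat.gcd m s := Nat.gcd_pos_of_pos_left _ hm
  obtain ⟨e, s', hco, he, hs⟩ : ∃ e s', Nat.Coprime e s' ∧ m = e * Nat.gcd m s ∧ s = s' * Nat.gcd m s :=
    Nat.exists_coprime m s
  set d := Nat.gcd m s with hd
  set S := ∑ i ∈ Finset.range n, (s + 1) ^ i with hSdef
  have hms : m ∣ S * s := by
    have h1 := geom_sum_mul_add s n
    rw [← hSdef] at h1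
    have h2 := (Nat.modEq_iff_dvd' (Nat.one_le_pow _ _ (by omega))).1 hrn.symm
    rwa [← h1, Nat.add_sub_cancel] at h2
  have heS : e ∣ S := by
    rw [he, hs, ← mul_assoc] at hms
    exact hco.dvd_of_dvd_mul_right (Nat.dvd_of_mul_dvd_mul_right hd0 hms)
  obtain ⟨S', hS'⟩ := heS
  have he0 : 0 < e := Nat.pos_of_ne_zero fun h0 => by rw [h0, zero_mul] at he; omega
  have ht : m * l / d = e * l := by
    rw [he, mul_right_comm, Nat.mul_div_cancel _ hd0]
  have hh : d * Nat.gcd m S / m = Nat.gcd d S' := by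
    rw [hS', he, Nat.gcd_mul_left, ← mul_assoc, mul_comm d e, Nat.mul_div_cancel_left _ (by positivity)]
  rw [ht, hh, ← Nat.gcd_assoc]
  exact main m n (s + 1) l d e s' S' _ (by rw [he, mul_comm]) hm hn (by rw [hs, mul_comm]) hS'
    hco.symm rfl (Nat.gcd_pos_of_pos_left _ (Nat.gcd_pos_of_pos_right _ hd0))

end Cfsg.Agent.S3967
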