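import Cfsg.Statements.S3968
import Cfsg.Agent.Lib.CharTheory.Burnside
import Cfsg.Agent.Lib.CharTheory.Decomp
import Cfsg.Agent.Lib.CharTheory.Linear
-- import your own Cfsg.Agent.* helpers here

set_option autoImplicit false
open Cfsg

namespace Cfsg.Agent.S3968
open CfsgLib.CharTheory in
theorem center_ne_bot_aux {G : Type*} [Group G] [Finite G] (p : ℕ) (hp : p.Prime)
    (ρ : Representation ℂ G (Fin p → ℂ)) [ρ.IsIrreducible]
    (hfaith : ∀ g : G, ρ.character g = ρ.character 1 → g = 1) (hdiv : p ^ 2 ∣ Nat.card G) :
    Subgroup.center G ≠ ⊥ := by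
  classical
  intro hZ
  have := Fintype.ofFinite G
  have := Fact.mk hp
  have : Nontrivial (Fin p → ℂ) := by
    have : NeZero p := ⟨hp.ne_zero⟩
    infer_instance
  have hdim : Module.finrank ℂ (Fin p → ℂ) = p := Module.finrank_fin_fun ℂ
  have hone : ρ.character 1 = p := by rw [ρ.char_one, hdim]
  have hker : ∀ g : G, ρ g = LinearMap.id → g = 1 := fun g hg =>
    hfaith g (by rw [hone, (character_eq_finrank_iff ρ g).2 hg, hdim])
  -- scalars act centrally
  have hscal : ∀ g : G, ∀ ω : ℂ, ρ g = ω • LinearMap.id → g = 1 := by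
    intro g ω hω
    have : g ∈ Subgroup.center G := Subgroup.mem_center_iff.2 fun x => by
      have hc : ρ (x * g) = ρ (g * x) := by
        rw [map_mul, map_mul, hω]
        apply LinearMap.ext
        intro v
        simp
      have h1 : ρ ((g * x)⁻¹ * (x * g)) = LinearMap.id := by
        rw [map_mul, hc, ← map_mul, inv_mul_cancel, map_one]; rfl
      exact (inv_mul_eq_one.1 (hker _ h1)).symm
    rw [hZ] at this
    exact this
  obtain ⟨P⟩ : Nonempty (Sylow p G) := inferInstance
  obtain ⟨a, ha⟩ := P.2.exists_card_eq
  have hPbig : p ^ 2 ∣ Nat.card (P : Subgroup G) := P.pow_dvd_card_of_pow_dvd_card hdiv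
  -- central elements of the Sylow subgroup have vanishing character value
  have hvan : ∀ z : G, z ≠ 1 → (P : Subgroup G) ≤ Subgroup.centralizer {z} → ρ.character z = 0 := by
    intro z hz hle
    have hcop : Nat.Coprime (Module.finrank ℂ (Fin p → ℂ))
        (Subgroup.centralizer ({z} : Set G)).index := by
      rw [hdim]
      exact hp.coprime_iff_not_dvd.2 fun hd =>
        P.not_dvd_index (hd.trans (Subgroup.index_dvd_of_le hle))
    refine (character_eq_zero_or_norm_of_coprime ρ z hcop).resolve_right fun h => ?_
    obtain ⟨ω, hω⟩ := (norm_character_eq_iff ρ z).1 h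
    exact hz (hscal z ω hω)
  let S := (P : Subgroup G)
  let σ : Representation ℂ S (Fin p → ℂ) := ρ.comp S.subtype
  have hσ : ∀ s : S, σ.character s = ρ.character s := fun _ => rfl
  by_cases hab : IsMulCommutative S
  · -- abelian case: the restricted character is a multiple of the regular character
    have h1 := classInner_character_one σ
    have h2 : (∑ s : S, σ.character s * (starRingEnd ℂ) 1) = p := by
      rw [Finset.sum_eq_single 1]
      · rw [map_one, mul_one, σ.char_one, hdim]
      · intro s _ hs
        rw [map_one, mul_one, hσ, hvan s (fun h => hs (Subtype.ext h)) fun x hx =>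
          Subgroup.mem_centralizer_singleton_iff.2
            (congrArg Subtype.val (hab.is_comm.comm (⟨x, hx⟩ : S) s))]
      · simp
    unfold Cfsg.classInner at h1
    rw [h2, inv_mul_eq_iff_eq_mul₀ (by exact_mod_cast Nat.card_pos.ne')] at h1
    have h3 : p = Nat.card S * Module.finrank ℂ σ.invariants := by exact_mod_cast h1
    have h4 : p ^ 2 ∣ p := hPbig.trans ⟨_, h3⟩
    have := Nat.le_of_dvd hp.pos h4
    nlinarith [hp.one_lt]
  · -- nonabelian case
    obtain ⟨s, hs⟩ := IsCharacter.exists_multiset (isCharacter_character σ)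
    have hdeg : ∀ ψ : Cfsg.IrrCharacter S, ∃ d : ℕ, (d = 1 ∨ p ≤ d) ∧ (ψ : S → ℂ) 1 = d := by
      intro ψ
      obtain ⟨d, hd0, hd, hd1⟩ := IsIrrCharacter.exists_degree_dvd ψ.2
      rw [ha] at hd
      obtain ⟨j, -, rfl⟩ := (Nat.dvd_prime_pow hp).1 hd
      refine ⟨_, ?_, hd1⟩
      rcases Nat.eq_zero_or_pos j with rfl | hj
      · exact Or.inl (pow_zero p)
      · exact Or.inr (Nat.le_self_pow hj.ne' p)
    choose d hd1 hd2 using hdeg
    have hsum : (s.map d).sum = p := by
      have h1 := congrFun hs 1
      rw [σ.char_one, hdim] at h1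
      have h2 : ((s.map d).sum : ℂ) = ((s.map (fun ψ : Cfsg.IrrCharacter S => (ψ : S → ℂ))).sum) 1 := by
        clear hs h1
        induction s using Multiset.induction_on with
        | empty => simp
        | cons ψ s ih => simp [ih, hd2]
      rw [← h1] at h2
      exact_mod_cast h2
    by_cases hbig : ∃ ψ ∈ s, p ≤ d ψ
    · obtain ⟨ψ, hψ, hψd⟩ := hbig
      obtain ⟨s', rfl⟩ := Multiset.exists_cons_of_mem hψ
      have hs0 : s' = 0 := by
        rw [Multiset.map_cons, Multiset.sum_cons] at hsum
        have h0 : (s'.map d).sum = 0 := by omega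
        refine Multiset.eq_zero_of_forall_notMem fun x hx => ?_
        have h5 := Multiset.single_le_sum (fun _ _ => Nat.zero_le _) _ (Multiset.mem_map_of_mem d hx)
        have := hd1 x
        have := hp.one_lt
        omega
      subst hs0
      rw [Multiset.map_cons, Multiset.map_zero, Multiset.sum_cons, Multiset.sum_zero, add_zero] at hs
      -- a central element acts as a scalar in the restriction
      have hnt : Nontrivial S := Finite.one_lt_card_iff_nontrivial.1
        (lt_of_lt_of_le (Nat.one_lt_pow two_ne_zero hp.one_lt) (Nat.le_of_dvd Nat.card_pos hPbig))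
      have hcn := IsPGroup.center_nontrivial (P.2 : IsPGroup p S)
      obtain ⟨⟨z, hz⟩, hz1⟩ := exists_ne (1 : Subgroup.center S)
      obtain ⟨n, τ, hτ, hψτ⟩ := ψ.2
      obtain ⟨c, hc⟩ := exists_smul_of_commute τ (τ z) fun g => by
        rw [← Module.End.mul_eq_comp, ← Module.End.mul_eq_comp, ← map_mul, ← map_mul,
          Subgroup.mem_center_iff.1 hz g]
      have hnn := nontrivial_of_isIrreducible τ
      have hc1 := norm_eq_one_of_smul_id τ hc
      have h0 : σ.character z = 0 := by
        rw [hσ]
        refine hvan _ (fun h => hz1 (Subtype.ext (Subtype.ext h))) fun x hx => ?_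
        exact Subgroup.mem_centralizer_singleton_iff.2
          (congrArg Subtype.val (Subgroup.mem_center_iff.1 hz ⟨x, hx⟩))
      have h6 := (norm_character_eq_iff τ z).2 ⟨c, hc⟩
      have h7 : τ.character z = σ.character z := by rw [hs, hψτ]
      rw [h7, h0, norm_zero] at h6
      have := finrank_pos_of_isIrreducible τ
      exact (Nat.cast_pos.2 this).ne h6
    · push Not at hbig
      have hlin : ∀ x ∈ commutator S, σ.character x = p := by
        intro x hx
        rw [hs]
        have h8 : ∀ ψ ∈ s, (ψ : S → ℂ) x = 1 := by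
          intro ψ hψ
          have hd : d ψ = 1 := (hd1 ψ).resolve_right (by have := hbig ψ hψ; omega)
          obtain ⟨μ, hμ⟩ := exists_hom_of_degree_one ψ.2 (by rw [hd2, hd, Nat.cast_one])
          rw [hμ]
          simp [MonoidHom.mem_ker.1 (Abelianization.commutator_subset_ker μ hx)]
        have h9 : s.card = p := by
          rw [← hsum, (Multiset.eq_replicate_card (a := 1) (s := s.map d)).2 ?_]
          · simp
          · intro q hq
            obtain ⟨ψ, hψ, rfl⟩ := Multiset.mem_map.1 hq
            exact (hd1 ψ).resolve_right (by have := hbig ψ hψ; omega)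
        have h10 : ((s.map (fun ψ : Cfsg.IrrCharacter S => (ψ : S → ℂ))).sum) x = (s.card : ℂ) := by
          clear hs hsum hbig h9 hx
          induction s using Multiset.induction_on with
          | empty => simp
          | cons ψ s ih =>
            rw [Multiset.map_cons, Multiset.sum_cons, Pi.add_apply, h8 ψ (Multiset.mem_cons_self _ _),
              ih fun φ hφ => h8 φ (Multiset.mem_cons_of_mem hφ), Multiset.card_cons]
            push_cast
            ring
        rw [h10, h9]
      refine hab ⟨⟨fun x y => ?_⟩⟩
      have h11 := hlin _ (Subgroup.commutator_mem_commutator (Subgroup.mem_top x) (Subgroup.mem_top y))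
      rw [hσ] at h11
      have h12 := hfaith _ (h11.trans hone.symm)
      exact commutatorElement_eq_one_iff_mul_comm.1 (Subtype.ext h12)


/-- Let `p` be a prime and `G` a finite group with a faithful irreducible complex character of degree `p` (so `G` is an irreducible linear group in `p` variables). If `p ^ 2` divides the order of `G`, then the centre of `G` is nontrivial. -/
theorem result {G : Type*} [Group G] [Finite G] (p : ℕ) (hp : p.Prime) (χ : Cfsg.IrrCharacter G) (hdeg : χ.1 1 = p) (hfaith : ∀ g : G, χ.1 g = χ.1 1 → g = 1) (hdiv : p ^ 2 ∣ Nat.card G) : Subgroup.center G ≠ ⊥ := by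
  obtain ⟨n, ρ, hρ, hχ⟩ := χ.2
  have hn : n = p := by
    rw [← hχ, ρ.char_one, Module.finrank_fin_fun] at hdeg
    exact_mod_cast hdeg
  subst hn
  haveI := hρ
  exact center_ne_bot_aux n hp ρ (fun g hg => hfaith g (by rw [← hχ]; exact hg)) hdiv

end Cfsg.Agent.S3968
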