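import Cfsg.Statements.S3970
import Cfsg.Agent.Lib.Hall2.AbelianSylow
-- import your own Cfsg.Agent.* helpers here

set_option autoImplicit false
open Cfsg

namespace Cfsg.Agent.S3970
theorem rank_le_one_of_card_prime {H : Type*} [Group H] [Finite H] {p : ℕ} [Fact p.Prime]
    (hc : Nat.card H = p) : Group.rank H ≤ 1 := by
  have := isCyclic_of_prime_card hc
  obtain ⟨g, hg⟩ := IsCyclic.exists_generator (α := H)
  have h1 : Subgroup.closure ({g} : Set H) = ⊤ := by
    rw [← Subgroup.zpowers_eq_closure, eq_top_iff]
    exact fun x _ => hg x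
  exact (Group.rank_le (S := {g}) (by rwa [Finset.coe_singleton])).trans_eq (Finset.card_singleton g)

universe u
theorem solvable_aux (N : ℕ) : ∀ {G : Type u} [Group G] [Finite G], Nat.card G = N →
    (∀ p : ℕ, p.Prime → p ∣ Nat.card G → (∃ q : ℕ, q.Prime ∧ q ∣ Nat.card G ∧ p < q) →
      ∀ P : Sylow p G, IsMulCommutative (P : Subgroup G) ∧ Group.rank (P : Subgroup G) ≤ 2) →
    ¬ 12 ∣ Nat.card G → Group.IsSolvable G := by
  induction N using Nat.strong_induction_on with
  | _ N ih =>
    intro G _ _ hN h h12
    rcases subsingleton_or_nontrivial G with _ | _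
    · infer_instance
    have hG1 : 1 < Nat.card G := Finite.one_lt_card
    set p := (Nat.card G).minFac with hpdef
    have hp : p.Prime := Nat.minFac_prime hG1.ne'
    have := Fact.mk hp
    have hpG : p ∣ Nat.card G := Nat.minFac_dvd _
    have hmin : ∀ q, q.Prime → q ∣ Nat.card G → q ≠ p → p < q := fun q hq hqG hne =>
      lt_of_le_of_ne (Nat.minFac_le_of_dvd hq.two_le hqG) (Ne.symm hne)
    by_cases hq : ∃ q, q.Prime ∧ q ∣ Nat.card G ∧ q ≠ p
    swap
    · have hPG : IsPGroup p G := by
        rw [IsPGroup.iff_card]
        refine ⟨_, Nat.eq_prime_pow_of_unique_prime_dvd Nat.card_pos.ne' fun {d} hd hdG => ?_⟩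
        by_contra hne
        exact hq ⟨d, hd, hdG, hne⟩
      have := hPG.isNilpotent
      infer_instance
    obtain ⟨q₀, hq₀, hq₀G, hq₀p⟩ := hq
    let P : Sylow p G := default
    obtain ⟨hab, hrk⟩ := h p hp hpG ⟨q₀, hq₀, hq₀G, hmin q₀ hq₀ hq₀G hq₀p⟩ P
    have hcomp : Cfsg.HasNormalPComplement p G := by
      refine CfsgLib.Hall2.hasNormalPComplement_of_rank P hab fun q hq hqp hqG j hj1 hj hqj => ?_
      have hlt := hmin q hq hqG hqp
      rcases (show j = 1 ∨ j = 2 by omega) with rfl | rfl
      · rw [pow_one] at hqj
        have := Nat.le_of_dvd (by have := hp.two_le; omega) hqj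
        omega
      · rw [show p ^ 2 - 1 = (p + 1) * (p - 1) by rw [← Nat.sq_sub_sq, one_pow]] at hqj
        rcases hq.dvd_mul.1 hqj with h1 | h1
        · have hq1 : q = p + 1 := by
            have := Nat.le_of_dvd (by omega) h1
            omega
          have hp2 : p = 2 := by
            rcases hp.eq_two_or_odd with h2 | h2
            · exact h2
            · exfalso
              have : 2 ∣ q := by omega
              have := (Nat.prime_dvd_prime_iff_eq Nat.prime_two hq).1 this
              have := hp.two_le
              omega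
          have hq3 : q = 3 := by omega
          have hP2 : Nat.card (P : Subgroup G) = p := by
            obtain ⟨a, ha⟩ := P.2.exists_card_eq
            have ha0 : a ≠ 0 := fun h0 => by
              have := P.ne_bot_of_dvd_card hpG
              exact this (Subgroup.eq_bot_of_card_eq _ (by rw [ha, h0, pow_zero]))
            have ha2 : a < 2 := by
              by_contra hle
              refine h12 ?_
              have h4 : 4 ∣ Nat.card G := by
                have h5 : p ^ 2 ∣ Nat.card G :=
                  (pow_dvd_pow p (by omega : 2 ≤ a)).trans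
                    (ha ▸ Subgroup.card_subgroup_dvd_card _)
                rwa [hp2] at h5
              exact Nat.Coprime.mul_dvd_of_dvd_of_dvd (by norm_num : Nat.Coprime 4 3) h4 (hq3 ▸ hqG)
            rw [ha, show a = 1 by omega, pow_one]
          have := rank_le_one_of_card_prime hP2
          omega
        · have := Nat.le_of_dvd (by have := hp.two_le; omega) h1
          omega
    obtain ⟨P', K, hK, hc⟩ := hcomp
    have hKp : K.index = Nat.card (P' : Subgroup G) := hc.symm.index_eq_card
    have hKlt : Nat.card K < N := by
      rw [← hN, ← hc.card_mul_card]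
      refine lt_mul_of_one_lt_right Nat.card_pos ?_
      exact (Subgroup.one_lt_card_iff_ne_bot _).2 (P'.ne_bot_of_dvd_card hpG)
    have hsK : Group.IsSolvable K := by
      refine ih _ hKlt rfl (fun r hr hrK hex S => ?_) fun h12K =>
        h12 (h12K.trans (Subgroup.card_subgroup_dvd_card K))
      have := Fact.mk hr
      obtain ⟨q, hq, hqK, hrq⟩ := hex
      have hKG := Subgroup.card_subgroup_dvd_card K
      let T : Subgroup G := (S : Subgroup K).map K.subtype
      have hT : IsPGroup r T := S.2.map _
      obtain ⟨R, hR⟩ := hT.exists_le_sylow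
      obtain ⟨hRab, hRrk⟩ := h r hr (hrK.trans hKG) ⟨q, hq, hqK.trans hKG, hrq⟩ R
      have hrp : r ≠ p := by
        intro hrp
        subst hrp
        have hcop : (Nat.card (P' : Subgroup G)).Coprime (Nat.card K) := by
          obtain ⟨a, ha⟩ := P'.2.exists_card_eq
          rw [ha]
          refine Nat.Coprime.pow_left a ((hr.coprime_iff_not_dvd).2 ?_)
          intro hd
          have hidx : (P' : Subgroup G).index = Nat.card K := hc.index_eq_card
          exact P'.not_dvd_index (hidx ▸ hd)
        obtain ⟨a, ha⟩ := P'.2.exists_card_eq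
        have ha0 : a ≠ 0 := fun h0 =>
          P'.ne_bot_of_dvd_card hpG (Subgroup.eq_bot_of_card_eq _ (by rw [ha, h0, pow_zero]))
        exact hr.one_lt.ne' (Nat.eq_one_of_dvd_coprimes hcop (ha ▸ dvd_pow_self _ ha0) hrK)
      have hTR : T = R := by
        refine Subgroup.eq_of_le_of_card_ge hR ?_
        rw [Subgroup.card_map_of_injective K.subtype_injective]
        obtain ⟨b, hb⟩ := R.2.exists_card_eq
        rw [hb]
        refine Nat.le_of_dvd Nat.card_pos (S.pow_dvd_card_of_pow_dvd_card ?_)
        have h1 : r ^ b ∣ Nat.card K * Nat.card (P' : Subgroup G) := by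
          rw [hc.card_mul_card, ← hb]
          exact Subgroup.card_subgroup_dvd_card _
        refine Nat.Coprime.dvd_of_dvd_mul_right ?_ h1
        obtain ⟨a, ha⟩ := P'.2.exists_card_eq
        rw [ha]
        exact ((Nat.coprime_primes hr hp).2 hrp).pow _ _
      have e : (S : Subgroup K) ≃* R :=
        (Subgroup.equivMapOfInjective _ K.subtype K.subtype_injective).trans
          (MulEquiv.subgroupCongr hTR)
      refine ⟨⟨⟨fun a b => e.injective (by rw [map_mul, map_mul]; exact hRab.is_comm.comm _ _)⟩⟩, ?_⟩
      rw [Group.rank_congr e]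
      exact hRrk
    have hq' : IsPGroup p (G ⧸ K) := by
      obtain ⟨a, ha⟩ := P'.2.exists_card_eq
      exact IsPGroup.of_card (n := a) (by rw [← Subgroup.index_eq_card, hKp, ha])
    have := hq'.isNilpotent
    have hsQ : Group.IsSolvable (G ⧸ K) := inferInstance
    exact Group.isSolvable_of_ker_le_range K.subtype (QuotientGroup.mk' K) (by simp)


/-- Let `G` be a finite group such that for every prime `p` dividing its order, other than the largest such prime, the Sylow `p`-subgroups are abelian and generated by at most two elements, and suppose `12` does not divide the order of `G`. Then `G` is solvable. In particular a group of cube-free order not divisible by `12` is solvable. -/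
theorem result {G : Type*} [Group G] [Finite G] (h : ∀ p : ℕ, p.Prime → p ∣ Nat.card G → (∃ q : ℕ, q.Prime ∧ q ∣ Nat.card G ∧ p < q) → ∀ P : Sylow p G, IsMulCommutative (P : Subgroup G) ∧ Group.rank (P : Subgroup G) ≤ 2) (h12 : ¬ 12 ∣ Nat.card G) : Group.IsSolvable G := by
  exact solvable_aux _ rfl h h12

end Cfsg.Agent.S3970
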