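import Cfsg.Statements.S3971
import Cfsg.Agent.Lib.NormalPComplement.Frobenius
import Cfsg.Agent.Lib.PGroups.Aut
import Cfsg.Agent.Lib.PGroups.Frattini
-- import your own Cfsg.Agent.* helpers here

set_option autoImplicit false
open Cfsg

namespace Cfsg.Agent.S3971
universe v

theorem sub_lemma {Q : Type v} [Group Q] [Finite Q] {y : Q} (hy : Nat.card Q ≤ 2 * orderOf y)
    (H : Subgroup Q) : ∃ z : H, Nat.card H ≤ 2 * orderOf z := by
  let C := (Subgroup.zpowers y).subgroupOf H
  have : IsCyclic C := isCyclic_of_injective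
    ((H.subtype.comp C.subtype).codRestrict (Subgroup.zpowers y) fun c => c.2)
    (fun a b h => Subtype.ext (Subtype.ext (congrArg Subtype.val h :)))
  obtain ⟨z, hz⟩ := IsCyclic.exists_generator (α := C)
  refine ⟨(z : H), ?_⟩
  have hC : Nat.card C = orderOf (z : H) := by
    rw [Subgroup.orderOf_coe, orderOf_eq_card_of_forall_mem_zpowers hz]
  have hi : (Subgroup.zpowers y).index ≤ 2 := by
    refine Nat.le_of_mul_le_mul_left ?_ (orderOf_pos y)
    rw [← Nat.card_zpowers y, Subgroup.card_mul_index, Nat.card_zpowers, mul_comm]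
    exact hy
  calc Nat.card H = Nat.card C * C.index := (Subgroup.card_mul_index C).symm
    _ ≤ orderOf (z : H) * 2 := by
      rw [hC]
      exact Nat.mul_le_mul_left _ ((Subgroup.relIndex_le_of_le_right le_top
        (by rw [Subgroup.relIndex_top_right]; exact Subgroup.index_ne_zero_of_finite)).trans
          (by rw [Subgroup.relIndex_top_right]; exact hi))
    _ = _ := mul_comm _ _

theorem aut_eq_one (m : ℕ) : ∀ {Q : Type v} [Group Q] [Finite Q], Nat.card Q = m → IsPGroup 2 Q →
    (∃ y : Q, Nat.card Q ≤ 2 * orderOf y) → ∀ φ : MulAut Q, (orderOf φ).Coprime 6 → φ = 1 := by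
  induction m using Nat.strong_induction_on with
  | _ m ih =>
    intro Q _ _ hm hQ hy φ hφ
    have := Fact.mk Nat.prime_two
    rcases subsingleton_or_nontrivial Q with hs | hnt
    · exact MulEquiv.ext fun x => Subsingleton.elim _ _
    obtain ⟨y, hy⟩ := hy
    have hPhi : frattini Q ≠ ⊤ := by
      intro h
      obtain ⟨M, hM⟩ := (eq_top_or_exists_le_coatom (⊥ : Subgroup Q)).resolve_left bot_ne_top
      exact hM.1.1 (eq_top_iff.2 (h ▸ frattini_le_coatom hM.1))
    have hchar : (frattini Q).Characteristic := inferInstance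
    have hmap : (frattini Q).map (φ : Q →* Q) = frattini Q :=
      Subgroup.characteristic_iff_map_eq.1 hchar φ
    have h2 : Nat.Coprime (orderOf φ) 2 := hφ.coprime_dvd_right (by norm_num)
    -- trivial on the quotient
    let ψ : MulAut (Q ⧸ frattini Q) := QuotientGroup.congr _ _ φ hmap
    have hψk : ∀ (k : ℕ) (x : Q), (ψ ^ k) (QuotientGroup.mk x) = QuotientGroup.mk ((φ ^ k) x) := by
      intro k
      induction k with
      | zero => intro x; rfl
      | succ k ihk =>
        intro x
        rw [pow_succ', pow_succ', MulAut.mul_apply, MulAut.mul_apply, ihk]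
        rfl
    have hψ1 : ψ ^ orderOf φ = 1 := MulEquiv.ext fun x => by
      obtain ⟨x, rfl⟩ := QuotientGroup.mk_surjective x
      rw [hψk, pow_orderOf_eq_one]
      rfl
    have hcard : Nat.card (Q ⧸ frattini Q) ≤ 4 := by
      let f := QuotientGroup.mk' (frattini Q)
      rw [← Subgroup.card_mul_index ((Subgroup.zpowers y).map f), MonoidHom.map_zpowers,
        Nat.card_zpowers]
      have h1 : orderOf (f y) ≤ 2 := by
        refine orderOf_le_of_pow_eq_one (by norm_num) ?_
        rw [← map_pow]
        exact (QuotientGroup.eq_one_iff _).2 (CfsgLib.PGroups.pow_mem_frattini hQ y)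
      have h3 : ((Subgroup.zpowers y).map f).index ≤ 2 := by
        refine (Nat.le_of_dvd (Nat.pos_of_ne_zero Subgroup.index_ne_zero_of_finite)
          (Subgroup.index_map_dvd _ (QuotientGroup.mk'_surjective _))).trans ?_
        refine Nat.le_of_mul_le_mul_left ?_ (orderOf_pos y)
        rw [← Nat.card_zpowers y, Subgroup.card_mul_index, Nat.card_zpowers, mul_comm]
        exact hy
      rw [MonoidHom.map_zpowers] at h3
      exact Nat.mul_le_mul h1 h3
    have hψ : ψ = 1 := by
      have h24 : orderOf (MulAut.toPerm (Q ⧸ frattini Q) ψ) ∣ Nat.factorial 4 := by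
        refine (orderOf_dvd_natCard _).trans ?_
        rw [Nat.card_perm]
        exact Nat.factorial_dvd_factorial hcard
      rw [orderOf_injective (MulAut.toPerm _) fun a b h => MulEquiv.ext fun x =>
        (Equiv.ext_iff.1 h x :)] at h24
      have h6 : Nat.Coprime (orderOf φ) (Nat.factorial 4) := by
        have : Nat.factorial 4 ∣ 6 ^ 3 := by decide
        exact (hφ.pow_right 3).coprime_dvd_right this
      exact orderOf_eq_one_iff.1
        (Nat.eq_one_of_dvd_coprimes h6 (orderOf_dvd_of_pow_eq_one hψ1) h24)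
    -- fixed on the Frattini subgroup
    have hlt : Nat.card (frattini Q) < m := by
      rw [← hm]
      exact lt_of_le_of_ne (Subgroup.card_le_card_group _) fun h =>
        hPhi (Subgroup.eq_top_of_card_eq _ h)
    have hm' : ∀ x ∈ frattini Q, φ x ∈ frattini Q := fun x hx =>
      hmap ▸ Subgroup.mem_map_of_mem _ hx
    let χ : MulAut (frattini Q) :=
      ((φ : Q ≃* Q).subgroupMap (frattini Q)).trans (MulEquiv.subgroupCongr hmap)
    have hχk : ∀ (k : ℕ) (x : frattini Q), (((χ ^ k) x : frattini Q) : Q) = (φ ^ k) x := by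
      intro k
      induction k with
      | zero => intro x; rfl
      | succ k ihk =>
        intro x
        rw [pow_succ', pow_succ', MulAut.mul_apply, MulAut.mul_apply, ← ihk]
        rfl
    have hχ : χ = 1 := by
      refine ih _ hlt rfl (hQ.to_subgroup _) (sub_lemma hy _) χ (hφ.coprime_dvd_left ?_)
      exact orderOf_dvd_of_pow_eq_one (MulEquiv.ext fun x => Subtype.ext (by
        rw [hχk, pow_orderOf_eq_one]; rfl))
    refine MulEquiv.ext fun x => CfsgLib.PGroups.fixed_of_fixed_diff hQ φ h2 ?_
    have hd : x⁻¹ * φ x ∈ frattini Q := by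
      rw [← QuotientGroup.eq]
      exact ((congrArg (fun e : MulAut (Q ⧸ frattini Q) => e (QuotientGroup.mk x)) hψ).symm :)
    exact (congrArg (fun e : MulAut (frattini Q) => ((e ⟨_, hd⟩ : frattini Q) : Q)) hχ :)

/-- Let `G` be a finite group of order `2 ^ a * n` with `n` odd and not divisible by `3`, and suppose `G` has an element of order `2 ^ (a - 1)` (so a Sylow `2`-subgroup has a cyclic subgroup of index at most `2`). Then `G` has a normal subgroup of order `n`. -/
theorem result {G : Type*} [Group G] [Finite G] (a n : ℕ) (hG : Nat.card G = 2 ^ a * n) (hn : Odd n) (h3 : ¬ 3 ∣ n) (hx : ∃ x : G, orderOf x = 2 ^ (a - 1)) : ∃ N : Subgroup G, N.Normal ∧ Nat.card N = n := by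
  have := Fact.mk Nat.prime_two
  obtain ⟨x, hx⟩ := hx
  have hfc : CfsgLib.NormalPComplement.FrobeniusCondition 2 G := by
    intro Q hQ g hg hcop
    obtain ⟨P, hP⟩ := hQ.exists_le_sylow
    have hPc : Nat.card (P : Subgroup G) = 2 ^ a := by
      rw [P.card_eq_multiplicity, hG, Nat.factorization_mul (by positivity) hn.pos.ne',
        Finsupp.add_apply, Nat.Prime.factorization_pow Nat.prime_two, Finsupp.single_eq_same,
        Nat.factorization_eq_zero_of_not_dvd hn.not_two_dvd_nat, add_zero]
    -- a conjugate of `x` inside `P`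
    obtain ⟨P', hP'⟩ := (IsPGroup.of_card (p := 2) (n := a - 1) (G := Subgroup.zpowers x)
      (by rw [Nat.card_zpowers, hx])).exists_le_sylow
    let e := Sylow.equiv P' P
    have hyP : Nat.card (P : Subgroup G) ≤ 2 * orderOf (e ⟨x, hP' (Subgroup.mem_zpowers x)⟩) := by
      rw [MulEquiv.orderOf_eq, Subgroup.orderOf_mk, hx, hPc, ← pow_succ']
      exact Nat.pow_le_pow_right (by norm_num) (by omega)
    obtain ⟨z, hz⟩ := sub_lemma hyP (Q.subgroupOf (P : Subgroup G))
    let eQ := Subgroup.subgroupOfEquivOfLe hP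
    have hQy : ∃ z' : Q, Nat.card Q ≤ 2 * orderOf z' := ⟨eQ z, by
      rw [MulEquiv.orderOf_eq]
      exact (Nat.card_congr eQ.toEquiv) ▸ hz⟩
    let φ : MulAut Q := Subgroup.normalizerMonoidHom Q ⟨g, hg⟩
    have h6 : (orderOf g).Coprime 6 := by
      refine Nat.Coprime.mul_right (m := 2) (n := 3) hcop ?_
      refine Nat.Coprime.symm ((Nat.Prime.coprime_iff_not_dvd Nat.prime_three).2 fun h => h3 ?_)
      have h' : 3 ∣ 2 ^ a * n := hG ▸ h.trans (orderOf_dvd_natCard g)
      exact (Nat.Coprime.dvd_of_dvd_mul_left (Nat.Coprime.pow_right a (by norm_num)) h')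
    have hφ : φ = 1 := aut_eq_one _ rfl hQ hQy φ (h6.coprime_dvd_left ((orderOf_map_dvd _ _).trans
      (by rw [Subgroup.orderOf_mk])))
    refine Subgroup.mem_centralizer_iff.2 fun q hq => ?_
    have h1 : g * q * g⁻¹ = q :=
      (congrArg (fun e : MulAut Q => ((e ⟨q, hq⟩ : Q) : G)) hφ :)
    calc q * g = g * q * g⁻¹ * g := by rw [h1]
      _ = g * q := by group
  obtain ⟨P, N, hN, hc⟩ := CfsgLib.NormalPComplement.hasNormalPComplement_of_frobeniusCondition hfc
  refine ⟨N, hN, ?_⟩
  have h1 := hc.card_mul_card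
  rw [hG, P.card_eq_multiplicity, hG, Nat.factorization_mul (by positivity) hn.pos.ne',
    Finsupp.add_apply, Nat.Prime.factorization_pow Nat.prime_two, Finsupp.single_eq_same,
    Nat.factorization_eq_zero_of_not_dvd hn.not_two_dvd_nat, add_zero, mul_comm (2 ^ a) n] at h1
  exact Nat.eq_of_mul_eq_mul_right (by positivity) h1

end Cfsg.Agent.S3971
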