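import Cfsg.Statements.S3973
import Cfsg.Agent.Lib.SchurCover.Basic
-- import your own Cfsg.Agent.* helpers here

set_option autoImplicit false
open Cfsg

namespace Cfsg.Agent.S3973


/-- If a finite group is presented by `n` generators and a finite set of `r` relators, then its Schur multiplier can be generated by `r - n` elements. In particular a finite group with a presentation having as many relators as generators has trivial Schur multiplier. -/
theorem result (n : ℕ) (rels : Finset (FreeGroup (Fin n))) [Finite (PresentedGroup (rels : Set (FreeGroup (Fin n))))] {A : Type*} [CommGroup A] [Finite A] (hA : Cfsg.HasSchurMultiplier (PresentedGroup (rels : Set (FreeGroup (Fin n)))) A) : Group.rank A ≤ rels.card - n := by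
  classical
  obtain ⟨Γ, i₁, i₂, σ, hσ, ⟨e⟩⟩ := hA.1
  set P := PresentedGroup (rels : Set (FreeGroup (Fin n)))
  let π : FreeGroup (Fin n) →* P := PresentedGroup.mk _
  have hπ : Function.Surjective π := QuotientGroup.mk_surjective
  choose s hs using fun i => hσ.1 (π (FreeGroup.of i))
  let φ : FreeGroup (Fin n) →* Γ := FreeGroup.lift s
  have hφ : σ.comp φ = π := FreeGroup.ext_hom _ _ fun i => by simp [φ, hs]
  have hφs : Function.Surjective φ :=
    CfsgLib.SchurCover.stem_lift_surjective σ hσ φ (hφ ▸ hπ)
  let ev : FreeGroup (Fin n) →* Multiplicative (Fin n → ℤ) :=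
    FreeGroup.lift fun i => Multiplicative.ofAdd (Pi.single i (1 : ℤ))
  let : CommGroup σ.ker :=
    { (inferInstance : Group σ.ker) with
      mul_comm := fun a b => Subtype.ext (Subgroup.mem_center_iff.1 (hσ.2.1 b.2) a) }
  have hrel : ∀ r : rels, φ r ∈ σ.ker := fun r => by
    rw [MonoidHom.mem_ker, ← MonoidHom.comp_apply, hφ]
    exact PresentedGroup.one_of_mem r.2
  let E : (rels → ℤ) →ₗ[ℤ] (Fin n → ℤ) :=
    Fintype.linearCombination ℤ fun r : rels => Multiplicative.toAdd (ev r)
  let Φ : (rels → ℤ) →ₗ[ℤ] Additive σ.ker :=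
    Fintype.linearCombination ℤ fun r : rels => Additive.ofMul (⟨φ r, hrel r⟩ : σ.ker)
  have hnc : ∀ g ∈ Subgroup.normalClosure (rels : Set (FreeGroup (Fin n))),
      ∃ v, Multiplicative.toAdd (ev g) = E v ∧ φ g = ((Additive.toMul (Φ v) : σ.ker) : Γ) := by
    intro g hg
    refine Subgroup.closure_induction ?_ ?_ ?_ ?_ hg
    · intro x hx
      obtain ⟨r, hr, hc⟩ := Group.mem_conjugatesOfSet_iff.1 hx
      obtain ⟨w, rfl⟩ := isConj_iff.1 hc
      refine ⟨Pi.single ⟨r, hr⟩ 1, ?_, ?_⟩
      · simp [E, Fintype.linearCombination_apply_single]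
      · simp only [Φ, Fintype.linearCombination_apply_single, one_smul, toMul_ofMul, map_mul, map_inv]
        rw [Subgroup.mem_center_iff.1 (hσ.2.1 (hrel ⟨r, hr⟩)) (φ w)]
        simp
    · exact ⟨0, by simp, by simp⟩
    · rintro x y - - ⟨u, hu1, hu2⟩ ⟨v, hv1, hv2⟩
      exact ⟨u + v, by simp [hu1, hv1], by simp [hu2, hv2]⟩
    · rintro x - ⟨u, hu1, hu2⟩
      exact ⟨-u, by simp [hu1], by simp [hu2]⟩
  have hker : ∀ z : σ.ker, ∃ v ∈ LinearMap.ker E, Φ v = Additive.ofMul z := by
    intro z
    have hmap : (commutator (FreeGroup (Fin n))).map φ = commutator Γ := by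
      rw [map_commutator_eq, MonoidHom.range_eq_top.2 hφs, commutator_def]
    obtain ⟨x, hx, hxz⟩ : (z : Γ) ∈ (commutator (FreeGroup (Fin n))).map φ :=
      hmap.symm ▸ hσ.2.2 z.2
    have hxR : x ∈ Subgroup.normalClosure (rels : Set (FreeGroup (Fin n))) := by
      rw [← QuotientGroup.eq_one_iff]
      show π x = 1
      rw [← hφ, MonoidHom.comp_apply, hxz]
      exact z.2
    obtain ⟨v, hv1, hv2⟩ := hnc x hxR
    refine ⟨v, ?_, congrArg Additive.ofMul (Subtype.ext (hv2.symm.trans hxz) : Additive.toMul (Φ v) = z)⟩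
    rw [LinearMap.mem_ker, ← hv1, MonoidHom.mem_ker.1 (Abelianization.commutator_subset_ker ev hx)]
    rfl
  have hsingle : ∀ v : Fin n → ℤ, (Nat.card P : ℤ) • v ∈ LinearMap.range E := by
    intro v
    rw [pi_eq_sum_univ v, Finset.smul_sum]
    refine Submodule.sum_mem _ fun i _ => ?_
    rw [smul_comm]
    refine Submodule.smul_mem _ _ ?_
    obtain ⟨u, hu, -⟩ := hnc (FreeGroup.of i ^ Nat.card P) (by
      rw [← QuotientGroup.eq_one_iff]
      show π _ = 1
      rw [map_pow, pow_card_eq_one'])
    refine ⟨u, ?_⟩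
    rw [← hu]
    ext j
    simp [ev, Pi.single_apply, eq_comm]
  have hrank : Module.finrank ℤ (LinearMap.ker E) ≤ rels.card - n := by
    have hinj : Function.Injective (LinearMap.codRestrict (LinearMap.range E)
        ((Nat.card P : ℤ) • (LinearMap.id : (Fin n → ℤ) →ₗ[ℤ] (Fin n → ℤ))) hsingle) := by
      intro u v huv
      refine funext fun i => ?_
      have := congrFun (congrArg Subtype.val huv) i
      simpa [Nat.card_pos.ne'] using this
    have h1 := LinearMap.finrank_le_finrank_of_injective hinj
    have h2 := Submodule.finrank_quotient_add_finrank (LinearMap.ker E)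
    rw [E.quotKerEquivRange.finrank_eq] at h2
    simp only [Module.finrank_fintype_fun_eq_card, Fintype.card_fin, Fintype.card_coe] at h1 h2
    omega
  let b := Module.finBasis ℤ (LinearMap.ker E)
  let g : Fin (Module.finrank ℤ (LinearMap.ker E)) → A := fun i => e (Additive.toMul (Φ (b i : rels → ℤ)))
  have hgen : Subgroup.closure (Set.range g) = ⊤ := by
    rw [eq_top_iff]
    intro a _
    obtain ⟨v, hv, hva⟩ := hker (e.symm a)
    have hmem : ∀ w : LinearMap.ker E, e (Additive.toMul (Φ (w : rels → ℤ))) ∈ Subgroup.closure (Set.range g) := by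
      intro w
      have hsp : w ∈ Submodule.span ℤ (Set.range b) := by rw [b.span_eq]; trivial
      induction hsp using Submodule.span_induction with
      | mem y hy => obtain ⟨i, rfl⟩ := hy; exact Subgroup.subset_closure ⟨i, rfl⟩
      | zero => simp
      | add x y _ _ hx hy => simpa using mul_mem hx hy
      | smul k y _ hy =>
        rw [Submodule.coe_smul_of_tower, map_zsmul, toMul_zsmul, map_zpow]
        exact Subgroup.zpow_mem _ hy k
    simpa [hva] using hmem ⟨v, hv⟩
  calc Group.rank A ≤ (Finset.univ.image g).card := Group.rank_le (by simpa using hgen)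
    _ ≤ Fintype.card (Fin (Module.finrank ℤ (LinearMap.ker E))) := Finset.card_image_le
    _ ≤ _ := by rw [Fintype.card_fin]; exact hrank

end Cfsg.Agent.S3973
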