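import Cfsg.Statements.S3974
import Cfsg.Agent.Lib.SchurCover.Basic
-- import your own Cfsg.Agent.* helpers here

set_option autoImplicit false
universe u v
open Cfsg

namespace Cfsg.Agent.S3974

open CfsgLib.SchurCover
open scoped IsMulCommutative

variable {Q : Type u} [Group Q] [Finite Q]

omit [Finite Q] in
theorem map_commutator_proj : (commutator (Univ Q)).map (proj Q) = commutator Q := by
  rw [map_commutator_eq, MonoidHom.range_eq_top.2 proj_surjective, commutator_def]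

omit [Finite Q] in
/-- If `proj z` lies in the commutator subgroup, `z` is congruent to an element of a complement
modulo the commutator subgroup. -/
theorem exists_complement_part {C : Subgroup (Univ Q)} (hsup : (proj Q).ker ≤ C ⊔ M0 Q)
    {z : Univ Q} (hz : proj Q z ∈ commutator Q) : ∃ c ∈ C, c⁻¹ * z ∈ commutator (Univ Q) := by
  obtain ⟨u, hu, huz⟩ : proj Q z ∈ (commutator (Univ Q)).map (proj Q) := by
    rwa [map_commutator_proj]
  have hr : z * u⁻¹ ∈ (proj Q).ker := by simp [huz]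
  haveI : (M0 Q).Normal := ⟨fun a ha g => by
    rw [Subgroup.mem_center_iff.1 (M0_le_center ha) g, mul_inv_cancel_right]; exact ha⟩
  obtain ⟨c, hc, m, hm, hcm⟩ := Subgroup.mem_sup_of_normal_right.1 (hsup hr)
  refine ⟨c, hc, ?_⟩
  have : c⁻¹ * z = m * u := by
    rw [show z = (z * u⁻¹) * u by group, ← hcm]; group
  exact this ▸ mul_mem hm.2 hu

omit [Finite Q] in
theorem complement_of_bijective {Γ : Type u} [Group Γ] (σ : Γ →* Q) (f : Univ Q →* Γ)
    (hf : σ.comp f = proj Q) (hb : Function.Bijective (kerMap σ f hf)) :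
    f.ker ≤ (proj Q).ker ∧ f.ker ⊓ commutator (Univ Q) = ⊥ ∧ (proj Q).ker ≤ f.ker ⊔ M0 Q := by
  have h1 : f.ker ≤ (proj Q).ker := fun x hx => by
    rw [MonoidHom.mem_ker, ← hf, MonoidHom.comp_apply, MonoidHom.mem_ker.1 hx, map_one]
  refine ⟨h1, (Subgroup.eq_bot_iff_forall _).2 fun x hx => ?_, fun r hr => ?_⟩
  · have : (⟨x, h1 hx.1, hx.2⟩ : M0 Q) = 1 := hb.1 (by
      rw [map_one]; exact Subtype.ext hx.1)
    exact congrArg Subtype.val this
  · have hr' : f r ∈ σ.ker := by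
      rw [MonoidHom.mem_ker, ← MonoidHom.comp_apply, hf]; exact hr
    obtain ⟨m, hm⟩ := hb.2 ⟨f r, hr'⟩
    have hm' : f m = f r := congrArg Subtype.val hm
    have : r * (m : Univ Q)⁻¹ ∈ f.ker := by simp [hm']
    simpa using Subgroup.mul_mem_sup this m.2

theorem cover_of_complement (C : Subgroup (Univ Q)) [C.Normal] (hC : C ≤ (proj Q).ker)
    (hCD : C ⊓ commutator (Univ Q) = ⊥) (hsup : (proj Q).ker ≤ C ⊔ M0 Q) :
    Finite (Univ Q ⧸ C) ∧ Cfsg.IsStemExtension (QuotientGroup.lift C (proj Q) hC) ∧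
      Function.Bijective (kerMap (QuotientGroup.lift C (proj Q) hC) (QuotientGroup.mk' C) (by ext x; rfl)) := by
  set f := QuotientGroup.mk' C
  have hker : (QuotientGroup.lift C (proj Q) hC).ker = (proj Q).ker.map f := QuotientGroup.ker_lift _ _ _
  have hst : Cfsg.IsStemExtension (QuotientGroup.lift C (proj Q) hC) := by
    refine ⟨fun q => ⟨f (sec q), proj_sec q⟩, ?_, ?_⟩
    · rw [hker]
      rintro _ ⟨r, hr, rfl⟩
      refine Subgroup.mem_center_iff.2 fun y => ?_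
      obtain ⟨y, rfl⟩ := QuotientGroup.mk'_surjective C y
      rw [← map_mul, ← map_mul, Subgroup.mem_center_iff.1 (ker_proj_le_center hr)]
    · rw [hker]
      refine (Subgroup.map_mono hsup).trans ?_
      rw [Subgroup.map_sup, sup_le_iff]
      refine ⟨?_, ?_⟩
      · rintro _ ⟨c, hc, rfl⟩
        have : f c = 1 := (QuotientGroup.eq_one_iff _).2 hc
        simp [this]
      · refine (Subgroup.map_mono inf_le_right).trans ?_
        rw [map_commutator_eq]
        exact Subgroup.commutator_mono le_top le_top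
  refine ⟨?_, hst, ?_, kerMap_surjective _ hst f _⟩
  · refine Finite.of_surjective (fun p : Q × M0 Q => f (sec p.1 * p.2)) fun y => ?_
    obtain ⟨x, rfl⟩ := QuotientGroup.mk'_surjective C y
    have hr : (sec (proj Q x))⁻¹ * x ∈ (proj Q).ker := by simp
    obtain ⟨c, hc, m, hm, hcm⟩ := Subgroup.mem_sup_of_normal_left.1 (hsup hr)
    refine ⟨(proj Q x, ⟨m, hm⟩), ?_⟩
    have h1 : f c = 1 := (QuotientGroup.eq_one_iff _).2 hc
    have h2 := congrArg f hcm
    rw [map_mul, h1, one_mul, map_mul, map_inv] at h2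
    show f (sec (proj Q x) * m) = f x
    rw [map_mul, h2, mul_inv_cancel_left]
  · rw [← MonoidHom.ker_eq_bot_iff, eq_bot_iff]
    intro x hx
    have h1 : (x : Univ Q) ∈ C := (QuotientGroup.eq_one_iff _).1 (Subtype.ext_iff.1 hx)
    have : (x : Univ Q) ∈ C ⊓ commutator (Univ Q) := ⟨h1, x.2.2⟩
    rw [hCD] at this
    exact Subtype.ext this

/-- A coprime multiplier makes the cover unique over the group. -/
theorem unique_of_coprime {A : Type v} [CommGroup A] (hA : Cfsg.HasSchurMultiplier Q A)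
    (hcop : Nat.Coprime (Nat.card (Abelianization Q)) (Nat.card A))
    {Γ₁ Γ₂ : Type u} [Group Γ₁] [Finite Γ₁] [Group Γ₂] [Finite Γ₂] (σ₁ : Γ₁ →* Q) (σ₂ : Γ₂ →* Q)
    (h₁ : Cfsg.IsStemExtension σ₁) (h₂ : Cfsg.IsStemExtension σ₂) (k₁ : Nonempty (σ₁.ker ≃* A))
    (k₂ : Nonempty (σ₂.ker ≃* A)) : ∃ e : Γ₁ ≃* Γ₂, σ₂.comp e.toMonoidHom = σ₁ := by
  obtain ⟨f₁, hf₁⟩ := exists_lift σ₁ h₁.1 h₁.2.1
  obtain ⟨f₂, hf₂⟩ := exists_lift σ₂ h₂.1 h₂.2.1
  have hb₁ := kerMap_bijective_of_equiv hA σ₁ h₁ k₁ f₁ hf₁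
  obtain ⟨hC, hCD, hsup⟩ := complement_of_bijective σ₁ f₁ hf₁ hb₁
  set d := Nat.card (Abelianization Q)
  let : CommGroup σ₂.ker :=
    { (inferInstance : Group σ₂.ker) with
      mul_comm := fun a b => Subtype.ext (Subgroup.mem_center_iff.1 (h₂.2.1 b.2) a) }
  have hex : ∀ y : Univ Q, ∃ c : f₁.ker,
      Abelianization.of (c : Univ Q) = Abelianization.of y ^ d := by
    intro y
    obtain ⟨c, hc, hcy⟩ := exists_complement_part hsup (z := y ^ d) (by
      rw [← Abelianization.ker_of, MonoidHom.mem_ker, map_pow, map_pow, pow_card_eq_one'])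
    refine ⟨⟨c, hc⟩, ?_⟩
    rw [← Abelianization.ker_of, MonoidHom.mem_ker, map_mul, map_inv, inv_mul_eq_one, map_pow] at hcy
    exact hcy
  choose ψ₀ hψ₀ using hex
  have hinj : ∀ a b : f₁.ker, Abelianization.of (a : Univ Q) = Abelianization.of (b : Univ Q) → a = b := by
    intro a b hab
    have : (a : Univ Q)⁻¹ * b ∈ f₁.ker ⊓ commutator (Univ Q) :=
      Subgroup.mem_inf.2 ⟨mul_mem (inv_mem a.2) b.2, by
        rw [← Abelianization.ker_of, MonoidHom.mem_ker, map_mul, map_inv, hab, inv_mul_cancel]⟩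
    rw [hCD, Subgroup.mem_bot, inv_mul_eq_one] at this
    exact Subtype.ext this
  let ψ : Univ Q →* f₁.ker := MonoidHom.mk' ψ₀ fun a b => hinj _ _ (by
    rw [Subgroup.coe_mul, map_mul, hψ₀, hψ₀, hψ₀, map_mul, mul_pow])
  let φ₀ : f₁.ker →* σ₂.ker := (f₂.comp f₁.ker.subtype).codRestrict σ₂.ker fun c => by
    rw [MonoidHom.mem_ker, MonoidHom.comp_apply, ← MonoidHom.comp_apply σ₂, hf₂]
    exact hC c.2
  have hcard : (Nat.card σ₂.ker).Coprime d := by
    rw [Nat.card_congr k₂.some.toEquiv]; exact hcop.symm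
  let E : σ₂.ker ≃* σ₂.ker := MulEquiv.ofBijective (powMonoidHom d) (powCoprime hcard).bijective
  let μ : Univ Q →* σ₂.ker := E.symm.toMonoidHom.comp (φ₀⁻¹.comp ψ)
  have hμC : ∀ c : f₁.ker, μ c = (φ₀ c)⁻¹ := fun c => by
    have h1 : ψ c = c ^ d := hinj _ _ (by
      rw [SubgroupClass.coe_pow, map_pow]; exact hψ₀ _)
    apply E.injective
    show E (E.symm _) = ((φ₀ c)⁻¹) ^ d
    rw [E.apply_symm_apply, MonoidHom.comp_apply, h1, MonoidHom.inv_apply, map_pow, inv_pow]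
  have hμD : ∀ x ∈ commutator (Univ Q), μ x = 1 := fun x hx =>
    MonoidHom.mem_ker.1 (Abelianization.commutator_subset_ker μ hx)
  let ρ : Univ Q →* Γ₂ := MonoidHom.mk' (fun y => f₂ y * (μ y : Γ₂)) fun a b => by
    have hc := Subgroup.mem_center_iff.1 (h₂.2.1 (μ a).2) (f₂ b)
    simp only [map_mul, Subgroup.coe_mul]
    calc f₂ a * f₂ b * ((μ a : Γ₂) * μ b) = f₂ a * (f₂ b * (μ a : Γ₂)) * μ b := by
          simp only [mul_assoc]
      _ = _ := by rw [hc]; simp only [mul_assoc]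
  have hρσ : σ₂.comp ρ = proj Q := MonoidHom.ext fun y => by
    show σ₂ (f₂ y * (μ y : Γ₂)) = _
    rw [map_mul, MonoidHom.mem_ker.1 (μ y).2, mul_one, ← MonoidHom.comp_apply σ₂, hf₂]
  have hρker : f₁.ker ≤ ρ.ker := fun c hc => by
    show f₂ c * (μ c : Γ₂) = 1
    rw [hμC ⟨c, hc⟩]
    exact mul_inv_cancel (f₂ c)
  have hf₁s : Function.Surjective f₁ := stem_lift_surjective σ₁ h₁ f₁ (by rw [hf₁]; exact proj_surjective)
  have hρs : Function.Surjective ρ := stem_lift_surjective σ₂ h₂ ρ (by rw [hρσ]; exact proj_surjective)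
  let e₀ : Γ₁ →* Γ₂ := f₁.liftOfSurjective hf₁s ⟨ρ, hρker⟩
  have he₀ : ∀ y, e₀ (f₁ y) = ρ y := fun y =>
    f₁.liftOfRightInverse_comp_apply _ (Function.rightInverse_surjInv hf₁s) ⟨ρ, hρker⟩ y
  have hcardΓ : Nat.card Γ₁ = Nat.card Γ₂ := by
    rw [← σ₁.ker.card_mul_index, ← σ₂.ker.card_mul_index, Subgroup.index_ker, Subgroup.index_ker,
      MonoidHom.range_eq_top.2 h₁.1, MonoidHom.range_eq_top.2 h₂.1,
      Nat.card_congr k₁.some.toEquiv, Nat.card_congr k₂.some.toEquiv]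
  have hbij : Function.Bijective e₀ := (Nat.bijective_iff_surjective_and_card _).2
    ⟨fun g => by obtain ⟨y, rfl⟩ := hρs g; exact ⟨f₁ y, he₀ y⟩, hcardΓ⟩
  refine ⟨MulEquiv.ofBijective e₀ hbij, MonoidHom.ext fun g => ?_⟩
  obtain ⟨y, rfl⟩ := hf₁s g
  show σ₂ (e₀ (f₁ y)) = σ₁ (f₁ y)
  rw [he₀, ← MonoidHom.comp_apply σ₂, hρσ, ← MonoidHom.comp_apply σ₁, hf₁]

/-- A common prime of `#Qab` and `#M(Q)` gives two covers not isomorphic over `Q`. -/
theorem coprime_of_unique {A : Type v} [CommGroup A] (hA : Cfsg.HasSchurMultiplier Q A)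
    (h : ∀ (Γ₁ Γ₂ : Type u) [Group Γ₁] [Finite Γ₁] [Group Γ₂] [Finite Γ₂] (σ₁ : Γ₁ →* Q) (σ₂ : Γ₂ →* Q),
      Cfsg.IsStemExtension σ₁ → Cfsg.IsStemExtension σ₂ → Nonempty (σ₁.ker ≃* A) → Nonempty (σ₂.ker ≃* A) →
      ∃ e : Γ₁ ≃* Γ₂, σ₂.comp e.toMonoidHom = σ₁) :
    Nat.Coprime (Nat.card (Abelianization Q)) (Nat.card A) := by
  classical
  obtain ⟨α⟩ := hasSchurMultiplier_iff.1 hA
  haveI : Finite A := finite_of_hasSchurMultiplier hA
  refine Nat.coprime_of_dvd fun p hp hpd hpA => ?_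
  haveI := Fact.mk hp
  rw [← Nat.card_congr α.toEquiv] at hpA
  obtain ⟨C, hC, hCD, hsup⟩ := exists_complement (Q := Q)
  have hCcen : C ≤ Subgroup.center (Univ Q) := hC.trans ker_proj_le_center
  -- an element of order `p` in the abelianization and its complement part
  obtain ⟨a, ha⟩ := exists_prime_orderOf_dvd_card' (G := Abelianization Q) p hpd
  obtain ⟨q, rfl⟩ := QuotientGroup.mk'_surjective _ a
  obtain ⟨c₀, hc₀, hc₀y⟩ := exists_complement_part hsup (z := sec q ^ p) (by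
    rw [← Abelianization.ker_of, MonoidHom.mem_ker, map_pow, proj_sec, map_pow]
    exact orderOf_dvd_iff_pow_eq_one.1 ha.dvd)
  -- coordinates on the complement
  let L : Submodule ℤ (Q →₀ ℤ) :=
    AddSubgroup.toIntSubmodule (Subgroup.toAddSubgroup' (C.map (expSum Q)))
  have : Module.IsTorsionFree ℤ L := inferInstance
  have : Module.Free ℤ L := Module.free_of_finite_type_torsion_free'
  let b := Module.Free.chooseBasis ℤ L
  let toL : C → L := fun c => ⟨Multiplicative.toAdd (expSum Q c), ⟨c, c.2, rfl⟩⟩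
  obtain ⟨i, hi⟩ : ∃ i, ¬ (p : ℤ) ∣ b.repr (toL ⟨c₀, hc₀⟩) i := by
    by_contra hall
    push Not at hall
    choose k hk using hall
    let l : L := ∑ i, k i • b i
    have hl : (p : ℤ) • l = toL ⟨c₀, hc₀⟩ := by
      rw [Finset.smul_sum]
      conv_rhs => rw [← b.sum_repr (toL ⟨c₀, hc₀⟩)]
      exact Finset.sum_congr rfl fun i _ => by rw [hk i, ← smul_smul]
    obtain ⟨c, hc, hce⟩ := l.2
    have h1 : expSum Q (c₀⁻¹ * sec q ^ p) = 1 := by
      rw [← MonoidHom.mem_ker, expSum_ker]; exact hc₀y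
    have h2 : expSum Q (c⁻¹ * sec q) = 1 := by
      rw [map_mul, map_inv, map_pow, inv_mul_eq_one] at h1
      rw [map_mul, map_inv, inv_mul_eq_one]
      apply Multiplicative.toAdd.injective
      refine smul_right_injective (Q →₀ ℤ) (Int.natCast_ne_zero.2 hp.ne_zero) ?_
      show (p : ℤ) • Multiplicative.toAdd (expSum Q c) = (p : ℤ) • Multiplicative.toAdd (expSum Q (sec q))
      rw [natCast_zsmul, natCast_zsmul, ← toAdd_pow, ← toAdd_pow, ← h1]
      have hlv : (p : ℤ) • Multiplicative.toAdd (expSum Q c) = Multiplicative.toAdd (expSum Q c₀) :=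
        (congrArg (fun x : Q →₀ ℤ => (p : ℤ) • x) hce).trans (congrArg Subtype.val hl)
      rw [natCast_zsmul, ← toAdd_pow] at hlv
      exact hlv
    rw [← MonoidHom.mem_ker, expSum_ker] at h2
    have h3 := Subgroup.mem_map_of_mem (proj Q) h2
    rw [map_commutator_proj, map_mul, map_inv, MonoidHom.mem_ker.1 (hC hc), inv_one, one_mul,
      proj_sec, ← Abelianization.ker_of, MonoidHom.mem_ker] at h3
    have h4 : (QuotientGroup.mk' (commutator Q) q : Abelianization Q) = 1 := h3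
    exact hp.ne_one (ha.symm.trans (orderOf_eq_one_iff.2 h4))
  -- a multiplier element which is not a `p`-th power
  obtain ⟨m₀, hm₀⟩ : ∃ m₀ : M0 Q, ∀ w : M0 Q, w ^ p ≠ m₀ := by
    by_contra hall
    push Not at hall
    obtain ⟨w, hw⟩ := exists_prime_orderOf_dvd_card' (G := M0 Q) p hpA
    have hinj := Finite.injective_iff_surjective.2 (hall : Function.Surjective fun w : M0 Q => w ^ p)
    have : w = 1 := hinj (by
      show w ^ p = 1 ^ p
      rw [one_pow, ← hw, pow_orderOf_eq_one])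
    exact hp.ne_one (hw.symm.trans (orderOf_eq_one_iff.2 this))
  let φ : C →* M0 Q := MonoidHom.mk' (fun c => m₀ ^ (b.repr (toL c) i)) fun c c' => by
    have : toL (c * c') = toL c + toL c' := Subtype.ext (by simp [toL])
    rw [this, map_add, Finsupp.add_apply, zpow_add]
  let tw : C →* Univ Q := MonoidHom.mk' (fun c => (c : Univ Q) * (φ c : Univ Q)) fun c c' => by
    have hc' := Subgroup.mem_center_iff.1 (hCcen c'.2) (φ c : Univ Q)
    simp only [map_mul, Subgroup.coe_mul]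
    calc (c : Univ Q) * c' * ((φ c : Univ Q) * φ c') = c * (c' * (φ c : Univ Q)) * φ c' := by
          simp only [mul_assoc]
      _ = _ := by rw [← hc']; simp only [mul_assoc]
  have hC' : tw.range ≤ (proj Q).ker := by
    rintro _ ⟨c, rfl⟩
    exact mul_mem (hC c.2) (φ c).2.1
  have hCD' : tw.range ⊓ commutator (Univ Q) = ⊥ := by
    rw [eq_bot_iff]
    intro x hx
    obtain ⟨⟨c, rfl⟩, hc⟩ := Subgroup.mem_inf.1 hx
    have h1 : (c : Univ Q) ∈ C ⊓ commutator (Univ Q) :=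
      Subgroup.mem_inf.2 ⟨c.2, by simpa [tw] using mul_mem hc (inv_mem (φ c).2.2)⟩
    rw [hCD, Subgroup.mem_bot] at h1
    have h2 : c = 1 := Subtype.ext h1
    simp [h2]
  have hsup' : (proj Q).ker ≤ tw.range ⊔ M0 Q := hsup.trans (sup_le (fun c hc => by
    simpa [tw] using Subgroup.mul_mem_sup (MonoidHom.mem_range.2 ⟨⟨c, hc⟩, rfl⟩ : _ ∈ tw.range)
      (inv_mem (φ ⟨c, hc⟩).2)) le_sup_right)
  haveI : C.Normal := ⟨fun c hc g => by
    rw [Subgroup.mem_center_iff.1 (hCcen hc) g, mul_inv_cancel_right]; exact hc⟩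
  haveI : tw.range.Normal := ⟨fun c hc g => by
    rw [Subgroup.mem_center_iff.1 (ker_proj_le_center (hC' hc)) g, mul_inv_cancel_right]; exact hc⟩
  obtain ⟨hfin₁, hst₁, hb₁⟩ := cover_of_complement C hC hCD hsup
  obtain ⟨hfin₂, hst₂, hb₂⟩ := cover_of_complement tw.range hC' hCD' hsup'
  set σ₁ := QuotientGroup.lift C (proj Q) hC
  set σ₂ := QuotientGroup.lift tw.range (proj Q) hC'
  let E₂ := MulEquiv.ofBijective _ hb₂
  obtain ⟨e, he⟩ := h _ _ σ₁ σ₂ hst₁ hst₂ ⟨(MulEquiv.ofBijective _ hb₁).symm.trans α⟩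
    ⟨E₂.symm.trans α⟩
  set f := QuotientGroup.mk' C
  set f' := QuotientGroup.mk' tw.range
  let : CommGroup σ₂.ker :=
    { (inferInstance : Group σ₂.ker) with
      mul_comm := fun a b => Subtype.ext (Subgroup.mem_center_iff.1 (hst₂.2.1 b.2) a) }
  have hmem : ∀ y, (f' y)⁻¹ * e (f y) ∈ σ₂.ker := fun y => by
    rw [MonoidHom.mem_ker, map_mul, map_inv, inv_mul_eq_one]
    exact (DFunLike.congr_fun he (f y)).symm
  let μ : Univ Q →* σ₂.ker := MonoidHom.mk' (fun y => ⟨(f' y)⁻¹ * e (f y), hmem y⟩) fun a b => by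
    apply Subtype.ext
    have hc := Subgroup.mem_center_iff.1 (hst₂.2.1 (hmem a)) (f' b)⁻¹
    simp only [map_mul, mul_inv_rev, Subgroup.coe_mul]
    calc (f' b)⁻¹ * (f' a)⁻¹ * (e (f a) * e (f b)) = (f' b)⁻¹ * ((f' a)⁻¹ * e (f a)) * e (f b) := by
          simp only [mul_assoc]
      _ = _ := by rw [hc]; simp only [mul_assoc]
  have hμC : ∀ c : C, E₂.symm (μ c) = φ c := fun c => by
    rw [MulEquiv.symm_apply_eq]
    apply Subtype.ext
    have h1 : f (c : Univ Q) = 1 := (QuotientGroup.eq_one_iff _).2 c.2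
    have h2 : f' ((c : Univ Q) * (φ c : Univ Q)) = 1 := (QuotientGroup.eq_one_iff _).2 ⟨c, rfl⟩
    show (f' c)⁻¹ * e (f c) = f' (φ c)
    rw [h1, map_one, mul_one, inv_eq_iff_mul_eq_one, ← map_mul]
    exact h2
  let μ' : Univ Q →* M0 Q := E₂.symm.toMonoidHom.comp μ
  have hy : μ' c₀ = μ' (sec q) ^ p := by
    have h1 : μ' (c₀⁻¹ * sec q ^ p) = 1 :=
      MonoidHom.mem_ker.1 (Abelianization.commutator_subset_ker μ' hc₀y)
    rwa [map_mul, map_inv, map_pow, inv_mul_eq_one] at h1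
  have hk : μ' c₀ = m₀ ^ (b.repr (toL ⟨c₀, hc₀⟩) i) := hμC ⟨c₀, hc₀⟩
  obtain ⟨s, t, hst⟩ : IsCoprime (b.repr (toL ⟨c₀, hc₀⟩) i) (p : ℤ) :=
    ((Nat.prime_iff_prime_int.1 hp).coprime_iff_not_dvd.2 hi).symm
  refine hm₀ ((μ' (sec q)) ^ s * m₀ ^ t) ?_
  rw [mul_pow, ← zpow_natCast, ← zpow_natCast (m₀ ^ t), ← zpow_mul, ← zpow_mul, mul_comm s (p : ℤ),
    zpow_mul, zpow_natCast, ← hy, hk, ← zpow_mul, ← zpow_add, mul_comm _ s, hst, zpow_one]


/-- Let `Q` be a finite group with Schur multiplier `A`. Any two Schur covering groups of `Q` (finite stem extensions `σ₁ : Γ₁ →* Q`, `σ₂ : Γ₂ →* Q` with kernels isomorphic to `A`, `Γ₁, Γ₂` in the universe of `Q`) are isomorphic over `Q` — there is a group isomorphism `e : Γ₁ ≃* Γ₂` with `σ₂ ∘ e = σ₁` — if and only if the order of the commutator quotient of `Q` is coprime to the order of `A`. In particular a finite perfect group has a unique Schur covering group up to isomorphism over it.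 -/
theorem result {Q : Type u} [Group Q] [Finite Q] {A : Type v} [CommGroup A] (hA : Cfsg.HasSchurMultiplier Q A) : (∀ (Γ₁ Γ₂ : Type u) [Group Γ₁] [Finite Γ₁] [Group Γ₂] [Finite Γ₂] (σ₁ : Γ₁ →* Q) (σ₂ : Γ₂ →* Q), Cfsg.IsStemExtension σ₁ → Cfsg.IsStemExtension σ₂ → Nonempty (σ₁.ker ≃* A) → Nonempty (σ₂.ker ≃* A) → ∃ e : Γ₁ ≃* Γ₂, σ₂.comp e.toMonoidHom = σ₁) ↔ Nat.Coprime (Nat.card (Abelianization Q)) (Nat.card A) := by
  exact ⟨coprime_of_unique hA, fun hcop Γ₁ Γ₂ _ _ _ _ σ₁ σ₂ h₁ h₂ k₁ k₂ =>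
    unique_of_coprime hA hcop σ₁ σ₂ h₁ h₂ k₁ k₂⟩

end Cfsg.Agent.S3974
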