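import Cfsg.Statements.S3976
import Cfsg.Agent.S3975
-- import your own Cfsg.Agent.* helpers here

set_option autoImplicit false
open Cfsg

namespace Cfsg.Agent.S3976


/-- Let `p` be a prime and `G` a group of order `p ^ m`. For every `s ≤ m` the number of normal subgroups of `G` of order `p ^ s` is congruent to `1` modulo `p`. -/
theorem result {G : Type*} [Group G] [Finite G] (p m s : ℕ) (hp : p.Prime) (hG : Nat.card G = p ^ m) (hs : s ≤ m) : Nat.card {H : Subgroup G // H.Normal ∧ Nat.card H = p ^ s} ≡ 1 [MOD p] := by
  haveI := Fact.mk hp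
  classical
  letI : MulAction G {H : Subgroup G // Nat.card H = p ^ s} :=
    { smul := fun g H => ⟨H.1.map (MulAut.conj g).toMonoidHom,
        (Subgroup.card_map_of_injective (MulAut.conj g).injective).trans H.2⟩
      one_smul := fun H => Subtype.ext (by
        change H.1.map (MulAut.conj (1 : G)).toMonoidHom = H.1
        rw [map_one]; exact H.1.map_id)
      mul_smul := fun g h H => Subtype.ext (by
        change H.1.map (MulAut.conj (g * h)).toMonoidHom =
          (H.1.map (MulAut.conj h).toMonoidHom).map (MulAut.conj g).toMonoidHom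
        rw [Subgroup.map_map, map_mul]; rfl) }
  have hG' : IsPGroup p G := IsPGroup.of_card hG
  have h1 := hG'.card_modEq_card_fixedPoints {H : Subgroup G // Nat.card H = p ^ s}
  have h2 : Nat.card (MulAction.fixedPoints G {H : Subgroup G // Nat.card H = p ^ s}) =
      Nat.card {H : Subgroup G // H.Normal ∧ Nat.card H = p ^ s} := by
    refine Nat.card_congr
      { toFun := fun H => ⟨H.1.1, ⟨fun z hz g => ?_⟩, H.1.2⟩
        invFun := fun H => ⟨⟨H.1, H.2.2⟩, fun g => Subtype.ext ?_⟩
        left_inv := fun _ => rfl
        right_inv := fun _ => rfl }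
    · have := congrArg Subtype.val (H.2 g)
      rw [← this]
      exact ⟨z, hz, rfl⟩
    · change H.1.map (MulAut.conj g).toMonoidHom = H.1
      refine le_antisymm ?_ fun z hz => ⟨g⁻¹ * z * g, ?_, by simp [mul_assoc]⟩
      · rintro _ ⟨z, hz, rfl⟩
        exact H.2.1.conj_mem z hz g
      · exact H.2.1.conj_mem' z hz g
  rw [← h2]
  exact h1.symm.trans (Cfsg.Agent.S3975.result p s hp (hG ▸ pow_dvd_pow p hs))

end Cfsg.Agent.S3976
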