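import Cfsg.Statements.S3977
import Mathlib
-- import your own Cfsg.Agent.* helpers here

set_option autoImplicit false
open Cfsg

namespace Cfsg.Agent.S3977


theorem mul_pow_of_commutes {G : Type*} [Group G] {a b d : G} (hd : b * a = a * b * d)
    (hda : Commute d a) (hdb : Commute d b) (n : ℕ) : (a * b) ^ n = a ^ n * b ^ n * d ^ (n.choose 2) := by
  have hb : ∀ j : ℕ, b ^ j * a = a * b ^ j * d ^ j := by
    intro j
    induction j with
    | zero => simp
    | succ j ih =>
      calc b ^ (j + 1) * a = b ^ j * (b * a) := by rw [pow_succ, mul_assoc]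
        _ = (b ^ j * a) * (b * d) := by rw [hd]; simp [mul_assoc]
        _ = a * b ^ j * (d ^ j * b) * d := by rw [ih]; simp [mul_assoc]
        _ = a * b ^ j * (b * d ^ j) * d := by rw [(hdb.pow_left j).eq]
        _ = a * b ^ (j + 1) * d ^ (j + 1) := by simp [pow_succ, mul_assoc]
  induction n with
  | zero => simp
  | succ n ih =>
    have h1 : d ^ n.choose 2 * a = a * d ^ n.choose 2 := (hda.pow_left _).eq
    have h2 : d ^ n.choose 2 * b = b * d ^ n.choose 2 := (hdb.pow_left _).eq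
    have h3 : d ^ n * b = b * d ^ n := (hdb.pow_left _).eq
    calc (a * b) ^ (n + 1) = a ^ n * b ^ n * d ^ n.choose 2 * (a * b) := by rw [pow_succ, ih]
      _ = a ^ n * b ^ n * ((d ^ n.choose 2 * a) * b) := by simp [mul_assoc]
      _ = a ^ n * (b ^ n * a) * (d ^ n.choose 2 * b) := by rw [h1]; simp [mul_assoc]
      _ = a ^ n * a * b ^ n * (d ^ n * b) * d ^ n.choose 2 := by rw [hb, h2]; simp [mul_assoc]
      _ = a ^ (n + 1) * b ^ (n + 1) * (d ^ n * d ^ n.choose 2) := by
        rw [h3]; simp [pow_succ, mul_assoc]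
      _ = _ := by rw [← pow_add, Nat.choose_succ_succ' n 1, Nat.choose_one_right]

theorem isCyclic_of_unique {G : Type*} [Group G] [Finite G] (p m s : ℕ) (hp : p.Prime)
    (hG : Nat.card G = p ^ m) (hs : 1 ≤ s) (hsm : s < m) (h2 : p ≠ 2 ∨ 2 ≤ s)
    (huniq : ∀ H K : Subgroup G, Nat.card H = p ^ s → Nat.card K = p ^ s → H = K) : IsCyclic G := by
  haveI := Fact.mk hp
  induction m generalizing G with
  | zero => omega
  | succ m IH =>
  by_contra hnc
  have hpG : IsPGroup p G := IsPGroup.of_card hG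
  have hmax : ∀ u : G, ∃ A : Subgroup G, Nat.card A = p ^ m ∧ u ∈ A := fun u => by
    obtain ⟨i, hi, hu⟩ := (Nat.dvd_prime_pow hp).1 (hG ▸ orderOf_dvd_natCard u)
    have hle : i ≤ m := by
      by_contra hlt
      exact hnc (isCyclic_of_orderOf_eq_card u (by rw [hu, hG, show i = m + 1 by omega]))
    obtain ⟨A, hA, huA⟩ := Sylow.exists_subgroup_card_pow_prime_le p (n := i) (m := m)
      (hG ▸ pow_dvd_pow p m.le_succ) (Subgroup.zpowers u) (by rw [Nat.card_zpowers, hu]) hle
    exact ⟨A, hA, huA (Subgroup.mem_zpowers u)⟩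
  rcases (Nat.lt_succ_iff.1 hsm).eq_or_lt with rfl | hlt
  · obtain ⟨A, hA, -⟩ := hmax 1
    have htop : A = ⊤ := eq_top_iff.2 fun u _ => by
      obtain ⟨B, hB, hu⟩ := hmax u
      exact huniq B A hB hA ▸ hu
    rw [htop, Subgroup.card_top, hG] at hA
    exact absurd (Nat.pow_right_injective hp.two_le hA) (by omega)
  have hcyc : ∀ A : Subgroup G, Nat.card A = p ^ m → IsCyclic A := fun A hA =>
    IH hA hlt fun H K hH hK => Subgroup.map_injective A.subtype_injective
      (huniq _ _ (by rw [Subgroup.card_map_of_injective A.subtype_injective, hH])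
        (by rw [Subgroup.card_map_of_injective A.subtype_injective, hK]))
  have hidx : ∀ A : Subgroup G, Nat.card A = p ^ m → A.index = p := fun A hA => by
    have := A.card_mul_index
    rw [hA, hG, pow_succ] at this
    exact Nat.eq_of_mul_eq_mul_left (pow_pos hp.pos m) this
  have hnormal : ∀ A : Subgroup G, Nat.card A = p ^ m → A.Normal := fun A hA =>
    Subgroup.normal_of_index_eq_minFac_card (by
      rw [hidx A hA, hG, Nat.pow_minFac (Nat.succ_ne_zero m), hp.minFac_eq])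
  have hpow : ∀ A : Subgroup G, Nat.card A = p ^ m → ∀ z : G, z ^ p ∈ A := fun A hA z => by
    haveI := hnormal A hA
    exact hidx A hA ▸ A.pow_index_mem z
  obtain ⟨A, hA, -⟩ := hmax 1
  obtain ⟨u, -, hu⟩ := SetLike.exists_of_lt (show A < ⊤ from lt_top_iff_ne_top.2 fun h => by
    rw [h, Subgroup.card_top, hG] at hA
    exact absurd (Nat.pow_right_injective hp.two_le hA) (by omega))
  obtain ⟨B, hB, huB⟩ := hmax u
  haveI := hnormal A hA
  haveI := hnormal B hB
  obtain ⟨⟨x, hxA⟩, hx⟩ := (hcyc A hA).exists_zpow_surjective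
  obtain ⟨⟨y, hyB⟩, hy⟩ := (hcyc B hB).exists_zpow_surjective
  have hxgen : ∀ z ∈ A, ∃ i : ℤ, x ^ i = z := fun z hz => by
    obtain ⟨i, hi⟩ := hx ⟨z, hz⟩
    exact ⟨i, congrArg Subtype.val hi⟩
  have hygen : ∀ z ∈ B, ∃ i : ℤ, y ^ i = z := fun z hz => by
    obtain ⟨i, hi⟩ := hy ⟨z, hz⟩
    exact ⟨i, congrArg Subtype.val hi⟩
  have hyA : y ∉ A := fun h => hu (by
    obtain ⟨i, rfl⟩ := hygen u huB
    exact A.zpow_mem h i)
  obtain ⟨i, hi⟩ := hxgen _ (hpow A hA y)
  have hpi : (p : ℤ) ∣ i := by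
    by_contra hnd
    have hle : A ≤ B := fun z hz => by
      obtain ⟨j, rfl⟩ := hxgen z hz
      refine B.zpow_mem ?_ j
      obtain ⟨e, f, hef⟩ : IsCoprime (i : ℤ) (p : ℤ) :=
        ((Nat.prime_iff_prime_int.1 hp).coprime_iff_not_dvd.2 hnd).symm
      have : x = (x ^ i) ^ e * (x ^ p) ^ f := by
        rw [← zpow_mul, ← zpow_natCast x p, ← zpow_mul, ← zpow_add, mul_comm i, mul_comm (p : ℤ) f,
          hef, zpow_one]
      rw [this]
      exact B.mul_mem (B.zpow_mem (hi ▸ B.pow_mem hyB p) e) (B.zpow_mem (hpow B hB x) f)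
    exact hu ((Subgroup.eq_of_le_of_card_ge hle (by rw [hA, hB])) ▸ huB)
  obtain ⟨k, rfl⟩ := hpi
  set b := x ^ (-k) with hb
  have hbA : b ∈ A := A.zpow_mem hxA _
  set d := b⁻¹ * y⁻¹ * b * y with hd
  have hdA : d ∈ A := by
    have : y⁻¹ * b * y ∈ A := by simpa using ‹A.Normal›.conj_mem b hbA y⁻¹
    simpa [hd, mul_assoc] using A.mul_mem (A.inv_mem hbA) this
  have hdB : d ∈ B := by
    have : b⁻¹ * y⁻¹ * b ∈ B := by simpa using ‹B.Normal›.conj_mem y⁻¹ (B.inv_mem hyB) b⁻¹
    simpa [hd] using B.mul_mem this hyB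
  have hcomA : ∀ z ∈ A, ∀ z' ∈ A, Commute z z' := fun z hz z' hz' => by
    obtain ⟨i₁, rfl⟩ := hxgen z hz
    obtain ⟨i₂, rfl⟩ := hxgen z' hz'
    exact (Commute.refl x).zpow_zpow i₁ i₂
  have hcomB : ∀ z ∈ B, ∀ z' ∈ B, Commute z z' := fun z hz z' hz' => by
    obtain ⟨i₁, rfl⟩ := hygen z hz
    obtain ⟨i₂, rfl⟩ := hygen z' hz'
    exact (Commute.refl y).zpow_zpow i₁ i₂
  have hdy := hcomB d hdB y hyB
  have hdb := hcomA d hdA b hbA
  have hby : b * y = y * b * d := by rw [hd]; group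
  have hdp : d ^ p = 1 := by
    have h1 : ∀ j : ℕ, b ^ j * y = y * b ^ j * d ^ j := by
      intro j
      induction j with
      | zero => simp
      | succ j ih =>
        calc b ^ (j + 1) * y = b ^ j * (b * y) := by rw [pow_succ, mul_assoc]
          _ = (b ^ j * y) * (b * d) := by rw [hby]; simp [mul_assoc]
          _ = y * b ^ j * (d ^ j * b) * d := by rw [ih]; simp [mul_assoc]
          _ = y * b ^ j * (b * d ^ j) * d := by rw [(hdb.pow_left j).eq]
          _ = y * b ^ (j + 1) * d ^ (j + 1) := by simp [pow_succ, mul_assoc]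
    have h3 := h1 p
    rw [(hcomB (b ^ p) (hpow B hB b) y hyB).eq] at h3
    simpa using h3
  have hw := mul_pow_of_commutes hby hdy hdb p
  have hyp : y ^ p * b ^ p = 1 := by
    rw [← hi, hb, ← zpow_natCast (x ^ (-k)) p, ← zpow_mul, ← zpow_add]
    convert zpow_zero x using 2
    ring
  rw [hyp, one_mul] at hw
  have hws : (y * b) ^ (p ^ s) = 1 := by
    rcases eq_or_ne p 2 with rfl | hodd
    · obtain ⟨t, ht⟩ := pow_dvd_pow 2 (h2.resolve_left (not_not_intro rfl))
      rw [ht, pow_two, mul_assoc, pow_mul, hw, pow_mul, Nat.choose_self, pow_one, hdp, one_pow]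
    · obtain ⟨t, ht⟩ := dvd_pow_self p (show s ≠ 0 by omega)
      rw [ht, pow_mul, hw]
      obtain ⟨c, hc⟩ : p ∣ p.choose 2 := hp.dvd_choose_self two_ne_zero (lt_of_le_of_ne hp.two_le (Ne.symm hodd))
      rw [hc, pow_mul, hdp, one_pow, one_pow]
  obtain ⟨e, he, hwo⟩ := (Nat.dvd_prime_pow hp).1 (orderOf_dvd_of_pow_eq_one hws)
  obtain ⟨K, hK, hwK⟩ := Sylow.exists_subgroup_card_pow_prime_le p (n := e) (m := s)
    (hG ▸ pow_dvd_pow p hsm.le) (Subgroup.zpowers (y * b)) (by rw [Nat.card_zpowers, hwo]) he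
  obtain ⟨L, hL⟩ := Sylow.exists_subgroup_card_pow_prime p (G := A) (n := s) (hA ▸ pow_dvd_pow p hlt.le)
  have hKL : K = L.map A.subtype :=
    huniq _ _ hK (by rw [Subgroup.card_map_of_injective A.subtype_injective, hL])
  have hwA : y * b ∈ A := Subgroup.map_subtype_le L (hKL ▸ hwK (Subgroup.mem_zpowers _))
  exact hyA (by simpa using A.mul_mem hwA (A.inv_mem hbA))

/-- Let `p` be a prime and `G` a group of order `p ^ m` which has exactly one subgroup of order `p ^ s`, where `1 ≤ s < m`, and where `s ≥ 2` if `p = 2`. Then `G` is cyclic. (For `p = 2` and `s = 1` the generalized quaternion groups also occur; that case is the classical criterion for a unique involution.) -/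
theorem result {G : Type*} [Group G] [Finite G] (p m s : ℕ) (hp : p.Prime) (hG : Nat.card G = p ^ m) (hs : 1 ≤ s) (hsm : s < m) (h2 : p ≠ 2 ∨ 2 ≤ s) (huniq : ∀ H K : Subgroup G, Nat.card H = p ^ s → Nat.card K = p ^ s → H = K) : IsCyclic G := by
  exact isCyclic_of_unique p m s hp hG hs hsm h2 huniq

end Cfsg.Agent.S3977
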