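import Cfsg.Statements.S3978
import Cfsg.Agent.Lib.SchurCover.Projective
-- import your own Cfsg.Agent.* helpers here

set_option autoImplicit false
open Cfsg

namespace Cfsg.Agent.S3978


/-- A finite group `Q` has trivial Schur multiplier if and only if, for every `n`, every homomorphism from `Q` to the projective general linear group (the quotient of `GL n ℂ` by its centre) lifts to a homomorphism into `GL n ℂ`. -/
theorem result {Q : Type*} [Group Q] [Finite Q] : Cfsg.HasCyclicSchurMultiplier Q 1 ↔ ∀ (n : ℕ) (γ : Q →* (GL (Fin n) ℂ ⧸ Subgroup.center (GL (Fin n) ℂ))), ∃ ρ : Q →* GL (Fin n) ℂ, (QuotientGroup.mk' (Subgroup.center (GL (Fin n) ℂ))).comp ρ = γ := by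
  have hid : Cfsg.IsStemExtension (MonoidHom.id Q) :=
    ⟨Function.surjective_id, by simp, by simp⟩
  have hf : (MonoidHom.id Q).comp (CfsgLib.SchurCover.proj Q) = CfsgLib.SchurCover.proj Q := rfl
  rw [CfsgLib.SchurCover.hasCyclicSchurMultiplier_one_iff]
  constructor
  · intro h n γ
    refine CfsgLib.SchurCover.exists_projective_lift (MonoidHom.id Q) hid _ hf
      ⟨fun a b _ => ?_, CfsgLib.SchurCover.kerMap_surjective _ hid _ hf⟩
      (CfsgLib.SchurCover.center_rootable n) γ
    have key : ∀ c : CfsgLib.SchurCover.M0 Q, (c : CfsgLib.SchurCover.Univ Q) = 1 := fun c => by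
      have := c.2
      simpa [h] using this
    exact Subtype.ext ((key a).trans (key b).symm)
  · intro h
    have hb := CfsgLib.SchurCover.kerMap_bijective_of_lifts (MonoidHom.id Q) hid h _ hf
    rw [eq_bot_iff]
    intro x hx
    have : (⟨x, hx⟩ : CfsgLib.SchurCover.M0 Q) = 1 := hb.1 (by
      rw [map_one]; exact Subtype.ext (by exact hx.1))
    exact congrArg Subtype.val this

end Cfsg.Agent.S3978
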