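import Cfsg.Statements.S3979
import Mathlib
-- import your own Cfsg.Agent.* helpers here

set_option autoImplicit false
open Cfsg

namespace Cfsg.Agent.S3979


/-- A finite cyclic group has trivial Schur multiplier: every finite stem extension of it is an isomorphism, said through `HasCyclicSchurMultiplier G 1`. -/
theorem result {G : Type*} [Group G] [Finite G] [IsCyclic G] : Cfsg.HasCyclicSchurMultiplier G 1 := by
  refine ⟨⟨G, inferInstance, inferInstance, MonoidHom.id G, ⟨Function.surjective_id, by simp, by simp⟩, ⟨?_⟩⟩, ?_⟩
  · haveI : Subsingleton (MonoidHom.id G).ker := by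
      rw [MonoidHom.ker_id]; infer_instance
    letI := uniqueOfSubsingleton (1 : (MonoidHom.id G).ker)
    exact MulEquiv.ofUnique
  · intro Γ _ _ σ hσ
    refine ⟨1, fun z => ⟨1, ?_⟩⟩
    have hc : ∀ a b : Γ, a * b = b * a :=
      fun a b => (σ.isMulCommutative_of_isCyclic_of_ker_le_center hσ.2.1).is_comm.comm a b
    have hbot : commutator Γ = ⊥ := by
      rw [commutator_def, eq_bot_iff, Subgroup.commutator_le]
      intro a _ b _
      rw [Subgroup.mem_bot, commutatorElement_eq_one_iff_mul_comm]
      exact hc a b
    have := hσ.2.2 z.2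
    rw [hbot, Subgroup.mem_bot] at this
    exact Subtype.ext this.symm

end Cfsg.Agent.S3979
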