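import Cfsg.Statements.S3980
import Cfsg.Agent.Lib.SchurCover.Basic
-- import your own Cfsg.Agent.* helpers here

set_option autoImplicit false
universe u v w
open Cfsg

namespace Cfsg.Agent.S3980


open CfsgLib.SchurCover
open scoped commutatorElement

theorem commutator_pow_eq_one {U P Γ : Type*} [Group U] [Group P] [Group Γ] (π : U →* P)
    (hπ : Function.Surjective π) (f : U →* Γ) (hker : ∀ x ∈ π.ker, f x ∈ Subgroup.center Γ) (g : Γ)
    (hg : ∀ x, ⁅f x, g⁆ ∈ Subgroup.center Γ) (x : U) :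
    ⁅f x, g⁆ ^ Nat.card (Abelianization P) = 1 := by
  let : CommGroup (Subgroup.center Γ) :=
    { (inferInstance : Group (Subgroup.center Γ)) with
      mul_comm := fun a b => Subtype.ext (Subgroup.mem_center_iff.1 b.2 a) }
  let θ : U →* Subgroup.center Γ := MonoidHom.mk' (fun x => ⟨⁅f x, g⁆, hg x⟩) fun x y => by
    apply Subtype.ext
    show ⁅f (x * y), g⁆ = ⁅f x, g⁆ * ⁅f y, g⁆
    have h1 := Subgroup.mem_center_iff.1 (hg y) (f x)
    rw [map_mul]
    calc ⁅f x * f y, g⁆ = f x * ⁅f y, g⁆ * (f x)⁻¹ * ⁅f x, g⁆ := by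
          simp only [commutatorElement_def]; group
      _ = ⁅f y, g⁆ * ⁅f x, g⁆ := by rw [h1, mul_inv_cancel_right]
      _ = _ := (Subgroup.mem_center_iff.1 (hg y) _).symm
  have hθ : π.ker ≤ θ.ker := fun y hy => by
    refine Subtype.ext ?_
    show ⁅f y, g⁆ = 1
    exact commutatorElement_eq_one_iff_mul_comm.2 (Subgroup.mem_center_iff.1 (hker y hy) g).symm
  let ν := π.liftOfSurjective hπ ⟨θ, hθ⟩
  have hν : ν (π x) = θ x :=
    π.liftOfRightInverse_comp_apply _ (Function.rightInverse_surjInv hπ) ⟨θ, hθ⟩ x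
  have h2 : θ x ^ Nat.card (Abelianization P) = 1 := by
    rw [← hν, ← Abelianization.lift_apply_of ν, ← map_pow, pow_card_eq_one', map_one]
  exact congrArg Subtype.val h2

theorem commute_of_coprime {Q₁ : Type*} {Q₂ : Type*} [Group Q₁] [Group Q₂]
    [Finite Q₁] [Finite Q₂] {Γ : Type*} [Group Γ] (σ : Γ →* Q₁ × Q₂)
    (hc : σ.ker ≤ Subgroup.center Γ)
    (hcop : Nat.Coprime (Nat.card (Abelianization Q₁)) (Nat.card (Abelianization Q₂)))
    (f₁ : Univ Q₁ →* Γ) (hf₁ : σ.comp f₁ = (MonoidHom.inl Q₁ Q₂).comp (proj Q₁))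
    (f₂ : Univ Q₂ →* Γ) (hf₂ : σ.comp f₂ = (MonoidHom.inr Q₁ Q₂).comp (proj Q₂))
    (a : Univ Q₁) (b : Univ Q₂) : Commute (f₁ a) (f₂ b) := by
  have e₁ : ∀ x, σ (f₁ x) = (proj Q₁ x, 1) := fun x => DFunLike.congr_fun hf₁ x
  have e₂ : ∀ x, σ (f₂ x) = (1, proj Q₂ x) := fun x => DFunLike.congr_fun hf₂ x
  have hmem : ∀ x y, ⁅f₁ x, f₂ y⁆ ∈ Subgroup.center Γ := fun x y => hc (by
    rw [MonoidHom.mem_ker, map_commutatorElement, e₁, e₂]
    simp [commutatorElement_def, Prod.ext_iff])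
  have h₁ := commutator_pow_eq_one (proj Q₁) proj_surjective f₁ (fun x hx => hc (by
    rw [MonoidHom.mem_ker, e₁, MonoidHom.mem_ker.1 hx]; rfl)) (f₂ b) (fun x => hmem x b) a
  have h₂ := commutator_pow_eq_one (proj Q₂) proj_surjective f₂ (fun x hx => hc (by
    rw [MonoidHom.mem_ker, e₂, MonoidHom.mem_ker.1 hx]; rfl)) (f₁ a)
    (fun y => by rw [← commutatorElement_inv]; exact inv_mem (hmem a y)) b
  rw [← commutatorElement_inv, inv_pow, inv_eq_one] at h₂
  have h3 := pow_gcd_eq_one.mpr ⟨h₁, h₂⟩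
  rw [hcop.gcd_eq_one, pow_one] at h3
  exact commutatorElement_eq_one_iff_mul_comm.1 h3

/-- Let `Q₁` and `Q₂` be finite groups whose commutator quotients have coprime orders, with Schur multipliers `A` and `B`. Then the Schur multiplier of `Q₁ × Q₂` is isomorphic to `A × B`. -/
theorem result {Q₁ : Type u} {Q₂ : Type v} [Group Q₁] [Group Q₂] [Finite Q₁] [Finite Q₂] {A B : Type w} [CommGroup A] [CommGroup B] (hA : Cfsg.HasSchurMultiplier Q₁ A) (hB : Cfsg.HasSchurMultiplier Q₂ B) (hcop : Nat.Coprime (Nat.card (Abelianization Q₁)) (Nat.card (Abelianization Q₂))) : Cfsg.HasSchurMultiplier (Q₁ × Q₂) (A × B) := by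
  refine ⟨?_, ?_⟩
  · obtain ⟨Γ₁, i₁, j₁, σ₁, hσ₁, ⟨e₁⟩⟩ := hA.1
    obtain ⟨Γ₂, i₂, j₂, σ₂, hσ₂, ⟨e₂⟩⟩ := hB.1
    refine ⟨Γ₁ × Γ₂, inferInstance, inferInstance, σ₁.prodMap σ₂, ⟨?_, ?_, ?_⟩, ⟨?_⟩⟩
    · exact Function.Surjective.prodMap hσ₁.1 hσ₂.1
    · intro x hx
      rw [Subgroup.mem_center_iff]
      intro y
      have h1 : σ₁ x.1 = 1 := congrArg Prod.fst hx
      have h2 : σ₂ x.2 = 1 := congrArg Prod.snd hx
      exact Prod.ext (Subgroup.mem_center_iff.1 (hσ₁.2.1 h1) y.1) (Subgroup.mem_center_iff.1 (hσ₂.2.1 h2) y.2)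
    · intro x hx
      have h1 : σ₁ x.1 = 1 := congrArg Prod.fst hx
      have h2 : σ₂ x.2 = 1 := congrArg Prod.snd hx
      have hl : ((x.1, 1) : Γ₁ × Γ₂) ∈ commutator (Γ₁ × Γ₂) := by
        have := Subgroup.mem_map_of_mem (MonoidHom.inl Γ₁ Γ₂) (hσ₁.2.2 h1)
        rw [map_commutator_eq] at this
        exact Subgroup.commutator_mono le_top le_top this
      have hr : ((1, x.2) : Γ₁ × Γ₂) ∈ commutator (Γ₁ × Γ₂) := by
        have := Subgroup.mem_map_of_mem (MonoidHom.inr Γ₁ Γ₂) (hσ₂.2.2 h2)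
        rw [map_commutator_eq] at this
        exact Subgroup.commutator_mono le_top le_top this
      simpa using mul_mem hl hr
    · refine MulEquiv.trans ?_ (e₁.prodCongr e₂)
      exact
        { toFun := fun x => (⟨x.1.1, congrArg Prod.fst x.2⟩, ⟨x.1.2, congrArg Prod.snd x.2⟩)
          invFun := fun y => ⟨(y.1.1, y.2.1), Prod.ext y.1.2 y.2.2⟩
          left_inv := fun _ => rfl
          right_inv := fun _ => rfl
          map_mul' := fun _ _ => rfl }
  · intro Γ _ _ σ hσ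
    obtain ⟨f₁, hf₁⟩ := exists_hom_surj (Q := Q₁) σ hσ.1 hσ.2.1 (MonoidHom.inl Q₁ Q₂)
    obtain ⟨f₂, hf₂⟩ := exists_hom_surj (Q := Q₂) σ hσ.1 hσ.2.1 (MonoidHom.inr Q₁ Q₂)
    have hcomm := commute_of_coprime σ hσ.2.1 hcop f₁ hf₁ f₂ hf₂
    obtain ⟨α⟩ := hasSchurMultiplier_iff.1 hA
    obtain ⟨β⟩ := hasSchurMultiplier_iff.1 hB
    let F : Univ Q₁ × Univ Q₂ →* Γ := MonoidHom.noncommCoprod f₁ f₂ hcomm
    have hF : ∀ x, σ (F x) = (proj Q₁ x.1, proj Q₂ x.2) := fun x => by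
      show σ (f₁ x.1 * f₂ x.2) = _
      rw [map_mul, ← MonoidHom.comp_apply σ f₁, hf₁, ← MonoidHom.comp_apply σ f₂, hf₂]
      simp
    let ι : A × B →* Univ Q₁ × Univ Q₂ :=
      ((M0 Q₁).subtype.comp α.symm.toMonoidHom).prodMap ((M0 Q₂).subtype.comp β.symm.toMonoidHom)
    refine ⟨(F.comp ι).codRestrict σ.ker fun z => ?_, fun z => ?_⟩
    · rw [MonoidHom.mem_ker]
      show σ (F (ι z)) = 1
      rw [hF]
      exact Prod.ext (α.symm z.1).2.1 (β.symm z.2).2.1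
    · have h1 := commutator_le_map σ hσ.2.1 F (fun g => ⟨(sec (σ g).1, sec (σ g).2), by
        rw [hF, proj_sec, proj_sec]⟩) (hσ.2.2 z.2)
      obtain ⟨x, hx, hxz⟩ := h1
      have hp : σ (F x) = 1 := by rw [hxz]; exact z.2
      rw [hF, Prod.ext_iff] at hp
      have hx1 : x.1 ∈ commutator (Univ Q₁) := by
        have := Subgroup.mem_map_of_mem (MonoidHom.fst (Univ Q₁) (Univ Q₂)) hx
        rw [map_commutator_eq] at this
        exact Subgroup.commutator_mono le_top le_top this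
      have hx2 : x.2 ∈ commutator (Univ Q₂) := by
        have := Subgroup.mem_map_of_mem (MonoidHom.snd (Univ Q₁) (Univ Q₂)) hx
        rw [map_commutator_eq] at this
        exact Subgroup.commutator_mono le_top le_top this
      refine ⟨(α ⟨x.1, hp.1, hx1⟩, β ⟨x.2, hp.2, hx2⟩), Subtype.ext ?_⟩
      show F (ι _) = z
      rw [← hxz]
      congr 1
      simp [ι]

end Cfsg.Agent.S3980
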