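import Cfsg.Statements.S3992
import Cfsg.Agent.Lib.OrderDegrees.Coclique
import Cfsg.Agent.Lib.Cores.MinimalNormal
import Cfsg.Agent.Lib.Cores.PCore
import Cfsg.Agent.Lib.CoprimeAction.Abelian
import Cfsg.Agent.Lib.SchurExt.Elementary
-- import your own Cfsg.Agent.* helpers here

set_option autoImplicit false
open Cfsg

namespace Cfsg.Agent.S3992


universe u

variable {G : Type u} [Group G] [Finite G]

theorem not_commute (hpp : ∀ g : G, g ≠ 1 → IsPrimePow (orderOf g)) {a b : G} {r s : ℕ} (hr : r.Prime)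
    (hs : s.Prime) (hrs : r ≠ s) (ha : r ∣ orderOf a) (hb : s ∣ orderOf b) : ¬ Commute a b := by
  intro hab
  obtain ⟨x, hx⟩ := CfsgLib.OrderDegrees.exists_orderOf_eq_mul_of_commute hr hs hrs hab ha hb
  have hx1 : x ≠ 1 := fun h => by
    rw [h, orderOf_one] at hx
    exact hr.ne_one (Nat.eq_one_of_mul_eq_one_right hx.symm)
  obtain ⟨p, k, hp, hk, hpk⟩ := (hpp x hx1)
  rw [← Nat.prime_iff] at hp
  rw [hx] at hpk
  have h1 : r = p := (Nat.prime_dvd_prime_iff_eq hr hp).1 (hr.dvd_of_dvd_pow (hpk ▸ dvd_mul_right r s))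
  have h2 : s = p := (Nat.prime_dvd_prime_iff_eq hs hp).1 (hs.dvd_of_dvd_pow (hpk ▸ dvd_mul_left s r))
  exact hrs (h1.trans h2.symm)

theorem primes_le_two (hpp : ∀ g : G, g ≠ 1 → IsPrimePow (orderOf g)) (H : Subgroup G)
    (hH : Group.IsSolvable H) : (Nat.card H).primeFactors.card ≤ 2 := by
  by_contra hlt
  obtain ⟨r, s, t, hr, hs, ht, hrs, hrt, hst⟩ := Finset.two_lt_card_iff.1 (not_le.1 hlt)
  rw [Nat.mem_primeFactors] at hr hs ht
  have hno : ∀ a b : ℕ, a.Prime → b.Prime → a ≠ b → ¬ ∃ x : H, orderOf x = a * b := by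
    rintro a b ha hb hab ⟨x, hx⟩
    exact not_commute hpp ha hb hab (a := (x : G)) (b := x) (by rw [Subgroup.orderOf_coe, hx]; exact dvd_mul_right a b)
      (by rw [Subgroup.orderOf_coe, hx]; exact dvd_mul_left b a) (Commute.refl _)
  haveI := hH
  exact CfsgLib.OrderDegrees.false_of_solvable_coclique (⊤ : Subgroup H)
    (Group.isSolvable_of_isSolvable_injective (f := (⊤ : Subgroup H).subtype) Subtype.coe_injective)
    hr.1 hs.1 ht.1 hrs hrt hst (hno _ _ hr.1 hs.1 hrs) (hno _ _ hr.1 ht.1 hrt) (hno _ _ hs.1 ht.1 hst)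
    (by rw [Subgroup.card_top]; exact hr.2.1) (by rw [Subgroup.card_top]; exact hs.2.1) ht.2.1

theorem isPGroup_radical (hns : ¬ Group.IsSolvable G) (hpp : ∀ g : G, g ≠ 1 → IsPrimePow (orderOf g))
    (R : Subgroup G) [R.Normal] (hRs : Group.IsSolvable R) : ∃ p : ℕ, p.Prime ∧ IsPGroup p R := by
  rcases eq_or_ne R ⊥ with rfl | hR
  · exact ⟨2, Nat.prime_two, IsPGroup.of_bot⟩
  obtain ⟨V, ⟨hVn, hVR, hVne⟩, hVmin⟩ := Set.Finite.exists_minimal
    (s := {N : Subgroup G | N.Normal ∧ N ≤ R ∧ N ≠ ⊥}) (Set.toFinite _) ⟨R, inferInstance, le_rfl, hR⟩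
  haveI := hVn
  have hmin : ∀ M : Subgroup G, M.Normal → M ≤ V → M = ⊥ ∨ M = V := fun M hM hle => by
    by_contra hcon
    rw [not_or] at hcon
    exact hcon.2 (le_antisymm hle (hVmin ⟨hM, hle.trans hVR, hcon.1⟩ hle))
  haveI hVs : Group.IsSolvable V := Group.isSolvable_of_isSolvable_injective (Subgroup.inclusion_injective hVR)
  haveI : IsMulCommutative V := by
    rcases hmin ⁅V, V⁆ inferInstance (Subgroup.commutator_le_self V) with h | h
    · rw [Subgroup.commutator_eq_bot_iff_le_centralizer] at h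
      exact ⟨⟨fun a b => Subtype.ext ((Subgroup.mem_centralizer_iff.1 (h b.2)) a a.2)⟩⟩
    · exfalso
      haveI : Nontrivial V := (Subgroup.nontrivial_iff_ne_bot _).2 hVne
      refine (Group.IsSolvable.commutator_lt_top_of_nontrivial (G := V)).ne ?_
      apply Subgroup.map_injective V.subtype_injective
      rw [map_commutator_eq, ← MonoidHom.range_eq_map, V.range_subtype]
      exact h
  obtain ⟨p, hp, hpow⟩ := CfsgLib.Cores.exists_prime_pow_eq_one_of_minimal_normal hVne hmin
  refine ⟨p, hp, ?_⟩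
  haveI := Fact.mk hp
  have hVp : IsPGroup p V := fun x => ⟨1, Subtype.ext (by rw [SubmonoidClass.coe_pow, pow_one]; exact hpow x x.2)⟩
  by_contra hnp
  obtain ⟨q, hq, hqd, hqp⟩ : ∃ q : ℕ, q.Prime ∧ q ∣ Nat.card R ∧ q ≠ p := by
    by_contra hcon
    push Not at hcon
    exact hnp (IsPGroup.of_card (Nat.eq_prime_pow_of_unique_prime_dvd Nat.card_pos.ne' fun {d} hd hdd => hcon d hd hdd))
  haveI := Fact.mk hq
  obtain ⟨Q₀⟩ := (inferInstance : Nonempty (Sylow q R))
  set Q := (Q₀ : Subgroup R).map R.subtype with hQdef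
  have hQR : Q ≤ R := Subgroup.map_subtype_le _
  have hQq : IsPGroup q Q := Q₀.isPGroup'.map _
  haveI : Nontrivial Q := (Subgroup.nontrivial_iff_ne_bot _).2 fun hb =>
    Q₀.ne_bot_of_dvd_card hqd ((Subgroup.map_eq_bot_iff_of_injective _ R.subtype_injective).1 hb)
  haveI := hQq.center_nontrivial
  obtain ⟨k, hk0, hk⟩ := IsPGroup.nontrivial_iff_card (hQq.to_subgroup (Subgroup.center Q)) |>.1 inferInstance
  obtain ⟨z₀, hz₀⟩ := exists_prime_orderOf_dvd_card' (G := Subgroup.center Q) q
    (hk ▸ dvd_pow_self q (by omega))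
  set z : G := ((z₀ : Q) : G) with hzdef
  have hzo : orderOf z = q := by rw [hzdef, Subgroup.orderOf_coe, Subgroup.orderOf_coe, hz₀]
  have hzQ : z ∈ Q := (z₀ : Q).2
  have hzcomm : ∀ w ∈ Q, w * z = z * w := fun w hw =>
    congrArg Subtype.val (Subgroup.mem_center_iff.1 z₀.2 ⟨w, hw⟩)
  obtain ⟨⟨v, hvV⟩, hv1⟩ := (Subgroup.ne_bot_iff_exists_ne_one).1 hVne
  have hnofix : ∀ w : G, orderOf w = q → ∀ u ∈ V, Commute u w → u = 1 := by
    intro w hw u hu hc
    by_contra hu1
    obtain ⟨j, -, hj⟩ := (Nat.dvd_prime_pow hp).1 (orderOf_dvd_of_pow_eq_one (show u ^ p ^ 1 = 1 by rw [pow_one]; exact hpow u hu))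
    have hju : p ∣ orderOf u := by
      rcases j.eq_zero_or_pos with rfl | hjp
      · exact absurd (orderOf_eq_one_iff.1 (by simpa using hj)) hu1
      · rw [hj]; exact dvd_pow_self p hjp.ne'
    exact not_commute hpp hp hq hqp.symm hju (by rw [hw]) hc
  have huniq : ∀ w ∈ Q, orderOf w = q → (∀ u ∈ Q, u * w = w * u) → w ∈ Subgroup.zpowers z := by
    intro w hwQ hwo hwc
    by_contra hnot
    have hz1 : z ≠ 1 := fun h => hq.ne_one (by rw [← hzo, h, orderOf_one])
    have hne : ∀ i : ℕ, w * z ^ i ≠ 1 := fun i h => hnot (by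
      rw [eq_inv_of_mul_eq_one_left h]; exact inv_mem (Subgroup.npow_mem_zpowers z i))
    have hnorm : ∀ g : G, g ∈ Subgroup.normalizer (V : Set G) := fun g => by
      rw [Subgroup.normalizer_eq_top]; trivial
    have hle : V ≤ ⊥ := by
      refine CfsgLib.CoprimeAction.le_of_centralizers_of_isSolvable hq
        (by rw [← hwo]; exact pow_orderOf_eq_one w) (by rw [← hzo]; exact pow_orderOf_eq_one z)
        (hzcomm w hwQ) hne hz1 (hnorm w) (hnorm z) ?_ hVs fun g hg hg1 u hu => ?_
      · obtain ⟨n, hn⟩ := IsPGroup.iff_card.1 hVp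
        rw [hn]
        exact ((Nat.coprime_primes hp hq).2 hqp.symm).pow_left n
      · rw [Subgroup.mem_inf] at hu
        have hgQ : g ∈ Q := (Subgroup.closure_le _).2 (by
          rintro y (rfl | rfl)
          · exact hwQ
          · exact hzQ) hg
        obtain ⟨i, hi⟩ := IsPGroup.iff_orderOf.1 hQq ⟨g, hgQ⟩
        rw [Subgroup.orderOf_mk] at hi
        have hpos : i ≠ 0 := fun h0 => hg1 (orderOf_eq_one_iff.1 (by rw [hi, h0, pow_zero]))
        have hgo : orderOf (g ^ (orderOf g / q)) = q :=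
          orderOf_pow_orderOf_div (orderOf_pos g).ne' (hi ▸ dvd_pow_self q hpos)
        exact Subgroup.mem_bot.2 (hnofix _ hgo u hu.1
          ((show Commute u g from (Subgroup.mem_centralizer_singleton_iff.1 hu.2)).pow_right _))
    exact hv1 (Subtype.ext (Subgroup.mem_bot.1 (hle hvV)))
  refine hns ?_
  set N := Subgroup.normalizer ((Subgroup.zpowers z : Subgroup G) : Set G) with hN
  have hNQ : Subgroup.normalizer (Q : Set G) ≤ N := by
    intro g hg
    refine CfsgLib.SchurExt.mem_normalizer_zpowers (huniq _ ((Subgroup.mem_normalizer_iff.1 hg z).1 hzQ)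
      (by rw [← hzo]; exact orderOf_injective (MulAut.conj g).toMonoidHom (MulAut.conj g).injective z) fun u hu => ?_)
    have h1 := hzcomm (g⁻¹ * u * g) ((Subgroup.mem_normalizer_iff'.1 hg (g⁻¹ * u)).2 (by simpa using hu))
    simpa [mul_assoc] using congrArg (fun t => g * t * g⁻¹) h1
  have hCq : IsPGroup q (Subgroup.centralizer ({z} : Set G)) := fun c => by
    obtain ⟨j, hj⟩ : ∃ j, orderOf (c : G) = q ^ j := by
      refine ⟨_, Nat.eq_prime_pow_of_unique_prime_dvd (orderOf_pos (c : G)).ne' fun {d} hd hdd => ?_⟩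
      by_contra hne
      exact not_commute hpp hd hq hne hdd (by rw [hzo]) (Subgroup.mem_centralizer_singleton_iff.1 c.2)
    exact ⟨j, orderOf_dvd_iff_pow_eq_one.1 (by rw [← Subgroup.orderOf_coe, hj])⟩
  haveI : Group.IsSolvable N := by
    let θ : N →* MulAut (Subgroup.zpowers z) := (Subgroup.zpowers z).normalizerMonoidHom
    haveI hs : Group.IsSolvable θ.ker := by
      haveI := hCq.isNilpotent
      refine Group.isSolvable_of_isSolvable_injective
        (f := ((N.subtype).comp θ.ker.subtype).codRestrict (Subgroup.centralizer ({z} : Set G)) fun x => ?_) ?_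
      · refine Subgroup.mem_centralizer_singleton_iff.2 ?_
        have := congrArg Subtype.val (DFunLike.congr_fun (MonoidHom.mem_ker.1 x.2) ⟨z, Subgroup.mem_zpowers z⟩)
        simp only [MulAut.one_apply] at this
        have h2 : ((x : N) : G) * z * ((x : N) : G)⁻¹ = z := this
        exact mul_inv_eq_iff_eq_mul.1 h2
      · intro a b hab
        exact Subtype.ext (Subtype.ext (congrArg Subtype.val hab :))
    refine Group.isSolvable_of_ker_le_range θ.ker.subtype θ.rangeRestrict (fun x hx => ?_) (G' := θ.ker) (hG'' := ?_)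
    · exact ⟨⟨x, congrArg Subtype.val hx⟩, rfl⟩
    · refine Group.isSolvable_of_comm fun a b => Subtype.ext ?_
      ext w
      obtain ⟨m, hm⟩ := MonoidHom.map_cyclic (a : MulAut (Subgroup.zpowers z)).toMonoidHom
      obtain ⟨m', hm'⟩ := MonoidHom.map_cyclic (b : MulAut (Subgroup.zpowers z)).toMonoidHom
      simp only [MulEquiv.coe_toMonoidHom] at hm hm'
      simp only [Subgroup.coe_mul, MulAut.mul_apply, hm, hm', ← zpow_mul, mul_comm m m']
  have hfr : Subgroup.normalizer (Q : Set G) ⊔ R = ⊤ := Sylow.normalizer_sup_eq_top Q₀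
  haveI : Group.IsSolvable (G ⧸ R) := by
    refine Group.isSolvable_of_surjective (f := (QuotientGroup.mk' R).comp N.subtype) fun y => ?_
    obtain ⟨g, rfl⟩ := QuotientGroup.mk'_surjective R y
    obtain ⟨a, ha, b, hb, hab⟩ := Subgroup.mem_sup_of_normal_right.1 (hfr.symm ▸ Subgroup.mem_top g)
    refine ⟨⟨a, hNQ ha⟩, ?_⟩
    rw [← hab]
    show QuotientGroup.mk' R a = _
    rw [map_mul, (show QuotientGroup.mk' R b = 1 from (QuotientGroup.eq_one_iff b).2 hb), mul_one]
  exact Group.isSolvable_of_ker_le_range R.subtype (QuotientGroup.mk' R) (by simp)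

theorem unique_minimal (hns : ¬ Group.IsSolvable G) (hpp : ∀ g : G, g ≠ 1 → IsPrimePow (orderOf g))
    (R : Subgroup G) [R.Normal] (hRs : Group.IsSolvable R)
    (hRmax : ∀ N : Subgroup G, N.Normal → Group.IsSolvable N → N ≤ R) :
    ∃ M : Subgroup (G ⧸ R), M.Normal ∧ IsSimpleGroup M ∧ ¬ IsMulCommutative M ∧
      ∀ N : Subgroup (G ⧸ R), N.Normal → N ≠ ⊥ → M ≤ N := by
  haveI := hRs
  -- solvable normal subgroups of the quotient are trivial
  have hrad : ∀ N : Subgroup (G ⧸ R), N.Normal → Group.IsSolvable N → N = ⊥ := by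
    intro N hN hNs
    haveI : Group.IsSolvable (N.comap (QuotientGroup.mk' R)) := by
      let ψ : N.comap (QuotientGroup.mk' R) →* N := (QuotientGroup.mk' R).subgroupComap N
      refine Group.isSolvable_of_ker_le_range (G' := R) (G'' := N)
        (Subgroup.inclusion (by intro r hr; rw [Subgroup.mem_comap]; rw [show QuotientGroup.mk' R r = 1 from (QuotientGroup.eq_one_iff r).2 hr]; exact one_mem _)) ψ
        fun x hx => ⟨⟨x, (QuotientGroup.eq_one_iff _).1 (congrArg Subtype.val hx)⟩, rfl⟩
    have hle := hRmax _ (hN.comap _) this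
    rw [eq_bot_iff]
    intro y hy
    obtain ⟨g, rfl⟩ := QuotientGroup.mk'_surjective R y
    exact Subgroup.mem_bot.2 ((QuotientGroup.eq_one_iff g).2 (hle hy))
  -- elements of different prime orders never commute in the quotient
  have hnc : ∀ a b : G ⧸ R, ∀ r s : ℕ, r.Prime → s.Prime → r ≠ s → orderOf a = r → orderOf b = s →
      ¬ Commute a b := by
    intro a b r s hr hs hrs ha hb hab
    obtain ⟨g, hg⟩ := QuotientGroup.mk'_surjective R (a * b)
    have h1 : r * s ∣ orderOf g := by
      have h2 : orderOf (a * b) = r * s := by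
        rw [hab.orderOf_mul_eq_mul_orderOf_of_coprime (by rw [ha, hb]; exact (Nat.coprime_primes hr hs).2 hrs), ha, hb]
      rw [← h2, ← hg]
      exact orderOf_map_dvd (QuotientGroup.mk' R) g
    exact not_commute hpp hr hs hrs ((dvd_mul_right r s).trans h1) ((dvd_mul_left s r).trans h1) (Commute.refl g)
  -- two commuting subgroups cannot both be nonsolvable
  have hsep : ∀ A B : Subgroup (G ⧸ R), (∀ a ∈ A, ∀ b ∈ B, Commute a b) → ¬ Group.IsSolvable A →
      B ≠ ⊥ → False := by
    intro A B hcomm hA hB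
    obtain ⟨s, hs, hsd⟩ := Nat.exists_prime_and_dvd (mt Subgroup.card_eq_one.1 hB)
    obtain ⟨r, hr, hrd, hrs⟩ : ∃ r : ℕ, r.Prime ∧ r ∣ Nat.card A ∧ r ≠ s := by
      by_contra hcon
      push Not at hcon
      haveI := Fact.mk hs
      haveI := (IsPGroup.of_card (Nat.eq_prime_pow_of_unique_prime_dvd (Nat.card_pos (α := A)).ne'
        fun {d} hd hdd => hcon d hd hdd)).isNilpotent
      exact hA inferInstance
    haveI := Fact.mk hr
    haveI := Fact.mk hs
    obtain ⟨a, ha⟩ := exists_prime_orderOf_dvd_card' (G := A) r hrd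
    obtain ⟨b, hb⟩ := exists_prime_orderOf_dvd_card' (G := B) s hsd
    exact hnc a b r s hr hs hrs (by rw [Subgroup.orderOf_coe, ha]) (by rw [Subgroup.orderOf_coe, hb])
      (hcomm a a.2 b b.2)
  haveI : Nontrivial (G ⧸ R) := by
    refine not_subsingleton_iff_nontrivial.1 fun hsub => hns ?_
    haveI : Group.IsSolvable (G ⧸ R) := Group.isSolvable_of_comm fun a b => Subsingleton.elim _ _
    exact Group.isSolvable_of_ker_le_range R.subtype (QuotientGroup.mk' R) (by simp)
  obtain ⟨M, ⟨hMn, hMne⟩, hMmin⟩ := Set.Finite.exists_minimal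
    (s := {N : Subgroup (G ⧸ R) | N.Normal ∧ N ≠ ⊥}) (Set.toFinite _) ⟨⊤, inferInstance, top_ne_bot⟩
  haveI := hMn
  have hMns : ¬ Group.IsSolvable M := fun h => hMne (hrad M hMn h)
  refine ⟨M, hMn, ?_, fun h => hMns (Group.isSolvable_of_comm fun a b => h.is_comm.comm a b), ?_⟩
  · haveI : Nontrivial M := (Subgroup.nontrivial_iff_ne_bot _).2 hMne
    refine { eq_bot_or_eq_top_of_normal := fun S hS => ?_ }
    by_contra hcon
    rw [not_or] at hcon
    obtain ⟨T, ⟨hTn, hTS, hTne⟩, hTmin⟩ := Set.Finite.exists_minimal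
      (s := {N : Subgroup M | N.Normal ∧ N ≤ S ∧ N ≠ ⊥}) (Set.toFinite _) ⟨S, hS, le_rfl, hcon.1⟩
    haveI := hTn
    have hTmin' : ∀ N : Subgroup M, N.Normal → N ≤ T → N = ⊥ ∨ N = T := fun N hN hle => by
      by_contra hc
      rw [not_or] at hc
      exact hc.2 (le_antisymm hle (hTmin ⟨hN, hle.trans hTS, hc.1⟩ hle))
    set T' := T.map M.subtype with hT'
    have hT'ne : T' ≠ ⊥ := fun h => hTne ((Subgroup.map_eq_bot_iff_of_injective _ M.subtype_injective).1 h)
    have hTns : ¬ Group.IsSolvable T := by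
      intro hTs
      haveI := hTs
      haveI : IsMulCommutative T := by
        rcases hTmin' ⁅T, T⁆ inferInstance (Subgroup.commutator_le_self T) with h | h
        · rw [Subgroup.commutator_eq_bot_iff_le_centralizer] at h
          exact ⟨⟨fun a b => Subtype.ext ((Subgroup.mem_centralizer_iff.1 (h b.2)) a a.2)⟩⟩
        · exfalso
          haveI : Nontrivial T := (Subgroup.nontrivial_iff_ne_bot _).2 hTne
          refine (Group.IsSolvable.commutator_lt_top_of_nontrivial (G := T)).ne ?_
          apply Subgroup.map_injective T.subtype_injective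
          rw [map_commutator_eq, ← MonoidHom.range_eq_map, T.range_subtype]
          exact h
      obtain ⟨p, hp, hpow⟩ := CfsgLib.Cores.exists_prime_pow_eq_one_of_minimal_normal hTne hTmin'
      haveI := Fact.mk hp
      have hTp : IsPGroup p T := fun x => ⟨1, Subtype.ext (by rw [SubmonoidClass.coe_pow, pow_one]; exact hpow x x.2)⟩
      have hle : T ≤ Cfsg.pCore p M := CfsgLib.Cores.le_pCore hTp
      haveI : ((Cfsg.pCore p M).map M.subtype).Normal := ConjAct.normal_of_characteristic_of_normal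
      have hP := (CfsgLib.Cores.isPGroup_pCore p M).map M.subtype
      haveI := hP.isNilpotent
      have hb := hrad _ inferInstance (inferInstance : Group.IsSolvable ((Cfsg.pCore p M).map M.subtype))
      exact hT'ne (le_bot_iff.1 (hb ▸ Subgroup.map_mono hle))
    have hT'n : T'.Normal := by
      refine ⟨fun x hx g => ?_⟩
      by_contra hnot
      let φ : M ≃* M := MulAut.conjNormal g
      set U := T.map φ.toMonoidHom with hU
      haveI hUn : U.Normal := hTn.map _ φ.surjective
      have hUne : T ⊓ U = ⊥ := by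
        rcases hTmin' (T ⊓ U) inferInstance inf_le_left with h | h
        · exact h
        · exfalso
          have heq : U = T := (Subgroup.eq_of_le_of_card_ge (inf_eq_left.1 h)
            (Subgroup.card_map_of_injective φ.injective).le).symm
          obtain ⟨y, hy, rfl⟩ := hx
          exact hnot ⟨φ y, heq.le ⟨y, hy, rfl⟩, rfl⟩
      refine hsep T' (U.map M.subtype) ?_ ?_ ?_
      · rintro _ ⟨a, ha, rfl⟩ _ ⟨b, hb, rfl⟩
        exact congrArg Subtype.val (Subgroup.commute_of_normal_of_disjoint T U hTn hUn (disjoint_iff.2 hUne) a b ha hb :)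
      · exact fun h => hTns (haveI := h; Group.isSolvable_of_surjective
          (f := (T.equivMapOfInjective M.subtype M.subtype_injective).symm.toMonoidHom) (MulEquiv.surjective _))
      · intro h
        have h1 : U = ⊥ := (Subgroup.map_eq_bot_iff_of_injective _ M.subtype_injective).1 h
        exact hTne ((Subgroup.map_eq_bot_iff_of_injective T φ.injective).1 h1)
    have heq : M ≤ T' := hMmin ⟨hT'n, hT'ne⟩ (Subgroup.map_subtype_le T)
    refine hcon.2 (eq_top_iff.2 fun x _ => hTS ?_)
    obtain ⟨y, hy, hyx⟩ := heq x.2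
    exact Subtype.ext hyx ▸ hy
  · intro N hN hNne
    by_contra hnle
    have hinf : M ⊓ N = ⊥ := by
      by_contra hne
      exact hnle ((hMmin ⟨inferInstance, hne⟩ inf_le_left).trans inf_le_right)
    exact hsep M N (fun a ha b hb => Subgroup.commute_of_normal_of_disjoint M N hMn hN (disjoint_iff.2 hinf) a b ha hb)
      hMns hNne

/-- Let G be a finite non-solvable group in which every element has prime-power order, and let R be its largest solvable normal subgroup. Then R is a p-group for some prime p; G/R has a non-abelian simple normal subgroup contained in every nontrivial normal subgroup of G/R (its unique minimal normal subgroup); and the order of every solvable subgroup of G has at most two prime divisors. -/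
theorem result {G : Type*} [Group G] [Finite G] (hns : ¬ Group.IsSolvable G) (hpp : ∀ g : G, g ≠ 1 → IsPrimePow (orderOf g))
    (R : Subgroup G) [R.Normal] (hRs : Group.IsSolvable ↥R) (hRmax : ∀ N : Subgroup G, N.Normal → Group.IsSolvable ↥N → N ≤ R) :
    (∃ p : ℕ, p.Prime ∧ IsPGroup p ↥R) ∧
      (∃ M : Subgroup (G ⧸ R), M.Normal ∧ IsSimpleGroup ↥M ∧ ¬ IsMulCommutative ↥M ∧
        ∀ N : Subgroup (G ⧸ R), N.Normal → N ≠ ⊥ → M ≤ N) ∧
      ∀ H : Subgroup G, Group.IsSolvable ↥H → (Nat.card ↥H).primeFactors.card ≤ 2 := by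
  exact ⟨isPGroup_radical hns hpp R hRs, unique_minimal hns hpp R hRs hRmax, primes_le_two hpp⟩

end Cfsg.Agent.S3992
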