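import Cfsg.Statements.S3994
import Cfsg.Agent.Lib.SchurExt.Frobenius
-- import your own Cfsg.Agent.* helpers here

set_option autoImplicit false
open Cfsg

namespace Cfsg.Agent.S3994


/-- Let G be a finite group and n a positive integer. The number of elements of G whose order is divisible by n is either 0 or divisible by the largest divisor of the order of G that is coprime to n. -/
theorem result {G : Type*} [Group G] [Finite G] (n : ℕ) (hn : 0 < n) :
    Nat.card {g : G // n ∣ orderOf g} = 0 ∨
      (Nat.card G / Nat.gcd (Nat.card G) (n ^ Nat.card G)) ∣ Nat.card {g : G // n ∣ orderOf g} := by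
  right
  have hG : Nat.card G ≠ 0 := Nat.card_pos.ne'
  set d := Nat.gcd (Nat.card G) (n ^ Nat.card G)
  refine (Nat.dvd_iff_prime_pow_dvd_dvd _ _).2 fun q k hq hk => ?_
  rcases k.eq_zero_or_pos with rfl | hk0
  · simp
  have hkG : q ^ k ∣ Nat.card G := hk.trans (Nat.div_dvd_of_dvd (Nat.gcd_dvd_left _ _))
  refine (pow_dvd_pow q ((hq.pow_dvd_iff_le_factorization hG).1 hkG)).trans ?_
  refine CfsgLib.SchurExt.ordProj_dvd_card_dvd_orderOf hq fun hqn => ?_
  have hfull : ordProj[q] (Nat.card G) ∣ d := Nat.dvd_gcd (Nat.ordProj_dvd _ q)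
    ((pow_dvd_pow q (((Nat.card G).factorization_lt (p := q) hG).le)).trans (pow_dvd_pow_of_dvd hqn _))
  have hmul : q ^ ((Nat.card G).factorization q + 1) ∣ Nat.card G := by
    have := Nat.mul_dvd_mul ((dvd_pow_self q hk0.ne').trans hk) hfull
    rwa [Nat.div_mul_cancel (Nat.gcd_dvd_left _ _), ← pow_succ'] at this
  have := (hq.pow_dvd_iff_le_factorization hG).1 hmul
  omega

end Cfsg.Agent.S3994
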