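import Cfsg.Statements.S3995
import Cfsg.Agent.Lib.SchurExt.Frobenius
import Cfsg.Agent.Lib.SchurExt.Elementary
import Cfsg.Agent.Lib.SchurExt.OrderType
-- import your own Cfsg.Agent.* helpers here

set_option autoImplicit false
open Cfsg

namespace Cfsg.Agent.S3995

/-- The number of elements of order `d`. -/
noncomputable def N (G : Type*) [Group G] (d : ℕ) : ℕ := Nat.card {g : G // orderOf g = d}

theorem card_pow_eq_one {G : Type*} [Group G] [Finite G] {m : ℕ} (hm : m ≠ 0) :
    Nat.card {g : G // g ^ m = 1} = ∑ d ∈ m.divisors, N G d := by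
  classical
  haveI := Fintype.ofFinite G
  simp only [N, Nat.card_eq_fintype_card, Fintype.card_subtype]
  rw [Finset.card_eq_sum_card_fiberwise (f := orderOf) (t := m.divisors)]
  · refine Finset.sum_congr rfl fun d hd => ?_
    congr 1
    ext g
    simp only [Finset.mem_filter, Finset.mem_univ, true_and]
    exact ⟨fun h => h.2, fun h => ⟨orderOf_dvd_iff_pow_eq_one.1 (h ▸ Nat.dvd_of_mem_divisors hd), h⟩⟩
  · intro g hg
    simp only [Finset.coe_filter, Finset.mem_univ, true_and, Set.mem_ofPred_eq] at hg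
    exact Nat.mem_divisors.2 ⟨orderOf_dvd_of_pow_eq_one hg, hm⟩

theorem N_one {G : Type*} [Group G] : N G 1 = 1 :=
  Nat.card_eq_one_iff_unique.2
    ⟨⟨fun a b => Subtype.ext ((orderOf_eq_one_iff.1 a.2).trans (orderOf_eq_one_iff.1 b.2).symm)⟩,
      ⟨⟨1, orderOf_one⟩⟩⟩

theorem N_eq_zero {G : Type*} [Group G] {d : ℕ} (h : ∀ g : G, orderOf g ≠ d) : N G d = 0 := by
  haveI : IsEmpty {g : G // orderOf g = d} := ⟨fun g => h g.1 g.2⟩
  exact Nat.card_of_isEmpty

theorem sum_divisors_coprime {m k : ℕ} (h : m.Coprime k) (f : ℕ → ℕ) :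
    ∑ d ∈ (m * k).divisors, f d = ∑ i ∈ m.divisors, ∑ j ∈ k.divisors, f (i * j) := by
  rw [Nat.divisors_mul, Finset.mul_def, Finset.sum_image, Finset.sum_product]
  rintro ⟨a, b⟩ hab ⟨c, d⟩ hcd heq
  simp only [Finset.coe_product, Set.mem_prod, Finset.mem_coe] at hab hcd
  have ha := Nat.dvd_of_mem_divisors hab.1
  have hb := Nat.dvd_of_mem_divisors hab.2
  have hc := Nat.dvd_of_mem_divisors hcd.1
  have hd := Nat.dvd_of_mem_divisors hcd.2
  have heq' : a * b = c * d := heq
  have h1 : a = c := Nat.dvd_antisymm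
    (((h.coprime_dvd_left ha).coprime_dvd_right hd).dvd_of_dvd_mul_right ⟨b, heq'.symm⟩)
    (((h.coprime_dvd_left hc).coprime_dvd_right hb).dvd_of_dvd_mul_right ⟨d, heq'⟩)
  subst h1
  have : 0 < a := Nat.pos_of_mem_divisors hab.1
  rw [Nat.eq_of_mul_eq_mul_left this heq']

/-- A bare carrier in `Type`. -/
def Carrier (n : ℕ) : Type := Fin n

instance (n : ℕ) : Finite (Carrier n) := inferInstanceAs (Finite (Fin n))

/-- Let G be a finite group such that the numbers of elements of each order that occurs in G (the numbers #{g : o(g) = m}, m ranging over the element orders of G) take exactly two values, 1 and some n ≠ 1. Then either G is a p-group of exponent p and order at least 3 for some prime p, or G is the quaternion group of order 8, or G is cyclic of order 4, or G ≅ Z₂ × P for a p-group P of exponent p with p an odd prime. -/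
theorem result {G : Type*} [Group G] [Finite G] (n : ℕ) (hn : n ≠ 1) (h : ((fun m : ℕ => Nat.card {g : G // orderOf g = m}) '' Set.range (orderOf : G → ℕ)) = {1, n}) :
    (∃ p : ℕ, p.Prime ∧ IsPGroup p G ∧ 3 ≤ Nat.card G ∧ Monoid.exponent G = p) ∨
      Nonempty (G ≃* QuaternionGroup 2) ∨ (IsCyclic G ∧ Nat.card G = 4) ∨
      (∃ (p : ℕ) (P : Type) (_ : Group P) (_ : Finite P), p.Prime ∧ p ≠ 2 ∧ IsPGroup p P ∧ Monoid.exponent P = p ∧
        Nonempty (G ≃* Multiplicative (ZMod 2) × P)) := by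
  classical
  have hocc : ∀ x : G, N G (orderOf x) = 1 ∨ N G (orderOf x) = n := fun x => by
    have := h.le ⟨orderOf x, ⟨x, rfl⟩, rfl⟩
    simpa [N] using this
  obtain ⟨_, ⟨g0, rfl⟩, hg0⟩ := h.ge (show n ∈ ({1, n} : Set ℕ) from Or.inr rfl)
  have hn2 : 2 ≤ n := by
    have hpos : 0 < N G (orderOf g0) := by
      haveI : Nonempty {g : G // orderOf g = orderOf g0} := ⟨⟨g0, rfl⟩⟩
      exact Nat.card_pos
    rw [show N G (orderOf g0) = n from hg0] at hpos
    omega
  -- counts of orders above two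
  have hbig : ∀ x : G, 2 < orderOf x → N G (orderOf x) = n ∧ 2 ∣ n := by
    intro x hx
    have h1 : 2 ∣ N G (orderOf x) :=
      ((Nat.totient_even hx).two_dvd).trans (CfsgLib.SchurExt.totient_dvd_card_orderOf (orderOf x))
    rcases hocc x with h2 | h2
    · omega
    · exact ⟨h2, h2 ▸ h1⟩
  have hval : ∀ d : ℕ, 2 < d → N G d = 0 ∨ N G d = n := by
    intro d hd
    by_cases hex : ∃ x : G, orderOf x = d
    · obtain ⟨x, rfl⟩ := hex; exact Or.inr (hbig x hd).1
    · push Not at hex; exact Or.inl (N_eq_zero hex)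
  have hfrob : ∀ m : ℕ, m ∣ Nat.card G → m ∣ ∑ d ∈ m.divisors, N G d := fun m hm => by
    have hm0 : m ≠ 0 := fun h0 => Nat.card_pos.ne' (Nat.eq_zero_of_zero_dvd (h0 ▸ hm))
    rw [← card_pow_eq_one hm0]
    exact CfsgLib.SchurExt.dvd_card_pow_eq_one_of_dvd hm
  -- odd primes
  have hodd : ∀ p : ℕ, p.Prime → p ≠ 2 → p ∣ Nat.card G → N G p = n ∧ p ∣ 1 + n ∧ 2 ∣ n ∧
      ∀ x : G, orderOf x ≠ p * p := by
    intro p hp hp2 hpG
    haveI := Fact.mk hp
    have hp3 : 2 < p := lt_of_le_of_ne hp.two_le (Ne.symm hp2)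
    obtain ⟨y, hy⟩ := exists_prime_orderOf_dvd_card' (G := G) p hpG
    obtain ⟨hNp, hev⟩ := hbig y (hy.symm ▸ hp3)
    rw [hy] at hNp
    have hdiv : p ∣ 1 + n := by
      have h1 := hfrob p hpG
      rw [hp.sum_divisors, hNp, N_one, add_comm] at h1
      exact h1
    refine ⟨hNp, hdiv, hev, fun x hx => ?_⟩
    have h2 : orderOf x > 2 := by rw [hx]; nlinarith
    have h3 := CfsgLib.SchurExt.totient_dvd_card_orderOf (G := G) (orderOf x)
    rw [show Nat.card {g : G // orderOf g = orderOf x} = n from (hbig x h2).1, hx, ← pow_two,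
      Nat.totient_prime_pow hp (by norm_num : 0 < 2), show (2 : ℕ) - 1 = 1 from rfl, pow_one] at h3
    have h4 : p ∣ n := (dvd_mul_right p _).trans h3
    exact hp.ne_one (Nat.dvd_one.1 ((Nat.dvd_add_left h4).1 hdiv))
  have huniq : ∀ p q : ℕ, p.Prime → q.Prime → p ≠ 2 → q ≠ 2 → p ∣ Nat.card G → q ∣ Nat.card G → p = q := by
    intro p q hp hq hp2 hq2 hpG hqG
    by_contra hne
    obtain ⟨hNp, hdiv, -⟩ := hodd p hp hp2 hpG
    obtain ⟨hNq, -⟩ := hodd q hq hq2 hqG
    have hco := (Nat.coprime_primes hp hq).2 hne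
    have h1 := hfrob (p * q) (hco.mul_dvd_of_dvd_of_dvd hpG hqG)
    rw [sum_divisors_coprime hco, hp.sum_divisors, hq.sum_divisors, hq.sum_divisors] at h1
    simp only [mul_one, one_mul, hNp, hNq, N_one] at h1
    have h2 : p ∣ n + (N G (p * q)) + n + 1 := by
      refine (dvd_mul_right p q).trans (h1.trans (dvd_of_eq ?_))
      ring
    have h3 : 2 < p * q := by nlinarith [hp.two_le, hq.two_le]
    have hp3 : 2 < p := lt_of_le_of_ne hp.two_le (Ne.symm hp2)
    rcases hval _ h3 with h4 | h4 <;> rw [h4] at h2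
    · have h5 : p ∣ n := by
        have : p ∣ (n + 0 + n + 1) - (1 + n) := Nat.dvd_sub h2 hdiv
        rwa [show (n + 0 + n + 1) - (1 + n) = n by omega] at this
      exact hp.ne_one (Nat.dvd_one.1 ((Nat.dvd_add_left h5).1 hdiv))
    · have h5 : p ∣ 2 * n := by
        have : p ∣ (n + n + n + 1) - (1 + n) := Nat.dvd_sub h2 hdiv
        rwa [show (n + n + n + 1) - (1 + n) = 2 * n by omega] at this
      have h6 : p ∣ n := ((Nat.coprime_primes hp Nat.prime_two).2 hp2).dvd_of_dvd_mul_left h5
      exact hp.ne_one (Nat.dvd_one.1 ((Nat.dvd_add_left h6).1 hdiv))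
  have hexp : ∀ p : ℕ, p.Prime → p ≠ 2 → ∀ x : G, ¬ p * p ∣ orderOf x := by
    intro p hp hp2 x hd
    obtain ⟨c, hc⟩ := CfsgLib.SchurExt.exists_pow_orderOf_eq (g := x) (q := p) (k := 2) (by rwa [pow_two])
    exact (hodd p hp hp2 ((dvd_mul_right p p).trans (hd.trans (orderOf_dvd_natCard x)))).2.2.2 (x ^ c) (by rw [hc, pow_two])
  haveI h2F := Fact.mk Nat.prime_two
  by_cases h2G : 2 ∣ Nat.card G
  swap
  · -- odd order
    haveI : Nontrivial G := by
      refine nontrivial_of_ne g0 1 fun h1 => ?_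
      have : N G (orderOf g0) = 1 := by rw [h1, orderOf_one, N_one]
      rw [show N G (orderOf g0) = n from hg0] at this
      exact hn this
    obtain ⟨p, hp, hpG⟩ := Nat.exists_prime_and_dvd (Finite.one_lt_card (α := G)).ne'
    have hp2 : p ≠ 2 := fun he => h2G (he ▸ hpG)
    have hall : ∀ x : G, x ^ p = 1 := by
      intro x
      refine orderOf_dvd_iff_pow_eq_one.1 ((Nat.dvd_iff_prime_pow_dvd_dvd _ _).2 fun r k hr hk => ?_)
      rcases k.eq_zero_or_pos with rfl | hk0
      · simp
      have hrG : r ∣ Nat.card G := (dvd_pow_self r hk0.ne').trans (hk.trans (orderOf_dvd_natCard x))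
      obtain rfl := huniq r p hr hp (fun he => h2G (he ▸ hrG)) hp2 hrG hpG
      have : k ≤ 1 := by
        by_contra hlt
        exact hexp r hr hp2 x (by rw [← pow_two]; exact (pow_dvd_pow r (by omega)).trans hk)
      exact (pow_dvd_pow r this).trans (pow_one r).dvd
    have hPG : IsPGroup p G := fun x => ⟨1, by rw [pow_one]; exact hall x⟩
    refine Or.inl ⟨p, hp, hPG, ?_, ?_⟩
    · have := Nat.le_of_dvd Nat.card_pos hpG
      have := hp.two_le
      omega
    · refine Nat.dvd_antisymm (Monoid.exponent_dvd_of_forall_pow_eq_one hall) ?_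
      haveI := Fact.mk hp
      obtain ⟨y, hy⟩ := exists_prime_orderOf_dvd_card' (G := G) p hpG
      exact hy ▸ Monoid.order_dvd_exponent y
  obtain ⟨z, hz⟩ := exists_prime_orderOf_dvd_card' (G := G) 2 h2G
  have hf2 := hfrob 2 h2G
  rw [Nat.prime_two.sum_divisors, N_one] at hf2
  rcases hocc z with hz1 | hz1 <;> rw [hz] at hz1
  swap
  · -- exponent two
    rw [hz1] at hf2
    have hsmall : ∀ x : G, x ^ 2 = 1 := by
      intro x
      by_contra hx
      have h1 : 2 < orderOf x := by
        by_contra hle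
        push Not at hle
        have := orderOf_pos x
        interval_cases h' : orderOf x
        · rw [orderOf_eq_one_iff.1 h', one_pow] at hx; exact hx rfl
        · exact hx (orderOf_dvd_iff_pow_eq_one.1 h'.dvd)
      have := (hbig x h1).2
      omega
    refine Or.inl ⟨2, Nat.prime_two, fun x => ⟨1, by rw [pow_one]; exact hsmall x⟩, ?_, ?_⟩
    · have hc := card_pow_eq_one (G := G) (m := 2) two_ne_zero
      rw [Nat.prime_two.sum_divisors, N_one, hz1, Nat.card_congr (Equiv.subtypeUnivEquiv hsmall)] at hc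
      omega
    · exact Nat.dvd_antisymm (Monoid.exponent_dvd_of_forall_pow_eq_one hsmall) (hz ▸ Monoid.order_dvd_exponent z)
  -- a unique involution
  have hzu : ∀ x : G, orderOf x = 2 → x = z := by
    intro x hx
    haveI := (Nat.card_eq_one_iff_unique.1 hz1).1
    exact congrArg Subtype.val (Subsingleton.elim (⟨x, hx⟩ : {g : G // orderOf g = 2}) ⟨z, hz⟩)
  have hzc : ∀ x : G, Commute z x := fun x => by
    have := hzu (x * z * x⁻¹) (by rw [show x * z * x⁻¹ = MulAut.conj x z from rfl, MulEquiv.orderOf_eq, hz])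
    show z * x = x * z
    rw [mul_inv_eq_iff_eq_mul.1 this]
  have h8 : ∀ x : G, ¬ 8 ∣ orderOf x := by
    intro x hx
    obtain ⟨c, hc⟩ := CfsgLib.SchurExt.exists_pow_orderOf_eq (g := x) (q := 2) (k := 3) (by norm_num; exact hx)
    have h4G : 4 ∣ Nat.card G := (show 4 ∣ 8 by norm_num).trans (hx.trans (orderOf_dvd_natCard x))
    have h3 := CfsgLib.SchurExt.totient_dvd_card_orderOf (G := G) (orderOf (x ^ c))
    rw [show Nat.card {g : G // orderOf g = orderOf (x ^ c)} = n from (hbig _ (by rw [hc]; norm_num)).1, hc,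
      Nat.totient_prime_pow Nat.prime_two (by norm_num : 0 < 3)] at h3
    obtain ⟨c', hc'⟩ := CfsgLib.SchurExt.exists_pow_orderOf_eq (g := x) (q := 2) (k := 2)
      ((show 2 ^ 2 ∣ 8 by norm_num).trans hx)
    have h4 := (hbig (x ^ c') (by rw [hc']; norm_num)).1
    rw [hc'] at h4
    have h1 := hfrob 4 h4G
    rw [show Nat.divisors 4 = {1, 2, 4} from by decide, Finset.sum_insert (by decide), Finset.sum_insert (by decide),
      Finset.sum_singleton, N_one, hz1, show N G 4 = n from h4] at h1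
    norm_num at h3
    omega
  by_cases hodd' : ∃ p : ℕ, p.Prime ∧ p ≠ 2 ∧ p ∣ Nat.card G
  swap
  · -- a 2-group
    push Not at hodd'
    have h4 : ∀ x : G, x ^ 4 = 1 := by
      intro x
      refine orderOf_dvd_iff_pow_eq_one.1 ((Nat.dvd_iff_prime_pow_dvd_dvd _ _).2 fun r k hr hk => ?_)
      rcases k.eq_zero_or_pos with rfl | hk0
      · simp
      obtain rfl : r = 2 := by
        by_contra hr2
        exact hodd' r hr hr2 ((dvd_pow_self r hk0.ne').trans (hk.trans (orderOf_dvd_natCard x)))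
      have : k ≤ 2 := by
        by_contra hlt
        exact h8 x ((show 8 ∣ 2 ^ k from pow_dvd_pow 2 (show 3 ≤ k by omega)).trans hk)
      exact (pow_dvd_pow 2 this : 2 ^ k ∣ 2 ^ 2)
    have hPG : IsPGroup 2 G := fun x => ⟨2, h4 x⟩
    rcases CfsgLib.TwoGroups.isCyclic_or_quaternion hPG
      (fun a b ha hb => by rw [hzu a ha, hzu b hb]; exact Subgroup.mem_zpowers z) with hc | ⟨-, m, hm, ⟨e⟩⟩
    · refine Or.inr (Or.inr (Or.inl ⟨hc, ?_⟩))
      obtain ⟨y, hy⟩ := hc.exists_ofOrder_eq_natCard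
      have h5 : Nat.card G ∣ 4 := hy ▸ orderOf_dvd_of_pow_eq_one (h4 y)
      have h6 : Nat.card G ≠ 2 := by
        intro h2'
        have hd := orderOf_dvd_natCard g0
        rw [h2'] at hd
        rcases (Nat.dvd_prime Nat.prime_two).1 hd with h7 | h7
        · have h9 : N G (orderOf g0) = n := hg0
          rw [h7, N_one] at h9
          exact hn h9.symm
        · have h9 : N G (orderOf g0) = n := hg0
          rw [h7, hz1] at h9
          exact hn h9.symm
      have h7 := Nat.le_of_dvd (by norm_num) h5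
      interval_cases hc' : Nat.card G <;> omega
    · refine Or.inr (Or.inl ?_)
      haveI : NeZero (2 ^ m) := ⟨by positivity⟩
      have h5 := orderOf_dvd_of_pow_eq_one (h4 (e.symm (QuaternionGroup.a 1)))
      rw [MulEquiv.orderOf_eq, QuaternionGroup.orderOf_a_one] at h5
      obtain rfl : m = 1 := by
        by_contra hm1
        have := Nat.le_of_dvd (by norm_num) h5
        have := Nat.pow_le_pow_right (show 2 > 0 by norm_num) (show 2 ≤ m by omega)
        omega
      exact ⟨e⟩
  -- both parities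
  obtain ⟨p, hp, hp2, hpG⟩ := hodd'
  haveI := Fact.mk hp
  obtain ⟨hNp, hdiv, hev, -⟩ := hodd p hp hp2 hpG
  have hp3 : 2 < p := lt_of_le_of_ne hp.two_le (Ne.symm hp2)
  have hco2 : (2 : ℕ).Coprime p := (Nat.coprime_primes Nat.prime_two hp).2 (Ne.symm hp2)
  have hdvd4p : ∀ x : G, orderOf x ∣ 4 * p := by
    intro x
    refine (Nat.dvd_iff_prime_pow_dvd_dvd _ _).2 fun r k hr hk => ?_
    rcases k.eq_zero_or_pos with rfl | hk0
    · simp
    have hrG : r ∣ Nat.card G := (dvd_pow_self r hk0.ne').trans (hk.trans (orderOf_dvd_natCard x))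
    rcases eq_or_ne r 2 with rfl | hr2
    · have : k ≤ 2 := by
        by_contra hlt
        exact h8 x ((show 8 ∣ 2 ^ k from pow_dvd_pow 2 (show 3 ≤ k by omega)).trans hk)
      exact dvd_mul_of_dvd_left (pow_dvd_pow 2 this : 2 ^ k ∣ 2 ^ 2) p
    · obtain rfl := huniq r p hr hp hr2 hp2 hrG hpG
      have : k ≤ 1 := by
        by_contra hlt
        exact hexp r hr hp2 x (by rw [← pow_two]; exact (pow_dvd_pow r (by omega)).trans hk)
      exact dvd_mul_of_dvd_right ((pow_dvd_pow r this).trans (pow_one r).dvd) 4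
  have hN2p : N G (2 * p) = n := by
    obtain ⟨y, hy⟩ := exists_prime_orderOf_dvd_card' (G := G) p hpG
    have ho : orderOf (z * y) = 2 * p := by
      rw [(hzc y).orderOf_mul_eq_mul_orderOf_of_coprime (by rw [hz, hy]; exact hco2), hz, hy]
    exact ho ▸ (hbig (z * y) (by rw [ho]; omega)).1
  have hcard : Nat.card G = 2 + 2 * n + N G 4 + N G (4 * p) := by
    have h1 := card_pow_eq_one (G := G) (m := 4 * p) (by omega)
    rw [Nat.card_congr (Equiv.subtypeUnivEquiv fun x => orderOf_dvd_iff_pow_eq_one.1 (hdvd4p x)),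
      sum_divisors_coprime (show Nat.Coprime 4 p from hco2.pow_left 2),
      show Nat.divisors 4 = {1, 2, 4} from by decide, Finset.sum_insert (by decide), Finset.sum_insert (by decide),
      Finset.sum_singleton, hp.sum_divisors, hp.sum_divisors, hp.sum_divisors] at h1
    simp only [one_mul, mul_one, hNp, hN2p, N_one, hz1] at h1
    omega
  have h40 : N G 4 = 0 := by
    rcases hval 4 (by norm_num) with h4 | h4
    · exact h4
    exfalso
    have hd : p ∣ Nat.card G := hpG
    rw [hcard, h4] at hd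
    rcases hval (4 * p) (by omega) with h5 | h5 <;> rw [h5] at hd
    · have h6 : p ∣ 3 * (1 + n) - (2 + 2 * n + n + 0) := Nat.dvd_sub (dvd_mul_of_dvd_right hdiv 3) hd
      rw [show 3 * (1 + n) - (2 + 2 * n + n + 0) = 1 by omega] at h6
      exact hp.ne_one (Nat.dvd_one.1 h6)
    · have h6 : p ∣ 4 * (1 + n) - (2 + 2 * n + n + n) := Nat.dvd_sub (dvd_mul_of_dvd_right hdiv 4) hd
      rw [show 4 * (1 + n) - (2 + 2 * n + n + n) = 2 by omega] at h6
      exact hp2 ((Nat.prime_dvd_prime_iff_eq hp Nat.prime_two).1 h6)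
  have hno4 : ∀ x : G, ¬ 4 ∣ orderOf x := by
    intro x hx
    obtain ⟨c, hc⟩ := CfsgLib.SchurExt.exists_pow_orderOf_eq (g := x) (q := 2) (k := 2) hx
    have : 0 < N G 4 := by
      haveI : Nonempty {g : G // orderOf g = 4} := ⟨⟨x ^ c, hc⟩⟩
      exact Nat.card_pos
    omega
  have h4p0 : N G (4 * p) = 0 := N_eq_zero fun x hx => hno4 x (hx ▸ dvd_mul_right 4 p)
  -- the Sylow 2-subgroup has order two
  obtain ⟨S⟩ := (inferInstance : Nonempty (Sylow 2 G))
  have hS : (S : Subgroup G) ≤ Subgroup.zpowers z := by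
    intro x hx
    obtain ⟨i, hi⟩ := IsPGroup.iff_orderOf.1 S.isPGroup' ⟨x, hx⟩
    rw [Subgroup.orderOf_mk] at hi
    have : i < 2 := by
      by_contra hlt
      exact hno4 x (hi ▸ (pow_dvd_pow 2 (show 2 ≤ i by omega) : 2 ^ 2 ∣ 2 ^ i))
    interval_cases i
    · rw [orderOf_eq_one_iff.1 (hi.trans (pow_zero 2))]; exact one_mem _
    · rw [hzu x (hi.trans (pow_one 2))]; exact Subgroup.mem_zpowers z
  have hfac : (Nat.card G).factorization 2 = 1 := by
    have h1 := Subgroup.card_dvd_of_le hS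
    rw [Nat.card_zpowers, hz, S.card_eq_multiplicity] at h1
    have h2 : (Nat.card G).factorization 2 ≤ 1 :=
      (Nat.pow_dvd_pow_iff_le_right (by norm_num)).1 (h1.trans (pow_one 2).symm.dvd)
    have h3 : 0 < (Nat.card G).factorization 2 := Nat.prime_two.factorization_pos_of_dvd Nat.card_pos.ne' h2G
    omega
  obtain ⟨P⟩ := (inferInstance : Nonempty (Sylow p G))
  have hPexp : ∀ x : G, orderOf x ∣ Nat.card P → x ^ p = 1 := by
    intro x hx
    obtain ⟨a, ha⟩ := IsPGroup.iff_card.1 P.isPGroup'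
    obtain ⟨i, -, hi⟩ := (Nat.dvd_prime_pow hp).1 (ha ▸ hx)
    refine orderOf_dvd_iff_pow_eq_one.1 (hi ▸ ?_)
    have : i ≤ 1 := by
      by_contra hlt
      exact hexp p hp hp2 x (hi ▸ (by rw [← pow_two]; exact pow_dvd_pow p (by omega)))
    exact (pow_dvd_pow p this).trans (pow_one p).dvd
  have hcardP : Nat.card G = 2 * Nat.card P := by
    refine Nat.eq_of_factorization_eq Nat.card_pos.ne' (by have := Nat.card_pos (α := P); omega) fun r => ?_
    rw [P.card_eq_multiplicity, Nat.factorization_mul two_ne_zero (pow_ne_zero _ hp.ne_zero), Finsupp.add_apply,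
      Nat.Prime.factorization_pow hp, Nat.Prime.factorization Nat.prime_two]
    rcases eq_or_ne r 2 with rfl | hr2
    · rw [hfac, Finsupp.single_eq_same, Finsupp.single_eq_of_ne (Ne.symm hp2), add_zero]
    rw [Finsupp.single_eq_of_ne hr2]
    rcases eq_or_ne r p with rfl | hrp
    · rw [Finsupp.single_eq_same, zero_add]
    rw [Finsupp.single_eq_of_ne hrp, zero_add]
    by_cases hr : r.Prime
    · refine Nat.factorization_eq_zero_of_not_dvd fun hd => hrp (huniq r p hr hp hr2 hp2 hd hpG)
    · exact Nat.factorization_eq_zero_of_not_prime _ hr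
  have hPcount : Nat.card {g : G // orderOf g ∣ Nat.card P} = Nat.card P := by
    have h1 : Nat.card {g : G // orderOf g ∣ Nat.card P} = Nat.card {g : G // g ^ p = 1} :=
      Nat.card_congr (Equiv.subtypeEquivRight fun g => ⟨hPexp g, fun hg =>
        (orderOf_dvd_of_pow_eq_one hg).trans (P.dvd_card_of_dvd_card hpG)⟩)
    rw [h1, card_pow_eq_one hp.ne_zero, hp.sum_divisors, hNp, N_one]
    rw [hcardP, h40, h4p0] at hcard
    omega
  haveI hPn : (P : Subgroup G).Normal := (CfsgLib.SchurExt.sylow_normal_iff_count P).2 hPcount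
  -- the direct product
  refine Or.inr (Or.inr (Or.inr ?_))
  let ec : Carrier (Nat.card P) ≃ (P : Subgroup G) := (Finite.equivFin P).symm
  letI : Group (Carrier (Nat.card P)) := ec.group
  let eP : (P : Subgroup G) ≃* Carrier (Nat.card P) := ec.mulEquiv.symm
  refine ⟨p, Carrier (Nat.card P), inferInstance, inferInstance, hp, hp2, P.isPGroup'.of_equiv eP, ?_, ?_⟩
  · refine Nat.dvd_antisymm (Monoid.exponent_dvd_of_forall_pow_eq_one fun x => ?_) ?_
    · apply eP.symm.injective
      rw [map_pow, map_one]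
      exact Subtype.ext (by
        rw [SubgroupClass.coe_pow, OneMemClass.coe_one]
        exact hPexp _ (Subgroup.orderOf_dvd_natCard _ (eP.symm x).2))
    · obtain ⟨y, hy⟩ := exists_prime_orderOf_dvd_card' (G := (P : Subgroup G)) p (P.dvd_card_of_dvd_card hpG)
      refine hy.symm.dvd.trans ?_
      rw [← MulEquiv.orderOf_eq eP]
      exact Monoid.order_dvd_exponent _
  · let f : Subgroup.zpowers z × (P : Subgroup G) →* G :=
      { toFun := fun w => (w.1 : G) * (w.2 : G)
        map_one' := by simp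
        map_mul' := fun u v => by
          have hc : Commute (v.1 : G) (u.2 : G) := by
            obtain ⟨i, hi⟩ := v.1.2
            rw [← hi]
            exact (hzc _).zpow_left i
          show (u.1 : G) * v.1 * ((u.2 : G) * v.2) = (u.1 : G) * u.2 * ((v.1 : G) * v.2)
          exact hc.mul_mul_mul_comm _ _ }
    have hinj : Function.Injective f := by
      rw [injective_iff_map_eq_one]
      rintro ⟨u, v⟩ huv
      have h1 : (u : G) = (v : G)⁻¹ := eq_inv_of_mul_eq_one_left huv
      have hu1 : (u : G) = 1 := by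
        refine orderOf_eq_one_iff.1 (Nat.eq_one_of_dvd_coprimes (a := 2) (b := Nat.card P) ?_ ?_ ?_)
        · obtain ⟨a, ha⟩ := IsPGroup.iff_card.1 P.isPGroup'
          rw [ha]; exact hco2.pow_right a
        · exact (Subgroup.orderOf_dvd_natCard _ u.2).trans (by rw [Nat.card_zpowers, hz])
        · rw [h1, orderOf_inv]; exact Subgroup.orderOf_dvd_natCard _ v.2
      have hv1 : (v : G) = 1 := inv_eq_one.1 (h1.symm.trans hu1)
      exact Prod.ext (Subtype.ext hu1) (Subtype.ext hv1)
    have hbij : Function.Bijective f := (Nat.bijective_iff_injective_and_card _).2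
      ⟨hinj, by rw [Nat.card_prod, Nat.card_zpowers, hz, hcardP]⟩
    let e2 : Subgroup.zpowers z ≃* Multiplicative (ZMod 2) :=
      mulEquivOfPrimeCardEq (p := 2) (by rw [Nat.card_zpowers, hz])
        (by rw [Nat.card_eq_fintype_card, Fintype.card_multiplicative, ZMod.card])
    exact ⟨(MulEquiv.ofBijective f hbij).symm.trans (MulEquiv.prodCongr e2 eP)⟩

end Cfsg.Agent.S3995
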