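import Cfsg.Statements.S3996
import Cfsg.Agent.Lib.SchurExt.ThreeCounts
-- import your own Cfsg.Agent.* helpers here

set_option autoImplicit false
open Cfsg

namespace Cfsg.Agent.S3996

open CfsgLib.SchurExt.ThreeCounts

private theorem two_or_fewer {G : Type*} [Group G] [Finite G] (h : ((Nat.card G).primeFactors).card ≤ 2) :
    Group.IsSolvable G := by
  classical
  have hn : Nat.card G ≠ 0 := Nat.card_pos.ne'
  have hprod := Nat.prod_primeFactors_pow_factorization hn
  obtain ⟨p, q, hp, hq, hsub⟩ : ∃ p q : ℕ, p.Prime ∧ q.Prime ∧ (Nat.card G).primeFactors ⊆ {p, q} := by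
    rcases Nat.lt_or_ge (Nat.card G).primeFactors.card 1 with h0 | h0
    · exact ⟨2, 3, Nat.prime_two, Nat.prime_three, by rw [Finset.card_eq_zero.1 (show (Nat.card G).primeFactors.card = 0 by omega)]; simp⟩
    rcases Nat.lt_or_ge (Nat.card G).primeFactors.card 2 with h1 | h1
    · obtain ⟨p, hp⟩ := Finset.card_eq_one.1 (show (Nat.card G).primeFactors.card = 1 by omega)
      have hpp : p.Prime := Nat.prime_of_mem_primeFactors (hp ▸ Finset.mem_singleton_self p)
      exact ⟨p, 2, hpp, Nat.prime_two, by rw [hp]; simp⟩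
    · obtain ⟨p, q, -, hpq⟩ := Finset.card_eq_two.1 (show (Nat.card G).primeFactors.card = 2 by omega)
      exact ⟨p, q, Nat.prime_of_mem_primeFactors (n := Nat.card G) (by simp [hpq]),
        Nat.prime_of_mem_primeFactors (n := Nat.card G) (by simp [hpq]), hpq.le⟩
  refine CfsgLib.CharTheory.isSolvable_of_card_dvd_pow_mul_pow p q ((Nat.card G).factorization p)
    ((Nat.card G).factorization q) hp hq ((Nat.factorization_prime_le_iff_dvd hn (Nat.mul_ne_zero
      (pow_ne_zero _ hp.ne_zero) (pow_ne_zero _ hq.ne_zero))).1 fun r hr => ?_)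
  by_cases hrd : r ∈ (Nat.card G).primeFactors
  · rw [Nat.factorization_mul (pow_ne_zero _ hp.ne_zero) (pow_ne_zero _ hq.ne_zero), hp.factorization_pow,
      hq.factorization_pow]
    rcases Finset.mem_insert.1 (hsub hrd) with rfl | hr'
    · simp
    · rw [Finset.mem_singleton] at hr'; subst hr'; simp
  · rw [Nat.mem_primeFactors] at hrd
    rw [Nat.factorization_eq_zero_of_not_dvd fun h' => hrd ⟨hr, h', hn⟩]
    exact Nat.zero_le _

/-- A finite group in which the numbers of elements of each order that occurs (the numbers #{g : o(g) = m}, m ranging over the element orders) take exactly three different values is solvable. -/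
theorem result {G : Type*} [Group G] [Finite G] (h : (((fun m : ℕ => Nat.card {g : G // orderOf g = m}) '' Set.range (orderOf : G → ℕ))).ncard = 3) : Group.IsSolvable G := by
  classical
  haveI : Fact (Nat.Prime 2) := ⟨Nat.prime_two⟩
  obtain ⟨a, b, hab, ha1, hb1, ha0, hb0, hall, hvals⟩ := exists_vals h
  have hT : TwoVals G a b := ⟨hvals, hab, ha0, hb0⟩
  set O := (Nat.card G).primeFactors.filter (fun r => 3 ≤ r) with hO
  have hO' : ∀ r ∈ O, r.Prime ∧ r ∣ Nat.card G ∧ 3 ≤ r := fun r hr => by
    simp only [hO, Finset.mem_filter, Nat.mem_primeFactors] at hr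
    exact ⟨hr.1.1, hr.1.2.1, hr.2⟩
  have hsub : (Nat.card G).primeFactors ⊆ insert 2 O := fun r hr => by
    rcases eq_or_ne r 2 with e | e
    · exact Finset.mem_insert.2 (Or.inl e)
    · have := (Nat.prime_of_mem_primeFactors hr).two_le
      exact Finset.mem_insert.2 (Or.inr (Finset.mem_filter.2 ⟨hr, by omega⟩))
  by_cases h2 : 2 ∣ Nat.card G
  swap
  · have hle := hT.all_or_two fun p q hp hq hne hp3 hq3 hpG hqG => by
      haveI := Fact.mk hp
      haveI := Fact.mk hq
      exact hT.not_same hne hp3 hq3 hpG hqG (Or.inl h2)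
    refine two_or_fewer (le_trans (Finset.card_le_card fun r hr => ?_) hle)
    refine (Finset.mem_insert.1 (hsub hr)).resolve_left fun e => ?_
    exact h2 (e ▸ (Nat.mem_primeFactors.1 hr).2.1)
  obtain ⟨t, ht⟩ := exists_prime_orderOf_dvd_card' 2 h2
  have hc0 : cnt G 2 ≠ 0 := cnt_ne_zero.2 ⟨t, ht⟩
  have hcodd : ¬ 2 ∣ cnt G 2 := fun hd => by
    have := dvd_cnt_prime_succ (G := G) h2
    omega
  by_cases hc1 : cnt G 2 = 1
  swap
  · -- an odd value forces at most one odd prime
    have hone : O.card ≤ 1 := by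
      rw [Finset.card_le_one]
      intro p hp q hq
      by_contra hne
      obtain ⟨hp1, hp2, hp3⟩ := hO' p hp
      obtain ⟨hq1, hq2, hq3⟩ := hO' q hq
      haveI := Fact.mk hp1
      haveI := Fact.mk hq1
      have h3 := hall t
      rw [ht] at h3
      rcases h3 with e | e | e
      · exact hc1 e
      · exact hT.not_same_of_odd_value (e ▸ hcodd) hne hp3 hq3 hp2 hq2
      · exact hT.symm.not_same_of_odd_value (Set.mem_singleton_iff.1 e ▸ hcodd) hne hp3 hq3 hp2 hq2
    exact two_or_fewer (((Finset.card_le_card hsub).trans (Finset.card_insert_le _ _)).trans (by omega))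
  -- a unique involution
  have hdiff : ∀ p q : ℕ, p.Prime → q.Prime → p ≠ q → 3 ≤ p → 3 ≤ q → p ∣ Nat.card G → q ∣ Nat.card G →
      cnt G p ≠ cnt G q := fun p q hp hq hne hp3 hq3 hpG hqG => by
    haveI := Fact.mk hp
    haveI := Fact.mk hq
    exact hT.not_same hne hp3 hq3 hpG hqG (Or.inr ⟨hc1, h2⟩)
  by_cases hle1 : O.card ≤ 1
  · exact two_or_fewer (((Finset.card_le_card hsub).trans (Finset.card_insert_le _ _)).trans (by omega))
  have hle2 : O.card ≤ 2 := hT.all_or_two hdiff
  obtain ⟨p, q, hne, hpq⟩ := Finset.card_eq_two.1 (show O.card = 2 by omega)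
  obtain ⟨hp1, hp2, hp3⟩ := hO' p (by rw [hpq]; simp)
  obtain ⟨hq1, hq2, hq3⟩ := hO' q (by rw [hpq]; simp)
  haveI := Fact.mk hp1
  haveI := Fact.mk hq1
  have h4 : cnt G (2 ^ 2) = 0 := by
    rcases hT.cases hp3 (cnt_ne_zero_of_prime hp2) with e | e
    · exact hT.four_diff hp2 hq2 hne hp3 hq3 e ((hT.cases hq3 (cnt_ne_zero_of_prime hq2)).resolve_left
        fun e' => hdiff p q hp1 hq1 hne hp3 hq3 hp2 hq2 (e.trans e'.symm))
    · exact hT.symm.four_diff hp2 hq2 hne hp3 hq3 e ((hT.cases hq3 (cnt_ne_zero_of_prime hq2)).resolve_right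
        fun e' => hdiff p q hp1 hq1 hne hp3 hq3 hp2 hq2 (e.trans e'.symm))
  have hS : (Nat.card G).factorization 2 ≤ 1 := by
    have := sylow_card_le (G := G) (p := 2) (n := 2) two_ne_zero fun R => by
      have h' := card_sylow_dvd h4 R
      rwa [hc1] at h'
    rwa [Nat.Prime.factorization_self Nat.prime_two] at this
  -- the involution is central
  set Z := Subgroup.zpowers t with hZ
  have huniq : ∀ g : G, orderOf g = 2 → g = t := fun g hg => by
    have h' : Nat.card {g : G // orderOf g = 2} = 1 := hc1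
    haveI := (Nat.card_eq_one_iff_unique.1 h').1
    exact congrArg Subtype.val (Subsingleton.elim (⟨g, hg⟩ : {g : G // orderOf g = 2}) ⟨t, ht⟩)
  haveI hZn : Z.Normal := ⟨fun y hy g => by
    obtain ⟨i, rfl⟩ := hy
    show g * t ^ i * g⁻¹ ∈ Z
    rw [← conj_zpow, huniq (g * t * g⁻¹) ((MulEquiv.orderOf_eq (MulAut.conj g) t).trans ht)]
    exact Subgroup.zpow_mem _ (Subgroup.mem_zpowers t) i⟩
  have hZs : Group.IsSolvable Z := two_or_fewer (by
    rw [Nat.card_zpowers, ht, Nat.prime_two.primeFactors]; simp)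
  have hQs : Group.IsSolvable (G ⧸ Z) := by
    refine two_or_fewer (le_trans (Finset.card_le_card fun r hr => ?_) hle2)
    have hr' := Nat.mem_primeFactors.1 hr
    have hidx : Nat.card (G ⧸ Z) * 2 = Nat.card G := by
      rw [Z.card_eq_card_quotient_mul_card_subgroup, Nat.card_zpowers, ht]
    refine (Finset.mem_insert.1 (hsub (Nat.mem_primeFactors.2
      ⟨hr'.1, hr'.2.1.trans (Dvd.intro 2 hidx), Nat.card_pos.ne'⟩))).resolve_left ?_
    rintro rfl
    have h' := congrArg (fun n => n.factorization 2) hidx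
    simp only [Nat.factorization_mul Nat.card_pos.ne' two_ne_zero, Finsupp.add_apply,
      Nat.Prime.factorization_self Nat.prime_two] at h'
    have := (Nat.Prime.dvd_iff_one_le_factorization Nat.prime_two Nat.card_pos.ne').1 hr'.2.1
    omega
  exact @Group.isSolvable_of_ker_le_range _ _ _ _ _ _ Z.subtype (QuotientGroup.mk' Z) (by simp) hZs hQs

end Cfsg.Agent.S3996
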