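import Cfsg.Statements.S3997
import Cfsg.Agent.Lib.SchurExt.Elementary
-- import your own Cfsg.Agent.* helpers here

set_option autoImplicit false
open Cfsg

namespace Cfsg.Agent.S3997


theorem card_pElements_eq {G H : Type*} [Group G] [Finite G] [Group H] [Finite H] (p : ℕ)
    (hT : ∀ m : ℕ, Nat.card {g : G // orderOf g = m} = Nat.card {h : H // orderOf h = m}) :
    Nat.card {g : G // ∃ k, orderOf g = p ^ k} = Nat.card {h : H // ∃ k, orderOf h = p ^ k} := by
  let e : (Σ m : ℕ, {g : G // orderOf g = m}) ≃ (Σ m : ℕ, {h : H // orderOf h = m}) :=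
    Equiv.sigmaCongrRight fun m => (Finite.card_eq.mp (hT m)).some
  let f : G ≃ H := ((Equiv.sigmaFiberEquiv (orderOf : G → ℕ)).symm.trans e).trans
    (Equiv.sigmaFiberEquiv (orderOf : H → ℕ))
  have hf : ∀ g : G, orderOf (f g) = orderOf g := fun g =>
    ((Finite.card_eq.mp (hT (orderOf g))).some ⟨g, rfl⟩).2
  exact Nat.card_congr (f.subtypeEquiv fun g => by rw [hf g])

theorem normal_iff_card_pElements {G : Type*} [Group G] [Finite G] {p : ℕ} [Fact p.Prime] (P : Sylow p G) :
    (P : Subgroup G).Normal ↔ Nat.card {g : G // ∃ k, orderOf g = p ^ k} = Nat.card (P : Subgroup G) := by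
  have hsub : ∀ Q : Sylow p G, ((Q : Subgroup G) : Set G) ⊆ {g : G | ∃ k, orderOf g = p ^ k} := by
    intro Q g hg
    obtain ⟨k, hk⟩ := IsPGroup.iff_orderOf.1 Q.isPGroup' ⟨g, hg⟩
    rw [Subgroup.orderOf_mk] at hk
    exact ⟨k, hk⟩
  constructor
  · intro hn
    haveI := hn
    refine Nat.card_congr (Equiv.subtypeEquivRight fun g => ⟨fun hg => ?_, fun hg => hsub P hg⟩)
    obtain ⟨k, hk⟩ := hg
    exact CfsgLib.SchurExt.mem_sylow_of_normal P hn hk
  · intro hc
    have heq : ∀ Q : Sylow p G, ((Q : Subgroup G) : Set G) = {g : G | ∃ k, orderOf g = p ^ k} := fun Q =>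
      Set.eq_of_subset_of_ncard_le (hsub Q) (by
        rw [← Nat.card_coe_set_eq, ← Nat.card_coe_set_eq]
        exact (hc.trans (Nat.card_congr (P.equiv Q).toEquiv)).le) (Set.toFinite _)
    haveI : Subsingleton (Sylow p G) :=
      ⟨fun Q R => Sylow.ext (SetLike.coe_injective ((heq Q).trans (heq R).symm))⟩
    exact Sylow.normal_of_subsingleton P

/-- Let G and H be finite groups with the same order type: for every m they have the same number of elements of order m. If G is nilpotent then so is H. -/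
theorem result {G H : Type*} [Group G] [Finite G] [Group H] [Finite H] (hT : (∀ m : ℕ, Nat.card {g : G // orderOf g = m} = Nat.card {h : H // orderOf h = m})) (hG : Group.IsNilpotent G) :
    Group.IsNilpotent H := by
  have hcard : Nat.card G = Nat.card H := by
    let e : (Σ m : ℕ, {g : G // orderOf g = m}) ≃ (Σ m : ℕ, {h : H // orderOf h = m}) :=
      Equiv.sigmaCongrRight fun m => (Finite.card_eq.mp (hT m)).some
    exact Nat.card_congr (((Equiv.sigmaFiberEquiv (orderOf : G → ℕ)).symm.trans e).trans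
      (Equiv.sigmaFiberEquiv (orderOf : H → ℕ)))
  have hGn := (isNilpotent_of_finite_tfae (G := G)).out 0 3 |>.1 hG
  refine (isNilpotent_of_finite_tfae (G := H)).out 0 3 |>.2 fun p hp Q => ?_
  haveI := hp
  obtain ⟨P⟩ := (inferInstance : Nonempty (Sylow p G))
  rw [normal_iff_card_pElements Q, ← card_pElements_eq p hT, (normal_iff_card_pElements P).1 (hGn p hp P),
    P.card_eq_multiplicity, Q.card_eq_multiplicity, hcard]

end Cfsg.Agent.S3997
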