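import Cfsg.Statements.S3998
import Cfsg.Agent.Lib.Supersolvable.Basic
-- import your own Cfsg.Agent.* helpers here

set_option autoImplicit false
open Cfsg

namespace Cfsg.Agent.S3998

universe u

/-- For every bound `q`, the number of elements all whose prime order divisors are at least `q` is the
corresponding part of the group order. -/
def HasTowerCounts (G : Type u) [Group G] : Prop :=
  ∀ q : ℕ, ∃ d : ℕ, Nat.card {g : G // ∀ r : ℕ, r.Prime → r ∣ orderOf g → q ≤ r} * d = Nat.card G ∧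
    (∀ r : ℕ, r.Prime → r ∣ Nat.card {g : G // ∀ r : ℕ, r.Prime → r ∣ orderOf g → q ≤ r} → q ≤ r) ∧
    ∀ r : ℕ, r.Prime → r ∣ d → r < q

variable {G : Type u} [Group G] [Finite G]

theorem mem_iff_quotient (N : Subgroup G) [N.Normal] {q : ℕ}
    (hN : ∀ r : ℕ, r.Prime → r ∣ Nat.card N → q ≤ r) (g : G) :
    (∀ r : ℕ, r.Prime → r ∣ orderOf g → q ≤ r) ↔
      ∀ r : ℕ, r.Prime → r ∣ orderOf (g : G ⧸ N) → q ≤ r := by
  refine ⟨fun h r hr hd => h r hr (hd.trans (orderOf_map_dvd (QuotientGroup.mk' N) g)),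
    fun h r hr hd => ?_⟩
  have h1 : g ^ orderOf (g : G ⧸ N) ∈ N := (QuotientGroup.eq_one_iff _).1 (by
    rw [QuotientGroup.mk_pow, pow_orderOf_eq_one])
  have h2 : orderOf g ∣ orderOf (g : G ⧸ N) * Nat.card N := by
    refine orderOf_dvd_of_pow_eq_one ?_
    rw [pow_mul]
    exact congrArg Subtype.val (pow_card_eq_one' (x := (⟨_, h1⟩ : N)))
  rcases hr.dvd_mul.1 (hd.trans h2) with h' | h'
  · exact h r hr h'
  · exact hN r hr h'

theorem card_preimage (N : Subgroup G) [N.Normal] {q : ℕ}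
    (hN : ∀ r : ℕ, r.Prime → r ∣ Nat.card N → q ≤ r) :
    Nat.card {g : G // ∀ r : ℕ, r.Prime → r ∣ orderOf g → q ≤ r} =
      Nat.card N * Nat.card {x : G ⧸ N // ∀ r : ℕ, r.Prime → r ∣ orderOf x → q ≤ r} := by
  rw [Nat.card_congr (Equiv.subtypeEquivRight (mem_iff_quotient N hN)), ← Nat.card_prod]
  exact Nat.card_congr (QuotientGroup.preimageMkEquivSubgroupProdSet N
    {x | ∀ r : ℕ, r.Prime → r ∣ orderOf x → q ≤ r})

theorem counts_of_big {q : ℕ} (hq : ∀ r : ℕ, r.Prime → r ∣ Nat.card G → r < q) :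
    Nat.card {g : G // ∀ r : ℕ, r.Prime → r ∣ orderOf g → q ≤ r} = 1 := by
  have : ∀ g : G, (∀ r : ℕ, r.Prime → r ∣ orderOf g → q ≤ r) → g = 1 := fun g hg => by
    by_contra hne
    obtain ⟨r, hr, hrd⟩ := Nat.exists_prime_and_dvd (mt orderOf_eq_one_iff.1 hne)
    exact absurd (hg r hr hrd) (not_le.2 (hq r hr (hrd.trans (orderOf_dvd_natCard g))))
  rw [Nat.card_eq_one_iff_exists]
  refine ⟨⟨1, fun r hr hd => ?_⟩, fun x => Subtype.ext (this x.1 x.2)⟩
  rw [orderOf_one] at hd
  exact absurd (Nat.dvd_one.1 hd) hr.ne_one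

theorem counts_iff (N : Subgroup G) [N.Normal] {p : ℕ}
    (hN : ∀ r : ℕ, r.Prime → r ∣ Nat.card N → r = p)
    (hmax : ∀ r : ℕ, r.Prime → r ∣ Nat.card G → r ≤ p) :
    HasTowerCounts G ↔ HasTowerCounts (G ⧸ N) := by
  have hquot : Nat.card (G ⧸ N) ∣ Nat.card G := ⟨_, Subgroup.card_eq_card_quotient_mul_card_subgroup N⟩
  have hpos : 0 < Nat.card N := Nat.card_pos
  constructor <;> intro h q
  · rcases le_or_gt q p with hqp | hqp
    · obtain ⟨d, hd, hc, hd'⟩ := h q
      have hcard := card_preimage N (q := q) fun r hr hrd => (hN r hr hrd) ▸ hqp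
      rw [hcard] at hd hc
      refine ⟨d, ?_, fun r hr hrd => hc r hr (hrd.mul_left _), hd'⟩
      rw [Subgroup.card_eq_card_quotient_mul_card_subgroup N, mul_assoc, mul_comm (Nat.card (G ⧸ N))] at hd
      exact Nat.mul_left_cancel hpos hd
    · have hone := counts_of_big (G := G ⧸ N) (q := q) fun r hr hrd =>
        (hmax r hr (hrd.trans hquot)).trans_lt hqp
      exact ⟨_, by rw [hone, one_mul], fun r hr hrd => absurd (Nat.dvd_one.1 (hone ▸ hrd)) hr.ne_one,
        fun r hr hrd => (hmax r hr (hrd.trans hquot)).trans_lt hqp⟩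
  · rcases le_or_gt q p with hqp | hqp
    · obtain ⟨d, hd, hc, hd'⟩ := h q
      have hNq : ∀ r : ℕ, r.Prime → r ∣ Nat.card N → q ≤ r := fun r hr hrd => (hN r hr hrd) ▸ hqp
      have hcard := card_preimage N (q := q) hNq
      refine ⟨d, ?_, fun r hr hrd => ?_, hd'⟩
      · rw [hcard, mul_assoc, hd, Subgroup.card_eq_card_quotient_mul_card_subgroup N, mul_comm]
      · rcases hr.dvd_mul.1 (hcard ▸ hrd) with h' | h'
        · exact hNq r hr h'
        · exact hc r hr h'
    · have hone := counts_of_big (G := G) (q := q) fun r hr hrd => (hmax r hr hrd).trans_lt hqp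
      exact ⟨_, by rw [hone, one_mul], fun r hr hrd => absurd (Nat.dvd_one.1 (hone ▸ hrd)) hr.ne_one,
        fun r hr hrd => (hmax r hr hrd).trans_lt hqp⟩

theorem hasTowerCounts_of_supersolvable (hG : Cfsg.IsSupersolvable G) : HasTowerCounts G := by
  induction hn : Nat.card G using Nat.strong_induction_on generalizing G with
  | _ n IH =>
    subst hn
    rcases subsingleton_or_nontrivial G with h | h
    · intro q
      have hone : Nat.card G = 1 := Nat.card_eq_one_iff_unique.2 ⟨h, inferInstance⟩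
      have hc := counts_of_big (G := G) (q := q) fun r hr hrd =>
        absurd (Nat.dvd_one.1 (hone ▸ hrd)) hr.ne_one
      exact ⟨1, by rw [hc, hone],
        fun r hr hrd => absurd (Nat.dvd_one.1 (hc ▸ hrd)) hr.ne_one,
        fun r hr hrd => absurd (Nat.dvd_one.1 hrd) hr.ne_one⟩
    · obtain ⟨N, hN, hp, hmax⟩ := CfsgLib.Supersolvable.exists_normal_largest_prime hG
      haveI := hN
      refine (counts_iff N (fun r hr hrd => (Nat.prime_dvd_prime_iff_eq hr hp).1 hrd) hmax).2 ?_
      exact IH _ (CfsgLib.Supersolvable.card_quotient_lt N (CfsgLib.Supersolvable.ne_bot_of_prime hp))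
        (CfsgLib.Supersolvable.quotient N hG) rfl

theorem isSolvable_of_hasTowerCounts (h : HasTowerCounts G) : Group.IsSolvable G := by
  induction hn : Nat.card G using Nat.strong_induction_on generalizing G with
  | _ n IH =>
    subst hn
    rcases subsingleton_or_nontrivial G with h1 | h1
    · exact Group.isSolvable_of_comm fun a b => Subsingleton.elim _ _
    obtain ⟨p, hp, hpmax⟩ := (Nat.card G).primeFactors.exists_max_image id
      (Nat.nonempty_primeFactors.2 Finite.one_lt_card)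
    obtain ⟨hpp, hpd, -⟩ := Nat.mem_primeFactors.1 hp
    have hmax : ∀ r : ℕ, r.Prime → r ∣ Nat.card G → r ≤ p := fun r hr hrd =>
      hpmax r (Nat.mem_primeFactors.2 ⟨hr, hrd, Nat.card_pos.ne'⟩)
    haveI := Fact.mk hpp
    obtain ⟨P⟩ := (inferInstance : Nonempty (Sylow p G))
    obtain ⟨d, hd, hc, hd'⟩ := h p
    let S : Set G := {g : G | ∀ r : ℕ, r.Prime → r ∣ orderOf g → p ≤ r}
    have hS : Nat.card S * d = Nat.card G := hd
    have hsub : ∀ Q : Sylow p G, ((Q : Subgroup G) : Set G) ⊆ S := fun Q g hg r hr hrd => by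
      obtain ⟨k, hk⟩ := IsPGroup.iff_orderOf.1 Q.isPGroup' ⟨g, hg⟩
      rw [Subgroup.orderOf_mk] at hk
      exact ((Nat.prime_dvd_prime_iff_eq hr hpp).1 (hr.dvd_of_dvd_pow (hk ▸ hrd))).ge
    have hle : ∀ Q : Sylow p G, Nat.card S ≤ Nat.card (Q : Subgroup G) := fun Q => by
      refine Nat.le_of_dvd Nat.card_pos ?_
      have hall : ∀ {r : ℕ}, r.Prime → r ∣ Nat.card S → r = p := fun {r} hr hrd =>
        le_antisymm (hmax r hr (hrd.trans (Dvd.intro d hS))) (hc r hr hrd)
      have hSne : Nat.card S ≠ 0 := fun h0 => (Nat.card_pos (α := G)).ne' (by rw [← hS, h0, zero_mul])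
      rw [Nat.eq_prime_pow_of_unique_prime_dvd hSne hall, Q.card_eq_multiplicity]
      refine pow_dvd_pow p ((hpp.pow_dvd_iff_le_factorization Nat.card_pos.ne').1 ?_)
      rw [← Nat.eq_prime_pow_of_unique_prime_dvd hSne hall]
      exact Dvd.intro d hS
    have heq : ∀ Q : Sylow p G, ((Q : Subgroup G) : Set G) = S := fun Q =>
      Set.eq_of_subset_of_ncard_le (hsub Q)
        (by rw [← Nat.card_coe_set_eq, ← Nat.card_coe_set_eq]; exact hle Q) (Set.toFinite S)
    haveI : Subsingleton (Sylow p G) :=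
      ⟨fun Q R => Sylow.ext (SetLike.coe_injective ((heq Q).trans (heq R).symm))⟩
    haveI : (P : Subgroup G).Normal := Sylow.normal_of_subsingleton P
    haveI : Group.IsSolvable (P : Subgroup G) :=
      haveI : Group.IsNilpotent (P : Subgroup G) := P.isPGroup'.isNilpotent
      inferInstance
    have hq : HasTowerCounts (G ⧸ (P : Subgroup G)) :=
      (counts_iff (P : Subgroup G) (fun r hr hrd => by
        obtain ⟨k, hk⟩ := IsPGroup.iff_card.1 P.isPGroup'
        exact (Nat.prime_dvd_prime_iff_eq hr hpp).1 (hr.dvd_of_dvd_pow (hk ▸ hrd))) hmax).1 h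
    haveI : Group.IsSolvable (G ⧸ (P : Subgroup G)) :=
      IH _ (CfsgLib.Supersolvable.card_quotient_lt _ (P.ne_bot_of_dvd_card hpd)) hq rfl
    exact Group.isSolvable_of_ker_le_range (P : Subgroup G).subtype
      (QuotientGroup.mk' (P : Subgroup G)) (by simp)

theorem hasTowerCounts_congr {H : Type*} [Group H] [Finite H]
    (hT : ∀ m : ℕ, Nat.card {g : G // orderOf g = m} = Nat.card {h : H // orderOf h = m})
    (h : HasTowerCounts G) : HasTowerCounts H := by
  let e : (Σ m : ℕ, {g : G // orderOf g = m}) ≃ (Σ m : ℕ, {h : H // orderOf h = m}) :=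
    Equiv.sigmaCongrRight fun m => (Finite.card_eq.mp (hT m)).some
  let f : G ≃ H := ((Equiv.sigmaFiberEquiv (orderOf : G → ℕ)).symm.trans e).trans
    (Equiv.sigmaFiberEquiv (orderOf : H → ℕ))
  have hf : ∀ g : G, orderOf (f g) = orderOf g := fun g =>
    ((Finite.card_eq.mp (hT (orderOf g))).some ⟨g, rfl⟩).2
  intro q
  obtain ⟨d, hd, hc, hd'⟩ := h q
  have hcard : Nat.card {g : G // ∀ r : ℕ, r.Prime → r ∣ orderOf g → q ≤ r} =
      Nat.card {g : H // ∀ r : ℕ, r.Prime → r ∣ orderOf g → q ≤ r} :=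
    Nat.card_congr (f.subtypeEquiv fun g => by rw [hf g])
  exact ⟨d, by rw [← hcard, hd, Nat.card_congr f], fun r hr hrd => hc r hr (hcard ▸ hrd), hd'⟩


/-- Let G and H be finite groups with the same order type (for every m the same number of elements of order m). If G is supersolvable then H is solvable. -/
theorem result {G H : Type*} [Group G] [Finite G] [Group H] [Finite H] (hT : (∀ m : ℕ, Nat.card {g : G // orderOf g = m} = Nat.card {h : H // orderOf h = m})) (hG : Cfsg.IsSupersolvable G) :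
    Group.IsSolvable H := by
  exact isSolvable_of_hasTowerCounts (hasTowerCounts_congr hT (hasTowerCounts_of_supersolvable hG))

end Cfsg.Agent.S3998
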