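import Cfsg.Statements.S3999
import Cfsg.Agent.Lib.SchurExt.OrderType
import Cfsg.Agent.Lib.SchurExt.TwoFrobenius
import Cfsg.Agent.Lib.BGAppendix.Basic
-- import your own Cfsg.Agent.* helpers here

set_option autoImplicit false
open Cfsg

namespace Cfsg.Agent.S3999

open CfsgLib.SchurExt

/-- The number of elements of order prime to the kernel. -/
theorem count_outside {F : Type*} [Group F] [Finite F] (N C : Subgroup F) [N.Normal] (hc : N.IsComplement' C)
    (hcop : (Nat.card N).Coprime (Nat.card C)) (hfpf : ∀ c ∈ C, c ≠ 1 → ∀ k ∈ N, c * k = k * c → k = 1)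
    {m : ℕ} (hm : m ≠ 1) (hmN : m.Coprime (Nat.card N)) :
    Nat.card {g : F // orderOf g = m} = Nat.card N * Nat.card {x : C // orderOf x = m} := by
  rw [← Nat.card_prod]
  symm
  let f : N × {x : C // orderOf x = m} → {g : F // orderOf g = m} := fun w =>
    ⟨(w.1 : F) * ((w.2.1 : C) : F) * (w.1 : F)⁻¹, by
      rw [show (w.1 : F) * ((w.2.1 : C) : F) * (w.1 : F)⁻¹ = MulAut.conj (w.1 : F) ((w.2.1 : C) : F) from rfl,
        MulEquiv.orderOf_eq, Subgroup.orderOf_coe, w.2.2]⟩
  refine Nat.card_eq_of_bijective f ⟨?_, ?_⟩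
  · rintro ⟨a, ⟨x, hx⟩⟩ ⟨b, ⟨y, hy⟩⟩ h
    have h' : (a : F) * (x : F) * (a : F)⁻¹ = (b : F) * (y : F) * (b : F)⁻¹ := congrArg Subtype.val h
    have hxy : (x : F) = y := by
      have h1 : ((b : F)⁻¹ * a) * ((x : F) * ((b : F)⁻¹ * a)⁻¹ * (x : F)⁻¹) * (x : F) = 1 * (y : F) := by
        calc ((b : F)⁻¹ * a) * ((x : F) * ((b : F)⁻¹ * a)⁻¹ * (x : F)⁻¹) * (x : F)
            = (b : F)⁻¹ * ((a : F) * (x : F) * (a : F)⁻¹) * b := by group
          _ = 1 * (y : F) := by rw [h']; group
      have hmem : ((b : F)⁻¹ * a) * ((x : F) * ((b : F)⁻¹ * a)⁻¹ * (x : F)⁻¹) ∈ N :=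
        N.mul_mem (N.mul_mem (N.inv_mem b.2) a.2)
          ((inferInstance : N.Normal).conj_mem _ (N.inv_mem (N.mul_mem (N.inv_mem b.2) a.2)) x)
      have := hc.1 (a₁ := (⟨_, hmem⟩, x)) (a₂ := (⟨1, N.one_mem⟩, y)) h1
      exact congrArg Subtype.val (Prod.ext_iff.1 this).2
    have hcm : (x : F) * ((b : F)⁻¹ * a) = ((b : F)⁻¹ * a) * x := by
      rw [← hxy] at h'
      calc (x : F) * ((b : F)⁻¹ * a) = (b : F)⁻¹ * ((b : F) * x * (b : F)⁻¹) * a := by group
        _ = (b : F)⁻¹ * ((a : F) * x * (a : F)⁻¹) * a := by rw [h']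
        _ = _ := by group
    have h1 := hfpf x x.2 (fun h0 => hm (by rw [← hx, OneMemClass.coe_eq_one.1 h0, orderOf_one])) _
      (N.mul_mem (N.inv_mem b.2) a.2) hcm
    obtain rfl : b = a := Subtype.ext (inv_mul_eq_one.1 h1)
    obtain rfl : x = y := Subtype.ext hxy
    rfl
  · rintro ⟨g, hg⟩
    obtain ⟨k, hk, c, hcC, hgkc⟩ := CfsgLib.Frobenius.exists_eq_mul_of_sup_eq_top N C hc.sup_eq_top g
    have hc1 : c ≠ 1 := fun h => by
      rw [h, mul_one] at hgkc
      exact hm (Nat.eq_one_of_dvd_coprimes hmN dvd_rfl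
        (hg ▸ Subgroup.orderOf_dvd_natCard N (hgkc ▸ hk)))
    obtain ⟨a, ha, hac⟩ := CfsgLib.Frobenius.exists_conj_eq N C hfpf hcC hc1 hk
    refine ⟨(⟨a, ha⟩, ⟨⟨c, hcC⟩, ?_⟩), Subtype.ext (hac.trans hgkc.symm)⟩
    rw [Subgroup.orderOf_mk, ← hg, hgkc, ← hac, show a * c * a⁻¹ = MulAut.conj a c from rfl, MulEquiv.orderOf_eq]

theorem thinSylow_complement {F : Type*} [Group F] [Finite F] (N C : Subgroup F) [N.Normal] (hN : N ≠ ⊥)
    (hfpf : ∀ c ∈ C, c ≠ 1 → ∀ k ∈ N, c * k = k * c → k = 1) : ThinSylow C := by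
  intro p hp R hR
  haveI := Fact.mk hp
  rcases CfsgLib.Cores.isCyclic_or_quaternion_of_fpf (hR.map C.subtype) hN Subgroup.le_normalizer_of_normal
    (fun a ha h1 => (CfsgLib.Frobenius.centralizer_inf_iff N C).2 hfpf a (Subgroup.map_subtype_le R ha) h1)
    with h | ⟨h2, m, hm, ⟨e⟩⟩
  · exact Or.inl ((R.equivMapOfInjective C.subtype C.subtype_injective).isCyclic.2 h)
  · exact Or.inr ⟨h2, m, hm, ⟨(R.equivMapOfInjective C.subtype C.subtype_injective).trans e⟩⟩

/-- A Frobenius group is solvable exactly when its complement is. -/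
theorem isSolvable_iff_complement {F : Type*} [Group F] [Finite F] (N C : Subgroup F) [N.Normal]
    (hc : N.IsComplement' C) (hnil : Group.IsNilpotent N) : Group.IsSolvable F ↔ Group.IsSolvable C := by
  constructor
  · intro h
    infer_instance
  · intro h
    haveI : Group.IsSolvable (F ⧸ N) :=
      Group.isSolvable_of_surjective (f := hc.symm.QuotientMulEquiv.symm.toMonoidHom)
        hc.symm.QuotientMulEquiv.symm.surjective
    haveI : Group.IsSolvable N := @IsNilpotent.to_isSolvable _ _ hnil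
    exact Group.isSolvable_of_ker_le_range N.subtype (QuotientGroup.mk' N) (by simp)

theorem card_order_one (X : Type*) [Group X] : Nat.card {x : X // orderOf x = 1} = 1 := by
  rw [Nat.card_eq_one_iff_unique]
  exact ⟨⟨fun a b => Subtype.ext ((orderOf_eq_one_iff.1 a.2).trans (orderOf_eq_one_iff.1 b.2).symm)⟩,
    ⟨⟨1, orderOf_one⟩⟩⟩

/-- Let F be a finite Frobenius group (it has a Frobenius complement) and G a finite group with the same order type as F (for every m the same number of elements of order m). Then G is a Frobenius group; moreover G is solvable if and only if F is. -/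
theorem result {F G : Type*} [Group F] [Finite F] [Group G] [Finite G] (hF : (∃ C : Subgroup F, Cfsg.IsFrobeniusComplement C)) (hT : (∀ m : ℕ, Nat.card {g : F // orderOf g = m} = Nat.card {h : G // orderOf h = m})) :
    (∃ C : Subgroup G, Cfsg.IsFrobeniusComplement C) ∧ (Group.IsSolvable G ↔ Group.IsSolvable F) := by
  obtain ⟨C, hC⟩ := hF
  obtain ⟨N, hNk, hNn, -⟩ := CfsgLib.Frobenius.exists_kernel hC
  haveI := hNn
  obtain ⟨hc, hNne, hnil, hidx, hcop, hfpf⟩ := frobenius_split hC N hNk.symm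
  have hST : SameType F G := sameType_of_count hT
  have hcard : Nat.card G = Nat.card N * Nat.card C := by rw [← hST.card_eq, hc.card_mul]
  have hk1 : Nat.card N ≠ 1 := fun h => hNne (Subgroup.card_eq_one.1 h)
  have hc1 : Nat.card C ≠ 1 := fun h => hC.1 (Subgroup.card_eq_one.1 h)
  -- Sylow subgroups for the primes of the kernel
  have hsyl : ∀ (p : ℕ) [Fact p.Prime], p ∣ Nat.card N → ∀ Q : Sylow p G, (Q : Subgroup G).Normal ∧
      Nat.card Q = p ^ (Nat.card N).factorization p := by
    intro p _ hp Q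
    have hpC : ¬ p ∣ Nat.card C := fun h =>
      (Fact.out : p.Prime).ne_one (Nat.eq_one_of_dvd_coprimes hcop hp h)
    refine ⟨?_, ?_⟩
    · obtain ⟨P⟩ := (inferInstance : Nonempty (Sylow p F))
      have hle : (P : Subgroup F) ≤ N := fun x hx => by
        obtain ⟨i, hi⟩ := IsPGroup.iff_orderOf.1 P.isPGroup' ⟨x, hx⟩
        rw [Subgroup.orderOf_mk] at hi
        exact mem_of_coprime_index N (by
          rw [hi, hidx]; exact ((Fact.out : p.Prime).coprime_iff_not_dvd.2 hpC).pow_left i)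
      have hPn : ((P.subtype hle : Sylow p N) : Subgroup N).Normal := by
        have h3 := ((Group.isNilpotent_of_finite_tfae (G := N)).out 0 3 :)
        exact (h3.1 hnil) p inferInstance _
      haveI := Sylow.characteristic_of_normal (P.subtype hle) hPn
      have hPF : (P : Subgroup F).Normal := by
        have h4 : (((P.subtype hle : Sylow p N) : Subgroup N).map N.subtype).Normal :=
          ConjAct.normal_of_characteristic_of_normal
        rwa [Sylow.coe_subtype, Subgroup.map_subgroupOf_eq_of_le hle] at h4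
      exact hST.sylow_normal P hPF Q
    · rw [Q.card_eq_multiplicity, hcard, Nat.factorization_mul Nat.card_pos.ne' Nat.card_pos.ne',
        Finsupp.add_apply, Nat.factorization_eq_zero_of_not_dvd hpC, add_zero]
  obtain ⟨M, hMn, hMcard⟩ : ∃ M : Subgroup G, M.Normal ∧ Nat.card M = Nat.card N := by
    suffices ∀ s ⊆ (Nat.card N).primeFactors, ∃ M : Subgroup G, M.Normal ∧
        Nat.card M = ∏ p ∈ s, p ^ (Nat.card N).factorization p by
      obtain ⟨M, h1, h2⟩ := this _ le_rfl
      refine ⟨M, h1, h2.trans ?_⟩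
      rw [← Nat.support_factorization]
      exact Nat.prod_factorization_pow_eq_self Nat.card_pos.ne'
    intro s
    induction s using Finset.induction with
    | empty => exact fun _ => ⟨⊥, inferInstance, by simp⟩
    | @insert p s hps ih =>
      intro hs
      obtain ⟨M, hMn, hMc⟩ := ih ((Finset.subset_insert p s).trans hs)
      obtain ⟨hp, hpN, -⟩ := Nat.mem_primeFactors.1 (hs (Finset.mem_insert_self p s))
      haveI := Fact.mk hp
      obtain ⟨Q⟩ := (inferInstance : Nonempty (Sylow p G))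
      obtain ⟨hQn, hQc⟩ := hsyl p hpN Q
      refine ⟨(Q : Subgroup G) ⊔ M, Subgroup.sup_normal _ _, ?_⟩
      rw [CfsgLib.BGAppendix.card_sup_eq_mul _ _ Subgroup.le_normalizer_of_normal ?_, Finset.prod_insert hps,
        hQc, hMc]
      refine Subgroup.inf_eq_bot_of_coprime ?_
      rw [hQc, hMc]
      refine Nat.Coprime.prod_right fun q hq => ?_
      refine Nat.Coprime.pow _ _ ((Nat.coprime_primes hp (Nat.prime_of_mem_primeFactors
        (hs (Finset.mem_insert_of_mem hq)))).2 ?_)
      rintro rfl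
      exact hps hq
  haveI := hMn
  have hMidx : M.index = Nat.card C := by
    have := M.card_mul_index
    rw [hMcard, hcard] at this
    exact Nat.eq_of_mul_eq_mul_left Nat.card_pos this
  obtain ⟨H, hH⟩ := Subgroup.exists_right_complement'_of_coprime (N := M)
    (by rw [hMcard, hMidx]; exact hcop)
  have hHcard : Nat.card H = Nat.card C := by rw [← hH.symm.index_eq_card, hMidx]
  have hMne : M ≠ ⊥ := fun h => hk1 (by rw [← hMcard, h, Subgroup.card_bot])
  have hHne : H ≠ ⊥ := fun h => hc1 (by rw [← hHcard, h, Subgroup.card_bot])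
  -- no mixed element orders
  have hmix : ∀ g : G, ∀ p q : ℕ, p.Prime → q.Prime → p ∣ Nat.card N → q ∣ Nat.card C →
      orderOf g ≠ p * q := by
    intro g p q hp hq hpN hqC hg
    obtain ⟨e, he⟩ := hST
    set f := e.symm g with hf
    have hfo : orderOf f = p * q := by rw [← he f, hf, e.apply_symm_apply, hg]
    have hA : orderOf (f ^ q) = p := by
      rw [orderOf_pow' f hq.ne_zero, hfo, Nat.gcd_eq_right (dvd_mul_left _ _), Nat.mul_div_cancel _ hq.pos]
    have hB : orderOf (f ^ p) = q := by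
      rw [orderOf_pow' f hp.ne_zero, hfo, Nat.gcd_eq_right (dvd_mul_right _ _), Nat.mul_div_cancel_left _ hp.pos]
    have hAN : f ^ q ∈ N := mem_of_coprime_index N (by
      rw [hA, hidx]; exact hp.coprime_iff_not_dvd.2 fun h => hp.ne_one (Nat.eq_one_of_dvd_coprimes hcop hpN h))
    obtain ⟨b, hb, c, hcC, hbc⟩ := CfsgLib.Frobenius.exists_eq_mul_of_sup_eq_top N C hc.sup_eq_top (f ^ p)
    have hcne : c ≠ 1 := fun h => by
      rw [h, mul_one] at hbc
      have h1 := Subgroup.orderOf_dvd_natCard N (hbc ▸ hb : f ^ p ∈ N)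
      rw [hB] at h1
      exact hq.ne_one (Nat.eq_one_of_dvd_coprimes hcop h1 hqC)
    obtain ⟨a, ha, hac⟩ := CfsgLib.Frobenius.exists_conj_eq N C hfpf hcC hcne hb
    rw [← hbc] at hac
    have hmem : a⁻¹ * f ^ q * a ∈ N := N.mul_mem (N.mul_mem (N.inv_mem ha) hAN) ha
    have h1 := hfpf c hcC hcne _ hmem (by
      have hcm : (a * c * a⁻¹) * f ^ q = f ^ q * (a * c * a⁻¹) := by
        rw [hac]; exact (Commute.pow_pow_self f p q).eq
      calc c * (a⁻¹ * f ^ q * a) = a⁻¹ * ((a * c * a⁻¹) * f ^ q) * a := by group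
        _ = a⁻¹ * (f ^ q * (a * c * a⁻¹)) * a := by rw [hcm]
        _ = _ := by group)
    have : f ^ q = 1 := by
      calc f ^ q = a * (a⁻¹ * f ^ q * a) * a⁻¹ := by group
        _ = 1 := by rw [h1]; group
    rw [this, orderOf_one] at hA
    exact hp.ne_one hA.symm
  have hHfpf : ∀ h ∈ H, h ≠ 1 → ∀ k ∈ M, h * k = k * h → k = 1 := by
    intro h hh h1 k hk hcm
    by_contra hk'
    obtain ⟨q, hq, hqd⟩ := Nat.exists_prime_and_dvd (mt orderOf_eq_one_iff.1 h1)
    obtain ⟨p, hp, hpd⟩ := Nat.exists_prime_and_dvd (mt orderOf_eq_one_iff.1 hk')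
    obtain ⟨i, hi⟩ := exists_pow_orderOf_eq (g := h) (q := q) (k := 1) (by rwa [pow_one])
    obtain ⟨j, hj⟩ := exists_pow_orderOf_eq (g := k) (q := p) (k := 1) (by rwa [pow_one])
    rw [pow_one] at hi hj
    have hpN : p ∣ Nat.card N := hMcard ▸ hpd.trans (Subgroup.orderOf_dvd_natCard M hk)
    have hqC : q ∣ Nat.card C := hHcard ▸ hqd.trans (Subgroup.orderOf_dvd_natCard H hh)
    refine hmix (k ^ j * h ^ i) p q hp hq hpN hqC ?_
    rw [((Commute.pow_pow (show Commute k h from hcm.symm) j i)).orderOf_mul_eq_mul_orderOf_of_coprime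
      (by rw [hi, hj]; exact (Nat.coprime_primes hp hq).2 fun he => hp.ne_one (Nat.eq_one_of_dvd_coprimes hcop hpN (he ▸ hqC))), hi, hj]
  have hHfrob : Cfsg.IsFrobeniusComplement H :=
    CfsgLib.Frobenius.isFrobeniusComplement_of_fpf M H (disjoint_iff.1 hH.disjoint) hH.sup_eq_top hMne hHne hHfpf
  refine ⟨⟨H, hHfrob⟩, ?_⟩
  have hMnil : Group.IsNilpotent M := by
    haveI := Fintype.ofFinite M
    have h3 := ((Group.isNilpotent_of_finite_tfae (G := M)).out 0 3 :)
    refine h3.2 fun p hp R => ?_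
    haveI := hp
    by_cases hpd : p ∣ Nat.card M
    · obtain ⟨Q, hQ⟩ := (R.isPGroup'.map M.subtype).exists_le_sylow
      have hQn := (hsyl p (hMcard ▸ hpd) Q).1
      have hRQ : (R : Subgroup M) = (Q : Subgroup G).subgroupOf M :=
        (R.3 Q.isPGroup'.comap_subtype (fun x hx => Subgroup.mem_subgroupOf.2 (hQ ⟨x, hx, rfl⟩))).symm
      rw [hRQ]
      infer_instance
    · have h0 : (R : Subgroup M) = ⊥ := Subgroup.card_eq_one.1 (by
        rw [R.card_eq_multiplicity, Nat.factorization_eq_zero_of_not_dvd hpd, pow_zero])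
      rw [h0]
      infer_instance
  rw [isSolvable_iff_complement M H hH hMnil, isSolvable_iff_complement N C hc hnil]
  have hHC : SameType H C := sameType_of_count fun m => by
    rcases eq_or_ne m 1 with rfl | hm1
    · rw [card_order_one, card_order_one]
    by_cases hmN : m.Coprime (Nat.card N)
    · have e1 := count_outside M H hH (by rw [hMcard, hHcard]; exact hcop) hHfpf hm1 (by rwa [hMcard])
      have e2 := count_outside N C hc hcop hfpf hm1 hmN
      rw [hT m, e1, hMcard] at e2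
      exact Nat.eq_of_mul_eq_mul_left Nat.card_pos e2
    · have hH0 : IsEmpty {x : H // orderOf x = m} := ⟨fun x => hmN
        (x.2 ▸ (hHcard ▸ hcop.symm : (Nat.card H).Coprime (Nat.card N)).coprime_dvd_left (orderOf_dvd_natCard x.1))⟩
      have hC0 : IsEmpty {x : C // orderOf x = m} := ⟨fun x => hmN
        (x.2 ▸ hcop.symm.coprime_dvd_left (orderOf_dvd_natCard x.1))⟩
      rw [Nat.card_of_isEmpty, Nat.card_of_isEmpty]
  have tC := thinSylow_complement N C hNne hfpf
  have tH := thinSylow_complement M H hMne hHfpf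
  exact ⟨fun h => isSolvable_of_sameType (Nat.card H) H C le_rfl hHC tH tC h,
    fun h => isSolvable_of_sameType (Nat.card C) C H le_rfl hHC.symm tC tH h⟩

end Cfsg.Agent.S3999
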