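import Cfsg.Statements.S4001
import Cfsg.Agent.Lib.SchurExt.TwoFrobenius
-- import your own Cfsg.Agent.* helpers here

set_option autoImplicit false
open Cfsg

namespace Cfsg.Agent.S4001



/-- Let G be a 2-Frobenius group: it has normal subgroups H < K with K a Frobenius group with kernel H and G/H a Frobenius group with kernel K/H. Then G is solvable; K/H has odd order coprime to the order of H and to the order of G/K (it is the image of an odd-order Hall subgroup); G/K is cyclic; and the prime graph of G has exactly two connected components, both complete: for distinct primes p, q dividing the order of G, G has an element of order pq exactly when p and q either both divide the order of K/H or both do not. -/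
theorem result {G : Type*} [Group G] [Finite G] (H K : Subgroup G) [H.Normal] [K.Normal] (hlt : H < K)
    (hK : ∃ C : Subgroup ↥K, Cfsg.IsFrobeniusComplement C ∧ Cfsg.frobeniusKernel C = (H.subgroupOf K : Set ↥K))
    (hGH : ∃ C : Subgroup (G ⧸ H), Cfsg.IsFrobeniusComplement C ∧ Cfsg.frobeniusKernel C = (K.map (QuotientGroup.mk' H) : Set (G ⧸ H))) :
    Group.IsSolvable G ∧ Odd (Nat.card (↥K ⧸ H.subgroupOf K)) ∧
      Nat.Coprime (Nat.card (↥K ⧸ H.subgroupOf K)) (Nat.card ↥H * Nat.card (G ⧸ K)) ∧ IsCyclic (G ⧸ K) ∧
      ∀ p q : ℕ, p.Prime → q.Prime → p ≠ q → p ∣ Nat.card G → q ∣ Nat.card G →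
        ((∃ g : G, orderOf g = p * q) ↔ (p ∣ Nat.card (↥K ⧸ H.subgroupOf K) ↔ q ∣ Nat.card (↥K ⧸ H.subgroupOf K))) := by
  have h := CfsgLib.SchurExt.isTwoFrobenius H K hlt hK hGH
  obtain ⟨C, hCcyc, hCc, hCcard, -, -⟩ := h.cyclic_top
  refine ⟨h.solvable, h.odd, Nat.Coprime.mul_right h.coprime_bot (by rw [← Subgroup.index_eq_card]; exact h.coprime_top), ?_, ?_⟩
  · haveI := hCcyc
    haveI : (K.map (QuotientGroup.mk' H)).Normal :=
      Subgroup.Normal.map inferInstance _ (QuotientGroup.mk'_surjective H)
    exact isCyclic_of_surjective ((hCc.symm.QuotientMulEquiv.symm).trans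
      (QuotientGroup.quotientQuotientEquivQuotient H K hlt.le)).toMonoidHom (MulEquiv.surjective _)
  · intro p q hp hq hpq hpG hqG
    exact h.exists_orderOf_iff hp hq hpq hpG hqG

end Cfsg.Agent.S4001
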