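import Cfsg.Statements.S4002
import Cfsg.Agent.Lib.OrderDegrees.Coclique
-- import your own Cfsg.Agent.* helpers here

set_option autoImplicit false
open Cfsg

namespace Cfsg.Agent.S4002


theorem exists_three_primes (n : ℕ) (hn : 7 ≤ n) : ∃ r s t : ℕ, r.Prime ∧ s.Prime ∧ t.Prime ∧
    r < s ∧ s < t ∧ t ≤ n ∧ n < r * s := by
  rcases lt_or_ge n 15 with h | h
  · exact ⟨3, 5, 7, by norm_num, by norm_num, by norm_num, by norm_num, by norm_num, hn, by omega⟩
  rcases lt_or_ge n 35 with h' | h'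
  · exact ⟨5, 7, 11, by norm_num, by norm_num, by norm_num, by norm_num, by norm_num, by omega, by omega⟩
  rcases lt_or_ge n 77 with h'' | h''
  · exact ⟨7, 11, 13, by norm_num, by norm_num, by norm_num, by norm_num, by norm_num, by omega, by omega⟩
  have hk : 8 ≤ Nat.sqrt n := Nat.le_sqrt.2 (by omega)
  obtain ⟨r, hr, hr1, hr2⟩ := Nat.exists_prime_lt_and_le_two_mul (Nat.sqrt n) (by omega)
  obtain ⟨s, hs, hs1, hs2⟩ := Nat.exists_prime_lt_and_le_two_mul (2 * Nat.sqrt n) (by omega)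
  obtain ⟨t, ht, ht1, ht2⟩ := Nat.exists_prime_lt_and_le_two_mul (4 * Nat.sqrt n) (by omega)
  refine ⟨r, s, t, hr, hs, ht, by omega, by omega, ?_, ?_⟩
  · have := Nat.sqrt_le n
    have h2 : 8 * Nat.sqrt n ≤ Nat.sqrt n * Nat.sqrt n := Nat.mul_le_mul_right _ hk
    omega
  · calc n < (Nat.sqrt n + 1) * (Nat.sqrt n + 1) := Nat.lt_succ_sqrt n
      _ ≤ r * s := Nat.mul_le_mul hr1 (by omega)

/-- If the set of element orders of a finite group G is {1, 2, …, n} with n ≥ 7, then G is not solvable. -/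
theorem result {G : Type*} [Group G] [Finite G] (n : ℕ) (hn : 7 ≤ n) (h : Set.range (orderOf : G → ℕ) = {k : ℕ | 1 ≤ k ∧ k ≤ n}) : ¬ Group.IsSolvable G := by
  intro hsol
  obtain ⟨r, s, t, hr, hs, ht, hrs, hst, htn, hlt⟩ := exists_three_primes n hn
  have hdvd : ∀ k : ℕ, k.Prime → k ≤ n → k ∣ Nat.card G := fun k hk hkn => by
    obtain ⟨g, hg⟩ : k ∈ Set.range (orderOf : G → ℕ) := by rw [h]; exact ⟨hk.one_lt.le, hkn⟩
    exact hg ▸ orderOf_dvd_natCard g
  have hno : ∀ m : ℕ, n < m → ¬ ∃ x : G, orderOf x = m := by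
    rintro m hm ⟨x, rfl⟩
    have : orderOf x ∈ Set.range (orderOf : G → ℕ) := ⟨x, rfl⟩
    rw [h] at this
    exact absurd this.2 (by omega)
  haveI := hsol
  refine CfsgLib.OrderDegrees.false_of_solvable_coclique (⊤ : Subgroup G)
    (Group.isSolvable_of_isSolvable_injective (f := (⊤ : Subgroup G).subtype) Subtype.coe_injective)
    hr hs ht hrs.ne (hrs.trans hst).ne hst.ne (hno _ hlt) (hno _ ?_) (hno _ ?_) ?_ ?_ (hdvd t ht htn)
  · exact hlt.trans_le (Nat.mul_le_mul_left r hst.le)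
  · exact hlt.trans_le (Nat.mul_le_mul hrs.le hst.le)
  · rw [Subgroup.card_top]; exact hdvd r hr (by omega)
  · rw [Subgroup.card_top]; exact hdvd s hs (by omega)

end Cfsg.Agent.S4002
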