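import Cfsg.Statements.S4003
import Cfsg.Agent.Lib.PGroupCounting.Maximal
import Cfsg.Agent.Lib.PGroupCounting.Count
import Cfsg.Agent.Lib.NormalPComplement.Replacement
import Cfsg.Agent.Lib.Involutions.Counting
-- import your own Cfsg.Agent.* helpers here

set_option autoImplicit false
open Cfsg

namespace Cfsg.Agent.S4003

open scoped Pointwise commutatorElement

/-- Cyclic subgroups of order `p ^ s`. -/
def IsCyc {G : Type*} [Group G] (p s : ℕ) (X : Subgroup G) : Prop := IsCyclic X ∧ Nat.card X = p ^ s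

theorem isCyc_map {G H : Type*} [Group G] [Group H] {f : G →* H} (hf : Function.Injective f) {p s : ℕ}
    (X : Subgroup G) : IsCyc p s (X.map f) ↔ IsCyc p s X := by
  rw [IsCyc, IsCyc, Subgroup.card_map_of_injective hf]
  exact ⟨fun h => ⟨(X.equivMapOfInjective f hf).isCyclic.2 h.1, h.2⟩,
    fun h => ⟨(X.equivMapOfInjective f hf).isCyclic.1 h.1, h.2⟩⟩

/-- Elements of order `p ^ s` correspond to cyclic subgroups with a chosen generator. -/
theorem count_elements {G : Type*} [Group G] [Finite G] (p s : ℕ) (hp : 0 < p) :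
    Nat.card {g : G // orderOf g = p ^ s} =
      Nat.totient (p ^ s) * Nat.card {X : Subgroup G // IsCyc p s X} := by
  classical
  haveI := Fintype.ofFinite {X : Subgroup G // IsCyc p s X}
  have h : Nat.card {g : G // orderOf g = p ^ s} =
      Nat.card (Σ X : {X : Subgroup G // IsCyc p s X}, {v : X.1 // orderOf v = p ^ s}) := by
    refine (Nat.card_eq_of_bijective (fun w => (⟨((w.2.1 : w.1.1) : G), by
      rw [Subgroup.orderOf_coe]; exact w.2.2⟩ : {g : G // orderOf g = p ^ s})) ⟨?_, ?_⟩).symm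
    · rintro ⟨⟨X, hX⟩, ⟨v, hv⟩⟩ ⟨⟨Y, hY⟩, ⟨w, hw⟩⟩ hvw
      have hvw' : (v : G) = (w : G) := congrArg Subtype.val hvw
      have e : ∀ (Z : Subgroup G), IsCyc p s Z → ∀ z : Z, orderOf z = p ^ s → Subgroup.zpowers (z : G) = Z :=
        fun Z hZ z hz => Subgroup.eq_of_le_of_card_ge (Subgroup.zpowers_le.2 z.2)
          (by rw [Nat.card_zpowers, Subgroup.orderOf_coe, hz, hZ.2])
      obtain rfl : X = Y := by rw [← e X hX v hv, ← e Y hY w hw, hvw']
      obtain rfl : v = w := Subtype.ext hvw'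
      rfl
    · rintro ⟨g, hg⟩
      exact ⟨⟨⟨Subgroup.zpowers g, inferInstance, by rw [Nat.card_zpowers, hg]⟩,
        ⟨⟨g, Subgroup.mem_zpowers g⟩, by rw [Subgroup.orderOf_mk, hg]⟩⟩, rfl⟩
  rw [h, Nat.card_sigma]
  have hfib : ∀ X : {X : Subgroup G // IsCyc p s X}, Nat.card {v : X.1 // orderOf v = p ^ s} = Nat.totient (p ^ s) :=
    fun X => by
      haveI := X.2.1
      haveI := Fintype.ofFinite X.1
      rw [Nat.card_eq_fintype_card, Fintype.card_subtype,
        IsCyclic.card_orderOf_eq_totient (dvd_of_eq (by rw [← Nat.card_eq_fintype_card, X.2.2]))]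
  rw [Finset.sum_congr rfl fun X _ => hfib X, Finset.sum_const, Finset.card_univ, smul_eq_mul,
    ← Nat.card_eq_fintype_card, mul_comm]

/-- Only the subgroups normalized by a `p`-group matter modulo `p`. -/
theorem count_modEq_normalized {G : Type*} [Group G] [Finite G] {p : ℕ} [Fact p.Prime] (P : Subgroup G)
    (hP : IsPGroup p P) (Φ : Subgroup G → Prop) (hΦ : ∀ g ∈ P, ∀ X, Φ X → Φ (X.map (MulAut.conj g).toMonoidHom)) :
    Nat.card {X : Subgroup G // Φ X} ≡
      Nat.card {X : Subgroup G // Φ X ∧ P ≤ Subgroup.normalizer (X : Set G)} [MOD p] := by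
  letI : MulAction P {X : Subgroup G // Φ X} :=
    { smul := fun g X => ⟨X.1.map (MulAut.conj (g : G)).toMonoidHom, hΦ g g.2 X.1 X.2⟩
      one_smul := fun X => Subtype.ext (by
        show X.1.map (MulAut.conj ((1 : P) : G)).toMonoidHom = X.1
        rw [OneMemClass.coe_one, map_one]; exact Subgroup.map_id X.1)
      mul_smul := fun g h X => Subtype.ext (by
        show X.1.map (MulAut.conj ((g * h : P) : G)).toMonoidHom =
          (X.1.map (MulAut.conj (h : G)).toMonoidHom).map (MulAut.conj (g : G)).toMonoidHom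
        rw [Subgroup.map_map, Subgroup.coe_mul, map_mul]; rfl) }
  refine (hP.card_modEq_card_fixedPoints {X : Subgroup G // Φ X}).trans (congrArg (· % p) ?_)
  refine Nat.card_congr
    { toFun := fun X => ⟨X.1.1, X.1.2, fun g hg => ?_⟩
      invFun := fun X => ⟨⟨X.1, X.2.1⟩, fun g => Subtype.ext ?_⟩
      left_inv := fun X => rfl
      right_inv := fun X => rfl }
  · have h1 : X.1.1.map (MulAut.conj g).toMonoidHom = X.1.1 := congrArg Subtype.val (X.2 ⟨g, hg⟩)
    refine Subgroup.mem_normalizer_iff.2 fun z => ?_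
    conv_rhs => rw [← h1]
    exact (Subgroup.mem_map_iff_mem (f := (MulAut.conj g).toMonoidHom) (MulAut.conj g).injective).symm
  · show X.1.map (MulAut.conj (g : G)).toMonoidHom = X.1
    have hg := Subgroup.mem_normalizer_iff.1 (X.2.2 g.2)
    ext z
    constructor
    · rintro ⟨w, hw, rfl⟩; exact (hg w).1 hw
    · intro hz
      exact ⟨(g : G)⁻¹ * z * g, (hg _).2 (by simpa [mul_assoc] using hz), by simp [mul_assoc]⟩

theorem count_cyclic_sylow {G : Type*} [Group G] [Finite G] {p : ℕ} [Fact p.Prime] (P : Sylow p G) (s : ℕ) :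
    Nat.card {X : Subgroup G // IsCyc p s X} ≡ Nat.card {X : Subgroup (P : Subgroup G) // IsCyc p s X} [MOD p] := by
  have h1 := count_modEq_normalized (P : Subgroup G) P.isPGroup' (IsCyc p s)
    (fun g _ X hX => (isCyc_map (MulAut.conj g).injective X).2 hX)
  have h2 := count_modEq_normalized (P : Subgroup G) P.isPGroup'
    (fun X => IsCyc p s X ∧ X ≤ (P : Subgroup G))
    (fun g hg X hX => ⟨(isCyc_map (MulAut.conj g).injective X).2 hX.1, by
      rintro _ ⟨x, hx, rfl⟩
      exact mul_mem (mul_mem hg (hX.2 hx)) (inv_mem hg)⟩)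
  have e : Nat.card {X : Subgroup G // IsCyc p s X ∧ (P : Subgroup G) ≤ Subgroup.normalizer (X : Set G)} =
      Nat.card {X : Subgroup G // (IsCyc p s X ∧ X ≤ (P : Subgroup G)) ∧
        (P : Subgroup G) ≤ Subgroup.normalizer (X : Set G)} :=
    Nat.card_congr (Equiv.subtypeEquivRight fun X => ⟨fun h => ⟨⟨h.1, by
      have hX : IsPGroup p X := IsPGroup.of_card h.1.2
      have := P.3 (IsPGroup.to_sup_of_normal_right' P.isPGroup' hX h.2) le_sup_left
      exact le_sup_right.trans this.le⟩, h.2⟩, fun h => ⟨h.1.1, h.2⟩⟩)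
  have e2 : Nat.card {X : Subgroup (P : Subgroup G) // IsCyc p s X} =
      Nat.card {X : Subgroup G // IsCyc p s X ∧ X ≤ (P : Subgroup G)} :=
    Nat.card_congr
      { toFun := fun X => ⟨X.1.map (P : Subgroup G).subtype,
          (isCyc_map (P : Subgroup G).subtype_injective X.1).2 X.2, Subgroup.map_subtype_le _⟩
        invFun := fun X => ⟨X.1.subgroupOf P, (isCyc_map (P : Subgroup G).subtype_injective _).1
          (by rw [Subgroup.map_subgroupOf_eq_of_le X.2.2]; exact X.2.1)⟩
        left_inv := fun X => Subtype.ext (Subgroup.map_injective (P : Subgroup G).subtype_injective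
          (Subgroup.map_subgroupOf_eq_of_le (Subgroup.map_subtype_le _)))
        right_inv := fun X => Subtype.ext (Subgroup.map_subgroupOf_eq_of_le X.2.2) }
  rw [e] at h1
  rw [e2]
  exact h1.trans h2.symm

/-- An exponent fixing everything after `p` steps is `1` up to one step. -/
theorem exponent_step {p : ℕ} [hp : Fact p.Prime] (hodd : p ≠ 2) {r : ℤ} {k : ℕ} (hk : 1 ≤ k)
    (h : (p : ℤ) ^ k ∣ r ^ p - 1) : (p : ℤ) ^ (k - 1) ∣ r - 1 ∧ (p : ℤ) ∣ r - 1 := by
  have hfl : (p : ℤ) ∣ r - 1 := by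
    rw [← ZMod.intCast_zmod_eq_zero_iff_dvd]
    have h1 := (ZMod.intCast_zmod_eq_zero_iff_dvd (r ^ p - 1) p).2 ((dvd_pow_self _ (by omega)).trans h)
    push_cast at h1 ⊢
    rwa [ZMod.pow_card] at h1
  obtain ⟨t, ht⟩ := hfl
  have hr : r = 1 + (p : ℤ) * t := by linarith
  obtain ⟨S, hS, hdiv⟩ : ∃ S : ℤ, (r - 1) * S = r ^ p - 1 ∧ (p : ℤ) ^ 2 ∣ S - p := by
    refine ⟨∑ i ∈ Finset.range p, r ^ i * 1 ^ (p - 1 - i), ?_, ?_⟩
    · have := geom_sum₂_mul r 1 p
      rw [one_pow] at this
      rw [mul_comm]; exact this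
    · have := odd_sq_dvd_geom_sum₂_sub (R := ℤ) (a := 1) (b := t) (hp.out.odd_of_ne_two hodd)
      rw [one_pow, mul_one] at this
      simpa [hr] using this
  obtain ⟨z, hz⟩ := hdiv
  have hSp : S = p * (1 + p * z) := by linarith [hz, show (p : ℤ) ^ 2 * z = p * (p * z) by ring]
  refine ⟨?_, ⟨t, ht⟩⟩
  rw [← hS, hSp, ← mul_assoc, show k = (k - 1) + 1 by omega, pow_succ] at h
  have hcop : IsCoprime ((p : ℤ) ^ (k - 1) * p) (1 + p * z) := by
    have h1 : IsCoprime (p : ℤ) (1 + p * z) := ⟨-z, 1, by ring⟩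
    exact (h1.pow_left).mul_left h1
  exact (mul_dvd_mul_iff_right (by exact_mod_cast hp.out.ne_zero)).1 (hcop.dvd_of_dvd_mul_right h)

/-- A non-cyclic `p`-group with a cyclic subgroup of index `p`, `p` odd, has `p` cyclic subgroups of
each order `p ^ s` with `2 ≤ s < n`. -/
theorem count_modular {P : Type*} [Group P] [Finite P] {p : ℕ} [hp : Fact p.Prime] (hodd : p ≠ 2) {n : ℕ}
    (hn : Nat.card P = p ^ n) (hnc : ¬ IsCyclic P) {s : ℕ} (hs : 2 ≤ s) (hsn : s < n)
    {M : Subgroup P} (hM : M.index = p) (hMc : IsCyclic M) :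
    Nat.card {X : Subgroup P // IsCyc p s X} = p := by
  have hP : IsPGroup p P := IsPGroup.of_card hn
  haveI hMn := CfsgLib.PGroupCounting.normal_of_index_eq hP hM
  have hMcard : Nat.card M = p ^ (n - 1) := CfsgLib.PGroupCounting.card_of_index_eq hn (by omega) hM
  obtain ⟨⟨x, hxM⟩, hgen⟩ := hMc.exists_generator
  have hMz : ∀ z ∈ M, ∃ i : ℤ, x ^ i = z := fun z hz => by
    obtain ⟨i, hi⟩ := hgen ⟨z, hz⟩
    exact ⟨i, congrArg Subtype.val hi⟩
  have hxo : orderOf x = p ^ (n - 1) := by
    rw [← hMcard, ← Nat.card_zpowers]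
    congr 1
    rw [show Subgroup.zpowers x = M from le_antisymm (Subgroup.zpowers_le.2 hxM) fun z hz => by
      obtain ⟨i, rfl⟩ := hMz z hz; exact Subgroup.zpow_mem_zpowers x i]
  obtain ⟨y, hy⟩ : ∃ y, y ∉ M := by
    by_contra h
    push Not at h
    exact hp.out.ne_one (hM.symm.trans (Subgroup.index_eq_one.mpr (eq_top_iff.mpr fun x _ => h x)))
  have hpow : ∀ g : P, g ^ p ∈ M := fun g => by
    rw [← hM]; exact M.pow_index_mem g
  obtain ⟨r, hr⟩ := hMz _ (hMn.conj_mem x hxM y)
  have hconj : ∀ i : ℕ, y ^ i * x * (y ^ i)⁻¹ = x ^ (r ^ i) := by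
    intro i
    induction i with
    | zero => simp
    | succ i ih =>
      calc y ^ (i + 1) * x * (y ^ (i + 1))⁻¹ = y * (y ^ i * x * (y ^ i)⁻¹) * y⁻¹ := by rw [pow_succ']; group
        _ = _ := by rw [ih, ← conj_zpow, ← hr, ← zpow_mul, pow_succ']
  have hdvd : (p : ℤ) ^ (n - 1) ∣ r ^ p - 1 := by
    obtain ⟨i, hi⟩ := hMz _ (hpow y)
    have h1 := hconj p
    rw [← hi, ((Commute.refl x).zpow_left i).eq, mul_inv_cancel_right] at h1
    conv_lhs at h1 => rw [← zpow_one x]
    have h2 := orderOf_dvd_sub_iff_zpow_eq_zpow.2 h1.symm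
    rw [hxo] at h2
    exact_mod_cast h2
  obtain ⟨hr1, hrp⟩ := exponent_step hodd (by omega) hdvd
  have hn2 : n - 1 - 1 = n - 2 := by omega
  rw [hn2] at hr1
  set w := x ^ (p ^ (n - 2)) with hw
  have hwp : w ^ p = 1 := by
    rw [hw, ← pow_mul, ← pow_succ, show n - 2 + 1 = n - 1 by omega, ← hxo, pow_orderOf_eq_one]
  have hgenP : Subgroup.closure ({x, y} : Set P) = ⊤ := by
    have hle : M ≤ Subgroup.closure ({x, y} : Set P) := fun z hz => by
      obtain ⟨i, rfl⟩ := hMz z hz
      exact zpow_mem (Subgroup.subset_closure (Set.mem_insert _ _)) i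
    have h1 := Subgroup.index_dvd_of_le hle
    rw [hM] at h1
    rcases (Nat.dvd_prime hp.out).1 h1 with h2 | h2
    · exact Subgroup.index_eq_one.1 h2
    · exfalso
      have h3 := Subgroup.relIndex_mul_index hle
      rw [h2, hM] at h3
      exact hy (Subgroup.relIndex_eq_one.1 (Nat.eq_of_mul_eq_mul_right hp.out.pos (h3.trans (one_mul _).symm))
        (Subgroup.subset_closure (Set.mem_insert_of_mem _ rfl)))
  have hwc : w ∈ Subgroup.center P := by
    have hyw : Commute y w := by
      show y * w = w * y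
      refine mul_inv_eq_iff_eq_mul.1 ?_
      rw [hw, ← conj_pow, ← hr, ← zpow_natCast, ← zpow_mul, ← zpow_natCast]
      refine orderOf_dvd_sub_iff_zpow_eq_zpow.1 ?_
      rw [hxo]
      obtain ⟨t, ht⟩ := hrp
      refine ⟨t, ?_⟩
      push_cast
      rw [show n - 1 = n - 2 + 1 by omega, pow_succ]
      linear_combination ((p : ℤ) ^ (n - 2)) * ht
    have hz : Subgroup.closure ({x, y} : Set P) ≤ Subgroup.centralizer ({w} : Set P) := by
      rw [Subgroup.closure_le]
      rintro z (rfl | rfl) <;> refine Subgroup.mem_centralizer_singleton_iff.2 ?_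
      · exact ((Commute.refl z).pow_left _).eq.symm
      · exact hyw.eq
    rw [hgenP] at hz
    exact Subgroup.mem_center_iff.2 fun g =>
      (Subgroup.mem_centralizer_singleton_iff.1 (hz (Subgroup.mem_top g)))
  set W := Subgroup.zpowers w with hW
  haveI hWn : W.Normal := ⟨fun z hz g => by
    have hzc : z ∈ Subgroup.center P := Subgroup.zpowers_le.2 hwc hz
    rw [Subgroup.mem_center_iff.1 hzc g, mul_inv_cancel_right]; exact hz⟩
  have hder : ∀ a b : P, ⁅b, a⁆ ∈ W := by
    intro a b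
    have hxy : Commute ((x : P) : P ⧸ W) ((y : P) : P ⧸ W) := by
      show (x : P ⧸ W) * y = y * x
      rw [← QuotientGroup.mk_mul, ← QuotientGroup.mk_mul, QuotientGroup.eq]
      have e : (x * y)⁻¹ * (y * x) = y⁻¹ * x⁻¹ * (y * x * y⁻¹) * y := by group
      rw [e, ← hr, mul_assoc y⁻¹, ← zpow_neg_one x, ← zpow_add, neg_add_eq_sub]
      have hm : x ^ (r - 1) ∈ W := by
        obtain ⟨t, ht⟩ := hr1
        rw [ht, show ((p : ℤ) ^ (n - 2)) = ((p ^ (n - 2) : ℕ) : ℤ) by push_cast; rfl, zpow_mul, zpow_natCast]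
        exact Subgroup.zpow_mem_zpowers _ t
      simpa using hWn.conj_mem _ hm y⁻¹
    have habel : ∀ u v : P ⧸ W, Commute u v := by
      have hgen' : Subgroup.closure ({((x : P) : P ⧸ W), ((y : P) : P ⧸ W)} : Set (P ⧸ W)) = ⊤ := by
        have := congrArg (Subgroup.map (QuotientGroup.mk' W)) hgenP
        rw [MonoidHom.map_closure, Subgroup.map_top_of_surjective _ (QuotientGroup.mk'_surjective W),
          Set.image_pair] at this
        exact this
      haveI := Subgroup.isMulCommutative_closure (k := ({((x : P) : P ⧸ W), ((y : P) : P ⧸ W)} : Set (P ⧸ W))) (by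
        rintro a (rfl | rfl) b (rfl | rfl)
        exacts [rfl, hxy.eq, hxy.eq.symm, rfl])
      intro u v
      exact congrArg Subtype.val ((this).is_comm.comm ⟨u, hgen' ▸ Subgroup.mem_top u⟩ ⟨v, hgen' ▸ Subgroup.mem_top v⟩)
    refine (QuotientGroup.eq_one_iff _).1 ?_
    show QuotientGroup.mk' W ⁅b, a⁆ = 1
    rw [map_commutatorElement, commutatorElement_eq_one_iff_commute]
    exact habel _ _
  have hmulpow : ∀ a b : P, (a * b) ^ p = a ^ p * b ^ p := by
    intro a b
    have hc : ⁅b, a⁆ ∈ Subgroup.center P := Subgroup.zpowers_le.2 hwc (hder a b)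
    rw [CfsgLib.NormalPComplement.mul_pow_of_commutator_commute
      (Subgroup.mem_center_iff.1 hc a).symm (Subgroup.mem_center_iff.1 hc b).symm p]
    obtain ⟨j, hj⟩ := hder a b
    obtain ⟨q, hq⟩ := hp.out.dvd_choose_self (k := 2) (by norm_num) (lt_of_le_of_ne hp.out.two_le (Ne.symm hodd))
    simp only at hj
    rw [← hj, hq, pow_mul, ← zpow_natCast (w ^ j) p, ← zpow_mul, mul_comm j, zpow_mul, zpow_natCast, hwp,
      one_zpow, one_pow, mul_one]
  let φ : P →* P := MonoidHom.mk' (fun g => g ^ p) hmulpow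
  have hrange : φ.range = Subgroup.zpowers (x ^ p) := by
    refine le_antisymm ?_ (Subgroup.zpowers_le.2 ⟨x, rfl⟩)
    rintro _ ⟨g, rfl⟩
    obtain ⟨i, hi⟩ := hMz _ (hpow g)
    show g ^ p ∈ Subgroup.zpowers (x ^ p)
    obtain ⟨e, he, hge⟩ := (Nat.dvd_prime_pow hp.out).1 (hn ▸ orderOf_dvd_natCard g)
    have hen : e ≤ n - 1 := by
      by_contra hlt
      exact hnc (isCyclic_of_orderOf_eq_card g (by rw [hge, hn, show e = n by omega]))
    have h1 : (x ^ i) ^ (p ^ (n - 2)) = 1 := by
      rw [hi, ← pow_mul, ← pow_succ', show n - 2 + 1 = n - 1 by omega]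
      exact orderOf_dvd_iff_pow_eq_one.1 (hge ▸ pow_dvd_pow p hen)
    rw [← zpow_natCast, ← zpow_mul, ← orderOf_dvd_iff_zpow_eq_one, hxo,
      show n - 1 = 1 + (n - 2) by omega, pow_add, pow_one] at h1
    push_cast at h1
    obtain ⟨j, hj⟩ := Int.dvd_of_mul_dvd_mul_right (pow_ne_zero _ (by exact_mod_cast hp.out.ne_zero)) h1
    refine ⟨j, ?_⟩
    show (x ^ p) ^ j = g ^ p
    rw [← hi, hj, ← zpow_natCast, ← zpow_mul]
  have hro : orderOf (x ^ p) = p ^ (n - 2) := by
    rw [orderOf_pow' x hp.out.ne_zero, hxo, Nat.gcd_eq_right (dvd_pow_self p (by omega)),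
      show n - 1 = n - 2 + 1 by omega, pow_succ, Nat.mul_div_cancel _ hp.out.pos]
  haveI hrc : IsCyclic φ.range := hrange ▸ inferInstance
  have hrcard : Nat.card φ.range = p ^ (n - 2) := by rw [hrange, Nat.card_zpowers, hro]
  have hkcard : Nat.card φ.ker = p ^ 2 := by
    have h1 := φ.ker.card_mul_index
    rw [Subgroup.index_ker, hrcard, hn] at h1
    refine Nat.eq_of_mul_eq_mul_right (pow_pos hp.out.pos (n - 2)) ?_
    rw [h1, ← pow_add]; congr 1; omega
  have hcount : Nat.card {g : P // orderOf g = p ^ s} =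
      p ^ 2 * Nat.totient (p ^ (s - 1)) := by
    have hiff : ∀ g : P, orderOf g = p ^ s ↔ orderOf (φ g) = p ^ (s - 1) := by
      intro g
      show _ ↔ orderOf (g ^ p) = _
      obtain ⟨e, -, hge⟩ := (Nat.dvd_prime_pow hp.out).1 (hn ▸ orderOf_dvd_natCard g)
      rw [orderOf_pow' g hp.out.ne_zero, hge]
      rcases e.eq_zero_or_pos with rfl | he
      · simp only [pow_zero, Nat.gcd_one_left, Nat.div_one]
        constructor <;> intro h <;> exfalso
        · have := Nat.one_lt_pow (show s ≠ 0 by omega) hp.out.one_lt; omega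
        · have := Nat.one_lt_pow (show s - 1 ≠ 0 by omega) hp.out.one_lt; omega
      · rw [Nat.gcd_eq_right (dvd_pow_self p he.ne'), show e = e - 1 + 1 by omega, pow_succ,
          Nat.mul_div_cancel _ hp.out.pos, ← pow_succ]
        constructor <;> intro h <;> have := Nat.pow_right_injective hp.out.two_le h
        · rw [show e - 1 = s - 1 by omega]
        · rw [show e - 1 + 1 = s by omega]
    have hS : Nat.card {z : φ.range // orderOf z = p ^ (s - 1)} = Nat.totient (p ^ (s - 1)) := by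
      haveI := Fintype.ofFinite φ.range
      rw [Nat.card_eq_fintype_card, Fintype.card_subtype, IsCyclic.card_orderOf_eq_totient]
      rw [← Nat.card_eq_fintype_card, hrcard]
      exact pow_dvd_pow p (by omega)
    rw [← hS, ← hkcard, ← Nat.card_prod]
    have hsec : ∀ z : φ.range, ∃ g, φ g = z := fun z => z.2
    choose sec hsec using hsec
    refine (Nat.card_eq_of_bijective (fun w : φ.ker × {z : φ.range // orderOf z = p ^ (s - 1)} =>
      (⟨(w.1 : P) * sec w.2.1, (hiff _).2 (by
        rw [map_mul, MonoidHom.mem_ker.1 w.1.2, one_mul, hsec, Subgroup.orderOf_coe, w.2.2])⟩ :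
        {g : P // orderOf g = p ^ s})) ⟨?_, ?_⟩).symm
    · rintro ⟨a, z⟩ ⟨b, z'⟩ h
      have h' : (a : P) * sec z.1 = (b : P) * sec z'.1 := congrArg Subtype.val h
      have hz : z = z' := by
        have := congrArg φ h'
        rw [map_mul, map_mul, MonoidHom.mem_ker.1 a.2, MonoidHom.mem_ker.1 b.2, one_mul, one_mul, hsec, hsec] at this
        exact Subtype.ext (Subtype.ext this)
      subst hz
      rw [Subtype.ext (mul_right_cancel h' :) ]
    · rintro ⟨g, hg⟩
      have hz : orderOf (⟨φ g, g, rfl⟩ : φ.range) = p ^ (s - 1) := by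
        rw [← Subgroup.orderOf_coe]; exact (hiff g).1 hg
      refine ⟨(⟨g * (sec ⟨φ g, g, rfl⟩)⁻¹, ?_⟩, ⟨⟨φ g, g, rfl⟩, hz⟩), Subtype.ext ?_⟩
      · rw [MonoidHom.mem_ker, map_mul, map_inv, hsec, mul_inv_cancel]
      · show g * _⁻¹ * _ = g
        rw [inv_mul_cancel_right]
  rw [count_elements p s hp.out.pos, Nat.totient_prime_pow hp.out (by omega : 0 < s),
    Nat.totient_prime_pow hp.out (by omega : 0 < s - 1)] at hcount
  refine Nat.eq_of_mul_eq_mul_left (Nat.mul_pos (pow_pos hp.out.pos (s - 1))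
    (by have := hp.out.two_le; omega : 0 < p - 1)) (hcount.trans ?_)
  rw [show s - 1 = s - 1 - 1 + 1 by omega, pow_succ, show s - 1 - 1 + 1 - 1 = s - 1 - 1 by omega]
  ring

/-- In a non-cyclic `p`-group, `p` odd, the number of cyclic subgroups of order `p ^ s ≥ p ^ 2` is a
multiple of `p`. -/
theorem dvd_count_pGroup {p : ℕ} [hp : Fact p.Prime] (hodd : p ≠ 2) {s : ℕ} (hs : 2 ≤ s) :
    ∀ (n : ℕ) {P : Type*} [Group P] [Finite P], Nat.card P = p ^ n → ¬ IsCyclic P →
      p ∣ Nat.card {X : Subgroup P // IsCyc p s X} := by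
  intro n
  induction n with
  | zero =>
    intro P _ _ hn hnc
    haveI := (Nat.card_eq_one_iff_unique.1 (by rwa [pow_zero] at hn)).1
    exact absurd isCyclic_of_subsingleton hnc
  | succ n ih =>
    intro P _ _ hn hnc
    rcases lt_or_ge s (n + 1) with hsn | hsn
    swap
    · haveI : IsEmpty {X : Subgroup P // IsCyc p s X} := ⟨fun X => hnc (by
        have h1 := Subgroup.card_subgroup_dvd_card X.1
        rw [X.2.2, hn] at h1
        have h2 : X.1 = ⊤ := Subgroup.eq_top_of_le_card _ (by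
          rw [X.2.2, hn]; exact Nat.pow_le_pow_right hp.out.pos hsn)
        exact (Subgroup.topEquiv (G := P)).isCyclic.1 (h2 ▸ X.2.1))⟩
      rw [Nat.card_of_isEmpty]
      exact dvd_zero p
    by_cases hex : ∃ M : Subgroup P, M.index = p ∧ IsCyclic M
    · obtain ⟨M, hM, hMc⟩ := hex
      rw [count_modular hodd hn hnc hs hsn hM hMc]
    push Not at hex
    classical
    haveI := Fintype.ofFinite (Subgroup P)
    have hP : IsPGroup p P := IsPGroup.of_card hn
    set A := Finset.univ.filter (fun M : Subgroup P => M.index = p)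
    set B := Finset.univ.filter (fun X : Subgroup P => IsCyc p s X)
    have h1 : ∀ M ∈ A, ((((B.filter (fun X => X ≤ M)).card : ℕ)) : ZMod p) = 0 := by
      intro M hM
      have hM' := (Finset.mem_filter.1 hM).2
      have e : (B.filter (fun X => X ≤ M)).card = Nat.card {X : Subgroup M // IsCyc p s X} := by
        rw [Finset.filter_filter, ← Fintype.card_subtype, ← Nat.card_eq_fintype_card]
        exact (Nat.card_congr
          { toFun := fun X => ⟨X.1.map M.subtype, (isCyc_map M.subtype_injective X.1).2 X.2, Subgroup.map_subtype_le _⟩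
            invFun := fun X => ⟨X.1.subgroupOf M, (isCyc_map M.subtype_injective _).1
              (by rw [Subgroup.map_subgroupOf_eq_of_le X.2.2]; exact X.2.1)⟩
            left_inv := fun X => Subtype.ext (Subgroup.map_injective M.subtype_injective
              (Subgroup.map_subgroupOf_eq_of_le (Subgroup.map_subtype_le _)))
            right_inv := fun X => Subtype.ext (Subgroup.map_subgroupOf_eq_of_le X.2.2) }).symm
      rw [e, ZMod.natCast_eq_zero_iff]
      exact ih (CfsgLib.PGroupCounting.card_of_index_eq hn (by omega) hM') (hex M hM')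
    have h2 : ∀ X ∈ B, ((((A.filter (fun M => X ≤ M)).card : ℕ)) : ZMod p) = 1 := by
      intro X hX
      rw [CfsgLib.PGroupCounting.card_filter_maximal_ge, CfsgLib.PGroupCounting.cast_modEq
        (CfsgLib.PGroupCounting.card_index_prime_ge_modEq_one hP
          (CfsgLib.PGroupCounting.ne_top_of_card_eq hn hsn (Finset.mem_filter.1 hX).2.2)), Nat.cast_one]
    have h3 : ∑ M ∈ A, (((B.filter (fun X => X ≤ M)).card : ℕ) : ZMod p) =
        ∑ X ∈ B, (((A.filter (fun M => X ≤ M)).card : ℕ) : ZMod p) := by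
      simp only [Finset.card_filter, Nat.cast_sum]
      rw [Finset.sum_comm]
    rw [Finset.sum_congr rfl h1, Finset.sum_congr rfl h2, Finset.sum_const, Finset.sum_const,
      smul_zero, nsmul_one, eq_comm, ZMod.natCast_eq_zero_iff] at h3
    rwa [Nat.card_eq_fintype_card, Fintype.card_subtype]

/-- Elements of order `p ^ s` of a finite group. -/
theorem dvd_count_prime_power {G : Type*} [Group G] [Finite G] {p : ℕ} [hp : Fact p.Prime] (hodd : p ≠ 2)
    {s : ℕ} (hs : 2 ≤ s) (P : Sylow p G) :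
    p ^ (s - 1) ∣ Nat.card {g : G // orderOf g = p ^ s} ∧
      (¬ IsCyclic P → p ^ s ∣ Nat.card {g : G // orderOf g = p ^ s}) := by
  rw [count_elements p s hp.out.pos, Nat.totient_prime_pow hp.out (by omega : 0 < s)]
  refine ⟨dvd_mul_of_dvd_left (dvd_mul_right _ _) _, fun hP => ?_⟩
  obtain ⟨n, hn⟩ := IsPGroup.iff_card.1 P.isPGroup'
  have h1 : p ∣ Nat.card {X : Subgroup G // IsCyc p s X} :=
    (Nat.ModEq.dvd_iff (count_cyclic_sylow P s) dvd_rfl).2 (dvd_count_pGroup hodd hs n hn hP)
  conv_lhs => rw [show s = s - 1 + 1 by omega, pow_succ]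
  exact mul_dvd_mul (dvd_mul_right _ _) h1

/-- Let G be a finite group, p an odd prime dividing the order of G whose Sylow p-subgroups are not cyclic, and n = p^s·m with s > 1 and m coprime to p. Then the number of elements of G of order n is a multiple of p^s. -/
theorem result {G : Type*} [Group G] [Finite G] (p : ℕ) [Fact p.Prime] (hodd : p ≠ 2) (hpG : p ∣ Nat.card G)
    (P : Sylow p G) (hP : ¬ IsCyclic ↥(P : Subgroup G)) (s m : ℕ) (hs : 1 < s) (hm : Nat.Coprime p m) :
    p ^ s ∣ Nat.card {g : G // orderOf g = p ^ s * m} := by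
  classical
  haveI := Fintype.ofFinite G
  have hp : p.Prime := Fact.out
  rcases Nat.eq_zero_or_pos m with rfl | hm0
  · exact absurd ((Nat.coprime_zero_right p).1 hm) hp.ne_one
  have hco : (p ^ s).Coprime m := hm.pow_left s
  let Y := {y : G // orderOf y = m}
  let T := fun y : G => {x : G // orderOf x = p ^ s ∧ Commute x y}
  have hbij : Nat.card {g : G // orderOf g = p ^ s * m} = Nat.card (Σ y : Y, T y.1) := by
    refine (Nat.card_eq_of_bijective (fun w => (⟨w.2.1 * w.1.1, by
      rw [w.2.2.2.orderOf_mul_eq_mul_orderOf_of_coprime (by rw [w.2.2.1, w.1.2]; exact hco), w.2.2.1, w.1.2]⟩ :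
        {g : G // orderOf g = p ^ s * m})) ⟨?_, ?_⟩).symm
    · rintro ⟨⟨y, hy⟩, ⟨x, hx, hxy⟩⟩ ⟨⟨y', hy'⟩, ⟨x', hx', hxy'⟩⟩ h
      have h' : x * y = x' * y' := congrArg Subtype.val h
      obtain ⟨e, he1, he2⟩ := Nat.chineseRemainder hco 1 0
      have key : ∀ a b : G, Commute a b → orderOf a = p ^ s → orderOf b = m → (a * b) ^ e = a := by
        intro a b hab ha hb
        rw [hab.mul_pow, pow_eq_pow_iff_modEq.2 (ha.symm ▸ he1 : e ≡ 1 [MOD orderOf a]), pow_one,
          orderOf_dvd_iff_pow_eq_one.1 (hb.symm ▸ Nat.modEq_zero_iff_dvd.1 he2 : orderOf b ∣ e), mul_one]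
      have hxx : x = x' := by rw [← key x y hxy hx hy, h', key x' y' hxy' hx' hy']
      subst hxx
      obtain rfl : y = y' := mul_left_cancel h'
      rfl
    · rintro ⟨g, hg⟩
      obtain ⟨u, v, huv⟩ : ∃ u v : ℤ, u * m + v * (p ^ s : ℕ) = 1 :=
        Int.isCoprime_iff_nat_coprime.2 (by simpa using hco.symm)
      have hA : orderOf (g ^ m) = p ^ s := by
        rw [orderOf_pow' g hm0.ne', hg, Nat.gcd_eq_right (dvd_mul_left _ _), Nat.mul_div_cancel _ hm0]
      have hB : orderOf (g ^ p ^ s) = m := by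
        rw [orderOf_pow' g (pow_ne_zero _ hp.ne_zero), hg, Nat.gcd_eq_right (dvd_mul_right _ _),
          Nat.mul_div_cancel_left _ (pow_pos hp.pos s)]
      set a := (g ^ m) ^ u with ha
      set b := (g ^ p ^ s) ^ v with hb
      have hab : Commute a b := (Commute.pow_pow_self g m (p ^ s)).zpow_zpow u v
      have hg' : a * b = g := by
        rw [ha, hb, ← zpow_natCast g m, ← zpow_natCast g (p ^ s), ← zpow_mul, ← zpow_mul, ← zpow_add,
          mul_comm (m : ℤ), mul_comm ((p ^ s : ℕ) : ℤ), huv, zpow_one]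
      have had : orderOf a ∣ p ^ s := hA ▸ orderOf_dvd_of_mem_zpowers (Subgroup.zpow_mem_zpowers (g ^ m) u)
      have hbd : orderOf b ∣ m := hB ▸ orderOf_dvd_of_mem_zpowers (Subgroup.zpow_mem_zpowers (g ^ p ^ s) v)
      have hmul : orderOf a * orderOf b = p ^ s * m := by
        rw [← hab.orderOf_mul_eq_mul_orderOf_of_coprime ((hco.coprime_dvd_left had).coprime_dvd_right hbd), hg', hg]
      have ha' : orderOf a = p ^ s := by
        refine Nat.dvd_antisymm had ((hco.coprime_dvd_right hbd).dvd_of_dvd_mul_right ?_)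
        exact hmul ▸ dvd_mul_right _ _
      have hb' : orderOf b = m := by
        rw [ha'] at hmul
        exact Nat.eq_of_mul_eq_mul_left (pow_pos hp.pos s) hmul
      exact ⟨⟨⟨b, hb'⟩, ⟨a, ha', hab⟩⟩, Subtype.ext hg'⟩
  rw [hbij, Nat.card_sigma]
  -- invariance under conjugation
  have hT : ∀ y : G, ∀ g : G, Nat.card (T (g * y * g⁻¹)) = Nat.card (T y) := by
    intro y g
    refine (Nat.card_congr ((MulAut.conj g).toEquiv.subtypeEquiv fun x => ?_)).symm
    show _ ↔ orderOf (MulAut.conj g x) = _ ∧ Commute (MulAut.conj g x) (g * y * g⁻¹)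
    rw [MulEquiv.orderOf_eq, show g * y * g⁻¹ = MulAut.conj g y from rfl]
    exact and_congr_right fun _ => ⟨fun h => h.map (MulAut.conj g).toMonoidHom,
      fun h => by simpa [mul_assoc] using h.map (MulAut.conj g⁻¹).toMonoidHom⟩
  rw [← Finset.sum_fiberwise (Finset.univ : Finset Y) (fun y : Y => ConjClasses.mk y.1)]
  refine Finset.dvd_sum fun c _ => ?_
  rcases (Finset.univ.filter (fun y : Y => ConjClasses.mk y.1 = c)).eq_empty_or_nonempty with he | ⟨y0, hy0⟩
  · rw [he, Finset.sum_empty]; exact dvd_zero _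
  have hy0' := (Finset.mem_filter.1 hy0).2
  rw [Finset.sum_congr rfl (fun y hy => show Nat.card (T y.1) = Nat.card (T y0.1) by
    obtain ⟨g, hg⟩ := isConj_iff.1 (ConjClasses.mk_eq_mk_iff_isConj.1 (hy0'.trans (Finset.mem_filter.1 hy).2.symm))
    rw [← hg, hT]), Finset.sum_const, smul_eq_mul]
  have hcard : (Finset.univ.filter (fun y : Y => ConjClasses.mk y.1 = c)).card =
      Nat.card {g : G // IsConj y0.1 g} := by
    rw [← Fintype.card_subtype, ← Nat.card_eq_fintype_card]
    refine Nat.card_congr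
      { toFun := fun y => ⟨y.1.1, ConjClasses.mk_eq_mk_iff_isConj.1 (hy0'.trans y.2.symm)⟩
        invFun := fun g => ⟨⟨g.1, ?_⟩, (ConjClasses.mk_eq_mk_iff_isConj.2 g.2).symm.trans hy0'⟩
        left_inv := fun y => rfl
        right_inv := fun g => rfl }
    obtain ⟨a, ha⟩ := isConj_iff.1 g.2
    rw [← ha, show a * y0.1 * a⁻¹ = MulAut.conj a y0.1 from rfl, MulEquiv.orderOf_eq, y0.2]
  rw [hcard]
  set C := Subgroup.centralizer ({y0.1} : Set G) with hC
  have hTC : Nat.card (T y0.1) = Nat.card {x : C // orderOf x = p ^ s} := by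
    refine Nat.card_congr
      { toFun := fun x => ⟨⟨x.1, Subgroup.mem_centralizer_singleton_iff.2 x.2.2⟩, by
          rw [← Subgroup.orderOf_coe]; exact x.2.1⟩
        invFun := fun x => ⟨x.1.1, by rw [Subgroup.orderOf_coe]; exact x.2,
          Subgroup.mem_centralizer_singleton_iff.1 x.1.2⟩
        left_inv := fun x => rfl
        right_inv := fun x => rfl }
  rw [hTC]
  obtain ⟨Q⟩ := (inferInstance : Nonempty (Sylow p C))
  obtain ⟨h1, h2⟩ := dvd_count_prime_power (s := s) hodd (by omega) Q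
  by_cases hQ : IsCyclic Q
  swap
  · exact dvd_mul_of_dvd_right (h2 hQ) _
  -- a cyclic Sylow subgroup of the centralizer is not Sylow in `G`
  obtain ⟨R, hR⟩ := (Q.isPGroup'.map C.subtype).exists_le_sylow
  have hne : (Q : Subgroup C).map C.subtype ≠ (R : Subgroup G) := by
    intro he
    obtain ⟨g, hg⟩ := MulAction.exists_smul_eq G R P
    haveI := hQ
    haveI : IsCyclic R := by
      rw [← he]
      exact ((Q : Subgroup C).equivMapOfInjective C.subtype C.subtype_injective).isCyclic.1 hQ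
    refine hP ?_
    rw [← hg, Sylow.coe_subgroup_smul]
    exact ((R : Subgroup G).equivMapOfInjective _ (MulAut.conj g).injective).isCyclic.1 inferInstance
  have hlt : (Nat.card C).factorization p < (Nat.card G).factorization p := by
    by_contra hge
    refine hne (Subgroup.eq_of_le_of_card_ge hR ?_)
    rw [Subgroup.card_map_of_injective C.subtype_injective, Q.card_eq_multiplicity, R.card_eq_multiplicity]
    exact Nat.pow_le_pow_right hp.pos (by omega)
  have hdvd : p ∣ Nat.card {g : G // IsConj y0.1 g} := by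
    by_contra hnd
    have h3 := CfsgLib.Involutions.card_isConj_mul_card_centralizer y0.1
    have hne0 : Nat.card {g : G // IsConj y0.1 g} ≠ 0 := fun h0 => hnd (h0 ▸ dvd_zero p)
    have h4 := congrArg (fun k => k.factorization p) h3
    simp only [Nat.factorization_mul hne0 Nat.card_pos.ne', Finsupp.add_apply,
      Nat.factorization_eq_zero_of_not_dvd hnd, zero_add, ← hC] at h4
    omega
  calc p ^ s = p * p ^ (s - 1) := by rw [← pow_succ']; congr 1; omega
    _ ∣ _ := mul_dvd_mul hdvd h1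

end Cfsg.Agent.S4003
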