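import Cfsg.Statements.S4004
import Cfsg.Agent.Lib.SchurExt.ThreeCounts
-- import your own Cfsg.Agent.* helpers here

set_option autoImplicit false
open scoped Pointwise
open Cfsg

namespace Cfsg.Agent.S4004

open CfsgLib.SchurExt.ThreeCounts

private theorem norm_fixed {G : Type*} [Group G] (E : Subgroup G) [E.Normal] [IsMulCommutative E]
    (Q : Subgroup G) [Fintype Q] (hfix : ∀ e : E, (∀ s ∈ Q, s * (e : G) * s⁻¹ = e) → e = 1) (e : E) :
    letI : CommGroup E := { (inferInstance : Group E) with mul_comm := fun a b => IsMulCommutative.is_comm.comm a b }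
    ∏ s : Q, MulAut.conjNormal (s : G) e = 1 := by
  letI : CommGroup E := { (inferInstance : Group E) with mul_comm := fun a b => IsMulCommutative.is_comm.comm a b }
  show ∏ s : Q, MulAut.conjNormal (s : G) e = 1
  refine hfix _ fun s hs => ?_
  rw [← MulAut.conjNormal_apply]
  refine congrArg Subtype.val ?_
  rw [map_prod]
  refine Fintype.prod_equiv (Equiv.mulLeft (⟨s, hs⟩ : Q)) _ _ fun t => ?_
  simp [map_mul]

private theorem frob_case {G : Type*} [Group G] [Finite G] (p q : ℕ) [hp : Fact p.Prime] [hq : Fact q.Prime]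
    (hne : p ≠ q) (hord : ∀ g : G, orderOf g = 1 ∨ orderOf g = p ∨ orderOf g = q) (hqG : q ∣ Nat.card G)
    (hpG : p ∣ Nat.card G) (E : Subgroup G) [E.Normal] [IsMulCommutative E] (hE : E ≠ ⊥)
    (hEp : ∀ e ∈ E, e ^ p = 1) :
    ∃ C : Subgroup G, Cfsg.IsFrobeniusComplement C ∧ (Nat.card ↥C).Prime := by
  classical
  haveI : Fintype G := Fintype.ofFinite G
  letI : CommGroup E := { (inferInstance : Group E) with mul_comm := fun a b => IsMulCommutative.is_comm.comm a b }
  have hnpq : ∀ x y : G, orderOf x = p → orderOf y = q → x * y ≠ y * x := by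
    intro x y hx hy hxy
    have h := (show Commute x y from hxy).orderOf_mul_eq_mul_orderOf_of_coprime
      (by rw [hx, hy]; exact (Nat.coprime_primes hp.out hq.out).2 hne)
    rw [hx, hy] at h
    have := hp.out.two_le
    have := hq.out.two_le
    rcases hord (x * y) with e | e | e <;> rw [h] at e <;> nlinarith
  have hEo : ∀ e : E, e ≠ 1 → orderOf (e : G) = p := fun e he =>
    orderOf_eq_prime (hEp _ e.2) fun h => he (Subtype.ext h)
  have hEfix : ∀ (e : E) (y : G), orderOf y = q → y * (e : G) * y⁻¹ = e → e = 1 := by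
    intro e y hy h
    by_contra he
    exact hnpq _ y (hEo e he) hy (mul_inv_eq_iff_eq_mul.1 h).symm
  have hEq : ∀ e : E, e ^ q = 1 → e = 1 := by
    intro e he
    by_contra he1
    have h' : (e : G) ^ q = 1 := congrArg Subtype.val he
    have := orderOf_dvd_of_pow_eq_one h'
    rw [hEo e he1] at this
    exact hne ((Nat.prime_dvd_prime_iff_eq hp.out hq.out).1 this)
  have hqel : ∀ {R : Subgroup G}, IsPGroup q R → ∀ x ∈ R, x ≠ 1 → orderOf x = q := by
    intro R hR x hx hx1
    rcases hord x with e | e | e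
    · exact absurd (orderOf_eq_one_iff.1 e) hx1
    · exfalso
      obtain ⟨k, hk⟩ := hR ⟨x, hx⟩
      have h' : x ^ q ^ k = 1 := congrArg Subtype.val hk
      have := orderOf_dvd_of_pow_eq_one h'
      rw [e] at this
      exact hne ((Nat.prime_dvd_prime_iff_eq hp.out hq.out).1 (hp.out.dvd_of_dvd_pow this))
    · exact e
  obtain ⟨Q⟩ := (inferInstance : Nonempty (Sylow q G))
  have hQne : (Q : Subgroup G) ≠ ⊥ := Q.ne_bot_of_dvd_card hqG
  obtain ⟨e₀, he₀, he₀1⟩ := (Subgroup.bot_or_exists_ne_one _).resolve_left hE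
  set e : E := ⟨e₀, he₀⟩ with he
  have he1 : e ≠ 1 := fun h => he₀1 (congrArg Subtype.val h)
  -- `Q` has prime order
  have hcardQ : Nat.card Q = q := by
    haveI : Nontrivial Q := (Subgroup.nontrivial_iff_ne_bot _).2 hQne
    haveI := Q.isPGroup'.center_nontrivial
    obtain ⟨⟨⟨z, hz⟩, hzc⟩, hz1⟩ := exists_ne (1 : Subgroup.center Q)
    have hz1' : z ≠ 1 := fun h => hz1 (Subtype.ext (Subtype.ext h))
    have hzo := hqel Q.isPGroup' z hz hz1'
    suffices (Q : Subgroup G) = Subgroup.zpowers z by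
      show Nat.card (Q : Subgroup G) = q
      rw [this, Nat.card_zpowers, hzo]
    refine le_antisymm (fun w hw => ?_) (Subgroup.zpowers_le.2 hz)
    by_contra hwz
    have hzw : Commute z w := (congrArg Subtype.val (Subgroup.mem_center_iff.1 hzc ⟨w, hw⟩)).symm
    apply he1
    apply hEq
    have hw1 : w ≠ 1 := fun h => hwz (h ▸ one_mem _)
    have hwo := hqel Q.isPGroup' w hw hw1
    have hzk : ∀ k i : ℕ, (z ^ k * w) ^ i = (z ^ i) ^ k * w ^ i := fun k i => by
      rw [(hzw.pow_left k).mul_pow, ← pow_mul, ← pow_mul, mul_comm k i]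
    have hN : ∀ u : G, u ∈ Q → u ≠ 1 → ∀ x : E, ∏ i : Fin q, MulAut.conjNormal (u ^ (i : ℕ)) x = 1 := by
      intro u hu hu1 x
      have huo := hqel Q.isPGroup' u hu hu1
      haveI : Fintype (Subgroup.zpowers u) := Fintype.ofFinite _
      rw [← norm_fixed E (Subgroup.zpowers u) (fun y hy => hEfix y u huo (hy u (Subgroup.mem_zpowers u))) x]
      refine Fintype.prod_equiv ((finCongr huo.symm).trans (finEquivZPowers (isOfFinOrder_of_finite u))) _ _ fun i => ?_
      rfl
    have h1 : ∀ k : Fin q, ∏ i : Fin q, MulAut.conjNormal ((z ^ (k : ℕ) * w) ^ (i : ℕ)) e = 1 := fun k =>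
      hN _ ((Q : Subgroup G).mul_mem (pow_mem hz _) hw)
        (fun h => hwz (by rw [show w = (z ^ (k : ℕ))⁻¹ from eq_inv_of_mul_eq_one_right h]
                          exact inv_mem (pow_mem (Subgroup.mem_zpowers z) _))) _
    have h2 : ∏ k : Fin q, ∏ i : Fin q, MulAut.conjNormal ((z ^ (k : ℕ) * w) ^ (i : ℕ)) e = 1 :=
      Finset.prod_eq_one fun k _ => h1 k
    rw [Finset.prod_comm] at h2
    haveI : NeZero q := ⟨hq.out.ne_zero⟩
    rw [← Finset.mul_prod_erase Finset.univ _ (Finset.mem_univ (0 : Fin q)),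
      Finset.prod_eq_one (s := Finset.univ.erase (0 : Fin q)) ?_, mul_one] at h2
    · simpa using h2
    intro i hi
    have hi0 : (i : ℕ) ≠ 0 := fun h => (Finset.mem_erase.1 hi).1 (Fin.ext h)
    have hzi : z ^ (i : ℕ) ≠ 1 := fun h => by
      have h' := Nat.le_of_dvd (Nat.pos_of_ne_zero hi0) (hzo ▸ orderOf_dvd_of_pow_eq_one h)
      omega
    refine Eq.trans (Finset.prod_congr rfl fun k _ => ?_)
      (hN (z ^ (i : ℕ)) (pow_mem hz _) hzi (MulAut.conjNormal (w ^ (i : ℕ)) e))
    rw [hzk, map_mul]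
    rfl
  obtain ⟨y, hyQ, hy1⟩ := (Subgroup.bot_or_exists_ne_one _).resolve_left hQne
  have hyo := hqel Q.isPGroup' y hyQ hy1
  have hmemQ : ∀ x ∈ Subgroup.normalizer (Q : Set G), orderOf x = q → x ∈ Q := by
    intro x hx hxo
    have hxp : IsPGroup q (Subgroup.zpowers x) :=
      IsPGroup.of_card (n := 1) (by rw [Nat.card_zpowers, hxo, pow_one])
    exact ((IsPGroup.inf_normalizer_sylow hxp Q).le ⟨Subgroup.mem_zpowers x, hx⟩).2
  by_cases hx : ∃ x ∈ Subgroup.normalizer (Q : Set G), orderOf x = p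
  · exfalso
    obtain ⟨x, hxN, hxo⟩ := hx
    apply he1
    apply hEq
    haveI : NeZero p := ⟨hp.out.ne_zero⟩
    have hx1 : x ≠ 1 := fun h => hp.out.ne_one (by rw [← hxo, h, orderOf_one])
    have hord' : ∀ s ∈ Q, orderOf (s * x) = p := by
      intro s hs
      rcases hord (s * x) with h | h | h
      · exfalso
        rw [orderOf_eq_one_iff, mul_eq_one_iff_eq_inv] at h
        have hxQ : x ∈ Q := (inv_mem_iff).1 (show x⁻¹ ∈ (Q : Subgroup G) from h ▸ hs)
        rw [hqel Q.isPGroup' x hxQ hx1] at hxo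
        exact hne hxo.symm
      · exact h
      · exfalso
        have hxQ : x ∈ Q := by
          have h' := (Q : Subgroup G).mul_mem ((Q : Subgroup G).inv_mem hs)
            (hmemQ _ ((Subgroup.normalizer _).mul_mem (Subgroup.le_normalizer hs) hxN) h)
          rwa [inv_mul_cancel_left] at h'
        rw [hqel Q.isPGroup' x hxQ hx1] at hxo
        exact hne hxo.symm
    have hexp : ∀ (w : G) (f : E) (n : ℕ),
        ((f : G) * w) ^ n = ((∏ i : Fin n, MulAut.conjNormal (w ^ (i : ℕ)) f : E) : G) * w ^ n := by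
      intro w f n
      induction n with
      | zero => simp
      | succ n ihn =>
        rw [pow_succ, ihn, Fin.prod_univ_castSucc, Subgroup.coe_mul, MulAut.conjNormal_apply]
        simp only [Fin.val_castSucc, Fin.val_last]
        group
    have h1 : ∀ s : (Q : Subgroup G), ∏ i : Fin p, MulAut.conjNormal (((s : G) * x) ^ (i : ℕ)) e = 1 := by
      intro s
      set w := (s : G) * x with hw
      have hwo : orderOf w = p := hord' s s.2
      have hwp : w ^ p = 1 := hwo ▸ pow_orderOf_eq_one w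
      have hew : ((e : G) * w) ^ p = 1 := by
        rcases hord ((e : G) * w) with h | h | h
        · rw [orderOf_eq_one_iff.1 h, one_pow]
        · rw [← h, pow_orderOf_eq_one]
        · exfalso
          have h2 : ((e : G) * w) ^ q = 1 := h ▸ pow_orderOf_eq_one _
          rw [hexp] at h2
          have hwq : w ^ q ∈ E := by
            rw [eq_inv_of_mul_eq_one_right h2]
            exact inv_mem (SetLike.coe_mem _)
          have hwN : w ^ q ∈ Subgroup.normalizer (Q : Set G) :=
            pow_mem ((Subgroup.normalizer _).mul_mem (Subgroup.le_normalizer s.2) hxN) q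
          have hwq1 : w ^ q ≠ 1 := fun h3 => hne (by
            have := orderOf_dvd_of_pow_eq_one h3
            rw [hwo] at this
            exact (Nat.prime_dvd_prime_iff_eq hp.out hq.out).1 this)
          have hc : (w ^ q) * y * (w ^ q)⁻¹ * y⁻¹ ∈ (Q : Subgroup G) ⊓ E := by
            refine ⟨(Q : Subgroup G).mul_mem ((Subgroup.mem_normalizer_iff.1 hwN y).1 hyQ) (inv_mem hyQ), ?_⟩
            rw [show w ^ q * y * (w ^ q)⁻¹ * y⁻¹ = w ^ q * (y * (w ^ q)⁻¹ * y⁻¹) by group]
            exact E.mul_mem hwq (Subgroup.Normal.conj_mem inferInstance _ (inv_mem hwq) y)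
          have hc1 : w ^ q * y * (w ^ q)⁻¹ * y⁻¹ = 1 := by
            by_contra hne1
            have e1 := hqel Q.isPGroup' _ hc.1 hne1
            have e2 := hEo ⟨_, hc.2⟩ fun h3 => hne1 (congrArg Subtype.val h3)
            exact hne (e2.symm.trans e1)
          exact hnpq _ y (hEo ⟨_, hwq⟩ fun h3 => hwq1 (congrArg Subtype.val h3)) hyo
            (mul_inv_eq_iff_eq_mul.1 (mul_inv_eq_one.1 hc1))
      rw [hexp, hwp, mul_one] at hew
      exact Subtype.ext hew
    have h2 : ∏ s : (Q : Subgroup G), ∏ i : Fin p, MulAut.conjNormal (((s : G) * x) ^ (i : ℕ)) e = 1 :=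
      Finset.prod_eq_one fun s _ => h1 s
    rw [Finset.prod_comm] at h2
    rw [← Finset.mul_prod_erase Finset.univ _ (Finset.mem_univ (0 : Fin p)),
      Finset.prod_eq_one (s := Finset.univ.erase (0 : Fin p)) ?_, mul_one] at h2
    · simp only [Fin.val_zero, pow_zero, map_one, MulAut.one_apply, Finset.prod_const, Finset.card_univ,
        ← Nat.card_eq_fintype_card] at h2
      rwa [hcardQ] at h2
    intro i hi
    have hi0 : (i : ℕ) ≠ 0 := fun h => (Finset.mem_erase.1 hi).1 (Fin.ext h)
    have hcop : (i : ℕ).Coprime p := Nat.Coprime.symm (hp.out.coprime_iff_not_dvd.2 fun h => by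
      have := Nat.le_of_dvd (Nat.pos_of_ne_zero hi0) h; omega)
    have hinN : ∀ (s : (Q : Subgroup G)) (m : ℕ), ((s : G) * x) ^ m * (x ^ m)⁻¹ ∈ (Q : Subgroup G) := by
      intro s m
      induction m with
      | zero => simp
      | succ m ihm =>
        rw [pow_succ', pow_succ', show (s : G) * x * ((s : G) * x) ^ m * (x * x ^ m)⁻¹ =
          s * (x * (((s : G) * x) ^ m * (x ^ m)⁻¹) * x⁻¹) by group]
        exact (Q : Subgroup G).mul_mem s.2 ((Subgroup.mem_normalizer_iff.1 hxN _).1 ihm)
    have hbij : Function.Bijective fun s : (Q : Subgroup G) =>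
        (⟨((s : G) * x) ^ (i : ℕ) * (x ^ (i : ℕ))⁻¹, hinN s i⟩ : (Q : Subgroup G)) := by
      refine Finite.injective_iff_bijective.1 fun s s' h => ?_
      have h' := mul_right_cancel (congrArg Subtype.val h)
      have key : ∀ c : G, orderOf c = p → c = (c ^ (i : ℕ)) ^ (Nat.gcdA (i : ℕ) p) := fun c hc => by
        have e1 : c ^ ((Nat.gcd (i : ℕ) p : ℕ) : ℤ) = c := by rw [hcop.gcd_eq_one, Nat.cast_one, zpow_one]
        rw [Nat.gcd_eq_gcd_ab, zpow_add, zpow_mul, zpow_mul, zpow_natCast, zpow_natCast,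
          show c ^ p = 1 from hc ▸ pow_orderOf_eq_one c, one_zpow, mul_one] at e1
        exact e1.symm
      refine Subtype.ext (mul_right_cancel (b := x) ?_)
      rw [key _ (hord' s s.2), key _ (hord' s' s'.2), h']
    refine Eq.trans (Fintype.prod_bijective _ hbij _
      (fun s : (Q : Subgroup G) => MulAut.conjNormal (s : G) (MulAut.conjNormal (x ^ (i : ℕ)) e)) fun s => ?_)
      (norm_fixed E (Q : Subgroup G) (fun f hf => hEfix f y hyo (hf y hyQ)) _)
    show MulAut.conjNormal (((s : G) * x) ^ (i : ℕ)) e =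
      MulAut.conjNormal (((s : G) * x) ^ (i : ℕ) * (x ^ (i : ℕ))⁻¹) (MulAut.conjNormal (x ^ (i : ℕ)) e)
    rw [← MulAut.mul_apply, ← map_mul, inv_mul_cancel_right]
  · push Not at hx
    have hNQ : Subgroup.normalizer (Q : Set G) ≤ (Q : Subgroup G) := fun n hn => by
      rcases hord n with h | h | h
      · rw [orderOf_eq_one_iff.1 h]; exact one_mem _
      · exact absurd h (hx n hn)
      · exact hmemQ n hn h
    refine ⟨(Q : Subgroup G), ⟨hQne, fun h => ?_, fun g hg => ?_⟩, (show Nat.card (Q : Subgroup G) = q from hcardQ).symm ▸ hq.out⟩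
    · have h' : Nat.card (Q : Subgroup G) = q := hcardQ
      rw [h, Subgroup.card_top] at h'
      rw [h'] at hpG
      exact hne ((Nat.prime_dvd_prime_iff_eq hp.out hq.out).1 hpG)
    · rw [Subgroup.eq_bot_iff_forall]
      rintro u ⟨hu, hu'⟩
      by_contra hu1
      obtain ⟨v, hv, hvu⟩ := (Subgroup.mem_smul_pointwise_iff_exists _ _ _).1 hu'
      have hzv : ∀ {w : G}, w ∈ Q → w ≠ 1 → (Q : Subgroup G) = Subgroup.zpowers w := fun {w} hw hw1 =>
        (Subgroup.eq_of_le_of_card_ge (Subgroup.zpowers_le.2 hw) (by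
          rw [Nat.card_zpowers, hqel Q.isPGroup' w hw hw1]; exact hcardQ.le)).symm
      have hv1 : v ≠ 1 := fun h => hu1 (by rw [← hvu, h]; simp)
      refine hg (hNQ (Sylow.smul_eq_iff_mem_normalizer.1 (Sylow.ext ?_)))
      rw [Sylow.coe_subgroup_smul]
      show (MulAut.conj g) • (Q : Subgroup G) = (Q : Subgroup G)
      refine Subgroup.eq_of_le_of_card_ge (fun z hz => ?_) (le_of_eq ?_)
      · obtain ⟨w, hw, rfl⟩ := (Subgroup.mem_smul_pointwise_iff_exists _ _ _).1 hz
        rw [hzv hv hv1] at hw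
        obtain ⟨i, rfl⟩ := hw
        show MulAut.conj g (v ^ i) ∈ (Q : Subgroup G)
        rw [map_zpow]
        exact Subgroup.zpow_mem _ (show MulAut.conj g v ∈ (Q : Subgroup G) from (show MulAut.conj g v = u from hvu) ▸ hu) i
      · rw [Subgroup.pointwise_smul_def]
        exact (Subgroup.card_map_of_injective (MulAut.conj g).injective).symm

/-- Let G be a finite group of odd order in which the numbers of elements of each order that occurs (the numbers #{g : o(g) = m}, m ranging over the element orders of G) take exactly three different values. Then the order of G has at most two prime divisors; and if it has exactly two, then every Sylow subgroup of G for a prime dividing its order has prime exponent, G is a Frobenius group, and some Frobenius complement of G has prime order. -/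
theorem result {G : Type*} [Group G] [Finite G] (hodd : Odd (Nat.card G)) (h : (((fun m : ℕ => Nat.card {g : G // orderOf g = m}) '' Set.range (orderOf : G → ℕ))).ncard = 3) :
    (Nat.card G).primeFactors.card ≤ 2 ∧
      ((Nat.card G).primeFactors.card = 2 →
        (∀ (p : ℕ) [Fact p.Prime] (P : Sylow p G), p ∣ Nat.card G → Monoid.exponent ↥(P : Subgroup G) = p) ∧
        ∃ C : Subgroup G, Cfsg.IsFrobeniusComplement C ∧ (Nat.card ↥C).Prime) := by
  classical
  obtain ⟨a, b, hab, ha1, hb1, ha0, hb0, hall, hvals⟩ := exists_vals h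
  have hT : TwoVals G a b := ⟨hvals, hab, ha0, hb0⟩
  have h2 : ¬ 2 ∣ Nat.card G := Nat.two_dvd_ne_zero.2 (Nat.odd_iff.1 hodd)
  have hp3 : ∀ r : ℕ, r.Prime → r ∣ Nat.card G → 3 ≤ r := fun r hr hrd => by
    rcases eq_or_ne r 2 with rfl | e
    · exact absurd hrd h2
    · have := hr.two_le; omega
  have hdiff : ∀ p q : ℕ, p.Prime → q.Prime → p ≠ q → 3 ≤ p → 3 ≤ q → p ∣ Nat.card G → q ∣ Nat.card G →
      cnt G p ≠ cnt G q := fun p q hp hq hne hp' hq' hpG hqG => by
    haveI := Fact.mk hp
    haveI := Fact.mk hq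
    exact hT.not_same hne hp' hq' hpG hqG (Or.inl h2)
  have hle : (Nat.card G).primeFactors.card ≤ 2 := by
    refine le_trans (Finset.card_le_card fun r hr => ?_) (hT.all_or_two hdiff)
    exact Finset.mem_filter.2 ⟨hr, hp3 r (Nat.prime_of_mem_primeFactors hr) (Nat.mem_primeFactors.1 hr).2.1⟩
  refine ⟨hle, fun h22 => ?_⟩
  obtain ⟨p, q, hne, hpq⟩ := Finset.card_eq_two.1 h22
  obtain ⟨hp, hpG, -⟩ := Nat.mem_primeFactors.1 (show p ∈ (Nat.card G).primeFactors by simp [hpq])
  obtain ⟨hq, hqG, -⟩ := Nat.mem_primeFactors.1 (show q ∈ (Nat.card G).primeFactors by simp [hpq])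
  haveI := Fact.mk hp
  haveI := Fact.mk hq
  wlog hpa : cnt G p = a generalizing p q
  · have hpb := (hT.cases (hp3 p hp hpG) (cnt_ne_zero_of_prime hpG)).resolve_left hpa
    have hqa := (hT.cases (hp3 q hq hqG) (cnt_ne_zero_of_prime hqG)).resolve_right fun e =>
      hdiff p q hp hq hne (hp3 p hp hpG) (hp3 q hq hqG) hpG hqG (hpb.trans e.symm)
    exact this q p hne.symm (hpq.trans (Finset.pair_comm p q)) hq hqG hp hpG inferInstance inferInstance hqa
  have hqb := (hT.cases (hp3 q hq hqG) (cnt_ne_zero_of_prime hqG)).resolve_left fun e =>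
      hdiff p q hp hq hne (hp3 p hp hpG) (hp3 q hq hqG) hpG hqG (hpa.trans e.symm)
  obtain ⟨-, -, hpq0⟩ := hT.diff_class hpG hqG hne (hp3 p hp hpG) (hp3 q hq hqG) hpa hqb
  have hsp := hT.sq_diff hpG hqG hne (hp3 p hp hpG) (hp3 q hq hqG) hpa hqb
  have hsq := hT.symm.sq_diff hqG hpG hne.symm (hp3 q hq hqG) (hp3 p hp hpG) hqb hpa
  have hex : ∀ (g : G) (d : ℕ), d ∣ orderOf g → cnt G d ≠ 0 := fun g d hd =>
    cnt_ne_zero.2 ⟨g ^ (orderOf g / d), orderOf_pow_orderOf_div (orderOf_pos g).ne' hd⟩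
  have hord : ∀ g : G, orderOf g = 1 ∨ orderOf g = p ∨ orderOf g = q := by
    intro g
    have hprimes : ∀ r : ℕ, r.Prime → r ∣ orderOf g → r = p ∨ r = q := fun r hr hrd => by
      have h' : r ∈ (Nat.card G).primeFactors :=
        Nat.mem_primeFactors.2 ⟨hr, hrd.trans (orderOf_dvd_natCard g), Nat.card_pos.ne'⟩
      rw [hpq] at h'
      simpa using h'
    by_contra hcon
    push Not at hcon
    obtain ⟨h1, h2', h3⟩ := hcon
    obtain ⟨r, hr, hrd⟩ := Nat.exists_prime_and_dvd h1
    obtain ⟨m, hm⟩ := hrd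
    have hm1 : m ≠ 1 := fun e => by
      rw [e, mul_one] at hm
      rcases hprimes r hr (hm ▸ dvd_rfl) with rfl | rfl
      exacts [h2' hm, h3 hm]
    obtain ⟨s, hs, hsm⟩ := Nat.exists_prime_and_dvd hm1
    have hd : r * s ∣ orderOf g := hm ▸ Nat.mul_dvd_mul_left r hsm
    rcases hprimes r hr (dvd_trans (dvd_mul_right r s) hd) with rfl | rfl <;>
      rcases hprimes s hs (dvd_trans (dvd_mul_left s _) hd) with rfl | rfl
    · exact hex g _ hd (by rw [← pow_two]; exact hsp)
    · exact hex g _ hd hpq0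
    · exact hex g _ hd (by rw [mul_comm]; exact hpq0)
    · exact hex g _ hd (by rw [← pow_two]; exact hsq)
  refine ⟨fun r _ R hrd => ?_, ?_⟩
  · have hr : r ∈ (Nat.card G).primeFactors := Nat.mem_primeFactors.2 ⟨Fact.out, hrd, Nat.card_pos.ne'⟩
    have hpow : ∀ x : (R : Subgroup G), x ^ r = 1 := by
      intro x
      obtain ⟨k, hk⟩ := R.isPGroup' x
      have hdv : orderOf (x : G) ∣ r ^ k := orderOf_dvd_of_pow_eq_one (congrArg Subtype.val hk)
      refine Subtype.ext (orderOf_dvd_iff_pow_eq_one.1 ?_)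
      rcases hord (x : G) with e | e | e <;> rw [e] at hdv ⊢
      · exact one_dvd _
      · exact (Nat.prime_dvd_prime_iff_eq hp Fact.out).1 (hp.dvd_of_dvd_pow hdv) ▸ dvd_rfl
      · exact (Nat.prime_dvd_prime_iff_eq hq Fact.out).1 (hq.dvd_of_dvd_pow hdv) ▸ dvd_rfl
    haveI : Nontrivial (R : Subgroup G) := (Subgroup.nontrivial_iff_ne_bot _).2 (R.ne_bot_of_dvd_card hrd)
    refine ((Nat.dvd_prime Fact.out).1 (Monoid.exponent_dvd_of_forall_pow_eq_one hpow)).resolve_left fun e => ?_
    exact not_subsingleton _ (Monoid.exp_eq_one_iff.1 e)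
  · have hsol : Group.IsSolvable G := by
      refine CfsgLib.CharTheory.isSolvable_of_card_dvd_pow_mul_pow p q ((Nat.card G).factorization p)
        ((Nat.card G).factorization q) hp hq (dvd_of_eq ?_)
      have hprod := (Nat.prod_primeFactors_pow_factorization (Nat.card_pos (α := G)).ne').symm
      rw [hpq, Finset.prod_pair hne] at hprod
      exact hprod.symm
    obtain ⟨N, hN, hNne, hNab⟩ : ∃ N : Subgroup G, N.Normal ∧ N ≠ ⊥ ∧ IsMulCommutative N := by
      obtain ⟨n, hn⟩ := hsol
      have hnt : derivedSeries G 0 ≠ ⊥ := by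
        rw [derivedSeries_zero]
        intro e
        have h1 : Nat.card G = 1 := by rw [← Subgroup.card_top (G := G), e, Subgroup.card_bot]
        rw [h1] at hpG
        exact hp.one_lt.ne' (Nat.dvd_one.1 hpG)
      have hk : ∃ k, derivedSeries G k ≠ ⊥ ∧ derivedSeries G (k + 1) = ⊥ := by
        by_contra hno
        push Not at hno
        have : ∀ k, derivedSeries G k ≠ ⊥ := fun k => by
          induction k with
          | zero => exact hnt
          | succ k ih => exact hno k ih
        exact this n hn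
      obtain ⟨k, hk1, hk2⟩ := hk
      refine ⟨derivedSeries G k, inferInstance, hk1, ⟨⟨fun x y => Subtype.ext ?_⟩⟩⟩
      have h' := Subgroup.commutator_mem_commutator x.2 y.2
      rw [← derivedSeries_succ, hk2, Subgroup.mem_bot, commutatorElement_eq_one_iff_commute] at h'
      exact h'
    obtain ⟨x, hxN, hx1⟩ := (Subgroup.bot_or_exists_ne_one _).resolve_left hNne
    haveI := hN
    haveI := hNab
    obtain ⟨r, hr, hrx⟩ : ∃ r, r ∈ ({p, q} : Set ℕ) ∧ orderOf x = r := by
      rcases hord x with e | e | e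
      · exact absurd (orderOf_eq_one_iff.1 e) hx1
      · exact ⟨p, Or.inl rfl, e⟩
      · exact ⟨q, Or.inr rfl, e⟩
    let E : Subgroup G :=
      { carrier := {z | z ∈ N ∧ z ^ r = 1}
        one_mem' := ⟨one_mem _, one_pow _⟩
        mul_mem' := fun {a b} ha hb => ⟨mul_mem ha.1 hb.1, by
          rw [(show Commute a b from congrArg Subtype.val
            (hNab.is_comm.comm (⟨a, ha.1⟩ : N) ⟨b, hb.1⟩)).mul_pow, ha.2, hb.2, mul_one]⟩
        inv_mem' := fun {a} ha => ⟨inv_mem ha.1, by rw [inv_pow, ha.2, inv_one]⟩ }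
    haveI : E.Normal := ⟨fun z hz g => ⟨hN.conj_mem z hz.1 g, by rw [conj_pow, hz.2, mul_one, mul_inv_cancel]⟩⟩
    haveI : IsMulCommutative E := ⟨⟨fun z w => Subtype.ext (congrArg Subtype.val
      (hNab.is_comm.comm (⟨z, z.2.1⟩ : N) ⟨w, w.2.1⟩) : )⟩⟩
    have hEne : E ≠ ⊥ := fun e => hx1 (Subgroup.mem_bot.1 (e ▸ (⟨hxN, hrx ▸ pow_orderOf_eq_one x⟩ : x ∈ E)))
    rcases hr with rfl | rfl
    · exact frob_case r q hne hord hqG hpG E hEne fun z hz => hz.2
    · exact frob_case r p hne.symm (fun g => by rcases hord g with e | e | e <;> tauto) hpG hqG E hEne fun z hz => hz.2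

end Cfsg.Agent.S4004
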