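import Cfsg.Statements.S4005
import Cfsg.Agent.Lib.SchurExt.SmallSpectrum
-- import your own Cfsg.Agent.* helpers here

set_option autoImplicit false
open Cfsg

namespace Cfsg.Agent.S4005



/-- A finite group whose set of element orders is exactly {1, 2, 3} has either a normal elementary abelian 3-subgroup of index 2 or a normal elementary abelian 2-subgroup of index 3. -/
theorem result {G : Type*} [Group G] [Finite G] (h : Set.range (orderOf : G → ℕ) = {k : ℕ | 1 ≤ k ∧ k ≤ 3}) :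
    (∃ N : Subgroup G, N.Normal ∧ Cfsg.IsElementaryAbelian 3 N ∧ N.index = 2) ∨
      (∃ N : Subgroup G, N.Normal ∧ Cfsg.IsElementaryAbelian 2 N ∧ N.index = 3) := by
  haveI := Fact.mk Nat.prime_two
  haveI := Fact.mk Nat.prime_three
  have hmem : ∀ g : G, orderOf g ≤ 3 := fun g =>
    ((Set.ext_iff.1 h (orderOf g)).1 ⟨g, rfl⟩).2
  have h4 : ∀ g : G, orderOf g ≤ 4 := fun g => (hmem g).trans (by norm_num)
  obtain ⟨g2, hg2⟩ := (Set.ext_iff.1 h 2).2 ⟨by norm_num, by norm_num⟩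
  obtain ⟨g3, hg3⟩ := (Set.ext_iff.1 h 3).2 ⟨by norm_num, by norm_num⟩
  have h2 : 2 ∣ Nat.card G := hg2 ▸ orderOf_dvd_natCard g2
  have h3 : 3 ∣ Nat.card G := hg3 ▸ orderOf_dvd_natCard g3
  have hexp2 : ∀ (S : Sylow 2 G) (x : (S : Subgroup G)), x ^ 2 = 1 := by
    intro S x
    obtain ⟨i, hi⟩ := IsPGroup.iff_orderOf.1 S.isPGroup' x
    have h1 := hmem x
    rw [Subgroup.orderOf_coe, hi] at h1
    have : i ≤ 1 := by
      by_contra hc
      have := Nat.pow_le_pow_right (show 2 > 0 by norm_num) (show 2 ≤ i by omega)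
      omega
    exact orderOf_dvd_iff_pow_eq_one.1 (hi ▸ (by simpa using pow_dvd_pow 2 this : 2 ^ i ∣ 2))
  by_cases hO : Cfsg.pCore 3 G = ⊥
  · right
    obtain ⟨N, hN⟩ : ∃ N, N = Cfsg.pCore 2 G := ⟨_, rfl⟩
    haveI : N.Normal := hN ▸ CfsgLib.FFModules.normal_pCore
    obtain ⟨hC, -, hT⟩ := CfsgLib.SchurExt.two_core_small h4 h2 h3 hO N hN
    obtain ⟨S⟩ := (inferInstance : Nonempty (Sylow 2 G))
    obtain ⟨T⟩ := (inferInstance : Nonempty (Sylow 3 G))
    have hNp : IsPGroup 2 N := hN ▸ CfsgLib.FFModules.isPGroup_pCore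
    have hNS : N ≤ (S : Subgroup G) := by
      obtain ⟨Q, hQ⟩ := hNp.exists_le_sylow
      obtain ⟨g, rfl⟩ := MulAction.exists_smul_eq G Q S
      intro x hx
      rw [Sylow.coe_subgroup_smul]
      exact ⟨g⁻¹ * x * g, hQ (by simpa using (inferInstance : N.Normal).conj_mem x hx g⁻¹),
        by simp [mul_assoc]⟩
    have hSab : ∀ a b : (S : Subgroup G), a * b = b * a := fun a b => by
      have e : ∀ c : (S : Subgroup G), c⁻¹ = c := fun c =>
        inv_eq_of_mul_eq_one_right (by rw [← pow_two, hexp2 S c])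
      calc a * b = (a * b)⁻¹ := (e _).symm
        _ = b * a := by rw [mul_inv_rev, e a, e b]
    have hSN : (S : Subgroup G) ≤ N := fun x hx => hC (Subgroup.mem_centralizer_iff.2 fun v hv =>
      congrArg Subtype.val (hSab ⟨v, hNS hv⟩ ⟨x, hx⟩))
    have hSeq : (S : Subgroup G) = N := le_antisymm hSN hNS
    refine ⟨N, inferInstance, ⟨?_, ?_⟩, ?_⟩
    · exact ⟨⟨fun a b => Subtype.ext (congrArg Subtype.val (hSab ⟨a, hNS a.2⟩ ⟨b, hNS b.2⟩) :)⟩⟩
    · intro a ha
      simpa using congrArg Subtype.val (hexp2 S ⟨a, hNS ha⟩)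
    · rw [← hSeq]
      refine Nat.dvd_antisymm ?_ ?_
      · rw [← hT T]
        refine Nat.Coprime.dvd_of_dvd_mul_right (n := (T : Subgroup G).index) ?_ ?_
        · refine Nat.coprime_of_dvd fun r hr h1 h1' => ?_
          rcases CfsgLib.SchurExt.prime_dvd_small h4 hr (h1.trans (S : Subgroup G).index_dvd_card) with rfl | rfl
          · exact S.not_dvd_index h1
          · exact T.not_dvd_index h1'
        · rw [Subgroup.card_mul_index]; exact (S : Subgroup G).index_dvd_card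
      · refine Nat.Coprime.dvd_of_dvd_mul_left (m := Nat.card (S : Subgroup G)) ?_ ?_
        · rw [S.card_eq_multiplicity]
          exact Nat.Coprime.pow_right _ (by norm_num)
        · rw [Subgroup.card_mul_index]; exact h3
  · left
    obtain ⟨N, hN⟩ : ∃ N, N = Cfsg.pCore 3 G := ⟨_, rfl⟩
    haveI : N.Normal := hN ▸ CfsgLib.FFModules.normal_pCore
    obtain ⟨hab, hexp, S, ⟨e⟩, hS⟩ := CfsgLib.SchurExt.three_core_small h4 h2 N hN (hN ▸ hO)
    refine ⟨N, inferInstance, ⟨hab, hexp⟩, ?_⟩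
    rw [Subgroup.index_eq_card, ← Nat.card_congr e.toEquiv]
    have hne1 : Nat.card (S : Subgroup G) ≠ 1 := fun h1 => S.ne_bot_of_dvd_card h2 (Subgroup.card_eq_one.1 h1)
    rcases hS with hS | ⟨m, -, ⟨f⟩⟩
    · obtain ⟨g, hg⟩ := IsCyclic.exists_ofOrder_eq_natCard (α := (S : Subgroup G))
      exact (Nat.prime_two.eq_one_or_self_of_dvd _ (hg ▸ orderOf_dvd_of_pow_eq_one (hexp2 S g))).resolve_left hne1
    · exfalso
      haveI : NeZero (2 ^ m) := ⟨by positivity⟩
      have h1 := orderOf_dvd_of_pow_eq_one (hexp2 S (f.symm (QuaternionGroup.xa 0)))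
      rw [MulEquiv.orderOf_eq, QuaternionGroup.orderOf_xa] at h1
      norm_num at h1

end Cfsg.Agent.S4005
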