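import Cfsg.Statements.S4006
import Cfsg.Agent.Lib.SchurExt.SmallSpectrum
import Cfsg.Agent.Lib.SchurExt.TwoEngel
import Cfsg.Agent.Lib.SchurExt.Elementary
-- import your own Cfsg.Agent.* helpers here

set_option autoImplicit false
open Cfsg

namespace Cfsg.Agent.S4006

open scoped commutatorElement

open scoped commutatorElement in
/-- A `2`-group of exponent `4` and class `2` with an action of `S₃` as in a group without elements
of order `6` or `8` has exponent `2`. -/
theorem sq_eq_one {M : Type*} [Group M] (σ τ : MulAut M) (hτ : ∀ x, τ (τ (τ x)) = x)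
    (hστ : ∀ x, σ (τ x) = τ (τ (σ x))) (hfix : ∀ x, τ x = x → x = 1)
    (hprod : ∀ x, x * τ x * τ (τ x) = 1) (hcomm : ∀ x, Commute x (τ x))
    (hsq : ∀ x, (x * σ x) * (x * σ x) = 1) (hexp : ∀ x : M, x ^ 4 = 1)
    (hcen : ∀ x y : M, ⁅x, y⁆ ∈ Subgroup.center M) (x : M) : x * x = 1 := by
  have hc : ∀ a b g : M, ⁅a, b⁆ * g = g * ⁅a, b⁆ := fun a b g =>
    (Subgroup.mem_center_iff.1 (hcen a b) g).symm
  have hl : ∀ a b c : M, ⁅a * b, c⁆ = ⁅a, c⁆ * ⁅b, c⁆ := by
    intro a b c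
    calc ⁅a * b, c⁆ = a * ⁅b, c⁆ * (c * a⁻¹ * c⁻¹) := by simp only [commutatorElement_def]; group
      _ = ⁅b, c⁆ * (a * (c * a⁻¹ * c⁻¹)) := by rw [← hc, mul_assoc]
      _ = ⁅b, c⁆ * ⁅a, c⁆ := by simp only [commutatorElement_def]; group
      _ = _ := hc _ _ _
  have hr : ∀ a b c : M, ⁅a, b * c⁆ = ⁅a, b⁆ * ⁅a, c⁆ := by
    intro a b c
    rw [← commutatorElement_inv (b * c) a, hl, mul_inv_rev, commutatorElement_inv, commutatorElement_inv, hc]
  have hswap : ∀ a b : M, b * a = ⁅b, a⁆ * (a * b) := fun a b => by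
    simp only [commutatorElement_def]; group
  have hsquare : ∀ a b : M, (a * b) * (a * b) = ⁅b, a⁆ * ((a * a) * (b * b)) := fun a b => by
    calc (a * b) * (a * b) = a * (b * a) * b := by group
      _ = a * ⁅b, a⁆ * (a * b * b) := by rw [hswap]; group
      _ = ⁅b, a⁆ * a * (a * b * b) := by rw [hc]
      _ = _ := by group
  have hd2 : ∀ a b : M, ⁅a, b⁆ * ⁅a, b⁆ = 1 := by
    intro a b
    have h4 : ⁅a, b⁆ * ⁅a, b⁆ * (⁅a, b⁆ * ⁅a, b⁆) = 1 := by
      rw [← hl, ← hl, ← pow_two, ← pow_two, ← pow_mul, hexp a]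
      simp [commutatorElement_def]
    have hcm : Commute (b * b) (a * a) := by
      rw [← commutatorElement_eq_one_iff_commute, hl, hr]
      rw [← commutatorElement_inv a b, ← mul_inv_rev, ← mul_inv_rev, h4, inv_one]
    have := hexp (b * a)
    rw [show (b * a) ^ 4 = ((b * a) * (b * a)) * ((b * a) * (b * a)) by simp [pow_succ, mul_assoc],
      hsquare b a] at this
    have e : ((b * b) * (a * a)) * ((b * b) * (a * a)) = 1 := by
      rw [hcm.symm.mul_mul_mul_comm, ← pow_two, ← pow_two, ← pow_two, ← pow_two, ← pow_mul, ← pow_mul,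
        hexp, hexp, one_mul]
    calc ⁅a, b⁆ * ⁅a, b⁆ = ⁅a, b⁆ * ⁅a, b⁆ * (((b * b) * (a * a)) * ((b * b) * (a * a))) := by rw [e, mul_one]
      _ = ⁅a, b⁆ * (⁅a, b⁆ * ((b * b) * (a * a))) * ((b * b) * (a * a)) := by group
      _ = ⁅a, b⁆ * (((b * b) * (a * a)) * ⁅a, b⁆) * ((b * b) * (a * a)) :=
            congrArg (fun z => ⁅a, b⁆ * z * ((b * b) * (a * a))) (hc a b _)
      _ = ⁅a, b⁆ * ((b * b) * (a * a)) * (⁅a, b⁆ * ((b * b) * (a * a))) := by simp only [mul_assoc]
      _ = 1 := this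
  have hsym : ∀ a b : M, ⁅b, a⁆ = ⁅a, b⁆ := fun a b => by
    rw [← commutatorElement_inv a b]; exact inv_eq_of_mul_eq_one_right (hd2 a b)
  have hsqc : ∀ a g : M, a * a * g = g * (a * a) := fun a g => by
    exact commutatorElement_eq_one_iff_commute.1 (by rw [hl, hd2])
  have hmove : ∀ a b : M, ⁅a, τ b⁆ = ⁅τ a, b⁆ := by
    intro a b
    have h0 : ∀ c, ⁅c, τ c⁆ = 1 := fun c => commutatorElement_eq_one_iff_commute.2 (hcomm c)
    have h := h0 (a * b)
    rw [map_mul, hl, hr, hr, h0, h0, one_mul, mul_one] at h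
    rw [hsym b (τ a)]
    calc ⁅a, τ b⁆ = (⁅b, τ a⁆)⁻¹ := eq_inv_of_mul_eq_one_left h
      _ = _ := inv_eq_of_mul_eq_one_right (hd2 _ _)
  have hcτ : ∀ a, ⁅σ (τ a), τ a⁆ = ⁅σ a, a⁆ := fun a => by
    rw [hστ, ← hmove, ← hmove, hτ]
  -- the product of a square and its image
  have hh : ∀ a, (a * a) * σ (a * a) = ⁅σ a, a⁆ := fun a => by
    have h := hsq a
    rw [hsquare, ← map_mul] at h
    rw [eq_inv_of_mul_eq_one_right h, inv_eq_of_mul_eq_one_right (hd2 _ _)]
  have hw1 : ∀ a : M, (a * a) * (a * a) = 1 := fun a => by rw [← hexp a]; simp [pow_succ, mul_assoc]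
  have hww : ∀ a, τ (a * a) * τ (τ (a * a)) = a * a := fun a => by
    rw [eq_inv_of_mul_eq_one_right ((mul_assoc _ _ _).symm.trans (hprod (a * a)))]
    exact inv_eq_of_mul_eq_one_right (hw1 a)
  have hσfix : ∀ a, σ (a * a) = a * a := fun a => by
    have e1 : τ (a * a) * τ (τ (σ (a * a))) = (a * a) * σ (a * a) := by
      rw [← hστ, map_mul τ, hh, hcτ, hh]
    have e2 : τ (τ (a * a)) * τ (σ (a * a)) = (a * a) * σ (a * a) := by
      have hs : τ (σ (a * a)) = σ (τ (τ (a * a))) := by rw [hστ, hστ, hτ]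
      rw [hs, map_mul τ, map_mul τ, hh, hcτ, hcτ, hh]
    have e3 : τ (a * a) * τ (τ (σ (a * a))) * (τ (τ (a * a)) * τ (σ (a * a))) = 1 := by
      rw [e1, e2, hh, hd2]
    have e5 : τ (σ (a * a)) * τ (τ (σ (a * a))) = σ (a * a) := by rw [map_mul σ]; exact hww (σ a)
    have c1 : ∀ g, τ (τ (σ (a * a))) * g = g * τ (τ (σ (a * a))) := fun g => by
      rw [map_mul σ, map_mul τ, map_mul τ]; exact hsqc _ g
    have e4 : (a * a) * σ (a * a) = 1 := by
      calc (a * a) * σ (a * a) = τ (a * a) * τ (τ (a * a)) * (τ (σ (a * a)) * τ (τ (σ (a * a)))) := by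
            rw [hww, e5]
        _ = τ (a * a) * (τ (τ (a * a)) * τ (σ (a * a)) * τ (τ (σ (a * a)))) := by simp only [mul_assoc]
        _ = τ (a * a) * (τ (τ (σ (a * a))) * (τ (τ (a * a)) * τ (σ (a * a)))) := by rw [c1]
        _ = 1 := by rw [← mul_assoc, e3]
    exact mul_left_cancel (e4.trans (hw1 a).symm)
  have h1 : τ (x * x) = τ (τ (x * x)) := by
    calc τ (x * x) = σ (τ (x * x)) := by rw [map_mul τ, hσfix]
      _ = _ := by rw [hστ, hσfix]
  refine hfix _ ?_
  have h2 := congrArg τ h1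
  rw [hτ] at h2
  exact h1.trans h2

/-- A non-commutative group of order six is the symmetric group on three letters. -/
theorem equiv_perm_three {Q : Type*} [Group Q] [Finite Q] (hQ : Nat.card Q = 6) {s t : Q}
    (hs : orderOf s = 2) (hst : ¬ Commute s t) : Nonempty (Q ≃* Equiv.Perm (Fin 3)) := by
  let H := Subgroup.zpowers s
  have hidx : Nat.card (Q ⧸ H) = 3 := by
    have h := H.card_mul_index
    rw [Nat.card_zpowers, hs, hQ, Subgroup.index_eq_card] at h
    omega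
  let f := MulAction.toPermHom Q (Q ⧸ H)
  have hnn : ¬ H.Normal := fun hn => hst (by
    obtain ⟨i, hi⟩ := hn.conj_mem s (Subgroup.mem_zpowers s) t
    have hs2 : ∀ j : ℤ, s ^ j = 1 ∨ s ^ j = s := fun j => by
      rw [← zpow_mod_orderOf, hs]
      rcases Int.emod_two_eq_zero_or_one j with h | h <;> rw [show ((2 : ℕ) : ℤ) = 2 from rfl, h] <;> simp
    simp only at hi
    rcases hs2 i with h | h <;> rw [h] at hi
    · have : s = 1 := by
        calc s = t⁻¹ * (t * s * t⁻¹) * t := by group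
          _ = 1 := by rw [← hi]; group
      rw [this, orderOf_one] at hs; omega
    · show s * t = t * s
      nth_rw 1 [hi]
      group)
  have hker : f.ker = ⊥ := by
    show (MulAction.toPermHom Q (Q ⧸ H)).ker = ⊥
    rw [← Subgroup.normalCore_eq_ker]
    by_contra hne
    have hle := Subgroup.normalCore_le H
    have h2 : H ≤ H.normalCore := by
      obtain ⟨a, ha, ha1⟩ := (Subgroup.bot_or_exists_ne_one _).resolve_left hne
      have hd := Subgroup.orderOf_dvd_natCard H (hle ha)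
      rw [Nat.card_zpowers, hs] at hd
      have : Subgroup.zpowers a = H := Subgroup.eq_of_le_of_card_ge (Subgroup.zpowers_le.2 (hle ha)) (by
        rw [Nat.card_zpowers, Nat.card_zpowers, hs,
          (Nat.prime_two.eq_one_or_self_of_dvd _ hd).resolve_left (by simpa using ha1)])
      exact le_trans this.ge (Subgroup.zpowers_le.2 ha)
    exact hnn ((le_antisymm hle h2) ▸ Subgroup.normalCore_normal H)
  haveI : Finite (Q ⧸ H) := inferInstance
  obtain ⟨e⟩ : Nonempty (Q ⧸ H ≃ Fin 3) := ⟨(Finite.equivFin _).trans (finCongr hidx)⟩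
  let g := e.permCongrHom.toMonoidHom.comp f
  exact ⟨MulEquiv.ofBijective g ((Nat.bijective_iff_injective_and_card _).2
    ⟨e.permCongrHom.injective.comp ((MonoidHom.ker_eq_bot_iff f).1 hker), by
      rw [hQ, Nat.card_eq_fintype_card, Fintype.card_perm, Fintype.card_fin]; rfl⟩)⟩

/-- A finite group whose set of element orders is exactly {1, 2, 3, 4} has a normal subgroup N such that either N is a 2-group of exponent 4 and nilpotency class at most 2 with G/N of order 3, or N is an elementary abelian 2-group with G/N isomorphic to the symmetric group of degree 3, or N is an elementary abelian 3-group with G/N cyclic of order 4 or quaternion of order 8. -/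
theorem result {G : Type*} [Group G] [Finite G] (h : Set.range (orderOf : G → ℕ) = {k : ℕ | 1 ≤ k ∧ k ≤ 4}) :
    ∃ (N : Subgroup G) (_ : N.Normal),
      (IsPGroup 2 ↥N ∧ Monoid.exponent ↥N = 4 ∧ Group.nilpotencyClass ↥N ≤ 2 ∧ N.index = 3) ∨
      (Cfsg.IsElementaryAbelian 2 N ∧ Nonempty (G ⧸ N ≃* Equiv.Perm (Fin 3))) ∨
      (Cfsg.IsElementaryAbelian 3 N ∧ ((IsCyclic (G ⧸ N) ∧ N.index = 4) ∨ Nonempty (G ⧸ N ≃* QuaternionGroup 2))) := by
  haveI := Fact.mk Nat.prime_two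
  haveI := Fact.mk Nat.prime_three
  have h4 : ∀ g : G, orderOf g ≤ 4 := fun g => ((Set.ext_iff.1 h (orderOf g)).1 ⟨g, rfl⟩).2
  obtain ⟨g2, hg2⟩ := (Set.ext_iff.1 h 2).2 ⟨by norm_num, by norm_num⟩
  obtain ⟨g3, hg3⟩ := (Set.ext_iff.1 h 3).2 ⟨by norm_num, by norm_num⟩
  obtain ⟨g4, hg4⟩ := (Set.ext_iff.1 h 4).2 ⟨by norm_num, by norm_num⟩
  have h2 : 2 ∣ Nat.card G := hg2 ▸ orderOf_dvd_natCard g2
  have h3 : 3 ∣ Nat.card G := hg3 ▸ orderOf_dvd_natCard g3
  by_cases hO : Cfsg.pCore 3 G = ⊥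
  swap
  · -- `O₃` non-trivial
    obtain ⟨N, hN⟩ : ∃ N, N = Cfsg.pCore 3 G := ⟨_, rfl⟩
    haveI : N.Normal := hN ▸ CfsgLib.FFModules.normal_pCore
    obtain ⟨hab, hexp, S, ⟨e⟩, hS⟩ := CfsgLib.SchurExt.three_core_small h4 h2 N hN (hN ▸ hO)
    refine ⟨N, inferInstance, Or.inr (Or.inr ⟨⟨hab, hexp⟩, ?_⟩)⟩
    have h44 : ∃ x : (S : Subgroup G), orderOf x = 4 := by
      obtain ⟨R, hR⟩ := (IsPGroup.of_card (p := 2) (G := Subgroup.zpowers g4) (n := 2)
        (by rw [Nat.card_zpowers, hg4]; norm_num)).exists_le_sylow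
      obtain ⟨a, ha⟩ := MulAction.exists_smul_eq G R S
      have hm : a * g4 * a⁻¹ ∈ (S : Subgroup G) := by
        rw [← ha, Sylow.coe_subgroup_smul]
        exact ⟨g4, hR (Subgroup.mem_zpowers g4), rfl⟩
      refine ⟨⟨_, hm⟩, ?_⟩
      rw [Subgroup.orderOf_mk, show a * g4 * a⁻¹ = MulAut.conj a g4 from rfl, MulEquiv.orderOf_eq, hg4]
    obtain ⟨x, hx⟩ := h44
    rcases hS with hS | ⟨m, hm, ⟨f⟩⟩
    · left
      haveI := hS
      refine ⟨e.isCyclic.1 hS, ?_⟩
      rw [Subgroup.index_eq_card, ← Nat.card_congr e.toEquiv]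
      obtain ⟨g, hg⟩ := IsCyclic.exists_ofOrder_eq_natCard (α := (S : Subgroup G))
      have h1 := h4 (g : G)
      rw [Subgroup.orderOf_coe, hg] at h1
      exact le_antisymm h1 (hx ▸ Nat.le_of_dvd Nat.card_pos (orderOf_dvd_natCard x))
    · right
      haveI : NeZero (2 ^ m) := ⟨by positivity⟩
      have h1 := h4 ((f.symm (QuaternionGroup.a 1) : (S : Subgroup G)) : G)
      rw [Subgroup.orderOf_coe, MulEquiv.orderOf_eq, QuaternionGroup.orderOf_a_one] at h1
      have hm1 : m = 1 := by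
        by_contra hm1
        have := Nat.pow_le_pow_right (show 2 > 0 by norm_num) (show 2 ≤ m by omega)
        omega
      subst hm1
      exact ⟨e.symm.trans f⟩
  -- `O₂` non-trivial
  obtain ⟨N, hN⟩ : ∃ N, N = Cfsg.pCore 2 G := ⟨_, rfl⟩
  haveI : N.Normal := hN ▸ CfsgLib.FFModules.normal_pCore
  have hNp : IsPGroup 2 N := hN ▸ CfsgLib.FFModules.isPGroup_pCore
  obtain ⟨hC, hfix, hT⟩ := CfsgLib.SchurExt.two_core_small h4 h2 h3 hO N hN
  have hexp : ∀ x : N, x ^ 4 = 1 := fun x => by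
    obtain ⟨i, hi⟩ := IsPGroup.iff_orderOf.1 hNp x
    exact Subtype.ext (CfsgLib.SchurExt.pow_four_of_two h4 (g := (x : G)) (k := i)
      (by rw [Subgroup.orderOf_coe, hi]))
  have ht3 : g3 ^ 3 = 1 := by rw [← hg3, pow_orderOf_eq_one]
  have hN3 : ¬ 3 ∣ Nat.card N := by
    obtain ⟨i, hi⟩ := IsPGroup.iff_card.1 hNp
    rw [hi]
    exact fun hd => absurd (Nat.prime_three.dvd_of_dvd_pow hd) (by norm_num)
  have hEngel := CfsgLib.SchurExt.engel_fpf_three ht3 (hfix g3 hg3)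
  have hcen : ∀ a b : N, ⁅a, b⁆ ∈ Subgroup.center N :=
    fun a b => CfsgLib.SchurExt.commutatorElement_mem_center hEngel hN3 b a
  -- the quotient
  have hQ4 : ∀ w : G ⧸ N, orderOf w ≤ 4 := fun w => by
    obtain ⟨a, rfl⟩ := QuotientGroup.mk'_surjective N w
    exact (Nat.le_of_dvd (orderOf_pos a) (orderOf_map_dvd _ a)).trans (h4 a)
  haveI := CfsgLib.SchurExt.isSolvable_small hQ4
  have ht : orderOf ((g3 : G) : (G ⧸ N)) = 3 := by
    refine orderOf_eq_prime (by rw [← QuotientGroup.mk_pow, ht3]; rfl) fun h1 => ?_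
    have := Subgroup.orderOf_dvd_natCard N ((QuotientGroup.eq_one_iff g3).1 h1)
    rw [hg3] at this
    exact hN3 this
  haveI : Nontrivial (G ⧸ N) := nontrivial_of_ne ((g3 : G) : (G ⧸ N)) 1 fun h1 => by
    rw [h1, orderOf_one] at ht; omega
  obtain ⟨p, hp, hpne⟩ := CfsgLib.Hall.exists_pCore_ne_bot (G := (G ⧸ N))
  haveI := Fact.mk hp
  haveI hPn : (Cfsg.pCore p (G ⧸ N)).Normal := CfsgLib.FFModules.normal_pCore
  have hpd : p ∣ Nat.card (Cfsg.pCore p (G ⧸ N)) := by
    obtain ⟨i, hi⟩ := IsPGroup.iff_card.1 (CfsgLib.FFModules.isPGroup_pCore (p := p) (G := (G ⧸ N)))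
    rw [hi]
    exact dvd_pow_self p fun h0 => hpne (Subgroup.card_eq_one.1 (by rw [hi, h0, pow_zero]))
  have hp3 : p = 3 := by
    rcases CfsgLib.SchurExt.prime_dvd_small hQ4 hp (hpd.trans (Subgroup.card_subgroup_dvd_card _)) with rfl | rfl
    · exfalso
      set M := (Cfsg.pCore 2 (G ⧸ N)).comap (QuotientGroup.mk' N)
      have hM : M ≤ N := (CfsgLib.FFModules.le_pCore inferInstance
        (CfsgLib.FFModules.isPGroup_pCore.comap_of_ker_isPGroup _ (by rwa [QuotientGroup.ker_mk']))).trans hN.ge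
      refine hpne ((Subgroup.eq_bot_iff_forall _).2 fun w hw => ?_)
      obtain ⟨a, rfl⟩ := QuotientGroup.mk'_surjective N w
      exact (QuotientGroup.eq_one_iff a).2 (hM hw)
    · rfl
  subst hp3
  set T := Cfsg.pCore 3 (G ⧸ N)
  have hT3 : Nat.card T = 3 := by
    obtain ⟨i, hi⟩ := IsPGroup.iff_card.1 (CfsgLib.FFModules.isPGroup_pCore (p := 3) (G := (G ⧸ N)))
    obtain ⟨T0⟩ := (inferInstance : Nonempty (Sylow 3 G))
    rw [hi] at hpd ⊢
    have hd : 3 ^ i ∣ Nat.card G := hi ▸ (Subgroup.card_subgroup_dvd_card T).trans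
      (Subgroup.card_quotient_dvd_card N)
    have := (T0.card_eq_multiplicity.symm.trans (hT T0))
    have hle := (Nat.Prime.pow_dvd_iff_le_factorization Nat.prime_three Nat.card_pos.ne').1 hd
    have : (Nat.card G).factorization 3 = 1 :=
      Nat.pow_right_injective (le_refl 2 |>.trans (by norm_num : 2 ≤ 3)) (this.trans (pow_one 3).symm)
    rcases (show i = 0 ∨ i = 1 by omega) with rfl | rfl
    · norm_num at hpd
    · rfl
  have htT : ∀ w : (G ⧸ N), orderOf w = 3 → w ∈ T := by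
    intro w hw
    have hidx : ¬ 3 ∣ T.index := by
      obtain ⟨T0⟩ := (inferInstance : Nonempty (Sylow 3 G))
      intro hd
      have h9 : 3 ^ 2 ∣ Nat.card G := by
        refine Dvd.dvd.trans ?_ (Subgroup.card_quotient_dvd_card N)
        rw [← T.card_mul_index, hT3, pow_two]
        exact Nat.mul_dvd_mul_left 3 hd
      have hle := (Nat.Prime.pow_dvd_iff_le_factorization Nat.prime_three Nat.card_pos.ne').1 h9
      have e := (T0.card_eq_multiplicity.symm.trans (hT T0))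
      have : (Nat.card G).factorization 3 = 1 :=
        Nat.pow_right_injective (by norm_num : 2 ≤ 3) (e.trans (pow_one 3).symm)
      omega
    exact CfsgLib.SchurExt.mem_of_coprime_index T (hw ▸ Nat.prime_three.coprime_iff_not_dvd.2 hidx)
  have hTz : T = Subgroup.zpowers ((g3 : G) : (G ⧸ N)) := (Subgroup.eq_of_le_of_card_ge
    (Subgroup.zpowers_le.2 (htT _ ht)) (by rw [Nat.card_zpowers, ht, hT3])).symm
  have hnorm : ∀ w : (G ⧸ N), w * (g3 : (G ⧸ N)) * w⁻¹ = (g3 : (G ⧸ N)) ∨ w * (g3 : (G ⧸ N)) * w⁻¹ = (g3 : (G ⧸ N))⁻¹ := by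
    intro w
    have hm : w * (g3 : (G ⧸ N)) * w⁻¹ ∈ T := hPn.conj_mem _ (htT _ ht) w
    rw [hTz, Subgroup.mem_zpowers_iff] at hm
    obtain ⟨i, hi⟩ := hm
    rw [← zpow_mod_orderOf, ht] at hi
    have : i % 3 = 0 ∨ i % 3 = 1 ∨ i % 3 = 2 := by omega
    rcases this with h0 | h0 | h0 <;> rw [show ((3 : ℕ) : ℤ) = 3 from rfl, h0] at hi
    · exfalso
      rw [zpow_zero] at hi
      have : (g3 : (G ⧸ N)) = 1 := by
        calc (g3 : (G ⧸ N)) = w⁻¹ * (w * (g3 : (G ⧸ N)) * w⁻¹) * w := by group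
          _ = 1 := by rw [← hi]; group
      rw [this, orderOf_one] at ht; omega
    · left; rw [← hi, zpow_one]
    · right
      rw [← hi]
      refine eq_inv_of_mul_eq_one_left ?_
      rw [show ((g3 : (G ⧸ N))) ^ (2 : ℤ) * (g3 : (G ⧸ N)) = (g3 : (G ⧸ N)) ^ orderOf (g3 : (G ⧸ N)) by rw [ht]; group]
      exact pow_orderOf_eq_one _
  have hcentT : ∀ w : (G ⧸ N), w * (g3 : (G ⧸ N)) * w⁻¹ = (g3 : (G ⧸ N)) → w ∈ T := by
    intro w hw
    have hc : Commute w (g3 : (G ⧸ N)) := mul_inv_eq_iff_eq_mul.1 hw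
    have hle := hQ4 w
    have hpos := orderOf_pos w
    have hne2 : ¬ 2 ∣ orderOf w := by
      rintro ⟨m, hm⟩
      have hm0 : m ≠ 0 := by omega
      have h2' : orderOf (w ^ m) = 2 ^ 1 := by
        rw [orderOf_pow' _ hm0, hm, Nat.gcd_eq_right (dvd_mul_left _ _),
          Nat.mul_div_cancel _ (Nat.pos_of_ne_zero hm0), pow_one]
      rcases CfsgLib.SchurExt.eq_one_of_commute_small hQ4 h2' (j := 1) (by rw [ht, pow_one]) (hc.pow_left m) with h' | h'
      · rw [h', orderOf_one] at h2'; omega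
      · rw [h', orderOf_one] at ht; omega
    interval_cases h' : orderOf w
    · rw [orderOf_eq_one_iff.1 h']; exact one_mem _
    · omega
    · exact htT w h'
    · omega
  have hQcard : Nat.card (G ⧸ N) = 3 ∨ (Nat.card (G ⧸ N) = 6 ∧ ∃ w : (G ⧸ N), orderOf w = 2 ∧ w * (g3 : (G ⧸ N)) * w⁻¹ = (g3 : (G ⧸ N))⁻¹) := by
    by_cases hall : ∀ w : (G ⧸ N), w * (g3 : (G ⧸ N)) * w⁻¹ = (g3 : (G ⧸ N))
    · left
      rw [← hT3]
      exact (Nat.card_congr ((MulEquiv.subgroupCongr (eq_top_iff.2 fun w _ => hcentT w (hall w))).trans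
        Subgroup.topEquiv).toEquiv).symm
    · right
      push Not at hall
      obtain ⟨w, hw⟩ := hall
      have hinv := (hnorm w).resolve_left hw
      have hidx : T.index = 2 := by
        refine Subgroup.index_eq_two_iff.2 ⟨w, fun b => ?_⟩
        by_cases hb : b ∈ T
        · refine Or.inr ⟨hb, fun hbw => hw ?_⟩
          have hwT : w ∈ T := by simpa using mul_mem (inv_mem hb) hbw
          rw [hTz, Subgroup.mem_zpowers_iff] at hwT
          obtain ⟨i, rfl⟩ := hwT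
          rw [((Commute.refl _).zpow_left i).eq, mul_inv_cancel_right]
        · refine Or.inl ⟨?_, hb⟩
          have hbinv := (hnorm b).resolve_left fun hb' => hb (hcentT b hb')
          refine hcentT _ ?_
          calc b * w * (g3 : (G ⧸ N)) * (b * w)⁻¹ = b * (w * (g3 : (G ⧸ N)) * w⁻¹) * b⁻¹ := by simp [mul_assoc]
            _ = (b * (g3 : (G ⧸ N)) * b⁻¹)⁻¹ := by rw [hinv]; simp [mul_assoc]
            _ = (g3 : (G ⧸ N)) := by rw [hbinv, inv_inv]
      have h6 : Nat.card (G ⧸ N) = 6 := by rw [← T.card_mul_index, hT3, hidx]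
      obtain ⟨u, hu⟩ := exists_prime_orderOf_dvd_card' (G := (G ⧸ N)) 2 (h6 ▸ by norm_num)
      refine ⟨h6, u, hu, (hnorm u).resolve_left fun h' => ?_⟩
      have hd := Subgroup.orderOf_dvd_natCard T (hcentT u h')
      rw [hu, hT3] at hd
      omega
  rcases hQcard with hQ3 | ⟨hQ6, w, hw2, hwinv⟩
  · refine ⟨N, inferInstance, Or.inl ⟨hNp, ?_, ?_, by rw [Subgroup.index_eq_card]; exact hQ3⟩⟩
    · refine Nat.dvd_antisymm (Monoid.exponent_dvd_of_forall_pow_eq_one hexp) ?_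
      have hm : g4 ∈ N := CfsgLib.SchurExt.mem_of_coprime_index N (by
        rw [hg4, Subgroup.index_eq_card]; show Nat.Coprime 4 (Nat.card (G ⧸ N)); rw [hQ3]; norm_num)
      calc 4 = orderOf (⟨g4, hm⟩ : N) := by rw [Subgroup.orderOf_mk, hg4]
        _ ∣ _ := Monoid.order_dvd_exponent _
    · haveI : Group.IsNilpotent N := hNp.isNilpotent
      rw [← Subgroup.upperCentralSeries_eq_top_iff_nilpotencyClass_le]
      rw [eq_top_iff]
      intro a _
      rw [Subgroup.mem_upperCentralSeries_succ_iff]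
      intro b
      rw [Subgroup.upperCentralSeries_one]
      exact hcen a b
  · refine ⟨N, inferInstance, Or.inr (Or.inl ⟨?_, ?_⟩)⟩
    swap
    · refine equiv_perm_three hQ6 hw2 (t := (g3 : (G ⧸ N))) fun hc => ?_
      have h1 : w * (g3 : (G ⧸ N)) * w⁻¹ = (g3 : (G ⧸ N)) := by rw [hc.eq, mul_inv_cancel_right]
      rw [h1] at hwinv
      have := orderOf_dvd_of_pow_eq_one (x := (g3 : (G ⧸ N))) (n := 2) (by rw [pow_two]; nth_rw 1 [hwinv]; exact inv_mul_cancel _)
      rw [ht] at this; omega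
    obtain ⟨w0, rfl⟩ := QuotientGroup.mk'_surjective N w
    have hn : w0 * g3 * w0⁻¹ * g3 ∈ N := (QuotientGroup.eq_one_iff _).1 (by
      simp only [QuotientGroup.mk_mul, QuotientGroup.mk_inv]
      rw [show (w0 : (G ⧸ N)) * (g3 : (G ⧸ N)) * (w0 : (G ⧸ N))⁻¹ = (g3 : (G ⧸ N))⁻¹ from hwinv, inv_mul_cancel])
    have hfix' : ∀ v ∈ N, g3⁻¹ * v = v * g3⁻¹ → v = 1 :=
      hfix g3⁻¹ (by rw [orderOf_inv, hg3])
    obtain ⟨a, haN, ha⟩ := CfsgLib.SchurExt.exists_conj_fpf hfix' hn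
    set s := a⁻¹ * w0 with hsdef
    have hst : s * g3 * s⁻¹ = g3⁻¹ := by
      calc s * g3 * s⁻¹ = a⁻¹ * ((w0 * g3 * w0⁻¹ * g3) * g3⁻¹) * a := by rw [hsdef]; group
        _ = g3⁻¹ := by rw [← ha]; group
    have hsQ : (s : (G ⧸ N)) = (w0 : (G ⧸ N)) := by
      rw [hsdef, QuotientGroup.mk_mul, QuotientGroup.mk_inv, (QuotientGroup.eq_one_iff a).2 haN, inv_one, one_mul]
    have hs2 : s * s = 1 := by
      refine hfix g3 hg3 _ ((QuotientGroup.eq_one_iff _).1 ?_) ?_
      · rw [QuotientGroup.mk_mul, hsQ, ← pow_two]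
        exact orderOf_dvd_iff_pow_eq_one.1 (dvd_of_eq hw2)
      · have h1 : s * s * g3 * (s * s)⁻¹ = g3 := by
          calc s * s * g3 * (s * s)⁻¹ = s * (s * g3 * s⁻¹) * s⁻¹ := by group
            _ = s * g3⁻¹ * s⁻¹ := by rw [hst]
            _ = (s * g3 * s⁻¹)⁻¹ := by group
            _ = g3 := by rw [hst, inv_inv]
        exact (mul_inv_eq_iff_eq_mul.1 h1).symm
    have hsi : s⁻¹ = s := inv_eq_of_mul_eq_one_right hs2
    have hcm : ∀ g : G, ∀ x : N, ((MulAut.conjNormal g x : N) : G) = g * x * g⁻¹ := fun g x => rfl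
    have hkey : ∀ x : N, x * x = 1 := sq_eq_one (MulAut.conjNormal s) (MulAut.conjNormal g3)
      (fun x => Subtype.ext (by
        simp only [hcm]
        calc g3 * (g3 * (g3 * (x : G) * g3⁻¹) * g3⁻¹) * g3⁻¹ = (g3 * g3 * g3) * (x : G) * (g3 * g3 * g3)⁻¹ := by group
          _ = x := by rw [show g3 * g3 * g3 = 1 by rw [← ht3, pow_three, mul_assoc]]; group))
      (fun x => Subtype.ext (by
        simp only [hcm]
        calc s * (g3 * (x : G) * g3⁻¹) * s⁻¹ = (s * g3 * s⁻¹) * (s * (x : G) * s⁻¹) * (s * g3 * s⁻¹)⁻¹ := by group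
          _ = (g3 * g3) * (s * (x : G) * s⁻¹) * (g3 * g3)⁻¹ := by
            rw [hst, show g3⁻¹ = g3 * g3 from inv_eq_of_mul_eq_one_right (by rw [← ht3, pow_three])]
          _ = _ := by group))
      (fun x hx => Subtype.ext (hfix g3 hg3 x x.2 (by
        have := congrArg Subtype.val hx
        rw [hcm] at this
        exact mul_inv_eq_iff_eq_mul.1 this)))
      (fun x => Subtype.ext (by
        simp only [Subgroup.coe_mul, hcm, OneMemClass.coe_one]
        have := CfsgLib.SchurExt.prod_fpf_three ht3 (hfix g3 hg3) x.2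
        have e : g3⁻¹ = g3 * g3 := inv_eq_of_mul_eq_one_right (by rw [← ht3, pow_three])
        have e2 : g3 * (g3 * (x : G) * g3⁻¹) * g3⁻¹ = g3⁻¹ * (x : G) * g3 := by
          calc g3 * (g3 * (x : G) * g3⁻¹) * g3⁻¹ = (g3 * g3) * (x : G) * (g3 * g3)⁻¹ := by group
            _ = _ := by rw [← e, inv_inv]
        rw [e2]
        exact this))
      (fun x => Subtype.ext (by
        simp only [Subgroup.coe_mul, hcm]
        exact CfsgLib.SchurExt.commute_conj_fpf_three ht3 (hfix g3 hg3) x.2))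
      (fun x => Subtype.ext (by
        simp only [Subgroup.coe_mul, hcm, OneMemClass.coe_one]
        have hxs : ((x : G) * s) ^ 4 = 1 := by
          have hle := h4 ((x : G) * s)
          have hpos := orderOf_pos ((x : G) * s)
          have hd : 2 ∣ orderOf ((x : G) * s) := by
            have h1 := orderOf_map_dvd (QuotientGroup.mk' N) ((x : G) * s)
            rw [map_mul, show QuotientGroup.mk' N (x : G) = 1 from (QuotientGroup.eq_one_iff _).2 x.2, one_mul,
              show QuotientGroup.mk' N s = (w0 : (G ⧸ N)) from hsQ, show orderOf (w0 : (G ⧸ N)) = 2 from hw2] at h1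
            exact h1
          refine orderOf_dvd_iff_pow_eq_one.1 ?_
          interval_cases h' : orderOf ((x : G) * s) <;> omega
        rw [← hxs, hsi]
        simp [pow_succ, mul_assoc]))
      hexp hcen
    refine ⟨⟨⟨fun u v => ?_⟩⟩, fun u hu => ?_⟩
    · have e : ∀ c : N, c⁻¹ = c := fun c => inv_eq_of_mul_eq_one_right (hkey c)
      calc u * v = (u * v)⁻¹ := (e _).symm
        _ = v * u := by rw [mul_inv_rev, e u, e v]
    · have := congrArg Subtype.val (hkey ⟨u, hu⟩)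
      rw [pow_two]
      simpa using this

end Cfsg.Agent.S4006
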