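import Cfsg.Statements.S4198
import Mathlib

set_option autoImplicit false
open Cfsg

namespace Cfsg.Agent.S4198

open Equiv Equiv.Perm

/-- Adding a part `1` or lowering the least part: at most twice as many partitions in the next degree. -/
private theorem partition_succ_le (n : ℕ) (hn : 0 < n) :
    Nat.card (Nat.Partition (n + 1)) ≤ 2 * Nat.card (Nat.Partition n) := by
  classical
  have hex : ∀ P : Nat.Partition (n + 1), 1 ∉ P.parts → ∃ a, a ∈ P.parts ∧ ∀ b ∈ P.parts, a ≤ b := by
    intro P _
    have hne : P.parts.toFinset.Nonempty := by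
      rw [Finset.nonempty_iff_ne_empty, Ne, Multiset.toFinset_eq_empty]
      intro h
      have := P.parts_sum
      rw [h, Multiset.sum_zero] at this
      omega
    exact ⟨P.parts.toFinset.min' hne, Multiset.mem_toFinset.1 (Finset.min'_mem _ hne),
      fun b hb => Finset.min'_le _ b (Multiset.mem_toFinset.2 hb)⟩
  choose a ha hmin using hex
  let f : Nat.Partition (n + 1) → Nat.Partition n ⊕ Nat.Partition n := fun P =>
    if h : 1 ∈ P.parts then
      .inl ⟨P.parts.erase 1, fun hi => P.parts_pos (Multiset.mem_of_mem_erase hi), by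
        have h1 := congrArg Multiset.sum (Multiset.cons_erase h)
        rw [Multiset.sum_cons, P.parts_sum] at h1
        omega⟩
    else
      .inr ⟨(a P h - 1) ::ₘ P.parts.erase (a P h), fun {i} hi => by
        rcases Multiset.mem_cons.1 hi with rfl | hi
        · have := P.parts_pos (ha P h)
          have : a P h ≠ 1 := fun e => h ((congrArg (fun x => x ∈ P.parts) e).mp (ha P h))
          omega
        · exact P.parts_pos (Multiset.mem_of_mem_erase hi), by
        have h1 := congrArg Multiset.sum (Multiset.cons_erase (ha P h))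
        rw [Multiset.sum_cons, P.parts_sum] at h1
        have := P.parts_pos (ha P h)
        rw [Multiset.sum_cons]
        omega⟩
  have hf : Function.Injective f := by
    intro P Q hPQ
    apply Nat.Partition.ext
    simp only [f] at hPQ
    split_ifs at hPQ with h1 h2 h2
    · have h := congrArg Nat.Partition.parts (Sum.inl.inj hPQ)
      simp only at h
      rw [← Multiset.cons_erase h1, ← Multiset.cons_erase h2, h]
    · have h := congrArg Nat.Partition.parts (Sum.inr.inj hPQ)
      simp only at h
      have hlow : ∀ (R : Nat.Partition (n + 1)) (hR : 1 ∉ R.parts),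
          ∀ b ∈ (a R hR - 1) ::ₘ R.parts.erase (a R hR), a R hR - 1 ≤ b := by
        intro R hR b hb
        rcases Multiset.mem_cons.1 hb with rfl | hb
        · exact le_rfl
        · exact le_trans (Nat.sub_le _ _) (hmin R hR b (Multiset.mem_of_mem_erase hb))
      have e1 : a P h1 - 1 = a Q h2 - 1 := le_antisymm
        (hlow P h1 _ (h ▸ Multiset.mem_cons_self _ _)) (hlow Q h2 _ (h ▸ Multiset.mem_cons_self _ _))
      have e2 : a P h1 = a Q h2 := by
        have := P.parts_pos (ha P h1)
        have := Q.parts_pos (ha Q h2)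
        omega
      rw [e1, Multiset.cons_inj_right] at h
      rw [← Multiset.cons_erase (ha P h1), ← Multiset.cons_erase (ha Q h2), h, e2]
  calc Nat.card (Nat.Partition (n + 1)) ≤ Nat.card (Nat.Partition n ⊕ Nat.Partition n) :=
        Nat.card_le_card_of_injective f hf
    _ = 2 * Nat.card (Nat.Partition n) := by rw [Nat.card_sum, two_mul]

private theorem partition_five : Nat.card (Nat.Partition 5) ≤ 8 := by
  classical
  let T : Finset (Fin 6 × Fin 3 × Fin 2 × Fin 2 × Fin 2) := Finset.univ.filter fun t =>
    t.1.val + 2 * t.2.1.val + 3 * t.2.2.1.val + 4 * t.2.2.2.1.val + 5 * t.2.2.2.2.val = 5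
  have hT : Nat.card T ≤ 8 := by rw [Nat.card_eq_finsetCard]; decide +kernel
  have hsum : ∀ P : Nat.Partition 5, P.parts.count 1 + 2 * P.parts.count 2 + 3 * P.parts.count 3 +
      4 * P.parts.count 4 + 5 * P.parts.count 5 = 5 := by
    intro P
    have h1 := Finset.sum_multiset_count_of_subset P.parts (Finset.range 6) (fun i hi => by
      rw [Finset.mem_range]
      have := P.le_of_mem_parts (Multiset.mem_toFinset.1 hi)
      omega)
    rw [P.parts_sum] at h1
    simp only [Finset.sum_range_succ, Finset.sum_range_zero, smul_eq_mul] at h1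
    omega
  let f : Nat.Partition 5 → T := fun P =>
    ⟨(⟨P.parts.count 1, by have := hsum P; omega⟩, ⟨P.parts.count 2, by have := hsum P; omega⟩,
      ⟨P.parts.count 3, by have := hsum P; omega⟩, ⟨P.parts.count 4, by have := hsum P; omega⟩,
      ⟨P.parts.count 5, by have := hsum P; omega⟩), Finset.mem_filter.2 ⟨Finset.mem_univ _, hsum P⟩⟩
  refine le_trans (Nat.card_le_card_of_injective f fun P Q h => ?_) hT
  have h' := congrArg Subtype.val h
  simp only [f, Prod.mk.injEq, Fin.mk.injEq] at h'
  obtain ⟨h1, h2, h3, h4, h5⟩ := h'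
  apply Nat.Partition.ext
  ext i
  by_cases hi : i = 0 ∨ 5 < i
  · have hP : ∀ R : Nat.Partition 5, R.parts.count i = 0 := fun R => Multiset.count_eq_zero.2 fun hm => by
      have := R.parts_pos hm
      have := R.le_of_mem_parts hm
      omega
    rw [hP, hP]
  · obtain ⟨_, _⟩ : i ≠ 0 ∧ i ≤ 5 := by omega
    interval_cases i <;> first | assumption | omega

/-- For n ≥ 5 the alternating group of degree n has strictly fewer conjugacy classes than the symmetric group of degree n, and the symmetric group of degree n (whose classes correspond to the partitions of n) has at most 2^(n−2) conjugacy classes. -/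
theorem result (n : ℕ) (hn : 5 ≤ n) : Nat.card (ConjClasses (alternatingGroup (Fin n))) < Nat.card (ConjClasses (Equiv.Perm (Fin n))) ∧ Nat.card (ConjClasses (Equiv.Perm (Fin n))) ≤ 2 ^ (n - 2) := by
  classical
  refine ⟨?_, ?_⟩
  · set A := alternatingGroup (Fin n) with hA
    let ι : ConjClasses A → ConjClasses (Equiv.Perm (Fin n)) := ConjClasses.map A.subtype
    have hι : ∀ g : A, ι (ConjClasses.mk g) = ConjClasses.mk (g : Equiv.Perm (Fin n)) := fun g => rfl
    -- two classes with the same image differ by an odd permutation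
    have hodd : ∀ (g h : A) (σ : Equiv.Perm (Fin n)), σ * g * σ⁻¹ = h →
        ConjClasses.mk g ≠ ConjClasses.mk h → σ ∉ A := fun g h σ he hne hσ =>
      hne (ConjClasses.mk_eq_mk_iff_isConj.2 (isConj_iff.2 ⟨⟨σ, hσ⟩, Subtype.ext he⟩))
    have hsgn : ∀ {σ : Equiv.Perm (Fin n)}, σ ∉ A → sign σ = -1 := fun {σ} h =>
      (Int.units_eq_one_or _).resolve_left fun e => h (mem_alternatingGroup.2 e)
    have htwo : ∀ C D E : ConjClasses A, ι C = ι D → ι C = ι E → C ≠ D → C ≠ E → D = E := by
      intro C D E h1 h2 hCD hCE
      obtain ⟨g, rfl⟩ := ConjClasses.exists_rep C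
      obtain ⟨h, rfl⟩ := ConjClasses.exists_rep D
      obtain ⟨k, rfl⟩ := ConjClasses.exists_rep E
      rw [hι, hι, ConjClasses.mk_eq_mk_iff_isConj, isConj_iff] at h1 h2
      obtain ⟨σ, hσ⟩ := h1
      obtain ⟨τ, hτ⟩ := h2
      by_contra hne
      refine hodd h k (τ * σ⁻¹) ?_ hne (mem_alternatingGroup.2 ?_)
      · rw [← hσ, ← hτ]; group
      · rw [map_mul, map_inv, hsgn (hodd g k τ hτ hCE), hsgn (hodd g h σ hσ hCD)]
        decide
    have hsplit : ∀ (C D : ConjClasses A) (g : A), ι C = ι D → C ≠ D → ConjClasses.mk g = C →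
        Subgroup.centralizer {(g : Equiv.Perm (Fin n))} ≤ A := by
      rintro C D g h1 hCD rfl τ hτ
      obtain ⟨h, rfl⟩ := ConjClasses.exists_rep D
      rw [hι, hι, ConjClasses.mk_eq_mk_iff_isConj, isConj_iff] at h1
      obtain ⟨σ, hσ⟩ := h1
      by_contra hτA
      refine hodd g h (σ * τ) ?_ hCD (mem_alternatingGroup.2 ?_)
      · have hc : τ * g * τ⁻¹ = g := by
          rw [(Subgroup.mem_centralizer_singleton_iff.1 hτ), mul_inv_cancel_right]
        calc σ * τ * g * (σ * τ)⁻¹ = σ * (τ * g * τ⁻¹) * σ⁻¹ := by group
          _ = h := by rw [hc, hσ]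
      · rw [map_mul, hsgn (hodd g h σ hσ hCD), hsgn hτA]
        decide
    -- the odd class attached to a split class
    have hψ : ∀ g : Equiv.Perm (Fin n), Subgroup.centralizer {g} ≤ A → ∃ h : Equiv.Perm (Fin n),
        sign h = -1 ∧ h.cycleType ≠ {2} ∧ ∃ e, Even e ∧ (∀ i ∈ h.cycleType.erase e, Odd i) ∧
          e ∈ h.cycleType ∧ g.cycleType = (e + 1) ::ₘ h.cycleType.erase e := by
      intro g hg
      obtain ⟨hod, hsum, -⟩ := centralizer_le_alternating_iff.1 hg
      rw [Fintype.card_fin] at hsum
      obtain ⟨a, ha⟩ : ∃ a, a ∈ g.cycleType := Multiset.exists_mem_of_ne_zero fun h => by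
        rw [h, Multiset.sum_zero] at hsum
        omega
      have ha2 := two_le_of_mem_cycleType ha
      obtain ⟨r, rfl⟩ := hod a ha
      have hce := congrArg Multiset.sum (Multiset.cons_erase ha)
      rw [Multiset.sum_cons] at hce
      have hle : g.cycleType.sum ≤ n := by
        rw [sum_cycleType]
        simpa using g.support.card_le_univ
      obtain ⟨h, hh⟩ := (exists_with_cycleType_iff (Fin n)
        (m := (2 * r) ::ₘ g.cycleType.erase (2 * r + 1))).2 ⟨by
          rw [Fintype.card_fin, Multiset.sum_cons]
          omega, fun i hi => by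
          rcases Multiset.mem_cons.1 hi with rfl | hi
          · omega
          · exact two_le_of_mem_cycleType (Multiset.mem_of_mem_erase hi)⟩
      refine ⟨h, ?_, ?_, 2 * r, even_two_mul r, ?_, ?_, ?_⟩
      · rw [sign_of_cycleType, hh, Multiset.sum_cons, Multiset.card_cons]
        apply Odd.neg_one_pow
        have : ∀ M : Multiset ℕ, (∀ i ∈ M, Odd i) → Even (M.sum + M.card) := by
          intro M hM
          induction M using Multiset.induction with
          | empty => simp
          | cons x M ih =>
            obtain ⟨y, hy⟩ := hM x (Multiset.mem_cons_self _ _)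
            obtain ⟨z, hz⟩ := ih fun i hi => hM i (Multiset.mem_cons_of_mem hi)
            rw [Multiset.sum_cons, Multiset.card_cons]
            exact ⟨y + z + 1, by omega⟩
        obtain ⟨z, hz⟩ := this (g.cycleType.erase (2 * r + 1)) fun i hi => hod i (Multiset.mem_of_mem_erase hi)
        exact ⟨r + z, by omega⟩
      · intro h2
        have := congrArg Multiset.sum (hh.symm.trans h2)
        rw [Multiset.sum_cons, Multiset.sum_singleton] at this
        omega
      · rw [hh, Multiset.erase_cons_head]
        exact fun i hi => hod i (Multiset.mem_of_mem_erase hi)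
      · rw [hh]; exact Multiset.mem_cons_self _ _
      · rw [hh, Multiset.erase_cons_head, Multiset.cons_erase ha]
    choose ψ hψs hψne e hee heo hem hψc using hψ
    let Φ : ConjClasses A → ConjClasses (Equiv.Perm (Fin n)) := fun C =>
      if h : Function.invFun ι (ι C) = C then ι C
      else ConjClasses.mk (ψ C.out (hsplit C (Function.invFun ι (ι C)) C.out
        (Function.invFun_eq ⟨C, rfl⟩).symm (Ne.symm h) (Quotient.out_eq C)))
    have hsign : ∀ C : ConjClasses A, ∀ g, ι C = ConjClasses.mk g → sign g = 1 := by
      intro C g hg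
      obtain ⟨a, rfl⟩ := ConjClasses.exists_rep C
      rw [hι, ConjClasses.mk_eq_mk_iff_isConj, isConj_iff] at hg
      obtain ⟨σ, rfl⟩ := hg
      rw [map_mul, map_mul, map_inv, mul_comm (sign σ), mul_inv_cancel_right]
      exact mem_alternatingGroup.1 a.2
    have hΦ : Function.Injective Φ := by
      intro C D hCD
      simp only [Φ] at hCD
      split_ifs at hCD with h1 h2 h2
      · rw [← h1, ← h2, hCD]
      · exact absurd (hsign C _ hCD) (by rw [hψs]; decide)
      · exact absurd (hsign D _ hCD.symm) (by rw [hψs]; decide)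
      · rw [ConjClasses.mk_eq_mk_iff_isConj, isConj_iff_cycleType_eq] at hCD
        have key : (C.out : Equiv.Perm (Fin n)).cycleType = (D.out : Equiv.Perm (Fin n)).cycleType := by
          rw [hψc _ (hsplit C _ C.out (Function.invFun_eq ⟨C, rfl⟩).symm (Ne.symm h1) (Quotient.out_eq C)),
            hψc _ (hsplit D _ D.out (Function.invFun_eq ⟨D, rfl⟩).symm (Ne.symm h2) (Quotient.out_eq D))]
          set gC := ψ _ (hsplit C _ C.out (Function.invFun_eq ⟨C, rfl⟩).symm (Ne.symm h1) (Quotient.out_eq C))
          generalize hEC : e _ (hsplit C _ C.out (Function.invFun_eq ⟨C, rfl⟩).symm (Ne.symm h1) (Quotient.out_eq C)) = eC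
          generalize hED : e _ (hsplit D _ D.out (Function.invFun_eq ⟨D, rfl⟩).symm (Ne.symm h2) (Quotient.out_eq D)) = eD
          have hmC : eC ∈ gC.cycleType ∧ Even eC := hEC ▸ ⟨hem _ _, hee _ _⟩
          rw [hCD] at hmC
          have heq : eC = eD := by
            by_contra hne
            refine Nat.not_even_iff_odd.2 (heo _ (hsplit D _ D.out (Function.invFun_eq ⟨D, rfl⟩).symm
              (Ne.symm h2) (Quotient.out_eq D)) eC ?_) hmC.2
            rw [hED]
            exact (Multiset.mem_erase_of_ne hne).2 hmC.1
          rw [hCD, heq]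
        have hι2 : ι C = ι D := by
          conv_lhs => rw [show C = ConjClasses.mk C.out from (Quotient.out_eq C).symm]
          conv_rhs => rw [show D = ConjClasses.mk D.out from (Quotient.out_eq D).symm]
          rw [hι, hι, ConjClasses.mk_eq_mk_iff_isConj, isConj_iff_cycleType_eq]
          exact key
        refine htwo (Function.invFun ι (ι C)) C D (Function.invFun_eq ⟨C, rfl⟩) ?_ h1 ?_
        · rw [Function.invFun_eq (f := ι) ⟨C, rfl⟩, hι2]
        · rw [hι2]; exact h2
    obtain ⟨t, ht⟩ := (exists_with_cycleType_iff (Fin n) (m := ({2} : Multiset ℕ))).2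
      ⟨by simp only [Multiset.sum_singleton, Fintype.card_fin]; omega, by simp⟩
    haveI := Fintype.ofFinite (ConjClasses A)
    haveI := Fintype.ofFinite (ConjClasses (Equiv.Perm (Fin n)))
    rw [Nat.card_eq_fintype_card, Nat.card_eq_fintype_card]
    refine Fintype.card_lt_of_injective_of_notMem Φ hΦ (b := ConjClasses.mk t) ?_
    rintro ⟨C, hC⟩
    simp only [Φ] at hC
    split_ifs at hC with h
    · have h1 := hsign C t hC
      rw [sign_of_cycleType, ht] at h1
      simp at h1
      exact absurd h1 (by decide)
    · rw [ConjClasses.mk_eq_mk_iff_isConj, isConj_iff_cycleType_eq, ht] at hC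
      exact hψne _ _ hC
  · have h1 : Nat.card (ConjClasses (Equiv.Perm (Fin n))) ≤ Nat.card (Fintype.card (Fin n)).Partition := by
      refine Nat.card_le_card_of_injective (Quotient.lift (fun σ : Equiv.Perm (Fin n) => σ.partition)
        fun a b h => partition_eq_of_isConj.1 h) ?_
      intro C D
      obtain ⟨a, rfl⟩ := ConjClasses.exists_rep C
      obtain ⟨b, rfl⟩ := ConjClasses.exists_rep D
      intro h
      exact ConjClasses.mk_eq_mk_iff_isConj.2 (partition_eq_of_isConj.2 h)
    rw [Fintype.card_fin] at h1
    refine h1.trans ?_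
    clear h1
    induction n, hn using Nat.le_induction with
    | base => exact partition_five.trans (by norm_num)
    | succ n hn ih =>
      refine (partition_succ_le n (by omega)).trans ?_
      rw [show n + 1 - 2 = (n - 2) + 1 by omega, pow_succ]
      omega

end Cfsg.Agent.S4198
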