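import Cfsg.Statements.S4203
import Mathlib
import Cfsg.Agent.Lib.CharTheory.Burnside

set_option autoImplicit false
open Cfsg

namespace Cfsg.Agent.S4203

universe u

private theorem aux (n : ℕ) : ∀ (G : Type u) [Group G] [Finite G], Nat.card G ≤ n →
    (∀ M : Subgroup G, IsCoatom M → ∃ p : ℕ, p.Prime ∧ (M.index = p ∨ M.index = p ^ 2)) →
    Group.IsSolvable G := by
  induction n with
  | zero => intro G _ _ hG; exact absurd hG (not_le.mpr Nat.card_pos)
  | succ n ih =>
    intro G _ _ hG h
    rcases eq_or_ne (Nat.card G) 1 with h1 | h1
    · haveI : Subsingleton G := (Nat.card_eq_one_iff_unique.mp h1).1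
      exact Group.isSolvable_of_comm fun a b => Subsingleton.elim _ _
    have hne : (Nat.card G).primeFactors.Nonempty :=
      Nat.nonempty_primeFactors.mpr (by have := Nat.card_pos (α := G); omega)
    set p := (Nat.card G).primeFactors.max' hne with hpdef
    have hpm := Finset.max'_mem _ hne
    rw [Nat.mem_primeFactors] at hpm
    have hp : p.Prime := hpm.1
    haveI := Fact.mk hp
    have hmax : ∀ q : ℕ, q.Prime → q ∣ Nat.card G → q ≤ p := fun q hq hd =>
      Finset.le_max' _ q (Nat.mem_primeFactors.mpr ⟨hq, hd, Nat.card_pos.ne'⟩)
    obtain ⟨P⟩ : Nonempty (Sylow p G) := inferInstance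
    by_cases hPn : (P : Subgroup G).Normal
    · haveI : Group.IsNilpotent (P : Subgroup G) := P.isPGroup'.isNilpotent
      haveI : Group.IsSolvable (P : Subgroup G) := inferInstance
      have hq : Group.IsSolvable (G ⧸ (P : Subgroup G)) := by
        refine ih _ ?_ fun M hM => ?_
        · have e := Subgroup.card_eq_card_quotient_mul_card_subgroup (P : Subgroup G)
          have h2 : 2 ≤ Nat.card (P : Subgroup G) := by
            have : p ∣ Nat.card (P : Subgroup G) := P.dvd_card_of_dvd_card hpm.2.1
            exact hp.two_le.trans (Nat.le_of_dvd Nat.card_pos this)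
          have h3 : Nat.card (G ⧸ (P : Subgroup G)) * 2 ≤ Nat.card G := e ▸ Nat.mul_le_mul_left _ h2
          have h4 : 0 < Nat.card (G ⧸ (P : Subgroup G)) := Nat.card_pos
          omega
        · rw [← Subgroup.index_comap_of_surjective M (QuotientGroup.mk'_surjective (P : Subgroup G))]
          refine h _ ?_
          refine ⟨fun e => hM.1 ?_, fun K hK => ?_⟩
          · rw [← Subgroup.map_comap_eq_self_of_surjective (QuotientGroup.mk'_surjective (P : Subgroup G)) M, e,
              Subgroup.map_top_of_surjective _ (QuotientGroup.mk'_surjective _)]
          · have hker : (QuotientGroup.mk' (P : Subgroup G)).ker ≤ K :=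
              (Subgroup.ker_le_comap (QuotientGroup.mk' (P : Subgroup G)) M).trans hK.le
            have hlt : M < K.map (QuotientGroup.mk' (P : Subgroup G)) := by
              rw [← Subgroup.comap_lt_comap_of_surjective (QuotientGroup.mk'_surjective (P : Subgroup G)),
                Subgroup.comap_map_eq_self hker]
              exact hK
            rw [← Subgroup.comap_map_eq_self hker, hM.2 _ hlt, Subgroup.comap_top]
      exact Group.isSolvable_of_ker_le_range (P : Subgroup G).subtype (QuotientGroup.mk' (P : Subgroup G))
        (by simp)
    · have hN : Subgroup.normalizer ((P : Subgroup G) : Set G) ≠ ⊤ := fun e =>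
        hPn (Subgroup.normalizer_eq_top_iff.mp e)
      obtain ⟨M, hM, hNM⟩ := (eq_top_or_exists_le_coatom _).resolve_left hN
      have hPM : (P : Subgroup G) ≤ M := Subgroup.le_normalizer.trans hNM
      have h2 := card_sylow_modEq_one p G
      have h3 := card_sylow_modEq_one p M
      rw [(P.subtype hPM).card_eq_index_normalizer] at h3
      rw [P.card_eq_index_normalizer] at h2
      have hsub : Subgroup.normalizer ((P.subtype hPM : Sylow p M) : Set M) =
          (Subgroup.normalizer ((P : Subgroup G) : Set G)).subgroupOf M := by
        change Subgroup.normalizer (((P.subtype hPM : Sylow p M) : Subgroup M) : Set M) = _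
        rw [Sylow.coe_subtype, ← Subgroup.subgroupOf_normalizer_eq hPM]
      rw [hsub] at h3
      have hmul := Subgroup.relIndex_mul_index hNM
      have hm : M.index ≡ 1 [MOD p] := by
        have h4 : (Subgroup.normalizer ((P : Subgroup G) : Set G)).relIndex M * M.index ≡ 1 * M.index [MOD p] :=
          Nat.ModEq.mul_right _ h3
        rw [one_mul, hmul] at h4
        exact h4.symm.trans h2
      obtain ⟨q, hq, hqM⟩ := h M hM
      have hqG : q ∣ Nat.card G := by
        refine dvd_trans ?_ (Subgroup.index_dvd_card M)
        rcases hqM with e | e <;> rw [e]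
        exact dvd_pow_self q two_ne_zero
      have hqp := hmax q hq hqG
      rw [← (ZMod.natCast_eq_natCast_iff _ _ _)] at hm
      have hq2 : (q : ZMod p) = 1 ∨ (q : ZMod p) = -1 := by
        rcases hqM with e | e
        · left; rw [e] at hm; simpa using hm
        · rw [e] at hm; exact mul_self_eq_one_iff.mp (by simpa [pow_two] using hm)
      have hp3 : p ≤ 3 := by
        rcases hq2 with e | e
        · exfalso
          have hd : p ∣ q - 1 := (ZMod.natCast_eq_zero_iff _ _).mp (by rw [Nat.cast_sub hq.one_le, e]; simp)
          have := Nat.le_of_dvd (by have := hq.two_le; omega) hd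
          have := hq.two_le; omega
        · have hd : p ∣ q + 1 := (ZMod.natCast_eq_zero_iff _ _).mp (by push_cast; rw [e]; simp)
          rcases lt_or_eq_of_le hqp with hlt | heq
          · have := Nat.le_of_dvd (by omega) hd
            have hpe : p = q + 1 := by omega
            rcases hq.eq_two_or_odd' with h5 | h5
            · omega
            · have : Even p := hpe ▸ h5.add_one
              have := hp.even_iff.mp this
              omega
          · exfalso
            subst heq
            exact hq.not_dvd_one ((Nat.dvd_add_right dvd_rfl).mp hd)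
      obtain ⟨a, b, hab⟩ : ∃ a b, Nat.card G = 2 ^ a * 3 ^ b := by
        refine ⟨(Nat.card G).factorization 2, (Nat.card G).factorization 3, ?_⟩
        refine Nat.eq_of_factorization_eq Nat.card_pos.ne' (by positivity) fun r => ?_
        rw [Nat.factorization_mul (by positivity) (by positivity), Finsupp.add_apply,
          Nat.prime_two.factorization_pow, Nat.prime_three.factorization_pow, Finsupp.single_apply, Finsupp.single_apply]
        by_cases hr : r.Prime ∧ r ∣ Nat.card G
        · have := hmax r hr.1 hr.2
          have := hr.1.two_le
          rcases (show r = 2 ∨ r = 3 by omega) with rfl | rfl <;> simp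
        · have h0 : (Nat.card G).factorization r = 0 := by
            by_cases hr' : r.Prime
            · exact Nat.factorization_eq_zero_of_not_dvd fun hd => hr ⟨hr', hd⟩
            · exact Nat.factorization_eq_zero_of_not_prime _ hr'
          rw [h0]
          split_ifs <;> subst_vars <;> omega
      exact CfsgLib.CharTheory.isSolvable_of_card_dvd_pow_mul_pow 2 3 a b Nat.prime_two Nat.prime_three hab.dvd

/-- A finite group in which every maximal subgroup has index a prime or the square of a prime is solvable. -/
theorem result {G : Type*} [Group G] [Finite G] (h : ∀ M : Subgroup G, IsCoatom M → ∃ p : ℕ, p.Prime ∧ (M.index = p ∨ M.index = p ^ 2)) : Group.IsSolvable G := by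
  exact aux (Nat.card G) G le_rfl h

end Cfsg.Agent.S4203
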