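import Cfsg.Statements.S4204
import Mathlib

set_option autoImplicit false
open Cfsg

namespace Cfsg.Agent.S4204

/-- weights: `⊤`, then the lower central series -/
private def ext {G : Type*} [Group G] (H : Subgroup G) : ℕ → Subgroup G
  | 0 => ⊤
  | i + 1 => H.lowerCentralSeries i

private theorem ext_normal {G : Type*} [Group G] (H : Subgroup G) [H.Normal] : ∀ i, (ext H i).Normal
  | 0 => (inferInstance : (⊤ : Subgroup G).Normal)
  | 1 => (inferInstance : H.Normal)
  | i + 2 =>
    haveI := ext_normal H (i + 1)
    show ⁅ext H (i + 1), H⁆.Normal from inferInstance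

private theorem ext_step {G : Type*} [Group G] (H : Subgroup G) [H.Normal] :
    ∀ i, ⁅ext H i, H⁆ ≤ ext H (i + 1)
  | 0 => Subgroup.commutator_le_right _ _
  | _ + 1 => le_rfl

private theorem ext_eq_bot {G : Type*} [Group G] (H : Subgroup G) {c : ℕ} (h : H.lowerCentralSeries c = ⊥)
    {i : ℕ} (hi : c < i) : ext H i = ⊥ := by
  obtain ⟨j, rfl⟩ : ∃ j, i = j + 1 := ⟨i - 1, by omega⟩
  exact le_bot_iff.mp (h ▸ H.lowerCentralSeries_antitone (by omega : c ≤ j))

/-- If `H` and `K` are normal subgroups of a finite group with `H` nilpotent of class at most `c` and `K` nilpotent of class at most `d` (the terms with index `c`, respectively `d`, of their lower central series are trivial, indices starting at `0`), then `HK` is nilpotent of class at most `c + d`. -/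
theorem result {G : Type*} [Group G] [Finite G] (H K : Subgroup G) [H.Normal] [K.Normal] (c d : ℕ) (hH : H.lowerCentralSeries c = ⊥) (hK : K.lowerCentralSeries d = ⊥) : (H ⊔ K).lowerCentralSeries (c + d) = ⊥ := by
  set T : ℕ → Subgroup G := fun m => ⨆ i ∈ Finset.range (m + 2), ext H i ⊓ ext K (m + 1 - i) with hT
  have hTn : ∀ m, (T m).Normal := fun m => by
    simp only [hT]
    haveI := ext_normal H
    haveI := ext_normal K
    infer_instance
  have hmem : ∀ m i j, i + j = m + 1 → ext H i ⊓ ext K j ≤ T m := fun m i j hij => by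
    obtain rfl : j = m + 1 - i := by omega
    exact le_iSup₂_of_le i (Finset.mem_range.mpr (by omega)) le_rfl
  have key : ∀ m, (H ⊔ K).lowerCentralSeries m ≤ T m := by
    intro m
    induction m with
    | zero =>
      exact sup_le (le_trans (le_inf le_rfl le_top) (hmem 0 1 0 rfl))
        (le_trans (le_inf le_top le_rfl) (hmem 0 0 1 rfl))
    | succ m ih =>
      haveI := hTn (m + 1)
      set π := QuotientGroup.mk' (T (m + 1))
      have hcomm : ∀ A B : Subgroup G, ⁅A, B⁆ ≤ T (m + 1) ↔ B.map π ≤ Subgroup.centralizer (A.map π : Set (G ⧸ T (m + 1))) := by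
        intro A B
        rw [← Subgroup.commutator_eq_bot_iff_le_centralizer, Subgroup.commutator_comm, ← Subgroup.map_commutator,
          Subgroup.map_eq_bot_iff, QuotientGroup.ker_mk']
      have sw : ∀ A B : Subgroup G, ⁅A, B⁆ ≤ T (m + 1) ↔ ⁅B, A⁆ ≤ T (m + 1) := fun A B => by
        rw [Subgroup.commutator_comm]
      refine (Subgroup.commutator_mono ih le_rfl).trans ?_
      rw [sw, hcomm]
      simp only [hT, Subgroup.map_iSup]
      refine iSup₂_le fun i hi => ?_
      rw [Finset.mem_range] at hi
      rw [← hcomm, sw, hcomm, Subgroup.map_sup, sup_le_iff, ← hcomm, ← hcomm]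
      haveI := ext_normal H i
      haveI := ext_normal K (m + 1 - i)
      constructor
      · refine le_trans (le_inf ((Subgroup.commutator_mono inf_le_left le_rfl).trans (ext_step H i)) ?_)
          (hmem (m + 1) (i + 1) (m + 1 - i) (by omega))
        exact (Subgroup.commutator_le_left _ _).trans inf_le_right
      · refine le_trans (le_inf ?_ ((Subgroup.commutator_mono inf_le_right le_rfl).trans (ext_step K _)))
          (hmem (m + 1) i (m + 1 - i + 1) (by omega))
        exact (Subgroup.commutator_le_left _ _).trans inf_le_left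
  refine le_bot_iff.mp ((key (c + d)).trans (iSup₂_le fun i hi => ?_))
  rcases Nat.lt_or_ge c i with h | h
  · rw [ext_eq_bot H hH h]; exact inf_le_left
  · rw [ext_eq_bot K hK (by omega : d < c + d + 1 - i)]; exact inf_le_right

end Cfsg.Agent.S4204
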