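import Cfsg.Statements.S4212
import Mathlib
import Cfsg.Agent.Lib.SchurExt.Frobenius

set_option autoImplicit false
open Cfsg

namespace Cfsg.Agent.S4212

open CfsgLib.ElementOrders

/-- If `q` divides the order of `c` the solutions come in bunches of `q ^ j`. -/
private theorem bunch {H : Type*} [Group H] [Finite H] {q : ℕ} (hq : q.Prime) {j n : ℕ}
    (hjn : q ^ j ∣ n) (hn : n ≠ 0) {c : H} (hqc : q ∣ orderOf c) :
    q ^ j ∣ Nat.card {x : H // x ^ n = c} := by
  classical
  cases nonempty_fintype H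
  rw [Nat.card_eq_fintype_card, Fintype.card_subtype,
    Finset.card_eq_sum_card_image (fun x : H => (Subgroup.zpowers x, x ^ q ^ j))]
  refine Finset.dvd_sum fun C hC => ?_
  obtain ⟨x, hx, rfl⟩ := Finset.mem_image.1 hC
  have hxn : x ^ n = c := (Finset.mem_filter.1 hx).2
  set M := orderOf x with hM
  have hM0 : M ≠ 0 := (orderOf_pos x).ne'
  -- the q-part of the order of x is large
  have hv : j < M.factorization q := by
    have h1 : orderOf c = M / M.gcd n := by rw [← hxn, orderOf_pow x]
    have h2 := Nat.factorization_div (Nat.gcd_dvd_left M n)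
    have h3 := hq.factorization_pos_of_dvd (orderOf_pos c).ne' hqc
    rw [h1, h2, Finsupp.tsub_apply, Nat.factorization_gcd hM0 hn, Finsupp.inf_apply] at h3
    have h4 := (hq.pow_dvd_iff_le_factorization hn).1 hjn
    omega
  have hjM : q ^ j ∣ M := (hq.pow_dvd_iff_le_factorization hM0).2 hv.le
  have hgen : ∀ y ∈ Subgroup.zpowers x, y ^ q ^ j = x ^ q ^ j → Subgroup.zpowers y = Subgroup.zpowers x := by
    intro y hy hyp
    refine Subgroup.eq_of_le_of_card_ge (Subgroup.zpowers_le.2 hy) ?_
    rw [Nat.card_zpowers, Nat.card_zpowers]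
    refine Nat.le_of_dvd (orderOf_pos y) ?_
    have h1 : orderOf (y ^ q ^ j) = M / q ^ j := by
      rw [hyp, orderOf_pow_of_dvd (pow_ne_zero _ hq.ne_zero) hjM]
    have hyM : orderOf y ∣ M := orderOf_dvd_of_mem_zpowers hy
    rw [orderOf_pow y] at h1
    refine (Nat.factorization_le_iff_dvd hM0 (orderOf_pos y).ne').1 fun r => ?_
    have h2 := congrArg (fun t => Nat.factorization t r) h1
    simp only [Nat.factorization_div (Nat.gcd_dvd_left _ _), Nat.factorization_div hjM, Finsupp.tsub_apply,
      Nat.factorization_gcd (orderOf_pos y).ne' (pow_ne_zero _ hq.ne_zero), Finsupp.inf_apply,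
      hq.factorization_pow, Finsupp.single_apply] at h2
    have h3 := (Nat.factorization_le_iff_dvd (orderOf_pos y).ne' hM0).2 hyM r
    by_cases hr : q = r
    · subst hr
      simp only [if_true] at h2
      omega
    · rw [if_neg hr] at h2
      omega
  letI : CommGroup (Subgroup.zpowers x) := IsCyclic.commGroup
  have hker : Nat.card ((powMonoidHom (q ^ j) : Subgroup.zpowers x →* Subgroup.zpowers x).ker) = q ^ j := by
    rw [IsCyclic.card_powMonoidHom_ker, Nat.card_zpowers]
    exact Nat.gcd_eq_right hjM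
  refine dvd_of_eq (hker.symm.trans ?_)
  rw [Nat.card_eq_fintype_card, ← Finset.card_univ]
  refine Finset.card_bij (fun z _ => x * ((z : Subgroup.zpowers x) : H)) (fun z _ => ?_)
    (fun a _ b _ h => Subtype.ext (Subtype.ext (mul_left_cancel h))) fun y hy => ?_
  · have hz : ((z : Subgroup.zpowers x) : H) ^ q ^ j = 1 := congrArg Subtype.val (MonoidHom.mem_ker.1 z.2)
    obtain ⟨i, hi⟩ := z.1.2
    have hi' : x ^ i = ((z : Subgroup.zpowers x) : H) := hi
    have hc : Commute x ((z : Subgroup.zpowers x) : H) := hi' ▸ (Commute.refl x).zpow_right i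
    have hp : (x * ((z : Subgroup.zpowers x) : H)) ^ q ^ j = x ^ q ^ j := by rw [hc.mul_pow, hz, mul_one]
    have hg := hgen _ ((Subgroup.zpowers x).mul_mem (Subgroup.mem_zpowers x) z.1.2) hp
    simp only [Finset.mem_filter, Finset.mem_univ, true_and, Prod.mk.injEq]
    refine ⟨?_, hg, hp⟩
    obtain ⟨k, hk⟩ := hjn
    rw [hk, pow_mul, hp, ← pow_mul, ← hk, hxn]
  · simp only [Finset.mem_filter, Finset.mem_univ, true_and, Prod.mk.injEq] at hy
    obtain ⟨-, hy1, hy2⟩ := hy
    have hyx : y ∈ Subgroup.zpowers x := hy1 ▸ Subgroup.mem_zpowers y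
    refine ⟨⟨⟨x⁻¹ * y, (Subgroup.zpowers x).mul_mem ((Subgroup.zpowers x).inv_mem (Subgroup.mem_zpowers x)) hyx⟩,
      ?_⟩, Finset.mem_univ _, by simp⟩
    refine MonoidHom.mem_ker.2 (Subtype.ext ?_)
    obtain ⟨i, hi⟩ := hyx
    have hi' : x ^ i = y := hi
    have hc : Commute x⁻¹ y := hi' ▸ ((Commute.refl x).inv_left.zpow_right i)
    show (x⁻¹ * y) ^ q ^ j = 1
    rw [hc.mul_pow, hy2, inv_pow, inv_mul_cancel]

/-- The central case. -/
private theorem central {H : Type*} [Group H] [Finite H] (c : H) (hc : c ∈ Subgroup.center H) (n : ℕ) :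
    Nat.gcd n (Nat.card H) ∣ Nat.card {x : H // x ^ n = c} := by
  classical
  rcases eq_or_ne n 0 with rfl | hn
  · rw [Nat.gcd_zero_left]
    by_cases h1 : (1 : H) = c
    · rw [Nat.card_congr (Equiv.subtypeUnivEquiv (p := fun x : H => x ^ 0 = c) fun x => by simpa using h1)]
    · have : IsEmpty {x : H // x ^ 0 = c} := ⟨fun x => h1 (by simpa using x.2)⟩
      rw [Nat.card_of_isEmpty (α := {x : H // x ^ 0 = c})]
      exact dvd_zero _
  refine (Nat.dvd_iff_prime_pow_dvd_dvd _ _).2 fun q k hq hk => ?_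
  have hH0 : Nat.card H ≠ 0 := Nat.card_pos.ne'
  set j := min (n.factorization q) ((Nat.card H).factorization q) with hj
  have hkj : k ≤ j := le_min ((hq.pow_dvd_iff_le_factorization hn).1 (hk.trans (Nat.gcd_dvd_left _ _)))
    ((hq.pow_dvd_iff_le_factorization hH0).1 (hk.trans (Nat.gcd_dvd_right _ _)))
  refine (pow_dvd_pow q hkj).trans ?_
  have hjn : q ^ j ∣ n := (hq.pow_dvd_iff_le_factorization hn).2 (min_le_left _ _)
  have hjH : q ^ j ∣ Nat.card H := (hq.pow_dvd_iff_le_factorization hH0).2 (min_le_right _ _)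
  by_cases hqc : q ∣ orderOf c
  · exact bunch hq hjn hn hqc
  set b := ordCompl[q] (Nat.card H) with hb
  have hab : (q ^ j).Coprime b := (Nat.coprime_ordCompl hq hH0).pow_left j
  have hcb : orderOf c ∣ b := by
    have h1 : orderOf c ∣ ordProj[q] (Nat.card H) * b := by
      rw [Nat.ordProj_mul_ordCompl_eq_self]; exact orderOf_dvd_natCard c
    exact (Nat.Coprime.pow_right _ (hq.coprime_iff_not_dvd.2 hqc).symm).dvd_of_dvd_mul_left h1
  have h := CfsgLib.SchurExt.prime_pow_dvd_card_split hq hab hjH (fun y : H => y ^ n = c) (fun y g hy => by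
    show (g * y * g⁻¹) ^ n = c
    rw [conj_pow, hy, Subgroup.mem_center_iff.1 hc g, mul_inv_cancel_right])
  refine h.trans (dvd_of_eq (Nat.card_congr (Equiv.subtypeEquivRight fun g => ?_)))
  have hcc : c ^ splitExp hab.symm = c := pow_splitExp_of_left hab.symm (orderOf_dvd_iff_pow_eq_one.1 hcb)
  constructor
  · rintro ⟨hg, hgn⟩
    obtain ⟨t, ht⟩ := hjn
    have h1 : (g ^ splitExp hab) ^ n = 1 := by
      rw [ht, pow_mul, pow_splitExp_pow hab hg, one_pow]
    rw [← pow_splitExp_mul hab hg, (Commute.pow_pow_self g _ _).mul_pow, h1, hgn, one_mul]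
  · intro hg
    refine ⟨orderOf_dvd_iff_pow_eq_one.1 ?_, ?_⟩
    · have h1 : orderOf g ∣ n * orderOf c := by
        apply orderOf_dvd_of_pow_eq_one
        rw [pow_mul, hg, pow_orderOf_eq_one]
      refine (Nat.factorization_le_iff_dvd (orderOf_pos g).ne' ?_).1 fun r => ?_
      · exact Nat.mul_ne_zero (pow_ne_zero _ hq.ne_zero) (Nat.ordCompl_pos q hH0).ne'
      have e1 := (Nat.factorization_le_iff_dvd (orderOf_pos g).ne' hH0).2 (orderOf_dvd_natCard g) r
      have e2 := (Nat.factorization_le_iff_dvd (orderOf_pos g).ne' (Nat.mul_ne_zero hn (orderOf_pos c).ne')).2 h1 r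
      rw [Nat.factorization_mul hn (orderOf_pos c).ne', Finsupp.add_apply] at e2
      rw [Nat.factorization_mul (pow_ne_zero _ hq.ne_zero) (Nat.ordCompl_pos q hH0).ne', Finsupp.add_apply,
        hq.factorization_pow, Finsupp.single_apply, Nat.factorization_ordCompl, Finsupp.erase_apply]
      by_cases hr : q = r
      · subst hr
        rw [Nat.factorization_eq_zero_of_not_dvd hqc] at e2
        simp only [if_true]
        omega
      · rw [if_neg hr, if_neg (fun h => hr h.symm)]
        omega
    · show (g ^ splitExp hab.symm) ^ n = c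
      rw [← pow_mul, mul_comm, pow_mul, hg, hcc]

/-- Let `G` be a finite group of order `g`, `c` an element whose conjugacy class has `h` elements, and `n` a natural number. Then the number of elements `x` of `G` with `x^n` conjugate to `c` is a multiple of `gcd(hn, g)`. -/
theorem result {G : Type*} [Group G] [Finite G] (c : G) (n : ℕ) : Nat.gcd (Nat.card {y : G // IsConj c y} * n) (Nat.card G) ∣ Nat.card {x : G // IsConj c (x ^ n)} := by
  classical
  cases nonempty_fintype G
  set C := Subgroup.centralizer ({c} : Set G) with hC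
  have hh : Nat.card {y : G // IsConj c y} = C.index := by
    have h := CfsgLib.ElementOrders.ncard_conj_class_mul_card_centralizer c
    rw [← Subgroup.index_mul_card C] at h
    have e : Nat.card {y : G // IsConj c y} = ((ConjClasses.mk c).carrier : Set G).ncard := by
      rw [← Nat.card_coe_set_eq]
      refine Nat.card_congr (Equiv.subtypeEquivRight fun y => ?_)
      rw [ConjClasses.mem_carrier_iff_mk_eq, ConjClasses.mk_eq_mk_iff_isConj]
      exact ⟨IsConj.symm, IsConj.symm⟩
    rw [e]
    exact Nat.eq_of_mul_eq_mul_right Nat.card_pos h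
  have htot : Nat.card {x : G // IsConj c (x ^ n)} = C.index * Nat.card {x : C // (x : G) ^ n = c} := by
    have e1 : {x : G // IsConj c (x ^ n)} ≃ (y : {y : G // IsConj c y}) × {x : G // x ^ n = y} :=
      { toFun := fun x => ⟨⟨x.1 ^ n, x.2⟩, x.1, rfl⟩
        invFun := fun p => ⟨p.2.1, by rw [p.2.2]; exact p.1.2⟩
        left_inv := fun x => rfl
        right_inv := by rintro ⟨⟨y, hy⟩, ⟨x, hx⟩⟩; exact Sigma.subtype_ext (Subtype.ext hx) rfl }
    have e2 : ∀ y : {y : G // IsConj c y}, Nat.card {x : G // x ^ n = y} = Nat.card {x : C // (x : G) ^ n = c} := by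
      rintro ⟨y, hy⟩
      obtain ⟨g, rfl⟩ := isConj_iff.1 hy
      refine Nat.card_congr
        { toFun := fun x => ⟨⟨g⁻¹ * x.1 * g, ?_⟩, ?_⟩
          invFun := fun x => ⟨g * (x.1 : G) * g⁻¹, ?_⟩
          left_inv := fun x => Subtype.ext (by simp [mul_assoc])
          right_inv := fun x => Subtype.ext (Subtype.ext (by simp [mul_assoc])) }
      · have hx' : (g⁻¹ * x.1 * g) ^ n = c := by
          rw [show g⁻¹ * x.1 * g = g⁻¹ * x.1 * g⁻¹⁻¹ by rw [inv_inv], conj_pow, x.2]; simp [mul_assoc]
        refine Subgroup.mem_centralizer_singleton_iff.2 ?_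
        have h2 := ((Commute.refl (g⁻¹ * x.1 * g)).pow_right n).eq
        rwa [hx'] at h2
      · show (g⁻¹ * x.1 * g) ^ n = c
        rw [show g⁻¹ * x.1 * g = g⁻¹ * x.1 * g⁻¹⁻¹ by rw [inv_inv], conj_pow, x.2]; simp [mul_assoc]
      · rw [conj_pow, x.2]
    rw [Nat.card_congr e1, Nat.card_sigma, Finset.sum_congr rfl fun y _ => e2 y, Finset.sum_const,
      Finset.card_univ, ← Nat.card_eq_fintype_card, hh, smul_eq_mul]
  have hcC : c ∈ C := Subgroup.mem_centralizer_singleton_iff.2 rfl
  have hcen : (⟨c, hcC⟩ : C) ∈ Subgroup.center C := Subgroup.mem_center_iff.2 fun x =>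
    Subtype.ext (Subgroup.mem_centralizer_singleton_iff.1 x.2)
  rw [htot, hh, ← Subgroup.index_mul_card C, Nat.gcd_mul_left]
  refine Nat.mul_dvd_mul_left _ ((central (⟨c, hcC⟩ : C) hcen n).trans (dvd_of_eq ?_))
  exact Nat.card_congr (Equiv.subtypeEquivRight fun x => by rw [← Subtype.val_inj]; rfl)

end Cfsg.Agent.S4212
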