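import Cfsg.Statements.S4213
import Mathlib
import Cfsg.Agent.Lib.SchurExt.Frobenius
import Cfsg.Agent.Lib.SolvableStructure.MinimalNormal

set_option autoImplicit false
open Cfsg

namespace Cfsg.Agent.S4213

universe u

private theorem aux (N₀ : ℕ) : ∀ (G : Type u) [Group G] [Finite G] [Group.IsSolvable G], Nat.card G = N₀ →
    ∀ n : ℕ, n ∣ Nat.card G → Nat.card {x : G // x ^ n = 1} = n →
      ∃ H : Subgroup G, (H : Set G) = {x : G | x ^ n = 1} := by
  induction N₀ using Nat.strong_induction_on with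
  | _ N₀ IH =>
  intro G _ _ _ hG n hn hcount
  rcases eq_or_ne (⊥ : Subgroup G) ⊤ with htriv | hnt
  · refine ⟨⊤, Set.eq_of_subset_of_subset (fun x _ => ?_) (fun x _ => Subgroup.mem_top x)⟩
    show x ^ n = 1
    rw [Subgroup.mem_bot.1 (htriv.symm ▸ Subgroup.mem_top x : x ∈ (⊥ : Subgroup G)), one_pow]
  obtain ⟨N, -, hNn, hNb, hmin⟩ := CfsgLib.SolvableStructure.exists_minimal_normal
    (inferInstance : (⊤ : Subgroup G).Normal) hnt.symm
  obtain ⟨p, i, hp, hi, hcardN, hexp, -⟩ := CfsgLib.SolvableStructure.minimal_normal_prime hNb hmin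
  set π := QuotientGroup.mk' N with hπ
  have hN1 : 1 < Nat.card N := (Subgroup.one_lt_card_iff_ne_bot N).2 hNb
  have hGN : Nat.card G = Nat.card N * Nat.card (G ⧸ N) := by
    rw [← Subgroup.index_eq_card, Subgroup.card_mul_index]
  have hlt : Nat.card (G ⧸ N) < N₀ := by
    rw [← hG, hGN]; exact lt_mul_of_one_lt_left Nat.card_pos hN1
  have hn0 : 0 < n := Nat.pos_of_ne_zero fun h => Nat.card_pos.ne' (Nat.eq_zero_of_zero_dvd (h ▸ hn))
  have hpre : ∀ (P : G ⧸ N → Prop), Nat.card {x : G // P (π x)} = Nat.card N * Nat.card {y // P y} := by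
    intro P
    rw [← Nat.card_prod]
    exact Nat.card_congr (QuotientGroup.preimageMkEquivSubgroupProdSet N {y | P y})
  by_cases hpn : p ∣ n
  · -- all of `N` consists of solutions
    set d := Nat.gcd (n / p) (Nat.card (G ⧸ N)) with hd
    obtain ⟨c, hc⟩ := hpn
    have hc' : n / p = c := by rw [hc, Nat.mul_div_cancel_left _ hp.pos]
    have hdc : d ∣ c := hc' ▸ Nat.gcd_dvd_left _ _
    have hd0 : 0 < d := Nat.gcd_pos_of_pos_right _ Nat.card_pos
    have hle : n ≤ Nat.card N * d := by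
      refine Nat.le_of_dvd (Nat.mul_pos Nat.card_pos hd0) ?_
      rw [hd, ← Nat.gcd_mul_left]
      refine Nat.dvd_gcd ?_ (hGN ▸ hn)
      rw [hc', hc, hcardN]
      exact Nat.mul_dvd_mul (dvd_pow_self p hi.ne') dvd_rfl
    obtain ⟨k, hk⟩ := CfsgLib.SchurExt.dvd_card_pow_eq_one_of_dvd (G := G ⧸ N)
      (Nat.gcd_dvd_right (n / p) _)
    have hsub : ∀ x : G, π x ^ d = 1 → x ^ n = 1 := by
      intro x hx
      rw [← map_pow] at hx
      have h1 := hexp _ ((QuotientGroup.eq_one_iff _).1 hx)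
      obtain ⟨e, he⟩ := hdc
      rw [hc, he, show p * (d * e) = d * p * e by ring, pow_mul, pow_mul, h1, one_pow]
    have hcnt : Nat.card {x : G // π x ^ d = 1} ≤ n := hcount ▸ Nat.card_le_card_of_injective
      (fun x => (⟨x.1, hsub x.1 x.2⟩ : {x : G // x ^ n = 1}))
      (fun a b h => Subtype.ext (congrArg Subtype.val h :))
    rw [hpre (fun y => y ^ d = 1), ← hd] at *
    have hkpos : 0 < k := Nat.pos_of_ne_zero fun h => by
      rw [h, mul_zero] at hk
      haveI : Nonempty {y : G ⧸ N // y ^ d = 1} := ⟨⟨1, one_pow d⟩⟩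
      exact Nat.card_pos.ne' hk
    have hcnt' : Nat.card N * (d * k) ≤ n := hk ▸ hcnt
    have hk1 : k = 1 := by
      by_contra h
      have : Nat.card N * d * 2 ≤ Nat.card N * d * k := Nat.mul_le_mul_left _ (by omega)
      rw [← mul_assoc] at hcnt'
      have := Nat.mul_pos (Nat.card_pos (α := N)) hd0
      omega
    rw [hk1, mul_one] at hk hcnt'
    obtain ⟨H, hH⟩ := IH _ hlt (G ⧸ N) rfl d (Nat.gcd_dvd_right _ _) hk
    refine ⟨H.comap π, Set.eq_of_subset_of_ncard_le ?_ ?_ (Set.toFinite _)⟩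
    · intro x hx
      exact hsub x ((Set.ext_iff.1 hH (π x)).1 hx)
    · rw [← Nat.card_coe_set_eq, ← Nat.card_coe_set_eq]
      show Nat.card {x : G // x ^ n = 1} ≤ Nat.card {x : G // π x ∈ H}
      rw [hcount, hpre (fun y => y ∈ H), show Nat.card {y // y ∈ H} = d from
        (Nat.card_congr (Equiv.subtypeEquivRight fun y => Set.ext_iff.1 hH y)).trans hk]
      omega
  · -- every solution of the quotient comes from one above
    have hcop : Nat.Coprime p n := hp.coprime_iff_not_dvd.2 hpn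
    have hnQ : n ∣ Nat.card (G ⧸ N) :=
      (Nat.Coprime.symm (Nat.Coprime.pow_left i hcop)).dvd_of_dvd_mul_left (by rw [← hcardN, ← hGN]; exact hn)
    obtain ⟨k, hk⟩ := CfsgLib.SchurExt.dvd_card_pow_eq_one_of_dvd (G := G ⧸ N) hnQ
    obtain ⟨a, ha⟩ : ∃ a, p * a ≡ 1 [MOD n] := by
      obtain ⟨u, hu⟩ := ((ZMod.isUnit_iff_coprime p n).2 hcop).exists_right_inv
      haveI : NeZero n := ⟨hn0.ne'⟩
      exact ⟨u.val, (ZMod.natCast_eq_natCast_iff _ _ _).1 (by rw [Nat.cast_mul, ZMod.natCast_zmod_val, hu, Nat.cast_one])⟩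
    let f : {x : G // x ^ n = 1} → {y : G ⧸ N // y ^ n = 1} := fun x => ⟨π x.1, by rw [← map_pow, x.2, map_one]⟩
    have hf : Function.Surjective f := by
      rintro ⟨y, hy⟩
      obtain ⟨x, rfl⟩ := QuotientGroup.mk'_surjective N y
      have h1 : (x ^ n) ^ p = 1 := hexp _ ((QuotientGroup.eq_one_iff _).1 (by rw [← map_pow] at hy; exact hy))
      refine ⟨⟨x ^ (p * a), by rw [← pow_mul, show p * a * n = n * p * a by ring, pow_mul, pow_mul, h1, one_pow]⟩,
        Subtype.ext ?_⟩
      show π (x ^ (p * a)) = π x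
      rw [map_pow]
      conv_rhs => rw [← pow_one (π x)]
      exact pow_eq_pow_iff_modEq.2 (ha.of_dvd (orderOf_dvd_of_pow_eq_one hy))
    have hle := Nat.card_le_card_of_surjective f hf
    rw [hcount] at hle
    have hkpos : 0 < k := Nat.pos_of_ne_zero fun h => by
      rw [h, mul_zero] at hk
      haveI : Nonempty {y : G ⧸ N // y ^ n = 1} := ⟨⟨1, one_pow n⟩⟩
      exact Nat.card_pos.ne' hk
    have hk1 : k = 1 := by
      by_contra h
      have : n * 2 ≤ n * k := Nat.mul_le_mul_left _ (by omega)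
      omega
    rw [hk1, mul_one] at hk
    obtain ⟨H, hH⟩ := IH _ hlt (G ⧸ N) rfl n hnQ hk
    -- a complement of `N` in the preimage
    set K := H.comap π with hK
    have hHcard : Nat.card H = n := (Nat.card_congr (Equiv.subtypeEquivRight fun y => Set.ext_iff.1 hH y)).trans hk
    have hKcard : Nat.card K = Nat.card N * n := by
      rw [← hHcard]; exact hpre (fun y => y ∈ H)
    have hNK : N ≤ K := fun x hx => by
      show (x : G ⧸ N) ∈ H
      rw [(QuotientGroup.eq_one_iff (N := N) x).2 hx]; exact one_mem H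
    have hNcard : Nat.card (N.subgroupOf K) = Nat.card N := Nat.card_congr (Subgroup.subgroupOfEquivOfLe hNK).toEquiv
    have hidx : (N.subgroupOf K).index = n := by
      have := Subgroup.card_mul_index (N.subgroupOf K)
      rw [hNcard, hKcard] at this
      exact Nat.eq_of_mul_eq_mul_left Nat.card_pos this
    obtain ⟨L, hL⟩ := Subgroup.exists_right_complement'_of_coprime (N := N.subgroupOf K)
      (by rw [hidx, hNcard, hcardN]; exact Nat.Coprime.pow_left i hcop)
    have hLcard : Nat.card L = n := by rw [← hidx, hL.symm.index_eq_card]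
    refine ⟨L.map K.subtype, Set.eq_of_subset_of_ncard_le ?_ ?_ (Set.toFinite _)⟩
    · rintro _ ⟨l, hl, rfl⟩
      show (l : G) ^ n = 1
      rw [← Subgroup.coe_pow, show l ^ n = 1 from ?_, OneMemClass.coe_one]
      have h1 := pow_card_eq_one' (G := L) (x := ⟨l, hl⟩)
      rw [hLcard] at h1
      exact congrArg Subtype.val h1
    · rw [← Nat.card_coe_set_eq, ← Nat.card_coe_set_eq]
      show Nat.card {x : G // x ^ n = 1} ≤ Nat.card (L.map K.subtype)
      rw [hcount, Subgroup.card_map_of_injective K.subtype_injective, hLcard]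

/-- If `G` is a finite solvable group and `n` divides the order of `G` and exactly `n` elements `x` of `G` satisfy `x^n = 1`, then these elements form a normal subgroup. -/
theorem result {G : Type*} [Group G] [Finite G] [Group.IsSolvable G] (n : ℕ) (hn : n ∣ Nat.card G) (hcount : Nat.card {x : G // x ^ n = 1} = n) : ∃ H : Subgroup G, H.Normal ∧ (H : Set G) = {x : G | x ^ n = 1} := by
  obtain ⟨H, hH⟩ := aux (Nat.card G) G rfl n hn hcount
  refine ⟨H, ⟨fun x hx g => ?_⟩, hH⟩
  have h1 : x ^ n = 1 := (Set.ext_iff.1 hH x).1 hx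
  refine (Set.ext_iff.1 hH _).2 ?_
  show (g * x * g⁻¹) ^ n = 1
  rw [conj_pow, h1, mul_one, mul_inv_cancel]

end Cfsg.Agent.S4213
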