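import Cfsg.Statements.S4217
import Cfsg.Agent.Lib.NormalComplements.Gaschutz

set_option autoImplicit false
open Cfsg

namespace Cfsg.Agent.S4217

/-- Let `A` be an abelian normal subgroup of the finite group `G`. Then `A` has a complement in `G` if and only if, for every prime `p` dividing the index of `A`, there are a Sylow `p`-subgroup `S` of `G/A` and a subgroup `K` of `G` with `K ∩ A = 1` and `KA` equal to the preimage of `S` (that is, `A` has a complement in the preimage of a Sylow `p`-subgroup of `G/A`). -/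
theorem result {G : Type*} [Group G] [Finite G] (A : Subgroup G) [A.Normal] (hA : IsMulCommutative A) : (∃ K : Subgroup G, K.IsComplement' A) ↔ ∀ p : ℕ, p.Prime → p ∣ A.index → ∃ (S : Sylow p (G ⧸ A)) (K : Subgroup G), K ⊓ A = ⊥ ∧ K ⊔ A = (S : Subgroup (G ⧸ A)).comap (QuotientGroup.mk' A) := by
  constructor
  · rintro ⟨K, hK⟩ p hp -
    haveI := Fact.mk hp
    obtain ⟨S⟩ : Nonempty (Sylow p (G ⧸ A)) := inferInstance
    set H := (S : Subgroup (G ⧸ A)).comap (QuotientGroup.mk' A) with hH
    have hAH : A ≤ H := fun a ha => by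
      rw [hH, Subgroup.mem_comap, show (QuotientGroup.mk' A) a = 1 from (QuotientGroup.eq_one_iff a).mpr ha]
      exact one_mem _
    refine ⟨S, K ⊓ H, ?_, le_antisymm (sup_le inf_le_right hAH) fun x hx => ?_⟩
    · exact le_bot_iff.mp (fun x hx => by
        rw [← hK.disjoint.eq_bot]; exact ⟨hx.1.1, hx.2⟩)
    · obtain ⟨k, hk, a, ha, rfl⟩ := Subgroup.mem_sup_of_normal_right.mp
        (show x ∈ K ⊔ A by rw [hK.sup_eq_top]; trivial)
      refine Subgroup.mul_mem _ (Subgroup.mem_sup_left ⟨hk, ?_⟩) (Subgroup.mem_sup_right ha)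
      simpa using H.mul_mem hx (H.inv_mem (hAH ha))
  · intro h
    refine CfsgLib.NormalComplements.exists_isComplement'_of_sylow_local A hA fun p hp hpd => ?_
    haveI := Fact.mk hp
    obtain ⟨S, K, h1, h2⟩ := h p hp hpd
    refine ⟨_, K, h2 ▸ le_sup_right, ?_, h2 ▸ le_sup_left, h1, h2.ge⟩
    rw [Subgroup.index_comap_of_surjective _ (QuotientGroup.mk'_surjective A)]
    exact S.not_dvd_index

end Cfsg.Agent.S4217
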