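import Cfsg.Statements.S4218
import Mathlib
import Cfsg.Agent.Lib.CoprimeAction.Aut
import Cfsg.Agent.Lib.PSolvable.HallHigman
import Cfsg.Agent.Lib.PGroups.Frattini

set_option autoImplicit false
open Cfsg
open scoped commutatorElement

namespace Cfsg.Agent.S4218

/-- In a group with `C(O_p) ≤ O_p`, the quotient by `O_p` acts faithfully on `O_p/Φ(O_p)`. -/
private theorem mem_pCore_of_trivial {Q : Type*} [Group Q] [Finite Q] {p : ℕ} [Fact p.Prime]
    (hC : Subgroup.centralizer (Cfsg.pCore p Q : Set Q) ≤ Cfsg.pCore p Q) (g : Q)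
    (hg : ∀ r ∈ Cfsg.pCore p Q, g * r * g⁻¹ * r⁻¹ ∈ (frattini ↥(Cfsg.pCore p Q)).map (Cfsg.pCore p Q).subtype) :
    g ∈ Cfsg.pCore p Q := by
  classical
  set R := Cfsg.pCore p Q with hRdef
  haveI : R.Normal := Subgroup.sSup_normal _ fun _ h => h.1
  set F := (frattini ↥R).map R.subtype with hF
  haveI : (frattini ↥R).Characteristic := inferInstance
  haveI : F.Normal := by rw [hF]; infer_instance
  set π := QuotientGroup.mk' F
  haveI : (R.map π).Normal := Subgroup.Normal.map inferInstance π (QuotientGroup.mk'_surjective F)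
  set K := (Subgroup.centralizer (R.map π : Set (Q ⧸ F))).comap π with hK
  haveI : K.Normal := by rw [hK]; infer_instance
  have hiff : ∀ x, x ∈ K ↔ ∀ r ∈ R, x * r * x⁻¹ * r⁻¹ ∈ F := by
    intro x
    rw [hK, Subgroup.mem_comap, Subgroup.mem_centralizer_iff]
    constructor
    · intro h r hr
      have h1 := h (π r) ⟨r, hr, rfl⟩
      refine (QuotientGroup.eq_one_iff _).mp ?_
      show π (x * r * x⁻¹ * r⁻¹) = 1
      rw [map_mul, map_mul, map_mul, map_inv, map_inv, ← h1]
      group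
    · rintro h _ ⟨r, hr, rfl⟩
      have h1 : π (x * r * x⁻¹ * r⁻¹) = 1 := (QuotientGroup.eq_one_iff _).mpr (h r hr)
      rw [map_mul, map_mul, map_mul, map_inv, map_inv] at h1
      calc π r * π x = (π x * π r * (π x)⁻¹ * (π r)⁻¹) * (π r * π x) := by rw [h1, one_mul]
        _ = π x * π r := by group
  have hKp : IsPGroup p K := by
    rw [IsPGroup.iff_card]
    refine ⟨(Nat.card K).primeFactorsList.length, Nat.eq_prime_pow_of_unique_prime_dvd Nat.card_pos.ne' fun {q} hq hdvd => ?_⟩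
    by_contra hqp
    haveI := Fact.mk hq
    obtain ⟨y, hy⟩ := exists_prime_orderOf_dvd_card' (G := K) q hdvd
    set a : MulAut R := MulAut.conjNormal (y : Q) with ha
    have hao : orderOf a ∣ q := by
      refine (orderOf_map_dvd (MulAut.conjNormal (H := R)) (y : Q)).trans ?_
      rw [Subgroup.orderOf_coe, hy]
    have ha1 : a = 1 := by
      refine CfsgLib.CoprimeAction.aut_eq_one_of_frattini ?_ fun r => ?_
      · refine Nat.Coprime.coprime_dvd_left hao ?_
        obtain ⟨m, hm⟩ := IsPGroup.iff_card.mp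
          ((CfsgLib.Cores.isPGroup_pCore p Q).to_subgroup (frattini ↥R))
        rw [hm]
        exact Nat.Coprime.pow_right m ((Nat.coprime_primes hq Fact.out).mpr hqp)
      · have h1 := (hiff _).mp y.2 (r : Q) r.2
        have h2 := (inferInstance : F.Normal).conj_mem _ h1 (r : Q)⁻¹
        obtain ⟨z, hz, hzq⟩ := h2
        have : r⁻¹ * a r = z := Subtype.ext (by
          rw [ha, Subgroup.coe_mul, MulAut.conjNormal_apply, Subgroup.coe_inv, ← Subgroup.coe_subtype, hzq]
          simp [mul_assoc])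
        rw [this]; exact hz
    have hyC : (y : Q) ∈ Subgroup.centralizer (R : Set Q) := Subgroup.mem_centralizer_iff.mpr fun r hr => by
      have h1 := congrArg (fun f : MulAut R => ((f ⟨r, hr⟩ : R) : Q)) ha1
      simp only [ha, MulAut.conjNormal_apply, MulAut.one_apply] at h1
      exact (mul_inv_eq_iff_eq_mul.mp h1).symm
    obtain ⟨k, hk⟩ := (IsPGroup.iff_orderOf.mp (CfsgLib.Cores.isPGroup_pCore p Q)) ⟨(y : Q), hC hyC⟩
    rw [← Subgroup.orderOf_coe] at hk
    rw [show orderOf ((⟨(y : Q), hC hyC⟩ : R) : Q) = q from (Subgroup.orderOf_coe y).trans hy] at hk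
    exact hqp ((Nat.prime_dvd_prime_iff_eq hq Fact.out).mp (hq.dvd_of_dvd_pow (hk ▸ dvd_rfl : q ∣ p ^ k)))
  exact CfsgLib.Cores.le_pCore hKp ((hiff g).mpr hg)

/-- Let `G` be a finite `p`-solvable group, `N₀ = O_{p'}(G)`, `P₁ = O_{p',p}(G)`, and let `F ≤ P₁` be the preimage of the Frattini subgroup of `P₁/N₀`. Then an element `g` of `G` induces the identity on `P₁/F` by conjugation (that is, `g x g⁻¹ x⁻¹ ∈ F` for all `x ∈ P₁`) if and only if `g ∈ P₁`: the group `G/P₁` acts faithfully on `P₁/F`. -/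
theorem result {G : Type*} [Group G] [Finite G] {p : ℕ} [Fact p.Prime] (hG : Cfsg.IsPSolvable p G) (g : G) : (∀ x ∈ Cfsg.pPrimePCore p G, g * x * g⁻¹ * x⁻¹ ∈ ((frattini (↥(Cfsg.pPrimePCore p G) ⧸ (Cfsg.pPrimeCore p G).subgroupOf (Cfsg.pPrimePCore p G))).comap (QuotientGroup.mk' ((Cfsg.pPrimeCore p G).subgroupOf (Cfsg.pPrimePCore p G)))).map (Cfsg.pPrimePCore p G).subtype) ↔ g ∈ Cfsg.pPrimePCore p G := by
  classical
  haveI : (Cfsg.pPrimeCore p G).Normal := Subgroup.sSup_normal _ fun _ h => h.1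
  set N0 := Cfsg.pPrimeCore p G with hN0
  set P1 := Cfsg.pPrimePCore p G with hP1
  set π := QuotientGroup.mk' N0 with hπ
  set R := Cfsg.pCore p (G ⧸ N0) with hR
  haveI : R.Normal := Subgroup.sSup_normal _ fun _ h => h.1
  have hmem : ∀ x, x ∈ P1 ↔ π x ∈ R := fun x => Iff.rfl
  haveI : (N0.subgroupOf P1).Normal := inferInstance
  let f : ↥P1 →* ↥R := (π.comp P1.subtype).codRestrict R fun x => x.2
  have hfs : Function.Surjective f := fun r => by
    obtain ⟨x, hx⟩ := QuotientGroup.mk'_surjective N0 (r : G ⧸ N0)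
    exact ⟨⟨x, (hmem x).mpr (hx ▸ r.2)⟩, Subtype.ext hx⟩
  have hker : ∀ x : P1, f x = 1 ↔ x ∈ N0.subgroupOf P1 := fun x => by
    rw [Subgroup.mem_subgroupOf, ← QuotientGroup.eq_one_iff, Subtype.ext_iff]; rfl
  let e : ↥P1 ⧸ N0.subgroupOf P1 →* ↥R := QuotientGroup.lift _ f fun x hx => (hker x).mpr hx
  have hei : Function.Injective e := by
    rw [injective_iff_map_eq_one]
    intro q hq
    induction q using QuotientGroup.induction_on with | H x => ?_
    exact (QuotientGroup.eq_one_iff x).mpr ((hker x).mp hq)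
  have hes : Function.Surjective e := fun r => by
    obtain ⟨x, hx⟩ := hfs r; exact ⟨QuotientGroup.mk x, hx⟩
  have hmapF : (frattini (↥P1 ⧸ N0.subgroupOf P1)).map e = frattini ↥R :=
    CfsgLib.PGroups.map_frattini_eq ((CfsgLib.Cores.isPGroup_pCore p _).of_injective e hei) e hes
  have key : ∀ y, y ∈ P1 → (y ∈ ((frattini (↥P1 ⧸ N0.subgroupOf P1)).comap (QuotientGroup.mk' (N0.subgroupOf P1))).map P1.subtype ↔
      π y ∈ (frattini ↥R).map R.subtype) := by
    intro y hy
    constructor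
    · rintro ⟨x, hx, rfl⟩
      exact ⟨f x, hmapF ▸ ⟨_, hx, rfl⟩, rfl⟩
    · rintro ⟨r, hr, hry⟩
      rw [← hmapF] at hr
      obtain ⟨q, hq, rfl⟩ := hr
      refine ⟨⟨y, hy⟩, ?_, rfl⟩
      have : QuotientGroup.mk' (N0.subgroupOf P1) ⟨y, hy⟩ = q := hei (Subtype.ext hry.symm)
      show QuotientGroup.mk' (N0.subgroupOf P1) ⟨y, hy⟩ ∈ frattini _
      rw [this]; exact hq
  haveI hP1n : P1.Normal := inferInstanceAs (R.comap π).Normal
  have hcomm : ∀ x ∈ P1, g * x * g⁻¹ * x⁻¹ ∈ P1 := fun x hx =>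
    P1.mul_mem (hP1n.conj_mem x hx g) (P1.inv_mem hx)
  constructor
  · intro h
    rw [hmem]
    refine mem_pCore_of_trivial (CfsgLib.PSolvable.centralizer_pCore_le
      (CfsgLib.PSolvable.isPSolvable_quotient hG N0) (CfsgLib.Cores.pPrimeCore_quotient_pPrimeCore p)) _ fun r hr => ?_
    obtain ⟨x, rfl⟩ := QuotientGroup.mk'_surjective N0 r
    have h1 := (key _ (hcomm x hr)).mp (h x hr)
    simpa only [map_mul, map_inv] using h1
  · intro hg x hx
    rw [key _ (hcomm x hx)]
    refine ⟨⁅(⟨π g, (hmem g).mp hg⟩ : R), ⟨π x, (hmem x).mp hx⟩⁆,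
      CfsgLib.PGroups.commutatorElement_mem_frattini (CfsgLib.Cores.isPGroup_pCore p _) _ _, ?_⟩
    simp [commutatorElement_def]

end Cfsg.Agent.S4218
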