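import Cfsg.Statements.S4219
import Mathlib

set_option autoImplicit false
open Cfsg
open scoped Pointwise

namespace Cfsg.Agent.S4219

/-- Let a finite group `G` act `t`-fold transitively on a finite set, let `H` be the stabilizer of `t` distinct points and `P` a Sylow `p`-subgroup of `H`. Then the normalizer of `P` in `G` is `t`-fold transitive on the fixed points of `P`: any `t` distinct fixed points of `P` can be carried to any other `t` distinct fixed points of `P` by an element normalizing `P`. -/
theorem result {G : Type*} [Group G] [Finite G] {α : Type*} [Fintype α] [MulAction G α] {t : ℕ} (hG : MulAction.IsMultiplyPretransitive G α t) (x : Fin t ↪ α) {p : ℕ} [Fact p.Prime] (P : Sylow p (MulAction.stabilizer G x)) (a b : Fin t ↪ α) (ha : ∀ i, a i ∈ MulAction.fixedPoints ((P : Subgroup (MulAction.stabilizer G x)).map (MulAction.stabilizer G x).subtype) α) (hb : ∀ i, b i ∈ MulAction.fixedPoints ((P : Subgroup (MulAction.stabilizer G x)).map (MulAction.stabilizer G x).subtype) α) : ∃ g ∈ Subgroup.normalizer ((((P : Subgroup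 (MulAction.stabilizer G x)).map (MulAction.stabilizer G x).subtype) : Subgroup G) : Set G), g • a = b := by
  classical
  haveI := MulAction.isMultiplyPretransitive_iff.mp hG
  obtain ⟨g0, hg0⟩ : ∃ g : G, g • a = b := MulAction.exists_smul_eq G a b
  set P' : Subgroup G := (P : Subgroup (MulAction.stabilizer G x)).map (MulAction.stabilizer G x).subtype with hP'
  set K := MulAction.stabilizer G a with hK
  have hPK : P' ≤ K := fun u hu => MulAction.mem_stabilizer_iff.mpr (Function.Embedding.ext fun i => by
    simpa using ha i ⟨u, hu⟩)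
  have hPb : ∀ u ∈ P', u • b = b := fun u hu => Function.Embedding.ext fun i => by
    simpa using hb i ⟨u, hu⟩
  set P2 : Subgroup G := P'.map (MulAut.conj g0⁻¹).toMonoidHom with hP2
  have hP2K : P2 ≤ K := by
    rintro _ ⟨u, hu, rfl⟩
    refine MulAction.mem_stabilizer_iff.mpr ?_
    simp only [MulEquiv.coe_toMonoidHom, MulAut.conj_apply, inv_inv]
    rw [mul_smul, mul_smul, hg0, hPb u hu, ← hg0, inv_smul_smul]
  have hcK : Nat.card K = Nat.card (MulAction.stabilizer G x) := by
    obtain ⟨c, hc⟩ : ∃ c : G, c • x = a := MulAction.exists_smul_eq G x a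
    rw [hK, ← hc, MulAction.stabilizer_smul_eq_stabilizer_map_conj]
    exact Subgroup.card_map_of_injective (MulAut.conj c).injective
  have hcard : ∀ Q : Subgroup G, Q ≤ K → Nat.card Q = Nat.card P' →
      Nat.card (Q.subgroupOf K) = p ^ (Nat.card K).factorization p := fun Q hQ hc => by
    rw [Nat.card_congr (Subgroup.subgroupOfEquivOfLe hQ).toEquiv, hc, hP',
      Subgroup.card_map_of_injective (Subgroup.subtype_injective _), Sylow.card_eq_multiplicity, hcK]
  let S1 : Sylow p K := Sylow.ofCard _ (hcard P' hPK rfl)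
  let S2 : Sylow p K := Sylow.ofCard _ (hcard P2 hP2K
    (Subgroup.card_map_of_injective (MulAut.conj g0⁻¹).injective))
  obtain ⟨s, hs⟩ := MulAction.exists_smul_eq K S1 S2
  have hsP : P'.map (MulAut.conj (s : G)).toMonoidHom = P2 := by
    have h1 : MulAut.conj s • P'.subgroupOf K = P2.subgroupOf K := congrArg Sylow.toSubgroup hs
    have h2 := congrArg (Subgroup.map K.subtype) h1
    rw [Subgroup.map_subgroupOf_eq_of_le hP2K] at h2
    rw [← h2]
    conv_lhs => rw [← Subgroup.map_subgroupOf_eq_of_le hPK]
    ext u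
    constructor
    · rintro ⟨v, ⟨w, hw, rfl⟩, rfl⟩
      exact ⟨_, ⟨w, hw, rfl⟩, rfl⟩
    · rintro ⟨v, ⟨w, hw, rfl⟩, rfl⟩
      exact ⟨_, ⟨w, hw, rfl⟩, rfl⟩
  refine ⟨g0 * (s : G), ?_, ?_⟩
  · rw [Subgroup.mem_normalizer_iff]
    have h3 : P'.map (MulAut.conj (g0 * (s : G))).toMonoidHom = P' := by
      have : (MulAut.conj (g0 * (s : G))).toMonoidHom =
          (MulAut.conj g0).toMonoidHom.comp (MulAut.conj (s : G)).toMonoidHom := by
        ext u; simp [mul_assoc]
      rw [this, ← Subgroup.map_map, hsP, hP2, Subgroup.map_map]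
      convert Subgroup.map_id P'
      ext u; simp [mul_assoc]
    intro u
    constructor
    · intro hu; rw [← h3]; exact ⟨u, hu, rfl⟩
    · intro hu
      rw [← h3] at hu
      obtain ⟨v, hv, e⟩ := hu
      simp only [MulEquiv.coe_toMonoidHom, MulAut.conj_apply] at e
      rwa [mul_left_cancel (mul_right_cancel e)] at hv
  · rw [mul_smul, show (s : G) • a = a from s.2, hg0]

end Cfsg.Agent.S4219
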