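import Cfsg.Statements.S4221
import Cfsg.Agent.Lib.FourTransitive.SmallDegree

set_option autoImplicit false
open Cfsg

namespace Cfsg.Agent.S4221

/-- Let `G` be a `4`-fold transitive permutation group on a finite set of `n` points in which the pointwise stabilizer of some four distinct points has odd order. Then `n = 4` or `n = 5` with `G` the full symmetric group, or `n = 6` or `n = 7` with `G` the alternating group, or `n = 11` and `G` has order `7920`. -/
theorem result {α : Type*} [Fintype α] [DecidableEq α] (G : Subgroup (Equiv.Perm α)) (hG : MulAction.IsMultiplyPretransitive G α 4) (x : Fin 4 ↪ α) (hodd : Odd (Nat.card (MulAction.stabilizer G x))) : ((Fintype.card α = 4 ∨ Fintype.card α = 5) ∧ G = ⊤) ∨ ((Fintype.card α = 6 ∨ Fintype.card α = 7) ∧ G = alternatingGroup α) ∨ (Fintype.card α = 11 ∧ Nat.card G = 7920) := by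
  classical
  have D := CfsgLib.FourTransitive.oddQuad_of_stabilizer hG x hodd
  have hcard := CfsgLib.FourTransitive.card_eq_mul hG x
  have hdvd := CfsgLib.FourTransitive.card_stabilizer_dvd (G := G) x
  set h := Nat.card (MulAction.stabilizer G x) with hh
  have h4 : 4 ≤ Fintype.card α := by simpa using Fintype.card_le_of_embedding x
  have hperm : Nat.card (Equiv.Perm α) = (Fintype.card α).factorial := by
    rw [Nat.card_perm, Nat.card_eq_fintype_card]
  rcases le_or_gt 8 (Fintype.card α) with h8 | h8
  · obtain ⟨a, b, ha, hb, ha2, hb2, hc, a0, a1, a2, a3, b0, b1, b2, b3⟩ := D.exists_pair x.injective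
    have C : CfsgLib.FourTransitive.Config G x a b :=
      ⟨D, x.injective, ha, hb, ha2, hb2, hc, a0, a1, a2, a3, b0, b1, b2, b3⟩
    have h11 := (C.degree_eq h8).1
    have h2 : MulAction.IsMultiplyPretransitive G α 2 := by
      haveI := hG
      exact MulAction.isMultiplyPretransitive_of_le (G := G) (α := α) (m := 2) (n := 4)
        (by norm_num) (by rw [Nat.card_eq_fintype_card]; exact h4)
    have hprim : MulAction.IsPreprimitive G α :=
      MulAction.isPreprimitive_of_is_two_pretransitive h2
    have h1 : h = 1 := by
      rw [hh, Subgroup.card_eq_one, Subgroup.eq_bot_iff_forall]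
      intro g hg
      exact Subtype.ext (C.eq_one_of_fix h8 hprim g.2
        fun i => congrArg (fun f : Fin 4 ↪ α => f i) hg)
    refine Or.inr (Or.inr ⟨h11, ?_⟩)
    rw [hcard, h1, h11]
    rfl
  · obtain ⟨j, hj⟩ := hodd
    interval_cases hn : Fintype.card α
    · have h1 : h = 1 := by simpa using hdvd
      refine Or.inl ⟨Or.inl rfl, Subgroup.eq_top_of_card_eq G ?_⟩
      rw [hcard, hperm, h1]; rfl
    · have h1 : h = 1 := by simpa using hdvd
      refine Or.inl ⟨Or.inr rfl, Subgroup.eq_top_of_card_eq G ?_⟩
      rw [hcard, hperm, h1]; rfl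
    · have h1 : h = 1 := by
        have := Nat.le_of_dvd (Nat.factorial_pos _) hdvd
        norm_num [Nat.factorial] at this
        omega
      exact Or.inr (Or.inl ⟨Or.inl rfl, CfsgLib.FourTransitive.eq_alternatingGroup_of_card
        (k := 360) (by rw [hn]; rfl) (by rw [hcard, h1]; rfl)⟩)
    · have h1 : h = 1 ∨ h = 3 := by
        have := Nat.le_of_dvd (Nat.factorial_pos _) hdvd
        norm_num [Nat.factorial] at this hdvd
        have : h ≠ 5 := fun e => by rw [e] at hdvd; norm_num at hdvd
        omega
      rcases h1 with h1 | h1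
      · exact absurd (by rw [hcard, h1]; rfl) (CfsgLib.FourTransitive.card_ne_840 (G := G) hn)
      · exact Or.inr (Or.inl ⟨Or.inr rfl, CfsgLib.FourTransitive.eq_alternatingGroup_of_card
          (k := 2520) (by rw [hn]; rfl) (by rw [hcard, h1]; rfl)⟩)

end Cfsg.Agent.S4221
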