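import Cfsg.Statements.S4223
import Mathlib
import Cfsg.Agent.Lib.DirectProduct.KrullSchmidt

set_option autoImplicit false
open Cfsg

namespace Cfsg.Agent.S4223

/-- If a finite group is isomorphic both to a direct product of `m` directly indecomposable nontrivial groups and to a direct product of `n` such groups (a group is directly indecomposable when it is not the internal direct product of two nontrivial normal subgroups), then `m = n` and the factors are isomorphic in pairs after a suitable matching. -/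
theorem result {m n : ℕ} {A : Fin m → Type*} {B : Fin n → Type*} [∀ i, Group (A i)] [∀ j, Group (B j)] [∀ i, Finite (A i)] [∀ j, Finite (B j)] (hA : ∀ i, Nontrivial (A i) ∧ ∀ H K : Subgroup (A i), H.Normal → K.Normal → H ⊓ K = ⊥ → H ⊔ K = ⊤ → H = ⊥ ∨ K = ⊥) (hB : ∀ j, Nontrivial (B j) ∧ ∀ H K : Subgroup (B j), H.Normal → K.Normal → H ⊓ K = ⊥ → H ⊔ K = ⊤ → H = ⊥ ∨ K = ⊥) (e : ((i : Fin m) → A i) ≃* ((j : Fin n) → B j)) : ∃ σ : Fin m ≃ Fin n, ∀ i, Nonempty (A i ≃* B (σ i)) := by
  induction m generalizing n with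
  | zero =>
    obtain rfl : n = 0 := by
      by_contra hn
      haveI := (hB ⟨0, Nat.pos_of_ne_zero hn⟩).1
      haveI : Nontrivial ((j : Fin n) → B j) := Pi.nontrivial_at ⟨0, Nat.pos_of_ne_zero hn⟩
      exact not_nontrivial ((i : Fin 0) → A i) e.toEquiv.nontrivial
    exact ⟨Equiv.refl _, fun i => i.elim0⟩
  | succ m ih =>
    haveI := (hA 0).1
    let i : A 0 →* ((i : Fin (m + 1)) → A i) := MonoidHom.mulSingle A 0
    have hi : i.range.Normal := ⟨by
      rintro _ ⟨a, rfl⟩ g
      refine ⟨g 0 * a * (g 0)⁻¹, ?_⟩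
      funext k
      by_cases hk : k = 0
      · subst hk; simp [i]
      · simp [i, hk]⟩
    obtain ⟨j, hα, hβ⟩ := CfsgLib.KrullSchmidt.exists_bijective (hA 0).2 (fun k => (hB k).2) e i
      (Pi.evalMonoidHom A 0) (fun a => by simp [i]) hi
    obtain ⟨n, rfl⟩ : ∃ k, n = k + 1 := ⟨n - 1, by have := j.isLt; omega⟩
    let ψ : ((k : Fin m) → A k.succ) →* ((k : Fin n) → B (j.succAbove k)) :=
      MonoidHom.mk' (fun x k => e (Fin.cons 1 x : (i : Fin (m + 1)) → A i) (j.succAbove k)) fun x y => by
        have h : (Fin.cons 1 (x * y) : (i : Fin (m + 1)) → A i) = Fin.cons 1 x * Fin.cons 1 y := by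
          funext k
          refine Fin.cases ?_ (fun l => ?_) k <;> simp
        funext k
        rw [h, map_mul]
        rfl
    have hψ : Function.Injective ψ := by
      refine (injective_iff_map_eq_one ψ).2 fun x hx => ?_
      set X : (i : Fin (m + 1)) → A i := Fin.cons 1 x with hX
      have h1 : e X = Pi.mulSingle j (e X j) := by
        funext k
        refine j.succAboveCases ?_ (fun l => ?_) k
        · simp
        · rw [Pi.mulSingle_eq_of_ne (Fin.succAbove_ne j l)]
          exact congrFun hx l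
      have h2 : e X j = 1 := by
        refine hβ ?_
        show (e.symm (Pi.mulSingle j (e X j))) 0 = (e.symm (Pi.mulSingle j 1)) 0
        rw [← h1, e.symm_apply_apply, Pi.mulSingle_one, map_one]
        rfl
      rw [h2, Pi.mulSingle_one, MulEquiv.map_eq_one_iff] at h1
      funext k
      exact congrFun h1 k.succ
    have hcard : Nat.card ((k : Fin m) → A k.succ) = Nat.card ((k : Fin n) → B (j.succAbove k)) := by
      have h1 : Nat.card ((i : Fin (m + 1)) → A i) = Nat.card ((k : Fin (n + 1)) → B k) :=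
        Nat.card_congr e.toEquiv
      have h0 : Nat.card (A 0) = Nat.card (B j) := Nat.card_congr (Equiv.ofBijective _ hα)
      rw [Nat.card_pi, Nat.card_pi, Fin.prod_univ_succ, Fin.prod_univ_succAbove _ j, ← h0] at h1
      rw [Nat.card_pi, Nat.card_pi]
      exact Nat.eq_of_mul_eq_mul_left Nat.card_pos h1
    obtain ⟨σ, hσ⟩ := ih (fun k => hA k.succ) (fun k => hB (j.succAbove k))
      (MulEquiv.ofBijective ψ ((Nat.bijective_iff_injective_and_card ψ).2 ⟨hψ, hcard⟩))
    refine ⟨(finSuccEquiv m).trans ((Equiv.optionCongr σ).trans (finSuccEquiv' j).symm), fun k => ?_⟩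
    refine Fin.cases ?_ (fun l => ?_) k
    · rw [Equiv.trans_apply, finSuccEquiv_zero, Equiv.trans_apply, Equiv.optionCongr_apply, Option.map_none,
        finSuccEquiv'_symm_none]
      exact ⟨MulEquiv.ofBijective ((Pi.evalMonoidHom B j).comp (e.toMonoidHom.comp i)) hα⟩
    · rw [Equiv.trans_apply, finSuccEquiv_succ, Equiv.trans_apply, Equiv.optionCongr_apply, Option.map_some,
        finSuccEquiv'_symm_some]
      exact hσ l

end Cfsg.Agent.S4223
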