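import Cfsg.Statements.S4227
import Cfsg.Agent.Lib.PSolvable.Series
import Cfsg.Agent.Lib.CharTheory.Burnside
import Cfsg.Agent.Lib.CoprimeAction.Basic
import Cfsg.Agent.Lib.PGroups.Frattini

set_option autoImplicit false
open Cfsg CfsgLib.Cores CfsgLib.PSolvable

namespace Cfsg.Agent.S4227

universe u

/-- The eight-term relation: the fours group `{1, a, b, ab}` permuted cyclically by `x`. -/
theorem key {H Q : Type*} [Group H] [Group Q] (f : H →* Q) (hexp : ∀ g : H, g ^ 6 = 1)
    (hV3 : ∀ v ∈ f.ker, v ^ 3 = 1) (hVc : ∀ v ∈ f.ker, ∀ w ∈ f.ker, v * w = w * v)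
    (x a b : H) (hb : f b = f x * f a * (f x)⁻¹) (hx : f x * f x * f x = 1) (ha : f a * f a = 1)
    (hab : f a * f b = f b * f a) (hxb : f x * f b * (f x)⁻¹ = f a * f b) :
    ∀ v ∈ f.ker, a * v = v * a := by
  let V := f.ker
  let φ : H → V → V := fun h v => ⟨h * v * h⁻¹, f.normal_ker.conj_mem v v.2 h⟩
  letI : CommGroup V :=
    { (inferInstance : Group V) with mul_comm := fun v w => Subtype.ext (hVc v v.2 w w.2) }
  have hmul : ∀ (g h : H) (v : V), φ (g * h) v = φ g (φ h v) := fun g h v =>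
    Subtype.ext (by simp only [φ]; group)
  have hm : ∀ (g : H) (v w : V), φ g (v * w) = φ g v * φ g w := fun g v w =>
    Subtype.ext (by simp only [φ, Subgroup.coe_mul]; group)
  have hcongr : ∀ (g h : H), f g = f h → ∀ v : V, φ g v = φ h v := by
    intro g h hgh v
    have hk : h⁻¹ * g ∈ V := by
      show h⁻¹ * g ∈ f.ker
      rw [MonoidHom.mem_ker, map_mul, map_inv, hgh, inv_mul_cancel]
    have hc := hVc _ hk v v.2
    apply Subtype.ext
    show g * v * g⁻¹ = h * v * h⁻¹
    calc g * v * g⁻¹ = h * ((h⁻¹ * g) * v) * (h⁻¹ * g)⁻¹ * h⁻¹ := by group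
      _ = h * (v * (h⁻¹ * g)) * (h⁻¹ * g)⁻¹ * h⁻¹ := by rw [hc]
      _ = h * v * h⁻¹ := by group
  have hnorm : ∀ (y : H), f y * f y * f y = 1 → ∀ v : V, v * φ y v * φ (y * y) v = 1 := by
    intro y hy v
    have h3 : ∀ z : H, f z * f z * f z = 1 → z ^ 3 = 1 := by
      intro z hz
      have hmem : z ^ 3 ∈ f.ker := by
        rw [MonoidHom.mem_ker, map_pow, pow_succ, pow_succ, pow_one, hz]
      have h9 := hV3 _ hmem
      have h6 := hexp z
      rw [← pow_mul] at h9
      calc z ^ 3 = z ^ (3 * 3) * (z ^ 6)⁻¹ := by group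
        _ = 1 := by rw [h9, h6, inv_one, one_mul]
    have hy3 := h3 y hy
    have hvy3 := h3 (v * y) (by rw [map_mul, MonoidHom.mem_ker.1 v.2, one_mul, hy])
    apply Subtype.ext
    simp only [φ, Subgroup.coe_mul, Subgroup.coe_one]
    calc (v : H) * (y * v * y⁻¹) * (y * y * v * (y * y)⁻¹)
        = ((v : H) * y) ^ 3 * (y ^ 3)⁻¹ := by simp only [pow_succ, pow_zero, one_mul]; group
      _ = 1 := by rw [hvy3, hy3, inv_one, one_mul]
  intro v hv
  -- relations in `Q`
  set X := f x with hX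
  set A := f a with hA
  set B := f b with hB
  have hxa : X * A = B * X := by rw [hb]; group
  have hxb' : X * B = A * B * X := by rw [← hxb]; group
  have hB2 : B * B = 1 := by
    rw [hb, show X * A * X⁻¹ * (X * A * X⁻¹) = X * (A * A) * X⁻¹ by group, ha]; group
  have hBAB : B * (A * B) = A := by
    rw [← mul_assoc, ← hab, mul_assoc, hB2, mul_one]
  have e1 : (A * X) * (A * X) = A * B * (X * X) := by
    rw [show A * X * (A * X) = A * (X * A) * X by group, hxa]; group
  have e2 : (B * X) * (B * X) = A * (X * X) := by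
    rw [show B * X * (B * X) = B * (X * B) * X by group, hxb',
      show B * (A * B * X) * X = B * (A * B) * (X * X) by group, hBAB]
  have e3 : (A * B * X) * (A * B * X) = B * (X * X) := by
    have h : X * (A * B) = A * X := by
      rw [← mul_assoc, hxa, mul_assoc, hxb', ← mul_assoc, hBAB]
    rw [show A * B * X * (A * B * X) = A * B * (X * (A * B)) * X by group, h,
      show A * B * (A * X) * X = A * (B * A) * (X * X) by group, ← hab, ← mul_assoc, ← mul_assoc,
      ha, one_mul, mul_assoc]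
  have c0 : X * X * X = 1 := hx
  have hX2A : X * X * A = A * B * (X * X) := by
    rw [mul_assoc, hxa, ← mul_assoc, hxb']; group
  have hX2B : X * X * B = A * (X * X) := by
    rw [mul_assoc, hxb', ← mul_assoc, ← mul_assoc, hxa,
      show B * X * B * X = B * (X * B) * X by group, hxb',
      show B * (A * B * X) * X = B * (A * B) * (X * X) by group, hBAB]
  have c1 : (A * X) * (A * X) * (A * X) = 1 := by
    rw [e1, show A * B * (X * X) * (A * X) = A * B * (X * X * A) * X by group, hX2A,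
      show A * B * (A * B * (X * X)) * X = A * (B * A) * B * (X * X * X) by group, ← hab, c0,
      mul_one, show A * (A * B) * B = (A * A) * (B * B) by group, ha, hB2, one_mul]
  have c2 : (B * X) * (B * X) * (B * X) = 1 := by
    rw [e2, show A * (X * X) * (B * X) = A * (X * X * B) * X by group, hX2B,
      show A * (A * (X * X)) * X = A * A * (X * X * X) by group, ha, c0, one_mul]
  have c3 : (A * B * X) * (A * B * X) * (A * B * X) = 1 := by
    rw [e3, show B * (X * X) * (A * B * X) = B * (X * X * A) * B * X by group, hX2A,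
      show B * (A * B * (X * X)) * B * X = B * (A * B) * (X * X * B) * X by group, hBAB, hX2B,
      show A * (A * (X * X)) * X = A * A * (X * X * X) by group, ha, c0, one_mul]
  let s : V → V := fun w => w * φ a w * φ b w * φ (a * b) w
  let w : V := ⟨v, hv⟩
  -- the four norms
  have n0 := hnorm x hx w
  have n1 := hnorm (a * x) (by rw [map_mul]; exact c1) w
  have n2 := hnorm (b * x) (by rw [map_mul]; exact c2) w
  have n3 := hnorm (a * b * x) (by rw [map_mul, map_mul]; exact c3) w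
  rw [hcongr (a * x * (a * x)) (a * b * (x * x)) (by simp only [map_mul]; exact e1) w] at n1
  rw [hcongr (b * x * (b * x)) (a * (x * x)) (by simp only [map_mul]; exact e2) w] at n2
  rw [hcongr (a * b * x * (a * b * x)) (b * (x * x)) (by simp only [map_mul]; exact e3) w] at n3
  rw [hmul a x, hmul (a * b) (x * x)] at n1
  rw [hmul b x, hmul a (x * x)] at n2
  rw [hmul (a * b) x, hmul b (x * x)] at n3
  have htot : w ^ 4 * (s (φ x w) * s (φ (x * x) w)) = 1 := by
    calc w ^ 4 * (s (φ x w) * s (φ (x * x) w))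
        = (w * φ x w * φ (x * x) w) * (w * φ a (φ x w) * φ (a * b) (φ (x * x) w)) *
          (w * φ b (φ x w) * φ a (φ (x * x) w)) *
          (w * φ (a * b) (φ x w) * φ b (φ (x * x) w)) := by
            simp only [s, pow_succ, pow_zero, one_mul]; ac_rfl
      _ = 1 := by rw [n0, n1, n2, n3, one_mul, one_mul, one_mul]
  -- `s` takes values fixed by `a`
  have haa : ∀ u : V, φ a (φ a u) = u := by
    intro u
    rw [← hmul, hcongr (a * a) 1 (by simp only [map_mul, map_one]; exact ha)]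
    exact Subtype.ext (by simp [φ])
  have hs : ∀ u : V, φ a (s u) = s u := by
    intro u
    have hab' : φ a (φ b u) = φ (a * b) u := (hmul a b u).symm
    have habb : φ a (φ (a * b) u) = φ b u := by rw [← hab', haa]
    simp only [s, hm, haa, hab', habb]
    ac_rfl
  have hfix : φ a (w ^ 4) = w ^ 4 := by
    have hinv : w ^ 4 = (s (φ x w) * s (φ (x * x) w))⁻¹ := eq_inv_of_mul_eq_one_left htot
    let M : V →* V := MonoidHom.mk' (φ a) (hm a)
    show M (w ^ 4) = w ^ 4
    rw [hinv, map_inv, map_mul]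
    show (φ a (s (φ x w)) * φ a (s (φ (x * x) w)))⁻¹ = _
    rw [hs, hs]
  have h4 : ∀ u : V, u ^ 4 = u := fun u => Subtype.ext (by
    rw [Subgroup.coe_pow, pow_succ, hV3 _ u.2, one_mul])
  rw [h4 w] at hfix
  have := congrArg Subtype.val hfix
  simp only [φ, w] at this
  exact mul_inv_eq_iff_eq_mul.1 this

theorem pow_eq_one_of_isPGroup {H : Type*} [Group H] {p : ℕ} (hp : p = 2 ∨ p = 3)
    (hexp : ∀ g : H, g ^ 6 = 1) {K : Subgroup H} (hK : IsPGroup p K) {y : H} (hy : y ∈ K) :
    y ^ p = 1 := by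
  obtain ⟨k, hk⟩ := hK ⟨y, hy⟩
  have hk' : y ^ (p ^ k) = 1 := congrArg Subtype.val hk
  have h1 := pow_gcd_eq_one.2 ⟨hk', hexp y⟩
  refine orderOf_dvd_iff_pow_eq_one.1 ((orderOf_dvd_of_pow_eq_one h1).trans ?_)
  rcases hp with rfl | rfl
  · refine (Nat.Coprime.dvd_of_dvd_mul_right (n := 3) ?_ (Nat.gcd_dvd_right _ 6))
    exact Nat.Coprime.coprime_dvd_left (Nat.gcd_dvd_left _ _) (Nat.Coprime.pow_left k (by norm_num))
  · refine (Nat.Coprime.dvd_of_dvd_mul_right (n := 2) ?_ (Nat.gcd_dvd_right _ 6))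
    exact Nat.Coprime.coprime_dvd_left (Nat.gcd_dvd_left _ _) (Nat.Coprime.pow_left k (by norm_num))

theorem isSolvable_of_exp_six {H : Type u} [Group H] [Finite H] (hexp : ∀ g : H, g ^ 6 = 1) :
    Group.IsSolvable H := by
  set n := Nat.card H with hn
  refine CfsgLib.CharTheory.isSolvable_of_card_dvd_pow_mul_pow 2 3 n n Nat.prime_two
    Nat.prime_three ?_
  rw [← hn, ← mul_pow, show 2 * 3 = 6 from rfl]
  refine (Nat.factorization_prime_le_iff_dvd Nat.card_pos.ne' (by positivity)).1 fun q hq => ?_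
  rw [Nat.factorization_pow, Finsupp.smul_apply, smul_eq_mul]
  by_cases hd : q ∣ n
  · haveI : Fact q.Prime := ⟨hq⟩
    obtain ⟨g, hg⟩ := exists_prime_orderOf_dvd_card' q hd
    have h6 : q ∣ 6 := hg ▸ orderOf_dvd_of_pow_eq_one (hexp g)
    have := hq.factorization_pos_of_dvd (by norm_num) h6
    calc n.factorization q ≤ n := (Nat.factorization_lt q Nat.card_pos.ne').le
      _ ≤ n * Nat.factorization 6 q := Nat.le_mul_of_pos_right _ this
  · rw [Nat.factorization_eq_zero_of_not_dvd hd]; exact Nat.zero_le _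

theorem mem_pCore_two {H : Type u} [Group H] [Finite H] (hexp : ∀ g : H, g ^ 6 = 1)
    (hcore : pPrimeCore 2 H = ⊥) {x : H} (hx : x ^ 2 = 1) : x ∈ pCore 2 H := by
  haveI : Group.IsSolvable H := isSolvable_of_exp_six hexp
  refine centralizer_pCore_le (p := 2) isPSolvable_of_isSolvable hcore
    (Subgroup.mem_centralizer_iff.2 fun v hv => ?_)
  have hxg : IsPGroup 2 (Subgroup.zpowers x) := by
    obtain ⟨i, -, hi⟩ := (Nat.dvd_prime_pow Nat.prime_two).1
      (show orderOf x ∣ 2 ^ 1 from by simpa using orderOf_dvd_of_pow_eq_one hx)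
    exact IsPGroup.of_card (by rw [Nat.card_zpowers, hi])
  have hK := hxg.to_sup_of_normal_right (isPGroup_pCore 2 H)
  have h1 := pow_eq_one_of_isPGroup (Or.inl rfl) hexp hK
    (mul_mem (Subgroup.mem_sup_left (Subgroup.mem_zpowers x)) (Subgroup.mem_sup_right hv))
  have h2 := pow_eq_one_of_isPGroup (Or.inl rfl) hexp (isPGroup_pCore 2 H) hv
  rw [pow_two] at h1 h2 hx
  calc v * x = x⁻¹ * (x * v * (x * v)) * v⁻¹ * (v * v) * (x * x) * (x * x)⁻¹ := by
        simp only [h2, hx]; group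
    _ = x * v := by
        simp only [h1, h2, hx, mul_one, inv_one]
        rw [inv_eq_of_mul_eq_one_left hx, inv_eq_of_mul_eq_one_left h2]

theorem mem_pCore_three {H : Type u} [Group H] [Finite H] (hexp : ∀ g : H, g ^ 6 = 1)
    (hcore : pPrimeCore 3 H = ⊥) {x : H} (hx : x ^ 3 = 1) : x ∈ pCore 3 H := by
  by_contra hxV
  haveI : Group.IsSolvable H := isSolvable_of_exp_six hexp
  let V := pCore 3 H
  let q : H →* H ⧸ V := QuotientGroup.mk' V
  have hq : Function.Surjective q := QuotientGroup.mk'_surjective V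
  have hexpQ : ∀ g : H ⧸ V, g ^ 6 = 1 := by
    intro g
    obtain ⟨h, rfl⟩ := hq g
    rw [← map_pow, hexp, map_one]
  haveI : Group.IsSolvable (H ⧸ V) := isSolvable_of_exp_six hexpQ
  have hQ3 : pCore 3 (H ⧸ V) = ⊥ := pCore_quotient_pCore 3 H
  have hQ2 : pPrimeCore 2 (H ⧸ V) = ⊥ := by
    refine le_bot_iff.1 (le_trans (le_pCore (p := 3) ?_) hQ3.le)
    intro g
    refine ⟨1, Subtype.ext ?_⟩
    rw [pow_one, Subgroup.coe_pow, Subgroup.coe_one]
    have hd : orderOf (g : H ⧸ V) ∣ 2 * 3 := orderOf_dvd_of_pow_eq_one (hexpQ _)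
    refine orderOf_dvd_iff_pow_eq_one.1 (Nat.Coprime.dvd_of_dvd_mul_left ?_ hd)
    exact (card_pPrimeCore_coprime 2).coprime_dvd_left
      (Subgroup.orderOf_dvd_natCard _ g.2)
  let W := pCore 2 (H ⧸ V)
  have hW2 : ∀ w ∈ W, w * w = 1 := fun w hw => by
    rw [← pow_two]; exact pow_eq_one_of_isPGroup (Or.inl rfl) hexpQ (isPGroup_pCore 2 _) hw
  have hWc : ∀ v ∈ W, ∀ w ∈ W, v * w = w * v := by
    intro v hv w hw
    have h1 := hW2 v hv
    have h2 := hW2 w hw
    have h3 := hW2 _ (mul_mem hv hw)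
    calc v * w = (v * w)⁻¹ := (inv_eq_of_mul_eq_one_right h3).symm
      _ = w⁻¹ * v⁻¹ := mul_inv_rev v w
      _ = w * v := by rw [inv_eq_of_mul_eq_one_right h1, inv_eq_of_mul_eq_one_right h2]
  have hX3 : q x * q x * q x = 1 := by
    rw [← map_mul, ← map_mul, ← map_one q]
    congr 1
    rw [← hx, pow_succ, pow_two]
  have hXW : ∃ w ∈ W, q x * w * (q x)⁻¹ ≠ w := by
    by_contra hne
    push_neg at hne
    have hmem : q x ∈ W := centralizer_pCore_le (p := 2) isPSolvable_of_isSolvable hQ2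
      (Subgroup.mem_centralizer_iff.2 fun w hw => (mul_inv_eq_iff_eq_mul.1 (hne w hw)).symm)
    have h2 := hW2 _ hmem
    rw [h2, one_mul] at hX3
    exact hxV ((QuotientGroup.eq_one_iff x).1 hX3)
  obtain ⟨w, hw, hne⟩ := hXW
  set X := q x with hXdef
  have hWn : ∀ v ∈ W, X * v * X⁻¹ ∈ W := fun v hv => (inferInstance : W.Normal).conj_mem v hv X
  have hw1 := hWn w hw
  have hw2 := hWn _ hw1
  set u := w * (X * w * X⁻¹) with hu
  have huW : u ∈ W := mul_mem hw hw1
  have hu1 : u ≠ 1 := by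
    intro h
    exact hne ((inv_eq_of_mul_eq_one_right h).symm.trans (inv_eq_of_mul_eq_one_right (hW2 w hw)))
  -- a lift of `u` of order two
  obtain ⟨a₀, ha₀⟩ := hq u
  set a := a₀ ^ 3 with hadef
  have hqa : q a = u := by
    rw [hadef, map_pow, ha₀, pow_succ, pow_two, hW2 u huW, one_mul]
  have ha2 : a * a = 1 := by rw [hadef, ← pow_add]; exact hexp a₀
  -- pass to `H / Φ(V)`
  haveI : Fact (Nat.Prime 3) := ⟨Nat.prime_three⟩
  let N : Subgroup H := (frattini V).map V.subtype
  haveI : N.Normal := normal_map_subtype V _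
  have hNV : N ≤ V := Subgroup.map_subtype_le _
  let g : H →* H ⧸ N := QuotientGroup.mk' N
  let f : H ⧸ N →* H ⧸ V := QuotientGroup.lift N q (by rwa [QuotientGroup.ker_mk'])
  have hfg : ∀ h : H, f (g h) = q h := fun h => rfl
  have hker : ∀ y ∈ f.ker, ∃ v ∈ V, g v = y := by
    intro y hy
    obtain ⟨h, rfl⟩ := QuotientGroup.mk'_surjective N y
    refine ⟨h, ?_, rfl⟩
    rwa [MonoidHom.mem_ker, hfg, ← MonoidHom.mem_ker, QuotientGroup.ker_mk'] at hy
  have hV3 : ∀ y ∈ f.ker, y ^ 3 = 1 := by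
    intro y hy
    obtain ⟨v, hv, rfl⟩ := hker y hy
    rw [← map_pow, pow_eq_one_of_isPGroup (Or.inr rfl) hexp (isPGroup_pCore 3 H) hv, map_one]
  have hVc : ∀ y ∈ f.ker, ∀ z ∈ f.ker, y * z = z * y := by
    intro y hy z hz
    obtain ⟨v, hv, rfl⟩ := hker y hy
    obtain ⟨v', hv', rfl⟩ := hker z hz
    have hc := CfsgLib.PGroups.commutatorElement_mem_frattini (isPGroup_pCore 3 H)
      (⟨v, hv⟩ : V) ⟨v', hv'⟩
    have hcN : g (v * v' * v⁻¹ * v'⁻¹) = 1 :=
      (QuotientGroup.eq_one_iff _).2 ⟨_, hc, by simp [commutatorElement_def]⟩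
    rw [map_mul, map_mul, map_mul, map_inv, map_inv, mul_inv_eq_one, mul_inv_eq_iff_eq_mul] at hcN
    exact hcN
  have hexpN : ∀ y : H ⧸ N, y ^ 6 = 1 := by
    intro y
    obtain ⟨h, rfl⟩ := QuotientGroup.mk'_surjective N y
    rw [← map_pow, hexp, map_one]
  have hqb : q (x * a * x⁻¹) = X * u * X⁻¹ := by rw [map_mul, map_mul, map_inv, hqa]
  have hxb : X * (X * u * X⁻¹) * X⁻¹ = u * (X * u * X⁻¹) := by
    have hX3' : X * X * X = 1 := hX3
    calc X * (X * u * X⁻¹) * X⁻¹
        = X * (X * w * X⁻¹) * X⁻¹ * (X * X * X * w * (X * X * X)⁻¹) := by rw [hu]; group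
      _ = X * (X * w * X⁻¹) * X⁻¹ * w := by rw [hX3', inv_one, one_mul, mul_one]
      _ = w * (X * (X * w * X⁻¹) * X⁻¹) := hWc _ hw2 _ hw
      _ = w * ((X * w * X⁻¹) * (X * w * X⁻¹)) * (X * (X * w * X⁻¹) * X⁻¹) := by
          rw [hW2 _ hw1, mul_one]
      _ = u * (X * u * X⁻¹) := by rw [hu]; group
  have hcomm := key f hexpN hV3 hVc (g x) (g a) (g (x * a * x⁻¹))
    (by rw [hfg, hfg, hfg, hqb, hqa])
    (by rw [hfg]; exact hX3)
    (by rw [hfg, hqa]; exact hW2 u huW)
    (by rw [hfg, hfg, hqb, hqa]; exact hWc _ huW _ (hWn u huW))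
    (by rw [hfg, hfg, hfg, hqb, hqa]; exact hxb)
  -- the Frattini criterion
  have haV : a ∈ V := by
    refine centralizer_pCore_le (p := 3) isPSolvable_of_isSolvable hcore ?_
    refine (CfsgLib.CoprimeAction.le_centralizer_of_frattini (A := Subgroup.zpowers a) (K := V)
      ?_ ?_ ?_) (Subgroup.mem_zpowers a)
    · rw [Subgroup.normalizer_eq_top V]; exact le_top
    · rw [Nat.card_zpowers]
      obtain ⟨k, hk⟩ := IsPGroup.iff_card.1 (((isPGroup_pCore 3 H).to_subgroup (frattini V)))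
      rw [hk]
      exact Nat.Coprime.coprime_dvd_left
        (orderOf_dvd_of_pow_eq_one (n := 2) (by rw [pow_two]; exact ha2))
        (Nat.Coprime.pow_right k (by norm_num))
    · intro b hb k hk
      have hbc : g b * g k = g k * g b := by
        have hz : Subgroup.zpowers a ≤ (Subgroup.centralizer {g k}).comap g :=
          Subgroup.zpowers_le.2 (Subgroup.mem_comap.2 (Subgroup.mem_centralizer_singleton_iff.2
            (hcomm (g k) (by rw [MonoidHom.mem_ker, hfg]; exact (QuotientGroup.eq_one_iff k).2 hk))))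
        exact Subgroup.mem_centralizer_singleton_iff.1 (hz hb)
      refine (QuotientGroup.eq_one_iff _).1 ?_
      show g (k⁻¹ * (b * k * b⁻¹)) = 1
      rw [map_mul, map_mul, map_mul, map_inv, map_inv, hbc, mul_inv_cancel_right, inv_mul_cancel]
  exact hu1 (hqa ▸ (QuotientGroup.eq_one_iff a).2 haV)

theorem pLengthLE_one {G : Type u} [Group G] [Finite G] {p k : ℕ} [hp : Fact p.Prime]
    (hexp : ∀ g : G, g ^ 6 = 1) (hk : (6 : ℕ) ∣ p * k) (hk1 : ¬ p ∣ k)
    (hmem : ∀ x : G ⧸ pPrimeCore p G, x ^ p = 1 → x ∈ pCore p (G ⧸ pPrimeCore p G)) :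
    PLengthLE p 1 G := by
  unfold PLengthLE
  rw [show 2 * 1 + 1 = 2 + 1 from rfl, upperPSeries_succ_of_even (by decide),
    comap_pPrimeCore_congr (B := pPrimePCore p G) upperPSeries_two]
  suffices h : (Nat.card (G ⧸ pPrimePCore p G)).Coprime p by
    rw [pPrimeCore_eq_top_iff.2 h, Subgroup.comap_top]
  refine ((Nat.Prime.coprime_iff_not_dvd hp.out).2 fun hd => ?_).symm
  obtain ⟨y, hy⟩ := exists_prime_orderOf_dvd_card' p hd
  obtain ⟨g, rfl⟩ := QuotientGroup.mk'_surjective _ y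
  have hgk : g ^ k ∈ pPrimePCore p G := by
    refine Subgroup.mem_comap.2 (hmem _ ?_)
    rw [← map_pow, ← pow_mul, mul_comm k p]
    obtain ⟨c, hc⟩ := hk
    rw [hc, pow_mul, hexp, one_pow, map_one]
  refine hk1 ?_
  rw [← hy]
  refine orderOf_dvd_of_pow_eq_one ?_
  rw [← map_pow]
  exact (QuotientGroup.eq_one_iff _).2 hgk

/-- A finite group in which every element has order dividing `6` has `2`-length at most `1` and `3`-length at most `1`. -/
theorem result {G : Type*} [Group G] [Finite G] (h : ∀ x : G, x ^ 6 = 1) : Cfsg.PLengthLE 2 1 G ∧ Cfsg.PLengthLE 3 1 G := by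
  have hq : ∀ p : ℕ, ∀ y : G ⧸ pPrimeCore p G, y ^ 6 = 1 := by
    intro p y
    obtain ⟨g, rfl⟩ := QuotientGroup.mk'_surjective _ y
    rw [← map_pow, h, map_one]
  haveI : Fact (Nat.Prime 3) := ⟨Nat.prime_three⟩
  exact ⟨pLengthLE_one (k := 3) h (by norm_num) (by norm_num)
      fun x hx => mem_pCore_two (hq 2) (pPrimeCore_quotient_pPrimeCore 2) hx,
    pLengthLE_one (k := 2) h (by norm_num) (by norm_num)
      fun x hx => mem_pCore_three (hq 3) (pPrimeCore_quotient_pPrimeCore 3) hx⟩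

end Cfsg.Agent.S4227
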