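import Cfsg.Statements.S4274
import Cfsg.Agent.Lib.SmallGroups.Order175560

set_option autoImplicit false
open Cfsg

namespace Cfsg.Agent.S4274

/-- A finite group of order 175560 = 2³·3·5·7·11·19 is either simple or has a normal Sylow 19-subgroup. -/
theorem result {G : Type*} [Group G] [Finite G] (hG : Nat.card G = 175560) : IsSimpleGroup G ∨ ∀ P : Sylow 19 G, (P : Subgroup G).Normal := by
  refine or_iff_not_imp_left.mpr fun hs P => ?_
  have : Fact (Nat.Prime 19) := ⟨by norm_num⟩
  have : Nontrivial G := Finite.one_lt_card_iff_nontrivial.mp (by omega)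
  obtain ⟨N, hN, hN1, hN2⟩ : ∃ N : Subgroup G, N.Normal ∧ N ≠ ⊥ ∧ N ≠ ⊤ := by
    by_contra h
    push Not at h
    exact hs { eq_bot_or_eq_top_of_normal := fun H hH =>
      or_iff_not_imp_left.mpr fun h1 => h H hH h1 }
  exact CfsgLib.SmallGroups.Order175560.normal_of_normal_subgroup (dvd_of_eq hG)
    (by rw [hG]; norm_num)
    (fun H _ _ hd hlt h19 Q => CfsgLib.SmallGroups.Order175560.normal_of_lt (hd.trans (dvd_of_eq hG))
      (lt_of_lt_of_eq hlt hG) h19 Q) hN1 hN2 P

end Cfsg.Agent.S4274
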