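import Cfsg.Statements.S4275
-- import your own Cfsg.Agent.* helpers here

set_option autoImplicit false
open Cfsg

namespace Cfsg.Agent.S4275

/-- Let G be a transitive group of permutations of a finite set Ω, let o ∈ Ω, and let α be an automorphism of G. Then α is induced by conjugation by a permutation of Ω normalizing G if and only if the image under α of the stabilizer of o fixes some point of Ω. -/
theorem result {Ω : Type*} [Fintype Ω] (G : Subgroup (Equiv.Perm Ω)) (htr : MulAction.IsPretransitive G Ω) (o : Ω) (α : G ≃* G) : (∃ σ : Equiv.Perm Ω, σ ∈ Subgroup.normalizer (G : Set (Equiv.Perm Ω)) ∧ ∀ g : G, ((α g : G) : Equiv.Perm Ω) = σ * (g : Equiv.Perm Ω) * σ⁻¹) ↔ ∃ ω : Ω, ∀ g ∈ (MulAction.stabilizer G o).map α.toMonoidHom, g • ω = ω := by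
  constructor
  · rintro ⟨σ, -, hσ⟩
    refine ⟨σ o, ?_⟩
    intro g hg
    obtain ⟨h, hh, rfl⟩ := hg
    have h1 : (h : Equiv.Perm Ω) o = o := hh
    show ((α h : G) : Equiv.Perm Ω) (σ o) = σ o
    rw [hσ h]
    simp [Equiv.Perm.mul_apply, h1]
  · rintro ⟨ω, hω⟩
    haveI := htr
    have key : ∀ g h : G, g • o = h • o ↔ α g • ω = α h • ω := by
      have hle : (MulAction.stabilizer G o).map α.toMonoidHom ≤ MulAction.stabilizer G ω :=
        fun g hg => hω g hg
      have heq : (MulAction.stabilizer G o).map α.toMonoidHom = MulAction.stabilizer G ω := by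
        refine Subgroup.eq_of_le_of_card_ge hle (le_of_eq ?_)
        rw [Subgroup.card_map_of_injective α.injective]
        obtain ⟨t, ht⟩ := MulAction.exists_smul_eq G o ω
        rw [← ht, MulAction.stabilizer_smul_eq_stabilizer_map_conj,
          Subgroup.card_map_of_injective (MulAut.conj t).injective]
      intro g h
      have e1 : g • o = h • o ↔ h⁻¹ * g ∈ MulAction.stabilizer G o := by
        rw [MulAction.mem_stabilizer_iff, mul_smul, inv_smul_eq_iff]
      have e2 : α g • ω = α h • ω ↔ (α h)⁻¹ * α g ∈ MulAction.stabilizer G ω := by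
        rw [MulAction.mem_stabilizer_iff, mul_smul, inv_smul_eq_iff]
      rw [e1, e2, ← heq, ← map_inv α h, ← map_mul]
      exact (Subgroup.mem_map_iff_mem (f := α.toMonoidHom) α.injective).symm
    have hs : ∀ x : Ω, ∃ g : G, g • o = x := fun x => MulAction.exists_smul_eq G o x
    choose t ht using hs
    let σf : Ω → Ω := fun x => α (t x) • ω
    have hσf : ∀ (g : G), σf (g • o) = α g • ω := fun g => (key _ _).mp (ht (g • o))
    have hinj : Function.Injective σf := fun x y hxy => by
      rw [← ht x, ← ht y]; exact (key _ _).mpr hxy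
    let σ : Equiv.Perm Ω := Equiv.ofBijective σf ⟨hinj, Finite.injective_iff_surjective.mp hinj⟩
    have hσ : ∀ g : G, ((α g : G) : Equiv.Perm Ω) = σ * (g : Equiv.Perm Ω) * σ⁻¹ := by
      intro g
      rw [eq_mul_inv_iff_mul_eq]
      ext x
      obtain ⟨h, rfl⟩ := MulAction.exists_smul_eq G o x
      show (α g : G) • σf (h • o) = σf (g • h • o)
      rw [hσf, ← mul_smul g h, hσf, map_mul, mul_smul]
    refine ⟨σ, ?_, hσ⟩
    rw [Subgroup.mem_normalizer_iff]
    intro y
    refine ⟨fun hy => ?_, fun hy => ?_⟩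
    · rw [← hσ ⟨y, hy⟩]; exact SetLike.coe_mem _
    · have := hσ (α.symm ⟨_, hy⟩)
      rw [α.apply_symm_apply] at this
      have h2 : y = ((α.symm ⟨_, hy⟩ : G) : Equiv.Perm Ω) := by
        simpa [mul_assoc] using congrArg (fun z => σ⁻¹ * z * σ) this
      rw [h2]; exact SetLike.coe_mem _

end Cfsg.Agent.S4275
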