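import Cfsg.Statements.S4276
import Mathlib

set_option linter.style.haveILetI false
-- import your own Cfsg.Agent.* helpers here

set_option autoImplicit false
open Cfsg

namespace Cfsg.Agent.S4276

open Matrix

theorem nat_sq_of_odd_pow {d : ℤ} (hd : 0 < d) {m : ℕ} (hm : Odd m) {s : ℤ} (h : d ^ m = s ^ 2) :
    ∃ r : ℤ, r ^ 2 = d ∧ r ^ m = s := by
  obtain ⟨t, rfl⟩ := hm
  have hd0 : d ≠ 0 := hd.ne'
  have hdvd : d ^ t ∣ s := by
    rw [← Int.pow_dvd_pow_iff two_ne_zero, ← h, ← pow_mul]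
    exact pow_dvd_pow d (by omega)
  obtain ⟨r, hr⟩ := hdvd
  have hr2 : r ^ 2 = d := by
    rw [hr, mul_pow, ← pow_mul, pow_succ, mul_comm t 2] at h
    exact (mul_left_cancel₀ (pow_ne_zero _ hd0) h).symm
  refine ⟨r, hr2, ?_⟩
  rw [pow_succ, pow_mul, hr2, hr]

/-- The numerical heart: a coprime orbit length is `1` or `n - 1`. -/
theorem eq_one_or_eq_pred {n k d m : ℕ} (hn : 2 ≤ n) (hk0 : 0 < k) (hkn : k < n)
    (hd : (d : ℤ) * (n - 1) = k * (n - k)) (hdiv : (n : ℤ) ∣ (k : ℤ) ^ 2 - d)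
    (hm : Odd m) {s : ℤ} (hs : (d : ℤ) ^ m = s ^ 2) (hks : (n : ℤ) ∣ (k : ℤ) ^ m - s)
    (hcop : k.Coprime n) : k = 1 ∨ k = n - 1 := by
  have hd0 : 0 < (d : ℤ) := by
    rcases Nat.eq_zero_or_pos d with h | h
    · exfalso
      rw [h, Nat.cast_zero, zero_mul] at hd
      rcases mul_eq_zero.mp hd.symm with h' | h' <;> omega
    · exact_mod_cast h
  obtain ⟨r, hr2, hrm⟩ := nat_sq_of_odd_pow hd0 hm hs
  obtain ⟨t, rfl⟩ := hm
  have hkr : (n : ℤ) ∣ (k : ℤ) - r := by
    have h1 : (n : ℤ) ∣ (r ^ 2) ^ t * ((k : ℤ) - r) := by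
      have h2 : (n : ℤ) ∣ ((k : ℤ) ^ 2) ^ t - (r ^ 2) ^ t := by
        rw [← hr2] at hdiv
        exact hdiv.trans (sub_dvd_pow_sub_pow _ _ t)
      have e : (r ^ 2) ^ t * ((k : ℤ) - r) =
          ((k : ℤ) ^ (2 * t + 1) - r ^ (2 * t + 1)) - (k : ℤ) * (((k : ℤ) ^ 2) ^ t - (r ^ 2) ^ t) := by
        ring
      rw [e, hrm]
      exact dvd_sub hks (h2.mul_left _)
    refine (Int.dvd_of_dvd_mul_right_of_gcd_one h1 ?_)
    have hc : IsCoprime (n : ℤ) (r ^ 2) := by
      obtain ⟨c, hc⟩ := hdiv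
      have e : r ^ 2 = (k : ℤ) ^ 2 + (-c) * n := by rw [hr2]; linarith
      rw [e]
      exact (((Nat.isCoprime_iff_coprime.mpr hcop.symm)).pow_right).add_mul_right_right (-c)
    exact Int.isCoprime_iff_gcd_eq_one.mp hc.pow_right
  obtain ⟨c, hc⟩ := hkr
  -- `r ^ 2 ≤ k` and `r ≡ k`
  have hn1 : (1 : ℤ) ≤ n - 1 := by omega
  have hdk : (d : ℤ) ≤ k := by
    have : (d : ℤ) * (n - 1) ≤ (k : ℤ) * (n - 1) := by
      rw [hd]; exact mul_le_mul_of_nonneg_left (by omega) (by omega)
    exact le_of_mul_le_mul_right this (by omega)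
  have hrk : r ≤ k ∧ -(k : ℤ) ≤ r := by
    constructor
    · nlinarith [hr2, hdk, mul_self_nonneg (r - 1)]
    · nlinarith [hr2, hdk, mul_self_nonneg (r + 1)]
  have hc01 : c = 0 ∨ c = 1 := by
    have h0 : 0 ≤ c := by nlinarith [hrk.1]
    have h1 : c < 2 := by nlinarith [hrk.2]
    omega
  rcases hc01 with rfl | rfl
  · left
    have e : r = k := by linarith
    subst e
    have h1 : (k : ℤ) * k ≤ k := by rw [← sq, hr2]; exact hdk
    have h2 : (k : ℤ) ≤ 1 := by nlinarith
    omega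
  · right
    have e : r = k - n := by linarith
    subst e
    have h3 : ((n : ℤ) - k) ^ 2 * (n - 1) = k * (n - k) := by
      rw [← hd, ← hr2]; ring
    have hnk : (0 : ℤ) < n - k := by omega
    have h4 : ((n : ℤ) - k) * (n - 1) = k :=
      mul_left_cancel₀ hnk.ne' (by linarith [h3])
    have h5 : (n : ℤ) - k ≤ 1 := by nlinarith
    omega

section
variable {Ω : Type*} [Fintype Ω]

/-- The incidence matrix of the twisted orbit relation, and the resulting numerical data. -/
theorem twisted_orbit_card (G : Subgroup (Equiv.Perm Ω)) (h2 : MulAction.IsMultiplyPretransitive G Ω 2)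
    (o : Ω) (α : MulAut G) (hα : Odd (orderOf α)) (O : Finset Ω) (hn : 2 ≤ Fintype.card Ω)
    (hO : ∀ h : G, h • o = o → ∀ y ∈ O, α h • y ∈ O) (hne : O.Nonempty) (htop : O ≠ Finset.univ)
    (hcop : O.card.Coprime (Fintype.card Ω)) : O.card = 1 ∨ O.card = Fintype.card Ω - 1 := by
  classical
  have htr : ∀ x : Ω, ∃ g : G, g • o = x := by
    intro x
    haveI : Nontrivial Ω := Fintype.one_lt_card_iff_nontrivial.mp (by omega)
    obtain ⟨b, hb⟩ := exists_ne o
    obtain ⟨d, hd⟩ := exists_ne x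
    obtain ⟨g, hg, -⟩ := (MulAction.is_two_pretransitive_iff (G := G)).mp h2 hb.symm hd.symm
    exact ⟨g, hg⟩
  have hinvO : ∀ h : G, h • o = o → ∀ y, α h • y ∈ O ↔ y ∈ O := by
    intro h hh y
    refine ⟨fun hy => ?_, hO h hh y⟩
    have := hO h⁻¹ (inv_smul_eq_iff.mpr hh.symm) _ hy
    rwa [map_inv, inv_smul_smul] at this
  let A : Matrix Ω Ω ℤ := Matrix.of fun x y =>
    if (α (htr x).choose)⁻¹ • y ∈ O then 1 else 0
  have hA : ∀ (g : G) y, A (g • o) y = if (α g)⁻¹ • y ∈ O then 1 else 0 := by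
    intro g y
    have hch := (htr (g • o)).choose_spec
    generalize hg' : (htr (g • o)).choose = g' at hch
    show (if (α (htr (g • o)).choose)⁻¹ • y ∈ O then (1 : ℤ) else 0) = _
    rw [hg']
    refine if_congr ?_ rfl rfl
    have hh : (g'⁻¹ * g) • o = o := by rw [mul_smul, ← hch, inv_smul_smul]
    rw [← hinvO _ hh ((α g)⁻¹ • y), map_mul, map_inv, mul_smul, smul_inv_smul]
  have hAeq : ∀ (g : G) x y, A (g • x) (α g • y) = A x y := by
    intro g x y
    obtain ⟨g₀, rfl⟩ := htr x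
    rw [← mul_smul, hA, hA, map_mul, _root_.mul_inv_rev, mul_smul, inv_smul_smul]
  have hrow : ∀ x, ∑ y, A x y = O.card := by
    intro x
    obtain ⟨g, rfl⟩ := htr x
    simp_rw [hA]
    rw [Finset.sum_boole]
    congr 1
    refine Finset.card_bij (fun y _ => (α g)⁻¹ • y) (fun y hy => (Finset.mem_filter.mp hy).2)
      (fun a _ b _ h => MulAction.injective _ h) (fun y hy => ⟨α g • y, ?_, inv_smul_smul _ _⟩)
    exact Finset.mem_filter.mpr ⟨Finset.mem_univ _, by rwa [inv_smul_smul]⟩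
  -- invariant matrices
  let J : Matrix Ω Ω ℤ := Matrix.of fun _ _ => 1
  have hinv : ∀ M : Matrix Ω Ω ℤ, (∀ (g : G) x y, M (g • x) (g • y) = M x y) →
      ∃ s t : ℤ, M = s • (1 : Matrix Ω Ω ℤ) + t • J := by
    intro M hM
    obtain ⟨a, b, hab⟩ := Fintype.one_lt_card_iff.mp (show 1 < Fintype.card Ω by omega)
    refine ⟨M a a - M a b, M a b, ?_⟩
    ext x y
    by_cases hxy : x = y
    · subst hxy
      obtain ⟨g, hg⟩ : ∃ g : G, g • a = x := by
        obtain ⟨g₁, hg₁⟩ := htr a
        obtain ⟨g₂, hg₂⟩ := htr x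
        exact ⟨g₂ * g₁⁻¹, by rw [mul_smul, ← hg₁, inv_smul_smul, hg₂]⟩
      have := hM g a a
      rw [hg] at this
      simp only [Matrix.add_apply, Matrix.smul_apply, Matrix.one_apply_eq, Matrix.of_apply, smul_eq_mul, mul_one, J, this]
      ring
    · obtain ⟨g, hg₁, hg₂⟩ := (MulAction.is_two_pretransitive_iff (G := G)).mp h2 hab hxy
      have := hM g a b
      rw [hg₁, hg₂] at this
      simp only [Matrix.add_apply, Matrix.smul_apply, Matrix.one_apply_ne hxy, Matrix.of_apply, smul_eq_mul, mul_one, mul_zero, zero_add, J, this]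
  have hJJ : J * J = (Fintype.card Ω : ℤ) • J := by
    ext x y; simp [J, Matrix.mul_apply]
  have hAJ : A * J = (O.card : ℤ) • J := by
    ext x y; simp [J, Matrix.mul_apply, hrow]
  have hcol : ∀ y, ∑ x, A x y = O.card := by
    -- column sums are constant as `G` is transitive through `α`
    have hc : ∀ (g : G) y, ∑ x, A x (α g • y) = ∑ x, A x y := by
      intro g y
      rw [← Equiv.sum_comp (MulAction.toPerm g) (fun x => A x (α g • y))]
      exact Finset.sum_congr rfl fun x _ => hAeq g x y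
    have hconst : ∀ y, ∑ x, A x y = ∑ x, A x o := by
      intro y
      obtain ⟨g, rfl⟩ := htr y
      rw [← α.apply_symm_apply g, hc]
    intro y
    have htot : ∑ y : Ω, ∑ x, A x y = ∑ y : Ω, (O.card : ℤ) := by
      rw [Finset.sum_comm]; exact Finset.sum_congr rfl fun x _ => hrow x
    simp_rw [hconst] at htot
    rw [Finset.sum_const, Finset.sum_const] at htot
    rw [hconst y]
    exact smul_right_injective ℤ (by rw [Finset.card_univ]; omega) htot
  have hJA : J * A = (O.card : ℤ) • J := by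
    ext x y; simp [J, Matrix.mul_apply, hcol]
  -- `A Aᵀ`
  obtain ⟨d', lam, hAAt⟩ := hinv (A * Aᵀ) fun g x y => by
    simp only [Matrix.mul_apply, Matrix.transpose_apply]
    rw [← Equiv.sum_comp (MulAction.toPerm (α g)) (fun z => A (g • x) z * A (g • y) z)]
    exact Finset.sum_congr rfl fun z _ => by
      show A (g • x) (α g • z) * A (g • y) (α g • z) = _
      rw [hAeq, hAeq]
  have hdiag : d' + lam = O.card := by
    have h := congrArg (fun M : Matrix Ω Ω ℤ => M o o) hAAt
    simp only [Matrix.mul_apply, Matrix.transpose_apply, Matrix.add_apply, Matrix.smul_apply,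
      Matrix.one_apply_eq, Matrix.of_apply, smul_eq_mul, mul_one, J] at h
    rw [← h, ← hrow o]
    refine Finset.sum_congr rfl fun z _ => ?_
    show A o z * A o z = A o z
    simp only [A, Matrix.of_apply]
    split <;> simp
  have hk2 : (O.card : ℤ) ^ 2 = d' + lam * Fintype.card Ω := by
    have h := congrArg (fun M : Matrix Ω Ω ℤ => (M * J) o o) hAAt
    have hAtJ : Aᵀ * J = (O.card : ℤ) • J := by
      ext x y; simp [J, Matrix.mul_apply, hcol]
    simp only [Matrix.mul_assoc, hAtJ, Matrix.mul_smul, hAJ, add_mul, Matrix.smul_mul, one_mul, hJJ] at h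
    simp [J] at h
    linarith [h, sq (O.card : ℤ)]
  have hd0 : 0 ≤ d' := by
    by_contra h
    have h1 : (O.card : ℤ) ≤ Fintype.card Ω := by exact_mod_cast Finset.card_le_univ O
    have h2' : (2 : ℤ) ≤ Fintype.card Ω := by exact_mod_cast hn
    nlinarith [hdiag, hk2]
  obtain ⟨d, rfl⟩ := Int.eq_ofNat_of_zero_le hd0
  -- powers of `A`
  have hpow : ∀ (j : ℕ) (g : G) x y, (A ^ j) (g • x) ((α ^ j) g • y) = (A ^ j) x y := by
    intro j
    induction j with
    | zero => intro g x y; simp [Matrix.one_apply]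
    | succ j ih =>
      intro g x y
      simp only [pow_succ, Matrix.mul_apply]
      rw [← Equiv.sum_comp (MulAction.toPerm ((α ^ j) g))
        (fun z => (A ^ j) (g • x) z * A z ((α ^ j * α) g • y))]
      refine Finset.sum_congr rfl fun z _ => ?_
      show (A ^ j) (g • x) ((α ^ j) g • z) * A ((α ^ j) g • z) ((α ^ j * α) g • y) = _
      rw [ih, show (α ^ j * α) g = α ((α ^ j) g) by rw [← pow_succ, pow_succ', MulAut.mul_apply], hAeq]
  obtain ⟨s, t, hAm⟩ := hinv (A ^ orderOf α) fun g x y => by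
    have := hpow (orderOf α) g x y
    rwa [pow_orderOf_eq_one, MulAut.one_apply] at this
  have hAtJ : Aᵀ * J = (O.card : ℤ) • J := by
    ext x y; simp [J, Matrix.mul_apply, hcol]
  have hJjA : ∀ j : ℕ, A ^ j * J = ((O.card : ℤ) ^ j) • J := by
    intro j
    induction j with
    | zero => simp
    | succ j ih => rw [pow_succ, Matrix.mul_assoc, hAJ, Matrix.mul_smul, ih, smul_smul, pow_succ']
  have hgram : ∀ j : ℕ, ∃ c : ℤ, A ^ j * (A ^ j)ᵀ = ((d : ℤ) ^ j) • (1 : Matrix Ω Ω ℤ) + c • J := by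
    intro j
    induction j with
    | zero => exact ⟨0, by simp⟩
    | succ j ih =>
      obtain ⟨c, hc⟩ := ih
      have hJAt : J * (A ^ j)ᵀ = ((O.card : ℤ) ^ j) • J := by
        have := congrArg Matrix.transpose (hJjA j)
        rwa [Matrix.transpose_mul, Matrix.transpose_smul, show Jᵀ = J from rfl] at this
      refine ⟨(d : ℤ) * c + lam * ((O.card : ℤ) ^ j * (O.card : ℤ) ^ j), ?_⟩
      rw [pow_succ, Matrix.transpose_mul, Matrix.mul_assoc, ← Matrix.mul_assoc A, hAAt, add_mul,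
        Matrix.smul_mul, one_mul, Matrix.mul_add, Matrix.mul_smul, Matrix.smul_mul, Matrix.mul_smul, hc,
        hJAt, Matrix.mul_smul, hJjA, smul_add, smul_smul, smul_smul, smul_smul, smul_smul, pow_succ', add_smul, add_assoc]
      congr 3
      ring
  obtain ⟨c, hc⟩ := hgram (orderOf α)
  have hs : (d : ℤ) ^ orderOf α = s ^ 2 := by
    rw [hAm] at hc
    simp only [Matrix.transpose_add, Matrix.transpose_smul, Matrix.transpose_one, show Jᵀ = J from rfl,
      add_mul, mul_add, Matrix.smul_mul, Matrix.mul_smul, one_mul, mul_one, hJJ, smul_smul] at hc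
    obtain ⟨a, b, hab⟩ := Fintype.one_lt_card_iff.mp (show 1 < Fintype.card Ω by omega)
    have h1 := congrArg (fun M : Matrix Ω Ω ℤ => M a a) hc
    have h2 := congrArg (fun M : Matrix Ω Ω ℤ => M a b) hc
    simp only [Matrix.add_apply, Matrix.smul_apply, Matrix.one_apply_eq, Matrix.one_apply_ne hab,
      Matrix.of_apply, smul_eq_mul, mul_one, mul_zero, zero_add, J] at h1 h2
    rw [sq]
    linarith [h1, h2]
  have hks : (Fintype.card Ω : ℤ) ∣ (O.card : ℤ) ^ orderOf α - s := by
    refine ⟨t, ?_⟩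
    have h := congrArg (fun M : Matrix Ω Ω ℤ => (M * J) o o) hAm
    simp only [hJjA, add_mul, Matrix.smul_mul, one_mul, hJJ] at h
    simp [J] at h
    linarith [h, mul_comm t (Fintype.card Ω : ℤ)]
  refine eq_one_or_eq_pred hn hne.card_pos ((Finset.card_lt_iff_ne_univ _).mpr htop) (d := d) ?_ ?_
    hα hs hks hcop
  · push_cast
    have h1 : (lam : ℤ) = O.card - d := by linarith
    rw [h1] at hk2
    linarith [hk2, sq (O.card : ℤ)]
  · exact ⟨lam, by linarith [hk2, mul_comm lam (Fintype.card Ω : ℤ)]⟩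

end

/-- Let G be a doubly transitive group of permutations of a finite set Ω of size n, let o ∈ Ω, and let α be an automorphism of G of odd order. Suppose that the image under α of the stabilizer of o has an orbit on Ω whose length k is coprime to n. Then α is induced by conjugation by a permutation of Ω normalizing G, and k = 1 or k = n − 1. -/
theorem result {Ω : Type*} [Fintype Ω] (G : Subgroup (Equiv.Perm Ω)) (h2 : MulAction.IsMultiplyPretransitive G Ω 2) (o : Ω) (α : MulAut G) (hα : Odd (orderOf α)) (ω : Ω) (hk : (Nat.card (MulAction.orbit ((MulAction.stabilizer G o).map α.toMonoidHom) ω)).Coprime (Fintype.card Ω)) : (∃ σ : Equiv.Perm Ω, σ ∈ Subgroup.normalizer (G : Set (Equiv.Perm Ω)) ∧ ∀ g : G, ((α g : G) : Equiv.Perm Ω) = σ * (g : Equiv.Perm Ω) * σ⁻¹) ∧ (Nat.card (MulAction.orbit ((MulAction.stabilizer G o).map α.toMonoidHom) ω) = 1 ∨ Nat.card (MulAction.orbit ((MulAction.stabilizer G o).map α.toMonoidHom) ω) = Fintype.card Ω - 1) := by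
  classical
  set H' := (MulAction.stabilizer G o).map α.toMonoidHom with hH'
  rcases lt_or_ge (Fintype.card Ω) 2 with hn | hn
  · haveI : Subsingleton Ω := Fintype.card_le_one_iff_subsingleton.mp (by omega)
    refine ⟨⟨1, Subgroup.one_mem _, fun g => Subsingleton.elim _ _⟩, Or.inl ?_⟩
    rw [Nat.card_eq_one_iff_unique]
    exact ⟨inferInstance, ⟨⟨ω, MulAction.mem_orbit_self ω⟩⟩⟩
  set O : Finset Ω := (MulAction.orbit H' ω).toFinset with hOdef
  have hOcard : Nat.card (MulAction.orbit H' ω) = O.card := by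
    rw [Nat.card_coe_set_eq, Set.ncard_eq_toFinset_card']
  have hO : ∀ h : G, h • o = o → ∀ y ∈ O, α h • y ∈ O := by
    intro h hh y hy
    rw [hOdef, Set.mem_toFinset] at hy ⊢
    obtain ⟨⟨e, he⟩, rfl⟩ := hy
    exact ⟨⟨α h * e, H'.mul_mem ⟨h, hh, rfl⟩ he⟩, mul_smul (α h) e ω⟩
  have htop : O ≠ Finset.univ := by
    intro h
    rw [hOcard, h, Finset.card_univ, Nat.coprime_self] at hk
    omega
  rw [hOcard] at hk ⊢
  have hres := twisted_orbit_card G h2 o α hα O hn hO ⟨ω, Set.mem_toFinset.mpr (MulAction.mem_orbit_self ω)⟩ htop hk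
  refine ⟨?_, hres⟩
  -- `α` maps the stabiliser of `o` to the stabiliser of some point `z`
  have hfix : ∃ z : Ω, ∀ h : G, h • o = o → α h • z = z := by
    rcases hres with h1 | h1
    · obtain ⟨z, hz⟩ := Finset.card_eq_one.mp h1
      refine ⟨z, fun h hh => Finset.mem_singleton.mp ?_⟩
      rw [← hz]
      exact hO h hh z (hz ▸ Finset.mem_singleton_self z)
    · have h2' : Oᶜ.card = 1 := by
        rw [Finset.card_compl, h1]; omega
      obtain ⟨z, hz⟩ := Finset.card_eq_one.mp h2'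
      refine ⟨z, fun h hh => Finset.mem_singleton.mp ?_⟩
      rw [← hz, Finset.mem_compl]
      intro hmem
      have := hO h⁻¹ (inv_smul_eq_iff.mpr hh.symm) _ hmem
      rw [map_inv, inv_smul_smul] at this
      exact Finset.mem_compl.mp (hz ▸ Finset.mem_singleton_self z) this
  obtain ⟨z, hz⟩ := hfix
  haveI : MulAction.IsPretransitive G Ω := by
    refine ⟨fun x y => ?_⟩
    haveI : Nontrivial Ω := Fintype.one_lt_card_iff_nontrivial.mp (by omega)
    obtain ⟨b, hb⟩ := exists_ne x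
    obtain ⟨d, hd⟩ := exists_ne y
    obtain ⟨g, hg, -⟩ := (MulAction.is_two_pretransitive_iff (G := G)).mp h2 hb.symm hd.symm
    exact ⟨g, hg⟩
  have hsel : ∀ x : Ω, ∃ g : G, g • o = x := fun x => MulAction.exists_smul_eq G o x
  let F : Ω → Ω := fun x => α (hsel x).choose • z
  have hF : ∀ g : G, F (g • o) = α g • z := by
    intro g
    have hch := (hsel (g • o)).choose_spec
    generalize hg' : (hsel (g • o)).choose = g' at hch
    show α (hsel (g • o)).choose • z = _
    rw [hg']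
    have hh : (g⁻¹ * g') • o = o := by rw [mul_smul, hch, inv_smul_smul]
    have := hz _ hh
    rw [map_mul, map_inv, mul_smul, inv_smul_eq_iff] at this
    exact this
  have hsurj : Function.Surjective F := by
    intro y
    obtain ⟨g, hg⟩ := MulAction.exists_smul_eq G z y
    exact ⟨α.symm g • o, by rw [hF, α.apply_symm_apply, hg]⟩
  let σ : Equiv.Perm Ω := Equiv.ofBijective F ⟨Finite.injective_iff_surjective.mpr hsurj, hsurj⟩
  have hσ : ∀ (g : G) x, σ ((g : Equiv.Perm Ω) x) = ((α g : G) : Equiv.Perm Ω) (σ x) := by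
    intro g x
    obtain ⟨g₀, rfl⟩ := hsel x
    show F (g • g₀ • o) = α g • F (g₀ • o)
    rw [← mul_smul, hF, hF, map_mul, mul_smul]
  have hconj : ∀ g : G, ((α g : G) : Equiv.Perm Ω) = σ * (g : Equiv.Perm Ω) * σ⁻¹ := by
    intro g
    rw [eq_mul_inv_iff_mul_eq]
    ext x
    exact (hσ g x).symm
  refine ⟨σ, Subgroup.mem_normalizer_iff.mpr fun p => ⟨fun hp => ?_, fun hp => ?_⟩, hconj⟩
  · rw [← hconj ⟨p, hp⟩]
    exact (α ⟨p, hp⟩).2
  · obtain ⟨g, hg⟩ := α.surjective ⟨_, hp⟩
    have h := hconj g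
    rw [hg] at h
    have hpg : p = (g : Equiv.Perm Ω) := mul_left_cancel (mul_right_cancel h)
    exact hpg ▸ g.2

end Cfsg.Agent.S4276
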