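import Cfsg.Statements.S4277
import Mathlib

set_option linter.style.haveILetI false
open scoped Pointwise
-- import your own Cfsg.Agent.* helpers here

set_option autoImplicit false
open Cfsg

namespace Cfsg.Agent.S4277

section
variable {p : ℕ} [hp : Fact p.Prime]

/-- Convolution on `ZMod p`. -/
def conv (f g : ZMod p → ZMod p) (k : ZMod p) : ZMod p := ∑ i, f i * g (k - i)

theorem conv_comm (f g : ZMod p → ZMod p) : conv f g = conv g f := by
  funext k
  rw [conv, conv, ← Equiv.sum_comp (Equiv.subLeft k)]
  refine Finset.sum_congr rfl fun i _ => ?_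
  simp [mul_comm]

theorem sum_conv (f g : ZMod p → ZMod p) : ∑ k, conv f g k = (∑ i, f i) * ∑ i, g i := by
  simp only [conv]
  rw [Finset.sum_comm, Finset.sum_mul]
  refine Finset.sum_congr rfl fun i _ => ?_
  rw [← Finset.mul_sum]
  congr 1
  exact Equiv.sum_comp (Equiv.subRight i) g

/-- A periodic function with nonzero sum has trivial period. -/
theorem period_eq_zero (f : ZMod p → ZMod p) (hf : ∑ i, f i ≠ 0) (t : ZMod p)
    (h : ∀ i, f (i + t) = f i) : t = 0 := by
  by_contra ht
  refine hf ?_
  have hit : ∀ n : ℕ, ∀ i, f (i + n * t) = f i := by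
    intro n
    induction n with
    | zero => simp
    | succ n ih => intro i; rw [Nat.cast_succ, add_mul, one_mul, ← add_assoc, h, ih]
  have hc : ∀ i, f i = f 0 := by
    intro i
    have := hit (i * t⁻¹).val 0
    rwa [ZMod.natCast_zmod_val, zero_add, inv_mul_cancel_right₀ ht] at this
  rw [Finset.sum_congr rfl fun i _ => hc i, Finset.sum_const, Finset.card_univ, ZMod.card,
    nsmul_eq_mul, ZMod.natCast_self, zero_mul]

end

/-- In a simple group with a subgroup of prime index, automorphisms fixing an element of that prime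
order commute. -/
theorem commute_of_fix {G : Type*} [Group G] [Finite G] (H : Subgroup G) (p : ℕ) [hp : Fact p.Prime]
    (hH : H.index = p) (hcore : H.normalCore = ⊥) (c : G) (hc : orderOf c = p) (α β : MulAut G)
    (hα : α c = c) (hβ : β c = c) : α * β = β * α := by
  classical
  have hpH : ¬ p ∣ Nat.card H := by
    have hinj : Function.Injective (MulAction.toPermHom G (G ⧸ H)) := by
      rw [← MonoidHom.ker_eq_bot_iff, ← Subgroup.normalCore_eq_ker, hcore]
    have hd := Subgroup.card_dvd_of_injective _ hinj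
    rw [Nat.card_perm, ← Subgroup.index, hH, ← H.card_mul_index, hH, mul_comm (Nat.card H)] at hd
    conv at hd => rhs; rw [← Nat.mul_factorial_pred hp.out.ne_zero]
    intro h
    exact absurd ((hp.out.dvd_factorial).mp (h.trans (Nat.dvd_of_mul_dvd_mul_left hp.out.pos hd)))
      (by have := hp.out.pos; omega)
  let o : G ⧸ H := ((1 : G) : G ⧸ H)
  let cp : ZMod p → G := fun i => c ^ i.val
  have cp_add : ∀ i j, cp (i + j) = cp i * cp j := by
    intro i j
    rw [← pow_add, pow_eq_pow_iff_modEq, hc, ZMod.val_add]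
    exact Nat.mod_modEq _ _
  have cp_zero : cp 0 = 1 := by simp [cp]
  have hfix : ∀ g : G, g • o = o → g ∈ H := fun g hg => by
    have : g ∈ MulAction.stabilizer G o := hg
    rwa [MulAction.stabilizer_quotient] at this
  have hinj : Function.Injective fun i => cp i • o := by
    intro i j (hij : cp i • o = cp j • o)
    have h1 : cp (i - j) • o = o := by
      have : cp (i - j + j) = cp j * cp (i - j) := by rw [← cp_add, add_comm]
      rw [sub_add_cancel] at this
      rw [this, mul_smul] at hij
      exact MulAction.injective _ hij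
    have h2 : orderOf (cp (i - j)) ∣ Nat.gcd p (Nat.card H) := Nat.dvd_gcd
      ((orderOf_pow_dvd _).trans hc.dvd) (Subgroup.orderOf_dvd_natCard H (hfix _ h1))
    rw [Nat.Coprime.gcd_eq_one ((Nat.Prime.coprime_iff_not_dvd hp.out).mpr hpH), Nat.dvd_one,
      orderOf_eq_one_iff, ← orderOf_dvd_iff_pow_eq_one, hc] at h2
    have h3 := Nat.eq_zero_of_dvd_of_lt h2 (ZMod.val_lt _)
    exact sub_eq_zero.mp ((ZMod.val_eq_zero _).mp h3)
  haveI := Fintype.ofFinite (G ⧸ H)
  have hbij : Function.Bijective fun i => cp i • o := by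
    refine (Fintype.bijective_iff_injective_and_card _).mpr ⟨hinj, ?_⟩
    rw [ZMod.card, ← Nat.card_eq_fintype_card, ← Subgroup.index, hH]
  let e : ZMod p ≃ G ⧸ H := Equiv.ofBijective _ hbij
  have he : ∀ i, e i = cp i • o := fun i => rfl
  let π : G → ZMod p → ZMod p := fun g i => e.symm (g • e i)
  have hπ : ∀ g i, e (π g i) = g • e i := fun g i => e.apply_symm_apply _
  have hπmul : ∀ g g' i, π (g * g') i = π g (π g' i) := by
    intro g g' i
    apply e.injective
    rw [hπ, hπ, hπ, mul_smul]
  have hπone : ∀ i, π 1 i = i := fun i => by apply e.injective; rw [hπ, one_smul]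
  -- twisted invariant functions
  let V : MulAut G → (ZMod p → ZMod p) → Prop := fun γ f =>
    ∀ (g : G) i j, f (π (γ g) j - π g i) = f (j - i)
  have hex : ∀ γ : MulAut G, γ c = c → ∃ f, V γ f ∧ ∑ i, f i ≠ 0 := by
    intro γ hγ
    set O : Set (G ⧸ H) := MulAction.orbit (H.map γ.toMonoidHom) o with hO
    let M : G ⧸ H → G ⧸ H → Prop := fun x y => ∃ g : G, g • o = x ∧ (γ g)⁻¹ • y ∈ O
    have hM1 : ∀ (g : G) x y, M x y → M (g • x) (γ g • y) := by
      rintro g x y ⟨g₀, hg₀, hy⟩
      refine ⟨g * g₀, by rw [mul_smul, hg₀], ?_⟩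
      rw [map_mul, _root_.mul_inv_rev, mul_smul, inv_smul_smul]
      exact hy
    have hM : ∀ (g : G) x y, M (g • x) (γ g • y) ↔ M x y := by
      refine fun g x y => ⟨fun h => ?_, hM1 g x y⟩
      have := hM1 g⁻¹ _ _ h
      rwa [inv_smul_smul, map_inv, inv_smul_smul] at this
    have hMo : ∀ y, M o y ↔ y ∈ O := by
      intro y
      refine ⟨?_, fun hy => ⟨1, one_smul _ _, by simpa using hy⟩⟩
      rintro ⟨g, hg, hy⟩
      have : y = γ g • ((γ g)⁻¹ • y) := (smul_inv_smul _ _).symm
      rw [this]
      exact MulAction.mem_orbit_iff.mpr (by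
        obtain ⟨⟨k, hk⟩, hk'⟩ := hy
        refine ⟨⟨γ g * k, mul_mem ⟨g, hfix g hg, rfl⟩ hk⟩, ?_⟩
        show (γ g * k) • o = _
        rw [mul_smul]
        exact congrArg (γ g • ·) hk')
    have hdiff : ∀ i j, M (e i) (e j) ↔ e (j - i) ∈ O := by
      intro i j
      have h1 : γ (cp i) = cp i := by simp only [cp, map_pow, hγ]
      have h2 : e i = cp i • o := rfl
      have h3 : e j = γ (cp i) • e (j - i) := by
        rw [h1, he, he, ← mul_smul, ← cp_add, add_sub_cancel]
      rw [h2, h3, hM, hMo]
    refine ⟨fun i => if e i ∈ O then 1 else 0, fun g i j => if_congr ?_ rfl rfl, ?_⟩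
    · rw [← hdiff, ← hdiff, hπ, hπ, hM]
    · rw [Finset.sum_boole, Ne, ZMod.natCast_eq_zero_iff]
      intro hd
      have hcard : (Finset.univ.filter fun i => e i ∈ O).card = Nat.card O := by
        rw [← Fintype.card_subtype, ← Nat.card_eq_fintype_card]
        exact Nat.card_congr (e.subtypeEquiv fun _ => Iff.rfl)
      rw [hcard, hO, Nat.card_congr (MulAction.orbitEquivQuotientStabilizer _ o), ← Subgroup.index] at hd
      refine hpH (hd.trans ((Subgroup.index_dvd_card _).trans ?_))
      rw [Subgroup.card_map_of_injective γ.injective]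
  have hcomp : ∀ γ δ f f', V γ f → V δ f' → V (δ * γ) (conv f f') := by
    intro γ δ f f' hf hf' g i j
    rw [conv, conv]
    -- reindex by the middle point
    have hr : ∀ a b : ZMod p, (∑ u, f u * f' (b - a - u)) = ∑ m, f (m - a) * f' (b - m) := by
      intro a b
      rw [← Equiv.sum_comp (Equiv.subRight a)]
      refine Finset.sum_congr rfl fun m _ => ?_
      simp only [Equiv.subRight_apply]
      congr 2
      ring
    rw [hr, hr]
    have hbij' : Function.Bijective (π (γ g)) := by
      refine Function.bijective_iff_has_inverse.mpr ⟨π (γ g)⁻¹, fun m => ?_, fun m => ?_⟩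
      · rw [← hπmul, inv_mul_cancel, hπone]
      · rw [← hπmul, mul_inv_cancel, hπone]
    rw [← Equiv.sum_comp (Equiv.ofBijective _ hbij') (fun m => f (m - π g i) * f' (π ((δ * γ) g) j - m))]
    refine Finset.sum_congr rfl fun m _ => ?_
    simp only [Equiv.ofBijective_apply]
    rw [hf, MulAut.mul_apply, hf']
  obtain ⟨f, hf, hf0⟩ := hex α hα
  obtain ⟨f', hf', hf'0⟩ := hex β hβ
  have h1 := hcomp α β f f' hf hf'
  have h2 := hcomp β α f' f hf' hf
  rw [conv_comm f' f] at h2
  have hsum : ∑ k, conv f f' k ≠ 0 := by rw [sum_conv]; exact mul_ne_zero hf0 hf'0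
  symm
  ext g
  -- both sides act in the same way
  have hact : ∀ y, ((β * α) g) • e y = ((α * β) g) • e y := by
    intro y
    rw [← hπ, ← hπ]
    congr 1
    refine sub_eq_zero.mp (period_eq_zero (conv f f') hsum _ fun u => ?_)
    have e1 : u + (π ((β * α) g) y - π ((α * β) g) y) = π ((β * α) g) y - (π ((α * β) g) y - u) := by ring
    obtain ⟨i, hi⟩ : ∃ i, π g i = π ((α * β) g) y - u :=
      ⟨π g⁻¹ (π ((α * β) g) y - u), by rw [← hπmul, mul_inv_cancel, hπone]⟩
    rw [e1, ← hi, h1]
    rw [← h2 g i y, hi]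
    congr 1
    ring
  have hker : ((α * β) g)⁻¹ * (β * α) g ∈ (MulAction.toPermHom G (G ⧸ H)).ker := by
    rw [MonoidHom.mem_ker]
    ext x
    obtain ⟨y, rfl⟩ := e.surjective x
    show (((α * β) g)⁻¹ * (β * α) g) • e y = e y
    rw [mul_smul, hact, inv_smul_smul]
  rw [← Subgroup.normalCore_eq_ker, hcore, Subgroup.mem_bot, inv_mul_eq_one] at hker
  exact hker.symm

/-- A case of the Schreier conjecture: if a finite simple group G has a subgroup of prime index, then the outer automorphism group of G is solvable. -/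
theorem result {G : Type*} [Group G] [Finite G] [IsSimpleGroup G] (H : Subgroup G) (hH : H.index.Prime) : Group.IsSolvable (Cfsg.Out G) := by
  set p := H.index with hp
  haveI : Fact p.Prime := ⟨hH⟩
  have hcore : H.normalCore = ⊥ := by
    rcases (H.normalCore_normal).eq_bot_or_eq_top with h | h
    · exact h
    · exfalso
      have : H = ⊤ := top_le_iff.mp (h ▸ H.normalCore_le)
      rw [hp, this, Subgroup.index_top] at hH
      exact Nat.not_prime_one hH
  obtain ⟨c, hc⟩ := exists_prime_orderOf_dvd_card' (G := G) p (Subgroup.index_dvd_card H)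
  set P := Subgroup.zpowers c with hP
  let N : Subgroup (MulAut G) :=
    { carrier := {α | P.map α.toMonoidHom = P}
      one_mem' := Subgroup.map_id P
      mul_mem' := fun {a b} (ha : P.map a.toMonoidHom = P) (hb : P.map b.toMonoidHom = P) => by
        show P.map (a.toMonoidHom.comp b.toMonoidHom) = P
        rw [← Subgroup.map_map, hb, ha]
      inv_mem' := fun {a} (ha : P.map a.toMonoidHom = P) => by
        show P.map a.symm.toMonoidHom = P
        conv_lhs => rw [← ha]
        rw [Subgroup.map_map]
        convert Subgroup.map_id P using 2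
        ext; simp }
  let ψ : N →* MulAut P :=
    { toFun := fun α => ((α : MulAut G).subgroupMap P).trans (MulEquiv.subgroupCongr α.2)
      map_one' := by ext; rfl
      map_mul' := fun a b => by ext; rfl }
  haveI : Group.IsSolvable (MulAut P) := Group.isSolvable_of_comm fun a b =>
    (IsCyclic.mulAutMulEquiv P).injective (by rw [map_mul, map_mul, mul_comm])
  haveI : Group.IsSolvable ψ.ker := by
    refine Group.isSolvable_of_comm fun a b => Subtype.ext (Subtype.ext ?_)
    have hfix : ∀ a : ψ.ker, ((a : N) : MulAut G) c = c := fun a => by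
      have h := congrArg Subtype.val (DFunLike.congr_fun (MonoidHom.mem_ker.mp a.2) (⟨c, Subgroup.mem_zpowers c⟩ : P))
      exact h
    exact commute_of_fix H p rfl hcore c hc _ _ (hfix a) (hfix b)
  haveI : Group.IsSolvable N := Group.isSolvable_of_ker_le_range ψ.ker.subtype ψ (by simp)
  refine Group.isSolvable_of_surjective (f := (QuotientGroup.mk' (Cfsg.Inn G)).comp N.subtype) ?_
  intro y
  obtain ⟨α, rfl⟩ := QuotientGroup.mk'_surjective _ y
  have hPp : IsPGroup p P := IsPGroup.of_card (n := 1) (by rw [hP, Nat.card_zpowers, hc, pow_one])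
  have hidx : ¬ p ∣ P.index := by
    intro h
    have hd := Subgroup.card_dvd_of_injective (MulAction.toPermHom G (G ⧸ H))
      (by rw [← MonoidHom.ker_eq_bot_iff, ← Subgroup.normalCore_eq_ker, hcore])
    rw [Nat.card_perm, ← Subgroup.index, ← hp, ← P.card_mul_index, hP, Nat.card_zpowers, hc] at hd
    conv at hd => rhs; rw [← Nat.mul_factorial_pred hH.ne_zero]
    exact absurd ((hH.dvd_factorial).mp (h.trans (Nat.dvd_of_mul_dvd_mul_left hH.pos hd)))
      (by have := hH.pos; omega)
  let S : Sylow p G := hPp.toSylow hidx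
  have hidx' : ¬ p ∣ (P.map α.toMonoidHom).index := by
    rw [Subgroup.index_map_of_bijective (f := α.toMonoidHom) α.bijective]; exact hidx
  let S' : Sylow p G := (hPp.map α.toMonoidHom).toSylow hidx'
  obtain ⟨g, hg⟩ := MulAction.exists_smul_eq G S' S
  have hmem : MulAut.conj g * α ∈ N := by
    show P.map ((MulAut.conj g).toMonoidHom.comp α.toMonoidHom) = P
    rw [← Subgroup.map_map]
    exact congrArg Sylow.toSubgroup hg
  refine ⟨⟨_, hmem⟩, ?_⟩
  show QuotientGroup.mk' _ (MulAut.conj g * α) = _
  rw [map_mul, show QuotientGroup.mk' (Cfsg.Inn G) (MulAut.conj g) = 1 from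
    (QuotientGroup.eq_one_iff _).mpr ⟨g, rfl⟩, one_mul]

end Cfsg.Agent.S4277
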