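import Cfsg.Statements.S4278
import Cfsg.Agent.Lib.Chevalley.G2InvolutionMain

set_option autoImplicit false
open Cfsg

namespace Cfsg.Agent.S4278

/-- In the Chevalley group of type G₂ over a finite field of odd order, any two involutions are conjugate. -/
theorem result {F : Type*} [Field F] [Fintype F] (hF : Odd (Fintype.card F)) (s t : ↥(Cfsg.Lie.chevG2.group F)) (hs : orderOf s = 2) (ht : orderOf t = 2) : IsConj s t := by
  have hodd : ringChar F ≠ 2 := by
    intro h
    have := FiniteField.even_card_of_char_two h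
    have := Nat.odd_iff.1 hF
    omega
  obtain ⟨c, hc⟩ := CfsgLib.Chevalley.G2SLThree.exists_conj_tG hodd hs
  obtain ⟨d, hd⟩ := CfsgLib.Chevalley.G2SLThree.exists_conj_tG hodd ht
  exact (isConj_iff.2 ⟨c, hc⟩).trans (isConj_iff.2 ⟨d, hd⟩).symm

end Cfsg.Agent.S4278
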