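import Cfsg.Statements.S4279
import Cfsg.Agent.Lib.Chevalley.G2InvolutionMain

set_option autoImplicit false
open Cfsg

namespace Cfsg.Agent.S4279

/-- In the Chevalley group G of type G₂ over a finite field F of odd order q, the centralizer of an involution t has order q²(q² − 1)² and contains two elementwise commuting subgroups, each isomorphic to SL(2, F), which meet exactly in the subgroup generated by t and whose join has index 2 in the centralizer. -/
theorem result {F : Type*} [Field F] [Fintype F] (hF : Odd (Fintype.card F)) (t : ↥(Cfsg.Lie.chevG2.group F)) (ht : orderOf t = 2) : Nat.card (Subgroup.centralizer ({t} : Set ↥(Cfsg.Lie.chevG2.group F))) = Fintype.card F ^ 2 * (Fintype.card F ^ 2 - 1) ^ 2 ∧ ∃ L₁ L₂ : Subgroup ↥(Cfsg.Lie.chevG2.group F), Nonempty (L₁ ≃* Matrix.SpecialLinearGroup (Fin 2) F) ∧ Nonempty (L₂ ≃* Matrix.SpecialLinearGroup (Fin 2) F) ∧ (∀ x ∈ L₁, ∀ y ∈ L₂, x * y = y * x) ∧ L₁ ⊓ L₂ = Subgroup.zpowers t ∧ L₁ ⊔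 L₂ ≤ Subgroup.centralizer ({t} : Set ↥(Cfsg.Lie.chevG2.group F)) ∧ (L₁ ⊔ L₂).relIndex (Subgroup.centralizer ({t} : Set ↥(Cfsg.Lie.chevG2.group F))) = 2 := by
  have hodd : ringChar F ≠ 2 := by
    intro h
    have := FiniteField.even_card_of_char_two h
    have := Nat.odd_iff.1 hF
    omega
  obtain ⟨c, hc⟩ := CfsgLib.Chevalley.G2SLThree.exists_conj_tG hodd ht
  obtain ⟨L₁, L₂, ⟨e₁⟩, ⟨e₂⟩, hcomm, hint, hle, hrel⟩ :=
    CfsgLib.Chevalley.G2SLThree.structure_tG (F := F) hodd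
  have hcard := CfsgLib.Chevalley.G2SLThree.card_centralizer_tG (F := F) hodd
  set σ : ↥(Cfsg.Lie.chevG2.group F) ≃* ↥(Cfsg.Lie.chevG2.group F) := MulAut.conj c⁻¹ with hσ
  have hσt : σ (CfsgLib.Chevalley.G2SLThree.tG F) = t := by
    rw [hσ, MulAut.conj_apply, inv_inv, ← hc]
    group
  have hcen : (Subgroup.centralizer ({CfsgLib.Chevalley.G2SLThree.tG F} :
      Set ↥(Cfsg.Lie.chevG2.group F))).map σ.toMonoidHom =
      Subgroup.centralizer ({t} : Set ↥(Cfsg.Lie.chevG2.group F)) := by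
    ext x
    rw [Subgroup.mem_map_equiv, Subgroup.mem_centralizer_singleton_iff,
      Subgroup.mem_centralizer_singleton_iff, ← σ.injective.eq_iff, map_mul, map_mul,
      MulEquiv.apply_symm_apply, hσt]
  rw [← hcen]
  refine ⟨?_, L₁.map σ.toMonoidHom, L₂.map σ.toMonoidHom,
    ⟨(σ.subgroupMap L₁).symm.trans e₁⟩, ⟨(σ.subgroupMap L₂).symm.trans e₂⟩, ?_, ?_, ?_, ?_⟩
  · rw [Subgroup.card_map_of_injective σ.injective, hcard, CfsgLib.SL2.card_SL,
      Nat.card_eq_fintype_card]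
    ring
  · rintro _ ⟨x, hx, rfl⟩ _ ⟨y, hy, rfl⟩
    rw [← map_mul, hcomm x hx y hy, map_mul]
  · rw [← Subgroup.map_inf _ _ _ σ.injective, hint, MonoidHom.map_zpowers]
    exact congrArg Subgroup.zpowers hσt
  · rw [← Subgroup.map_sup]
    exact Subgroup.map_mono hle
  · rw [← Subgroup.map_sup, Subgroup.relIndex_map_map_of_injective _ _ σ.injective]
    exact hrel

end Cfsg.Agent.S4279
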