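import Cfsg.Statements.S4282
import Cfsg.Agent.Lib.RepCritical.Critical

set_option autoImplicit false
set_option linter.style.haveILetI false
open Cfsg Module

namespace Cfsg.Agent.S4282

open CfsgLib.RepCritical

/-- A critical case behind the Hall–Higman theorem. Let p ≠ q be primes and G a finite group generated by a normal q-subgroup Q and a cyclic p-subgroup generated by x, such that the centralizer of every non-identity element of that cyclic subgroup is its product with the centre of G. Let K be an algebraically closed field of characteristic p and ρ a faithful representation of G on a nonzero finite-dimensional K-space whose restriction to Q is irreducible. If s is the least exponent with (ρ(x) − 1)^s = 0, then |⟨x⟩| − 1 ≤ s ≤ |⟨x⟩|; and if s = |⟨x⟩| − 1 then |⟨x⟩| − 1 is a power of q and Q is non-abelian. -/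
theorem result {G : Type*} [Group G] [Finite G] (p q : ℕ) [Fact p.Prime] [Fact q.Prime] (hpq : p ≠ q) (Q : Subgroup G) [Q.Normal] (hQ : IsPGroup q Q) (x : G) (hx : IsPGroup p (Subgroup.zpowers x)) (hgen : Q ⊔ Subgroup.zpowers x = ⊤) (hC : ∀ y ∈ Subgroup.zpowers x, y ≠ 1 → Subgroup.centralizer ({y} : Set G) = Subgroup.zpowers x ⊔ Subgroup.center G) {K : Type*} [Field K] [IsAlgClosed K] [CharP K p] {V : Type*} [AddCommGroup V] [Module K V] [FiniteDimensional K V] [Nontrivial V] (ρ : Representation K G V) (hfaith : Function.Injective ρ) (hirr : ∀ W : Submodule K V, (∀ g ∈ Q, Submodule.map (ρ g) W ≤ W) → W = ⊥ ∨ W = ⊤) (s : ℕ) (hs : (ρ x - 1) ^ s = 0) (hmin : ∀ k < s, (ρ x - 1) ^ k ≠ 0) : Nat.card (Subgroup.zpowers x) - 1 ≤ s ∧ s ≤ Nat.card (Subgroup.zpowers x) ∧ (s = Nat.card (Subgroup.zpowers x) - 1 → (∃ b : ℕ, Nat.card (Subgroup.zpowers x) - 1 = q ^ b) ∧ ¬ IsMulCommutative Q) := by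
  haveI : CharP (Module.End K V) p := charP_of_injective_algebraMap (algebraMap K (Module.End K V)).injective p
  obtain ⟨k, hk⟩ := IsPGroup.iff_card.1 hx
  have hN : orderOf x = p ^ k := by rw [← Nat.card_zpowers, hk]
  rw [hk]
  set n := ρ x - 1 with hn
  have hirr' : IrrOn ρ Q ⊤ := ⟨fun g _ w _ => Submodule.mem_top, bot_ne_top.symm,
    fun U _ hU => hirr U fun g hg => Submodule.map_le_iff_le_comap.2 fun w hw => hU g hg w hw⟩
  have hqK : (q : K) ≠ 0 := fun h => hpq ((Nat.prime_dvd_prime_iff_eq Fact.out Fact.out).1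
    ((CharP.cast_eq_zero_iff K p q).1 h))
  have hfree : ∀ g ∈ Q, g ∉ Subgroup.center G → ∀ y ∈ Subgroup.zpowers x,
      y * g * y⁻¹ = g → y = 1 := by
    intro g hg hgz y hy hyg
    by_contra hy1
    have hm : g ∈ Subgroup.centralizer ({y} : Set G) :=
      Subgroup.mem_centralizer_singleton_iff.2 (mul_inv_eq_iff_eq_mul.1 hyg).symm
    rw [hC y hy hy1, Subgroup.mem_sup_of_normal_right] at hm
    obtain ⟨c, hc, z, hz, rfl⟩ := hm
    obtain ⟨i, rfl⟩ := Subgroup.mem_zpowers_iff.1 hc
    have h1 : (x ^ i * z) ^ orderOf x = z ^ orderOf x := by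
      rw [(show Commute (x ^ i) z from (Subgroup.mem_center_iff.1 hz (x ^ i))).mul_pow,
        ← zpow_natCast (x ^ i), ← zpow_mul, mul_comm i, zpow_mul, zpow_natCast, pow_orderOf_eq_one,
        one_zpow, one_mul]
    refine hgz ?_
    obtain ⟨j, hj⟩ := hQ ⟨_, hg⟩
    have hj' : (x ^ i * z) ^ q ^ j = 1 := congrArg Subtype.val hj
    have hcop : (orderOf (x ^ i * z)).Coprime (orderOf x) := by
      rw [hN]
      exact Nat.Coprime.coprime_dvd_left (orderOf_dvd_of_pow_eq_one hj')
        (Nat.Coprime.pow j k ((Nat.coprime_primes Fact.out Fact.out).2 hpq.symm))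
    obtain ⟨m, hm⟩ := exists_pow_eq_self_of_coprime hcop.symm
    rw [← hm, h1]
    exact pow_mem (pow_mem hz _) m
  have hXY : ρ x * ρ x⁻¹ = 1 := by rw [← map_mul, mul_inv_cancel, map_one]
  have hYX : ρ x⁻¹ * ρ x = 1 := by rw [← map_mul, inv_mul_cancel, map_one]
  have hnY : Commute n (ρ x⁻¹) := by
    rw [hn]
    exact (show Commute (ρ x) (ρ x⁻¹) from hXY.trans hYX.symm).sub_left (Commute.one_left _)
  have hker : ∀ (j : ℕ) (v : V), (n ^ j) v = 0 → (n ^ j) ((ρ x⁻¹ ^ (p ^ k - 1)) v) = 0 := by
    intro j v hv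
    rw [← Module.End.mul_apply, (hnY.pow_pow j _).eq, Module.End.mul_apply, hv, map_zero]
  have hzero : ∀ j, s ≤ j → n ^ j = 0 := fun j hj => pow_eq_zero_of_le hj hs
  have hNz : n ^ p ^ k = 0 := by
    rw [hn, sub_pow_char_pow_of_commute p k (Commute.one_right _), one_pow, ← map_pow, ← hN,
      pow_orderOf_eq_one, map_one, sub_self]
  have hsN : s ≤ p ^ k := by
    by_contra hc
    exact hmin _ (not_le.1 hc) hNz
  have hs0 : s ≠ 0 := by
    rintro rfl
    rw [pow_zero] at hs
    exact one_ne_zero hs
  have hs1 : s = 1 → p ^ k = 1 := by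
    rintro rfl
    rw [pow_one, hn, sub_eq_zero] at hs
    rw [← hN, show x = 1 from hfaith (hs.trans (map_one ρ).symm), orderOf_one]
  obtain ⟨w, hw⟩ : ∃ w, (n ^ (s - 1)) w ≠ 0 := by
    by_contra h
    push Not at h
    exact hmin (s - 1) (by omega) (LinearMap.ext h)
  have hlow : p ^ k - 1 ≤ s := by
    by_contra hc
    obtain ⟨c, h, he⟩ := exists_scalar_add_orbTrace ρ hqK hQ hirr' hfree (f := n)
      (by rw [hn, mul_sub, sub_mul, one_mul, mul_one])
    rw [hN] at he
    have hT : ∀ v, (n ^ 2) v = 0 → n v = c • v := by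
      intro v hv
      conv_lhs => rw [he]
      rw [LinearMap.add_apply, LinearMap.smul_apply, Module.End.one_apply, add_eq_left]
      refine orbTrace_apply_eq_zero hXY hYX h v fun i j hij => ?_
      rw [← hn]
      rcases Nat.lt_or_ge j 2 with hj | hj
      · rw [hzero i (by omega), zero_mul, zero_mul, LinearMap.zero_apply]
      · rw [show j = (j - 2) + 2 by omega, pow_add]
        simp only [Module.End.mul_apply, hker 2 v hv, map_zero]
    have hs2 : 2 ≤ s := by
      by_contra h2
      have := hs1 (by omega)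
      omega
    set u := (n ^ (s - 2)) w with hu
    have hnu : n u = (n ^ (s - 1)) w := by
      rw [hu, ← Module.End.mul_apply, ← pow_succ', show s - 2 + 1 = s - 1 by omega]
    have hu2 : (n ^ 2) u = 0 := by
      rw [hu, ← Module.End.mul_apply, ← pow_add, hzero _ (by omega), LinearMap.zero_apply]
    have hnnu : n (n u) = 0 := by
      rw [← Module.End.mul_apply, ← pow_two, hu2]
    have hnu0 : n u ≠ 0 := hnu ▸ hw
    have h1 := hT (n u) (by rw [pow_two, Module.End.mul_apply, hnnu, map_zero])
    rw [hnnu] at h1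
    have hc0 : c = 0 := (smul_eq_zero.1 h1.symm).resolve_right hnu0
    exact hnu0 (by rw [hT u hu2, hc0, zero_smul])
  refine ⟨hlow, hsN, fun heq => ?_⟩
  obtain ⟨b, hb⟩ := exists_finrank_eq_pow ρ (Nat.card Q) Q le_rfl hQ ⊤ hirr'
  rw [finrank_top] at hb
  have hd : finrank K V = s := by
    refine le_antisymm ?_ ?_
    · obtain ⟨ℓ, hℓ⟩ := Module.Projective.exists_dual_ne_zero K hw
      let ℓ' : Module.Dual K V := (ℓ ((n ^ (s - 1)) w))⁻¹ • ℓ
      have hℓ' : ℓ' ((n ^ (s - 1)) w) = 1 := by
        simp [ℓ', inv_mul_cancel₀ hℓ]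
      -- the block of `w`
      let P : Module.End K V := ∑ j ∈ Finset.range s,
        ((ℓ'.comp (n ^ (s - 1 - j))).smulRight ((n ^ j) w))
      have hP : ∀ v, P v = ∑ j ∈ Finset.range s, ℓ' ((n ^ (s - 1 - j)) v) • (n ^ j) w := fun v => by
        simp [P, LinearMap.sum_apply]
      have hcomm : ρ x * P = P * ρ x := by
        have h2 : n * P = P * n := by
          refine LinearMap.ext fun v => ?_
          rw [Module.End.mul_apply, Module.End.mul_apply, hP, hP, map_sum]
          obtain ⟨t, ht⟩ : ∃ t, s = t + 1 := ⟨s - 1, by omega⟩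
          rw [ht, Finset.sum_range_succ, Finset.sum_range_succ']
          simp only [map_smul, Nat.add_sub_cancel]
          have e1 : n ((n ^ t) w) = 0 := by
            rw [← Module.End.mul_apply, ← pow_succ', ← ht, hs, LinearMap.zero_apply]
          have e2 : (n ^ (t - 0)) (n v) = 0 := by
            rw [Nat.sub_zero, ← Module.End.mul_apply, ← pow_succ, ← ht, hs, LinearMap.zero_apply]
          rw [e1, e2, smul_zero, map_zero, zero_smul, add_zero, add_zero]
          refine Finset.sum_congr rfl fun j hj => ?_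
          rw [Finset.mem_range] at hj
          rw [← Module.End.mul_apply n, ← pow_succ', ← Module.End.mul_apply (n ^ _) n, ← pow_succ,
            show t - (j + 1) + 1 = t - j by omega]
        have hx' : ρ x = n + 1 := by rw [hn, sub_add_cancel]
        rw [hx', add_mul, mul_add, h2, one_mul, mul_one]
      obtain ⟨c, h, he⟩ := exists_scalar_add_orbTrace ρ hqK hQ hirr' hfree hcomm
      rw [hN] at he
      have hone : ∀ v, n v = 0 → c • v = ℓ' v • (n ^ (s - 1)) w := by
        intro v hv
        have e1 : P v = c • v := by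
          rw [he, LinearMap.add_apply, LinearMap.smul_apply, Module.End.one_apply, add_eq_left]
          refine orbTrace_apply_eq_zero hXY hYX h v fun i j hij => ?_
          rw [← hn]
          rcases Nat.eq_zero_or_pos j with rfl | hj
          · rw [hzero i (by omega), zero_mul, zero_mul, LinearMap.zero_apply]
          · rw [show j = (j - 1) + 1 by omega, pow_add]
            simp only [Module.End.mul_apply, hker 1 v (by rw [pow_one]; exact hv), map_zero]
        rw [← e1, hP, Finset.sum_eq_single (s - 1)]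
        · rw [Nat.sub_self, pow_zero, Module.End.one_apply]
        · intro j hj hne
          rw [Finset.mem_range] at hj
          rw [show s - 1 - j = (s - 1 - j - 1) + 1 by omega, pow_succ, Module.End.mul_apply, hv,
            map_zero, map_zero, zero_smul]
        · intro h'
          exact absurd (Finset.mem_range.2 (by omega)) h'
      have hu0 : n ((n ^ (s - 1)) w) = 0 := by
        rw [← Module.End.mul_apply, ← pow_succ', show s - 1 + 1 = s by omega, hs,
          LinearMap.zero_apply]
      have hc1 : c = 1 := by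
        have := hone _ hu0
        rw [hℓ'] at this
        exact smul_left_injective K hw this
      have hker1 : finrank K (LinearMap.ker n) ≤ 1 := by
        refine (Submodule.finrank_mono (t := K ∙ ((n ^ (s - 1)) w)) fun v hv => ?_).trans
          (finrank_span_singleton hw).le
        have := hone v (LinearMap.mem_ker.1 hv)
        rw [hc1, one_smul] at this
        exact Submodule.mem_span_singleton.2 ⟨_, this.symm⟩
      have := CfsgLib.Generators.finrank_ker_pow_le n hker1 s
      rwa [hs, LinearMap.ker_zero, finrank_top] at this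
    · have hnil : IsNilpotent n := ⟨s, hs⟩
      have hd0 : n ^ finrank K V = 0 := by
        have h1 := LinearMap.aeval_self_charpoly n
        rwa [hnil.charpoly_eq_X_pow_finrank, map_pow, Polynomial.aeval_X] at h1
      by_contra hc
      exact hmin _ (not_le.1 hc) hd0
  refine ⟨⟨b, by omega⟩, fun hab => ?_⟩
  haveI := hab
  have hscal : ∀ g ∈ Q, ∃ c : K, ρ g = c • 1 := fun g hg =>
    exists_scalar ρ hirr' (ρ g) fun g' hg' => by
      rw [← map_mul, ← map_mul]
      exact congrArg ρ (congrArg Subtype.val (mul_comm' (⟨g, hg⟩ : Q) ⟨g', hg'⟩))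
  have hw0 : w ≠ 0 := fun h => hw (by rw [h, map_zero])
  have htop : (K ∙ w) = ⊤ := (hirr (K ∙ w) fun g hg => by
    obtain ⟨c, hc⟩ := hscal g hg
    rw [Submodule.map_le_iff_le_comap]
    intro v hv
    rw [Submodule.mem_comap, hc, LinearMap.smul_apply, Module.End.one_apply]
    exact Submodule.smul_mem _ c hv).resolve_left (mt Submodule.span_singleton_eq_bot.1 hw0)
  have h1 := finrank_span_singleton (K := K) hw0
  rw [htop, finrank_top, hd] at h1
  have := hs1 h1
  omega

end Cfsg.Agent.S4282
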