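import Cfsg.Statements.S4283
import Cfsg.Agent.Lib.Frobenius.Basic

set_option autoImplicit false
open Cfsg
open Pointwise

namespace Cfsg.Agent.S4283

/-- Let G be a finite group with centre Z and let K, H be abelian subgroups of G containing Z such that G/Z is a Frobenius group with complement H/Z and kernel K/Z. Then the conjugacy class sizes of G are exactly 1, [G : K] and [G : H], and these two indices are coprime. (This is the converse half of the characterization of finite groups whose conjugacy class sizes are exactly 1, m and n with m and n coprime.) -/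
theorem result {G : Type*} [Group G] [Finite G] (K H : Subgroup G) (hZK : Subgroup.center G ≤ K) (hZH : Subgroup.center G ≤ H) (hK : IsMulCommutative K) (hH : IsMulCommutative H) (hFrob : Cfsg.IsFrobeniusComplement (H.map (QuotientGroup.mk' (Subgroup.center G)))) (hker : Cfsg.frobeniusKernel (H.map (QuotientGroup.mk' (Subgroup.center G))) = (K.map (QuotientGroup.mk' (Subgroup.center G)) : Set (G ⧸ Subgroup.center G))) : Set.range (fun x : G => (Subgroup.centralizer ({x} : Set G)).index) = ({1, K.index, H.index} : Set ℕ) ∧ K.index.Coprime H.index := by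
  classical
  set Z := Subgroup.center G with hZdef
  set π := QuotientGroup.mk' Z with hπdef
  set Hb := H.map π with hHb
  set Kb := K.map π with hKb
  have hπs : Function.Surjective π := QuotientGroup.mk'_surjective Z
  have hcomK : Kb.comap π = K := by
    rw [hKb, Subgroup.comap_map_eq, QuotientGroup.ker_mk', sup_eq_left]; exact hZK
  have hcomH : Hb.comap π = H := by
    rw [hHb, Subgroup.comap_map_eq, QuotientGroup.ker_mk', sup_eq_left]; exact hZH
  have hHidx : H.index = Hb.index := by
    rw [← hcomH, Subgroup.index_comap_of_surjective _ hπs]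
  have hKidx : K.index = Kb.index := by
    rw [← hcomK, Subgroup.index_comap_of_surjective _ hπs]
  have hKcard : Nat.card Kb = Hb.index := by
    rw [← CfsgLib.Frobenius.card_kernel hFrob, hker]
    rfl
  have hKbidx : Kb.index = Nat.card Hb := by
    have h1 := Kb.card_mul_index
    rw [← Hb.index_mul_card, hKcard] at h1
    exact Nat.eq_of_mul_eq_mul_left (Nat.pos_of_ne_zero Subgroup.index_ne_zero_of_finite) h1
  have hcop : K.index.Coprime H.index := by
    rw [hKidx, hHidx, hKbidx]
    exact CfsgLib.Frobenius.coprime_card_index hFrob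
  have hcen : ∀ x ∈ Z, (Subgroup.centralizer ({x} : Set G)).index = 1 := by
    intro x hx
    rw [Subgroup.index_eq_one, eq_top_iff]
    intro g _
    rw [Subgroup.mem_centralizer_singleton_iff]
    exact Subgroup.mem_center_iff.mp hx g
  have hKc : ∀ x ∈ K, x ∉ Z → Subgroup.centralizer ({x} : Set G) = K := by
    intro x hx hxZ
    refine le_antisymm (fun g hg => ?_) (fun g hg => ?_)
    · by_contra hgK
      rw [Subgroup.mem_centralizer_singleton_iff] at hg
      have hgb : π g ∉ (Kb : Set (G ⧸ Z)) := by
        intro h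
        exact hgK (hcomK ▸ (h : g ∈ Kb.comap π))
      rw [← hker] at hgb
      have hgb' : ¬ (π g = 1 ∨ ∀ t : G ⧸ Z, π g ∉ MulAut.conj t • Hb) := hgb
      simp only [not_or, not_forall, not_not] at hgb'
      obtain ⟨hg1, t, ht⟩ := hgb'
      rw [CfsgLib.Frobenius.mem_conj_smul] at ht
      have hxk : π x ∈ Cfsg.frobeniusKernel Hb := by
        rw [hker]; exact Subgroup.mem_map_of_mem _ hx
      rcases hxk with h | h
      · exact hxZ ((QuotientGroup.eq_one_iff x).mp h)
      · apply h t
        rw [CfsgLib.Frobenius.mem_conj_smul]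
        refine CfsgLib.Frobenius.mem_of_conj_mem hFrob ht ?_ ?_
        · intro h1
          apply hg1
          have := congrArg (fun z => t * z * t⁻¹) h1
          simpa [mul_assoc] using this
        · have hcomm : π x * π g = π g * π x := by rw [← map_mul, ← hg, map_mul]
          have h2 : t⁻¹ * π x * t * (t⁻¹ * π g * t) * (t⁻¹ * π x * t)⁻¹ = t⁻¹ * (π x * π g * (π x)⁻¹) * t := by
            group
          rw [h2, hcomm, mul_inv_cancel_right]
          exact ht
    · rw [Subgroup.mem_centralizer_singleton_iff]
      exact congrArg Subtype.val (hK.is_comm.comm ⟨g, hg⟩ ⟨x, hx⟩)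
  have hHc : ∀ x ∈ H, x ∉ Z → Subgroup.centralizer ({x} : Set G) = H := by
    intro x hx hxZ
    refine le_antisymm (fun g hg => ?_) (fun g hg => ?_)
    · rw [Subgroup.mem_centralizer_singleton_iff] at hg
      have h1 : π g ∈ Hb := by
        refine CfsgLib.Frobenius.mem_of_conj_mem hFrob (h := π x) (Subgroup.mem_map_of_mem _ hx)
          (fun h => hxZ ((QuotientGroup.eq_one_iff x).mp h)) ?_
        rw [← map_mul, ← map_inv, ← map_mul, hg, mul_inv_cancel_right]
        exact Subgroup.mem_map_of_mem _ hx
      exact hcomH ▸ (h1 : g ∈ Hb.comap π)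
    · rw [Subgroup.mem_centralizer_singleton_iff]
      exact congrArg Subtype.val (hH.is_comm.comm ⟨g, hg⟩ ⟨x, hx⟩)
  refine ⟨?_, hcop⟩
  ext n
  constructor
  · rintro ⟨x, rfl⟩
    by_cases hxZ : x ∈ Z
    · exact Or.inl (hcen x hxZ)
    by_cases hxK : π x ∈ (Kb : Set (G ⧸ Z))
    · refine Or.inr (Or.inl ?_)
      show (Subgroup.centralizer ({x} : Set G)).index = K.index
      rw [hKc x (hcomK ▸ (hxK : x ∈ Kb.comap π)) hxZ]
    · refine Or.inr (Or.inr ?_)
      show (Subgroup.centralizer ({x} : Set G)).index = H.index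
      rw [← hker] at hxK
      have hxK' : ¬ (π x = 1 ∨ ∀ t : G ⧸ Z, π x ∉ MulAut.conj t • Hb) := hxK
      simp only [not_or, not_forall, not_not] at hxK'
      obtain ⟨-, t, ht⟩ := hxK'
      rw [CfsgLib.Frobenius.mem_conj_smul] at ht
      obtain ⟨t, rfl⟩ := hπs t
      rw [← map_inv, ← map_mul, ← map_mul] at ht
      have hy : t⁻¹ * x * t ∈ H := hcomH ▸ (ht : t⁻¹ * x * t ∈ Hb.comap π)
      have hyZ : t⁻¹ * x * t ∉ Z := fun h => hxZ (by
        simpa [mul_assoc] using (inferInstance : Z.Normal).conj_mem _ h t)
      have : Subgroup.centralizer ({x} : Set G)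
          = (Subgroup.centralizer ({t⁻¹ * x * t} : Set G)).map (MulAut.conj t).toMonoidHom := by
        ext g
        rw [Subgroup.mem_map_equiv, Subgroup.mem_centralizer_singleton_iff,
          Subgroup.mem_centralizer_singleton_iff, MulAut.conj_symm_apply]
        rw [show t⁻¹ * g * t * (t⁻¹ * x * t) = t⁻¹ * (g * x) * t by group,
          show t⁻¹ * x * t * (t⁻¹ * g * t) = t⁻¹ * (x * g) * t by group,
          mul_left_inj, mul_right_inj]
      rw [this, Subgroup.index_map_of_bijective (MulAut.conj t).bijective, hHc _ hy hyZ]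
  · rintro (rfl | rfl | rfl)
    · exact ⟨1, hcen 1 Z.one_mem⟩
    · obtain ⟨x, hx, hxZ⟩ : ∃ x ∈ K, x ∉ Z := by
        by_contra h
        push Not at h
        have : Kb = ⊥ := by
          rw [hKb, Subgroup.map_eq_bot_iff, QuotientGroup.ker_mk']; exact h
        rw [this, Subgroup.card_bot] at hKcard
        exact hFrob.2.1 (Subgroup.index_eq_one.mp hKcard.symm)
      exact ⟨x, by show (Subgroup.centralizer ({x} : Set G)).index = _; rw [hKc x hx hxZ]⟩
    · obtain ⟨x, hx, hxZ⟩ : ∃ x ∈ H, x ∉ Z := by
        by_contra h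
        push Not at h
        exact hFrob.1 (by rw [Subgroup.map_eq_bot_iff, QuotientGroup.ker_mk']; exact h)
      exact ⟨x, by show (Subgroup.centralizer ({x} : Set G)).index = _; rw [hHc x hx hxZ]⟩

end Cfsg.Agent.S4283
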