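import Cfsg.Statements.S4290
import Cfsg.Agent.S4276
-- import your own Cfsg.Agent.* helpers here

set_option autoImplicit false
open Cfsg

namespace Cfsg.Agent.S4290

/-- Let G be a doubly transitive group of permutations of a finite set Ω in which a point stabilizer is a Hall subgroup of G (its order is coprime to its index). Then every automorphism of G of odd order is induced by conjugation by a permutation of Ω normalizing G. -/
theorem result {Ω : Type*} [Fintype Ω] (G : Subgroup (Equiv.Perm Ω)) (h2 : MulAction.IsMultiplyPretransitive G Ω 2) (o : Ω) (hHall : (Nat.card (MulAction.stabilizer G o)).Coprime (MulAction.stabilizer G o).index) (α : MulAut G) (hα : Odd (orderOf α)) : ∃ σ : Equiv.Perm Ω, σ ∈ Subgroup.normalizer (G : Set (Equiv.Perm Ω)) ∧ ∀ g : G, ((α g : G) : Equiv.Perm Ω) = σ * (g : Equiv.Perm Ω) * σ⁻¹ := by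
  classical
  refine (Cfsg.Agent.S4276.result G h2 o α hα o ?_).1
  rcases lt_or_ge (Fintype.card Ω) 2 with hn | hn
  · have : 0 < Fintype.card Ω := Fintype.card_pos_iff.mpr ⟨o⟩
    rw [show Fintype.card Ω = 1 by omega]
    exact Nat.coprime_one_right _
  haveI : MulAction.IsPretransitive G Ω := by
    refine ⟨fun x y => ?_⟩
    haveI : Nontrivial Ω := Fintype.one_lt_card_iff_nontrivial.mp (by omega)
    obtain ⟨b, hb⟩ := exists_ne x
    obtain ⟨d, hd⟩ := exists_ne y
    obtain ⟨g, hg, -⟩ := (MulAction.is_two_pretransitive_iff (G := G)).mp h2 hb.symm hd.symm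
    exact ⟨g, hg⟩
  rw [MulAction.index_stabilizer_of_transitive G o, Nat.card_eq_fintype_card (α := Ω)] at hHall
  refine Nat.Coprime.coprime_dvd_left ?_ hHall
  rw [Nat.card_congr (MulAction.orbitEquivQuotientStabilizer _ o), ← Subgroup.index]
  refine (Subgroup.index_dvd_card _).trans ?_
  rw [← Nat.card_congr (Subgroup.equivMapOfInjective (MulAction.stabilizer G o) α.toMonoidHom α.injective).toEquiv]

end Cfsg.Agent.S4290
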