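import Cfsg.Statements.S4291
import Cfsg.Agent.Lib.Frobenius.ComplementQuotient
import Cfsg.Agent.Lib.Frobenius.Kernel
import Cfsg.Agent.Lib.PermGroups.Zassenhaus.Main
import Cfsg.Agent.S3359

set_option autoImplicit false
open Cfsg

namespace Cfsg.Agent.S4291

open CfsgLib.ComplementQuotient CfsgLib.PermGroups
open scoped MatrixGroups

/-- The Sylow facts about a Frobenius complement. -/
theorem complement_facts {G : Type*} [Group G] [Finite G]
    (hFC : (∃ (L : Type) (_ : Group L) (_ : Finite L) (H : Subgroup L), Cfsg.IsFrobeniusComplement H ∧ Nonempty (G ≃* H))) :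
    (∀ a b : G, a * a = 1 → a ≠ 1 → b * b = 1 → b ≠ 1 → a = b) ∧
    (∀ (p : ℕ) [Fact p.Prime] (Q : Subgroup G), IsPGroup p Q →
      IsCyclic Q ∨ (p = 2 ∧ ∃ m : ℕ, 1 ≤ m ∧ Nonempty (Q ≃* QuaternionGroup (2 ^ m)))) := by
  obtain ⟨L, iL, iLf, H, hH, ⟨e⟩⟩ := hFC
  obtain ⟨N, -, hNn, hc⟩ := CfsgLib.Frobenius.exists_kernel hH
  haveI := hNn
  have hN1 : N ≠ ⊥ := by
    intro h
    have := hc.index_eq_card
    rw [h, Subgroup.card_bot] at this
    exact hH.2.1 (Subgroup.index_eq_one.1 this)
  haveI : Nontrivial N := N.nontrivial_iff_ne_bot.2 hN1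
  set φ : G →* MulAut N := (MulAut.conjNormal (H := N)).comp (H.subtype.comp e.toMonoidHom)
  have hfpf : ∀ g : G, g ≠ 1 → ∀ k : N, φ g k = k → k = 1 := by
    intro g hg k hk
    have hfp := (CfsgLib.Frobenius.isFrobeniusComplement_iff_fpf N H hc hN1 hH.1).1 hH
    refine Subtype.ext (hfp _ (e g).2 (fun h => hg (e.map_eq_one_iff.1 (Subtype.ext h))) k k.2 ?_)
    have h' := congrArg Subtype.val hk
    simp only [φ, MonoidHom.comp_apply, MulAut.conjNormal_apply] at h'
    exact mul_inv_eq_iff_eq_mul.1 h'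
  obtain ⟨r, n, hr, ρ, hn, hρ, hcard⟩ := exists_fpf_rep φ hfpf
  haveI : Nonempty (Fin n) := ⟨⟨0, hn⟩⟩
  exact ⟨fun a b h1 h2 h3 h4 => fpf_involution_unique ρ hρ h1 h2 h3 h4,
    fun p _ Q hQ => fpf_isCyclic_or_quaternion ρ hρ hcard Q hQ⟩


/-- Let G be a finite group that occurs as a Frobenius complement. Then G has exactly one normal subgroup N such that every Sylow subgroup of N is cyclic and the quotient of G by N is trivial or isomorphic to one of the following five groups: the Klein four-group, the alternating group of degree 4, the symmetric group of degree 4, the alternating group of degree 5, the symmetric group of degree 5. (The quotient is described by a surjective homomorphism with kernel N; the Klein four-group is written as the dihedral group of order 4.) -/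
theorem result {G : Type*} [Group G] [Finite G]
    (hFC : (∃ (L : Type) (_ : Group L) (_ : Finite L) (H : Subgroup L), Cfsg.IsFrobeniusComplement H ∧ Nonempty (G ≃* H))) :
    ∃! N : Subgroup G, N.Normal ∧ (∀ (p : ℕ) [Fact p.Prime] (P : Sylow p N), IsCyclic P) ∧
      (N = ⊤ ∨
        (∃ f : G →* DihedralGroup 2, Function.Surjective f ∧ f.ker = N) ∨
        (∃ f : G →* alternatingGroup (Fin 4), Function.Surjective f ∧ f.ker = N) ∨
        (∃ f : G →* Equiv.Perm (Fin 4), Function.Surjective f ∧ f.ker = N) ∨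
        (∃ f : G →* alternatingGroup (Fin 5), Function.Surjective f ∧ f.ker = N) ∨
        (∃ f : G →* Equiv.Perm (Fin 5), Function.Surjective f ∧ f.ker = N)) := by
  classical
  obtain ⟨hinv, hsyl⟩ := complement_facts hFC
  have : Fact (Nat.Prime 2) := ⟨Nat.prime_two⟩
  -- uniqueness
  have hgen : ∀ P : Sylow 2 G, ∃ a b : (P : Subgroup G),
      Subgroup.closure ({a, b} : Set (P : Subgroup G)) = ⊤ := by
    intro P
    rcases hsyl 2 (P : Subgroup G) P.isPGroup' with hc | ⟨-, m, -, ⟨e⟩⟩
    · obtain ⟨g, hg⟩ := IsCyclic.exists_generator (α := (P : Subgroup G))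
      exact ⟨g, g, eq_top_iff.2 fun x _ =>
        Subgroup.zpowers_le.2 (Subgroup.subset_closure (Set.mem_insert g _)) (hg x)⟩
    · refine ⟨e.symm (QuaternionGroup.a 1), e.symm (QuaternionGroup.xa 0), ?_⟩
      have h := congrArg (Subgroup.map e.symm.toMonoidHom) (quaternion_closure (2 ^ m))
      rwa [MonoidHom.map_closure, Set.image_pair,
        Subgroup.map_top_of_surjective _ e.symm.surjective] at h
  refine existsUnique_of_exists_of_unique ?_ ?_
  swap
  · rintro N₁ N₂ ⟨hn1, hc1, h1⟩ ⟨hn2, hc2, h2⟩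
    exact eq_of_smallQuotient hgen (fun P => hc1 2 P) (fun P => hc2 2 P) h1 h2
  -- existence
  by_cases hall : ∀ P : Sylow 2 G, IsCyclic P
  · refine ⟨⊤, inferInstance, fun p hp P => ?_, Or.inl rfl⟩
    have h : ∀ P : Sylow p G, IsCyclic P := fun P => by
      rcases hsyl p (P : Subgroup G) P.isPGroup' with hc | ⟨rfl, -⟩
      · exact hc
      · exact hall P
    exact isCyclic_sylow_of_surjective (Subgroup.topEquiv (G := G)).symm.toMonoidHom
      (Subgroup.topEquiv (G := G)).symm.surjective h P
  have hOodd : Odd (Nat.card (Cfsg.pPrimeCore 2 G)) :=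
    Nat.coprime_two_right.1 (CfsgLib.Cores.card_pPrimeCore_coprime 2)
  set O := Cfsg.pPrimeCore 2 G with hO
  haveI : O.Normal := by rw [hO]; infer_instance
  have hinvX := inv_unique_quotient hinv O hOodd
  have hπ := QuotientGroup.mk'_surjective O
  -- injective on two-groups
  have hinj : ∀ x : G, (∃ j : ℕ, x ^ 2 ^ j = 1) → x ∈ O → x = 1 := by
    rintro x ⟨j, hj⟩ hx
    have h1 := Subgroup.orderOf_dvd_natCard O hx
    exact orderOf_eq_one_iff.1 (Nat.eq_one_of_dvd_coprimes
      ((Nat.coprime_two_left.2 hOodd).pow_left j) (orderOf_dvd_of_pow_eq_one hj) h1)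
  have hncX : ¬ ∀ P : Sylow 2 (G ⧸ O), IsCyclic P := by
    intro h
    refine hall fun P => ?_
    have := h (P.mapSurjective hπ)
    have hcm : IsCyclic ↥((P : Subgroup G).map (QuotientGroup.mk' O)) := by
      rwa [← Sylow.coe_mapSurjective hπ]
    refine isCyclic_of_injective ((QuotientGroup.mk' O).subgroupMap (P : Subgroup G)) ?_
    · rw [← MonoidHom.ker_eq_bot_iff, eq_bot_iff]
      intro x hx
      obtain ⟨j, hj⟩ := P.isPGroup' x
      exact Subgroup.mem_bot.2 (Subtype.ext (hinj x ⟨j, by rw [← SubgroupClass.coe_pow, hj]; rfl⟩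
        ((QuotientGroup.eq_one_iff _).1 (congrArg Subtype.val (MonoidHom.mem_ker.1 hx)))))
  obtain ⟨K, hKn, hKc, hKq⟩ : ∃ K : Subgroup (G ⧸ O), K.Normal ∧ IsCyclic K ∧ SmallQuotient K := by
    by_cases hsol : Group.IsSolvable G
    · have : Group.IsSolvable (G ⧸ O) := Group.isSolvable_of_surjective hπ
      exact exists_smallQuotient_soluble (CfsgLib.Cores.pPrimeCore_quotient_pPrimeCore 2) hinvX hncX
    obtain ⟨G₀, hG₀, hidx, S, M, hSM, -, hcomm, ⟨eS⟩, -, hM30⟩ := Cfsg.Agent.S3359.result hsol hFC
    haveI := hG₀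
    have hSG : S ≤ G₀ := hSM ▸ le_sup_left
    have hMG : M ≤ G₀ := hSM ▸ le_sup_right
    have hMO : M ≤ O := by
      have hMn : (M.subgroupOf G₀).Normal := by
        refine (Subgroup.normal_subgroupOf_iff_le_normalizer hMG).2 ?_
        rw [← hSM]
        refine sup_le ?_ Subgroup.le_normalizer
        refine le_trans ?_ (Subgroup.centralizer_le_normalizer _)
        intro s hs
        exact Subgroup.mem_centralizer_iff.2 fun x hx => (hcomm s hs x hx).symm
      have h2 : (Nat.card M).Coprime 2 := Nat.Coprime.coprime_dvd_right (by norm_num) hM30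
      rw [← Subgroup.map_subgroupOf_eq_of_le hMG]
      refine le_trans (Subgroup.map_mono (CfsgLib.Cores.le_pPrimeCore (hN := hMn) ?_))
        (CfsgLib.Cores.map_subtype_pPrimeCore_le (Subgroup.Normal.isSubnormal hG₀))
      rwa [Nat.card_congr (Subgroup.subgroupOfEquivOfLe hMG).toEquiv]
    have hSimg : S.map (QuotientGroup.mk' O) = G₀.map (QuotientGroup.mk' O) := by
      rw [← hSM, Subgroup.map_sup, (Subgroup.map_eq_bot_iff M).2 (by rwa [QuotientGroup.ker_mk']),
        sup_bot_eq]
    haveI : (S.map (QuotientGroup.mk' O)).Normal := hSimg ▸ hG₀.map _ hπ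
    have hidx2 : (S.map (QuotientGroup.mk' O)).index ∣ 2 := by
      rw [hSimg]
      refine (Subgroup.index_map_dvd G₀ hπ).trans ?_
      rcases hidx with h | h <;> rw [h]
      exact one_dvd 2
    set τ := (QuotientGroup.mk' O).subgroupMap S with hτ
    have hτinj : Function.Injective τ := by
      rw [← MonoidHom.ker_eq_bot_iff]
      obtain ⟨σ, hσ, hσk⟩ := exists_sl_to_alternating
      have := isSimpleGroup_alternating_five
      set σ' := σ.comp eS.toMonoidHom
      have hodd : Odd (Nat.card τ.ker) := by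
        refine Odd.of_dvd_nat hOodd ?_
        rw [← Subgroup.card_map_of_injective S.subtype_injective]
        refine Subgroup.card_dvd_of_le ?_
        rintro _ ⟨x, hx, rfl⟩
        exact (QuotientGroup.eq_one_iff _).1 (congrArg Subtype.val (MonoidHom.mem_ker.1 hx))
      have hle : τ.ker ≤ σ'.ker := by
        rw [← Subgroup.map_eq_bot_iff]
        refine ((MonoidHom.normal_ker τ).map σ' (hσ.comp eS.surjective)).eq_bot_or_eq_top.resolve_right
          fun h => ?_
        have h60 := Subgroup.card_map_dvd τ.ker σ'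
        rw [h, Subgroup.card_top, card_alternating_five] at h60
        exact Nat.not_even_iff_odd.2 hodd (even_iff_two_dvd.2 ((show 2 ∣ 60 by norm_num).trans h60))
      have hσ'k : Nat.card σ'.ker = 2 := by
        rw [← hσk]
        exact Nat.card_congr (eS.toEquiv.subtypeEquiv fun s => Iff.rfl)
      refine Subgroup.eq_bot_of_card_eq _ ?_
      rcases (Nat.dvd_prime Nat.prime_two).1 (hσ'k ▸ Subgroup.card_dvd_of_le hle) with h | h
      · exact h
      · exact absurd (h ▸ hodd) (by norm_num)
    have eX := MulEquiv.ofBijective τ ⟨hτinj, MonoidHom.subgroupMap_surjective _ _⟩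
    exact exists_smallQuotient_insoluble hinvX _ hidx2 (eX.symm.trans eS)
  refine ⟨K.comap (QuotientGroup.mk' O), hKn.comap _, fun p hp P => ?_,
    Or.inr (hKq.comap _ hπ)⟩
  suffices h : ∀ (N : Subgroup G), N ≤ K.comap (QuotientGroup.mk' O) → ∀ R : Sylow p N, IsCyclic R from
    h _ le_rfl P
  clear P
  intro N hN P
  rcases hsyl p ((P : Subgroup N).map N.subtype) (P.isPGroup'.map N.subtype) with hc | ⟨rfl, -⟩
  · exact ((P : Subgroup N).equivMapOfInjective N.subtype N.subtype_injective).isCyclic.2 hc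
  · let f : (P : Subgroup N) →* K :=
      (((QuotientGroup.mk' O).comp N.subtype).comp (P : Subgroup N).subtype).codRestrict K
        (fun x => hN (x : N).2)
    refine isCyclic_of_injective f ?_
    rw [← MonoidHom.ker_eq_bot_iff, eq_bot_iff]
    intro x hx
    obtain ⟨j, hj⟩ := P.isPGroup' x
    refine Subgroup.mem_bot.2 (Subtype.ext (Subtype.ext (hinj _ ⟨j, ?_⟩
      ((QuotientGroup.eq_one_iff _).1 (congrArg Subtype.val (MonoidHom.mem_ker.1 hx))))))
    have := congrArg (fun y : (P : Subgroup N) => ((y : N) : G)) hj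
    simpa using this

end Cfsg.Agent.S4291
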