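import Cfsg.Statements.S4292
import Cfsg.Agent.Lib.FCRep.Converse

set_option autoImplicit false
open Cfsg

namespace Cfsg.Agent.S4292

/-- Let A and B be nontrivial finite groups. Then the direct product A × B occurs as a Frobenius complement if and only if A and B both occur as Frobenius complements and the orders of A and B are coprime. -/
theorem result {A B : Type*} [Group A] [Finite A] [Nontrivial A] [Group B] [Finite B] [Nontrivial B] :
    (∃ (L : Type) (_ : Group L) (_ : Finite L) (H : Subgroup L), Cfsg.IsFrobeniusComplement H ∧ Nonempty ((A × B) ≃* H)) ↔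
    ((∃ (L : Type) (_ : Group L) (_ : Finite L) (H : Subgroup L), Cfsg.IsFrobeniusComplement H ∧ Nonempty (A ≃* H)) ∧
     (∃ (L : Type) (_ : Group L) (_ : Finite L) (H : Subgroup L), Cfsg.IsFrobeniusComplement H ∧ Nonempty (B ≃* H)) ∧
     (Nat.card A).Coprime (Nat.card B)) := by
  constructor
  · rintro ⟨L, _, _, H, hH, ⟨e⟩⟩
    have h : CfsgLib.FCRep.NormFree (A × B) :=
      (CfsgLib.FCRep.normFree_of_isFrobeniusComplement hH).of_injective e.toMonoidHom e.injective
    exact ⟨CfsgLib.FCRep.exists_isFrobeniusComplement_of_normFree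
        (h.of_injective (MonoidHom.inl A B) fun x y hxy => (Prod.ext_iff.1 hxy).1),
      CfsgLib.FCRep.exists_isFrobeniusComplement_of_normFree
        (h.of_injective (MonoidHom.inr A B) fun x y hxy => (Prod.ext_iff.1 hxy).2),
      h.coprime_card⟩
  · rintro ⟨⟨L, _, _, H, hH, ⟨e⟩⟩, ⟨M, _, _, K, hK, ⟨f⟩⟩, hcop⟩
    exact CfsgLib.FCRep.exists_isFrobeniusComplement_of_normFree
      (((CfsgLib.FCRep.normFree_of_isFrobeniusComplement hH).of_injective e.toMonoidHom e.injective).prod
        ((CfsgLib.FCRep.normFree_of_isFrobeniusComplement hK).of_injective f.toMonoidHom f.injective) hcop)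

end Cfsg.Agent.S4292
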