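import Cfsg.Statements.S4293
import Cfsg.Agent.Lib.FCRep.Basic

set_option autoImplicit false
open Cfsg

namespace Cfsg.Agent.S4293

/-- A nontrivial finite subgroup of the multiplicative group of a division ring occurs as a Frobenius complement of some finite Frobenius group. -/
theorem result {D : Type*} [DivisionRing D] (H : Subgroup Dˣ) [Finite H] (hH : H ≠ ⊥) :
    ∃ (L : Type) (_ : Group L) (_ : Finite L) (C : Subgroup L), Cfsg.IsFrobeniusComplement C ∧ Nonempty (H ≃* C) := by
  haveI : Nontrivial H := (Subgroup.nontrivial_iff_ne_bot H).mpr hH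
  let f : H →* D := (Units.coeHom D).comp H.subtype
  have hf : Function.Injective f := Units.val_injective.comp Subtype.val_injective
  obtain ⟨p, hp⟩ := CharP.exists D
  haveI := hp
  rcases CharP.char_is_prime_or_zero D p with h | h
  · haveI : Fact p.Prime := ⟨h⟩
    exact CfsgLib.FCRep.exists_isFrobeniusComplement_of_monoidHom_charP p f hf
  · subst h
    haveI : CharZero D := CharP.charP_to_charZero D
    exact CfsgLib.FCRep.exists_isFrobeniusComplement_of_normFree
      (CfsgLib.FCRep.normFree_of_monoidHom f hf)

end Cfsg.Agent.S4293
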