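import Cfsg.Statements.S4294
import Cfsg.Agent.Lib.DivisionFinite.Main

set_option autoImplicit false
set_option linter.style.haveILetI false
open Cfsg

namespace Cfsg.Agent.S4294

/-- A finite non-solvable subgroup of the multiplicative group of a division ring is isomorphic to the binary icosahedral group SL(2,5). -/
theorem result {D : Type*} [DivisionRing D] (H : Subgroup Dˣ) [Finite H] (hH : ¬ Group.IsSolvable H) :
    Nonempty (H ≃* Matrix.SpecialLinearGroup (Fin 2) (ZMod 5)) := by
  obtain ⟨p, hp⟩ := CharP.exists D
  rcases CharP.char_is_prime_or_zero D p with hprime | rfl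
  · haveI := Fact.mk hprime
    exact absurd (Group.isSolvable_of_comm (CfsgLib.DivisionFinite.commute_of_charP p H)) hH
  · haveI := CharP.charP_to_charZero D
    exact CfsgLib.DivisionFinite.main H hH

end Cfsg.Agent.S4294
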