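import Cfsg.Statements.S4296
import Cfsg.Agent.Lib.Components2.QuaternionModule
import Cfsg.Agent.Lib.Frobenius.Kernel
import Cfsg.Agent.Lib.Cores.FPF
-- import your own Cfsg.Agent.* helpers here

set_option autoImplicit false
open Cfsg

namespace Cfsg.Agent.S4296

open scoped Pointwise

/-- Let H be a Frobenius complement in a finite group, and suppose some Sylow subgroup of H is not cyclic. Then the number of elements of the Frobenius kernel (the identity together with the elements lying in no conjugate of H) is an odd perfect square. -/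
theorem result {L : Type*} [Group L] [Finite L] (H : Subgroup L) (hF : Cfsg.IsFrobeniusComplement H)
    (hZ : ∃ (p : ℕ) (_ : Fact p.Prime) (P : Sylow p H), ¬ IsCyclic P) :
    Odd (Nat.card (Cfsg.frobeniusKernel H)) ∧ IsSquare (Nat.card (Cfsg.frobeniusKernel H)) := by
  obtain ⟨p, hp, P, hP⟩ := hZ
  obtain ⟨N, hNker, hN, hc⟩ := CfsgLib.Frobenius.exists_kernel hF
  have hNcard : Nat.card N = H.index := hc.index_eq_card.symm
  rw [CfsgLib.Frobenius.card_kernel hF, ← hNcard]
  have hNbot : N ≠ ⊥ := fun h => by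
    have := CfsgLib.Frobenius.one_lt_index hF
    rw [← hNcard, h, Subgroup.card_bot] at this
    exact lt_irrefl _ this
  have hfpf : ∀ h ∈ H, h ≠ 1 → N ⊓ Subgroup.centralizer ({h} : Set L) = ⊥ := fun h hh h1 =>
    le_bot_iff.1 ((inf_le_inf_left N (CfsgLib.Frobenius.centralizer_le hF hh h1)).trans
      hc.disjoint.eq_bot.le)
  have hnorm : Subgroup.normalizer (N : Set L) = ⊤ := Subgroup.normalizer_eq_top N
  let R : Subgroup L := (P : Subgroup H).map H.subtype
  have hRH : R ≤ H := Subgroup.map_subtype_le _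
  have hnR : ¬ IsCyclic R := fun h => hP
    (((P : Subgroup H).equivMapOfInjective H.subtype H.subtype_injective).isCyclic.2 h)
  obtain ⟨rfl, m, hm, ⟨e⟩⟩ := (CfsgLib.Cores.isCyclic_or_quaternion_of_fpf (P.2.map H.subtype)
    hNbot (by rw [hnorm]; exact le_top) fun a ha => hfpf a (hRH ha)).resolve_left hnR
  let φ : QuaternionGroup (2 ^ m) →* L := R.subtype.comp e.symm.toMonoidHom
  have hφinj : Function.Injective φ := R.subtype_injective.comp e.symm.injective
  have hφR : ∀ q, φ q ∈ H := fun q => hRH (e.symm q).2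
  obtain ⟨z, hz⟩ : ∃ z : L, z = φ (QuaternionGroup.a ((2 ^ m : ℕ) : ZMod (2 * 2 ^ m))) := ⟨_, rfl⟩
  have hz1 : z ≠ 1 := by
    rw [hz]
    intro h
    have h1 := hφinj (h.trans φ.map_one.symm)
    rw [QuaternionGroup.one_def, QuaternionGroup.a.injEq, ZMod.natCast_eq_zero_iff] at h1
    have h2 := Nat.le_of_dvd (Nat.two_pow_pos m) h1
    have := Nat.two_pow_pos m
    omega
  have hn2 : ((2 ^ m : ℕ) : ZMod (2 * 2 ^ m)) + ((2 ^ m : ℕ) : ZMod (2 * 2 ^ m)) = 0 := by
    rw [← Nat.cast_add, ← two_mul, ZMod.natCast_self]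
  have hz2 : z * z = 1 := by
    rw [hz, ← map_mul, QuaternionGroup.a_mul_a, hn2, ← QuaternionGroup.one_def, map_one]
  have hzH : z ∈ H := hz ▸ hφR _
  have hinv : ∀ v ∈ N, z * v * z⁻¹ = v⁻¹ := fun v hv =>
    CfsgLib.Cores.involution_inverts (by rw [hnorm]; exact Subgroup.mem_top z) hz2
      (hfpf z hzH hz1) hv
  haveI : IsMulCommutative N := ⟨⟨fun x y => Subtype.ext (by
    show (x : L) * y = y * x
    have h := hinv _ (mul_mem x.2 y.2)
    rw [show z * ((x : L) * y) * z⁻¹ = (z * x * z⁻¹) * (z * y * z⁻¹) by group, hinv _ x.2,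
      hinv _ y.2, mul_inv_rev] at h
    exact inv_injective (by rw [mul_inv_rev, mul_inv_rev]; exact h.symm))⟩⟩
  have hodd : Odd (Nat.card N) := by
    have h2 : 2 ∣ Nat.card H := by
      have ho : orderOf (⟨z, hzH⟩ : H) = 2 := orderOf_eq_prime (Subtype.ext (by rw [pow_two]; exact hz2))
        (fun h => hz1 (congrArg Subtype.val h))
      exact ho ▸ orderOf_dvd_natCard _
    rw [hNcard]
    exact Nat.coprime_two_left.1
      ((CfsgLib.Frobenius.coprime_card_index hF).coprime_dvd_left h2)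
  refine ⟨hodd, ?_⟩
  letI : CommGroup N := { (inferInstance : Group N) with mul_comm := fun x y => mul_comm' x y }
  let C : L → (Additive N →+ Additive N) := fun g =>
    MonoidHom.toAdditive (MulAut.conjNormal g : MulAut N).toMonoidHom
  have hC : ∀ g v, ((Additive.toMul (C g v) : N) : L) = g * (Additive.toMul v : N) * g⁻¹ :=
    fun g v => MulAut.conjNormal_apply g _
  have hext : ∀ x y : Additive N, ((Additive.toMul x : N) : L) = (Additive.toMul y : N) → x = y :=
    fun x y h => Additive.toMul.injective (Subtype.ext h)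
  have hneg : ∀ x : Additive N, ((Additive.toMul (-x) : N) : L) = ((Additive.toMul x : N) : L)⁻¹ :=
    fun _ => rfl
  obtain ⟨i, hi⟩ : ∃ i : L, i = φ (QuaternionGroup.a ((2 ^ (m - 1) : ℕ) : ZMod (2 * 2 ^ m))) :=
    ⟨_, rfl⟩
  obtain ⟨j, hj⟩ : ∃ j : L, j = φ (QuaternionGroup.xa 0) := ⟨_, rfl⟩
  have hk : ((2 ^ (m - 1) : ℕ) : ZMod (2 * 2 ^ m)) + ((2 ^ (m - 1) : ℕ) : ZMod (2 * 2 ^ m)) =
      ((2 ^ m : ℕ) : ZMod (2 * 2 ^ m)) := by
    rw [← Nat.cast_add, ← two_mul]
    congr 1
    rw [← pow_succ']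
    congr 1
    omega
  have hii : i * i = z := by rw [hi, hz, ← map_mul, QuaternionGroup.a_mul_a, hk]
  have hjj : j * j = z := by
    rw [hj, hz, ← map_mul, QuaternionGroup.xa_mul_xa, sub_zero, add_zero]
  have hij : i * j = z * (j * i) := by
    rw [hi, hj, hz, ← map_mul, ← map_mul, ← map_mul, QuaternionGroup.a_mul_xa,
      QuaternionGroup.xa_mul_a, QuaternionGroup.a_mul_xa]
    congr 2
    rw [← hk]
    ring
  have hcard : Nat.card (Additive N) = Nat.card N := Nat.card_congr Additive.toMul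
  rw [← hcard]
  refine CfsgLib.Components2.isSquare_card_of_quaternion_pair (hcard.symm ▸ hodd) (C i) (C j)
    (fun v => hext _ _ ?_) (fun v => hext _ _ ?_) (fun v => hext _ _ ?_)
  · rw [hC, hC, hneg, show i * (i * ((Additive.toMul v : N) : L) * i⁻¹) * i⁻¹ =
      (i * i) * ((Additive.toMul v : N) : L) * (i * i)⁻¹ by group, hii]
    exact hinv _ (Additive.toMul v).2
  · rw [hC, hC, hneg, show j * (j * ((Additive.toMul v : N) : L) * j⁻¹) * j⁻¹ =
      (j * j) * ((Additive.toMul v : N) : L) * (j * j)⁻¹ by group, hjj]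
    exact hinv _ (Additive.toMul v).2
  · rw [hC, hC, hneg, hC, hC, show i * (j * ((Additive.toMul v : N) : L) * j⁻¹) * i⁻¹ =
      (i * j) * ((Additive.toMul v : N) : L) * (i * j)⁻¹ by group, hij,
      show z * (j * i) * ((Additive.toMul v : N) : L) * (z * (j * i))⁻¹ =
      z * (j * (i * ((Additive.toMul v : N) : L) * i⁻¹) * j⁻¹) * z⁻¹ by group]
    exact hinv _ (hN.conj_mem _ (hN.conj_mem _ (Additive.toMul v).2 i) j)

end Cfsg.Agent.S4296
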