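import Cfsg.Statements.S4295
import Cfsg.Agent.S4296
import Cfsg.Agent.Lib.Components2.QuaternionModule
import Cfsg.Agent.Lib.Frobenius.Basic
-- import your own Cfsg.Agent.* helpers here

set_option autoImplicit false
open Cfsg

namespace Cfsg.Agent.S4295

open scoped Pointwise

abbrev Mod (k : ℕ) : Type := ∀ l : Fin k.primeFactorsList.length, Fin 2 → ZMod k.primeFactorsList[l]

theorem prime_get (k : ℕ) (l : Fin k.primeFactorsList.length) :
    (k.primeFactorsList[l]).Prime := Nat.prime_of_mem_primeFactorsList (List.getElem_mem _)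

/-- An automorphism of the multiplicative copy of an additive group from a unit endomorphism. -/
def autHom (V : Type) [AddCommGroup V] : (AddMonoid.End V)ˣ →* MulAut (Multiplicative V) where
  toFun f :=
    { toFun := fun v => .ofAdd (f.1 v.toAdd)
      invFun := fun v => .ofAdd (f.inv v.toAdd)
      left_inv := fun v => congrArg Multiplicative.ofAdd (DFunLike.congr_fun f.inv_val v.toAdd)
      right_inv := fun v => congrArg Multiplicative.ofAdd (DFunLike.congr_fun f.val_inv v.toAdd)
      map_mul' := fun a b => congrArg Multiplicative.ofAdd (map_add f.1 a.toAdd b.toAdd) }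
  map_one' := rfl
  map_mul' _ _ := rfl

theorem exists_of_odd (k : ℕ) (hk : Odd k) (hk1 : 1 < k) :
    ∃ (L : Type) (_ : Group L) (_ : Finite L) (H : Subgroup L), Cfsg.IsFrobeniusComplement H ∧
      Nonempty (H ≃* QuaternionGroup 2) ∧ Nat.card (Cfsg.frobeniusKernel H) = k * k := by
  haveI : ∀ l : Fin k.primeFactorsList.length, Fact (k.primeFactorsList[l]).Prime :=
    fun l => ⟨prime_get k l⟩
  have hab : ∀ l : Fin k.primeFactorsList.length, ∃ a b : ZMod k.primeFactorsList[l],
      a ^ 2 + b ^ 2 = -1 := fun l => ZMod.sq_add_sq _ (-1)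
  choose a b hab using hab
  let I : AddMonoid.End (Mod k) :=
    AddMonoidHom.mk' (fun v l => ![v l 1, -(v l 0)]) fun v w => by
      ext l r; fin_cases r <;> simp [add_comm]
  let J : AddMonoid.End (Mod k) :=
    AddMonoidHom.mk' (fun v l => ![a l * v l 0 + b l * v l 1, b l * v l 0 - a l * v l 1])
      fun v w => by ext l r; fin_cases r <;> simp <;> ring
  have hI : I * I = -1 := by
    ext v l r; fin_cases r <;> simp [I] <;> rfl
  have hJ : J * J = -1 := by
    ext v l r; fin_cases r
    · show a l * (a l * v l 0 + b l * v l 1) + b l * (b l * v l 0 - a l * v l 1) = -(v l 0)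
      linear_combination (v l 0) * hab l
    · show b l * (a l * v l 0 + b l * v l 1) - a l * (b l * v l 0 - a l * v l 1) = -(v l 1)
      linear_combination (v l 1) * hab l
  have hIJ : I * J = -(J * I) := by
    ext v l r; fin_cases r
    · show b l * v l 0 - a l * v l 1 = -(a l * v l 1 + b l * -(v l 0))
      ring
    · show -(a l * v l 0 + b l * v l 1) = -(b l * v l 1 - a l * -(v l 0))
      ring
  let f := CfsgLib.Components2.quaternionHom I J hI hJ hIJ
  let φ : QuaternionGroup 2 →* MulAut (Multiplicative (Mod k)) := (autHom (Mod k)).comp f.toHomUnits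
  have hcard : Nat.card (Mod k) = k * k := by
    rw [Nat.card_pi]
    simp_rw [Nat.card_pi, Nat.card_zmod, Fin.prod_univ_two]
    rw [Finset.prod_mul_distrib]
    have h := Fin.prod_univ_getElem k.primeFactorsList
    rw [Nat.prod_primeFactorsList (by omega)] at h
    exact congrArg₂ (· * ·) h h
  haveI : Finite (Mod k) := Nat.finite_of_card_ne_zero (by rw [hcard]; positivity)
  have hfix : ∀ q : QuaternionGroup 2, q ≠ 1 → ∀ v : Mod k, f q v = v → v = 0 := by
    intro q hq v hv
    have hz : f (.a 2) v = v := by
      by_cases h2 : q = .a 2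
      · rwa [← h2]
      · have hqq : ∀ q : QuaternionGroup 2, q ≠ 1 → q ≠ .a 2 → q * q = .a 2 := by decide
        rw [← hqq q hq h2, map_mul]
        show f q (f q v) = v
        rw [hv, hv]
    have hfz : f (.a 2) = -1 := by
      show I ^ 2 = -1
      rw [pow_two, hI]
    rw [hfz] at hz
    have h2v : 2 • v = 0 := by
      rw [two_nsmul]
      nth_rewrite 1 [← hz]
      exact neg_add_cancel v
    have hdvd := Nat.dvd_gcd (addOrderOf_dvd_of_nsmul_eq_zero h2v) (addOrderOf_dvd_natCard v)
    have hg : Nat.gcd 2 (Nat.card (Mod k)) = 1 :=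
      Nat.coprime_two_left.2 (by rw [hcard]; exact hk.mul hk)
    rw [hg, Nat.dvd_one] at hdvd
    exact AddMonoid.addOrderOf_eq_one_iff.1 hdvd
  let K : Subgroup (Multiplicative (Mod k) ⋊[φ] QuaternionGroup 2) := SemidirectProduct.inl.range
  let H : Subgroup (Multiplicative (Mod k) ⋊[φ] QuaternionGroup 2) := SemidirectProduct.inr.range
  haveI : K.Normal := by
    rw [show K = (SemidirectProduct.rightHom (φ := φ)).ker from SemidirectProduct.range_inl_eq_ker_rightHom]
    infer_instance
  haveI : Finite (Multiplicative (Mod k) ⋊[φ] QuaternionGroup 2) :=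
    Finite.of_equiv _ SemidirectProduct.equivProd.symm
  have hKH : K ⊓ H = ⊥ := by
    rw [Subgroup.eq_bot_iff_forall]
    rintro x ⟨⟨v, rfl⟩, ⟨q, hq⟩⟩
    have : v = 1 := by simpa using (congrArg SemidirectProduct.left hq).symm
    rw [this, map_one]
  have hKH' : K ⊔ H = ⊤ := by
    rw [eq_top_iff]
    intro x _
    rw [← SemidirectProduct.inl_left_mul_inr_right x]
    exact Subgroup.mul_mem_sup ⟨_, rfl⟩ ⟨_, rfl⟩
  have hKcard : Nat.card K = k * k := by
    rw [← hcard, ← Nat.card_congr (MonoidHom.ofInjective
      (SemidirectProduct.inl_injective (φ := φ))).toEquiv]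
    exact Nat.card_congr Multiplicative.toAdd
  have hHequiv : QuaternionGroup 2 ≃* H :=
    MonoidHom.ofInjective (SemidirectProduct.inr_injective (φ := φ))
  have hF : Cfsg.IsFrobeniusComplement H := by
    refine CfsgLib.Frobenius.isFrobeniusComplement_of_fpf K H hKH hKH' ?_ ?_ ?_
    · intro h
      rw [h, Subgroup.card_bot] at hKcard
      nlinarith
    · intro h
      have h2 := Nat.card_congr hHequiv.toEquiv
      rw [h, Subgroup.card_bot, Nat.card_eq_fintype_card, QuaternionGroup.card] at h2
      omega
    · rintro h ⟨q, rfl⟩ hq1 x ⟨v, rfl⟩ hcomm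
      have hq : q ≠ 1 := fun h => hq1 (by rw [h, map_one])
      have h1 : φ q v = v := by simpa using congrArg SemidirectProduct.left hcomm
      have : v.toAdd = 0 := hfix q hq _ (congrArg Multiplicative.toAdd h1)
      rw [show v = 1 from Multiplicative.toAdd.injective this, map_one]
  refine ⟨_, inferInstance, inferInstance, H, hF, ⟨hHequiv.symm⟩, ?_⟩
  rw [CfsgLib.Frobenius.card_kernel hF, (Subgroup.isComplement'_of_disjoint_and_mul_eq_univ
    (disjoint_iff.2 hKH) (by rw [← Subgroup.normal_mul, hKH', Subgroup.coe_top])).index_eq_card,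
    hKcard]

/-- For a natural number m the following are equivalent: (a) some finite group has a Frobenius complement isomorphic to the quaternion group of order 8 whose Frobenius kernel (the identity together with the elements lying in no conjugate of the complement) has exactly m elements; (b) m is an odd perfect square greater than 1. -/
theorem result (m : ℕ) :
    (∃ (L : Type) (_ : Group L) (_ : Finite L) (H : Subgroup L), Cfsg.IsFrobeniusComplement H ∧
        Nonempty (H ≃* QuaternionGroup 2) ∧ Nat.card (Cfsg.frobeniusKernel H) = m) ↔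
    (Odd m ∧ IsSquare m ∧ 1 < m) := by
  constructor
  · rintro ⟨L, _, _, H, hF, ⟨e⟩, hm⟩
    haveI := Fact.mk Nat.prime_two
    have hH8 : Nat.card H = 2 ^ 3 := by
      rw [Nat.card_congr e.toEquiv, Nat.card_eq_fintype_card, QuaternionGroup.card]; norm_num
    have hp : IsPGroup 2 (⊤ : Subgroup H) :=
      IsPGroup.of_card (n := 3) (by rw [Subgroup.card_top, hH8])
    let P : Sylow 2 H := ⟨⊤, hp, fun _ h => top_le_iff.1 h⟩
    have hP : ¬ IsCyclic (P : Subgroup H) := fun h => by
      have h1 : IsCyclic H := Subgroup.topEquiv.isCyclic.1 h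
      have h2 : IsCyclic (QuaternionGroup 2) := e.isCyclic.1 h1
      letI := h2.commGroup
      have h3 : (QuaternionGroup.a 1 : QuaternionGroup 2) * QuaternionGroup.xa 0 =
          QuaternionGroup.xa 0 * QuaternionGroup.a 1 := IsMulCommutative.is_comm.comm _ _
      exact absurd h3 (by decide)
    obtain ⟨h1, h2⟩ := Cfsg.Agent.S4296.result H hF ⟨2, inferInstance, P, hP⟩
    refine ⟨hm ▸ h1, hm ▸ h2, ?_⟩
    rw [← hm, CfsgLib.Frobenius.card_kernel hF]
    exact CfsgLib.Frobenius.one_lt_index hF
  · rintro ⟨hodd, ⟨k, rfl⟩, hm1⟩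
    exact exists_of_odd k (Nat.Odd.of_mul_left hodd) (by nlinarith)

end Cfsg.Agent.S4295
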