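import Cfsg.Statements.S4297
import Cfsg.Agent.Lib.Components2.AffineFC
-- import your own Cfsg.Agent.* helpers here

set_option autoImplicit false
open Cfsg

namespace Cfsg.Agent.S4297

open scoped Pointwise

/-- For every n ≥ 2 the dicyclic group of order 4n (generated by an element a of order 2n and an element x with x² = aⁿ and x a x⁻¹ = a⁻¹) occurs as a Frobenius complement of some finite Frobenius group. -/
theorem result (n : ℕ) (hn : 2 ≤ n) :
    ∃ (L : Type) (_ : Group L) (_ : Finite L) (H : Subgroup L), Cfsg.IsFrobeniusComplement H ∧ Nonempty (H ≃* QuaternionGroup n) := by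
  obtain ⟨p, hp, ζ, hp2, hζ⟩ := CfsgLib.Components2.exists_prime_orderOf (n := 2 * n) (by omega)
  haveI : NeZero (2 * n) := ⟨by omega⟩
  haveI : Finite (QuaternionGroup n) := by
    haveI : NeZero n := ⟨by omega⟩
    exact Finite.of_fintype _
  let z : ZMod (2 * n) → ZMod p := fun i => ((ζ ^ i.val : (ZMod p)ˣ) : ZMod p)
  have hzadd : ∀ i j, z (i + j) = z i * z j := by
    intro i j
    simp only [z, ← Units.val_mul, ← pow_add]
    congr 1
    rw [pow_eq_pow_iff_modEq, hζ, ZMod.val_add]
    exact Nat.mod_modEq _ _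
  have hz0 : z 0 = 1 := by simp [z]
  have hzinv : ∀ i, z i * z (-i) = 1 := fun i => by rw [← hzadd, add_neg_cancel, hz0]
  have hzone : ∀ i, z i = 1 → i = 0 := by
    intro i hi
    have h1 : ζ ^ i.val = 1 := Units.ext hi
    rw [← orderOf_dvd_iff_pow_eq_one, hζ] at h1
    exact (ZMod.val_eq_zero i).1 (Nat.eq_zero_of_dvd_of_lt h1 (ZMod.val_lt i))
  have h2ne : (2 : ZMod p) ≠ 0 := by
    intro h
    have h3 := (ZMod.natCast_eq_zero_iff 2 p).1 (by exact_mod_cast h)
    exact absurd (Nat.le_of_dvd (by norm_num) h3) (by omega)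
  have hzn : z (n : ZMod (2 * n)) = -1 := by
    have hsq : z n * z n = 1 := by
      rw [← hzadd, ← Nat.cast_add, ← two_mul, ZMod.natCast_self, hz0]
    refine (mul_self_eq_one_iff.1 hsq).resolve_left fun h => ?_
    have := (ZMod.natCast_eq_zero_iff n (2 * n)).1 (hzone _ h)
    exact absurd (Nat.le_of_dvd (by omega) this) (by omega)
  have hzval : ∀ i j, z (i - j) = z i * z (-j) := fun i j => by rw [sub_eq_add_neg, hzadd]
  let M : QuaternionGroup n → Matrix (Fin 2) (Fin 2) (ZMod p) := fun q =>
    match q with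
    | .a i => !![z i, 0; 0, z (-i)]
    | .xa i => !![0, z (-i); -z i, 0]
  let φ : QuaternionGroup n →* Matrix (Fin 2) (Fin 2) (ZMod p) :=
    { toFun := M
      map_one' := by
        show !![z 0, 0; 0, z (-0)] = 1
        rw [neg_zero, hz0, Matrix.one_fin_two]
      map_mul' := by
        intro x y
        rcases x with i | i <;> rcases y with j | j <;>
          simp only [QuaternionGroup.a_mul_a, QuaternionGroup.a_mul_xa, QuaternionGroup.xa_mul_a,
            QuaternionGroup.xa_mul_xa, M, Matrix.mul_fin_two, mul_zero, zero_mul, add_zero,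
            zero_add, neg_sub, neg_add_rev]
        · rw [hzadd, hzadd]; simp [mul_comm]
        · rw [hzval, hzval]; simp [mul_comm]
        · rw [hzadd, hzadd]; simp [mul_comm]
        · have e1 : z ((n : ZMod (2 * n)) + j - i) = -(z (-i) * z j) := by
            rw [hzval, hzadd, hzn]; ring
          have e2 : z (i - ((n : ZMod (2 * n)) + j)) = -(z i * z (-j)) := by
            rw [hzval, neg_add, hzadd,
              show z (-(n : ZMod (2 * n))) = -1 by
                have h := hzinv n; rw [hzn] at h; linear_combination -h]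
            ring
          rw [e1, e2]
          simp }
  haveI : Nontrivial (QuaternionGroup n) :=
    ⟨⟨.xa 0, .a 0, fun h => QuaternionGroup.noConfusion rfl (heq_of_eq h)⟩⟩
  obtain ⟨L, hL, hLf, C, hC, ⟨e⟩⟩ := CfsgLib.Components2.exists_fc_of_matrix φ fun q hq v hv => by
    have h0 := congrFun hv 0
    have h1 := congrFun hv 1
    rcases q with i | i
    · simp [φ, M, Matrix.mulVec, Matrix.vecHead, Matrix.vecTail] at h0 h1
      have hi : i ≠ 0 := by rintro rfl; exact hq rfl
      have a0 : v 0 = 0 := (mul_left_eq_self₀.1 h0).resolve_left fun h => hi (hzone _ h)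
      have a1 : v 1 = 0 := (mul_left_eq_self₀.1 h1).resolve_left fun h => hi (by simpa using hzone _ h)
      funext k; fin_cases k <;> simp [a0, a1]
    · simp [φ, M, Matrix.mulVec, Matrix.vecHead, Matrix.vecTail] at h0 h1
      have a0 : 2 * v 0 = 0 := by
        linear_combination (-1) * h0 - z (-i) * h1 - v 0 * hzinv i
      have b0 : v 0 = 0 := (mul_eq_zero.1 a0).resolve_left h2ne
      have b1 : v 1 = 0 := by rw [b0, mul_zero, neg_zero] at h1; exact h1.symm
      funext k; fin_cases k <;> simp [b0, b1]
  exact ⟨L, hL, hLf, C, hC, ⟨e.symm⟩⟩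

end Cfsg.Agent.S4297
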