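import Cfsg.Statements.S4298
import Cfsg.Agent.Lib.Components2.AffineFC
-- import your own Cfsg.Agent.* helpers here

set_option autoImplicit false
open Cfsg

namespace Cfsg.Agent.S4298

open scoped Pointwise

/-- Row-major code of the image in `SL(2,5)` of the matrix with code `k`; `0` off `SL(2,3)`. -/
def table : List ℕ := [0, 0, 0, 0, 0, 0, 0, 0, 0, 0, 0, 0, 0, 0, 0, 382, 309, 94, 0, 0, 0, 273, 61, 471, 0, 0, 0, 0, 126, 0, 0, 292, 0, 0, 362, 0, 0, 49, 0, 0, 0, 541, 215, 0, 0, 0, 605, 0, 597, 0, 0, 0, 0, 328, 0, 0, 504, 0, 0, 418, 0, 0, 488, 0, 0, 170, 0, 427, 0, 183, 0, 0, 0, 0, 106, 560, 0, 0, 0, 239, 0]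

def code3 (a b c d : ℕ) : ℕ := 27 * a + 9 * b + 3 * c + d

/-- Product of two base-5 codes. -/
def mul5 (x y : ℕ) : ℕ :=
  125 * ((x / 125 * (y / 125) + x / 25 % 5 * (y / 5 % 5)) % 5) +
  25 * ((x / 125 * (y / 25 % 5) + x / 25 % 5 * (y % 5)) % 5) +
  5 * ((x / 5 % 5 * (y / 125) + x % 5 * (y / 5 % 5)) % 5) +
  (x / 5 % 5 * (y / 25 % 5) + x % 5 * (y % 5)) % 5

/-- Product of two base-3 codes. -/
def mul3 (x y : ℕ) : ℕ :=
  27 * ((x / 27 * (y / 27) + x / 9 % 3 * (y / 3 % 3)) % 3) +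
  9 * ((x / 27 * (y / 9 % 3) + x / 9 % 3 * (y % 3)) % 3) +
  3 * ((x / 3 % 3 * (y / 27) + x % 3 * (y / 3 % 3)) % 3) +
  (x / 3 % 3 * (y / 9 % 3) + x % 3 * (y % 3)) % 3

def dom : List ℕ := [15, 16, 17, 21, 22, 23, 28, 31, 34, 37, 41, 42, 46, 48, 53, 56, 59, 62, 65, 67, 69, 74, 75, 79]

def img (k : ℕ) : Matrix (Fin 2) (Fin 2) (ZMod 5) :=
  let x := table.getD k 0
  !![((x / 125 : ℕ) : ZMod 5), ((x / 25 % 5 : ℕ) : ZMod 5);
     ((x / 5 % 5 : ℕ) : ZMod 5), ((x % 5 : ℕ) : ZMod 5)]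

theorem table_mul : ∀ x ∈ dom, ∀ y ∈ dom,
    table.getD (mul3 x y) 0 = mul5 (table.getD x 0) (table.getD y 0) := by
  decide +kernel

theorem table_bound : ∀ x ∈ dom, table.getD x 0 < 625 := by decide +kernel

theorem table_fpf : ∀ x ∈ dom, x = 28 ∨
    (table.getD x 0 / 125 + 4) * (table.getD x 0 % 5 + 4) % 5 ≠
      (table.getD x 0 / 25 % 5) * (table.getD x 0 / 5 % 5) % 5 := by decide +kernel

theorem dom_complete : ∀ a b c d : Fin 3,
    (a.val * d.val + 2 * (b.val * c.val)) % 3 = 1 → code3 a.val b.val c.val d.val ∈ dom := by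
  decide +kernel

def codeOf (A : Matrix (Fin 2) (Fin 2) (ZMod 3)) : ℕ :=
  code3 (A 0 0).val (A 0 1).val (A 1 0).val (A 1 1).val

theorem codeOf_mem (A : Matrix.SpecialLinearGroup (Fin 2) (ZMod 3)) :
    codeOf (A : Matrix (Fin 2) (Fin 2) (ZMod 3)) ∈ dom := by
  have hd : (A : Matrix (Fin 2) (Fin 2) (ZMod 3)).det = 1 := A.2
  rw [Matrix.det_fin_two] at hd
  have key : ∀ a b c d : ZMod 3, a * d - b * c = 1 →
      (a.val * d.val + 2 * (b.val * c.val)) % 3 = 1 := by decide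
  exact dom_complete ⟨_, ZMod.val_lt _⟩ ⟨_, ZMod.val_lt _⟩ ⟨_, ZMod.val_lt _⟩ ⟨_, ZMod.val_lt _⟩
    (key _ _ _ _ hd)

theorem codeOf_mul (A B : Matrix (Fin 2) (Fin 2) (ZMod 3)) :
    codeOf (A * B) = mul3 (codeOf A) (codeOf B) := by
  have e : ∀ a b c d : ZMod 3, ∀ i j k l : ℕ, i = a.val → j = b.val → k = c.val → l = d.val →
      (code3 i j k l / 27 = a.val ∧ code3 i j k l / 9 % 3 = b.val ∧
        code3 i j k l / 3 % 3 = c.val ∧ code3 i j k l % 3 = d.val) := by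
    intro a b c d i j k l hi hj hk hl
    have := ZMod.val_lt a; have := ZMod.val_lt b; have := ZMod.val_lt c; have := ZMod.val_lt d
    unfold code3
    omega
  obtain ⟨a1, a2, a3, a4⟩ := e (A 0 0) (A 0 1) (A 1 0) (A 1 1) _ _ _ _ rfl rfl rfl rfl
  obtain ⟨b1, b2, b3, b4⟩ := e (B 0 0) (B 0 1) (B 1 0) (B 1 1) _ _ _ _ rfl rfl rfl rfl
  unfold mul3
  rw [show codeOf A = code3 (A 0 0).val (A 0 1).val (A 1 0).val (A 1 1).val from rfl,
    show codeOf B = code3 (B 0 0).val (B 0 1).val (B 1 0).val (B 1 1).val from rfl,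
    a1, a2, a3, a4, b1, b2, b3, b4]
  unfold codeOf code3
  simp only [Matrix.mul_apply, Fin.sum_univ_two, ZMod.val_add, ZMod.val_mul]
  omega

theorem img_one : img (codeOf (1 : Matrix (Fin 2) (Fin 2) (ZMod 3))) = 1 := by decide +kernel

theorem img_mul (x y : ℕ) (hx : x ∈ dom) (hy : y ∈ dom) :
    img (mul3 x y) = img x * img y := by
  have hX := table_bound x hx
  have hY := table_bound y hy
  have e : ∀ a b c d : ℕ, a < 5 → b < 5 → c < 5 → d < 5 →
      ((125 * a + 25 * b + 5 * c + d) / 125 = a ∧ (125 * a + 25 * b + 5 * c + d) / 25 % 5 = b ∧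
        (125 * a + 25 * b + 5 * c + d) / 5 % 5 = c ∧ (125 * a + 25 * b + 5 * c + d) % 5 = d) := by
    intro a b c d _ _ _ _; omega
  have h5 : ∀ k : ℕ, k % 5 < 5 := fun k => Nat.mod_lt _ (by norm_num)
  simp only [img]
  rw [table_mul x hx y hy]
  set X := table.getD x 0
  set Y := table.getD y 0
  obtain ⟨m1, m2, m3, m4⟩ := e _ _ _ _
    (h5 (X / 125 * (Y / 125) + X / 25 % 5 * (Y / 5 % 5)))
    (h5 (X / 125 * (Y / 25 % 5) + X / 25 % 5 * (Y % 5)))
    (h5 (X / 5 % 5 * (Y / 125) + X % 5 * (Y / 5 % 5)))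
    (h5 (X / 5 % 5 * (Y / 25 % 5) + X % 5 * (Y % 5)))
  rw [Matrix.mul_fin_two]
  unfold mul5
  rw [m1, m2, m3, m4]
  simp only [ZMod.natCast_mod, Nat.cast_add, Nat.cast_mul]

/-- The group SL(2,3) of order 24 (the binary tetrahedral group) occurs as a Frobenius complement of some finite Frobenius group. -/
theorem result :
    ∃ (L : Type) (_ : Group L) (_ : Finite L) (H : Subgroup L), Cfsg.IsFrobeniusComplement H ∧ Nonempty (H ≃* Matrix.SpecialLinearGroup (Fin 2) (ZMod 3)) := by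
  haveI : Fact (Nat.Prime 5) := ⟨by norm_num⟩
  let M : Matrix.SpecialLinearGroup (Fin 2) (ZMod 3) →* Matrix (Fin 2) (Fin 2) (ZMod 5) :=
    { toFun := fun A => img (codeOf A)
      map_one' := by rw [Matrix.SpecialLinearGroup.coe_one, img_one]
      map_mul' := fun A B => by
        rw [Matrix.SpecialLinearGroup.coe_mul, codeOf_mul, img_mul _ _ (codeOf_mem A) (codeOf_mem B)] }
  haveI : Nontrivial (Matrix.SpecialLinearGroup (Fin 2) (ZMod 3)) :=
    ⟨⟨⟨!![1, 1; 0, 1], by decide⟩, 1, fun h => by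
      have := congrFun (congrFun (congrArg Subtype.val h) 0) 1
      exact absurd this (by decide)⟩⟩
  obtain ⟨L, hL, hLf, C, hC, ⟨e⟩⟩ := CfsgLib.Components2.exists_fc_of_matrix M fun A hA v hv => by
    refine Matrix.eq_zero_of_mulVec_eq_zero (M := M A - 1) ?_
      (by rw [Matrix.sub_mulVec, Matrix.one_mulVec, hv, sub_self])
    intro hdet
    rcases table_fpf _ (codeOf_mem A) with h | h
    · apply hA
      have hval : ∀ a b c d : ZMod 3, code3 a.val b.val c.val d.val = 28 →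
          a = 1 ∧ b = 0 ∧ c = 0 ∧ d = 1 := by decide +kernel
      obtain ⟨h1, h2, h3, h4⟩ := hval _ _ _ _ h
      refine Subtype.ext (Matrix.ext fun i j => ?_)
      fin_cases i <;> fin_cases j <;> simp [h1, h2, h3, h4]
    · apply h
      have : (((table.getD (codeOf A) 0 / 125 + 4) * (table.getD (codeOf A) 0 % 5 + 4) : ℕ) : ZMod 5) =
          (((table.getD (codeOf A) 0 / 25 % 5) * (table.getD (codeOf A) 0 / 5 % 5) : ℕ) : ZMod 5) := by
        simp [M, img, Matrix.det_fin_two] at hdet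
        push_cast
        rw [show (4 : ZMod 5) = -1 from rfl]
        simp at hdet ⊢
        linear_combination hdet
      exact (ZMod.natCast_eq_natCast_iff' _ _ _).1 this
  exact ⟨L, hL, hLf, C, hC, ⟨e.symm⟩⟩

end Cfsg.Agent.S4298
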