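import Cfsg.Statements.S4299
import Cfsg.Agent.Lib.Components2.AffineFC
-- import your own Cfsg.Agent.* helpers here

set_option autoImplicit false
open Cfsg

namespace Cfsg.Agent.S4299

open scoped Pointwise

/-- Every nontrivial finite cyclic group occurs as a Frobenius complement of some finite Frobenius group. -/
theorem result {C : Type*} [Group C] [Finite C] [IsCyclic C] [Nontrivial C] :
    ∃ (L : Type) (_ : Group L) (_ : Finite L) (H : Subgroup L), Cfsg.IsFrobeniusComplement H ∧ Nonempty (C ≃* H) := by
  obtain ⟨p, hp, ζ, -, hζ⟩ :=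
    CfsgLib.Components2.exists_prime_orderOf (n := Nat.card C) Nat.card_pos.ne'
  haveI : Finite (Subgroup.zpowers ζ) := inferInstance
  have hcard : Nat.card C = Nat.card (Subgroup.zpowers ζ) := by rw [Nat.card_zpowers, hζ]
  let e : C ≃* Subgroup.zpowers ζ := mulEquivOfCyclicCardEq hcard
  let f : C →* ZMod p :=
    (Units.coeHom (ZMod p)).comp ((Subgroup.zpowers ζ).subtype.comp e.toMonoidHom)
  have hf : ∀ c : C, f c = 1 → c = 1 := by
    intro c hc
    exact e.injective ((Subtype.ext (Units.ext (hc.trans rfl))).trans (map_one e).symm)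
  refine CfsgLib.Components2.exists_fc_of_matrix (m := Fin 1)
    ((Matrix.scalar (Fin 1) : ZMod p →+* _).toMonoidHom.comp f) fun c hc v hv => ?_
  funext i
  have h1 : f c * v i = v i := by
    have := congrFun hv i
    simpa [Matrix.scalar_apply, Matrix.mulVec_diagonal] using this
  rcases mul_left_eq_self₀.1 h1 with h | h
  · exact absurd (hf c h) hc
  · exact h

end Cfsg.Agent.S4299
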