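import Cfsg.Statements.S4300
-- import your own Cfsg.Agent.* helpers here

set_option autoImplicit false
open Cfsg

namespace Cfsg.Agent.S4300

open scoped Pointwise

/-- Let G act faithfully and primitively on a set X, and suppose the stabilizer of some point is a simple group. Then either G is simple, or G has a normal subgroup, neither trivial nor the whole group, that acts regularly on X (transitively with trivial point stabilizers). -/
theorem result {G : Type*} [Group G] {X : Type*} [MulAction G X] [FaithfulSMul G X]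
    (hprim : MulAction.IsPreprimitive G X) (x : X) (hsimple : IsSimpleGroup (MulAction.stabilizer G x)) :
    IsSimpleGroup G ∨ ∃ N : Subgroup G, N.Normal ∧ N ≠ ⊥ ∧ N ≠ ⊤ ∧
      MulAction.IsPretransitive N X ∧ ∀ y : X, MulAction.stabilizer N y = ⊥ := by
  rw [or_iff_not_imp_left]
  intro hns
  have hnt : Nontrivial G := by
    have := hsimple.toNontrivial
    exact (MulAction.stabilizer G x).subtype_injective.nontrivial
  obtain ⟨N, hN, hN0, hN1⟩ : ∃ N : Subgroup G, N.Normal ∧ N ≠ ⊥ ∧ N ≠ ⊤ := by
    by_contra hc
    push Not at hc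
    exact hns ⟨fun K hK => or_iff_not_imp_left.2 (hc K hK)⟩
  haveI := hN
  haveI := hprim
  have htr : MulAction.IsPretransitive N X := by
    refine MulAction.IsQuasiPreprimitive.isPretransitive_of_normal fun he => hN0 ?_
    refine (Subgroup.eq_bot_iff_forall _).2 fun n hn => eq_of_smul_eq_smul (α := X) fun y => ?_
    have hy : y ∈ MulAction.fixedPoints N X := he ▸ Set.mem_univ y
    simpa using hy ⟨n, hn⟩
  have hnorm : (N.subgroupOf (MulAction.stabilizer G x)).Normal := by
    rw [Subgroup.subgroupOf]; infer_instance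
  rcases hsimple.eq_bot_or_eq_top_of_normal _ hnorm with hb | ht
  · refine ⟨N, hN, hN0, hN1, htr, fun y => ?_⟩
    obtain ⟨m, rfl⟩ := MulAction.exists_smul_eq N x y
    refine (Subgroup.eq_bot_iff_forall _).2 fun n hn => ?_
    have h : (m⁻¹ * n * m : N) • x = x := by rw [mul_smul, mul_smul, hn, inv_smul_smul]
    have h2 : (⟨((m⁻¹ * n * m : N) : G), h⟩ : MulAction.stabilizer G x) = 1 := by
      rw [← Subgroup.mem_bot, ← hb, Subgroup.mem_subgroupOf]
      exact (m⁻¹ * n * m).2
    have h3 : (m⁻¹ * n * m : N) = 1 := Subtype.ext (congrArg Subtype.val h2 :)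
    simpa [mul_assoc, inv_mul_eq_one, eq_comm] using h3
  · refine absurd ((Subgroup.eq_top_iff' _).2 fun g => ?_) hN1
    obtain ⟨m, hm⟩ := MulAction.exists_smul_eq N x (g • x)
    have h : ((m : G)⁻¹ * g) ∈ MulAction.stabilizer G x := by
      rw [MulAction.mem_stabilizer_iff, mul_smul, ← hm, Subgroup.smul_def, inv_smul_smul]
    have h2 : (m : G)⁻¹ * g ∈ N := by
      have : (⟨_, h⟩ : MulAction.stabilizer G x) ∈ N.subgroupOf (MulAction.stabilizer G x) := by
        rw [ht]; exact Subgroup.mem_top _
      exact this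
    simpa using mul_mem m.2 h2

end Cfsg.Agent.S4300
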