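import Cfsg.Statements.S4301
-- import your own Cfsg.Agent.* helpers here

set_option autoImplicit false
open Cfsg

namespace Cfsg.Agent.S4301

open scoped Pointwise

/-- One-point extension of a multiply transitive group. Let X be a set and G a group of permutations of Option X (the set X with one extra point ∗ = none) all of whose elements fix ∗, such that G is k-transitive on the points of X for some k ≥ 2, X having at least k points. Suppose a permutation h of Option X and an element g of G satisfy: h interchanges ∗ with a point x of X and fixes a point y of X; g interchanges x and y; (g h)³ and h² lie in G; and for every f in G fixing x, the product h f h lies in G and fixes x. Then an element of the group generated by G and h fixes ∗ exactly when it lies in G, and that group acts (k+1)-transitively on Option X. -/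
theorem result {X : Type*} (G : Subgroup (Equiv.Perm (Option X))) (hfix : ∀ f ∈ G, f none = none)
    (k : ℕ) (hk : 2 ≤ k) (hkX : Nonempty (Fin k ↪ X))
    (htrans : ∀ a b : Fin k ↪ X, ∃ f ∈ G, ∀ i, f (some (a i)) = some (b i))
    (h g : Equiv.Perm (Option X)) (hg : g ∈ G) (x y : X)
    (h1 : h none = some x) (h2 : h (some x) = none) (h3 : h (some y) = some y)
    (h4 : g (some x) = some y) (h5 : g (some y) = some x)
    (h6 : (g * h) ^ 3 ∈ G) (h7 : h ^ 2 ∈ G)
    (h8 : ∀ f ∈ G, f (some x) = some x → h * f * h ∈ G ∧ (h * f * h) (some x) = some x) :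
    (∀ f ∈ Subgroup.closure ((G : Set (Equiv.Perm (Option X))) ∪ {h}), f none = none ↔ f ∈ G) ∧
      MulAction.IsMultiplyPretransitive (Subgroup.closure ((G : Set (Equiv.Perm (Option X))) ∪ {h})) (Option X) (k + 1) := by
  set M := Subgroup.closure ((G : Set (Equiv.Perm (Option X))) ∪ {h}) with hM
  have hGM : ∀ a ∈ G, a ∈ M := fun a ha => Subgroup.subset_closure (Or.inl ha)
  have hhM : h ∈ M := Subgroup.subset_closure (Or.inr rfl)
  have hxy : x ≠ y := by
    rintro rfl
    exact absurd (h2.symm.trans h3) (by simp)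
  -- any pair of distinct points starts a `k`-tuple
  have hext : ∀ u v : X, u ≠ v → ∃ e : Fin k ↪ X, e ⟨0, by omega⟩ = u ∧ e ⟨1, by omega⟩ = v := by
    classical
    intro u v huv
    obtain ⟨e₀⟩ := hkX
    let s₁ := Equiv.swap (e₀ ⟨0, by omega⟩) u
    let e₁ : Fin k ↪ X := e₀.trans s₁.toEmbedding
    have h0 : e₁ ⟨0, by omega⟩ = u := Equiv.swap_apply_left _ _
    refine ⟨e₁.trans (Equiv.swap (e₁ ⟨1, by omega⟩) v).toEmbedding, ?_,
      Equiv.swap_apply_left _ _⟩
    show Equiv.swap (e₁ ⟨1, by omega⟩) v (e₁ ⟨0, by omega⟩) = u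
    rw [h0, Equiv.swap_apply_of_ne_of_ne ?_ huv]
    intro e
    exact absurd (e₁.injective (h0.trans e)) (by simp [Fin.ext_iff])
  have hsome : ∀ a ∈ G, ∀ u : X, ∃ v : X, a (some u) = some v := by
    intro a ha u
    rcases hav : a (some u) with _ | v
    · exact absurd (a.injective (hav.trans (hfix a ha).symm)) (by simp)
    · exact ⟨v, rfl⟩
  -- decomposition of `G` relative to the stabiliser of `x`
  have hdec : ∀ f ∈ G, f (some x) = some x ∨ ∃ a ∈ G, ∃ b ∈ G,
      a (some x) = some x ∧ b (some x) = some x ∧ f = a * g * b := by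
    intro f hf
    obtain ⟨z, hz⟩ := hsome f hf x
    by_cases hzx : z = x
    · exact Or.inl (hzx ▸ hz)
    obtain ⟨e₁, he10, he11⟩ := hext x y hxy
    obtain ⟨e₂, he20, he21⟩ := hext x z (Ne.symm hzx)
    obtain ⟨a, ha, hae⟩ := htrans e₁ e₂
    have ha0 := hae ⟨0, by omega⟩
    have ha1 := hae ⟨1, by omega⟩
    rw [he10, he20] at ha0
    rw [he11, he21] at ha1
    refine Or.inr ⟨a, ha, g⁻¹ * a⁻¹ * f, mul_mem (mul_mem (inv_mem hg) (inv_mem ha)) hf, ha0, ?_, by group⟩
    have hz' : a⁻¹ (some z) = some y := Equiv.Perm.inv_eq_iff_eq.2 ha1.symm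
    have hy' : g⁻¹ (some y) = some x := Equiv.Perm.inv_eq_iff_eq.2 h4.symm
    rw [Equiv.Perm.mul_apply, Equiv.Perm.mul_apply, hz, hz', hy']
  have hh' : h⁻¹ = h * (h ^ 2)⁻¹ := by group
  -- the double coset description
  let Mem : Equiv.Perm (Option X) → Prop := fun u => u ∈ G ∨ ∃ a ∈ G, ∃ b ∈ G, u = a * h * b
  have hG_mul : ∀ a ∈ G, ∀ u, Mem u → Mem (a * u) := by
    rintro a ha u (hu | ⟨c, hc, d, hd, rfl⟩)
    · exact Or.inl (mul_mem ha hu)
    · exact Or.inr ⟨a * c, mul_mem ha hc, d, hd, by group⟩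
  have hmul_G : ∀ a ∈ G, ∀ u, Mem u → Mem (u * a) := by
    rintro a ha u (hu | ⟨c, hc, d, hd, rfl⟩)
    · exact Or.inl (mul_mem hu ha)
    · exact Or.inr ⟨c, hc, d * a, mul_mem hd ha, by group⟩
  have hhh : ∀ f ∈ G, Mem (h * f * h) := by
    intro f hf
    rcases hdec f hf with hx | ⟨a, ha, b, hb, hax, hbx, rfl⟩
    · exact Or.inl (h8 f hf hx).1
    have ha' : h * a * h⁻¹ ∈ G := by
      have e : h * a * h⁻¹ = h * a * h * (h ^ 2)⁻¹ := by group
      rw [e]; exact mul_mem (h8 a ha hax).1 (inv_mem h7)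
    have hb' : h⁻¹ * b * h ∈ G := by
      have e : h⁻¹ * b * h = (h ^ 2)⁻¹ * (h * b * h) := by group
      rw [e]; exact mul_mem (inv_mem h7) (h8 b hb hbx).1
    have hmid : Mem (h * g * h) := by
      refine Or.inr ⟨g⁻¹ * (g * h) ^ 3, mul_mem (inv_mem hg) h6, (h ^ 2)⁻¹ * g⁻¹,
        mul_mem (inv_mem h7) (inv_mem hg), ?_⟩
      rw [show g⁻¹ * (g * h) ^ 3 = h * g * h * g * h by rw [pow_succ, pow_succ, pow_one]; group]
      group
    have e : h * (a * g * b) * h = (h * a * h⁻¹) * (h * g * h) * (h⁻¹ * b * h) := by group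
    rw [e]
    exact hmul_G _ hb' _ (hG_mul _ ha' _ hmid)
  have hmem : ∀ u ∈ M, Mem u := by
    intro u hu
    refine Subgroup.closure_induction (fun v hv => ?_) (Or.inl (one_mem G)) (fun u v _ _ hu hv => ?_)
      (fun u _ hu => ?_) hu
    · rcases hv with hv | hv
      · exact Or.inl hv
      · exact Or.inr ⟨1, one_mem G, 1, one_mem G, by rw [Set.mem_singleton_iff.1 hv]; group⟩
    · rcases hu with hu | ⟨a, ha, b, hb, rfl⟩
      · exact hG_mul u hu v hv
      rcases hv with hv | ⟨c, hc, d, hd, rfl⟩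
      · exact hmul_G v hv _ (Or.inr ⟨a, ha, b, hb, rfl⟩)
      · rw [show a * h * b * (c * h * d) = a * (h * (b * c) * h) * d by group]
        exact hmul_G d hd _ (hG_mul a ha _ (hhh _ (mul_mem hb hc)))
    · rcases hu with hu | ⟨a, ha, b, hb, rfl⟩
      · exact Or.inl (inv_mem hu)
      · refine Or.inr ⟨b⁻¹, inv_mem hb, (h ^ 2)⁻¹ * a⁻¹, mul_mem (inv_mem h7) (inv_mem ha), ?_⟩
        rw [mul_inv_rev, mul_inv_rev, hh']
        group
  refine ⟨fun f hf => ⟨fun hfn => ?_, fun hfG => hfix f hfG⟩, ?_⟩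
  · rcases hmem f hf with hfG | ⟨a, ha, b, hb, rfl⟩
    · exact hfG
    exfalso
    obtain ⟨v, hv⟩ := hsome a ha x
    rw [Equiv.Perm.mul_apply, Equiv.Perm.mul_apply, hfix b hb, h1, hv] at hfn
    exact Option.some_ne_none v hfn
  -- every point can be moved to the extra point
  have hone : ∀ o : Option X, ∃ m ∈ M, m o = none := by
    rintro (_ | z)
    · exact ⟨1, one_mem M, rfl⟩
    · by_cases hzx : z = x
      · exact ⟨h, hhM, hzx ▸ h2⟩
      obtain ⟨e₁, he10, -⟩ := hext x z (Ne.symm hzx)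
      obtain ⟨e₂, he20, -⟩ := hext z x hzx
      obtain ⟨a, ha, hae⟩ := htrans e₂ e₁
      have := hae ⟨0, by omega⟩
      rw [he20, he10] at this
      exact ⟨h * a, mul_mem hhM (hGM a ha), by rw [Equiv.Perm.mul_apply, this, h2]⟩
  have hnorm : ∀ e : Fin (k + 1) ↪ Option X, ∃ m ∈ M, m (e 0) = none ∧
      ∃ a : Fin k ↪ X, ∀ i : Fin k, m (e i.succ) = some (a i) := by
    intro e
    obtain ⟨m, hm, hm0⟩ := hone (e 0)
    have hs : ∀ i : Fin k, ∃ v, m (e i.succ) = some v := by
      intro i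
      rcases hv : m (e i.succ) with _ | v
      · exact absurd (e.injective (m.injective (hv.trans hm0.symm))) (Fin.succ_ne_zero i)
      · exact ⟨v, rfl⟩
    choose a ha using hs
    exact ⟨m, hm, hm0, ⟨a, fun i j hij => Fin.succ_injective _
      (e.injective (m.injective (by rw [ha i, ha j, hij])))⟩, ha⟩
  refine ⟨fun e e' => ?_⟩
  obtain ⟨m, hm, hm0, a, ha⟩ := hnorm e
  obtain ⟨m', hm', hm0', a', ha'⟩ := hnorm e'
  obtain ⟨f, hf, hfa⟩ := htrans a a'
  refine ⟨⟨m'⁻¹ * f * m, mul_mem (mul_mem (inv_mem hm') (hGM f hf)) hm⟩,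
    Function.Embedding.ext fun i => ?_⟩
  show (m'⁻¹ * f * m) (e i) = e' i
  rw [Equiv.Perm.mul_apply, Equiv.Perm.mul_apply, Equiv.Perm.inv_eq_iff_eq]
  induction i using Fin.cases with
  | zero => rw [hm0, hfix f hf, hm0']
  | succ i => rw [ha i, hfa i, ha' i]

end Cfsg.Agent.S4301
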