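import Cfsg.Statements.S4302
import Cfsg.Agent.Lib.ThompsonJ.FF.Quotient
import Cfsg.Agent.Lib.NormalPComplement.Thompson
import Cfsg.Agent.Lib.SolvableStructure.MinimalNormal
import Cfsg.Agent.Lib.PSolvable.FrattiniFacts
import Cfsg.Agent.Lib.PSolvable.Basic
-- import your own Cfsg.Agent.* helpers here

set_option autoImplicit false
open Cfsg

namespace Cfsg.Agent.S4302

open CfsgLib CfsgLib.ThompsonJ
open scoped commutatorElement MatrixGroups

section Offender

variable {G : Type*} [Group G] [Finite G] {p : ℕ} [hp : Fact p.Prime] {V H R A : Subgroup G}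

/-- If `W ≤ [W, A] C_V(A)` then `A` centralizes `W`. -/
theorem commutator_eq_bot_of_le (hV : IsElementaryAbelian p V) (hA : IsPGroup p A) {W : Subgroup G}
    (hW : W ≤ V) (hAW : A ≤ Subgroup.normalizer (W : Set G))
    (h : W ≤ ⁅W, A⁆ ⊔ (V ⊓ Subgroup.centralizer (A : Set G))) : ⁅W, A⁆ = ⊥ := by
  have hsub : ⁅W, A⁆ ≤ W := Subgroup.le_normalizer_iff_commutator_le_left.1 hAW
  refine eq_bot_of_le_commutator ((isPGroup_of_isElementaryAbelian hV).to_le (hsub.trans hW))
    (Subgroup.normalizer_commutator_ge_right W A) (fun a ha => ?_) (Subgroup.commutator_le.2 ?_)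
  · obtain ⟨k, hk⟩ := hA ⟨a, ha⟩
    have hk' : a ^ p ^ k = 1 := by simpa using congrArg Subtype.val hk
    exact ⟨k, hk'.symm ▸ one_mem _⟩
  intro v hv a ha
  have hn : ⁅W, A⁆ ≤ Subgroup.normalizer
      ((V ⊓ Subgroup.centralizer (A : Set G) : Subgroup G) : Set G) :=
    (hsub.trans hW).trans ((isElementaryAbelian_le_centralizer hV).trans
      ((Subgroup.centralizer_le inf_le_left).trans (Subgroup.centralizer_le_normalizer _)))
  have hv' := h hv
  rw [← SetLike.mem_coe, Subgroup.coe_mul_of_left_le_normalizer_right _ _ hn] at hv'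
  obtain ⟨x, hx, z, hz, rfl⟩ := hv'
  rw [commutatorElement_mul_left_eq_conj_mul,
    commutatorElement_eq_one_iff_commute.2 (show Commute z a from (hz.2 a ha).symm), mul_one,
    mul_inv_cancel, one_mul]
  exact Subgroup.commutator_mem_commutator hx ha

/-- An abelian `p`-group maximizing `|B| |C_V(B)|` on a setting is an elementary best offender. -/
theorem elementary_of_max (h : FFSetting p V H) (hRV : R ≤ Subgroup.normalizer (V : Set G))
    (hf : R ⊓ Subgroup.centralizer (V : Set G) = ⊥) (hRH : R ≤ Subgroup.normalizer (H : Set G))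
    (hbest : ∀ B : Subgroup G, B ≤ R → IsBestOffenderOn p V B → B ≤ H)
    (hAR : A ≤ R) (hA : IsPGroup p A) (hAc : A ≤ Subgroup.centralizer (A : Set G))
    (hmax : ∀ B : Subgroup G, B ≤ A →
      Nat.card B * Nat.card ↥(V ⊓ Subgroup.centralizer (B : Set G)) ≤
        Nat.card A * Nat.card ↥(V ⊓ Subgroup.centralizer (A : Set G))) :
    IsBestOffenderOn p V A ∧ A ≤ H := by
  classical
  have hAV : A ≤ Subgroup.normalizer (V : Set G) := hAR.trans hRV
  have hab : ⁅A, A⁆ ≤ Subgroup.centralizer (V : Set G) := by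
    rw [Subgroup.commutator_eq_bot_iff_le_centralizer.2 hAc]
    exact bot_le
  obtain ⟨hX, hm⟩ := replacement_of_max h.elem hAV hab hmax (le_refl V)
  set A' := A ⊓ Subgroup.centralizer ((⁅V, A⁆ : Subgroup G) : Set G) with hA'
  have hVAV : ⁅V, A⁆ ≤ V := Subgroup.le_normalizer_iff_commutator_le_left.1 hAV
  have hexp : ∀ x ∈ A', x ^ p ∈ Subgroup.centralizer (V : Set G) := by
    intro x hx v hv
    have hc : ⁅v, x⁆ ∈ ⁅V, A⁆ := Subgroup.commutator_mem_commutator hv hx.1
    have e : x * v * x⁻¹ = ⁅v, x⁆⁻¹ * v := by rw [commutatorElement_def]; group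
    have hx' : x * ⁅v, x⁆⁻¹ * x⁻¹ = ⁅v, x⁆⁻¹ :=
      conj_eq_self_of_mem_centralizer hx.2 (inv_mem hc)
    have key : ∀ k : ℕ, x ^ k * v * (x ^ k)⁻¹ = ⁅v, x⁆⁻¹ ^ k * v := by
      intro k
      induction k with
      | zero => simp
      | succ k ih =>
        calc x ^ (k + 1) * v * (x ^ (k + 1))⁻¹ = x * (x ^ k * v * (x ^ k)⁻¹) * x⁻¹ := by group
          _ = (x * ⁅v, x⁆⁻¹ * x⁻¹) ^ k * (x * v * x⁻¹) := by rw [ih, conj_pow]; group
          _ = ⁅v, x⁆⁻¹ ^ (k + 1) * v := by rw [hx', e, pow_succ, mul_assoc]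
    have := key p
    rw [h.elem.2 _ (hVAV (inv_mem hc)), one_mul] at this
    exact (mul_inv_eq_iff_eq_mul.1 this).symm
  have hbA' : IsBestOffenderOn p V A' :=
    ⟨fun B hB => hm ▸ hmax B (hB.trans inf_le_left),
      (Subgroup.commutator_mono inf_le_left inf_le_left).trans hab, hexp⟩
  have hA'H : A' ≤ H := hbest A' (inf_le_left.trans hAR) hbA'
  set N := V ⊓ Subgroup.centralizer (A' : Set G) with hN
  -- roots inside `A'` and their planes
  let ι := {B : Subgroup G // IsRoot p V H B ∧ B ≤ A'}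
  have hgenex : ∀ B : ι, ∃ a : G, (B : Subgroup G) = Subgroup.zpowers a := fun B => by
    obtain ⟨a, -, -, ha⟩ := B.2.1.exists_generator
    exact ⟨a, ha⟩
  choose gen hgen using hgenex
  have hroot : ∀ B : ι, IsRoot p V H (Subgroup.zpowers (gen B)) := fun B => hgen B ▸ B.2.1
  have hmemA' : ∀ B : ι, gen B ∈ A' := fun B =>
    B.2.2 (hgen B ▸ Subgroup.mem_zpowers (gen B))
  let W : ι → Subgroup G := fun B => factorPlane p V H (gen B)
  have hcover : ∀ s : Finset ι, ∀ v ∈ V, v ∈ (⨆ B ∈ s, W B) ⊔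
      (V ⊓ ⨅ B ∈ s, Subgroup.centralizer ({gen B} : Set G)) := by
    intro s
    induction s using Finset.induction_on with
    | empty => intro v hv; exact Subgroup.mem_sup_right ⟨hv, by simp⟩
    | @insert B s hBs ih =>
      intro v hv
      refine (sup_le (le_sup_of_le_left ?_) ?_ : (⨆ B ∈ s, W B) ⊔
        (V ⊓ ⨅ B ∈ s, Subgroup.centralizer ({gen B} : Set G)) ≤ _) (ih v hv)
      · exact biSup_mono fun C hC => Finset.mem_insert_of_mem hC
      rintro c ⟨hcV, hc⟩
      obtain ⟨w, hw, c', hc', rfl⟩ := (hroot B).exists_mul_of_mem h hcV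
      refine mul_mem (Subgroup.mem_sup_left ?_) (Subgroup.mem_sup_right ⟨hc'.1, ?_⟩)
      · exact Subgroup.mem_iSup_of_mem B (Subgroup.mem_iSup_of_mem (Finset.mem_insert_self B s) hw)
      simp only [Subgroup.mem_toSubmonoid, Subgroup.coe_toSubmonoid, SetLike.mem_coe, Subgroup.mem_iInf,
        Finset.mem_insert, Subgroup.mem_centralizer_singleton_iff] at hc ⊢
      rintro C (rfl | hC)
      · exact (hc'.2 (gen C) (Subgroup.mem_sup_right (Subgroup.mem_zpowers _))).symm
      have hgC : gen C ∈ rootFactor p H (gen C) := Subgroup.mem_sup_right (Subgroup.mem_zpowers _)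
      obtain he | ⟨-, h2, -⟩ := factor_eq_or_independent h (hroot B) (hroot C)
      · exact (hc'.2 (gen C) (he ▸ hgC)).symm
      · have h3 : w * gen C = gen C * w := h2 hgC w hw
        refine mul_left_cancel (a := w) ?_
        calc w * (c' * gen C) = w * c' * gen C := (mul_assoc _ _ _).symm
          _ = gen C * (w * c') := hc C hC
          _ = w * (gen C * c') := by rw [← mul_assoc, ← h3, mul_assoc]
  haveI : Fintype ι := Fintype.ofFinite ι
  have hA'gen : A' ≤ ⨆ B : ι, (B : Subgroup G) := (h.iSup_roots_eq hA'H hbA').ge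
  have hNcover : V ≤ (⨆ B : ι, W B) ⊔ N := by
    intro v hv
    refine (sup_le_sup ?_ ?_ : (⨆ B ∈ (Finset.univ : Finset ι), W B) ⊔
      (V ⊓ ⨅ B ∈ (Finset.univ : Finset ι), Subgroup.centralizer ({gen B} : Set G)) ≤ _)
      (hcover Finset.univ v hv)
    · exact iSup₂_le fun B _ => le_iSup W B
    · refine le_inf inf_le_left (Subgroup.le_centralizer_iff.1 (hA'gen.trans (iSup_le fun B => ?_)))
      rw [hgen B, Subgroup.zpowers_le]
      rintro x ⟨-, hx⟩
      exact Subgroup.mem_centralizer_singleton_iff.1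
        (iInf₂_le (f := fun (B : ι) (_ : B ∈ (Finset.univ : Finset ι)) =>
          Subgroup.centralizer ({gen B} : Set G)) B (Finset.mem_univ B) hx)
  -- `[V, A] ≤ [N, A] C_V(A)`
  have hCA : ∀ a ∈ A, a ∈ Subgroup.normalizer (H : Set G) := fun a ha => hRH (hAR ha)
  have hAcore : A ≤ Subgroup.normalizer (coreOf p H : Set G) :=
    (hAR.trans hRH).trans (Cores.normalizer_le_normalizer_map_subtype H _)
  have hAN : A ≤ Subgroup.normalizer (N : Set G) := fun a ha =>
    mem_normalizer_fixed (hAV ha) ((hAc.trans ((Subgroup.centralizer_le inf_le_left).trans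
      (Subgroup.centralizer_le_normalizer _))) ha)
  have hNAN : ⁅N, A⁆ ≤ N := Subgroup.le_normalizer_iff_commutator_le_left.1 hAN
  set K := ⁅N, A⁆ ⊔ (V ⊓ Subgroup.centralizer (A : Set G)) with hK
  have hKV : K ≤ V := sup_le (hNAN.trans inf_le_left) inf_le_left
  let M : Subgroup G :=
    { carrier := {v | v ∈ V ∧ ∀ a ∈ A, ⁅v, a⁆ ∈ K}
      one_mem' := ⟨one_mem V, fun a _ => by simp [one_mem]⟩
      mul_mem' := fun {v w} hv hw => ⟨mul_mem hv.1 hw.1, fun a ha => by
        rw [commutatorElement_mul_left_eq_conj_mul,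
          isElementaryAbelian_comm h.elem hv.1 (hKV (hw.2 a ha)), mul_inv_cancel_right]
        exact mul_mem (hw.2 a ha) (hv.2 a ha)⟩
      inv_mem' := fun {v} hv => ⟨inv_mem hv.1, fun a ha => by
        have hcomm : v⁻¹ * (a * v * a⁻¹) = a * v * a⁻¹ * v⁻¹ :=
          isElementaryAbelian_comm h.elem (inv_mem hv.1) (conj_mem_of_mem_normalizer (hAV ha) hv.1)
        have e : ⁅v⁻¹, a⁆ = ⁅v, a⁆⁻¹ := by
          calc ⁅v⁻¹, a⁆ = v⁻¹ * (a * v * a⁻¹) := by rw [commutatorElement_def]; group
            _ = a * v * a⁻¹ * v⁻¹ := hcomm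
            _ = ⁅v, a⁆⁻¹ := by rw [commutatorElement_def]; group
        rw [e]
        exact inv_mem (hv.2 a ha)⟩ }
  have hVM : V ≤ M := by
    refine hNcover.trans (sup_le (iSup_le fun B => ?_) fun v hv => ⟨hv.1, fun a ha =>
      Subgroup.mem_sup_left (Subgroup.commutator_mem_commutator hv ha)⟩)
    set b := gen B
    set E := rootFactor p H b
    have hE := hroot B
    have hAb : A ≤ Subgroup.normalizer (Subgroup.zpowers b : Set G) := hAc.trans
      ((Subgroup.centralizer_le (SetLike.coe_subset_coe.2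
        (Subgroup.zpowers_le.2 (hmemA' B).1))).trans (Subgroup.centralizer_le_normalizer _))
    have hAE : A ≤ Subgroup.normalizer (E : Set G) := fun a ha => by
      have h1 := inf_normalizer_le_normalizer_commutator _ _ ⟨hAcore ha, hAb ha⟩
      rw [Subnormal.mem_normalizer_iff_map_conj] at h1 ⊢
      rw [show E = rootFactor p H b from rfl, rootFactor, Subgroup.map_sup, h1,
        Subnormal.mem_normalizer_iff_map_conj.1 (hAb ha)]
    have hAW : A ≤ Subgroup.normalizer (W B : Set G) :=
      (le_inf hAV hAE).trans (inf_normalizer_le_normalizer_commutator V E)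
    have hWV : W B ≤ V := hE.plane_le h
    set L := ⁅V, Subgroup.zpowers b⁆
    have hLW : L ≤ W B := Subgroup.commutator_mono le_rfl le_sup_right
    obtain ⟨hLc, hLV, -⟩ := hE.commutator_data h (Subgroup.mem_zpowers b) (fun hb => hE.ne_bot
      (Subgroup.zpowers_eq_bot.2 hb))
    have hAL : A ≤ Subgroup.normalizer (L : Set G) :=
      (le_inf hAV hAb).trans (inf_normalizer_le_normalizer_commutator V _)
    have hLA : ⁅L, A⁆ = ⊥ := by
      have hle : ⁅L, A⁆ ≤ L := Subgroup.le_normalizer_iff_commutator_le_left.1 hAL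
      rcases (Nat.dvd_prime hp.out).1 (hLc ▸ Subgroup.card_dvd_of_le hle) with h1 | h1
      · exact Subgroup.eq_bot_of_card_eq _ h1
      · refine commutator_eq_bot_of_le h.elem hA (hLW.trans hWV) hAL (le_sup_of_le_left ?_)
        exact (Subgroup.eq_of_le_of_card_ge hle (hLc.trans h1.symm).le).ge
    have hLC : L ≤ V ⊓ Subgroup.centralizer (A : Set G) :=
      le_inf (hLW.trans hWV) (Subgroup.commutator_eq_bot_iff_le_centralizer.1 hLA)
    have hWA : ⁅W B, A⁆ ≤ L := by
      have hsub : ⁅W B, A⁆ ≤ W B := Subgroup.le_normalizer_iff_commutator_le_left.1 hAW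
      set T := ⁅W B, A⁆ ⊔ L
      have hTW : T ≤ W B := sup_le hsub hLW
      obtain ⟨r, hr, hTr⟩ := (Nat.dvd_prime_pow hp.out).1
        ((hE.module_data h).1 ▸ Subgroup.card_dvd_of_le hTW)
      have h1 := Subgroup.card_le_of_le (le_sup_right : L ≤ T)
      rcases Nat.lt_or_ge r 2 with hr2 | hr2
      · have hr1 : Nat.card T ≤ Nat.card L := by
          rw [hLc, hTr]
          exact (Nat.pow_le_pow_right hp.out.pos (by omega : r ≤ 1)).trans (pow_one p).le
        exact (le_sup_left : ⁅W B, A⁆ ≤ T).trans (Subgroup.eq_of_le_of_card_ge le_sup_right hr1).ge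
      · have hTeq : T = W B := Subgroup.eq_of_le_of_card_ge hTW (by
          rw [hTr, (hE.module_data h).1]; exact Nat.pow_le_pow_right hp.out.pos hr2)
        rw [commutator_eq_bot_of_le h.elem hA hWV hAW (hTeq.ge.trans (sup_le_sup_left hLC _))]
        exact bot_le
    exact fun v hv => ⟨hWV hv, fun a ha =>
      Subgroup.mem_sup_right (hLC (hWA (Subgroup.commutator_mem_commutator hv ha)))⟩
  have hNK : N ≤ K := by
    rw [hX]
    exact sup_le (Subgroup.commutator_le.2 fun v hv a ha => (hVM hv).2 a ha) le_sup_right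
  have hNA : N ≤ V ⊓ Subgroup.centralizer (A : Set G) := le_inf inf_le_left
    (Subgroup.commutator_eq_bot_iff_le_centralizer.1
      (commutator_eq_bot_of_le h.elem hA inf_le_left hAN hNK))
  have hAA : A' = A := Subgroup.eq_of_le_of_card_ge inf_le_left
    (Nat.le_of_mul_le_mul_right (hm.le.trans (Nat.mul_le_mul_left _ (Subgroup.card_le_of_le hNA)))
      Nat.card_pos)
  exact ⟨hAA ▸ hbA', hAA ▸ hA'H⟩

/-- A conjugate of a best offender is one. -/
theorem isBestOffenderOn_map_conj {r : G} (hr : r ∈ Subgroup.normalizer (V : Set G))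
    (hA : IsBestOffenderOn p V A) :
    IsBestOffenderOn p V (A.map (MulAut.conj r).toMonoidHom) := by
  set c := (MulAut.conj r).toMonoidHom with hc
  have hinj : Function.Injective c := (MulAut.conj r).injective
  have hVc : (Subgroup.centralizer (V : Set G)).map c ≤ Subgroup.centralizer (V : Set G) := by
    rintro _ ⟨x, hx, rfl⟩ v hv
    have := hx _ (show r⁻¹ * v * r ∈ V by simpa using conj_mem_of_mem_normalizer (inv_mem hr) hv)
    simp only [hc, MulEquiv.coe_toMonoidHom, MulAut.conj_apply]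
    calc v * (r * x * r⁻¹) = r * (r⁻¹ * v * r * x) * r⁻¹ := by group
      _ = r * x * r⁻¹ * v := by rw [this]; group
  refine ⟨fun B hB => ?_, ?_, ?_⟩
  · have e : (B.comap c).map c = B :=
      Subgroup.map_comap_eq_self (hB.trans (Subgroup.map_le_range _ _))
    rw [← e, ← map_conj_fixed hr, ← map_conj_fixed hr, Subgroup.card_map_of_injective hinj,
      Subgroup.card_map_of_injective hinj, Subgroup.card_map_of_injective hinj,
      Subgroup.card_map_of_injective hinj]
    refine hA.1 _ ?_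
    rw [← Subgroup.comap_map_eq_self_of_injective hinj A]
    exact Subgroup.comap_mono hB
  · rw [← Subgroup.map_commutator]
    exact (Subgroup.map_mono hA.2.1).trans hVc
  · rintro _ ⟨a, ha, rfl⟩
    exact hVc ⟨a ^ p, hA.2.2 a ha, map_pow c a p⟩

end Offender

section Group

variable {X : Type*} [Group X] [Finite X]

theorem pPrimeCore_two_eq_bot [Group.IsSolvable X] (hF : fittingSubgroup X = pCore 2 X) :
    pPrimeCore 2 X = ⊥ := by
  haveI : Fact (Nat.Prime 2) := ⟨Nat.prime_two⟩
  by_contra hne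
  obtain ⟨M, hMle, hMn, hMne, hmin⟩ :=
    SolvableStructure.exists_minimal_normal (inferInstance : (pPrimeCore 2 X).Normal) hne
  obtain ⟨q, d, hq, hd, hcard, -, -⟩ := SolvableStructure.minimal_normal_prime hMne hmin
  haveI := Fact.mk hq
  have h2 : IsPGroup 2 M := (Cores.isPGroup_pCore 2 X).to_le
    (hF ▸ Cores.le_fittingSubgroup (IsPGroup.of_card hcard).isNilpotent)
  obtain ⟨k, hk⟩ := IsPGroup.iff_card.1 h2
  refine hMne (Subgroup.eq_bot_of_card_eq _ (Nat.eq_one_of_dvd_coprimes
    ((Cores.card_pPrimeCore_coprime (G := X) 2).pow_right k) (Subgroup.card_dvd_of_le hMle) hk.dvd))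

theorem exists_odd_above [Group.IsSolvable X] (C D : Subgroup X) [C.Normal] [D.Normal]
    (hO : pCore 2 (X ⧸ C) = ⊥) (hne : ¬ D ≤ C) :
    ∃ Q : Subgroup X, Q.Normal ∧ ¬ Q ≤ C ∧ Q ≤ D ⊔ C ∧
      ∃ n : ℕ, Odd n ∧ ∀ x ∈ Q, x ^ n ∈ C := by
  have hDb : D.map (QuotientGroup.mk' C) ≠ ⊥ := fun h => hne fun x hx => by
    have : QuotientGroup.mk' C x ∈ D.map (QuotientGroup.mk' C) := ⟨x, hx, rfl⟩
    rw [h, Subgroup.mem_bot] at this
    exact (QuotientGroup.eq_one_iff x).1 this
  obtain ⟨M, hMle, hMn, hMne, hmin⟩ := SolvableStructure.exists_minimal_normal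
    ((inferInstance : D.Normal).map _ (QuotientGroup.mk'_surjective C)) hDb
  obtain ⟨q, d, hq, hd, hcard, -, -⟩ := SolvableStructure.minimal_normal_prime hMne hmin
  have hq2 : q ≠ 2 := by
    rintro rfl
    exact hMne (le_bot_iff.1 (hO ▸ le_sSup ⟨hMn, IsPGroup.of_card hcard⟩))
  refine ⟨M.comap (QuotientGroup.mk' C), hMn.comap _, fun h => hMne ?_, ?_, Nat.card M,
    hcard ▸ (hq.odd_of_ne_two hq2).pow, fun x hx => ?_⟩
  · rw [eq_bot_iff]
    intro m hm
    obtain ⟨x, rfl⟩ := QuotientGroup.mk'_surjective C m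
    exact Subgroup.mem_bot.2 ((QuotientGroup.eq_one_iff x).2 (h hm))
  · intro x hx
    have := hMle hx
    rw [← Subgroup.mem_comap, Subgroup.comap_map_eq, QuotientGroup.ker_mk'] at this
    exact this
  · rw [← QuotientGroup.eq_one_iff]
    have := congrArg Subtype.val (pow_card_eq_one' (x := (⟨QuotientGroup.mk' C x, hx⟩ : M)))
    rw [Subgroup.coe_pow] at this
    simpa only [map_pow, QuotientGroup.mk'_apply, OneMemClass.coe_one, QuotientGroup.mk_pow] using this

/-- An odd element modulo `C(W)` fixing `Ω₁` of the abelian `2`-group `W` centralizes it. -/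
theorem commute_of_commute_involutions {W : Subgroup X} (hW : IsPGroup 2 W)
    (hWc : W ≤ Subgroup.centralizer (W : Set X)) {x : X} (hxW : x ∈ Subgroup.normalizer (W : Set X))
    {n : ℕ} (hn : Odd n) (hxn : x ^ n ∈ Subgroup.centralizer (W : Set X))
    (h : ∀ w ∈ W, w ^ 2 = 1 → Commute x w) : ∀ w ∈ W, Commute x w := by
  have key : ∀ k : ℕ, ∀ w ∈ W, w ^ 2 ^ k = 1 → Commute x w := by
    intro k
    induction k with
    | zero => intro w _ hw; rw [pow_zero, pow_one] at hw; rw [hw]; exact Commute.one_right x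
    | succ k ih =>
      intro w hw hk
      have h2 : Commute x (w ^ 2) := ih _ (pow_mem hw 2) (by rw [← pow_mul, ← pow_succ']; exact hk)
      set c := x * w * x⁻¹ * w⁻¹ with hc
      have hxw : x * w * x⁻¹ ∈ W := conj_mem_of_mem_normalizer hxW hw
      have hcW : c ∈ W := mul_mem hxw (inv_mem hw)
      have hcomm : Commute (x * w * x⁻¹) w⁻¹ := (hWc hxw w⁻¹ (inv_mem hw)).symm
      have hc2 : c ^ 2 = 1 := by
        rw [hc, hcomm.mul_pow, conj_pow, h2.eq, mul_inv_cancel_right, inv_pow, mul_inv_cancel]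
      have hxc : Commute x c := h c hcW hc2
      have hpow : ∀ m : ℕ, x ^ m * w * (x ^ m)⁻¹ = c ^ m * w := by
        intro m
        induction m with
        | zero => simp
        | succ m ihm =>
          calc x ^ (m + 1) * w * (x ^ (m + 1))⁻¹ = x * (x ^ m * w * (x ^ m)⁻¹) * x⁻¹ := by group
            _ = x * c ^ m * x⁻¹ * (x * w * x⁻¹) := by rw [ihm]; group
            _ = c ^ m * (c * w) := by rw [(hxc.pow_right m).eq, mul_inv_cancel_right, hc, inv_mul_cancel_right]
            _ = c ^ (m + 1) * w := by rw [pow_succ, ← mul_assoc]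
      have h1 := hpow n
      rw [← (show Commute w (x ^ n) from hxn w hw).eq, mul_inv_cancel_right, eq_comm,
        mul_eq_right] at h1
      have hc1 : c = 1 := by
        obtain ⟨m, hm⟩ := hn
        rwa [hm, pow_succ, pow_mul, hc2, one_pow, one_mul] at h1
      exact mul_inv_eq_iff_eq_mul.1 (mul_inv_eq_one.1 (hc ▸ hc1))
  intro w hw
  obtain ⟨k, hk⟩ := hW ⟨w, hw⟩
  exact key k w hw (by simpa using congrArg Subtype.val hk)

/-- The centralizer of `⟨Ω₁Z(S)⟩` is the core of `C(Z(T))`. -/
theorem normalCore_eq [Group.IsSolvable X] [Fact (Nat.Prime 2)]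
    (hc : Subgroup.centralizer (pCore 2 X : Set X) ≤ pCore 2 X) (T : Sylow 2 X) :
    (Subgroup.centralizer (((T : Subgroup X) ⊓ Subgroup.centralizer ((T : Subgroup X) : Set X) :
        Subgroup X) : Set X)).normalCore = Subgroup.centralizer (omegaSpan 2 X : Set X) := by
  set Z : Sylow 2 X → Subgroup X := fun S => (S : Subgroup X) ⊓
    Subgroup.centralizer ((S : Subgroup X) : Set X) with hZ
  set W := ⨆ S, Z S with hWdef
  have hZconj : ∀ (g : X) (S : Sylow 2 X),
      (Z S).map (MulAut.conj g).toMonoidHom = Z (g • S) := fun g S =>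
    ThompsonJ.map_inf_centralizer (MulAut.conj g).injective (S : Subgroup X)
  have hWn : W.Normal := ⟨fun x hx g => by
    have h1 : W.map (MulAut.conj g).toMonoidHom ≤ W := by
      rw [hWdef, Subgroup.map_iSup]
      exact iSup_le fun S => (hZconj g S).le.trans (le_iSup Z _)
    exact h1 ⟨x, hx, rfl⟩⟩
  have hZO : ∀ S, Z S ≤ pCore 2 X ⊓ Subgroup.centralizer (pCore 2 X : Set X) := fun S => by
    have h1 : Z S ≤ Subgroup.centralizer (pCore 2 X : Set X) :=
      inf_le_right.trans (Subgroup.centralizer_le (Cores.pCore_le_sylow S))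
    exact le_inf (h1.trans hc) h1
  have hWO : W ≤ pCore 2 X ⊓ Subgroup.centralizer (pCore 2 X : Set X) := iSup_le hZO
  have hWc : W ≤ Subgroup.centralizer (W : Set X) :=
    (hWO.trans inf_le_right).trans (Subgroup.centralizer_le (hWO.trans inf_le_left))
  have hW2 : IsPGroup 2 W := (Cores.isPGroup_pCore 2 X).to_le (hWO.trans inf_le_left)
  haveI := iSup_omegaCenter_normal (G := X) (p := 2)
  have hD : (Subgroup.centralizer (omegaSpan 2 X : Set X)).Normal := inferInstance
  have hVW : omegaSpan 2 X ≤ W := iSup_mono fun S => omegaOne_le 2 _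
  have hCW : (Subgroup.centralizer ((Z T : Subgroup X) : Set X)).normalCore =
      Subgroup.centralizer (W : Set X) := by
    refine le_antisymm (Subgroup.le_centralizer_iff.1 (iSup_le fun S =>
      Subgroup.le_centralizer_iff.1 ?_))
      (Subgroup.normal_le_normalCore.2 (Subgroup.centralizer_le (le_iSup Z T)))
    obtain ⟨g, rfl⟩ := MulAction.exists_smul_eq X T S
    rw [← hZconj g T]
    intro x hx
    rintro _ ⟨z, hz, rfl⟩
    have hx' := Subgroup.normalCore_le _ ((inferInstance :
      (Subgroup.centralizer ((Z T : Subgroup X) : Set X)).normalCore.Normal).conj_mem x hx g⁻¹) z hz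
    simp only [MulEquiv.coe_toMonoidHom, MulAut.conj_apply]
    calc g * z * g⁻¹ * x = g * (z * (g⁻¹ * x * g⁻¹⁻¹)) * g⁻¹ := by group
      _ = x * (g * z * g⁻¹) := by rw [hx']; group
  refine hCW.trans (le_antisymm (Subgroup.centralizer_le hVW) ?_)
  set C' := Subgroup.centralizer (W : Set X) with hC'
  by_contra hne
  have hO : pCore 2 (X ⧸ C') = ⊥ := pCore_quotient_centralizer_eq_bot (W := Z) (T := fun S => S)
    le_rfl (fun S => Subgroup.le_centralizer_iff.1 inf_le_right) (le_iSup Z)
  obtain ⟨Q, hQn, hQC, hQD, n, hn, hQpow⟩ := exists_odd_above C' _ hO hne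
  rw [sup_eq_left.2 (Subgroup.centralizer_le hVW)] at hQD
  set Ω := omegaOne 2 W with hΩ
  have hΩW : Ω ≤ W := omegaOne_le 2 W
  have hΩe : IsElementaryAbelian 2 Ω := isElementaryAbelian_omegaOne hWc
  have hΩn : Ω.Normal := ⟨fun x hx g => by
    rw [hΩ, mem_omegaOne_iff_of_le_centralizer hWc] at hx ⊢
    exact ⟨hWn.conj_mem x hx.1 g, by rw [conj_pow, hx.2, mul_one, mul_inv_cancel]⟩⟩
  set U := ⁅Q, Ω⁆ with hU
  have hUΩ : U ≤ Ω := Subgroup.commutator_le_right Q Ω
  by_cases hUbot : U = ⊥
  · refine hQC fun x hx w hw => ?_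
    have hfix : ∀ v ∈ W, v ^ 2 = 1 → Commute x v := fun v hv hv2 => by
      have h1 : ⁅x, v⁆ ∈ U := Subgroup.commutator_mem_commutator hx (mem_omegaOne hv hv2)
      rw [hUbot, Subgroup.mem_bot] at h1
      exact commutatorElement_eq_one_iff_commute.1 h1
    exact ((commute_of_commute_involutions hW2 hWc
      (Subgroup.normalizer_eq_top (H := W) ▸ Subgroup.mem_top x) hn (hQpow x hx) hfix) w hw).symm.eq
  -- a fixed point of `T` in `U`
  have hUT : U ≤ (T : Subgroup X) :=
    hUΩ.trans (hΩW.trans ((hWO.trans inf_le_left).trans (Cores.pCore_le_sylow T)))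
  have hUn : U.Normal := inferInstance
  haveI : Group.IsNilpotent (T : Subgroup X) := T.2.isNilpotent
  obtain ⟨z, hz, hz1⟩ := (Subgroup.bot_or_exists_ne_one _).resolve_left
    (PSolvable.inf_center_ne_bot (G := (T : Subgroup X)) (N := U.subgroupOf (T : Subgroup X))
      (fun hb => hUbot (by
        have := congrArg (Subgroup.map (T : Subgroup X).subtype) hb
        rwa [Subgroup.map_subgroupOf_eq_of_le hUT, Subgroup.map_bot] at this)))
  have hu : (z : X) ∈ U := hz.1
  have huV : (z : X) ∈ omegaSpan 2 X := by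
    refine le_iSup (fun S : Sylow 2 X => omegaOne 2 ((S : Subgroup X) ⊓
      Subgroup.centralizer ((S : Subgroup X) : Set X))) T (mem_omegaOne ⟨z.2, fun t ht => ?_⟩
      (hΩe.2 _ (hUΩ hu)))
    exact congrArg Subtype.val (Subgroup.mem_center_iff.1 hz.2 ⟨t, ht⟩)
  -- norm map
  let φ : X →* MulAut Ω := MulAut.conjNormal
  let R := Q.map φ
  have hker : ∀ x ∈ C', φ x = 1 := fun x hx => MulEquiv.ext fun v => Subtype.ext (by
    show ((MulAut.conjNormal x v : Ω) : X) = v
    rw [MulAut.conjNormal_apply, ← hx v (hΩW v.2), mul_inv_cancel_right])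
  have hRodd : ¬ 2 ∣ Nat.card R := by
    intro h2
    obtain ⟨⟨r, hr⟩, hr2⟩ := exists_prime_orderOf_dvd_card' 2 h2
    obtain ⟨x, hx, hxr⟩ := id hr
    have hrn : r ^ n = 1 := by rw [← hxr, ← map_pow]; exact hker _ (hQpow x hx)
    have : orderOf r ∣ n := orderOf_dvd_of_pow_eq_one hrn
    rw [← Subgroup.orderOf_coe] at hr2
    rw [hr2] at this
    exact Nat.not_even_iff_odd.2 hn (even_iff_two_dvd.2 this)
  haveI : IsMulCommutative Ω := hΩe.1
  open scoped IsMulCommutative in
  letI : Fintype R := Fintype.ofFinite R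
  open scoped IsMulCommutative in
  let N : Ω →* Ω :=
    { toFun := fun v => ∏ r : R, (r : MulAut Ω) v
      map_one' := by simp
      map_mul' := fun v w => by simp [Finset.prod_mul_distrib] }
  have hNU : ∀ v : Ω, (v : X) ∈ U → N v = 1 := by
    have hle : U ≤ N.ker.map Ω.subtype := Subgroup.commutator_le.2 fun x hx w hw =>
      ⟨φ x ⟨w, hw⟩ * (⟨w, hw⟩ : Ω)⁻¹, by
        open scoped IsMulCommutative in
        rw [SetLike.mem_coe, MonoidHom.mem_ker, map_mul, map_inv, mul_inv_eq_one]
        open scoped IsMulCommutative in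
        exact Fintype.prod_equiv (Equiv.mulRight (⟨φ x, x, hx, rfl⟩ : R))
          (fun r : R => (r : MulAut Ω) (φ x ⟨w, hw⟩)) (fun r : R => (r : MulAut Ω) ⟨w, hw⟩)
          fun r => rfl, by
        simp [φ, MulAut.conjNormal_apply, commutatorElement_def]⟩
    intro v hv
    obtain ⟨v', hv', hvv⟩ := hle hv
    rw [← Subtype.ext hvv]
    exact hv'
  have hfixed : N ⟨z, hUΩ hu⟩ = ⟨z, hUΩ hu⟩ ^ Fintype.card R := by
    open scoped IsMulCommutative in
    show ∏ r : R, (r : MulAut Ω) ⟨z, hUΩ hu⟩ = _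
    have hall : ∀ r : R, (r : MulAut Ω) ⟨z, hUΩ hu⟩ = ⟨z, hUΩ hu⟩ := by
      rintro ⟨_, x, hx, rfl⟩
      refine Subtype.ext ?_
      show ((MulAut.conjNormal x (⟨z, hUΩ hu⟩ : Ω) : Ω) : X) = z
      rw [MulAut.conjNormal_apply, ← hQD hx z huV, mul_inv_cancel_right]
    open scoped IsMulCommutative in
    rw [Finset.prod_congr rfl fun r _ => hall r, Finset.prod_const, Finset.card_univ]
  rw [hNU ⟨z, hUΩ hu⟩ hu] at hfixed
  have hzR : (z : X) ^ Fintype.card R = 1 := (congrArg Subtype.val hfixed).symm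
  rw [← Nat.card_eq_fintype_card] at hzR
  refine hz1 (Subtype.ext ?_)
  have h1 : orderOf (z : X) = 1 := Nat.eq_one_of_dvd_coprimes
    ((Nat.prime_two.coprime_iff_not_dvd).2 hRodd) (orderOf_dvd_of_pow_eq_one (hΩe.2 _ (hUΩ hu)))
    (orderOf_dvd_of_pow_eq_one hzR)
  exact orderOf_eq_one_iff.1 h1

theorem max_of_isMaxAbelian (V : Subgroup X) [V.Normal] (hV : IsElementaryAbelian 2 V)
    {P A : Subgroup X} (hVP : V ≤ P) (hA : NormalPComplement.IsMaxAbelian P A) :
    ∀ B : Subgroup (ModuleModel V), B ≤ A.map (modelMap V) →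
      Nat.card B * Nat.card ↥(modelModule V ⊓ Subgroup.centralizer (B : Set (ModuleModel V))) ≤
        Nat.card (A.map (modelMap V)) *
          Nat.card ↥(modelModule V ⊓
            Subgroup.centralizer (A.map (modelMap V) : Set (ModuleModel V))) := by
  intro B hB
  set B' := A ⊓ B.comap (modelMap V) with hB'
  have hmap : B'.map (modelMap V) = B := le_antisymm
    ((Subgroup.map_mono inf_le_right).trans (Subgroup.map_comap_le _ _)) fun b hb => by
    obtain ⟨a, ha, rfl⟩ := hB hb
    exact ⟨a, ⟨ha, hb⟩, rfl⟩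
  rw [← hmap, card_map_modelMap, card_modelModule_inf_centralizer, card_map_modelMap,
    card_modelModule_inf_centralizer]
  set C := Subgroup.centralizer (V : Set X) with hC
  have hinf : B' ⊓ C = A ⊓ C := by
    refine le_antisymm (inf_le_inf_right _ inf_le_left)
      (le_inf (le_inf inf_le_left fun x hx => ?_) inf_le_right)
    show modelMap V x ∈ B
    rw [show modelMap V x = 1 from (ker_modelMap V).ge hx.2]
    exact one_mem B
  have hcard : ∀ Y : Subgroup X, C.relIndex Y * Nat.card ↥(Y ⊓ C) = Nat.card Y := by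
    intro Y
    rw [← Subgroup.inf_relIndex_left Y C, mul_comm, ← Subgroup.relIndex_bot_left,
      Subgroup.relIndex_mul_relIndex _ _ _ bot_le inf_le_left, Subgroup.relIndex_bot_left]
  set CB := V ⊓ Subgroup.centralizer (B' : Set X) with hCB
  have hB'c : B' ≤ Subgroup.centralizer (B' : Set X) := inf_le_left.trans
    ((NormalPComplement.isMulCommutative_iff_le_centralizer.1 hA.comm).trans
      (Subgroup.centralizer_le inf_le_left))
  have hBC : B' ≤ Subgroup.centralizer (CB : Set X) := Subgroup.le_centralizer_iff.1 inf_le_right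
  have hsup : IsMulCommutative ↥(B' ⊔ CB) := by
    refine NormalPComplement.isMulCommutative_iff_le_centralizer.2 ?_
    rw [centralizer_sup']
    exact le_inf (sup_le hB'c inf_le_right) (sup_le hBC
      (inf_le_left.trans ((isElementaryAbelian_le_centralizer hV).trans
        (Subgroup.centralizer_le inf_le_left))))
  have h1 := card_sup_mul_card_inf B' CB (hBC.trans (Subgroup.centralizer_le_normalizer _))
  have h2 := hA.card_le _ (sup_le (inf_le_left.trans hA.le) (inf_le_left.trans hVP)) hsup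
  have h3 : Nat.card ↥(B' ⊓ CB) ≤ Nat.card ↥(V ⊓ Subgroup.centralizer (A : Set X)) :=
    Subgroup.card_le_of_le (le_inf (inf_le_right.trans inf_le_left)
      (inf_le_left.trans (inf_le_left.trans
        (NormalPComplement.isMulCommutative_iff_le_centralizer.1 hA.comm))))
  have h4 : Nat.card B' * Nat.card CB ≤
      Nat.card A * Nat.card ↥(V ⊓ Subgroup.centralizer (A : Set X)) := by
    rw [← h1]; exact Nat.mul_le_mul h2 h3
  rw [← hcard B', ← hcard A, hinf, mul_right_comm, mul_right_comm (C.relIndex A)] at h4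
  exact Nat.le_of_mul_le_mul_right h4 Nat.card_pos

end Group

/-- The three nonzero vectors of the plane over the field with two elements. -/
def planeVec : Fin 3 → Fin 2 → ZMod 2 := ![![1, 0], ![0, 1], ![1, 1]]

/-- The matrix of a permutation of the three nonzero vectors. -/
def permMat (σ : Equiv.Perm (Fin 3)) : Matrix (Fin 2) (Fin 2) (ZMod 2) :=
  Matrix.of fun i j => planeVec (σ (Fin.castSucc j)) i

theorem det_permMat : ∀ σ : Equiv.Perm (Fin 3), (permMat σ).det = 1 := by decide +kernel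

/-- A permutation of the three nonzero vectors as an element of `SL(2, 2)`. -/
def permSL (σ : Equiv.Perm (Fin 3)) : SL(2, ZMod 2) := ⟨permMat σ, det_permMat σ⟩

theorem permSL_mul : ∀ σ τ, permSL (σ * τ) = permSL σ * permSL τ := by decide +kernel

theorem permSL_bijective : Function.Bijective permSL := by decide +kernel

/-- `SL(2, 2)` is the symmetric group of degree 3. -/
theorem nonempty_slTwoTwo : Nonempty (SL(2, ZMod 2) ≃* Equiv.Perm (Fin 3)) :=
  ⟨(MulEquiv.ofBijective (MonoidHom.mk' permSL permSL_mul) permSL_bijective).symm⟩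

/-- The theorem, with the core named. -/
theorem main {X : Type*} [Group X] [Finite X] [Group.IsSolvable X] [Fact (Nat.Prime 2)]
    (hF : fittingSubgroup X = pCore 2 X) (T : Sylow 2 X) (C : Subgroup X) [C.Normal]
    (hC : C = Subgroup.centralizer (omegaSpan 2 X : Set X)) :
    (C
        ⊔ Subgroup.normalClosure (Cfsg.thompsonSubgroupAOf (T : Subgroup X) : Set X)
        ⊔ Subgroup.normalizer (Cfsg.thompsonSubgroupAOf (T : Subgroup X) : Set X) = ⊤) ∧
    (Subgroup.normalClosure (Cfsg.thompsonSubgroupAOf (T : Subgroup X) : Set X)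
        ≤ C
      ∨ ∃ n : ℕ, 1 ≤ n ∧
        Nonempty (↥(Subgroup.normalClosure (Cfsg.thompsonSubgroupAOf (T : Subgroup X) : Set X)) ⧸
            (C).subgroupOf
              (Subgroup.normalClosure (Cfsg.thompsonSubgroupAOf (T : Subgroup X) : Set X))
          ≃* (Fin n → Equiv.Perm (Fin 3)))) := by
  classical
  subst hC
  have hsep : IsPSolvable 2 X := PSolvable.isPSolvable_of_isSolvable
  have hO' := pPrimeCore_two_eq_bot hF
  obtain ⟨hVn, hVe, hVO⟩ := omegaSpan_data hsep hO'
  set V := omegaSpan 2 X with hVdef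
  set C := Subgroup.centralizer (V : Set X) with hCdef
  set J := thompsonSubgroupAOf (T : Subgroup X) with hJdef
  set Y := Subgroup.normalClosure (J : Set X) with hYdef
  refine ⟨?_, ?_⟩
  · refine eq_top_iff.2 fun g _ => ?_
    obtain ⟨c, hc', n, hn, rfl⟩ := exists_mul_normalizer_inf_sylow T (C ⊔ Y) g
    refine mul_mem (Subgroup.mem_sup_left hc') (Subgroup.mem_sup_right ?_)
    have hJT : thompsonSubgroupAOf ((T : Subgroup X) ⊓ (C ⊔ Y)) = J :=
      NormalPComplement.thompsonSubgroupAOf_eq_of_le inf_le_left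
        (le_inf (NormalPComplement.thompsonSubgroupAOf_le _)
          ((Subgroup.le_normalClosure : J ≤ Y).trans le_sup_right))
    rw [← hJT]
    exact NormalPComplement.normalizer_le_normalizer_thompsonSubgroupAOf _ hn
  by_cases hYC : Y ≤ C
  · exact Or.inl hYC
  refine Or.inr ?_
  set φ := modelMap V
  set V' := modelModule V
  set R := φ.range with hR
  set H := ⨆ A : {A : Subgroup (ModuleModel V) // A ≤ R ∧ IsBestOffenderOn 2 V' A},
    (A : Subgroup (ModuleModel V)) with hH
  have hHR : H ≤ R := iSup_le fun A => A.2.1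
  have hbest : ∀ B : Subgroup (ModuleModel V), B ≤ R → IsBestOffenderOn 2 V' B → B ≤ H :=
    fun B h1 h2 => le_iSup_of_le ⟨B, h1, h2⟩ le_rfl
  have hRV : R ≤ Subgroup.normalizer (V' : Set (ModuleModel V)) := modelMap_range_normalizer V
  have hf : R ⊓ Subgroup.centralizer (V' : Set (ModuleModel V)) = ⊥ := modelMap_inf_centralizer V
  have hconjle : ∀ r ∈ R, H.map (MulAut.conj r).toMonoidHom ≤ H := fun r hr => by
    rw [hH, Subgroup.map_iSup]
    refine iSup_le fun A => hbest _ ?_ (isBestOffenderOn_map_conj (hRV hr) A.2.2)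
    rintro _ ⟨a, ha, rfl⟩
    exact mul_mem (mul_mem hr (A.2.1 ha)) (inv_mem hr)
  have hRH : R ≤ Subgroup.normalizer (H : Set (ModuleModel V)) := fun r hr =>
    CoprimeAction.mem_normalizer_of_conj_mem fun x hx => hconjle r hr ⟨x, hx, rfl⟩
  have hs : (H.subgroupOf R).IsSubnormal :=
    ((Subgroup.normal_subgroupOf_iff_le_normalizer hHR).2 hRH).isSubnormal
  have hset : FFSetting 2 V' H := FFSetting.of_hyp (isElementaryAbelian_modelModule V hVe)
    (hHR.trans hRV) (le_bot_iff.1 (hf ▸ inf_le_inf_right _ hHR))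
    (centralizer_pPrimeCore_le_of_subnormal V hsep hVO hHR hs)
    (le_antisymm (iSup_le fun A => le_iSup_of_le ⟨A.1, hbest _ A.2.1 A.2.2, A.2.2⟩ le_rfl)
      (iSup_le fun A => A.2.1))
  set Yb := Y.map φ with hYb
  have hRY : R ≤ Subgroup.normalizer (Yb : Set (ModuleModel V)) := by
    rw [hR, MonoidHom.range_eq_map]
    exact (Subgroup.map_mono (Subgroup.normalizer_eq_top (H := Y)).ge).trans
      (Subgroup.le_normalizer_map φ)
  let ι := {E : Subgroup (ModuleModel V) // IsRootFactor 2 V' H E ∧ E ≤ Yb}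
  have hYle : Yb ≤ ⨆ E : ι, (E : Subgroup (ModuleModel V)) := by
    refine Subgroup.map_le_iff_le_comap.2 ((Subgroup.closure_le _).2 ?_)
    intro x hx
    obtain ⟨j, hj, hjx⟩ := Group.mem_conjugatesOfSet_iff.1 hx
    obtain ⟨g, rfl⟩ := isConj_iff.1 hjx
    have hmem : g * j * g⁻¹ ∈ thompsonSubgroupAOf ((g • T : Sylow 2 X) : Subgroup X) := by
      have e := NormalPComplement.map_thompsonSubgroupAOf (f := (MulAut.conj g).toMonoidHom)
        (MulAut.conj g).injective (T : Subgroup X)
      exact e.le ⟨j, hj, rfl⟩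
    refine (NormalPComplement.thompsonSubgroupAOf_le_iff.2 ?_ : _ ≤ (⨆ E : ι,
      (E : Subgroup (ModuleModel V))).comap φ) hmem
    intro A hA
    rw [← Subgroup.map_le_iff_le_comap]
    have hVS : V ≤ ((g • T : Sylow 2 X) : Subgroup X) :=
      (le_sSup ⟨hVn, isPGroup_of_isElementaryAbelian hVe⟩ : V ≤ pCore 2 X).trans
        (Cores.pCore_le_sylow _)
    obtain ⟨hAb, hAH⟩ := elementary_of_max hset hRV hf hRH hbest (Subgroup.map_le_range φ A)
      (((g • T : Sylow 2 X).2.to_le hA.le).map φ)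
      (NormalPComplement.isMulCommutative_iff_le_centralizer.1
        (NormalPComplement.isMulCommutative_map hA.comm φ))
      (max_of_isMaxAbelian V hVe hVS hA)
    have hAY : A.map φ ≤ Yb := by
      refine Subgroup.map_mono ((NormalPComplement.le_thompsonSubgroupAOf hA).trans ?_)
      have e := NormalPComplement.map_thompsonSubgroupAOf (f := (MulAut.conj g).toMonoidHom)
        (MulAut.conj g).injective (T : Subgroup X)
      refine e.ge.trans ?_
      rintro _ ⟨y, hy, rfl⟩
      exact (Subgroup.normalClosure_normal).conj_mem y (Subgroup.subset_normalClosure hy) g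
    rw [← hset.iSup_roots_eq hAH hAb]
    refine iSup_le fun B => ?_
    obtain ⟨b, -, -, hb⟩ := B.2.1.exists_generator
    have hroot : IsRoot 2 V' H (Subgroup.zpowers b) := hb ▸ B.2.1
    have hbY : Subgroup.zpowers b ≤ Yb := hb ▸ B.2.2.trans hAY
    have hE : rootFactor 2 H b ≤ Yb := sup_le
      ((Subgroup.commutator_mono (hset.core_le.trans hHR) hbY).trans
        (Subgroup.le_normalizer_iff_commutator_le_right.1 hRY)) hbY
    refine le_iSup_of_le ⟨rootFactor 2 H b, ⟨b, hroot, rfl⟩, hE⟩ ?_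
    rw [hb]
    exact le_sup_right
  have hYeq : ⨆ E : ι, (E : Subgroup (ModuleModel V)) = Yb :=
    le_antisymm (iSup_le fun E => E.2.2) hYle
  haveI : Fintype ι := Fintype.ofFinite ι
  have hcomm : Pairwise fun i j : ι => ∀ x y : ModuleModel V,
      x ∈ (i : Subgroup (ModuleModel V)) → y ∈ (j : Subgroup (ModuleModel V)) → Commute x y := by
    rintro ⟨E, ⟨a, ha, rfl⟩, hEY⟩ ⟨E', ⟨a', ha', rfl⟩, hEY'⟩ hne x y hx hy
    rcases factor_eq_or_independent hset ha ha' with he | ⟨h1, -, -⟩
    · exact absurd (Subtype.ext he) hne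
    · exact h1 hy x hx
  have hind : iSupIndep fun E : ι => (E : Subgroup (ModuleModel V)) :=
    (iSupIndep_factors hset).comp (f := fun E : ι =>
      (⟨E.1, E.2.1⟩ : {E : Subgroup (ModuleModel V) // IsRootFactor 2 V' H E}))
      fun a b hab => Subtype.ext (by simpa using congrArg Subtype.val hab)
  let Φ := Subgroup.noncommPiCoprod hcomm
  have hΦ : Function.Injective Φ := Subgroup.injective_noncommPiCoprod_of_iSupIndep hind
  have hΦr : Φ.range = Yb := (Subgroup.noncommPiCoprod_range (hcomm := hcomm)).trans hYeq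
  obtain ⟨e3⟩ := nonempty_slTwoTwo
  have hE : ∀ E : ι, Nonempty (↥(E : Subgroup (ModuleModel V)) ≃* Equiv.Perm (Fin 3)) := by
    rintro ⟨E, ⟨a, ha, rfl⟩, hEY⟩
    obtain ⟨e⟩ := ha.nonempty_mulEquiv hset
    exact ⟨e.trans e3⟩
  let eE : ∀ E : ι, ↥(E : Subgroup (ModuleModel V)) ≃* Equiv.Perm (Fin 3) := fun E => (hE E).some
  have e1 : Yb ≃* (ι → Equiv.Perm (Fin 3)) :=
    ((MulEquiv.subgroupCongr hΦr.symm).trans (MonoidHom.ofInjective hΦ).symm).trans
      (MulEquiv.piCongrRight eE)
  have hι : Nonempty ι := by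
    by_contra hempty
    rw [not_nonempty_iff] at hempty
    refine hYC fun y hy => ?_
    have : φ y ∈ Yb := ⟨y, hy, rfl⟩
    rw [← hYeq, iSup_of_empty, Subgroup.mem_bot] at this
    exact (ker_modelMap V).le (MonoidHom.mem_ker.2 this)
  refine ⟨Fintype.card ι, Fintype.card_pos, ⟨?_⟩⟩
  have hker : C.subgroupOf Y = (φ.comp Y.subtype).ker := by
    rw [← MonoidHom.comap_ker, ker_modelMap]
    rfl
  have hrange : (φ.comp Y.subtype).range = Yb := by
    rw [MonoidHom.range_comp, Subgroup.range_subtype]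
  let eι := Fintype.equivFin ι
  exact ((((QuotientGroup.quotientMulEquivOfEq hker).trans
    (QuotientGroup.quotientKerEquivRange _)).trans (MulEquiv.subgroupCongr hrange)).trans e1).trans
    { toFun := fun f i => f (eι.symm i)
      invFun := fun f E => f (eι E)
      left_inv := fun f => funext fun E => by simp
      right_inv := fun f => funext fun i => by simp
      map_mul' := fun f f' => rfl }


/-- Let `X` be a finite solvable group whose Fitting subgroup is a 2-group (equivalently `F(X) = O₂(X)`), `T` a Sylow 2-subgroup of `X`, `J(T)` the subgroup generated by the abelian subgroups of `T` of largest order, `C` the largest normal subgroup of `X` centralizing the centre `Z(T)`, and `Y` the normal closure of `J(T)` in `X`. Then `X = C · Y · N_X(J(T))`, and either `Y ≤ C`, or `CY/C` is isomorphic to a direct product of at least one copy of the symmetric group of degree 3. -/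
theorem result {X : Type*} [Group X] [Finite X]
    [Group.IsSolvable X] (hF : Cfsg.fittingSubgroup X = Cfsg.pCore 2 X) (T : Sylow 2 X) :
    ((Subgroup.centralizer (((T : Subgroup X) ⊓ Subgroup.centralizer ((T : Subgroup X) : Set X) : Subgroup X) : Set X)).normalCore
        ⊔ Subgroup.normalClosure (Cfsg.thompsonSubgroupAOf (T : Subgroup X) : Set X)
        ⊔ Subgroup.normalizer (Cfsg.thompsonSubgroupAOf (T : Subgroup X) : Set X) = ⊤) ∧
    (Subgroup.normalClosure (Cfsg.thompsonSubgroupAOf (T : Subgroup X) : Set X)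
        ≤ (Subgroup.centralizer (((T : Subgroup X) ⊓ Subgroup.centralizer ((T : Subgroup X) : Set X) : Subgroup X) : Set X)).normalCore
      ∨ ∃ n : ℕ, 1 ≤ n ∧
        Nonempty (↥(Subgroup.normalClosure (Cfsg.thompsonSubgroupAOf (T : Subgroup X) : Set X)) ⧸
            ((Subgroup.centralizer (((T : Subgroup X) ⊓ Subgroup.centralizer ((T : Subgroup X) : Set X) : Subgroup X) : Set X)).normalCore).subgroupOf
              (Subgroup.normalClosure (Cfsg.thompsonSubgroupAOf (T : Subgroup X) : Set X))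
          ≃* (Fin n → Equiv.Perm (Fin 3)))) := by
  haveI : Fact (Nat.Prime 2) := ⟨Nat.prime_two⟩
  exact main hF T _ (normalCore_eq (PSolvable.centralizer_pCore_le
    PSolvable.isPSolvable_of_isSolvable (pPrimeCore_two_eq_bot hF)) T)

end Cfsg.Agent.S4302
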