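import Cfsg.Statements.S4303
import Cfsg.Agent.Lib.Components2.SylowInduction
-- import your own Cfsg.Agent.* helpers here

set_option autoImplicit false
universe u
open Cfsg

namespace Cfsg.Agent.S4303

open scoped Pointwise

/-- For a finite group `G` and a prime `p`, the number of Sylow `p`-subgroups of `G` is a product of natural numbers each of which is either a prime power congruent to 1 modulo `p` or the number of Sylow `p`-subgroups of some finite simple group. -/
theorem result {G : Type u} [Group G] [Finite G]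
    (p : ℕ) [Fact p.Prime] :
    ∃ l : List ℕ, l.prod = Nat.card (Sylow p G) ∧
      ∀ m ∈ l, (IsPrimePow m ∧ m % p = 1) ∨
        ∃ (S : Type u) (_ : Group S) (_ : Finite S), IsSimpleGroup S ∧ m = Nat.card (Sylow p S) := by
  classical
  have hp : p.Prime := Fact.out
  refine CfsgLib.Components2.card_sylow_induction (p := p) False
    (fun n => ∃ l : List ℕ, l.prod = n ∧
      ∀ m ∈ l, (IsPrimePow m ∧ m % p = 1) ∨
        ∃ (S : Type u) (_ : Group S) (_ : Finite S), IsSimpleGroup S ∧ m = Nat.card (Sylow p S))
    ⟨[], rfl, by simp⟩ ?_ ?_ ?_ False.elim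
  · rintro _ _ ⟨l₁, rfl, h₁⟩ ⟨l₂, rfl, h₂⟩
    refine ⟨l₁ ++ l₂, List.prod_append, fun m hm => ?_⟩
    rcases List.mem_append.1 hm with h | h
    · exact h₁ m h
    · exact h₂ m h
  · intro m hm hq
    refine ⟨m.primeFactors.toList.map fun q => q ^ m.factorization q, ?_, ?_⟩
    · rw [Finset.prod_map_toList]
      conv_rhs => rw [← Nat.prod_factorization_pow_eq_self hm]
      rw [Finsupp.prod, Nat.support_factorization]
    · intro x hx
      obtain ⟨q, hq', rfl⟩ := List.mem_map.1 hx
      rw [Finset.mem_toList] at hq'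
      have hqp := Nat.prime_of_mem_primeFactors hq'
      refine Or.inl ⟨hqp.isPrimePow.pow (Nat.Prime.factorization_pos_of_dvd hqp hm
        (Nat.dvd_of_mem_primeFactors hq')).ne', ?_⟩
      exact Nat.mod_eq_of_modEq (hq q hqp) hp.one_lt
  · intro S _ _ hS _
    exact ⟨[Nat.card (Sylow p S)], by simp, fun m hm => Or.inr
      ⟨S, inferInstance, inferInstance, hS, List.mem_singleton.1 hm⟩⟩

end Cfsg.Agent.S4303
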