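import Cfsg.Statements.S4304
import Cfsg.Agent.Lib.Components2.SylowInduction
-- import your own Cfsg.Agent.* helpers here

set_option autoImplicit false
open Cfsg

namespace Cfsg.Agent.S4304

open scoped Pointwise

section

variable {G : Type*} [Group G] [Finite G]

/-- A simple group whose order is `2` times an odd number has order `2`. -/
theorem not_isSimpleGroup_two_mul_odd [IsSimpleGroup G] {m : ℕ} (hm : Odd m) (hm1 : 1 < m)
    (hcard : Nat.card G = 2 * m) : False := by
  classical
  haveI : Fintype G := Fintype.ofFinite G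
  obtain ⟨z, hz⟩ := exists_prime_orderOf_dvd_card' (G := G) 2 ⟨m, hcard⟩
  let ρ : G →* Equiv.Perm G := MulAction.toPermHom G G
  have hsign : Equiv.Perm.sign (ρ z) = -1 := by
    have hρ : orderOf (ρ z) = 2 := by
      rw [orderOf_injective ρ MulAction.toPerm_injective]; exact hz
    obtain ⟨n, hn⟩ := Equiv.Perm.cycleType_prime_order (σ := ρ z) (by rw [hρ]; exact Nat.prime_two)
    have hsupp : (ρ z).support = Finset.univ := by
      ext g
      simp only [Equiv.Perm.mem_support, Finset.mem_univ, iff_true]
      intro hg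
      have : z * g = g := hg
      rw [mul_eq_right] at this
      rw [this, orderOf_one] at hz
      exact one_ne_zero (α := ℕ) (by omega)
    have hsum := (ρ z).sum_cycleType
    rw [hn, hsupp, hρ, Finset.card_univ, ← Nat.card_eq_fintype_card, hcard, Multiset.sum_replicate,
      smul_eq_mul] at hsum
    rw [Equiv.Perm.sign_of_cycleType, hn, hρ, Multiset.sum_replicate, Multiset.card_replicate,
      smul_eq_mul]
    refine Odd.neg_one_pow ?_
    rw [show n + 1 = m by omega]
    exact (even_two.mul_left m).add_odd hm
  let χ : G →* ℤˣ := Equiv.Perm.sign.comp ρ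
  rcases χ.normal_ker.eq_bot_or_eq_top with h | h
  · have hle := Nat.card_le_card_of_injective χ (χ.ker_eq_bot_iff.1 h)
    rw [hcard, Nat.card_eq_fintype_card (α := ℤˣ), Fintype.card_units_int] at hle
    omega
  · have hm2 : z ∈ χ.ker := h ▸ Subgroup.mem_top z
    rw [MonoidHom.mem_ker] at hm2
    exact absurd (hm2.symm.trans hsign) (by decide)

/-- A Sylow subgroup with `N(P) ≤ C(P)` is impossible in a non-abelian simple group. -/
theorem not_normalizer_le_centralizer [IsSimpleGroup G] {p : ℕ} [Fact p.Prime] (P : Sylow p G)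
    (hd : p ∣ Nat.card G) (hne : Nat.card (P : Subgroup G) ≠ Nat.card G)
    (hP : Subgroup.normalizer ((P : Subgroup G) : Set G) ≤ Subgroup.centralizer ((P : Subgroup G) : Set G)) :
    False := by
  have hc := MonoidHom.ker_transferSylow_isComplement' P hP
  have hmul : Nat.card (MonoidHom.transferSylow P hP).ker * Nat.card (P : Subgroup G) = Nat.card G :=
    hc.card_mul
  rcases (MonoidHom.transferSylow P hP).normal_ker.eq_bot_or_eq_top with h | h
  · rw [h, Subgroup.card_bot, one_mul] at hmul
    exact hne hmul
  · exact MonoidHom.not_dvd_card_ker_transferSylow P hP (h ▸ by rwa [Subgroup.card_top])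

/-- Automorphisms of a group of prime order `p` have order dividing `p - 1`. -/
theorem relIndex_centralizer_dvd {p : ℕ} [hp : Fact p.Prime] {P : Subgroup G}
    (hP : Nat.card P = p) :
    (Subgroup.centralizer (P : Set G)).relIndex (Subgroup.normalizer (P : Set G)) ∣ p - 1 := by
  haveI : IsCyclic P := isCyclic_of_prime_card hP
  have key := Subgroup.card_dvd_of_injective _ (QuotientGroup.kerLift_injective P.normalizerMonoidHom)
  rw [P.normalizerMonoidHom_ker, ← Subgroup.index, ← Subgroup.relIndex, IsCyclic.card_mulAut, hP,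
    Nat.totient_prime hp.out] at key
  exact key

/-- A group with fifteen Sylow 7-subgroups cannot be simple. -/
theorem not_simple_fifteen [IsSimpleGroup G] (hn : Nat.card (Sylow 7 G) = 15) : False := by
  classical
  haveI : Fact (Nat.Prime 7) := ⟨by norm_num⟩
  haveI : Fintype (Sylow 7 G) := Fintype.ofFinite _
  have hΩ : Fintype.card (Sylow 7 G) = 15 := by rw [← Nat.card_eq_fintype_card, hn]
  let ρ : G →* Equiv.Perm (Sylow 7 G) := MulAction.toPermHom G (Sylow 7 G)
  have hinj : Function.Injective ρ := by
    rw [← MonoidHom.ker_eq_bot_iff]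
    refine ρ.normal_ker.eq_bot_or_eq_top.resolve_right fun htop => ?_
    obtain ⟨P⟩ : Nonempty (Sylow 7 G) := inferInstance
    have hN : Subgroup.normalizer ((P : Subgroup G) : Set G) = ⊤ := eq_top_iff.2 fun g _ => by
      refine Sylow.smul_eq_iff_mem_normalizer.1 ?_
      have hg : g ∈ ρ.ker := htop ▸ Subgroup.mem_top g
      exact Equiv.congr_fun (MonoidHom.mem_ker.1 hg) P
    rw [CfsgLib.Components2.card_sylow_eq_index P, hN, Subgroup.index_top] at hn
    omega
  have hfaith : ∀ g : G, (∀ Q : Sylow 7 G, g • Q = Q) → g = 1 := fun g hg =>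
    hinj ((Equiv.ext hg).trans (map_one ρ).symm)
  -- a `7`-element fixing `Q` lies in `Q`
  have hmemQ : ∀ (Q : Sylow 7 G) (c : G), IsPGroup 7 (Subgroup.zpowers c) → c • Q = Q → c ∈ Q :=
    fun Q c hc h => CfsgLib.Components2.mem_sylow_of_mem_normalizer Q hc
      (Sylow.smul_eq_iff_mem_normalizer.1 h)
  -- `P` fixes only itself
  have hfix : ∀ P Q : Sylow 7 G, (∀ x ∈ P, x • Q = Q) → Q = P := fun P Q h => by
    refine Sylow.ext (P.3 Q.2 fun x hx => ?_)
    refine hmemQ Q x ?_ (h x hx)
    exact P.2.to_le (Subgroup.zpowers_le.2 hx)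
  have hself : ∀ (P : Sylow 7 G), ∀ x ∈ P, x • P = P := fun P x hx =>
    Sylow.smul_eq_iff_mem_normalizer.2 (Subgroup.le_normalizer hx)
  -- the orbits of `P` off the fixed point
  let orb : Sylow 7 G → Sylow 7 G → Finset (Sylow 7 G) := fun P a =>
    Finset.univ.filter fun b => ∃ x ∈ P, x • a = b
  have horb_self : ∀ P a, a ∈ orb P a := fun P a =>
    Finset.mem_filter.2 ⟨Finset.mem_univ _, 1, one_mem _, one_smul G a⟩
  have horb_sub : ∀ P a b, b ∈ orb P a → orb P b = orb P a := by
    intro P a b hb
    obtain ⟨x, hx, rfl⟩ := (Finset.mem_filter.1 hb).2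
    ext c
    simp only [orb, Finset.mem_filter, Finset.mem_univ, true_and]
    constructor
    · rintro ⟨y, hy, rfl⟩; exact ⟨y * x, mul_mem hy hx, mul_smul y x a⟩
    · rintro ⟨y, hy, rfl⟩
      exact ⟨y * x⁻¹, mul_mem hy (inv_mem hx), by rw [← mul_smul, inv_mul_cancel_right]⟩
  have horb_ne : ∀ P a, a ≠ P → P ∉ orb P a := by
    intro P a ha hP
    obtain ⟨x, hx, he⟩ := (Finset.mem_filter.1 hP).2
    exact ha (smul_left_cancel x (he.trans (hself P x hx).symm))
  have horb_card : ∀ P a, a ≠ P → (orb P a).card = 7 := by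
    intro P a ha
    obtain ⟨k, hk⟩ := P.2.card_orbit a
    have hset : (MulAction.orbit (P : Subgroup G) a) = (orb P a : Set (Sylow 7 G)) := by
      ext b
      simp only [MulAction.mem_orbit_iff, orb, Finset.coe_filter, Finset.mem_univ, true_and,
        Set.mem_ofPred_eq]
      constructor
      · rintro ⟨⟨x, hx⟩, rfl⟩; exact ⟨x, hx, rfl⟩
      · rintro ⟨x, hx, rfl⟩; exact ⟨⟨x, hx⟩, rfl⟩
    rw [hset, Nat.card_coe_set_eq, Set.ncard_coe_finset] at hk
    have hle : (orb P a).card ≤ 14 := by
      have : orb P a ⊆ Finset.univ.erase P := fun b hb =>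
        Finset.mem_erase.2 ⟨fun e => horb_ne P a ha (e ▸ hb), Finset.mem_univ _⟩
      have := Finset.card_le_card this
      rwa [Finset.card_erase_of_mem (Finset.mem_univ _), Finset.card_univ, hΩ] at this
    rcases k with _ | _ | k
    · exfalso
      refine ha (hfix P a fun x hx => ?_)
      have h1 : x • a ∈ orb P a := Finset.mem_filter.2 ⟨Finset.mem_univ _, x, hx, rfl⟩
      obtain ⟨c, hc⟩ := Finset.card_eq_one.1 hk
      rw [hc, Finset.mem_singleton] at h1
      have h2 := horb_self P a
      rw [hc, Finset.mem_singleton] at h2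
      rw [h1, ← h2]
    · exact hk
    · rw [hk, pow_succ, pow_succ] at hle
      have : 1 ≤ 7 ^ k := Nat.one_le_pow _ _ (by norm_num)
      omega
  have htwo : ∀ P : Sylow 7 G, ∃ a b, a ≠ P ∧ b ≠ P ∧ b ∉ orb P a ∧
      orb P b = Finset.univ \ insert P (orb P a) := by
    intro P
    obtain ⟨a, ha⟩ := Fintype.exists_ne_of_one_lt_card (by omega) P
    have hc8 : (insert P (orb P a)).card = 8 := by
      rw [Finset.card_insert_of_notMem (horb_ne P a ha), horb_card P a ha]
    have hcard : (Finset.univ \ insert P (orb P a)).card = 7 := by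
      rw [Finset.card_univ_diff, hc8, hΩ]
    obtain ⟨b, hb⟩ := Finset.card_pos.1 (by rw [hcard]; norm_num :
      0 < (Finset.univ \ insert P (orb P a)).card)
    simp only [Finset.mem_sdiff, Finset.mem_univ, Finset.mem_insert, true_and, not_or] at hb
    refine ⟨a, b, ha, hb.1, hb.2, Finset.eq_of_subset_of_card_le (fun c hc => ?_) ?_⟩
    · simp only [Finset.mem_sdiff, Finset.mem_univ, Finset.mem_insert, true_and, not_or]
      refine ⟨fun e => horb_ne P b hb.1 (e ▸ hc), fun e => hb.2 ?_⟩
      rw [← horb_sub P a c e, horb_sub P b c hc]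
      exact horb_self P b
    · rw [hcard, horb_card P b hb.1]
  obtain ⟨P⟩ : Nonempty (Sylow 7 G) := inferInstance
  obtain ⟨a, b, ha, hb, hba, hob⟩ := htwo P
  have hcover : ∀ c, c ≠ P → c ∈ orb P a ∨ c ∈ orb P b := by
    intro c hc
    by_cases h : c ∈ orb P a
    · exact Or.inl h
    · right; rw [hob]; simp [hc, h]
  have hG15 : 15 * Nat.card (Subgroup.normalizer ((P : Subgroup G) : Set G)) = Nat.card G := by
    rw [← hn, CfsgLib.Components2.card_sylow_eq_index P, mul_comm]
    exact Subgroup.card_mul_index _
  obtain ⟨k, hk⟩ := IsPGroup.iff_card.1 P.2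
  have hk0 : k ≠ 0 := by
    rintro rfl
    refine hb (hfix P b fun x hx => ?_)
    have : (P : Subgroup G) = ⊥ := Subgroup.card_eq_one.1 (by rw [hk, pow_zero])
    have hx' : x ∈ (P : Subgroup G) := hx
    rw [this, Subgroup.mem_bot] at hx'
    rw [hx', one_smul]
  by_cases hk1 : k = 1
  · -- Sylow subgroups of order seven
    subst hk1
    rw [pow_one] at hk
    set N := Subgroup.normalizer ((P : Subgroup G) : Set G) with hNdef
    set C := Subgroup.centralizer ((P : Subgroup G) : Set G) with hCdef
    haveI : IsCyclic (P : Subgroup G) := isCyclic_of_prime_card hk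
    have hPC : (P : Subgroup G) ≤ C := fun x hx => Subgroup.mem_centralizer_iff.2 fun y hy =>
      congrArg Subtype.val (IsCyclic.isMulCommutative.is_comm.comm
        (⟨y, hy⟩ : (P : Subgroup G)) ⟨x, hx⟩)
    have hCN : C ≤ N := Subgroup.centralizer_le_normalizer _
    -- elements commuting with `P` and preserving an orbit have seventh power trivial there
    have hseven : ∀ x ∈ C, ∀ d ≠ P, x • d ∈ orb P d → ∀ e ∈ orb P d, x ^ 7 • e = e := by
      intro x hx d hd hxd e he
      obtain ⟨y, hy, hyd⟩ := (Finset.mem_filter.1 hxd).2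
      obtain ⟨w, hw, rfl⟩ := (Finset.mem_filter.1 he).2
      have hcomm : ∀ z ∈ P, Commute x z := fun z hz =>
        (Subgroup.mem_centralizer_iff.1 hx z hz).symm
      have h1 : (x * y⁻¹) • d = d := by
        rw [mul_smul, eq_comm, ← inv_smul_eq_iff]
        have hy' : Commute x⁻¹ y⁻¹ := ((hcomm y hy).inv_inv)
        calc x⁻¹ • d = x⁻¹ • y⁻¹ • (y • d) := by rw [inv_smul_smul]
          _ = y⁻¹ • x⁻¹ • (x • d) := by rw [hyd, ← mul_smul, hy'.eq, mul_smul]
          _ = y⁻¹ • d := by rw [inv_smul_smul]
      have h2 : (x * y⁻¹) ^ 7 • d = d := by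
        rw [← MulAction.mem_stabilizer_iff]
        exact pow_mem (MulAction.mem_stabilizer_iff.2 h1) 7
      have hy7 : y ^ 7 = 1 := by
        have h7 : (⟨y, hy⟩ : (P : Subgroup G)) ^ 7 = 1 := by
          have h := pow_card_eq_one' (G := (P : Subgroup G)) (x := ⟨y, hy⟩)
          rwa [hk] at h
        exact congrArg Subtype.val h7
      rw [(hcomm _ (inv_mem hy)).mul_pow, inv_pow, hy7, inv_one, mul_one] at h2
      rw [← mul_smul, ((hcomm w hw).pow_left 7).eq, mul_smul, h2]
    have hkill : ∀ x ∈ C, x • a ∈ orb P a → x • b ∈ orb P b → x ^ 7 = 1 := by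
      intro x hx h1 h2
      refine hfaith _ fun c => ?_
      by_cases hc : c = P
      · subst hc
        exact Sylow.smul_eq_iff_mem_normalizer.2 (hCN (pow_mem hx 7))
      rcases hcover c hc with h | h
      · exact hseven x hx a ha h1 c h
      · exact hseven x hx b hb h2 c h
    have hCP : C ≤ (P : Subgroup G) := by
      intro x hx
      have hxP : ∀ d, d ≠ P → x • d ≠ P := fun d hd he =>
        hd (smul_left_cancel x (he.trans (Sylow.smul_eq_iff_mem_normalizer.2 (hCN hx)).symm))
      have hmap : ∀ d e, e ∈ orb P d → x • e ∈ orb P (x • d) := by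
        intro d e he
        obtain ⟨w, hw, rfl⟩ := (Finset.mem_filter.1 he).2
        refine Finset.mem_filter.2 ⟨Finset.mem_univ _, w, hw, ?_⟩
        rw [← mul_smul, ← mul_smul, Subgroup.mem_centralizer_iff.1 hx w hw]
      by_cases hsw : x • a ∈ orb P a
      · have hxb : x • b ∈ orb P b := by
          refine (hcover _ (hxP b hb)).resolve_left fun h => ?_
          have h1 : orb P (x • b) = orb P (x • a) :=
            (horb_sub P a _ h).trans (horb_sub P a _ hsw).symm
          -- the image of the orbit of `a` fills that orbit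
          have himg : (orb P a).image (x • ·) = orb P a := by
            refine Finset.eq_of_subset_of_card_le (fun e he => ?_) ?_
            · obtain ⟨e', he', rfl⟩ := Finset.mem_image.1 he
              have := hmap a e' he'
              rwa [horb_sub P a _ hsw] at this
            · rw [Finset.card_image_of_injective _ (MulAction.injective x)]
          rw [← himg, Finset.mem_image] at h
          obtain ⟨e, he, hee⟩ := h
          exact hba (smul_left_cancel x hee ▸ he)
        have h7 := hkill x hx hsw hxb
        refine CfsgLib.Components2.mem_sylow_of_mem_normalizer P ?_ (hCN hx)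
        obtain ⟨j, -, hj⟩ := (Nat.dvd_prime_pow Fact.out (m := 1)).1
          (by rw [pow_one]; exact orderOf_dvd_of_pow_eq_one h7 : orderOf x ∣ 7 ^ 1)
        exact IsPGroup.of_card (n := j) (by rw [Nat.card_zpowers, hj])
      · exfalso
        have hxa : x • a ∈ orb P b := (hcover _ (hxP a ha)).resolve_left hsw
        have hxb : x • b ∈ orb P a := by
          refine (hcover _ (hxP b hb)).resolve_right fun h => ?_
          have himg : (orb P a).image (x • ·) = orb P b := by
            refine Finset.eq_of_subset_of_card_le (fun e he => ?_) ?_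
            · obtain ⟨e', he', rfl⟩ := Finset.mem_image.1 he
              have := hmap a e' he'
              rwa [horb_sub P b _ hxa] at this
            · rw [Finset.card_image_of_injective _ (MulAction.injective x), horb_card P a ha,
                horb_card P b hb]
          rw [← himg, Finset.mem_image] at h
          obtain ⟨e, he, hee⟩ := h
          exact hba (smul_left_cancel x hee ▸ he)
        -- `x ^ 7` swaps the two orbits and squares to one
        set z := x ^ 7 with hz
        have hzC : z ∈ C := pow_mem hx 7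
        have hx2a : (x ^ 2) • a ∈ orb P a := by
          rw [sq, mul_smul]
          have := hmap b _ hxa
          rwa [horb_sub P a _ hxb] at this
        have hx2b : (x ^ 2) • b ∈ orb P b := by
          rw [sq, mul_smul]
          have := hmap a _ hxb
          rwa [horb_sub P b _ hxa] at this
        have hz2 : z ^ 2 = 1 := by
          rw [hz, ← pow_mul, mul_comm, pow_mul]
          exact hkill _ (pow_mem hx 2) hx2a hx2b
        have hzA : ∀ c ∈ orb P a, z • c ∈ orb P b := by
          intro c hc
          have e : z = (x ^ 2) ^ 3 * x := by rw [hz, ← pow_mul, ← pow_succ]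
          have hstep : ∀ d ∈ orb P b, (x ^ 2) • d ∈ orb P b := by
            intro d hd
            rw [sq, mul_smul]
            have h1 := hmap b d hd
            rw [horb_sub P a _ hxb] at h1
            have h2 := hmap a _ h1
            rwa [horb_sub P b _ hxa] at h2
          have h0 : x • c ∈ orb P b := by
            have := hmap a c hc
            rwa [horb_sub P b _ hxa] at this
          rw [e, mul_smul, pow_succ, pow_succ, pow_one, mul_smul, mul_smul]
          exact hstep _ (hstep _ (hstep _ h0))
        have hdisj : ∀ c, c ∈ orb P a → c ∉ orb P b := fun c h h' => hba (by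
          rw [← horb_sub P a c h, horb_sub P b c h']; exact horb_self P b)
        have hzB : ∀ c ∈ orb P b, z • c ≠ c := by
          intro c hc he
          have himg : (orb P a).image (z • ·) = orb P b := by
            refine Finset.eq_of_subset_of_card_le (fun e he' => ?_) ?_
            · obtain ⟨e', he'', rfl⟩ := Finset.mem_image.1 he'
              exact hzA e' he''
            · rw [Finset.card_image_of_injective _ (MulAction.injective z), horb_card P a ha,
                horb_card P b hb]
          have hc' := hc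
          rw [← himg, Finset.mem_image] at hc'
          obtain ⟨e, hea, hee⟩ := hc'
          have : z • c = e := by rw [← hee, ← mul_smul, ← sq, hz2, one_smul]
          exact hdisj e hea (this ▸ he.symm ▸ hc)
        have hsupp : (ρ z).support = Finset.univ.erase P := by
          ext c
          rw [Equiv.Perm.mem_support, Finset.mem_erase]
          change z • c ≠ c ↔ _
          constructor
          · exact fun h => ⟨fun e => h (e ▸ Sylow.smul_eq_iff_mem_normalizer.2 (hCN hzC)),
              Finset.mem_univ _⟩
          · rintro ⟨h, -⟩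
            rcases hcover c h with h1 | h1
            · exact fun e => hdisj c h1 (e ▸ hzA c h1)
            · exact hzB c h1
        have hρ : orderOf (ρ z) = 2 := by
          refine orderOf_eq_prime (by rw [← map_pow, hz2, map_one]) fun h1 => ?_
          have : a ∈ (ρ z).support := by rw [hsupp]; simp [ha]
          rw [h1, Equiv.Perm.support_one] at this
          exact Finset.notMem_empty _ this
        obtain ⟨n, hn'⟩ := Equiv.Perm.cycleType_prime_order (σ := ρ z) (by rw [hρ]; exact Nat.prime_two)
        have hsum := (ρ z).sum_cycleType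
        rw [hn', hsupp, hρ, Finset.card_erase_of_mem (Finset.mem_univ _), Finset.card_univ, hΩ,
          Multiset.sum_replicate, smul_eq_mul] at hsum
        have hs : Equiv.Perm.sign (ρ z) = -1 := by
          rw [Equiv.Perm.sign_of_cycleType, hn', hρ, Multiset.sum_replicate,
            Multiset.card_replicate, smul_eq_mul, show n + 1 = 7 by omega]
          decide
        let χ : G →* ℤˣ := Equiv.Perm.sign.comp ρ
        rcases χ.normal_ker.eq_bot_or_eq_top with h | h
        · have hle := Nat.card_le_card_of_injective χ (χ.ker_eq_bot_iff.1 h)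
          rw [Nat.card_eq_fintype_card (α := ℤˣ), Fintype.card_units_int] at hle
          have : 15 ≤ Nat.card G := by
            rw [← hG15]; exact Nat.le_mul_of_pos_right _ Nat.card_pos
          omega
        · have hm2 : z ∈ χ.ker := h ▸ Subgroup.mem_top z
          rw [MonoidHom.mem_ker] at hm2
          exact absurd (hm2.symm.trans hs) (by decide)
    have hCeq : C = (P : Subgroup G) := le_antisymm hCP hPC
    have hrel : C.relIndex N ∣ 6 := relIndex_centralizer_dvd hk
    have hNcard : Nat.card N = 7 * C.relIndex N := by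
      rw [← hk, ← hCeq, Subgroup.relIndex,
        ← Nat.card_congr (Subgroup.subgroupOfEquivOfLe hCN).toEquiv]
      exact (Subgroup.card_mul_index _).symm
    have hd1 : C.relIndex N ≠ 1 := by
      intro h
      refine not_normalizer_le_centralizer P ?_ ?_ (Subgroup.relIndex_eq_one.1 h)
      · exact hk ▸ Subgroup.card_subgroup_dvd_card _
      · rw [hk, ← hG15]; omega
    have hle6 := Nat.le_of_dvd (by norm_num) hrel
    have hd_cases : C.relIndex N = 2 ∨ C.relIndex N = 3 ∨ C.relIndex N = 6 := by
      interval_cases hd : C.relIndex N <;> omega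
    rcases hd_cases with h | h | h
    · exact not_isSimpleGroup_two_mul_odd (G := G) (m := 105) ⟨52, rfl⟩ (by norm_num) (by omega)
    · -- order 315
      haveI : Fact (Nat.Prime 5) := ⟨by norm_num⟩
      have hG : Nat.card G = 315 := by omega
      obtain ⟨R⟩ : Nonempty (Sylow 5 G) := inferInstance
      have hR : Nat.card (R : Subgroup G) = 5 := by
        rw [R.card_eq_multiplicity, hG]
        have : (315 : ℕ).factorization 5 = 1 := by
          rw [show (315 : ℕ) = 5 ^ 1 * 63 by norm_num,
            Nat.factorization_mul (by norm_num) (by norm_num)]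
          simp [Nat.Prime.factorization (by norm_num : Nat.Prime 5),
            Nat.factorization_eq_zero_of_not_dvd (by norm_num : ¬ 5 ∣ 63)]
        rw [this, pow_one]
      haveI : IsCyclic (R : Subgroup G) := isCyclic_of_prime_card hR
      refine not_normalizer_le_centralizer R ⟨63, by rw [hG]⟩ (by rw [hR, hG]; norm_num) ?_
      rw [← Subgroup.relIndex_eq_one]
      have h4 := relIndex_centralizer_dvd hR
      have hodd : (Subgroup.centralizer ((R : Subgroup G) : Set G)).relIndex
          (Subgroup.normalizer ((R : Subgroup G) : Set G)) ∣ 315 :=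
        (Subgroup.relIndex_dvd_card _ _).trans (hG ▸ Subgroup.card_subgroup_dvd_card _)
      have := Nat.dvd_gcd h4 hodd
      norm_num at this
      exact Subgroup.relIndex_eq_one.2 this
    · exact not_isSimpleGroup_two_mul_odd (G := G) (m := 315) ⟨157, rfl⟩ (by norm_num) (by omega)
  -- larger Sylow subgroups: seven-cycles
  let Cyc : Finset (Sylow 7 G) → Prop := fun O => O.card = 7 ∧ ∃ c : G,
    IsPGroup 7 (Subgroup.zpowers c) ∧ (∀ d ∉ O, c • d = d) ∧
    ∀ d ∈ O, ∀ e ∈ O, ∃ i : ℕ, c ^ i • d = e
  have hstep : ∀ O, Cyc O → ∀ j ∉ O, ∀ c ≠ j, c ∈ O → orb j c = O := by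
    rintro O ⟨hO, c₀, hc₀, hout, htr⟩ j hj c hcj hcO
    have hc₀j : c₀ ∈ j := hmemQ j c₀ hc₀ (hout j hj)
    refine (Finset.eq_of_subset_of_card_le (fun d hd => ?_) ?_).symm
    · obtain ⟨i, hi⟩ := htr c hcO d hd
      exact Finset.mem_filter.2 ⟨Finset.mem_univ _, c₀ ^ i, pow_mem hc₀j i, hi⟩
    · rw [horb_card j c hcj, hO]
  have hCyc : ∀ Q : Sylow 7 G, ∀ d, d ≠ Q → Cyc (orb Q d) := by
    intro Q d hd
    obtain ⟨a', b', ha', hb', -, hob'⟩ := htwo Q
    have hcov : ∀ c, c ≠ Q → c ∈ orb Q a' ∨ c ∈ orb Q b' := by
      intro c hc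
      by_cases h : c ∈ orb Q a'
      · exact Or.inl h
      · right; rw [hob']; simp [hc, h]
    -- pick a point of the other orbit
    obtain ⟨f, hf, hfd⟩ : ∃ f, f ≠ Q ∧ ∀ c, c ≠ Q → c ∉ orb Q d → c ∈ orb Q f := by
      rcases hcov d hd with h | h
      · exact ⟨b', hb', fun c hc hn' => (hcov c hc).resolve_left
          fun h' => hn' (by rwa [horb_sub Q a' d h])⟩
      · exact ⟨a', ha', fun c hc hn' => (hcov c hc).resolve_right
          fun h' => hn' (by rwa [horb_sub Q b' d h])⟩
    haveI : Fintype (orb Q f) := inferInstance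
    have hinv : ∀ x : (Q : Subgroup G), ∀ c ∈ orb Q f, (x : G) • c ∈ orb Q f := fun x c hc => by
      obtain ⟨w, hw, rfl⟩ := (Finset.mem_filter.1 hc).2
      exact Finset.mem_filter.2 ⟨Finset.mem_univ _, x * w, mul_mem x.2 hw, mul_smul _ _ _⟩
    let ψ : (Q : Subgroup G) →* Equiv.Perm (orb Q f) :=
      { toFun := fun x =>
          { toFun := fun c => ⟨(x : G) • c.1, hinv x c c.2⟩
            invFun := fun c => ⟨((x⁻¹ : (Q : Subgroup G)) : G) • c.1, hinv x⁻¹ c c.2⟩
            left_inv := fun c => Subtype.ext (by simp)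
            right_inv := fun c => Subtype.ext (by simp) }
        map_one' := Equiv.ext fun c => Subtype.ext (one_smul G c.1)
        map_mul' := fun x y => Equiv.ext fun c => Subtype.ext (mul_smul (x : G) y c.1) }
    have hidx : ψ.ker.index ∣ 7 := by
      rw [Subgroup.index_ker]
      obtain ⟨j, hj⟩ := IsPGroup.iff_card.1 (Q.2.of_surjective _ ψ.rangeRestrict_surjective)
      have hdvd := hj ▸ Subgroup.card_subgroup_dvd_card ψ.range
      rw [Nat.card_perm, Nat.card_eq_fintype_card, Fintype.card_coe, horb_card Q f hf] at hdvd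
      rw [hj]
      rcases Nat.lt_or_ge j 2 with hj2 | hj2
      · interval_cases j <;> norm_num
      · exfalso
        have := (Nat.pow_dvd_pow 7 hj2).trans hdvd
        revert this
        norm_num [Nat.factorial]
    obtain ⟨x, hx, hx1⟩ : ∃ x ∈ ψ.ker, x ≠ 1 := by
      by_contra hc
      push Not at hc
      have hbot : ψ.ker = ⊥ := (Subgroup.eq_bot_iff_forall _).2 hc
      rw [hbot, Subgroup.index_bot] at hidx
      have hQk : Nat.card (Q : Subgroup G) = 7 ^ k :=
        (Q.card_eq_multiplicity.trans P.card_eq_multiplicity.symm).trans hk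
      rw [hQk] at hidx
      have : 7 ^ k ∣ 7 ^ 1 := by simpa using hidx
      have := (Nat.pow_dvd_pow_iff_le_right (by norm_num)).1 this
      omega
    have hx' : IsPGroup 7 (Subgroup.zpowers (x : G)) := Q.2.to_le (Subgroup.zpowers_le.2 x.2)
    have hxout : ∀ e ∉ orb Q d, (x : G) • e = e := by
      intro e he
      by_cases heQ : e = Q
      · subst heQ; exact hself e _ x.2
      · exact congrArg Subtype.val (Equiv.congr_fun (MonoidHom.mem_ker.1 hx) ⟨e, hfd e heQ he⟩)
    refine ⟨horb_card Q d hd, (x : G), hx', hxout, fun d₁ hd₁ d₂ hd₂ => ?_⟩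
    have hinvd : ∀ c ∈ orb Q d, (x : G) • c ∈ orb Q d := fun c hc => by
      obtain ⟨w, hw, rfl⟩ := (Finset.mem_filter.1 hc).2
      exact Finset.mem_filter.2 ⟨Finset.mem_univ _, x * w, mul_mem x.2 hw, mul_smul _ _ _⟩
    -- the orbits of `x` have length one or seven, and not all are trivial
    obtain ⟨e₀, he₀⟩ : ∃ e, (x : G) • e ≠ e :=
      not_forall.1 fun hall => hx1 (Subtype.ext (hfaith _ hall))
    have he₀d : e₀ ∈ orb Q d := by_contra fun h => he₀ (hxout _ h)
    obtain ⟨j, hj⟩ := hx'.card_orbit e₀
    have hsubset : MulAction.orbit (Subgroup.zpowers (x : G)) e₀ ⊆ (orb Q d : Set (Sylow 7 G)) := by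
      rintro _ ⟨⟨y, hy⟩, rfl⟩
      obtain ⟨i, rfl⟩ := mem_powers_iff_mem_zpowers.2 hy
      show (x : G) ^ i • e₀ ∈ orb Q d
      induction i with
      | zero => simpa using he₀d
      | succ i ih =>
        rw [pow_succ', mul_smul]
        exact hinvd _ (ih (Subgroup.npow_mem_zpowers _ _))
    have hcoe : Nat.card (orb Q d : Set (Sylow 7 G)) = 7 := by
      rw [Nat.card_coe_set_eq, Set.ncard_coe_finset, horb_card Q d hd]
    have hle : 7 ^ j ≤ 7 := by
      have h := Nat.card_mono (Set.toFinite _) hsubset
      rwa [hj, hcoe] at h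
    have hj0 : j ≠ 0 := by
      rintro rfl
      rw [pow_zero, Nat.card_eq_one_iff_unique] at hj
      haveI := hj.1
      exact he₀ (congrArg Subtype.val (Subsingleton.elim
        (⟨(x : G) • e₀, ⟨⟨_, Subgroup.mem_zpowers _⟩, rfl⟩⟩ : MulAction.orbit (Subgroup.zpowers (x : G)) e₀)
        ⟨e₀, MulAction.mem_orbit_self e₀⟩))
    have hj1 : j = 1 := by
      have := (Nat.pow_le_pow_iff_right (by norm_num : 1 < 7)).1 (hle.trans_eq (pow_one 7).symm)
      omega
    have heq : MulAction.orbit (Subgroup.zpowers (x : G)) e₀ = (orb Q d : Set (Sylow 7 G)) :=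
      Set.eq_of_subset_of_ncard_le hsubset (by
        rw [← Nat.card_coe_set_eq, ← Nat.card_coe_set_eq, hcoe, hj, hj1, pow_one]) (Set.toFinite _)
    have hreach : ∀ e ∈ orb Q d, ∃ g ∈ Subgroup.zpowers (x : G), g • e₀ = e := by
      intro e he
      have : e ∈ MulAction.orbit (Subgroup.zpowers (x : G)) e₀ := heq ▸ he
      obtain ⟨⟨g, hg⟩, hge⟩ := this
      exact ⟨g, hg, hge⟩
    obtain ⟨g₁, hg₁, rfl⟩ := hreach d₁ hd₁
    obtain ⟨g₂, hg₂, rfl⟩ := hreach d₂ hd₂
    obtain ⟨i, hi⟩ := mem_powers_iff_mem_zpowers.2 (mul_mem hg₂ (inv_mem hg₁))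
    refine ⟨i, ?_⟩
    simp only at hi
    rw [hi, ← mul_smul, inv_mul_cancel_right]
  have hcompl : ∀ O, Cyc O → ∀ j ∉ O, Cyc (Finset.univ \ insert j O) := by
    intro O hO j hj
    obtain ⟨c, hc⟩ := Finset.card_pos.1 (by rw [hO.1]; norm_num : 0 < O.card)
    have hcj : c ≠ j := fun e => hj (e ▸ hc)
    have h8 : (Finset.univ \ insert j O).card = 7 := by
      rw [Finset.card_univ_diff, Finset.card_insert_of_notMem hj, hO.1, hΩ]
    obtain ⟨f, hf⟩ := Finset.card_pos.1 (by rw [h8]; norm_num :
      0 < (Finset.univ \ insert j O).card)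
    simp only [Finset.mem_sdiff, Finset.mem_univ, Finset.mem_insert, true_and, not_or] at hf
    have hOc := hstep O hO j hj c hcj hc
    have hsub : orb j f = Finset.univ \ insert j O := by
      refine Finset.eq_of_subset_of_card_le (fun d hd => ?_) (by rw [h8, horb_card j f hf.1])
      simp only [Finset.mem_sdiff, Finset.mem_univ, Finset.mem_insert, true_and, not_or]
      refine ⟨fun e => horb_ne j f hf.1 (e ▸ hd), fun e => hf.2 ?_⟩
      rw [← hOc, ← horb_sub j c d (hOc.symm ▸ e), horb_sub j f d hd]
      exact horb_self j f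
    rw [← hsub]
    exact hCyc j f hf.1
  -- two seven-cycles with one common moved point
  set O := orb P a with hOdef
  have hO : Cyc O := hCyc P a ha
  have hO7 : O.card = 7 := hO.1
  have hcompl8 : (Finset.univ \ O).card = 8 := by rw [Finset.card_univ_diff, hO7, hΩ]
  obtain ⟨j1, hj1, j2, hj2, hj12⟩ := Finset.one_lt_card.1 (by rw [hcompl8]; norm_num :
    1 < (Finset.univ \ O).card)
  simp only [Finset.mem_sdiff, Finset.mem_univ, true_and] at hj1 hj2
  obtain ⟨w, hw⟩ := Finset.card_pos.1 (by rw [hO7]; norm_num : 0 < O.card)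
  have hA0 := hcompl O hO j1 hj1
  have hwA0 : w ∉ Finset.univ \ insert j1 O := by simp [hw]
  have hA := hcompl _ hA0 w hwA0
  have hB := hcompl O hO j2 hj2
  set A := Finset.univ \ insert w (Finset.univ \ insert j1 O) with hAdef
  set B := Finset.univ \ insert j2 O with hBdef
  have hj1A : j1 ∈ A := by
    simp [hAdef, show j1 ≠ w from fun e => hj1 (e ▸ hw)]
  have hj1B : j1 ∈ B := by simp [hBdef, hj12, hj1]
  obtain ⟨hA7, c₁, hc₁, hc₁out, hc₁tr⟩ := hA
  obtain ⟨hB7, c₂, hc₂, hc₂out, hc₂tr⟩ := hB
  let H : Subgroup G := Subgroup.closure {c₁, c₂}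
  have hH1 : c₁ ∈ H := Subgroup.subset_closure (Or.inl rfl)
  have hH2 : c₂ ∈ H := Subgroup.subset_closure (Or.inr rfl)
  have horbH : MulAction.orbit H j1 = ((A ∪ B : Finset (Sylow 7 G)) : Set (Sylow 7 G)) := by
    apply Set.Subset.antisymm
    · rintro _ ⟨⟨h, hh⟩, rfl⟩
      have key : ∀ h ∈ H, ∀ d, (h • d ∈ A ∪ B ↔ d ∈ A ∪ B) := by
        intro h hh
        refine Subgroup.closure_induction (fun y hy d => ?_) (fun d => by rw [one_smul])
          (fun y z _ _ hy hz d => by rw [mul_smul, hy, hz]) (fun y _ hy d => ?_) hh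
        · have hgen : ∀ (y : G), (∀ d ∉ A ∪ B, y • d = d) → ∀ d, (y • d ∈ A ∪ B ↔ d ∈ A ∪ B) := by
            intro y hy d
            constructor
            · intro h1
              by_contra h2
              rw [hy d h2] at h1; exact h2 h1
            · intro h1
              by_contra h2
              rw [smul_left_cancel y (hy _ h2)] at h2; exact h2 h1
          rcases hy with rfl | rfl
          · exact hgen _ (fun e he => hc₁out e fun h' => he (Finset.mem_union_left _ h')) d
          · exact hgen _ (fun e he => hc₂out e fun h' => he (Finset.mem_union_right _ h')) d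
        · rw [← hy, smul_inv_smul]
      exact Finset.mem_coe.2 ((key h hh j1).2 (Finset.mem_union_left _ hj1A))
    · intro d hd
      rcases Finset.mem_union.1 (Finset.mem_coe.1 hd) with h | h
      · obtain ⟨i, hi⟩ := hc₁tr j1 hj1A d h
        exact ⟨⟨_, pow_mem hH1 i⟩, hi⟩
      · obtain ⟨i, hi⟩ := hc₂tr j1 hj1B d h
        exact ⟨⟨_, pow_mem hH2 i⟩, hi⟩
  have hinter : A ∩ B = {j1} := by
    refine Finset.eq_singleton_iff_unique_mem.2 ⟨Finset.mem_inter.2 ⟨hj1A, hj1B⟩, fun d hd => ?_⟩
    simp only [hAdef, hBdef, Finset.mem_inter, Finset.mem_sdiff, Finset.mem_univ,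
      Finset.mem_insert, true_and, not_or, not_not] at hd
    rcases hd with ⟨⟨-, h1⟩, -, h2⟩
    tauto
  have h13 : 13 ∣ Nat.card G := by
    have hc : (A ∪ B).card = 13 := by
      have := Finset.card_union_add_card_inter A B
      rw [hinter, hA7, hB7, Finset.card_singleton] at this
      omega
    have hcard : Nat.card (MulAction.orbit H j1) = 13 := by
      rw [horbH, Nat.card_coe_set_eq, Set.ncard_coe_finset, hc]
    have h1 : 13 ∣ Nat.card H := by
      rw [← hcard, Nat.card_congr (MulAction.orbitEquivQuotientStabilizer H j1)]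
      exact Subgroup.card_quotient_dvd_card _
    exact h1.trans H.card_subgroup_dvd_card
  have h13N : 13 ∣ Nat.card (Subgroup.normalizer ((P : Subgroup G) : Set G)) := by
    rw [← hG15] at h13
    exact (Nat.Coprime.dvd_of_dvd_mul_left (by norm_num) h13)
  haveI : Fact (Nat.Prime 13) := ⟨by norm_num⟩
  obtain ⟨⟨y, hy⟩, hyo⟩ := exists_prime_orderOf_dvd_card' 13 h13N
  rw [Subgroup.orderOf_mk] at hyo
  have hyp : IsPGroup 13 (Subgroup.zpowers y) :=
    IsPGroup.of_card (n := 1) (by rw [Nat.card_zpowers, hyo, pow_one])
  -- `y` respects the orbits of `P`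
  have hyP : y • P = P := Sylow.smul_eq_iff_mem_normalizer.2 hy
  have hymap : ∀ d e, e ∈ orb P d → y • e ∈ orb P (y • d) := by
    intro d e he
    obtain ⟨x, hx, rfl⟩ := (Finset.mem_filter.1 he).2
    refine Finset.mem_filter.2 ⟨Finset.mem_univ _, y * x * y⁻¹,
      (Subgroup.mem_normalizer_iff.1 hy x).1 hx, ?_⟩
    rw [← mul_smul, ← mul_smul, inv_mul_cancel_right]
  have hy1 : y = 1 := by
    refine hfaith y fun d => ?_
    by_cases hd : d = P
    · rw [hd]; exact hyP
    -- `y` moves thirteen points or none, but it permutes two sets of size seven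
    have hyi : ∀ i : ℕ, y ^ i • P = P := by
      intro i
      induction i with
      | zero => simp
      | succ i ih => rw [pow_succ, mul_smul, hyP, ih]
    have hcases : ∀ c, c ≠ P → orb P c = O ∨ orb P c = orb P b := by
      intro c hc
      rcases hcover c hc with h | h
      · exact Or.inl (horb_sub P a c h)
      · exact Or.inr (horb_sub P b c h)
    have hone : orb P (y • d) = orb P d := by
      -- the map on the two orbits has order dividing thirteen
      have hd' : y • d ≠ P := fun e => hd (smul_left_cancel y (e.trans hyP.symm))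
      by_contra hne2
      have himgorb : ∀ c e, c ≠ P → e ≠ P → orb P c = orb P e →
          orb P (y • c) = orb P (y • e) := by
        intro c e _ _ hce
        refine (horb_sub P (y • e) (y • c) (hymap e c ?_))
        rw [← hce]; exact horb_self P c
      have hpow : ∀ i : ℕ, orb P (y ^ (2 * i) • d) = orb P d := by
        intro i
        induction i with
        | zero => simp
        | succ i ih =>
          have hne' : ∀ j : ℕ, y ^ j • d ≠ P := fun j e =>
            hd (smul_left_cancel (y ^ j) (e.trans (hyi j).symm))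
          rw [show 2 * (i + 1) = 1 + (1 + 2 * i) by ring, pow_add, pow_add, pow_one, mul_smul,
            mul_smul]
          have h1 : orb P (y • y ^ (2 * i) • d) = orb P (y • d) :=
            himgorb _ _ (hne' _) hd ih
          have hne3 : y • y ^ (2 * i) • d ≠ P := by
            rw [← mul_smul, ← pow_succ']; exact hne' _
          rw [himgorb _ _ hne3 hd' h1]
          -- two steps return
          have hyd2 : y • y • d ≠ P := fun e => hd' (smul_left_cancel y (e.trans hyP.symm))
          rcases hcases d hd with h | h <;> rcases hcases _ hd' with h' | h' <;>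
            rcases hcases _ hyd2 with h'' | h'' <;>
            first
            | exact h''.trans h.symm
            | exact absurd (h'.trans h.symm) hne2
            | (exfalso
               have hh := h''.trans h'.symm
               have himg : (orb P (y • d)).image (y • ·) = orb P (y • y • d) := by
                 refine Finset.eq_of_subset_of_card_le (fun e he => ?_) ?_
                 · obtain ⟨e', he', rfl⟩ := Finset.mem_image.1 he
                   exact hymap _ e' he'
                 · rw [Finset.card_image_of_injective _ (MulAction.injective y),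
                     horb_card P _ hd', horb_card P _ hyd2]
               have hmem : y • d ∈ orb P (y • y • d) := hh.symm ▸ horb_self P (y • d)
               rw [← himg, Finset.mem_image] at hmem
               obtain ⟨e, he, hee⟩ := hmem
               have he2 : d ∈ orb P (y • d) := smul_left_cancel y hee ▸ he
               exact hne2 (horb_sub P (y • d) d he2).symm)
      apply hne2
      have h7 := hpow 7
      rw [show 2 * 7 = 13 + 1 by norm_num, pow_succ,
        show y ^ 13 = 1 by rw [← hyo]; exact pow_orderOf_eq_one y, one_mul] at h7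
      exact h7
    -- the orbit of `d` is inside a set of size seven
    obtain ⟨j, hj⟩ := hyp.card_orbit d
    have hsub : MulAction.orbit (Subgroup.zpowers y) d ⊆ (orb P d : Set (Sylow 7 G)) := by
      rintro _ ⟨⟨g, hg⟩, rfl⟩
      obtain ⟨i, rfl⟩ := mem_powers_iff_mem_zpowers.2 hg
      show y ^ i • d ∈ orb P d
      clear hg
      induction i with
      | zero => simpa using horb_self P d
      | succ i ih =>
        rw [pow_succ', mul_smul]
        have := hymap d _ ih
        rwa [hone] at this
    have hle : 13 ^ j ≤ 7 := by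
      rw [← hj]
      refine (Nat.card_mono (Set.toFinite _) hsub).trans (le_of_eq ?_)
      rw [Nat.card_coe_set_eq, Set.ncard_coe_finset, horb_card P d hd]
    rcases j with _ | j
    · rw [pow_zero, Nat.card_eq_one_iff_unique] at hj
      haveI := hj.1
      exact congrArg Subtype.val (Subsingleton.elim
        (⟨y • d, ⟨⟨_, Subgroup.mem_zpowers _⟩, rfl⟩⟩ : MulAction.orbit (Subgroup.zpowers y) d)
        ⟨d, MulAction.mem_orbit_self d⟩)
    · have : 1 ≤ 13 ^ j := Nat.one_le_pow _ _ (by norm_num)
      rw [pow_succ] at hle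
      omega
  rw [hy1, orderOf_one] at hyo
  norm_num at hyo

end

/-- No finite group has exactly 15 Sylow 7-subgroups. -/
theorem result {G : Type*} [Group G] [Finite G] : Nat.card (Sylow 7 G) ≠ 15 := by
  haveI : Fact (Nat.Prime 7) := ⟨by norm_num⟩
  suffices h : Nat.card (Sylow 7 G) % 7 = 1 ∧ Nat.card (Sylow 7 G) ≠ 15 from h.2
  refine CfsgLib.Components2.card_sylow_induction (p := 7) False (fun n => n % 7 = 1 ∧ n ≠ 15)
    ⟨rfl, by norm_num⟩ ?_ ?_ ?_ False.elim
  · rintro m n ⟨hm, hm'⟩ ⟨hn, hn'⟩
    refine ⟨by rw [Nat.mul_mod, hm, hn], fun h => ?_⟩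
    have : m ∣ 15 := ⟨n, h.symm⟩
    have := Nat.le_of_dvd (by norm_num) this
    interval_cases m <;> omega
  · intro m hm hq
    refine ⟨?_, fun h => ?_⟩
    · have : m ≡ 1 [MOD 7] := by
        conv_lhs => rw [← Nat.prod_factorization_pow_eq_self hm]
        rw [Finsupp.prod, Nat.support_factorization]
        refine Finset.prod_induction _ (fun x => x ≡ 1 [MOD 7]) (fun a b ha hb => ?_) rfl
          fun q hq' => hq q (Nat.prime_of_mem_primeFactors hq')
        simpa using ha.mul hb
      exact this
    · subst h
      have h3 := hq 3 (by norm_num)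
      rw [show (15 : ℕ) = 3 ^ 1 * 5 by norm_num,
        Nat.factorization_mul (by norm_num) (by norm_num)] at h3
      simp [Nat.Prime.factorization (by norm_num : Nat.Prime 3),
        Nat.factorization_eq_zero_of_not_dvd (by norm_num : ¬ 3 ∣ 5), Nat.ModEq] at h3
  · intro S _ _ hS _
    exact ⟨card_sylow_modEq_one 7 S, fun h => not_simple_fifteen h⟩

end Cfsg.Agent.S4304
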