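import Cfsg.Statements.S4314
import Cfsg.Agent.Lib.Frobenius.Kernel
-- import your own Cfsg.Agent.* helpers here

set_option autoImplicit false
open Cfsg

namespace Cfsg.Agent.S4314

open scoped Pointwise

open scoped commutatorElement

variable {G : Type*} [Group G] [Finite G]

local notation "C(" a ")" => Subgroup.centralizer ({a} : Set G)

/-- Every class has size one or a prime. -/
def Hyp (G : Type*) [Group G] : Prop :=
  ∀ x : G, (Subgroup.centralizer ({x} : Set G)).index = 1 ∨
    ((Subgroup.centralizer ({x} : Set G)).index).Prime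

theorem mem_C {a y : G} : y ∈ C(a) ↔ a * y = y * a := by
  rw [Subgroup.mem_centralizer_iff]
  exact ⟨fun h => h a rfl, fun h t ht => by cases Set.mem_singleton_iff.1 ht; exact h⟩

theorem notMem_center_iff {a : G} : a ∉ Subgroup.center G ↔ C(a) ≠ ⊤ := by
  rw [not_iff_not, Subgroup.mem_center_iff, Subgroup.eq_top_iff']
  exact forall_congr' fun y => by rw [mem_C]; exact eq_comm

theorem index_prime (h : Hyp G) {a : G} (ha : a ∉ Subgroup.center G) : (C(a)).index.Prime :=
  (h a).resolve_left fun h1 => notMem_center_iff.1 ha (Subgroup.index_eq_one.1 h1)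

theorem eq_of_le (h : Hyp G) {a b : G} (ha : a ∉ Subgroup.center G) (hb : b ∉ Subgroup.center G)
    (hle : C(a) ≤ C(b)) : C(a) = C(b) := by
  refine Subgroup.eq_of_le_of_card_ge hle (le_of_eq ?_)
  have h1 := ((index_prime h ha).eq_one_or_self_of_dvd _ (Subgroup.index_dvd_of_le hle)).resolve_left
    (fun h1 => notMem_center_iff.1 hb (Subgroup.index_eq_one.1 h1))
  have h2 := Subgroup.card_mul_index (C(a))
  rw [← Subgroup.card_mul_index (C(b)), h1] at h2
  exact (Nat.eq_of_mul_eq_mul_right (index_prime h ha).pos h2).symm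

theorem top_of_two_le (h : Hyp G) {a t : G} (ha : a ∉ Subgroup.center G) (hle : C(a) ≤ C(t))
    (hne : C(t) ≠ C(a)) : t ∈ Subgroup.center G := by
  by_contra ht
  exact hne (eq_of_le h ha ht hle).symm

theorem C_le_pow (a : G) (n : ℕ) : C(a) ≤ C(a ^ n) := fun y hy =>
  mem_C.2 (Commute.pow_left (mem_C.1 hy : Commute a y) n)

/-- A commuting noncentral pair of coprime orders has equal centralizers. -/
theorem C_eq_of_coprime (h : Hyp G) {a b : G} (hab : Commute a b)
    (hco : (orderOf a).Coprime (orderOf b))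
    (ha : a ∉ Subgroup.center G) (hb : b ∉ Subgroup.center G) : C(a) = C(b) := by
  obtain ⟨u, hu⟩ : ∃ u : ℕ, (a * b) ^ (orderOf b * u) = a := by
    obtain ⟨u, hu⟩ := exists_pow_eq_self_of_coprime (x := a) hco.symm
    exact ⟨u, by rw [hab.mul_pow, pow_mul b, pow_orderOf_eq_one, one_pow, mul_one, pow_mul, hu]⟩
  obtain ⟨v, hv⟩ : ∃ v : ℕ, (a * b) ^ (orderOf a * v) = b := by
    obtain ⟨v, hv⟩ := exists_pow_eq_self_of_coprime (x := b) hco
    exact ⟨v, by rw [hab.mul_pow, pow_mul a, pow_orderOf_eq_one, one_pow, one_mul, pow_mul, hv]⟩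
  have hab' : a * b ∉ Subgroup.center G := fun hc => ha (hu ▸ pow_mem hc _)
  have h1 : C(a * b) ≤ C(a) := (C_le_pow (a * b) _).trans (le_of_eq (by rw [hu]))
  have h2 : C(a * b) ≤ C(b) := (C_le_pow (a * b) _).trans (le_of_eq (by rw [hv]))
  rw [← eq_of_le h hab' ha h1, ← eq_of_le h hab' hb h2]

/-- Splitting an element into its parts at and away from a prime. -/
theorem exists_parts (y : G) {r : ℕ} (hr : r.Prime) :
    ∃ u v : ℕ, y = y ^ u * y ^ v ∧ (∃ j, orderOf (y ^ u) ∣ r ^ j) ∧ ¬ r ∣ orderOf (y ^ v) ∧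
      orderOf (y ^ v) ∣ ordCompl[r] (orderOf y) := by
  set P := ordProj[r] (orderOf y) with hP
  set Q := ordCompl[r] (orderOf y) with hQ
  have hPQ : P * Q = orderOf y := Nat.ordProj_mul_ordCompl_eq_self _ r
  have hQr : ¬ r ∣ Q := Nat.not_dvd_ordCompl hr (orderOf_pos y).ne'
  have hco : Q.Coprime P := ((hr.coprime_iff_not_dvd.2 hQr).pow_left _).symm
  have e1 : ∀ n, orderOf (y ^ (Q * n)) ∣ P := fun n => orderOf_dvd_of_pow_eq_one (by
    rw [← pow_mul, show Q * n * P = P * Q * n by ring, hPQ, pow_mul, pow_orderOf_eq_one, one_pow])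
  have e2 : ∀ n, orderOf (y ^ (P * n)) ∣ Q := fun n => orderOf_dvd_of_pow_eq_one (by
    rw [← pow_mul, show P * n * Q = P * Q * n by ring, hPQ, pow_mul, pow_orderOf_eq_one, one_pow])
  obtain ⟨c, hc1, hc2⟩ := Nat.chineseRemainder hco.symm 1 0
  obtain ⟨d, hd1, hd2⟩ := Nat.chineseRemainder hco.symm 0 1
  obtain ⟨u', rfl⟩ := Nat.modEq_zero_iff_dvd.1 hc2
  obtain ⟨v', rfl⟩ := Nat.modEq_zero_iff_dvd.1 hd1
  refine ⟨Q * u', P * v', ?_, ⟨_, e1 u'⟩, fun hd => hQr (hd.trans (e2 v')), e2 v'⟩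
  rw [← pow_add]
  conv_lhs => rw [← pow_one y]
  rw [pow_eq_pow_iff_modEq, ← hPQ]
  refine (Nat.modEq_and_modEq_iff_modEq_mul hco.symm).1 ⟨?_, ?_⟩
  · simpa using (hc1.symm.add (hd1.symm))
  · simpa using (hc2.symm.add (hd2.symm))

/-- A noncentral element of prime power order with the same centralizer. -/
theorem exists_prime_power (h : Hyp G) (g : G) (hg : ¬ (C(g)).Normal) :
    ∃ (x : G) (r k : ℕ), r.Prime ∧ orderOf x ∣ r ^ k ∧ ¬ (C(x)).Normal := by
  induction hn : orderOf g using Nat.strong_induction_on generalizing g with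
  | _ n ih =>
  subst hn
  have hgz : g ∉ Subgroup.center G := fun hc => hg (by
    rw [show C(g) = ⊤ from not_not.1 fun h1 => notMem_center_iff.2 h1 hc]
    infer_instance)
  obtain ⟨r, hr, hrd⟩ := Nat.exists_prime_and_dvd (n := orderOf g) (fun h1 => hgz (by
    rw [orderOf_eq_one_iff.1 h1]; exact one_mem _))
  obtain ⟨u, v, he, ⟨j, hj⟩, hnd, hdvd⟩ := exists_parts g hr
  by_cases hu : g ^ u ∈ Subgroup.center G
  · have hv : g ^ v ∉ Subgroup.center G := fun hc => hgz (by rw [he]; exact mul_mem hu hc)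
    have heq := eq_of_le h hgz hv (C_le_pow g v)
    refine ih _ ?_ (g ^ v) (heq ▸ hg) rfl
    refine lt_of_le_of_ne (Nat.le_of_dvd (orderOf_pos g) (orderOf_pow_dvd v)) fun h1 => hnd ?_
    rw [h1]; exact hrd
  · exact ⟨g ^ u, r, j, hr, hj, eq_of_le h hgz hu (C_le_pow g u) ▸ hg⟩

/-- In the centralizer of an element of prime power order, a noncentral element of coprime order
forces commutativity. -/
theorem comm_of_coprime (h : Hyp G) {x y : G} {r k : ℕ} (hr : r.Prime) (hxr : orderOf x ∣ r ^ k)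
    (hx : x ∉ Subgroup.center G) (hy : y ∈ C(x)) (hyr : ¬ r ∣ orderOf y)
    (hyz : y ∉ Subgroup.center G) : IsMulCommutative (C(x) : Subgroup G) := by
  have hco : ∀ {a b : G} {j : ℕ}, orderOf a ∣ r ^ j → ¬ r ∣ orderOf b →
      (orderOf a).Coprime (orderOf b) := fun ha hb =>
    Nat.Coprime.coprime_dvd_left ha ((hr.coprime_iff_not_dvd.2 hb).pow_left _)
  have hxy : C(x) = C(y) := C_eq_of_coprime h (mem_C.1 hy) (hco hxr hyr) hx hyz
  have hcen : ∀ (a : G) (c : G), a ∈ Subgroup.center G → a * c = c * a := fun a c ha =>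
    (Subgroup.mem_center_iff.1 ha c).symm
  refine ⟨⟨fun a b => Subtype.ext ?_⟩⟩
  show (a : G) * b = b * a
  obtain ⟨u, v, he, ⟨j, hj⟩, hnd, -⟩ := exists_parts (a : G) hr
  have hu : (a : G) ^ u * b = b * (a : G) ^ u := by
    by_cases hz : (a : G) ^ u ∈ Subgroup.center G
    · exact hcen _ _ hz
    have ha' : (a : G) ^ u ∈ C(y) := pow_mem (hxy ▸ a.2) u
    have h1 := C_eq_of_coprime h (mem_C.1 ha' : Commute y _).symm (hco hj hyr) hz hyz
    have h2 : C((a : G) ^ u) = C(x) := h1.trans hxy.symm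
    exact mem_C.1 (show (b : G) ∈ C((a : G) ^ u) by rw [h2]; exact b.2)
  have hv : (a : G) ^ v * b = b * (a : G) ^ v := by
    by_cases hz : (a : G) ^ v ∈ Subgroup.center G
    · exact hcen _ _ hz
    have ha' : (a : G) ^ v ∈ C(x) := pow_mem a.2 v
    have h1 := C_eq_of_coprime h (mem_C.1 ha' : Commute x _) (hco hxr hnd) hx hz
    exact mem_C.1 (show (b : G) ∈ C((a : G) ^ v) by rw [← h1]; exact b.2)
  rw [he, mul_assoc, hv, ← mul_assoc, hu, mul_assoc]

/-- The conclusion. -/
def Goal (G : Type*) [Group G] : Prop :=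
  ∃ p q : ℕ, p.Prime ∧ q.Prime ∧ p ≠ q ∧ Nat.card (G ⧸ Subgroup.center G) = p * q ∧
    ¬ IsMulCommutative (G ⧸ Subgroup.center G)

theorem center_le (a : G) : Subgroup.center G ≤ C(a) := fun _ hy =>
  mem_C.2 (Subgroup.mem_center_iff.1 hy a)

theorem quotient_noncomm {M : Subgroup G} (hZ : Subgroup.center G ≤ M) (hM : ¬ M.Normal) :
    ¬ IsMulCommutative (G ⧸ Subgroup.center G) := by
  intro hc
  haveI : (M.map (QuotientGroup.mk' (Subgroup.center G))).Normal := ⟨fun a ha b => by
    rwa [hc.is_comm.comm b a, mul_inv_cancel_right]⟩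
  refine hM ?_
  have := Subgroup.Normal.comap (H := M.map (QuotientGroup.mk' (Subgroup.center G))) inferInstance
    (QuotientGroup.mk' (Subgroup.center G))
  rwa [Subgroup.comap_map_eq_self (by rw [QuotientGroup.ker_mk']; exact hZ)] at this

theorem index_map_mk {M : Subgroup G} (hZ : Subgroup.center G ≤ M) :
    (M.map (QuotientGroup.mk' (Subgroup.center G))).index = M.index :=
  Subgroup.index_map_eq M (QuotientGroup.mk'_surjective _) (by rw [QuotientGroup.ker_mk']; exact hZ)

/-- The case of an abelian non-normal centralizer. -/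
theorem abelian_case (h : Hyp G) {x : G} (hM : ¬ (C(x)).Normal)
    (hcomm : IsMulCommutative (C(x) : Subgroup G)) : Goal G := by
  have hx : x ∉ Subgroup.center G := fun hc => hM (by
    rw [show C(x) = ⊤ from not_not.1 fun h1 => notMem_center_iff.2 h1 hc]
    infer_instance)
  set π := QuotientGroup.mk' (Subgroup.center G)
  set H := (C(x)).map π with hH
  have hker : π.ker ≤ C(x) := by rw [QuotientGroup.ker_mk']; exact center_le x
  have hidx : H.index = (C(x)).index := index_map_mk (center_le x)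
  have hp := index_prime h hx
  have hmemH : ∀ t, π t ∈ H ↔ t ∈ C(x) := fun t => by
    rw [hH, ← Subgroup.mem_comap, Subgroup.comap_map_eq_self hker]
  have hnn : ¬ H.Normal := fun hn => hM (by
    have := hn.comap π
    rwa [hH, Subgroup.comap_map_eq_self hker] at this)
  have hC : ∀ t ∈ C(x), C(x) ≤ C(t) := fun t ht s hs =>
    mem_C.2 (congrArg Subtype.val (hcomm.is_comm.comm ⟨t, ht⟩ ⟨s, hs⟩))
  have hcoinc : ∀ t ∈ C(x), t ∉ Subgroup.center G → C(t) = C(x) :=
    fun t ht htz => (eq_of_le h hx htz (hC t ht)).symm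
  have hne : H ≠ ⊥ := fun hb => hx (by
    have h1 : π x ∈ H := (hmemH x).2 (mem_C.2 rfl)
    rwa [hb, Subgroup.mem_bot, ← MonoidHom.mem_ker, QuotientGroup.ker_mk'] at h1)
  have hnorm : Subgroup.normalizer (H : Set (G ⧸ Subgroup.center G)) = H := by
    by_contra hne'
    refine hnn (Subgroup.normalizer_eq_top_iff.1 (Subgroup.index_eq_one.1 ?_))
    refine ((hidx ▸ hp).eq_one_or_self_of_dvd _ (Subgroup.index_dvd_of_le Subgroup.le_normalizer)).resolve_right
      fun h2 => hne' ?_
    refine (Subgroup.eq_of_le_of_card_ge Subgroup.le_normalizer ?_).symm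
    have h3 := Subgroup.card_mul_index (Subgroup.normalizer (H : Set (G ⧸ Subgroup.center G)))
    rw [← Subgroup.card_mul_index H, h2] at h3
    exact (Nat.eq_of_mul_eq_mul_right (hidx ▸ hp).pos h3).le
  have hF : Cfsg.IsFrobeniusComplement H := by
    refine ⟨hne, fun ht => hp.ne_one (by rw [← hidx, ht, Subgroup.index_top]), fun g hg => ?_⟩
    rw [Subgroup.eq_bot_iff_forall]
    intro w hw
    obtain ⟨hw1, hw2⟩ := Subgroup.mem_inf.1 hw
    obtain ⟨g, rfl⟩ := QuotientGroup.mk'_surjective (Subgroup.center G) g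
    obtain ⟨w, rfl⟩ := QuotientGroup.mk'_surjective (Subgroup.center G) w
    rw [Subgroup.mem_pointwise_smul_iff_inv_smul_mem, ← map_inv, MulAut.smul_def,
      MulAut.conj_apply, inv_inv, ← map_inv, ← map_mul, ← map_mul] at hw2
    rw [← MonoidHom.mem_ker, QuotientGroup.ker_mk']
    by_contra hwz
    have hw1' : w ∈ C(x) := (hmemH w).1 hw1
    have hw2' : g⁻¹ * w * g ∈ C(x) := (hmemH _).1 hw2
    have hwz' : g⁻¹ * w * g ∉ Subgroup.center G := fun hc => hwz (by
      simpa [mul_assoc] using (inferInstance : (Subgroup.center G).Normal).conj_mem _ hc g)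
    have e1 := hcoinc w hw1' hwz
    have e2 := hcoinc _ hw2' hwz'
    refine hg ((SetLike.ext_iff.1 hnorm _).1 (Subgroup.mem_normalizer_iff.2 fun s => ?_))
    obtain ⟨s, rfl⟩ := QuotientGroup.mk'_surjective (Subgroup.center G) s
    show π s ∈ H ↔ π g * π s * (π g)⁻¹ ∈ H
    rw [← map_inv, ← map_mul, ← map_mul, hmemH, hmemH]
    conv_rhs => rw [← e1, mem_C]
    conv_lhs => rw [← e2, mem_C]
    constructor <;> intro hh
    · calc w * (g * s * g⁻¹) = g * ((g⁻¹ * w * g) * s) * g⁻¹ := by group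
        _ = g * s * g⁻¹ * w := by rw [hh]; group
    · calc g⁻¹ * w * g * s = g⁻¹ * (w * (g * s * g⁻¹)) * g := by group
        _ = s * (g⁻¹ * w * g) := by rw [hh]; group
  obtain ⟨N, -, hN, hc⟩ := CfsgLib.Frobenius.exists_kernel hF
  have hNp : Nat.card N = (C(x)).index := by rw [← hidx, hc.index_eq_card]
  obtain ⟨n, hnN, hn1⟩ := N.bot_or_exists_ne_one.resolve_left (fun hb => hp.ne_one (by
    rw [← hNp, hb, Subgroup.card_bot]))
  obtain ⟨g, rfl⟩ := QuotientGroup.mk'_surjective (Subgroup.center G) n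
  have hgz : g ∉ Subgroup.center G := fun hg => hn1 ((QuotientGroup.eq_one_iff g).2 hg)
  set E := (C(g)).map π with hE
  have hinf : E ⊓ H = ⊥ := by
    rw [Subgroup.eq_bot_iff_forall]
    rintro w ⟨⟨s, hs, rfl⟩, hwH⟩
    by_contra hw1
    have hn' : π g ∈ Subgroup.centralizer ({π s} : Set (G ⧸ Subgroup.center G)) := by
      rw [Subgroup.mem_centralizer_iff]
      rintro t (rfl : t = π s)
      rw [← map_mul, ← map_mul, mem_C.1 hs]
    have hgH := CfsgLib.Frobenius.centralizer_le hF hwH hw1 hn'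
    exact hn1 (Subgroup.mem_bot.1 (hc.disjoint.eq_bot ▸ ⟨hnN, hgH⟩))
  have hEcard : Nat.card E ≤ (C(x)).index := by
    rw [← hidx, Subgroup.index]
    refine Nat.card_le_card_of_injective (fun e : E => ((e : G ⧸ Subgroup.center G) : _ ⧸ H)) ?_
    intro a b hab
    have h1 : (a : G ⧸ Subgroup.center G)⁻¹ * b ∈ E ⊓ H :=
      Subgroup.mem_inf.2 ⟨E.mul_mem (E.inv_mem a.2) b.2, QuotientGroup.eq.1 hab⟩
    rw [hinf, Subgroup.mem_bot, inv_mul_eq_one] at h1
    exact Subtype.ext h1
  have hQ : Nat.card (G ⧸ Subgroup.center G) = Nat.card H * (C(x)).index := by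
    rw [← hidx, Subgroup.card_mul_index]
  have hgE : π g ∈ E := Subgroup.mem_map_of_mem _ (mem_C.2 rfl)
  have hpdvd : (C(x)).index ∣ Nat.card E := by
    have h1 : orderOf (π g) = (C(x)).index :=
      (hp.eq_one_or_self_of_dvd _ (hNp ▸ Subgroup.orderOf_dvd_natCard N hnN)).resolve_left
        (fun h1 => hn1 (orderOf_eq_one_iff.1 h1))
    exact h1 ▸ Subgroup.orderOf_dvd_natCard E hgE
  have hEeq : Nat.card E = (C(x)).index := le_antisymm hEcard (Nat.le_of_dvd Nat.card_pos hpdvd)
  have hEidx : E.index = (C(g)).index := index_map_mk (center_le g)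
  have hq : Nat.card H = (C(g)).index := by
    have h1 := Subgroup.card_mul_index E
    rw [hEeq, hQ, hEidx, mul_comm (Nat.card H)] at h1
    exact (Nat.eq_of_mul_eq_mul_left hp.pos h1).symm
  refine ⟨_, _, hp, index_prime h hgz, fun he => ?_, by rw [hQ, hq, mul_comm],
    quotient_noncomm (center_le x) hM⟩
  have h1 := CfsgLib.Frobenius.coprime_card_index hF
  rw [hidx, hq, ← he, Nat.coprime_self] at h1
  exact hp.ne_one h1

/-- The general case. -/
theorem main (h : Hyp G) {x : G} {r k : ℕ} (hxr : orderOf x ∣ r ^ k) (hr : r.Prime)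
    (hM : ¬ (C(x)).Normal) : Goal G := by
  have hx : x ∉ Subgroup.center G := fun hc => hM (by
    rw [show C(x) = ⊤ from not_not.1 fun h1 => notMem_center_iff.2 h1 hc]
    infer_instance)
  by_cases hab : IsMulCommutative (C(x) : Subgroup G)
  · exact abelian_case h hM hab
  haveI := Fact.mk hr
  set π := QuotientGroup.mk' (Subgroup.center G)
  set H := (C(x)).map π with hH
  have hidx : H.index = (C(x)).index := index_map_mk (center_le x)
  have hp := index_prime h hx
  set p := (C(x)).index with hpdef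
  have hHr : IsPGroup r H := by
    rintro ⟨w, m, hm, rfl⟩
    obtain ⟨u, v, he, ⟨j, hj⟩, hnd, -⟩ := exists_parts m hr
    have hvz : m ^ v ∈ Subgroup.center G := by
      by_contra hvz
      exact hab (comm_of_coprime h hr hxr hx (pow_mem hm v) hnd hvz)
    refine ⟨j, Subtype.ext ?_⟩
    show π m ^ r ^ j = 1
    rw [he, map_mul, show π (m ^ v) = 1 from (QuotientGroup.eq_one_iff _).2 hvz, mul_one, ← map_pow,
      orderOf_dvd_iff_pow_eq_one.1 hj, map_one]
  obtain ⟨a, ha⟩ := IsPGroup.iff_card.1 hHr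
  have hQ : Nat.card (G ⧸ Subgroup.center G) = p * r ^ a := by
    rw [← ha, ← hidx, mul_comm, Subgroup.card_mul_index]
  have hnn : ¬ H.Normal := fun hn => hM (by
    have := hn.comap π
    rwa [hH, Subgroup.comap_map_eq_self (by rw [QuotientGroup.ker_mk']; exact center_le x)] at this)
  have hpr : p ≠ r := by
    intro he
    refine hnn (Subgroup.normal_of_index_eq_minFac_card ?_)
    rw [hidx, hQ, he, ← pow_succ', Nat.Prime.pow_minFac hr (by omega)]
  have hgoal : ∀ q, q.Prime → p ≠ q → Nat.card (G ⧸ Subgroup.center G) = p * q → Goal G :=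
    fun q hq hne hc => ⟨p, q, hp, hq, hne, hc, quotient_noncomm (center_le x) hM⟩
  rcases Nat.lt_or_ge a 2 with ha2 | ha2
  · interval_cases a
    · exfalso
      refine hnn ?_
      rw [H.card_eq_one.1 (by rw [ha, pow_zero])]
      infer_instance
    · exact hgoal r hr hpr (by rw [hQ, pow_one])
  haveI := Fact.mk hp
  obtain ⟨n, hn⟩ := exists_prime_orderOf_dvd_card' (G := G ⧸ Subgroup.center G) p (hQ ▸ dvd_mul_right _ _)
  obtain ⟨g₀, rfl⟩ := QuotientGroup.mk'_surjective (Subgroup.center G) n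
  obtain ⟨u, v, he, ⟨j, hj⟩, hnd, -⟩ := exists_parts g₀ hp
  have hgz : g₀ ^ u ∉ Subgroup.center G := by
    intro hc
    rw [he, map_mul, show π (g₀ ^ u) = 1 from (QuotientGroup.eq_one_iff _).2 hc, one_mul] at hn
    exact hnd (hn ▸ orderOf_map_dvd π _)
  obtain ⟨g, hgdef⟩ : ∃ g, g = g₀ ^ u := ⟨_, rfl⟩
  rw [← hgdef] at hgz hj
  set E := (C(g)).map π with hE
  have hpE : p ∣ Nat.card E := by
    have h1 : orderOf (π g) ∣ p := by
      rw [hgdef, map_pow]; exact hn ▸ orderOf_pow_dvd u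
    have h2 : orderOf (π g) = p := (hp.eq_one_or_self_of_dvd _ h1).resolve_left fun h1 =>
      hgz ((QuotientGroup.eq_one_iff g).1 (orderOf_eq_one_iff.1 h1))
    exact h2 ▸ Subgroup.orderOf_dvd_natCard E (Subgroup.mem_map_of_mem _ (mem_C.2 rfl))
  have hEc : Nat.card E * (C(g)).index = p * r ^ a := by
    rw [← index_map_mk (center_le g), Subgroup.card_mul_index, hQ]
  obtain ⟨e, he'⟩ := hpE
  have her : e * (C(g)).index = r ^ a := by
    rw [he', mul_assoc] at hEc
    exact Nat.eq_of_mul_eq_mul_left hp.pos hEc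
  have hqg := index_prime h hgz
  have hqr : (C(g)).index = r := (Nat.prime_dvd_prime_iff_eq hqg hr).1
    (hqg.dvd_of_dvd_pow (her ▸ dvd_mul_left _ _))
  have hre : r ∣ e := by
    rw [hqr, ← Nat.sub_add_cancel (show 1 ≤ a by omega), pow_succ] at her
    rw [Nat.eq_of_mul_eq_mul_right hr.pos her]
    exact dvd_pow_self r (by omega)
  obtain ⟨w, hw⟩ := exists_prime_orderOf_dvd_card' (G := E) r (he' ▸ hre.mul_left p)
  obtain ⟨b₀, hb₀, hb₀'⟩ := w.2
  obtain ⟨u', v', hb, ⟨j', hj'⟩, hnd', -⟩ := exists_parts b₀ hr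
  have hbz : b₀ ^ u' ∉ Subgroup.center G := by
    intro hc
    rw [← Subgroup.orderOf_coe, ← hb₀', hb, map_mul,
      show π (b₀ ^ u') = 1 from (QuotientGroup.eq_one_iff _).2 hc, one_mul] at hw
    exact hnd' (hw ▸ orderOf_map_dvd π _)
  have hcg : IsMulCommutative (C(g) : Subgroup G) := by
    refine comm_of_coprime h hp hj hgz (pow_mem hb₀ u') (fun hd => hpr ?_) hbz
    exact (Nat.prime_dvd_prime_iff_eq hp hr).1 (hp.dvd_of_dvd_pow (hd.trans hj'))
  by_cases hgN : (C(g)).Normal
  swap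
  · exact abelian_case h hgN hcg
  exfalso
  have hgr : ¬ r ∣ orderOf g := fun hd =>
    hpr ((Nat.prime_dvd_prime_iff_eq hr hp).1 (hr.dvd_of_dvd_pow (hd.trans hj))).symm
  have hxg : x ∉ C(g) := fun hxg =>
    hab (comm_of_coprime h hr hxr hx (mem_C.2 (mem_C.1 hxg).symm) hgr hgz)
  have htop : Subgroup.zpowers x ⊔ C(g) = ⊤ := by
    rw [← Subgroup.index_eq_one]
    refine (hqg.eq_one_or_self_of_dvd _ (Subgroup.index_dvd_of_le le_sup_right)).resolve_right fun h2 =>
      hxg ?_
    have h3 := Subgroup.card_mul_index (Subgroup.zpowers x ⊔ C(g))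
    rw [← Subgroup.card_mul_index (C(g)), h2] at h3
    rw [Subgroup.eq_of_le_of_card_ge (le_sup_right : C(g) ≤ Subgroup.zpowers x ⊔ C(g))
      (Nat.eq_of_mul_eq_mul_right hqg.pos h3).le]
    exact Subgroup.mem_sup_left (Subgroup.mem_zpowers x)
  refine hab ⟨⟨fun a b => Subtype.ext ?_⟩⟩
  have dec : ∀ m ∈ C(x), ∃ i : ℤ, ∃ c ∈ C(g), c ∈ C(x) ∧ m = x ^ i * c := by
    intro m hm
    have h1 : m ∈ (↑(Subgroup.zpowers x ⊔ C(g)) : Set G) := by rw [htop]; trivial
    rw [Subgroup.mul_normal] at h1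
    obtain ⟨s, ⟨i, rfl⟩, c, hc, rfl⟩ := h1
    refine ⟨i, c, hc, ?_, rfl⟩
    have := mul_mem (inv_mem (zpow_mem (mem_C.2 (rfl : x * x = x * x)) i)) hm
    simpa using this
  obtain ⟨i, c, hc, hcx, e1⟩ := dec a a.2
  obtain ⟨i', d, hd, hdx, e2⟩ := dec b b.2
  show (a : G) * b = b * a
  have k1 : Commute x c := mem_C.1 hcx
  have k2 : Commute x d := mem_C.1 hdx
  have k3 : Commute c d := congrArg Subtype.val (hcg.is_comm.comm ⟨c, hc⟩ ⟨d, hd⟩)
  rw [e1, e2]
  exact (((Commute.refl x).zpow_zpow i i').mul_right (k2.zpow_left i)).mul_left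
    ((k1.symm.zpow_right i').mul_right k3)

/-- Let `G` be a finite group every conjugacy class of which has size 1 or a prime. Then either `G` is nilpotent of class at most 2, or `G/Z(G)` is a non-abelian group of order `pq` for distinct primes `p, q` (a Frobenius group of order `pq`). -/
theorem result {G : Type*} [Group G] [Finite G]
    (h : ∀ x : G, (Subgroup.centralizer ({x} : Set G)).index = 1 ∨ ((Subgroup.centralizer ({x} : Set G)).index).Prime) :
    Subgroup.upperCentralSeries G 2 = ⊤ ∨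
      ∃ p q : ℕ, p.Prime ∧ q.Prime ∧ p ≠ q ∧ Nat.card (G ⧸ Subgroup.center G) = p * q ∧ ¬ IsMulCommutative (G ⧸ Subgroup.center G) := by
  classical
  by_cases hN : ∀ g : G, (Subgroup.centralizer ({g} : Set G)).Normal
  · left
    rw [eq_top_iff]
    intro a _
    rw [Subgroup.mem_upperCentralSeries_succ_iff]
    intro b
    rw [Subgroup.upperCentralSeries_one, Subgroup.mem_center_iff]
    intro y
    haveI := hN y
    have hc : QuotientGroup.mk' (Subgroup.centralizer ({y} : Set G)) a * QuotientGroup.mk' _ b =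
        QuotientGroup.mk' (Subgroup.centralizer ({y} : Set G)) b * QuotientGroup.mk' _ a := by
      rcases h y with h1 | h1
      · haveI : Subsingleton (G ⧸ Subgroup.centralizer ({y} : Set G)) :=
          Finite.card_le_one_iff_subsingleton.1 (by rw [← Subgroup.index, h1])
        exact Subsingleton.elim _ _
      · haveI : Fact (Nat.card (G ⧸ Subgroup.centralizer ({y} : Set G))).Prime := ⟨by rw [← Subgroup.index]; exact h1⟩
        haveI : IsCyclic (G ⧸ Subgroup.centralizer ({y} : Set G)) := isCyclic_of_prime_card (p := _) rfl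
        exact IsMulCommutative.is_comm.comm _ _
    have hmem : ⁅a, b⁆ ∈ Subgroup.centralizer ({y} : Set G) := by
      rw [← QuotientGroup.ker_mk' (Subgroup.centralizer ({y} : Set G)), MonoidHom.mem_ker,
        commutatorElement_def, map_mul, map_mul, map_mul, map_inv, map_inv, hc]
      group
    exact Subgroup.mem_centralizer_iff.1 hmem y rfl
  · right
    push Not at hN
    obtain ⟨g, hg⟩ := hN
    obtain ⟨x, r, k, hr, hx, hMx⟩ := exists_prime_power h g hg
    exact main h hx hr hMx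

end Cfsg.Agent.S4314
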