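import Cfsg.Statements.S4320
import Mathlib
-- import your own Cfsg.Agent.* helpers here

set_option autoImplicit false
open Cfsg

namespace Cfsg.Agent.S4320

open scoped Pointwise

open scoped commutatorElement

section
variable (G : Type*) [Group G]

/-- The abelianization of the derived subgroup, written additively. -/
abbrev DerAb : Type _ := Additive (Abelianization ↥(commutator G))

/-- The group ring of the abelianization. -/
abbrev GRing : Type _ := MonoidAlgebra ℤ (Abelianization G)

/-- The module: translations of the group ring of the abelianization, extended by the cocycle. -/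
abbrev Mod : Type _ := DerAb G × GRing G

variable {G}

/-- Conjugation on the abelianization of the derived subgroup. -/
noncomputable def cj (g : G) : (DerAb G) →+ (DerAb G) :=
  (Abelianization.map (MulAut.conjNormal (H := commutator G) g).toMonoidHom).toAdditive

theorem cj_apply (g : G) (a : ↥(commutator G)) :
    cj g (Additive.ofMul (Abelianization.of a)) =
      Additive.ofMul (Abelianization.of (MulAut.conjNormal g a)) := by
  show Additive.ofMul (Abelianization.map _ (Abelianization.of a)) = _
  rw [Abelianization.map_of]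
  rfl

theorem cj_mul (g h : G) (b : (DerAb G)) : cj (g * h) b = cj g (cj h b) := by
  obtain ⟨a, rfl⟩ := Quotient.exists_rep (Additive.toMul b)
  change cj (g * h) (Additive.ofMul (Abelianization.of a)) =
    cj g (cj h (Additive.ofMul (Abelianization.of a)))
  rw [cj_apply, cj_apply, cj_apply, map_mul, MulAut.mul_apply]

theorem cj_of_mem (g : G) (hg : g ∈ commutator G) (b : (DerAb G)) : cj g b = b := by
  obtain ⟨a, rfl⟩ := Quotient.exists_rep (Additive.toMul b)
  change cj g (Additive.ofMul (Abelianization.of a)) = Additive.ofMul (Abelianization.of a)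
  rw [cj_apply]
  congr 1
  rw [show MulAut.conjNormal g a = ⟨g, hg⟩ * a * ⟨g, hg⟩⁻¹ from Subtype.ext (by simp),
    map_mul, map_mul, map_inv, mul_comm, inv_mul_cancel_left]

theorem cj_one (b : (DerAb G)) : cj (1 : G) b = b := cj_of_mem 1 (one_mem _) b

/-- A section of the abelianization map, normalised at one. -/
noncomputable def sec (q : Abelianization G) : G := by
  classical
  exact if q = 1 then 1 else Function.surjInv
    (show Function.Surjective (Abelianization.of : G →* Abelianization G) from Quotient.mk_surjective) q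

theorem of_sec (q : Abelianization G) : Abelianization.of (sec q) = q := by
  classical
  unfold sec
  split_ifs with h
  · rw [map_one, h]
  · exact Function.surjInv_eq _ q

theorem sec_one : sec (1 : Abelianization G) = 1 := by
  classical
  unfold sec
  rw [if_pos rfl]

theorem mem_commutator_iff (g : G) : g ∈ commutator G ↔ Abelianization.of g = 1 :=
  (QuotientGroup.eq_one_iff g).symm

/-- The cocycle as an element of the derived subgroup. -/
noncomputable def cocElem (g : G) (y : Abelianization G) : ↥(commutator G) :=
  ⟨g * sec y * (sec (Abelianization.of g * y))⁻¹, by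
    rw [mem_commutator_iff, map_mul, map_mul, map_inv, of_sec, of_sec, mul_inv_cancel]⟩

/-- The cocycle. -/
noncomputable def coc (g : G) (y : Abelianization G) : (DerAb G) :=
  Additive.ofMul (Abelianization.of (cocElem g y))

theorem coc_mul (g h : G) (y : Abelianization G) :
    coc (g * h) y = cj g (coc h y) + coc g (Abelianization.of h * y) := by
  rw [coc, coc, coc, cj_apply, ← ofMul_mul, ← map_mul]
  congr 2
  ext
  simp [cocElem, mul_assoc]

theorem coc_one (y : Abelianization G) : coc 1 y = 0 := by
  rw [coc, show cocElem 1 y = 1 from Subtype.ext (by simp [cocElem]), map_one]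
  rfl

theorem coc_of_mem (a : ↥(commutator G)) (y : Abelianization G) :
    coc (a : G) y = Additive.ofMul (Abelianization.of a) := by
  have h : cocElem (a : G) y = a := Subtype.ext (by
    simp [cocElem, (mem_commutator_iff _).1 a.2])
  rw [coc, h]

/-- The linear extension of the cocycle. -/
noncomputable def cocLin (g : G) : (GRing G) →+ (DerAb G) :=
  (Finsupp.liftAddHom fun y => zmultiplesHom (DerAb G) (coc g y)).comp
    (AddMonoidHom.mk' MonoidAlgebra.coeff MonoidAlgebra.coeff_add)

theorem cocLin_single (g : G) (y : Abelianization G) (n : ℤ) :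
    cocLin g (MonoidAlgebra.single y n) = n • coc g y := by
  simp [cocLin]

/-- The action of `g`. -/
noncomputable def act (g : G) : Mod G →+ Mod G :=
  AddMonoidHom.mk' (fun v => (cj g v.1 + cocLin g v.2,
      MonoidAlgebra.single (Abelianization.of g) 1 * v.2))
    fun v w => by
      ext1
      · simp only [Prod.fst_add, Prod.snd_add, map_add]; abel
      · simp only [Prod.snd_add, mul_add]

theorem act_apply (g : G) (v : Mod G) : act g v =
    (cj g v.1 + cocLin g v.2, MonoidAlgebra.single (Abelianization.of g) 1 * v.2) := rfl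

theorem act_mul (g h : G) (v : Mod G) : act (g * h) v = act g (act h v) := by
  obtain ⟨b, w⟩ := v
  simp only [act_apply, map_add, cj_mul, map_mul, ← mul_assoc, MonoidAlgebra.single_mul_single,
    mul_one]
  refine Prod.ext ?_ rfl
  dsimp only
  rw [add_assoc]
  congr 1
  induction w using MonoidAlgebra.induction_linear with
  | zero => simp
  | add x y hx hy => simp only [map_add, mul_add, hx, hy]; abel
  | single y n =>
    rw [cocLin_single, cocLin_single, MonoidAlgebra.single_mul_single, one_mul, cocLin_single,
      coc_mul, map_zsmul, ← smul_add]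

theorem act_one (v : Mod G) : act (1 : G) v = v := by
  obtain ⟨b, w⟩ := v
  simp only [act_apply, cj_one, map_one, ← MonoidAlgebra.one_def, one_mul]
  refine Prod.ext ?_ rfl
  dsimp only
  rw [add_eq_left]
  induction w using MonoidAlgebra.induction_linear with
  | zero => simp
  | add x y hx hy => simp only [map_add, hx, hy, add_zero]
  | single y n => rw [cocLin_single, coc_one, smul_zero]

/-- The augmentation. -/
noncomputable def aug : (GRing G) →ₐ[ℤ] ℤ := MonoidAlgebra.lift ℤ ℤ (Abelianization G) 1

theorem aug_single (y : Abelianization G) (n : ℤ) : aug (MonoidAlgebra.single y n) = n := by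
  simp [aug]

/-- The submodule of augmentation zero. -/
noncomputable def M0 : AddSubgroup (Mod G) :=
  ((aug (G := G)).toRingHom.toAddMonoidHom.comp (AddMonoidHom.snd (DerAb G) (GRing G))).ker

theorem mem_M0 (v : Mod G) : v ∈ M0 (G := G) ↔ aug v.2 = 0 := Iff.rfl

theorem act_mem (g : G) {v : Mod G} (hv : v ∈ M0 (G := G)) : act g v ∈ M0 (G := G) := by
  rw [mem_M0] at hv ⊢
  rw [act_apply, map_mul, hv, mul_zero]

theorem act_of_mem (a : G) (ha : a ∈ commutator G) {v : Mod G} (hv : v ∈ M0 (G := G)) :
    act a v = v := by
  obtain ⟨b, w⟩ := v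
  rw [mem_M0] at hv
  simp only at hv
  rw [act_apply, (mem_commutator_iff a).1 ha, ← MonoidAlgebra.one_def, one_mul, cj_of_mem a ha]
  refine Prod.ext ?_ rfl
  dsimp only
  rw [add_eq_left]
  have key : ∀ u : (GRing G), cocLin a u = aug u • Additive.ofMul (Abelianization.of ⟨a, ha⟩) := by
    intro u
    induction u using MonoidAlgebra.induction_linear with
    | zero => simp
    | add x y hx hy => simp only [map_add, hx, hy, add_smul]
    | single y n => rw [cocLin_single, aug_single, coc_of_mem ⟨a, ha⟩]
  rw [key, hv, zero_smul]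

/-- The action on `M0`. -/
noncomputable def act0 : G →* Module.End ℤ (M0 (G := G)) where
  toFun g := AddMonoidHom.toIntLinearMap
    (((act g).comp (M0 (G := G)).subtype).codRestrict _ fun v => act_mem g v.2)
  map_one' := LinearMap.ext fun v => Subtype.ext (act_one (v : Mod G))
  map_mul' g h := LinearMap.ext fun v => Subtype.ext (act_mul g h (v : Mod G))

theorem commutator_le_ker : commutator G ≤ (act0 (G := G)).ker := fun a ha =>
  LinearMap.ext fun v => Subtype.ext (act_of_mem a ha v.2)

/-- The action, factored through the abelianization. -/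
noncomputable def actAb : Abelianization G →* Module.End ℤ (M0 (G := G)) :=
  QuotientGroup.lift (commutator G) act0 commutator_le_ker

theorem actAb_of (g : G) : actAb (Abelianization.of g) = act0 g := rfl

/-- The action of the group ring of the abelianization. -/
noncomputable def Lam : (GRing G) →ₐ[ℤ] Module.End ℤ (M0 (G := G)) :=
  MonoidAlgebra.lift ℤ (Module.End ℤ (M0 (G := G))) (Abelianization G)
    actAb

theorem Lam_of (g : G) : Lam (MonoidAlgebra.of ℤ (Abelianization G) (Abelianization.of g))
    = act0 g := by
  rw [Lam, MonoidAlgebra.lift_of, actAb_of]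

theorem Lam_snd (r : (GRing G)) (v : M0 (G := G)) : (Lam r v : Mod G).2 = r * (v : Mod G).2 := by
  induction r using MonoidAlgebra.induction_on with
  | of q =>
    obtain ⟨g, rfl⟩ := QuotientGroup.mk_surjective q
    rw [show (QuotientGroup.mk g : Abelianization G) = Abelianization.of g from rfl, Lam_of]
    rfl
  | add x y hx hy =>
    rw [map_add, LinearMap.add_apply, AddSubgroup.coe_add, Prod.snd_add, hx, hy, add_mul]
  | smul c x hx =>
    rw [map_smul, LinearMap.smul_apply, AddSubgroupClass.coe_zsmul, Prod.smul_snd, hx, smul_mul_assoc]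

/-- The base point of the derivation. -/
noncomputable def base : Mod G := ((0 : DerAb G), (1 : GRing G))

theorem der_mem (g : G) : act g (base (G := G)) - base ∈ M0 (G := G) := by
  refine (mem_M0 _).2 ?_
  show aug (MonoidAlgebra.single (Abelianization.of g) (1 : ℤ) * (1 : GRing G) - 1) = 0
  rw [mul_one, map_sub, map_one, aug_single, sub_self]

/-- The derivation. -/
noncomputable def der (g : G) : M0 (G := G) := ⟨act g base - base, der_mem g⟩

theorem der_coe (g : G) : (der g : Mod G) = act g base - base := rfl

theorem act0_coe (g : G) (v : M0 (G := G)) : (act0 g v : Mod G) = act g (v : Mod G) := rfl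

theorem der_mul (g h : G) : der (g * h) = der g + act0 g (der h) := by
  refine Subtype.ext ?_
  rw [AddSubgroup.coe_add, act0_coe, der_coe, der_coe, der_coe, map_sub, act_mul]
  abel

theorem der_one : der (1 : G) = 0 := Subtype.ext (by
  show act (1 : G) base - base = 0
  rw [act_one, sub_self])

theorem der_inv (g : G) : der g⁻¹ = -(act0 g⁻¹ (der g)) := by
  have h := der_mul g⁻¹ g
  rw [inv_mul_cancel, der_one] at h
  exact eq_neg_of_add_eq_zero_left h.symm

theorem der_val (g : G) : (der g : Mod G) =
    (coc g 1, MonoidAlgebra.single (Abelianization.of g) 1 - 1) := by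
  show act g base - base = _
  rw [act_apply, base, mul_one]
  refine Prod.ext ?_ rfl
  show cj g 0 + cocLin g 1 - 0 = coc g 1
  rw [map_zero, zero_add, sub_zero, MonoidAlgebra.one_def, cocLin_single, one_smul]

variable [Finite G]

/-- `v` lies in the augmentation ideal times the span of the derivation. -/
def InI (v : M0 (G := G)) : Prop :=
  ∀ (_ : Fintype G), ∃ ι : G → (GRing G), (∀ h, aug (ι h) = 0) ∧ v = ∑ h, Lam (ι h) (der h)

theorem InI.add {v w : M0 (G := G)} (hv : InI v) (hw : InI w) : InI (v + w) := fun _ => by
  obtain ⟨a, ha, rfl⟩ := hv ‹_›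
  obtain ⟨b, hb, rfl⟩ := hw ‹_›
  exact ⟨a + b, fun h => by simp [ha h, hb h], by
    simp [map_add, LinearMap.add_apply, Finset.sum_add_distrib]⟩

theorem InI.lam {v : M0 (G := G)} (hv : InI v) (r : (GRing G)) : InI (Lam r v) := fun _ => by
  obtain ⟨a, ha, rfl⟩ := hv ‹_›
  exact ⟨fun h => r * a h, fun h => by simp [ha h], by
    simp [map_mul, map_sum, Module.End.mul_apply]⟩

omit [Finite G] in
theorem InI.zero : InI (0 : M0 (G := G)) := fun _ => ⟨0, fun h => by simp, by simp⟩

omit [Finite G] in
theorem InI.single (h : G) (r : (GRing G)) (hr : aug r = 0) : InI (Lam r (der h)) := fun _ => by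
  classical
  refine ⟨fun k => if k = h then r else 0, fun k => ?_, ?_⟩
  · dsimp only
    split_ifs <;> simp [hr]
  · rw [Finset.sum_eq_single h (fun b _ hb => by simp [hb]) (fun hh => absurd (Finset.mem_univ h) hh)]
    simp

omit [Finite G] in
theorem der_of_mem_mul (a b : G) (ha : a ∈ commutator G) : der (a * b) = der a + der b := by
  rw [der_mul, show act0 a = 1 from commutator_le_ker ha]
  rfl

theorem InI.der {a : G} (ha : a ∈ commutator G) : InI (der a) := by
  suffices h : a ∈ commutator G ∧ InI (S4320.der a) from h.2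
  rw [commutator_eq_closure] at ha
  induction ha using Subgroup.closure_induction with
  | mem x hx =>
    obtain ⟨g, h, rfl⟩ := hx
    refine ⟨Subgroup.commutator_mem_commutator (Subgroup.mem_top _) (Subgroup.mem_top _), ?_⟩
    have key : S4320.der ⁅g, h⁆ =
        Lam (1 - MonoidAlgebra.of ℤ _ (Abelianization.of h)) (S4320.der g) +
          Lam (MonoidAlgebra.of ℤ _ (Abelianization.of g) - 1) (S4320.der h) := by
      have e := der_of_mem_mul ⁅g, h⁆ (h * g)
        (Subgroup.commutator_mem_commutator (Subgroup.mem_top g) (Subgroup.mem_top h))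
      rw [show ⁅g, h⁆ * (h * g) = g * h by rw [commutatorElement_def]; group,
        der_mul g h, der_mul h g] at e
      rw [map_sub, map_sub, map_one, Lam_of, Lam_of, LinearMap.sub_apply, LinearMap.sub_apply,
        Module.End.one_apply, Module.End.one_apply]
      have e' := eq_sub_of_add_eq e.symm
      rw [e']
      abel
    rw [key]
    exact (InI.single g _ (by simp [aug_single])).add (InI.single h _ (by simp [aug_single]))
  | one => exact ⟨one_mem _, by rw [der_one]; exact InI.zero⟩
  | mul x y _ _ hx hy => exact ⟨mul_mem hx.1 hy.1, by rw [der_of_mem_mul x y hx.1]; exact hx.2.add hy.2⟩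
  | inv x _ hx =>
    refine ⟨inv_mem hx.1, ?_⟩
    rw [der_inv, show act0 x⁻¹ = 1 from commutator_le_ker (inv_mem hx.1)]
    have := hx.2.lam (-1)
    simpa using this

omit [Finite G] in
theorem Lam_der_pow (g : G) (n : ℕ) : der (g ^ n) =
    Lam (∑ j ∈ Finset.range n, MonoidAlgebra.of ℤ _ (Abelianization.of (g ^ j))) (der g) := by
  induction n with
  | zero => simp [der_one]
  | succ n ih =>
    rw [pow_succ, der_mul, Finset.sum_range_succ, map_add, LinearMap.add_apply, ih, Lam_of]

/-- The norm element of the group ring annihilates the derivation. -/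
theorem norm_annihilates [Fintype (Abelianization G)] (g : G) :
    Lam (∑ q : Abelianization G, MonoidAlgebra.of ℤ (Abelianization G) q) (der g) = 0 := by
  classical
  have : Fintype G := Fintype.ofFinite G
  obtain ⟨ι, hι, n, hn, ⟨e⟩⟩ := CommGroup.equiv_prod_multiplicative_zmod_of_finite (Abelianization G)
  have hn0 : ∀ i, NeZero (n i) := fun i => ⟨by have := hn i; omega⟩
  let gen : ι → G := fun i => sec (e.symm (Pi.mulSingle i (Multiplicative.ofAdd 1)))
  have hgen : ∀ i, Abelianization.of (gen i) = e.symm (Pi.mulSingle i (Multiplicative.ofAdd 1)) :=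
    fun i => of_sec _
  let H : Subgroup G :=
    { carrier := {w | ∃ c : ι → (GRing G), der w = ∑ i, Lam (c i) (der (gen i))}
      one_mem' := ⟨0, by simp [der_one]⟩
      mul_mem' := fun {v w} hv hw => by
        obtain ⟨a, ha⟩ := hv
        obtain ⟨b, hb⟩ := hw
        refine ⟨fun i => a i + MonoidAlgebra.of ℤ _ (Abelianization.of v) * b i, ?_⟩
        rw [der_mul, ha, hb, map_sum, ← Finset.sum_add_distrib]
        exact Finset.sum_congr rfl fun i _ => by
          rw [map_add, map_mul, LinearMap.add_apply, Module.End.mul_apply, Lam_of]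
      inv_mem' := fun {v} hv => by
        obtain ⟨a, ha⟩ := hv
        refine ⟨fun i => -(MonoidAlgebra.of ℤ _ (Abelianization.of v⁻¹) * a i), ?_⟩
        rw [der_inv, ha, map_sum, ← Finset.sum_neg_distrib]
        exact Finset.sum_congr rfl fun i _ => by
          rw [map_neg, map_mul, LinearMap.neg_apply, Module.End.mul_apply, Lam_of] }
  have hgenH : ∀ i, gen i ∈ H := fun i => ⟨fun j => if j = i then 1 else 0, by
    rw [Finset.sum_eq_single i (fun b _ hb => by simp [hb]) (fun hh => absurd (Finset.mem_univ i) hh)]
    simp⟩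
  have hrep : ∀ g : G, ∃ w ∈ H, w⁻¹ * g ∈ commutator G := by
    intro g
    set x := e (Abelianization.of g) with hx
    have hxe : e.symm x = ∏ i, Abelianization.of (gen i) ^ (Multiplicative.toAdd (x i)).val := by
      conv_lhs => rw [← Finset.univ_prod_mulSingle x]
      rw [map_prod]
      refine Finset.prod_congr rfl fun i _ => ?_
      rw [hgen, ← map_pow, ← Pi.mulSingle_pow]
      congr 2
      rw [← ofAdd_nsmul, nsmul_one, ZMod.natCast_zmod_val, ofAdd_toAdd]
    obtain ⟨w, hw, hw'⟩ : Abelianization.of g ∈ H.map Abelianization.of := by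
      rw [← e.symm_apply_apply (Abelianization.of g), ← hx, hxe]
      exact prod_mem fun i _ => pow_mem (Subgroup.mem_map_of_mem Abelianization.of (hgenH i)) _
    exact ⟨w, hw, by rw [mem_commutator_iff, map_mul, map_inv, hw', inv_mul_cancel]⟩
  -- one relation for each generator and each element
  have hrel1 : ∀ i, ∃ ν : G → (GRing G), (∀ h, aug (ν h) = 0) ∧
      Lam (∑ j ∈ Finset.range (n i), MonoidAlgebra.of ℤ _ (Abelianization.of (gen i ^ j)))
        (der (gen i)) + ∑ h, Lam (ν h) (der h) = 0 := by
    intro i
    have hmem : gen i ^ n i ∈ commutator G := by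
      rw [mem_commutator_iff, map_pow, hgen, ← map_pow, ← Pi.mulSingle_pow, ← ofAdd_nsmul,
        nsmul_one, ZMod.natCast_self, ofAdd_zero, Pi.mulSingle_one, map_one]
    obtain ⟨ν, hν, hν'⟩ := (InI.der hmem).lam (-1) ‹_›
    refine ⟨ν, hν, ?_⟩
    rw [← Lam_der_pow, ← hν']
    simp
  have hrel2 : ∀ g : G, ∃ (c : ι → (GRing G)) (ν : G → (GRing G)), (∀ h, aug (ν h) = 0) ∧
      der g + (∑ i, Lam (c i) (der (gen i)) + ∑ h, Lam (ν h) (der h)) = 0 := by
    intro g
    obtain ⟨w, ⟨c, hc⟩, hw⟩ := hrep g
    obtain ⟨ν, hν, hν'⟩ :=
      ((InI.der hw).lam (-MonoidAlgebra.of ℤ _ (Abelianization.of w))) ‹_›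
    refine ⟨fun i => -c i, ν, hν, ?_⟩
    rw [← hν', map_neg, LinearMap.neg_apply, Lam_of]
    conv_lhs => enter [1]; rw [show g = w * (w⁻¹ * g) by group, der_mul, hc]
    simp only [map_neg, LinearMap.neg_apply, Finset.sum_neg_distrib]
    abel
  choose ν1 hν1 hν1' using hrel1
  choose c ν2 hν2 hν2' using hrel2
  let x : ι ⊕ G → M0 (G := G) := Sum.elim (fun i => der (gen i)) der
  let μ : Matrix (ι ⊕ G) (ι ⊕ G) (GRing G) :=
    Matrix.fromBlocks
      (Matrix.diagonal fun i =>
        ∑ j ∈ Finset.range (n i), MonoidAlgebra.of ℤ _ (Abelianization.of (gen i ^ j)))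
      (Matrix.of ν1) (Matrix.of c) (1 + Matrix.of ν2)
  have hμ : ∀ a, ∑ b, Lam (μ a b) (x b) = 0 := by
    rintro (i | h)
    · simp only [Fintype.sum_sum_type, μ, x, Matrix.fromBlocks_apply₁₁,
        Matrix.fromBlocks_apply₁₂, Sum.elim_inl, Sum.elim_inr, Matrix.of_apply]
      refine Eq.trans ?_ (hν1' i)
      congr 1
      rw [Finset.sum_eq_single i (fun b _ hb => by simp [Matrix.diagonal_apply_ne' _ hb])
        (fun hh => absurd (Finset.mem_univ i) hh), Matrix.diagonal_apply_eq]
    · simp only [Fintype.sum_sum_type, μ, x, Matrix.fromBlocks_apply₂₁,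
        Matrix.fromBlocks_apply₂₂, Sum.elim_inl, Sum.elim_inr, Matrix.of_apply, Matrix.add_apply,
        map_add, LinearMap.add_apply, Finset.sum_add_distrib]
      refine Eq.trans ?_ (hν2' h)
      rw [Finset.sum_eq_single h (fun b _ hb => by simp [Matrix.one_apply_ne' hb])
        (fun hh => absurd (Finset.mem_univ h) hh), Matrix.one_apply_eq, map_one, Module.End.one_apply]
      abel
  have hdet : ∀ b, Lam μ.det (x b) = 0 := by
    intro b
    have h0 : ∑ a, Lam (μ.adjugate b a) (∑ k, Lam (μ a k) (x k)) = 0 := by simp [hμ]
    simp only [map_sum, ← Module.End.mul_apply, ← map_mul] at h0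
    rw [Finset.sum_comm] at h0
    simp only [← LinearMap.sum_apply, ← map_sum, ← Matrix.mul_apply, Matrix.adjugate_mul] at h0
    rw [Finset.sum_eq_single b (fun k _ hk => by simp [Matrix.one_apply_ne' hk])
      (fun hh => absurd (Finset.mem_univ b) hh)] at h0
    simpa using h0
  have haug : aug μ.det = (Fintype.card (Abelianization G) : ℤ) := by
    rw [AlgHom.map_det, show (aug (G := G)).mapMatrix μ = Matrix.fromBlocks
        (Matrix.diagonal fun i => (n i : ℤ)) 0 ((Matrix.of c).map aug) 1 from ?_,
      Matrix.det_fromBlocks_zero₁₂, Matrix.det_one, mul_one, Matrix.det_diagonal,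
      Fintype.card_congr e.toEquiv, Fintype.card_pi, Nat.cast_prod]
    · exact Finset.prod_congr rfl fun i _ => by simp [ZMod.card]
    · rw [AlgHom.mapMatrix_apply, Matrix.fromBlocks_map]
      congr 1
      · rw [Matrix.diagonal_map (map_zero _)]
        congr 1
        funext i
        simp [aug_single]
      · ext i h; simp [hν1 i h]
      · ext h k
        rcases eq_or_ne h k with rfl | hne
        · simp [hν2 h h]
        · simp [Matrix.one_apply_ne hne, hν2 h k]
  have hconst : ∀ q : Abelianization G, μ.det.coeff q = μ.det.coeff 1 := by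
    intro q
    obtain ⟨g, rfl⟩ := QuotientGroup.mk_surjective q
    have h := congrArg (fun v : M0 (G := G) => (v : Mod G).2) (hdet (Sum.inr g))
    simp only [x, Sum.elim_inr] at h
    rw [Lam_snd, der_val, mul_sub, mul_one] at h
    have h' := congrArg (fun u : (GRing G) => u.coeff (Abelianization.of g)) (sub_eq_zero.1 h)
    simp only [MonoidAlgebra.coeff_mul_single_apply, mul_inv_cancel, mul_one] at h'
    exact h'.symm
  have hdetS : μ.det = ∑ q : Abelianization G, MonoidAlgebra.of ℤ (Abelianization G) q := by
    have hsum : μ.det = ∑ q : Abelianization G, MonoidAlgebra.single q (μ.det.coeff 1) := by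
      apply MonoidAlgebra.coeff_injective
      ext q
      rw [MonoidAlgebra.coeff_sum, Finsupp.finsetSum_apply]
      simp [Finsupp.single_apply, hconst q]
    have h1 : μ.det.coeff 1 = 1 := by
      have h := haug
      rw [hsum, map_sum] at h
      simp only [aug_single, Finset.sum_const, Finset.card_univ, nsmul_eq_mul] at h
      exact (mul_eq_left₀ (Nat.cast_ne_zero.2 Fintype.card_ne_zero)).1 h
    rw [hsum, h1]
    rfl
  rw [← hdetS]
  exact hdet (Sum.inr g)

/-- The transfer into the abelianization of the derived subgroup is trivial. -/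
theorem transfer_eq_one (g : G) :
    MonoidHom.transfer (Abelianization.of : ↥(commutator G) →* Abelianization ↥(commutator G)) g
      = 1 := by
  classical
  have : Fintype (Abelianization G) := Fintype.ofFinite _
  let toAb : G ⧸ commutator G → Abelianization G := fun q => q
  let ofAb : Abelianization G → G ⧸ commutator G := fun q => q
  let σ : G ⧸ commutator G → G := fun q => (sec (G := G) (toAb q)⁻¹)⁻¹
  have hσ : ∀ q, ((σ q : G) : G ⧸ commutator G) = q := by
    intro q
    show Abelianization.of (sec (G := G) (toAb q)⁻¹)⁻¹ = toAb q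
    rw [map_inv, of_sec, inv_inv]
  let T : (commutator G).LeftTransversal :=
    ⟨Set.range σ, Subgroup.isComplement_range_left hσ⟩
  rw [MonoidHom.transfer_def _ T]
  have hzero := congrArg (fun v : M0 (G := G) => (v : Mod G).1) (norm_annihilates g)
  simp only [map_sum, LinearMap.sum_apply, AddSubgroup.val_finsetSum, Prod.fst_sum] at hzero
  have hterm : ∀ x : Abelianization G,
      (Lam (MonoidAlgebra.of ℤ _ x) (der g) : Mod G).1 =
        Additive.ofMul (Abelianization.of
          (⟨sec x * g * (sec (x * Abelianization.of g))⁻¹, by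
            rw [mem_commutator_iff, map_mul, map_mul, map_inv, of_sec, of_sec, mul_inv_cancel]⟩ :
            ↥(commutator G))) := by
    intro x
    conv_lhs => rw [← of_sec x, Lam_of]
    show cj (sec x) (der g : Mod G).1 + cocLin (sec x) (der g : Mod G).2 = _
    rw [der_val]
    simp only [map_sub, MonoidAlgebra.one_def, cocLin_single, one_smul]
    rw [coc, coc, coc, cj_apply, ← ofMul_div, ← ofMul_mul, ← map_div, ← map_mul]
    congr 2
    ext
    simp [cocElem, of_sec, sec_one, mul_assoc]
  rw [Finset.sum_congr rfl fun x _ => hterm x] at hzero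
  have hzero' := congrArg Additive.toMul hzero
  simp only [toMul_sum, toMul_ofMul] at hzero'
  refine Eq.trans ?_ hzero'
  unfold Subgroup.leftTransversals.diff
  refine Finset.prod_bij' (fun q _ => (toAb q)⁻¹) (fun x _ => ofAb x⁻¹)
    (fun _ _ => Finset.mem_univ _) (fun _ _ => @Finset.mem_univ _ (_) _)
    (fun q _ => by show ofAb (toAb q)⁻¹⁻¹ = q; rw [inv_inv])
    (fun x _ => by show (toAb (ofAb x⁻¹))⁻¹ = x; exact inv_inv x) fun q _ => ?_
  refine congrArg _ (Subtype.ext ?_)
  simp only [Subgroup.smul_apply_eq_smul_apply_inv_smul, smul_eq_mul]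
  rw [Subgroup.IsComplement.leftQuotientEquiv_apply hσ,
    Subgroup.IsComplement.leftQuotientEquiv_apply hσ]
  have hq : toAb (g⁻¹ • q) = (Abelianization.of g)⁻¹ * toAb q := by
    obtain ⟨h, rfl⟩ := QuotientGroup.mk_surjective q
    show Abelianization.of (g⁻¹ * h) = (Abelianization.of g)⁻¹ * Abelianization.of h
    rw [map_mul, map_inv]
  show ((sec (G := G) (toAb q)⁻¹)⁻¹)⁻¹ * (g * (sec (G := G) (toAb (g⁻¹ • q))⁻¹)⁻¹) =
    sec (toAb q)⁻¹ * g * (sec ((toAb q)⁻¹ * Abelianization.of g))⁻¹
  rw [hq, mul_inv_rev, inv_inv, inv_inv, ← mul_assoc]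

end

/-- The Principal Ideal Theorem of class field theory in its group-theoretic form: for every finite group `G`, the transfer homomorphism from `G` into the abelianization `G'/G''` of its derived subgroup `G'` is the trivial homomorphism. -/
theorem result {G : Type*} [Group G] [Finite G] :
    MonoidHom.transfer (Abelianization.of : ↥(commutator G) →* Abelianization ↥(commutator G)) =
      (1 : G →* Abelianization ↥(commutator G)) := by
  exact MonoidHom.ext fun g => transfer_eq_one g

end Cfsg.Agent.S4320
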