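import Cfsg.Statements.S4321
import Cfsg.Agent.Lib.Components2.SingularGraph
-- import your own Cfsg.Agent.* helpers here

set_option autoImplicit false
open Cfsg

namespace Cfsg.Agent.S4321

open scoped Pointwise

open CfsgLib.Components2.SingularGraph

theorem exists_pow_order {G : Type*} [Group G] [Finite G] {p : ℕ} [Fact p.Prime] {x : G}
    (hx : p ∣ orderOf x) : ∃ z ∈ Subgroup.zpowers x, orderOf z = p := by
  refine ⟨x ^ (orderOf x / p), pow_mem (Subgroup.mem_zpowers x) _, ?_⟩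
  exact orderOf_pow_orderOf_div (orderOf_pos x).ne' hx

/-- Let `G` be a finite group and `p` a prime not dividing the order of the centre of `G`. Consider the primes dividing the size of some conjugacy class of a `p`-singular element (an element of order divisible by `p`), two of them adjacent when their product divides such a class size. Then any two distinct such primes are joined by a path with at most 3 edges (the graph is connected of diameter at most 3). -/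
theorem result {G : Type*} [Group G] [Finite G] (p : ℕ) [Fact p.Prime]
    (hZ : ¬ p ∣ Nat.card ↥(Subgroup.center G)) (r s : ℕ) (hr : (r.Prime ∧ ∃ x : G, p ∣ orderOf x ∧ r ∣ (Subgroup.centralizer ({x} : Set G)).index)) (hs : (s.Prime ∧ ∃ x : G, p ∣ orderOf x ∧ s ∣ (Subgroup.centralizer ({x} : Set G)).index)) (hrs : r ≠ s) :
    (∃ x : G, p ∣ orderOf x ∧ r * s ∣ (Subgroup.centralizer ({x} : Set G)).index) ∨ (∃ t : ℕ, (t.Prime ∧ ∃ x : G, p ∣ orderOf x ∧ t ∣ (Subgroup.centralizer ({x} : Set G)).index) ∧ t ≠ r ∧ t ≠ s ∧ (∃ x : G, p ∣ orderOf x ∧ r * t ∣ (Subgroup.centralizer ({x} : Set G)).index) ∧ (∃ x : G, p ∣ orderOf x ∧ t * s ∣ (Subgroup.centralizer ({x} : Set G)).index)) ∨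
      (∃ t u : ℕ, (t.Prime ∧ ∃ x : G, p ∣ orderOf x ∧ t ∣ (Subgroup.centralizer ({x} : Set G)).index) ∧ (u.Prime ∧ ∃ x : G, p ∣ orderOf x ∧ u ∣ (Subgroup.centralizer ({x} : Set G)).index) ∧ t ≠ r ∧ u ≠ s ∧ t ≠ u ∧ (∃ x : G, p ∣ orderOf x ∧ r * t ∣ (Subgroup.centralizer ({x} : Set G)).index) ∧ (∃ x : G, p ∣ orderOf x ∧ t * u ∣ (Subgroup.centralizer ({x} : Set G)).index) ∧ (∃ x : G, p ∣ orderOf x ∧ u * s ∣ (Subgroup.centralizer ({x} : Set G)).index)) := by
  obtain ⟨hrp, x1, hx1, hrx⟩ := hr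
  obtain ⟨hsp, x2, hx2, hsx⟩ := hs
  obtain ⟨z1, hz1x, hz1⟩ := exists_pow_order hx1
  obtain ⟨z2, hz2x, hz2⟩ := exists_pow_order hx2
  obtain ⟨a, b, ha, hb, ha1, hb2, hab⟩ := exists_linked hZ hz1 hz2
  have hax : a ∣ (Subgroup.centralizer ({x1} : Set G)).index := ha1.trans (csz_dvd hz1x)
  have hbx : b ∣ (Subgroup.centralizer ({x2} : Set G)).index := hb2.trans (csz_dvd hz2x)
  have mk : ∀ u v : ℕ, u.Prime → v.Prime → u ≠ v → ∀ y : G, p ∣ orderOf y →
      u ∣ (Subgroup.centralizer ({y} : Set G)).index →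
      v ∣ (Subgroup.centralizer ({y} : Set G)).index →
      ∃ y : G, p ∣ orderOf y ∧ u * v ∣ (Subgroup.centralizer ({y} : Set G)).index :=
    fun u v hu hv huv y hy h1 h2 =>
      ⟨y, hy, ((Nat.coprime_primes hu hv).2 huv).mul_dvd_of_dvd_of_dvd h1 h2⟩
  -- a shared class between `a` and `b`
  obtain ⟨x3, hx3, ha3, hb3⟩ : ∃ y : G, p ∣ orderOf y ∧
      a ∣ (Subgroup.centralizer ({y} : Set G)).index ∧
      b ∣ (Subgroup.centralizer ({y} : Set G)).index := by
    rcases hab with rfl | h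
    · exact ⟨x1, hx1, hax, hax⟩
    · exact h
  by_cases hra : r = a
  · subst hra
    by_cases hrb : r = b
    · subst hrb
      exact Or.inl (mk r s hrp hsp hrs x2 hx2 hbx hsx)
    by_cases hbs : b = s
    · subst hbs
      exact Or.inl (mk r b hrp hb hrs x3 hx3 ha3 hb3)
    exact Or.inr (Or.inl ⟨b, ⟨hb, x2, hx2, hbx⟩, Ne.symm hrb, hbs,
      mk r b hrp hb hrb x3 hx3 ha3 hb3, mk b s hb hsp hbs x2 hx2 hbx hsx⟩)
  by_cases has : a = s
  · subst has
    exact Or.inl (mk r a hrp ha hrs x1 hx1 hrx hax)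
  by_cases hab' : a = b
  · subst hab'
    exact Or.inr (Or.inl ⟨a, ⟨ha, x1, hx1, hax⟩, Ne.symm hra, has,
      mk r a hrp ha hra x1 hx1 hrx hax, mk a s ha hsp has x2 hx2 hbx hsx⟩)
  by_cases hbs : b = s
  · subst hbs
    exact Or.inr (Or.inl ⟨a, ⟨ha, x1, hx1, hax⟩, Ne.symm hra, has,
      mk r a hrp ha hra x1 hx1 hrx hax, mk a b ha hb has x3 hx3 ha3 hb3⟩)
  exact Or.inr (Or.inr ⟨a, b, ⟨ha, x1, hx1, hax⟩, ⟨hb, x2, hx2, hbx⟩, Ne.symm hra, hbs, hab',
    mk r a hrp ha hra x1 hx1 hrx hax, mk a b ha hb hab' x3 hx3 ha3 hb3,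
    mk b s hb hsp hbs x2 hx2 hbx hsx⟩)

end Cfsg.Agent.S4321
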