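import Cfsg.Statements.S4323
import Cfsg.Agent.Lib.RankTwoAbelian.Main

set_option autoImplicit false
open Cfsg

namespace Cfsg.Agent.S4323

/-- Let `q` be a prime and `A` a non-cyclic group of order `q²` acting by automorphisms on a finite group `G` of order prime to `q`, such that the fixed-point subgroup `C_G(a)` is abelian for every non-identity `a ∈ A`. Then `G` is solvable. -/
theorem result {A G : Type*} [Group A] [Finite A]
    [Group G] [Finite G] [MulDistribMulAction A G] (q : ℕ) (hq : q.Prime) (hA : Nat.card A = q ^ 2) (hnc : ¬ IsCyclic A)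
    (hcop : ¬ q ∣ Nat.card G) (h : ∀ a : A, a ≠ 1 → IsMulCommutative ↥(FixedPoints.subgroup (Subgroup.zpowers a) G)) :
    Group.IsSolvable G := by
  haveI : Fact q.Prime := ⟨hq⟩
  have hcomm : ∀ a b : A, a * b = b * a :=
    haveI : IsMulCommutative A := IsPGroup.isMulCommutative_of_card_eq_prime_sq hA
    fun a b => mul_comm' a b
  have hexp : ∀ a : A, a ^ q = 1 := by
    intro a
    obtain ⟨i, hi, he⟩ := (Nat.dvd_prime_pow hq).1 (hA ▸ orderOf_dvd_natCard a : orderOf a ∣ q ^ 2)
    have hi2 : i ≠ 2 := fun e => hnc (isCyclic_of_orderOf_eq_card a (by rw [he, e, hA]))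
    exact orderOf_dvd_iff_pow_eq_one.1 (he ▸ (pow_dvd_pow q (by omega : i ≤ 1)).trans (dvd_of_eq (pow_one q)))
  have hB : CfsgLib.MetacyclicP.IsRankTwo A q := ⟨hq, hcomm, hexp, hA⟩
  refine CfsgLib.RankTwoAbelian.isSolvable_of_abelian_fixed hB _ (MulDistribMulAction.toMulAut A G) rfl
    hcop fun a ha x y hx hy => ?_
  have hmem : ∀ z : G, MulDistribMulAction.toMulAut A G a z = z →
      z ∈ FixedPoints.subgroup (Subgroup.zpowers a) G := by
    rintro z hz ⟨g, hg⟩
    exact CfsgLib.MetacyclicP.fix_of_mem_zpowers hg hz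
  exact congrArg Subtype.val ((h a ha).is_comm.comm ⟨x, hmem x hx⟩ ⟨y, hmem y hy⟩)

end Cfsg.Agent.S4323
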