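import Cfsg.Statements.S4422


set_option autoImplicit false
open Cfsg

namespace Cfsg.Agent.S4422

/-- Primitive divisors of `q^e - 1` are congruent to 1 modulo `e`. Let `q ≥ 2` and `e ≥ 1` be natural numbers and let `m` be a divisor of `q^e - 1` that is coprime to `q^i - 1` for every `1 ≤ i < e` (so `m` divides the primitive part of `q^e - 1`, the largest such divisor). Then `m ≡ 1 (mod e)`. -/
theorem result (q e m : ℕ) (hq : 2 ≤ q) (he : 1 ≤ e)
    (hm : m ∣ q ^ e - 1) (hcop : ∀ i : ℕ, 1 ≤ i → i < e → Nat.Coprime m (q ^ i - 1)) :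
    m % e = 1 % e := by
  have hm0 : m ≠ 0 := by
    rintro rfl
    rw [zero_dvd_iff, Nat.sub_eq_zero_iff_le] at hm
    exact absurd hm (by have := Nat.one_lt_pow (n := e) (a := q) (by omega) hq; omega)
  have key : ∀ r ∈ m.primeFactorsList, r ≡ 1 [MOD e] := by
    intro r hr
    have hrp := Nat.prime_of_mem_primeFactorsList hr
    have hrm := Nat.dvd_of_mem_primeFactorsList hr
    haveI : Fact r.Prime := ⟨hrp⟩
    have hd : ∀ i : ℕ, (q : ZMod r) ^ i = 1 ↔ r ∣ q ^ i - 1 := by
      intro i
      rw [← ZMod.natCast_eq_zero_iff, Nat.cast_sub (Nat.one_le_pow _ _ (by omega)), Nat.cast_pow,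
        Nat.cast_one, sub_eq_zero]
    have ho : orderOf (q : ZMod r) = e := by
      rw [orderOf_eq_iff (by omega)]
      refine ⟨(hd e).mpr (hrm.trans hm), fun i hi hi0 h => ?_⟩
      exact hrp.one_lt.ne' (Nat.eq_one_of_dvd_coprimes (hcop i hi0 hi) hrm ((hd i).mp h))
    have hq0 : (q : ZMod r) ≠ 0 := by
      intro h
      rw [h, orderOf_zero] at ho
      omega
    have := ZMod.orderOf_dvd_card_sub_one hq0
    rw [ho] at this
    exact ((Nat.modEq_iff_dvd' hrp.one_le).mpr this).symm
  have : ∀ l : List ℕ, (∀ r ∈ l, r ≡ 1 [MOD e]) → l.prod ≡ 1 [MOD e] := by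
    intro l hl
    induction l with
    | nil => rfl
    | cons a t ih =>
      rw [List.prod_cons]
      simpa using (hl a (by simp)).mul (ih fun r hr => hl r (by simp [hr]))
  have h := this _ key
  rwa [Nat.prod_primeFactorsList hm0] at h

end Cfsg.Agent.S4422
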