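import Cfsg.Statements.S4423
import Cfsg.Agent.Lib.Zsigmondy.Large

set_option autoImplicit false
open Cfsg

namespace Cfsg.Agent.S4423

set_option synthInstance.maxSize 1000 in
theorem rows_ok : ∀ row ∈ CfsgLib.Zsigmondy.smallRows,
    (row.1, row.2.1) ∈ [(2, 6), (2, 4), (2, 10), (2, 12), (2, 18), (3, 4), (3, 6), (5, 6), (2, 3), (2, 8), (2, 20), (4, 3), (4, 6)] ∨
      (row.2.2.1 ∣ row.1 ^ row.2.1 - 1 ∧ 3 * row.2.1 + 1 ≤ row.2.2.1 ∧
        ∀ i < row.2.1, 1 ≤ i → Nat.gcd row.2.2.1 (row.1 ^ i - 1) = 1) := by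
  decide +kernel

/-- The part of `q ^ e - 1` left after removing every common factor with the earlier terms. -/
def strip : List ℕ → ℕ → ℕ
  | [], m => m
  | d :: l, m => strip l (m / Nat.gcd m d)

/-- The earlier terms, each repeated. -/
def terms (q e : ℕ) : List ℕ :=
  (List.range (e - 1)).flatMap fun i => List.replicate 8 (q ^ (i + 1) - 1)

theorem dvd_strip : ∀ (l : List ℕ) (m k : ℕ), k ∣ m → (∀ d ∈ l, Nat.Coprime k d) → k ∣ strip l m
  | [], _, _, h, _ => h
  | d :: l, m, k, h, hc => by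
    refine dvd_strip l _ k ?_ fun d' hd' => hc d' (List.mem_cons_of_mem _ hd')
    have h1 := hc d (List.mem_cons_self ..)
    have h2 : Nat.Coprime k (Nat.gcd m d) := Nat.Coprime.coprime_dvd_right (Nat.gcd_dvd_right m d) h1
    have h3 : k ∣ (m / Nat.gcd m d) * Nat.gcd m d := by
      rwa [Nat.div_mul_cancel (Nat.gcd_dvd_left m d)]
    exact h2.dvd_of_dvd_mul_right h3

set_option synthInstance.maxSize 1000 in
theorem exceptions_small : ∀ qe ∈ [(2, 6), (2, 4), (2, 10), (2, 12), (2, 18), (3, 4), (3, 6), (5, 6), (2, 3), (2, 8), (2, 20), (4, 3), (4, 6)],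
    0 < strip (terms qe.1 qe.2) (qe.1 ^ qe.2 - 1) ∧
      strip (terms qe.1 qe.2) (qe.1 ^ qe.2 - 1) ≤ 2 * qe.2 + 1 := by
  decide +kernel

/-- Size of the primitive part of `q^e - 1`. For a prime power `q` and `e ≥ 3`, call a divisor of `q^e - 1` primitive when it is coprime to `q^i - 1` for every `1 ≤ i < e`; the primitive part is the largest primitive divisor. Apart from thirteen exceptional pairs, the primitive part is at least `3e + 1`: there is a primitive divisor `m ≥ 3e + 1` unless `(q, e)` is `(2, 6)` (where every primitive divisor is 1), one of `(2,4), (2,10), (2,12), (2,18), (3,4), (3,6), (5,6)` (where the primitive part is exactly `e + 1`), or one of `(2,3), (2,8), (2,20), (4,3), (4,6)` (where it is exactly `2e + 1`). The statement asserts the existence of a primitive divisor `m ≥ 3e + 1` outside the thirteen pairs, and that every primitive divisor is at most `2e + 1` for the thirteen pairs. -/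
theorem result (q e : ℕ) (hq : IsPrimePow q) (he : 3 ≤ e) :
    ((q, e) ∉ [(2, 6), (2, 4), (2, 10), (2, 12), (2, 18), (3, 4), (3, 6), (5, 6), (2, 3), (2, 8), (2, 20), (4, 3), (4, 6)] →
      ∃ m : ℕ, m ∣ q ^ e - 1 ∧ (∀ i : ℕ, 1 ≤ i → i < e → Nat.Coprime m (q ^ i - 1)) ∧ 3 * e + 1 ≤ m) ∧
    ((q, e) ∈ [(2, 6), (2, 4), (2, 10), (2, 12), (2, 18), (3, 4), (3, 6), (5, 6), (2, 3), (2, 8), (2, 20), (4, 3), (4, 6)] →
      ∀ m : ℕ, m ∣ q ^ e - 1 → (∀ i : ℕ, 1 ≤ i → i < e → Nat.Coprime m (q ^ i - 1)) → m ≤ 2 * e + 1) := by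
  constructor
  · intro hex
    have hq1 : 1 < q := hq.one_lt
    by_cases hs : e ∈ CfsgLib.Zsigmondy.smallExps ∧ (q - 1) ^ e.totient ≤ e * (2 * e + 1)
    · obtain ⟨row, hrow, rfl, rfl⟩ := CfsgLib.Zsigmondy.exists_row hq1 hs.1 hs.2
      rcases rows_ok row hrow with h | ⟨h1, h2, h3⟩
      · exact absurd h hex
      · exact ⟨_, h1, fun i hi hie => h3 i hie hi, h2⟩
    · obtain ⟨M, h1, h2, -, h4⟩ := CfsgLib.Zsigmondy.exists_large_primitive_part hq1 (by omega) hs
      refine ⟨M, h1, fun i hi hie => ?_, h4⟩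
      apply Nat.coprime_of_dvd
      intro p hp hpM hpi
      exact (h2 p hp hpM).2.2 i hi hie hpi
  · intro hex m hm hcop
    obtain ⟨hpos, hle⟩ := exceptions_small (q, e) hex
    refine le_trans (Nat.le_of_dvd hpos (dvd_strip _ _ m hm fun d hd => ?_)) hle
    simp only [terms, List.mem_flatMap, List.mem_range, List.mem_replicate] at hd
    obtain ⟨i, hi, -, rfl⟩ := hd
    exact hcop (i + 1) (by omega) (by omega)

end Cfsg.Agent.S4423
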