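import Cfsg.Statements.S4424
import Cfsg.Agent.Lib.CharDegreesTheory.BlockDegrees

set_option autoImplicit false
open Cfsg

namespace Cfsg.Agent.S4424

/-- Let χ be an irreducible character of the finite group G lying in the p-block B (relative to a maximal ideal M of the algebraic integers containing p), and let p^a be the p-part of the order of G. Then the class function that equals p^a · χ on the p-regular elements and vanishes on the p-singular elements is an integer combination of the irreducible characters in B: there are integers a_ψ, zero for ψ outside B, with that function equal to Σ a_ψ ψ. -/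
theorem result {G : Type*} [Group G] [Finite G] (p : ℕ) [Fact p.Prime] (M : Ideal Cfsg.AlgInt) (hM : Cfsg.IsPModular p M) (B : Set (Cfsg.IrrCharacter G)) (hB : Cfsg.IsPBlock M B) (χ : Cfsg.IrrCharacter G) (hχ : χ ∈ B) : ∃ a : Cfsg.IrrCharacter G → ℤ, (∀ ψ, ψ ∉ B → a ψ = 0) ∧ (fun x : G => if p ∣ orderOf x then (0 : ℂ) else ((p ^ (Nat.card G).factorization p : ℕ) : ℂ) * (χ : G → ℂ) x) = fun x => ∑ᶠ ψ : Cfsg.IrrCharacter G, (a ψ : ℂ) * (ψ : G → ℂ) x := by
  classical
  have := Fintype.ofFinite G
  have := Fintype.ofFinite (Cfsg.IrrCharacter G)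
  have := hM.2.1.isPrime
  have hw := CfsgLib.BrauerCharacters.weakOrth hM hB
  refine ⟨fun ψ => if ψ ∈ B then ((p ^ ((Nat.card G).factorization p - Cfsg.blockDefect p B) : ℕ) : ℤ) *
    CfsgLib.BrauerCharacters.regEntry p B χ ψ else 0, fun ψ hψ => if_neg hψ, ?_⟩
  funext x
  rw [finsum_eq_sum_of_fintype]
  have h1 : (if p ∣ orderOf x then (0 : ℂ) else
      ((p ^ (Nat.card G).factorization p : ℕ) : ℂ) * (χ : G → ℂ) x) =
      ((p ^ (Nat.card G).factorization p : ℕ) : ℂ) * Cfsg.pRegularPart p (χ : G → ℂ) x := by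
    rw [CfsgLib.BrauerCharacters.pRegularPart_apply]
    split_ifs <;> simp
  rw [h1, CfsgLib.BrauerCharacters.pRegularPart_eq_sum p χ, Finset.sum_apply, Finset.mul_sum]
  refine Finset.sum_congr rfl fun ψ _ => ?_
  rw [Pi.smul_apply, smul_eq_mul, ← mul_assoc]
  congr 1
  beta_reduce
  split_ifs with hψ
  · rw [Int.cast_mul, CfsgLib.BrauerCharacters.coe_regEntry hχ, Int.cast_natCast]
    push_cast
    rw [← mul_assoc, ← pow_add, Nat.sub_add_cancel (show Cfsg.blockDefect p B ≤ _ from Nat.sub_le _ _)]
  · rw [CfsgLib.BrauerCharacters.regInner_eq_zero_of_notMem hw hχ hψ, mul_zero, Int.cast_zero]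

end Cfsg.Agent.S4424
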