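import Cfsg.Statements.S4425
import Cfsg.Agent.Lib.CharDegreesTheory.BlockDegrees

set_option autoImplicit false
open Cfsg

namespace Cfsg.Agent.S4425

/-- Let χ be an irreducible character of the finite group G, p a prime, p^a the p-part of the order of G and p^b the p-part of the degree χ(1). Let χ̃ be the class function equal to p^a · χ on p-regular elements and zero on p-singular elements. Then p^(−b) · χ̃ is a generalized character of G, while p^(−(b+1)) · χ̃ is not. -/
theorem result {G : Type*} [Group G] [Finite G] (p : ℕ) [Fact p.Prime] (χ : Cfsg.IrrCharacter G) : Cfsg.IsGeneralizedCharacter G (fun x : G => if p ∣ orderOf x then (0 : ℂ) else ((p ^ ((Nat.card G).factorization p - (Cfsg.charDegree (χ : G → ℂ)).factorization p) : ℕ) : ℂ) * (χ : G → ℂ) x) ∧ ¬ Cfsg.IsGeneralizedCharacter G (fun x : G => if p ∣ orderOf x then (0 : ℂ) else ((p ^ (Nat.card G).factorization p : ℕ) : ℂ) / ((p ^ ((Cfsg.charDegree (χ : G → ℂ)).factorization p + 1) : ℕ) : ℂ) * (χ : G → ℂ) x) := by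
  classical
  have := Fintype.ofFinite G
  have := Fintype.ofFinite (Cfsg.IrrCharacter G)
  obtain ⟨M, hM⟩ := CfsgLib.CharDegreesTheory.exists_isPModular (p := p) Fact.out
  have := hM.2.1.isPrime
  set a := (Nat.card G).factorization p with ha
  set v := (Cfsg.charDegree (χ : G → ℂ)).factorization p with hv
  have hp0 : (p : ℂ) ≠ 0 := Nat.cast_ne_zero.2 (Fact.out : p.Prime).ne_zero
  have hva : v ≤ a := CfsgLib.BrauerCharacters.degree_le_factorization χ
  choose w hw hw' using fun ψ : Cfsg.IrrCharacter G =>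
    CfsgLib.BrauerCharacters.exists_int_regInner_degree p χ ψ
  have hpa : ∀ ψ : Cfsg.IrrCharacter G, (p : ℂ) ^ (a - v) *
      CfsgLib.BrauerCharacters.regInner p (χ : G → ℂ) (ψ : G → ℂ) = (w ψ : ℂ) := fun ψ => by
    refine mul_left_cancel₀ (pow_ne_zero v hp0) ?_
    rw [← mul_assoc, ← pow_add, Nat.add_sub_cancel' hva]
    exact hw ψ
  have hfun : ∀ t : ℂ, (fun x : G => if p ∣ orderOf x then (0 : ℂ) else t * (χ : G → ℂ) x) =
      t • Cfsg.pRegularPart p (χ : G → ℂ) := fun t => by
    funext x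
    rw [Pi.smul_apply, CfsgLib.BrauerCharacters.pRegularPart_apply]
    split_ifs <;> simp
  constructor
  · rw [hfun, CfsgLib.CharTheory.isGeneralizedCharacter_iff_exists_sum]
    refine ⟨w, ?_⟩
    rw [CfsgLib.BrauerCharacters.pRegularPart_eq_sum, Finset.smul_sum]
    refine Finset.sum_congr rfl fun ψ _ => ?_
    rw [smul_smul, Nat.cast_pow, hpa]
  · rw [hfun, CfsgLib.CharTheory.isGeneralizedCharacter_iff_exists_sum]
    rintro ⟨m, hm⟩
    have hB := CfsgLib.Blocks.isPBlock_blockOf (M := M) χ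
    have hχB := CfsgLib.Blocks.mem_blockOf_self (M := M) χ
    set B := Cfsg.blockOf M (χ : G → ℂ)
    obtain ⟨ψ, hψ, hψ0⟩ := CfsgLib.BrauerCharacters.exists_height_eq_zero (p := p) (B := B) ⟨χ, hχB⟩
    refine CfsgLib.BrauerCharacters.not_pow_succ_height_dvd
      (CfsgLib.BrauerCharacters.weakOrth hM hB) hM hB hχB hψ hψ0 ⟨m ψ, ?_⟩
    have h1 := congrArg (fun f => Cfsg.classInner f (ψ : G → ℂ)) hm
    simp only [CfsgLib.CharTheory.classInner_sum_irr, CfsgLib.CharTheory.classInner_smul_left] at h1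
    apply Int.cast_injective (α := ℂ)
    rw [CfsgLib.BrauerCharacters.coe_regEntry hχB]
    change (p : ℂ) ^ Cfsg.blockDefect p B * Cfsg.classInner _ _ = _
    push_cast
    rw [← h1, Nat.cast_pow, Nat.cast_pow]
    have hd := CfsgLib.BrauerCharacters.defect_add_degree (p := p) hχB
    rw [← hv, ← ha] at hd
    rw [← mul_assoc]
    congr 1
    rw [mul_div_assoc', eq_div_iff (pow_ne_zero _ hp0), ← pow_add, ← pow_add]
    congr 1
    omega

end Cfsg.Agent.S4425
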