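import Cfsg.Statements.S4426
import Cfsg.Agent.Lib.CharDegreesTheory.BlockDegrees

set_option autoImplicit false
open Cfsg

namespace Cfsg.Agent.S4426

/-- Let χ be an irreducible character in the p-block B of the finite group G (relative to a maximal ideal M of the algebraic integers containing p), let p^a be the p-part of the order of G, and let χ̃ be the class function equal to p^a · χ on p-regular elements and zero elsewhere. For ξ ∈ B the inner product [χ̃, ξ] is an integer. The following are equivalent: (a) χ has height zero in B; (b) for some ξ ∈ B the integer [χ̃, ξ] is nonzero and the exact power of p dividing it equals the exact power of p dividing ξ(1); (c) the same holds for every ξ ∈ B. -/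
theorem result {G : Type*} [Group G] [Fintype G] (p : ℕ) [Fact p.Prime] (M : Ideal Cfsg.AlgInt) (hM : Cfsg.IsPModular p M) (B : Set (Cfsg.IrrCharacter G)) (hB : Cfsg.IsPBlock M B) (χ : Cfsg.IrrCharacter G) (hχ : χ ∈ B) : (Cfsg.blockHeight p B (χ : G → ℂ) = 0 ↔ ∃ ξ ∈ B, ∃ n : ℤ, Cfsg.classInner (fun x : G => if p ∣ orderOf x then (0 : ℂ) else ((p ^ (Nat.card G).factorization p : ℕ) : ℂ) * (χ : G → ℂ) x) (ξ : G → ℂ) = (n : ℂ) ∧ n ≠ 0 ∧ padicValInt p n = (Cfsg.charDegree (ξ : G → ℂ)).factorization p) ∧ (Cfsg.blockHeight p B (χ : G → ℂ) = 0 ↔ ∀ ξ ∈ B, ∃ n : ℤ, Cfsg.classInner (fun x : G => if p ∣ orderOf x then (0 : ℂ) else ((p ^ (Nat.card G).factorization p : ℕ) : ℂ) * (χ : G → ℂ) x) (ξ : G → ℂ) = (n : ℂ) ∧ n ≠ 0 ∧ padicValInt p n = (Cfsg.charDegree (ξ : G → ℂ)).factorization p) := by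
  classical
  have := hM.2.1.isPrime
  have hw := CfsgLib.BrauerCharacters.weakOrth hM hB
  set a := (Nat.card G).factorization p with ha
  set d := Cfsg.blockDefect p B with hd
  have hda : d ≤ a := Nat.sub_le _ _
  have hval : ∀ ξ ∈ B, Cfsg.classInner (fun x : G => if p ∣ orderOf x then (0 : ℂ) else
      ((p ^ a : ℕ) : ℂ) * (χ : G → ℂ) x) (ξ : G → ℂ) =
      (((p : ℤ) ^ (a - d) * CfsgLib.BrauerCharacters.regEntry p B ξ χ : ℤ) : ℂ) := by
    intro ξ hξ
    rw [show (fun x : G => if p ∣ orderOf x then (0 : ℂ) else ((p ^ a : ℕ) : ℂ) * (χ : G → ℂ) x) =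
      ((p ^ a : ℕ) : ℂ) • Cfsg.pRegularPart p (χ : G → ℂ) by
        funext x
        rw [Pi.smul_apply, CfsgLib.BrauerCharacters.pRegularPart_apply]
        split_ifs <;> simp,
      CfsgLib.CharTheory.classInner_smul_left, Int.cast_mul, CfsgLib.BrauerCharacters.coe_regEntry hξ]
    push_cast
    rw [← mul_assoc, ← pow_add, Nat.sub_add_cancel hda,
      CfsgLib.BrauerCharacters.regInner_comm]
    rfl
  have hiff : ∀ ξ ∈ B, (∃ n : ℤ, Cfsg.classInner (fun x : G => if p ∣ orderOf x then (0 : ℂ) else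
      ((p ^ a : ℕ) : ℂ) * (χ : G → ℂ) x) (ξ : G → ℂ) = (n : ℂ) ∧ n ≠ 0 ∧
      padicValInt p n = (Cfsg.charDegree (ξ : G → ℂ)).factorization p) ↔
      Cfsg.blockHeight p B (χ : G → ℂ) = 0 := by
    intro ξ hξ
    have hdeg := CfsgLib.BrauerCharacters.defect_add_degree (p := p) hξ
    rw [← hd, ← ha] at hdeg
    set h := Cfsg.blockHeight p B (ξ : G → ℂ)
    set X := CfsgLib.BrauerCharacters.regEntry p B ξ χ with hX
    have hh : (p : ℤ) ^ h ∣ X := CfsgLib.BrauerCharacters.pow_height_dvd hξ χ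
    have key : ∀ n : ℤ, n = (p : ℤ) ^ (a - d) * X → n ≠ 0 →
        (padicValInt p n = (Cfsg.charDegree (ξ : G → ℂ)).factorization p ↔
          ¬ (p : ℤ) ^ (h + 1) ∣ X) := by
      intro n hn hn0
      have hX0 : X ≠ 0 := fun h0 => hn0 (by rw [hn, h0, mul_zero])
      rw [hn, padicValInt.mul (pow_ne_zero _ (Nat.cast_ne_zero.2 (Fact.out : p.Prime).ne_zero)) hX0,
        show padicValInt p ((p : ℤ) ^ (a - d)) = a - d by
          rw [← Nat.cast_pow, padicValInt.of_nat, padicValNat.prime_pow]]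
      have h1 := (padicValInt_dvd_iff (p := p) h X).1 hh
      rw [padicValInt_dvd_iff (h + 1) X]
      have h2 := h1.resolve_left hX0
      constructor
      · intro he hc
        rcases hc with hc | hc
        · exact hX0 hc
        · omega
      · intro hc
        push Not at hc
        have := hc.2
        omega
    constructor
    · rintro ⟨n, hn, hn0, hv⟩
      by_contra h0
      rw [hval ξ hξ, Int.cast_inj] at hn
      exact ((key n hn.symm hn0).1 hv)
        (CfsgLib.BrauerCharacters.pow_succ_height_dvd_of_pos hM hB hξ hχ (Nat.pos_of_ne_zero h0))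
    · intro h0
      have hn0 : (p : ℤ) ^ (a - d) * X ≠ 0 := mul_ne_zero
        (pow_ne_zero _ (Nat.cast_ne_zero.2 (Fact.out : p.Prime).ne_zero))
        (CfsgLib.BrauerCharacters.regEntry_ne_zero hw hM hB hξ hχ h0)
      exact ⟨_, hval ξ hξ, hn0, (key _ rfl hn0).2
        (CfsgLib.BrauerCharacters.not_pow_succ_height_dvd hw hM hB hξ hχ h0)⟩
  exact ⟨⟨fun h => ⟨χ, hχ, (hiff χ hχ).2 h⟩, fun ⟨ξ, hξ, hn⟩ => (hiff ξ hξ).1 hn⟩,
    ⟨fun h ξ hξ => (hiff ξ hξ).2 h, fun h => (hiff χ hχ).1 (h χ hχ)⟩⟩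

end Cfsg.Agent.S4426
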