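import Cfsg.Statements.S4430
import Cfsg.Agent.Lib.CharDegreesTheory.InducedParts

set_option autoImplicit false
open Cfsg

namespace Cfsg.Agent.S4430

/-- Let H be a subgroup of the finite group G, b a block of H whose induced block B₀ in G is defined (relative to a maximal ideal M of the algebraic integers containing p), and ξ ∈ b. For a block B of G let n_B be the value at 1 of the B-part of the induced character ξ^G (a natural number: the sum over χ ∈ B of the multiplicity of χ in ξ^G times χ(1)). Then for B = B₀ the exact power of p dividing n_B equals the exact power of p dividing ξ^G(1), while for every other block B either n_B = 0 or n_B is divisible by a strictly higher power of p than ξ^G(1). -/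
theorem result {G : Type*} [Group G] [Fintype G] (p : ℕ) [Fact p.Prime] (M : Ideal Cfsg.AlgInt) (hM : Cfsg.IsPModular p M) (H : Subgroup G) [Fintype H] (b : Set (Cfsg.IrrCharacter H)) (B₀ : Set (Cfsg.IrrCharacter G)) (hind : Cfsg.IsInducedBlock M H b B₀) (ξ : Cfsg.IrrCharacter H) (hξ : ξ ∈ b) : (∃ n : ℕ, Cfsg.blockPart B₀ (Cfsg.indFun H (ξ : H → ℂ)) 1 = (n : ℂ) ∧ n ≠ 0 ∧ n.factorization p = (Cfsg.charDegree (Cfsg.indFun H (ξ : H → ℂ))).factorization p) ∧ ∀ B : Set (Cfsg.IrrCharacter G), Cfsg.IsPBlock M B → B ≠ B₀ → ∃ n : ℕ, Cfsg.blockPart B (Cfsg.indFun H (ξ : H → ℂ)) 1 = (n : ℂ) ∧ (n = 0 ∨ (Cfsg.charDegree (Cfsg.indFun H (ξ : H → ℂ))).factorization p < n.factorization p) := by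
  classical
  have := hM.2.1.isPrime
  have hD : Cfsg.indFun H (ξ : H → ℂ) 1 = ((H.index * Cfsg.charDegree (ξ : H → ℂ) : ℕ) : ℂ) := by
    rw [CfsgLib.Frobenius.indFun_one, Nat.cast_mul, CfsgLib.BlockLocal.coe_charDegree]
  have hdeg : Cfsg.charDegree (Cfsg.indFun H (ξ : H → ℂ)) = H.index * Cfsg.charDegree (ξ : H → ℂ) := by
    rw [Cfsg.charDegree, hD, Complex.natCast_re, Nat.floor_natCast]
  have hD0 : H.index * Cfsg.charDegree (ξ : H → ℂ) ≠ 0 :=
    mul_ne_zero Subgroup.index_ne_zero_of_finite (CfsgLib.BlockLocal.charDegree_irr_ne_zero ξ)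
  refine ⟨?_, fun B hB hne => ?_⟩
  · obtain ⟨n, u, hn, hu, he, hi⟩ :=
      CfsgLib.CharDegreesTheory.blockPart_indFun_one hM hind hξ (B := B₀) hind.2.1
    rw [hD] at he
    have hu' : ¬ Cfsg.MemLocalIdeal M u := fun h => hi.1 h rfl
    have hn0 : n ≠ 0 := by
      intro h0
      rw [h0, Nat.cast_zero, zero_eq_mul] at he
      rcases he with he | he
      · exact hD0 (Nat.cast_eq_zero.1 he)
      · exact hu' (he ▸ CfsgLib.Blocks.memLocalIdeal_zero)
    obtain ⟨h1, h2⟩ := CfsgLib.CharDegreesTheory.factorization_le_of_eq_mul hM hn0 hD0 hu he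
    refine ⟨n, hn, hn0, ?_⟩
    rw [hdeg]
    exact le_antisymm (not_lt.1 fun h => hu' (h2.2 h)) h1
  · obtain ⟨n, u, hn, hu, he, hi⟩ :=
      CfsgLib.CharDegreesTheory.blockPart_indFun_one hM hind hξ hB
    rw [hD] at he
    refine ⟨n, hn, or_iff_not_imp_left.2 fun hn0 => ?_⟩
    rw [hdeg]
    exact (CfsgLib.CharDegreesTheory.factorization_le_of_eq_mul hM hn0 hD0 hu he).2.1 (hi.2 hne)

end Cfsg.Agent.S4430
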