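import Cfsg.Statements.S4431
import Cfsg.Agent.Lib.BlockLocal.WeakOrth

set_option autoImplicit false
open Cfsg

namespace Cfsg.Agent.S4431

/-- Let H be a subgroup of the finite group G and b a block of H whose induced block B₀ in G is defined (relative to a maximal ideal M of the algebraic integers containing p). Let χ be an irreducible character of G, ψ ∈ b, and let η be the class function on H equal to p^a · χ on the p-regular elements of H and zero elsewhere, p^a being the p-part of the order of H. Then (a) if χ ∉ B₀, the number [η, ψ]/ψ(1) lies in the local ideal at M; (b) if χ ∈ B₀ has height zero, it does not. -/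
theorem result {G : Type*} [Group G] [Fintype G] (p : ℕ) [Fact p.Prime] (M : Ideal Cfsg.AlgInt) (hM : Cfsg.IsPModular p M) (H : Subgroup G) [Fintype H] (b : Set (Cfsg.IrrCharacter H)) (B₀ : Set (Cfsg.IrrCharacter G)) (hind : Cfsg.IsInducedBlock M H b B₀) (χ : Cfsg.IrrCharacter G) (ψ : Cfsg.IrrCharacter H) (hψ : ψ ∈ b) : (χ ∉ B₀ → Cfsg.MemLocalIdeal M (Cfsg.classInner (fun h : H => if p ∣ orderOf h then (0 : ℂ) else ((p ^ (Nat.card H).factorization p : ℕ) : ℂ) * (χ : G → ℂ) h) (ψ : H → ℂ) / (ψ : H → ℂ) 1)) ∧ (χ ∈ B₀ → Cfsg.blockHeight p B₀ (χ : G → ℂ) = 0 → ¬ Cfsg.MemLocalIdeal M (Cfsg.classInner (fun h : H => if p ∣ orderOf h then (0 : ℂ) else ((p ^ (Nat.card H).factorization p : ℕ) : ℂ) * (χ : G → ℂ) h) (ψ : H → ℂ) / (ψ : H → ℂ) 1)) := by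
  classical
  have := hM.2.1.isPrime
  set m := ordCompl[p] (Nat.card H) with hm
  have hH : (Nat.card H : ℂ) =
      ((p ^ (Nat.card H).factorization p : ℕ) : ℂ) * ((m : ℕ) : ℂ) := by
    rw [← Nat.cast_mul, hm, Nat.ordProj_mul_ordCompl_eq_self]
  have hm0 : ¬ p ∣ m := Nat.not_dvd_ordCompl Fact.out Nat.card_pos.ne'
  have hval : Cfsg.classInner (fun h : H => if p ∣ orderOf h then (0 : ℂ) else
      ((p ^ (Nat.card H).factorization p : ℕ) : ℂ) * (χ : G → ℂ) h) (ψ : H → ℂ) / (ψ : H → ℂ) 1 =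
      (m : ℂ)⁻¹ * (CfsgLib.BlockLocal.pairReg p (ψ : H → ℂ) (fun k : H => (χ : G → ℂ) k) /
        (ψ : H → ℂ) 1) := by
    rw [CfsgLib.BlockLocal.pairReg_comm, ← mul_div_assoc]
    congr 1
    rw [Cfsg.classInner, CfsgLib.BlockLocal.pairReg, hH, mul_inv, Finset.mul_sum, Finset.mul_sum]
    refine Finset.sum_congr rfl fun k _ => ?_
    simp only [CfsgLib.BlockLocal.regInv]
    rw [CfsgLib.CharTheory.IsIrrCharacter.inv ψ.2]
    have hp : ((p ^ (Nat.card H).factorization p : ℕ) : ℂ) ≠ 0 :=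
      Nat.cast_ne_zero.2 (pow_ne_zero _ (Fact.out : p.Prime).ne_zero)
    split_ifs
    · simp
    · field_simp
  rw [hval]
  obtain ⟨φ, hφ⟩ := CfsgLib.Blocks.isPBlock_nonempty hind.2.1
  constructor
  · intro hχ
    have h1 := CfsgLib.BlockLocal.memLocalIdeal_pairReg_res_sub (p := p) hind hψ hφ χ
    rw [CfsgLib.BlockLocal.pairReg_eq_zero' hM
      (fun hs => hχ (CfsgLib.Blocks.mem_of_sameBlock hind.2.1 hφ hs)), zero_div, sub_zero] at h1
    exact CfsgLib.Blocks.memLocalIdeal_mul_left (CfsgLib.Blocks.memLocalRing_inv_natCast hM hm0) h1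
  · intro hχ h0 hc
    have h1 := CfsgLib.BlockLocal.memLocalIdeal_pairReg_res_sub (p := p) hind hψ hχ χ
    have h2 := CfsgLib.Blocks.memLocalIdeal_mul_left
      (CfsgLib.Blocks.memLocalRing_natCast (M := M) m) hc
    rw [← mul_assoc, mul_inv_cancel₀ (Nat.cast_ne_zero.2 fun h => hm0 (by rw [h]; exact dvd_zero p)),
      one_mul] at h2
    have h3 := CfsgLib.Blocks.memLocalIdeal_sub h2 h1
    rw [sub_sub_cancel] at h3
    exact CfsgLib.BlockLocal.not_memLocalIdeal_pairReg' hM hind.2.1 hχ h0 h3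

end Cfsg.Agent.S4431
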