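import Cfsg.Statements.S4433
import Cfsg.Agent.Lib.CharDegreesTheory.InflationBlocks

set_option autoImplicit false
open Cfsg

namespace Cfsg.Agent.S4433

open CfsgLib CfsgLib.BrauerPairs CfsgLib.CharDegreesTheory MonoidAlgebra

/-- Let N be a normal subgroup of the finite group G and write Ḡ = G/N; fix a maximal ideal M of the algebraic integers containing p. Let B̄ be a block of Ḡ contained in the block B of G, in the sense that the inflation of every member of B̄ lies in B, and let D̄ be a defect group of B̄. Then B has a defect group P whose image in Ḡ contains D̄. -/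
theorem result {G : Type*} [Group G] [Finite G] (p : ℕ) [Fact p.Prime] (M : Ideal Cfsg.AlgInt) (hM : Cfsg.IsPModular p M) (N : Subgroup G) [N.Normal] (Bbar : Set (Cfsg.IrrCharacter (G ⧸ N))) (hBbar : Cfsg.IsPBlock M Bbar) (B : Set (Cfsg.IrrCharacter G)) (hB : Cfsg.IsPBlock M B) (hsub : ∀ χ ∈ Bbar, ∀ ψ : Cfsg.IrrCharacter G, (ψ : G → ℂ) = (χ : G ⧸ N → ℂ) ∘ QuotientGroup.mk → ψ ∈ B) (Dbar : Subgroup (G ⧸ N)) (hDbar : Cfsg.IsDefectGroup p M Bbar Dbar) : ∃ P : Subgroup G, Cfsg.IsDefectGroup p M B P ∧ Dbar ≤ P.map (QuotientGroup.mk' N) := by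
  have : M.IsPrime := Blocks.isPrime_of_isPModular hM
  have : CharP (Blocks.Res M) p := Blocks.charP_res hM
  set φ := QuotientGroup.mk' N with hφdef
  have hφ : Function.Surjective φ := QuotientGroup.mk'_surjective N
  set e := redElem M (blockCoeff B) with he
  set f := redElem M (blockCoeff Bbar) with hf
  have hef : mapG φ e * f = f := (inflate_mem_iff hφ hB hBbar).1 hsub
  have hfb := isBlockIdem_redElem_blockCoeff (M := M) hBbar
  obtain ⟨P, hP⟩ := exists_isDefectGroup hM hB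
  have hPin := (isDefectGroup_iff hM hB).1 hP
  obtain ⟨a, -, haP, htr⟩ := hPin.2.2.2
  obtain ⟨-, hDp, hbr, -⟩ := (isDefectGroup_iff hM hBbar).1 hDbar
  have hfix : f ∈ fixedBy (Blocks.Res M) (⊤ : Subgroup (G ⧸ N)) := (mem_ctr.1 hfb.mem).2
  have htrf : relTr (P.map φ) ⊤
      (((P.relIndex (P ⊔ φ.ker) : ℕ) : Blocks.Res M) • mapG φ a * f) = f := by
    rw [← relTr_mul _ _ hfix, ← mapG_relTr_eq hφ P haP, htr]
    exact hef
  rw [← hf, ← htrf] at hbr
  obtain ⟨c, -, hc⟩ := exists_conj_le_of_brau_relTr_ne_zero hDp le_top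
    (mul_mem ((fixedBy (Blocks.Res M) (P.map φ)).smul_mem (mapG_mem_fixedBy_map φ haP) _)
      (fixedBy_anti le_top hfix)) hbr
  obtain ⟨g, rfl⟩ := hφ c
  refine ⟨cj g P, (isDefectGroup_iff hM hB).2 ?_, fun u hu => ?_⟩
  · have h := hPin.conj_cj g
    rwa [cj_of_mem (Subgroup.mem_top g) (H := ⊤), (mem_ctr.1
      (isBlockIdem_redElem_blockCoeff hB).mem).2 g (Subgroup.mem_top g)] at h
  · obtain ⟨v, hv, hv'⟩ := hc u hu
    refine ⟨g * v * g⁻¹, ⟨v, hv, rfl⟩, ?_⟩
    rw [map_mul, map_mul, map_inv, hv']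
    group

end Cfsg.Agent.S4433
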