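import Cfsg.Statements.S4435
import Cfsg.Agent.Lib.CharDegreesTheory.BlockStabilizer

set_option autoImplicit false
open Cfsg

namespace Cfsg.Agent.S4435

open CfsgLib CfsgLib.CharDegreesTheory

/-- Let N be a normal subgroup of the finite group G, b a block of N (relative to a maximal ideal M of the algebraic integers containing p), and T the stabilizer of b in G (the elements g such that conjugating any member of b by g gives a member of b); N ≤ T. Say that a block of T (or of G) covers b when some member has a constituent in b on restriction to N. Then: (i) every block B′ of T covering b induces a block B of G, B covers b, every ψ ∈ B′ induces to an irreducible character of G, and B consists exactly of the characters induced from members of B′; (ii) distinct blocks of T covering b induce distinct blocks of G; (iii) every block of G covering b is induced by some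 block of T covering b. -/
theorem result {G : Type*} [Group G] [Fintype G] (p : ℕ) [Fact p.Prime] (M : Ideal Cfsg.AlgInt) (hM : Cfsg.IsPModular p M) (N : Subgroup G) [hN : N.Normal] [Fintype N] (b : Set (Cfsg.IrrCharacter N)) (hb : Cfsg.IsPBlock M b) (T : Subgroup G) [Fintype T] (hT : ∀ g : G, g ∈ T ↔ ∀ θ ∈ b, ∀ θ' : Cfsg.IrrCharacter N, (∀ n : N, (θ' : N → ℂ) n = (θ : N → ℂ) ⟨g * n * g⁻¹, hN.conj_mem n n.2 g⟩) → θ' ∈ b) (hNT : N ≤ T) : (∀ B' : Set (Cfsg.IrrCharacter T), Cfsg.IsPBlock M B' → (∃ ψ ∈ B', ∃ θ ∈ b, Cfsg.classInner (fun n : N => (ψ : T → ℂ) ⟨(n : G), hNT n.2⟩) (θ : N → ℂ) ≠ 0) → ∃ B : Set (Cfsg.IrrCharacter G), Cfsg.IsInducedBlock M T B' B ∧ (∃ χ ∈ B, ∃ θ ∈ b, Cfsg.classInner (fun n : N => (χ : G → ℂ) n) (θ : N → ℂ) ≠ 0) ∧ (∀ ψ ∈ B', Cfsg.IsIrrCharacter G (Cfsg.indFun T (ψ : T → ℂ))) ∧ ∀ χ : Cfsg.IrrCharacter G, χ ∈ B ↔ ∃ ψ ∈ B', (χ : G → ℂ) = Cfsg.indFun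 T (ψ : T → ℂ)) ∧ (∀ B'₁ B'₂ : Set (Cfsg.IrrCharacter T), Cfsg.IsPBlock M B'₁ → Cfsg.IsPBlock M B'₂ → (∃ ψ ∈ B'₁, ∃ θ ∈ b, Cfsg.classInner (fun n : N => (ψ : T → ℂ) ⟨(n : G), hNT n.2⟩) (θ : N → ℂ) ≠ 0) → (∃ ψ ∈ B'₂, ∃ θ ∈ b, Cfsg.classInner (fun n : N => (ψ : T → ℂ) ⟨(n : G), hNT n.2⟩) (θ : N → ℂ) ≠ 0) → ∀ B : Set (Cfsg.IrrCharacter G), Cfsg.IsInducedBlock M T B'₁ B → Cfsg.IsInducedBlock M T B'₂ B → B'₁ = B'₂) ∧ (∀ B : Set (Cfsg.IrrCharacter G), Cfsg.IsPBlock M B → (∃ χ ∈ B, ∃ θ ∈ b, Cfsg.classInner (fun n : N => (χ : G → ℂ) n) (θ : N → ℂ) ≠ 0) → ∃ B' : Set (Cfsg.IrrCharacter T), Cfsg.IsPBlock M B' ∧ (∃ ψ ∈ B', ∃ θ ∈ b, Cfsg.classInner (fun n : N => (ψ : T → ℂ) ⟨(n : G), hNT n.2⟩) (θ : N → ℂ) ≠ 0) ∧ Cfsg.IsInducedBlock M T B' B) := by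
  have : M.IsPrime := Blocks.isPrime_of_isPModular hM
  have hT' : ∀ g : G, g ∈ T ↔ ∀ θ ∈ b, BlockLocal.conjIrr N g θ ∈ b := by
    intro g
    rw [← inv_mem_iff, hT]
    refine forall₂_congr fun θ _ => ⟨fun h => h _ fun n => ?_, fun h θ' hθ' => ?_⟩
    · rw [BlockLocal.conjIrr_apply]
      exact congrArg _ (Subtype.ext (MulAut.conjNormal_apply g⁻¹ n))
    · have he : θ' = BlockLocal.conjIrr N g θ := by
        refine Subtype.ext (funext fun n => ?_)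
        rw [BlockLocal.conjIrr_apply, hθ']
        exact congrArg _ (Subtype.ext (MulAut.conjNormal_apply g⁻¹ n).symm)
      exact he ▸ h
  refine ⟨fun B' hB' hcov => ?_, fun B₁ B₂ h₁ h₂ hc₁ hc₂ B hi₁ hi₂ => ?_, fun B hB hcov => ?_⟩
  · obtain ⟨B, hind, hc, hmem⟩ := exists_induced_block hb hT' hNT hB' hcov
    refine ⟨B, hind, hc, fun ψ hψ => ?_, hmem⟩
    obtain ⟨ψ₀, h₀, ho₀⟩ := hcov
    obtain ⟨χ, hχ, -⟩ :=
      exists_induced_over hb hT' hNT ψ (overBlock_of_mem hb hNT hB' h₀ ho₀ hψ)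
    rw [← hχ]
    exact χ.2
  · obtain ⟨ψ₁, hψ₁, ho₁⟩ := hc₁
    obtain ⟨ψ₂, hψ₂, ho₂⟩ := hc₂
    exact eq_of_isInducedBlock hb hT' hNT hψ₁ ho₁ hψ₂ ho₂ hi₁ hi₂
  · obtain ⟨χ, hχ, θ, hθ, h⟩ := hcov
    obtain ⟨φ, hφo, hφ⟩ := exists_indFun_eq hb hT' hNT χ hθ h
    have hB' := Blocks.isPBlock_blockOf (M := M) φ
    have hφm := Blocks.mem_blockOf_self (M := M) φ
    obtain ⟨B₂, hind, -, hmem⟩ := exists_induced_block hb hT' hNT hB' ⟨φ, hφm, hφo⟩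
    refine ⟨_, hB', ⟨φ, hφm, hφo⟩, ?_⟩
    rwa [Blocks.isPBlock_eq_of_mem hB hind.2.1 hχ ((hmem χ).2 ⟨φ, hφm, hφ⟩)]

end Cfsg.Agent.S4435
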