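import Cfsg.Statements.S4437
import Cfsg.Agent.Lib.BrauerPairs.InducedBridge
import Cfsg.Agent.Lib.BrauerPairs.Nilpotent
import Cfsg.Agent.Lib.BrauerPairs.BridgeDefect

set_option autoImplicit false
open Cfsg

namespace Cfsg.Agent.S4437

open CfsgLib CfsgLib.BrauerPairs

/-- Let P be a p-subgroup of the finite group G, H = P·C_G(P), and b a block of H (relative to a maximal ideal M of the algebraic integers containing p) having P as a defect group; let B be the block of G induced by b. Let T be the stabilizer of b in N_G(P): the elements g of N_G(P) such that the g-conjugate of every member of b is again a member of b. Then B has defect group P if and only if p does not divide the index of H in T. -/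
theorem result {G : Type*} [Group G] [Fintype G] (p : ℕ) [Fact p.Prime] (M : Ideal Cfsg.AlgInt) (hM : Cfsg.IsPModular p M) (P : Subgroup G) (hP : IsPGroup p P) (H : Subgroup G) [Fintype H] (hH : H = P ⊔ Subgroup.centralizer (P : Set G)) (b : Set (Cfsg.IrrCharacter H)) (hb : Cfsg.IsPBlock M b) (hbP : Cfsg.IsDefectGroup p M b (P.subgroupOf H)) (B : Set (Cfsg.IrrCharacter G)) (hind : Cfsg.IsInducedBlock M H b B) (T : Subgroup G) (hT : ∀ g : G, g ∈ T ↔ (g ∈ Subgroup.normalizer (P : Set G) ∧ ∀ θ ∈ b, ∀ θ' : Cfsg.IrrCharacter H, (∀ h h' : H, (h' : G) = g * h * g⁻¹ → (θ' : H → ℂ) h' = (θ : H → ℂ) h) → θ' ∈ b)) : Cfsg.IsDefectGroup p M B P ↔ ¬ p ∣ H.relIndex T := by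
  have : M.IsMaximal := hM.2.1
  have : M.IsPrime := Blocks.isPrime_of_isPModular hM
  have : IsAlgClosed (Blocks.Res M) := Blocks.isAlgClosed_res
  have : CharP (Blocks.Res M) p := Blocks.charP_res hM
  set C : Subgroup G := Subgroup.centralizer (P : Set G) with hC
  set N : Subgroup G := Subgroup.normalizer (P : Set G) with hN
  have hPH : P ≤ H := hH ▸ le_sup_left
  have hCH : C ≤ H := hH ▸ le_sup_right
  have hHN : H ≤ N := hH ▸ sup_le Subgroup.le_normalizer (Subgroup.centralizer_le_normalizer _)
  set e := redElem M (blockCoeff B) with he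
  set f := subIdem M H b with hf
  have hB : IsPBlock M B := hind.2.1
  have heb : IsBlockIdem (⊤ : Subgroup G) e := isBlockIdem_redElem_blockCoeff hB
  have hfb : IsBlockIdem H f := isBlockIdem_subIdem hb
  have hef : brau P e * f = f := (isInducedBlock_iff hM hP hPH hHN hCH hb hB).1 hind
  have hfC : f ∈ supp (Blocks.Res M) C := by
    have := mem_supp_cenIn_of_idem hP hPH hHN hfb.mem hfb.mul_self
    exact supp_mono inf_le_right this
  have hfCb : IsBlockIdem (cenIn (⊤ : Subgroup G) P) f := by
    rw [cenIn_top]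
    refine ⟨mem_ctr.2 ⟨hfC, fixedBy_anti hCH (mem_ctr.1 hfb.mem).2⟩, hfb.mul_self, hfb.ne_zero,
      fun g hg hgg => ?_⟩
    refine hfb.2.2.2 g (mem_ctr.2 ⟨supp_mono hCH (mem_ctr.1 hg).1, ?_⟩) hgg
    refine le_stabA_iff.1 ?_
    rw [hH]
    exact sup_le (le_stabA_iff.2 (fixedBy_self_of_supp_cen (mem_ctr.1 hg).1))
      (le_stabA_iff.2 (mem_ctr.1 hg).2)
  have hpair : IsPair p (⊤ : Subgroup G) P f := ⟨hP, le_top, hfCb⟩
  have hpo : PairOf p (⊤ : Subgroup G) e P f := ⟨hpair, hef⟩
  have hTeq : T = pairStab (⊤ : Subgroup G) P f := by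
    have hNH : N ≤ Subgroup.normalizer (H : Set G) := by
      intro x hx
      have hcj : cj x H = H := by
        rw [hH]
        show Subgroup.map _ (P ⊔ C) = P ⊔ C
        rw [Subgroup.map_sup]
        congr 1
        · exact cj_of_mem_normalizer hx
        · exact cj_of_mem_normalizer (normalizer_le_normalizer_cen P hx)
      refine Subgroup.mem_normalizer_iff.2 fun u => ⟨fun hu => ?_, fun hu => ?_⟩
      · rw [← hcj]
        exact ⟨u, hu, rfl⟩
      · rw [← hcj, mem_cj] at hu
        simpa [mul_assoc] using hu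
    ext x
    rw [hT, mem_pairStab]
    refine ⟨fun h => ⟨trivial, h.1, ?_⟩, fun h => ⟨h.2.1, ?_⟩⟩
    · have hK : H = cj x H := (cj_of_mem_normalizer (hNH h.1)).symm
      rw [hf, ← subIdem_image hK]
      congr 1
      obtain ⟨θ, hθ⟩ := Blocks.isPBlock_nonempty hb
      refine Blocks.isPBlock_eq_of_mem (isPBlock_image_compIrr (cjEquiv x hK) hb) hb
        (χ := compIrr (cjEquiv x hK) θ) ⟨θ, hθ, rfl⟩ (h.2 θ hθ _ fun a a' haa => ?_)
      rw [compIrr_apply]
      refine congrArg _ (Subtype.ext ?_)
      rw [coe_cjEquiv, haa]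
      group
    · intro θ hθ θ' hθ'
      have hK : H = cj x H := (cj_of_mem_normalizer (hNH h.2.1)).symm
      have himg : compIrr (cjEquiv x hK) '' b = b := by
        refine subIdem_injective (M := M) (isPBlock_image_compIrr (cjEquiv x hK) hb) hb ?_
        rw [subIdem_image hK]
        exact h.2.2
      have : θ' = compIrr (cjEquiv x hK) θ := Subtype.ext (funext fun a' => by
        rw [compIrr_apply]
        exact hθ' _ a' (by rw [coe_cjEquiv]; group))
      rw [this, ← himg]
      exact ⟨θ, hθ, rfl⟩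
  have hHT : H ≤ pairStab (⊤ : Subgroup G) P f :=
    le_inf (le_inf le_top hHN) (le_stabA_iff.2 (mem_ctr.1 hfb.mem).2)
  rw [isDefectGroup_iff hM hB, hTeq]
  constructor
  · intro hD
    have hmax : IsMaxPair p (⊤ : Subgroup G) e P f := by
      refine hpo.isMaxPair_of_card fun R g hg => ?_
      obtain ⟨c, -, hc⟩ := hD.exists_conj_le hg.1.1 le_top
        (fun h0 => hg.1.2.2.ne_zero (by rw [← hg.2, h0, zero_mul]))
      exact Nat.card_le_card_of_injective (fun u : R => (⟨c⁻¹ * u * c, hc u u.2⟩ : P))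
        fun u v huv => Subtype.ext (by simpa using congrArg Subtype.val huv)
    have := hmax.not_dvd_relIndex heb
    rw [cenIn_top] at this
    rwa [hH]
  · intro hidx
    have hD := (isDefectGroup_sub_iff hM hb).1 hbP
    rw [Subgroup.map_subgroupOf_eq_of_le hPH, ← hf] at hD
    obtain ⟨-, -, hbr, a, has, haP, htr⟩ := hD
    have hfe : brau P f = f := trunc_eq_self hfC
    have hHC : H ≤ Subgroup.normalizer (C : Set G) :=
      hHN.trans (normalizer_le_normalizer_cen P)
    have ha' : relTr P H (brau P a) = f := by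
      rw [← trunc_relTr hHC, htr]
      exact hfe
    have ha'P : brau P a ∈ fixedBy (Blocks.Res M) P :=
      trunc_mem_fixedBy ((le_refl P).trans (hPH.trans hHC)) haP
    have hne : ((H.relIndex (pairStab (⊤ : Subgroup G) P f) : ℕ) : Blocks.Res M) ≠ 0 := by
      rw [Ne, CharP.cast_eq_zero_iff (Blocks.Res M) p]
      exact hidx
    have hmax : IsMaxPair p (⊤ : Subgroup G) e P f := by
      refine isMaxPair_of_isDefectIn_stab hpo ⟨hPH.trans hHT, hP, ?_, ?_⟩
      · rw [hfe]
        exact hfb.ne_zero
      · refine ⟨((H.relIndex (pairStab (⊤ : Subgroup G) P f) : ℕ) : Blocks.Res M)⁻¹ • brau P a,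
          ?_, (fixedBy (Blocks.Res M) P).smul_mem ha'P _, ?_⟩
        · rw [cenIn_top]
          exact (supp (Blocks.Res M) C).smul_mem (trunc_mem_supp C a) _
        · rw [map_smul, relTr_trans hPH hHT ha'P, ha',
            relTr_of_fixed H (pairStab (⊤ : Subgroup G) P f) (fun t ht => (mem_pairStab.1 ht).2.2),
            smul_smul, inv_mul_cancel₀ hne, one_smul]
    exact hmax.isDefectIn heb

end Cfsg.Agent.S4437
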