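import Cfsg.Statements.S4441
import Cfsg.Agent.Lib.DefectOne.Principal

set_option autoImplicit false
open Cfsg

namespace Cfsg.Agent.S4441

/-- Let p be an odd prime and G a finite group whose Sylow p-subgroup P has order p; let C = C_G(P), N = N_G(P), e the index of C in N and t = (p − 1)/e; fix a maximal ideal M of the algebraic integers containing p and let B₀ be the principal block. Then B₀ is the disjoint union of a set X of e characters and a set Y of t characters such that: each χ ∈ X has a sign ε_χ with χ(1) ≡ ε_χ (mod p) and χ(x y) = ε_χ for every non-identity x ∈ P and every p-regular y ∈ C; all members of Y agree on the p-regular elements of G; there is one sign ε with θ(1) ≡ ε e (mod p) for every θ ∈ Y; and for every θ ∈ Y and every p-regular g, ε θ(g) = Σ_{χ ∈ X} ε_χ χ(g). -/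
theorem result {G : Type*} [Group G] [Fintype G] (p : ℕ) [Fact p.Prime] (M : Ideal Cfsg.AlgInt) (hM : Cfsg.IsPModular p M) (hodd : p ≠ 2) (P : Sylow p G) (hP : Nat.card P = p) (e : ℕ) (he : (Subgroup.centralizer ((P : Subgroup G) : Set G)).relIndex (Subgroup.normalizer ((P : Subgroup G) : Set G)) = e) : ∃ X Y : Set (Cfsg.IrrCharacter G), Cfsg.principalBlock M G = X ∪ Y ∧ Disjoint X Y ∧ Nat.card X = e ∧ Nat.card Y = (p - 1) / e ∧ ∃ (εX : Cfsg.IrrCharacter G → ℤ) (ε : ℤ), (∀ χ ∈ X, (εX χ = 1 ∨ εX χ = -1) ∧ (Cfsg.charDegree (χ : G → ℂ) : ℤ) ≡ εX χ [ZMOD p] ∧ ∀ x : G, x ∈ (P : Subgroup G) → x ≠ 1 → ∀ y : G, y ∈ Subgroup.centralizer ((P : Subgroup G) : Set G) → ¬ p ∣ orderOf y → (χ : G → ℂ) (x * y) = (εX χ : ℂ)) ∧ (ε = 1 ∨ ε = -1) ∧ (∀ θ ∈ Y, (Cfsg.charDegree (θ : G → ℂ) : ℤ) ≡ ε * (e : ℤ) [ZMOD p]) ∧ (∀ θ ∈ Y, ∀ θ' ∈ Y, ∀ g : G, ¬ p ∣ orderOf g → (θ : G → ℂ) g = (θ' : G → ℂ) g) ∧ ∀ θ ∈ Y, ∀ g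 : G, ¬ p ∣ orderOf g → (ε : ℂ) * (θ : G → ℂ) g = ∑ᶠ χ ∈ X, (εX χ : ℂ) * (χ : G → ℂ) g := by
  haveI := CfsgLib.Blocks.isPrime_of_isPModular hM
  have hG := CfsgLib.DefectOne.exactPrime_of_sylow P hP
  obtain ⟨S, hS⟩ := CfsgLib.DefectOne.exists_sect_sylow P hP
  have he' : CfsgLib.DefectOne.rowE S (CfsgLib.CharTheory.trivIrr S.V) = e := by
    rw [← CfsgLib.DefectOne.rowE_trivIrr S hG, CfsgLib.DefectOne.Sect.N, hS]
    exact he
  obtain ⟨θ₀, hθ₀, hθe, hsub, hfix, hY, hcard, hX⟩ :=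
    CfsgLib.DefectOne.exists_exceptional hG S hM (CfsgLib.CharTheory.trivIrr S.V)
  obtain ⟨δ, hδ, hδ1⟩ := CfsgLib.DefectOne.exists_sign hG S hM (CfsgLib.CharTheory.trivIrr S.V)
  rw [CfsgLib.DefectOne.principalBlock_eq hG S hM]
  refine ⟨_, _, (Set.sdiff_union_of_subset hsub).symm, Set.disjoint_sdiff_left, by rw [hX, he'],
    by rw [Nat.card_coe_set_eq, Set.ncard_coe_finset, hY, he'], δ, -δ θ₀, fun χ hχ => ?_, ?_, fun θ hθ => ?_,
    fun θ hθ θ' hθ' g hg => ?_, fun θ hθ g hg => ?_⟩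
  · obtain ⟨hχT, hχY⟩ := hχ
    have hs0 : δ χ ≠ 0 := by have := hδ1 χ hχT; omega
    refine ⟨hδ1 χ hχT, CfsgLib.DefectOne.degree_principal_fixed S hG hM (hfix χ hχT hχY) (hδ χ) hs0,
      fun x hx hx1 y hy hy' => ?_⟩
    rw [← hδ χ]
    rw [← hS] at hx hy
    exact CfsgLib.DefectOne.apply_principal_fixed S hG hM (hfix χ hχT hχY) hχT hx hx1 hy hy'
  · have := hδ1 θ₀ hθ₀
    omega
  · have hs : δ θ = δ θ₀ := by
      have h := CfsgLib.DefectOne.rowT_eq hG S hθ (CfsgLib.CharTheory.trivIrr S.V)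
      rw [hδ, hδ] at h
      exact_mod_cast h
    have h := CfsgLib.DefectOne.degree_principal S hG hM ((hδ θ).trans (by rw [hs]))
      (by have := hδ1 θ₀ hθ₀; omega : δ θ₀ ≠ 0)
    rw [CfsgLib.DefectOne.galStab_eq hG hθ, hθe, he'] at h
    refine h.trans ?_
    rw [neg_mul, mul_comm]
  · obtain ⟨k, rfl⟩ := (CfsgLib.DefectOne.mem_galOrb hG).1 hθ
    obtain ⟨l, rfl⟩ := (CfsgLib.DefectOne.mem_galOrb hG).1 hθ'
    rw [CfsgLib.DefectOne.gal_regular hG k θ₀ hg, CfsgLib.DefectOne.gal_regular hG l θ₀ hg]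
  · have h := CfsgLib.DefectOne.relation hG S hθe hsub hfix hθ hg
    simp only [hδ] at h
    simp only [Int.cast_neg, hδ]
    linear_combination (-1 : ℂ) * h

end Cfsg.Agent.S4441
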