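import Cfsg.Statements.S4442
import Cfsg.Agent.Lib.DefectOne.InducedOrbit

set_option autoImplicit false
open Cfsg

namespace Cfsg.Agent.S4442

open CfsgLib.DefectOne

/-- The statement with the Sylow subgroup written as the group generated by `u`. -/
theorem aux {G : Type*} [Group G] [Fintype G] {p : ℕ} [Fact p.Prime] {M : Ideal AlgInt} [M.IsPrime]
    (hM : IsPModular p M) (hG : ExactPrime G p) (S : Sect G p) {B : Set (IrrCharacter G)}
    {b : Set (IrrCharacter S.C)} (hind : IsInducedBlock M S.C b B) (θ : IrrCharacter S.C) (hθ : θ ∈ b)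
    (hθP : ∀ x : S.C, (x : G) ∈ Subgroup.zpowers S.u → (θ : S.C → ℂ) x = (θ : S.C → ℂ) 1)
    (T : Subgroup G) (hT : ∀ g : G, g ∈ T ↔ (g ∈ S.N ∧ ∀ c c' : S.C, (c' : G) = g * c * g⁻¹ →
      (θ : S.C → ℂ) c' = (θ : S.C → ℂ) c))
    (e f : ℕ) (he : S.C.relIndex T = e) (hf : S.C.relIndex S.N = f) :
    e ∣ p - 1 ∧ Nat.card B = e + (p - 1) / e ∧ ∃ X Y : Set (IrrCharacter G), B = X ∪ Y ∧ Disjoint X Y ∧
      Nat.card X = e ∧ Nat.card Y = (p - 1) / e ∧
      (∀ χ ∈ X, (charDegree (χ : G → ℂ) : ℤ) ≡ ((f / e * charDegree (θ : S.C → ℂ) : ℕ) : ℤ) [ZMOD p] ∨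
        (charDegree (χ : G → ℂ) : ℤ) ≡ -((f / e * charDegree (θ : S.C → ℂ) : ℕ) : ℤ) [ZMOD p]) ∧
      (∃ ε : ℤ, (ε = 1 ∨ ε = -1) ∧ ∀ ψ ∈ Y,
        (charDegree (ψ : G → ℂ) : ℤ) ≡ ε * ((f * charDegree (θ : S.C → ℂ) : ℕ) : ℤ) [ZMOD p]) ∧
      ∀ ψ ∈ Y, ∀ ψ' ∈ Y, ∀ g : G, ¬ p ∣ orderOf g → (ψ : G → ℂ) g = (ψ' : G → ℂ) g := by
  classical
  obtain ⟨φ, hφ, hφ1⟩ := exists_res hG S θ hθP
  have hT' : ∀ g, g ∈ T ↔ ∃ y : S.N, (y : G) = g ∧ y • φ = φ := fun g => by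
    rw [hT g]
    constructor
    · rintro ⟨hg, h⟩
      exact ⟨⟨g, hg⟩, rfl, (smul_iff_invariant S hφ hG _).2 h⟩
    · rintro ⟨y, rfl, hy⟩
      exact ⟨y.2, (smul_iff_invariant S hφ hG y).1 hy⟩
  have heE : rowE S φ = e := by rw [← rowE_eq_relIndex S hG φ T hT']; exact he
  have hstab : T.subgroupOf S.N = MulAction.stabilizer S.N φ := by
    ext y
    rw [Subgroup.mem_subgroupOf, hT', MulAction.mem_stabilizer_iff]
    exact ⟨fun ⟨y', hy', h⟩ => by rwa [show y = y' from Subtype.ext hy'.symm], fun h => ⟨y, rfl, h⟩⟩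
  have hTN : T ≤ S.N := fun g hg => ((hT g).1 hg).1
  have hCT : S.C ≤ T := fun c hc => (hT c).2 ⟨Subgroup.centralizer_le_normalizer _ hc, fun x x' hx => by
    rw [show x' = ⟨c, hc⟩ * x * (⟨c, hc⟩ : S.C)⁻¹ from Subtype.ext hx]
    exact CfsgLib.CharTheory.IsIrrCharacter.isClassFunction θ.2 x ⟨c, hc⟩⟩
  have hepos : 0 < e := heE ▸ rowE_pos hG S φ
  have hfe : e * Nat.card (MulAction.orbit S.N φ) = f := by
    rw [Nat.card_coe_set_eq, ← MulAction.index_stabilizer, ← hstab, ← he, ← hf]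
    exact Subgroup.relIndex_mul_relIndex _ _ _ hCT hTN
  have hO : f / e = Nat.card (MulAction.orbit S.N φ) := by rw [← hfe, Nat.mul_div_cancel_left _ hepos]
  have hdeg : charDegree (θ : S.C → ℂ) = charDegree (φ : S.V → ℂ) := by rw [charDegree, charDegree, hφ1]
  obtain ⟨χ₀, hχ₀⟩ := CfsgLib.Blocks.isPBlock_nonempty hind.2.1
  have hrow := row_ne_zero_of_induced hG S hM hφ hφ1 hind hθ hχ₀ T hT'
  have hχ₀T : rowT hG S χ₀ φ ≠ 0 := (count hG S hM φ).1 χ₀ ⟨1, by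
    rw [rowU, Units.val_one, ZMod.val_one]; exact hrow⟩
  have hBeq : B = {ψ | rowT hG S ψ φ ≠ 0} := by
    rw [CfsgLib.Blocks.eq_blockOf_of_mem hind.2.1 hχ₀, blockOf_eq hG S hM hχ₀T]
  obtain ⟨η, hη, hηe, hsub, hfix, hY, hcard, hX⟩ := exists_exceptional hG S hM φ
  obtain ⟨δ, hδ, hδ1⟩ := exists_sign hG S hM φ
  rw [hBeq]
  refine ⟨heE ▸ rowE_dvd hG S φ, by rw [hcard, heE], _, _, (Set.sdiff_union_of_subset hsub).symm,
    Set.disjoint_sdiff_left, by rw [hX, heE], by rw [Nat.card_coe_set_eq, Set.ncard_coe_finset, hY, heE],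
    fun χ hχ => ?_, ⟨-δ η, by have := hδ1 η hη; omega, fun ψ hψ => ?_⟩, fun ψ hψ ψ' hψ' g hg => ?_⟩
  · obtain ⟨hχT, hχY⟩ := hχ
    have hs := hδ1 χ hχT
    have h := degree_modEq hG S hM (hδ χ) (by omega : δ χ ≠ 0)
    rw [hfix χ hχT hχY, Nat.cast_sub hG.prime.one_le, Nat.cast_one] at h
    rw [hO, hdeg, Nat.cast_mul]
    have h' := h.trans (Int.modEq_iff_dvd.2 ⟨(Nat.card (MulAction.orbit S.N φ) : ℤ) *
      (charDegree (φ : S.V → ℂ) : ℤ) * δ χ, by ring⟩ : _ ≡ δ χ *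
        ((Nat.card (MulAction.orbit S.N φ) : ℤ) * (charDegree (φ : S.V → ℂ) : ℤ)) [ZMOD p])
    rcases hs with h1 | h1 <;> rw [h1] at h'
    · exact Or.inl (by rwa [one_mul] at h')
    · exact Or.inr (by rwa [neg_one_mul] at h')
  · have hs : δ ψ = δ η := by
      have h := rowT_eq hG S hψ φ
      rw [hδ, hδ] at h
      exact_mod_cast h
    have h := degree_modEq hG S hM ((hδ ψ).trans (by rw [hs])) (by have := hδ1 η hη; omega : δ η ≠ 0)
    rw [galStab_eq hG hψ, hηe, heE] at h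
    refine h.trans ?_
    rw [← hfe, hdeg, Nat.cast_mul, Nat.cast_mul]
    exact Int.modEq_of_dvd ⟨0, by ring⟩
  · obtain ⟨k, rfl⟩ := (mem_galOrb hG).1 hψ
    obtain ⟨l, rfl⟩ := (mem_galOrb hG).1 hψ'
    rw [gal_regular hG k η hg, gal_regular hG l η hg]

/-- Blocks of defect one. Let p be an odd prime and G a finite group whose Sylow p-subgroup P has order p; let C = C_G(P) and N = N_G(P), and fix a maximal ideal M of the algebraic integers containing p. Let B be a block of G with defect group P, b a block of C inducing B, and θ the member of b having P in its kernel (there is exactly one). Let T be the stabilizer of θ in N (the elements g ∈ N with θ(g c g⁻¹) = θ(c) for all c ∈ C) and e the index of C in T. Then e divides p − 1 and B contains exactly e + (p − 1)/e irreducible characters. Moreover B is the disjoint union of a set X of e characters and a set Y of (p − 1)/e characters such that, with f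 the index of C in N: every χ ∈ X has χ(1) ≡ ±(f/e)·θ(1) (mod p), there is one sign ε with ψ(1) ≡ ε f θ(1) (mod p) for all ψ ∈ Y, and all members of Y agree on the p-regular elements of G. -/
theorem result {G : Type*} [Group G] [Finite G] (p : ℕ) [Fact p.Prime] (M : Ideal Cfsg.AlgInt) (hM : Cfsg.IsPModular p M) (hodd : p ≠ 2) (P : Sylow p G) (hP : Nat.card P = p) (B : Set (Cfsg.IrrCharacter G)) (hB : Cfsg.IsPBlock M B) (hBP : Cfsg.IsDefectGroup p M B P) (b : Set (Cfsg.IrrCharacter (Subgroup.centralizer ((P : Subgroup G) : Set G)))) (hind : Cfsg.IsInducedBlock M (Subgroup.centralizer ((P : Subgroup G) : Set G)) b B) (θ : Cfsg.IrrCharacter (Subgroup.centralizer ((P : Subgroup G) : Set G))) (hθ : θ ∈ b) (hθP : ∀ x : Subgroup.centralizer ((P : Subgroup G) : Set G), (x : G) ∈ (P : Subgroup G) → (θ : Subgroup.centralizer ((P : Subgroup G) : Set G) → ℂ) x = (θ : Subgroup.centralizer ((P : Subgroup G) : Set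 G) → ℂ) 1) (T : Subgroup G) (hT : ∀ g : G, g ∈ T ↔ (g ∈ Subgroup.normalizer ((P : Subgroup G) : Set G) ∧ ∀ c c' : Subgroup.centralizer ((P : Subgroup G) : Set G), (c' : G) = g * c * g⁻¹ → (θ : Subgroup.centralizer ((P : Subgroup G) : Set G) → ℂ) c' = (θ : Subgroup.centralizer ((P : Subgroup G) : Set G) → ℂ) c)) (e f : ℕ) (he : (Subgroup.centralizer ((P : Subgroup G) : Set G)).relIndex T = e) (hf : (Subgroup.centralizer ((P : Subgroup G) : Set G)).relIndex (Subgroup.normalizer ((P : Subgroup G) : Set G)) = f) : e ∣ p - 1 ∧ Nat.card B = e + (p - 1) / e ∧ ∃ X Y : Set (Cfsg.IrrCharacter G), B = X ∪ Y ∧ Disjoint X Y ∧ Nat.card X = e ∧ Nat.card Y = (p - 1) / e ∧ (∀ χ ∈ X, (Cfsg.charDegree (χ : G → ℂ) : ℤ) ≡ ((f / e * Cfsg.charDegree (θ : Subgroup.centralizer ((P : Subgroup G) : Set G) → ℂ) : ℕ) : ℤ) [ZMOD p] ∨ (Cfsg.charDegree (χ : G → ℂ) : ℤ) ≡ -((f / e * Cfsg.charDegree (θ : Subgroup.centralizer ((P : Subgroup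 G) : Set G) → ℂ) : ℕ) : ℤ) [ZMOD p]) ∧ (∃ ε : ℤ, (ε = 1 ∨ ε = -1) ∧ ∀ ψ ∈ Y, (Cfsg.charDegree (ψ : G → ℂ) : ℤ) ≡ ε * ((f * Cfsg.charDegree (θ : Subgroup.centralizer ((P : Subgroup G) : Set G) → ℂ) : ℕ) : ℤ) [ZMOD p]) ∧ ∀ ψ ∈ Y, ∀ ψ' ∈ Y, ∀ g : G, ¬ p ∣ orderOf g → (ψ : G → ℂ) g = (ψ' : G → ℂ) g := by
  haveI := Fintype.ofFinite G
  haveI := CfsgLib.Blocks.isPrime_of_isPModular hM
  have hG := exactPrime_of_sylow P hP
  obtain ⟨S, hS⟩ := exists_sect_sylow P hP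
  clear hodd hBP hP hB
  revert b θ hθ hθP T hT he hf hind
  rw [← hS]
  intro b hind θ hθ hθP T hT he hf
  exact aux hM hG S hind θ hθ hθP T hT e f he hf

end Cfsg.Agent.S4442
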