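import Cfsg.Statements.S4444
import Cfsg.Agent.Lib.CharDegreesTheory.GlaubermanSubgroup

set_option autoImplicit false
open Cfsg

namespace Cfsg.Agent.S4444

/-- The Glauberman correspondence for a p-group of operators. Inside a finite group Γ let S normalise G with the orders of G and S coprime, S a p-group, and let C = G ⊓ C(S) be the fixed points. Call an irreducible character χ of G S-invariant when χ(s g s⁻¹) = χ(g) for s ∈ S, g ∈ G. Then: (i) for every S-invariant χ there is exactly one irreducible character β of C whose multiplicity [χ_C, β] in the restriction of χ is not divisible by p; (ii) that multiplicity is ≡ 1 or ≡ −1 (mod p); (iii) distinct S-invariant χ give distinct β; (iv) every irreducible character of C arises in this way. So χ ↦ β is a bijection from the S-invariant irreducible characters of G onto the irreducible characters of C. -/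
theorem result {Γ : Type*} [Group Γ] [Fintype Γ] (G S : Subgroup Γ) [Fintype G] (hnorm : ∀ s ∈ S, ∀ g ∈ G, s * g * s⁻¹ ∈ G) (hcop : (Nat.card G).Coprime (Nat.card S)) (p : ℕ) (hp : p.Prime) (hS : IsPGroup p S) (C : Subgroup Γ) [Fintype C] (hC : C = G ⊓ Subgroup.centralizer (S : Set Γ)) (hCG : C ≤ G) : (∀ χ : Cfsg.IrrCharacter G, (∀ s ∈ S, ∀ g g' : G, (g' : Γ) = s * g * s⁻¹ → (χ : G → ℂ) g' = (χ : G → ℂ) g) → ∃! β : Cfsg.IrrCharacter C, ∃ m : ℕ, Cfsg.classInner (fun c : C => (χ : G → ℂ) ⟨c, hCG c.2⟩) (β : C → ℂ) = (m : ℂ) ∧ ¬ p ∣ m) ∧ (∀ χ : Cfsg.IrrCharacter G, (∀ s ∈ S, ∀ g g' : G, (g' : Γ) = s * g * s⁻¹ → (χ : G → ℂ) g' = (χ : G → ℂ) g) → ∀ β : Cfsg.IrrCharacter C, ∀ m : ℕ, Cfsg.classInner (fun c : C => (χ : G → ℂ) ⟨c, hCG c.2⟩) (β : C → ℂ) = (m : ℂ) → ¬ p ∣ m → ((m : ℤ) ≡ 1 [ZMOD p] ∨ (m : ℤ) ≡ -1 [ZMOD p])) ∧ (∀ χ χ' : Cfsg.IrrCharacter G, (∀ s ∈ S, ∀ g g' : G, (g' : Γ) = s * g * s⁻¹ → (χ :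 G → ℂ) g' = (χ : G → ℂ) g) → (∀ s ∈ S, ∀ g g' : G, (g' : Γ) = s * g * s⁻¹ → (χ' : G → ℂ) g' = (χ' : G → ℂ) g) → ∀ β : Cfsg.IrrCharacter C, ∀ m m' : ℕ, Cfsg.classInner (fun c : C => (χ : G → ℂ) ⟨c, hCG c.2⟩) (β : C → ℂ) = (m : ℂ) → ¬ p ∣ m → Cfsg.classInner (fun c : C => (χ' : G → ℂ) ⟨c, hCG c.2⟩) (β : C → ℂ) = (m' : ℂ) → ¬ p ∣ m' → χ = χ') ∧ (∀ β : Cfsg.IrrCharacter C, ∃ χ : Cfsg.IrrCharacter G, (∀ s ∈ S, ∀ g g' : G, (g' : Γ) = s * g * s⁻¹ → (χ : G → ℂ) g' = (χ : G → ℂ) g) ∧ ∃ m : ℕ, Cfsg.classInner (fun c : C => (χ : G → ℂ) ⟨c, hCG c.2⟩) (β : C → ℂ) = (m : ℂ) ∧ ¬ p ∣ m) := by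
  classical
  haveI : Fact p.Prime := ⟨hp⟩
  rcases eq_or_ne S ⊥ with hbot | hne
  · -- trivial action: `C = G`
    have hGC : G ≤ C := fun g hg => by
      rw [hC]
      refine ⟨hg, Subgroup.mem_centralizer_iff.mpr fun s hs => ?_⟩
      rw [hbot] at hs
      rw [Subgroup.mem_bot.mp hs]
      simp
    let e : C ≃* G := MulEquiv.ofBijective (Subgroup.inclusion hCG)
      ⟨Subgroup.inclusion_injective hCG, fun g => ⟨⟨g, hGC g.2⟩, Subtype.ext rfl⟩⟩
    have hev : ∀ (χ : Cfsg.IrrCharacter G) (β : Cfsg.IrrCharacter C),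
        Cfsg.classInner (fun c : C => (χ : G → ℂ) ⟨c, hCG c.2⟩) (β : C → ℂ) =
          if β = CfsgLib.CharDegreesTheory.irrComp e χ then ((1 : ℕ) : ℂ) else ((0 : ℕ) : ℂ) := by
      intro χ β
      refine (CfsgLib.CharTheory.classInner_irrCharacter
        (CfsgLib.CharDegreesTheory.irrComp e χ) β).trans ?_
      simp [eq_comm]
    have hm : ∀ (χ : Cfsg.IrrCharacter G) (β : Cfsg.IrrCharacter C) (m : ℕ),
        Cfsg.classInner (fun c : C => (χ : G → ℂ) ⟨c, hCG c.2⟩) (β : C → ℂ) = (m : ℂ) → ¬ p ∣ m →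
          β = CfsgLib.CharDegreesTheory.irrComp e χ ∧ m = 1 := by
      intro χ β m hm hpm
      rw [hev] at hm
      split_ifs at hm with h
      · exact ⟨h, (Nat.cast_injective hm).symm⟩
      · exact absurd (dvd_zero p) (Nat.cast_injective hm ▸ hpm)
    have hone : ∀ χ : Cfsg.IrrCharacter G, Cfsg.classInner
        (fun c : C => (χ : G → ℂ) ⟨c, hCG c.2⟩)
          ((CfsgLib.CharDegreesTheory.irrComp e χ : Cfsg.IrrCharacter C) : C → ℂ)
            = ((1 : ℕ) : ℂ) := fun χ => by rw [hev, if_pos rfl]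
    refine ⟨fun χ _ => ⟨_, ⟨1, hone χ, hp.not_dvd_one⟩, ?_⟩, ?_, ?_, ?_⟩
    · rintro β ⟨m, h1, h2⟩
      exact (hm χ β m h1 h2).1
    · intro χ _ β m h1 h2
      exact Or.inl (by rw [(hm χ β m h1 h2).2]; simp)
    · intro χ χ' _ _ β m m' h1 h2 h3 h4
      have h5 := (hm χ β m h1 h2).1.symm.trans (hm χ' β m' h3 h4).1
      refine Subtype.ext (funext fun g => ?_)
      simpa using congrFun (congrArg Subtype.val h5) (e.symm g)
    · intro β
      refine ⟨CfsgLib.CharDegreesTheory.irrComp e.symm β, ?_, 1, ?_, hp.not_dvd_one⟩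
      · intro s hs g g' he
        rw [hbot] at hs
        rw [Subgroup.mem_bot.mp hs] at he
        exact congrArg _ (Subtype.ext (by simpa using he))
      · rw [hev, if_pos]
        exact Subtype.ext (funext fun c => by simp)
  have hpd : p ∣ Nat.card S := by
    obtain ⟨k, hk⟩ := IsPGroup.iff_card.mp hS
    rw [hk]
    exact dvd_pow_self p (fun h0 => hne (Subgroup.eq_bot_of_card_eq S (by rw [hk, h0, pow_zero])))
  have hpG : ¬ p ∣ Nat.card G := fun h => hp.not_dvd_one (hcop ▸ Nat.dvd_gcd h hpd)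
  have hset := CfsgLib.CharDegreesTheory.coprimePSetup_conjRes G S C hnorm hC hCG hS hpG
  have hinv := CfsgLib.CharDegreesTheory.isInvariant_conjRes_iff G S hnorm
  have hval : ∀ (χ : Cfsg.IrrCharacter G) (β : Cfsg.IrrCharacter C),
      Cfsg.classInner (fun c : C => (χ : G → ℂ) ⟨c, hCG c.2⟩) (β : C → ℂ) =
        (CfsgLib.CharDegreesTheory.mult (Subgroup.inclusion hCG) (χ : G → ℂ) (β : C → ℂ) : ℂ) :=
    fun χ β => CfsgLib.CharDegreesTheory.classInner_eq_mult (Subgroup.inclusion hCG)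
      (CfsgLib.CharTheory.IsIrrCharacter.isCharacter χ.2) β
  have hm : ∀ (χ : Cfsg.IrrCharacter G) (β : Cfsg.IrrCharacter C) (m : ℕ),
      Cfsg.classInner (fun c : C => (χ : G → ℂ) ⟨c, hCG c.2⟩) (β : C → ℂ) = (m : ℂ) →
        m = CfsgLib.CharDegreesTheory.mult (Subgroup.inclusion hCG) (χ : G → ℂ) (β : C → ℂ) :=
    fun χ β m h => Nat.cast_injective (h.symm.trans (hval χ β))
  refine ⟨fun χ hχ => ?_, ?_, ?_, ?_⟩
  · obtain ⟨β, hβ⟩ := hset.exists_of_invariant ((hinv _).mpr hχ)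
    refine ⟨β, ⟨_, hval χ β, hβ⟩, ?_⟩
    rintro β' ⟨m, h1, h2⟩
    exact hset.unique ((hinv _).mpr hχ) (hm χ β' m h1 ▸ h2) hβ
  · intro χ hχ β m h1 h2
    obtain rfl := hm χ β m h1
    exact hset.mult_sq_modEq ((hinv _).mpr hχ) h2
  · intro χ χ' hχ hχ' β m m' h1 h2 h3 h4
    exact hset.injective ((hinv _).mpr hχ) ((hinv _).mpr hχ') (hm χ β m h1 ▸ h2) (hm χ' β m' h3 ▸ h4)
  · intro β
    obtain ⟨χ, h1, h2⟩ := hset.surjective β
    exact ⟨χ, (hinv _).mp h1, _, hval χ β, h2⟩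

end Cfsg.Agent.S4444
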