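import Cfsg.Statements.S4445
import Cfsg.Agent.Lib.CharDegreesTheory.SolvableAction

set_option autoImplicit false
open Cfsg

namespace Cfsg.Agent.S4445

/-- Inside a finite group Γ let the solvable subgroup S normalise G with the orders of G and S coprime. Then the number of S-invariant irreducible characters of G (χ(s g s⁻¹) = χ(g) for all s ∈ S, g ∈ G) equals the number of conjugacy classes of G mapped to themselves by conjugation by every element of S. -/
theorem result {Γ : Type*} [Group Γ] [Fintype Γ] (G S : Subgroup Γ) [Fintype G] (hnorm : ∀ s ∈ S, ∀ g ∈ G, s * g * s⁻¹ ∈ G) (hcop : (Nat.card G).Coprime (Nat.card S)) (hsolv : Group.IsSolvable S) : Nat.card {χ : Cfsg.IrrCharacter G // (∀ s ∈ S, ∀ g g' : G, (g' : Γ) = s * g * s⁻¹ → (χ : G → ℂ) g' = (χ : G → ℂ) g)} = Nat.card {K : ConjClasses G // ∀ s ∈ S, ∀ g g' : G, (g' : Γ) = s * g * s⁻¹ → ConjClasses.mk g = K → ConjClasses.mk g' = K} := by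
  classical
  let φ : S →* MulAut G := CfsgLib.CharDegreesTheory.restrictAction
    ((MulAut.conj : Γ →* MulAut Γ).comp S.subtype) G fun s g hg => hnorm s s.2 g hg
  have key : ∀ (s : S) (g g' : G), (g' : Γ) = s * g * (s : Γ)⁻¹ ↔ φ s g = g' := fun s g g' =>
    ⟨fun h => Subtype.ext (by rw [h]; rfl), fun h => by rw [← h]; rfl⟩
  refine ((Nat.card_congr (Equiv.subtypeEquivRight fun χ => ?_)).trans
    (CfsgLib.CharDegreesTheory.card_invariant_irr_eq_classes hsolv φ hcop)).trans
    (Nat.card_congr (Equiv.subtypeEquivRight fun K => ?_))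
  · exact ⟨fun h s g => h s s.2 g _ ((key s g _).mpr rfl),
      fun h s hs g g' hg => by rw [← (key ⟨s, hs⟩ g g').mp hg]; exact h ⟨s, hs⟩ g⟩
  · exact ⟨fun h s hs g g' hg hK => by rw [← (key ⟨s, hs⟩ g g').mp hg]; exact h ⟨s, hs⟩ g hK,
      fun h s g hK => h s s.2 g _ ((key s g _).mpr rfl) hK⟩

end Cfsg.Agent.S4445
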