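import Cfsg.Statements.S4446
import Cfsg.Agent.Lib.Clifford.CyclicGlauberman

set_option autoImplicit false
set_option linter.style.haveILetI false
open Cfsg CfsgLib.CharTheory CfsgLib.Clifford

namespace Cfsg.Agent.S4446

theorem result {Γ : Type*} [Group Γ] [Fintype Γ] (G S : Subgroup Γ) [Fintype G] (hnorm : ∀ s ∈ S, ∀ g ∈ G, s * g * s⁻¹ ∈ G) (hcop : (Nat.card G).Coprime (Nat.card S)) (htop : G ⊔ S = ⊤) (hcyc : IsCyclic S) (C : Subgroup Γ) [Fintype C] (hC : C = G ⊓ Subgroup.centralizer (S : Set Γ)) (hCG : C ≤ G) : (∀ (χ : Cfsg.IrrCharacter G) (χh : Cfsg.IrrCharacter Γ), (∀ s ∈ S, ∀ g g' : G, (g' : Γ) = s * g * s⁻¹ → (χ : G → ℂ) g' = (χ : G → ℂ) g) → (∀ g : G, (χh : Γ → ℂ) g = (χ : G → ℂ) g) → (Cfsg.detOrder (χh : Γ → ℂ)).Coprime (Nat.card S) → (∃! βε : Cfsg.IrrCharacter C × ℤ, (βε.2 = 1 ∨ βε.2 = -1) ∧ ∀ c : C, ∀ s : Γ,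 Subgroup.zpowers s = S → (χh : Γ → ℂ) ((c : Γ) * s) = (βε.2 : ℂ) * (βε.1 : C → ℂ) c) ∧ ∀ β : Cfsg.IrrCharacter C, ∀ ε : ℤ, (ε = 1 ∨ ε = -1) → (∀ c : C, ∀ s : Γ, Subgroup.zpowers s = S → (χh : Γ → ℂ) ((c : Γ) * s) = (ε : ℂ) * (β : C → ℂ) c) → Cfsg.classInner (fun c : C => (χ : G → ℂ) ⟨c, hCG c.2⟩) (β : C → ℂ) ≠ 0) ∧ (∀ (χ χ' : Cfsg.IrrCharacter G) (χh χh' : Cfsg.IrrCharacter Γ), (∀ s ∈ S, ∀ g g' : G, (g' : Γ) = s * g * s⁻¹ → (χ : G → ℂ) g' = (χ : G → ℂ) g) → (∀ s ∈ S, ∀ g g' : G, (g' : Γ) = s * g * s⁻¹ → (χ' : G → ℂ) g' = (χ' : G → ℂ) g) → (∀ g : G, (χh : Γ → ℂ) g = (χ : G → ℂ) g) → (∀ g : G, (χh' : Γ → ℂ) g = (χ' : G → ℂ) g) → (Cfsg.detOrder (χh : Γ → ℂ)).Coprime (Nat.card S) → (Cfsg.detOrder (χh' : Γ → ℂ)).Coprime (Nat.card S) → ∀ β : Cfsg.IrrCharacter C, ∀ ε ε' : ℤ, (ε = 1 ∨ ε = -1) → (ε' = 1 ∨ ε' = -1) → (∀ c : C, ∀ s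 : Γ, Subgroup.zpowers s = S → (χh : Γ → ℂ) ((c : Γ) * s) = (ε : ℂ) * (β : C → ℂ) c) → (∀ c : C, ∀ s : Γ, Subgroup.zpowers s = S → (χh' : Γ → ℂ) ((c : Γ) * s) = (ε' : ℂ) * (β : C → ℂ) c) → χ = χ') ∧ (∀ β : Cfsg.IrrCharacter C, ∃ (χ : Cfsg.IrrCharacter G) (χh : Cfsg.IrrCharacter Γ) (ε : ℤ), (∀ s ∈ S, ∀ g g' : G, (g' : Γ) = s * g * s⁻¹ → (χ : G → ℂ) g' = (χ : G → ℂ) g) ∧ (∀ g : G, (χh : Γ → ℂ) g = (χ : G → ℂ) g) ∧ (Cfsg.detOrder (χh : Γ → ℂ)).Coprime (Nat.card S) ∧ (ε = 1 ∨ ε = -1) ∧ ∀ c : C, ∀ s : Γ, Subgroup.zpowers s = S → (χh : Γ → ℂ) ((c : Γ) * s) = (ε : ℂ) * (β : C → ℂ) c) := by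
  classical
  obtain ⟨⟨s₀, hs₀⟩, hgen⟩ := hcyc.exists_generator
  have hS : Subgroup.zpowers s₀ = S := le_antisymm (Subgroup.zpowers_le.2 hs₀) fun x hx => by
    obtain ⟨k, hk⟩ := Subgroup.mem_zpowers_iff.1 (hgen ⟨x, hx⟩)
    exact Subgroup.mem_zpowers_iff.2 ⟨k, congrArg Subtype.val hk⟩
  have hGn : G.Normal := by
    refine Subgroup.normalizer_eq_top_iff.1 (eq_top_iff.2 (htop ▸ sup_le Subgroup.le_normalizer ?_))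
    intro x hx
    rw [Subgroup.mem_normalizer_iff]
    intro g
    refine ⟨hnorm x hx g, fun hg => ?_⟩
    have := hnorm x⁻¹ (S.inv_mem hx) _ hg
    simpa [mul_assoc] using this
  have h : CyclicSetup G (Nat.card S) s₀ :=
    ⟨hGn, by rw [hS]; exact htop, by rw [← hS, Nat.card_zpowers], hcop⟩
  have hC' : C = G ⊓ Subgroup.centralizer ({s₀} : Set Γ) := by
    rw [hC]
    congr 1
    ext x
    rw [Subgroup.mem_centralizer_singleton_iff, Subgroup.mem_centralizer_iff]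
    refine ⟨fun hx => (hx s₀ hs₀).symm, fun hx y hy => ?_⟩
    rw [SetLike.mem_coe, ← hS] at hy
    obtain ⟨k, rfl⟩ := Subgroup.mem_zpowers_iff.1 hy
    exact ((show Commute x s₀ from hx).zpow_right k).eq.symm
  -- the invariance in `Γ`
  have hinvΓ : ∀ χ : G → ℂ, IsClassFunction G χ →
      (∀ s ∈ S, ∀ g g' : G, (g' : Γ) = s * g * s⁻¹ → χ g' = χ g) →
      ∀ (x : Γ) (g : G), χ ⟨x * g * x⁻¹, hGn.conj_mem (g : Γ) g.2 x⟩ = χ g := by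
    intro χ hcl hinv x g
    obtain ⟨a, ha, t, ht, rfl⟩ : ∃ a ∈ G, ∃ t ∈ S, a * t = x :=
      Subgroup.mem_sup_of_normal_left.1 (htop ▸ Subgroup.mem_top x)
    let g' : G := ⟨t * g * t⁻¹, hnorm t ht g g.2⟩
    have e1 : (⟨a * t * g * (a * t)⁻¹, hGn.conj_mem (g : Γ) g.2 (a * t)⟩ : G)
        = ⟨a, ha⟩ * g' * ⟨a, ha⟩⁻¹ := Subtype.ext (by simp [g', mul_assoc])
    rw [e1, hcl g' ⟨a, ha⟩]
    exact hinv t ht g g' rfl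
  -- all generators at once
  have hall : ∀ (χ : IrrCharacter G) (ψ : IrrCharacter Γ), (∀ g : G, (ψ : Γ → ℂ) g = (χ : G → ℂ) g) →
      (detOrder (ψ : Γ → ℂ)).Coprime (Nat.card S) → ∀ (c : C) (s : Γ), Subgroup.zpowers s = S →
      (ψ : Γ → ℂ) ((c : Γ) * s) = (ψ : Γ → ℂ) ((c : Γ) * s₀) := by
    intro χ ψ he hd c s hs
    have hmem : s ∈ Subgroup.zpowers s₀ := by rw [hS, ← hs]; exact Subgroup.mem_zpowers s
    obtain ⟨k, rfl⟩ := (Submonoid.mem_powers_iff s s₀).1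
      ((isOfFinOrder_of_finite s₀).mem_powers_iff_mem_zpowers.2 hmem)
    refine CyclicSetup.apply_pow_eq h hC' χ.2 ψ.2 he hd ?_ c
    have hord : orderOf (s₀ ^ k) = orderOf s₀ := by
      rw [← Nat.card_zpowers, ← Nat.card_zpowers, hs, hS]
    rw [orderOf_pow] at hord
    have hpos := orderOf_pos s₀
    have hdiv := Nat.div_eq_self.1 hord
    rw [Nat.coprime_iff_gcd_eq_one, Nat.gcd_comm, ← h.order]
    omega
  refine ⟨fun χ ψ hinv he hd => ⟨?_, fun β ε hε hb => ?_⟩, ?_, fun β => ?_⟩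
  · obtain ⟨β, ε, hε, hb⟩ := CyclicSetup.exists_correspondent h hC' χ.2 ψ.2 he hd
    refine ⟨(β, ε), ⟨hε, fun c s hs => (hall χ ψ he hd c s hs).trans (hb c)⟩, ?_⟩
    rintro ⟨β', ε'⟩ ⟨hε', hb'⟩
    obtain ⟨h1, h2⟩ := CyclicSetup.correspondent_unique h hC' hε hε' hb fun c => hb' c s₀ hS
    exact Prod.ext h1 h2
  · rw [show (fun c : C => (χ : G → ℂ) ⟨c, hCG c.2⟩) = fun c : C => (ψ : Γ → ℂ) (c : Γ) from
      funext fun c => (he ⟨c, hCG c.2⟩).symm]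
    exact CyclicSetup.correspondent_constituent h hC' χ.2 ψ.2 he hd hε fun c => hb c s₀ hS
  · intro χ χ' ψ ψ' _ _ he he' _ _ β ε ε' hε hε' hb hb'
    exact Subtype.ext (CyclicSetup.correspondent_injective h hC' χ.2 χ'.2 ψ.2 ψ'.2 he he' hε hε'
      (fun c => hb c s₀ hS) fun c => hb' c s₀ hS)
  · obtain ⟨χ, ψ, ε, hχ, hψ, he, hd, hε, hb⟩ := CyclicSetup.correspondent_surjective h hC' β
    refine ⟨⟨χ, hχ⟩, ⟨ψ, hψ⟩, ε, fun s _ g g' hg => ?_, he, hd, hε,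
      fun c s hs => (hall ⟨χ, hχ⟩ ⟨ψ, hψ⟩ he hd c s hs).trans (hb c)⟩
    show χ g' = χ g
    rw [← he, ← he, hg]
    exact IsIrrCharacter.isClassFunction hψ (g : Γ) s

end Cfsg.Agent.S4446
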