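import Cfsg.Statements.S4447
import Cfsg.Agent.Lib.Clifford.CoprimeInvariant
import Cfsg.Agent.Lib.CharDegreesTheory.GlaubermanSubgroup
-- import your own Cfsg.Agent.* helpers here

set_option autoImplicit false
open Cfsg CfsgLib.CharTheory CfsgLib.CharDegreesTheory CfsgLib.Clifford

namespace Cfsg.Agent.S4447

/-- Inside a finite group Γ let S normalise G and also normalise a normal subgroup N of G, with the order of S coprime to the index of N in G and S or G/N solvable. Then for every S-invariant irreducible character χ of G, the restriction of χ to N has an S-invariant irreducible constituent. -/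
theorem result {Γ : Type*} [Group Γ] [Fintype Γ] (G S N : Subgroup Γ) [Fintype G] [Fintype N] (hnorm : ∀ s ∈ S, ∀ g ∈ G, s * g * s⁻¹ ∈ G) (hNG : N ≤ G) [hNn : (N.subgroupOf G).Normal] (hNS : ∀ s ∈ S, ∀ n ∈ N, s * n * s⁻¹ ∈ N) (hcop : (N.relIndex G).Coprime (Nat.card S)) (hsolv : Group.IsSolvable S ∨ Group.IsSolvable (G ⧸ N.subgroupOf G)) (χ : Cfsg.IrrCharacter G) (hinv : (∀ s ∈ S, ∀ g g' : G, (g' : Γ) = s * g * s⁻¹ → (χ : G → ℂ) g' = (χ : G → ℂ) g)) : ∃ θ : Cfsg.IrrCharacter N, Cfsg.classInner (fun n : N => (χ : G → ℂ) ⟨n, hNG n.2⟩) (θ : N → ℂ) ≠ 0 ∧ (∀ s ∈ S, ∀ g g' : N, (g' : Γ) = s * g * s⁻¹ → (θ : N → ℂ) g' = (θ : N → ℂ) g) := by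
  obtain ⟨θ, hθ, hm⟩ := exists_invariant_below (conjRes G S hnorm) (N.subgroupOf G) hsolv
    (fun s n hn => hNS s s.2 n hn) hcop χ ((isInvariant_conjRes_iff G S hnorm _).2 hinv)
  let e := Subgroup.subgroupOfEquivOfLe hNG
  refine ⟨irrComp e.symm θ, ?_, fun s hs g g' h => ?_⟩
  · rw [show classInner (fun n : N => (χ : G → ℂ) ⟨n, hNG n.2⟩)
      ((irrComp e.symm θ : IrrCharacter N) : N → ℂ) = _ from
      classInner_eq_mult (Subgroup.inclusion hNG) (IsIrrCharacter.isCharacter χ.2) _,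
      mult_irrComp_equiv (Subgroup.inclusion hNG) (N.subgroupOf G).subtype e.symm (fun a => rfl)]
    exact_mod_cast hm
  · show (θ : N.subgroupOf G → ℂ) (e.symm g') = (θ : N.subgroupOf G → ℂ) (e.symm g)
    rw [← hθ ⟨s, hs⟩ (e.symm g)]
    exact congrArg _ (Subtype.ext (Subtype.ext h))

end Cfsg.Agent.S4447
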