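import Cfsg.Statements.S4449
import Cfsg.Agent.Lib.CharDegreesTheory.InvariantConstituent

set_option autoImplicit false
open Cfsg

namespace Cfsg.Agent.S4449

/-- Inside a finite group Γ let the solvable subgroup S normalise G with the orders of G and S coprime, and let N be a normal subgroup of G normalised by S. Then for every S-invariant irreducible character ϑ of N, the induced character ϑ^G has an S-invariant irreducible constituent. -/
theorem result {Γ : Type*} [Group Γ] [Fintype Γ] (G S N : Subgroup Γ) [Fintype G] [Fintype N] (hnorm : ∀ s ∈ S, ∀ g ∈ G, s * g * s⁻¹ ∈ G) (hNG : N ≤ G) (hNnormal : ∀ g ∈ G, ∀ n ∈ N, g * n * g⁻¹ ∈ N) (hNS : ∀ s ∈ S, ∀ n ∈ N, s * n * s⁻¹ ∈ N) (hcop : (Nat.card G).Coprime (Nat.card S)) (hsolv : Group.IsSolvable S) (θ : Cfsg.IrrCharacter N) (hinv : (∀ s ∈ S, ∀ g g' : N, (g' : Γ) = s * g * s⁻¹ → (θ : N → ℂ) g' = (θ : N → ℂ) g)) : ∃ χ : Cfsg.IrrCharacter G, Cfsg.classInner (fun n :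 N => (χ : G → ℂ) ⟨n, hNG n.2⟩) (θ : N → ℂ) ≠ 0 ∧ (∀ s ∈ S, ∀ g g' : G, (g' : Γ) = s * g * s⁻¹ → (χ : G → ℂ) g' = (χ : G → ℂ) g) := by
  classical
  let φ : S →* MulAut G := CfsgLib.CharDegreesTheory.restrictAction
    ((MulAut.conj : Γ →* MulAut Γ).comp S.subtype) G fun s g hg => hnorm s s.2 g hg
  have key : ∀ (s : S) (g g' : G), (g' : Γ) = s * g * (s : Γ)⁻¹ ↔ φ s g = g' := fun s g g' =>
    ⟨fun h => Subtype.ext (by rw [h]; rfl), fun h => by rw [← h]; rfl⟩
  haveI : (N.subgroupOf G).Normal := ⟨fun n hn g => hNnormal g g.2 n hn⟩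
  have hN' : ∀ s : S, ∀ n ∈ N.subgroupOf G, φ s n ∈ N.subgroupOf G :=
    fun s n hn => hNS s s.2 n hn
  let e : N.subgroupOf G ≃* N := Subgroup.subgroupOfEquivOfLe hNG
  obtain ⟨χ, hχ, hm⟩ := CfsgLib.CharDegreesTheory.exists_invariant_constituent hsolv φ hcop
    (N.subgroupOf G) hN' (CfsgLib.CharDegreesTheory.irrComp e θ) fun s n =>
      hinv s s.2 (e n) (e (CfsgLib.CharDegreesTheory.restrictAction φ _ hN' s n)) rfl
  refine ⟨χ, ?_, fun s hs g g' hg => by rw [← (key ⟨s, hs⟩ g g').mp hg]; exact hχ ⟨s, hs⟩ g⟩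
  have hχc := CfsgLib.CharTheory.IsIrrCharacter.isCharacter χ.2
  have h1 := CfsgLib.CharDegreesTheory.classInner_eq_mult
    ((N.subgroupOf G).subtype.comp e.symm.toMonoidHom) hχc θ
  have h2 := CfsgLib.CharDegreesTheory.mult_comp_equiv (N.subgroupOf G).subtype
    ((N.subgroupOf G).subtype.comp e.symm.toMonoidHom) (MulEquiv.refl G) e
    (fun c => congrArg Subtype.val (e.symm_apply_apply c)) (χ : G → ℂ) (θ : N → ℂ)
  exact fun h0 => hm (h2.trans (Nat.cast_eq_zero.mp (h1.symm.trans h0)))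

end Cfsg.Agent.S4449
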