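import Cfsg.Statements.S4450
import Cfsg.Agent.Lib.Clifford.CoprimeProjective
import Cfsg.Agent.Lib.Clifford.MinimalSupplement
-- import your own Cfsg.Agent.* helpers here

set_option autoImplicit false
open Cfsg CfsgLib.CharTheory CfsgLib.CharDegreesTheory CfsgLib.Clifford

namespace Cfsg.Agent.S4450

/-- Let N ≤ G be normal subgroups of the finite group Γ with the index of G in Γ coprime to the index of N in G, and Γ/G or G/N solvable. Then for every irreducible character ϑ of N invariant under conjugation by Γ, the induced character ϑ^G has an irreducible constituent invariant under conjugation by Γ. -/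
theorem result {Γ : Type*} [Group Γ] [Fintype Γ] (G N : Subgroup Γ) [hG : G.Normal] [hN : N.Normal] [Fintype G] [Fintype N] (hNG : N ≤ G) (hcop : (G.index).Coprime (N.relIndex G)) (hsolv : Group.IsSolvable (Γ ⧸ G) ∨ Group.IsSolvable (G ⧸ N.subgroupOf G)) (θ : Cfsg.IrrCharacter N) (hinv : ∀ (x : Γ) (n : N), (θ : N → ℂ) ⟨x * n * x⁻¹, hN.conj_mem n n.2 x⟩ = (θ : N → ℂ) n) : ∃ χ : Cfsg.IrrCharacter G, Cfsg.classInner (fun n : N => (χ : G → ℂ) ⟨n, hNG n.2⟩) (θ : N → ℂ) ≠ 0 ∧ ∀ (x : Γ) (g : G), (χ : G → ℂ) ⟨x * g * x⁻¹, hG.conj_mem g g.2 x⟩ = (χ : G → ℂ) g := by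
  classical
  obtain ⟨S, hSG, hDsolv, hSp⟩ := exists_supplement G
  have hcopS : (N.relIndex G).Coprime (Nat.card S) := Nat.coprime_of_dvd fun p hp h1 h2 =>
    hp.ne_one (Nat.eq_one_of_dvd_coprimes hcop (hSp p hp h2) h1)
  let hnorm : ∀ s ∈ S, ∀ g ∈ G, s * g * s⁻¹ ∈ G := fun s _ g hg => hG.conj_mem g hg s
  have hinv' : ∀ (x : Γ) (n : N), (θ : N → ℂ) (MulAut.conjNormal x n) = (θ : N → ℂ) n :=
    fun x n => (congrArg _ (Subtype.ext (MulAut.conjNormal_apply x n))).trans (hinv x n)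
  obtain ⟨χ, hχ, hm⟩ : ∃ χ : IrrCharacter G, IsInvariant (conjRes G S hnorm) (χ : G → ℂ) ∧
      mult (Subgroup.inclusion hNG) (χ : G → ℂ) (θ : N → ℂ) ≠ 0 := by
    rcases hsolv with hq | hq
    · haveI := hDsolv
      haveI := hq
      have hS : Group.IsSolvable S := by
        let f : S →* Γ ⧸ G := (QuotientGroup.mk' G).comp S.subtype
        refine Group.isSolvable_of_ker_le_range (G.subgroupOf S).subtype f ?_
        intro x hx
        exact ⟨⟨x, (QuotientGroup.eq_one_iff (N := G) (x : Γ)).1 hx⟩, rfl⟩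
      exact exists_invariant_above_of_solvable_operator G S N hNG hS hcopS θ hinv'
    · let e := Subgroup.subgroupOfEquivOfLe hNG
      obtain ⟨χ, hχ, hm⟩ := exists_invariant_above (conjRes G S hnorm) (N.subgroupOf G) hq
        (fun s n hn => hN.conj_mem _ hn s) hcopS (irrComp e θ) (fun s n => by
          refine (congrArg (θ : N → ℂ) ?_).trans (hinv' (s : Γ) (e n))
          exact Subtype.ext (MulAut.conjNormal_apply _ _).symm)
      refine ⟨χ, hχ, ?_⟩
      rw [← mult_irrComp_equiv (N.subgroupOf G).subtype (Subgroup.inclusion hNG) e (fun a => rfl)]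
      exact hm
  refine ⟨χ, ?_, fun x g => ?_⟩
  · rw [show classInner (fun n : N => (χ : G → ℂ) ⟨n, hNG n.2⟩) (θ : N → ℂ) = _ from
      classInner_eq_mult (Subgroup.inclusion hNG) (IsIrrCharacter.isCharacter χ.2) θ]
    exact_mod_cast hm
  · have hx : x ∈ S ⊔ G := hSG ▸ Subgroup.mem_top x
    obtain ⟨s, hs, t, ht, rfl⟩ := Subgroup.mem_sup_of_normal_right.1 hx
    refine Eq.trans (congrArg _ (Subtype.ext ?_)) ((hχ ⟨s, hs⟩ (⟨t, ht⟩ * g * ⟨t, ht⟩⁻¹)).trans
      (IsIrrCharacter.isClassFunction χ.2 g ⟨t, ht⟩))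
    simp [mul_assoc]

end Cfsg.Agent.S4450
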