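import Cfsg.Statements.S4451
import Cfsg.Agent.Lib.Clifford.CyclicGlauberman
import Cfsg.Agent.Lib.Clifford.SignCharacter
import Cfsg.Agent.Lib.Jordan.RelExtension
import Cfsg.Agent.Lib.CharDegreesTheory.IrrComp
import Cfsg.Agent.Lib.CharDegreesTheory.CoprimeDegrees
-- import your own Cfsg.Agent.* helpers here

set_option autoImplicit false
set_option linter.style.haveILetI false
set_option maxHeartbeats 1000000
open Cfsg CfsgLib.CharTheory CfsgLib.CharDegreesTheory CfsgLib.Clifford
open scoped ComplexConjugate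

namespace Cfsg.Agent.S4451

/-- Let the finite group Γ be generated by a normal subgroup G and a cyclic subgroup S of coprime orders such that every non-identity element of S has the same centraliser C = G ⊓ C(S) in G. Let χ be an S-invariant irreducible character of G, χ̂ its canonical extension to Γ (determinantal order coprime to the order of S), and β the irreducible character of C with χ̂(c s) = ε₀ β(c) for c ∈ C and generators s of S (ε₀ = ±1). Then there are a sign ε = ±1, which may differ from ε₀, and a linear character μ of S with μ² = 1, such that: (a) χ̂(c x) = ε β(c) μ(x) for all c ∈ C and all x ∈ S other than 1; (b) the restriction of χ to C equals |S|·ϑ + ε β for some character ϑ of C or ϑ = 0; (c) |S| divides χ(1) − ε β(1). -/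
theorem result {Γ : Type*} [Group Γ] [Fintype Γ] (G S : Subgroup Γ) [Fintype G] (hnorm : ∀ s ∈ S, ∀ g ∈ G, s * g * s⁻¹ ∈ G) (hcop : (Nat.card G).Coprime (Nat.card S)) (htop : G ⊔ S = ⊤) (hcyc : IsCyclic S) (C : Subgroup Γ) [Fintype C] (hC : C = G ⊓ Subgroup.centralizer (S : Set Γ)) (hCG : C ≤ G) (hfpf : ∀ x ∈ S, x ≠ 1 → G ⊓ Subgroup.centralizer ({x} : Set Γ) = C) (χ : Cfsg.IrrCharacter G) (hinv : (∀ s ∈ S, ∀ g g' : G, (g' : Γ) = s * g * s⁻¹ → (χ : G → ℂ) g' = (χ : G → ℂ) g)) (χh : Cfsg.IrrCharacter Γ) (hext : (∀ g : G, (χh : Γ → ℂ) g = (χ : G → ℂ) g)) (hdet : (Cfsg.detOrder (χh : Γ → ℂ)).Coprime (Nat.card S)) (β : Cfsg.IrrCharacter C) (ε₀ : ℤ) (hε₀ : ε₀ = 1 ∨ ε₀ = -1) (hβ : ∀ c : C, ∀ s : Γ, Subgroup.zpowers s = S → (χh : Γ → ℂ) ((c : Γ) * s) = (ε₀ : ℂ) * (β : C → ℂ) c) : ∃ ε : ℤ, (ε = 1 ∨ ε = -1) ∧ (∃ μ : S → ℂ, Cfsg.IsCharacter S μ ∧ μ 1 = 1 ∧ (∀ x : S, μ x * μ x = 1) ∧ ∀ c : C, ∀ x : S, x ≠ 1 → (χh : Γ → ℂ) ((c : Γ) * x) = (ε : ℂ) * (β : C → ℂ) c * μ x) ∧ (∃ ϑ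 : C → ℂ, Cfsg.IsCharacter C ϑ ∧ (fun c : C => (χ : G → ℂ) ⟨c, hCG c.2⟩) = fun c => (Nat.card S : ℂ) * ϑ c + (ε : ℂ) * (β : C → ℂ) c) ∧ (Nat.card S : ℤ) ∣ (Cfsg.charDegree (χ : G → ℂ) : ℤ) - ε * (Cfsg.charDegree (β : C → ℂ) : ℤ) := by
  classical
  obtain ⟨⟨s₀, hs₀⟩, hgen⟩ := hcyc.exists_generator
  have hS : Subgroup.zpowers s₀ = S := le_antisymm (Subgroup.zpowers_le.2 hs₀) fun x hx => by
    obtain ⟨k, hk⟩ := Subgroup.mem_zpowers_iff.1 (hgen ⟨x, hx⟩)
    exact Subgroup.mem_zpowers_iff.2 ⟨k, congrArg Subtype.val hk⟩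
  have hGn : G.Normal := by
    refine Subgroup.normalizer_eq_top_iff.1 (eq_top_iff.2 (htop ▸ sup_le Subgroup.le_normalizer ?_))
    intro x hx
    rw [Subgroup.mem_normalizer_iff]
    intro g
    refine ⟨hnorm x hx g, fun hg => ?_⟩
    have := hnorm x⁻¹ (S.inv_mem hx) _ hg
    simpa [mul_assoc] using this
  haveI := hGn
  have hC₀ : C = G ⊓ Subgroup.centralizer ({s₀} : Set Γ) := by
    rw [hC]
    congr 1
    ext x
    rw [Subgroup.mem_centralizer_singleton_iff, Subgroup.mem_centralizer_iff]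
    refine ⟨fun hx => (hx s₀ hs₀).symm, fun hx y hy => ?_⟩
    rw [SetLike.mem_coe, ← hS] at hy
    obtain ⟨k, rfl⟩ := Subgroup.mem_zpowers_iff.1 hy
    exact ((show Commute x s₀ from hx).zpow_right k).eq.symm
  letI : CommGroup S := IsCyclic.commGroup
  letI : Fintype S := Fintype.ofFinite _
  letI : Fintype (IrrCharacter S) := Fintype.ofFinite _
  letI : Fintype (IrrCharacter C) := Fintype.ofFinite _
  have hcomm : ∀ (c : C) (t : S), Commute (c : Γ) t := fun c t =>
    (Subgroup.mem_centralizer_iff.1 (hC.le c.2).2 t t.2).symm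
  let m : C × S →* Γ := MonoidHom.noncommCoprod C.subtype S.subtype fun c t => hcomm c t
  let Q : IrrCharacter C → S → ℂ := fun η t =>
    classInner (fun c : C => (χh : Γ → ℂ) ((c : Γ) * t)) (η : C → ℂ)
  have hQ : ∀ η, IsCharacter S (Q η) := by
    intro η
    have hcl : IsClassFunction S (Q η) := fun a b => by rw [mul_comm b a, mul_inv_cancel_right]
    have hk : ∀ lam : IrrCharacter S, ∃ k : ℕ, classInner (Q η) (lam : S → ℂ) = k := by
      intro lam
      have hl1 : (lam : S → ℂ) 1 = 1 := apply_one_eq_one_of_comm mul_comm lam.2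
      obtain ⟨μ, hμ⟩ := exists_hom_of_degree_one lam.2 hl1
      have hprod : IsIrrCharacter (C × S)
          ((fun p : C × S => (lam : S → ℂ) p.2) * fun p : C × S => (η : C → ℂ) p.1) :=
        isIrrCharacter_mul_of_norm
          (CfsgLib.CharTheory.isIrrCharacter_comp η.2 (f := MonoidHom.fst C S) fun c => ⟨(c, 1), rfl⟩)
          (CfsgLib.Coherence.isCharacter_comp (IsIrrCharacter.isCharacter lam.2) (MonoidHom.snd C S))
          (fun p => by
            rw [hμ]
            exact norm_eq_one_of_pow_eq_one' (Nat.card_pos (α := S)).ne' (by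
              rw [← Units.val_pow_eq_pow_val, ← map_pow, pow_card_eq_one', map_one, Units.val_one]))
      obtain ⟨k, hk⟩ := IsCharacter.exists_classInner_eq_nat
        (CfsgLib.Coherence.isCharacter_comp (IsIrrCharacter.isCharacter χh.2) m) ⟨_, hprod⟩
      refine ⟨k, ?_⟩
      rw [← hk]
      simp only [Q, classInner, Nat.card_prod, Nat.cast_mul, mul_inv, Fintype.sum_prod_type,
        Pi.mul_apply, map_mul, Finset.mul_sum, Finset.sum_mul]
      rw [Finset.sum_comm]
      refine Finset.sum_congr rfl fun c _ => Finset.sum_congr rfl fun t _ => ?_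
      show _ = (Nat.card C : ℂ)⁻¹ * (Nat.card S : ℂ)⁻¹ *
        ((χh : Γ → ℂ) ((c : Γ) * (t : Γ)) * (conj ((lam : S → ℂ) t) * conj ((η : C → ℂ) c)))
      ring
    choose k hk using hk
    rw [isCharacter_iff_exists_sum]
    exact ⟨k, by conv_lhs => rw [eq_sum_classInner hcl]
                 simp only [hk]⟩
  -- on each coset a signed irreducible character
  have hcoset : ∀ x : S, x ≠ 1 → ∃ (b : IrrCharacter C) (δ : ℤ), (δ = 1 ∨ δ = -1) ∧
      ∀ c : C, (χh : Γ → ℂ) ((c : Γ) * x) = (δ : ℂ) * (b : C → ℂ) c := by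
    intro x hx
    have hx' : (x : Γ) ≠ 1 := fun h => hx (Subtype.ext h)
    let H : Subgroup Γ := G ⊔ Subgroup.zpowers (x : Γ)
    have hGH : G ≤ H := le_sup_left
    have hxH : (x : Γ) ∈ H := Subgroup.mem_sup_right (Subgroup.mem_zpowers _)
    letI : Fintype H := Fintype.ofFinite _
    letI : Fintype (G.subgroupOf H) := Fintype.ofFinite _
    letI : Fintype (C.subgroupOf H) := Fintype.ofFinite _
    have hset : CyclicSetup (G.subgroupOf H) (orderOf (x : Γ)) (⟨x, hxH⟩ : H) := by
      refine ⟨inferInstance, ?_, Subgroup.orderOf_mk _ _, ?_⟩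
      · refine Subgroup.map_injective H.subtype_injective ?_
        rw [Subgroup.map_sup, Subgroup.map_subgroupOf_eq_of_le hGH, MonoidHom.map_zpowers,
          ← MonoidHom.range_eq_map, Subgroup.range_subtype]
        rfl
      · rw [Nat.card_congr (Subgroup.subgroupOfEquivOfLe hGH).toEquiv]
        exact hcop.coprime_dvd_right (by rw [Subgroup.orderOf_coe]; exact orderOf_dvd_natCard _)
    have hCH : C ≤ H := hCG.trans hGH
    have hC' : C.subgroupOf H
        = G.subgroupOf H ⊓ Subgroup.centralizer ({(⟨x, hxH⟩ : H)} : Set H) := by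
      ext y
      rw [Subgroup.mem_inf, Subgroup.mem_subgroupOf, Subgroup.mem_subgroupOf,
        ← hfpf x x.2 hx', Subgroup.mem_inf, Subgroup.mem_centralizer_singleton_iff,
        Subgroup.mem_centralizer_singleton_iff]
      exact and_congr_right fun _ => ⟨fun h => Subtype.ext h, fun h => congrArg Subtype.val h⟩
    let eG := Subgroup.subgroupOfEquivOfLe hGH
    have hres : IsIrrCharacter (G.subgroupOf H) (fun g : G.subgroupOf H => (χh : Γ → ℂ) (g : H)) := by
      rw [show (fun g : G.subgroupOf H => (χh : Γ → ℂ) (g : H))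
        = fun g => (χ : G → ℂ) (eG g) from funext fun g => hext (eG g)]
      exact CfsgLib.CharDegreesTheory.isIrrCharacter_comp_equiv χ.2 eG
    have hψ : IsIrrCharacter H (fun y : H => (χh : Γ → ℂ) y) :=
      CfsgLib.Jordan.isIrrCharacter_of_res (G.subgroupOf H)
        (CfsgLib.Coherence.isCharacter_comp (IsIrrCharacter.isCharacter χh.2) H.subtype) hres
    have hd : (detOrder (fun y : H => (χh : Γ → ℂ) y)).Coprime (orderOf (x : Γ)) := by
      refine Nat.Coprime.coprime_dvd_left ?_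
        (hdet.coprime_dvd_right (by rw [Subgroup.orderOf_coe]; exact orderOf_dvd_natCard _))
      let R : (Γ → ℂ) →* (H → ℂ) :=
        { toFun := fun f y => f y
          map_one' := rfl
          map_mul' := fun _ _ => rfl }
      show orderOf (detChar _) ∣ orderOf (detChar (χh : Γ → ℂ))
      rw [show detChar (fun y : H => (χh : Γ → ℂ) y) = R (detChar (χh : Γ → ℂ)) from
        funext fun y => (detChar_restrict H (IsIrrCharacter.isCharacter χh.2) (fun _ => rfl) y).symm]
      exact orderOf_map_dvd R _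
    obtain ⟨b', δ, hδ, hb⟩ := CyclicSetup.exists_correspondent hset hC' hres hψ (fun g => rfl) hd
    let eC := Subgroup.subgroupOfEquivOfLe hCH
    exact ⟨irrComp eC.symm b', δ, hδ, fun c => hb (eC.symm c)⟩
  choose b δ hδ hb using hcoset
  have hQval : ∀ (η : IrrCharacter C) (x : S) (hx : x ≠ 1),
      Q η x = ((if b x hx = η then δ x hx else 0 : ℤ) : ℂ) := by
    intro η x hx
    show classInner (fun c : C => (χh : Γ → ℂ) ((c : Γ) * x)) (η : C → ℂ) = _
    rw [show (fun c : C => (χh : Γ → ℂ) ((c : Γ) * x)) = (δ x hx : ℂ) • (b x hx : C → ℂ) from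
      funext (hb x hx), classInner_smul_left]
    by_cases e : b x hx = η
    · rw [if_pos e, e, classInner_self_of_isIrr η.2, mul_one]
    · rw [if_neg e, classInner_eq_zero_of_ne (b x hx).2 η.2 fun h => e (Subtype.ext h), mul_zero,
        Int.cast_zero]
  let v : IrrCharacter C → S → ℤ := fun η x =>
    if hx : x = 1 then 0 else if b x hx = η then δ x hx else 0
  have hv : ∀ η, ∀ x : S, x ≠ 1 → Q η x = v η x := fun η x hx => by
    simp only [v, dif_neg hx]
    exact hQval η x hx
  have hv1 : ∀ η, ∀ x : S, x ≠ 1 → v η x = 0 ∨ v η x = 1 ∨ v η x = -1 := fun η x hx => by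
    simp only [v, dif_neg hx]
    split_ifs
    · exact Or.inr (hδ x hx)
    · exact Or.inl rfl
  let s : S := ⟨s₀, hs₀⟩
  have hs : Subgroup.zpowers s = ⊤ := (Subgroup.eq_top_iff' _).2 hgen
  have hgenS : ∀ y : S, Subgroup.zpowers y = ⊤ → Subgroup.zpowers (y : Γ) = S := fun y hy => by
    rw [← Subgroup.coe_subtype, ← MonoidHom.map_zpowers, hy, ← MonoidHom.range_eq_map,
      Subgroup.range_subtype]
  have hQgen : ∀ (η : IrrCharacter C) (y : S), Subgroup.zpowers y = ⊤ →
      Q η y = if η = β then (ε₀ : ℂ) else 0 := fun η y hy => by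
    show classInner (fun c : C => (χh : Γ → ℂ) ((c : Γ) * y)) (η : C → ℂ) = _
    rw [show (fun c : C => (χh : Γ → ℂ) ((c : Γ) * y)) = (ε₀ : ℂ) • (β : C → ℂ) from
      funext fun c => hβ c y (hgenS y hy), classInner_smul_left]
    by_cases e : η = β
    · rw [if_pos e, e, classInner_self_of_isIrr β.2, mul_one]
    · rw [if_neg e, classInner_eq_zero_of_ne β.2 η.2 fun h => e (Subtype.ext h.symm), mul_zero]
  obtain ⟨ε, μ, hε, hμ2, hmain⟩ : ∃ (ε : ℤ) (μ : S →* ℂˣ), (ε = 1 ∨ ε = -1) ∧
      (∀ x, μ x * μ x = 1) ∧ ∀ (η : IrrCharacter C) (x : S), x ≠ 1 →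
        Q η x = if η = β then (ε : ℂ) * (μ x : ℂ) else 0 := by
    by_cases hs1 : s = 1
    · refine ⟨ε₀, 1, hε₀, fun x => one_mul 1, fun η x hx => absurd ?_ hx⟩
      have hmem : x ∈ Subgroup.zpowers s := hs ▸ Subgroup.mem_top x
      rwa [hs1, Subgroup.zpowers_one_eq_bot, Subgroup.mem_bot] at hmem
    · have hz : ∀ η : IrrCharacter C, ∀ x : S, x ≠ 1 → (v η x = 0 ↔ η ≠ β) := fun η x hx => by
        rw [eq_zero_iff (hQ η) (hv η) (hv1 η) hs hx, ← Int.cast_eq_zero (α := ℂ), ← hv η s hs1,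
          hQgen η s hs]
        by_cases e : η = β
        · rw [if_pos e]
          refine iff_of_false ?_ (not_not_intro e)
          exact Int.cast_ne_zero.2 (by omega)
        · rw [if_neg e]
          exact iff_of_true rfl e
      obtain ⟨ε, μ, hε, hμ2, hval⟩ := exists_sign_linear (hQ β) (hv β)
        (fun x hx => (hv1 β x hx).resolve_left fun h => ((hz β x hx).1 h) rfl) hs hs1
        (fun y hy => by
          have hy1 : y ≠ 1 := by
            rintro rfl
            rw [Subgroup.zpowers_one_eq_bot] at hy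
            exact hs1 (Subgroup.mem_bot.1 (hy ▸ Subgroup.mem_top s))
          have e1 := (hv β y hy1).symm.trans (hQgen β y hy)
          have e2 := (hv β s hs1).symm.trans (hQgen β s hs)
          exact_mod_cast e1.trans e2.symm)
      refine ⟨ε, μ, hε, hμ2, fun η x hx => ?_⟩
      by_cases e : η = β
      · rw [if_pos e, e, hv β x hx, hval x hx]
      · rw [if_neg e, hv η x hx, (hz η x hx).2 e, Int.cast_zero]
  have hQ1 : ∀ η : IrrCharacter C, Q η 1 = classInner (fun c : C => (χh : Γ → ℂ) c) (η : C → ℂ) :=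
    fun η => by simp [Q]
  have hdecomp : ∀ x : S, (fun c : C => (χh : Γ → ℂ) ((c : Γ) * x))
      = ∑ η : IrrCharacter C, Q η x • (η : C → ℂ) := fun x => by
    refine eq_sum_classInner fun c y => ?_
    show (χh : Γ → ℂ) ((y : Γ) * c * (y : Γ)⁻¹ * x) = (χh : Γ → ℂ) ((c : Γ) * x)
    rw [← IsIrrCharacter.isClassFunction χh.2 ((c : Γ) * x) (y : Γ)]
    congr 1
    rw [mul_assoc ((y : Γ) * c), ((hcomm y x).inv_left).eq]
    simp [mul_assoc]
  -- degrees of the multiplicities at the identity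
  have hμc : ∀ x : S, conj (μ x : ℂ) = μ x := fun x => by
    have h := congrArg (fun u : ℂˣ => (u : ℂ)) (hμ2 x)
    simp only [Units.val_mul, Units.val_one] at h
    rcases mul_self_eq_one_iff.1 h with e | e <;> simp [e]
  have hk : ∀ η : IrrCharacter C, ∃ k : ℕ,
      Q η 1 = (Nat.card S : ℂ) * k + if η = β then (ε : ℂ) else 0 := by
    intro η
    obtain ⟨r, hr⟩ := IsCharacter.exists_classInner_eq_nat (hQ η)
      ⟨linFun μ, isIrrCharacter_linear μ⟩
    have hsum : ∀ x ∈ Finset.univ.erase (1 : S), Q η x * conj ((μ x : ℂ))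
        = if η = β then (ε : ℂ) else 0 := fun x hx => by
      have h := congrArg (fun u : ℂˣ => (u : ℂ)) (hμ2 x)
      simp only [Units.val_mul, Units.val_one] at h
      rw [hmain η x (Finset.mem_erase.1 hx).1, hμc]
      split_ifs
      · rw [mul_assoc, h, mul_one]
      · rw [zero_mul]
    simp only [classInner, linFun_apply] at hr
    rw [← Finset.add_sum_erase _ _ (Finset.mem_univ (1 : S)), Finset.sum_congr rfl hsum,
      Finset.sum_const, Finset.card_erase_of_mem (Finset.mem_univ _), Finset.card_univ, map_one,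
      Units.val_one, map_one, mul_one, nsmul_eq_mul, Nat.card_eq_fintype_card,
      Nat.cast_sub Fintype.card_pos, inv_mul_eq_iff_eq_mul₀
        (Nat.cast_ne_zero.2 Fintype.card_ne_zero)] at hr
    obtain ⟨a, ha⟩ : ∃ a : ℕ, Q η 1 = a := by
      rw [hQ1]
      exact IsCharacter.exists_classInner_eq_nat
        (CfsgLib.Coherence.isCharacter_comp (IsIrrCharacter.isCharacter χh.2) C.subtype) η
    have ha0 : η = β → a ≠ 0 := fun e h0 => by
      have h := (CyclicSetup.correspondent_constituent (C := C)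
        (⟨hGn, by rw [hS]; exact htop, by rw [← hS, Nat.card_zpowers], hcop⟩ :
          CyclicSetup G (Nat.card S) s₀) hC₀ χ.2 χh.2 hext hdet hε₀ fun c => hβ c s₀ hS)
      rw [e] at ha
      rw [hQ1, h0, Nat.cast_zero] at ha
      exact h ha
    have hn : 0 < Fintype.card S := Fintype.card_pos
    rw [ha, Nat.card_eq_fintype_card]
    rw [ha] at hr
    split_ifs at hr ⊢ with e
    · have hz : ((a : ℤ) : ℂ) = (((Fintype.card S : ℤ) * ((r : ℤ) - ε) + ε : ℤ) : ℂ) := by
        push_cast at hr ⊢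
        linear_combination hr
      have hz' : (a : ℤ) = (Fintype.card S : ℤ) * ((r : ℤ) - ε) + ε := Int.cast_injective hz
      have ha1 : (1 : ℤ) ≤ a := by
        have := ha0 e
        omega
      obtain ⟨k, hk⟩ : ∃ k : ℕ, (k : ℤ) = (r : ℤ) - ε := by
        refine ⟨((r : ℤ) - ε).toNat, Int.toNat_of_nonneg ?_⟩
        by_contra hneg
        have h5 : (Fintype.card S : ℤ) * ((r : ℤ) - ε) ≤ (Fintype.card S : ℤ) * (-1) :=
          Int.mul_le_mul_of_nonneg_left (by omega) (by omega)
        omega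
      refine ⟨k, ?_⟩
      have hkc : (k : ℂ) = (r : ℂ) - (ε : ℂ) := by exact_mod_cast hk
      rw [hkc]
      linear_combination hr
    · refine ⟨r, ?_⟩
      linear_combination hr
  choose k hk using hk
  let ϑ : C → ℂ := ∑ η : IrrCharacter C, (k η : ℂ) • (η : C → ℂ)
  have hϑ : IsCharacter C ϑ := isCharacter_iff_exists_sum.2 ⟨k, rfl⟩
  have hres : (fun c : C => (χ : G → ℂ) ⟨c, hCG c.2⟩)
      = fun c => (Nat.card S : ℂ) * ϑ c + (ε : ℂ) * (β : C → ℂ) c := by
    funext c
    have h1 := congrFun (hdecomp 1) c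
    simp only [OneMemClass.coe_one, mul_one] at h1
    rw [← hext ⟨c, hCG c.2⟩, h1]
    simp only [ϑ, Finset.sum_apply, Pi.smul_apply, smul_eq_mul, hk, add_mul, ite_mul, zero_mul,
      Finset.sum_add_distrib, Finset.sum_ite_eq', Finset.mem_univ, if_true, Finset.mul_sum,
      mul_assoc]
  refine ⟨ε, hε, ⟨linFun μ, isCharacter_linFun μ, by simp [linFun_apply], fun x => ?_, fun c x hx =>
    ?_⟩, ⟨ϑ, hϑ, hres⟩, ?_⟩
  · rw [linFun_apply, ← Units.val_mul, hμ2, Units.val_one]
  · have h1 := congrFun (hdecomp x) c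
    rw [h1]
    simp only [Finset.sum_apply, Pi.smul_apply, smul_eq_mul, hmain _ x hx, ite_mul, zero_mul,
      Finset.sum_ite_eq', Finset.mem_univ, if_true, linFun_apply]
    ring
  · obtain ⟨dχ, -, hdχ⟩ := exists_degree_of_isIrr χ.2
    obtain ⟨dβ, -, hdβ⟩ := exists_degree_of_isIrr β.2
    obtain ⟨n, ρ, hρ⟩ := hϑ
    have hn : ϑ 1 = n := by rw [← hρ, Representation.char_one, Module.finrank_fin_fun]
    have h1 := congrFun hres 1
    rw [hn, hdβ, show (⟨((1 : C) : Γ), hCG (1 : C).2⟩ : G) = 1 from rfl, hdχ] at h1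
    rw [CfsgLib.CharDegreesTheory.charDegree_eq hdχ, CfsgLib.CharDegreesTheory.charDegree_eq hdβ]
    refine ⟨n, ?_⟩
    have hz : ((dχ : ℤ) : ℂ) = (((Nat.card S : ℤ) * n + ε * dβ : ℤ) : ℂ) := by
      push_cast
      exact h1
    have hz' : (dχ : ℤ) = (Nat.card S : ℤ) * n + ε * dβ := Int.cast_injective hz
    omega

end Cfsg.Agent.S4451
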