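import Cfsg.Statements.S4453
import Cfsg.Agent.Lib.IsaacsCorr.Main

set_option autoImplicit false
set_option linter.style.haveILetI false
open Cfsg

namespace Cfsg.Agent.S4453

open CfsgLib.CharTheory CfsgLib.IsaacsCorr

/-- Conjugation by an element normalising `G`, as an automorphism of `G`. -/
def operatorHom {Γ : Type*} [Group Γ] (G S : Subgroup Γ)
    (hnorm : ∀ s ∈ S, ∀ g ∈ G, s * g * s⁻¹ ∈ G) : S →* MulAut G where
  toFun s :=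
    { toFun := fun g => ⟨s * g * (s : Γ)⁻¹, hnorm s s.2 g g.2⟩
      invFun := fun g => ⟨(s : Γ)⁻¹ * g * s, by
        simpa using hnorm _ (inv_mem s.2) g g.2⟩
      left_inv := fun g => Subtype.ext (by simp [mul_assoc])
      right_inv := fun g => Subtype.ext (by simp [mul_assoc])
      map_mul' := fun a b => Subtype.ext (by simp [mul_assoc]) }
  map_one' := MulEquiv.ext fun g => Subtype.ext (by simp)
  map_mul' s t := MulEquiv.ext fun g => Subtype.ext (by simp [mul_assoc])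

theorem exists_mul_of_mem_sup {Γ : Type*} [Group Γ] [Finite Γ] {L C : Subgroup Γ}
    (h : ∀ c ∈ C, ∀ l ∈ L, c * l * c⁻¹ ∈ L) {x : Γ} (hx : x ∈ L ⊔ C) :
    ∃ l ∈ L, ∃ c ∈ C, x = l * c := by
  have hle : C ≤ Subgroup.normalizer (L : Set Γ) := fun c hc =>
    CfsgLib.CoprimeAction.mem_normalizer_of_conj_mem (h c hc)
  rw [← SetLike.mem_coe, Subgroup.coe_mul_of_right_le_normalizer_left L C hle] at hx
  obtain ⟨l, hl, c, hc, rfl⟩ := Set.mem_mul.1 hx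
  exact ⟨l, hl, c, hc, rfl⟩

/-- Inside a finite group Γ let S normalise the solvable subgroup G of odd order with the orders of G and S coprime, let C = G ⊓ C(S), and let L ≤ K be S-invariant normal subgroups of G with K/L abelian, G = KC and H = LC (so C ≤ H ≤ G). Then for each S-invariant irreducible character χ of G there is exactly one S-invariant irreducible character ψ of H whose multiplicity in the restriction of χ to H is odd, and χ ↦ ψ is a bijection from the S-invariant irreducible characters of G onto those of H (distinct χ give distinct ψ, and every S-invariant ψ arises). -/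
theorem result {Γ : Type*} [Group Γ] [Fintype Γ] (G S : Subgroup Γ) [Fintype G] (hnorm : ∀ s ∈ S, ∀ g ∈ G, s * g * s⁻¹ ∈ G) (hcop : (Nat.card G).Coprime (Nat.card S)) (hGsolv : Group.IsSolvable G) (hodd : Odd (Nat.card G)) (C : Subgroup Γ) [Fintype C] (hC : C = G ⊓ Subgroup.centralizer (S : Set Γ)) (hCG : C ≤ G) (K L H : Subgroup Γ) [Fintype H] (hLK : L ≤ K) (hKG : K ≤ G) (hKn : ∀ g ∈ G, ∀ k ∈ K, g * k * g⁻¹ ∈ K) (hLn : ∀ g ∈ G, ∀ l ∈ L, g * l * g⁻¹ ∈ L) (hKS : ∀ s ∈ S, ∀ k ∈ K, s * k * s⁻¹ ∈ K) (hLS : ∀ s ∈ S, ∀ l ∈ L, s * l * s⁻¹ ∈ L) (hab : ∀ a ∈ K, ∀ b ∈ K, a * b * a⁻¹ * b⁻¹ ∈ L) (hGKC : K ⊔ C = G) (hH : H = L ⊔ C) (hHG : H ≤ G) : (∀ χ : Cfsg.IrrCharacter G, (∀ s ∈ S, ∀ g g' : G, (g' : Γ) = s * g * s⁻¹ → (χ : G → ℂ) g' = (χ : G → ℂ) g) → ∃! ψ : Cfsg.IrrCharacter H, (∀ s ∈ S, ∀ g g' : H, (g' : Γ) = s * g * s⁻¹ → (ψ : H → ℂ) g' = (ψ : H → ℂ)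 g) ∧ ∃ m : ℕ, Cfsg.classInner (fun h : H => (χ : G → ℂ) ⟨h, hHG h.2⟩) (ψ : H → ℂ) = (m : ℂ) ∧ Odd m) ∧ (∀ χ χ' : Cfsg.IrrCharacter G, (∀ s ∈ S, ∀ g g' : G, (g' : Γ) = s * g * s⁻¹ → (χ : G → ℂ) g' = (χ : G → ℂ) g) → (∀ s ∈ S, ∀ g g' : G, (g' : Γ) = s * g * s⁻¹ → (χ' : G → ℂ) g' = (χ' : G → ℂ) g) → ∀ ψ : Cfsg.IrrCharacter H, (∀ s ∈ S, ∀ g g' : H, (g' : Γ) = s * g * s⁻¹ → (ψ : H → ℂ) g' = (ψ : H → ℂ) g) → ∀ m m' : ℕ, Cfsg.classInner (fun h : H => (χ : G → ℂ) ⟨h, hHG h.2⟩) (ψ : H → ℂ) = (m : ℂ) → Odd m → Cfsg.classInner (fun h : H => (χ' : G → ℂ) ⟨h, hHG h.2⟩) (ψ : H → ℂ) = (m' : ℂ) → Odd m' → χ = χ') ∧ (∀ ψ : Cfsg.IrrCharacter H, (∀ s ∈ S, ∀ g g' : H, (g' : Γ) = s * g * s⁻¹ → (ψ : H → ℂ) g' = (ψ : H → ℂ) g) → ∃ χ : Cfsg.IrrCharacter G, (∀ s ∈ S, ∀ g g' : G, (g' : Γ) = s * g * s⁻¹ → (χ : G → ℂ) g' = (χ : G → ℂ) g) ∧ ∃ m : ℕ, Cfsg.classInner (fun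 h : H => (χ : G → ℂ) ⟨h, hHG h.2⟩) (ψ : H → ℂ) = (m : ℂ) ∧ Odd m) := by
  classical
  let σ : S →* MulAut G := operatorHom G S hnorm
  have hσ : ∀ (s : S) (g : G), ((σ s g : G) : Γ) = s * g * (s : Γ)⁻¹ := fun s g => rfl
  have hLH : L ≤ H := hH ▸ le_sup_left
  have hCH : C ≤ H := hH ▸ le_sup_right
  have hfixC : ∀ g : G, (∀ s, σ s g = g) → (g : Γ) ∈ C := by
    intro g hg
    rw [hC]
    refine Subgroup.mem_inf.2 ⟨g.2, Subgroup.mem_centralizer_iff.2 fun s hs => ?_⟩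
    exact mul_inv_eq_iff_eq_mul.1 ((hσ ⟨s, hs⟩ g).symm.trans (congrArg Subtype.val (hg ⟨s, hs⟩)))
  have hCfix : ∀ g : G, (g : Γ) ∈ C → ∀ s, σ s g = g := by
    intro g hg s
    rw [hC] at hg
    refine Subtype.ext ((hσ s g).trans ?_)
    rw [Subgroup.mem_centralizer_iff.1 (Subgroup.mem_inf.1 hg).2 s s.2, mul_inv_cancel_right]
  have hHS : ∀ s ∈ S, ∀ x ∈ H, s * x * s⁻¹ ∈ H := by
    intro s hs x hx
    rw [hH] at hx ⊢
    obtain ⟨l, hl, c, hc, rfl⟩ := exists_mul_of_mem_sup (fun c hc => hLn c (hCG hc)) hx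
    have hcs : s * c * s⁻¹ = c :=
      congrArg Subtype.val (hCfix ⟨c, hCG hc⟩ hc ⟨s, hs⟩)
    rw [show s * (l * c) * s⁻¹ = s * l * s⁻¹ * (s * c * s⁻¹) by group, hcs]
    exact Subgroup.mul_mem_sup (hLS s hs l hl) hc
  have hgen : ∀ g : G, ∃ k : G, (k : Γ) ∈ K ∧ ∃ z : G, g = k * z ∧ (z : Γ) ∈ C := by
    intro g
    obtain ⟨k, hk, z, hz, he⟩ :=
      exists_mul_of_mem_sup (fun c hc => hKn c (hCG hc)) (show (g : Γ) ∈ K ⊔ C by rw [hGKC]; exact g.2)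
    exact ⟨⟨k, hKG hk⟩, hk, ⟨z, hCG hz⟩, Subtype.ext he, hz⟩
  have hctx : Ctx σ (K.subgroupOf G) (H.subgroupOf G) := by
    refine ⟨hodd, hGsolv, hcop.symm, ⟨fun k hk g => hKn g g.2 k hk⟩, ⟨fun x hx g => ?_⟩,
      fun s k hk => hKS s s.2 k hk, fun s x hx => hHS s s.2 x hx, fun z hz => hCH (hfixC z hz),
      fun a ha b hb => ?_, fun g => ?_⟩
    · obtain ⟨k, hk, z, rfl, hz⟩ := hgen g
      obtain ⟨hxK, hxH⟩ := Subgroup.mem_inf.1 hx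
      refine Subgroup.mem_inf.2 ⟨hKn _ (k * z).2 _ hxK, ?_⟩
      have hy : (z : Γ) * x * (z : Γ)⁻¹ ∈ H := mul_mem (mul_mem (hCH hz) hxH) (inv_mem (hCH hz))
      have hyK : (z : Γ) * x * (z : Γ)⁻¹ ∈ K := hKn _ z.2 _ hxK
      have h := mul_mem (hLH (hab _ hk _ hyK)) hy
      simpa [Subgroup.mem_subgroupOf, mul_assoc] using h
    · have h := hLH (hab _ (K.inv_mem ha) _ (K.inv_mem hb))
      simpa [Subgroup.mem_subgroupOf, mul_assoc] using h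
    · obtain ⟨k, hk, z, he, hz⟩ := hgen g
      exact ⟨k, hk, z, he, hCfix z hz⟩
  letI : Fintype (H.subgroupOf G) := Fintype.ofFinite _
  let e : H.subgroupOf G ≃* H := Subgroup.subgroupOfEquivOfLe hHG
  let up : IrrCharacter H → IrrCharacter (H.subgroupOf G) := fun ψ =>
    ⟨fun x => (ψ : H → ℂ) (e x), isIrrCharacter_comp_mulEquiv ψ.2 e⟩
  let down : IrrCharacter (H.subgroupOf G) → IrrCharacter H := fun ψ =>
    ⟨fun x => (ψ : H.subgroupOf G → ℂ) (e.symm x), isIrrCharacter_comp_mulEquiv ψ.2 e.symm⟩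
  have hdu : ∀ ψ, down (up ψ) = ψ := fun ψ => Subtype.ext (funext fun x =>
    congrArg (ψ : H → ℂ) (e.apply_symm_apply x))
  have hfixG : ∀ χ : G → ℂ, (∀ s ∈ S, ∀ g g' : G, (g' : Γ) = s * g * s⁻¹ → χ g' = χ g) ↔
      ∀ s x, χ (σ s x) = χ x := fun χ =>
    ⟨fun h s x => h s s.2 x (σ s x) rfl, fun h s hs g g' hg => by
      rw [show g' = σ ⟨s, hs⟩ g from Subtype.ext hg]; exact h _ _⟩
  have hfixH : ∀ ψ : IrrCharacter H,
      (∀ s ∈ S, ∀ g g' : H, (g' : Γ) = s * g * s⁻¹ → (ψ : H → ℂ) g' = (ψ : H → ℂ) g) ↔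
        IsFix σ (H.subgroupOf G) ((up ψ : IrrCharacter (H.subgroupOf G)) : H.subgroupOf G → ℂ) :=
    fun ψ => ⟨fun h s x y hy => h s s.2 (e x) (e y) (congrArg (fun g : G => (g : Γ)) hy),
      fun h s hs g g' hg => by
        have h1 : (ψ : H → ℂ) (e (e.symm g')) = (ψ : H → ℂ) (e (e.symm g)) :=
          h ⟨s, hs⟩ (e.symm g) (e.symm g') (Subtype.ext hg)
        simpa using h1⟩
  have hodd' : ∀ (χ : G → ℂ) (ψ : IrrCharacter H),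
      OddIn (H.subgroupOf G) χ ((up ψ : IrrCharacter (H.subgroupOf G)) : H.subgroupOf G → ℂ) ↔
        ∃ m : ℕ, classInner (fun h : H => χ ⟨h, hHG h.2⟩) (ψ : H → ℂ) = (m : ℂ) ∧ Odd m := by
    intro χ ψ
    have h := CfsgLib.Clifford.classInner_comp_mulEquiv e (fun h : H => χ ⟨h, hHG h.2⟩) (ψ : H → ℂ)
    rw [← h]
    exact Iff.rfl
  have hup : ∀ ψ, up (down ψ) = ψ := fun ψ => Subtype.ext (funext fun x =>
    congrArg (ψ : H.subgroupOf G → ℂ) (e.symm_apply_apply x))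
  obtain ⟨h1, h2, h3⟩ := hctx.correspondence
  refine ⟨fun χ hχ => ?_, fun χ χ' hχ hχ' ψ hψ m m' hm hmo hm' hmo' => ?_, fun ψ hψ => ?_⟩
  · obtain ⟨ψ, ⟨hψf, hψo⟩, hu⟩ := h1 χ ((hfixG _).1 hχ)
    refine ⟨down ψ, ⟨(hfixH _).2 (by rwa [hup]), (hodd' _ _).1 (by rwa [hup])⟩,
      fun η ⟨hηf, hηo⟩ => ?_⟩
    rw [← hdu η, hu (up η) ⟨(hfixH η).1 hηf, (hodd' _ η).2 hηo⟩]
  · exact h2 χ χ' ((hfixG _).1 hχ) ((hfixG _).1 hχ') (up ψ) ((hfixH ψ).1 hψ)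
      ((hodd' _ ψ).2 ⟨m, hm, hmo⟩) ((hodd' _ ψ).2 ⟨m', hm', hmo'⟩)
  · obtain ⟨χ, hχ, ho⟩ := h3 (up ψ) ((hfixH ψ).1 hψ)
    exact ⟨χ, (hfixG _).2 hχ, (hodd' _ ψ).1 ho⟩

end Cfsg.Agent.S4453
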