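import Cfsg.Statements.S4454
import Cfsg.Agent.Lib.Clifford.Gallagher
import Cfsg.Agent.Lib.Jordan.RelGlauberman
import Cfsg.Agent.Lib.RealChar.Extension
import Cfsg.Agent.Lib.CharDegreesTheory.InvariantConstituent
import Cfsg.Agent.Lib.CharTheory.Ito
-- import your own Cfsg.Agent.* helpers here

set_option autoImplicit false
set_option linter.style.haveILetI false
set_option maxHeartbeats 1000000
open Cfsg CfsgLib.CharTheory CfsgLib.CharDegreesTheory CfsgLib.Clifford
open scoped ComplexConjugate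

namespace Cfsg.Agent.S4454

/-- The counting step: `m` natural numbers with prescribed sum and sum of squares. -/
theorem dvd_of_sums {ι : Type*} [Fintype ι] (a : ι → ℤ) {m e : ℤ} (hcard : (Fintype.card ι : ℤ) = m)
    (hm : 2 ≤ m) (h1 : ∑ i, a i = e) (h2 : m * ∑ i, a i ^ 2 = e ^ 2 + m - 1) :
    m ∣ e - 1 ∨ m ∣ e + 1 := by
  set q := e / m with hq
  set r := e % m with hr
  have he : e = m * q + r := (Int.mul_ediv_add_emod e m).symm
  have hnn : 0 ≤ ∑ i, (a i - q) * (a i - q - 1) := Finset.sum_nonneg fun i _ => by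
    rcases le_or_gt (a i) q with h | h
    · exact mul_nonneg_of_nonpos_of_nonpos (by omega) (by omega)
    · exact mul_nonneg (by omega) (by omega)
  have hexp : ∑ i, (a i - q) * (a i - q - 1)
      = ∑ i, a i ^ 2 - (2 * q + 1) * e + m * (q * (q + 1)) := by
    rw [← h1, ← hcard, Finset.mul_sum, show ((Fintype.card ι : ℤ)) * (q * (q + 1))
      = ∑ _i : ι, q * (q + 1) by simp, ← Finset.sum_sub_distrib, ← Finset.sum_add_distrib]
    exact Finset.sum_congr rfl fun i _ => by ring
  rw [hexp] at hnn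
  have hP : 0 ≤ (r - 1) * (r - (m - 1)) := by
    have h3 := mul_nonneg (by omega : (0 : ℤ) ≤ m) hnn
    rw [mul_add, mul_sub, h2, he] at h3
    linarith
  have hr0 : 0 ≤ r := Int.emod_nonneg _ (by omega)
  have hrm : r < m := Int.emod_lt_of_pos _ (by omega)
  have hr2 : r = 0 ∨ r = 1 ∨ r = m - 1 := by
    by_contra hne
    push Not at hne
    have : (r - 1) * (r - (m - 1)) < 0 := mul_neg_of_pos_of_neg (by omega) (by omega)
    omega
  rcases hr2 with h | h | h
  · exfalso
    rw [he, h] at h2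
    have hd : m ∣ 1 := ⟨m * q ^ 2 + 1 - ∑ i, a i ^ 2, by linarith⟩
    have := Int.le_of_dvd one_pos hd
    omega
  · exact Or.inl ⟨q, by rw [he, h]; ring⟩
  · exact Or.inr ⟨q + 1, by rw [he, h]; ring⟩

/-- Sums over a group by cosets of a normal subgroup. -/
theorem sum_quotient {G : Type*} [Group G] [Fintype G] (N : Subgroup G) [N.Normal] [Fintype N]
    [Fintype (G ⧸ N)] (f : G ⧸ N → ℂ) : ∑ g : G, f g = (Nat.card N : ℂ) * ∑ q, f q := by
  classical
  rw [← Finset.sum_fiberwise _ (fun g : G => (g : G ⧸ N)), Finset.mul_sum]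
  refine Finset.sum_congr rfl fun q _ => ?_
  rw [Finset.sum_congr rfl (g := fun _ => f q) fun g hg => by rw [(Finset.mem_filter.1 hg).2],
    Finset.sum_const, nsmul_eq_mul]
  congr 2
  induction q using QuotientGroup.induction_on with
  | H x =>
    rw [Nat.card_eq_fintype_card, ← Finset.card_univ]
    refine (Finset.card_bij (fun (n : N) _ => x * (n : G)) (fun n _ => ?_)
      (fun a _ b _ h => Subtype.ext (mul_left_cancel h)) (fun g hg => ?_)).symm
    · simpa [QuotientGroup.eq] using n.2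
    · refine ⟨⟨x⁻¹ * g, QuotientGroup.eq.1 (Finset.mem_filter.1 hg).2.symm⟩, Finset.mem_univ _, ?_⟩
      exact mul_inv_cancel_left x g

/-- Let N ≤ G be normal subgroups of the finite group Γ with Γ/G cyclic and Γ/N a Frobenius group with kernel G/N: G ≠ Γ, N ≠ G, and no element of Γ outside G fixes a non-identity coset of N in G under conjugation. Let ϑ be an irreducible character of N invariant under conjugation by Γ and suppose ϑ is fully ramified in G: the character of G induced from ϑ equals e·χ for an irreducible character χ of G and a natural number e. Then the index of G in Γ divides e − 1 or e + 1. -/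
theorem result {Γ : Type*} [Group Γ] [Fintype Γ] (G N : Subgroup Γ) [hG : G.Normal] [hN : N.Normal] [Fintype G] [Fintype N] (hNG : N ≤ G) (hGlt : G ≠ ⊤) (hNlt : N ≠ G) (hcyc : IsCyclic (Γ ⧸ G)) (hfrob : ∀ x : Γ, x ∉ G → ∀ g : Γ, g ∈ G → x * g * x⁻¹ * g⁻¹ ∈ N → g ∈ N) (θ : Cfsg.IrrCharacter N) (hinv : ∀ (x : Γ) (n : N), (θ : N → ℂ) ⟨x * n * x⁻¹, hN.conj_mem n n.2 x⟩ = (θ : N → ℂ) n) (χ : Cfsg.IrrCharacter G) (e : ℕ) (hram : Cfsg.indFun (N.subgroupOf G) (fun n : N.subgroupOf G => (θ : N → ℂ) ⟨(n : G), n.2⟩) = fun g => (e : ℂ) * (χ : G → ℂ) g) : (G.index : ℤ) ∣ (e : ℤ) - 1 ∨ (G.index : ℤ) ∣ (e : ℤ) + 1 := by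
  classical
  have hGn : G.Normal := hG
  haveI := hN
  letI : Fintype (Γ ⧸ G) := Fintype.ofFinite _
  obtain ⟨q₀, hq₀⟩ := hcyc.exists_generator
  obtain ⟨x, rfl⟩ := QuotientGroup.mk_surjective q₀
  set m := G.index with hm
  have hxo : orderOf (x : Γ ⧸ G) = m := by
    rw [hm, Subgroup.index_eq_card]
    exact orderOf_eq_card_of_forall_mem_zpowers hq₀
  have hm2 : 2 ≤ m := by
    have h0 : m ≠ 0 := Subgroup.index_ne_zero_of_finite
    have h1 : m ≠ 1 := fun h => hGlt (Subgroup.index_eq_one.1 h)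
    omega
  have hxG : x ∉ G := by
    intro h
    rw [(QuotientGroup.eq_one_iff x).2 h, orderOf_one] at hxo
    omega
  have hxm : x ^ m ∈ N := by
    have h := hfrob x hxG (x ^ m) (G.pow_index_mem x)
    by_contra hne
    refine hne (h ?_)
    rw [(Commute.self_pow x m).eq, mul_inv_cancel_right, mul_inv_cancel]
    exact N.one_mem
  -- the subgroup generated by `N` and `x`
  set S : Subgroup Γ := N ⊔ Subgroup.zpowers x with hSdef
  have hNS : N ≤ S := le_sup_left
  letI : Fintype S := Fintype.ofFinite _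
  have hSG : ∀ y ∈ S, y ∈ G → y ∈ N := by
    intro y hy hyG
    obtain ⟨n, hn, t, ht, rfl⟩ := Subgroup.mem_sup_of_normal_left.1 hy
    obtain ⟨j, rfl⟩ := Subgroup.mem_zpowers_iff.1 ht
    have hj : x ^ j ∈ G := by simpa using G.mul_mem (G.inv_mem (hNG hn)) hyG
    rw [← QuotientGroup.eq_one_iff, QuotientGroup.mk_zpow, ← orderOf_dvd_iff_zpow_eq_one, hxo] at hj
    obtain ⟨i, rfl⟩ := hj
    rw [zpow_mul, zpow_natCast]
    exact N.mul_mem hn (N.zpow_mem hxm i)
  set N' := N.subgroupOf S with hN'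
  letI : Fintype N' := Fintype.ofFinite _
  letI : Fintype (S ⧸ N') := Fintype.ofFinite _
  let f : S ⧸ N' →* Γ ⧸ G := QuotientGroup.map N' G S.subtype fun y hy => hNG hy
  have hf : Function.Injective f := by
    refine (injective_iff_map_eq_one f).2 fun q => QuotientGroup.induction_on q fun y hy => ?_
    exact (QuotientGroup.eq_one_iff y).2 (hSG y y.2 ((QuotientGroup.eq_one_iff (y : Γ)).1 hy))
  have hfs : Function.Surjective f := by
    intro q
    obtain ⟨j, hj⟩ := Subgroup.mem_zpowers_iff.1 (hq₀ q)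
    exact ⟨((⟨x ^ j, Subgroup.mem_sup_right ⟨j, rfl⟩⟩ : S) : S ⧸ N'), hj⟩
  haveI : IsCyclic (S ⧸ N') := isCyclic_of_injective f hf
  have hcardQ : Nat.card (S ⧸ N') = m := by
    rw [hm, Subgroup.index_eq_card]
    exact Nat.card_congr (Equiv.ofBijective f ⟨hf, hfs⟩)
  have hcommQ : ∀ a b : S ⧸ N', a * b = b * a :=
    (IsCyclic.commGroup (α := S ⧸ N')).mul_comm
  -- the characters
  let eS : N' ≃* N := Subgroup.subgroupOfEquivOfLe hNS
  let θ' : IrrCharacter N' := irrComp eS θ
  obtain ⟨θh, hθh, hθhN⟩ := CfsgLib.RealChar.exists_extension_character_of_cyclic N' inferInstance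
    (θ' : N' → ℂ) θ'.2 (fun g n => by
      refine Eq.trans ?_ (hinv (g : Γ) (eS n))
      exact congrArg _ (Subtype.ext rfl))
  let eN := Subgroup.subgroupOfEquivOfLe hNG
  letI : Fintype (N.subgroupOf G) := Fintype.ofFinite _
  let θG : IrrCharacter (N.subgroupOf G) := irrComp eN θ
  have hram' : indFun (N.subgroupOf G) (θG : N.subgroupOf G → ℂ) = fun g => (e : ℂ) * (χ : G → ℂ) g :=
    hram
  have hinner : ∀ χ' : IrrCharacter G,
      classInner (θG : N.subgroupOf G → ℂ) (fun n : N.subgroupOf G => (χ' : G → ℂ) n)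
        = if χ = χ' then (e : ℂ) else 0 := by
    intro χ'
    rw [← CfsgLib.Frobenius.classInner_indFun _ _ _ (IsIrrCharacter.isClassFunction χ'.2), hram',
      show (fun g => (e : ℂ) * (χ : G → ℂ) g) = (e : ℂ) • (χ : G → ℂ) from rfl, classInner_smul_left]
    by_cases h : χ = χ'
    · rw [if_pos h, h, classInner_self_of_isIrr χ'.2, mul_one]
    · rw [if_neg h, classInner_eq_zero_of_ne χ.2 χ'.2 fun h' => h (Subtype.ext h'), mul_zero]
  have hinvΓ : ∀ (y : Γ) (g : G), (χ : G → ℂ) (MulAut.conjNormal y g) = (χ : G → ℂ) g := by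
    obtain ⟨χ₁, hχ₁⟩ := CfsgLib.CharDegreesTheory.exists_constituent (N.subgroupOf G) θG
    have hov : ∀ χ' : IrrCharacter G,
        mult (N.subgroupOf G).subtype (χ' : G → ℂ) (θG : _ → ℂ) ≠ 0 → χ = χ' := fun χ' h => by
      by_contra hne
      refine h ?_
      have h1 := classInner_eq_mult (N.subgroupOf G).subtype
        (IsIrrCharacter.isCharacter χ'.2) θG
      simp only [Subgroup.coe_subtype] at h1
      rw [classInner_conj_symm, hinner, if_neg hne, map_zero] at h1
      exact_mod_cast h1.symm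
    obtain rfl := hov χ₁ hχ₁
    intro y g
    have hres : ∀ n : N.subgroupOf G, MulAut.conjNormal y (n : G) ∈ N.subgroupOf G := fun n => by
      rw [Subgroup.mem_subgroupOf, MulAut.conjNormal_apply]
      exact hN.conj_mem _ n.2 y
    let ψ : IrrCharacter G := irrComp (MulAut.conjNormal y) χ
    let cN : N.subgroupOf G ≃* N.subgroupOf G :=
      eN.trans ((MulAut.conjNormal y).trans eN.symm)
    have hψ : mult (N.subgroupOf G).subtype (ψ : G → ℂ) (θG : _ → ℂ) ≠ 0 := by
      have h1 := mult_comp_equiv (N.subgroupOf G).subtype (N.subgroupOf G).subtype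
        (MulAut.conjNormal y) cN (fun n => Subtype.ext rfl) (χ : G → ℂ) (θG : _ → ℂ)
      rw [show (fun n => (θG : N.subgroupOf G → ℂ) (cN n)) = (θG : N.subgroupOf G → ℂ) from
        funext fun n => by
          show (θ : N → ℂ) (eN (eN.symm (MulAut.conjNormal y (eN n)))) = (θ : N → ℂ) (eN n)
          rw [MulEquiv.apply_symm_apply, ← hinv y (eN n)]
          exact congrArg _ (Subtype.ext rfl)] at h1
      show mult (N.subgroupOf G).subtype (fun g => (χ : G → ℂ) (MulAut.conjNormal y g)) _ ≠ 0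
      rw [h1]
      exact hχ₁
    exact (congrFun (congrArg Subtype.val (hov ψ hψ)) g).symm
  obtain ⟨χh, hχh, hχhG⟩ := CfsgLib.RealChar.exists_extension_character_of_cyclic G hcyc
    (χ : G → ℂ) χ.2 hinvΓ
  -- `χ` restricted to `N` is `e • θ`
  have hresN : ∀ n : N, (χ : G → ℂ) ⟨n, hNG n.2⟩ = (e : ℂ) * (θ : N → ℂ) n := by
    intro n
    have h1 : classInner (fun n : N.subgroupOf G => (χ : G → ℂ) n) (θG : _ → ℂ) = (e : ℂ) := by
      rw [classInner_conj_symm, hinner, if_pos rfl, map_natCast]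
    have he0 : (e : ℂ) ≠ 0 := by
      intro h0
      obtain ⟨χ₁, hχ₁⟩ := CfsgLib.CharDegreesTheory.exists_constituent (N.subgroupOf G) θG
      refine hχ₁ ?_
      have h1 := classInner_eq_mult (N.subgroupOf G).subtype
        (IsIrrCharacter.isCharacter χ₁.2) θG
      simp only [Subgroup.coe_subtype] at h1
      rw [classInner_conj_symm, hinner] at h1
      split_ifs at h1
      · rw [h0, map_zero] at h1; exact_mod_cast h1.symm
      · rw [map_zero] at h1; exact_mod_cast h1.symm
    have h2 := congrFun (res_eq_of_invariant (N.subgroupOf G) χ.2 θG.2 (fun g => funext fun k => by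
      show (θ : N → ℂ) (eN _) = (θ : N → ℂ) (eN k)
      rw [← hinv (g : Γ) (eN k)]
      exact congrArg _ (Subtype.ext rfl)) (h1.symm ▸ he0)) (eN.symm n)
    rw [h1] at h2
    refine h2.trans ?_
    show (e : ℂ) * (θ : N → ℂ) (eN (eN.symm n)) = _
    rw [MulEquiv.apply_symm_apply]
  -- `χh` on `S`
  letI : Fintype (IrrCharacter S) := Fintype.ofFinite _
  letI : Fintype (IrrCharacter N') := Fintype.ofFinite _
  have hSchar : IsCharacter S (fun y : S => χh y) :=
    CfsgLib.Coherence.isCharacter_comp (IsIrrCharacter.isCharacter hχh) S.subtype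
  obtain ⟨k, hk⟩ := IsCharacter.exists_sum hSchar
  have hθres : (fun n : N' => θh n) = (θ' : N' → ℂ) := funext hθhN
  have hθirr : IsIrrCharacter N' (fun n : N' => θh n) := hθres ▸ θ'.2
  have hbeta : ∀ ψ : IrrCharacter S, k ψ ≠ 0 →
      ∃ b : IrrCharacter (S ⧸ N'), (ψ : S → ℂ) = fun y : S => (b : S ⧸ N' → ℂ) (y : S ⧸ N') * θh y := by
    intro ψ hkψ
    refine CfsgLib.Jordan.exists_twist N' hθh hθirr ψ.2 ?_
    rw [hθres]
    obtain ⟨η, hη⟩ := CfsgLib.CharTheory.exists_constituent N' (IsIrrCharacter.isCharacter ψ.2)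
      (apply_one_ne_zero_of_isIrr ψ.2)
    suffices η = θ' by rw [← this]; exact hη
    by_contra hne
    have h1 := classInner_eq_mult (S.subtype.comp N'.subtype) (IsIrrCharacter.isCharacter hχh) η
    have hfun : (fun n : N' => χh ((S.subtype.comp N'.subtype) n)) = (e : ℂ) • (θ' : N' → ℂ) := by
      funext n
      exact (hχhG ⟨(n : S), hNG n.2⟩).trans (hresN (eS n))
    rw [hfun, classInner_smul_left,
      classInner_eq_zero_of_ne θ'.2 η.2 fun h => hne (Subtype.ext h).symm, mul_zero,
      mult_comp _ _ (IsIrrCharacter.isCharacter hχh)] at h1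
    have h2 := Finset.sum_eq_zero_iff.1 (Nat.cast_eq_zero.1 h1.symm) ψ (Finset.mem_univ _)
    have hm1 : mult S.subtype χh (ψ : S → ℂ) = k ψ := by
      have h3 := classInner_eq_mult S.subtype (IsIrrCharacter.isCharacter hχh) ψ
      simp only [Subgroup.coe_subtype] at h3
      rw [hk, classInner_sum_irr (fun φ => (k φ : ℂ)) ψ] at h3
      exact_mod_cast h3.symm
    have hm2 := classInner_eq_mult N'.subtype (IsIrrCharacter.isCharacter ψ.2) η
    rw [hm1] at h2
    refine hη (hm2.trans ?_)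
    rw [(Nat.mul_eq_zero.1 h2).resolve_left hkψ, Nat.cast_zero]
  choose b hb using hbeta
  let B : S ⧸ N' → ℂ := ∑ ψ : IrrCharacter S,
    (k ψ : ℂ) • (if h : k ψ ≠ 0 then (b ψ h : S ⧸ N' → ℂ) else 0)
  have hχS : ∀ y : S, χh y = B y * θh y := by
    intro y
    rw [congrFun hk y]
    simp only [B, Finset.sum_apply, Pi.smul_apply, smul_eq_mul, Finset.sum_mul]
    refine Finset.sum_congr rfl fun ψ _ => ?_
    by_cases h : k ψ ≠ 0
    · rw [dif_pos h, congrFun (hb ψ h) y, mul_assoc]
    · simp [not_not.1 h]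
  have hθh1 : θh 1 ≠ 0 := apply_one_ne_zero_of_isIrr hθh
  have hB1 : B 1 = (e : ℂ) := by
    have h1 := hχS 1
    rw [Subgroup.coe_one, show χh 1 = χh ((1 : G) : Γ) from rfl, hχhG,
      show (1 : G) = ⟨((1 : N) : Γ), hNG (1 : N).2⟩ from rfl, hresN, QuotientGroup.mk_one,
      show θh 1 = θh ((1 : N') : S) from rfl, hθhN] at h1
    refine (mul_right_cancel₀ (apply_one_ne_zero_of_isIrr θ.2) ?_).symm
    refine h1.trans (congrArg _ ?_)
    show (θ : N → ℂ) (eS 1) = (θ : N → ℂ) 1
    rw [map_one]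
  -- the absolute value off the identity
  have habs : ∀ q : S ⧸ N', q ≠ 1 → B q * conj (B q) = 1 := by
    intro q hq
    induction q using QuotientGroup.induction_on with
    | H y =>
      have hyN : (y : Γ) ∉ N := fun h => hq ((QuotientGroup.eq_one_iff y).2 h)
      have hyG : (y : Γ) ∉ G := fun h => hyN (hSG y y.2 h)
      set F : Γ → ℂ := χh * fun z => conj (χh z) with hF
      have hGsum : ∑ g : G, F ((g : Γ) * y) = (Nat.card G : ℂ) := by
        have h1 := congrFun (cosetAvg_mul_conj_self (N := G) hχh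
          (by rw [show (fun g : G => χh g) = (χ : G → ℂ) from funext hχhG]; exact χ.2)) (y : Γ)
        simp only [cosetAvg] at h1
        rw [inv_mul_eq_iff_eq_mul₀ (Nat.cast_ne_zero.2 Nat.card_pos.ne'), mul_one] at h1
        exact h1
      have hθsum : ∑ n : N', θh ((n : S) * y) * conj (θh ((n : S) * y)) = (Nat.card N' : ℂ) := by
        have h1 := congrFun (cosetAvg_mul_conj_self (N := N') hθh hθirr) y
        simp only [cosetAvg, Pi.mul_apply] at h1
        rw [inv_mul_eq_iff_eq_mul₀ (Nat.cast_ne_zero.2 Nat.card_pos.ne'), mul_one] at h1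
        exact h1
      have hNsum : ∑ n : N, F ((n : Γ) * y) = B y * conj (B y) * (Nat.card N : ℂ) := by
        rw [← Nat.card_congr eS.toEquiv, ← hθsum, Finset.mul_sum]
        refine (Fintype.sum_equiv eS.toEquiv _ _ fun n => ?_).symm
        have e1 : (((n : S) * y : S) : S ⧸ N') = (y : S ⧸ N') := by
          rw [QuotientGroup.mk_mul, (QuotientGroup.eq_one_iff (n : S)).2 n.2, one_mul]
        show _ = χh (((n : S) * y : S) : Γ) * conj (χh (((n : S) * y : S) : Γ))
        rw [hχS, e1, map_mul]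
        ring
      letI : Fintype (G ⧸ N.subgroupOf G) := Fintype.ofFinite _
      let Ψ : G → ℂ := fun g => ∑ n : N, F ((n : Γ) * g * y)
      have hΨ : ∀ a b : G, (QuotientGroup.leftRel (N.subgroupOf G)) a b → Ψ a = Ψ b := by
        intro a c hac
        rw [QuotientGroup.leftRel_apply] at hac
        have hmem : (c : Γ) * (a : Γ)⁻¹ ∈ N := by
          have := hN.conj_mem _ (show ((a : Γ)⁻¹ * c) ∈ N from hac) (a : Γ)
          simpa using this
        refine (Fintype.sum_equiv (Equiv.mulRight (⟨_, hmem⟩ : N)) _ _ fun n => ?_).symm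
        show F ((n : Γ) * c * y) = F (((n : Γ) * ((c : Γ) * (a : Γ)⁻¹)) * a * y)
        simp [mul_assoc]
      let Ψq : G ⧸ N.subgroupOf G → ℂ := fun q => Quotient.liftOn' q Ψ hΨ
      let cm : G → G := fun g => ⟨(g : Γ) * y * (g : Γ)⁻¹ * (y : Γ)⁻¹, by
        have h1 := G.mul_mem g.2 (hGn.conj_mem _ (G.inv_mem g.2) (y : Γ))
        simpa [mul_assoc] using h1⟩
      have hcm : ∀ a c : G, (QuotientGroup.leftRel (N.subgroupOf G)) a c →
          ((cm a : G) : G ⧸ N.subgroupOf G) = cm c := by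
        intro a c hac
        rw [QuotientGroup.leftRel_apply] at hac
        obtain ⟨n, hn, rfl⟩ : ∃ n ∈ N.subgroupOf G, c = a * n :=
          ⟨a⁻¹ * c, hac, (mul_inv_cancel_left a c).symm⟩
        rw [QuotientGroup.eq, Subgroup.mem_subgroupOf]
        have hn' : (n : Γ) ∈ N := hn
        have h1 : (n : Γ) * ((y : Γ) * (n : Γ)⁻¹ * (y : Γ)⁻¹) ∈ N :=
          N.mul_mem hn' (hN.conj_mem _ (N.inv_mem hn') _)
        have h2 := hN.conj_mem _ h1 ((y : Γ) * (a : Γ) * (y : Γ)⁻¹ * (a : Γ)⁻¹ * (a : Γ))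
        convert h2 using 1
        show (((a : Γ) * y * (a : Γ)⁻¹ * (y : Γ)⁻¹))⁻¹ * (((a : Γ) * (n : Γ)) * y
          * ((a : Γ) * (n : Γ))⁻¹ * (y : Γ)⁻¹) = _
        group
      let σ : G ⧸ N.subgroupOf G → G ⧸ N.subgroupOf G :=
        fun q => Quotient.liftOn' q (fun g => ((cm g : G) : G ⧸ N.subgroupOf G)) hcm
      have hσ : Function.Injective σ := by
        intro p r hpr
        induction p using QuotientGroup.induction_on with
        | H a =>
          induction r using QuotientGroup.induction_on with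
          | H c =>
            have h1 : ((cm a : G) : G ⧸ N.subgroupOf G) = cm c := hpr
            rw [QuotientGroup.eq, Subgroup.mem_subgroupOf] at h1
            rw [QuotientGroup.eq, Subgroup.mem_subgroupOf]
            refine hfrob y hyG _ (a⁻¹ * c).2 ?_
            have h2 := hN.conj_mem _ h1 (((y : Γ) * (a : Γ) * (y : Γ)⁻¹ * (a : Γ)⁻¹ * (a : Γ))⁻¹)
            have h3 : ((a : Γ)⁻¹ * c) * y * ((a : Γ)⁻¹ * c)⁻¹ * (y : Γ)⁻¹ ∈ N := by
              convert h2 using 1
              simp [cm, mul_assoc]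
            have h4 := N.inv_mem h3
            convert h4 using 1
            simp [mul_assoc]
      have hσs : Function.Bijective σ := Finite.injective_iff_bijective.1 hσ
      have hconjsum : (Nat.card G : ℂ) * ∑ n : N, F ((n : Γ) * y) = ∑ g : G, Ψ (cm g) := by
        rw [Nat.card_eq_fintype_card, ← Finset.card_univ, ← nsmul_eq_mul, ← Finset.sum_const]
        refine Finset.sum_congr rfl fun g _ => ?_
        refine Fintype.sum_equiv (MulAut.conjNormal (g : Γ)).toEquiv _ _ fun n => ?_
        have hFcl : ∀ z w : Γ, F (w * z * w⁻¹) = F z := fun z w => by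
          simp only [hF, Pi.mul_apply, IsIrrCharacter.isClassFunction hχh z w]
        show F ((n : Γ) * y) = F (((MulAut.conjNormal (g : Γ) n : N) : Γ)
          * ((g : Γ) * y * (g : Γ)⁻¹ * (y : Γ)⁻¹) * y)
        rw [← hFcl ((n : Γ) * y) (g : Γ), MulAut.conjNormal_apply]
        simp [mul_assoc]
      have hsum1 : ∑ g : G, Ψ (cm g) = ∑ g : G, Ψ g := by
        rw [show (fun g => Ψ (cm g)) = fun g : G => Ψq (σ (g : G ⧸ N.subgroupOf G)) from rfl,
          sum_quotient _ (fun q => Ψq (σ q)), show (fun g : G => Ψ g) = fun g : G => Ψq g from rfl,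
          sum_quotient _ Ψq, Fintype.sum_bijective σ hσs (fun q => Ψq (σ q)) Ψq fun q => rfl]
      have hsum2 : ∑ g : G, Ψ g = (Nat.card N : ℂ) * ∑ g : G, F ((g : Γ) * y) := by
        simp only [Ψ]
        rw [Finset.sum_comm, Nat.card_eq_fintype_card, ← Finset.card_univ, ← nsmul_eq_mul,
          ← Finset.sum_const]
        exact Finset.sum_congr rfl fun n _ =>
          Fintype.sum_equiv (Equiv.mulLeft (⟨n, hNG n.2⟩ : G)) _ _ fun g => rfl
      rw [hsum1, hsum2, hGsum, hNsum] at hconjsum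
      refine mul_left_cancel₀ (mul_ne_zero (Nat.cast_ne_zero.2 (Nat.card_pos (α := G)).ne')
        (Nat.cast_ne_zero.2 (Nat.card_pos (α := N)).ne')) ?_
      rw [mul_one]
      linear_combination hconjsum
  -- the multiplicities
  letI : Fintype (IrrCharacter (S ⧸ N')) := Fintype.ofFinite _
  have hBchar : IsCharacter (S ⧸ N') B := by
    refine CfsgLib.CharTheory.isCharacter_sum _ _ fun ψ _ => ?_
    refine CfsgLib.CharTheory.isCharacter_nsmul ?_ _
    split
    · exact IsIrrCharacter.isCharacter (b ψ _).2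
    · exact CfsgLib.Coherence.isCharacter_zero
  obtain ⟨a, ha⟩ := IsCharacter.exists_sum hBchar
  have hdeg : ∀ l : IrrCharacter (S ⧸ N'), (l : S ⧸ N' → ℂ) 1 = 1 :=
    fun l => apply_one_eq_one_of_comm hcommQ l.2
  have hcard : ((Fintype.card (IrrCharacter (S ⧸ N')) : ℤ)) = (m : ℤ) := by
    have h1 := sum_degree_mul (1 : S ⧸ N')
    simp only [hdeg, if_pos, Finset.sum_const, Finset.card_univ, nsmul_eq_mul, mul_one] at h1
    rw [hcardQ] at h1
    exact_mod_cast h1
  refine (dvd_of_sums (fun l => (a l : ℤ)) hcard (by exact_mod_cast hm2) ?_ ?_)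
  · have h1 := congrFun ha 1
    simp only [hB1, Finset.sum_apply, Pi.smul_apply, smul_eq_mul, hdeg, mul_one] at h1
    exact_mod_cast h1.symm
  · have h1 : classInner B B = ∑ l : IrrCharacter (S ⧸ N'), (a l : ℂ) * (a l : ℂ) := by
      conv_lhs => arg 1; rw [ha]
      simp only [classInner_sum_left, classInner_smul_left]
      refine Finset.sum_congr rfl fun l _ => ?_
      rw [classInner_conj_symm, ha, classInner_sum_irr, map_natCast]
    rw [classInner, hcardQ, ← Finset.add_sum_erase _ _ (Finset.mem_univ (1 : S ⧸ N')), hB1,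
      map_natCast, Finset.sum_congr rfl fun q hq => habs q (Finset.mem_erase.1 hq).1,
      Finset.sum_const, Finset.card_erase_of_mem (Finset.mem_univ _), Finset.card_univ,
      ← Nat.card_eq_fintype_card, hcardQ, nsmul_eq_mul, mul_one, Nat.cast_sub (by omega : 1 ≤ m),
      Nat.cast_one, inv_mul_eq_iff_eq_mul₀ (Nat.cast_ne_zero.2 (by omega))] at h1
    refine Int.cast_injective (α := ℂ) ?_
    push_cast
    simp only [sq]
    linear_combination -h1

end Cfsg.Agent.S4454
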