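import Cfsg.Statements.S4462
import Cfsg.Agent.Lib.CharDegreesTheory.BrolineGarrison
import Cfsg.Agent.Lib.CharTheory.Inflation

set_option autoImplicit false
open Cfsg

namespace Cfsg.Agent.S4462

universe u

theorem exists_series (k : ℕ) : ∀ (G : Type u) [Group G] [Finite G], Group.IsSolvable G →
    Nat.card G ≤ k → ∀ n : ℕ,
      Nat.card {d : ℕ // ∃ χ : Cfsg.IrrCharacter G, Cfsg.charDegree (χ : G → ℂ) = d} ≤ n →
      ∃ N : Fin (n + 1) → Subgroup G, N 0 = ⊥ ∧ N (Fin.last n) = ⊤ ∧ Monotone N ∧
        (∀ i, (N i).Normal) ∧ ∀ i : Fin n, ∀ _h : ((N i.castSucc).subgroupOf (N i.succ)).Normal,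
          Group.IsNilpotent (↥(N i.succ) ⧸ (N i.castSucc).subgroupOf (N i.succ)) := by
  induction k with
  | zero => exact fun G _ _ _ h => absurd (Nat.card_pos (α := G)) (by omega)
  | succ k ih =>
    intro G _ _ hsolv hcard n hn
    classical
    have := Fintype.ofFinite G
    have : Finite {d : ℕ // ∃ χ : Cfsg.IrrCharacter G, Cfsg.charDegree (χ : G → ℂ) = d} :=
      Finite.of_surjective (fun χ : Cfsg.IrrCharacter G =>
        (⟨Cfsg.charDegree (χ : G → ℂ), χ, rfl⟩ :
          {d : ℕ // ∃ χ : Cfsg.IrrCharacter G, Cfsg.charDegree (χ : G → ℂ) = d}))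
        fun ⟨d, χ, hχ⟩ => ⟨χ, Subtype.ext hχ⟩
    have : Nonempty {d : ℕ // ∃ χ : Cfsg.IrrCharacter G, Cfsg.charDegree (χ : G → ℂ) = d} :=
      ⟨⟨_, CfsgLib.CharTheory.trivIrr G, rfl⟩⟩
    have hn1 : 1 ≤ n := le_trans Nat.card_pos hn
    obtain ⟨n, rfl⟩ : ∃ m, n = m + 1 := ⟨n - 1, by omega⟩
    by_cases hF : Cfsg.fittingSubgroup G = ⊤
    · have hnil : Group.IsNilpotent G := CfsgLib.Cores.fittingSubgroup_eq_top_iff.1 hF
      refine ⟨Fin.cases ⊥ fun _ => ⊤, rfl, by simp [← Fin.succ_last], ?_, ?_, ?_⟩
      · intro i j hij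
        cases i using Fin.cases with
        | zero => exact bot_le
        | succ i =>
          cases j using Fin.cases with
          | zero => exact absurd hij (by simp [Fin.le_def])
          | succ j => exact le_rfl
      · intro i
        cases i using Fin.cases with
        | zero => exact (inferInstance : (⊥ : Subgroup G).Normal)
        | succ i => exact (inferInstance : (⊤ : Subgroup G).Normal)
      · intro i _
        exact Group.nilpotent_of_surjective (QuotientGroup.mk' _) (QuotientGroup.mk'_surjective _)
    · set F := Cfsg.fittingSubgroup G with hFdef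
      have : F.Normal := CfsgLib.Cores.fittingSubgroup_normal G
      obtain ⟨χ, hχ⟩ := CfsgLib.CharDegreesTheory.exists_degree_not_mem_quotient (G := G) hF
      have hF0 : F ≠ ⊥ := by
        have : Nontrivial G := by
          by_contra hnt
          rw [not_nontrivial_iff_subsingleton] at hnt
          exact hF (Subsingleton.elim _ _)
        exact CfsgLib.Cores.fittingSubgroup_ne_bot
      have hlt : Nat.card (G ⧸ F) ≤ k := by
        have h1 := F.card_eq_card_quotient_mul_card_subgroup
        have h2 : 1 < Nat.card F := F.one_lt_card_iff_ne_bot.2 hF0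
        have h3 : Nat.card (G ⧸ F) * 1 < Nat.card (G ⧸ F) * Nat.card F :=
          Nat.mul_lt_mul_of_pos_left h2 Nat.card_pos
        omega
      have hcd : Nat.card {d : ℕ // ∃ ψ : Cfsg.IrrCharacter (G ⧸ F),
          Cfsg.charDegree (ψ : G ⧸ F → ℂ) = d} ≤ n := by
        have hinf : ∀ ψ : Cfsg.IrrCharacter (G ⧸ F),
            Cfsg.IsIrrCharacter G (fun g => (ψ : G ⧸ F → ℂ) (QuotientGroup.mk' F g)) :=
          fun ψ => CfsgLib.CharTheory.isIrrCharacter_comp ψ.2 (QuotientGroup.mk'_surjective F)
        have hsub : ∀ d, (∃ ψ : Cfsg.IrrCharacter (G ⧸ F), Cfsg.charDegree (ψ : G ⧸ F → ℂ) = d) →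
            (∃ φ : Cfsg.IrrCharacter G, Cfsg.charDegree (φ : G → ℂ) = d) ∧
              d ≠ Cfsg.charDegree (χ : G → ℂ) := by
          rintro d ⟨ψ, rfl⟩
          have he : Cfsg.charDegree (fun g : G => (ψ : G ⧸ F → ℂ) (QuotientGroup.mk' F g)) =
              Cfsg.charDegree (ψ : G ⧸ F → ℂ) := by
            simp [Cfsg.charDegree]
          refine ⟨⟨⟨_, hinf ψ⟩, he⟩, ?_⟩
          rw [← he]
          refine hχ ⟨_, hinf ψ⟩ fun g hg => ?_
          show (ψ : G ⧸ F → ℂ) (QuotientGroup.mk' F g) = (ψ : G ⧸ F → ℂ) (QuotientGroup.mk' F 1)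
          rw [map_one, show QuotientGroup.mk' F g = 1 from (QuotientGroup.eq_one_iff g).2 hg]
        have hlt2 : Nat.card {d : ℕ // ∃ ψ : Cfsg.IrrCharacter (G ⧸ F),
            Cfsg.charDegree (ψ : G ⧸ F → ℂ) = d} <
            Nat.card {d : ℕ // ∃ φ : Cfsg.IrrCharacter G, Cfsg.charDegree (φ : G → ℂ) = d} := by
          let f : {d : ℕ // ∃ ψ : Cfsg.IrrCharacter (G ⧸ F),
              Cfsg.charDegree (ψ : G ⧸ F → ℂ) = d} →
              {d : ℕ // ∃ φ : Cfsg.IrrCharacter G, Cfsg.charDegree (φ : G → ℂ) = d} :=
            fun d => ⟨d, (hsub d d.2).1⟩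
          have hf : Function.Injective f := fun a b h => Subtype.ext (congrArg Subtype.val h :)
          refine Nat.lt_of_le_of_ne (Nat.card_le_card_of_injective f hf) fun he => ?_
          obtain ⟨d, hd⟩ := (hf.bijective_of_nat_card_le he.ge).2
            ⟨Cfsg.charDegree (χ : G → ℂ), χ, rfl⟩
          exact (hsub d d.2).2 (congrArg Subtype.val hd)
        omega
      obtain ⟨N, h0, h1, hmono, hnorm, hfac⟩ := ih (G ⧸ F) inferInstance hlt n hcd
      set π := QuotientGroup.mk' F with hπ
      refine ⟨Fin.cases ⊥ fun i => (N i).comap π, rfl, ?_, ?_, ?_, ?_⟩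
      · simp [← Fin.succ_last, h1]
      · intro i j hij
        cases i using Fin.cases with
        | zero => exact bot_le
        | succ i =>
          cases j using Fin.cases with
          | zero => exact absurd hij (by simp [Fin.le_def])
          | succ j => exact Subgroup.comap_mono (hmono (Fin.succ_le_succ_iff.1 hij))
      · intro i
        cases i using Fin.cases with
        | zero => exact (inferInstance : (⊥ : Subgroup G).Normal)
        | succ i => exact (hnorm i).comap π
      · intro i
        cases i using Fin.cases with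
        | zero =>
          intro h
          change ((⊥ : Subgroup G).subgroupOf ((N 0).comap π)).Normal at h
          show Group.IsNilpotent (↥((N 0).comap π) ⧸ (⊥ : Subgroup G).subgroupOf ((N 0).comap π))
          have hN : Group.IsNilpotent ((N 0).comap π) := by
            rw [h0, MonoidHom.comap_bot, hπ, QuotientGroup.ker_mk']
            exact CfsgLib.Cores.isNilpotent_fittingSubgroup
          exact Group.nilpotent_of_surjective (G := ((N 0).comap π)) (QuotientGroup.mk' _)
            (QuotientGroup.mk'_surjective _)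
        | succ i =>
          intro h
          change (((N i.castSucc).comap π).subgroupOf ((N i.succ).comap π)).Normal at h
          show Group.IsNilpotent
            (↥((N i.succ).comap π) ⧸ ((N i.castSucc).comap π).subgroupOf ((N i.succ).comap π))
          have hNi : ((N i.castSucc).subgroupOf (N i.succ)).Normal := (hnorm _).subgroupOf _
          let f : ((N i.succ).comap π) →* N i.succ ⧸ (N i.castSucc).subgroupOf (N i.succ) :=
            (QuotientGroup.mk' ((N i.castSucc).subgroupOf (N i.succ))).comp (π.subgroupComap (N i.succ))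
          have hker : f.ker = ((N i.castSucc).comap π).subgroupOf ((N i.succ).comap π) := by
            ext x
            simp only [f, MonoidHom.mem_ker, MonoidHom.comp_apply, QuotientGroup.mk'_apply,
              QuotientGroup.eq_one_iff, Subgroup.mem_subgroupOf, Subgroup.mem_comap]
            rfl
          have hfs : Function.Surjective f :=
            (QuotientGroup.mk'_surjective _).comp
              (MonoidHom.subgroupComap_surjective_of_surjective π (N i.succ)
                (QuotientGroup.mk'_surjective F))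
          have := hfac i hNi
          let e := QuotientGroup.quotientKerEquivOfSurjective f hfs
          have hh : Group.IsNilpotent (↥((N i.succ).comap π) ⧸ f.ker) :=
            Group.nilpotent_of_surjective e.symm.toMonoidHom e.symm.surjective
          exact Group.nilpotent_of_surjective
            (QuotientGroup.quotientMulEquivOfEq hker).toMonoidHom
            (QuotientGroup.quotientMulEquivOfEq hker).surjective

/-- Let G be a finite solvable group with exactly n distinct irreducible character degrees. Then G has normal subgroups 1 = N₀ ≤ N₁ ≤ ⋯ ≤ Nₙ = G with every quotient N_{i+1}/N_i nilpotent (the nilpotent length of G is at most n). -/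
theorem result {G : Type*} [Group G] [Finite G] (hsolv : Group.IsSolvable G) (n : ℕ) (hcd : Nat.card {d : ℕ // ∃ χ : Cfsg.IrrCharacter G, Cfsg.charDegree (χ : G → ℂ) = d} = n) : ∃ N : Fin (n + 1) → Subgroup G, N 0 = ⊥ ∧ N (Fin.last n) = ⊤ ∧ Monotone N ∧ (∀ i, (N i).Normal) ∧ ∀ i : Fin n, ∀ h : (N i.castSucc).subgroupOf (N i.succ) |>.Normal, Group.IsNilpotent (↥(N i.succ) ⧸ (N i.castSucc).subgroupOf (N i.succ)) := by
  exact exists_series (Nat.card G) G hsolv le_rfl n hcd.le

end Cfsg.Agent.S4462
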