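import Cfsg.Statements.S4466
import Cfsg.Agent.Lib.CharDegreesTheory.PrimeDegrees

set_option autoImplicit false
open Cfsg

namespace Cfsg.Agent.S4466

/-- If every irreducible character of the finite group G of degree greater than one has prime degree, then G is solvable. -/
theorem result {G : Type*} [Group G] [Finite G] (h : ∀ χ : Cfsg.IrrCharacter G, Cfsg.charDegree (χ : G → ℂ) ≠ 1 → (Cfsg.charDegree (χ : G → ℂ)).Prime) : Group.IsSolvable G := by
  exact CfsgLib.CharDegreesTheory.PrimeDegrees.isSolvable _ G rfl fun χ =>
    (em (Cfsg.charDegree (χ : G → ℂ) = 1)).imp_right (h χ)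

end Cfsg.Agent.S4466
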