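import Cfsg.Statements.S4471
import Cfsg.Agent.Lib.CharDegreesTheory.SixtyDegree
import Cfsg.Agent.Lib.CharDegreesTheory.AbelianAction
import Cfsg.Agent.Lib.Jordan.AbelianNormal
import Cfsg.Agent.Lib.Blocks.Defect
import Cfsg.Agent.Lib.CharTheory.Monomial
import Cfsg.Agent.Lib.PSolvable.FrattiniFacts

set_option autoImplicit false
open Cfsg

namespace Cfsg.Agent.S4471

open scoped commutatorElement

namespace CfsgLib.CharDegreesTheory.TwoPValues

/-- A family of `p + q` roots of unity of exponent `p` with power sums `p * ω ^ k + q`. -/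
theorem values {p q : ℕ} (hp : p.Prime) {ι : Type*} [Fintype ι] (hι : Fintype.card ι = p + q)
    {ω : ℂ} (hω : ω ^ p = 1) (hω1 : ω ≠ 1) (v : ι → ℂ) (hv : ∀ i, v i ^ p = 1)
    (hsum : ∀ k : ℕ, k < p → ∑ i, v i ^ k = (p : ℂ) * ω ^ k + q) :
    (Finset.univ.filter fun i => v i = ω).card = p ∧ ∀ i, v i = ω ∨ v i = 1 := by
  classical
  have hgeom : ∀ w : ℂ, w ^ p = 1 → ∑ k ∈ Finset.range p, w ^ k = if w = 1 then (p : ℂ) else 0 := by
    intro w hw
    split_ifs with h
    · simp [h]
    · rw [geom_sum_eq h, hw, sub_self, zero_div]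
  have key : ∀ c : ℂ, c ^ p = 1 →
      (p : ℂ) * (Finset.univ.filter fun i => v i = c).card =
        (p : ℂ) * (if c = ω then (p : ℂ) else 0) + q * (if c = 1 then (p : ℂ) else 0) := by
    intro c hc
    have hc0 : c ≠ 0 := fun h => by simp [h, hp.ne_zero] at hc
    have h1 : ∑ k ∈ Finset.range p, (c⁻¹) ^ k * ∑ i, v i ^ k =
        ∑ k ∈ Finset.range p, (c⁻¹) ^ k * ((p : ℂ) * ω ^ k + q) :=
      Finset.sum_congr rfl fun k hk => by rw [hsum k (Finset.mem_range.1 hk)]
    have hl : ∑ k ∈ Finset.range p, (c⁻¹) ^ k * ∑ i, v i ^ k =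
        (p : ℂ) * (Finset.univ.filter fun i => v i = c).card := by
      simp only [Finset.mul_sum, ← mul_pow]
      rw [Finset.sum_comm, Finset.sum_congr rfl fun i _ => hgeom (c⁻¹ * v i)
        (by rw [mul_pow, hv, inv_pow, hc, inv_one, one_mul])]
      rw [Finset.sum_ite, Finset.sum_const_zero, add_zero, Finset.sum_const, nsmul_eq_mul, mul_comm,
        Finset.filter_congr (q := fun i => v i = c) fun i _ => by rw [inv_mul_eq_one₀ hc0, eq_comm]]
    have hr : ∑ k ∈ Finset.range p, (c⁻¹) ^ k * ((p : ℂ) * ω ^ k + q) =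
        (p : ℂ) * (if c = ω then (p : ℂ) else 0) + q * (if c = 1 then (p : ℂ) else 0) := by
      simp only [mul_add, Finset.sum_add_distrib, ← Finset.sum_mul, mul_left_comm _ (p : ℂ),
        ← mul_pow, ← Finset.mul_sum]
      rw [hgeom _ (by rw [mul_pow, inv_pow, hc, inv_one, one_mul, hω]),
        hgeom _ (by rw [inv_pow, hc, inv_one])]
      simp only [inv_mul_eq_one₀ hc0, inv_eq_one]
      ring
    rw [← hl, h1, hr]
  have hp0 : (p : ℂ) ≠ 0 := Nat.cast_ne_zero.2 hp.ne_zero
  have e1 := key ω hω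
  rw [if_pos rfl, if_neg hω1, mul_zero, add_zero] at e1
  have e2 := key 1 (one_pow p)
  rw [if_neg (Ne.symm hω1), if_pos rfl, mul_zero, zero_add, mul_comm (q : ℂ)] at e2
  have c1 : (Finset.univ.filter fun i => v i = ω).card = p := by
    exact_mod_cast mul_left_cancel₀ hp0 e1
  have c2 : (Finset.univ.filter fun i => v i = 1).card = q := by
    exact_mod_cast mul_left_cancel₀ hp0 e2
  refine ⟨c1, fun i => ?_⟩
  have hdisj : Disjoint (Finset.univ.filter fun i => v i = ω) (Finset.univ.filter fun i => v i = 1) :=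
    Finset.disjoint_filter.2 fun i _ h h' => hω1 (h.symm.trans h')
  have huniv := Finset.eq_univ_of_card _
    (by rw [Finset.card_union_of_disjoint hdisj, c1, c2, hι] :
      ((Finset.univ.filter fun i => v i = ω) ∪ (Finset.univ.filter fun i => v i = 1)).card =
        Fintype.card ι)
  have := Finset.mem_univ i
  rw [← huniv] at this
  simpa using this

end CfsgLib.CharDegreesTheory.TwoPValues

/-- Let p ≥ 7 be a prime and let the finite group G have a faithful irreducible character of degree n with n < 2p and n ≠ p. If the Sylow p-subgroups of G are non-abelian then p² does not divide the index of O_p(G) in G; consequently, in every case G/O_p(G) has abelian Sylow p-subgroups. -/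
theorem result {G : Type*} [Group G] [Finite G] (χ : Cfsg.IrrCharacter G) (hfaith : ∀ g : G, (χ : G → ℂ) g = (χ : G → ℂ) 1 → g = 1) (n : ℕ) (hn : Cfsg.charDegree (χ : G → ℂ) = n) (p : ℕ) (hp : p.Prime) (h7 : 7 ≤ p) (hn2 : n < 2 * p) (hnp : n ≠ p) : ((∃ P : Sylow p G, ∃ x ∈ (P : Subgroup G), ∃ y ∈ (P : Subgroup G), x * y ≠ y * x) → ¬ p ^ 2 ∣ (Cfsg.pCore p G).index) ∧ ∀ Q : Sylow p (G ⧸ Cfsg.pCore p G), ∀ x ∈ (Q : Subgroup (G ⧸ Cfsg.pCore p G)), ∀ y ∈ (Q : Subgroup (G ⧸ Cfsg.pCore p G)), x * y = y * x := by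
  classical
  have hpf : Fact p.Prime := ⟨hp⟩
  suffices key : (∃ P : Sylow p G, ∃ x ∈ (P : Subgroup G), ∃ y ∈ (P : Subgroup G), x * y ≠ y * x) →
      ¬ p ^ 2 ∣ (Cfsg.pCore p G).index by
    refine ⟨key, fun Q x hx y hy => ?_⟩
    by_cases h : ∃ P : Sylow p G, ∃ x ∈ (P : Subgroup G), ∃ y ∈ (P : Subgroup G), x * y ≠ y * x
    · have hQ : Nat.card (Q : Subgroup (G ⧸ Cfsg.pCore p G)) ∣ p := by
        obtain ⟨k, hk⟩ := Q.2.exists_card_eq
        rw [hk]
        rcases k with _ | _ | k
        · exact one_dvd _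
        · rw [pow_one]
        · exfalso
          apply key h
          rw [Subgroup.index_eq_card]
          refine (pow_dvd_pow p (by omega : 2 ≤ k + 1 + 1)).trans ?_
          rw [← hk]
          exact Subgroup.card_subgroup_dvd_card _
      rcases (Nat.dvd_prime hp).1 hQ with h1 | h1
      · rw [Subgroup.eq_bot_of_card_eq _ h1, Subgroup.mem_bot] at hx
        rw [hx, one_mul, mul_one]
      · have : IsCyclic (Q : Subgroup (G ⧸ Cfsg.pCore p G)) := isCyclic_of_prime_card h1
        exact congrArg Subtype.val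
          (IsCyclic.commGroup.mul_comm (⟨x, hx⟩ : (Q : Subgroup (G ⧸ Cfsg.pCore p G))) ⟨y, hy⟩)
    · push Not at h
      obtain ⟨P, rfl⟩ := Sylow.mapSurjective_surjective (QuotientGroup.mk'_surjective _) p Q
      rw [Sylow.coe_mapSurjective] at hx hy
      obtain ⟨a, ha, rfl⟩ := hx
      obtain ⟨b, hb, rfl⟩ := hy
      rw [← map_mul, ← map_mul, h P a ha b hb]
  rintro ⟨P, a₁, ha₁, a₂, ha₂, hab⟩
  have : Fintype G := Fintype.ofFinite G
  have := Fintype.ofFinite (IrrCharacter (P : Subgroup G))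
  obtain ⟨n', ρ, hρ, hχρ⟩ := χ.2
  have := hρ
  have hn' : n' = n := by
    rw [← hn, charDegree, ← hχρ]; simp [Representation.char_one]
  subst hn'
  have hinj : Function.Injective ρ := by
    intro u v huv
    refine eq_of_mul_inv_eq_one (hfaith _ ?_)
    rw [← hχρ, Representation.character, Representation.character, map_mul, huv, ← map_mul,
      mul_inv_cancel]
  have hχ1 : (χ : G → ℂ) 1 = (n' : ℂ) := by rw [← CfsgLib.Blocks.charDegree_cast χ, hn]
  -- the unique constituent of degree p
  obtain ⟨m, hm⟩ := CfsgLib.CharTheory.IsCharacter.exists_sum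
    (CfsgLib.Coherence.isCharacter_comp (CfsgLib.CharTheory.IsIrrCharacter.isCharacter χ.2)
      (P : Subgroup G).subtype)
  have hres : ∀ u : (P : Subgroup G), (χ : G → ℂ) u = ∑ ν, (m ν : ℂ) * (ν : ↥(P : Subgroup G) → ℂ) u := by
    intro u
    have := congrFun hm u
    simpa using this
  have hdeg : n' = ∑ ν, m ν * charDegree (ν : ↥(P : Subgroup G) → ℂ) := by
    have := hres 1
    rw [OneMemClass.coe_one, hχ1] at this
    simp only [← CfsgLib.Blocks.charDegree_cast] at this
    exact_mod_cast this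
  have hd : ∀ ν : IrrCharacter (P : Subgroup G), m ν ≠ 0 →
      charDegree (ν : ↥(P : Subgroup G) → ℂ) = 1 ∨ charDegree (ν : ↥(P : Subgroup G) → ℂ) = p := by
    intro ν hν
    obtain ⟨d, -, hd2, hd1⟩ := CfsgLib.CharTheory.IsIrrCharacter.exists_degree_dvd ν.2
    have hdd : charDegree (ν : ↥(P : Subgroup G) → ℂ) = d := by
      simp [charDegree, hd1]
    obtain ⟨k, hk⟩ := P.2.exists_card_eq
    rw [hk] at hd2
    obtain ⟨e, -, he⟩ := (Nat.dvd_prime_pow hp).1 hd2
    rw [hdd, he]
    rcases e with _ | _ | e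
    · simp
    · simp
    · exfalso
      have h1 : charDegree (ν : ↥(P : Subgroup G) → ℂ) ≤ n' := by
        rw [hdeg]
        refine le_trans ?_ (Finset.single_le_sum (fun ν _ => Nat.zero_le _) (Finset.mem_univ ν))
        exact Nat.le_mul_of_pos_left _ (Nat.pos_of_ne_zero hν)
      have h2 : p ^ 2 ≤ p ^ (e + 1 + 1) := Nat.pow_le_pow_right hp.pos (by omega)
      rw [hdd, he] at h1
      nlinarith
  obtain ⟨θ, hθ, hθp⟩ : ∃ ν, m ν ≠ 0 ∧ charDegree (ν : ↥(P : Subgroup G) → ℂ) = p := by
    by_contra hcon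
    push Not at hcon
    apply hab
    set u : (P : Subgroup G) := ⟨a₁, ha₁⟩
    set v : (P : Subgroup G) := ⟨a₂, ha₂⟩
    have h1 : (χ : G → ℂ) ((u * v * u⁻¹ * v⁻¹ : (P : Subgroup G)) : G) = (χ : G → ℂ) 1 := by
      rw [hres, hχ1, hdeg]
      push_cast
      refine Finset.sum_congr rfl fun ν _ => ?_
      by_cases hν : m ν = 0
      · simp [hν]
      · have h11 := (hd ν hν).resolve_right (hcon ν hν)
        have h12 : (ν : ↥(P : Subgroup G) → ℂ) 1 = 1 := by
          rw [← CfsgLib.Blocks.charDegree_cast ν, h11, Nat.cast_one]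
        obtain ⟨μ, hμ⟩ := CfsgLib.CharTheory.exists_hom_of_degree_one ν.2 h12
        rw [h11, hμ]
        simp [mul_comm (μ u) (μ v)]
    have h2 := hfaith _ h1
    have h3 : u * v * u⁻¹ * v⁻¹ = 1 := Subtype.ext h2
    exact congrArg Subtype.val (mul_inv_eq_iff_eq_mul.1 (mul_inv_eq_one.1 h3))
  have hθ1 : m θ = 1 ∧ ∀ ν, ν ≠ θ → m ν ≠ 0 → charDegree (ν : ↥(P : Subgroup G) → ℂ) = 1 := by
    rw [← Finset.add_sum_erase _ _ (Finset.mem_univ θ), hθp] at hdeg
    refine ⟨?_, fun ν hν hν0 => (hd ν hν0).resolve_right fun h => ?_⟩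
    · have : m θ * p < 2 * p := by omega
      have := Nat.lt_of_mul_lt_mul_right this
      omega
    · have h1 : m ν * p ≤ ∑ ν ∈ Finset.univ.erase θ, m ν * charDegree (ν : ↥(P : Subgroup G) → ℂ) := by
        have h' := Finset.single_le_sum (f := fun ν => m ν * charDegree (ν : ↥(P : Subgroup G) → ℂ))
          (fun _ _ => Nat.zero_le _) (show ν ∈ Finset.univ.erase θ by simp [hν])
        simp only [h] at h'
        exact h'
      have := Nat.le_mul_of_pos_left p (Nat.pos_of_ne_zero hν0)
      have := Nat.le_mul_of_pos_left p (Nat.pos_of_ne_zero hθ)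
      omega
  have hnp' : p < n' := by
    have h1 : charDegree (θ : ↥(P : Subgroup G) → ℂ) ≤ n' := by
      rw [hdeg]
      refine le_trans ?_ (Finset.single_le_sum (fun ν _ => Nat.zero_le _) (Finset.mem_univ θ))
      exact Nat.le_mul_of_pos_left _ (Nat.pos_of_ne_zero hθ)
    omega
  -- a central element of order p in the derived subgroup of P
  have hcomm : commutator ↥(P : Subgroup G) ≠ ⊥ := by
    intro h
    apply hab
    have h1 : ⁅(⟨a₁, ha₁⟩ : ↥(P : Subgroup G)), (⟨a₂, ha₂⟩ : ↥(P : Subgroup G))⁆ ∈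
        commutator ↥(P : Subgroup G) :=
      Subgroup.commutator_mem_commutator (Subgroup.mem_top _) (Subgroup.mem_top _)
    rw [h, Subgroup.mem_bot] at h1
    exact congrArg Subtype.val (commutatorElement_eq_one_iff_mul_comm.1 h1)
  have : Group.IsNilpotent (P : Subgroup G) := P.2.isNilpotent
  have hmeet : commutator (P : Subgroup G) ⊓ Subgroup.center (P : Subgroup G) ≠ ⊥ := by
    refine CfsgLib.PSolvable.inf_center_ne_bot hcomm
  obtain ⟨z₀, hz₀⟩ := exists_prime_orderOf_dvd_card'
    (G := ↥(commutator (P : Subgroup G) ⊓ Subgroup.center (P : Subgroup G))) p (by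
      obtain ⟨k, hk0, hk⟩ := (P.2.to_subgroup _).nontrivial_iff_card.1
        ((Subgroup.nontrivial_iff_ne_bot _).2 hmeet)
      rw [hk]; exact dvd_pow_self p hk0.ne')
  obtain ⟨hz₀c, hz₀Z⟩ := Subgroup.mem_inf.1 z₀.2
  set y : (P : Subgroup G) := (z₀ : (P : Subgroup G)) with hy
  have hyp : y ^ p = 1 := by
    have hz := pow_orderOf_eq_one z₀
    rw [hz₀] at hz
    rw [hy, ← SubmonoidClass.coe_pow, hz, OneMemClass.coe_one]
  have hy1 : y ≠ 1 := fun h => by
    have h1 : z₀ = 1 := Subtype.ext h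
    rw [h1, orderOf_one] at hz₀
    exact hp.one_lt.ne hz₀
  obtain ⟨d, σ, hσ, hσθ⟩ := θ.2
  have := hσ
  obtain ⟨ω, hω⟩ := CfsgLib.CharTheory.exists_smul_of_commute σ (σ y) (fun x => by
    show σ y * σ x = σ x * σ y
    rw [← map_mul, ← map_mul, Subgroup.mem_center_iff.1 hz₀Z x])
  have hωk : ∀ k : ℕ, σ (y ^ k) = ω ^ k • LinearMap.id := by
    intro k
    induction k with
    | zero => rw [pow_zero, pow_zero, map_one, one_smul]; rfl
    | succ k ih =>
      rw [pow_succ, map_mul, ih, hω, pow_succ, mul_smul]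
      exact LinearMap.ext fun v => rfl
  have hθ1' : (θ : ↥(P : Subgroup G) → ℂ) 1 = (p : ℂ) := by rw [← CfsgLib.Blocks.charDegree_cast θ, hθp]
  have hθy : ∀ k : ℕ, (θ : ↥(P : Subgroup G) → ℂ) (y ^ k) = (p : ℂ) * ω ^ k := by
    intro k
    rw [← hσθ, Representation.character, hωk, map_smul, LinearMap.trace_id, smul_eq_mul, mul_comm]
    rw [← hθ1', ← hσθ, Representation.char_one]
  have hχy : ∀ k : ℕ, (χ : G → ℂ) ((y : G) ^ k) = (p : ℂ) * ω ^ k + ((n' - p : ℕ) : ℂ) := by
    intro k
    rw [← SubmonoidClass.coe_pow, hres, ← Finset.add_sum_erase _ _ (Finset.mem_univ θ), hθ1.1,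
      Nat.cast_one, one_mul, hθy]
    congr 1
    have hdeg' := hdeg
    rw [← Finset.add_sum_erase _ _ (Finset.mem_univ θ), hθp, hθ1.1, one_mul] at hdeg'
    rw [show n' - p = ∑ ν ∈ Finset.univ.erase θ, m ν * charDegree (ν : ↥(P : Subgroup G) → ℂ) by omega]
    push_cast
    refine Finset.sum_congr rfl fun ν hν => ?_
    by_cases hν0 : m ν = 0
    · simp [hν0]
    · have h11 := hθ1.2 ν (Finset.mem_erase.1 hν).1 hν0
      have h12 : (ν : ↥(P : Subgroup G) → ℂ) 1 = 1 := by
        rw [← CfsgLib.Blocks.charDegree_cast ν, h11, Nat.cast_one]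
      obtain ⟨μ, hμ⟩ := CfsgLib.CharTheory.exists_hom_of_degree_one ν.2 h12
      have hμy : μ y = 1 := Abelianization.commutator_subset_ker μ hz₀c
      rw [h11, hμ]
      simp [hμy]
  have hωp : ω ^ p = 1 := by
    have h1 := hθy p
    rw [hyp, hθ1'] at h1
    exact mul_left_cancel₀ (Nat.cast_ne_zero.2 hp.ne_zero) (by rw [mul_one]; exact h1.symm)
  have hω1 : ω ≠ 1 := by
    intro h
    apply hy1
    apply Subtype.ext
    refine hfaith _ ?_
    have := hχy 1
    rw [pow_one, pow_one, h, mul_one, ← Nat.cast_add, Nat.add_sub_cancel' hnp'.le] at this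
    rw [this, hχ1]
  -- a power with eigenvalue exp (2 π i / p)
  set ζ : ℂ := Complex.exp (2 * Real.pi * Complex.I / p) with hζdef
  have hζ : IsPrimitiveRoot ζ p := Complex.isPrimitiveRoot_exp p hp.ne_zero
  obtain ⟨t, ht⟩ : ∃ t : ℕ, ω ^ t = ζ := by
    have : NeZero p := ⟨hp.ne_zero⟩
    have hord : orderOf ω = p := orderOf_eq_prime hωp hω1
    obtain ⟨t, -, ht⟩ := ((IsPrimitiveRoot.iff_orderOf).2 hord).eq_pow_of_pow_eq_one hζ.pow_eq_one
    exact ⟨t, ht⟩
  set z : G := (y : G) ^ t with hzdef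
  have hχz : ∀ k : ℕ, (χ : G → ℂ) (z ^ k) = (p : ℂ) * ζ ^ k + ((n' - p : ℕ) : ℂ) := fun k => by
    rw [hzdef, ← pow_mul, hχy, pow_mul, ht]
  have hzp : z ^ p = 1 := by
    rw [hzdef, ← pow_mul, mul_comm, pow_mul, ← SubmonoidClass.coe_pow, hyp, OneMemClass.coe_one, one_pow]
  have hζ1 : ζ ≠ 1 := hζ.ne_one hp.one_lt
  have hclose : ‖ζ - 1‖ < 1 := by
    have e : ζ = Complex.exp (Complex.I * (2 * Real.pi / p : ℝ)) := by
      rw [hζdef]; congr 1; push_cast; ring
    rw [e, Complex.norm_exp_I_mul_ofReal_sub_one, Real.norm_eq_abs, abs_mul, abs_two]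
    have hπ := Real.pi_pos
    have hp7 : (7 : ℝ) ≤ p := by exact_mod_cast h7
    have h1 : 2 * Real.pi / p / 2 < Real.pi / 6 := by
      rw [div_div, div_lt_div_iff₀ (by positivity) (by norm_num)]; nlinarith
    have h0 : 0 < 2 * Real.pi / p / 2 := by positivity
    have m1 := Real.strictMonoOn_sin (a := 2 * Real.pi / p / 2) ⟨by linarith, by linarith⟩
      (b := Real.pi / 6) ⟨by linarith, by linarith⟩ h1
    rw [Real.sin_pi_div_six] at m1
    rw [abs_of_pos (Real.sin_pos_of_pos_of_lt_pi h0 (by linarith))]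
    linarith
  -- diagonalizing an abelian subgroup containing z
  have hf : Module.finrank ℂ (Fin n' → ℂ) = n' := Module.finrank_fin_fun _
  have hdiag : ∀ (H : Subgroup G), (∀ u ∈ H, ∀ v ∈ H, u * v = v * u) → ∀ hz : z ∈ H,
      ∃ (b : Module.Basis (Fin n') ℂ (Fin n' → ℂ)) (l : Fin n' → H →* ℂ),
        (∀ i (a : H), ρ (a : G) (b i) = l i a • b i) ∧
        (∀ a : H, (χ : G → ℂ) a = ∑ i, l i a) ∧
        (Finset.univ.filter fun i => l i ⟨z, hz⟩ = ζ).card = p ∧
        ∀ i, l i ⟨z, hz⟩ = ζ ∨ l i ⟨z, hz⟩ = 1 := by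
    intro H hH hz
    obtain ⟨b₀, l₀, hl₀⟩ := CfsgLib.CharDegreesTheory.exists_eigenbasis
      (fun u v : H => Subtype.ext (hH u u.2 v v.2))
      ((show G →* Module.End ℂ (Fin n' → ℂ) from ρ).comp H.subtype)
    let b := b₀.reindex (finCongr hf)
    let l : Fin n' → H →* ℂ := fun i => l₀ ((finCongr hf).symm i)
    have hl : ∀ i (a : H), ρ (a : G) (b i) = l i a • b i := fun i a => by
      simp only [b, Module.Basis.reindex_apply]
      exact hl₀ _ a
    have htr : ∀ a : H, (χ : G → ℂ) a = ∑ i, l i a := by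
      intro a
      rw [← hχρ, Representation.character, LinearMap.trace_eq_matrix_trace ℂ b, Matrix.trace]
      refine Finset.sum_congr rfl fun i _ => ?_
      rw [Matrix.diag_apply, LinearMap.toMatrix_apply, hl]
      simp
    refine ⟨b, l, hl, htr, CfsgLib.CharDegreesTheory.TwoPValues.values hp (q := n' - p)
      (by rw [Fintype.card_fin]; omega) hζ.pow_eq_one hζ1 (fun i => l i ⟨z, hz⟩) (fun i => ?_)
      fun k _ => ?_⟩
    · rw [← map_pow, show (⟨z, hz⟩ : H) ^ p = 1 from Subtype.ext (by simpa using hzp), map_one]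
    · simp only [← map_pow, ← htr]
      exact hχz k
  -- Blichfeldt: conjugates of z commute with z
  obtain ⟨bz, lz, hlz, -, -, hval⟩ := hdiag (Subgroup.zpowers z) (fun u hu v hv => by
    obtain ⟨i, rfl⟩ := hu
    obtain ⟨j, rfl⟩ := hv
    exact zpow_mul_comm z i j) (Subgroup.mem_zpowers z)
  set w : Subgroup.zpowers z := ⟨z, Subgroup.mem_zpowers z⟩
  obtain ⟨π, e, hiso, he⟩ := CfsgLib.CharDegreesTheory.exists_unitary_model ρ
  have hbz : ∀ i, π z (bz.map e i) = lz i w • bz.map e i := fun i => by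
    rw [Module.Basis.map_apply, he, hlz i w, map_smul]
  have hcomm_conj : ∀ u : G, Commute z (u * z * u⁻¹) := by
    intro u
    have hmem : u * z * u⁻¹ ∈ Subgroup.normalClosure ({z} : Set G) :=
      Subgroup.normalClosure_normal.conj_mem _ (Subgroup.subset_normalClosure (Set.mem_singleton z)) u
    generalize hc : u * z * u⁻¹ = c at hmem ⊢
    refine hinj (bz.ext fun i => e.injective ?_)
    rw [map_mul, map_mul, Module.End.mul_apply, Module.End.mul_apply,
      show ρ z (bz i) = lz i w • bz i from hlz i w, map_smul, map_smul, ← he, ← he]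
    have hn1 : ‖π z - (lz i w) • 1‖ < 1 :=
      CfsgLib.CharDegreesTheory.norm_sub_smul_lt π hiso z (bz.map e) (fun j => lz j w) hbz _ one_pos
        fun j => by
          rcases hval i with h | h <;> rcases hval j with h' | h' <;> rw [h, h']
          · simp
          · rw [norm_sub_rev]; exact hclose
          · exact hclose
          · simp
    have hzv : π z (e (bz i)) = lz i w • e (bz i) := by
      have := hbz i
      rwa [Module.Basis.map_apply] at this
    exact CfsgLib.CharDegreesTheory.apply_mem_eigenspace_of_norm_sub_lt π hiso z _ hn1 hmem hzv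
  set N := Subgroup.normalClosure ({z} : Set G) with hNdef
  have hNn : N.Normal := Subgroup.normalClosure_normal
  have hNab : ∀ u ∈ N, ∀ v ∈ N, u * v = v * u := by
    have h1 : ∀ u ∈ Group.conjugatesOfSet ({z} : Set G), ∀ v ∈ Group.conjugatesOfSet ({z} : Set G),
        u * v = v * u := by
      intro u hu v hv
      rw [Group.mem_conjugatesOfSet_iff] at hu hv
      obtain ⟨_, rfl, hu⟩ := hu
      obtain ⟨_, rfl, hv⟩ := hv
      obtain ⟨a, rfl⟩ := isConj_iff.1 hu
      obtain ⟨c, rfl⟩ := isConj_iff.1 hv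
      have := ((hcomm_conj (a⁻¹ * c)).map (MulAut.conj a)).eq
      simpa [mul_assoc] using this
    intro u hu v hv
    exact congrArg Subtype.val ((Subgroup.isMulCommutative_closure (k := Group.conjugatesOfSet ({z} : Set G))
      h1).is_comm.comm ⟨u, hu⟩ ⟨v, hv⟩)
  have hzN : z ∈ N := Subgroup.subset_normalClosure (Set.mem_singleton z)
  obtain ⟨b, l, hl, htr, hcard, -⟩ := hdiag N hNab hzN
  -- the constituents on N are distinct
  obtain ⟨μ, hμ⟩ := CfsgLib.Jordan.exists_hom_mul_eq_sum N hNab χ.2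
  let conjμ : G → N →* ℂ := fun x => μ.comp (MulAut.conjNormal x : N ≃* N).toMonoidHom
  have hcμ : ∀ x (a : N), conjμ x a = μ ⟨x * a * x⁻¹, hNn.conj_mem _ a.2 x⟩ := fun x a => rfl
  have hfib : ∀ L : N →* ℂ, (Nat.card G) * (Finset.univ.filter fun i => l i = L).card =
      n' * (Finset.univ.filter fun x => conjμ x = L).card := by
    intro L₀
    let S : Finset (N →* ℂ) := insert L₀ (Finset.univ.image l ∪ Finset.univ.image conjμ)
    let g : (N →* ℂ) → ℂ := fun L => (Nat.card G : ℂ) * (Finset.univ.filter fun i => l i = L).card -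
      (n' : ℂ) * (Finset.univ.filter fun x => conjμ x = L).card
    have hzero : ∑ L ∈ S, g L • (L : N → ℂ) = 0 := by
      funext a
      simp only [g, Finset.sum_apply, Pi.smul_apply, smul_eq_mul, Pi.zero_apply, sub_mul,
        Finset.sum_sub_distrib, mul_assoc, ← Finset.mul_sum]
      have s1 : ∑ L ∈ S, ((Finset.univ.filter fun i => l i = L).card : ℂ) * L a = ∑ i, l i a := by
        rw [← Finset.sum_fiberwise_of_maps_to (g := l) (fun i _ =>
          (show l i ∈ S by simp [S]))]
        refine Finset.sum_congr rfl fun L _ => ?_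
        rw [Finset.sum_congr rfl fun i hi => by rw [(Finset.mem_filter.1 hi).2], Finset.sum_const,
          nsmul_eq_mul]
      have s2 : ∑ L ∈ S, ((Finset.univ.filter fun x => conjμ x = L).card : ℂ) * L a =
          ∑ x, conjμ x a := by
        rw [← Finset.sum_fiberwise_of_maps_to (g := conjμ) (fun i _ =>
          (show conjμ i ∈ S by simp [S]))]
        refine Finset.sum_congr rfl fun L _ => ?_
        rw [Finset.sum_congr rfl fun i hi => by rw [(Finset.mem_filter.1 hi).2], Finset.sum_const,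
          nsmul_eq_mul]
      rw [s1, s2, ← htr, hμ, hχ1, sub_eq_zero]
      rfl
    have := linearIndependent_iff'.1 (linearIndependent_monoidHom N ℂ) S g hzero L₀ (Finset.mem_insert_self _ _)
    simp only [g, sub_eq_zero] at this
    exact_mod_cast this
  have hconst : ∀ i j, (Finset.univ.filter fun k => l k = l i).card =
      (Finset.univ.filter fun k => l k = l j).card := by
    have hne : ∀ i, ∃ x, conjμ x = l i := by
      intro i
      by_contra hcon
      push Not at hcon
      have := hfib (l i)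
      rw [Finset.filter_false_of_mem (fun x _ => hcon x), Finset.card_empty, mul_zero] at this
      exact Finset.card_ne_zero.2 ⟨i, by simp⟩
        ((mul_eq_zero.1 this).resolve_left Nat.card_pos.ne')
    have hsize : ∀ i, (Finset.univ.filter fun x => conjμ x = l i).card =
        (Finset.univ.filter fun x => conjμ x = μ).card := by
      intro i
      obtain ⟨x₀, hx₀⟩ := hne i
      have hmul : ∀ u x, conjμ (u * x) = (conjμ u).comp (MulAut.conjNormal x : N ≃* N).toMonoidHom := by
        intro u x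
        simp only [conjμ, map_mul]
        rfl
      rw [← hx₀]
      refine Finset.card_equiv (Equiv.mulRight x₀⁻¹) fun x => ?_
      simp only [Finset.mem_filter, Finset.mem_univ, true_and, Equiv.coe_mulRight]
      have h1 : ∀ u, conjμ (u * x₀⁻¹) = μ ↔ conjμ u = conjμ x₀ := by
        intro u
        constructor
        · intro h
          have := hmul (u * x₀⁻¹) x₀
          rw [inv_mul_cancel_right, h] at this
          exact this
        · intro h
          rw [hmul, h, ← hmul, mul_inv_cancel]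
          exact MonoidHom.ext fun a => by simp [conjμ]
      exact (h1 x).symm
    intro i j
    have h1 := hfib (l i)
    have h2 := hfib (l j)
    rw [hsize] at h1 h2
    exact Nat.eq_of_mul_eq_mul_left Nat.card_pos (h1.trans h2.symm)
  have hli : Function.Injective l := by
    obtain ⟨i₀⟩ : Nonempty (Fin n') := ⟨⟨0, by omega⟩⟩
    set m0 := (Finset.univ.filter fun k => l k = l i₀).card with hm0
    have hdvd : ∀ T : Finset (Fin n'), (∀ i ∈ T, ∀ j, l j = l i → j ∈ T) → m0 ∣ T.card := by
      intro T hT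
      rw [Finset.card_eq_sum_card_image l T]
      refine Finset.dvd_sum fun L hL => ?_
      obtain ⟨i, hi, rfl⟩ := Finset.mem_image.1 hL
      rw [hm0, hconst i₀ i, show T.filter (fun k => l k = l i) = Finset.univ.filter fun k => l k = l i by
        ext k; simp only [Finset.mem_filter, Finset.mem_univ, true_and, and_iff_right_iff_imp]
        exact hT i hi k]
    have h1 : m0 ∣ p := hcard ▸ hdvd _ (fun i hi j hj => by
      simp only [Finset.mem_filter, Finset.mem_univ, true_and] at hi ⊢
      rw [hj, hi])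
    have h2 : m0 ∣ n' := by simpa using hdvd Finset.univ (fun _ _ j _ => Finset.mem_univ j)
    have h3 : m0 = 1 := by
      refine ((Nat.dvd_prime hp).1 h1).resolve_right fun h => ?_
      rw [h] at h2
      obtain ⟨c, rfl⟩ := h2
      rcases c with _ | _ | c
      · omega
      · omega
      · nlinarith
    intro i j hij
    have : (Finset.univ.filter fun k => l k = l i).card = 1 := (hconst i i₀).trans h3
    exact (Finset.card_le_one.1 this.le i (by simp) j (by simp [hij]))
  -- the centralizer of N is abelian, of index dividing n!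
  set A := Subgroup.centralizer (N : Set G) with hA
  have hAn : A.Normal := inferInstance
  have hline : ∀ u ∈ A, ∀ i, ∃ c : ℂ, ρ u (b i) = c • b i := by
    intro u hu i
    refine ⟨b.repr (ρ u (b i)) i, b.ext_elem fun j => ?_⟩
    rcases eq_or_ne j i with rfl | hji
    · simp
    · obtain ⟨a, ha⟩ : ∃ a, l j a ≠ l i a := not_forall.1 fun h => hji (hli (MonoidHom.ext h))
      have hcoord : (b.coord j).comp (ρ (a : G)) = l j a • b.coord j := b.ext fun k => by
        rcases eq_or_ne k j with rfl | hkj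
        · simp [hl]
        · simp [hl, hkj]
      have h4 : b.repr (ρ (a : G) (ρ u (b i))) j = l j a * b.repr (ρ u (b i)) j :=
        LinearMap.congr_fun hcoord _
      rw [← Module.End.mul_apply, ← map_mul, Subgroup.mem_centralizer_iff.1 hu a a.2, map_mul,
        Module.End.mul_apply, hl, map_smul, map_smul, Finsupp.smul_apply, smul_eq_mul] at h4
      have h5 : (l j a - l i a) * b.repr (ρ u (b i)) j = 0 := by rw [sub_mul, h4, sub_self]
      simp [(mul_eq_zero.1 h5).resolve_left (sub_ne_zero.2 ha), Ne.symm hji]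
  have hAab : ∀ u ∈ A, ∀ v ∈ A, u * v = v * u := by
    intro u hu v hv
    refine hinj (b.ext fun i => ?_)
    obtain ⟨c, hc⟩ := hline u hu i
    obtain ⟨d, hd⟩ := hline v hv i
    rw [map_mul, map_mul, Module.End.mul_apply, Module.End.mul_apply, hc, hd, map_smul, map_smul, hc,
      hd, smul_comm]
  have hAidx : A.index ∣ n'.factorial := by
    have := CfsgLib.CharDegreesTheory.relIndex_centralizer_dvd_factorial ρ hinj N ⊤ hNab
      (by rw [Subgroup.normalizer_eq_top N])
    rwa [Subgroup.relIndex_top_right] at this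
  obtain ⟨T⟩ : Nonempty (Sylow p A) := inferInstance
  have hTn : (T : Subgroup A).Normal := ⟨fun u hu v => by
    have : v * u * v⁻¹ = u := by
      apply Subtype.ext
      show (v : G) * u * (v : G)⁻¹ = u
      rw [hAab v v.2 u u.2, mul_inv_cancel_right]
    rw [this]; exact hu⟩
  have hTc : (T : Subgroup A).Characteristic := T.characteristic_of_normal hTn
  have hle : (T : Subgroup A).map A.subtype ≤ Cfsg.pCore p G :=
    le_sSup ⟨ConjAct.normal_of_characteristic_of_normal, T.2.map _⟩
  intro hdvd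
  have h1 : p ^ 2 ∣ ((T : Subgroup A).map A.subtype).index :=
    hdvd.trans (Subgroup.index_dvd_of_le hle)
  rw [Subgroup.index_map_subtype] at h1
  have h2 : p ^ 2 ∣ A.index :=
    (((hp.coprime_iff_not_dvd).2 (T.not_dvd_index' Subgroup.index_ne_zero_of_finite)).pow_left 2).dvd_of_dvd_mul_left h1
  have h3 := h2.trans hAidx
  rw [padicValNat_dvd_iff_le n'.factorial_ne_zero, show n' = p * 1 + (n' - p) by omega,
    padicValNat_factorial_mul_add 1 (by omega), padicValNat_factorial_mul, Nat.factorial_one,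
    padicValNat.one] at h3
  omega

end Cfsg.Agent.S4471
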