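import Cfsg.Statements.S4472
import Cfsg.Agent.Lib.RealChar.GaloisSchur
import Cfsg.Agent.Lib.Clifford.CyclicGlauberman
import Cfsg.Agent.Lib.CharDegreesTheory.CoprimeExtension
import Cfsg.Agent.Lib.CoprimeAction.Basic
import Cfsg.Agent.Lib.MetacyclicP.ExpBound
import Cfsg.Agent.Lib.PSolvable.Basic
import Cfsg.Agent.Lib.Cores.PCore

set_option autoImplicit false
open Cfsg

namespace Cfsg.Agent.S4472

open CfsgLib CfsgLib.CharTheory CfsgLib.RealChar.PGalois
open scoped Pointwise

/-- A faithful invariant character of a normal coprime subgroup gives a character of the whole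
group, of no larger degree, faithful there and fixed by the Galois maps fixing that subgroup. -/
theorem exists_galois_char {X : Type*} [Group X] [Fintype X] (Q : Subgroup X) [Q.Normal]
    [Fintype Q] (hcop : (Nat.card Q).Coprime Q.index) {φ : Q → ℂ} (hφ : IsCharacter Q φ)
    (hfaith : ∀ q : Q, φ q = φ 1 → q = 1)
    (hinv : ∀ (g : X) (q : Q), φ (MulAut.conjNormal g q) = φ q)
    {n : ℕ} (hn : φ 1 = (n : ℂ)) :
    ∃ (Ψ : X → ℂ) (m : ℕ), IsCharacter X Ψ ∧ m ≤ n ∧ Ψ 1 = (m : ℂ) ∧
      (∀ q : Q, Ψ q = Ψ 1 → q = 1) ∧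
      ∀ (g : X) (k : ℕ), k.Coprime (Nat.card X) → k ≡ 1 [MOD Nat.card Q] → Ψ (g ^ k) = Ψ g := by
  classical
  haveI := Fintype.ofFinite (IrrCharacter Q)
  obtain ⟨mf, hmf⟩ := IsCharacter.exists_sum hφ
  set C := (Finset.univ : Finset (IrrCharacter Q)).filter (fun θ => mf θ ≠ 0) with hC
  set Cf := C.image (fun θ : IrrCharacter Q => (θ : Q → ℂ)) with hCf
  have hmult : ∀ θ : IrrCharacter Q, classInner φ (θ : Q → ℂ) = (mf θ : ℂ) := fun θ => by
    rw [hmf, classInner_sum_irr]
  have hCf' : ∀ θ : Q → ℂ, θ ∈ Cf ↔ IsIrrCharacter Q θ ∧ classInner φ θ ≠ 0 := by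
    intro θ
    simp only [hCf, hC, Finset.mem_image, Finset.mem_filter, Finset.mem_univ, true_and]
    constructor
    · rintro ⟨η, hη, rfl⟩
      exact ⟨η.2, by rw [hmult]; exact_mod_cast hη⟩
    · rintro ⟨h1, h2⟩
      exact ⟨⟨θ, h1⟩, fun h0 => h2 (by rw [hmult ⟨θ, h1⟩, h0, Nat.cast_zero]), rfl⟩
  have hconj : ∀ θ ∈ Cf, ∀ g : X, Clifford.conjChar Q θ g ∈ Cf := by
    intro θ hθ g
    obtain ⟨h1, h2⟩ := (hCf' θ).1 hθ
    refine (hCf' _).2 ⟨Clifford.isIrrCharacter_conjChar Q h1 g, ?_⟩
    have e : classInner φ (Clifford.conjChar Q θ g) = classInner φ θ := by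
      simp only [classInner]
      congr 1
      refine Fintype.sum_equiv (MulAut.conjNormal g).toEquiv _ _ fun q => ?_
      show φ q * (starRingEnd ℂ) (Clifford.conjChar Q θ g q)
        = φ (MulAut.conjNormal g q) * (starRingEnd ℂ) (θ (MulAut.conjNormal g q))
      rw [Clifford.conjChar_eq_comp, hinv]
    rw [e]; exact h2
  -- the character belonging to one orbit
  have hone : ∀ θ ∈ Cf, ∃ ξ : X → ℂ, IsCharacter X ξ ∧
      (∀ q : Q, ξ q = ∑ η ∈ Clifford.conjOrbit Q θ, η q) ∧
      ∀ (g : X) (k : ℕ), k.Coprime (Nat.card X) → k ≡ 1 [MOD Nat.card Q] → ξ (g ^ k) = ξ g := by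
    intro θ hθC
    obtain ⟨hθ, -⟩ := (hCf' θ).1 hθC
    set T := RealChar.inertia Q θ with hT
    have hTiff : ∀ g : X, g ∈ T ↔ Clifford.conjChar Q θ g = θ := fun g => by
      rw [Clifford.conjChar_eq_comp]; exact Iff.rfl
    have hQT : Q ≤ T := RealChar.le_inertia Q (IsIrrCharacter.isClassFunction hθ)
    haveI := Fintype.ofFinite T
    set Q' := Q.subgroupOf T with hQ'
    haveI := Fintype.ofFinite Q'
    let e : Q' ≃* Q := Subgroup.subgroupOfEquivOfLe hQT
    set θ' : Q' → ℂ := fun q => θ (e q) with hθ'def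
    have hθ' : IsIrrCharacter Q' θ' :=
      isIrrCharacter_comp (f := e.toMonoidHom) hθ e.surjective
    have hcQ : Nat.card Q' = Nat.card Q := Nat.card_congr e.toEquiv
    have hidxd : Q'.index ∣ Q.index :=
      Dvd.intro _ (Subgroup.relIndex_mul_index hQT)
    have hcopT : (Nat.card Q').Coprime Q'.index := by
      rw [hcQ]; exact hcop.coprime_dvd_right hidxd
    have hinvT : ∀ (t : T) (q : Q'), θ' (MulAut.conjNormal t q) = θ' q := fun t q => by
      have h := congrFun ((RealChar.mem_inertia Q).1 t.2) (e q)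
      simp only [hθ'def, RealChar.conjFun] at h ⊢
      rw [← h]
      refine congrArg θ (Subtype.ext ?_)
      show (((MulAut.conjNormal t q : Q') : T) : X) = _
      rw [MulAut.conjNormal_apply, MulAut.conjNormal_apply]
      rfl
    obtain ⟨η, hη, hηθ⟩ := CharDegreesTheory.exists_extension_of_coprime Q' hcopT θ' hθ' hinvT
    obtain ⟨d, hd0, hdQ, hd⟩ := IsIrrCharacter.exists_degree_dvd hθ'
    have hcd : Nat.Coprime Q'.index d := (hcopT.coprime_dvd_left hdQ).symm
    obtain ⟨l₀, hl₀⟩ := Clifford.exists_detChar_eq (IsIrrCharacter.isCharacter hη)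
    obtain ⟨ee, hee1, hee2⟩ := Nat.chineseRemainder hcopT 1 0
    have hTdvd : Nat.card T ∣ ee * Nat.card Q' := by
      rw [← Subgroup.card_mul_index Q', mul_comm ee]
      exact mul_dvd_mul_left _ (Nat.modEq_zero_iff_dvd.1 hee2)
    set μ := l₀ ^ ee with hμ
    have hμQ : ∀ q : Q', (μ q : ℂ) = detChar θ' q := fun q => by
      rw [← Clifford.detChar_restrict Q' (IsIrrCharacter.isCharacter hη) hηθ q, hl₀]
      show ((μ q : ℂˣ) : ℂ) = ((l₀ q : ℂˣ) : ℂ)
      have h : (q : T) ^ ee = (q : T) ^ 1 := by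
        rw [pow_eq_pow_iff_modEq]
        exact hee1.of_dvd (by rw [Subgroup.orderOf_coe]; exact orderOf_dvd_natCard q)
      rw [hμ, MonoidHom.pow_apply, ← map_pow, h, pow_one]
    obtain ⟨ζ, ⟨hζ, hζθ, hζdet⟩, huniq⟩ :=
      Clifford.existsUnique_extension_det hθ' hd hcd hη hηθ μ hμQ
    have hnz : classInner (fun q : Q => ζ ⟨(q : X), hQT q.2⟩) θ ≠ 0 := by
      rw [show (fun q : Q => ζ ⟨(q : X), hQT q.2⟩) = θ from funext fun q =>
        (hζθ (e.symm q)).trans (congrArg θ (e.apply_symm_apply q)), classInner_self_of_isIrr hθ]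
      exact one_ne_zero
    obtain ⟨hirr, hmul⟩ := Clifford.isIrrCharacter_indFun_inertia hθ hTiff hQT hζ hnz
    refine ⟨indFun T ζ, IsIrrCharacter.isCharacter hirr, fun q => ?_, fun g k hk hk1 => ?_⟩
    · have h1 : classInner (fun q : Q => indFun T ζ q) θ = 1 := by
        rw [hmul, show (fun q : Q => ζ ⟨(q : X), hQT q.2⟩) = θ from funext fun q =>
          (hζθ (e.symm q)).trans (congrArg θ (e.apply_symm_apply q)),
          classInner_self_of_isIrr hθ]
      have h2 := congrFun (Clifford.res_eq Q hirr hθ (by rw [h1]; exact one_ne_zero)) q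
      simp only [h1, one_smul, Finset.sum_apply] at h2
      exact h2
    · haveI : NeZero (Nat.card X) := ⟨Nat.card_pos.ne'⟩
      obtain ⟨σ, hσ⟩ := CharDegreesTheory.exists_ringAut_complex (Nat.card X) k hk
      rw [← CharDegreesTheory.ringAut_apply_character σ hσ (IsIrrCharacter.isCharacter hirr)
        (orderOf_dvd_natCard g)]
      have hfix : (fun t => σ (ζ t)) = ζ := by
        refine huniq _ ⟨CharDegreesTheory.isIrrCharacter_ringAut σ hζ, fun q => ?_, ?_⟩
        · show σ (ζ q) = θ' q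
          rw [hζθ]
          show σ (θ (e q)) = θ (e q)
          rw [CharDegreesTheory.ringAut_apply_character σ hσ (IsIrrCharacter.isCharacter hθ)
            ((orderOf_dvd_natCard (e q)).trans (Subgroup.card_subgroup_dvd_card Q))]
          congr 1
          rw [← pow_one (e q), ← pow_mul, one_mul, pow_eq_pow_iff_modEq]
          exact hk1.of_dvd (orderOf_dvd_natCard _)
        · rw [Clifford.detChar_ringAut σ (IsIrrCharacter.isCharacter hζ), hζdet]
          funext t
          simp only [Clifford.linFun_apply]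
          have h1 : (μ t : ℂ) ^ Nat.card Q = 1 := by
            rw [← Units.val_pow_eq_pow_val, hμ, MonoidHom.pow_apply, ← pow_mul, ← map_pow]
            obtain ⟨c, hc⟩ := hTdvd
            rw [← hcQ, hc, pow_mul, pow_card_eq_one', one_pow, map_one, Units.val_one]
          have h2 : (μ t : ℂ) ^ Nat.card X = 1 := by
            obtain ⟨c, hc⟩ := Subgroup.card_subgroup_dvd_card Q
            rw [hc, pow_mul, h1, one_pow]
          rw [hσ _ h2, pow_eq_pow_mod k h1, hk1, ← pow_eq_pow_mod 1 h1, pow_one]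
      simp only [indFun, map_mul, map_inv₀, map_natCast, map_sum]
      congr 1
      refine Finset.sum_congr rfl fun x _ => ?_
      by_cases hx : x⁻¹ * g * x ∈ T
      · rw [Frobenius.extendByZero_of_mem T ζ hx]
        exact congrFun hfix _
      · rw [Frobenius.extendByZero_of_not_mem T ζ hx, map_zero]
  -- one member from each orbit
  set 𝒪 := Cf.image (Clifford.conjOrbit Q) with h𝒪
  have hrep : ∀ O : {O // O ∈ 𝒪}, ∃ ξ : X → ℂ, IsCharacter X ξ ∧
      (∀ q : Q, ξ q = ∑ η ∈ O.1, η q) ∧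
      ∀ (g : X) (k : ℕ), k.Coprime (Nat.card X) → k ≡ 1 [MOD Nat.card Q] → ξ (g ^ k) = ξ g := by
    rintro ⟨O, hO⟩
    obtain ⟨θ, hθ, rfl⟩ := Finset.mem_image.1 hO
    exact hone θ hθ
  choose ξ hξ hξres hξgal using hrep
  set Ψ : X → ℂ := ∑ O, ξ O with hΨ
  have hΨc : IsCharacter X Ψ := by
    haveI := Fintype.ofFinite (IrrCharacter X)
    choose mm hmm using fun O => IsCharacter.exists_sum (hξ O)
    refine isCharacter_iff_exists_sum.2 ⟨fun χ => ∑ O, mm O χ, ?_⟩
    rw [hΨ, Finset.sum_congr rfl (fun O _ => hmm O), Finset.sum_comm]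
    exact Finset.sum_congr rfl fun χ _ => by rw [Nat.cast_sum, Finset.sum_smul]
  have horb : ∀ θ : Q → ℂ, ∀ η ∈ Clifford.conjOrbit Q θ,
      Clifford.conjOrbit Q η = Clifford.conjOrbit Q θ := by
    intro θ η hη
    obtain ⟨g, rfl⟩ := (Clifford.mem_conjOrbit Q).1 hη
    ext ζ
    simp only [Clifford.mem_conjOrbit, Clifford.conjChar_conjChar]
    constructor
    · rintro ⟨h, rfl⟩; exact ⟨_, rfl⟩
    · rintro ⟨h, rfl⟩
      first
        | exact ⟨g⁻¹ * h, by rw [mul_inv_cancel_left]⟩
        | exact ⟨h * g⁻¹, by rw [inv_mul_cancel_right]⟩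
  have hres : ∀ q : Q, Ψ q = ∑ η ∈ Cf, η q := by
    intro q
    rw [hΨ, Finset.sum_apply]
    simp only [hξres]
    rw [Finset.sum_coe_sort 𝒪 (fun O => ∑ η ∈ O, η q),
      ← Finset.sum_fiberwise_of_maps_to (t := 𝒪) (g := Clifford.conjOrbit Q)
        (fun η hη => Finset.mem_image_of_mem _ hη)]
    refine Finset.sum_congr rfl fun O hO => ?_
    obtain ⟨θ, hθ, rfl⟩ := Finset.mem_image.1 hO
    refine Finset.sum_congr (Finset.ext fun η => ?_) fun _ _ => rfl
    simp only [Finset.mem_filter]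
    constructor
    · intro hη
      obtain ⟨g, rfl⟩ := (Clifford.mem_conjOrbit Q).1 hη
      exact ⟨hconj θ hθ g, horb θ _ hη⟩
    · rintro ⟨-, he⟩
      rw [← he]
      exact (Clifford.mem_conjOrbit Q).2 ⟨1, Clifford.conjChar_one Q η⟩
  have hdeg : ∀ θ : IrrCharacter Q, (θ : Q → ℂ) 1 = (charDegree (θ : Q → ℂ) : ℂ) := fun θ => by
    obtain ⟨d, -, hd⟩ := exists_degree_of_isIrr θ.2
    rw [charDegree, hd, Complex.natCast_re, Nat.floor_natCast]
  have hval : ∀ q : Q, ∑ η ∈ Cf, η q = ∑ θ ∈ C, (θ : Q → ℂ) q := fun q => by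
    rw [hCf, Finset.sum_image fun a _ b _ h => Subtype.ext h]
  refine ⟨Ψ, ∑ θ ∈ C, charDegree (θ : Q → ℂ), hΨc, ?_, ?_, fun q hq => ?_, fun g k h1 h2 => ?_⟩
  · have h : ((∑ θ : IrrCharacter Q, mf θ * charDegree (θ : Q → ℂ) : ℕ) : ℂ) = n := by
      rw [← hn, hmf]
      simp [Finset.sum_apply, hdeg]
    rw [Nat.cast_inj] at h
    rw [← h]
    calc ∑ θ ∈ C, charDegree (θ : Q → ℂ) ≤ ∑ θ ∈ C, mf θ * charDegree (θ : Q → ℂ) :=
          Finset.sum_le_sum fun θ hθ => Nat.le_mul_of_pos_left _
            (Nat.pos_of_ne_zero (Finset.mem_filter.1 hθ).2)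
      _ ≤ _ := Finset.sum_le_sum_of_subset (Finset.subset_univ C)
  · have h1 := hres 1
    rw [hval, OneMemClass.coe_one] at h1
    rw [h1, Nat.cast_sum]
    exact Finset.sum_congr rfl fun θ _ => hdeg θ
  · apply hfaith
    have hcΨ : IsCharacter Q (fun q : Q => Ψ q) := Coherence.isCharacter_comp hΨc Q.subtype
    have hall : ∀ θ ∈ C, (θ : Q → ℂ) q = (θ : Q → ℂ) 1 := fun θ hθ => by
      refine Coherence.constituent_apply_eq hcΨ θ.2 ?_ (by simpa using hq)
      have : (fun q : Q => Ψ q) = ∑ η ∈ C, (1 : ℂ) • (η : Q → ℂ) := funext fun q => by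
        rw [hres, hval]; simp [Finset.sum_apply]
      rw [this, classInner_sum_left]
      simp only [classInner_smul_left, one_mul, classInner_irrCharacter, Finset.sum_ite_eq', hθ,
        if_true]
      exact one_ne_zero
    rw [hmf]
    simp only [Finset.sum_apply, Pi.smul_apply]
    refine Finset.sum_congr rfl fun θ _ => ?_
    by_cases hθ : mf θ = 0
    · simp [hθ]
    · rw [hall θ (Finset.mem_filter.2 ⟨Finset.mem_univ _, hθ⟩)]
  · simp only [hΨ, Finset.sum_apply]
    exact Finset.sum_congr rfl fun O _ => hξgal O g k h1 h2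


/-- Let the finite p-solvable group G have a faithful character of degree n, and let p^a be the index of O_p(G) in a Sylow p-subgroup of G (the p-part of [G : O_p(G)]). Then a ≤ Σ_{i ≥ 0} ⌊n / ((p − 1) p^i)⌋ (a finite sum; the terms vanish for p^i > n). -/
theorem result {G : Type*} [Group G] [Finite G] (χ : G → ℂ) (hχ : Cfsg.IsCharacter G χ) (hfaith : ∀ g : G, χ g = χ 1 → g = 1) (n : ℕ) (hn : Cfsg.charDegree χ = n) (p : ℕ) (hp : p.Prime) (hsolv : Cfsg.IsPSolvable p G) : ((Cfsg.pCore p G).index).factorization p ≤ ∑ i ∈ Finset.range (n + 1), n / ((p - 1) * p ^ i) := by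
  haveI := Fact.mk hp
  haveI := Fintype.ofFinite G
  classical
  set O := pCore p G with hO
  set π := QuotientGroup.mk' O with hπ
  set Kb := pPrimeCore p (G ⧸ O) with hKb
  set M := Kb.comap π with hM
  have hOM : O ≤ M := fun x hx => by
    show π x ∈ Kb
    rw [hπ, QuotientGroup.mk'_apply, (QuotientGroup.eq_one_iff x).2 hx]; exact one_mem _
  have hOp : IsPGroup p O := Cores.isPGroup_pCore p G
  haveI hMn : M.Normal := (inferInstance : Kb.Normal).comap π
  set OM := O.subgroupOf M with hOMdef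
  have hcM : (Nat.card OM).Coprime OM.index := by
    obtain ⟨j, hj⟩ := IsPGroup.iff_card.1 hOp
    rw [Nat.card_congr (Subgroup.subgroupOfEquivOfLe hOM).toEquiv, hj]
    refine Nat.Coprime.pow_left _ ?_
    have h : OM.index = Nat.card Kb := by
      have h := Subgroup.relIndex_comap (f := π) (⊥ : Subgroup (G ⧸ O)) M
      rw [MonoidHom.comap_bot, hπ, QuotientGroup.ker_mk', Subgroup.relIndex_bot_left] at h
      rw [← hπ, hM, Subgroup.map_comap_eq_self_of_surjective (QuotientGroup.mk'_surjective O)] at h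
      exact h
    rw [h]
    exact (Cores.card_pPrimeCore_coprime p).symm
  obtain ⟨Q₀, hQ₀⟩ := Subgroup.exists_right_complement'_of_coprime hcM
  set Q := Q₀.map M.subtype with hQ
  set N := Subgroup.normalizer (Q : Set G) with hN
  have hcQ : (Nat.card Q).Coprime p := by
    rw [hQ, Subgroup.card_map_of_injective M.subtype_injective]
    have h1 : Nat.card Q₀ = OM.index :=
      Nat.mul_left_cancel Nat.card_pos (by rw [hQ₀.card_mul, OM.card_mul_index])
    rw [h1]
    have h : OM.index = Nat.card Kb := by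
      have h := Subgroup.relIndex_comap (f := π) (⊥ : Subgroup (G ⧸ O)) M
      rw [MonoidHom.comap_bot, hπ, QuotientGroup.ker_mk', Subgroup.relIndex_bot_left] at h
      rw [← hπ, hM, Subgroup.map_comap_eq_self_of_surjective (QuotientGroup.mk'_surjective O)] at h
      exact h
    rw [h]
    exact Cores.card_pPrimeCore_coprime p
  -- Frattini
  have hsurj : ∀ g : G, ∃ o ∈ O, o * g ∈ N := by
    intro g
    set g' : MulAut M := MulAut.conjNormal g with hg'
    have hOM' : OM.map g'.toMonoidHom = OM := by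
      refine le_antisymm ?_ ?_
      · rintro _ ⟨x, hx, rfl⟩
        show ((g' x : M) : G) ∈ O
        rw [hg', MulAut.conjNormal_apply]
        exact (inferInstance : O.Normal).conj_mem _ hx g
      · intro x hx
        refine ⟨g'.symm x, ?_, g'.apply_symm_apply x⟩
        show ((g'.symm x : M) : G) ∈ O
        rw [hg', MulAut.conjNormal_symm_apply]
        simpa using (inferInstance : O.Normal).conj_mem _ hx g⁻¹
    have hc' : Subgroup.IsComplement' OM (Q₀.map g'.toMonoidHom) := by
      refine Subgroup.isComplement'_of_coprime ?_ ?_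
      · rw [Subgroup.card_map_of_injective (f := g'.toMonoidHom) g'.injective, hQ₀.card_mul]
      · rw [Subgroup.card_map_of_injective (f := g'.toMonoidHom) g'.injective,
          show Nat.card Q₀ = OM.index from
            Nat.mul_left_cancel Nat.card_pos (by rw [hQ₀.card_mul, OM.card_mul_index])]
        exact hcM
    have hsolv : Group.IsSolvable OM := by
      haveI := (hOp.of_equiv (Subgroup.subgroupOfEquivOfLe hOM).symm).isNilpotent
      infer_instance
    obtain ⟨m, hm, hmQ⟩ := CoprimeAction.isComplement'_conj hcM (Or.inl hsolv) hc' hQ₀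
    refine ⟨(m : G), hm, ?_⟩
    have hfin : ((m : G) * g) ∈ Subgroup.normalizer (Q : Set G) := by
      refine CoprimeAction.conj_smul_eq_self.1 (Subgroup.eq_of_le_of_card_ge ?_ ?_)
      · intro x hx
        obtain ⟨y, hy, rfl⟩ := CoprimeAction.mem_conj_iff.1 hx |> fun h => (show ∃ y, y ∈ Q ∧
            (m : G) * g * y * ((m : G) * g)⁻¹ = x from ⟨_, h, by group⟩)
        obtain ⟨y, hy', rfl⟩ := hy
        have h1 : m * g' y * m⁻¹ ∈ Q₀ := by
          have h2 : m * g' y * m⁻¹ ∈ MulAut.conj m • Q₀.map g'.toMonoidHom :=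
            CoprimeAction.mem_conj_iff.2 ⟨y, hy', by
              show g' y = _
              group⟩
          rwa [hmQ] at h2
        refine ⟨_, h1, ?_⟩
        show ((m * g' y * m⁻¹ : M) : G) = _
        rw [Subgroup.coe_mul, Subgroup.coe_mul, Subgroup.coe_inv, hg', MulAut.conjNormal_apply]
        show _ = (m : G) * g * (y : G) * ((m : G) * g)⁻¹
        group
      · rw [CoprimeAction.card_conj_smul]
    exact hfin
  obtain ⟨P₀⟩ : Nonempty (Sylow p N) := inferInstance
  set P := (P₀ : Subgroup N).map N.subtype with hP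
  have hPN : P ≤ N := Subgroup.map_subtype_le _
  have hPp : IsPGroup p P := P₀.isPGroup'.map _
  -- the group `Q P`
  set Xs := Q ⊔ P with hXs
  haveI := Fintype.ofFinite Xs
  set Qx := Q.subgroupOf Xs with hQx
  haveI : Qx.Normal := Subgroup.normal_subgroupOf_of_le_normalizer
    (sup_le Subgroup.le_normalizer hPN)
  haveI := Fintype.ofFinite Qx
  have hcQx : Nat.card Qx = Nat.card Q :=
    Nat.card_congr (Subgroup.subgroupOfEquivOfLe le_sup_left).toEquiv
  obtain ⟨c, hc⟩ := IsPGroup.iff_card.1 hPp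
  have hidxp : Qx.index ∣ p ^ c := by
    rw [← hc]
    rw [Subgroup.index_eq_card]
    refine Subgroup.card_dvd_of_surjective
      ((QuotientGroup.mk' Qx).comp (Subgroup.inclusion (le_sup_right : P ≤ Xs))) ?_
    intro y
    obtain ⟨⟨z, hz⟩, rfl⟩ := QuotientGroup.mk'_surjective Qx y
    have hz' := hz
    rw [← SetLike.mem_coe, hXs, Subgroup.coe_mul_of_right_le_normalizer_left Q P hPN] at hz'
    obtain ⟨a, ha, b, hb, rfl⟩ := hz'
    refine ⟨⟨b, hb⟩, (QuotientGroup.mk'_eq_mk' Qx).2
      ⟨⟨b⁻¹ * a * b, le_sup_left (b := P) ?_⟩, ?_, Subtype.ext ?_⟩⟩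
    · exact (Subgroup.mem_normalizer_iff''.1 (hPN hb) a).1 ha
    · exact (Subgroup.mem_normalizer_iff''.1 (hPN hb) a).1 ha
    · show b * (b⁻¹ * a * b) = a * b
      group
  have hcopX : (Nat.card Qx).Coprime Qx.index := by
    rw [hcQx]; exact (hcQ.pow_right c).coprime_dvd_right hidxp
  have hφc : IsCharacter Qx (fun q : Qx => χ ((q : Xs) : G)) :=
    Coherence.isCharacter_comp hχ (Xs.subtype.comp Qx.subtype)
  obtain ⟨n', hn'⟩ := exists_degree_of_isCharacter hχ
  have hnn : n' = n := by rw [← hn, charDegree, hn', Complex.natCast_re, Nat.floor_natCast]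
  subst hnn
  obtain ⟨Ψ, m, hΨ, hmn, hΨ1, hΨf, hΨg⟩ := exists_galois_char Qx hcopX hφc
    (fun q hq => Subtype.ext (Subtype.ext (hfaith _ hq)))
    (fun g q => by
      show χ (((MulAut.conjNormal g q : Qx) : Xs) : G) = χ ((q : Xs) : G)
      rw [MulAut.conjNormal_apply, Subgroup.coe_mul, Subgroup.coe_mul, Subgroup.coe_inv]
      exact (IsCharacter.isClassFunction hχ) _ _)
    (n := n') hn'
  haveI := Fintype.ofFinite P
  haveI : NeZero (p ^ (c + 1)) := ⟨pow_ne_zero _ hp.ne_zero⟩
  have hPN' : ∀ g : P, g ^ (p ^ (c + 1)) = 1 := fun g => by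
    rw [pow_succ, pow_mul, ← hc, pow_card_eq_one', one_pow]
  let f : P →* Xs := Subgroup.inclusion le_sup_right
  obtain ⟨K, b, hK, hi, hb⟩ := rational_bound hPp (A := c) rfl hPN' m (fun g : P => Ψ (f g))
    (Coherence.isCharacter_comp hΨ f) (by rw [map_one, hΨ1]) (fun g x => by
      have hcop1 : Nat.Coprime (p ^ (c + 1)) (Nat.card Qx) := by
        rw [hcQx]; exact hcQ.symm.pow_left _
      obtain ⟨k, hk1, hk2⟩ := Nat.chineseRemainder hcop1 (x : ZMod (p ^ (c + 1))).val 1
      have hkp : Nat.Coprime k (p ^ (c + 1)) := by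
        rw [Nat.Coprime, hk1.gcd_eq]; exact ZMod.val_coe_unit_coprime x
      have hkX : k.Coprime (Nat.card Xs) := by
        rw [← Subgroup.card_mul_index Qx]
        refine Nat.Coprime.mul_right ?_ ?_
        · rw [Nat.Coprime, hk2.gcd_eq, Nat.gcd_one_left]
        · exact hkp.coprime_dvd_right (hidxp.trans (pow_dvd_pow p (Nat.le_succ c)))
      rw [← hΨg (f g) k hkX hk2, ← map_pow]
      congr 2
      rw [pow_eq_pow_iff_modEq]
      exact (hk1.of_dvd (orderOf_dvd_of_pow_eq_one (hPN' g))).symm)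
  -- the kernel lies in `O`
  have hKO : ∀ k ∈ K, (k : G) ∈ O := by
    intro k hk
    obtain ⟨Kf, hKfn, hKf, hKmul⟩ := exists_kernel hΨ
    have hcomm : ∀ q ∈ Q, (k : G) * q = q * (k : G) := by
      intro q hq
      let qx : Qx := ⟨⟨q, le_sup_left (b := P) hq⟩, hq⟩
      have h1 : f k ∈ Kf := (hKf _).2 (by rw [← map_one f]; exact hK k hk)
      have h2 : (f k * qx * (f k)⁻¹) * (qx : Xs)⁻¹ ∈ Qx :=
        Qx.mul_mem ((inferInstance : Qx.Normal).conj_mem _ qx.2 (f k)) (Qx.inv_mem qx.2)
      have h3 : (f k * qx * (f k)⁻¹) * (qx : Xs)⁻¹ ∈ Kf := by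
        have : (f k * qx * (f k)⁻¹) * (qx : Xs)⁻¹ = f k * ((qx : Xs) * (f k)⁻¹ * (qx : Xs)⁻¹) := by
          group
        rw [this]
        exact Kf.mul_mem h1 (hKfn.conj_mem _ (Kf.inv_mem h1) _)
      have h4 := congrArg (fun z : Qx => ((z : Xs) : G)) (hΨf ⟨_, h2⟩ (by
        have := (hKf _).1 h3
        simpa using this))
      simp only [Subgroup.coe_mul, Subgroup.coe_inv, OneMemClass.coe_one] at h4
      rw [mul_inv_eq_one, mul_inv_eq_iff_eq_mul] at h4
      exact h4
    have hπk : π (k : G) ∈ Subgroup.centralizer (Kb : Set (G ⧸ O)) := by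
      rw [Subgroup.mem_centralizer_iff]
      intro y hy
      obtain ⟨z, rfl⟩ := QuotientGroup.mk'_surjective O y
      have hzM : z ∈ M := hy
      obtain ⟨⟨o, q⟩, hoq⟩ := hQ₀.surjective ⟨z, hzM⟩
      have hz : z = ((o : M) : G) * ((q : M) : G) := (congrArg Subtype.val hoq).symm
      have ho : π ((o : M) : G) = 1 := (QuotientGroup.eq_one_iff _).2 o.2
      show π z * π (k : G) = π (k : G) * π z
      rw [hz, map_mul, ho, one_mul, ← map_mul, ← map_mul]
      exact congrArg π (hcomm _ ⟨(q : M), q.2, rfl⟩).symm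
    haveI := (inferInstance : O.Normal)
    have hin := MetacyclicP.centralizer_pPrimeCore_le_self
      (PSolvable.isPSolvable_quotient hsolv O) (Cores.pCore_quotient_pCore p G) hπk
    obtain ⟨j, hj⟩ := IsPGroup.iff_orderOf.1 hPp k
    have hd1 : orderOf (π (k : G)) ∣ p ^ j := by
      refine (orderOf_map_dvd π (k : G)).trans ?_
      rw [Subgroup.orderOf_coe, hj]
    have hd2 : orderOf (π (k : G)) ∣ Nat.card Kb := by
      rw [← Subgroup.orderOf_mk (π (k : G)) hin]
      exact orderOf_dvd_natCard _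
    have h1 : orderOf (π (k : G)) = 1 :=
      Nat.eq_one_of_dvd_coprimes ((Cores.card_pPrimeCore_coprime p).symm.pow_left j) hd1 hd2
    exact (QuotientGroup.eq_one_iff _).1 (orderOf_eq_one_iff.1 h1)
  -- counting
  have hON : O.index * Nat.card (O.subgroupOf N) = Nat.card N := by
    have h1 : (π.comp N.subtype).ker = O.subgroupOf N := by
      rw [← MonoidHom.comap_ker, hπ, QuotientGroup.ker_mk']
      rfl
    have hs : Function.Surjective (π.comp N.subtype) := fun y => by
      obtain ⟨z, rfl⟩ := QuotientGroup.mk'_surjective O y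
      obtain ⟨o, ho, hoz⟩ := hsurj z
      exact ⟨⟨o * z, hoz⟩, by
        show π (o * z) = π z
        rw [map_mul, show π o = 1 from (QuotientGroup.eq_one_iff _).2 ho, one_mul]⟩
    rw [← h1, ← Subgroup.card_mul_index (π.comp N.subtype).ker, Subgroup.index_ker,
      MonoidHom.range_eq_top.2 hs, Subgroup.card_top, ← Subgroup.index_eq_card, mul_comm]
  have hKcard : Nat.card K ∣ Nat.card (O.subgroupOf N) := by
    have hle : (K.map P.subtype).subgroupOf N ≤ O.subgroupOf N := by
      rintro ⟨x, hx⟩ ⟨k, hk, rfl⟩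
      exact hKO k hk
    refine dvd_trans (dvd_of_eq ?_) (Subgroup.card_dvd_of_le hle)
    rw [Nat.card_congr (Subgroup.subgroupOfEquivOfLe
      ((Subgroup.map_subtype_le K).trans hPN)).toEquiv,
      Subgroup.card_map_of_injective P.subtype_injective]
  have hcN : c = (Nat.card N).factorization p := by
    have h := P₀.card_eq_multiplicity
    rw [← Subgroup.card_map_of_injective N.subtype_injective, ← hP, hc] at h
    exact Nat.pow_right_injective hp.two_le h
  have hKfac : (Nat.card K).factorization p + b = c := by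
    have h := congrArg (fun z => z.factorization p) (Subgroup.card_mul_index K)
    simp only [hi, hc] at h
    rw [Nat.factorization_mul Nat.card_pos.ne' (pow_ne_zero _ hp.ne_zero), Finsupp.add_apply,
      hp.factorization_pow, hp.factorization_pow, Finsupp.single_eq_same,
      Finsupp.single_eq_same] at h
    exact h
  have hle := (Nat.factorization_le_iff_dvd Nat.card_pos.ne' Nat.card_pos.ne').2 hKcard p
  have h5 : (O.index * Nat.card (O.subgroupOf N)).factorization p = (Nat.card N).factorization p := by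
    rw [hON]
  rw [Nat.factorization_mul Subgroup.index_ne_zero_of_finite Nat.card_pos.ne',
    Finsupp.add_apply] at h5
  have hgoal : O.index.factorization p ≤ b := by omega
  exact hgoal.trans (hb.trans (schurExp_mono p hmn))

end Cfsg.Agent.S4472
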