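import Cfsg.Statements.S4473
import Cfsg.Agent.Lib.CharDegreesTheory.Unitary
import Cfsg.Agent.Lib.SL2.Dickson.Partition
import Cfsg.Agent.Lib.SL2.Dickson.Arith
import Cfsg.Agent.Lib.Jordan.AbelianNormal
import Cfsg.Agent.Lib.Blocks.Defect
import Cfsg.Agent.Lib.CharTheory.Monomial

set_option autoImplicit false
open Cfsg

namespace Cfsg.Agent.S4473

/-- Let the finite group G have a faithful irreducible character χ of degree 2 that is primitive: χ is not induced from a character of any proper subgroup. Then the centre of G has index 12, 24 or 60. -/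
theorem result {G : Type*} [Group G] [Fintype G] (χ : Cfsg.IrrCharacter G) (hfaith : ∀ g : G, (χ : G → ℂ) g = (χ : G → ℂ) 1 → g = 1) (h2 : Cfsg.charDegree (χ : G → ℂ) = 2) (hprim : ∀ H : Subgroup G, H ≠ ⊤ → ∀ θ : H → ℂ, Cfsg.IsCharacter H θ → (χ : G → ℂ) ≠ Cfsg.indFun H θ) : (Subgroup.center G).index = 12 ∨ (Subgroup.center G).index = 24 ∨ (Subgroup.center G).index = 60 := by
  classical
  obtain ⟨n, ρ, hρ, hχρ⟩ := χ.2
  have := hρ
  have hn : n = 2 := by
    rw [← h2, charDegree, ← hχρ]; simp [Representation.char_one]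
  subst hn
  have hinj : Function.Injective ρ := by
    intro u v huv
    refine eq_of_mul_inv_eq_one (hfaith _ ?_)
    rw [← hχρ, Representation.character, Representation.character, map_mul, huv, ← map_mul,
      mul_inv_cancel]
  -- a single common eigenline would be invariant
  have hscal : ∀ u : G, u ∈ Subgroup.center G ↔ ∃ c : ℂ, ρ u = c • 1 := by
    intro u
    constructor
    · intro hu
      obtain ⟨c, hc⟩ := CfsgLib.CharTheory.exists_smul_of_commute ρ (ρ u) (fun x => by
        show ρ u * ρ x = ρ x * ρ u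
        rw [← map_mul, ← map_mul, Subgroup.mem_center_iff.1 hu x])
      exact ⟨c, LinearMap.ext fun v => by simp [hc]⟩
    · rintro ⟨c, hc⟩
      exact Subgroup.mem_center_iff.2 fun x => hinj (by rw [map_mul, map_mul, hc]; simp)
  -- eigenbasis of a noncentral element
  have heig : ∀ g ∉ Subgroup.center G, ∃ (b : Module.Basis (Fin 2) ℂ (Fin 2 → ℂ)) (μ : Fin 2 → ℂ),
      μ 0 ≠ μ 1 ∧ (∀ i, ρ g (b i) = μ i • b i) ∧
      ∀ u, u ∈ Subgroup.centralizer ({g} : Set G) ↔ ∀ i, ∃ c : ℂ, ρ u (b i) = c • b i := by
    intro g hg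
    obtain ⟨b₀, l, hl⟩ := CfsgLib.CharDegreesTheory.exists_eigenbasis
      (H := Subgroup.zpowers g) (fun u v => by
        obtain ⟨u, s, rfl⟩ := u
        obtain ⟨v, t, rfl⟩ := v
        exact Subtype.ext (zpow_mul_comm g s t))
      ((show G →* Module.End ℂ (Fin 2 → ℂ) from ρ).comp (Subgroup.zpowers g).subtype)
    have hf : Module.finrank ℂ (Fin 2 → ℂ) = 2 := Module.finrank_fin_fun _
    let b := b₀.reindex (finCongr hf)
    let μ : Fin 2 → ℂ := fun i => l ((finCongr hf).symm i) ⟨g, Subgroup.mem_zpowers g⟩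
    have hb : ∀ i, ρ g (b i) = μ i • b i := fun i => by
      simp only [b, Module.Basis.reindex_apply]
      exact hl _ ⟨g, Subgroup.mem_zpowers g⟩
    have hμ : μ 0 ≠ μ 1 := fun h => hg ((hscal g).2 ⟨μ 0, b.ext fun i => by
      rw [hb, LinearMap.smul_apply, Module.End.one_apply]
      fin_cases i
      · rfl
      · exact congrArg (fun c : ℂ => c • b 1) h.symm⟩)
    refine ⟨b, μ, hμ, hb, fun u => ⟨fun hu i => ?_, fun hu => ?_⟩⟩
    · have hc : ρ g (ρ u (b i)) = μ i • ρ u (b i) := by
        rw [← Module.End.mul_apply, ← map_mul, ← Subgroup.mem_centralizer_singleton_iff.1 hu,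
          map_mul, Module.End.mul_apply, hb, map_smul]
      refine ⟨b.repr (ρ u (b i)) i, b.ext_elem fun j => ?_⟩
      have h3 : (μ j - μ i) * b.repr (ρ u (b i)) j = 0 := by
        have h4 := congrArg (fun v => b.repr v j) hc
        have hcoord : (b.coord j).comp (ρ g) = μ j • b.coord j := b.ext fun k => by
          rcases eq_or_ne k j with rfl | hkj
          · simp [hb]
          · simp [hb, hkj]
        have h5 : b.repr (ρ g (ρ u (b i))) j = μ j * b.repr (ρ u (b i)) j :=
          LinearMap.congr_fun hcoord _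
        simp only [h5, map_smul, Finsupp.smul_apply, smul_eq_mul] at h4
        rw [sub_mul, h4, sub_self]
      rcases eq_or_ne j i with rfl | hji
      · simp
      · have : μ j - μ i ≠ 0 := sub_ne_zero.2 (by
          fin_cases i <;> fin_cases j <;> simp_all [Ne.symm hμ])
        simp [(mul_eq_zero.1 h3).resolve_left this, Ne.symm hji]
    · rw [Subgroup.mem_centralizer_singleton_iff]
      refine hinj (b.ext fun i => ?_)
      obtain ⟨c, hc⟩ := hu i
      rw [map_mul, map_mul, Module.End.mul_apply, Module.End.mul_apply, hb, map_smul, hc, map_smul,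
        hb, smul_comm]
  let C : G → Subgroup G := fun g => Subgroup.centralizer ({g} : Set G)
  have hmem : ∀ g ∉ Subgroup.center G, g ∈ C g := fun g _ =>
    Subgroup.mem_centralizer_singleton_iff.2 rfl
  have hZC : ∀ g ∉ Subgroup.center G, Subgroup.center G ≤ C g := fun g _ z hz =>
    Subgroup.mem_centralizer_singleton_iff.2 (Subgroup.mem_center_iff.1 hz g).symm
  have hab : ∀ g ∉ Subgroup.center G, ∀ u ∈ C g, ∀ v ∈ C g, u * v = v * u := by
    intro g hg u hu v hv
    obtain ⟨b, μ, -, -, hb⟩ := heig g hg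
    refine hinj (b.ext fun i => ?_)
    obtain ⟨c, hc⟩ := (hb u).1 hu i
    obtain ⟨d, hd⟩ := (hb v).1 hv i
    rw [map_mul, map_mul, Module.End.mul_apply, Module.End.mul_apply, hc, hd, map_smul, map_smul, hc,
      hd, smul_comm]
  have heq : ∀ g ∉ Subgroup.center G, ∀ h ∈ C g, h ∉ Subgroup.center G → C h = C g := by
    intro g hg h hh hhZ
    refine le_antisymm (fun u hu => ?_) fun u hu =>
      Subgroup.mem_centralizer_singleton_iff.2 (hab g hg u hu h hh)
    refine Subgroup.mem_centralizer_singleton_iff.2 (hab h hhZ u hu g ?_)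
    exact Subgroup.mem_centralizer_singleton_iff.2 (hab g hg g (hmem g hg) h hh)
  have hconj : ∀ g ∉ Subgroup.center G, ∀ k : G, k * g * k⁻¹ ∉ Subgroup.center G ∧
      ∀ x, x ∈ C (k * g * k⁻¹) ↔ k⁻¹ * x * k ∈ C g := by
    intro g hg k
    refine ⟨fun h => hg ?_, fun x => ?_⟩
    · have := (inferInstance : (Subgroup.center G).Normal).conj_mem _ h k⁻¹
      simpa [mul_assoc] using this
    · simp only [C, Subgroup.mem_centralizer_singleton_iff]
      constructor
      · intro h
        calc k⁻¹ * x * k * g = k⁻¹ * (x * (k * g * k⁻¹)) * k := by group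
          _ = k⁻¹ * ((k * g * k⁻¹) * x) * k := by rw [h]
          _ = g * (k⁻¹ * x * k) := by group
      · intro h
        calc x * (k * g * k⁻¹) = k * (k⁻¹ * x * k * g) * k⁻¹ := by group
          _ = k * (g * (k⁻¹ * x * k)) * k⁻¹ := by rw [h]
          _ = k * g * k⁻¹ * x := by group
  obtain ⟨R, hR, -, -, hclass⟩ :=
    CfsgLib.SL2.partition_class_equation (Subgroup.center G) C hmem hZC heq hconj
  -- the normalizer of a centralizer
  have hnorm : ∀ A ∈ R, A.relIndex (Subgroup.normalizer (A : Set G)) = 1 ∨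
      A.relIndex (Subgroup.normalizer (A : Set G)) = 2 := by
    intro A hA
    obtain ⟨g, hg, rfl⟩ := hR A hA
    obtain ⟨b, μ, hμ, hb, hC⟩ := heig g hg
    have himg : ∀ u ∈ Subgroup.normalizer (C g : Set G), ∀ i, ∃ (j : Fin 2) (c : ℂ),
        ρ u (b i) = c • b j := by
      intro u hu i
      have hh : u * g * u⁻¹ ∈ C g := (Subgroup.mem_normalizer_iff.1 hu g).1 (hmem g hg)
      choose d hd using (hC _).1 hh
      have hd01 : d 0 ≠ d 1 := fun h => (hconj g hg u).1 ((hscal _).2 ⟨d 0, b.ext fun k => by
        rw [hd, LinearMap.smul_apply, Module.End.one_apply]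
        fin_cases k
        · rfl
        · exact congrArg (fun c : ℂ => c • b 1) h.symm⟩)
      set w := ρ u (b i)
      have hw : ρ (u * g * u⁻¹) w = μ i • w := by
        rw [← Module.End.mul_apply, ← map_mul, inv_mul_cancel_right, map_mul, Module.End.mul_apply,
          hb, map_smul]
      have hco : ∀ j, (d j - μ i) * b.repr w j = 0 := fun j => by
        have h4 := congrArg (fun v => b.repr v j) hw
        have h5 : b.repr (ρ (u * g * u⁻¹) w) j = d j * b.repr w j := by
          have hcoord : (b.coord j).comp (ρ (u * g * u⁻¹)) = d j • b.coord j := b.ext fun k => by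
            rcases eq_or_ne k j with rfl | hkj
            · rw [LinearMap.comp_apply, hd]; simp
            · rw [LinearMap.comp_apply, hd]; simp [hkj]
          exact LinearMap.congr_fun hcoord w
        simp only [h5, map_smul, Finsupp.smul_apply, smul_eq_mul] at h4
        rw [sub_mul, h4, sub_self]
      by_cases h0 : d 0 = μ i
      · refine ⟨0, b.repr w 0, b.ext_elem fun j => ?_⟩
        fin_cases j
        · simp
        · have := (mul_eq_zero.1 (hco 1)).resolve_left (sub_ne_zero.2 fun h => hd01 (h0.trans h.symm))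
          simp [this]
      · refine ⟨1, b.repr w 1, b.ext_elem fun j => ?_⟩
        fin_cases j
        · have := (mul_eq_zero.1 (hco 0)).resolve_left (sub_ne_zero.2 h0)
          simp [this]
        · simp
    -- elements outside the centralizer swap the two lines
    have hswap : ∀ u ∈ Subgroup.normalizer (C g : Set G), u ∉ C g →
        ∀ i : Fin 2, ∃ c : ℂ, ρ u (b i) = c • b (i + 1) := by
      intro u hu hun
      obtain ⟨j0, c0, e0⟩ := himg u hu 0
      obtain ⟨j1, c1, e1⟩ := himg u hu 1
      have hui : Function.Injective (ρ u) := fun v w hvw => by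
        have := congrArg (ρ u⁻¹) hvw
        rwa [← Module.End.mul_apply, ← Module.End.mul_apply, ← map_mul, inv_mul_cancel, map_one] at this
      have hne : j0 ≠ j1 := by
        rintro rfl
        have hc0 : c0 ≠ 0 := fun h => b.ne_zero 0 (hui (by rw [e0, h, zero_smul, map_zero]))
        have e : b 1 = (c1 / c0) • b 0 := hui (by rw [e1, map_smul, e0, smul_smul, div_mul_cancel₀ _ hc0])
        have := congrArg (fun v => b.repr v 1) e
        simp at this
      rcases (show (j0 = 0 ∧ j1 = 1) ∨ (j0 = 1 ∧ j1 = 0) by omega) with ⟨rfl, rfl⟩ | ⟨rfl, rfl⟩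
      · exact absurd ((hC u).2 (Fin.forall_fin_two.2 ⟨⟨c0, e0⟩, ⟨c1, e1⟩⟩)) hun
      · exact Fin.forall_fin_two.2 ⟨⟨c0, by simpa using e0⟩, ⟨c1, by simpa using e1⟩⟩
    by_cases hall : Subgroup.normalizer (C g : Set G) ≤ C g
    · exact Or.inl (Subgroup.relIndex_eq_one.2 hall)
    · obtain ⟨u₀, hu₀, hu₀'⟩ := SetLike.not_le_iff_exists.1 hall
      right
      rw [Subgroup.relIndex, Subgroup.index_eq_two_iff']
      refine ⟨⟨u₀, hu₀⟩, fun x => ?_⟩
      simp only [Subgroup.mem_subgroupOf, Subgroup.coe_mul]
      by_cases hx : (x : G) ∈ C g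
      · refine Or.inr ⟨hx, fun h => hu₀' ?_⟩
        rwa [Subgroup.mul_mem_cancel_right _ hx] at h
      · refine Or.inl ⟨(hC _).2 fun i => ?_, hx⟩
        obtain ⟨c, hc⟩ := hswap x x.2 hx i
        obtain ⟨d, hd⟩ := hswap u₀ hu₀ hu₀' (i + 1)
        refine ⟨c * d, ?_⟩
        rw [map_mul, Module.End.mul_apply, hc, map_smul, hd, smul_smul]
        congr 2
        fin_cases i <;> rfl
  have hRA : ∀ A ∈ R, Subgroup.center G ≤ A ∧ 2 ≤ (Subgroup.center G).relIndex A := by
    intro A hA
    obtain ⟨g, hg, rfl⟩ := hR A hA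
    refine ⟨hZC g hg, ?_⟩
    have h1 : (Subgroup.center G).relIndex (C g) ≠ 1 := fun h =>
      hg (Subgroup.relIndex_eq_one.1 h (hmem g hg))
    have h0 : (Subgroup.center G).relIndex (C g) ≠ 0 := Subgroup.index_ne_zero_of_finite
    omega
  have hAN : ∀ A : Subgroup G, A ≤ Subgroup.normalizer (A : Set G) := fun A => Subgroup.le_normalizer
  have hdvd : ∀ A ∈ R, A.relIndex (Subgroup.normalizer (A : Set G)) *
      (Subgroup.center G).relIndex A ∣ (Subgroup.center G).index := by
    intro A hA
    rw [mul_comm, Subgroup.relIndex_mul_relIndex _ _ _ (hRA A hA).1 (hAN A),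
      ← Subgroup.relIndex_mul_index ((hRA A hA).1.trans (hAN A))]
    exact dvd_mul_right _ _
  have hh : 2 ≤ (Subgroup.center G).index := by
    have h1 : (Subgroup.center G).index ≠ 1 := by
      intro h
      have htop := Subgroup.index_eq_one.1 h
      have hc : IsMulCommutative G := ⟨⟨fun a b =>
        Subgroup.mem_center_iff.1 (htop ▸ Subgroup.mem_top b) a⟩⟩
      have := Representation.IsIrreducible.finrank_eq_one_of_isMulCommutative ρ
      rw [Module.finrank_fin_fun] at this
      omega
    have h0 : (Subgroup.center G).index ≠ 0 := Subgroup.index_ne_zero_of_finite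
    omega
  have hZ0 : (Nat.card (Subgroup.center G) : ℚ) ≠ 0 := Nat.cast_ne_zero.2 Nat.card_pos.ne'
  have hclass' : 1 - 1 / ((Subgroup.center G).index : ℚ) = ∑ A ∈ R,
      (1 - 1 / ((Subgroup.center G).relIndex A : ℚ)) /
        (A.relIndex (Subgroup.normalizer (A : Set G)) : ℕ) := by
    have e1 : (Nat.card (Subgroup.center G) : ℚ) * ((Subgroup.center G).index : ℚ) = Nat.card G := by
      exact_mod_cast (Subgroup.center G).card_mul_index
    rw [← e1, div_mul_eq_div_div, div_self hZ0] at hclass
    rw [hclass]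
    refine Finset.sum_congr rfl fun A hA => ?_
    have e2 : (Nat.card (Subgroup.center G) : ℚ) * ((Subgroup.center G).relIndex A : ℚ) = Nat.card A := by
      exact_mod_cast (by
        rw [← Subgroup.relIndex_bot_left, ← Subgroup.relIndex_bot_left,
          Subgroup.relIndex_mul_relIndex _ _ _ bot_le (hRA A hA).1] :
        Nat.card (Subgroup.center G) * (Subgroup.center G).relIndex A = Nat.card A)
    have e3 : (Nat.card A : ℚ) * (A.relIndex (Subgroup.normalizer (A : Set G)) : ℚ) =
        Nat.card (Subgroup.normalizer (A : Set G)) := by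
      exact_mod_cast (by
        rw [← Subgroup.relIndex_bot_left, ← Subgroup.relIndex_bot_left,
          Subgroup.relIndex_mul_relIndex _ _ _ bot_le (hAN A)] :
        Nat.card A * A.relIndex (Subgroup.normalizer (A : Set G)) =
          Nat.card (Subgroup.normalizer (A : Set G)))
    have h2' : ((Subgroup.center G).relIndex A : ℚ) ≠ 0 :=
      Nat.cast_ne_zero.2 (by have := (hRA A hA).2; omega)
    have h3' : (A.relIndex (Subgroup.normalizer (A : Set G)) : ℚ) ≠ 0 :=
      Nat.cast_ne_zero.2 (by rcases hnorm A hA with h | h <;> omega)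
    rw [← e3, ← e2]
    field_simp
  rcases CfsgLib.SL2.Dickson.arith_coprime R (fun A => (Subgroup.center G).relIndex A)
    (fun A => A.relIndex (Subgroup.normalizer (A : Set G))) (fun A hA => (hRA A hA).2) hnorm hdvd hh
    hclass' with ⟨A, hA, he⟩ | h | h | h
  · exfalso
    -- a normal abelian subgroup of index at most two
    have htop : Subgroup.normalizer (A : Set G) = ⊤ := by
      rw [← Subgroup.index_eq_one]
      simp only [mul_comm (A.relIndex _), Subgroup.relIndex_mul_relIndex _ _ _ (hRA A hA).1 (hAN A)] at he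
      have h6 := Subgroup.relIndex_mul_index ((hRA A hA).1.trans (hAN A))
      rw [he] at h6
      exact (Nat.mul_eq_left (by omega)).1 h6
    have hidx := hnorm A hA
    rw [htop, Subgroup.relIndex_top_right] at hidx
    obtain ⟨g, hg, rfl⟩ := hR A hA
    have hCab : ∀ a b : C g, a * b = b * a := fun a b => Subtype.ext (hab g hg a a.2 b b.2)
    rcases hidx with hidx | hidx
    · have hAtop := Subgroup.index_eq_one.1 hidx
      refine hg (Subgroup.mem_center_iff.2 fun x => ?_)
      have hx : x ∈ C g := by rw [hAtop]; exact Subgroup.mem_top x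
      exact Subgroup.mem_centralizer_singleton_iff.1 hx
    · have hne : C g ≠ ⊤ := fun h => by
        rw [h, Subgroup.index_top] at hidx
        exact absurd hidx (by norm_num)
      have := Fintype.ofFinite (IrrCharacter (C g))
      have := Fintype.ofFinite (IrrCharacter G)
      have hχc := CfsgLib.CharTheory.IsIrrCharacter.isCharacter χ.2
      obtain ⟨m, hm⟩ := CfsgLib.CharTheory.IsCharacter.exists_sum
        (CfsgLib.Coherence.isCharacter_comp hχc (C g).subtype)
      obtain ⟨ν, hν⟩ : ∃ ν, m ν ≠ 0 := by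
        by_contra! h
        exact CfsgLib.CharTheory.apply_one_ne_zero_of_isIrr χ.2 (by
          simpa [h] using congrFun hm 1)
      have hν1 : (ν : C g → ℂ) 1 = 1 := by
        obtain ⟨l, hl⟩ := CfsgLib.Jordan.exists_hom_of_comm hCab ν.2
        rw [hl, map_one]
      have hind := CfsgLib.Frobenius.isCharacter_indFun (C g) (ν : C g → ℂ)
        (CfsgLib.CharTheory.IsIrrCharacter.isCharacter ν.2)
      obtain ⟨c, hc⟩ := CfsgLib.CharTheory.IsCharacter.exists_sum hind
      have hcχ : c χ ≠ 0 := by
        have h := CfsgLib.CharTheory.classInner_sum_irr (fun φ => (c φ : ℂ)) χ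
        rw [← hc, CfsgLib.Frobenius.classInner_indFun (C g) _ _
          (CfsgLib.CharTheory.IsIrrCharacter.isClassFunction χ.2),
          CfsgLib.CharTheory.classInner_conj_symm] at h
        rw [show (fun u : C g => (χ : G → ℂ) u) = _ from hm, CfsgLib.CharTheory.classInner_sum_irr,
          map_natCast, Nat.cast_inj] at h
        exact h ▸ hν
      have hone : (2 : ℕ) = ∑ φ, c φ * charDegree (φ : G → ℂ) := by
        have h := congrFun hc 1
        rw [CfsgLib.Frobenius.indFun_one, hidx, hν1, Finset.sum_apply] at h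
        simp only [Pi.smul_apply, smul_eq_mul, ← CfsgLib.Blocks.charDegree_cast, mul_one] at h
        exact_mod_cast h
      rw [← Finset.add_sum_erase _ _ (Finset.mem_univ χ), h2] at hone
      have hrest : ∀ φ, φ ≠ χ → c φ = 0 := by
        intro φ hφ
        have h0 : ∑ φ ∈ Finset.univ.erase χ, c φ * charDegree (φ : G → ℂ) = 0 := by omega
        exact (mul_eq_zero.1 ((Finset.sum_eq_zero_iff.1 h0) φ (by simp [hφ]))).resolve_right
          (CfsgLib.Blocks.charDegree_ne_zero' φ)
      have hc1 : c χ = 1 := by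
        have h0 : c χ * 2 ≤ 2 := by omega
        omega
      refine hprim (C g) hne _ (CfsgLib.CharTheory.IsIrrCharacter.isCharacter ν.2) ?_
      rw [hc, Finset.sum_eq_single χ (fun φ _ hφ => by simp [hrest φ hφ]) (by simp), hc1]
      simp
  · exact Or.inl h.1
  · exact Or.inr (Or.inl h.1)
  · exact Or.inr (Or.inr h.1)

end Cfsg.Agent.S4473
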