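import Cfsg.Statements.S4475
import Cfsg.Agent.Lib.RealChar.Indicator

set_option autoImplicit false
open Cfsg

namespace Cfsg.Agent.S4475

/-- Let ρ be an irreducible representation of the finite group G on the coordinate space Fin n → ℂ whose character χ is real-valued, and let ν be the Frobenius–Schur indicator of χ (the average of χ(s²)). Writing X(g) for the matrix of ρ(g), there is a nonzero matrix M with X(g)ᵀ M X(g) = M for all g ∈ G; and every such M (zero or not) satisfies Mᵀ = ν·M. -/
theorem result {G : Type*} [Group G] [Fintype G] (n : ℕ) (ρ : Representation ℂ G (Fin n → ℂ)) (hirr : ρ.IsIrreducible) (hreal : ∀ g : G, (ρ.character g).im = 0) : (∃ M : Matrix (Fin n) (Fin n) ℂ, M ≠ 0 ∧ ∀ g : G, (LinearMap.toMatrix' (ρ g)).transpose * M * LinearMap.toMatrix' (ρ g) = M) ∧ ∀ M : Matrix (Fin n) (Fin n) ℂ, (∀ g : G, (LinearMap.toMatrix' (ρ g)).transpose * M * LinearMap.toMatrix' (ρ g) = M) → M.transpose = ((Nat.card G : ℂ)⁻¹ * ∑ s : G, ρ.character (s * s)) • M := by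
  haveI := hirr
  obtain ⟨B, hB, hB0⟩ := CfsgLib.RealChar.exists_form_of_real ρ hreal
  obtain ⟨c, hc, hBt, hfs⟩ := CfsgLib.RealChar.fsIndicator_of_form ρ hB hB0
  have hd : IsUnit B.det := (CfsgLib.RealChar.det_form_ne_zero hB hB0).isUnit
  set X := CfsgLib.RealChar.toMatRep ρ with hX
  have hXe : ∀ g, LinearMap.toMatrix' (ρ g) = X g := fun _ => rfl
  have hinvX : ∀ g, (X g⁻¹).transpose * (X g).transpose = 1 := fun g => by
    rw [← Matrix.transpose_mul, ← map_mul, mul_inv_cancel, map_one, Matrix.transpose_one]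
  have hcc : c * c = 1 := by rcases hc with e | e <;> rw [e] <;> norm_num
  refine ⟨⟨B⁻¹, fun e => ?_, fun g => ?_⟩, fun M hM => ?_⟩
  · haveI : Nonempty (Fin n) := by
      by_contra h
      rw [not_nonempty_iff] at h
      exact hB0 (Matrix.ext fun i => isEmptyElim i)
    have := Matrix.nonsing_inv_mul B hd
    rw [e, Matrix.zero_mul] at this
    exact zero_ne_one this
  · rw [hXe]
    have h1 : B⁻¹ * X g = (X g⁻¹).transpose * B⁻¹ := by
      calc B⁻¹ * X g = B⁻¹ * (X g * B) * B⁻¹ := by
            rw [Matrix.mul_assoc, Matrix.mul_assoc, Matrix.mul_nonsing_inv B hd, Matrix.mul_one]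
        _ = (X g⁻¹).transpose * B⁻¹ := by
            rw [CfsgLib.RealChar.form_intertwines hB g, ← Matrix.mul_assoc,
              Matrix.nonsing_inv_mul B hd, Matrix.one_mul]
    rw [Matrix.mul_assoc, h1, ← Matrix.mul_assoc, ← Matrix.transpose_mul, ← map_mul, inv_mul_cancel,
      map_one, Matrix.transpose_one, Matrix.one_mul]
  · have hcomm : ∀ g, B * M * X g = X g * (B * M) := fun g => by
      rw [← Matrix.mul_assoc, CfsgLib.RealChar.form_intertwines hB, Matrix.mul_assoc, Matrix.mul_assoc]
      congr 1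
      calc M * X g = (X g⁻¹).transpose * (X g).transpose * (M * X g) := by rw [hinvX, Matrix.one_mul]
        _ = (X g⁻¹).transpose * ((X g).transpose * M * X g) := by simp only [Matrix.mul_assoc]
        _ = (X g⁻¹).transpose * M := congrArg _ (hM g)
    obtain ⟨d, hd'⟩ := CfsgLib.CharTheory.exists_smul_of_commute ρ (Matrix.toLin' (B * M)) fun g => by
      rw [← CfsgLib.RealChar.toLin'_toMatRep ρ g, ← Matrix.toLin'_mul, hcomm, Matrix.toLin'_mul]
    have h2 : B * M = d • (1 : Matrix (Fin n) (Fin n) ℂ) :=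
      Matrix.toLin'.injective (by rw [hd', map_smul, Matrix.toLin'_one])
    have hMe : M = d • B⁻¹ := by
      rw [← Matrix.one_mul M, ← Matrix.nonsing_inv_mul B hd, Matrix.mul_assoc, h2, Matrix.mul_smul,
        Matrix.mul_one]
    show M.transpose = CfsgLib.RealChar.fsIndicator ρ.character • M
    rw [hfs, hMe, Matrix.transpose_smul, Matrix.transpose_nonsing_inv, hBt, smul_comm]
    congr 1
    refine Matrix.inv_eq_right_inv ?_
    rw [Matrix.smul_mul, Matrix.mul_smul, smul_smul, hcc, Matrix.mul_nonsing_inv B hd, one_smul]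

end Cfsg.Agent.S4475
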