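import Cfsg.Statements.S4476
import Cfsg.Agent.Lib.Correspondences.RealIrr

set_option autoImplicit false
set_option linter.style.haveILetI false
open Cfsg

namespace Cfsg.Agent.S4476


open CfsgLib.CharTheory CfsgLib.RealChar CfsgLib.Correspondences

variable {G : Type*} [Group G]

theorem charDegree_coe {χ : G → ℂ} (h : IsIrrCharacter G χ) :
    χ 1 = (Cfsg.charDegree χ : ℂ) ∧ 0 < Cfsg.charDegree χ := by
  obtain ⟨n, hn, h1⟩ := exists_degree_of_isIrr h
  have : Cfsg.charDegree χ = n := by simp [Cfsg.charDegree, h1]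
  rw [this]
  exact ⟨h1, Nat.pos_of_ne_zero (by omega)⟩

theorem sum_card_centralizer [Fintype G] :
    ∑ x : G, Nat.card (Subgroup.centralizer ({x} : Set G)) = Nat.card (ConjClasses G) * Nat.card G := by
  rw [← card_comm_eq_card_conjClasses_mul_card, ← Nat.card_sigma]
  refine Nat.card_congr ⟨fun p => ⟨(p.1, p.2.1), (Subgroup.mem_centralizer_singleton_iff.1 p.2.2).symm⟩,
    fun p => ⟨p.1.1, p.1.2, Subgroup.mem_centralizer_singleton_iff.2 p.2.symm⟩, fun _ => rfl, fun _ => rfl⟩

open scoped Classical in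
theorem key [Fintype G] (t : ℕ) (ht : Nat.card {x : G // orderOf x = 2} = t)
    [Fintype (IrrCharacter G)] :
    (t : ℝ) ≤ ∑ χ ∈ (Finset.univ.erase (trivIrr G)).filter (fun χ : IrrCharacter G => ∀ g, ((χ : G → ℂ) g).im = 0),
      (Cfsg.charDegree (χ : G → ℂ) : ℝ) := by
  have h := congrArg Complex.re (card_sqrt_eq_sum (G := G) 1)
  rw [Complex.natCast_re, Complex.re_sum, ← Finset.add_sum_erase _ _ (Finset.mem_univ (trivIrr G))] at h
  have h1 : fsIndicator (trivIrr G : G → ℂ) = 1 := by simp [fsIndicator, trivIrr_apply]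
  have hcard : (Finset.univ.filter fun u : G => u * u = 1).card = t + 1 := by
    rw [show (Finset.univ.filter fun u : G => u * u = 1) = insert 1 (Finset.univ.filter fun u : G => orderOf u = 2) from
      Finset.ext fun u => by
        simp only [Finset.mem_filter, Finset.mem_univ, true_and, Finset.mem_insert, ← pow_two, orderOf_eq_prime_iff]
        rcases eq_or_ne u 1 with rfl | hu <;> simp [*],
      Finset.card_insert_of_notMem (by simp), ← ht, Nat.card_eq_fintype_card, Fintype.card_subtype]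
  rw [h1, trivIrr_apply, one_mul, Complex.one_re, hcard] at h
  push_cast at h
  rw [show (t : ℝ) = ∑ χ ∈ Finset.univ.erase (trivIrr G),
    (fsIndicator (χ : G → ℂ) * (χ : G → ℂ) 1).re by linarith, Finset.sum_filter]
  refine Finset.sum_le_sum fun χ _ => ?_
  rw [(charDegree_coe χ.2).1]
  by_cases hr : ∀ g, ((χ : G → ℂ) g).im = 0
  · rw [if_pos hr]
    rcases (fsIndicator_irr_cases χ.2).1 with e | e | e <;> rw [e] <;> simp
  · rw [if_neg hr, (fsIndicator_irr_cases χ.2).2.2 (by push Not at hr; exact hr)]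
    simp

open scoped Classical in
theorem main [Fintype G] (heven : Even (Nat.card G)) (t : ℕ) (ht : Nat.card {x : G // orderOf x = 2} = t) :
    (∃ x : G, x ≠ 1 ∧ ((Subgroup.centralizer ({x} : Set G)).index : ℝ) ≤ (((Nat.card G : ℝ) - 1) / t) ^ 2) ∧
      ∃ χ : Cfsg.IrrCharacter G, (χ : G → ℂ) ≠ (fun _ => 1) ∧ (∀ g : G, ((χ : G → ℂ) g).im = 0) ∧
        (Cfsg.charDegree (χ : G → ℂ) : ℝ) ≤ ((Nat.card G : ℝ) - 1) / t := by
  haveI := Fintype.ofFinite (IrrCharacter G)
  have hkey := key (G := G) t ht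
  set n : ℝ := (Nat.card G : ℝ) with hn
  set S := (Finset.univ.erase (trivIrr G)).filter (fun χ : IrrCharacter G => ∀ g, ((χ : G → ℂ) g).im = 0) with hS
  set d : IrrCharacter G → ℝ := fun χ => (Cfsg.charDegree (χ : G → ℂ) : ℝ) with hd
  have htpos : (0 : ℝ) < t := by
    obtain ⟨x, hx⟩ := exists_prime_orderOf_dvd_card' (G := G) 2 heven.two_dvd
    haveI : Nonempty {x : G // orderOf x = 2} := ⟨⟨x, hx⟩⟩
    rw [← ht]; exact_mod_cast Nat.card_pos
  have hsq : ∑ χ ∈ S, d χ ^ 2 ≤ n - 1 := by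
    have h := congrArg Complex.re (sum_degree_sq (G := G))
    rw [Complex.natCast_re, Complex.re_sum, ← Finset.add_sum_erase _ _ (Finset.mem_univ (trivIrr G)),
      trivIrr_apply, one_pow, Complex.one_re] at h
    rw [show n - 1 = ∑ χ ∈ Finset.univ.erase (trivIrr G), ((χ : G → ℂ) 1 ^ 2).re by linarith]
    refine (Finset.sum_le_sum_of_subset_of_nonneg (Finset.filter_subset _ _)
      fun _ _ _ => sq_nonneg _).trans (le_of_eq (Finset.sum_congr rfl fun χ _ => ?_))
    simp only [d, (charDegree_coe χ.2).1, ← Nat.cast_pow, Complex.natCast_re]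
  have hne : S.Nonempty := by
    by_contra h
    rw [Finset.not_nonempty_iff_eq_empty.1 h, Finset.sum_empty] at hkey
    linarith
  have hn1 : 0 < n - 1 := by
    refine lt_of_lt_of_le ?_ hsq
    exact Finset.sum_pos (fun χ _ => pow_pos (Nat.cast_pos.2 (charDegree_coe χ.2).2) 2) hne
  constructor
  · by_contra hcon
    push Not at hcon
    set a := (n - 1) / t with ha
    have hapos : 0 < a := div_pos hn1 htpos
    have hcs := sq_sum_le_card_mul_sum_sq (s := S) (f := d)
    have hk : (S.card : ℝ) ≤ (Nat.card (ConjClasses G) : ℝ) - 1 := by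
      have h1 : S.card + 1 ≤ Nat.card (ConjClasses G) := by
        rw [← card_irrCharacter, Nat.card_eq_fintype_card, ← Finset.card_univ,
          ← Finset.card_erase_add_one (Finset.mem_univ (trivIrr G))]
        exact Nat.add_le_add_right (Finset.card_le_card (Finset.filter_subset _ _)) 1
      have : ((S.card + 1 : ℕ) : ℝ) ≤ (Nat.card (ConjClasses G) : ℝ) := Nat.cast_le.2 h1
      push_cast at this; linarith
    have hsum := congrArg (Nat.cast (R := ℝ)) (sum_card_centralizer (G := G))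
    rw [Nat.cast_sum, Nat.cast_mul, ← hn, ← Finset.add_sum_erase _ _ (Finset.mem_univ (1 : G)),
      Subgroup.centralizer_eq_top_iff_subset.2 (by simp : ({(1 : G)} : Set G) ⊆ _), Subgroup.card_top, ← hn] at hsum
    have hneG : (Finset.univ.erase (1 : G)).Nonempty := by
      rw [← Finset.card_pos, Finset.card_erase_of_mem (Finset.mem_univ _), Finset.card_univ,
        ← Nat.card_eq_fintype_card]
      have : (1 : ℝ) < (Nat.card G : ℝ) := by linarith
      have : 1 < Nat.card G := by exact_mod_cast this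
      omega
    have hlt : ∑ x ∈ Finset.univ.erase (1 : G), (Nat.card (Subgroup.centralizer ({x} : Set G)) : ℝ) <
        ∑ x ∈ Finset.univ.erase (1 : G), n / a ^ 2 := by
      refine Finset.sum_lt_sum_of_nonempty hneG fun x hx => ?_
      rw [lt_div_iff₀ (pow_pos hapos 2), hn, ← Subgroup.card_mul_index (Subgroup.centralizer ({x} : Set G)),
        Nat.cast_mul]
      exact mul_lt_mul_of_pos_left (hcon x (Finset.ne_of_mem_erase hx)) (Nat.cast_pos.2 Nat.card_pos)
    rw [Finset.sum_const, nsmul_eq_mul, Finset.card_erase_of_mem (Finset.mem_univ _), Finset.card_univ,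
      ← Nat.card_eq_fintype_card, Nat.cast_sub (by exact Nat.card_pos), Nat.cast_one, ← hn] at hlt
    have h5 : (t : ℝ) ^ 2 ≤ ((Nat.card (ConjClasses G) : ℝ) - 1) * (n - 1) :=
      (pow_le_pow_left₀ htpos.le hkey 2).trans (hcs.trans (mul_le_mul hk hsq
        (Finset.sum_nonneg fun _ _ => sq_nonneg _) ((Nat.cast_nonneg _).trans hk)))
    have h6 : ((Nat.card (ConjClasses G) : ℝ) - 1) * n < (n - 1) * (n / a ^ 2) := by linarith
    have h7 : (n - 1) * (n / a ^ 2) = n * ((t : ℝ) ^ 2 / (n - 1)) := by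
      rw [ha]; field_simp
    have h8 : (t : ℝ) ^ 2 / (n - 1) ≤ (Nat.card (ConjClasses G) : ℝ) - 1 := by
      rw [div_le_iff₀ hn1]; linarith
    have h9 : n * ((t : ℝ) ^ 2 / (n - 1)) ≤ n * ((Nat.card (ConjClasses G) : ℝ) - 1) :=
      mul_le_mul_of_nonneg_left h8 (by linarith)
    linarith
  · by_contra hcon
    push Not at hcon
    have hlt : ∑ χ ∈ S, d χ * ((n - 1) / t) < ∑ χ ∈ S, d χ ^ 2 := by
      refine Finset.sum_lt_sum_of_nonempty hne fun χ hχ => ?_
      rw [pow_two]
      refine mul_lt_mul_of_pos_left ?_ (Nat.cast_pos.2 (charDegree_coe χ.2).2)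
      obtain ⟨h1, h2⟩ := Finset.mem_filter.1 hχ
      refine hcon χ (fun e => Finset.ne_of_mem_erase h1 (Subtype.ext (e.trans
        (funext fun g => (trivIrr_apply g).symm)))) h2
    rw [← Finset.sum_mul] at hlt
    have h3 : (t : ℝ) * ((n - 1) / t) ≤ (∑ χ ∈ S, d χ) * ((n - 1) / t) :=
      mul_le_mul_of_nonneg_right hkey (div_nonneg hn1.le htpos.le)
    rw [mul_div_cancel₀ _ htpos.ne'] at h3
    linarith

/-- Let G be a finite group of even order g with exactly t involutions, and put α = (g − 1)/t (a rational number). Then (a) some non-identity element x of G has at most α² conjugates; and (b) some non-principal real-valued irreducible character of G has degree at most α. -/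
theorem result {G : Type*} [Group G] [Fintype G] (heven : Even (Nat.card G)) (t : ℕ) (ht : Nat.card {x : G // orderOf x = 2} = t) : (∃ x : G, x ≠ 1 ∧ ((Subgroup.centralizer ({x} : Set G)).index : ℚ) ≤ (((Nat.card G : ℚ) - 1) / t) ^ 2) ∧ ∃ χ : Cfsg.IrrCharacter G, (χ : G → ℂ) ≠ (fun _ => 1) ∧ (∀ g : G, ((χ : G → ℂ) g).im = 0) ∧ (Cfsg.charDegree (χ : G → ℂ) : ℚ) ≤ ((Nat.card G : ℚ) - 1) / t := by
  obtain ⟨⟨x, hx, h1⟩, χ, hχ, hr, h2⟩ := main heven t ht
  exact ⟨⟨x, hx, (Rat.cast_le (K := ℝ)).1 (by push_cast; exact h1)⟩,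
    χ, hχ, hr, (Rat.cast_le (K := ℝ)).1 (by push_cast; exact h2)⟩

end Cfsg.Agent.S4476
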