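import Cfsg.Statements.S4477
import Cfsg.Agent.Lib.Correspondences.RealIrr
import Cfsg.Agent.Lib.CharTheory.Linear
import Cfsg.Agent.Lib.CharTheory.Degree
import Cfsg.Agent.Lib.CharTheory.Inflation
import Cfsg.Agent.Lib.PGroups.Frattini
import Cfsg.Agent.Lib.TwoGroups.RankOne

set_option linter.style.haveILetI false

set_option autoImplicit false
open Cfsg

namespace Cfsg.Agent.S4477

open CfsgLib.CharTheory CfsgLib.RealChar CfsgLib.Correspondences
open scoped ComplexConjugate

variable {G : Type*} [Group G]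

theorem card_square_roots_mod (H : Type*) [CommGroup H] [Finite H] (hH : IsPGroup 2 H) (hnc : ¬ IsCyclic H) :
    4 ∣ Nat.card {a : H // a * a = 1} := by
  have hK : ∀ a : H, a ∈ (powMonoidHom 2 : H →* H).ker ↔ a * a = 1 := fun a => by
    rw [MonoidHom.mem_ker, powMonoidHom_apply, pow_two]
  rw [← Nat.card_congr (Equiv.subtypeEquivRight hK)]
  obtain ⟨r, hr⟩ := IsPGroup.iff_card.1 (hH.to_subgroup (powMonoidHom 2 : H →* H).ker)
  rcases Nat.lt_or_ge r 2 with h | h
  · exfalso
    apply hnc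
    refine CfsgLib.TwoGroups.isCyclic_of_uniqueOrderP_comm hH fun a b ha hb => ?_
    have ha' : a ∈ (powMonoidHom 2 : H →* H).ker := (hK a).2 (by rw [← pow_two, ← ha, pow_orderOf_eq_one])
    have hb' : b ∈ (powMonoidHom 2 : H →* H).ker := (hK b).2 (by rw [← pow_two, ← hb, pow_orderOf_eq_one])
    have hz : Subgroup.zpowers a = (powMonoidHom 2 : H →* H).ker := by
      refine Subgroup.eq_of_le_of_card_ge (Subgroup.zpowers_le.2 ha') ?_
      rw [Nat.card_zpowers, ha, hr]
      exact le_trans (Nat.pow_le_pow_right (by norm_num) (Nat.lt_succ_iff.1 h)) (by norm_num)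
    rw [hz]; exact hb'
  · exact hr ▸ (show 2 ^ 2 ∣ 2 ^ r from pow_dvd_pow 2 h)

theorem real_iff_linear {χ : IrrCharacter G} {μ : G →* ℂˣ} (hμ : (χ : G → ℂ) = fun g => (μ g : ℂ)) [Finite G] :
    (∀ g, ((χ : G → ℂ) g).im = 0) ↔ μ * μ = 1 := by
  have hn : ∀ g, Complex.normSq (μ g : ℂ) = 1 := fun g => by
    have h : (μ g : ℂ) ^ orderOf g = 1 := by
      rw [← Units.val_pow_eq_pow_val, ← map_pow, pow_orderOf_eq_one, map_one, Units.val_one]
    rw [Complex.normSq_eq_norm_sq, Complex.norm_eq_one_of_pow_eq_one h (orderOf_pos g).ne', one_pow]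
  simp only [hμ, DFunLike.ext_iff, MonoidHom.mul_apply, MonoidHom.one_apply, Units.ext_iff, Units.val_mul,
    Units.val_one]
  refine forall_congr' fun g => ?_
  rw [← Complex.conj_eq_iff_im]
  refine ⟨fun h => ?_, fun h => ?_⟩
  · have := hn g
    rw [← Complex.ofReal_inj, Complex.normSq_eq_conj_mul_self, h, Complex.ofReal_one] at this
    exact this
  · have := hn g
    rw [← Complex.ofReal_inj, Complex.normSq_eq_conj_mul_self, Complex.ofReal_one, ← h] at this
    exact mul_right_cancel₀ (Units.ne_zero _) this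

theorem card_real_linear [Finite G] (hG : IsPGroup 2 G) (hnc : ¬ IsCyclic (Abelianization G)) :
    4 ∣ Nat.card {χ : IrrCharacter G // (χ : G → ℂ) 1 = 1 ∧ ∀ g, ((χ : G → ℂ) g).im = 0} := by
  haveI : Finite (Abelianization G) := Quotient.finite _
  haveI : NeZero (Monoid.exponent (Abelianization G)) := ⟨Monoid.exponent_ne_zero_of_finite⟩
  haveI : HasEnoughRootsOfUnity ℂ (Monoid.exponent (Abelianization G)) := inferInstance
  obtain ⟨e⟩ := CommGroup.monoidHom_mulEquiv_of_hasEnoughRootsOfUnity (Abelianization G) ℂ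
  have hp : IsPGroup 2 (Abelianization G) := hG.of_surjective Abelianization.of QuotientGroup.mk_surjective
  have h := card_square_roots_mod (Abelianization G) hp hnc
  have h1 : Nat.card {χ : IrrCharacter G // (χ : G → ℂ) 1 = 1 ∧ ∀ g, ((χ : G → ℂ) g).im = 0} =
      Nat.card {μ : G →* ℂˣ // μ * μ = 1} := by
    rw [← Nat.card_congr (Equiv.subtypeSubtypeEquivSubtypeInter (fun χ : IrrCharacter G => (χ : G → ℂ) 1 = 1)
      (fun χ : IrrCharacter G => ∀ g, ((χ : G → ℂ) g).im = 0))]
    refine Nat.card_congr (linearEquivHom.subtypeEquiv fun χ => real_iff_linear ?_)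
    obtain ⟨μ, rfl⟩ := linearEquivHom.symm.surjective χ
    rw [Equiv.apply_symm_apply]
    rfl
  have h2 : Nat.card {μ : G →* ℂˣ // μ * μ = 1} = Nat.card {μ : Abelianization G →* ℂˣ // μ * μ = 1} :=
    Nat.card_congr (Abelianization.lift.subtypeEquiv fun μ =>
      ⟨fun h => MonoidHom.ext fun x => by
        obtain ⟨g, rfl⟩ := QuotientGroup.mk_surjective x
        exact DFunLike.congr_fun h g, fun h => MonoidHom.ext fun g => DFunLike.congr_fun h (Abelianization.of g)⟩)
  rw [h1, h2, Nat.card_congr (e.toEquiv.subtypeEquiv (q := fun a => a * a = 1) fun μ => by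
    rw [MulEquiv.toEquiv_eq_coe, MulEquiv.coe_toEquiv, ← map_mul, map_eq_one_iff e e.injective])]
  exact h

theorem isCyclic_of_abelianization [Finite G] (hG : IsPGroup 2 G) (hc : IsCyclic (Abelianization G)) :
    IsCyclic G := by
  obtain ⟨x, hx⟩ := hc.exists_generator
  obtain ⟨g, rfl⟩ := QuotientGroup.mk_surjective x
  refine isCyclic_iff_exists_zpowers_eq_top.2 ⟨g, frattini_nongenerating ?_⟩
  rw [eq_top_iff]
  intro y _
  obtain ⟨k, hk⟩ := Subgroup.mem_zpowers_iff.1 (hx (QuotientGroup.mk y))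
  have h1 : (g ^ k)⁻¹ * y ∈ commutator G := QuotientGroup.eq.1 hk
  rw [show y = g ^ k * ((g ^ k)⁻¹ * y) by group]
  exact Subgroup.mul_mem_sup (Subgroup.zpow_mem_zpowers g k)
    (CfsgLib.PGroups.commutator_le_frattini hG h1)

open scoped Classical in
theorem even_card_degree_two [Fintype G] [Fintype (IrrCharacter G)] {m : ℕ} (hG : IsPGroup 2 G)
    (hm : (commutator G).index = 2 ^ m) (h3 : 3 ≤ m) :
    2 ∣ (Finset.univ.filter fun χ : IrrCharacter G => (χ : G → ℂ) 1 = 2).card := by
  obtain ⟨a, ha⟩ := IsPGroup.iff_card.1 hG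
  have hdeg : ∀ χ : IrrCharacter G, ∃ j : ℕ, (χ : G → ℂ) 1 = ((2 ^ j : ℕ) : ℂ) := fun χ => by
    obtain ⟨d, -, hdvd, hd1⟩ := CfsgLib.CharTheory.IsIrrCharacter.exists_degree_dvd χ.2
    rw [ha] at hdvd
    obtain ⟨j, -, rfl⟩ := (Nat.dvd_prime_pow Nat.prime_two).1 hdvd
    exact ⟨j, hd1⟩
  choose j hj using hdeg
  have hsum : ∑ χ : IrrCharacter G, (2 ^ j χ) ^ 2 = Nat.card G := by
    have := sum_degree_sq (G := G)
    simp only [hj] at this
    exact_mod_cast this
  have h8 : (8 : ℕ) ∣ (commutator G).index := hm ▸ (show 2 ^ 3 ∣ 2 ^ m from pow_dvd_pow 2 h3)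
  have h8' : 8 ∣ ∑ χ : IrrCharacter G, (2 ^ j χ) ^ 2 := hsum ▸ h8.trans (Subgroup.index_dvd_card _)
  have hlin : (Finset.univ.filter fun χ : IrrCharacter G => j χ = 0).card = (commutator G).index := by
    rw [← card_linear, Nat.card_eq_fintype_card, Fintype.card_subtype]
    refine congrArg Finset.card (Finset.filter_congr fun χ _ => ?_)
    rw [hj, Nat.cast_eq_one, Nat.pow_eq_one]
    simp
  have htwo : (Finset.univ.filter fun χ : IrrCharacter G => (χ : G → ℂ) 1 = 2) =
      Finset.univ.filter fun χ : IrrCharacter G => j χ = 1 := Finset.filter_congr fun χ _ => by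
    rw [hj, show (2 : ℂ) = ((2 ^ 1 : ℕ) : ℂ) by norm_num, Nat.cast_inj,
      (Nat.pow_right_injective (le_refl 2)).eq_iff]
  rw [htwo]
  have h0 : ((∑ χ : IrrCharacter G, (2 ^ j χ) ^ 2 : ℕ) : ZMod 8) =
      ((Finset.univ.filter fun χ : IrrCharacter G => j χ = 0).card : ZMod 8) +
        4 * ((Finset.univ.filter fun χ : IrrCharacter G => j χ = 1).card : ZMod 8) := by
    push_cast
    rw [Finset.natCast_card_filter, Finset.natCast_card_filter, Finset.mul_sum, ← Finset.sum_add_distrib]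
    refine Finset.sum_congr rfl fun χ _ => ?_
    rcases hh : j χ with _ | _ | i
    · simp
    · simp; rfl
    · rw [← pow_mul, show (i + 1 + 1) * 2 = 3 + (2 * i + 1) by ring, pow_add,
        show (2 : ZMod 8) ^ 3 = 0 from rfl]
      simp
  rw [(ZMod.natCast_eq_zero_iff _ _).2 h8', hlin, (ZMod.natCast_eq_zero_iff _ _).2 h8, zero_add,
    show (4 : ZMod 8) = ((4 : ℕ) : ZMod 8) from rfl, ← Nat.cast_mul] at h0
  have := (ZMod.natCast_eq_zero_iff _ _).1 h0.symm
  omega

open scoped Classical in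
theorem main [Fintype G] (hG : IsPGroup 2 G) (ht : Nat.card {x : G // orderOf x = 2} % 4 = 1) {m : ℕ}
    (hm : (commutator G).index = 2 ^ m) (h3 : 3 ≤ m) (hnc : ¬ IsCyclic (Abelianization G)) : False := by
  haveI := Fintype.ofFinite (IrrCharacter G)
  obtain ⟨a, ha⟩ := IsPGroup.iff_card.1 hG
  have hdeg : ∀ χ : IrrCharacter G, ∃ j : ℕ, (χ : G → ℂ) 1 = ((2 ^ j : ℕ) : ℂ) := fun χ => by
    obtain ⟨d, -, hdvd, hd1⟩ := CfsgLib.CharTheory.IsIrrCharacter.exists_degree_dvd χ.2
    rw [ha] at hdvd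
    obtain ⟨j, -, rfl⟩ := (Nat.dvd_prime_pow Nat.prime_two).1 hdvd
    exact ⟨j, hd1⟩
  choose j hj using hdeg
  have he : ∀ χ : IrrCharacter G, ∃ e : ℤ, fsIndicator (χ : G → ℂ) = (e : ℂ) ∧
      ((∀ g, ((χ : G → ℂ) g).im = 0) → (j χ = 0 → e = 1) ∧ (e = 1 ∨ e = -1)) ∧
      (¬ (∀ g, ((χ : G → ℂ) g).im = 0) → e = 0) := fun χ => by
    by_cases hr : ∀ g, ((χ : G → ℂ) g).im = 0
    · have hne := (fsIndicator_irr_ne_zero_iff χ.2).2 hr
      rcases (fsIndicator_irr_cases χ.2).1 with e | e | e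
      · exact absurd e hne
      · exact ⟨1, by rw [e]; simp, fun _ => ⟨fun _ => rfl, Or.inl rfl⟩, fun h => absurd hr h⟩
      · refine ⟨-1, by rw [e]; simp, fun _ => ⟨fun h0 => ?_, Or.inr rfl⟩, fun h => absurd hr h⟩
        have h1 := fsIndicator_irr_eq_one_of_odd χ.2 (d := 1) (by rw [hj, h0, pow_zero]) odd_one hr
        rw [e] at h1; norm_num at h1
    · exact ⟨0, by rw [(fsIndicator_irr_cases χ.2).2.2 (by push Not at hr; exact hr)]; simp,
        fun h => absurd h hr, fun _ => rfl⟩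
  choose e he1 he2 he3 using he
  have hcount := card_sqrt_eq_sum (G := G) 1
  simp only [he1, hj, ← Int.cast_natCast (R := ℂ), ← Int.cast_mul, ← Int.cast_sum, Int.cast_inj] at hcount
  have hcard : (Finset.univ.filter fun u : G => u * u = 1).card = Nat.card {x : G // orderOf x = 2} + 1 := by
    rw [show (Finset.univ.filter fun u : G => u * u = 1) = insert 1 (Finset.univ.filter fun u : G => orderOf u = 2) from
      Finset.ext fun u => by
        simp only [Finset.mem_filter, Finset.mem_univ, true_and, Finset.mem_insert, ← pow_two, orderOf_eq_prime_iff]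
        rcases eq_or_ne u 1 with rfl | hu <;> simp [*],
      Finset.card_insert_of_notMem (by simp), Nat.card_eq_fintype_card, Fintype.card_subtype]
  rw [hcard] at hcount
  have h4 := congrArg (fun z : ℤ => (z : ZMod 4)) hcount
  push_cast at h4
  have ht' : (Nat.card {x : G // orderOf x = 2} : ZMod 4) = 1 := by
    rw [← Nat.cast_one, ZMod.natCast_eq_natCast_iff']
    exact ht
  have hlin : ∑ χ : IrrCharacter G, (if j χ = 0 ∧ (∀ g, ((χ : G → ℂ) g).im = 0) then (1 : ZMod 4) else 0) = 0 := by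
    rw [← Finset.natCast_card_filter, ← Fintype.card_subtype, ← Nat.card_eq_fintype_card,
      ZMod.natCast_eq_zero_iff,
      Nat.card_congr (Equiv.subtypeEquivRight (q := fun χ : IrrCharacter G =>
        (χ : G → ℂ) 1 = 1 ∧ ∀ g, ((χ : G → ℂ) g).im = 0) fun χ => by rw [hj, Nat.cast_eq_one, Nat.pow_eq_one]; simp)]
    exact card_real_linear hG hnc
  have h2all : ∑ χ : IrrCharacter G, (if j χ = 1 then (2 : ZMod 4) else 0) = 0 := by
    obtain ⟨k, hk⟩ := even_card_degree_two hG hm h3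
    have : (Finset.univ.filter fun χ : IrrCharacter G => (χ : G → ℂ) 1 = 2) =
        Finset.univ.filter fun χ : IrrCharacter G => j χ = 1 := Finset.filter_congr fun χ _ => by
      rw [hj, show (2 : ℂ) = ((2 ^ 1 : ℕ) : ℂ) by norm_num, Nat.cast_inj,
        (Nat.pow_right_injective (le_refl 2)).eq_iff]
    rw [this] at hk
    rw [← Finset.sum_filter, Finset.sum_const, hk, nsmul_eq_mul, Nat.cast_mul, mul_right_comm,
      show ((2 : ℕ) : ZMod 4) * 2 = 0 from rfl, zero_mul]
  have hpair : ∑ χ : IrrCharacter G, (if j χ = 1 ∧ ¬ (∀ g, ((χ : G → ℂ) g).im = 0) then (2 : ZMod 4) else 0) = 0 := by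
    rw [← Finset.sum_filter]
    refine Finset.sum_involution (fun χ _ => (⟨_, isIrrCharacter_conj χ.2⟩ : IrrCharacter G))
      (fun _ _ => rfl) (fun χ hχ _ he => ?_) (fun χ hχ => ?_) (fun χ _ => Subtype.ext (funext fun g => Complex.conj_conj _))
    · exact (Finset.mem_filter.1 hχ).2.2 fun g => Complex.conj_eq_iff_im.1
        (congrFun (congrArg (fun x : IrrCharacter G => (x : G → ℂ)) he) g)
    · obtain ⟨h1, h2⟩ := (Finset.mem_filter.1 hχ).2
      refine Finset.mem_filter.2 ⟨Finset.mem_univ _, ?_, fun h => h2 fun g => by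
        simpa using h g⟩
      have := hj (⟨_, isIrrCharacter_conj χ.2⟩ : IrrCharacter G)
      simp only [hj, h1, Complex.conj_natCast, Nat.cast_inj] at this
      exact (Nat.pow_right_injective (le_refl 2) this).symm
  have hzero : ∑ χ : IrrCharacter G, (e χ : ZMod 4) * (2 : ZMod 4) ^ j χ = 0 := by
    have h0 := congrArg₂ (· + ·) hlin (congrArg₂ (· - ·) h2all hpair)
    simp only [sub_self, add_zero, ← Finset.sum_sub_distrib, ← Finset.sum_add_distrib] at h0
    rw [← h0]
    refine Finset.sum_congr rfl fun χ _ => ?_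
    by_cases hr : ∀ g, ((χ : G → ℂ) g).im = 0
    · rcases hh : j χ with _ | _ | i
      · simp [hr, (he2 χ hr).1 hh]
      · rcases (he2 χ hr).2 with h | h <;> simp [hr, h]; rfl
      · rw [pow_succ, pow_succ, mul_assoc ((2 : ZMod 4) ^ i), show (2 : ZMod 4) * 2 = 0 from rfl]
        simp
    · simp [hr, he3 χ hr]
  rw [ht', hzero] at h4
  exact absurd h4 (by decide)

/-- Let G be a finite 2-group whose number of involutions is congruent to 1 modulo 4. Then G is cyclic or its commutator subgroup has index 4. -/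
theorem result {G : Type*} [Group G] [Finite G] (hG : IsPGroup 2 G) (ht : Nat.card {x : G // orderOf x = 2} % 4 = 1) : IsCyclic G ∨ (commutator G).index = 4 := by
  haveI := Fintype.ofFinite G
  by_contra h
  rw [not_or] at h
  obtain ⟨m, hm⟩ : ∃ m, (commutator G).index = 2 ^ m := by
    obtain ⟨a, ha⟩ := IsPGroup.iff_card.1 hG
    obtain ⟨m, -, hm⟩ := (Nat.dvd_prime_pow Nat.prime_two).1 (ha ▸ (commutator G).index_dvd_card)
    exact ⟨m, hm⟩
  have hnc : ¬ IsCyclic (Abelianization G) := fun hc => h.1 (isCyclic_of_abelianization hG hc)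
  have hcard : Nat.card (Abelianization G) = 2 ^ m := hm ▸ (Subgroup.index_eq_card _).symm
  match m with
  | 0 => exact hnc (@isCyclic_of_subsingleton _ _ (Nat.card_eq_one_iff_unique.1 hcard).1)
  | 1 => exact hnc (isCyclic_of_prime_card (p := 2) hcard)
  | 2 => exact h.2 hm
  | k + 3 => exact main hG ht hm (by omega) hnc

end Cfsg.Agent.S4477
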