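import Cfsg.Statements.S4478
import Cfsg.Agent.Lib.CharTheory.FullDefect
import Cfsg.Agent.Lib.Correspondences.RealIrr
import Cfsg.Agent.Lib.Blocks.Defect

set_option autoImplicit false
open Cfsg

namespace Cfsg.Agent.S4478

/-- Let G be a finite group of even order and χ an irreducible character of G whose degree x is divisible by the full power of 2 dividing the order of G and, for every odd prime p such that G has an element of order 2p, by the full power of p dividing the order of G. Then all involutions of G are conjugate, the centralizer of every involution has order exactly x with x coprime to its index, and the Frobenius–Schur indicator of χ equals 1. -/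
theorem result {G : Type*} [Group G] [Fintype G] (heven : Even (Nat.card G)) (χ : Cfsg.IrrCharacter G) (h2 : 2 ^ (Nat.card G).factorization 2 ∣ Cfsg.charDegree (χ : G → ℂ)) (hp : ∀ p : ℕ, p.Prime → p ≠ 2 → (∃ g : G, orderOf g = 2 * p) → p ^ (Nat.card G).factorization p ∣ Cfsg.charDegree (χ : G → ℂ)) : (∀ s t : G, orderOf s = 2 → orderOf t = 2 → IsConj s t) ∧ (∀ s : G, orderOf s = 2 → Nat.card (Subgroup.centralizer ({s} : Set G)) = Cfsg.charDegree (χ : G → ℂ) ∧ (Nat.card (Subgroup.centralizer ({s} : Set G))).Coprime (Subgroup.centralizer ({s} : Set G)).index) ∧ (Nat.card G : ℂ)⁻¹ * ∑ g : G, (χ : G → ℂ) (g * g) = 1 := by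
  classical
  set c : G → ℂ := (χ : G → ℂ) with hc
  set x := Cfsg.charDegree c with hx
  have hx1 : c 1 = (x : ℂ) := (CfsgLib.Blocks.charDegree_cast χ).symm
  have hG := (Nat.card_pos (α := G)).ne'
  have hfull : ∀ q : ℕ, q.Prime → (q = 2 ∨ ∃ g : G, orderOf g = 2 * q) →
      q ^ (Nat.card G).factorization q ∣ x := by
    intro q hq h
    by_cases h2q : q = 2
    · subst h2q; exact h2
    · exact hp q hq h2q (h.resolve_left h2q)
  have hvan : ∀ q : ℕ, q.Prime → (q = 2 ∨ ∃ g : G, orderOf g = 2 * q) → ∀ g : G, q ∣ orderOf g →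
      c g = 0 := fun q hq h g hg =>
    CfsgLib.CharTheory.IsIrrCharacter.eq_zero_of_fullDegree χ.2 hq
      (Nat.pow_succ_factorization_not_dvd hG hq) hx1 (hfull q hq h) hg
  have hinv : ∀ t : G, orderOf t = 2 → Nat.card (Subgroup.centralizer ({t} : Set G)) ∣ x ∧
      ∀ q : ℕ, q.Prime → q ∣ Nat.card (Subgroup.centralizer ({t} : Set G)) →
        q ^ (Nat.card G).factorization q ∣ x := by
    intro t ht
    have hπ : ∀ q : ℕ, q.Prime → q ∣ Nat.card (Subgroup.centralizer ({t} : Set G)) →
        q ^ (Nat.card G).factorization q ∣ x := by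
      intro q hq hd
      have : Fact q.Prime := ⟨hq⟩
      refine hfull q hq ?_
      by_cases h2q : q = 2
      · exact Or.inl h2q
      obtain ⟨u, hu⟩ := exists_prime_orderOf_dvd_card' q hd
      refine Or.inr ⟨t * (u : G), ?_⟩
      have hcomm : Commute t (u : G) :=
        (Subgroup.mem_centralizer_singleton_iff.1 u.2).symm
      rw [hcomm.orderOf_mul_eq_mul_orderOf_of_coprime (by
        rw [ht, Subgroup.orderOf_coe, hu]
        exact (Nat.coprime_primes Nat.prime_two hq).2 (Ne.symm h2q)), ht, Subgroup.orderOf_coe, hu]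
    refine ⟨?_, hπ⟩
    have hx0 : x ≠ 0 := fun h => CfsgLib.CharTheory.apply_one_ne_zero_of_isIrr χ.2
      (show c 1 = 0 by rw [hx1, h, Nat.cast_zero])
    rw [← Nat.factorization_le_iff_dvd Nat.card_pos.ne' hx0]
    intro q
    by_cases hq : q.Prime
    · by_cases hd : q ∣ Nat.card (Subgroup.centralizer ({t} : Set G))
      · exact le_trans ((Nat.factorization_le_iff_dvd Nat.card_pos.ne' hG).2
          (Subgroup.card_subgroup_dvd_card _) q) ((hq.pow_dvd_iff_le_factorization hx0).1 (hπ q hq hd))
      · rw [Nat.factorization_eq_zero_of_not_dvd hd]; exact Nat.zero_le _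
    · rw [Nat.factorization_eq_zero_of_not_prime _ hq]; exact Nat.zero_le _
  set I := Finset.univ.filter fun g : G => orderOf g = 2 with hI
  have hnontriv : ∑ g, c g = 0 := by
    have hne : c ≠ fun _ => 1 := by
      intro h
      have h1 := hfull 2 Nat.prime_two (Or.inl rfl)
      have hx' : x = 1 := by
        have h3 : (x : ℂ) = 1 := by rw [← hx1, h]
        exact_mod_cast h3
      rw [hx', Nat.dvd_one, pow_eq_one_iff] at h1
      rcases h1 with h1 | h1
      · exact absurd h1 (by decide)
      · exact (Nat.Prime.factorization_pos_of_dvd Nat.prime_two hG (even_iff_two_dvd.1 heven)).ne' h1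
    have h := CfsgLib.CharTheory.classInner_eq_zero_of_ne χ.2 CfsgLib.CharTheory.isIrrCharacter_one hne
    rw [Cfsg.classInner, mul_eq_zero] at h
    have := h.resolve_left (inv_ne_zero (Nat.cast_ne_zero.2 hG))
    simpa using this
  have hsum : ∑ g : G, c (g * g) = (x : ℂ) * I.card := by
    have hsplit : ∀ g : G, c (g * g) =
        (if 2 ∣ orderOf g then 0 else c (g * g)) + if orderOf g = 2 then (x : ℂ) else 0 := by
      intro g
      by_cases he : 2 ∣ orderOf g
      · rw [if_pos he, zero_add]
        by_cases h2g : orderOf g = 2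
        · rw [if_pos h2g, ← hx1, ← pow_two, ← h2g, pow_orderOf_eq_one]
        · rw [if_neg h2g]
          obtain ⟨m, hm⟩ := he
          have hm1 : m ≠ 1 := fun h => h2g (by rw [hm, h])
          have hsq : orderOf (g * g) = m := by
            rw [← pow_two, orderOf_pow_of_dvd two_ne_zero ⟨m, hm⟩, hm, Nat.mul_div_cancel_left _ two_pos]
          obtain ⟨q, hq, hqm⟩ := Nat.exists_prime_and_dvd hm1
          refine hvan q hq (Or.inr ⟨g ^ (m / q), ?_⟩) _ (hsq ▸ hqm)
          have hm0 : 0 < m := by
            rcases Nat.eq_zero_or_pos m with h | h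
            · exact absurd (orderOf_pos g) (by rw [hm, h]; simp)
            · exact h
          rw [orderOf_pow_of_dvd (Nat.div_pos (Nat.le_of_dvd hm0 hqm) hq.pos).ne'
            ((Nat.div_dvd_of_dvd hqm).trans (Dvd.intro_left 2 hm.symm)), hm,
            Nat.mul_div_assoc 2 (Nat.div_dvd_of_dvd hqm), Nat.div_div_self hqm hm0.ne']
      · rw [if_neg he, if_neg (fun h => he (by rw [h])), add_zero]
    have hI' : ∑ g : G, (if orderOf g = 2 then (x : ℂ) else 0) = (x : ℂ) * I.card := by
      simp [hI, Finset.sum_ite, mul_comm]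
    rw [Finset.sum_congr rfl fun g _ => hsplit g, Finset.sum_add_distrib, hI']
    suffices h : ∑ g : G, (if 2 ∣ orderOf g then 0 else c (g * g)) = 0 by rw [h, zero_add]
    refine Eq.trans ?_ hnontriv
    rw [← Finset.sum_filter_of_ne (p := fun g : G => ¬ 2 ∣ orderOf g) (f := c) fun g _ hne h =>
      hne (hvan 2 Nat.prime_two (Or.inl rfl) g h)]
    rw [Finset.sum_ite, Finset.sum_const_zero, zero_add]
    refine Finset.sum_bij (fun g _ => g * g) (fun g hg => ?_) (fun a ha b hb hab => ?_) (fun g hg => ?_)
      fun g _ => rfl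
    · have := (Finset.mem_filter.1 hg).2
      refine Finset.mem_filter.2 ⟨Finset.mem_univ _, fun h => this (h.trans ?_)⟩
      rw [← pow_two]; exact orderOf_pow_dvd 2
    · have ha' := (Finset.mem_filter.1 ha).2
      have hb' := (Finset.mem_filter.1 hb).2
      have key : ∀ u : G, ¬ 2 ∣ orderOf u → ∀ k : ℕ, orderOf u ∣ k → (u * u) ^ ((k + 1) / 2) = u ^ (k + 1) ∨ Even k := by
        intro u _ k _
        rcases Nat.even_or_odd k with h | h
        · exact Or.inr h
        · refine Or.inl ?_
          rw [← pow_two, ← pow_mul, Nat.two_mul_div_two_of_even h.add_one]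
      have hk : ¬ Even (orderOf a * orderOf b) := by
        rw [Nat.even_mul, even_iff_two_dvd, even_iff_two_dvd]; tauto
      have e1 := (key a ha' _ (dvd_mul_right _ (orderOf b))).resolve_right hk
      have e2 := (key b hb' _ (dvd_mul_left _ (orderOf a))).resolve_right hk
      rw [hab, e2, pow_succ, pow_succ, orderOf_dvd_iff_pow_eq_one.1 (dvd_mul_left _ _),
        orderOf_dvd_iff_pow_eq_one.1 (dvd_mul_right _ _), one_mul, one_mul] at e1
      exact e1.symm
    · have hg' := (Finset.mem_filter.1 hg).2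
      have hodd : Odd (orderOf g) := Nat.odd_iff.2 (Nat.two_dvd_ne_zero.1 hg')
      refine ⟨g ^ ((orderOf g + 1) / 2), Finset.mem_filter.2 ⟨Finset.mem_univ _, fun h =>
        hg' (h.trans (orderOf_pow_dvd _))⟩, ?_⟩
      rw [← pow_add, ← two_mul, Nat.two_mul_div_two_of_even hodd.add_one, pow_succ,
        pow_orderOf_eq_one, one_mul]
  have hν : (Nat.card G : ℂ)⁻¹ * ∑ g : G, c (g * g) = 1 ∧ x * I.card = Nat.card G := by
    have hpos : 0 < x * I.card := by
      refine Nat.mul_pos (Nat.pos_of_ne_zero fun h => CfsgLib.CharTheory.apply_one_ne_zero_of_isIrr χ.2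
        (show c 1 = 0 by rw [hx1, h, Nat.cast_zero])) (Finset.card_pos.2 ?_)
      have : Fact (Nat.Prime 2) := ⟨Nat.prime_two⟩
      obtain ⟨t, ht⟩ := exists_prime_orderOf_dvd_card' 2 (even_iff_two_dvd.1 heven)
      exact ⟨t, Finset.mem_filter.2 ⟨Finset.mem_univ _, ht⟩⟩
    have hval : (Nat.card G : ℂ)⁻¹ * ∑ g : G, c (g * g) =
        (((x * I.card : ℕ) : ℝ) / (Nat.card G : ℝ) : ℝ) := by
      rw [hsum]; push_cast; ring
    have hv : (0 : ℝ) < ((x * I.card : ℕ) : ℝ) / (Nat.card G : ℝ) :=
      div_pos (by exact_mod_cast hpos) (by exact_mod_cast Nat.card_pos)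
    rcases (CfsgLib.Correspondences.fsIndicator_irr_cases χ.2).1 with h | h | h
    all_goals
      change (Nat.card G : ℂ)⁻¹ * ∑ g : G, c (g * g) = _ at h
      rw [hval] at h
    · have : ((x * I.card : ℕ) : ℝ) / (Nat.card G : ℝ) = 0 := by exact_mod_cast h
      linarith
    · refine ⟨by rw [hval, h], ?_⟩
      have : ((x * I.card : ℕ) : ℝ) / (Nat.card G : ℝ) = 1 := by exact_mod_cast h
      rw [div_eq_one_iff_eq (by exact_mod_cast hG)] at this
      exact_mod_cast this
    · have : ((x * I.card : ℕ) : ℝ) / (Nat.card G : ℝ) = -1 := by exact_mod_cast h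
      linarith
  have hclass : ∀ t : G, orderOf t = 2 →
      Nat.card (Subgroup.centralizer ({t} : Set G)) = x ∧
        Finset.univ.filter (fun g => IsConj t g) = I := by
    intro t ht
    have hsub : Finset.univ.filter (fun g => IsConj t g) ⊆ I := by
      intro g hg
      obtain ⟨a, ha⟩ := isConj_iff.1 (Finset.mem_filter.1 hg).2
      refine Finset.mem_filter.2 ⟨Finset.mem_univ _, ?_⟩
      rw [← ha, ← MulAut.conj_apply, MulEquiv.orderOf_eq, ht]
    have h1 := Finset.card_le_card hsub
    have hcls : (Finset.univ.filter (fun g => IsConj t g)).card =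
        (Subgroup.centralizer ({t} : Set G)).index := CfsgLib.Blocks.card_filter_isConj t
    rw [hcls] at h1
    have h2 := (Subgroup.centralizer ({t} : Set G)).card_mul_index
    have hx0 : 0 < x := Nat.pos_of_ne_zero fun h =>
      CfsgLib.CharTheory.apply_one_ne_zero_of_isIrr χ.2 (show c 1 = 0 by rw [hx1, h, Nat.cast_zero])
    have h3 := Nat.le_of_dvd hx0 (hinv t ht).1
    have hipos : 0 < (Subgroup.centralizer ({t} : Set G)).index :=
      Nat.pos_of_ne_zero Subgroup.index_ne_zero_of_finite
    have h4 : x * (Subgroup.centralizer ({t} : Set G)).index ≤ x * I.card := Nat.mul_le_mul_left x h1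
    have h5 : x * (Subgroup.centralizer ({t} : Set G)).index ≤
        Nat.card (Subgroup.centralizer ({t} : Set G)) * (Subgroup.centralizer ({t} : Set G)).index := by
      rw [h2, ← hν.2]; exact h4
    have h6 : Nat.card (Subgroup.centralizer ({t} : Set G)) = x :=
      le_antisymm h3 (Nat.le_of_mul_le_mul_right h5 hipos)
    refine ⟨h6, Finset.eq_of_subset_of_card_le hsub ?_⟩
    rw [hcls]
    rw [h6, ← hν.2] at h2
    exact (Nat.eq_of_mul_eq_mul_left hx0 h2).ge
  refine ⟨fun s t hs ht => ?_, fun s hs => ⟨(hclass s hs).1, ?_⟩, hν.1⟩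
  · have : t ∈ Finset.univ.filter (fun g => IsConj s g) := by
      rw [(hclass s hs).2]; exact Finset.mem_filter.2 ⟨Finset.mem_univ _, ht⟩
    exact (Finset.mem_filter.1 this).2
  · refine Nat.coprime_of_dvd fun q hq hd hd' => ?_
    have h1 := (hinv s hs).2 q hq hd
    rw [← (hclass s hs).1] at h1
    have h2 : q ^ ((Nat.card G).factorization q + 1) ∣ Nat.card G := by
      rw [pow_succ]
      exact (mul_dvd_mul h1 hd').trans (Subgroup.centralizer ({s} : Set G)).card_mul_index.dvd
    exact Nat.pow_succ_factorization_not_dvd hG hq h2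

end Cfsg.Agent.S4478
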