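import Cfsg.Statements.S4479
import Cfsg.Agent.Lib.CharDegreesTheory.KleinDegrees

set_option autoImplicit false
open Cfsg

namespace Cfsg.Agent.S4479

/-- An order formula from the principal 2-block. Let G be a finite group of order 4·g₀ with g₀ odd having no normal 2-complement (no normal subgroup of order g₀); let P be a Sylow 2-subgroup, J an involution of P, and fix a maximal ideal M of the algebraic integers containing 2. Suppose the principal 2-block consists of the principal character and three further distinct characters χ₁, χ₂, χ₃ of degrees x₁, x₂, x₃, with χ_i(J) = ε_i = ±1. Then, writing c(J) and c(P) for the orders of the centralizers of J and of P, the order of G equals 8·α·c(J)³/c(P)² with α = x₁x₂x₃ / ((x₁ + ε₁)(x₂ + ε₂)(x₃ + ε₃)). -/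
theorem result {G : Type*} [Group G] [Finite G] (M : Ideal Cfsg.AlgInt) (hM : Cfsg.IsPModular 2 M) (g₀ : ℕ) (hg₀ : Odd g₀) (hG : Nat.card G = 4 * g₀) (hnc : ¬ ∃ N : Subgroup G, N.Normal ∧ Nat.card N = g₀) (P : Sylow 2 G) (J : G) (hJ : J ∈ (P : Subgroup G)) (hJ2 : orderOf J = 2) (χ₁ χ₂ χ₃ : Cfsg.IrrCharacter G) (ε₁ ε₂ ε₃ : ℤ) (hB : Cfsg.principalBlock M G = {χ : Cfsg.IrrCharacter G | (χ : G → ℂ) = (fun _ => 1) ∨ χ = χ₁ ∨ χ = χ₂ ∨ χ = χ₃}) (hdist : (χ₁ : G → ℂ) ≠ (fun _ => 1) ∧ (χ₂ : G → ℂ) ≠ (fun _ => 1) ∧ (χ₃ : G → ℂ) ≠ (fun _ => 1) ∧ χ₁ ≠ χ₂ ∧ χ₁ ≠ χ₃ ∧ χ₂ ≠ χ₃) (hε : (ε₁ = 1 ∨ ε₁ = -1) ∧ (ε₂ = 1 ∨ ε₂ = -1) ∧ (ε₃ = 1 ∨ ε₃ = -1)) (hval : (χ₁ : G → ℂ) J = ε₁ ∧ (χ₂ : G → ℂ) J = ε₂ ∧ (χ₃ : G → ℂ) J = ε₃) : (Nat.card G : ℚ) = 8 * (((Cfsg.charDegree (χ₁ : G → ℂ) : ℚ) * Cfsg.charDegree (χ₂ : G → ℂ) * Cfsg.charDegree (χ₃ : G → ℂ)) / ((Cfsg.charDegree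 (χ₁ : G → ℂ) + ε₁) * (Cfsg.charDegree (χ₂ : G → ℂ) + ε₂) * (Cfsg.charDegree (χ₃ : G → ℂ) + ε₃))) * (Nat.card (Subgroup.centralizer ({J} : Set G)) : ℚ) ^ 3 / (Nat.card (Subgroup.centralizer ((P : Subgroup G) : Set G)) : ℚ) ^ 2 := by
  obtain ⟨hP, hconj⟩ := CfsgLib.CharDegreesTheory.klein_setting hg₀ hG hnc P
  obtain ⟨h1, h2⟩ := CfsgLib.CharDegreesTheory.degree_equations hM P hP hJ2 hJ
    (fun z hz => hconj J z hJ2 hz) χ₁ χ₂ χ₃ hB hdist hval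
  have hg : 0 < Nat.card G := Nat.card_pos
  have hcP : 0 < Nat.card (Subgroup.centralizer ((P : Subgroup G) : Set G)) := Nat.card_pos
  have hcJ : 0 < Nat.card (Subgroup.centralizer ({J} : Set G)) := Nat.card_pos
  obtain ⟨-, hx1, -⟩ := CfsgLib.BrauerCharacters.charDegree_spec χ₁
  obtain ⟨-, hx2, -⟩ := CfsgLib.BrauerCharacters.charDegree_spec χ₂
  obtain ⟨-, hx3, -⟩ := CfsgLib.BrauerCharacters.charDegree_spec χ₃
  set x₁ := Cfsg.charDegree (χ₁ : G → ℂ)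
  set x₂ := Cfsg.charDegree (χ₂ : G → ℂ)
  set x₃ := Cfsg.charDegree (χ₃ : G → ℂ)
  have hpi : ((x₁ : ℤ) + ε₁) * ((x₂ : ℤ) + ε₂) * ((x₃ : ℤ) + ε₃) = (x₁ : ℤ) * x₂ * x₃ +
      ε₁ * x₂ * x₃ + ε₂ * x₁ * x₃ + ε₃ * x₁ * x₂ := by
    obtain ⟨e1, e2, e3⟩ := hε
    rcases e1 with rfl | rfl <;> rcases e2 with rfl | rfl <;> rcases e3 with rfl | rfl <;>
      first | linear_combination h1 | linear_combination (-1 : ℤ) * h1
  rw [← hpi] at h2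
  have hne : ((x₁ : ℚ) + ε₁) * ((x₂ : ℚ) + ε₂) * ((x₃ : ℚ) + ε₃) ≠ 0 := by
    intro h
    have h' : ((x₁ : ℤ) + ε₁) * ((x₂ : ℤ) + ε₂) * ((x₃ : ℤ) + ε₃) = 0 := by
      exact_mod_cast h
    rw [h', mul_zero, zero_mul] at h2
    have : (0 : ℤ) < 8 * (Nat.card (Subgroup.centralizer ({J} : Set G)) : ℤ) ^ 3 *
        ((x₁ : ℤ) * x₂ * x₃) := by positivity
    omega
  have hcP0 : (Nat.card (Subgroup.centralizer ((P : Subgroup G) : Set G)) : ℚ) ≠ 0 := by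
    exact_mod_cast hcP.ne'
  have h2' := congrArg (Int.cast : ℤ → ℚ) h2
  push_cast at h2'
  rw [mul_div_assoc', div_mul_eq_mul_div, eq_div_iff (pow_ne_zero _ hcP0), eq_div_iff hne]
  linear_combination h2'

end Cfsg.Agent.S4479
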