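import Cfsg.Statements.S4480
import Cfsg.Agent.Lib.CharDegreesTheory.KleinDegrees

set_option autoImplicit false
open Cfsg

namespace Cfsg.Agent.S4480

/-- Same setting as the Klein-four order formula: G of order 4·g₀ (g₀ odd) with no normal 2-complement, P a Sylow 2-subgroup, J an involution of P, M over 2, principal 2-block {1, χ₁, χ₂, χ₃} with χ_i(J) = ε_i = ±1. Suppose ε₁ε₂ε₃ = −1 and ε₃ = −1, and put q = x₃ = χ₃(1). Then there is a natural number m with 4·c(J) = m·c(P)·(q + 1), and the order of G equals (m³·c(P)/4)·(q³ − q)/2, that is 8·#G = m³·c(P)·(q³ − q). -/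
theorem result {G : Type*} [Group G] [Finite G] (M : Ideal Cfsg.AlgInt) (hM : Cfsg.IsPModular 2 M) (g₀ : ℕ) (hg₀ : Odd g₀) (hG : Nat.card G = 4 * g₀) (hnc : ¬ ∃ N : Subgroup G, N.Normal ∧ Nat.card N = g₀) (P : Sylow 2 G) (J : G) (hJ : J ∈ (P : Subgroup G)) (hJ2 : orderOf J = 2) (χ₁ χ₂ χ₃ : Cfsg.IrrCharacter G) (ε₁ ε₂ ε₃ : ℤ) (hB : Cfsg.principalBlock M G = {χ : Cfsg.IrrCharacter G | (χ : G → ℂ) = (fun _ => 1) ∨ χ = χ₁ ∨ χ = χ₂ ∨ χ = χ₃}) (hdist : (χ₁ : G → ℂ) ≠ (fun _ => 1) ∧ (χ₂ : G → ℂ) ≠ (fun _ => 1) ∧ (χ₃ : G → ℂ) ≠ (fun _ => 1) ∧ χ₁ ≠ χ₂ ∧ χ₁ ≠ χ₃ ∧ χ₂ ≠ χ₃) (hε : (ε₁ = 1 ∨ ε₁ = -1) ∧ (ε₂ = 1 ∨ ε₂ = -1) ∧ (ε₃ = 1 ∨ ε₃ = -1)) (hval : (χ₁ : G → ℂ) J = ε₁ ∧ (χ₂ : G → ℂ) J = ε₂ ∧ (χ₃ : G → ℂ) J = ε₃) (hprod : ε₁ * ε₂ * ε₃ = -1) (hε₃ : ε₃ = -1) : ∃ m : ℕ, 4 * Nat.card (Subgroup.centralizer ({J} : Set G)) = m * Nat.card (Subgroup.centralizer ((P : Subgroup G) : Set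 G)) * (Cfsg.charDegree (χ₃ : G → ℂ) + 1) ∧ 8 * Nat.card G = m ^ 3 * Nat.card (Subgroup.centralizer ((P : Subgroup G) : Set G)) * (Cfsg.charDegree (χ₃ : G → ℂ) ^ 3 - Cfsg.charDegree (χ₃ : G → ℂ)) := by
  obtain ⟨hP, hconj'⟩ := CfsgLib.CharDegreesTheory.klein_setting hg₀ hG hnc P
  have hconj : ∀ z : G, orderOf z = 2 → IsConj J z := fun z hz => hconj' J z hJ2 hz
  obtain ⟨h1, h2⟩ := CfsgLib.CharDegreesTheory.degree_equations hM P hP hJ2 hJ hconj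
    χ₁ χ₂ χ₃ hB hdist hval
  obtain ⟨-, hx1, -⟩ := CfsgLib.BrauerCharacters.charDegree_spec χ₁
  obtain ⟨-, hx2, -⟩ := CfsgLib.BrauerCharacters.charDegree_spec χ₂
  obtain ⟨-, hx3, -⟩ := CfsgLib.BrauerCharacters.charDegree_spec χ₃
  obtain ⟨e1, e2, e3⟩ : ε₁ = 1 ∧ ε₂ = 1 ∧ ε₃ = -1 := by
    obtain ⟨e1, e2, -⟩ := hε
    subst hε₃
    rcases e1 with rfl | rfl <;> rcases e2 with rfl | rfl <;>
      first
      | exact ⟨rfl, rfl, rfl⟩
      | (exfalso; omega)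
  have hxx := CfsgLib.CharDegreesTheory.degree_eq_of_signs hM P hP hJ2 hJ hconj χ₁ χ₂ χ₃ hB hdist
    hval e1 e2 e3
  subst e1 e2 e3
  rw [← hxx] at h1 h2
  set x := Cfsg.charDegree (χ₁ : G → ℂ)
  set q := Cfsg.charDegree (χ₃ : G → ℂ)
  have hq : q = 2 * x + 1 := by omega
  rw [hq] at h2 ⊢
  -- the centralizer of `J` is a multiple of that of `P`
  obtain ⟨r, hr⟩ : ∃ r, Nat.card (Subgroup.centralizer ({J} : Set G)) =
      r * Nat.card (Subgroup.centralizer ((P : Subgroup G) : Set G)) := by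
    obtain ⟨a, ha, ha1, haJ⟩ : ∃ a, a ∈ (P : Subgroup G) ∧ a ≠ 1 ∧ a ≠ J := by
      obtain ⟨a, b, ha, hb, ha1, hb1, hab⟩ := CfsgLib.Involutions.klein_exists_pair hP
      by_cases h : a = J
      · exact ⟨b, hb, hb1, fun h' => hab (h.trans h'.symm)⟩
      · exact ⟨a, ha, ha1, h⟩
    have hc : Commute J a := congrArg Subtype.val
      ((IsKleinFour.isMulCommutative (G := ↥(P : Subgroup G))).is_comm.comm ⟨J, hJ⟩ ⟨a, ha⟩)
    exact ⟨_, (CfsgLib.CharDegreesTheory.card_inverted_mul P hP hJ2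
      ((CfsgLib.Involutions.eq_one_or_two_of_klein hP ha).resolve_left ha1) hc
      (Ne.symm haJ)).symm⟩
  have hjc := (Subgroup.centralizer ({J} : Set G)).card_mul_index
  set j := (Subgroup.centralizer ({J} : Set G)).index
  set cP := Nat.card (Subgroup.centralizer ((P : Subgroup G) : Set G)) with hcP
  have hcP0 : cP ≠ 0 := Nat.card_pos.ne'
  have hr0 : r ≠ 0 := fun h => by
    have : 0 < Nat.card (Subgroup.centralizer ({J} : Set G)) := Nat.card_pos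
    rw [hr, h, zero_mul] at this
    omega
  rw [hr] at hjc
  rw [hr, ← hjc]
  rw [hr, ← hjc] at h2
  have key : j * (x + 1) ^ 2 = (2 * r) ^ 2 * (x * (2 * x + 1)) := by
    have hne : (2 * (x : ℤ)) * (r : ℤ) * (cP : ℤ) ^ 3 ≠ 0 := by
      refine mul_ne_zero (mul_ne_zero (mul_ne_zero two_ne_zero ?_) ?_) (pow_ne_zero _ ?_)
      · exact_mod_cast hx1.ne'
      · exact_mod_cast hr0
      · exact_mod_cast hcP0
    zify
    refine mul_left_cancel₀ hne ?_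
    push_cast at h2
    linear_combination h2
  have hcop : Nat.Coprime (x + 1) (x * (2 * x + 1)) := by
    refine Nat.Coprime.mul_right ?_ ?_
    · rw [Nat.coprime_comm]; simp
    · rw [show 2 * x + 1 = x + (x + 1) by ring, Nat.coprime_add_self_right, Nat.coprime_comm]
      simp
  have hd : (x + 1) ^ 2 ∣ (2 * r) ^ 2 :=
    (hcop.pow_left 2).dvd_of_dvd_mul_right ⟨j, by rw [← key]; ring⟩
  obtain ⟨m, hm⟩ := (Nat.pow_dvd_pow_iff two_ne_zero).1 hd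
  refine ⟨m, ?_, ?_⟩
  · linear_combination (2 * cP) * hm
  · have hj : j = m ^ 2 * (x * (2 * x + 1)) := by
      refine Nat.eq_of_mul_eq_mul_right (pow_pos (Nat.succ_pos x) 2) (?_ : j * (x + 1) ^ 2 = _)
      rw [key, hm, Nat.succ_eq_add_one]; ring
    have hsub : (2 * x + 1) ^ 3 - (2 * x + 1) = 4 * (2 * x + 1) * x * (x + 1) := by
      apply Nat.sub_eq_of_eq_add
      ring
    rw [hsub, hj]
    linear_combination (4 * cP * m ^ 2 * (x * (2 * x + 1))) * hm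

end Cfsg.Agent.S4480
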