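import Cfsg.Statements.S4483
import Cfsg.Agent.Lib.CharDegreesTheory.RealBlocks

set_option autoImplicit false
open Cfsg

namespace Cfsg.Agent.S4483

/-- Let G be a finite group of order 2^n·g₀ with g₀ odd, and M a maximal ideal of the algebraic integers containing 2. Every real-valued irreducible character of G of odd degree lies in the principal 2-block; consequently G has at most 2^(2n) real-valued irreducible characters of odd degree. -/
theorem result {G : Type*} [Group G] [Finite G] (M : Ideal Cfsg.AlgInt) (hM : Cfsg.IsPModular 2 M) : (∀ χ : Cfsg.IrrCharacter G, (∀ g : G, ((χ : G → ℂ) g).im = 0) → Odd (Cfsg.charDegree (χ : G → ℂ)) → χ ∈ Cfsg.principalBlock M G) ∧ Nat.card {χ : Cfsg.IrrCharacter G // (∀ g : G, ((χ : G → ℂ) g).im = 0) ∧ Odd (Cfsg.charDegree (χ : G → ℂ))} ≤ 2 ^ (2 * (Nat.card G).factorization 2) := by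
  classical
  have := Fintype.ofFinite G
  have := hM.2.1.isPrime
  have : Fact (Nat.Prime 2) := ⟨Nat.prime_two⟩
  have hmem : ∀ χ : Cfsg.IrrCharacter G, (∀ g : G, ((χ : G → ℂ) g).im = 0) →
      Odd (Cfsg.charDegree (χ : G → ℂ)) → χ ∈ Cfsg.principalBlock M G :=
    fun χ h1 h2 => CfsgLib.CharDegreesTheory.mem_principalBlock_of_real_odd hM h1 h2
  have hB : Cfsg.IsPBlock M (Cfsg.principalBlock M G) := ⟨CfsgLib.CharTheory.trivIrr G, rfl⟩
  refine ⟨hmem, le_trans ?_ ((CfsgLib.BrauerCharacters.card_block_le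
    (CfsgLib.BrauerCharacters.weakOrth hM hB) hM hB).trans
    (Nat.pow_le_pow_right two_pos (Nat.mul_le_mul_left 2 (Nat.sub_le _ _))))⟩
  exact Nat.card_le_card_of_injective
    (fun χ => (⟨χ.1, hmem χ.1 χ.2.1 χ.2.2⟩ : Cfsg.principalBlock M G))
    fun a b h => Subtype.ext (congrArg (fun t : Cfsg.principalBlock M G => t.1) h)

end Cfsg.Agent.S4483
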