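import Cfsg.Statements.S4484
import Cfsg.Agent.Lib.CharDegreesTheory.SixtyDegree
import Cfsg.Agent.Lib.CharDegreesTheory.BlockDegrees
import Cfsg.Agent.Lib.Blocks.Orth
import Cfsg.Agent.Lib.Blocks.Defect
import Cfsg.Agent.Lib.CharTheory.Degree

set_option autoImplicit false
open Cfsg

namespace Cfsg.Agent.S4484

namespace CfsgLib.CharDegreesTheory.TwoPrime

open CfsgLib.Blocks

theorem pow_succ_dvd_of_eq_pow_mul {p : ℕ} {M : Ideal AlgInt} [M.IsPrime] (hM : IsPModular p M)
    (i e : ℕ) (z : ℂ) (hz : MemLocalIdeal M z) (h : (e : ℂ) = (p : ℂ) ^ i * z) :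
    p ^ (i + 1) ∣ e := by
  induction i generalizing e with
  | zero =>
    rw [pow_zero, one_mul] at h
    rw [pow_one]
    exact (memLocalIdeal_natCast_iff hM e).1 (h ▸ hz)
  | succ i ih =>
    have h1 : p ∣ e := (memLocalIdeal_natCast_iff hM e).1 (by
      rw [h, ← Nat.cast_pow]
      exact memLocalIdeal_mul_left (memLocalRing_natCast _) hz)
    obtain ⟨e', rfl⟩ := h1
    rw [pow_succ' (p) (i + 1)]
    refine Nat.mul_dvd_mul_left p (ih e' (mul_left_cancel₀ (Nat.cast_ne_zero.2 hM.1.ne_zero) ?_))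
    rw [← mul_assoc, ← pow_succ', ← Nat.cast_mul]
    exact h

theorem exists_close_exponents {p : ℕ} (hp : 0 < p) (J : Finset ℕ) (hJ : ∀ j ∈ J, j < p)
    {j₀ : ℕ} (hj₀ : j₀ ∈ J) (hcard : 6 ^ (J.card - 1) < p) :
    ∃ d, 0 < d ∧ d < p ∧ ∀ j ∈ J, ∀ ζ : ℂ,
      ζ = Complex.exp (2 * Real.pi * Complex.I / p) → ‖ζ ^ (d * j) - ζ ^ (d * j₀)‖ < 1 := by
  classical
  let res : ℕ → ℕ → ℕ := fun k j => k * (j + p - j₀) % p
  have hres : ∀ k j, res k j < p := fun k j => Nat.mod_lt _ hp
  let box : Fin p → (↥(J.erase j₀) → Fin 6) := fun k j =>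
    ⟨6 * res k j / p, (Nat.div_lt_iff_lt_mul hp).2 (by have := hres k j; omega)⟩
  have hlt : Fintype.card (↥(J.erase j₀) → Fin 6) < Fintype.card (Fin p) := by
    simp [Finset.card_erase_of_mem hj₀, hcard]
  obtain ⟨k, k', hne, hkk⟩ := Fintype.exists_ne_map_eq_of_card_lt box hlt
  wlog hle : (k : ℕ) < k' generalizing k k'
  · exact this k' k hne.symm hkk.symm (lt_of_le_of_ne (not_lt.1 hle) fun h => hne (Fin.ext h).symm)
  refine ⟨k' - k, by omega, by omega, fun j hj ζ hζ => ?_⟩
  have hζn : ‖ζ‖ = 1 := by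
    rw [hζ, Complex.norm_exp]; simp
  rcases eq_or_ne j j₀ with rfl | hjne
  · simp
  have hbox := congrArg Fin.val (congrFun hkk ⟨j, Finset.mem_erase.2 ⟨hjne, hj⟩⟩)
  simp only [box] at hbox
  set r := res k j with hr
  set r' := res k' j with hr'
  have hdist : 6 * r < 6 * r' + p ∧ 6 * r' < 6 * r + p := by
    have a1 := Nat.div_add_mod (6 * r) p
    have a2 := Nat.div_add_mod (6 * r') p
    have b1 := Nat.mod_lt (6 * r) hp
    have b2 := Nat.mod_lt (6 * r') hp
    rw [hbox] at a1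
    omega
  have hζp : ζ ^ p = 1 := by rw [hζ]; exact (Complex.isPrimitiveRoot_exp p hp.ne').pow_eq_one
  have hpow : ∀ n, ζ ^ (n % p) = ζ ^ n := fun n => (pow_eq_pow_mod n hζp).symm
  set t := j + p - j₀ with ht
  set d := (k' : ℕ) - k with hd
  have e1 : ζ ^ r' = ζ ^ r * ζ ^ (d * t) := by
    rw [hr, hr', hpow, hpow, ← pow_add, ← ht, ← add_mul, hd, Nat.add_sub_cancel' hle.le]
  have e2 : ζ ^ (d * j) = ζ ^ (d * j₀) * ζ ^ (d * t) := by
    rw [← pow_add, ← mul_add, ht, show j₀ + (j + p - j₀) = j + p by have := hJ j₀ hj₀; omega,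
      mul_add, pow_add, mul_comm d p, pow_mul ζ p, hζp, one_pow, mul_one]
  have hnorm : ‖ζ ^ (d * j) - ζ ^ (d * j₀)‖ = ‖ζ ^ r' - ζ ^ r‖ := by
    rw [e1, e2, ← mul_sub_one, ← mul_sub_one, norm_mul, norm_mul, norm_pow, norm_pow, hζn, one_pow,
      one_pow]
  rw [hnorm]
  set θ : ℝ := 2 * Real.pi * ((r' : ℝ) - r) / p with hθ
  have e3 : ζ ^ r' = ζ ^ r * Complex.exp (Complex.I * θ) := by
    rw [hζ, ← Complex.exp_nat_mul, ← Complex.exp_nat_mul, ← Complex.exp_add]
    congr 1
    rw [hθ]; push_cast; field_simp; ring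
  rw [e3, ← mul_sub_one, norm_mul, norm_pow, hζn, one_pow, one_mul,
    Complex.norm_exp_I_mul_ofReal_sub_one, Real.norm_eq_abs, abs_mul, abs_two]
  have hπ := Real.pi_pos
  have hsmall : |θ / 2| < Real.pi / 6 := by
    have h1 : (6 * r : ℝ) < 6 * r' + p := by exact_mod_cast hdist.1
    have h2 : (6 * r' : ℝ) < 6 * r + p := by exact_mod_cast hdist.2
    have hp' : (0 : ℝ) < p := by exact_mod_cast hp
    rw [abs_lt, hθ]
    constructor
    · rw [lt_div_iff₀ (by norm_num : (0 : ℝ) < 2), lt_div_iff₀ hp']; nlinarith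
    · rw [div_lt_iff₀ (by norm_num : (0 : ℝ) < 2), div_lt_iff₀ hp']; nlinarith
  have hs : |Real.sin (θ / 2)| < 1 / 2 := by
    rw [abs_lt] at hsmall ⊢
    have m1 := Real.strictMonoOn_sin (a := θ / 2) ⟨by linarith, by linarith⟩
      (b := Real.pi / 6) ⟨by linarith, by linarith⟩ hsmall.2
    have m2 := Real.strictMonoOn_sin (a := -(Real.pi / 6)) ⟨by linarith, by linarith⟩
      (b := θ / 2) ⟨by linarith, by linarith⟩ hsmall.1
    rw [Real.sin_pi_div_six] at m1
    rw [Real.sin_neg, Real.sin_pi_div_six] at m2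
    exact ⟨m2, m1⟩
  linarith

end CfsgLib.CharDegreesTheory.TwoPrime

/-- A refinement of Burnside's result on simple groups of order divisible by only two primes. Let G be a finite simple group of order p^a · q^b · g₀ with p, q distinct primes, a > 0, g₀ coprime to p and q, and the order of G different from p. Then g₀ − 1 > log p / log 6, that is 6^(g₀ − 1) > p. -/
theorem result {G : Type*} [Group G] [Finite G] [IsSimpleGroup G] (p q a b g₀ : ℕ) (hp : p.Prime) (hq : q.Prime) (hpq : p ≠ q) (ha : 0 < a) (hg : Nat.card G = p ^ a * q ^ b * g₀) (hcop : ¬ p ∣ g₀) (hcoq : ¬ q ∣ g₀) (hne : Nat.card G ≠ p) : p < 6 ^ (g₀ - 1) := by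
  classical
  by_contra hlt
  push Not at hlt
  haveI : Fact p.Prime := ⟨hp⟩
  haveI : Fintype G := Fintype.ofFinite G
  haveI := Fintype.ofFinite (IrrCharacter G)
  obtain ⟨M, hM⟩ := CfsgLib.CharDegreesTheory.exists_isPModular hp
  haveI := CfsgLib.Blocks.isPrime_of_isPModular hM
  have hpG : p ∣ Nat.card G := hg ▸ ((dvd_pow_self p ha.ne').mul_right _).mul_right _
  have hz : Subgroup.center G = ⊥ := by
    refine (Subgroup.Normal.eq_bot_or_eq_top inferInstance).resolve_right fun h => hne ?_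
    have hc : IsMulCommutative G := ⟨⟨fun a b =>
      Subgroup.mem_center_iff.1 (h ▸ Subgroup.mem_top b) a⟩⟩
    letI : CommGroup G := { ‹Group G› with mul_comm := hc.is_comm.comm }
    exact ((Nat.prime_dvd_prime_iff_eq hp (IsSimpleGroup.prime_card)).1 hpG).symm
  -- a central element of order p of a Sylow subgroup
  obtain ⟨P⟩ : Nonempty (Sylow p G) := inferInstance
  haveI : Nontrivial (P : Subgroup G) := by
    rw [← Finite.one_lt_card_iff_nontrivial, P.card_eq_multiplicity]
    exact one_lt_pow₀ hp.one_lt (hp.factorization_pos_of_dvd Nat.card_pos.ne' hpG).ne'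
  haveI := P.2.center_nontrivial
  obtain ⟨x₀, hx₀⟩ := exists_prime_orderOf_dvd_card' (G := Subgroup.center (P : Subgroup G)) p (by
    obtain ⟨n, hn0, hn⟩ := (P.2.to_subgroup (Subgroup.center (P : Subgroup G))).nontrivial_iff_card.1
      inferInstance
    rw [hn]; exact dvd_pow_self p hn0.ne')
  set x : G := ((x₀ : (P : Subgroup G)) : G) with hxdef
  have hx : orderOf x = p := by rw [hxdef, Subgroup.orderOf_coe, Subgroup.orderOf_coe, hx₀]
  have hxP : ∀ k : ℕ, (P : Subgroup G) ≤ Subgroup.centralizer ({x ^ k} : Set G) := by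
    intro k y hy
    rw [Subgroup.mem_centralizer_singleton_iff]
    have hc : Commute y x := by
      have := Subgroup.mem_center_iff.1 x₀.2 ⟨y, hy⟩
      exact congrArg Subtype.val this
    exact (hc.pow_right k).eq
  have hN : ∀ k : ℕ, ¬ p ∣ (Subgroup.centralizer ({x ^ k} : Set G)).index := fun k h =>
    P.not_dvd_index' Subgroup.index_ne_zero_of_finite (h.trans (Subgroup.index_dvd_of_le (hxP k)))
  -- a nonprincipal character of the principal block of degree prime to q
  set one : IrrCharacter G := ⟨fun _ => 1, CfsgLib.CharTheory.isIrrCharacter_one⟩ with hone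
  set B := blockOf M (one : G → ℂ) with hB
  obtain ⟨χ, hχB, hχ1, hχq⟩ : ∃ χ ∈ B, χ ≠ one ∧ ¬ q ∣ charDegree (χ : G → ℂ) := by
    by_contra hcon
    push Not at hcon
    have hsum := CfsgLib.Blocks.finsum_mul_conj_eq_zero_of_isPBlock hM
      (CfsgLib.Blocks.isPBlock_blockOf one) (x := (1 : G)) (y := x)
      (by rw [orderOf_one]; exact hp.not_dvd_one) (by rw [hx])
    rw [CfsgLib.Blocks.finsum_mem_irr_eq_sum, ← Finset.add_sum_erase _ _ (Finset.mem_univ one),
      if_pos (CfsgLib.Blocks.mem_blockOf_self one)] at hsum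
    simp only [hone, map_one, mul_one] at hsum
    rw [← hone] at hsum
    have hint : IsIntegral ℤ ((-1 : ℂ) / q) := by
      have e : (-1 : ℂ) / q = ∑ χ ∈ Finset.univ.erase one, (if χ ∈ B then
          ((charDegree (χ : G → ℂ) / q : ℕ) : ℂ) * (starRingEnd ℂ) ((χ : G → ℂ) x) else 0) := by
        rw [div_eq_iff (Nat.cast_ne_zero.2 hq.ne_zero), Finset.sum_mul]
        refine (eq_neg_of_add_eq_zero_right hsum).symm.trans (Finset.sum_congr rfl fun χ hχ => ?_)
        by_cases hm : χ ∈ B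
        · rw [if_pos hm, if_pos hm, ← CfsgLib.Blocks.charDegree_cast χ]
          obtain ⟨c, hc⟩ := hcon χ hm (Finset.mem_erase.1 hχ).1
          rw [hc, Nat.mul_div_cancel_left _ hq.pos]
          push_cast; ring
        · rw [if_neg hm, if_neg hm, zero_mul]
      rw [e]
      refine IsIntegral.sum _ fun χ _ => ?_
      split_ifs
      · exact isIntegral_algebraMap.mul (map_isIntegral_int (starRingEnd ℂ)
          (CfsgLib.CharTheory.IsCharacter.isIntegral (CfsgLib.CharTheory.IsIrrCharacter.isCharacter χ.2) x))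
      · exact isIntegral_zero
    have h2 : IsIntegral ℤ (((-1 : ℚ) / q : ℚ)) := by
      refine (isIntegral_algHom_iff ((algebraMap ℚ ℂ).toIntAlgHom) Rat.cast_injective).1 ?_
      simpa using hint
    obtain ⟨z, hz'⟩ := IsIntegrallyClosed.isIntegral_iff.1 h2
    rw [eq_div_iff (Nat.cast_ne_zero.2 hq.ne_zero), eq_intCast] at hz'
    have h3 : z * q = -1 := by exact_mod_cast hz'
    exact hq.not_dvd_one (Int.natCast_dvd_natCast.1 ⟨-z, by push_cast; linarith⟩)
  -- its degree
  obtain ⟨n, ρ, hρ, hχρ⟩ := χ.2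
  haveI := hρ
  have hn : charDegree (χ : G → ℂ) = n := by
    rw [charDegree, ← hχρ]; simp [Representation.char_one]
  have hn0 : n ≠ 0 := hn ▸ CfsgLib.Blocks.charDegree_ne_zero' χ
  have hdiv : n ∣ Nat.card G := by
    have := CfsgLib.CharTheory.finrank_dvd_card ρ
    rwa [Module.finrank_fin_fun] at this
  obtain ⟨i, m, hpm, him⟩ : ∃ i m, ¬ p ∣ m ∧ n = p ^ i * m :=
    Nat.exists_eq_pow_mul_and_not_dvd hn0 p hp.one_lt.ne'
  have hm0 : 0 < g₀ := Nat.pos_of_ne_zero fun h => hcop (h ▸ dvd_zero p)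
  have hm : m ≤ g₀ := by
    refine Nat.le_of_dvd hm0 ?_
    have h1 : m ∣ p ^ a * q ^ b * g₀ := hg ▸ (Dvd.intro_left _ him.symm).trans hdiv
    have hc1 : Nat.Coprime m (p ^ a * q ^ b) := Nat.Coprime.mul_right
      (((hp.coprime_iff_not_dvd).2 hpm).symm.pow_right _)
      ((((hq.coprime_iff_not_dvd).2 fun h => hχq (hn ▸ him ▸ h.mul_left _)).symm).pow_right _)
    exact hc1.dvd_of_dvd_mul_left h1
  -- the congruence
  have hu : ∀ k, 0 < k → k < p → MemLocalIdeal M ((χ : G → ℂ) (x ^ k) / (p : ℂ) ^ i - m) := by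
    intro k hk1 hk2
    have hs := CfsgLib.Blocks.sameBlock_symm hχB (x ^ k)
    set N := (Subgroup.centralizer ({x ^ k} : Set G)).index with hNdef
    have hN0 : (N : ℂ) ≠ 0 := Nat.cast_ne_zero.2 Subgroup.index_ne_zero_of_finite
    have h1 : (χ : G → ℂ) (x ^ k) / (p : ℂ) ^ i - m = ((m : ℂ) * (N : ℂ)⁻¹) *
        (centralChar (χ : G → ℂ) (x ^ k) - centralChar (one : G → ℂ) (x ^ k)) := by
      have hd : (χ : G → ℂ) 1 = (p : ℂ) ^ i * m := by
        rw [← CfsgLib.Blocks.charDegree_cast χ, hn, him]; push_cast; ring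
      rw [centralChar, centralChar, hd, ← hNdef]
      simp only [hone]
      have : (p : ℂ) ^ i ≠ 0 := pow_ne_zero _ (Nat.cast_ne_zero.2 hp.ne_zero)
      have : (m : ℂ) ≠ 0 := Nat.cast_ne_zero.2 fun h => hpm (h ▸ dvd_zero p)
      field_simp
    rw [h1]
    exact CfsgLib.Blocks.memLocalIdeal_mul_left (CfsgLib.Blocks.memLocalRing_mul
      (CfsgLib.Blocks.memLocalRing_natCast m) (CfsgLib.Blocks.memLocalRing_inv_natCast hM (hN k))) hs
  -- eigenvalues of x
  obtain ⟨bas, lam, hlam⟩ := CfsgLib.CharDegreesTheory.exists_eigenbasis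
    (H := Subgroup.zpowers x) (fun u v => by
      obtain ⟨u, s, rfl⟩ := u
      obtain ⟨v, t, rfl⟩ := v
      exact Subtype.ext (zpow_mul_comm x s t))
    ((show G →* Module.End ℂ (Fin n → ℂ) from ρ).comp (Subgroup.zpowers x).subtype)
  set ζ : ℂ := Complex.exp (2 * Real.pi * Complex.I / p) with hζdef
  have hζ : IsPrimitiveRoot ζ p := Complex.isPrimitiveRoot_exp p hp.ne_zero
  set X : Subgroup.zpowers x := ⟨x, Subgroup.mem_zpowers x⟩ with hX
  have hj : ∀ l, ∃ j < p, ζ ^ j = lam l X := by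
    intro l
    haveI : NeZero p := ⟨hp.ne_zero⟩
    refine hζ.eq_pow_of_pow_eq_one ?_
    rw [← map_pow, show X ^ p = 1 from Subtype.ext (by
      simp only [SubmonoidClass.coe_pow, hX]; rw [← hx, pow_orderOf_eq_one]; rfl), map_one]
  choose j hjp hjζ using hj
  have hev : ∀ (k : ℕ) l, ρ (x ^ k) (bas l) = ζ ^ (k * j l) • bas l := by
    intro k l
    have := hlam l (X ^ k)
    rw [map_pow (lam l), ← hjζ, ← pow_mul, mul_comm (j l) k] at this
    simpa [hX] using this
  have hchar : ∀ k : ℕ, (χ : G → ℂ) (x ^ k) = ∑ l, ζ ^ (k * j l) := by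
    intro k
    rw [← hχρ, Representation.character, LinearMap.trace_eq_matrix_trace ℂ bas, Matrix.trace]
    refine Finset.sum_congr rfl fun l _ => ?_
    rw [Matrix.diag_apply, LinearMap.toMatrix_apply, hev]
    simp
  let J : Finset ℕ := Finset.univ.image j
  have hfib : ∀ e ∈ J, p ^ i ∣ (Finset.univ.filter fun l => j l = e).card := by
    intro e he
    set c := (Finset.univ.filter fun l => j l = e).card with hc
    have hep : e < p := by
      obtain ⟨l, _, rfl⟩ := Finset.mem_image.1 he; exact hjp l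
    have hgeom : ∀ l, ∑ k ∈ Finset.range p, ζ ^ (k * (j l + p - e)) = if j l = e then (p : ℂ) else 0 := by
      intro l
      have hw : ∀ k, ζ ^ (k * (j l + p - e)) = (ζ ^ (j l + p - e)) ^ k := fun k => by
        rw [← pow_mul, mul_comm]
      simp only [hw]
      split_ifs with h
      · rw [h, Nat.add_sub_cancel_left, hζ.pow_eq_one]; simp
      · have hne1 : ζ ^ (j l + p - e) ≠ 1 := fun h1 => by
          obtain ⟨t, ht⟩ := (hζ.pow_eq_one_iff_dvd _).1 h1
          have := hjp l
          rcases t with _ | _ | t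
          · omega
          · omega
          · have : 2 * p ≤ p * (t + 1 + 1) := by nlinarith
            omega
        rw [geom_sum_eq hne1, ← pow_mul, mul_comm, pow_mul, hζ.pow_eq_one, one_pow, sub_self,
          zero_div]
    have e1 : ((p * c : ℕ) : ℂ) = ∑ k ∈ Finset.range p, ζ ^ (k * (p - e)) * (χ : G → ℂ) (x ^ k) := by
      simp only [hchar, Finset.mul_sum]
      rw [Finset.sum_comm]
      have : ∀ l, ∀ k, ζ ^ (k * (p - e)) * ζ ^ (k * j l) = ζ ^ (k * (j l + p - e)) := fun l k => by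
        rw [← pow_add, ← mul_add]; congr 2; omega
      simp only [this, hgeom]
      rw [Finset.sum_ite, Finset.sum_const_zero, add_zero, Finset.sum_const, ← hc, nsmul_eq_mul]
      push_cast; ring
    set R := ∑ k ∈ Finset.Ico 1 p, ζ ^ (k * (p - e)) * ((χ : G → ℂ) (x ^ k) / (p : ℂ) ^ i) with hR
    have hpi : (p : ℂ) ^ i ≠ 0 := pow_ne_zero _ (Nat.cast_ne_zero.2 hp.ne_zero)
    have hd : (χ : G → ℂ) 1 = (p : ℂ) ^ i * m := by
      rw [← CfsgLib.Blocks.charDegree_cast χ, hn, him]; push_cast; ring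
    have e2 : ((p * c : ℕ) : ℂ) = (p : ℂ) ^ i * (R + m) := by
      rw [e1, Finset.range_eq_Ico, Finset.sum_eq_sum_Ico_succ_bot hp.pos, zero_mul, pow_zero, pow_zero,
        one_mul, hd, hR, mul_add, Finset.mul_sum, add_comm]
      congr 1
      refine Finset.sum_congr rfl fun k _ => ?_
      field_simp
    have hmem : MemLocalIdeal M (R + m) := by
      have e3 : R + m = (∑ k ∈ Finset.Ico 1 p, ((ζ ^ (k * (p - e))) *
          ((χ : G → ℂ) (x ^ k) / (p : ℂ) ^ i - m) + (m : ℂ) * (ζ ^ (k * (p - e)) - 1))) +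
          ((m * p : ℕ) : ℂ) := by
        have hp1 : ((p - 1 : ℕ) : ℂ) = p - 1 := by rw [Nat.cast_sub hp.one_le, Nat.cast_one]
        have : ∀ k, (ζ ^ (k * (p - e))) * ((χ : G → ℂ) (x ^ k) / (p : ℂ) ^ i - m) +
            (m : ℂ) * (ζ ^ (k * (p - e)) - 1) =
            ζ ^ (k * (p - e)) * ((χ : G → ℂ) (x ^ k) / (p : ℂ) ^ i) - m := fun k => by ring
        simp only [this, Finset.sum_sub_distrib, Finset.sum_const, Nat.card_Ico, nsmul_eq_mul, hp1]
        rw [hR]; push_cast; ring
      rw [e3]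
      refine CfsgLib.Blocks.memLocalIdeal_add (CfsgLib.Blocks.memLocalIdeal_sum fun k hk => ?_)
        ((CfsgLib.Blocks.memLocalIdeal_natCast_iff hM _).2 (dvd_mul_left p m))
      rw [Finset.mem_Ico] at hk
      have hroot : (ζ ^ (k * (p - e))) ^ p = 1 := by
        rw [← pow_mul, mul_comm, pow_mul, hζ.pow_eq_one, one_pow]
      refine CfsgLib.Blocks.memLocalIdeal_add (CfsgLib.Blocks.memLocalIdeal_mul_left ?_ (hu k hk.1 hk.2))
        (CfsgLib.Blocks.memLocalIdeal_mul_left (CfsgLib.Blocks.memLocalRing_natCast m) ?_)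
      · exact CfsgLib.Blocks.memLocalRing_of_isIntegral
          (CfsgLib.Blocks.isIntegral_of_pow_eq_one hp.ne_zero hroot)
      · exact CfsgLib.Blocks.memLocalIdeal_sub_one_of_pow_prime_pow hM (k := 1)
          (by rw [pow_one]; exact hroot)
    have := CfsgLib.CharDegreesTheory.TwoPrime.pow_succ_dvd_of_eq_pow_mul hM i (p * c) _ hmem e2
    rw [pow_succ'] at this
    exact Nat.dvd_of_mul_dvd_mul_left hp.pos this
  have hfin : Module.finrank ℂ (Fin n → ℂ) = n := Module.finrank_fin_fun _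
  have hJcard : J.card ≤ m := by
    have h1 : (Finset.univ : Finset (Fin (Module.finrank ℂ (Fin n → ℂ)))).card =
        ∑ e ∈ J, (Finset.univ.filter fun l => j l = e).card := Finset.card_eq_sum_card_image j _
    rw [Finset.card_univ, Fintype.card_fin] at h1
    replace h1 := hfin.symm.trans h1
    have h2 : p ^ i * J.card ≤ p ^ i * m := by
      rw [← him, h1, mul_comm, ← smul_eq_mul, ← Finset.sum_const]
      refine Finset.sum_le_sum fun e he => Nat.le_of_dvd ?_ (hfib e he)
      obtain ⟨l, _, rfl⟩ := Finset.mem_image.1 he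
      exact Finset.card_pos.2 ⟨l, by simp⟩
    exact Nat.le_of_mul_le_mul_left h2 (pow_pos hp.pos _)
  obtain ⟨l₀⟩ : Nonempty (Fin (Module.finrank ℂ (Fin n → ℂ))) := ⟨⟨0, by omega⟩⟩
  have hsix : 6 ^ (J.card - 1) < p := by
    refine lt_of_le_of_ne ((Nat.pow_le_pow_right (by norm_num) (by omega)).trans hlt) fun h => ?_
    rcases Nat.eq_zero_or_pos (J.card - 1) with h0 | h0
    · rw [h0, pow_zero] at h; exact hp.one_lt.ne h
    · rw [← h] at hp
      have h2 : 2 ∣ 6 ^ (J.card - 1) := dvd_pow (by norm_num) h0.ne'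
      have h3 : 3 ∣ 6 ^ (J.card - 1) := dvd_pow (by norm_num) h0.ne'
      rw [Nat.prime_dvd_prime_iff_eq Nat.prime_two hp] at h2
      rw [Nat.prime_dvd_prime_iff_eq Nat.prime_three hp] at h3
      omega
  obtain ⟨d, hd0, hdp, hclose⟩ := CfsgLib.CharDegreesTheory.TwoPrime.exists_close_exponents hp.pos J
    (fun e he => by obtain ⟨l, _, rfl⟩ := Finset.mem_image.1 he; exact hjp l)
    (Finset.mem_image_of_mem j (Finset.mem_univ l₀)) hsix
  set g := x ^ d with hgdef
  have hgne : g ≠ 1 := fun h => by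
    have := orderOf_dvd_of_pow_eq_one h
    rw [hx] at this
    exact absurd (Nat.le_of_dvd hd0 this) (by omega)
  -- faithfulness
  have hinj : Function.Injective ρ := by
    rcases Subgroup.Normal.eq_bot_or_eq_top
        (MonoidHom.normal_ker (show G →* Module.End ℂ (Fin n → ℂ) from ρ).toHomUnits) with h | h
    · intro u v huv
      exact (MonoidHom.ker_eq_bot_iff _).1 h (Units.ext huv)
    · exfalso
      have hall : ∀ u, ρ u = 1 := fun u =>
        congrArg Units.val (MonoidHom.mem_ker.1 (h ▸ Subgroup.mem_top u))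
      have hz0 := CfsgLib.CharTheory.classInner_eq_zero_of_ne χ.2
        CfsgLib.CharTheory.isIrrCharacter_one (fun h => hχ1 (Subtype.ext (h.trans (by rw [hone]))))
      rw [← hχρ, classInner] at hz0
      simp [Representation.character, hall, hn0] at hz0
  obtain ⟨π, e, hiso, he⟩ := CfsgLib.CharDegreesTheory.exists_unitary_model ρ
  have hb' : ∀ l, π g (bas.map e l) = ζ ^ (d * j l) • bas.map e l := fun l => by
    rw [Module.Basis.map_apply, he, hgdef, hev, map_smul]
  have hnorm := CfsgLib.CharDegreesTheory.norm_sub_smul_lt π hiso g (bas.map e)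
    (fun l => ζ ^ (d * j l)) hb' (ζ ^ (d * j l₀)) one_pos fun l =>
      hclose _ (Finset.mem_image_of_mem j (Finset.mem_univ l)) ζ hζdef
  have htop : Subgroup.normalClosure ({g} : Set G) = ⊤ :=
    (Subgroup.Normal.eq_bot_or_eq_top Subgroup.normalClosure_normal).resolve_left fun h => hgne
      (Subgroup.mem_bot.1 (h ▸ Subgroup.subset_normalClosure (Set.mem_singleton g)))
  set μ := ζ ^ (d * j l₀) with hμ
  let U : Subrepresentation ρ :=
    { toSubmodule := Module.End.eigenspace (ρ g) μ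
      apply_mem_toSubmodule := fun u v hv => by
        rw [Module.End.mem_eigenspace_iff] at hv ⊢
        apply e.injective
        rw [← he, map_smul, ← he]
        refine CfsgLib.CharDegreesTheory.apply_mem_eigenspace_of_norm_sub_lt π hiso g μ hnorm
          (htop ▸ Subgroup.mem_top u) ?_
        rw [he, hv, map_smul] }
  have hUtop : U = ⊤ := (eq_bot_or_eq_top U).resolve_left fun h => by
    have hmem : bas l₀ ∈ U.toSubmodule := by
      show bas l₀ ∈ Module.End.eigenspace (ρ g) μ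
      rw [Module.End.mem_eigenspace_iff, hμ, hgdef, hev]
    rw [h] at hmem
    exact bas.ne_zero l₀ ((Submodule.mem_bot ℂ).1 hmem)
  have hscal : ∀ v, ρ g v = μ • v := fun v => Module.End.mem_eigenspace_iff.1 (show v ∈ U.toSubmodule by
    rw [hUtop]; trivial)
  have hcen : g ∈ Subgroup.center G := Subgroup.mem_center_iff.2 fun u => hinj (LinearMap.ext fun v => by
    rw [map_mul, map_mul, Module.End.mul_apply, Module.End.mul_apply, hscal, hscal, map_smul])
  rw [hz, Subgroup.mem_bot] at hcen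
  exact hgne hcen

end Cfsg.Agent.S4484
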