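import Cfsg.Statements.S4488
import Cfsg.Agent.Lib.RealChar.GaloisSchur

set_option autoImplicit false
open Cfsg

namespace Cfsg.Agent.S4488

open CfsgLib CfsgLib.CharTheory CfsgLib.RealChar.PGalois


/-- Let the finite group G have a faithful p-rational character χ of degree n (all values of χ lie in the field generated over ℚ by a root of unity of order prime to p), and let p^a be the order of a Sylow p-subgroup of G. Then a ≤ Σ_{i ≥ 0} ⌊n / ((p − 1)·p^i)⌋ (a finite sum; the terms vanish once (p − 1)p^i > n). -/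
theorem result {G : Type*} [Group G] [Finite G] (p : ℕ) (hp : p.Prime) (χ : G → ℂ) (hχ : Cfsg.IsCharacter G χ) (hfaith : ∀ g : G, χ g = χ 1 → g = 1) (hrat : (∃ r : ℕ, 0 < r ∧ ¬ p ∣ r ∧ ∀ g : G, χ g ∈ IntermediateField.adjoin ℚ ({Complex.exp (2 * Real.pi * Complex.I / r)} : Set ℂ))) (n : ℕ) (hn : Cfsg.charDegree χ = n) : (Nat.card G).factorization p ≤ ∑ i ∈ Finset.range (n + 1), n / ((p - 1) * p ^ i) := by
  haveI := Fact.mk hp
  haveI := Fintype.ofFinite G
  obtain ⟨r, hr0, hpr, hr⟩ := hrat
  set P := (default : Sylow p G) with hPdef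
  haveI := Fintype.ofFinite (P : Subgroup G)
  set c := (Nat.card G).factorization p with hc
  have hPc : Nat.card (P : Subgroup G) = p ^ c := P.card_eq_multiplicity
  haveI : NeZero (p ^ (c + 1)) := ⟨pow_ne_zero _ hp.ne_zero⟩
  have hN : ∀ g : (P : Subgroup G), g ^ (p ^ (c + 1)) = 1 := fun g => by
    rw [pow_succ, pow_mul, ← hPc, pow_card_eq_one', one_pow]
  haveI : NeZero (p ^ (c + 1) * r) := ⟨mul_ne_zero (NeZero.ne _) hr0.ne'⟩
  have hcop : Nat.Coprime (p ^ (c + 1)) r :=
    Nat.Coprime.pow_left _ ((hp.coprime_iff_not_dvd).2 hpr)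
  have hχP : IsCharacter (P : Subgroup G) (fun g : (P : Subgroup G) => χ g) :=
    Coherence.isCharacter_comp hχ (P : Subgroup G).subtype
  obtain ⟨n', hn'⟩ := exists_degree_of_isCharacter hχ
  have hnn : n' = n := by rw [← hn, charDegree, hn', Complex.natCast_re, Nat.floor_natCast]
  subst hnn
  obtain ⟨K, b, hK, hi, hb⟩ := rational_bound P.isPGroup' (A := c) rfl hN n'
    (fun g : (P : Subgroup G) => χ g) hχP hn' (fun g x => by
      obtain ⟨k, hk1, hk2⟩ := Nat.chineseRemainder hcop (x : ZMod (p ^ (c + 1))).val 1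
      have hkc : Nat.Coprime k (p ^ (c + 1) * r) := by
        refine Nat.Coprime.mul_right ?_ ?_
        · rw [Nat.Coprime, hk1.gcd_eq]; exact ZMod.val_coe_unit_coprime x
        · rw [Nat.Coprime, hk2.gcd_eq, Nat.gcd_one_left]
      obtain ⟨σ, hσ⟩ := CharDegreesTheory.exists_ringAut_complex _ k hkc
      have h1 : σ (χ (g : G)) = χ ((g : G) ^ k) := CharDegreesTheory.ringAut_apply_character σ hσ hχ
        (dvd_mul_of_dvd_left (by rw [Subgroup.orderOf_coe]; exact orderOf_dvd_of_pow_eq_one (hN g)) _)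
      have h2 : (g : G) ^ k = (((g ^ (x : ZMod (p ^ (c + 1))).val : (P : Subgroup G))) : G) := by
        rw [SubgroupClass.coe_pow, pow_eq_pow_iff_modEq]
        exact hk1.of_dvd (by rw [Subgroup.orderOf_coe]; exact orderOf_dvd_of_pow_eq_one (hN g))
      have hfix : IntermediateField.adjoin ℚ
          ({Complex.exp (2 * Real.pi * Complex.I / r)} : Set ℂ) ≤
          { (RingHom.eqLocusField σ.toRingHom (RingHom.id ℂ)) with
            algebraMap_mem' := fun a => by simp } := by
        rw [IntermediateField.adjoin_le_iff, Set.singleton_subset_iff]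
        have hz := (Complex.isPrimitiveRoot_exp r hr0.ne').pow_eq_one
        show σ _ = _
        rw [hσ _ (by rw [mul_comm (p ^ (c + 1)), pow_mul, hz, one_pow]),
          pow_eq_pow_mod k hz, hk2, ← pow_eq_pow_mod 1 hz, pow_one]
        rfl
      show χ _ = χ (g : G)
      rw [← h2, ← h1]
      exact hfix (hr (g : G)))
  have hbot : K = ⊥ := (Subgroup.eq_bot_iff_forall _).2 fun g hg =>
    Subtype.ext (hfaith _ (hK g hg))
  rw [hbot, Subgroup.index_bot, hPc] at hi
  rw [Nat.pow_right_injective hp.two_le hi]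
  exact hb

end Cfsg.Agent.S4488
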