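import Cfsg.Statements.S4489
import Cfsg.Agent.Lib.RealChar.GaloisSchur

set_option autoImplicit false
open Cfsg

namespace Cfsg.Agent.S4489

open CfsgLib CfsgLib.CharTheory CfsgLib.RealChar.PGalois


/-- Let P be a finite p-group of order p^a with a > 0, and χ a faithful irreducible character of P of degree f whose field of values ℚ(χ) has degree (p − 1)·p^t over ℚ. Then a ≤ (f − 1)/(p − 1) + (t + 1)·f; in integer form, (p − 1)·a ≤ (f − 1) + (p − 1)(t + 1)·f. -/
theorem result {P : Type*} [Group P] [Finite P] (p a : ℕ) (hp : p.Prime) (ha : 0 < a) (hP : Nat.card P = p ^ a) (χ : Cfsg.IrrCharacter P) (hfaith : ∀ g : P, (χ : P → ℂ) g = (χ : P → ℂ) 1 → g = 1) (f t : ℕ) (hf : Cfsg.charDegree (χ : P → ℂ) = f) (hfield : Module.finrank ℚ (IntermediateField.adjoin ℚ (Set.range (χ : P → ℂ))) = (p - 1) * p ^ t) : (p - 1) * a ≤ (f - 1) + (p - 1) * (t + 1) * f := by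
  haveI := Fact.mk hp
  haveI := Fintype.ofFinite P
  haveI : NeZero (p ^ a) := ⟨pow_ne_zero _ hp.ne_zero⟩
  have hN : ∀ g : P, g ^ (p ^ a) = 1 := fun g => by rw [← hP]; exact pow_card_eq_one'
  have hNA : p ^ a = p ^ (a - 1 + 1) := by rw [Nat.sub_add_cancel ha]
  obtain ⟨t', f', hf', ht', hb⟩ := exists_bound hNA a P hN hP ha χ χ.2 hfaith
  have hff : f' = f := by
    rw [← hf, charDegree, hf', Complex.natCast_re, Nat.floor_natCast]
  rw [finrank_adjoin_range hN (IsIrrCharacter.isCharacter χ.2), ht'] at hfield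
  have htt : t' = t := Nat.pow_right_injective hp.two_le
    (Nat.eq_of_mul_eq_mul_left (Nat.sub_pos_of_lt hp.one_lt) hfield)
  subst hff htt
  have e : f' * (1 + (p - 1) * (t' + 1)) = f' + (p - 1) * (t' + 1) * f' := by ring
  rw [e] at hb
  have : 0 < f' := by
    by_contra h
    obtain ⟨d, hd, hd1⟩ := exists_degree_of_isIrr χ.2
    rw [hf', Nat.cast_inj] at hd1
    omega
  omega

end Cfsg.Agent.S4489
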