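import Cfsg.Statements.S4490
import Cfsg.Agent.Lib.CharDegreesTheory.RealBlocks
import Cfsg.Agent.Lib.CharTheory.Inflation

set_option autoImplicit false
open Cfsg

namespace Cfsg.Agent.S4490

/-- Let G be a finite group and M a maximal ideal of the algebraic integers containing 2. Every 2-block B of G whose defect groups are the Sylow 2-subgroups of G (a block of full defect) and which is not the principal block is different from its complex-conjugate block, the block formed by the complex conjugates of the members of B. -/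
theorem result {G : Type*} [Group G] [Finite G] (M : Ideal Cfsg.AlgInt) (hM : Cfsg.IsPModular 2 M) (B : Set (Cfsg.IrrCharacter G)) (hB : Cfsg.IsPBlock M B) (P : Sylow 2 G) (hfull : Cfsg.IsDefectGroup 2 M B (P : Subgroup G)) (hnp : B ≠ Cfsg.principalBlock M G) : {ψ : Cfsg.IrrCharacter G | ∃ χ ∈ B, (ψ : G → ℂ) = fun g => (starRingEnd ℂ) ((χ : G → ℂ) g)} ≠ B := by
  classical
  have := Fintype.ofFinite G
  have := hM.2.1.isPrime
  have : Fact (Nat.Prime 2) := ⟨Nat.prime_two⟩
  intro heq
  obtain ⟨g, hg, Q, hQ⟩ := hfull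
  refine hnp (CfsgLib.CharDegreesTheory.eq_principalBlock_of_conj_closed hM hB
    (CfsgLib.CharDegreesTheory.exists_not_dvd_degree_of_defectClass hM hB P hg
      (hQ.le.trans (Subgroup.map_subtype_le _))) fun χ hχ => ?_)
  refine ⟨⟨_, CfsgLib.CharTheory.isIrrCharacter_conj χ.2⟩, ?_, rfl⟩
  rw [← heq]
  exact ⟨χ, hχ, rfl⟩

end Cfsg.Agent.S4490
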