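import Cfsg.Statements.S4497
import Cfsg.Agent.Lib.CharTheory.SelfCentPrime

set_option autoImplicit false
open Cfsg

namespace Cfsg.Agent.S4497

/-- Let the finite group G contain an element x of prime order p with C_G(x) = ⟨x⟩, let t be the number of conjugacy classes of elements of order p, and let S* = O_{p′}(G) be the largest normal subgroup of order prime to p. Then S* ≤ G′; if t ≠ p − 1 the quotient G′/S* is simple (in particular non-trivial); if t = p − 1 then G′ = S*. -/
theorem result {G : Type*} [Group G] [Finite G] (p : ℕ) (hp : p.Prime) (x : G) (hx : orderOf x = p) (hC : Subgroup.centralizer ({x} : Set G) = Subgroup.zpowers x) (t : ℕ) (ht : Nat.card {C : ConjClasses G // ∃ g ∈ C.carrier, orderOf g = p} = t) : Cfsg.pPrimeCore p G ≤ commutator G ∧ (t ≠ p - 1 → ∀ h : ((Cfsg.pPrimeCore p G).subgroupOf (commutator G)).Normal, IsSimpleGroup (↥(commutator G) ⧸ (Cfsg.pPrimeCore p G).subgroupOf (commutator G))) ∧ (t = p - 1 → commutator G = Cfsg.pPrimeCore p G) := by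
  haveI := Fact.mk hp
  obtain ⟨h1, h2⟩ := CfsgLib.CharTheory.SelfCent.dichotomy hx hC ht
  refine ⟨CfsgLib.CharTheory.SelfCent.pPrimeCore_le_commutator hx hC, fun h hn => ?_, fun h => (h1 h).1⟩
  exact @CfsgLib.CharTheory.SelfCent.isSimple_quotient G _ _ p _ x hx hC (h2 h).1 hn

end Cfsg.Agent.S4497
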