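import Cfsg.Statements.S4498
import Cfsg.Agent.Lib.Blocks.Orth

set_option autoImplicit false
open Cfsg

namespace Cfsg.Agent.S4498

/-- Let p and q be distinct primes dividing the order of the finite group G, and suppose G has no element of order p·q. Fix maximal ideals M_p over p and M_q over q of the algebraic integers. Then the principal p-block and the principal q-block of G have a non-principal irreducible character in common. -/
theorem result {G : Type*} [Group G] [Finite G] (p q : ℕ) [Fact p.Prime] [Fact q.Prime] (hpq : p ≠ q) (hp : p ∣ Nat.card G) (hq : q ∣ Nat.card G) (hno : ∀ g : G, orderOf g ≠ p * q) (Mp Mq : Ideal Cfsg.AlgInt) (hMp : Cfsg.IsPModular p Mp) (hMq : Cfsg.IsPModular q Mq) : ∃ χ : Cfsg.IrrCharacter G, (χ : G → ℂ) ≠ (fun _ => 1) ∧ χ ∈ Cfsg.principalBlock Mp G ∧ χ ∈ Cfsg.principalBlock Mq G := by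
  classical
  have := Fintype.ofFinite G
  have := Fintype.ofFinite (Cfsg.IrrCharacter G)
  have : Mp.IsPrime := hMp.2.1.isPrime
  have : Mq.IsPrime := hMq.2.1.isPrime
  obtain ⟨x, hx⟩ := exists_prime_orderOf_dvd_card' p hp
  obtain ⟨y, hy⟩ := exists_prime_orderOf_dvd_card' q hq
  have hxp : Cfsg.IsPPart p x x :=
    ⟨1, mul_one x, Commute.one_right x, ⟨1, by rw [hx, pow_one]⟩, by
      rw [orderOf_one]; exact (Fact.out : p.Prime).not_dvd_one⟩
  have hyp : Cfsg.IsPPart q y y :=
    ⟨1, mul_one y, Commute.one_right y, ⟨1, by rw [hy, pow_one]⟩, by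
      rw [orderOf_one]; exact (Fact.out : q.Prime).not_dvd_one⟩
  by_contra hcon
  push Not at hcon
  set Bp := Cfsg.principalBlock Mp G with hBp
  set Bq := Cfsg.principalBlock Mq G with hBq
  have hBpb : Cfsg.IsPBlock Mp Bp := ⟨CfsgLib.CharTheory.trivIrr G, rfl⟩
  have hBqb : Cfsg.IsPBlock Mq Bq := ⟨CfsgLib.CharTheory.trivIrr G, rfl⟩
  set f : G → ℂ := fun z => ∑ χ : Cfsg.IrrCharacter G,
    if χ ∈ Bp then (χ : G → ℂ) x * (χ : G → ℂ) z⁻¹ else 0 with hf
  set g : G → ℂ := fun z => ∑ χ : Cfsg.IrrCharacter G,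
    if χ ∈ Bq then (χ : G → ℂ) y * (χ : G → ℂ) z else 0 with hg
  have hzero : ∀ z, f z * g z = 0 := by
    intro z
    by_cases hz : q ∣ orderOf z
    · obtain ⟨w, hw⟩ := CfsgLib.Blocks.exists_isPPart p z
      have hne : ¬ IsConj x w := by
        intro hc
        obtain ⟨v, hwv, hcomm, -, hvp⟩ := hw
        have hwo : orderOf w = p := by
          obtain ⟨c, hc'⟩ := isConj_iff.1 hc
          rw [← hc', ← MulAut.conj_apply, MulEquiv.orderOf_eq, hx]
        have hqv : q ∣ orderOf v := by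
          have h1 : orderOf z ∣ orderOf w * orderOf v := by
            rw [← hwv]; exact hcomm.orderOf_mul_dvd_mul_orderOf
          rcases (Fact.out : q.Prime).dvd_mul.1 (hz.trans h1) with h | h
          · rw [hwo] at h
            exact absurd ((Nat.prime_dvd_prime_iff_eq Fact.out Fact.out).1 h).symm hpq
          · exact h
        have hu : orderOf (v ^ (orderOf v / q)) = q := by
          rw [orderOf_pow_of_dvd (Nat.div_pos (Nat.le_of_dvd (orderOf_pos v) hqv)
            (Fact.out : q.Prime).pos).ne' (Nat.div_dvd_of_dvd hqv),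
            Nat.div_div_self hqv (orderOf_pos v).ne']
        apply hno (w * v ^ (orderOf v / q))
        rw [(hcomm.pow_right _).orderOf_mul_eq_mul_orderOf_of_coprime (by
          rw [hwo, hu]; exact (Nat.coprime_primes Fact.out Fact.out).2 hpq), hwo, hu]
      have h := CfsgLib.Blocks.sum_mul_eq_zero_of_isPBlock hMp hBpb hxp hw hne
      rw [show f z = 0 from h, zero_mul]
    · obtain ⟨w, hw⟩ := CfsgLib.Blocks.exists_isPPart q z⁻¹
      have hw1 : w = 1 := (CfsgLib.Blocks.isPPart_eq_one_iff hw).2 (by rwa [orderOf_inv])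
      have hne : ¬ IsConj y w := by
        rw [hw1, isConj_one_left]
        intro h
        rw [h, orderOf_one] at hy
        exact (Fact.out : q.Prime).ne_one hy.symm
      have h := CfsgLib.Blocks.sum_mul_eq_zero_of_isPBlock hMq hBqb hyp hw hne
      simp only [inv_inv] at h
      rw [show g z = 0 from h, mul_zero]
  have hsum : ∑ z, f z * g z = (Nat.card G : ℂ) * ∑ χ : Cfsg.IrrCharacter G,
      if χ ∈ Bp ∧ χ ∈ Bq then (χ : G → ℂ) x * (χ : G → ℂ) y else 0 := by
    simp only [hf, hg, Finset.sum_mul_sum]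
    rw [Finset.sum_comm, Finset.mul_sum]
    refine Finset.sum_congr rfl fun χ _ => ?_
    rw [Finset.sum_comm]
    have horth : ∀ ψ : Cfsg.IrrCharacter G, ∑ z : G, (χ : G → ℂ) z⁻¹ * (ψ : G → ℂ) z =
        if ψ = χ then (Nat.card G : ℂ) else 0 := by
      intro ψ
      have h := CfsgLib.CharTheory.classInner_irrCharacter ψ χ
      rw [Cfsg.classInner, inv_mul_eq_iff_eq_mul₀ (Nat.cast_ne_zero.2 Nat.card_pos.ne')] at h
      rw [Finset.sum_congr rfl fun z _ => show (χ : G → ℂ) z⁻¹ * (ψ : G → ℂ) z =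
        (ψ : G → ℂ) z * (starRingEnd ℂ) ((χ : G → ℂ) z) by
          rw [CfsgLib.CharTheory.IsIrrCharacter.inv χ.2, mul_comm], h]
      split_ifs <;> simp
    by_cases hχp : χ ∈ Bp
    · rw [Finset.sum_eq_single χ]
      · by_cases hχq : χ ∈ Bq
        · simp only [if_pos hχp, if_pos hχq, if_pos (And.intro hχp hχq)]
          rw [show ∑ z : G, (χ : G → ℂ) x * (χ : G → ℂ) z⁻¹ * ((χ : G → ℂ) y * (χ : G → ℂ) z) =
            (χ : G → ℂ) x * (χ : G → ℂ) y * ∑ z : G, (χ : G → ℂ) z⁻¹ * (χ : G → ℂ) z by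
              rw [Finset.mul_sum]; exact Finset.sum_congr rfl fun z _ => by ring,
            horth χ, if_pos rfl, mul_comm]
        · simp [hχq]
      · intro ψ _ hne
        by_cases hψq : ψ ∈ Bq
        · simp only [if_pos hχp, if_pos hψq]
          rw [show ∑ z : G, (χ : G → ℂ) x * (χ : G → ℂ) z⁻¹ * ((ψ : G → ℂ) y * (ψ : G → ℂ) z) =
            (χ : G → ℂ) x * (ψ : G → ℂ) y * ∑ z : G, (χ : G → ℂ) z⁻¹ * (ψ : G → ℂ) z by
              rw [Finset.mul_sum]; exact Finset.sum_congr rfl fun z _ => by ring,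
            horth ψ, if_neg hne, mul_zero]
        · simp [hψq]
      · simp
    · simp [hχp]
  rw [Finset.sum_eq_zero fun z _ => hzero z] at hsum
  rw [Finset.sum_eq_single (CfsgLib.CharTheory.trivIrr G)] at hsum
  · rw [if_pos ⟨CfsgLib.Blocks.mem_blockOf_self (M := Mp) (CfsgLib.CharTheory.trivIrr G),
      CfsgLib.Blocks.mem_blockOf_self (M := Mq) (CfsgLib.CharTheory.trivIrr G)⟩,
      CfsgLib.CharTheory.trivIrr_apply, CfsgLib.CharTheory.trivIrr_apply, one_mul, mul_one] at hsum
    exact Nat.card_pos.ne' (Nat.cast_eq_zero.1 hsum.symm)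
  · intro χ _ hne
    refine if_neg fun h => hcon χ ?_ h.1 h.2
    exact fun e => hne (Subtype.ext e)
  · simp

end Cfsg.Agent.S4498
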