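import Cfsg.Statements.S4501
import Cfsg.Agent.Lib.Fixity.SmallCofactorThree

set_option autoImplicit false
open Cfsg

namespace Cfsg.Agent.S4501

/-- Let G be a non-abelian finite simple group and p, q distinct primes. If the order of G is 4·p^a·q^b with a ≤ 2, then G is isomorphic to the alternating group of degree 5. If the order of G is 3·p^a·q^b with a ≤ 2, then G is isomorphic to the alternating group of degree 5 or to PSL(2,7). -/
theorem result {G : Type*} [Group G] [Finite G] [IsSimpleGroup G] (hna : ∃ x y : G, x * y ≠ y * x) (p q a b : ℕ) (hp : p.Prime) (hq : q.Prime) (hpq : p ≠ q) (ha : a ≤ 2) : (Nat.card G = 4 * p ^ a * q ^ b → Nonempty (G ≃* alternatingGroup (Fin 5))) ∧ (Nat.card G = 3 * p ^ a * q ^ b → Nonempty (G ≃* alternatingGroup (Fin 5)) ∨ Nonempty (G ≃* Matrix.ProjectiveSpecialLinearGroup (Fin 2) (ZMod 7))) := by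
  exact ⟨fun h => CfsgLib.Fixity.SmallCofactor.four_case hna hp hq hpq ha h,
    fun h => CfsgLib.Fixity.SmallCofactor.three_case hna hp hq hpq ha h⟩

end Cfsg.Agent.S4501
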