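import Cfsg.Statements.S4502
import Cfsg.Agent.Lib.DefectOne.DegreeCount

set_option autoImplicit false
open Cfsg

namespace Cfsg.Agent.S4502

/-- Let G be a finite group whose order is divisible by the prime p exactly once, and let P be a Sylow p-subgroup. Then the number of irreducible characters of G of degree not divisible by p equals the number of conjugacy classes of the normalizer of P. -/
theorem result {G : Type*} [Group G] [Finite G] (p : ℕ) [Fact p.Prime] (hdiv : p ∣ Nat.card G) (hsq : ¬ p ^ 2 ∣ Nat.card G) (P : Sylow p G) : Nat.card {χ : Cfsg.IrrCharacter G // ¬ p ∣ Cfsg.charDegree (χ : G → ℂ)} = Nat.card (ConjClasses (Subgroup.normalizer ((P : Subgroup G) : Set G))) := by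
  haveI := Fintype.ofFinite G
  have hG : CfsgLib.DefectOne.ExactPrime G p := ⟨Fact.out, hdiv, hsq⟩
  have hP : Nat.card (P : Subgroup G) = p := by
    have h1 : (Nat.card G).factorization p = 1 := by
      refine le_antisymm ?_ ((Fact.out : p.Prime).factorization_pos_of_dvd Nat.card_pos.ne' hdiv)
      by_contra h
      push Not at h
      exact hsq (((Fact.out : p.Prime).pow_dvd_iff_le_factorization Nat.card_pos.ne').2 h)
    rw [Sylow.card_eq_multiplicity, h1, pow_one]
  obtain ⟨⟨u, huP⟩, hu⟩ := exists_prime_orderOf_dvd_card' (G := (P : Subgroup G)) p (dvd_of_eq hP.symm)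
  rw [Subgroup.orderOf_mk] at hu
  obtain ⟨S, hS⟩ := CfsgLib.DefectOne.exists_sect hG hu
  have hz : Subgroup.zpowers u = (P : Subgroup G) :=
    Subgroup.eq_of_le_of_card_ge (Subgroup.zpowers_le.2 huP) (by rw [Nat.card_zpowers, hu, hP])
  have h := CfsgLib.DefectOne.natCard_not_dvd hG S
  rw [CfsgLib.DefectOne.Sect.N, hS, hz] at h
  exact h

end Cfsg.Agent.S4502
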