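import Cfsg.Statements.S4506
import Cfsg.Agent.Lib.ZerosCodegree.CharPowers
import Cfsg.Agent.Lib.ZerosCodegree.PowerTwist
import Cfsg.Agent.Lib.Blocks.Orth
import Cfsg.Agent.Lib.Blocks.Knorr

set_option autoImplicit false
set_option linter.unusedSectionVars false
set_option linter.style.haveILetI false
open Cfsg
open scoped ComplexConjugate

namespace Cfsg.Agent.S4506

open CfsgLib.Blocks CfsgLib.ZerosCodegree MonoidAlgebra

variable {G : Type*} [Group G] [Finite G] {p : ℕ} [hp : Fact p.Prime]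

/-- The exponents congruent to one modulo the `p'`-part of the order. -/
structure ExpData (p : ℕ) (N : ℕ) where
  e1 : ℕ
  e2 : ℕ
  e1p : e1 ≡ 1 [MOD p ^ N.factorization p]
  e1q : e1 ≡ 0 [MOD N / p ^ N.factorization p]
  e2p : e2 ≡ 0 [MOD p ^ N.factorization p]
  e2q : e2 ≡ 1 [MOD N / p ^ N.factorization p]

theorem exists_expData {N : ℕ} (hN : N ≠ 0) : Nonempty (ExpData p N) := by
  have hco : Nat.Coprime (p ^ N.factorization p) (N / p ^ N.factorization p) :=
    (Nat.coprime_ordCompl hp.out hN).pow_left _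
  obtain ⟨e1, h1, h2⟩ := Nat.chineseRemainder hco 1 0
  obtain ⟨e2, h3, h4⟩ := Nat.chineseRemainder hco 0 1
  exact ⟨⟨e1, e2, h1, h2, h3, h4⟩⟩

variable (D : ExpData p (Nat.card G))

/-- The exponent of a unit. -/
noncomputable def expo (u : (ZMod (p ^ (Nat.card G).factorization p))ˣ) : ℕ :=
  D.e1 * (u : ZMod (p ^ (Nat.card G).factorization p)).val + D.e2

theorem expo_modEq_p (u : (ZMod (p ^ (Nat.card G).factorization p))ˣ) :
    expo D u ≡ (u : ZMod (p ^ (Nat.card G).factorization p)).val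
      [MOD p ^ (Nat.card G).factorization p] := by
  simpa [expo] using (D.e1p.mul_right _).add D.e2p

theorem expo_modEq_q (u : (ZMod (p ^ (Nat.card G).factorization p))ˣ) :
    expo D u ≡ 1 [MOD Nat.card G / p ^ (Nat.card G).factorization p] := by
  simpa [expo] using (D.e1q.mul_right _).add D.e2q

theorem expo_coprime (u : (ZMod (p ^ (Nat.card G).factorization p))ˣ) :
    (expo D u).Coprime (Nat.card G) := by
  rw [← Nat.ordProj_mul_ordCompl_eq_self (Nat.card G) p]
  refine Nat.Coprime.mul_right ?_ ?_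
  · rw [Nat.Coprime, (expo_modEq_p D u).gcd_eq]
    exact ZMod.val_coe_unit_coprime u
  · rw [Nat.Coprime, (expo_modEq_q D u).gcd_eq]
    exact Nat.gcd_one_left _

theorem eq_of_modEq_both {x y : ℕ} (h1 : x ≡ y [MOD p ^ (Nat.card G).factorization p])
    (h2 : x ≡ y [MOD Nat.card G / p ^ (Nat.card G).factorization p]) :
    x ≡ y [MOD Nat.card G] := by
  have h := (Nat.modEq_and_modEq_iff_modEq_mul
    ((Nat.coprime_ordCompl hp.out (Nat.card_pos (α := G)).ne').pow_left _)).1 ⟨h1, h2⟩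
  rwa [Nat.ordProj_mul_ordCompl_eq_self] at h

theorem expo_mul (u v : (ZMod (p ^ (Nat.card G).factorization p))ˣ) :
    expo D (u * v) ≡ expo D u * expo D v [MOD Nat.card G] := by
  refine eq_of_modEq_both (p := p) ?_ ?_
  · refine (expo_modEq_p D _).trans (Nat.ModEq.trans ?_ ((expo_modEq_p D u).mul (expo_modEq_p D v)).symm)
    rw [Units.val_mul, ZMod.val_mul]
    exact Nat.mod_modEq _ _
  · exact (expo_modEq_q D _).trans ((expo_modEq_q D u).mul (expo_modEq_q D v)).symm

/-- The conjugate of a character by an exponent. -/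
noncomputable def conjT (u : (ZMod (p ^ (Nat.card G).factorization p))ˣ) (χ : IrrCharacter G) : IrrCharacter G :=
  ⟨powTwist (expo D u) (χ : G → ℂ), isIrrCharacter_powTwist (expo_coprime D u) χ.2⟩

theorem conjT_mul (u v : (ZMod (p ^ (Nat.card G).factorization p))ˣ) (χ : IrrCharacter G) :
    conjT D (u * v) χ = conjT D u (conjT D v χ) := by
  refine Subtype.ext ?_
  show powTwist (expo D (u * v)) (χ : G → ℂ) = powTwist (expo D u) (powTwist (expo D v) (χ : G → ℂ))
  rw [powTwist_mul, powTwist_congr (expo_mul D u v)]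

theorem conjT_one (χ : IrrCharacter G) : conjT D 1 χ = χ := by
  refine Subtype.ext ?_
  show powTwist (expo D 1) (χ : G → ℂ) = χ
  rw [powTwist_congr (j := expo D 1) (k := 1), powTwist_one_nat]
  refine eq_of_modEq_both (p := p) ((expo_modEq_p D 1).trans ?_) (expo_modEq_q D 1)
  rw [Units.val_one, ZMod.val_one_eq_one_mod]
  exact Nat.mod_modEq _ _

/-- Sums over the exponents of a power of a root of unity are multiples of their number, locally. -/
theorem memLocalRing_sum_pow {M : Ideal AlgInt} [M.IsPrime] (hM : IsPModular p M) {l : ℂ}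
    (hl : l ^ Nat.card G = 1) :
    MemLocalRing M ((∑ u : (ZMod (p ^ (Nat.card G).factorization p))ˣ, l ^ expo D u) /
      (Fintype.card (ZMod (p ^ (Nat.card G).factorization p))ˣ : ℂ)) := by
  classical
  set a := (Nat.card G).factorization p
  have hint : IsIntegral ℤ l := IsIntegral.of_pow Nat.card_pos (by rw [hl]; exact isIntegral_one)
  have hsum : ∀ u : (ZMod (p ^ a))ˣ, l ^ expo D u = l ^ D.e2 * (l ^ D.e1) ^ (u : ZMod (p ^ a)).val :=
    fun u => by rw [← pow_mul, ← pow_add, expo, add_comm]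
  simp only [hsum, ← Finset.mul_sum, mul_div_assoc]
  refine memLocalRing_mul (memLocalRing_of_isIntegral (hint.pow _)) ?_
  set x := l ^ D.e1
  have hx : x ^ p ^ a = 1 := by
    have hd : Nat.card G ∣ D.e1 * p ^ a := by
      refine (Nat.modEq_zero_iff_dvd).1 (eq_of_modEq_both (p := p) ?_ ?_)
      · exact (Nat.modEq_zero_iff_dvd).2 (dvd_mul_left _ _)
      · simpa using D.e1q.mul_right (p ^ a)
    obtain ⟨c, hc⟩ := hd
    rw [← pow_mul, hc, pow_mul, hl, one_pow]
  have hxi : IsIntegral ℤ x := hint.pow _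
  rcases Nat.eq_zero_or_pos a with ha | ha
  · haveI : Subsingleton (ZMod (p ^ a))ˣ := by
      rw [ha, pow_zero]; infer_instance
    rw [Fintype.card_eq_one_iff.2 ⟨1, fun u => Subsingleton.elim _ _⟩, Nat.cast_one, div_one]
    exact memLocalRing_sum fun u _ => memLocalRing_of_isIntegral (hxi.pow _)
  obtain ⟨b, hb⟩ : ∃ b, a = b + 1 := ⟨a - 1, by omega⟩
  haveI : NeZero (p ^ a) := ⟨pow_ne_zero _ hp.out.ne_zero⟩
  -- the units are the residues prime to `p`
  have key : ∑ u : (ZMod (p ^ a))ˣ, x ^ (u : ZMod (p ^ a)).val =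
      (∑ v ∈ Finset.range (p ^ a), x ^ v) - ∑ j ∈ Finset.range (p ^ b), (x ^ p) ^ j := by
    rw [eq_sub_iff_add_eq, ← Finset.sum_filter_add_sum_filter_not (Finset.range (p ^ a))
      (fun v => ¬ p ∣ v)]
    congr 1
    · refine Finset.sum_nbij' (fun u => (u : ZMod (p ^ a)).val)
        (fun v => if h : v.Coprime (p ^ a) then ZMod.unitOfCoprime v h else 1) ?_ ?_ ?_ ?_ ?_
      · intro u _
        refine Finset.mem_filter.2 ⟨Finset.mem_range.2 (ZMod.val_lt _), ?_⟩
        rw [← hp.out.coprime_iff_not_dvd]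
        exact ((Nat.coprime_pow_right_iff ha _ _).1 (ZMod.val_coe_unit_coprime u)).symm
      · intro v _; exact Finset.mem_univ _
      · intro u _
        simp only [dif_pos (ZMod.val_coe_unit_coprime u)]
        exact Units.ext (by rw [ZMod.coe_unitOfCoprime, ZMod.natCast_zmod_val])
      · intro v hv
        obtain ⟨hv1, hv2⟩ := Finset.mem_filter.1 hv
        simp only [dif_pos (((hp.out.coprime_iff_not_dvd.2 hv2).symm).pow_right a),
          ZMod.coe_unitOfCoprime, ZMod.val_natCast]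
        exact Nat.mod_eq_of_lt (Finset.mem_range.1 hv1)
      · intro u _; rfl
    · refine Finset.sum_nbij' (fun j => p * j) (fun v => v / p) ?_ ?_ ?_ ?_ ?_
      · intro j hj
        refine Finset.mem_filter.2 ⟨Finset.mem_range.2 ?_, by simp⟩
        rw [hb, pow_succ']
        exact Nat.mul_lt_mul_of_pos_left (Finset.mem_range.1 hj) hp.out.pos
      · intro v hv
        obtain ⟨hv1, -⟩ := Finset.mem_filter.1 hv
        refine Finset.mem_range.2 (Nat.div_lt_of_lt_mul ?_)
        rw [← pow_succ', ← hb]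
        exact Finset.mem_range.1 hv1
      · intro j _; exact Nat.mul_div_cancel_left _ hp.out.pos
      · intro v hv
        exact Nat.mul_div_cancel' (not_not.1 (Finset.mem_filter.1 hv).2)
      · intro j _; rw [pow_mul]
  have hgeom : ∀ (n : ℕ) (y : ℂ), y ^ n = 1 → (∑ v ∈ Finset.range n, y ^ v) = n ∨
      (∑ v ∈ Finset.range n, y ^ v) = 0 := fun n y hy => by
    by_cases h : y = 1
    · left; simp [h]
    · right; rw [geom_sum_eq h, hy, sub_self, zero_div]
  have h2 : (x ^ p) ^ p ^ b = 1 := by rw [← pow_mul, ← pow_succ', ← hb, hx]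
  have hcard : (Fintype.card (ZMod (p ^ a))ˣ : ℂ) = (p : ℂ) ^ b * ((p - 1 : ℕ) : ℂ) := by
    rw [ZMod.card_units_eq_totient, hb, Nat.totient_prime_pow_succ hp.out]
    push_cast; ring
  rw [key, hcard]
  have hpb : (p : ℂ) ^ b ≠ 0 := pow_ne_zero _ (Nat.cast_ne_zero.2 hp.out.ne_zero)
  have hz : ∃ z : ℤ, (∑ v ∈ Finset.range (p ^ a), x ^ v) - ∑ j ∈ Finset.range (p ^ b), (x ^ p) ^ j =
      (p : ℂ) ^ b * z := by
    rcases hgeom _ x hx with h | h <;> rcases hgeom _ (x ^ p) h2 with h' | h' <;> rw [h, h']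
    · exact ⟨(p : ℤ) - 1, by rw [hb]; push_cast; ring⟩
    · exact ⟨p, by rw [hb]; push_cast; ring⟩
    · exact ⟨-1, by push_cast; ring⟩
    · exact ⟨0, by push_cast; ring⟩
  obtain ⟨z, hz⟩ := hz
  rw [hz, mul_div_mul_left _ _ hpb, div_eq_mul_inv]
  exact memLocalRing_mul (memLocalRing_intCast z) (memLocalRing_inv_natCast hM
    (Nat.not_dvd_of_pos_of_lt (by have := hp.out.two_le; omega) (by have := hp.out.pos; omega)))

/-- The conjugates of a character, as a set. -/
def orbitSet (χ : IrrCharacter G) : Set (IrrCharacter G) :=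
  {ψ | ∃ u, conjT D u χ = ψ}

theorem sum_conjT_eq (χ : IrrCharacter G) :
    ∃ c : ℕ, 0 < c ∧ c * Nat.card (orbitSet D χ) =
        Fintype.card (ZMod (p ^ (Nat.card G).factorization p))ˣ ∧
      ∀ F : IrrCharacter G → ℂ, ∑ u, F (conjT D u χ) = (c : ℂ) * ∑ᶠ ψ ∈ orbitSet D χ, F ψ := by
  classical
  haveI := Fintype.ofFinite (IrrCharacter G)
  let f := fun u => conjT D u χ
  set O := Finset.univ.image f
  have hO : orbitSet D χ = (O : Set (IrrCharacter G)) := by
    ext ψ; simp [orbitSet, O, f]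
  have hfib : ∀ ψ ∈ O, (Finset.univ.filter fun u => f u = ψ).card =
      (Finset.univ.filter fun u => f u = χ).card := by
    intro ψ hψ
    obtain ⟨v, -, rfl⟩ := Finset.mem_image.1 hψ
    refine Finset.card_bij' (fun u _ => v⁻¹ * u) (fun u _ => v * u) ?_ ?_
      (fun u _ => mul_inv_cancel_left v u) (fun u _ => inv_mul_cancel_left v u)
    · intro u hu
      refine Finset.mem_filter.2 ⟨Finset.mem_univ _, ?_⟩
      show conjT D (v⁻¹ * u) χ = χ
      rw [conjT_mul, show conjT D u χ = conjT D v χ from (Finset.mem_filter.1 hu).2, ← conjT_mul,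
        inv_mul_cancel, conjT_one]
    · intro u hu
      refine Finset.mem_filter.2 ⟨Finset.mem_univ _, ?_⟩
      show conjT D (v * u) χ = conjT D v χ
      rw [conjT_mul, show conjT D u χ = χ from (Finset.mem_filter.1 hu).2]
  refine ⟨(Finset.univ.filter fun u => f u = χ).card, ?_, ?_, fun F => ?_⟩
  · exact Finset.card_pos.2 ⟨1, Finset.mem_filter.2 ⟨Finset.mem_univ _, conjT_one D χ⟩⟩
  · rw [hO, Nat.card_coe_set_eq, Set.ncard_coe_finset, ← Finset.card_univ,
      Finset.card_eq_sum_card_image f Finset.univ, Finset.sum_congr rfl hfib, Finset.sum_const,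
      smul_eq_mul, mul_comm]
  · rw [hO, finsum_mem_coe_finset, Finset.mul_sum,
      ← Finset.sum_fiberwise_of_maps_to (g := f) (t := O) (fun u _ => Finset.mem_image_of_mem f (Finset.mem_univ u))]
    refine Finset.sum_congr rfl fun ψ hψ => ?_
    rw [Finset.sum_congr rfl (g := fun _ => F ψ)
      (fun u hu => congrArg F (Finset.mem_filter.1 hu).2), Finset.sum_const, nsmul_eq_mul, hfib ψ hψ]

/-- The sum over the exponents of the values, divided by their number, is a local integer. -/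
theorem memLocalRing_sum_apply {M : Ideal AlgInt} [M.IsPrime] (hM : IsPModular p M)
    (χ : IrrCharacter G) (g : G) :
    MemLocalRing M ((∑ u, (conjT D u χ : G → ℂ) g) /
      (Fintype.card (ZMod (p ^ (Nat.card G).factorization p))ˣ : ℂ)) := by
  haveI : NeZero (Nat.card G) := ⟨Nat.card_pos.ne'⟩
  obtain ⟨d, l, hl, hpow⟩ := CfsgLib.Jordan.exists_roots_of_isCharacter
    (CfsgLib.CharTheory.IsIrrCharacter.isCharacter χ.2) (pow_card_eq_one' (x := g))
  have h : ∀ u, (conjT D u χ : G → ℂ) g = ∑ i, l i ^ expo D u := fun u => hpow (expo D u)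
  simp only [h]
  rw [Finset.sum_comm, Finset.sum_div]
  exact memLocalRing_sum fun i _ => memLocalRing_sum_pow D hM (hl i)

theorem conjT_apply_one (u : (ZMod (p ^ (Nat.card G).factorization p))ˣ) (χ : IrrCharacter G) :
    (conjT D u χ : G → ℂ) 1 = (χ : G → ℂ) 1 :=
  congrArg (χ : G → ℂ) (one_pow _)

theorem main {M : Ideal AlgInt} (hM : IsPModular p M) (χ : IrrCharacter G) :
    (Nat.card (orbitSet D χ) * charDegree (χ : G → ℂ)).factorization p ≤
        (Nat.card G).factorization p ∧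
      (p ^ (Nat.card G).factorization p ∣ Nat.card (orbitSet D χ) * charDegree (χ : G → ℂ) →
        p ^ (Nat.card G).factorization p ∣ charDegree (χ : G → ℂ)) := by
  classical
  haveI := isPrime_of_isPModular hM
  haveI := Fintype.ofFinite (IrrCharacter G)
  set a := (Nat.card G).factorization p
  set O := orbitSet D χ
  set r := Nat.card O
  set d := charDegree (χ : G → ℂ)
  have hN : (Nat.card G : ℂ) ≠ 0 := Nat.cast_ne_zero.2 Nat.card_pos.ne'
  obtain ⟨c, hc, hcr, hcF⟩ := sum_conjT_eq D χ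
  have hd : ∀ ψ ∈ O, (ψ : G → ℂ) 1 = (d : ℂ) := by
    rintro ψ ⟨u, rfl⟩
    rw [conjT_apply_one, charDegree_cast]
  have hχO : χ ∈ O := ⟨1, conjT_one D χ⟩
  -- the sum over the conjugates, divided by their number
  have hT : ∀ g : G, MemLocalRing M ((∑ᶠ ψ ∈ O, (ψ : G → ℂ) g) / (r : ℂ)) := fun g => by
    have h := memLocalRing_sum_apply D hM χ g
    rw [hcF (fun ψ => (ψ : G → ℂ) g), ← hcr, Nat.cast_mul,
      mul_div_mul_left _ _ (Nat.cast_ne_zero.2 hc.ne')] at h
    exact h
  have hr : r ≠ 0 := by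
    haveI : Nonempty O := ⟨⟨χ, hχO⟩⟩
    exact Nat.card_pos.ne'
  have hrd : r * d ≠ 0 := mul_ne_zero hr (charDegree_ne_zero' χ)
  have hcoeff : ∀ g, blockCoeff O g =
      ((r * d : ℕ) : ℂ) / (Nat.card G : ℂ) * ((∑ᶠ ψ ∈ O, (ψ : G → ℂ) g⁻¹) / (r : ℂ)) := fun g => by
    rw [blockCoeff, finsum_mem_eq_finite_toFinset_sum _ O.toFinite,
      finsum_mem_eq_finite_toFinset_sum _ O.toFinite,
      Finset.sum_congr rfl (g := fun ψ : IrrCharacter G => (d : ℂ) * (ψ : G → ℂ) g⁻¹)
        (fun ψ hψ => by rw [hd ψ (O.toFinite.mem_toFinset.1 hψ), CfsgLib.CharTheory.IsIrrCharacter.inv ψ.2]),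
      ← Finset.mul_sum]
    push_cast
    field_simp
  -- local integrality of a ratio
  have hratio : ∀ n m : ℕ, m ≠ 0 → m.factorization p ≤ n.factorization p → n ≠ 0 →
      MemLocalRing M ((n : ℂ) / (m : ℂ)) := fun n m hm hle hn => by
    obtain ⟨e, he⟩ := (pow_dvd_pow p hle).trans (Nat.ordProj_dvd n p)
    have hm' := Nat.ordProj_mul_ordCompl_eq_self m p
    have hq : ¬ p ∣ m / p ^ m.factorization p := Nat.not_dvd_ordCompl hp.out hm
    have heq : (n : ℂ) / (m : ℂ) = (e : ℂ) * ((m / p ^ m.factorization p : ℕ) : ℂ)⁻¹ := by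
      have h1 : (n : ℂ) = ((p ^ m.factorization p : ℕ) : ℂ) * (e : ℂ) := by exact_mod_cast he
      have h2 : (m : ℂ) = ((p ^ m.factorization p : ℕ) : ℂ) * ((m / p ^ m.factorization p : ℕ) : ℂ) := by
        exact_mod_cast hm'.symm
      rw [h1]
      conv_lhs => rw [h2]
      rw [mul_div_mul_left _ _ (Nat.cast_ne_zero.2 (pow_ne_zero _ hp.out.ne_zero)), div_eq_mul_inv]
    rw [heq]
    exact memLocalRing_mul (memLocalRing_natCast e) (memLocalRing_inv_natCast hM hq)
  have hbound : (r * d).factorization p ≤ a := by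
    by_contra h
    push Not at h
    have h1 : ∀ g, MemLocalRing M (blockCoeff O g / (p : ℂ)) := fun g => by
      rw [hcoeff, mul_div_right_comm, div_div, ← Nat.cast_mul]
      refine memLocalRing_mul (hratio _ _ (mul_ne_zero Nat.card_pos.ne' hp.out.ne_zero) ?_ hrd) (hT g⁻¹)
      rw [Nat.factorization_mul Nat.card_pos.ne' hp.out.ne_zero, Finsupp.add_apply,
        hp.out.factorization_self]
      exact h
    let z : classAlg (locRing M) G := ⟨ofFun fun g => ⟨blockCoeff O g / (p : ℂ), h1 g⟩,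
      isClassElem_ofFun fun c x => Subtype.ext (by simp only [blockCoeff_conj])⟩
    have hz : (omegaLoc M χ z : ℂ) = (p : ℂ)⁻¹ := by
      rw [coe_omegaLoc, show mapRingHom G (locRing M).subtype (z : MonoidAlgebra (locRing M) G) =
        (p : ℂ)⁻¹ • blockIdem O from MonoidAlgebra.ext (Finsupp.ext fun x => by
          rw [coeff_mapRingHom]
          show blockCoeff O x / (p : ℂ) = (p : ℂ)⁻¹ * blockCoeff O x
          rw [div_eq_mul_inv, mul_comm]),
        omega_smul, omega_blockIdem_of_mem hχO, mul_one]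
    have hp' : MemLocalRing M ((p : ℂ)⁻¹) := hz ▸ (omegaLoc M χ z).2
    exact not_memLocalIdeal_one (M := M) (inv_mul_cancel₀ (show (p : ℂ) ≠ 0 from Nat.cast_ne_zero.2 hp.out.ne_zero) ▸
      memLocalIdeal_mul_left hp' ((memLocalIdeal_natCast_iff hM p).2 dvd_rfl))
  refine ⟨hbound, fun hdvd => ?_⟩
  have hfull : a ≤ (r * d).factorization p := (hp.out.pow_dvd_iff_le_factorization hrd).1 hdvd
  have hE : ∀ g, MemLocalRing M (blockCoeff O g) := fun g => by
    rw [hcoeff]
    exact memLocalRing_mul (hratio _ _ Nat.card_pos.ne' hfull hrd) (hT g⁻¹)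
  -- orthogonality for the orbit
  have horth : ∀ g h x y : G, IsPPart p g x → IsPPart p h y → ¬ IsConj x y →
      ∑ᶠ ψ ∈ O, (ψ : G → ℂ) g * (ψ : G → ℂ) h⁻¹ = 0 := by
    intro g h x y hgx hhy hne
    haveI := Fintype.ofFinite G
    rw [finsum_mem_irr_eq_sum]
    have key := sum_evalAt_mul_eq_zero hM (idemLoc M O hE : MonoidAlgebra (locRing M) G)
      (congrArg Subtype.val (idemLoc_mul_self _)) g h⁻¹ (fun x => (idemLoc M O hE).2 g x) (by
        intro z m hz
        by_contra hm
        apply hne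
        refine isConj_of_pow_eq_conj hgx hhy hm (z := z) ?_
        rw [inv_pow, mul_inv_eq_iff_eq_mul] at hz
        rw [eq_mul_inv_iff_mul_eq]
        exact hz)
    refine Eq.trans ?_ key
    refine Finset.sum_congr rfl fun ψ _ => ?_
    rw [evalAt_eq_omega_mul]
    split_ifs with hψ
    · rw [omegaLoc_idemLoc_of_mem _ hψ]; simp
    · rw [omegaLoc_idemLoc_of_notMem _ hψ]; simp
  -- values at nontrivial p-elements
  have hvan : ∀ v : G, (∃ k, orderOf v = p ^ k) → v ≠ 1 → (χ : G → ℂ) v = 0 := by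
    intro v hv hv1
    have hpart : ∀ w : G, (∃ k, orderOf w = p ^ k) → IsPPart p w w := fun w hw =>
      ⟨1, mul_one w, Commute.one_right w, hw, by rw [orderOf_one]; exact hp.out.not_dvd_one⟩
    have hT0 : ∑ᶠ ψ ∈ O, (ψ : G → ℂ) v = 0 := by
      have h := horth v 1 v 1 (hpart v hv) (hpart 1 ⟨0, by rw [orderOf_one, pow_zero]⟩)
        (fun h => hv1 (isConj_one_left.1 h))
      rw [finsum_mem_eq_finite_toFinset_sum _ O.toFinite] at h ⊢
      rw [Finset.sum_congr rfl (g := fun ψ : IrrCharacter G => (ψ : G → ℂ) v * (d : ℂ)) (fun ψ hψ => by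
        rw [inv_one, hd ψ (O.toFinite.mem_toFinset.1 hψ)]), ← Finset.sum_mul] at h
      exact (mul_eq_zero.1 h).resolve_right (Nat.cast_ne_zero.2 (charDegree_ne_zero' χ))
    -- the sum of the orthogonality relations over the powers
    have hsum : ∑ u, ∑ᶠ ψ ∈ O, (ψ : G → ℂ) v * (ψ : G → ℂ) (v ^ expo D u)⁻¹ = 0 := by
      simp only [finsum_mem_eq_finite_toFinset_sum _ O.toFinite]
      rw [Finset.sum_comm]
      refine Finset.sum_eq_zero fun ψ hψ => ?_
      rw [← Finset.mul_sum]
      refine mul_eq_zero_of_right _ ?_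
      obtain ⟨w, rfl⟩ := O.toFinite.mem_toFinset.1 hψ
      simp only [CfsgLib.CharTheory.IsIrrCharacter.inv (conjT D w χ).2]
      rw [← map_sum, map_eq_zero]
      have h1 : ∀ u, (conjT D w χ : G → ℂ) (v ^ expo D u) = (conjT D (u * w) χ : G → ℂ) v :=
        fun u => by rw [conjT_mul]; rfl
      simp only [h1]
      rw [← Equiv.sum_comp (Equiv.mulRight w⁻¹) (fun u => (conjT D (u * w) χ : G → ℂ) v)]
      simp only [Equiv.coe_mulRight, inv_mul_cancel_right]
      rw [hcF (fun ψ => (ψ : G → ℂ) v), hT0, mul_zero]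
    have hS : ∀ u, ¬ IsConj v (v ^ expo D u) →
        ∑ᶠ ψ ∈ O, (ψ : G → ℂ) v * (ψ : G → ℂ) (v ^ expo D u)⁻¹ = 0 := fun u hu => by
      obtain ⟨k, hk⟩ := hv
      refine horth v (v ^ expo D u) v (v ^ expo D u) (hpart v ⟨k, hk⟩) (hpart _ ?_) hu
      obtain ⟨i, -, hi⟩ := (Nat.dvd_prime_pow hp.out).1 (hk ▸ orderOf_pow_dvd (expo D u) :
        orderOf (v ^ expo D u) ∣ p ^ k)
      exact ⟨i, hi⟩
    have hconj : ∀ u, IsConj v (v ^ expo D u) →
        ∑ᶠ ψ ∈ O, (ψ : G → ℂ) v * (ψ : G → ℂ) (v ^ expo D u)⁻¹ =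
          ((∑ ψ ∈ O.toFinite.toFinset, Complex.normSq ((ψ : G → ℂ) v) : ℝ) : ℂ) := fun u hu => by
      obtain ⟨g, hg⟩ := isConj_iff.1 hu
      rw [finsum_mem_eq_finite_toFinset_sum _ O.toFinite]
      push_cast
      refine Finset.sum_congr rfl fun ψ _ => ?_
      rw [CfsgLib.CharTheory.IsIrrCharacter.inv ψ.2, ← hg,
        CfsgLib.CharTheory.IsIrrCharacter.isClassFunction ψ.2 v g, Complex.mul_conj]
    rw [← Finset.sum_filter_of_ne (p := fun u => IsConj v (v ^ expo D u))
      (fun u _ hne => by_contra fun hc => hne (hS u hc)),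
      Finset.sum_congr rfl (fun u hu => hconj u (Finset.mem_filter.1 hu).2), Finset.sum_const,
      nsmul_eq_mul] at hsum
    have hne : (Finset.univ.filter fun u => IsConj v (v ^ expo D u)).card ≠ 0 := by
      refine Finset.card_ne_zero.2 ⟨1, Finset.mem_filter.2 ⟨Finset.mem_univ _, ?_⟩⟩
      have h : expo D 1 ≡ 1 [MOD Nat.card G] := by
        refine eq_of_modEq_both (p := p) ((expo_modEq_p D 1).trans ?_) (expo_modEq_q D 1)
        rw [Units.val_one, ZMod.val_one_eq_one_mod]
        exact Nat.mod_modEq _ _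
      rw [pow_eq_pow_iff_modEq.2 (h.of_dvd (orderOf_dvd_natCard v)), pow_one]
    have h0 := Complex.ofReal_eq_zero.1 ((mul_eq_zero.1 hsum).resolve_left (Nat.cast_ne_zero.2 hne))
    exact Complex.normSq_eq_zero.1 ((Finset.sum_eq_zero_iff_of_nonneg
      fun ψ _ => Complex.normSq_nonneg _).1 h0 χ (O.toFinite.mem_toFinset.2 hχO))
  -- a Sylow subgroup
  obtain ⟨P⟩ := (inferInstance : Nonempty (Sylow p G))
  haveI := Fintype.ofFinite (P : Subgroup G)
  have hres := CfsgLib.Brauer.isCharacter_res (CfsgLib.CharTheory.IsIrrCharacter.isCharacter χ.2) (P : Subgroup G)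
  obtain ⟨n, hn⟩ := CfsgLib.CharTheory.exists_classInner_eq_int
    (CfsgLib.CharTheory.IsCharacter.isGeneralizedCharacter hres)
    (CfsgLib.CharTheory.IsCharacter.isGeneralizedCharacter
      (CfsgLib.CharTheory.IsIrrCharacter.isCharacter (CfsgLib.CharTheory.isIrrCharacter_one (G := (P : Subgroup G)))))
  rw [classInner, Finset.sum_eq_single (1 : (P : Subgroup G))] at hn
  · have h1 : (P : Subgroup G) → True := fun _ => trivial
    rw [map_one, mul_one, inv_mul_eq_iff_eq_mul₀ (Nat.cast_ne_zero.2 Nat.card_pos.ne'),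
      show (χ : G → ℂ) ((1 : (P : Subgroup G)) : G) = (d : ℂ) from (charDegree_cast χ).symm] at hn
    have hz : (d : ℤ) = (Nat.card (P : Subgroup G) : ℤ) * n := by exact_mod_cast hn
    rw [← P.card_eq_multiplicity]
    exact Int.natCast_dvd_natCast.1 ⟨n, hz⟩
  · intro x _ hx
    obtain ⟨k, hk⟩ := (IsPGroup.iff_orderOf.1 P.2) x
    rw [show (χ : G → ℂ) (x : G) = 0 from hvan x ⟨k, by rw [Subgroup.orderOf_coe, hk]⟩
      fun h => hx (Subtype.ext h), zero_mul]
  · exact fun h => absurd (Finset.mem_univ _) h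

/-- Let G be a finite group, p a prime, p^a the p-part of the order of G and g′ its p′-part. Call two irreducible characters p-conjugate when one is obtained from the other by applying a field automorphism of ℂ that fixes the g′-th roots of unity, and let r be the number of characters p-conjugate to the irreducible character χ (χ included). Then the exponent of p in r·χ(1) is at most a; and if p^a divides r·χ(1) then p^a already divides χ(1). -/
theorem result {G : Type*} [Group G] [Finite G] (p : ℕ) (hp : p.Prime) (χ : Cfsg.IrrCharacter G) (r : ℕ) (hr : Nat.card {ψ : Cfsg.IrrCharacter G // ∃ σ : ℂ ≃+* ℂ, σ (Complex.exp (2 * Real.pi * Complex.I / ((Nat.card G / p ^ (Nat.card G).factorization p) : ℕ))) = Complex.exp (2 * Real.pi * Complex.I / ((Nat.card G / p ^ (Nat.card G).factorization p) : ℕ)) ∧ (ψ : G → ℂ) = fun g => σ ((χ : G → ℂ) g)} = r) : (r * Cfsg.charDegree (χ : G → ℂ)).factorization p ≤ (Nat.card G).factorization p ∧ (p ^ (Nat.card G).factorization p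 ∣ r * Cfsg.charDegree (χ : G → ℂ) → p ^ (Nat.card G).factorization p ∣ Cfsg.charDegree (χ : G → ℂ)) := by
  haveI : Fact p.Prime := ⟨hp⟩
  haveI : NeZero (Nat.card G) := ⟨Nat.card_pos.ne'⟩
  obtain ⟨D⟩ := exists_expData (p := p) (Nat.card_pos (α := G)).ne'
  obtain ⟨M, hM⟩ := exists_isPModular_of_prime hp
  set a := (Nat.card G).factorization p
  set q := Nat.card G / p ^ a
  have hq0 : q ≠ 0 := (Nat.ordCompl_pos p Nat.card_pos.ne').ne'
  set ω := Complex.exp (2 * Real.pi * Complex.I / (q : ℕ))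
  have hω : IsPrimitiveRoot ω q := Complex.isPrimitiveRoot_exp q hq0
  have hmod : ∀ t : ℕ, ω ^ t = ω ↔ t ≡ 1 [MOD q] := fun t => by
    have h1 : ∀ k : ℕ, ω ^ k = ω ^ (k % q) := fun k => by
      rw [hω.eq_orderOf, pow_mod_orderOf]
    constructor
    · intro h
      refine hω.pow_inj (Nat.mod_lt _ (Nat.pos_of_ne_zero hq0)) (Nat.mod_lt _ (Nat.pos_of_ne_zero hq0)) ?_
      rw [← h1, ← h1, pow_one, h]
    · intro h
      rw [h1, show t % q = 1 % q from h, ← h1, pow_one]
  have hset : orbitSet D χ = {ψ : IrrCharacter G | ∃ σ : ℂ ≃+* ℂ, σ ω = ω ∧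
      (ψ : G → ℂ) = fun g => σ ((χ : G → ℂ) g)} := by
    ext ψ
    constructor
    · rintro ⟨u, rfl⟩
      obtain ⟨σ, hσ⟩ := CfsgLib.CharDegreesTheory.exists_ringAut_complex (Nat.card G) (expo D u)
        (expo_coprime D u)
      refine ⟨σ, ?_, funext fun g => ?_⟩
      · rw [hσ ω ((hω.pow_eq_one_iff_dvd _).2 (Nat.ordCompl_dvd _ _))]
        exact (hmod _).2 (expo_modEq_q D u)
      · obtain ⟨d, l, hl, hpow⟩ := CfsgLib.Jordan.exists_roots_of_isCharacter
          (CfsgLib.CharTheory.IsIrrCharacter.isCharacter χ.2) (pow_card_eq_one' (x := g))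
        show (χ : G → ℂ) (g ^ expo D u) = σ ((χ : G → ℂ) g)
        rw [hpow, show (χ : G → ℂ) g = ∑ i, l i by simpa using hpow 1, map_sum]
        exact Finset.sum_congr rfl fun i _ => (hσ _ (hl i)).symm
    · rintro ⟨σ, hσω, hψ⟩
      let ζ := Complex.exp (2 * Real.pi * Complex.I / (Nat.card G : ℕ))
      have hζ : IsPrimitiveRoot ζ (Nat.card G) := Complex.isPrimitiveRoot_exp _ Nat.card_pos.ne'
      have hσζ : IsPrimitiveRoot (σ ζ) (Nat.card G) := hζ.map_of_injective σ.injective
      obtain ⟨t, -, ht⟩ := hζ.eq_pow_of_pow_eq_one hσζ.pow_eq_one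
      have htN : t.Coprime (Nat.card G) := (hζ.pow_iff_coprime Nat.card_pos _).1 (ht ▸ hσζ)
      have hall : ∀ z : ℂ, z ^ Nat.card G = 1 → σ z = z ^ t := fun z hz => by
        obtain ⟨i, -, rfl⟩ := hζ.eq_pow_of_pow_eq_one hz
        rw [map_pow, ← ht, ← pow_mul, ← pow_mul, mul_comm]
      have htq : t ≡ 1 [MOD q] := by
        rw [← hmod, ← hall ω ((hω.pow_eq_one_iff_dvd _).2 (Nat.ordCompl_dvd _ _)), hσω]
      haveI : NeZero (p ^ a) := ⟨pow_ne_zero _ hp.ne_zero⟩
      have htp : t.Coprime (p ^ a) := htN.coprime_dvd_right (Nat.ordProj_dvd _ _)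
      refine ⟨ZMod.unitOfCoprime t htp, Subtype.ext ?_⟩
      show powTwist (expo D (ZMod.unitOfCoprime t htp)) (χ : G → ℂ) = (ψ : G → ℂ)
      rw [powTwist_congr (k := t), hψ]
      · funext g
        obtain ⟨d, l, hl, hpow⟩ := CfsgLib.Jordan.exists_roots_of_isCharacter
          (CfsgLib.CharTheory.IsIrrCharacter.isCharacter χ.2) (pow_card_eq_one' (x := g))
        show (χ : G → ℂ) (g ^ t) = σ ((χ : G → ℂ) g)
        rw [hpow, show (χ : G → ℂ) g = ∑ i, l i by simpa using hpow 1, map_sum]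
        exact Finset.sum_congr rfl fun i _ => (hall _ (hl i)).symm
      · refine eq_of_modEq_both (p := p) ((expo_modEq_p D _).trans ?_) ((expo_modEq_q D _).trans htq.symm)
        rw [ZMod.coe_unitOfCoprime, ZMod.val_natCast]
        exact Nat.mod_modEq _ _
  have hrc : Nat.card (orbitSet D χ) = r := by rw [hset]; exact hr
  rw [← hrc]
  exact main D hM χ

end Cfsg.Agent.S4506
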