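import Cfsg.Statements.S4507
import Cfsg.Agent.Lib.DefectOne.Exceptional

set_option autoImplicit false
open Cfsg

namespace Cfsg.Agent.S4507

/-- Let G be a finite group whose order g is divisible by the prime p exactly once, g′ = g/p, and fix a maximal ideal M of the algebraic integers containing p. Call two irreducible characters p-conjugate when a field automorphism of ℂ fixing the g′-th roots of unity carries one to the other. Let B be a p-block of positive defect (its defect group is a Sylow p-subgroup). Then B contains a subset Y (the exceptional family) such that: Y is a full p-conjugacy class (its members are pairwise p-conjugate and every p-conjugate of a member of Y lies in Y); every member of B outside Y is p-conjugate only to itself; the size t of Y divides p − 1 and B has exactly t + (p − 1)/t members; and there are signs δ_χ = ±1 (χ ∈ B) such that for every p-regular element x and every θ ∈ Y, Σ_{χ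 ∈ B ∖ Y} δ_χ χ(x) + δ_θ θ(x) = 0. -/
theorem result {G : Type*} [Group G] [Finite G] (p : ℕ) [Fact p.Prime] (M : Ideal Cfsg.AlgInt) (hM : Cfsg.IsPModular p M) (hdiv : p ∣ Nat.card G) (hsq : ¬ p ^ 2 ∣ Nat.card G) (B : Set (Cfsg.IrrCharacter G)) (hB : Cfsg.IsPBlock M B) (hd : 0 < Cfsg.blockDefect p B) : ∃ Y : Set (Cfsg.IrrCharacter G), Y ⊆ B ∧ Y.Nonempty ∧ (∀ θ ∈ Y, ∀ ψ : Cfsg.IrrCharacter G, (∃ σ : ℂ ≃+* ℂ, σ (Complex.exp (2 * Real.pi * Complex.I / ((Nat.card G / p ^ (Nat.card G).factorization p) : ℕ))) = Complex.exp (2 * Real.pi * Complex.I / ((Nat.card G / p ^ (Nat.card G).factorization p) : ℕ)) ∧ (ψ : G → ℂ) = fun g => σ ((θ : G → ℂ) g)) ↔ ψ ∈ Y) ∧ (∀ χ ∈ B, χ ∉ Y → ∀ ψ : Cfsg.IrrCharacter G, (∃ σ : ℂ ≃+* ℂ, σ (Complex.exp (2 * Real.pi * Complex.I / ((Nat.card G / p ^ (Nat.card G).factorization p) : ℕ))) = Complex.exp (2 * Real.pi * Complex.I / ((Nat.card G / p ^ (Nat.card G).factorization p) : ℕ)) ∧ (ψ : G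 → ℂ) = fun g => σ ((χ : G → ℂ) g)) → ψ = χ) ∧ Nat.card Y ∣ p - 1 ∧ Nat.card B = Nat.card Y + (p - 1) / Nat.card Y ∧ ∃ δ : Cfsg.IrrCharacter G → ℤ, (∀ χ ∈ B, δ χ = 1 ∨ δ χ = -1) ∧ ∀ x : G, ¬ p ∣ orderOf x → ∀ θ ∈ Y, (∑ᶠ χ ∈ B \ Y, (δ χ : ℂ) * (χ : G → ℂ) x) + (δ θ : ℂ) * (θ : G → ℂ) x = 0 := by
  haveI := Fintype.ofFinite G
  haveI := CfsgLib.Blocks.isPrime_of_isPModular hM
  have hG : CfsgLib.DefectOne.ExactPrime G p := ⟨Fact.out, hdiv, hsq⟩
  have hf : (Nat.card G).factorization p = 1 := by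
    refine le_antisymm ?_ (hG.prime.factorization_pos_of_dvd Nat.card_pos.ne' hG.dvd)
    by_contra h
    push Not at h
    exact hG.sq ((hG.prime.pow_dvd_iff_le_factorization Nat.card_pos.ne').2 h)
  rw [hf, pow_one]
  obtain ⟨u, hu⟩ := exists_prime_orderOf_dvd_card' (G := G) p hdiv
  obtain ⟨S, -⟩ := CfsgLib.DefectOne.exists_sect hG hu
  obtain ⟨φ, rfl⟩ := CfsgLib.DefectOne.exists_block_eq hG S hM hB hd
  obtain ⟨δ, hδ, hδ1⟩ := CfsgLib.DefectOne.exists_sign hG S hM φ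
  obtain ⟨θ₀, hθ₀, hθe, hsub, hfix, hY, hcard, -⟩ := CfsgLib.DefectOne.exists_exceptional hG S hM φ
  have he := CfsgLib.DefectOne.rowE_dvd hG S φ
  have hYn : Nat.card ↥(CfsgLib.DefectOne.galOrb hG θ₀ : Set (Cfsg.IrrCharacter G))
      = (p - 1) / CfsgLib.DefectOne.rowE S φ := by
    rw [Nat.card_coe_set_eq, Set.ncard_coe_finset, hY]
  refine ⟨↑(CfsgLib.DefectOne.galOrb hG θ₀), hsub, ⟨θ₀, CfsgLib.DefectOne.mem_galOrb_self hG θ₀⟩,
    fun θ hθ ψ => ⟨?_, fun hψ => ?_⟩, ?_, ?_, ?_, δ, fun χ hχ => hδ1 χ hχ, fun x hx θ hθ => ?_⟩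
  · rintro ⟨σ, hσ, hψ⟩
    obtain ⟨k, hk⟩ := CfsgLib.DefectOne.exists_gal_of_sigma hG σ hσ
    have : ψ = CfsgLib.DefectOne.gal hG k θ := Subtype.ext (hψ.trans (funext (hk θ)))
    rw [this]
    exact CfsgLib.DefectOne.gal_mem_galOrb hG hθ k
  · rw [Finset.mem_coe, ← CfsgLib.DefectOne.galOrb_eq hG hθ, CfsgLib.DefectOne.mem_galOrb] at hψ
    obtain ⟨k, rfl⟩ := hψ
    obtain ⟨σ, hσ, hk⟩ := CfsgLib.DefectOne.exists_sigma_of_gal hG k
    exact ⟨σ, hσ, hk θ⟩
  · rintro χ hχ hχY ψ ⟨σ, hσ, hψ⟩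
    obtain ⟨k, hk⟩ := CfsgLib.DefectOne.exists_gal_of_sigma hG σ hσ
    have : ψ = CfsgLib.DefectOne.gal hG k χ := Subtype.ext (hψ.trans (funext (hk χ)))
    rw [this, CfsgLib.DefectOne.gal_eq_of_galStab hG (hfix χ hχ hχY)]
  · rw [hYn]
    exact Nat.div_dvd_of_dvd he
  · rw [hYn, hcard, Nat.div_div_self he (by have := hG.prime.two_le; omega), add_comm]
  · have h := CfsgLib.DefectOne.relation hG S hθe hsub hfix hθ hx
    simp only [hδ] at h
    have h' : δ θ = δ θ₀ := by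
      have := CfsgLib.DefectOne.rowT_eq hG S hθ φ
      rw [hδ, hδ] at this
      exact_mod_cast this
    rw [h']
    simpa only [hδ] using h

end Cfsg.Agent.S4507
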