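import Cfsg.Statements.S4508
import Cfsg.Agent.Lib.ZerosCodegree.SelfCentralDet

set_option autoImplicit false
open Cfsg

namespace Cfsg.Agent.S4508

/-- Let the finite group G contain an element x of prime order p with C_G(x) = ⟨x⟩, and let t be the number of conjugacy classes of elements of order p. If G has an irreducible character of degree p − 1, then t is even or the commutator subgroup has even index. -/
theorem result {G : Type*} [Group G] [Finite G] (p : ℕ) (hp : p.Prime) (x : G) (hx : orderOf x = p) (hC : Subgroup.centralizer ({x} : Set G) = Subgroup.zpowers x) (t : ℕ) (ht : Nat.card {C : ConjClasses G // ∃ g ∈ C.carrier, orderOf g = p} = t) (χ : Cfsg.IrrCharacter G) (hχ : Cfsg.charDegree (χ : G → ℂ) + 1 = p) : Even t ∨ Even (commutator G).index := by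
  classical
  haveI : Fintype G := Fintype.ofFinite G
  have h : CfsgLib.ZerosCodegree.SelfCentral p x := ⟨hp, hx, hC⟩
  by_cases ht2 : Even t
  · exact Or.inl ht2
  right
  rcases eq_or_ne p 2 with rfl | hp2
  · exact h.even_index_commutator_two
  · exact h.even_index_commutator hp2 ht ht2 χ hχ

end Cfsg.Agent.S4508
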