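import Cfsg.Statements.S4509
import Mathlib.GroupTheory.Transfer
import Mathlib.GroupTheory.Solvable
-- import your own Cfsg.Agent.* helpers here

set_option autoImplicit false
open Cfsg
open scoped commutatorElement

namespace Cfsg.Agent.S4509

theorem card_eq_mul_of_fibres {α β : Type*} [Finite α] [Finite β] (f : α → β) (k : ℕ)
    (h : ∀ b, Nat.card {a // f a = b} = k) : Nat.card α = Nat.card β * k := by
  haveI := Fintype.ofFinite β
  rw [← Nat.card_congr (Equiv.sigmaFiberEquiv f), Nat.card_sigma, Finset.sum_congr rfl fun b _ => h b,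
    Finset.sum_const, Finset.card_univ, smul_eq_mul, Nat.card_eq_fintype_card]

section
variable {G : Type*} [Group G] [Finite G] {p : ℕ} [hp : Fact p.Prime] {x : G}

theorem zpowers_eq_of_mem (hx : orderOf x = p) {y : G} (hy : y ∈ Subgroup.zpowers x) (hy1 : y ≠ 1) :
    Subgroup.zpowers y = Subgroup.zpowers x := by
  refine Subgroup.eq_of_le_of_card_ge (Subgroup.zpowers_le.mpr hy) ?_
  rw [Nat.card_zpowers, Nat.card_zpowers, hx]
  have hd : orderOf y ∣ p := by
    have := Subgroup.card_dvd_of_le (Subgroup.zpowers_le.mpr hy)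
    rwa [Nat.card_zpowers, Nat.card_zpowers, hx] at this
  rcases (Nat.dvd_prime hp.out).mp hd with h | h
  · exact absurd (orderOf_eq_one_iff.mp h) hy1
  · exact h.ge

theorem exists_sylow_eq (hx : orderOf x = p) (hC : ∀ g, g * x = x * g → g ∈ Subgroup.zpowers x) :
    ∃ P : Sylow p G, (P : Subgroup G) = Subgroup.zpowers x := by
  have hpg : IsPGroup p (Subgroup.zpowers x) :=
    IsPGroup.of_card (n := 1) (by rw [Nat.card_zpowers, hx, pow_one])
  obtain ⟨S, hS⟩ := hpg.exists_le_sylow
  refine ⟨S, le_antisymm ?_ hS⟩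
  haveI : Nontrivial (S : Subgroup G) := by
    refine ⟨⟨⟨x, hS (Subgroup.mem_zpowers x)⟩, 1, fun h => ?_⟩⟩
    have : x = 1 := congrArg Subtype.val h
    rw [this, orderOf_one] at hx
    exact hp.out.one_lt.ne hx
  haveI := S.isPGroup'.center_nontrivial
  obtain ⟨z, hz⟩ := exists_ne (1 : Subgroup.center (S : Subgroup G))
  have hz1 : ((z : (S : Subgroup G)) : G) ≠ 1 := fun h => hz (Subtype.ext (Subtype.ext h))
  have hzP : ((z : (S : Subgroup G)) : G) ∈ Subgroup.zpowers x := hC _
    (congrArg Subtype.val (Subgroup.mem_center_iff.mp z.2 ⟨x, hS (Subgroup.mem_zpowers x)⟩)).symm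
  intro g hg
  refine hC g ?_
  have hx' : x ∈ Subgroup.zpowers ((z : (S : Subgroup G)) : G) := by
    rw [zpowers_eq_of_mem hx hzP hz1]; exact Subgroup.mem_zpowers x
  obtain ⟨i, hi⟩ := Subgroup.mem_zpowers_iff.mp hx'
  have h1 : Commute g ((z : (S : Subgroup G)) : G) :=
    congrArg Subtype.val (Subgroup.mem_center_iff.mp z.2 ⟨g, hg⟩)
  rw [← hi]
  exact (h1.zpow_right i).eq

theorem conj_mem_normalizer (hx : orderOf x = p) {y g : G} (hy : y ∈ Subgroup.zpowers x) (hy1 : y ≠ 1)
    (hg : g * y * g⁻¹ ∈ Subgroup.zpowers x) :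
    g ∈ Subgroup.normalizer (Subgroup.zpowers x : Set G) := by
  refine Subgroup.mem_normalizer_fintype fun n hn => ?_
  rw [SetLike.mem_coe, ← zpowers_eq_of_mem hx hy hy1] at hn
  obtain ⟨i, rfl⟩ := Subgroup.mem_zpowers_iff.mp hn
  rw [← conj_zpow]
  exact Subgroup.zpow_mem _ hg i

theorem comm_mem (hC : ∀ g, g * x = x * g → g ∈ Subgroup.zpowers x) {a b : G}
    (ha : a ∈ Subgroup.normalizer (Subgroup.zpowers x : Set G))
    (hb : b ∈ Subgroup.normalizer (Subgroup.zpowers x : Set G)) :
    ⁅a, b⁆ ∈ Subgroup.zpowers x := by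
  obtain ⟨i, hi⟩ := Subgroup.mem_zpowers_iff.mp
    ((Subgroup.mem_normalizer_iff.mp ha x).mp (Subgroup.mem_zpowers x))
  obtain ⟨j, hj⟩ := Subgroup.mem_zpowers_iff.mp
    ((Subgroup.mem_normalizer_iff.mp hb x).mp (Subgroup.mem_zpowers x))
  apply hC
  have h1 : (a * b) * x * (a * b)⁻¹ = (b * a) * x * (b * a)⁻¹ := by
    rw [show (a * b) * x * (a * b)⁻¹ = a * (b * x * b⁻¹) * a⁻¹ by group, ← hj, ← conj_zpow, ← hi,
      show (b * a) * x * (b * a)⁻¹ = b * (a * x * a⁻¹) * b⁻¹ by group, ← hi, ← conj_zpow, ← hj,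
      ← zpow_mul, ← zpow_mul, mul_comm]
  have h2 : (b * a)⁻¹ * (a * b) * x = x * ((b * a)⁻¹ * (a * b)) := by
    have := congrArg (fun y => (b * a)⁻¹ * y * (a * b)) h1
    simpa [mul_assoc] using this
  have h3 : (b * a)⁻¹ * (a * b) ∈ Subgroup.zpowers x := hC _ h2
  have h4 : ⁅a, b⁆ = (b * a) * ((b * a)⁻¹ * (a * b)) * (b * a)⁻¹ := by
    rw [commutatorElement_def]; group
  have h5 : ⁅a, b⁆ ∈ Subgroup.zpowers x := by
    rw [h4]
    exact (Subgroup.mem_normalizer_iff.mp (mul_mem hb ha) _).mp h3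
  obtain ⟨k, hk⟩ := Subgroup.mem_zpowers_iff.mp h5
  rw [← hk]
  exact ((Commute.refl x).zpow_left k).eq

theorem exists_eq_commutator (hx : orderOf x = p) (hC : ∀ g, g * x = x * g → g ∈ Subgroup.zpowers x)
    (S : Subgroup G) [hS : S.Normal] (hcop : ¬ p ∣ Nat.card S) {s : G} (hs : s ∈ S) :
    ∃ u ∈ S, s = ⁅x, u⁆ := by
  have hm : ∀ u : S, ⁅x, (u : G)⁆ ∈ S := fun u => by
    rw [commutatorElement_def]
    exact mul_mem (hS.conj_mem _ u.2 x) (inv_mem u.2)
  let f : S → S := fun u => ⟨⁅x, (u : G)⁆, hm u⟩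
  have hinj : Function.Injective f := by
    intro u v huv
    have h : ⁅x, (u : G)⁆ = ⁅x, (v : G)⁆ := congrArg Subtype.val huv
    have h' : (v : G)⁻¹ * u * x = x * ((v : G)⁻¹ * u) := by
      rw [commutatorElement_def, commutatorElement_def] at h
      have := congrArg (fun y => x * (v : G)⁻¹ * x⁻¹ * y * (u : G) * x) h
      simpa [mul_assoc] using this.symm
    have hd : Disjoint (Subgroup.zpowers x) S := Subgroup.disjoint_of_coprime_natCard
      (by rw [Nat.card_zpowers, hx]; exact hp.out.coprime_iff_not_dvd.mpr hcop)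
    have := Subgroup.disjoint_def.mp hd (hC _ h') (mul_mem (inv_mem v.2) u.2)
    exact Subtype.ext (inv_mul_eq_one.mp this).symm
  obtain ⟨u, hu⟩ := (Finite.injective_iff_surjective.mp hinj) ⟨s, hs⟩
  exact ⟨u, u.2, (congrArg Subtype.val hu).symm⟩

theorem card_order_p_subgroups (hx : orderOf x = p) (P : Sylow p G)
    (hP : (P : Subgroup G) = Subgroup.zpowers x) :
    Nat.card {H : Subgroup G // Nat.card H = p} =
      (Subgroup.normalizer (Subgroup.zpowers x : Set G)).index := by
  have hm : p ^ (Nat.card G).factorization p = p := by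
    rw [← P.card_eq_multiplicity, hP, Nat.card_zpowers, hx]
  rw [← hP]
  refine Eq.trans ?_ P.card_eq_index_normalizer
  refine Nat.card_congr ⟨fun H => Sylow.ofCard H.1 (by rw [H.2, hm]),
    fun Q => ⟨Q, by rw [Q.card_eq_multiplicity, hm]⟩, fun H => Subtype.ext rfl, fun Q => Sylow.ext rfl⟩

theorem classes_mul (hx : orderOf x = p) (hC : ∀ g, g * x = x * g → g ∈ Subgroup.zpowers x)
    (P : Sylow p G) (hP : (P : Subgroup G) = Subgroup.zpowers x) :
    Nat.card {C : ConjClasses G // ∃ g ∈ C.carrier, orderOf g = p} *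
      Nat.card (Subgroup.normalizer (Subgroup.zpowers x : Set G)) = (p - 1) * p := by
  classical
  have hord : ∀ y : {y : G // y ∈ Subgroup.zpowers x ∧ y ≠ 1}, orderOf y.1 = p := fun y => by
    rw [← Nat.card_zpowers, zpowers_eq_of_mem hx y.2.1 y.2.2, Nat.card_zpowers, hx]
  let F : {y : G // y ∈ Subgroup.zpowers x ∧ y ≠ 1} →
      {C : ConjClasses G // ∃ g ∈ C.carrier, orderOf g = p} :=
    fun y => ⟨ConjClasses.mk y.1, y.1, ConjClasses.mem_carrier_mk, hord y⟩
  have hdom : Nat.card {y : G // y ∈ Subgroup.zpowers x ∧ y ≠ 1} = p - 1 := by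
    have e : {y : G // y ∈ Subgroup.zpowers x ∧ y ≠ 1} ≃ {y : Subgroup.zpowers x // y ≠ 1} :=
      ⟨fun y => ⟨⟨y.1, y.2.1⟩, fun h => y.2.2 (congrArg Subtype.val h)⟩,
        fun y => ⟨y.1, y.1.2, fun h => y.2 (Subtype.ext h)⟩, fun _ => rfl, fun _ => rfl⟩
    haveI := Fintype.ofFinite (Subgroup.zpowers x)
    rw [Nat.card_congr e, Nat.card_eq_fintype_card, Fintype.card_subtype_compl,
      Fintype.card_subtype_eq, ← Nat.card_eq_fintype_card, Nat.card_zpowers, hx]
  have hsurj : ∀ C, ∃ y, F y = C := by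
    rintro ⟨C, g, hg, hgo⟩
    have hpg : IsPGroup p (Subgroup.zpowers g) :=
      IsPGroup.of_card (n := 1) (by rw [Nat.card_zpowers, hgo, pow_one])
    obtain ⟨Q, hQ⟩ := hpg.exists_le_sylow
    obtain ⟨a, ha⟩ := MulAction.exists_smul_eq G Q P
    have hy : a * g * a⁻¹ ∈ Subgroup.zpowers x := by
      rw [← hP, ← ha, Sylow.coe_subgroup_smul]
      exact Subgroup.smul_mem_pointwise_smul _ (MulAut.conj a) _ (hQ (Subgroup.mem_zpowers g))
    refine ⟨⟨a * g * a⁻¹, hy, ?_⟩, Subtype.ext ?_⟩
    · intro h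
      rw [mul_inv_eq_one] at h
      rw [mul_eq_left.mp h, orderOf_one] at hgo
      exact hp.out.one_lt.ne hgo
    · show ConjClasses.mk (a * g * a⁻¹) = C
      rw [ConjClasses.mem_carrier_iff_mk_eq] at hg
      rw [← hg]
      exact ConjClasses.mk_eq_mk_iff_isConj.mpr (IsConj.symm (isConj_iff.mpr ⟨a, rfl⟩))
  let N := Subgroup.normalizer (Subgroup.zpowers x : Set G)
  have hfib : ∀ C, Nat.card {y // F y = C} * p = Nat.card N := by
    intro C
    obtain ⟨y, rfl⟩ := hsurj C
    let φ : N → {z // F z = F y} := fun n =>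
      ⟨⟨n * y.1 * (n : G)⁻¹, (Subgroup.mem_normalizer_iff.mp n.2 y.1).mp y.2.1,
        fun h => y.2.2 (by rw [mul_inv_eq_one] at h; exact mul_eq_left.mp h)⟩,
        Subtype.ext (ConjClasses.mk_eq_mk_iff_isConj.mpr (IsConj.symm (isConj_iff.mpr ⟨n, rfl⟩)))⟩
    have hφ : ∀ z, Nat.card {n // φ n = z} = p := by
      intro z
      obtain ⟨g, hg⟩ := isConj_iff.mp
        (ConjClasses.mk_eq_mk_iff_isConj.mp (congrArg Subtype.val z.2)).symm
      have hgN : g ∈ N := conj_mem_normalizer hx y.2.1 y.2.2 (by rw [hg]; exact z.1.2.1)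
      obtain ⟨i, hi⟩ := Subgroup.mem_zpowers_iff.mp (show x ∈ Subgroup.zpowers y.1 by
        rw [zpowers_eq_of_mem hx y.2.1 y.2.2]; exact Subgroup.mem_zpowers x)
      have hpp : Nat.card (Subgroup.zpowers x) = p := by rw [Nat.card_zpowers, hx]
      refine (Nat.card_congr ?_).trans hpp
      refine Equiv.ofBijective (fun n => ⟨g⁻¹ * (n.1 : G), ?_⟩) ⟨fun a b h => ?_, fun w => ?_⟩
      · have h1 : (n.1 : G) * y.1 * (n.1 : G)⁻¹ = z.1.1 :=
          congrArg (fun q => (q.1 : {y : G // y ∈ Subgroup.zpowers x ∧ y ≠ 1}).1) n.2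
        have h2 : Commute (g⁻¹ * (n.1 : G)) y.1 := by
          rw [← hg] at h1
          have := congrArg (fun q => g⁻¹ * q * (n.1 : G)) h1
          simpa [Commute, SemiconjBy, mul_assoc] using this
        have h3 := (h2.zpow_right i).eq
        rw [hi] at h3
        exact hC _ h3
      · exact Subtype.ext (Subtype.ext (mul_left_cancel (congrArg Subtype.val h)))
      · refine ⟨⟨⟨g * w.1, mul_mem hgN (Subgroup.le_normalizer w.2)⟩, ?_⟩, Subtype.ext (by simp)⟩
        apply Subtype.ext; apply Subtype.ext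
        show g * w.1 * y.1 * (g * w.1)⁻¹ = z.1.1
        obtain ⟨k, hk⟩ := Subgroup.mem_zpowers_iff.mp w.2
        obtain ⟨l, hl⟩ := Subgroup.mem_zpowers_iff.mp y.2.1
        have hc : Commute (w : G) y.1 := by
          rw [← hk, ← hl]; exact ((Commute.refl x).zpow_left k).zpow_right l
        rw [← hg, mul_assoc g, hc.eq]
        group
    exact (card_eq_mul_of_fibres φ p hφ).symm
  have hNp : p ∣ Nat.card N := by
    have := Subgroup.card_dvd_of_le (Subgroup.le_normalizer : Subgroup.zpowers x ≤ N)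
    rwa [Nat.card_zpowers, hx] at this
  obtain ⟨e, he⟩ := hNp
  have hk : ∀ C, Nat.card {y // F y = C} = e := fun C =>
    Nat.eq_of_mul_eq_mul_right hp.out.pos ((hfib C).trans (by rw [he, mul_comm]))
  have h := card_eq_mul_of_fibres F e hk
  rw [hdom] at h
  show _ * Nat.card N = _
  rw [he, h]
  ring

theorem not_dvd_index (P : Sylow p G) (hP : (P : Subgroup G) = Subgroup.zpowers x) :
    ¬ p ∣ (Subgroup.zpowers x).index := by
  rw [← hP]; exact P.not_dvd_index

theorem commutator_eq_of_self_normalizing (hx : orderOf x = p)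
    (hC : ∀ g, g * x = x * g → g ∈ Subgroup.zpowers x)
    (P : Sylow p G) (hP : (P : Subgroup G) = Subgroup.zpowers x)
    (hN : Subgroup.normalizer (Subgroup.zpowers x : Set G) = Subgroup.zpowers x) :
    Nat.card (commutator G) = (Subgroup.zpowers x).index ∧ IsCyclic (G ⧸ commutator G) ∧
      (commutator G).index = p := by
  have hle : Subgroup.normalizer ((P : Subgroup G) : Set G) ≤ Subgroup.centralizer ((P : Subgroup G) : Set G) := by
    rw [hP, hN]
    intro g hg
    rw [Subgroup.mem_centralizer_iff]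
    intro h hh
    obtain ⟨i, rfl⟩ := Subgroup.mem_zpowers_iff.mp hh
    obtain ⟨j, rfl⟩ := Subgroup.mem_zpowers_iff.mp hg
    exact ((Commute.refl x).zpow_left i).zpow_right j
  let K := (MonoidHom.transferSylow P hle).ker
  have hK : K.IsComplement' (P : Subgroup G) := MonoidHom.ker_transferSylow_isComplement' P hle
  have hKi : K.index = p := by
    rw [hK.symm.index_eq_card, hP, Nat.card_zpowers, hx]
  have hKc : Nat.card K = (Subgroup.zpowers x).index := by rw [← hK.index_eq_card, hP]
  haveI : IsCyclic (G ⧸ K) := isCyclic_of_prime_card (p := p) hKi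
  have heq : commutator G = K := by
    refine le_antisymm (Subgroup.Normal.quotient_commutative_iff_commutator_le.mp inferInstance) ?_
    intro k hk
    obtain ⟨u, _, rfl⟩ := exists_eq_commutator hx hC K (MonoidHom.not_dvd_card_ker_transferSylow P hle) hk
    exact Subgroup.commutator_mem_commutator (Subgroup.mem_top _) (Subgroup.mem_top _)
  have hi : (commutator G).index = p := by rw [heq]; exact hKi
  refine ⟨by rw [heq]; exact hKc, isCyclic_of_prime_card (p := p) hi, hi⟩

theorem mem_commutator_of_normalizer_ne (hx : orderOf x = p)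
    (hC : ∀ g, g * x = x * g → g ∈ Subgroup.zpowers x)
    (hN : Subgroup.normalizer (Subgroup.zpowers x : Set G) ≠ Subgroup.zpowers x) :
    Subgroup.zpowers x ≤ commutator G := by
  obtain ⟨n, hn, hnx⟩ : ∃ n ∈ Subgroup.normalizer (Subgroup.zpowers x : Set G), n ∉ Subgroup.zpowers x := by
    by_contra h
    push_neg at h
    exact hN (le_antisymm h Subgroup.le_normalizer)
  have h1 : ⁅n, x⁆ ∈ Subgroup.zpowers x :=
    comm_mem hC hn (Subgroup.le_normalizer (Subgroup.mem_zpowers x))
  have h2 : ⁅n, x⁆ ≠ 1 := fun h => hnx (hC n (commutatorElement_eq_one_iff_mul_comm.mp h))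
  rw [← zpowers_eq_of_mem hx h1 h2, Subgroup.zpowers_le]
  exact Subgroup.commutator_mem_commutator (Subgroup.mem_top _) (Subgroup.mem_top _)

theorem inf_normalizer_eq_bot (hx : orderOf x = p) (hC : ∀ g, g * x = x * g → g ∈ Subgroup.zpowers x)
    (S : Subgroup G) [hS : S.Normal] (hcop : ¬ p ∣ Nat.card S) :
    S ⊓ Subgroup.normalizer (Subgroup.zpowers x : Set G) = ⊥ := by
  rw [Subgroup.eq_bot_iff_forall]
  rintro s ⟨hs, hn⟩
  have hd : Disjoint (Subgroup.zpowers x) S := Subgroup.disjoint_of_coprime_natCard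
    (by rw [Nat.card_zpowers, hx]; exact hp.out.coprime_iff_not_dvd.mpr hcop)
  have h1 : ⁅x, s⁆ ∈ S := by
    rw [commutatorElement_def]; exact mul_mem (hS.conj_mem _ hs x) (inv_mem hs)
  have h2 := Subgroup.disjoint_def.mp hd
    (comm_mem hC (Subgroup.le_normalizer (Subgroup.mem_zpowers x)) hn) h1
  exact Subgroup.disjoint_def.mp hd (hC s (commutatorElement_eq_one_iff_mul_comm.mp h2).symm) hs

theorem second_derived_le (hC : ∀ g, g * x = x * g → g ∈ Subgroup.zpowers x) (S : Subgroup G) [S.Normal]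
    (hgen : S ⊔ Subgroup.normalizer (Subgroup.zpowers x : Set G) = ⊤) :
    commutator G ≤ S ⊔ Subgroup.zpowers x ∧ ⁅commutator G, commutator G⁆ ≤ S := by
  let f := QuotientGroup.mk' S
  have hsurj : ∀ g : G, ∃ n ∈ Subgroup.normalizer (Subgroup.zpowers x : Set G), f g = f n := fun g => by
    obtain ⟨s, hs, n, hn, rfl⟩ := Subgroup.mem_sup_of_normal_left.mp
      (show g ∈ S ⊔ Subgroup.normalizer (Subgroup.zpowers x : Set G) by rw [hgen]; trivial)
    refine ⟨n, hn, ?_⟩
    rw [map_mul, show f s = 1 from (QuotientGroup.eq_one_iff s).mpr hs, one_mul]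
  have h1 : commutator G ≤ S ⊔ Subgroup.zpowers x := by
    rw [_root_.commutator_def, Subgroup.commutator_le]
    intro a _ b _
    obtain ⟨n, hn, hfa⟩ := hsurj a
    obtain ⟨m, hm, hfb⟩ := hsurj b
    have h : f ⁅a, b⁆ ∈ (Subgroup.zpowers x).map f := ⟨⁅n, m⁆, comm_mem hC hn hm, by
      rw [map_commutatorElement, map_commutatorElement, hfa, hfb]⟩
    have h' : ⁅a, b⁆ ∈ ((Subgroup.zpowers x).map f).comap f := h
    rwa [Subgroup.comap_map_eq, QuotientGroup.ker_mk', sup_comm] at h'
  refine ⟨h1, ?_⟩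
  rw [Subgroup.commutator_le]
  intro a ha b hb
  rw [← QuotientGroup.eq_one_iff]
  obtain ⟨s, hs, u, hu, rfl⟩ := Subgroup.mem_sup_of_normal_left.mp (h1 ha)
  obtain ⟨r, hr, v, hv, rfl⟩ := Subgroup.mem_sup_of_normal_left.mp (h1 hb)
  have hfs : f s = 1 := (QuotientGroup.eq_one_iff s).mpr hs
  have hfr : f r = 1 := (QuotientGroup.eq_one_iff r).mpr hr
  show f ⁅s * u, r * v⁆ = 1
  obtain ⟨i, rfl⟩ := Subgroup.mem_zpowers_iff.mp hu
  obtain ⟨j, rfl⟩ := Subgroup.mem_zpowers_iff.mp hv
  rw [map_commutatorElement, map_mul, map_mul, hfs, hfr, one_mul, one_mul,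
    commutatorElement_eq_one_iff_commute]
  exact (((Commute.refl x).zpow_left i).zpow_right j).map f

theorem sup_normalizer_eq_top (P : Sylow p G) (hP : (P : Subgroup G) = Subgroup.zpowers x)
    (K : Subgroup G) [K.Normal] (hPK : Subgroup.zpowers x ≤ K) :
    K ⊔ Subgroup.normalizer (Subgroup.zpowers x : Set G) = ⊤ := by
  have h := Sylow.normalizer_sup_eq_top' P (hP ▸ hPK : (P : Subgroup G) ≤ K)
  rw [← hP, sup_comm]
  exact h

theorem card_of_normal_compl (hx : orderOf x = p) (hC : ∀ g, g * x = x * g → g ∈ Subgroup.zpowers x)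
    (S : Subgroup G) [S.Normal] (hcop : ¬ p ∣ Nat.card S)
    (hgen : S ⊔ Subgroup.normalizer (Subgroup.zpowers x : Set G) = ⊤) :
    Nat.card S = (Subgroup.normalizer (Subgroup.zpowers x : Set G)).index := by
  have h : S.IsComplement' (Subgroup.normalizer (Subgroup.zpowers x : Set G)) :=
    Subgroup.isComplement'_of_disjoint_and_mul_eq_univ (disjoint_iff.mpr (inf_normalizer_eq_bot hx hC S hcop))
      (by rw [← Subgroup.normal_mul, hgen, Subgroup.coe_top])
  exact h.index_eq_card.symm

end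

/-- Let the finite group G contain an element x of prime order p with C_G(x) = ⟨x⟩; let t be the number of conjugacy classes of elements of order p and 1 + n·p the number of subgroups of order p. Then G has a normal subgroup of order 1 + n·p if and only if either t = p − 1, or t < p − 1 and G″ ≠ G′. Moreover, if t = p − 1 then G′ has order 1 + n·p and G/G′ is cyclic of order p; and if t < p − 1 and G″ ≠ G′ then G″ has order 1 + n·p and G′ has order p·(1 + n·p). -/
theorem result {G : Type*} [Group G] [Finite G] (p : ℕ) (hp : p.Prime) (x : G) (hx : orderOf x = p) (hC : Subgroup.centralizer ({x} : Set G) = Subgroup.zpowers x) (t : ℕ) (ht : Nat.card {C : ConjClasses G // ∃ g ∈ C.carrier, orderOf g = p} = t) (n : ℕ) (hn : Nat.card {H : Subgroup G // Nat.card H = p} = 1 + n * p) : ((∃ S : Subgroup G, S.Normal ∧ Nat.card S = 1 + n * p) ↔ (t = p - 1 ∨ (t < p - 1 ∧ derivedSeries G 2 ≠ derivedSeries G 1))) ∧ (t = p - 1 → Nat.card (commutator G) = 1 + n * p ∧ IsCyclic (G ⧸ commutator G)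 ∧ (commutator G).index = p) ∧ (t < p - 1 → derivedSeries G 2 ≠ derivedSeries G 1 → Nat.card (derivedSeries G 2) = 1 + n * p ∧ Nat.card (commutator G) = p * (1 + n * p)) := by
  haveI : Fact p.Prime := ⟨hp⟩
  have hC' : ∀ g, g * x = x * g → g ∈ Subgroup.zpowers x := fun g hg => by
    rw [← hC]; exact Subgroup.mem_centralizer_singleton_iff.mpr hg
  obtain ⟨P, hP⟩ := exists_sylow_eq hx hC'
  let N := Subgroup.normalizer (Subgroup.zpowers x : Set G)
  have hNn : 1 + n * p = N.index := hn.symm.trans (card_order_p_subgroups hx P hP)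
  have htN : t * Nat.card N = (p - 1) * p := ht ▸ classes_mul hx hC' P hP
  have hPle : Subgroup.zpowers x ≤ N := Subgroup.le_normalizer
  have hzc : Nat.card (Subgroup.zpowers x) = p := by rw [Nat.card_zpowers, hx]
  have hNp : p ≤ Nat.card N := hzc ▸ Subgroup.card_le_of_le hPle
  have hcop1 : ¬ p ∣ 1 + n * p := by
    intro h
    have : p ∣ 1 := (Nat.dvd_add_left (dvd_mul_left p n)).mp h
    exact hp.one_lt.ne' (Nat.dvd_one.mp this)
  have hp1 : 0 < p - 1 := Nat.sub_pos_of_lt hp.one_lt
  have htle : t ≤ p - 1 := by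
    refine Nat.le_of_mul_le_mul_right (?_ : t * p ≤ (p - 1) * p) hp.pos
    rw [← htN]
    exact Nat.mul_le_mul_left t hNp
  have hiff : t = p - 1 ↔ N = Subgroup.zpowers x := by
    constructor
    · intro h
      rw [h] at htN
      exact (Subgroup.eq_of_le_of_card_ge hPle
        (by rw [hzc, Nat.eq_of_mul_eq_mul_left hp1 htN])).symm
    · intro h
      rw [h, hzc] at htN
      exact Nat.eq_of_mul_eq_mul_right hp.pos htN
  have hd1 : derivedSeries G 1 = commutator G := derivedSeries_one G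
  have hd2 : derivedSeries G 2 = ⁅commutator G, commutator G⁆ := by rw [derivedSeries_succ, hd1]
  have hA : t = p - 1 → Nat.card (commutator G) = 1 + n * p ∧ IsCyclic (G ⧸ commutator G) ∧
      (commutator G).index = p := fun h => by
    have hN := hiff.mp h
    obtain ⟨h1, h2, h3⟩ := commutator_eq_of_self_normalizing hx hC' P hP hN
    exact ⟨by rw [h1, hNn, hN], h2, h3⟩
  have hB : t < p - 1 → derivedSeries G 2 ≠ derivedSeries G 1 →
      Nat.card (derivedSeries G 2) = 1 + n * p ∧ Nat.card (commutator G) = p * (1 + n * p) := by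
    intro hlt hne
    have hN : N ≠ Subgroup.zpowers x := fun h => hlt.ne (hiff.mpr h)
    have hxG := mem_commutator_of_normalizer_ne hx hC' hN
    let S := derivedSeries G 2
    haveI : S.Normal := derivedSeries_normal _ _
    have hSle : S ≤ commutator G := by
      show derivedSeries G 2 ≤ _
      rw [hd2]; exact Subgroup.commutator_le_self _
    have hxS : x ∉ S := by
      intro hxS
      have hgen := sup_normalizer_eq_top P hP S (Subgroup.zpowers_le.mpr hxS)
      have := (second_derived_le hC' S hgen).1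
      rw [sup_eq_left.mpr (Subgroup.zpowers_le.mpr hxS)] at this
      exact hne (hd1.symm ▸ le_antisymm hSle this)
    have hcop : ¬ p ∣ Nat.card S := by
      intro hdvd
      obtain ⟨y, hy⟩ := exists_prime_orderOf_dvd_card' p hdvd
      have hpg : IsPGroup p (Subgroup.zpowers (y : G)) :=
        IsPGroup.of_card (n := 1) (by rw [Nat.card_zpowers, Subgroup.orderOf_coe, hy, pow_one])
      obtain ⟨Q, hQ⟩ := hpg.exists_le_sylow
      obtain ⟨a, ha⟩ := MulAction.exists_smul_eq G Q P
      have hy' : a * y * a⁻¹ ∈ Subgroup.zpowers x := by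
        rw [← hP, ← ha, Sylow.coe_subgroup_smul]
        exact Subgroup.smul_mem_pointwise_smul _ (MulAut.conj a) _ (hQ (Subgroup.mem_zpowers (y : G)))
      have hne1 : a * (y : G) * a⁻¹ ≠ 1 := by
        intro h
        rw [mul_inv_eq_one] at h
        rw [← Subgroup.orderOf_coe, mul_eq_left.mp h, orderOf_one] at hy
        exact hp.one_lt.ne hy
      apply hxS
      have hyS : a * (y : G) * a⁻¹ ∈ S := (inferInstance : S.Normal).conj_mem _ y.2 a
      have := Subgroup.zpowers_le.mpr hyS
      rw [zpowers_eq_of_mem hx hy' hne1] at this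
      exact this (Subgroup.mem_zpowers x)
    have hG' : commutator G ≤ S ⊔ Subgroup.zpowers x := by
      intro a ha
      have hc : ⁅a, x⁆ ∈ S := by
        show _ ∈ derivedSeries G 2
        rw [hd2]; exact Subgroup.commutator_mem_commutator ha (hxG (Subgroup.mem_zpowers x))
      have hc' : ⁅x, a⁆ ∈ S := by rw [← commutatorElement_inv]; exact inv_mem hc
      obtain ⟨u, hu, hcu⟩ := exists_eq_commutator hx hC' S hcop hc'
      have h1 : u⁻¹ * a ∈ Subgroup.zpowers x := hC' _ (by
        have := congrArg (fun z => x * u⁻¹ * x⁻¹ * z * a * x) hcu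
        simpa [commutatorElement_def, mul_assoc] using this.symm)
      have := mul_mem (Subgroup.mem_sup_left hu (T := Subgroup.zpowers x)) (Subgroup.mem_sup_right h1)
      rwa [mul_inv_cancel_left] at this
    have heq : commutator G = S ⊔ Subgroup.zpowers x := le_antisymm hG' (sup_le hSle hxG)
    have hgen : S ⊔ N = ⊤ := by
      have := sup_normalizer_eq_top P hP (commutator G) hxG
      rw [heq, sup_assoc, sup_eq_right.mpr hPle] at this
      exact this
    have hcard : Nat.card S = 1 + n * p := (card_of_normal_compl hx hC' S hcop hgen).trans hNn.symm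
    refine ⟨hcard, ?_⟩
    have hd : S ⊓ Subgroup.zpowers x = ⊥ :=
      le_bot_iff.mp ((inf_le_inf_left S hPle).trans (inf_normalizer_eq_bot hx hC' S hcop).le)
    have h3 : (S ⊔ Subgroup.zpowers x : Subgroup G) = S ⊔ Subgroup.zpowers x := rfl
    have h4 : (S.subgroupOf (commutator G)).IsComplement'
        ((Subgroup.zpowers x).subgroupOf (commutator G)) := by
      refine Subgroup.isComplement'_of_disjoint_and_mul_eq_univ ?_ ?_
      · rw [Subgroup.disjoint_def]
        exact fun ha hb => Subtype.ext (Subgroup.mem_bot.mp (hd.le ⟨ha, hb⟩))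
      · ext g
        simp only [Set.mem_univ, iff_true]
        obtain ⟨s, hs, u, hu, hg⟩ := Subgroup.mem_sup_of_normal_left.mp (heq.le g.2)
        exact ⟨⟨s, hSle hs⟩, hs, ⟨u, hxG hu⟩, hu, Subtype.ext hg⟩
    have := h4.card_mul
    rw [Nat.card_congr (Subgroup.subgroupOfEquivOfLe hSle).toEquiv,
      Nat.card_congr (Subgroup.subgroupOfEquivOfLe hxG).toEquiv, hcard, hzc] at this
    rw [← this, mul_comm]
  refine ⟨⟨?_, ?_⟩, hA, hB⟩
  · rintro ⟨S, hS, hcard⟩
    rcases htle.lt_or_eq with hlt | heq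
    · refine Or.inr ⟨hlt, fun h => ?_⟩
      have hN : N ≠ Subgroup.zpowers x := fun h' => hlt.ne (hiff.mpr h')
      have hxG := mem_commutator_of_normalizer_ne hx hC' hN
      have hcop : ¬ p ∣ Nat.card S := hcard ▸ hcop1
      have hgen : S ⊔ N = ⊤ := by
        apply Subgroup.eq_top_of_card_eq
        have hc : (S.subgroupOf (S ⊔ N)).IsComplement' (N.subgroupOf (S ⊔ N)) := by
          refine Subgroup.isComplement'_of_disjoint_and_mul_eq_univ ?_ ?_
          · rw [Subgroup.disjoint_def]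
            exact fun ha hb => Subtype.ext
              (Subgroup.mem_bot.mp ((inf_normalizer_eq_bot hx hC' S hcop).le ⟨ha, hb⟩))
          · ext g
            simp only [Set.mem_univ, iff_true]
            obtain ⟨s, hs, u, hu, hg⟩ := Subgroup.mem_sup_of_normal_left.mp g.2
            exact ⟨⟨s, Subgroup.mem_sup_left hs⟩, hs, ⟨u, Subgroup.mem_sup_right hu⟩, hu, Subtype.ext hg⟩
        have := hc.card_mul
        rw [Nat.card_congr (Subgroup.subgroupOfEquivOfLe le_sup_left).toEquiv,
          Nat.card_congr (Subgroup.subgroupOfEquivOfLe le_sup_right).toEquiv, hcard, hNn] at this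
        rw [← this, mul_comm, Subgroup.card_mul_index]
      have h2 := (second_derived_le hC' S hgen).2
      rw [← hd2, h, hd1] at h2
      exact hcop (by
        have := Subgroup.card_dvd_of_le (hxG.trans h2)
        rwa [hzc] at this)
    · exact Or.inl heq
  · rintro (h | ⟨hlt, hne⟩)
    · exact ⟨commutator G, inferInstance, (hA h).1⟩
    · exact ⟨derivedSeries G 2, derivedSeries_normal _ _, (hB hlt hne).1⟩

end Cfsg.Agent.S4509
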