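import Cfsg.Statements.S4512
import Cfsg.Agent.Lib.BlockSections.Major
import Cfsg.Agent.Lib.BlockSections.TwoPower
import Cfsg.Agent.Lib.Correspondences.PrincipalBlock

set_option linter.style.haveILetI false
open scoped ComplexConjugate

set_option autoImplicit false
open Cfsg

namespace Cfsg.Agent.S4512

open CfsgLib.CharTheory CfsgLib.Blocks CfsgLib.BrauerCharacters CfsgLib.BlockSections Finset

variable {G : Type*} [Group G] [Finite G]

omit [Finite G] in
theorem blockDefect_principal {H : Type*} [Group H] (M : Ideal AlgInt) [M.IsPrime] (p : ℕ) :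
    blockDefect p (principalBlock M H) = (Nat.card H).factorization p := by
  unfold blockDefect
  rw [Nat.sInf_eq_zero.2 (Or.inl (Set.mem_image _ _ _ |>.2 ⟨trivIrr H, sameBlock_refl _, ?_⟩)), Nat.sub_zero]
  simp [charDegree, trivIrr_apply]

theorem exists_involution (P : Sylow 2 G) (hP : Nat.card P = 4) (hexp : ∀ x : P, x * x = 1) :
    ∃ t : G, t ∈ (P : Subgroup G) ∧ orderOf t = 2 := by
  haveI : Fact (Nat.Prime 2) := ⟨Nat.prime_two⟩
  haveI : Nontrivial P := Finite.one_lt_card_iff_nontrivial.1 (by rw [hP]; norm_num)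
  obtain ⟨x, hx⟩ := exists_ne (1 : P)
  refine ⟨x, x.2, ?_⟩
  rw [Subgroup.orderOf_coe]
  exact orderOf_eq_prime (by rw [pow_two]; exact hexp x) hx

theorem normalizer_le (P : Sylow 2 G) (hP : Nat.card P = 4) (hexp : ∀ x : P, x * x = 1) {t : G}
    (htP : t ∈ (P : Subgroup G)) (ht : orderOf t = 2)
    (hle : (P : Subgroup G) ≤ Subgroup.centralizer ({t} : Set G)) :
    Subgroup.normalizer ((P.subtype hle : Sylow 2 (Subgroup.centralizer ({t} : Set G))) :
        Set (Subgroup.centralizer ({t} : Set G))) ≤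
      Subgroup.centralizer ((P.subtype hle : Sylow 2 (Subgroup.centralizer ({t} : Set G))) :
        Set (Subgroup.centralizer ({t} : Set G))) := by
  classical
  haveI : Fact (Nat.Prime 2) := ⟨Nat.prime_two⟩
  set V := (P.subtype hle : Sylow 2 (Subgroup.centralizer ({t} : Set G))) with hV
  intro n hn
  rw [Subgroup.mem_centralizer_iff]
  intro a ha
  have hexp' : ∀ v : G, v ∈ (P : Subgroup G) → v * v = 1 := fun v hv => congrArg Subtype.val (hexp ⟨v, hv⟩)
  have hmemV : ∀ v : Subgroup.centralizer ({t} : Set G), v ∈ V ↔ (v : G) ∈ (P : Subgroup G) := fun v => Iff.rfl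
  have hconj : ∀ k : Subgroup.centralizer ({t} : Set G), k ∈ Subgroup.normalizer (V : Set _) →
      ∀ v ∈ V, k * v * k⁻¹ ∈ V := fun k hk v hv => (Subgroup.mem_normalizer_iff.1 hk v).1 hv
  -- a power of `n` of odd exponent lies in `V`
  obtain ⟨e, m, hm, ho⟩ := Nat.exists_eq_pow_mul_and_not_dvd (orderOf_pos n).ne' 2 (by norm_num)
  have hnm : n ^ m ∈ V := by
    have hQ : IsPGroup 2 (Subgroup.zpowers (n ^ m)) := by
      obtain ⟨j, -, hj⟩ := (Nat.dvd_prime_pow Nat.prime_two).1
        (orderOf_dvd_of_pow_eq_one (show (n ^ m) ^ 2 ^ e = 1 by rw [← pow_mul, mul_comm, ← ho, pow_orderOf_eq_one]))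
      exact IsPGroup.of_card (n := j) (by rw [Nat.card_zpowers, hj])
    have h1 : n ^ m ∈ Subgroup.zpowers (n ^ m) ⊓ Subgroup.normalizer (V : Set _) :=
      ⟨Subgroup.mem_zpowers _, Subgroup.pow_mem _ hn m⟩
    rw [hQ.inf_normalizer_sylow] at h1
    exact h1.2
  have hVcomm : ∀ u ∈ V, ∀ v ∈ V, u * v = v * u := fun u hu v hv => by
    refine Subtype.ext (show (u : G) * v = v * u from ?_)
    have h := hexp' _ ((P : Subgroup G).mul_mem ((hmemV u).1 hu) ((hmemV v).1 hv))
    have hu' := hexp' _ ((hmemV u).1 hu)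
    have hv' := hexp' _ ((hmemV v).1 hv)
    calc (u : G) * v = (u : G) * 1 * v := by rw [mul_one]
      _ = (u : G) * ((u * v) * (u * v)) * v := by rw [h]
      _ = ((u : G) * u) * (v * u) * ((v : G) * v) := by group
      _ = v * u := by rw [hu', hv', one_mul, mul_one]
  -- conjugation by `n` has order at most two on `V`
  set T : Subgroup.centralizer ({t} : Set G) := ⟨t, hle htP⟩
  have hTn : ∀ k : Subgroup.centralizer ({t} : Set G), k * T * k⁻¹ = T := fun k => Subtype.ext
    (show (k : G) * t * (k : G)⁻¹ = t by rw [Subgroup.mem_centralizer_singleton_iff.1 k.2, mul_inv_cancel_right])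
  have hcases : ∀ u v : Subgroup.centralizer ({t} : Set G), u ∈ V → v ∈ V → u ≠ 1 → u ≠ T → v ≠ 1 → v ≠ T →
      v = u ∨ v = T * u := by
    intro u v hu hv hu1 huT hv1 hvT
    by_contra hne
    rw [not_or] at hne
    have hTV : T ∈ V := (hmemV T).2 htP
    have hcard : Nat.card V = 4 := by
      rw [← hP]; exact Nat.card_congr (Subgroup.subgroupOfEquivOfLe hle).toEquiv
    have hTu1 : T * u ≠ 1 := fun e1 => huT (by
      have : T * T = 1 := Subtype.ext (hexp' t htP)
      rw [← mul_left_cancel_iff (a := T), e1, this])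
    have h5 : ({1, T, u, T * u, v} : Finset _).card ≤ 4 := by
      rw [← hcard, ← Nat.card_eq_finsetCard]
      refine Nat.card_le_card_of_injective (fun x => (⟨x.1, ?_⟩ : V)) fun a b e =>
        Subtype.ext (congrArg (fun z : V => (z : Subgroup.centralizer ({t} : Set G))) e)
      have := x.2
      simp only [Finset.mem_insert, Finset.mem_singleton] at this
      rcases this with e | e | e | e | e <;> rw [e]
      exacts [one_mem _, hTV, hu, mul_mem hTV hu, hv]
    have hT1 : T ≠ 1 := fun e1 => by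
      have : t = 1 := congrArg Subtype.val e1
      rw [this, orderOf_one] at ht; norm_num at ht
    rw [Finset.card_insert_of_notMem (by simp [Ne.symm hu1, Ne.symm hT1, Ne.symm hTu1, Ne.symm hv1]),
      Finset.card_insert_of_notMem (by
        simp [Ne.symm huT, Ne.symm hvT, show T ≠ T * u from fun e1 => hu1 (mul_eq_left.1 e1.symm)]),
      Finset.card_insert_of_notMem (by
        simp [Ne.symm hne.1, show u ≠ T * u from fun e1 => hT1 (mul_eq_right.1 e1.symm)]),
      Finset.card_insert_of_notMem (by simp [Ne.symm hne.2]), Finset.card_singleton] at h5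
    omega
  by_cases ha1 : a = 1
  · subst ha1; simp
  by_cases haT : a = T
  · subst haT
    exact (mul_inv_eq_iff_eq_mul.1 (hTn n)).symm
  have hav : n * a * n⁻¹ ∈ V := hconj n hn a ha
  have h2 : n ^ 2 * a * (n ^ 2)⁻¹ = a := by
    have hb1 : n * a * n⁻¹ ≠ 1 := fun e1 => ha1 (conj_eq_one_iff.1 e1)
    have hbT : n * a * n⁻¹ ≠ T := fun e1 => haT (mul_left_cancel (mul_right_cancel (e1.trans (hTn n).symm)))
    rw [show n ^ 2 * a * (n ^ 2)⁻¹ = n * (n * a * n⁻¹) * n⁻¹ by rw [pow_two]; group]
    rcases hcases a (n * a * n⁻¹) ha hav ha1 haT hb1 hbT with e1 | e1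
    · rw [e1, e1]
    · rw [e1, show n * (T * a) * n⁻¹ = n * T * n⁻¹ * (n * a * n⁻¹) by group, hTn, e1, ← mul_assoc,
        show T * T = 1 from Subtype.ext (hexp' t htP), one_mul]
  have hm2 : n ^ m * a * (n ^ m)⁻¹ = a := by
    rw [mul_inv_eq_iff_eq_mul]; exact hVcomm _ hnm _ ha
  obtain ⟨j, rfl⟩ : ∃ j, m = 2 * j + 1 := ⟨m / 2, by omega⟩
  have hc2 : Commute (n ^ 2) a := mul_inv_eq_iff_eq_mul.1 h2
  have hcm : Commute (n ^ (2 * j + 1)) a := mul_inv_eq_iff_eq_mul.1 hm2
  have : n = ((n ^ 2) ^ j)⁻¹ * n ^ (2 * j + 1) := by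
    rw [eq_inv_mul_iff_mul_eq, ← pow_mul, ← pow_succ]
  rw [this]
  exact (((hc2.pow_left j).inv_left).mul_left hcm).eq.symm

open scoped Classical in
theorem main [Fintype G] (M : Ideal AlgInt) [M.IsPrime] (hM : IsPModular 2 M) (P : Sylow 2 G)
    (hP : Nat.card P = 4) (hexp : ∀ x : P, x * x = 1)
    (hone : ∀ s t : G, orderOf s = 2 → orderOf t = 2 → IsConj s t) :
    blockRank 2 (principalBlock M G) = 3 := by
  haveI : Fact (Nat.Prime 2) := ⟨Nat.prime_two⟩
  haveI := Fintype.ofFinite (IrrCharacter G)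
  obtain ⟨t, htP, ht⟩ := exists_involution P hP hexp
  have hy : ∃ k : ℕ, orderOf t = 2 ^ k := ⟨1, by rw [ht]; rfl⟩
  set B := principalBlock M G with hBdef
  set b := principalBlock M (Subgroup.centralizer ({t} : Set G)) with hbdef
  have hind : IsInducedBlock M (Subgroup.centralizer ({t} : Set G)) b B := isInducedBlock_principal t hy hM
  have hexp' : ∀ v : G, v ∈ (P : Subgroup G) → v * v = 1 := fun v hv => congrArg Subtype.val (hexp ⟨v, hv⟩)
  have hle : (P : Subgroup G) ≤ Subgroup.centralizer ({t} : Set G) := fun v hv => by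
    rw [Subgroup.mem_centralizer_singleton_iff]
    have h := hexp' _ ((P : Subgroup G).mul_mem hv htP)
    calc v * t = v * 1 * t := by rw [mul_one]
      _ = v * ((v * t) * (v * t)) * t := by rw [h]
      _ = (v * v) * (t * v) * (t * t) := by group
      _ = t * v := by rw [hexp' v hv, hexp' t htP, one_mul, mul_one]
  set V := (P.subtype hle : Sylow 2 (Subgroup.centralizer ({t} : Set G)))
  have hVcard : Nat.card V = 4 := by
    rw [← hP]; exact Nat.card_congr (Subgroup.subgroupOfEquivOfLe hle).toEquiv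
  have hnc := normalizer_le P hP hexp htP ht hle
  set O := (MonoidHom.transferSylow V hnc).ker with hO
  have hcomp := MonoidHom.ker_transferSylow_isComplement' V hnc
  have hOcard : Nat.card O * 4 = Nat.card (Subgroup.centralizer ({t} : Set G)) := by
    rw [← hVcard]; exact hcomp.card_mul_card
  have hOodd : ¬ 2 ∣ Nat.card O := by
    rw [hO, ← hcomp.index_eq_card]; exact V.not_dvd_index
  have hreg : ∀ s : Subgroup.centralizer ({t} : Set G), ¬ 2 ∣ orderOf s ↔ s ∈ O := by
    intro s
    refine ⟨fun h => ?_, fun h hd => hOodd (hd.trans ?_)⟩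
    · rw [hO, MonoidHom.mem_ker, ← orderOf_eq_one_iff]
      refine Nat.eq_one_of_dvd_coprimes (a := orderOf s) (b := 2 ^ 2) ?_ (orderOf_map_dvd _ s) ?_
      · exact ((Nat.prime_two.coprime_iff_not_dvd).2 h).symm.pow_right 2
      · refine (orderOf_dvd_natCard _).trans (dvd_of_eq ?_)
        rw [hVcard]; norm_num
    · rw [← Subgroup.orderOf_mk s h]; exact orderOf_dvd_natCard _
  -- factorisations
  have hfG : (Nat.card G).factorization 2 = 2 := by
    have := P.card_eq_multiplicity
    rw [hP] at this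
    exact Nat.pow_right_injective (le_refl 2) (this.symm.trans (by norm_num))
  have hfC : (Nat.card (Subgroup.centralizer ({t} : Set G))).factorization 2 = 2 := by
    have := V.card_eq_multiplicity
    rw [hVcard] at this
    exact Nat.pow_right_injective (le_refl 2) (this.symm.trans (by norm_num))
  have hdb : blockDefect 2 b = 2 := by rw [hbdef, blockDefect_principal, hfC]
  have hdB : blockDefect 2 B = 2 := by rw [hBdef, blockDefect_principal, hfG]
  have hd : blockDefect 2 b = blockDefect 2 B := hdb.trans hdB.symm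
  -- the rank of the block of the centralizer
  have hbreg : ∀ ξ : IrrCharacter (Subgroup.centralizer ({t} : Set G)), ξ ∈ b → ∀ s, ¬ 2 ∣ orderOf s →
      (ξ : Subgroup.centralizer ({t} : Set G) → ℂ) s = (ξ : Subgroup.centralizer ({t} : Set G) → ℂ) 1 :=
    fun ξ hξ s hs => CfsgLib.Correspondences.apply_eq_of_mem_principalBlock hM hξ O hOodd ((hreg s).1 hs)
  have hrank : blockRank 2 b = 1 := by
    refine le_antisymm ?_ (blockRank_pos ⟨trivIrr _, sameBlock_refl _⟩)
    refine le_trans (Submodule.finrank_mono (t := Submodule.span ℂ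
      {pRegularPart 2 (fun _ : Subgroup.centralizer ({t} : Set G) => (1 : ℂ))}) ?_) ?_
    · rw [Submodule.span_le]
      rintro _ ⟨ξ, hξ, rfl⟩
      refine Submodule.mem_span_singleton.2 ⟨(ξ : Subgroup.centralizer ({t} : Set G) → ℂ) 1, funext fun s => ?_⟩
      show _ = pRegularPart 2 (ξ : Subgroup.centralizer ({t} : Set G) → ℂ) s
      rw [Pi.smul_apply, pRegularPart_apply, pRegularPart_apply]
      split_ifs with hs
      · simp
      · rw [hbreg ξ hξ s hs, smul_eq_mul, mul_one]
    · exact (finrank_span_le_card _).trans (by simp)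
  have h1B : trivIrr G ∈ B := sameBlock_refl _
  have h1 : blockHeight 2 B (trivIrr G : G → ℂ) = 0 := CfsgLib.BlockLocal.blockHeight_trivIrr B
  -- the trivial character
  have hc11 : contrib t b 2 (trivIrr G) (trivIrr G) = (4 : ℂ)⁻¹ := by
    rw [contrib, sum_congr rfl (g := fun s : Subgroup.centralizer ({t} : Set G) =>
      if s ∈ O then (1 : ℂ) else 0) (fun s _ => by
        by_cases hs : 2 ∣ orderOf s
        · rw [if_pos hs, if_neg fun h => (hreg s).2 h hs]
        · rw [if_neg hs, if_pos ((hreg s).1 hs), ← apply_eq_secPart_principal t hy hM h1B hs, trivIrr_apply]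
          simp), sum_boole]
    rw [← Fintype.card_subtype, ← Nat.card_eq_fintype_card, ← hOcard]
    have hO0 : (Nat.card O : ℂ) ≠ 0 := Nat.cast_ne_zero.2 Nat.card_pos.ne'
    push_cast
    rw [mul_inv, mul_comm ((Nat.card O : ℂ)⁻¹), mul_assoc]
    erw [inv_mul_cancel₀ hO0]
    rw [mul_one]
  have hX11 : (secX t b 2 (trivIrr G) (trivIrr G) : ℂ) = 1 := by
    rw [coe_secX, hdb, hc11]; norm_num
  have hXone : secX t b 2 (trivIrr G) (trivIrr G) = 1 := Subtype.ext (hX11.trans (OneMemClass.coe_one _).symm)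
  -- integrality
  have hint : ∀ ψ, ∃ z : ℤ, (secX t b 2 (trivIrr G) ψ : ℂ) = z := by
    intro ψ
    have hsign : ∀ ξ : IrrCharacter (Subgroup.centralizer ({t} : Set G)),
        ∃ e : ℤ, (cv t ξ : ℂ) = e ∧ (cv' t ξ : ℂ) = e := by
      intro ξ
      have h := centralVal_pow t ξ
      rw [← Subgroup.orderOf_coe, show ((cenElem t : Subgroup.centralizer ({t} : Set G)) : G) = t from rfl, ht,
        sq_eq_one_iff] at h
      rcases h with e | e
      · exact ⟨1, by rw [coe_cv, e]; simp, by rw [coe_cv', e]; simp⟩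
      · exact ⟨-1, by rw [coe_cv, e]; simp, by rw [coe_cv', e]; simp⟩
    choose e he he' using hsign
    refine ⟨∑ ξ ∈ blockFinset b, ∑ η ∈ blockFinset b, secCoeff t b 2 (trivIrr G) ψ ξ η * (e ξ * e η), ?_⟩
    simp only [secX, AddSubmonoidClass.coe_finsetSum, MulMemClass.coe_mul, he, he']
    push_cast
    rfl
  choose z hz using hint
  have hrow : ∑ ψ ∈ blockFinset B, (z ψ : ℤ) ^ 2 = 4 := by
    have h := sum_norm_sq_eq (p := 2) t b hM hy hind 1 (trivIrr G)
    simp only [AlgEquiv.one_apply, hz, Complex.norm_intCast, sq_abs, hdb, hXone, OneMemClass.coe_one,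
      Complex.one_re, mul_one] at h
    have h4 : ((2 : ℕ) : ℝ) ^ 2 = ((4 : ℤ) : ℝ) := by norm_num
    rw [h4] at h
    exact_mod_cast h
  have hmain : ∀ ψ ∈ blockFinset B, blockHeight 2 B (ψ : G → ℂ) = 0 := by
    intro ψ hψ
    by_contra hne
    have h := sum_pow_height_le (p := 2) t b hM hy hind hd h1B h1
    have hdiag : diagSum t b 2 (trivIrr G) = conjCount t := by
      simp [diagSum, galSum, hXone, galCard]
    rw [hdiag, hdb] at h
    have h2 := le_of_mul_le_mul_right h (galCard_pos _)
    have hsub : ({trivIrr G, ψ} : Finset (IrrCharacter G)) ⊆ blockFinset B :=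
      insert_subset (mem_blockFinset.2 h1B) (singleton_subset_iff.2 hψ)
    have h3 := (sum_le_sum_of_subset_of_nonneg hsub fun _ _ _ => sq_nonneg _).trans h2
    rw [sum_pair (fun e => hne (by rw [← e]; exact h1)), h1] at h3
    have h5 : (2 : ℝ) ≤ (2 : ℝ) ^ blockHeight 2 B (ψ : G → ℂ) :=
      le_self_pow₀ (by norm_num) hne
    push_cast at h3
    nlinarith
  have hodd : ∀ ψ ∈ blockFinset B, Odd (z ψ) := fun ψ hψ => by
    have h := not_memLocalIdeal_secX (p := 2) t b hM hy hind h1B h1 (mem_blockFinset.1 hψ) (hmain ψ hψ)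
    rw [hz, memLocalIdeal_intCast_iff hM] at h
    rw [← Int.not_even_iff_odd, even_iff_two_dvd]
    exact_mod_cast h
  have hone' : ∀ ψ ∈ blockFinset B, (z ψ) ^ 2 = 1 := by
    intro ψ hψ
    have hle4 : (z ψ) ^ 2 ≤ 4 := hrow ▸ single_le_sum (f := fun ψ => z ψ ^ 2) (fun i _ => sq_nonneg (z i)) hψ
    obtain ⟨u, hu⟩ := hodd ψ hψ
    have hlo : -2 ≤ z ψ := by nlinarith
    have hhi : z ψ ≤ 2 := by nlinarith
    rcases (show z ψ = 1 ∨ z ψ = -1 by omega) with e | e <;> rw [e] <;> norm_num
  have hk : (blockFinset B).card = 4 := by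
    rw [sum_congr rfl hone', sum_const, nsmul_eq_mul, mul_one] at hrow
    exact_mod_cast hrow
  -- every character splits its norm between the regular elements and the section
  have hsplit : ∀ χ ∈ blockFinset B,
      regInner 2 (χ : G → ℂ) (χ : G → ℂ) + contrib t b 2 χ χ = 1 := by
    intro χ hχ
    have hF : IsClassFunction G fun g => (χ : G → ℂ) g * conj ((χ : G → ℂ) g) := fun g c => by
      simp only [IsIrrCharacter.isClassFunction χ.2 g c]
    have hsec : ∀ g : G, (∃ z, IsPPart 2 g z ∧ IsConj t z) ↔ 2 ∣ orderOf g := by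
      intro g
      constructor
      · rintro ⟨z, hz, hc⟩
        by_contra hodd
        have := (isPPart_eq_one_iff hz).2 hodd
        obtain ⟨c, hc⟩ := isConj_iff.1 hc
        rw [this, conj_eq_one_iff] at hc
        rw [hc, orderOf_one] at ht; norm_num at ht
      · intro hev
        obtain ⟨z, hz⟩ := exists_isPPart 2 g
        refine ⟨z, hz, hone t z ht ?_⟩
        obtain ⟨u, -, -, ⟨k, hk⟩, -⟩ := id hz
        have hzP : IsPGroup 2 (Subgroup.zpowers z) := IsPGroup.of_card (n := k) (by rw [Nat.card_zpowers, hk])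
        obtain ⟨Q, hQ⟩ := hzP.exists_le_sylow
        obtain ⟨c, hc⟩ := MulAction.exists_smul_eq G P Q
        rw [← hc] at hQ
        obtain ⟨v, hv, hvz⟩ := Subgroup.mem_map.1 (hQ (Subgroup.mem_zpowers z))
        refine orderOf_eq_prime ?_ fun e => ?_
        · rw [← hvz]
          show (c * v * c⁻¹) ^ 2 = 1
          rw [pow_two, show c * v * c⁻¹ * (c * v * c⁻¹) = c * (v * v) * c⁻¹ by group, hexp' v hv]; group
        · exact (isPPart_eq_one_iff hz).1 e hev
    have h := card_mul_sum_section (p := 2) (y := t) hy hF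
    rw [sum_congr rfl (g := fun g => if 2 ∣ orderOf g then (χ : G → ℂ) g * conj ((χ : G → ℂ) g) else 0)
      (fun g _ => if_congr (hsec g) rfl rfl)] at h
    rw [← classInner_self_of_isIrr χ.2, contrib_eq_sum_apply t hM hind.1, regInner, classInner, classInner]
    rw [sum_congr rfl (s₁ := (univ : Finset (Subgroup.centralizer ({t} : Set G))))
      (g := fun s => if 2 ∣ orderOf s then (0 : ℂ) else
        (χ : G → ℂ) ((cenElem t * s : Subgroup.centralizer ({t} : Set G)) : G) *
        conj ((χ : G → ℂ) ((cenElem t * s : Subgroup.centralizer ({t} : Set G)) : G))) (fun s _ => by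
      split_ifs with hs
      · rfl
      · rw [apply_eq_secPart_principal t hy hM (mem_blockFinset.1 hχ) hs])]
    have hG : (Nat.card G : ℂ) ≠ 0 := Nat.cast_ne_zero.2 Nat.card_pos.ne'
    have hC : (Nat.card (Subgroup.centralizer ({t} : Set G)) : ℂ) ≠ 0 := Nat.cast_ne_zero.2 Nat.card_pos.ne'
    have e2 : (Nat.card G : ℂ)⁻¹ * ∑ g : G, (if 2 ∣ orderOf g then
        (χ : G → ℂ) g * conj ((χ : G → ℂ) g) else 0) = (Nat.card (Subgroup.centralizer ({t} : Set G)) : ℂ)⁻¹ *
        ∑ s : Subgroup.centralizer ({t} : Set G), (if 2 ∣ orderOf s then 0 else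
        (χ : G → ℂ) ((cenElem t * s : Subgroup.centralizer ({t} : Set G)) : G) *
        conj ((χ : G → ℂ) ((cenElem t * s : Subgroup.centralizer ({t} : Set G)) : G))) := by
      rw [inv_mul_eq_iff_eq_mul₀ hG, mul_left_comm, eq_inv_mul_iff_mul_eq₀ hC]
      exact h
    rw [← e2, ← mul_add, ← sum_add_distrib]
    congr 1
    exact sum_congr rfl fun g _ => by rw [pRegularPart_apply]; split_ifs <;> simp
  have hfin := congrArg (fun f : ℂ => f) (sum_congr rfl hsplit :
    ∑ χ ∈ blockFinset B, (regInner 2 (χ : G → ℂ) (χ : G → ℂ) + contrib t b 2 χ χ) =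
      ∑ χ ∈ blockFinset B, (1 : ℂ))
  rw [sum_add_distrib, sum_regInner_self_eq_blockRank (weakOrth (p := 2) hM hind.2.1),
    sum_subset (subset_univ (blockFinset B)) (fun χ _ hχ =>
      contrib_eq_zero_of_notMem t hM hy hind (by simpa using hχ) χ),
    sum_contrib_self t hM hy hind.1, hrank, sum_const, hk] at hfin
  have h4 : ((blockRank 2 B + 1 : ℕ) : ℂ) = ((4 : ℕ) : ℂ) := by
    push_cast
    simpa using hfin
  have := Nat.cast_injective h4
  omega

/-- If G is a finite group with a Sylow 2-subgroup that is a Klein four-group and a single conjugacy class of involutions, then its principal 2-block (relative to a maximal ideal M of the algebraic integers containing 2) has 2-regular rank 3: the restrictions of its irreducible characters to the elements of odd order span a space of dimension 3 (it has three irreducible Brauer characters). -/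
theorem result {G : Type*} [Group G] [Finite G] (M : Ideal Cfsg.AlgInt) (hM : Cfsg.IsPModular 2 M) (P : Sylow 2 G)
    (hP : Nat.card P = 4) (hexp : ∀ x : P, x * x = 1)
    (hone : ∀ s t : G, orderOf s = 2 → orderOf t = 2 → IsConj s t) :
    Cfsg.blockRank 2 (Cfsg.principalBlock M G) = 3 := by
  haveI := CfsgLib.Blocks.isPrime_of_isPModular hM
  haveI := Fintype.ofFinite G
  exact main M hM P hP hexp hone

end Cfsg.Agent.S4512
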