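import Cfsg.Statements.S4513
import Cfsg.Agent.Lib.BlockSections.TwoPower
import Cfsg.Agent.Lib.Blocks.Defect
import Cfsg.Agent.Lib.BrauerCharacters.Consequences

set_option linter.style.haveILetI false

set_option autoImplicit false
open Cfsg

namespace Cfsg.Agent.S4513

open CfsgLib.CharTheory CfsgLib.Blocks CfsgLib.BrauerCharacters CfsgLib.BlockSections Finset
open scoped ComplexConjugate

variable {G : Type*} [Group G] [Fintype G] {M : Ideal AlgInt} [M.IsPrime]

theorem defect_one (hM : IsPModular 2 M) {B : Set (IrrCharacter G)} (hB : IsPBlock M B)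
    (hd : blockDefect 2 B = 1) :
    Nat.card B = 2 ∧ blockRank 2 B = 1 ∧
      (∀ χ ∈ B, regInner 2 (χ : G → ℂ) (χ : G → ℂ) = (2 : ℂ)⁻¹ ∧ blockHeight 2 B (χ : G → ℂ) = 0) ∧
      ∀ χ ∈ B, ∀ ψ ∈ B, ∀ g : G, ¬ 2 ∣ orderOf g → (χ : G → ℂ) g = (ψ : G → ℂ) g := by
  classical
  haveI : Fact (Nat.Prime 2) := ⟨Nat.prime_two⟩
  have hw := weakOrth (p := 2) hM hB
  have hh : ∀ χ ∈ B, blockHeight 2 B (χ : G → ℂ) = 0 := fun χ hχ => by
    by_contra h
    have := height_add_two_le hw hM hB hχ (Nat.pos_of_ne_zero h)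
    omega
  have hodd : ∀ χ ∈ B, ∀ ψ ∈ B, ¬ (2 : ℤ) ∣ regEntry 2 B χ ψ := fun χ hχ ψ hψ => by
    have := not_pow_succ_height_dvd hw hM hB hχ hψ (hh ψ hψ)
    rw [hh χ hχ] at this
    simpa using this
  have hself : ∀ χ ∈ B, regEntry 2 B χ χ = 1 := fun χ hχ => by
    have h1 := regEntry_self_pos hw hM hB hχ
    have h2 := regEntry_self_le hw hM hB hχ
    rw [hd] at h2
    have h3 := hodd χ hχ χ hχ
    norm_num at h2
    omega
  have hsq : ∀ χ ∈ B, ∀ ψ ∈ B, regEntry 2 B χ ψ ^ 2 = 1 ∧ (blockFinset B).card = 2 := by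
    intro χ hχ ψ hψ
    have hrow := sum_regEntry_sq hw hχ
    rw [hself χ hχ, hd] at hrow
    norm_num at hrow
    have hge : ∀ φ ∈ blockFinset B, 1 ≤ regEntry 2 B χ φ ^ 2 := fun φ hφ =>
      Int.add_one_le_iff.2 (sq_pos_of_ne_zero fun e => hodd χ hχ φ (mem_blockFinset.1 hφ) (by rw [e]; exact dvd_zero _))
    have hle : ∀ φ ∈ blockFinset B, regEntry 2 B χ φ ^ 2 = 1 := by
      intro φ hφ
      have h1 : regEntry 2 B χ φ ^ 2 ≤ 2 :=
        hrow ▸ single_le_sum (f := fun φ => regEntry 2 B χ φ ^ 2) (fun i _ => sq_nonneg _) hφ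
      have h2 := hge φ hφ
      have h3 := hodd χ hχ φ (mem_blockFinset.1 hφ)
      generalize regEntry 2 B χ φ = z at h1 h2 h3 ⊢
      have hlo : -1 ≤ z := by nlinarith
      have hhi : z ≤ 1 := by nlinarith
      rcases (show z = 1 ∨ z = -1 by omega) with rfl | rfl <;> norm_num
    refine ⟨hle ψ (mem_blockFinset.2 hψ), ?_⟩
    rw [sum_congr rfl hle, sum_const, nsmul_eq_mul, mul_one] at hrow
    exact_mod_cast hrow
  obtain ⟨χ0, hχ0⟩ := isPBlock_nonempty hB
  have hcard : (blockFinset B).card = 2 := (hsq χ0 hχ0 χ0 hχ0).2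
  have hreg : ∀ χ ∈ B, regInner 2 (χ : G → ℂ) (χ : G → ℂ) = (2 : ℂ)⁻¹ := fun χ hχ => by
    have h := coe_regEntry (p := 2) hχ χ
    rw [hself χ hχ, hd] at h
    push_cast at h
    rw [pow_one] at h
    exact eq_inv_of_mul_eq_one_right h.symm
  refine ⟨card_blockFinset B ▸ hcard, ?_, fun χ hχ => ⟨hreg χ hχ, hh χ hχ⟩, fun χ hχ ψ hψ g hg => ?_⟩
  · have := sum_regInner_self_eq_blockRank hw
    rw [sum_congr rfl (fun χ hχ => hreg χ (mem_blockFinset.1 hχ)), sum_const, hcard, nsmul_eq_mul] at this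
    norm_num at this
    exact_mod_cast this.symm
  · rcases eq_or_ne χ ψ with rfl | hne
    · rfl
    have hset : blockFinset B = {χ, ψ} := (eq_of_subset_of_card_le
      (insert_subset (mem_blockFinset.2 hχ) (singleton_subset_iff.2 (mem_blockFinset.2 hψ)))
      (by rw [hcard, card_pair hne])).symm
    have hev : ∀ φ ∈ B, ∀ g : G, ¬ 2 ∣ orderOf g → 2 * (φ : G → ℂ) g =
        (regEntry 2 B φ χ : ℂ) * (χ : G → ℂ) g + (regEntry 2 B φ ψ : ℂ) * (ψ : G → ℂ) g := by
      intro φ hφ g hg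
      have h := congrFun (pRegularPart_eq_sum_block hw hφ) g
      rw [pRegularPart_apply, if_neg hg, Finset.sum_apply, hset, sum_pair hne] at h
      simp only [Pi.smul_apply, smul_eq_mul] at h
      rw [coe_regEntry hφ, coe_regEntry hφ, hd, pow_one, h]
      push_cast
      ring
    have h1 : ∀ g : G, ¬ 2 ∣ orderOf g → (χ : G → ℂ) g = (regEntry 2 B χ ψ : ℂ) * (ψ : G → ℂ) g := fun g hg => by
      have := hev χ hχ g hg
      rw [hself χ hχ] at this
      push_cast at this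
      linear_combination this
    have h2 := h1 1 (by simp)
    rcases sq_eq_one_iff.1 (hsq χ hχ ψ hψ).1 with e | e
    · rw [h1 g hg, e]; simp
    · rw [e, (charDegree_spec χ).1, (charDegree_spec ψ).1] at h2
      push_cast at h2
      have h3 : ((charDegree (χ : G → ℂ) + charDegree (ψ : G → ℂ) : ℕ) : ℂ) = 0 := by
        push_cast; linear_combination h2
      have := (charDegree_spec χ).2.1
      rw [Nat.cast_eq_zero] at h3
      omega

open scoped Classical in
theorem main (hM : IsPModular 2 M) {x : G} (hx : orderOf x = 2) {B : Set (IrrCharacter G)}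
    (hB : IsPBlock M B) (hdB : blockDefect 2 B = 1)
    {b : Set (IrrCharacter (Subgroup.centralizer ({x} : Set G)))}
    (hb : IsInducedBlock M (Subgroup.centralizer ({x} : Set G)) b B)
    {θ : IrrCharacter (Subgroup.centralizer ({x} : Set G))} (hθ : θ ∈ b)
    (hθx : (θ : Subgroup.centralizer ({x} : Set G) → ℂ) (cenElem x) =
      (θ : Subgroup.centralizer ({x} : Set G) → ℂ) 1) :
    ∃ χ₁ ∈ B, ∃ χ₂ ∈ B, χ₁ ≠ χ₂ ∧ ∃ ε₁ ε₂ : ℤ, (ε₁ = 1 ∨ ε₁ = -1) ∧ (ε₂ = 1 ∨ ε₂ = -1) ∧ ε₁ * ε₂ = -1 ∧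
      ∀ y : Subgroup.centralizer ({x} : Set G), ¬ 2 ∣ orderOf y →
        (χ₁ : G → ℂ) (x * y) = (ε₁ : ℂ) * (θ : Subgroup.centralizer ({x} : Set G) → ℂ) y ∧
          (χ₂ : G → ℂ) (x * y) = (ε₂ : ℂ) * (θ : Subgroup.centralizer ({x} : Set G) → ℂ) y := by
  haveI : Fact (Nat.Prime 2) := ⟨Nat.prime_two⟩
  haveI := Fintype.ofFinite (IrrCharacter G)
  obtain ⟨hk, hlB, hB1, hBreg⟩ := defect_one hM hB hdB
  have hy : ∃ k : ℕ, orderOf x = 2 ^ k := ⟨1, by rw [hx]; rfl⟩
  have hx1 : ¬ IsConj x 1 := fun h => by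
    rw [isConj_one_left] at h
    rw [h, orderOf_one] at hx; norm_num at hx
  -- representatives of the classes of two-elements
  let rep : G → G := fun g => if IsConj g x then x else Quotient.out (ConjClasses.mk g)
  have hrep : ∀ g : G, IsConj g (rep g) := fun g => by
    by_cases h : IsConj g x
    · simp only [rep, if_pos h]; exact h
    · simp only [rep, if_neg h]
      exact (ConjClasses.mk_eq_mk_iff_isConj.1 (Quotient.out_eq (ConjClasses.mk g))).symm
  have hrepc : ∀ g g' : G, IsConj g g' → rep g = rep g' := fun g g' h => by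
    simp only [rep]
    rw [ConjClasses.mk_eq_mk_iff_isConj.2 h]
    exact if_congr ⟨fun e => h.symm.trans e, fun e => h.trans e⟩ rfl rfl
  have hordc : ∀ g g' : G, IsConj g g' → orderOf g = orderOf g' := fun g g' h => by
    obtain ⟨c, rfl⟩ := isConj_iff.1 h
    exact (orderOf_injective (MulAut.conj c).toMonoidHom (MulAut.conj c).injective g).symm
  set X : Finset G := (univ.filter fun g : G => ∃ k : ℕ, orderOf g = 2 ^ k).image rep with hXdef
  have hX : ∀ z ∈ X, ∃ k : ℕ, orderOf z = 2 ^ k := fun z hz => by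
    obtain ⟨g, hg, rfl⟩ := mem_image.1 hz
    rw [← hordc g _ (hrep g)]
    exact (mem_filter.1 hg).2
  have hXrep : ∀ g : G, (∃ k : ℕ, orderOf g = 2 ^ k) → ∃! z, z ∈ X ∧ IsConj g z := fun g hg => by
    refine ⟨rep g, ⟨mem_image.2 ⟨g, mem_filter.2 ⟨mem_univ _, hg⟩, rfl⟩, hrep g⟩, ?_⟩
    rintro z ⟨hz, hgz⟩
    obtain ⟨g', -, rfl⟩ := mem_image.1 hz
    exact (hrepc g g' (hgz.trans (hrep g').symm)).symm
  have hxX : x ∈ X := mem_image.2 ⟨x, mem_filter.2 ⟨mem_univ _, hy⟩, if_pos (IsConj.refl x)⟩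
  have h1X : rep 1 ∈ X := mem_image.2 ⟨1, mem_filter.2 ⟨mem_univ _, 0, by simp⟩, rfl⟩
  have hne : rep 1 ≠ x := fun e => hx1 (e ▸ (hrep 1).symm)
  -- the count
  have hcount := card_block_eq_sum_rank hM hB X hX hXrep
  set f : G → ℕ := fun z => ∑ᶠ b' ∈ {b' : Set (IrrCharacter ↥(Subgroup.centralizer ({z} : Set G))) |
    IsInducedBlock M (Subgroup.centralizer ({z} : Set G)) b' B}, blockRank 2 b'
  have hfS : ∀ z : G, f z = ∑ b' ∈ (blockSets M (Subgroup.centralizer ({z} : Set G))).filter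
      (fun b' => IsInducedBlock M (Subgroup.centralizer ({z} : Set G)) b' B), blockRank 2 b' := fun z => by
    simp only [f]
    rw [← finsum_mem_coe_finset]
    refine finsum_mem_congr (Set.ext fun b' => ?_) fun _ _ => rfl
    simp only [Set.mem_ofPred_eq, coe_filter, mem_blockSets]
    exact ⟨fun h => ⟨h.1, h⟩, fun h => h.2⟩
  obtain ⟨χ0, hχ0⟩ := isPBlock_nonempty hB
  have hone : 1 ≤ f (rep 1) := by
    rw [hfS]
    have hr1 : rep 1 = 1 := by
      have := hrep 1
      rwa [isConj_one_right] at this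
    have hne0 : (χ0 : G → ℂ) ((cenElem (rep 1) * 1 : Subgroup.centralizer ({rep 1} : Set G)) : G) ≠ 0 := by
      rw [mul_one, show ((cenElem (rep 1) : Subgroup.centralizer ({rep 1} : Set G)) : G) = rep 1 from rfl, hr1]
      exact apply_one_ne_zero_of_isIrr χ0.2
    rw [apply_eq_sum_secPart (M := M)] at hne0
    obtain ⟨b1, hb1, hb1ne⟩ := exists_ne_zero_of_sum_ne_zero hne0
    have hind1 : IsInducedBlock M (Subgroup.centralizer ({rep 1} : Set G)) b1 B := by
      by_contra hn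
      exact hb1ne (secPart_eq_zero_of_not (rep 1) hM (hX _ h1X) (mem_blockSets.1 hb1) hn hB hχ0 (by simp))
    exact le_trans (blockRank_pos (p := 2) (isPBlock_nonempty hind1.1))
      (single_le_sum (f := fun b' => blockRank 2 b') (fun _ _ => Nat.zero_le _) (mem_filter.2 ⟨hb1, hind1⟩))
  have hfx : f x ≤ 1 := by
    have h2 : f (rep 1) + f x ≤ ∑ z ∈ X, f z := by
      rw [← sum_pair hne]
      exact sum_le_sum_of_subset (insert_subset h1X (singleton_subset_iff.2 hxX))
    rw [show ∑ z ∈ X, f z = 2 from hcount.symm.trans hk] at h2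
    omega
  rw [hfS] at hfx
  have hbmem : b ∈ (blockSets M (Subgroup.centralizer ({x} : Set G))).filter
      (fun b' => IsInducedBlock M (Subgroup.centralizer ({x} : Set G)) b' B) :=
    mem_filter.2 ⟨mem_blockSets.2 hb.1, hb⟩
  have hlb : blockRank 2 b = 1 := le_antisymm
    ((single_le_sum (f := fun b' => blockRank 2 b') (fun _ _ => Nat.zero_le _) hbmem).trans hfx)
    (blockRank_pos (isPBlock_nonempty hb.1))
  have hother : ∀ b' ∈ blockSets M (Subgroup.centralizer ({x} : Set G)), b' ≠ b →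
      ¬ IsInducedBlock M (Subgroup.centralizer ({x} : Set G)) b' B := fun b' hb' hne' hi => by
    have h2 : blockRank 2 b + blockRank 2 b' ≤ 1 := by
      rw [← sum_pair (Ne.symm hne')]
      exact (sum_le_sum_of_subset (insert_subset hbmem (singleton_subset_iff.2 (mem_filter.2 ⟨hb', hi⟩)))).trans hfx
    have := blockRank_pos (p := 2) (isPBlock_nonempty hi.1)
    omega
  have hval : ∀ χ ∈ B, ∀ s : Subgroup.centralizer ({x} : Set G), ¬ 2 ∣ orderOf s →
      (χ : G → ℂ) ((cenElem x * s : Subgroup.centralizer ({x} : Set G)) : G) = secPart x b χ s := by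
    intro χ hχ s hs
    rw [apply_eq_sum_secPart (M := M) x χ s]
    exact sum_eq_single_of_mem b (mem_blockSets.2 hb.1) fun b' hb' hne' =>
      secPart_eq_zero_of_not x hM hy (mem_blockSets.1 hb') (hother b' hb' hne') hB hχ hs
  -- the two members
  obtain ⟨χ₁, χ₂, hne12, hset⟩ := card_eq_two.1 ((card_blockFinset B).trans hk)
  have hm1 : χ₁ ∈ B := mem_blockFinset.1 (hset ▸ mem_insert_self _ _)
  have hm2 : χ₂ ∈ B := mem_blockFinset.1 (hset ▸ mem_insert_of_mem (mem_singleton_self _))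
  have horth : ∀ s : Subgroup.centralizer ({x} : Set G), ¬ 2 ∣ orderOf s →
      secPart x b χ₂ s = - secPart x b χ₁ s := by
    intro s hs
    have h := finsum_mul_eq_zero_of_isPBlock hM hB (isPPart_coe hy hs)
      (h := (1 : G)) (y := 1) ⟨1, one_mul 1, Commute.one_left 1, ⟨0, by simp⟩, by simp⟩ hx1
    rw [finsum_mem_eq_sum_blockFinset, hset, sum_pair hne12, hval χ₁ hm1 s hs, hval χ₂ hm2 s hs,
      inv_one, (charDegree_spec χ₁).1, (charDegree_spec χ₂).1] at h
    have he : (charDegree (χ₂ : G → ℂ) : ℂ) = (charDegree (χ₁ : G → ℂ) : ℂ) := by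
      rw [← (charDegree_spec χ₁).1, ← (charDegree_spec χ₂).1]
      exact hBreg χ₂ hm2 χ₁ hm1 1 (by simp)
    rw [he, ← add_mul, mul_eq_zero] at h
    rcases h with h | h
    · linear_combination h
    · exact absurd (Nat.cast_eq_zero.1 h) (charDegree_spec χ₁).2.1.ne'
  -- contributions
  have hsame : contrib x b 2 χ₂ χ₂ = contrib x b 2 χ₁ χ₁ := by
    simp only [contrib]
    congr 1
    refine sum_congr rfl fun s _ => ?_
    split_ifs with hs
    · rfl
    · rw [horth s hs, map_neg, neg_mul_neg]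
  have htr := sum_contrib_self x hM hy hb.1
  rw [← sum_subset (subset_univ (blockFinset B)) (fun χ _ hχ =>
    contrib_eq_zero_of_notMem x hM hy hb (by simpa using hχ) χ), hset, sum_pair hne12, hsame, hlb] at htr
  have hc1 : contrib x b 2 χ₁ χ₁ = (2 : ℂ)⁻¹ := by
    push_cast at htr
    linear_combination htr / 2
  have hdb : blockDefect 2 b = 1 := by
    obtain ⟨z, hzo, hz⟩ := odd_of_height_zero x b hM hy hb hm1 (hB1 χ₁ hm1).2
    have hhalf : ∀ σ : Gal (orderOf (cenElem x)), (((σ (secX x b 2 χ₁ χ₁) : secField x) : ℂ)).re =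
        (2 : ℝ) ^ blockDefect 2 b / 2 := by
      intro σ
      have : secX x b 2 χ₁ χ₁ = ((2 : secField x) ^ blockDefect 2 b) * (2 : secField x)⁻¹ := by
        refine Subtype.ext ?_
        rw [coe_secX, hc1, MulMemClass.coe_mul, SubmonoidClass.coe_pow]
        rfl
      rw [this, map_mul, map_inv₀, map_pow, show σ (2 : secField x) = 2 from map_ofNat σ 2,
        MulMemClass.coe_mul, SubmonoidClass.coe_pow]
      show (((2 : ℂ)) ^ blockDefect 2 b * (2 : ℂ)⁻¹).re = _
      rw [show (2 : ℂ) = ((2 : ℝ) : ℂ) by norm_num, ← Complex.ofReal_inv, ← Complex.ofReal_pow,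
        ← Complex.ofReal_mul, Complex.ofReal_re]
      ring
    rw [diagSum, galSum, sum_congr rfl (fun σ _ => hhalf σ), sum_const, card_univ, nsmul_eq_mul,
      conjCount, galCard] at hz
    have hz' : (2 : ℝ) ^ blockDefect 2 b / 2 = (z : ℝ) :=
      mul_left_cancel₀ (galCard_pos (orderOf (cenElem x))).ne' hz
    have hz2 : (2 : ℤ) ^ blockDefect 2 b = 2 * z := by
      have : (2 : ℝ) ^ blockDefect 2 b = 2 * (z : ℝ) := by linarith
      exact_mod_cast this
    obtain ⟨u, rfl⟩ := hzo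
    rcases Nat.lt_trichotomy (blockDefect 2 b) 1 with h | h | h
    · rw [show blockDefect 2 b = 0 by omega, pow_zero] at hz2; omega
    · exact h
    · obtain ⟨j, hj⟩ : ∃ j, blockDefect 2 b = j + 2 := ⟨blockDefect 2 b - 2, by omega⟩
      rw [hj, pow_succ, pow_succ] at hz2; omega
  obtain ⟨-, -, hb1, hbreg⟩ := defect_one hM hb.1 hdb
  -- block parts are multiples of `θ`
  set a : IrrCharacter G → ℂ := fun χ =>
    ∑ ξ ∈ blockFinset b, (resMult x χ ξ : ℂ) * centralVal (ξ : _ → ℂ) (cenElem x) with ha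
  have hsec : ∀ χ, ∀ s : Subgroup.centralizer ({x} : Set G), ¬ 2 ∣ orderOf s →
      secPart x b χ s = a χ * (θ : Subgroup.centralizer ({x} : Set G) → ℂ) s := by
    intro χ s hs
    rw [secPart, ha, sum_mul]
    refine sum_congr rfl fun ξ hξ => ?_
    rw [(centralVal_spec ξ (commute_cenElem x)).2 s, hbreg ξ (mem_blockFinset.1 hξ) θ hθ s hs]
    ring
  have hnorm : a χ₁ * conj (a χ₁) = 1 := by
    have h : contrib x b 2 χ₁ χ₁ = a χ₁ * conj (a χ₁) *
        regInner 2 (θ : Subgroup.centralizer ({x} : Set G) → ℂ) (θ : _ → ℂ) := by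
      rw [contrib, regInner, classInner, mul_left_comm]
      congr 1
      rw [mul_sum]
      refine sum_congr rfl fun s _ => ?_
      rw [pRegularPart_apply]
      split_ifs with hs
      · simp
      · rw [hsec χ₁ s hs, map_mul]; ring
    rw [hc1, (hb1 θ hθ).1] at h
    linear_combination -2 * h
  have hreal : conj (a χ₁) = a χ₁ := by
    have h1 := hsec χ₁ 1 (by simp)
    rw [← hval χ₁ hm1 1 (by simp), mul_one] at h1
    have hxx : x⁻¹ = x := inv_eq_of_mul_eq_one_right (by rw [← pow_two, ← hx, pow_orderOf_eq_one])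
    have h2 : conj ((χ₁ : G → ℂ) x) = (χ₁ : G → ℂ) x := by
      rw [← IsIrrCharacter.inv χ₁.2 x, hxx]
    rw [show ((cenElem x : Subgroup.centralizer ({x} : Set G)) : G) = x from rfl] at h1
    rw [h1, map_mul, (charDegree_spec θ).1, Complex.conj_natCast] at h2
    exact mul_right_cancel₀ (Nat.cast_ne_zero.2 (charDegree_spec θ).2.1.ne') h2
  rw [hreal, mul_self_eq_one_iff] at hnorm
  obtain ⟨ε, hε, hεa⟩ : ∃ ε : ℤ, (ε = 1 ∨ ε = -1) ∧ a χ₁ = (ε : ℂ) := by
    rcases hnorm with e | e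
    · exact ⟨1, Or.inl rfl, by rw [e]; simp⟩
    · exact ⟨-1, Or.inr rfl, by rw [e]; simp⟩
  refine ⟨χ₁, hm1, χ₂, hm2, hne12, ε, -ε, hε, by rcases hε with e | e <;> simp [e],
    by rcases hε with e | e <;> simp [e], fun s hs => ?_⟩
  rw [show x * (s : G) = ((cenElem x * s : Subgroup.centralizer ({x} : Set G)) : G) from rfl,
    hval χ₁ hm1 s hs, hval χ₂ hm2 s hs, horth s hs, hsec χ₁ s hs, hεa]
  exact ⟨rfl, by push_cast; ring⟩

/-- Blocks of defect one for p = 2. Let M be a maximal ideal of the algebraic integers containing 2, B a 2-block of the finite group G whose defect group is the subgroup generated by an involution x, C = C_G(x), b a block of C inducing B and θ a member of b taking the same value at x as at 1 (there is exactly one). Then B consists of exactly two irreducible characters, which agree on every element of odd order, and they can be labelled χ₁, χ₂ with signs ε₁, ε₂ = ±1, ε₁ε₂ = −1, such that χᵢ(x y) = εᵢ θ(y) for every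 element y of C of odd order. -/
theorem result {G : Type*} [Group G] [Finite G] (M : Ideal Cfsg.AlgInt) (hM : Cfsg.IsPModular 2 M) (x : G) (hx : orderOf x = 2)
    (B : Set (Cfsg.IrrCharacter G)) (hB : Cfsg.IsPBlock M B) (hBD : Cfsg.IsDefectGroup 2 M B (Subgroup.zpowers x))
    (b : Set (Cfsg.IrrCharacter ↥(Subgroup.centralizer ({x} : Set G)))) (hb : Cfsg.IsInducedBlock M (Subgroup.centralizer ({x} : Set G)) b B)
    (θ : Cfsg.IrrCharacter ↥(Subgroup.centralizer ({x} : Set G))) (hθ : θ ∈ b)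
    (hθx : ∀ z : ↥(Subgroup.centralizer ({x} : Set G)), (z : G) = x → (θ : ↥(Subgroup.centralizer ({x} : Set G)) → ℂ) z = (θ : ↥(Subgroup.centralizer ({x} : Set G)) → ℂ) 1) :
    Nat.card B = 2 ∧ (∀ χ ∈ B, ∀ ψ ∈ B, ∀ g : G, ¬ 2 ∣ orderOf g → (χ : G → ℂ) g = (ψ : G → ℂ) g) ∧
      ∃ χ₁ ∈ B, ∃ χ₂ ∈ B, χ₁ ≠ χ₂ ∧ ∃ ε₁ ε₂ : ℤ, (ε₁ = 1 ∨ ε₁ = -1) ∧ (ε₂ = 1 ∨ ε₂ = -1) ∧ ε₁ * ε₂ = -1 ∧
        ∀ y : ↥(Subgroup.centralizer ({x} : Set G)), ¬ 2 ∣ orderOf y →
          (χ₁ : G → ℂ) (x * y) = (ε₁ : ℂ) * (θ : ↥(Subgroup.centralizer ({x} : Set G)) → ℂ) y ∧ (χ₂ : G → ℂ) (x * y) = (ε₂ : ℂ) * (θ : ↥(Subgroup.centralizer ({x} : Set G)) → ℂ) y := by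
  classical
  haveI := CfsgLib.Blocks.isPrime_of_isPModular hM
  haveI : Fact (Nat.Prime 2) := ⟨Nat.prime_two⟩
  haveI := Fintype.ofFinite G
  have hdB : Cfsg.blockDefect 2 B = 1 := by
    refine Nat.pow_right_injective (le_refl 2) ?_
    show 2 ^ Cfsg.blockDefect 2 B = 2 ^ 1
    rw [← CfsgLib.Blocks.card_isDefectGroup hM hB hBD, Nat.card_zpowers, hx, pow_one]
  obtain ⟨hk, -, -, hreg⟩ := defect_one hM hB hdB
  exact ⟨hk, hreg, main hM hx hB hdB hb hθ (hθx _ rfl)⟩

end Cfsg.Agent.S4513
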