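import Cfsg.Statements.S4635
import Cfsg.Agent.Lib.Jordan.CyclicDefect.Structure
import Cfsg.Agent.Lib.Frobenius.CycShape.Glue

set_option autoImplicit false
open Cfsg

namespace Cfsg.Agent.S4635

/-- Let B be a block of the finite group G relative to a maximal ideal M of the algebraic integers containing the prime p, with a nontrivial cyclic defect group P; let Z be the subgroup of order p of P and H = N_G(Z), which contains N_G(P). Let c be the block of H with defect group P that induces B. Then B and c contain the same number of irreducible characters, have the same p-regular rank, and there is a perfect isometry from c onto B. -/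
theorem result {G : Type*} [Group G] [Finite G] (p : ℕ) [Fact p.Prime] (M : Ideal Cfsg.AlgInt) (hM : Cfsg.IsPModular p M) (B : Set (Cfsg.IrrCharacter G)) (hB : Cfsg.IsPBlock M B) (P : Subgroup G) (hPD : Cfsg.IsDefectGroup p M B P) (hP1 : P ≠ ⊥) (hcyc : IsCyclic P) (Z : Subgroup G) (hZ : Z ≤ P) (hZcard : Nat.card Z = p) (H : Subgroup G) (hH : H = Subgroup.normalizer (Z : Set G)) (c : Set (Cfsg.IrrCharacter H)) (hcD : Cfsg.IsDefectGroup p M c (P.subgroupOf H)) (hc : Cfsg.IsInducedBlock M H c B) : Nat.card c = Nat.card B ∧ Cfsg.blockRank p c = Cfsg.blockRank p B ∧ ∃ (I : Cfsg.IrrCharacter H → Cfsg.IrrCharacter G) (ε : Cfsg.IrrCharacter H → ℤ), Cfsg.IsPerfectIsometry p M c B I ε := by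
  haveI : M.IsPrime := CfsgLib.Blocks.isPrime_of_isPModular hM
  haveI : M.IsMaximal := hM.2.1
  haveI : CharP (CfsgLib.Blocks.Res M) p := CfsgLib.Blocks.charP_res hM
  haveI : IsAlgClosed (CfsgLib.Blocks.Res M) := CfsgLib.Blocks.isAlgClosed_res
  exact CfsgLib.Frobenius.CycShape.isometry_normalizer p M (fun G' _ _ B' D e0 a e _ hB' hmax hcyc' ha hDa he' =>
    CfsgLib.Jordan.CyclicDefect.exists_cycData hM hB' hmax hcyc' ha hDa he')
    hM B hB P hPD hP1 hcyc Z hZ hZcard H hH c hcD hc

end Cfsg.Agent.S4635
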