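import Cfsg.Statements.S4636
import Mathlib.GroupTheory.SpecificGroups.Cyclic
import Mathlib.GroupTheory.Perm.Cycle.Type

set_option autoImplicit false
open scoped Pointwise
open Cfsg

namespace Cfsg.Agent.S4636

/-- Let P be a nontrivial cyclic p-subgroup of the finite group G and Z its subgroup of order p. For every x outside N_G(Z), P meets its conjugate xPx⁻¹ trivially; consequently N_G(Q) ≤ N_G(Z) for every nontrivial subgroup Q of P. -/
theorem result {G : Type*} [Group G] [Finite G] (p : ℕ) [Fact p.Prime] (P : Subgroup G) (hP : IsPGroup p P) (hP1 : P ≠ ⊥) (hcyc : IsCyclic P) (Z : Subgroup G) (hZ : Z ≤ P) (hZcard : Nat.card Z = p) : (∀ x : G, x ∉ Subgroup.normalizer (Z : Set G) → P ⊓ MulAut.conj x • P = ⊥) ∧ ∀ Q : Subgroup G, Q ≤ P → Q ≠ ⊥ → Subgroup.normalizer (Q : Set G) ≤ Subgroup.normalizer (Z : Set G) := by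
  have hp : p.Prime := Fact.out
  haveI := hcyc
  have hpow : ∀ u ∈ Z, u ^ p = 1 := by
    intro u hu
    have := pow_card_eq_one' (x := (⟨u, hu⟩ : Z))
    rw [hZcard] at this
    exact congrArg Subtype.val this
  have key : ∀ u ∈ P, u ^ p = 1 → u ∈ Z := by
    classical
    haveI := Fintype.ofFinite P
    intro u hu hup
    by_contra hne
    have h1 := IsCyclic.card_pow_eq_one_le (α := P) hp.pos
    have h2 : insert (⟨u, hu⟩ : P) (Finset.univ.filter fun a : P => (a : G) ∈ Z) ⊆
        Finset.univ.filter fun a : P => a ^ p = 1 := by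
      intro a ha
      rw [Finset.mem_insert] at ha
      rw [Finset.mem_filter]
      refine ⟨Finset.mem_univ _, Subtype.ext ?_⟩
      rcases ha with rfl | ha
      · simpa using hup
      · simpa using hpow (a : G) (Finset.mem_filter.1 ha).2
    have h3 := Finset.card_le_card h2
    rw [Finset.card_insert_of_notMem (by simpa using hne)] at h3
    have h4 : (Finset.univ.filter fun a : P => (a : G) ∈ Z).card = p := by
      rw [← hZcard, ← Nat.card_congr (Subgroup.subgroupOfEquivOfLe hZ).toEquiv,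
        Nat.card_eq_fintype_card, Fintype.card_subtype]
      simp [Subgroup.mem_subgroupOf]
    omega
  have pick : ∀ D : Subgroup G, D ≤ P → D ≠ ⊥ → ∃ u ∈ D, Subgroup.zpowers u = Z := by
    intro D hD hD1
    have hDp : IsPGroup p D := hP.to_le hD
    have hd : p ∣ Nat.card D := by
      haveI : Nontrivial D := Subgroup.nontrivial_iff_ne_bot D |>.2 hD1
      obtain ⟨n, hn, hn'⟩ := hDp.nontrivial_iff_card.1 this
      rw [hn']
      exact dvd_pow_self p hn.ne'
    obtain ⟨v, hv⟩ := exists_prime_orderOf_dvd_card' (G := D) p hd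
    have hv' : orderOf (v : G) = p := by rw [Subgroup.orderOf_coe, hv]
    refine ⟨v, v.2, Subgroup.eq_of_le_of_card_ge ?_ ?_⟩
    · rw [Subgroup.zpowers_le]
      refine key _ (hD v.2) ?_
      rw [← hv']
      exact pow_orderOf_eq_one _
    · rw [Nat.card_zpowers, hv', hZcard]
  have hmap : ∀ x u : G, u ∈ Z → Subgroup.zpowers u = Z → x * u * x⁻¹ ∈ Z →
      x ∈ Subgroup.normalizer (Z : Set G) := by
    intro x u hu hzu hxu
    refine Subgroup.mem_normalizer_fintype fun z hz => ?_
    rw [SetLike.mem_coe, ← hzu, Subgroup.mem_zpowers_iff] at hz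
    obtain ⟨n, rfl⟩ := hz
    rw [← conj_zpow]
    exact Z.zpow_mem hxu n
  refine ⟨fun x hx => ?_, fun Q hQ hQ1 x hx => ?_⟩
  · by_contra hD
    apply hx
    obtain ⟨u, hu, hzu⟩ := pick _ inf_le_left hD
    have huZ : u ∈ Z := hzu ▸ Subgroup.mem_zpowers u
    have h2 := (Subgroup.mem_inf.1 hu).2
    rw [Subgroup.mem_pointwise_smul_iff_inv_smul_mem] at h2
    simp only [← map_inv, MulAut.smul_def, MulAut.conj_apply, inv_inv] at h2
    have h3 : x⁻¹ * u * x ∈ Z := by
      refine key _ h2 ?_
      have hup : u ^ p = 1 := hpow u huZ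
      have := conj_pow (a := x⁻¹) (b := u) (i := p)
      simpa [hup] using this
    have := hmap x⁻¹ u huZ hzu (by simpa using h3)
    simpa using inv_mem this
  · obtain ⟨u, hu, hzu⟩ := pick Q hQ hQ1
    have huZ : u ∈ Z := hzu ▸ Subgroup.mem_zpowers u
    refine hmap x u huZ hzu (key _ (hQ ((Subgroup.mem_normalizer_iff.1 hx u).1 hu)) ?_)
    rw [conj_pow, hpow u huZ, mul_one, mul_inv_cancel]

end Cfsg.Agent.S4636
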