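import Cfsg.Statements.S4637
import Cfsg.Agent.Lib.BlockSections.OrderFour

set_option autoImplicit false
open Cfsg

namespace Cfsg.Agent.S4637

/-- Let B be a block of the finite group G relative to a maximal ideal M of the algebraic integers containing 2, with a Klein four defect group P. Let c be a block of C_G(P) inducing B, T the stabilizer of c in N_G(P) and e the index of C_G(P) in T (the inertial index). Then e is 1 or 3, B contains exactly four irreducible characters, and the 2-regular rank of B (its number of irreducible Brauer characters) equals e. -/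
theorem result {G : Type*} [Group G] [Finite G] (M : Ideal Cfsg.AlgInt) (hM : Cfsg.IsPModular 2 M) (B : Set (Cfsg.IrrCharacter G)) (hB : Cfsg.IsPBlock M B) (P : Subgroup G) (hPD : Cfsg.IsDefectGroup 2 M B P) (hV : IsKleinFour P) (c : Set (Cfsg.IrrCharacter (Subgroup.centralizer (P : Set G)))) (hc : Cfsg.IsInducedBlock M (Subgroup.centralizer (P : Set G)) c B) (T : Subgroup G) (hT : ∀ g : G, g ∈ T ↔ (g ∈ Subgroup.normalizer (P : Set G) ∧ Cfsg.StabilizesBlock (Subgroup.centralizer (P : Set G)) c g)) (e : ℕ) (he : (Subgroup.centralizer (P : Set G)).relIndex T = e) : (e = 1 ∨ e = 3) ∧ Nat.card B = 4 ∧ Cfsg.blockRank 2 B = e := by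
  haveI : Fact (Nat.Prime 2) := ⟨Nat.prime_two⟩
  haveI : M.IsPrime := CfsgLib.Blocks.isPrime_of_isPModular hM
  haveI : M.IsMaximal := hM.2.1
  haveI : CharP (CfsgLib.Blocks.Res M) 2 := CfsgLib.Blocks.charP_res hM
  haveI : IsAlgClosed (CfsgLib.Blocks.Res M) := CfsgLib.Blocks.isAlgClosed_res
  have h4 : Nat.card P = 4 := hV.card_four
  have hab : ∀ x ∈ P, ∀ y ∈ P, x * y = y * x := fun x hx y hy => by
    haveI := hV
    exact congrArg Subtype.val (mul_comm_of_exponent_two hV.exponent_two (⟨x, hx⟩ : P) ⟨y, hy⟩)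
  have hmax := CfsgLib.BrauerPairs.isMaxPair_of_induced hM hB hPD hab hc
  have hT' : CfsgLib.BrauerPairs.pairStab (⊤ : Subgroup G) P
      (CfsgLib.BrauerPairs.subIdem M _ c) = T := by
    ext y
    rw [CfsgLib.BrauerPairs.mem_pairStab_top_iff hc.1, hT]
  obtain ⟨hk, hl⟩ := CfsgLib.BlockSections.order_four_count hM hB hPD hmax hab h4
  rw [hT', he] at hl
  have he13 : e = 1 ∨ e = 3 := by
    have h3 : e ∣ 3 := by
      have : e ∣ Cfsg.blockRank 2 B * e + 3 := hl ▸ dvd_mul_left e 4
      exact (Nat.dvd_add_right (dvd_mul_left e _)).1 this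
    exact (Nat.dvd_prime Nat.prime_three).1 h3
  refine ⟨he13, hk, ?_⟩
  rcases he13 with rfl | rfl <;> omega

end Cfsg.Agent.S4637
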