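import Cfsg.Statements.S4639
import Cfsg.Agent.Lib.RealChar.FreeInertial.Main
import Cfsg.Agent.S4695

set_option autoImplicit false
open Cfsg

namespace Cfsg.Agent.S4639

/-- Let B be a block of the finite group G relative to a maximal ideal M of the algebraic integers containing the prime p, with a nontrivial commutative defect group P. Let c be a block of C_G(P) inducing B, T the stabilizer of c in N_G(P) and e the index of C_G(P) in T. Suppose that T/C_G(P) is commutative (all commutators of elements of T lie in C_G(P)) and acts freely on the non-identity elements of P (an element of T fixing a non-identity element of P under conjugation lies in C_G(P)). Then B has at most e + (#P − 1)/e irreducible characters and p-regular rank at most e; equality holds in the first bound exactly when it holds in the second; and both equalities hold when e ≤ 3. -/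
theorem result {G : Type*} [Group G] [Finite G] (p : ℕ) [Fact p.Prime] (M : Ideal Cfsg.AlgInt) (hM : Cfsg.IsPModular p M) (B : Set (Cfsg.IrrCharacter G)) (hB : Cfsg.IsPBlock M B) (P : Subgroup G) (hPD : Cfsg.IsDefectGroup p M B P) (hP1 : P ≠ ⊥) (hPab : ∀ x ∈ P, ∀ y ∈ P, x * y = y * x) (c : Set (Cfsg.IrrCharacter (Subgroup.centralizer (P : Set G)))) (hc : Cfsg.IsInducedBlock M (Subgroup.centralizer (P : Set G)) c B) (T : Subgroup G) (hT : ∀ g : G, g ∈ T ↔ (g ∈ Subgroup.normalizer (P : Set G) ∧ Cfsg.StabilizesBlock (Subgroup.centralizer (P : Set G)) c g)) (e : ℕ) (he : (Subgroup.centralizer (P : Set G)).relIndex T = e) (hEab : ∀ g ∈ T, ∀ h ∈ T, g * h * g⁻¹ * h⁻¹ ∈ Subgroup.centralizer (P : Set G)) (hfree : ∀ g ∈ T, ∀ x ∈ P, x ≠ 1 → g * x * g⁻¹ = x → g ∈ Subgroup.centralizer (P : Set G)) : Nat.card B ≤ e + (Nat.card P - 1) / e ∧ Cfsg.blockRank p B ≤ e ∧ (Nat.card B = e + (Nat.card P - 1) / e ↔ Cfsg.blockRank p B = e) ∧ (e ≤ 3 → Nat.card B = e + (Nat.card P - 1) / e ∧ Cfsg.blockRank p B = e) := by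
  haveI : M.IsPrime := CfsgLib.Blocks.isPrime_of_isPModular hM
  haveI : M.IsMaximal := hM.2.1
  haveI : CharP (CfsgLib.Blocks.Res M) p := CfsgLib.Blocks.charP_res hM
  haveI : IsAlgClosed (CfsgLib.Blocks.Res M) := CfsgLib.Blocks.isAlgClosed_res
  haveI := Fintype.ofFinite G
  have hmax := CfsgLib.BrauerPairs.isMaxPair_of_induced hM hB hPD hPab hc
  have hT' : CfsgLib.BrauerPairs.pairStab (⊤ : Subgroup G) P
      (CfsgLib.BrauerPairs.subIdem M _ c) = T := by
    ext y
    rw [CfsgLib.BrauerPairs.mem_pairStab_top_iff hc.1, hT]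
  refine CfsgLib.RealChar.FreeInertial.block_counts hM hB hmax hPab (fun t ht u hu hu1 htu => ?_)
    hP1 (by rw [hT', he]) fun he3 h13 => ?_
  · exact hfree t (hT' ▸ ht) u hu hu1 htu
  · haveI : Fact (Nat.Prime 13) := ⟨by norm_num⟩
    refine Cfsg.Agent.S4695.result p M hM P (isCyclic_of_prime_card h13) 1 le_rfl
      (by
        obtain ⟨k, hk⟩ := IsPGroup.iff_card.1 hmax.1.1.1
        rw [pow_one, h13]
        have hp := (Fact.out : p.Prime)
        exact (Nat.prime_dvd_prime_iff_eq (by norm_num) hp).1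
          ((by norm_num : Nat.Prime 13).dvd_of_dvd_pow (dvd_of_eq (h13.symm.trans hk))))
      B hB hPD c hc T (fun g => ?_) e he

    -- the two forms of the stabiliser agree
    rw [hT]
    refine and_congr_right fun hg => ⟨fun h θ hθ θ' hrel => ?_, fun h => ?_⟩
    · obtain ⟨χ', hχ', hc'⟩ := h.2 θ hθ
      convert hχ' using 1
      refine Subtype.ext (funext fun k' => ?_)
      have hk : g⁻¹ * (k' : G) * g ∈ Subgroup.centralizer (P : Set G) :=
        (Subgroup.mem_normalizer_iff.1 h.1 _).2 (by simpa [mul_assoc] using k'.2)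
      have e1 : (k' : G) = g * ((⟨_, hk⟩ : Subgroup.centralizer (P : Set G)) : G) * g⁻¹ := by
        simp [mul_assoc]
      rw [hrel ⟨_, hk⟩ k' e1, hc' ⟨_, hk⟩ k' e1]
    · have hN := CfsgLib.BrauerPairs.normalizer_le_normalizer_cen P hg
      have hK : Subgroup.centralizer (P : Set G) =
          CfsgLib.BrauerPairs.cj g (Subgroup.centralizer (P : Set G)) :=
        (CfsgLib.BrauerPairs.cj_of_mem_normalizer hN).symm
      refine ⟨hN, fun χ hχ => ?_⟩
      have hrel : ∀ k k' : Subgroup.centralizer (P : Set G), (k' : G) = g * (k : G) * g⁻¹ →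
          (CfsgLib.BrauerPairs.compIrr (CfsgLib.BrauerPairs.cjEquiv g hK) χ :
            Subgroup.centralizer (P : Set G) → ℂ) k' =
          (χ : Subgroup.centralizer (P : Set G) → ℂ) k := by
        intro k k' hk
        rw [CfsgLib.BrauerPairs.compIrr_apply]
        refine congrArg _ (Subtype.ext ?_)
        rw [CfsgLib.BrauerPairs.coe_cjEquiv, hk]
        group
      exact ⟨_, h χ hχ _ hrel, hrel⟩

end Cfsg.Agent.S4639
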