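import Cfsg.Statements.S4641
import Cfsg.Agent.Lib.IBr.Degrees
import Cfsg.Agent.S0908

set_option autoImplicit false
open Cfsg

namespace Cfsg.Agent.S4641

/-- Let B be a block of the finite group G relative to a maximal ideal M of the algebraic integers containing the prime p, let p^a be the p-part of the order of G and p^d the order of a defect group D of B, and let g be the greatest common divisor of the degrees of the members of B. Then the p-part of g is exactly p^(a−d), and writing g = p^(a−d)·u there is a positive integer v, prime to p and at least the p-regular rank of B (its number of irreducible Brauer characters), with Σ_{χ ∈ B} χ(1)² = p^(2a−d)·u²·v. -/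
theorem result {G : Type*} [Group G] [Finite G] (p : ℕ) [Fact p.Prime] (M : Ideal Cfsg.AlgInt) (hM : Cfsg.IsPModular p M) (B : Set (Cfsg.IrrCharacter G)) (hB : Cfsg.IsPBlock M B) (D : Subgroup G) (hD : Cfsg.IsDefectGroup p M B D) (a d : ℕ) (ha : (Nat.card G).factorization p = a) (hd : Nat.card D = p ^ d) (g : ℕ) (hg1 : ∀ χ ∈ B, g ∣ Cfsg.charDegree (χ : G → ℂ)) (hg2 : ∀ g' : ℕ, (∀ χ ∈ B, g' ∣ Cfsg.charDegree (χ : G → ℂ)) → g' ∣ g) : g.factorization p = a - d ∧ ∃ v : ℕ, 0 < v ∧ ¬ p ∣ v ∧ Cfsg.blockRank p B ≤ v ∧ ∑ᶠ χ ∈ B, Cfsg.charDegree (χ : G → ℂ) ^ 2 = p ^ (2 * a - d) * (g / p ^ (a - d)) ^ 2 * v := by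
  classical
  haveI := Fintype.ofFinite G
  haveI := CfsgLib.Blocks.isPrime_of_isPModular hM
  haveI := Fintype.ofFinite (IrrCharacter G)
  have hp : p.Prime := Fact.out
  obtain ⟨S, hS, -⟩ := CfsgLib.IBr.exists_system hM (Nat.card G) Nat.card_pos.ne'
  obtain ⟨De⟩ := CfsgLib.IBr.PSys.exists_decomposition (S := S) (G := G) hS
  obtain ⟨v, hv, hsum⟩ := De.exists_sum_sq_eq hS hB hg1
  obtain ⟨j, hj, hj0⟩ := CfsgLib.BrauerCharacters.exists_height_eq_zero (p := p)
    (CfsgLib.Blocks.isPBlock_nonempty hB)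
  set t := sInf ((fun χ : IrrCharacter G => (charDegree (χ : G → ℂ)).factorization p) '' B) with ht
  have hdd : d = blockDefect p B :=
    Nat.pow_right_injective hp.two_le (hd.symm.trans (Cfsg.Agent.S0908.result p M hM B hB D hD))
  have htj : (charDegree (j : G → ℂ)).factorization p = t := by
    have h1 := CfsgLib.BrauerCharacters.sInf_le_degree (p := p) hj
    rw [← ht] at h1
    have h2 := hj0
    unfold blockHeight at h2
    omega
  have hta : t ≤ a := by
    rw [← htj, ← ha]
    exact CfsgLib.BrauerCharacters.degree_le_factorization j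
  have hdt : a - d = t := by
    rw [hdd, blockDefect, ← ht, ha]
    omega
  have hda : d + t = a := by
    rw [hdd, blockDefect, ← ht, ha]
    omega
  have hpg : p ^ t ∣ g := hg2 _ fun χ hχ =>
    ((hp.pow_dvd_iff_le_factorization (CfsgLib.BrauerCharacters.charDegree_spec χ).2.1.ne').2
      (CfsgLib.BrauerCharacters.sInf_le_degree hχ))
  have hg0 : g ≠ 0 := fun h => (CfsgLib.BrauerCharacters.charDegree_spec j).2.1.ne'
    (Nat.eq_zero_of_zero_dvd (h ▸ hg1 j hj))
  have hgt : g.factorization p = t := by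
    refine le_antisymm ?_ ((hp.pow_dvd_iff_le_factorization hg0).1 hpg)
    rw [← htj]
    exact (Nat.factorization_le_iff_dvd hg0
      (CfsgLib.BrauerCharacters.charDegree_spec j).2.1.ne').2 (hg1 j hj) p
  refine ⟨hgt.trans hdt.symm, v, ?_⟩
  set u := g / p ^ t with hu
  have hgu : g = p ^ t * u := (Nat.mul_div_cancel' hpg).symm
  have hpu : ¬ p ∣ u := by
    have := Nat.not_dvd_ordCompl hp hg0
    rwa [hgt] at this
  have hlcm : Nat.lcm (p ^ a) g = p ^ a * u := by
    rw [hgu, show a = t + (a - t) by omega, pow_add, Nat.lcm_mul_left,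
      ((hp.coprime_iff_not_dvd.2 hpu).pow_left (a - t)).lcm_eq_mul, mul_assoc]
  rw [ha, hlcm] at hsum
  have hmain : ∑ χ ∈ CfsgLib.BrauerCharacters.blockFinset B, charDegree (χ : G → ℂ) ^ 2 =
      p ^ (2 * a - d) * u ^ 2 * v := by
    rw [hsum, hgu, show 2 * a - d = t + a by omega, pow_add]
    ring
  have hv0 : 0 < v := lt_of_lt_of_le
    (CfsgLib.BrauerCharacters.blockRank_pos (CfsgLib.Blocks.isPBlock_nonempty hB)) hv
  have hu0 : u ≠ 0 := fun h => hg0 (by rw [hgu, h, mul_zero])
  refine ⟨hv0, fun hpv => ?_, hv, ?_⟩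
  · have h1 := CfsgLib.CharDegreesTheory.factorization_sum_sq (p := p) hM hB
    rw [hmain, ha, ← hdd, Nat.factorization_mul (mul_ne_zero (pow_ne_zero _ hp.ne_zero)
      (pow_ne_zero _ hu0)) hv0.ne', Nat.factorization_mul (pow_ne_zero _ hp.ne_zero)
      (pow_ne_zero _ hu0), Finsupp.add_apply, Finsupp.add_apply, hp.factorization_pow,
      Finsupp.single_eq_same] at h1
    have := hp.factorization_pos_of_dvd hv0.ne' hpv
    omega
  · rw [CfsgLib.BrauerCharacters.finsum_mem_eq_sum_blockFinset, hdt]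
    exact hmain

end Cfsg.Agent.S4641
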