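import Cfsg.Statements.S4642
import Cfsg.Agent.Lib.BrauerPairs.PPrimeKernel
import Cfsg.Agent.Lib.BrauerPairs.InducedBridge
import Cfsg.Agent.Lib.BrauerPairs.BridgeDefect
import Cfsg.Agent.Lib.PSolvable.HallHigman
import Cfsg.Agent.Lib.SectRank.Constrained
import Cfsg.Agent.Lib.StronglyPEmbedded.CharP
import Cfsg.Agent.Lib.Blocks.DefectZero
import Cfsg.Agent.Lib.Blocks.CentralizerBlock
-- import your own Cfsg.Agent.* helpers here

set_option autoImplicit false
open Cfsg

namespace Cfsg.Agent.S4642

/-- Let G be a finite group, p a prime, M a maximal ideal of the algebraic integers containing p, K the largest normal subgroup of G of order prime to p, and L the preimage in G of the largest normal p-subgroup of G/K. Let Q be a Sylow p-subgroup of L and suppose C_G(Q) ≤ L. Let θ be an irreducible character of K invariant under conjugation by every element of G, and let B be the set of irreducible characters of G whose restriction to K contains θ. Then B is a block of G, every Sylow p-subgroup of G is a defect group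 of B, and B is of principal type: for every p-subgroup R of G exactly one block of C_G(R) induces B. -/
theorem result {G : Type*} [Group G] [Fintype G] (p : ℕ) [Fact p.Prime] (M : Ideal Cfsg.AlgInt) (hM : Cfsg.IsPModular p M) (K : Subgroup G) (hK : K = Cfsg.pPrimeCore p G) [Fintype K] (L : Subgroup G) (hL : L = Cfsg.pPrimePCore p G) (Q : Subgroup G) (hQL : Q ≤ L) (hQp : IsPGroup p Q) (hQS : ¬ p ∣ Q.relIndex L) (hCQ : Subgroup.centralizer (Q : Set G) ≤ L) (θ : Cfsg.IrrCharacter K) (hθ : ∀ g : G, Cfsg.IsConjCharOf K g (θ : K → ℂ) (θ : K → ℂ)) (B : Set (Cfsg.IrrCharacter G)) (hBdef : ∀ χ : Cfsg.IrrCharacter G, χ ∈ B ↔ Cfsg.classInner (fun k : K => (χ : G → ℂ) k) (θ : K → ℂ) ≠ 0) : Cfsg.IsPBlock M B ∧ (∀ S : Sylow p G, Cfsg.IsDefectGroup p M B S) ∧ ∀ R : Subgroup G, IsPGroup p R → ∃! f : Set (Cfsg.IrrCharacter (Subgroup.centralizer (R : Set G))), Cfsg.IsInducedBlock M (Subgroup.centralizer (R : Set G)) f B := by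
  classical
  haveI : M.IsMaximal := hM.2.1
  haveI : M.IsPrime := hM.2.1.isPrime
  haveI := CfsgLib.Blocks.charP_res hM
  have hp : p.Prime := Fact.out
  open CfsgLib.BrauerPairs in
  exact by
    haveI hKn : K.Normal := by rw [hK]; infer_instance
    haveI hLn : L.Normal := by rw [hL, Cfsg.pPrimePCore]; infer_instance
    have hpK : ¬ p ∣ Nat.card K := by rw [hK]; exact CfsgLib.Cores.not_dvd_card_pPrimeCore
    have hKL : K ≤ L := by rw [hK, hL]; exact CfsgLib.PSolvable.pPrimeCore_le_pPrimePCore p G
    obtain ⟨k, hk⟩ : ∃ k, K.relIndex L = p ^ k := by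
      rw [hK, hL]; exact CfsgLib.PSolvable.exists_relIndex_pPrimePCore
    have hKtop : ∀ X : Subgroup G, X ≤ Subgroup.normalizer (K : Set G) := fun X => by
      rw [Subgroup.normalizer_eq_top K]; exact le_top
    have hLreg : ∀ x ∈ L, ¬ p ∣ orderOf x → x ∈ K := fun x hx =>
      mem_of_relIndex_eq_pow hp (hKtop L) hk hx
    -- a Sylow subgroup of `L` supplements `K`
    have hKQ : K ⊔ Q = L := by
      refine le_antisymm (sup_le hKL hQL) (Subgroup.relIndex_eq_one.1 ?_)
      obtain ⟨j, -, hj⟩ := (Nat.dvd_prime_pow hp).1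
        (hk ▸ Subgroup.relIndex_dvd_of_le_left L (le_sup_left : K ≤ K ⊔ Q))
      rcases Nat.eq_zero_or_pos j with rfl | hpos
      · rwa [pow_zero] at hj
      · exact absurd ((dvd_pow_self p hpos.ne').trans (hj ▸
          Subgroup.relIndex_dvd_of_le_left L (le_sup_right : Q ≤ K ⊔ Q))) hQS
    -- the block of `θ`
    have hfull : ¬ p ∣ Nat.card K / Cfsg.charDegree (θ : K → ℂ) := fun h =>
      hpK (h.trans (Nat.div_dvd_of_dvd (CfsgLib.Blocks.charDegree_dvd_card θ)))
    have hsingle := CfsgLib.Blocks.blockOf_eq_singleton_of_full hM θ hfull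
    have hθB : Cfsg.IsPBlock M ({θ} : Set (Cfsg.IrrCharacter K)) := ⟨θ, hsingle.symm⟩
    set c := subIdem M K ({θ} : Set (Cfsg.IrrCharacter K)) with hcdef
    have hcK : IsBlockIdem K c := isBlockIdem_subIdem hθB
    have hcG : c ∈ fixedBy (CfsgLib.Blocks.Res M) (⊤ : Subgroup G) := fun g _ =>
      ((stabilizesBlock_iff hθB).1 ⟨hKtop ⊤ (Subgroup.mem_top g), fun χ hχ =>
        ⟨θ, rfl, by rw [Set.mem_singleton_iff] at hχ; subst hχ; exact hθ g⟩⟩).2
    have hQreg : ∀ x ∈ Subgroup.centralizer (Q : Set G), ¬ p ∣ orderOf x → x ∈ K := fun x hx =>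
      hLreg x (hCQ hx)
    have hcblock : IsBlockIdem (⊤ : Subgroup G) c :=
      isBlockIdem_of_self_centralizing hM hpK hQp le_top le_top (hKtop ⊤)
        (by rw [hKQ, Subgroup.normalizer_eq_top L]) (fun x hx => hQreg x (Subgroup.mem_inf.1 hx).2)
        hcK hcG
    obtain ⟨B₀, hB₀, hB₀c⟩ := exists_isPBlock_of_isBlockIdem hcblock
    have hBeq : B = B₀ := by
      ext χ
      rw [hBdef]
      have hχB := CfsgLib.Blocks.isPBlock_blockOf (M := M) χ
      constructor
      · intro hne
        have h := (covers_iff K hχB hθB).1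
          ⟨χ, CfsgLib.Blocks.mem_blockOf_self χ, θ, rfl, hne⟩
        have heq := (isBlockIdem_redElem_blockCoeff hχB).eq_of_mul_ne_zero hcblock h
        rw [← hB₀c] at heq
        exact redElem_blockCoeff_injective hχB hB₀ heq ▸ CfsgLib.Blocks.mem_blockOf_self χ
      · intro hχ
        obtain ⟨θ', hθ'⟩ := CfsgLib.BlockLocal.exists_constituent K χ
        have hθ'B := CfsgLib.Blocks.isPBlock_blockOf (M := M) θ'
        have h := (covers_iff K hB₀ hθ'B).1 ⟨χ, hχ, θ', CfsgLib.Blocks.mem_blockOf_self θ', hθ'⟩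
        rw [hB₀c] at h
        have heq := hcK.eq_of_mul_ne_zero (isBlockIdem_subIdem hθ'B) h
        have heq' := subIdem_injective hθB hθ'B heq
        have hmem : θ' ∈ ({θ} : Set (Cfsg.IrrCharacter K)) :=
          heq' ▸ CfsgLib.Blocks.mem_blockOf_self θ'
        rw [Set.mem_singleton_iff] at hmem
        exact hmem ▸ hθ'
    subst hBeq
    refine ⟨hB₀, fun S => ?_, fun R hR => ?_⟩
    · obtain ⟨D, hD⟩ := exists_isDefectGroup hM hB₀
      have hD' := (isDefectGroup_iff hM hB₀).1 hD
      rw [hB₀c] at hD'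
      have hne := (isBlockIdem_brau_of_pPrime hM hpK S.2 (hKtop _) hcK
        (fixedBy_anti le_top hcG)).ne_zero
      obtain ⟨g, -, hg⟩ := hD'.exists_conj_le S.2 le_top hne
      have hSD : (S : Subgroup G) = D.map (MulAut.conj g).toMonoidHom :=
        (S.3 (hD'.2.1.map _) (map_conj_inv_le hg)).symm
      rw [hSD]
      exact CfsgLib.Blocks.isDefectGroup_map_conj hD g
    · -- a conjugate of `Q` normalised by `R`
      obtain ⟨S, hRS⟩ := hR.exists_le_sylow
      obtain ⟨S₀, hQS₀⟩ := hQp.exists_le_sylow
      have hS₀L : (S₀ : Subgroup G) ⊓ L = Q := by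
        have hle : Q ≤ (S₀ : Subgroup G) ⊓ L := le_inf hQS₀ hQL
        refine le_antisymm (Subgroup.relIndex_eq_one.1 ?_) hle
        have h1 := Subgroup.relIndex_mul_relIndex _ _ L hle inf_le_right
        have h2 := Subgroup.relIndex_mul_relIndex ⊥ Q ((S₀ : Subgroup G) ⊓ L) bot_le hle
        simp only [Subgroup.relIndex_bot_left] at h2
        obtain ⟨n, hn⟩ := IsPGroup.iff_card.1 (S₀.2.to_le (inf_le_left : _ ⊓ L ≤ _))
        obtain ⟨j, -, hj⟩ := (Nat.dvd_prime_pow hp).1 (hn ▸ Dvd.intro_left _ h2)
        rcases Nat.eq_zero_or_pos j with rfl | hpos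
        · rwa [pow_zero] at hj
        · exact absurd (Dvd.dvd.trans (dvd_pow_self p hpos.ne') (hj ▸ Dvd.intro _ h1)) hQS
      obtain ⟨g, hg⟩ := MulAction.exists_smul_eq G S₀ S
      have hSeq : (S : Subgroup G) = cj g S₀ := by rw [← hg]; rfl
      set Q' := cj g Q with hQ'
      have hQ'L : Q' ≤ L := fun u hu => by
        rw [mem_cj] at hu
        have := hLn.conj_mem _ (hQL hu) g
        simpa [mul_assoc] using this
      have hQ'p : IsPGroup p Q' := hQp.map _
      have hKQ' : K ⊔ Q' = L := by
        rw [← cj_of_mem_normalizer (H := L) (c := g)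
            (by rw [Subgroup.normalizer_eq_top L]; exact Subgroup.mem_top g), ← hKQ, cj,
          Subgroup.map_sup, hQ']
        congr 1
        exact (cj_of_mem_normalizer (hKtop ⊤ (Subgroup.mem_top g))).symm
      have hCQ' : Subgroup.centralizer (Q' : Set G) ≤ L := fun u hu => by
        rw [hQ', cj_centralizer, mem_cj] at hu
        have := hLn.conj_mem _ (hCQ hu) g
        simpa [mul_assoc] using this
      have hQ'eq : Q' = (S : Subgroup G) ⊓ L := by
        rw [hQ', ← hS₀L, cj_inf, ← hSeq, cj_of_mem_normalizer]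
        rw [Subgroup.normalizer_eq_top L]
        exact Subgroup.mem_top g
      have hRQ' : R ≤ Subgroup.normalizer (Q' : Set G) := fun r hr => by
        rw [hQ'eq, Subgroup.mem_normalizer_iff]
        intro u
        simp only [Subgroup.mem_inf]
        exact and_congr ((Subgroup.mem_normalizer_iff.1 (Subgroup.le_normalizer (hRS hr))) u)
          (Subgroup.mem_normalizer_iff.1 (by rw [Subgroup.normalizer_eq_top L]; trivial) u)
      have hone : ∀ u ∈ Q', u ∈ K → u = 1 := fun u hu hu' =>
        eq_one_of_mem_pPrime_pGroup hpK hQ'p hu' hu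
      set C := Subgroup.centralizer (R : Set G) with hC
      set c' := brau R c with hc'
      have hcR := fixedBy_anti (le_top : R ≤ ⊤) hcG
      have hc'b : IsBlockIdem (cenIn K R) c' :=
        isBlockIdem_brau_of_pPrime hM hpK hR (hKtop R) hcK hcR
      have hCnorm : C ≤ Subgroup.normalizer (C : Set G) := Subgroup.le_normalizer
      have hc'C : c' ∈ fixedBy (CfsgLib.Blocks.Res M) C :=
        trunc_mem_fixedBy hCnorm (fixedBy_anti le_top hcG)
      have hpKC : ¬ p ∣ Nat.card (cenIn K R) := fun h =>
        hpK (h.trans (Subgroup.card_dvd_of_le inf_le_left))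
      -- the fixed points of `R` on `L`
      have hLC : cenIn K R ⊔ (Q' ⊓ C) = L ⊓ C := by
        refine le_antisymm (sup_le (inf_le_inf_right _ hKL) (inf_le_inf_right _ hQ'L)) fun x hx => ?_
        obtain ⟨hxL, hxC⟩ := Subgroup.mem_inf.1 hx
        rw [← hKQ'] at hxL
        obtain ⟨n, hn, q, hq, rfl⟩ := exists_mul_eq_of_mem_sup (hKtop Q') hxL
        have hqC : q ∈ C := by
          refine Subgroup.mem_centralizer_iff.2 fun r hr => ?_
          have h0 := Subgroup.mem_centralizer_iff.1 hxC r hr
          have h1 : r * q * r⁻¹ * q⁻¹ ∈ K := by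
            have h2 : r * q * r⁻¹ * q⁻¹ = (r * n * r⁻¹)⁻¹ * n := by
              calc r * q * r⁻¹ * q⁻¹
                  = (r * n * r⁻¹)⁻¹ * (r * (n * q)) * r⁻¹ * q⁻¹ := by group
                _ = (r * n * r⁻¹)⁻¹ * ((n * q) * r) * r⁻¹ * q⁻¹ := by rw [h0]
                _ = (r * n * r⁻¹)⁻¹ * n := by group
            rw [h2]
            exact K.mul_mem (K.inv_mem (hKn.conj_mem _ hn r)) hn
          have h3 := hone _ (Q'.mul_mem ((Subgroup.mem_normalizer_iff.1 (hRQ' hr) q).1 hq)
            (Q'.inv_mem hq)) h1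
          exact mul_inv_eq_iff_eq_mul.1 (mul_inv_eq_one.1 h3)
        refine Subgroup.mul_mem _ (Subgroup.mem_sup_left (Subgroup.mem_inf.2 ⟨hn, ?_⟩))
          (Subgroup.mem_sup_right (Subgroup.mem_inf.2 ⟨hq, hqC⟩))
        have := C.mul_mem hxC (C.inv_mem hqC)
        rwa [mul_inv_cancel_right] at this
      have hc'block : IsBlockIdem C c' := by
        refine isBlockIdem_of_self_centralizing hM hpKC (hQ'p.to_le inf_le_left) inf_le_right
          inf_le_right (fun u hu => ?_) (fun u hu => ?_) (fun x hx hxreg => ?_) hc'b hc'C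
        · rw [Subgroup.mem_normalizer_iff]
          intro v
          simp only [Subgroup.mem_inf]
          exact and_congr (Subgroup.mem_normalizer_iff.1 (hKtop ⊤ (Subgroup.mem_top u)) v)
            (Subgroup.mem_normalizer_iff.1 (hCnorm hu) v)
        · rw [hLC, Subgroup.mem_normalizer_iff]
          intro v
          simp only [Subgroup.mem_inf]
          exact and_congr (Subgroup.mem_normalizer_iff.1
            (by rw [Subgroup.normalizer_eq_top L]; trivial) v)
            (Subgroup.mem_normalizer_iff.1 (hCnorm hu) v)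
        · obtain ⟨hxC, hxQ⟩ := Subgroup.mem_inf.1 hx
          set π := QuotientGroup.mk' K
          have hQbar : (Q'.map π).Normal := by
            have hLbar : Q'.map π = L.map π := by
              rw [← hKQ', Subgroup.map_sup]
              simp [π]
            rw [hLbar]
            exact hLn.map π (QuotientGroup.mk'_surjective K)
          have hcomm := CfsgLib.StronglyPEmbedded.commute_of_axb (hR.map π) (hQ'p.map π)
            (by rw [Subgroup.normalizer_eq_top (Q'.map π)]; exact le_top) (x := π x)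
            (by
              refine Nat.Coprime.coprime_dvd_left (orderOf_map_dvd π x) ?_
              exact Nat.Coprime.symm (hp.coprime_iff_not_dvd.2 hxreg))
            (Subgroup.mem_centralizer_iff.2 (by
              rintro _ ⟨r, hr, rfl⟩
              rw [← map_mul, ← map_mul, Subgroup.mem_centralizer_iff.1 hxC r hr]))
            (by rw [Subgroup.normalizer_eq_top (Q'.map π)]; trivial)
            (by
              rintro _ ⟨q, hq, rfl⟩ hqC
              have hqC' : q ∈ C := by
                refine Subgroup.mem_centralizer_iff.2 fun r hr => ?_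
                have h1 : π (r * q * r⁻¹ * q⁻¹) = 1 := by
                  rw [map_mul, map_mul, map_mul, map_inv, map_inv,
                    Subgroup.mem_centralizer_iff.1 hqC (π r) ⟨r, hr, rfl⟩]
                  group
                have h3 := hone _ (Q'.mul_mem ((Subgroup.mem_normalizer_iff.1 (hRQ' hr) q).1 hq)
                  (Q'.inv_mem hq)) ((QuotientGroup.eq_one_iff _).1 h1)
                exact mul_inv_eq_iff_eq_mul.1 (mul_inv_eq_one.1 h3)
              exact Commute.map (Subgroup.mem_centralizer_iff.1 hxQ q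
                (Subgroup.mem_inf.2 ⟨hq, hqC'⟩) : Commute q x).symm π)
          obtain ⟨o, ho, hox⟩ := CfsgLib.SectRank.exists_mul_mem_centralizer hQ'p
            (Nat.Coprime.symm (hp.coprime_iff_not_dvd.2 hpK)) (O := K) (h := x) (fun q hq => by
              rw [← QuotientGroup.eq_one_iff]
              show π (x * q * x⁻¹ * q⁻¹) = 1
              rw [map_mul, map_mul, map_mul, map_inv, map_inv,
                (hcomm (π q) ⟨q, hq, rfl⟩).eq]
              group)
          have hxL : x ∈ L := by
            have := L.mul_mem (L.inv_mem (hKL ho)) (hCQ' hox)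
            rwa [inv_mul_cancel_left] at this
          exact Subgroup.mem_inf.2 ⟨hLreg x hxL hxreg, hxC⟩
      obtain ⟨f₀, hf₀, hf₀c⟩ := exists_isPBlock_subIdem hc'block
      have hCN : C ≤ Subgroup.normalizer (R : Set G) := Subgroup.centralizer_le_normalizer _
      set T := CfsgLib.Blocks.truncHom (k := CfsgLib.Blocks.Res M) hR le_rfl hCN with hTdef
      set eB := CfsgLib.Blocks.idemRes M B (CfsgLib.Blocks.memLocalRing_blockCoeff hB₀) with heB
      have hTe : T eB =
          CfsgLib.Blocks.idemRes M f₀ (CfsgLib.Blocks.memLocalRing_blockCoeff hf₀) := by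
        refine Subtype.ext (MonoidAlgebra.ext (Finsupp.ext fun x => ?_))
        rw [CfsgLib.Blocks.coeff_truncHom, CfsgLib.Blocks.truncFun_of_mem _ x.2, heB,
          ← redElem_blockCoeff hB₀, ← redElem_blockCoeff hf₀, hB₀c]
        have h1 : (subIdem M C f₀).coeff (x : G) = c'.coeff (x : G) := by rw [hf₀c]
        rw [hc', brau, coeff_trunc_of_mem x.2, subIdem, redElem_subgroupBlockCoeff] at h1
        have h2 := coeff_mapG_apply (φ := C.subtype) C.subtype_injective
          (redElem M (Cfsg.blockCoeff f₀)) x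
        rw [← h1]
        exact h2
      -- reading induction through the truncation
      have hval : ∀ (ξ : Cfsg.IrrCharacter C) (g : G), ∃ h,
          CfsgLib.Blocks.omegaRes M ξ (T (CfsgLib.Blocks.classSumA (CfsgLib.Blocks.Res M) g)) =
            CfsgLib.Blocks.red M ⟨Cfsg.inducedCentralChar C (ξ : C → ℂ) g, h⟩ := by
        intro ξ g
        obtain ⟨h1, e1⟩ := CfsgLib.Blocks.red_brauerCentralChar hM hR le_rfl hCN ξ g
        have heq : Cfsg.brauerCentralChar R C (ξ : C → ℂ) g =
            Cfsg.inducedCentralChar C (ξ : C → ℂ) g := by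
          unfold Cfsg.brauerCentralChar Cfsg.inducedCentralChar
          congr! 3 with h
          exact ⟨fun h' => h'.1, fun h' => ⟨h', h.2⟩⟩
        refine ⟨heq ▸ h1, e1.trans ?_⟩
        congr 1
        exact Subtype.ext heq
      refine ⟨f₀, ⟨hf₀, hB₀, fun ξ hξ χ hχ g => ?_⟩, ?_⟩
      · obtain ⟨χ₀, hχ₀⟩ := CfsgLib.Blocks.exists_omegaRes_eq
          ((CfsgLib.Blocks.omegaRes M ξ).comp T) fun s => by
            rw [RingHom.comp_apply, CfsgLib.Blocks.truncHom_algebraMap,
              CfsgLib.Blocks.omegaRes_algebraMap]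
        have hmem : χ₀ ∈ B := by
          refine (omegaRes_redElem_eq_one_iff hB₀).1 ?_
          rw [← hχ₀, RingHom.comp_apply, ← heB, hTe, CfsgLib.Blocks.omegaRes_idemRes_of_mem _ hξ]
        have hcomp : (CfsgLib.Blocks.omegaRes M ξ).comp T = CfsgLib.Blocks.omegaRes M χ := by
          rw [hχ₀]
          exact (CfsgLib.Blocks.omegaRes_eq_iff M χ₀ χ).2
            (CfsgLib.Blocks.sameBlock_of_mem hB₀ hmem hχ)
        obtain ⟨h, e1⟩ := hval ξ g
        have h2 := RingHom.congr_fun hcomp (CfsgLib.Blocks.classSumA (CfsgLib.Blocks.Res M) g)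
        rw [RingHom.comp_apply, e1, CfsgLib.Blocks.omegaRes_classSumA,
          CfsgLib.Blocks.red_eq_red_iff] at h2
        exact h2
      · intro f hf
        obtain ⟨ξ, hξ⟩ := CfsgLib.Blocks.isPBlock_nonempty hf.1
        obtain ⟨χ, hχ⟩ := CfsgLib.Blocks.isPBlock_nonempty hB₀
        have hcomp : (CfsgLib.Blocks.omegaRes M ξ).comp T = CfsgLib.Blocks.omegaRes M χ := by
          refine CfsgLib.Blocks.classHom_ext (fun s => ?_) fun g => ?_
          · rw [RingHom.comp_apply, CfsgLib.Blocks.truncHom_algebraMap,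
              CfsgLib.Blocks.omegaRes_algebraMap, CfsgLib.Blocks.omegaRes_algebraMap]
          · obtain ⟨h, e1⟩ := hval ξ g
            rw [RingHom.comp_apply, e1, CfsgLib.Blocks.omegaRes_classSumA,
              CfsgLib.Blocks.red_eq_red_iff]
            exact hf.2.2 ξ hξ χ hχ g
        have h2 := RingHom.congr_fun hcomp eB
        rw [RingHom.comp_apply, hTe, heB, CfsgLib.Blocks.omegaRes_idemRes_of_mem _ hχ] at h2
        exact CfsgLib.Blocks.isPBlock_eq_of_mem hf.1 hf₀ hξ
          ((omegaRes_redElem_eq_one_iff hf₀).1 h2)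

end Cfsg.Agent.S4642
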