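import Cfsg.Statements.S4644
import Cfsg.Agent.Lib.BlockStar.Watanabe

set_option autoImplicit false
open Cfsg CfsgLib.BrauerPairs CfsgLib.BlockStar CfsgLib.BrauerCharacters

namespace Cfsg.Agent.S4644

/-- Let B be a block of the finite group G relative to a maximal ideal M of the algebraic integers containing the prime p, with a commutative defect group P; let c be a block of C_G(P) inducing B and T the stabilizer of c in N_G(P). Let u be an element of P fixed under conjugation by every element of T, H = C_G(u) (so C_G(P) ≤ H), and f the block of H induced by c inside H. Then B and f have the same p-regular rank and the same number of irreducible characters. -/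
theorem result {G : Type*} [Group G] [Finite G] (p : ℕ) [Fact p.Prime] (M : Ideal Cfsg.AlgInt) (hM : Cfsg.IsPModular p M) (B : Set (Cfsg.IrrCharacter G)) (hB : Cfsg.IsPBlock M B) (P : Subgroup G) (hPD : Cfsg.IsDefectGroup p M B P) (hPab : ∀ x ∈ P, ∀ y ∈ P, x * y = y * x) (c : Set (Cfsg.IrrCharacter (Subgroup.centralizer (P : Set G)))) (hc : Cfsg.IsInducedBlock M (Subgroup.centralizer (P : Set G)) c B) (T : Subgroup G) (hT : ∀ g : G, g ∈ T ↔ (g ∈ Subgroup.normalizer (P : Set G) ∧ Cfsg.StabilizesBlock (Subgroup.centralizer (P : Set G)) c g)) (u : G) (hu : u ∈ P) (huT : ∀ g ∈ T, g * u * g⁻¹ = u) (H : Subgroup G) (hH : H = Subgroup.centralizer ({u} : Set G)) (f : Set (Cfsg.IrrCharacter H)) (hf : Cfsg.IsInducedBlockIn M H (Subgroup.centralizer (P : Set G)) c f) : Cfsg.blockRank p B = Cfsg.blockRank p f ∧ Nat.card B = Nat.card f := by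
  have : M.IsPrime := CfsgLib.Blocks.isPrime_of_isPModular hM
  have : M.IsMaximal := hM.2.1
  have : CharP (CfsgLib.Blocks.Res M) p := CfsgLib.Blocks.charP_res hM
  have : IsAlgClosed (CfsgLib.Blocks.Res M) := CfsgLib.Blocks.isAlgClosed_res
  subst hH
  have hmax := isMaxPair_of_induced hM hB hPD hPab hc
  have hfix : ∀ t ∈ pairStab (⊤ : Subgroup G) P (subIdem M _ c), t * u * t⁻¹ = u :=
    fun t ht => huT t ((hT t).2 ((mem_pairStab_top_iff hc.1).1 ht))
  have hPC : P ≤ Subgroup.centralizer (P : Set G) := fun a ha =>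
    Subgroup.mem_centralizer_iff.2 fun b hb => hPab b hb a ha
  have hbr := (isInducedBlockIn_iff hM hmax.1.1.1 hPC
    (Subgroup.centralizer_le (by simpa using hu)) (Subgroup.centralizer_le_normalizer _)
    inf_le_right hc.1 hf.2.1).1 hf
  have hle : PairLE p (⊤ : Subgroup G) (Subgroup.zpowers u)
      (subIdem M (Subgroup.centralizer ({u} : Set G)) f) P (subIdem M _ c) :=
    pairLE_of_brau hmax.1.1 (Subgroup.zpowers_le.2 hu) hPab
      (isBlockIdem_congr (centralizer_zpowers_eq u).symm (isBlockIdem_subIdem hf.2.1)) hbr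
  obtain ⟨hb, hle', -⟩ := CfsgLib.BlockSections.belowBlock_spec hM hB hmax hu
  rw [subIdem_injective hf.2.1 hb ((existsUnique_pairLE hmax.1.1 hle.le).unique hle hle')]
  exact counts_eq_of_fixed hM hB hmax hPab hu hfix

end Cfsg.Agent.S4644
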