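import Cfsg.Statements.S4645
import Cfsg.Agent.Lib.BrauerPairs.NilpotentRank
import Cfsg.Agent.S4633
-- import your own Cfsg.Agent.* helpers here

set_option autoImplicit false
open Cfsg

namespace Cfsg.Agent.S4645

open Cfsg CfsgLib.BrauerPairs

/-- Let B be a block of the finite group G relative to a maximal ideal M of the algebraic integers containing the prime p, with a nontrivial cyclic defect group P; let c be a block of C_G(P) inducing B and T the stabilizer of c in N_G(P). Let Q be a nontrivial subgroup of P (so C_G(P) ≤ C_G(Q)), f the block of C_G(Q) induced by c inside C_G(Q), and T' the stabilizer of f in N_G(Q). Then T' = T·C_G(Q), the index of C_G(Q) in T' equals the index of C_G(P) in T, f has p-regular rank 1, and f is a nilpotent block of C_G(Q). -/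
theorem result {G : Type*} [Group G] [Finite G] (p : ℕ) [Fact p.Prime] (M : Ideal Cfsg.AlgInt) (hM : Cfsg.IsPModular p M) (B : Set (Cfsg.IrrCharacter G)) (hB : Cfsg.IsPBlock M B) (P : Subgroup G) (hPD : Cfsg.IsDefectGroup p M B P) (hP1 : P ≠ ⊥) (hcyc : IsCyclic P) (c : Set (Cfsg.IrrCharacter (Subgroup.centralizer (P : Set G)))) (hc : Cfsg.IsInducedBlock M (Subgroup.centralizer (P : Set G)) c B) (T : Subgroup G) (hT : ∀ g : G, g ∈ T ↔ (g ∈ Subgroup.normalizer (P : Set G) ∧ Cfsg.StabilizesBlock (Subgroup.centralizer (P : Set G)) c g)) (Q : Subgroup G) (hQP : Q ≤ P) (hQ1 : Q ≠ ⊥) (f : Set (Cfsg.IrrCharacter (Subgroup.centralizer (Q : Set G)))) (hf : Cfsg.IsInducedBlockIn M (Subgroup.centralizer (Q : Set G)) (Subgroup.centralizer (P : Set G)) c f) (T' : Subgroup G) (hT' : ∀ g : G, g ∈ T' ↔ (g ∈ Subgroup.normalizer (Q : Set G) ∧ Cfsg.StabilizesBlock (Subgroup.centralizer (Q : Set G)) f g)) : T' = T ⊔ Subgroup.centralizer (Q : Set G) ∧ (Subgroup.centralizer (Q : Set G)).relIndex T'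 = (Subgroup.centralizer (P : Set G)).relIndex T ∧ Cfsg.blockRank p f = 1 ∧ Cfsg.IsNilpotentBlock p M f := by
  haveI : M.IsPrime := CfsgLib.Blocks.isPrime_of_isPModular hM
  haveI : M.IsMaximal := hM.2.1
  haveI : CharP (CfsgLib.Blocks.Res M) p := CfsgLib.Blocks.charP_res hM
  haveI : IsAlgClosed (CfsgLib.Blocks.Res M) := CfsgLib.Blocks.isAlgClosed_res
  haveI := hcyc
  have hab : ∀ x ∈ P, ∀ y ∈ P, x * y = y * x := fun x hx y hy => by
    have := IsCyclic.commGroup (α := P) |>.mul_comm ⟨x, hx⟩ ⟨y, hy⟩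
    exact congrArg Subtype.val this
  have hb := isBlockIdem_redElem_blockCoeff (M := M) hB
  have hmax := isMaxPair_of_induced hM hB hPD hab hc
  have hTp : pairStab (⊤ : Subgroup G) P (subIdem M _ c) = T := by
    ext y
    rw [mem_pairStab_top_iff hc.1, hT]
  have hfb : IsPBlock M f := hf.2.1
  have hT'p : pairStab (⊤ : Subgroup G) Q (subIdem M _ f) = T' := by
    ext y
    rw [mem_pairStab_top_iff hfb, hT']
  have hPC : P ≤ Subgroup.centralizer (P : Set G) := fun u hu =>
    Subgroup.mem_centralizer_iff.2 fun v hv => hab v hv u hu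
  have hP : IsPGroup p P := hmax.1.1.1
  have hCPC : Subgroup.centralizer (P : Set G) ≤ (Subgroup.centralizer (Q : Set G)) := Subgroup.centralizer_le hQP
  have hPleC : P ≤ (Subgroup.centralizer (Q : Set G)) := hPC.trans hCPC
  have hblock := isBlockIdem_subIdem (M := M) hfb
  have hn : NormalLE p (⊤ : Subgroup G) Q (subIdem M _ f) P (subIdem M _ c) := by
    refine ⟨⟨hP.to_le hQP, le_top, ?_⟩, hmax.1.1, hQP,
      hPleC.trans (Subgroup.centralizer_le_normalizer _), ?_,
      (isInducedBlockIn_iff hM hP hPC hCPC (Subgroup.centralizer_le_normalizer _) inf_le_right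
        hc.1 hfb).1 hf⟩
    · rw [cenIn_top]
      exact hblock
    · exact fixedBy_anti hPleC (mem_ctr.1 hblock.mem).2
  have hle := hn.pairLE
  have hm := hmax.local_of_abelian hb hab hn
  rw [cenIn_top] at hm
  obtain ⟨gen, hgen⟩ := IsCyclic.exists_generator (α := P)
  have hTQ : T ≤ T' := by
    intro x hx
    rw [← hT'p]
    obtain ⟨-, hxP, hxc⟩ := mem_pairStab.1 (hTp.ge hx)
    have hmem := (Subgroup.mem_normalizer_iff.1 hxP gen).1 gen.2
    obtain ⟨a, ha⟩ := Subgroup.mem_zpowers_iff.1 (hgen ⟨_, hmem⟩)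
    have hpow : ∀ y ∈ P, x * y * x⁻¹ = y ^ a := by
      intro y hy
      obtain ⟨i, hi⟩ := Subgroup.mem_zpowers_iff.1 (hgen ⟨y, hy⟩)
      have hi' : ((gen : G)) ^ i = y := by simpa using congrArg Subtype.val hi
      have ha' : ((gen : G)) ^ a = x * (gen : G) * x⁻¹ := by
        simpa using congrArg Subtype.val ha
      rw [← hi', ← conj_zpow, ← ha', ← zpow_mul, ← zpow_mul, mul_comm]
    have hQle : cj x Q ≤ Q := by
      intro y hy
      have h1 := mem_cj.1 hy
      have h2 := hpow _ (hQP h1)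
      rw [show x * (x⁻¹ * y * x) * x⁻¹ = y by group] at h2
      exact h2 ▸ Q.zpow_mem h1 a
    have hQeq : cj x Q = Q := Subgroup.eq_of_le_of_card_ge hQle
      (Subgroup.card_map_of_injective (MulAut.conj x).injective).ge
    have h := hle.conj (c := x) (Subgroup.mem_top x)
    rw [hQeq, cj_of_mem_normalizer hxP, hxc] at h
    refine mem_pairStab.2 ⟨Subgroup.mem_top x, ?_,
      (existsUnique_pairLE hmax.1.1 hQP).unique h hle⟩
    rw [Subgroup.mem_normalizer_iff]
    intro y
    conv_rhs => rw [← hQeq, mem_cj]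
    rw [show x⁻¹ * (x * y * x⁻¹) * x = y by group]
  have hCT' : (Subgroup.centralizer (Q : Set G)) ≤ T' := (cenIn_top Q).ge.trans ((cenIn_le_pairStab hn.1).trans hT'p.le)
  have hT'eq : T' = T ⊔ (Subgroup.centralizer (Q : Set G)) := by
    refine le_antisymm (fun x hx => ?_) (sup_le hTQ hCT')
    obtain ⟨y, hy, z, hz, rfl⟩ := hmax.stab_eq_of_abelian hb hab hle x (hT'p.ge hx)
    exact mul_mem ((le_sup_left : T ≤ T ⊔ (Subgroup.centralizer (Q : Set G))) (hTp.le hy))
      ((le_sup_right : (Subgroup.centralizer (Q : Set G)) ≤ T ⊔ (Subgroup.centralizer (Q : Set G))) ((cenIn_top Q).le hz))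
  have hCPT : Subgroup.centralizer (P : Set G) ≤ T :=
    (cenIn_top P).ge.trans ((cenIn_le_pairStab hmax.1.1).trans hTp.le)
  haveI : ((Subgroup.centralizer (P : Set G)).subgroupOf T).Normal :=
    Subgroup.normal_subgroupOf_of_le_normalizer fun x hx =>
      normalizer_le_normalizer_cen P ((hT x).1 hx).1
  have hfree := (Cfsg.Agent.S4633.result p M hM B hB P hPD hP1 hcyc c hc T hT).2.2
  have hTC : ∀ x ∈ T, x ∈ (Subgroup.centralizer (Q : Set G)) → x ∈ Subgroup.centralizer (P : Set G) := by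
    intro x hxT hxC
    obtain ⟨u, hu⟩ := Subgroup.ne_bot_iff_exists_ne_one.1 hQ1
    refine hfree x hxT u (hQP u.2) (fun h => hu (Subtype.ext h)) ?_
    rw [← Subgroup.mem_centralizer_iff.1 hxC u u.2, mul_inv_cancel_right]
  have hnil : IsNilpotentBlock p M f := by
    refine (isNilpotentBlock_sub_iff hM).2 ⟨hfb, (hm.isNilp_iff_of_abelian hblock hab).2 ?_⟩
    intro x hx
    obtain ⟨hxC, hxN, hxc⟩ := mem_pairStab.1 hx
    exact hTC x (hTp.le (mem_pairStab.2 ⟨Subgroup.mem_top x, hxN, hxc⟩)) hxC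
  refine ⟨hT'eq, ?_, ?_, hnil⟩
  · haveI : ((Subgroup.centralizer (Q : Set G)).subgroupOf T').Normal := Subgroup.normal_subgroupOf_of_le_normalizer fun x hx =>
      normalizer_le_normalizer_cen Q ((hT' x).1 hx).1
    have hsup : T.subgroupOf T' ⊔ (Subgroup.centralizer (Q : Set G)).subgroupOf T' = ⊤ := by
      rw [← Subgroup.subgroupOf_sup hTQ hCT', Subgroup.subgroupOf_eq_top]
      exact hT'eq.le
    have h1 : (Subgroup.centralizer (Q : Set G)).relIndex T' = (Subgroup.centralizer (Q : Set G)).relIndex T := by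
      show ((Subgroup.centralizer (Q : Set G)).subgroupOf T').index = _
      rw [← Subgroup.relIndex_top_right, ← hsup, Subgroup.relIndex_sup_right,
        Subgroup.relIndex_subgroupOf hTQ]
    rw [h1, ← Subgroup.inf_relIndex_right (Subgroup.centralizer (Q : Set G)) T, show (Subgroup.centralizer (Q : Set G)) ⊓ T = Subgroup.centralizer (P : Set G) from
      le_antisymm (fun x hx => hTC x (Subgroup.mem_inf.1 hx).2 (Subgroup.mem_inf.1 hx).1)
        (le_inf hCPC hCPT)]
  · have hdef : IsDefectGroup p M f (P.subgroupOf (Subgroup.centralizer (Q : Set G))) := by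
      rw [isDefectGroup_sub_iff hM hfb, Subgroup.subgroupOf_map_subtype, inf_eq_left.2 hPleC]
      exact hm.isDefectIn hblock
    exact (blockRank_eq_one_of_nilpotent_abelian hM hnil hdef fun x hx z hz =>
      Subtype.ext (hab x hx z hz)).1

end Cfsg.Agent.S4645
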