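import Cfsg.Statements.S4647
import Cfsg.Agent.Lib.RealChar.MinimalBlock
import Cfsg.Agent.Lib.BrauerPairs.BridgePairs
import Cfsg.Agent.Lib.BrauerPairs.BridgeDefect
import Cfsg.Agent.Lib.BrauerCharacters.BlockAlgebra
import Cfsg.Agent.Lib.BlockStar.Primitive

set_option autoImplicit false
open Cfsg CfsgLib.BrauerPairs CfsgLib.Blocks CfsgLib.BrauerCharacters MonoidAlgebra

namespace Cfsg.Agent.S4647

/-- Let B be a block of the finite group G relative to a maximal ideal M of the algebraic integers containing the prime p, p^a the p-part of the order of G and p^d the order of a defect group D of B. If Σ_{χ ∈ B} χ(1)² = p^(2a−d) (the least possible value), then B is nilpotent. -/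
theorem result {G : Type*} [Group G] [Finite G] (p : ℕ) [Fact p.Prime] (M : Ideal Cfsg.AlgInt) (hM : Cfsg.IsPModular p M) (B : Set (Cfsg.IrrCharacter G)) (hB : Cfsg.IsPBlock M B) (D : Subgroup G) (hD : Cfsg.IsDefectGroup p M B D) (a d : ℕ) (ha : (Nat.card G).factorization p = a) (hd : Nat.card D = p ^ d) (hmin : ∑ᶠ χ ∈ B, Cfsg.charDegree (χ : G → ℂ) ^ 2 = p ^ (2 * a - d)) : Cfsg.IsNilpotentBlock p M B := by
  classical
  haveI : M.IsPrime := isPrime_of_isPModular hM
  haveI : M.IsMaximal := hM.2.1
  haveI : CharP (Res M) p := charP_res hM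
  haveI : IsAlgClosed (Res M) := isAlgClosed_res
  haveI := Fintype.ofFinite G
  have hb := isBlockIdem_redElem_blockCoeff (M := M) hB
  set e := redElem M (blockCoeff B) with he
  have hec : ∀ g : G, Commute (single g (1 : Res M)) e := fun g =>
    CfsgLib.BlockStar.mem_fixedBy_iff_commute.1 (mem_ctr.1 hb.mem).2 g (Subgroup.mem_top g)
  have hD' := (isDefectGroup_iff hM hB).1 hD
  obtain ⟨-, hDp, hbr, a0, -, ha0, htr⟩ := id hD'
  obtain ⟨P, hDP⟩ := hDp.exists_le_sylow
  -- the dimension
  have hdim : Module.finrank (Res M) (LinearMap.range (LinearMap.mulRight (Res M) e)) =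
      p ^ (2 * a - d) := by
    set eR : MonoidAlgebra (locRing M) G :=
      (idemLoc M B (memLocalRing_blockCoeff hB) : MonoidAlgebra (locRing M) G) with heR
    have heRi : eR * eR = eR := congrArg Subtype.val (idemLoc_mul_self (memLocalRing_blockCoeff hB))
    have hmap : mapRingHom G (red M) eR = e := by rw [he, redElem_blockCoeff hB]; rfl
    obtain ⟨r, hr⟩ := exists_rank_of_idempotent (regMat_mul_self heRi)
    have hrp : r = p ^ (2 * a - d) := by
      have hr1 : (r : ℂ) = ∑ᶠ χ ∈ B, ((charDegree (χ : G → ℂ) : ℂ)) ^ 2 := by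
        rw [← (hr ℂ (locRing M).subtype).2, regMat_map, heR, map_idemLoc, trace_regMat_blockIdem]
      apply Nat.cast_injective (R := ℂ)
      haveI := Fintype.ofFinite (IrrCharacter G)
      rw [hr1, ← hmin, finsum_mem_eq_sum_blockFinset, finsum_mem_eq_sum_blockFinset]
      push_cast
      rfl
    rw [← hrp, ← (hr (Res M) (red M)).1, regMat_map, hmap]
    let cf : MonoidAlgebra (Res M) G ≃ₗ[Res M] (G → Res M) :=
      (MonoidAlgebra.basis G (Res M)).equivFun
    rw [← LinearEquiv.finrank_map_eq cf, ← LinearMap.range_comp]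
    have key : cf.toLinearMap.comp (LinearMap.mulRight (Res M) e) =
        (regMat e).mulVecLin.comp cf.toLinearMap := by
      refine LinearMap.ext fun x => funext fun g => ?_
      show (x * e).coeff g = _
      rw [LinearMap.comp_apply, Matrix.mulVecLin_apply, regMat_mulVec]
      rw [show ofFun (cf.toLinearMap x) = x from MonoidAlgebra.ext (Finsupp.ext fun y => rfl)]
    rw [key, LinearMap.range_comp, LinearEquiv.range, Submodule.map_top]
  have hdim' : Module.finrank (Res M) (LinearMap.range (LinearMap.mulRight (Res M) e)) *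
      Nat.card D ≤ Nat.card (P : Subgroup G) * Nat.card (P : Subgroup G) := by
    have hda : d ≤ a := by
      have h := Subgroup.card_le_of_le hDP
      rw [hd, P.card_eq_multiplicity, ha] at h
      exact (Nat.pow_le_pow_iff_right (Fact.out : p.Prime).one_lt).1 h
    rw [hdim, hd, P.card_eq_multiplicity, ha, ← pow_add, ← pow_add]
    exact le_of_eq (congrArg _ (by omega))
  have hcoef : ∀ R : Subgroup G, brau R e ≠ 0 →
      ∃ g ∈ Subgroup.centralizer (R : Set G), e.coeff g ≠ 0 := by
    intro R hR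
    by_contra h
    push Not at h
    refine hR (MonoidAlgebra.ext (Finsupp.ext fun g => ?_))
    by_cases hg : g ∈ Subgroup.centralizer (R : Set G)
    · rw [brau, coeff_trunc_of_mem hg, h g hg]; simp
    · rw [brau, coeff_trunc_of_not_mem hg]; simp
  obtain ⟨eD, hmax⟩ := exists_isMaxPair_of_isDefectIn hb hD'
  refine (isNilpotentBlock_iff hM).2 ⟨hB, fun Q f hQf x hx hreg => ?_⟩
  obtain ⟨c, -, hle⟩ := hQf.exists_conj_le hb hmax
  have hpo := (hle.pairOf_iff hb).2 hmax.1
  have hne : brau (cj c Q) e ≠ 0 := fun h => hpo.1.2.2.ne_zero (by rw [← hpo.2, h, zero_mul])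
  have hxN := (mem_pairStab.1 hx).2.1
  have hxN' : c * x * c⁻¹ ∈ Subgroup.normalizer (cj c Q : Set G) := by
    refine Subgroup.mem_normalizer_iff.2 fun u => ?_
    rw [mem_cj, mem_cj, Subgroup.mem_normalizer_iff.1 hxN]
    simp [mul_assoc]
  have hord : ¬ p ∣ orderOf (c * x * c⁻¹) := by
    rwa [show c * x * c⁻¹ = MulAut.conj c x from rfl, MulEquiv.orderOf_eq]
  have hC := CfsgLib.RealChar.MinimalBlock.mem_centralizer_of_normalizer hec hb.mul_self
    hb.ne_zero ha0 htr hDp P.2 hdim' hDP (hcoef D hbr) hle.le (hcoef _ hne) hxN' hord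
  refine Subgroup.mem_centralizer_iff.2 fun u hu => ?_
  have h := Subgroup.mem_centralizer_iff.1 hC (c * u * c⁻¹) (mem_cj.2 (by simpa [mul_assoc] using hu))
  have h' : c * (u * x) * c⁻¹ = c * (x * u) * c⁻¹ := by
    calc c * (u * x) * c⁻¹ = c * u * c⁻¹ * (c * x * c⁻¹) := by group
      _ = c * x * c⁻¹ * (c * u * c⁻¹) := h
      _ = _ := by group
  exact mul_left_cancel (mul_right_cancel h')

end Cfsg.Agent.S4647
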