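import Cfsg.Statements.S4648
import Cfsg.Agent.Lib.BrauerCharacters.BlockOneSimple
import Cfsg.Agent.Lib.BlockSections.OrderFour
import Cfsg.Agent.S4676

set_option autoImplicit false
open Cfsg

namespace Cfsg.Agent.S4648

set_option linter.style.haveILetI false

open CfsgLib.BrauerCharacters CfsgLib.Blocks in
theorem card_le_quarter_sq {G : Type*} [Group G] [Finite G] {p : ℕ} [Fact p.Prime]
    {M : Ideal Cfsg.AlgInt} (hM : Cfsg.IsPModular p M) {B : Set (Cfsg.IrrCharacter G)}
    (hB : Cfsg.IsPBlock M B) {D : Subgroup G} (hD : Cfsg.IsDefectGroup p M B D) :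
    Nat.card B ≤ Nat.card D ^ 2 / 4 + 1 := by
  haveI := Fintype.ofFinite G
  refine le_trans ?_ (Cfsg.Agent.S4676.result p M hM B hB D hD)
  rw [finsum_mem_eq_sum_blockFinset, ← card_blockFinset, Finset.card_eq_sum_ones]
  exact Finset.sum_le_sum fun χ _ => Nat.one_le_pow _ _ (Fact.out : p.Prime).pos

open CfsgLib.BrauerCharacters CfsgLib.Blocks in
theorem card_dvd_and_eq {G : Type*} [Group G] [Finite G] {p : ℕ} [Fact p.Prime]
    {M : Ideal Cfsg.AlgInt} (hM : Cfsg.IsPModular p M) {B : Set (Cfsg.IrrCharacter G)}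
    (hB : Cfsg.IsPBlock M B) {D : Subgroup G} (hD : Cfsg.IsDefectGroup p M B D) (hD1 : D ≠ ⊥)
    (hl : Cfsg.blockRank p B = 1) (hk : Nat.card B ≤ 4) :
    Nat.card D ∣ Nat.card B ∧ Nat.card D = Nat.card B := by
  classical
  haveI := Fintype.ofFinite G
  haveI := CfsgLib.Blocks.isPrime_of_isPModular hM
  have hp : p.Prime := Fact.out
  have hdvd : Nat.card D ∣ Nat.card B := by
    obtain ⟨φ, dn, ⟨cn, hφn⟩, hdφ, hsum⟩ := Cfsg.Agent.S4675.result p M hM B hB D hD hl
    obtain ⟨n, hn, hproj⟩ := exists_square_of_blockRank_one hM hB hl hk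
    obtain ⟨j, hj, hj0⟩ := exists_height_eq_zero (p := p) (isPBlock_nonempty hB)
    have hone : Cfsg.IsPRegular p (1 : G) := by
      show ¬ p ∣ orderOf (1 : G)
      rw [orderOf_one, Nat.dvd_one]; exact hp.one_lt.ne'
    set z : ℤ := ∑ ψ ∈ blockFinset B, cn ψ * (charDegree (ψ : G → ℂ) : ℤ) with hz
    have hz1 : φ 1 = (z : ℂ) := by
      rw [hφn 1 hone, finsum_mem_eq_sum_blockFinset, hz]
      push_cast
      exact Finset.sum_congr rfl fun ψ _ => by rw [(charDegree_spec ψ).1]
    have hdeg : ∀ χ ∈ B, (charDegree (χ : G → ℂ) : ℤ) = (dn χ : ℤ) * z := fun χ hχ => by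
      have := hdφ χ hχ 1 hone
      rw [hz1, (charDegree_spec χ).1] at this
      exact_mod_cast this
    set zn := z.natAbs
    have hdegn : ∀ χ ∈ B, charDegree (χ : G → ℂ) = dn χ * zn := fun χ hχ => by
      have := congrArg Int.natAbs (hdeg χ hχ)
      simpa [Int.natAbs_mul] using this
    set t := sInf ((fun ψ : Cfsg.IrrCharacter G =>
      (charDegree (ψ : G → ℂ)).factorization p) '' B) with ht
    have htj : (charDegree (j : G → ℂ)).factorization p = t := by
      have h1 := sInf_le_degree (p := p) hj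
      rw [← ht] at h1
      have h2 := hj0
      unfold Cfsg.blockHeight at h2
      omega
    have hpt : p ^ t ∣ zn := by
      rw [← Int.natCast_dvd, hz]
      refine Finset.dvd_sum fun ψ hψ => Dvd.dvd.mul_left ?_ _
      exact Int.natCast_dvd_natCast.2
        ((pow_dvd_pow p (sInf_le_degree (p := p) (mem_blockFinset.1 hψ))).trans
          (Nat.ordProj_dvd _ p))
    have hzn0 : zn ≠ 0 := fun h => (charDegree_spec j).2.1.ne' (by rw [hdegn j hj, h, mul_zero])
    have hzt : zn.factorization p = t := by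
      refine le_antisymm ?_ ((hp.pow_dvd_iff_le_factorization hzn0).1 hpt)
      rw [← htj]
      exact (Nat.factorization_le_iff_dvd hzn0 (charDegree_spec j).2.1.ne').2
        ⟨dn j, by rw [hdegn j hj, mul_comm]⟩ p
    set d := Cfsg.blockDefect p B with hd
    have hDc : Nat.card D = p ^ d := Cfsg.Agent.S0908.result p M hM B hB D hD
    have hkey : p ^ d * zn ^ 2 = Nat.card B * n ^ 2 := by
      rw [← hDc, ← hsum, finsum_mem_eq_sum_blockFinset, Finset.sum_mul]
      rw [finsum_mem_eq_sum_blockFinset] at hn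
      have hn' : ∑ χ ∈ blockFinset B, charDegree (χ : G → ℂ) ^ 2 = Nat.card B * n ^ 2 := by
        exact_mod_cast hn
      rw [← hn']
      exact Finset.sum_congr rfl fun χ hχ => by
        rw [hdegn χ (mem_blockFinset.1 hχ), mul_pow]
    have hB0 : Nat.card B ≠ 0 := by
      haveI : Nonempty B := (isPBlock_nonempty hB).to_subtype
      exact Nat.card_pos.ne'
    have hn0 : n ≠ 0 := by
      rintro rfl
      simp [hp.ne_zero, hzn0] at hkey
    obtain ⟨P⟩ := (inferInstance : Nonempty (Sylow p G))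
    have hP := hproj P P.2
    rw [P.card_eq_multiplicity] at hP
    have hv := (hp.pow_dvd_iff_le_factorization (mul_ne_zero hB0 hn0)).1 hP
    have hv2 := congrArg (fun x => x.factorization p) hkey
    rw [Nat.factorization_mul hB0 hn0, Finsupp.add_apply] at hv
    simp only [Nat.factorization_mul (pow_ne_zero d hp.ne_zero) (pow_ne_zero 2 hzn0),
      Nat.factorization_mul hB0 (pow_ne_zero 2 hn0), Nat.factorization_pow, Finsupp.add_apply,
      Finsupp.smul_apply, smul_eq_mul, hp.factorization_self, hzt, mul_one] at hv2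
    have hde := defect_add_degree (p := p) hj
    rw [hj0, htj] at hde
    rw [hDc]
    exact (pow_dvd_pow p (show d ≤ (Nat.card B).factorization p by omega)).trans
      (Nat.ordProj_dvd _ p)
  refine ⟨hdvd, ?_⟩
  have hle := card_le_quarter_sq hM hB hD
  have h1 : 1 < Nat.card D := (Subgroup.one_lt_card_iff_ne_bot D).2 hD1
  obtain ⟨c, hc⟩ := hdvd
  have hB0 : Nat.card B ≠ 0 := by
    haveI : Nonempty B := (CfsgLib.Blocks.isPBlock_nonempty hB).to_subtype
    exact Nat.card_pos.ne'
  have hc0 : c ≠ 0 := fun h => hB0 (by rw [hc, h, mul_zero])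
  have hc2 : c ≤ 2 := by
    by_contra h
    have : 2 * 3 ≤ Nat.card D * c := Nat.mul_le_mul h1 (by omega)
    omega
  rcases (show c = 1 ∨ c = 2 by omega) with rfl | rfl
  · omega
  · have : Nat.card D = 2 := by omega
    rw [this] at hle hc
    omega


/-- Let B be a block of the finite group G relative to a maximal ideal M of the algebraic integers containing the prime p, with a nontrivial defect group D. If B has p-regular rank 1 and at most four irreducible characters, then B is nilpotent, D has exactly as many elements as B has irreducible characters, and p is 2 or 3. -/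
theorem result {G : Type*} [Group G] [Finite G] (p : ℕ) [Fact p.Prime] (M : Ideal Cfsg.AlgInt) (hM : Cfsg.IsPModular p M) (B : Set (Cfsg.IrrCharacter G)) (hB : Cfsg.IsPBlock M B) (D : Subgroup G) (hD : Cfsg.IsDefectGroup p M B D) (hD1 : D ≠ ⊥) (hl : Cfsg.blockRank p B = 1) (hk : Nat.card B ≤ 4) : Cfsg.IsNilpotentBlock p M B ∧ Nat.card D = Nat.card B ∧ (p = 2 ∨ p = 3) := by
  classical
  haveI := Fintype.ofFinite G
  haveI : M.IsPrime := CfsgLib.Blocks.isPrime_of_isPModular hM
  haveI : M.IsMaximal := hM.2.1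
  haveI : CharP (CfsgLib.Blocks.Res M) p := CfsgLib.Blocks.charP_res hM
  haveI : IsAlgClosed (CfsgLib.Blocks.Res M) := CfsgLib.Blocks.isAlgClosed_res
  obtain ⟨hdvd, hcard⟩ := card_dvd_and_eq hM hB hD hD1 hl hk
  have hp23 : p = 2 ∨ p = 3 := by
    obtain ⟨m, hm⟩ : ∃ m, Nat.card D = p ^ m :=
      ⟨_, Cfsg.Agent.S0908.result p M hM B hB D hD⟩
    have hm0 : m ≠ 0 := fun h => hD1 (Subgroup.card_eq_one.1 (by rw [hm, h, pow_zero]))
    have hp4 : p ≤ 4 := (Nat.le_self_pow hm0 p).trans (by omega)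
    have hpr := (Fact.out : p.Prime)
    interval_cases p <;> first | omega | (exact absurd hpr (by norm_num))
  refine ⟨?_, hcard, hp23⟩
  have hb := CfsgLib.BrauerPairs.isBlockIdem_redElem_blockCoeff (M := M) hB
  obtain ⟨e, hmax⟩ := CfsgLib.BrauerPairs.exists_isMaxPair_of_isDefectIn hb
    ((CfsgLib.BrauerPairs.isDefectGroup_iff hM hB).1 hD)
  have hDk : Nat.card D = 2 ∨ Nat.card D = 3 ∨ Nat.card D = 4 := by
    have h1 : 1 < Nat.card D := (Subgroup.one_lt_card_iff_ne_bot D).2 hD1
    omega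
  have hab : ∀ x ∈ D, ∀ y ∈ D, x * y = y * x := by
    have hsq : ∀ q : ℕ, q.Prime → Nat.card D = q ^ 2 → ∀ x y : D, x * y = y * x :=
      fun q hq h x y => by
        haveI : Fact q.Prime := ⟨hq⟩
        exact (IsPGroup.isMulCommutative_of_card_eq_prime_sq h).is_comm.comm x y
    have hpr : ∀ q : ℕ, q.Prime → Nat.card D = q → ∀ x y : D, x * y = y * x :=
      fun q hq h x y => by
        haveI : Fact q.Prime := ⟨hq⟩
        haveI := isCyclic_of_prime_card h
        exact IsMulCommutative.is_comm.comm x y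
    intro x hx y hy
    refine congrArg Subtype.val (show (⟨x, hx⟩ : D) * ⟨y, hy⟩ = ⟨y, hy⟩ * ⟨x, hx⟩ from ?_)
    rcases hDk with h | h | h
    · exact hpr 2 Nat.prime_two h _ _
    · exact hpr 3 Nat.prime_three h _ _
    · exact hsq 2 Nat.prime_two (by rw [h]; norm_num) _ _
  refine (CfsgLib.BrauerPairs.isNilpotentBlock_iff hM).2
    ⟨hB, (hmax.isNilp_iff_of_abelian hb hab).2 ?_⟩
  set T := CfsgLib.BrauerPairs.pairStab (⊤ : Subgroup G) D e with hT
  set C := Subgroup.centralizer (D : Set G) with hC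
  -- in prime order a fixed point is enough
  have hfix : (Nat.card D).Prime → ∀ t : G, ∀ u ∈ D, u ≠ 1 → t * u * t⁻¹ = u → t ∈ C := by
    intro hpr t u hu hu1 hfx
    rw [hC, Subgroup.mem_centralizer_iff]
    intro w hw
    haveI : Fact (Nat.card D).Prime := ⟨hpr⟩
    obtain ⟨i, hi⟩ := Subgroup.mem_zpowers_iff.1
      (mem_zpowers_of_prime_card (G := D) (g := ⟨u, hu⟩) (g' := ⟨w, hw⟩) rfl
        (fun h => hu1 (congrArg Subtype.val h)))
    have hi' : u ^ i = w := by simpa using congrArg Subtype.val hi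
    rw [← hi']
    exact ((Commute.zpow_right (show Commute t u from mul_inv_eq_iff_eq_mul.1 hfx) i).eq).symm
  suffices hidx : C.relIndex T = 1 ∨ ∀ x ∈ T, x ∈ C by
    rcases hidx with h | h
    · exact fun x hx => Subgroup.relIndex_eq_one.1 h hx
    · exact h
  rcases hDk with h | h | h
  · refine Or.inr fun t ht => ?_
    obtain ⟨⟨u, hu⟩, hu1⟩ : ∃ u : D, u ≠ 1 :=
      haveI : Nontrivial D := (Subgroup.nontrivial_iff_ne_bot D).2 hD1
      exists_ne 1
    have hu1' : u ≠ 1 := fun hh => hu1 (Subtype.ext hh)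
    refine hfix (h ▸ Nat.prime_two) t u hu hu1' ?_
    have hm : t * u * t⁻¹ ∈ D :=
      (Subgroup.mem_normalizer_iff.1 (CfsgLib.BrauerPairs.mem_pairStab.1 ht).2.1 u).1 hu
    obtain ⟨a, b, hab2, huniv⟩ := (Nat.card_eq_two_iff (α := D)).1 h
    have h3 : ∀ z : D, z = a ∨ z = b := fun z => by
      have := huniv.ge (Set.mem_univ z)
      simpa using this
    have hne : (⟨t * u * t⁻¹, hm⟩ : D) ≠ 1 := fun hh => hu1' (by
      have := congrArg Subtype.val hh
      simpa using this)
    have : (⟨t * u * t⁻¹, hm⟩ : D) = ⟨u, hu⟩ := by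
      rcases h3 1 with e1 | e1 <;> rcases h3 ⟨u, hu⟩ with e2 | e2 <;>
        rcases h3 ⟨t * u * t⁻¹, hm⟩ with e3 | e3 <;> simp_all
    exact congrArg Subtype.val this
  · left
    have hcount := CfsgLib.BlockSections.card_block_mul_index hM hB hmax hab
      (fun t _ u hu hu1 hfx => hfix (h ▸ Nat.prime_three) t u hu hu1 hfx)
      (fun u E hu hE hEc => by
        rw [h] at hEc ⊢
        have := card_le_quarter_sq hM (CfsgLib.BlockSections.belowBlock_spec hM hB hmax hu).1 hE
        rw [hEc] at this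
        omega)
    rw [hl, ← hcard, h] at hcount
    rw [← hC, ← hT] at hcount
    omega
  · left
    obtain rfl : p = 2 := by
      obtain ⟨m, hm⟩ : ∃ m, Nat.card D = p ^ m :=
        ⟨_, Cfsg.Agent.S0908.result p M hM B hB D hD⟩
      rcases hp23 with h2 | h3
      · exact h2
      · have := (Nat.prime_three.dvd_of_dvd_pow (m := p) (n := m))
        subst h3
        exfalso
        have h4 : 2 ∣ 3 ^ m := ⟨2, by omega⟩
        have := Nat.prime_two.dvd_of_dvd_pow h4
        omega
    have hcount := CfsgLib.BlockSections.order_four_count hM hB hD hmax hab h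
    rw [hl] at hcount
    rw [← hC, ← hT] at hcount
    omega

end Cfsg.Agent.S4648
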