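import Cfsg.Statements.S4650
import Cfsg.Agent.Lib.BrauerPairs.AbelianDefect
-- import your own Cfsg.Agent.* helpers here

set_option autoImplicit false
open Cfsg

namespace Cfsg.Agent.S4650

open Cfsg CfsgLib.BrauerPairs

/-- Let B be a block of the finite group G relative to a maximal ideal M of the algebraic integers containing the prime p, with a nontrivial commutative defect group P; let c be a block of C_G(P) inducing B and T the stabilizer of c in N_G(P). Then T/C_G(P) acts freely on the non-identity elements of P (an element of T fixing a non-identity element of P under conjugation lies in C_G(P)) if and only if, for every nontrivial subgroup Q of P, the block of C_G(Q) induced by c inside C_G(Q) is a nilpotent block of C_G(Q). -/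
theorem result {G : Type*} [Group G] [Finite G] (p : ℕ) [Fact p.Prime] (M : Ideal Cfsg.AlgInt) (hM : Cfsg.IsPModular p M) (B : Set (Cfsg.IrrCharacter G)) (hB : Cfsg.IsPBlock M B) (P : Subgroup G) (hPD : Cfsg.IsDefectGroup p M B P) (hPab : ∀ x ∈ P, ∀ y ∈ P, x * y = y * x) (hP1 : P ≠ ⊥) (c : Set (Cfsg.IrrCharacter (Subgroup.centralizer (P : Set G)))) (hc : Cfsg.IsInducedBlock M (Subgroup.centralizer (P : Set G)) c B) (T : Subgroup G) (hT : ∀ g : G, g ∈ T ↔ (g ∈ Subgroup.normalizer (P : Set G) ∧ Cfsg.StabilizesBlock (Subgroup.centralizer (P : Set G)) c g)) : (∀ g ∈ T, ∀ x ∈ P, x ≠ 1 → g * x * g⁻¹ = x → g ∈ Subgroup.centralizer (P : Set G)) ↔ ∀ Q : Subgroup G, Q ≤ P → Q ≠ ⊥ → ∀ f : Set (Cfsg.IrrCharacter (Subgroup.centralizer (Q : Set G))), Cfsg.IsInducedBlockIn M (Subgroup.centralizer (Q : Set G)) (Subgroup.centralizer (P : Set G)) c f → Cfsg.IsNilpotentBlock p M f := by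
  haveI : M.IsPrime := CfsgLib.Blocks.isPrime_of_isPModular hM
  haveI : M.IsMaximal := hM.2.1
  haveI : CharP (CfsgLib.Blocks.Res M) p := CfsgLib.Blocks.charP_res hM
  haveI : IsAlgClosed (CfsgLib.Blocks.Res M) := CfsgLib.Blocks.isAlgClosed_res
  have hb := isBlockIdem_redElem_blockCoeff (M := M) hB
  have hmax := isMaxPair_of_induced hM hB hPD hPab hc
  have hT' : pairStab (⊤ : Subgroup G) P (subIdem M _ c) = T := by
    ext y
    rw [mem_pairStab_top_iff hc.1, hT]
  have hPC : P ≤ Subgroup.centralizer (P : Set G) := fun u hu =>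
    Subgroup.mem_centralizer_iff.2 fun v hv => hPab v hv u hu
  have hP : IsPGroup p P := hmax.1.1.1
  -- the local block of a subgroup of `P`
  have hloc : ∀ Q : Subgroup G, Q ≤ P →
      ∀ f : Set (IrrCharacter (Subgroup.centralizer (Q : Set G))), IsPBlock M f →
      (IsInducedBlockIn M (Subgroup.centralizer (Q : Set G)) (Subgroup.centralizer (P : Set G)) c f ↔
        NormalLE p (⊤ : Subgroup G) Q (subIdem M _ f) P (subIdem M _ c)) := by
    intro Q hQP f hf
    have hPQ : P ≤ Subgroup.centralizer (Q : Set G) := hPC.trans (Subgroup.centralizer_le hQP)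
    rw [isInducedBlockIn_iff hM hP hPC (Subgroup.centralizer_le hQP)
      (Subgroup.centralizer_le_normalizer _) inf_le_right hc.1 hf]
    refine ⟨fun h => ⟨⟨hP.to_le hQP, le_top, ?_⟩, hmax.1.1, hQP,
      hPQ.trans (Subgroup.centralizer_le_normalizer _), ?_, h⟩, fun h => h.2.2.2.2.2⟩
    · rw [cenIn_top]
      exact isBlockIdem_subIdem hf
    · exact fixedBy_anti hPQ (mem_ctr.1 (isBlockIdem_subIdem (M := M) hf).mem).2
  constructor
  · intro hfree Q hQP hQ1 f hf
    have hn := (hloc Q hQP f hf.2.1).1 hf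
    have hm := hmax.local_of_abelian hb hPab hn
    rw [cenIn_top] at hm
    refine (isNilpotentBlock_sub_iff hM).2 ⟨hf.2.1,
      (hm.isNilp_iff_of_abelian (isBlockIdem_subIdem hf.2.1) hPab).2 fun x hx => ?_⟩
    obtain ⟨hxQ, hxN, hxc⟩ := mem_pairStab.1 hx
    have hxT : x ∈ T := hT'.le (mem_pairStab.2 ⟨Subgroup.mem_top x, hxN, hxc⟩)
    obtain ⟨u, hu, hu1⟩ := (Subgroup.ne_bot_iff_exists_ne_one.1 hQ1 :
      ∃ u : Q, u ≠ 1).elim fun u hu => (⟨u.1, u.2, fun h => hu (Subtype.ext h)⟩ :
        ∃ u, u ∈ Q ∧ u ≠ 1)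
    refine hfree x hxT u (hQP hu) hu1 ?_
    rw [← Subgroup.mem_centralizer_iff.1 hxQ u hu, mul_inv_cancel_right]
  · intro hall g hg y hy hy1 hfix
    have hQP : Subgroup.zpowers y ≤ P := Subgroup.zpowers_le.2 hy
    obtain ⟨φ, hφ, -⟩ := existsUnique_pairLE hmax.1.1 hQP
    obtain ⟨e', hn, hle⟩ := hφ.normalLE_of_le_normalizer hmax.1.1 hQP le_rfl
      (hPC.trans ((Subgroup.centralizer_le hQP).trans (Subgroup.centralizer_le_normalizer _)))
    have he' : e' = subIdem M _ c :=
      (existsUnique_pairLE hmax.1.1 le_rfl).unique hle (Relation.ReflTransGen.refl)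
    subst he'
    obtain ⟨f, hf, rfl⟩ := exists_block_of_isPair hn.1
    have hnil := hall _ hQP (by simpa using hy1) f ((hloc _ hQP f hf.2).2 hn)
    have hm := hmax.local_of_abelian hb hPab hn
    rw [cenIn_top] at hm
    have htriv := (hm.isNilp_iff_of_abelian (isBlockIdem_subIdem hf.2) hPab).1
      ((isNilpotentBlock_sub_iff hM).1 hnil).2
    obtain ⟨-, hgN, hgc⟩ := mem_pairStab.1 (hT'.ge hg)
    refine htriv g (mem_pairStab.2 ⟨?_, hgN, hgc⟩)
    rw [Subgroup.mem_centralizer_iff]
    rintro v ⟨n, rfl⟩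
    have hcomm : Commute g y := mul_inv_eq_iff_eq_mul.1 hfix
    exact (hcomm.zpow_right n).eq.symm

end Cfsg.Agent.S4650
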