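import Cfsg.Statements.S4651
import Cfsg.Agent.Lib.BlockSections.ChainPairing
import Cfsg.Agent.Lib.BlockSections.SectionSum
-- import your own Cfsg.Agent.* helpers here

set_option autoImplicit false
open Cfsg

namespace Cfsg.Agent.S4651

/-- An alternating-sum identity over chains of p-subgroups (the character-count form behind the chain reformulation of Alperin's weight conjecture, which holds unconditionally for the difference k − l). Let b be a block of the finite group G relative to a maximal ideal M of the algebraic integers containing the prime p. Consider the nonempty chains s = {Q_0 < Q_1 < ⋯ < Q_m} of nontrivial p-subgroups of G in which every member is normal in the largest member; let N_G(s) be the intersection of the normalizers of the members (the stabilizer of the chain), and let b_s be the set of irreducible characters of N_G(s) lying in blocks of N_G(s) that induce b. Then #G · (k(b) − l(b)) equals the sum over all such chains s of (−1)^m · #N_G(s) · (k(b_s) − l(b_s)), where k counts irreducible characters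 and l is the p-regular rank; equivalently, k(b) − l(b) is the alternating sum of k(b_s) − l(b_s) over representatives of the conjugacy classes of such chains. -/
theorem result {G : Type*} [Group G] [Finite G] (p : ℕ) [Fact p.Prime] (M : Ideal Cfsg.AlgInt) (hM : Cfsg.IsPModular p M) (b : Set (Cfsg.IrrCharacter G)) (hb : Cfsg.IsPBlock M b) : (Nat.card G : ℤ) * ((Nat.card b : ℤ) - (Cfsg.blockRank p b : ℤ)) = ∑ᶠ s ∈ {s : Finset (Subgroup G) | s.Nonempty ∧ (∀ Q ∈ s, ∀ R ∈ s, Q ≤ R ∨ R ≤ Q) ∧ (∀ Q ∈ s, Q ≠ ⊥ ∧ IsPGroup p Q) ∧ ∃ T ∈ s, ∀ Q ∈ s, Q ≤ T ∧ T ≤ Subgroup.normalizer ((Q : Subgroup G) : Set G)}, (-1 : ℤ) ^ (s.card - 1) * (Nat.card (((⨅ Q ∈ s, Subgroup.normalizer ((Q : Subgroup G) : Set G) : Subgroup G))) : ℤ) * ((Nat.card {ψ : Cfsg.IrrCharacter (((⨅ Q ∈ s, Subgroup.normalizer ((Q : Subgroup G) : Set G) : Subgroup G))) | ∃ β : Set (Cfsg.IrrCharacter (((⨅ Q ∈ s, Subgroup.normalizer ((Q : Subgroup G) : Set G) : Subgroup G)))), ψ ∈ β ∧ Cfsg.IsInducedBlock M (((⨅ Q ∈ s, Subgroup.normalizer ((Q : Subgroup G) : Set G) : Subgroup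 G))) β b} : ℤ) - (Cfsg.blockRank p {ψ : Cfsg.IrrCharacter (((⨅ Q ∈ s, Subgroup.normalizer ((Q : Subgroup G) : Set G) : Subgroup G))) | ∃ β : Set (Cfsg.IrrCharacter (((⨅ Q ∈ s, Subgroup.normalizer ((Q : Subgroup G) : Set G) : Subgroup G)))), ψ ∈ β ∧ Cfsg.IsInducedBlock M (((⨅ Q ∈ s, Subgroup.normalizer ((Q : Subgroup G) : Set G) : Subgroup G))) β b} : ℤ)) := by
  classical
  haveI : M.IsPrime := hM.2.1.isPrime
  haveI : Fintype G := Fintype.ofFinite G
  haveI : Finite (Subgroup G) :=
    Finite.of_injective (fun H : Subgroup G => (H : Set G)) SetLike.coe_injective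
  haveI : Fintype (Finset (Subgroup G)) := Fintype.ofFinite _
  open CfsgLib.BlockSections in
  exact by
    set 𝒮 : Finset (Finset (Subgroup G)) := Finset.univ.filter (IsNormalChain p) with h𝒮
    set Ψ : Subgroup G → G → ℂ := fun H u =>
      haveI := Fintype.ofFinite H
      sectionSum M p H.subtype b u with hΨ
    have hsub : ∀ H : Subgroup G, (Nat.card H : ℂ) *
        ((Nat.card {ψ : Cfsg.IrrCharacter H | ∃ β : Set (Cfsg.IrrCharacter H),
            ψ ∈ β ∧ Cfsg.IsInducedBlock M H β b} : ℂ) -
          (Cfsg.blockRank p {ψ : Cfsg.IrrCharacter H | ∃ β : Set (Cfsg.IrrCharacter H),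
            ψ ∈ β ∧ Cfsg.IsInducedBlock M H β b} : ℂ)) =
        ∑ u ∈ (Finset.univ : Finset G).erase 1, Ψ H u := by
      intro H
      letI : Fintype H := Fintype.ofFinite H
      rw [← indSet_subtype hb H]
      exact card_mul_sub_rank hM H.subtype_injective
    -- the sections only see the centralizer
    have hcent : ∀ (H : Subgroup G) (u : G), u ∈ H → (∃ k : ℕ, orderOf u = p ^ k) →
        Ψ H u = Ψ (H ⊓ Subgroup.centralizer ({u} : Set G)) u := by
      intro H u hu hk
      letI : Fintype H := Fintype.ofFinite H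
      letI : Fintype (H ⊓ Subgroup.centralizer ({u} : Set G) : Subgroup G) := Fintype.ofFinite _
      set y : H := ⟨u, hu⟩
      haveI := Fintype.ofFinite (Subgroup.centralizer ({y} : Set H))
      let σ : Subgroup.centralizer ({y} : Set H) ≃*
          (H ⊓ Subgroup.centralizer ({u} : Set G) : Subgroup G) :=
        { toFun := fun c => ⟨((c : H) : G), Subgroup.mem_inf.2 ⟨(c : H).2,
            Subgroup.mem_centralizer_singleton_iff.2
              (congrArg Subtype.val (Subgroup.mem_centralizer_singleton_iff.1 c.2))⟩⟩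
          invFun := fun c => ⟨⟨(c : G), (Subgroup.mem_inf.1 c.2).1⟩,
            Subgroup.mem_centralizer_singleton_iff.2 (Subtype.ext
              (Subgroup.mem_centralizer_singleton_iff.1 (Subgroup.mem_inf.1 c.2).2))⟩
          left_inv := fun _ => rfl
          right_inv := fun _ => rfl
          map_mul' := fun _ _ => rfl }
      have hy : ∃ k : ℕ, orderOf y = p ^ k := by
        obtain ⟨k, hk⟩ := hk
        exact ⟨k, by rw [Subgroup.orderOf_mk, hk]⟩
      show sectionSum M p H.subtype b (H.subtype y) = _
      rw [sectionSum_centralizer hM H.subtype_injective hy]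
      exact sectionSum_comp_equiv (H ⊓ Subgroup.centralizer ({u} : Set G)).subtype σ u
    have hzero : ∀ (H : Subgroup G) (u : G), ¬ (u ∈ H ∧ ∃ k : ℕ, orderOf u = p ^ k) → Ψ H u = 0 := by
      intro H u hu
      letI : Fintype H := Fintype.ofFinite H
      refine sectionSum_eq_zero ?_
      rintro ⟨a, ha, hk⟩
      exact hu ⟨ha ▸ a.2, hk⟩
    -- the whole group
    have htop : (Nat.card G : ℂ) * ((Nat.card b : ℂ) - (Cfsg.blockRank p b : ℂ)) =
        ∑ u ∈ (Finset.univ : Finset G).erase 1, sectionSum M p (MonoidHom.id G) b u := by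
      have h := card_mul_sub_rank (b := b) (φ := MonoidHom.id G) hM Function.injective_id
      rwa [indSet_id hb] at h
    have hid : ∀ u : G, (∃ k : ℕ, orderOf u = p ^ k) →
        sectionSum M p (MonoidHom.id G) b u = Ψ (Subgroup.centralizer ({u} : Set G)) u := by
      intro u hk
      letI : Fintype (Subgroup.centralizer ({u} : Set G)) := Fintype.ofFinite _
      exact sectionSum_centralizer (φ := MonoidHom.id G) hM Function.injective_id hk
    -- the contribution of one element
    have hu : ∀ u ∈ (Finset.univ : Finset G).erase 1,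
        ∑ s ∈ 𝒮, (-1 : ℂ) ^ (s.card - 1) * Ψ (chainNorm s) u =
          sectionSum M p (MonoidHom.id G) b u := by
      intro u hu1
      have hu1 : u ≠ 1 := (Finset.mem_erase.1 hu1).1
      by_cases hk : ∃ k : ℕ, orderOf u = p ^ k
      swap
      · rw [sectionSum_eq_zero (fun h => hk h.choose_spec.2)]
        exact Finset.sum_eq_zero fun s _ => by rw [hzero _ _ (fun h => hk h.2), mul_zero]
      obtain ⟨k, hk'⟩ := hk
      have hk : ∃ k : ℕ, orderOf u = p ^ k := ⟨k, hk'⟩
      rw [hid u hk]
      set 𝒮u := 𝒮.filter fun s => u ∈ chainNorm s with h𝒮u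
      rw [← Finset.sum_filter_of_ne (s := 𝒮) (p := fun s => u ∈ chainNorm s) fun s _ hne => by
        by_contra h
        exact hne (by rw [hzero _ _ fun h' => h h'.1, mul_zero])]
      have hZ : ({Subgroup.zpowers u} : Finset (Subgroup G)) ∈ 𝒮u := by
        refine Finset.mem_filter.2 ⟨Finset.mem_filter.2 ⟨Finset.mem_univ _,
          Finset.singleton_nonempty _, ?_, ?_, ?_⟩, mem_chainNorm.2 ?_⟩
        · simp
        · intro Q hQ
          rw [Finset.mem_singleton] at hQ
          subst hQ
          exact ⟨by simpa using hu1, IsPGroup.of_card (n := k) (by rw [Nat.card_zpowers, hk'])⟩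
        · refine ⟨_, Finset.mem_singleton_self _, fun Q hQ => ?_⟩
          rw [Finset.mem_singleton] at hQ
          subst hQ
          exact ⟨le_rfl, Subgroup.le_normalizer⟩
        · intro Q hQ
          rw [Finset.mem_singleton] at hQ
          subst hQ
          exact Subgroup.le_normalizer (Subgroup.mem_zpowers u)
      rw [← Finset.add_sum_erase _ _ hZ]
      have hrest : ∑ s ∈ 𝒮u.erase {Subgroup.zpowers u},
          (-1 : ℂ) ^ (s.card - 1) * Ψ (chainNorm s) u = 0 := by
        have hspec : ∀ s ∈ 𝒮u.erase {Subgroup.zpowers u}, IsNormalChain p s ∧ u ∈ chainNorm s ∧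
            s ≠ {Subgroup.zpowers u} := fun s hs => by
          obtain ⟨h1, h2⟩ := Finset.mem_erase.1 hs
          obtain ⟨h3, h4⟩ := Finset.mem_filter.1 h2
          exact ⟨(Finset.mem_filter.1 h3).2, h4, h1⟩
        refine Finset.sum_involution (fun s _ => toggle u s) (fun s hs => ?_) (fun s hs _ => ?_)
          (fun s hs => ?_) fun s hs => ?_
        all_goals
          obtain ⟨hc, hn, hne⟩ := hspec s hs
          obtain ⟨h1, h2, h3, h4, h5, h6, h7⟩ := toggle_spec hk' hu1 hc hn hne
        · have h7' : ((-1 : ℂ) ^ ((toggle u s).card - 1)) = -(-1 : ℂ) ^ (s.card - 1) := by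
            exact_mod_cast congrArg (fun n : ℤ => (n : ℂ)) h7
          rw [hcent _ _ hn hk, hcent _ _ h2 hk, h6, h7']
          ring
        · exact h4
        · exact Finset.mem_erase.2 ⟨h3, Finset.mem_filter.2
            ⟨Finset.mem_filter.2 ⟨Finset.mem_univ _, h1⟩, h2⟩⟩
        · exact h5
      have hchain : chainNorm ({Subgroup.zpowers u} : Finset (Subgroup G)) ⊓
          Subgroup.centralizer ({u} : Set G) = Subgroup.centralizer ({u} : Set G) := by
        refine inf_eq_right.2 fun g hg => mem_chainNorm.2 fun Q hQ => ?_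
        rw [Finset.mem_singleton] at hQ
        subst hQ
        refine Subgroup.centralizer_le_normalizer _ (Subgroup.mem_centralizer_iff.2 ?_)
        rintro _ ⟨i, rfl⟩
        exact (Commute.zpow_left
          (Subgroup.mem_centralizer_singleton_iff.1 hg : Commute g u).symm i).eq
      rw [hrest, add_zero, Finset.card_singleton, Nat.sub_self, pow_zero, one_mul,
        hcent _ _ (Finset.mem_filter.1 hZ).2 hk, hchain]
    apply Int.cast_injective (α := ℂ)
    rw [finsum_mem_eq_finite_toFinset_sum _ (Set.toFinite _)]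
    push_cast
    rw [htop]
    refine Eq.trans ?_ (Finset.sum_congr (s₁ := 𝒮) (Finset.ext fun s => by
      simp [h𝒮, IsNormalChain]) fun _ _ => rfl)
    rw [← Finset.sum_congr rfl hu, Finset.sum_comm]
    refine Finset.sum_congr rfl fun s _ => ?_
    rw [mul_assoc, ← Finset.mul_sum, ← hsub]
    rfl

end Cfsg.Agent.S4651
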