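import Cfsg.Statements.S4652
import Cfsg.Agent.Lib.BrauerPairs.ThirdMain
-- import your own Cfsg.Agent.* helpers here

set_option autoImplicit false
open Cfsg

namespace Cfsg.Agent.S4652

open Cfsg CfsgLib.BrauerPairs

/-- Fix a prime p and a maximal ideal M of the algebraic integers containing p. The defect groups of the principal p-block of a finite group G are exactly the Sylow p-subgroups of G: a subgroup D is a defect group of the principal block if and only if D is a Sylow p-subgroup. -/
theorem result {G : Type*} [Group G] [Fintype G] (p : ℕ) [Fact p.Prime] (M : Ideal Cfsg.AlgInt) (hM : Cfsg.IsPModular p M) (D : Subgroup G) : Cfsg.IsDefectGroup p M (Cfsg.principalBlock M G) D ↔ ∃ S : Sylow p G, (S : Subgroup G) = D := by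
  haveI : M.IsPrime := CfsgLib.Blocks.isPrime_of_isPModular hM
  haveI : CharP (CfsgLib.Blocks.Res M) p := CfsgLib.Blocks.charP_res hM
  have hB := isPBlock_principalBlock (G := G) M
  have hb := isBlockIdem_redElem_blockCoeff (M := M) hB
  rw [isDefectGroup_iff hM hB]
  constructor
  · intro hD
    obtain ⟨S⟩ : Nonempty (Sylow p G) := inferInstance
    obtain ⟨c, -, rfl⟩ := ((isMaxPair_sylow hM S).isDefectIn hb).exists_conj hD
    exact ⟨S.mapSurjective (f := (MulAut.conj c).toMonoidHom) (MulAut.conj c).surjective, rfl⟩
  · rintro ⟨S, rfl⟩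
    exact (isMaxPair_sylow hM S).isDefectIn hb

end Cfsg.Agent.S4652
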