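import Cfsg.Statements.S4653
import Cfsg.Agent.Lib.BrauerPairs.Lift
-- import your own Cfsg.Agent.* helpers here

set_option autoImplicit false
open Cfsg

namespace Cfsg.Agent.S4653

open Cfsg CfsgLib.BrauerPairs

/-- Fix a prime p and a maximal ideal M of the algebraic integers containing p. Let P be a normal p-subgroup of the finite group G and B a p-block of G. Then the idempotent of B is supported on C_G(P): its coefficient at every element of G outside C_G(P) is zero. -/
theorem result {G : Type*} [Group G] [Fintype G] (p : ℕ) [Fact p.Prime] (M : Ideal Cfsg.AlgInt) (hM : Cfsg.IsPModular p M) (P : Subgroup G) [P.Normal] (hP : IsPGroup p P) (B : Set (Cfsg.IrrCharacter G)) (hB : Cfsg.IsPBlock M B) (g : G) (hg : g ∉ Subgroup.centralizer (P : Set G)) : Cfsg.blockCoeff B g = 0 := by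
  haveI : M.IsPrime := CfsgLib.Blocks.isPrime_of_isPModular hM
  haveI : CharP (CfsgLib.Blocks.Res M) p := CfsgLib.Blocks.charP_res hM
  have hb := isBlockIdem_redElem_blockCoeff (M := M) hB
  have hN : (⊤ : Subgroup G) ≤ Subgroup.normalizer (P : Set G) := by
    rw [Subgroup.normalizer_eq_top P]
  have hbr : brau P (redElem M (blockCoeff B)) = redElem M (blockCoeff B) :=
    brau_eq_self hP le_top hN hb.mem hb.mul_self
  obtain ⟨φ, hφ, hne⟩ := exists_isBlockIdem_mul_ne_zero (cenIn (⊤ : Subgroup G) P)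
    (x := brau P (redElem M (blockCoeff B))) (by rw [hbr]; exact hb.ne_zero)
  have hpair : IsPair p (⊤ : Subgroup G) P φ := ⟨hP, le_top, hφ⟩
  obtain ⟨e, hBe, -⟩ := exists_isBrauerPairOf_of_pairOf hM hB
    (⟨hpair, (hpair.brau_mul_dichotomy (mem_ctr.1 hb.mem).1 (hb.fixed_of_le inf_le_left)
      (hb.fixed_of_le le_top) hb.mul_self).resolve_left hne⟩ : PairOf p ⊤ _ P φ)
  have he := hBe.1.2
  have hmemT : ∀ x : G, x ∈ pairStab (⊤ : Subgroup G) P (subIdem M _ e) ↔
      StabilizesBlock (Subgroup.centralizer (P : Set G)) e x := fun x => by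
    rw [mem_pairStab_top_iff he, Subgroup.normalizer_eq_top P]
    exact ⟨fun h => h.2, fun h => ⟨trivial, h⟩⟩
  rw [blockCoeff_eq_orbit_sum hM hBe hmemT g]
  refine mul_eq_zero_of_right _ (Finset.sum_eq_zero fun x _ => ?_)
  rw [subgroupBlockCoeff, dif_neg]
  intro h
  apply hg
  have := (Subgroup.mem_normalizer_iff.1
    (normalizer_le_normalizer_cen P (hN (Subgroup.mem_top x))) (x⁻¹ * g * x)).1 h
  simpa [mul_assoc] using this

end Cfsg.Agent.S4653
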