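import Cfsg.Statements.S4654
import Cfsg.Agent.Lib.BrauerPairs.Lift
-- import your own Cfsg.Agent.* helpers here

set_option autoImplicit false
open Cfsg

namespace Cfsg.Agent.S4654

open Cfsg CfsgLib.BrauerPairs

/-- Fix a prime p and a maximal ideal M of the algebraic integers containing p. Let P be a normal p-subgroup of the finite group G, B a p-block of G and e a p-block of C_G(P) such that (P, e) is a Brauer pair of B (as P is normal, this says that e occurs in the idempotent of B, which is supported on C_G(P)). Let T be the stabilizer of e in G under conjugation. Then the idempotent of e is a block idempotent of T: some block E of T has, at every element of T, the same idempotent coefficient as e (zero off C_G(P)); and the idempotent of B is the sum of the distinct G-conjugates of the idempotent of e: its coefficient at g is the sum over all x in G of the coefficient of e at x⁻¹ g x, divided by the order of T. -/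
theorem result {G : Type*} [Group G] [Fintype G] (p : ℕ) [Fact p.Prime] (M : Ideal Cfsg.AlgInt) (hM : Cfsg.IsPModular p M) (P : Subgroup G) [P.Normal] (hP : IsPGroup p P) (B : Set (Cfsg.IrrCharacter G)) (e : Set (Cfsg.IrrCharacter (Subgroup.centralizer (P : Set G)))) (hBe : Cfsg.IsBrauerPairOf p M B P e) (T : Subgroup G) (hT : ∀ x : G, x ∈ T ↔ Cfsg.StabilizesBlock (Subgroup.centralizer (P : Set G)) e x) : (∃ E : Set (Cfsg.IrrCharacter T), Cfsg.IsPBlock M E ∧ ∀ t : T, Cfsg.blockCoeff E t = Cfsg.subgroupBlockCoeff (Subgroup.centralizer (P : Set G)) e (t : G)) ∧ ∀ g : G, Cfsg.blockCoeff B g = (Nat.card T : ℂ)⁻¹ * ∑ x : G, Cfsg.subgroupBlockCoeff (Subgroup.centralizer (P : Set G)) e (x⁻¹ * g * x) := by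
  haveI : M.IsPrime := CfsgLib.Blocks.isPrime_of_isPModular hM
  haveI : CharP (CfsgLib.Blocks.Res M) p := CfsgLib.Blocks.charP_res hM
  obtain ⟨hB, he, hp⟩ := (isBrauerPairOf_iff hM).1 hBe
  have hTS : pairStab (⊤ : Subgroup G) P (subIdem M _ e) = T := by
    ext x
    rw [mem_pairStab_top_iff he, hT, Subgroup.normalizer_eq_top P]
    exact ⟨fun h => h.2, fun h => ⟨trivial, h⟩⟩
  refine ⟨?_, blockCoeff_eq_orbit_sum hM hBe hT⟩
  obtain ⟨E, hE, hcoeff, -⟩ := exists_block_stab (T := T) he hP (hTS ▸ le_pairStab hp.1)
    ((cenIn_top P).ge.trans ((cenIn_le_pairStab hp.1).trans hTS.le)) hTS.ge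
  exact ⟨E, hE, hcoeff⟩

end Cfsg.Agent.S4654
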