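import Cfsg.Statements.S4657
import Cfsg.Agent.Lib.BrauerPairs.BridgeDefect
-- import your own Cfsg.Agent.* helpers here

set_option autoImplicit false
open Cfsg

namespace Cfsg.Agent.S4657

open CfsgLib.BrauerPairs

/-- Fix a prime p and a maximal ideal M of the algebraic integers containing p. Every Brauer pair (P, e) of the finite group G is a Brauer pair of exactly one p-block B of G. -/
theorem result {G : Type*} [Group G] [Fintype G] (p : ℕ) [Fact p.Prime] (M : Ideal Cfsg.AlgInt) (hM : Cfsg.IsPModular p M) (P : Subgroup G) (e : Set (Cfsg.IrrCharacter (Subgroup.centralizer (P : Set G)))) (hPe : Cfsg.IsBrauerPair p M P e) : ∃! B : Set (Cfsg.IrrCharacter G), Cfsg.IsBrauerPairOf p M B P e := by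
  haveI : M.IsPrime := CfsgLib.Blocks.isPrime_of_isPModular hM
  haveI : CharP (CfsgLib.Blocks.Res M) p := CfsgLib.Blocks.charP_res hM
  have he := isPair_subIdem hPe
  obtain ⟨b, ⟨hb, hp⟩, huniq⟩ := existsUnique_pairOf he
  obtain ⟨B, hB, rfl⟩ := exists_isPBlock_of_isBlockIdem hb
  refine ⟨B, (isBrauerPairOf_iff hM).2 ⟨hB, hPe.2, hp⟩, fun B' hB' => ?_⟩
  obtain ⟨hB1, -, hp'⟩ := (isBrauerPairOf_iff hM).1 hB'
  exact redElem_blockCoeff_injective hB1 hB (huniq _ ⟨isBlockIdem_redElem_blockCoeff hB1, hp'⟩)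

end Cfsg.Agent.S4657
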