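import Cfsg.Statements.S4662
import Cfsg.Agent.Lib.BrauerPairs.Lift
-- import your own Cfsg.Agent.* helpers here

set_option autoImplicit false
open Cfsg

namespace Cfsg.Agent.S4662

open Cfsg CfsgLib.BrauerPairs

/-- Fix a prime p and a maximal ideal M of the algebraic integers containing p. Let (P, e) be a maximal Brauer pair of the p-block B of the finite group G, Q ≤ P, and f the p-block of C_G(Q) with (Q, f) ≤ (P, e). Let T be the stabilizer of f in N_G(Q). Then the idempotent of f is a block idempotent of T, and N_P(Q) is contained in a defect group of that block of T; moreover for some x in G the conjugate pair (x Q x⁻¹, conjugate of f) again lies below (P, e) and, with T' the stabilizer of the conjugate of f in N_G(x Q x⁻¹), N_P(x Q x⁻¹) is a defect group of the block of T' whose idempotent is that of the conjugate of f. -/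
theorem result {G : Type*} [Group G] [Fintype G] (p : ℕ) [Fact p.Prime] (M : Ideal Cfsg.AlgInt) (hM : Cfsg.IsPModular p M) (B : Set (Cfsg.IrrCharacter G)) (P Q : Subgroup G) (e : Set (Cfsg.IrrCharacter (Subgroup.centralizer (P : Set G)))) (f : Set (Cfsg.IrrCharacter (Subgroup.centralizer (Q : Set G)))) (hmax : Cfsg.IsMaximalBrauerPair p M B P e) (hQP : Q ≤ P) (hf : Cfsg.IsPBlock M f) (hle : Cfsg.SubpairLE p M Q f P e) (T : Subgroup G) (hT : ∀ y : G, y ∈ T ↔ y ∈ Subgroup.normalizer (Q : Set G) ∧ Cfsg.StabilizesBlock (Subgroup.centralizer (Q : Set G)) f y) : (∃ F : Set (Cfsg.IrrCharacter T), Cfsg.IsPBlock M F ∧ (∀ t : T, Cfsg.blockCoeff F t = Cfsg.subgroupBlockCoeff (Subgroup.centralizer (Q : Set G)) f (t : G)) ∧ ∃ D : Subgroup T, Cfsg.IsDefectGroup p M F D ∧ (P ⊓ Subgroup.normalizer (Q : Set G)).subgroupOf T ≤ D) ∧ ∃ x : G, Cfsg.SubpairLE p M (Q.map (MulAut.conj x).toMonoidHom) (Cfsg.conjBlock Q x f) P e ∧ ∀ (T' : Subgroup G), (∀ y : G, y ∈ T' ↔ y ∈ Subgroup.normalizer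 ((Q.map (MulAut.conj x).toMonoidHom) : Set G) ∧ Cfsg.StabilizesBlock (Subgroup.centralizer ((Q.map (MulAut.conj x).toMonoidHom) : Set G)) (Cfsg.conjBlock Q x f) y) → ∃ F' : Set (Cfsg.IrrCharacter T'), Cfsg.IsPBlock M F' ∧ (∀ t : T', Cfsg.blockCoeff F' t = Cfsg.subgroupBlockCoeff (Subgroup.centralizer ((Q.map (MulAut.conj x).toMonoidHom) : Set G)) (Cfsg.conjBlock Q x f) (t : G)) ∧ Cfsg.IsDefectGroup p M F' ((P ⊓ Subgroup.normalizer ((Q.map (MulAut.conj x).toMonoidHom) : Set G)).subgroupOf T') := by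
  haveI : M.IsPrime := CfsgLib.Blocks.isPrime_of_isPModular hM
  haveI : CharP (CfsgLib.Blocks.Res M) p := CfsgLib.Blocks.charP_res hM
  obtain ⟨hB, he, hP⟩ := (isMaximalBrauerPair_iff hM).1 hmax
  have hle' := pairLE_of_subpairLE hM hle
  have hb := isBlockIdem_redElem_blockCoeff (M := M) hB
  have hfp := hle'.isPair_left hP.1.1
  constructor
  · have hTS : pairStab (⊤ : Subgroup G) Q (subIdem M _ f) = T := by
      ext y
      rw [mem_pairStab_top_iff hf, hT]
    obtain ⟨F, hF, hcoeff, heq⟩ := exists_block_stab (T := T) hf hfp.1 (hTS ▸ le_pairStab hfp)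
      ((cenIn_top Q).ge.trans ((cenIn_le_pairStab hfp).trans hTS.le)) hTS.ge
    obtain ⟨D, hD, hge⟩ := hle'.exists_defect_stab_ge hP.1.1
    rw [hTS] at hD
    refine ⟨F, hF, hcoeff, D.subgroupOf T, (isDefectGroup_sub_iff hM hF).2 ?_,
      Subgroup.comap_mono hge⟩
    rw [Subgroup.subgroupOf_map_subtype, inf_eq_left.2 hD.1, heq]
    exact hD
  · obtain ⟨x, -, hx, hD⟩ := hP.exists_conj_defect_stab hb ((hle'.pairOf_iff hb).2 hP.1)
    rw [← subIdem_conjBlock] at hx hD
    have hg := isPBlock_conjBlock (M := M) x hf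
    have hgp := hx.isPair_left hP.1.1
    refine ⟨x, (subpairLE_iff hM hg he).2 hx, fun T' hT' => ?_⟩
    have hTS : pairStab (⊤ : Subgroup G) (cj x Q) (subIdem M _ (conjBlock Q x f)) = T' := by
      ext y
      rw [mem_pairStab_top_iff hg, hT']
    obtain ⟨F, hF, hcoeff, heq⟩ := exists_block_stab (T := T') hg hgp.1 (hTS ▸ le_pairStab hgp)
      ((cenIn_top _).ge.trans ((cenIn_le_pairStab hgp).trans hTS.le)) hTS.ge
    rw [hTS] at hD
    refine ⟨F, hF, hcoeff, (isDefectGroup_sub_iff hM hF).2 ?_⟩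
    rw [Subgroup.subgroupOf_map_subtype, inf_eq_left.2 hD.1, heq]
    exact hD

end Cfsg.Agent.S4662
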