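import Cfsg.Statements.S4664
import Cfsg.Agent.Lib.Blocks.Orth
import Cfsg.Agent.Lib.CharTheory.Values
-- import your own Cfsg.Agent.* helpers here

set_option autoImplicit false
open Cfsg

namespace Cfsg.Agent.S4664

/-- Fix a prime p and a maximal ideal M of the algebraic integers containing p, and let B be a p-block of the finite group G. Let m be the p'-part of the order of G and η = exp(2πi/m). Then every coefficient of the idempotent of B lies in the cyclotomic field ℚ(η). -/
theorem result {G : Type*} [Group G] [Fintype G] (p : ℕ) [Fact p.Prime] (M : Ideal Cfsg.AlgInt) (hM : Cfsg.IsPModular p M) (B : Set (Cfsg.IrrCharacter G)) (hB : Cfsg.IsPBlock M B) (g : G) : Cfsg.blockCoeff B g ∈ IntermediateField.adjoin ℚ ({Complex.exp (2 * Real.pi * Complex.I / ((Nat.card G / p ^ (Nat.card G).factorization p : ℕ) : ℂ))} : Set ℂ) := by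
  classical
  haveI : M.IsPrime := CfsgLib.Blocks.isPrime_of_isPModular hM
  set m : ℕ := Nat.card G / p ^ (Nat.card G).factorization p with hm
  set η : ℂ := Complex.exp (2 * Real.pi * Complex.I / (m : ℂ)) with hη
  by_cases hg : p ∣ orderOf g
  · rw [CfsgLib.Blocks.blockCoeff_eq_zero_of_dvd_orderOf hM hB hg]
    exact IntermediateField.zero_mem _
  have hm0 : m ≠ 0 := (Nat.ordCompl_pos p Nat.card_pos.ne').ne'
  haveI : NeZero m := ⟨hm0⟩
  have hdvd : orderOf g ∣ m :=
    ((Fact.out : p.Prime).coprime_iff_not_dvd.2 hg).symm.pow_right _ |>.dvd_of_dvd_mul_left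
      (by rw [hm, Nat.ordProj_mul_ordCompl_eq_self]; exact orderOf_dvd_natCard g)
  have hmem : ∀ χ : Cfsg.IrrCharacter G, ∀ x : G, orderOf x ∣ m →
      (χ : G → ℂ) x ∈ IntermediateField.adjoin ℚ ({η} : Set ℂ) := by
    intro χ x hx
    obtain ⟨n, ρ, -, hρ⟩ := χ.2
    obtain ⟨ι, _, b, μ, -, hμ, -, hchar⟩ := CfsgLib.CharTheory.exists_eigenbasis ρ x
    have h1 := hchar 1
    simp only [pow_one] at h1
    rw [← hρ, h1]
    refine IntermediateField.sum_mem _ fun i _ => ?_
    obtain ⟨k, -, hk⟩ := (Complex.isPrimitiveRoot_exp m hm0).eq_pow_of_pow_eq_one (ξ := μ i)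
      (by obtain ⟨c, hc⟩ := hx; rw [hc, pow_mul, hμ i, one_pow])
    rw [← hk]
    exact pow_mem (IntermediateField.mem_adjoin_simple_self ℚ η) k
  rw [Cfsg.blockCoeff, finsum_mem_eq_finite_toFinset_sum _ (Set.toFinite B)]
  refine mul_mem (inv_mem (natCast_mem _ _)) (sum_mem fun χ _ => mul_mem (hmem χ 1 ?_) ?_)
  · rw [orderOf_one]; exact one_dvd m
  · rw [← CfsgLib.CharTheory.IsIrrCharacter.inv χ.2]
    exact hmem χ _ (by rw [orderOf_inv]; exact hdvd)

end Cfsg.Agent.S4664
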