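import Cfsg.Statements.S4665
import Mathlib.RepresentationTheory.Character
import Mathlib.GroupTheory.Sylow

set_option autoImplicit false
open Cfsg

namespace Cfsg.Agent.S4665

/-- Fix a prime p, a maximal ideal M of the algebraic integers containing p, and a p-block B of the finite group G, and let p^a be the p-part of the order of G. Let χ be an integer combination of the irreducible characters in B. If the function that agrees with χ on p-regular elements and vanishes on p-singular elements is again an integer combination of the irreducible characters in B, then p^a divides χ(1). -/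
theorem result {G : Type*} [Group G] [Fintype G] (p : ℕ) [Fact p.Prime] (M : Ideal Cfsg.AlgInt) (hM : Cfsg.IsPModular p M) (B : Set (Cfsg.IrrCharacter G)) (hB : Cfsg.IsPBlock M B) (χ : G → ℂ) (hχ : (∃ n : Cfsg.IrrCharacter G → ℤ, ∀ g : G, χ g = ∑ᶠ ψ ∈ B, (n ψ : ℂ) * (ψ : G → ℂ) g)) (h0 : (∃ n : Cfsg.IrrCharacter G → ℤ, ∀ g : G, Cfsg.pRegularPart p χ g = ∑ᶠ ψ ∈ B, (n ψ : ℂ) * (ψ : G → ℂ) g)) : ∃ k : ℤ, χ 1 = (p ^ (Nat.card G).factorization p : ℂ) * k := by
  classical
  have hp : p.Prime := Fact.out
  obtain ⟨n, hn⟩ := h0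
  obtain ⟨S⟩ := (inferInstance : Nonempty (Sylow p G))
  haveI := Fintype.ofFinite (S : Subgroup G)
  have h1 : pRegularPart p χ 1 = χ 1 := by
    simp [pRegularPart, IsPRegular, hp.ne_one]
  by_cases hfin : (B ∩ {ψ | n ψ ≠ 0}).Finite
  swap
  · refine ⟨0, ?_⟩
    rw [← h1, hn, finsum_mem_eq_zero_of_infinite]
    · simp
    · refine fun h => hfin (h.subset ?_)
      rintro ψ ⟨hψ, hne⟩
      refine ⟨hψ, ?_⟩
      obtain ⟨m, ρ, hirr, hρ⟩ := ψ.2
      simp only [Function.mem_support, ne_eq, mul_eq_zero, not_or]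
      refine ⟨by exact_mod_cast hne, ?_⟩
      rw [← hρ, Representation.char_one]
      haveI : Nontrivial (Fin m → ℂ) := by
        by_contra hnt
        rw [not_nontrivial_iff_subsingleton] at hnt
        haveI := hirr
        obtain ⟨a, b, hab⟩ := exists_pair_ne (Subrepresentation ρ)
        exact hab (SetLike.ext fun v => by rw [Subsingleton.elim v 0]; exact iff_of_true a.toSubmodule.zero_mem b.toSubmodule.zero_mem)
      exact_mod_cast (Module.finrank_pos (R := ℂ) (M := Fin m → ℂ)).ne'
  have hval : ∀ g, pRegularPart p χ g =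
      ∑ ψ ∈ hfin.toFinset, (n ψ : ℂ) * (ψ : G → ℂ) g := by
    intro g
    rw [hn]
    refine finsum_mem_eq_sum_of_inter_support_eq _ ?_
    ext ψ
    simp only [Set.mem_inter_iff, Function.mem_support, Set.Finite.coe_toFinset, Set.mem_ofPred_eq]
    constructor
    · rintro ⟨h, h'⟩
      exact ⟨⟨h, fun h0 => h' (by simp [h0])⟩, h'⟩
    · rintro ⟨⟨h, -⟩, h'⟩
      exact ⟨h, h'⟩
  have hsum : ∑ x : (S : Subgroup G), pRegularPart p χ (x : G) = χ 1 := by
    rw [Finset.sum_eq_single (1 : (S : Subgroup G))]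
    · simpa using h1
    · intro x _ hx
      have : ¬ IsPRegular p (x : G) := by
        intro hreg
        apply hreg
        rw [Subgroup.orderOf_coe]
        obtain ⟨j, hj⟩ := (IsPGroup.iff_orderOf.1 S.2) x
        rw [hj]
        exact dvd_pow_self p (fun hj0 => hx (orderOf_eq_one_iff.1 (by rw [hj, hj0, pow_zero])))
      simp [pRegularPart, this]
    · simp
  have havg : ∀ ψ : IrrCharacter G, ∃ m : ℕ,
      ∑ x : (S : Subgroup G), (ψ : G → ℂ) (x : G) = (Nat.card (S : Subgroup G) : ℂ) * m := by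
    intro ψ
    obtain ⟨m, ρ, -, hρ⟩ := ψ.2
    haveI : Invertible (Nat.card (S : Subgroup G) : ℂ) :=
      invertibleOfNonzero (by exact_mod_cast Nat.card_pos.ne')
    refine ⟨Module.finrank ℂ (Representation.invariants (ρ.comp (S : Subgroup G).subtype :
      Representation ℂ (S : Subgroup G) (Fin m → ℂ))), ?_⟩
    rw [← Representation.card_inv_mul_sum_char_eq_finrank, ← mul_assoc,
      mul_inv_cancel₀ (by exact_mod_cast Nat.card_pos.ne'), one_mul, ← hρ]
    rfl
  choose m hm using havg
  refine ⟨∑ ψ ∈ hfin.toFinset, n ψ * (m ψ : ℤ), ?_⟩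
  calc χ 1 = ∑ x : (S : Subgroup G), ∑ ψ ∈ hfin.toFinset, (n ψ : ℂ) * (ψ : G → ℂ) x := by
        rw [← hsum]
        exact Finset.sum_congr rfl fun x _ => hval x
    _ = _ := by
        rw [Finset.sum_comm]
        push_cast
        rw [Finset.mul_sum]
        refine Finset.sum_congr rfl fun ψ _ => ?_
        rw [← Finset.mul_sum, hm ψ, S.card_eq_multiplicity]
        push_cast
        ring

end Cfsg.Agent.S4665
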