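import Cfsg.Statements.S4666
import Cfsg.Agent.Lib.BrauerCharacters.Consequences
-- import your own Cfsg.Agent.* helpers here

set_option autoImplicit false
open Cfsg

namespace Cfsg.Agent.S4666

open Cfsg CfsgLib.BrauerCharacters Finset

/-- Fix a prime p and a maximal ideal M of the algebraic integers containing p, and a p-block B of the finite group G of defect d. For every integer combination χ of the irreducible characters in B, p^d times the function that agrees with χ on p-regular elements and vanishes elsewhere is again an integer combination of the irreducible characters in B. -/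
theorem result {G : Type*} [Group G] [Fintype G] (p : ℕ) [Fact p.Prime] (M : Ideal Cfsg.AlgInt) (hM : Cfsg.IsPModular p M) (B : Set (Cfsg.IrrCharacter G)) (hB : Cfsg.IsPBlock M B) (χ : G → ℂ) (hχ : (∃ n : Cfsg.IrrCharacter G → ℤ, ∀ g : G, χ g = ∑ᶠ ψ ∈ B, (n ψ : ℂ) * (ψ : G → ℂ) g)) : (∃ n : Cfsg.IrrCharacter G → ℤ, ∀ g : G, (p ^ Cfsg.blockDefect p B : ℂ) * Cfsg.pRegularPart p χ g = ∑ᶠ ψ ∈ B, (n ψ : ℂ) * (ψ : G → ℂ) g) := by
  classical
  haveI := CfsgLib.Blocks.isPrime_of_isPModular hM
  have hw := weakOrth hM hB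
  obtain ⟨n, hn⟩ := hχ
  refine ⟨fun η => ∑ ψ ∈ blockFinset B, n ψ * regEntry p B ψ η, fun g => ?_⟩
  have hfun : χ = ∑ ψ ∈ blockFinset B, (n ψ : ℂ) • (ψ : G → ℂ) := funext fun x => by
    rw [hn, finsum_mem_eq_sum_blockFinset, Finset.sum_apply]
    rfl
  rw [hfun, pRegularPart_sum, Finset.sum_apply, finsum_mem_eq_sum_blockFinset, mul_sum]
  push_cast
  simp only [sum_mul]
  rw [sum_comm (γ := IrrCharacter G) (t := blockFinset B)]
  refine sum_congr rfl fun ψ hψ => ?_
  rw [pRegularPart_eq_sum_block hw (mem_blockFinset.1 hψ), Pi.smul_apply, Finset.sum_apply,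
    smul_eq_mul, mul_sum, mul_sum]
  refine sum_congr rfl fun η _ => ?_
  rw [coe_regEntry (mem_blockFinset.1 hψ), Pi.smul_apply, smul_eq_mul]
  ring

end Cfsg.Agent.S4666
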