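import Cfsg.Statements.S4668
import Cfsg.Agent.S4653
import Cfsg.Agent.Lib.Blocks.Orth
import Cfsg.Agent.Lib.CoprimeAction.Basic
-- import your own Cfsg.Agent.* helpers here

set_option autoImplicit false
open Cfsg

namespace Cfsg.Agent.S4668

/-- Fix a prime p and a maximal ideal M of the algebraic integers containing p. Let Q₀ < Q₁ < ⋯ < Q_m be a strictly increasing chain of p-subgroups of the finite group G and N the intersection of their normalizers. Then every block idempotent of N is supported on C_G(Q_m): for every p-block E of N, the idempotent coefficient of E vanishes at every element of N outside C_G(Q_m). -/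
theorem result {G : Type*} [Group G] [Fintype G] (p : ℕ) [Fact p.Prime] (M : Ideal Cfsg.AlgInt) (hM : Cfsg.IsPModular p M) (m : ℕ) (Q : Fin (m + 1) → Subgroup G) (hQ : StrictMono Q) (hQp : ∀ i, IsPGroup p (Q i)) (N : Subgroup G) (hN : ∀ g : G, g ∈ N ↔ ∀ i, g ∈ Subgroup.normalizer (Q i : Set G)) (E : Set (Cfsg.IrrCharacter N)) (hE : Cfsg.IsPBlock M E) (n : N) (hn : (n : G) ∉ Subgroup.centralizer (Q (Fin.last m) : Set G)) : Cfsg.blockCoeff E n = 0 := by
  classical
  haveI : M.IsPrime := CfsgLib.Blocks.isPrime_of_isPModular hM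
  haveI := Fintype.ofFinite N
  by_contra hne
  have hreg : ¬ p ∣ orderOf n := fun h =>
    hne (CfsgLib.Blocks.blockCoeff_eq_zero_of_dvd_orderOf hM hE h)
  set R : Subgroup G := Q (Fin.last m) with hR
  haveI : (R.subgroupOf N).Normal := ⟨fun x hx g => by
    rw [Subgroup.mem_subgroupOf] at hx ⊢
    simpa using (Subgroup.mem_normalizer_iff.1 ((hN g).1 g.2 (Fin.last m)) (x : G)).1 hx⟩
  have hcent : ∀ x ∈ N, x ∈ R → x * (n : G) = (n : G) * x := by
    intro x hxN hxR
    by_contra hx
    refine hne (Cfsg.Agent.S4653.result p M hM (R.subgroupOf N)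
      ((hQp (Fin.last m)).comap_subtype) E hE n fun h => hx ?_)
    exact congrArg Subtype.val
      (Subgroup.mem_centralizer_iff.1 h ⟨x, hxN⟩ (Subgroup.mem_subgroupOf.2 hxR))
  have hle : ∀ i j, i ≤ j → Q i ≤ Q j := fun i j hij => hQ.monotone hij
  have hall : ∀ i : Fin (m + 1), Subgroup.zpowers (n : G) ≤ Subgroup.centralizer (Q i : Set G) := by
    intro i
    induction i using Fin.induction with
    | zero =>
      rw [Subgroup.zpowers_le, Subgroup.mem_centralizer_iff]
      intro x hx
      exact hcent x ((hN x).2 fun j => Subgroup.le_normalizer (hle 0 j (Fin.zero_le j) hx))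
        (hle 0 _ (Fin.zero_le _) hx)
    | succ i ih =>
      have h1 : Q i.castSucc ≤ Q i.succ := hle _ _ (Fin.castSucc_le_succ i)
      refine CfsgLib.CoprimeAction.pxq (p := p) (hQp i.castSucc) ?_ (hQp i.succ)
        (Subgroup.le_centralizer_iff.1 ih) (h1.trans Subgroup.le_normalizer)
        (Subgroup.zpowers_le.2 ((hN _).1 n.2 i.succ)) ?_
      · rw [Nat.card_zpowers, Subgroup.orderOf_coe]
        exact ((Fact.out : p.Prime).coprime_iff_not_dvd.2 hreg).symm
      · rintro x ⟨hx, hxc⟩
        refine Subgroup.mem_centralizer_iff.2 fun y hy => ?_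
        obtain ⟨k, rfl⟩ := Subgroup.mem_zpowers_iff.1 hy
        refine ((Commute.zpow_right (a := x) (b := (n : G)) ?_ k).eq).symm
        exact hcent x ((hN x).2 fun j => by
          rcases le_or_gt i.succ j with h | h
          · exact Subgroup.le_normalizer (hle _ _ h hx)
          · exact Subgroup.centralizer_le_normalizer _ (Subgroup.centralizer_le
              (hle _ _ (Fin.le_castSucc_iff.2 h)) hxc)) (hle _ _ (Fin.le_last _) hx)
  exact hn (hall (Fin.last m) (Subgroup.mem_zpowers _))

end Cfsg.Agent.S4668
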