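import Cfsg.Statements.S4669
import Cfsg.Agent.Lib.BrauerPairs.NilpotentRank
-- import your own Cfsg.Agent.* helpers here

set_option autoImplicit false
open Cfsg

namespace Cfsg.Agent.S4669

open Cfsg CfsgLib.BrauerPairs

/-- Fix a prime p and a maximal ideal M of the algebraic integers containing p. If the p-block B of the finite group G has a defect group P contained in the centre of G, then B has p-regular rank one (a single irreducible Brauer character). -/
theorem result {G : Type*} [Group G] [Fintype G] (p : ℕ) [Fact p.Prime] (M : Ideal Cfsg.AlgInt) (hM : Cfsg.IsPModular p M) (B : Set (Cfsg.IrrCharacter G)) (hB : Cfsg.IsPBlock M B) (P : Subgroup G) (hD : Cfsg.IsDefectGroup p M B P) (hPZ : P ≤ Subgroup.center G) : Cfsg.blockRank p B = 1 := by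
  haveI : M.IsPrime := CfsgLib.Blocks.isPrime_of_isPModular hM
  haveI : M.IsMaximal := hM.2.1
  haveI : CharP (CfsgLib.Blocks.Res M) p := CfsgLib.Blocks.charP_res hM
  haveI : IsAlgClosed (CfsgLib.Blocks.Res M) := CfsgLib.Blocks.isAlgClosed_res
  have hab : ∀ x ∈ P, ∀ y ∈ P, x * y = y * x := fun x hx y _ =>
    (Subgroup.mem_center_iff.1 (hPZ hx) y).symm
  refine (blockRank_eq_one_of_nilpotent_abelian hM ?_ hD hab).1
  have hb := isBlockIdem_redElem_blockCoeff (M := M) hB
  obtain ⟨ε, hmax⟩ := exists_isMaxPair_of_isDefectIn hb ((isDefectGroup_iff hM hB).1 hD)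
  exact (isNilpotentBlock_iff hM).2 ⟨hB, (hmax.isNilp_iff_of_abelian hb hab).2 fun x _ =>
    Subgroup.mem_centralizer_iff.2 fun v hv => (Subgroup.mem_center_iff.1 (hPZ hv) x).symm⟩

end Cfsg.Agent.S4669
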