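import Cfsg.Statements.S4670
import Cfsg.Agent.Lib.BrauerPairs.BridgeFusion
import Cfsg.Agent.Lib.BrauerPairs.FirstMain
-- import your own Cfsg.Agent.* helpers here

set_option autoImplicit false
open Cfsg

namespace Cfsg.Agent.S4670

open Cfsg CfsgLib.BrauerPairs

/-- Fix a prime p and a maximal ideal M of the algebraic integers containing p. Let P be a p-subgroup of the finite group G and H a subgroup containing N_G(P). For every p-block B of G with defect group P there is exactly one p-block c of H with defect group P whose idempotent agrees with that of B, modulo the local ideal at M, at every element of C_G(P) (their Brauer-map images at P coincide); and every p-block c of H with defect group P arises in this way from exactly one such B. This is the Brauer correspondence over H. -/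
theorem result {G : Type*} [Group G] [Fintype G] (p : ℕ) [Fact p.Prime] (M : Ideal Cfsg.AlgInt) (hM : Cfsg.IsPModular p M) (P H : Subgroup G) (hP : IsPGroup p P) (hH : Subgroup.normalizer (P : Set G) ≤ H) : (∀ B : Set (Cfsg.IrrCharacter G), Cfsg.IsPBlock M B → Cfsg.IsDefectGroup p M B P → ∃! c : Set (Cfsg.IrrCharacter H), Cfsg.IsPBlock M c ∧ Cfsg.IsDefectGroup p M c (P.subgroupOf H) ∧ ∀ x : G, x ∈ Subgroup.centralizer (P : Set G) → Cfsg.MemLocalIdeal M (Cfsg.blockCoeff B x - Cfsg.subgroupBlockCoeff H c x)) ∧ (∀ c : Set (Cfsg.IrrCharacter H), Cfsg.IsPBlock M c → Cfsg.IsDefectGroup p M c (P.subgroupOf H) → ∃! B : Set (Cfsg.IrrCharacter G), Cfsg.IsPBlock M B ∧ Cfsg.IsDefectGroup p M B P ∧ ∀ x : G, x ∈ Subgroup.centralizer (P : Set G) → Cfsg.MemLocalIdeal M (Cfsg.blockCoeff B x - Cfsg.subgroupBlockCoeff H c x)) := by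
  haveI : M.IsPrime := CfsgLib.Blocks.isPrime_of_isPModular hM
  haveI : M.IsMaximal := hM.2.1
  haveI : CharP (CfsgLib.Blocks.Res M) p := CfsgLib.Blocks.charP_res hM
  haveI : IsAlgClosed (CfsgLib.Blocks.Res M) := CfsgLib.Blocks.isAlgClosed_res
  have hCH : Subgroup.centralizer (P : Set G) ≤ H :=
    (Subgroup.centralizer_le_normalizer _).trans hH
  have hcen : cenIn (⊤ : Subgroup G) P = cenIn H P := by
    rw [cenIn_top]
    exact (inf_eq_right.2 hCH).symm
  have hN : (⊤ : Subgroup G) ⊓ Subgroup.normalizer (P : Set G) =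
      H ⊓ Subgroup.normalizer (P : Set G) := by rw [top_inf_eq, inf_eq_right.2 hH]
  have hPH : P ≤ H := Subgroup.le_normalizer.trans hH
  have hmap : (P.subgroupOf H).map H.subtype = P := by
    rw [Subgroup.subgroupOf_map_subtype, inf_eq_left.2 hPH]
  have key : ∀ (B : Set (IrrCharacter G)) (c : Set (IrrCharacter H)), IsPBlock M B →
      IsPBlock M c → ((∀ x : G, x ∈ Subgroup.centralizer (P : Set G) →
        MemLocalIdeal M (blockCoeff B x - subgroupBlockCoeff H c x)) ↔
          brau P (redElem M (blockCoeff B)) = brau P (subIdem M H c)) := by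
    intro B c hB hc
    constructor
    · intro h
      ext x
      by_cases hx : x ∈ Subgroup.centralizer (P : Set G)
      · rw [brau, coeff_trunc_of_mem hx, coeff_trunc_of_mem hx, coeff_redElem, coeff_redElem,
          redC_eq_redC_iff (CfsgLib.Blocks.memLocalRing_blockCoeff hB x)
            (memLocalRing_subgroupBlockCoeff hc x)]
        exact h x hx
      · rw [brau, coeff_trunc_of_not_mem hx, coeff_trunc_of_not_mem hx]
    · intro h x hx
      have h' := congrArg (fun y : MonoidAlgebra (CfsgLib.Blocks.Res M) G => y.coeff x) h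
      simp only [brau, coeff_trunc_of_mem hx, coeff_redElem] at h'
      exact (redC_eq_redC_iff (CfsgLib.Blocks.memLocalRing_blockCoeff hB x)
        (memLocalRing_subgroupBlockCoeff hc x)).1 h'
  constructor
  · intro B hB hD
    obtain ⟨γ, ⟨hγ, hγD, hγb⟩, huniq⟩ :=
      existsUnique_corr hcen hN (isBlockIdem_redElem_blockCoeff hB) ((isDefectGroup_iff hM hB).1 hD)
    obtain ⟨c, hc, rfl⟩ := exists_isPBlock_subIdem hγ
    refine ⟨c, ⟨hc, (isDefectGroup_sub_iff hM hc).2 (by rw [hmap]; exact hγD),
      (key B c hB hc).2 hγb.symm⟩, ?_⟩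
    rintro c' ⟨hc', hD', heq⟩
    refine subIdem_injective hc' hc (huniq _ ⟨isBlockIdem_subIdem hc', ?_,
      ((key B c' hB hc').1 heq).symm⟩)
    have h := (isDefectGroup_sub_iff hM hc').1 hD'
    rwa [hmap] at h
  · intro c hc hD
    have hD0 := (isDefectGroup_sub_iff hM hc).1 hD
    rw [hmap] at hD0
    obtain ⟨β, ⟨hβ, hβD, hβb⟩, huniq⟩ :=
      existsUnique_corr hcen.symm hN.symm (isBlockIdem_subIdem hc) hD0
    obtain ⟨B, hB, rfl⟩ := exists_isPBlock_of_isBlockIdem hβ
    refine ⟨B, ⟨hB, (isDefectGroup_iff hM hB).2 hβD, (key B c hB hc).2 hβb⟩, ?_⟩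
    rintro B' ⟨hB', hD', heq⟩
    exact redElem_blockCoeff_injective hB' hB (huniq _
      ⟨isBlockIdem_redElem_blockCoeff hB', (isDefectGroup_iff hM hB').1 hD', (key B' c hB' hc).1 heq⟩)

end Cfsg.Agent.S4670
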