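import Cfsg.Statements.S4671
import Cfsg.Agent.Lib.BrauerPairs.CoverBridge
import Cfsg.Agent.Lib.BrauerPairs.Covering
-- import your own Cfsg.Agent.* helpers here

set_option autoImplicit false
open Cfsg

namespace Cfsg.Agent.S4671

open Cfsg CfsgLib.BrauerPairs

/-- Fix a prime p and a maximal ideal M of the algebraic integers containing p. Let N be a normal subgroup of the finite group G, B a p-block of G and P a defect group of B. Then there is a p-block c of N, stable under conjugation by P and covered by B (some member of B has a constituent in c on restriction to N), such that P ∩ N is a defect group of c. -/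
theorem result {G : Type*} [Group G] [Fintype G] (p : ℕ) [Fact p.Prime] (M : Ideal Cfsg.AlgInt) (hM : Cfsg.IsPModular p M) (N : Subgroup G) [N.Normal] [Fintype N] (B : Set (Cfsg.IrrCharacter G)) (hB : Cfsg.IsPBlock M B) (P : Subgroup G) (hP : Cfsg.IsDefectGroup p M B P) : ∃ c : Set (Cfsg.IrrCharacter N), Cfsg.IsPBlock M c ∧ (∀ x ∈ P, Cfsg.StabilizesBlock N c x) ∧ (∃ χ ∈ B, ∃ θ ∈ c, Cfsg.classInner (fun n : N => (χ : G → ℂ) n) (θ : N → ℂ) ≠ 0) ∧ Cfsg.IsDefectGroup p M c ((P ⊓ N).subgroupOf N) := by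
  haveI : M.IsPrime := CfsgLib.Blocks.isPrime_of_isPModular hM
  haveI : CharP (CfsgLib.Blocks.Res M) p := CfsgLib.Blocks.charP_res hM
  have hNt : Subgroup.normalizer (N : Set G) = ⊤ := Subgroup.normalizer_eq_top N
  obtain ⟨γ, hγ, hne, hfix, hD, -, -⟩ := exists_covered (K := (⊤ : Subgroup G)) (N := N) le_top
    (by rw [hNt]) (isBlockIdem_redElem_blockCoeff (M := M) hB) ((isDefectGroup_iff hM hB).1 hP)
  obtain ⟨c, hc, rfl⟩ := exists_isPBlock_subIdem hγ
  refine ⟨c, hc, fun x hx => (stabilizesBlock_iff hc).2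
    ⟨by rw [hNt]; exact Subgroup.mem_top x, hfix x hx⟩, (covers_iff N hB hc).2 hne,
    (isDefectGroup_sub_iff hM hc).2 ?_⟩
  rw [Subgroup.subgroupOf_map_subtype, inf_eq_left.2 inf_le_right]
  exact hD

end Cfsg.Agent.S4671
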