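import Cfsg.Statements.S4672
import Cfsg.Agent.Lib.BrauerPairs.Lift
import Cfsg.Agent.Lib.BrauerPairs.PIndex
-- import your own Cfsg.Agent.* helpers here

set_option autoImplicit false
open Cfsg

namespace Cfsg.Agent.S4672

open Cfsg CfsgLib.BrauerPairs

/-- Fix a prime p and a maximal ideal M of the algebraic integers containing p. Let N be a normal subgroup of the finite group G of p-power index and c a p-block of N stable under conjugation by G. Then the idempotent of c is a block idempotent of G: there is a p-block B of G whose idempotent coefficients agree with those of c on N and vanish off N; and for every defect group P of such a block B, G = NP and P ∩ N is a defect group of c. -/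
theorem result {G : Type*} [Group G] [Fintype G] (p : ℕ) [Fact p.Prime] (M : Ideal Cfsg.AlgInt) (hM : Cfsg.IsPModular p M) (N : Subgroup G) [N.Normal] (hN : ∃ k : ℕ, N.index = p ^ k) (c : Set (Cfsg.IrrCharacter N)) (hc : Cfsg.IsPBlock M c) (hst : ∀ x : G, Cfsg.StabilizesBlock N c x) : (∃ B : Set (Cfsg.IrrCharacter G), Cfsg.IsPBlock M B ∧ ∀ g : G, Cfsg.blockCoeff B g = Cfsg.subgroupBlockCoeff N c g) ∧ ∀ B : Set (Cfsg.IrrCharacter G), Cfsg.IsPBlock M B → (∀ g : G, Cfsg.blockCoeff B g = Cfsg.subgroupBlockCoeff N c g) → ∀ P : Subgroup G, Cfsg.IsDefectGroup p M B P → N ⊔ P = ⊤ ∧ Cfsg.IsDefectGroup p M c ((P ⊓ N).subgroupOf N) := by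
  haveI : M.IsPrime := CfsgLib.Blocks.isPrime_of_isPModular hM
  haveI : M.IsMaximal := hM.2.1
  haveI : CharP (CfsgLib.Blocks.Res M) p := CfsgLib.Blocks.charP_res hM
  obtain ⟨k, hk⟩ := hN
  have hNt : Subgroup.normalizer (N : Set G) = ⊤ := Subgroup.normalizer_eq_top N
  have hidx : N.relIndex ⊤ = p ^ k := by rw [Subgroup.relIndex_top_right, hk]
  have hγ := isBlockIdem_subIdem (M := M) hc
  have hfix : subIdem M N c ∈ fixedBy (CfsgLib.Blocks.Res M) (⊤ : Subgroup G) := fun x _ =>
    ((stabilizesBlock_iff hc).1 (hst x)).2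
  have hblock : IsBlockIdem (⊤ : Subgroup G) (subIdem M N c) :=
    isBlockIdem_of_regular hM le_top
      (fun x hx => mem_of_relIndex_eq_pow hM.1 (by rw [hNt]) hidx hx) hγ hfix
  constructor
  · obtain ⟨B, hB, hBγ⟩ := exists_isPBlock_of_isBlockIdem hblock
    refine ⟨B, hB, fun g => (congrFun (eq_blockCoeff_of_redElem hB
      (memLocalRing_subgroupBlockCoeff hc) (fun x a => ?_)
      (ofFun_subgroupBlockCoeff_mul_self N c) hBγ.symm) g).symm⟩
    simpa using StabilizesBlock.subgroupBlockCoeff_eq hc (hst x⁻¹) a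
  · intro B hB hBc P hP
    have hred : redElem M (blockCoeff B) = subIdem M N c := by rw [subIdem, funext hBc]
    have hP' := (isDefectGroup_iff hM hB).1 hP
    rw [hred] at hP'
    refine ⟨by rw [sup_comm]; exact sup_eq_of_defect hM le_top (by rw [hNt]) hidx hγ hfix hP',
      (isDefectGroup_sub_iff hM hc).2 ?_⟩
    obtain ⟨c', hc', hne, -, hD, -, -⟩ :=
      exists_covered (K := (⊤ : Subgroup G)) (N := N) le_top (by rw [hNt]) hblock hP'
    rw [← hγ.eq_of_mul_ne_zero hc' hne] at hD
    rw [Subgroup.subgroupOf_map_subtype, inf_eq_left.2 inf_le_right]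
    exact hD

end Cfsg.Agent.S4672
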