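import Cfsg.Statements.S4673
import Cfsg.Agent.Lib.BrauerPairs.PIndex
import Cfsg.Agent.Lib.BrauerPairs.CoverBridge
-- import your own Cfsg.Agent.* helpers here

set_option autoImplicit false
open Cfsg

namespace Cfsg.Agent.S4673

open Cfsg CfsgLib.BrauerPairs

/-- Fix a prime p and a maximal ideal M of the algebraic integers containing p. Let N ≤ L be normal subgroups of the finite group G with L/N a p-group, let B be a p-block of G covering the p-block c of N (some member of B has a constituent in c on restriction to N), and suppose that N contains a defect group of B. Then the stabilizer T of c in G satisfies T ∩ L = N. -/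
theorem result {G : Type*} [Group G] [Fintype G] (p : ℕ) [Fact p.Prime] (M : Ideal Cfsg.AlgInt) (hM : Cfsg.IsPModular p M) (N L : Subgroup G) [N.Normal] [L.Normal] [Fintype N] (hNL : N ≤ L) (hLN : ∃ k : ℕ, (N.subgroupOf L).index = p ^ k) (B : Set (Cfsg.IrrCharacter G)) (hB : Cfsg.IsPBlock M B) (c : Set (Cfsg.IrrCharacter N)) (hc : Cfsg.IsPBlock M c) (hcov : (∃ χ ∈ B, ∃ θ ∈ c, Cfsg.classInner (fun n : N => (χ : G → ℂ) n) (θ : N → ℂ) ≠ 0)) (hD : ∃ D : Subgroup G, Cfsg.IsDefectGroup p M B D ∧ D ≤ N) (T : Subgroup G) (hT : ∀ x : G, x ∈ T ↔ Cfsg.StabilizesBlock N c x) : T ⊓ L = N := by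
  haveI : M.IsPrime := CfsgLib.Blocks.isPrime_of_isPModular hM
  haveI : M.IsMaximal := hM.2.1
  haveI : CharP (CfsgLib.Blocks.Res M) p := CfsgLib.Blocks.charP_res hM
  classical
  haveI := Fintype.ofFinite (IrrCharacter N)
  obtain ⟨k, hk⟩ := hLN
  obtain ⟨D, hD, hDN⟩ := hD
  have hNt : Subgroup.normalizer (N : Set G) = ⊤ := Subgroup.normalizer_eq_top N
  have hLt : Subgroup.normalizer (L : Set G) = ⊤ := Subgroup.normalizer_eq_top L
  obtain ⟨γ', hγ', hne, -, -, hblk, hDK⟩ := exists_covered (K := (⊤ : Subgroup G)) (N := N) le_top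
    (by rw [hNt]) (isBlockIdem_redElem_blockCoeff (M := M) hB) ((isDefectGroup_iff hM hB).1 hD)
  obtain ⟨c', hc', rfl⟩ := exists_isPBlock_subIdem hγ'
  set K1 := (⊤ : Subgroup G) ⊓ stabA (subIdem M N c') with hK1
  set T1 := stabA (subIdem M N c') ⊓ L with hT1
  have hNT : N ≤ T1 := le_inf (le_stabA_iff.2 (mem_ctr.1 hγ'.mem).2) hNL
  have hTK : T1 ≤ K1 := le_inf le_top inf_le_left
  have hKT : K1 ≤ Subgroup.normalizer (T1 : Set G) := fun x hx =>
    Subgroup.mem_normalizer_iff.2 fun u => by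
      have h1 := Subgroup.mem_normalizer_iff.1
        (Subgroup.le_normalizer (H := stabA (subIdem M N c')) (Subgroup.mem_inf.1 hx).2) u
      have h2 := Subgroup.mem_normalizer_iff.1 (hLt.ge (Subgroup.mem_top x)) u
      simp only [hT1, Subgroup.mem_inf]
      exact and_congr h1 h2
  have hidxL : N.relIndex L = p ^ k := hk
  obtain ⟨j, -, hj⟩ := (Nat.dvd_prime_pow hM.1).1 (hidxL ▸
    (⟨T1.relIndex L, (Subgroup.relIndex_mul_relIndex N T1 L hNT inf_le_right).symm⟩ :
      N.relIndex T1 ∣ N.relIndex L))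
  have hfix : subIdem M N c' ∈ fixedBy (CfsgLib.Blocks.Res M) T1 := fun x hx =>
    mem_stabA.1 (Subgroup.mem_inf.1 hx).1
  have hblockT : IsBlockIdem T1 (subIdem M N c') := isBlockIdem_of_regular hM hNT
    (fun x hx => mem_of_relIndex_eq_pow hM.1 (by rw [hNt]; exact le_top) hj hx) hγ' hfix
  obtain ⟨c'', hc'', hne'', -, hDT, -, -⟩ := exists_covered hTK hKT hblk hDK
  have hcc : subIdem M N c' = c'' := hblockT.eq_of_mul_ne_zero hc'' fun h0 => hne'' (by
    rw [mul_assoc, h0, mul_zero])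
  rw [← hcc] at hDT
  have hsup := sup_eq_of_defect hM hNT (by rw [hNt]; exact le_top) hj hγ' hfix hDT
  have hT1N : T1 ≤ N := hsup.ge.trans (sup_le (inf_le_left.trans hDN) le_rfl)
  obtain ⟨χ, hχ, θ, hθ, hθne⟩ := hcov
  obtain ⟨χ', hχ', θ', hθ', hθne'⟩ := (covers_iff N hB hc').2 hne
  obtain ⟨g, θ₀, hθ₀, rfl⟩ := (CfsgLib.BlockLocal.mem_orbitSet N).1
    (CfsgLib.BlockLocal.mem_orbitSet_of_constituent N hc
      (CfsgLib.Blocks.sameBlock_of_mem hB hχ hχ') hθ hθne hθne')
  have hc2 : c' = compIrr (cjEquiv g (cj_of_mem_normalizer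
      (by rw [hNt]; exact Subgroup.mem_top g)).symm) '' c :=
    CfsgLib.Blocks.isPBlock_eq_of_mem hc' (isPBlock_image_compIrr _ hc) hθ'
      ⟨θ₀, hθ₀, compIrr_cjEquiv_eq_conjIrr N g θ₀⟩
  have hconj : subIdem M N c' = conjA g (subIdem M N c) := by rw [hc2, subIdem_image]
  ext x
  rw [Subgroup.mem_inf]
  constructor
  · rintro ⟨hxT, hxL⟩
    have hx := ((stabilizesBlock_iff hc).1 ((hT x).1 hxT)).2
    have hgx : g * x * g⁻¹ ∈ T1 := Subgroup.mem_inf.2 ⟨mem_stabA.2 (by
      rw [hconj, ← conjA_mul, inv_mul_cancel_right, conjA_mul, hx]),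
      Subgroup.Normal.conj_mem inferInstance x hxL g⟩
    have := (Subgroup.mem_normalizer_iff.1 (hNt.ge (Subgroup.mem_top g)) x).2 (hT1N hgx)
    exact this
  · intro hx
    exact ⟨(hT x).2 ((stabilizesBlock_iff hc).2 ⟨hNt.ge (Subgroup.mem_top x),
      (mem_ctr.1 (isBlockIdem_subIdem hc).mem).2 x hx⟩), hNL hx⟩

end Cfsg.Agent.S4673
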