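import Cfsg.Statements.S4674
import Cfsg.Agent.Lib.BrauerPairs.InducedBridge
import Cfsg.Agent.Lib.BrauerPairs.HarrisKnorr
-- import your own Cfsg.Agent.* helpers here

set_option autoImplicit false
open Cfsg

namespace Cfsg.Agent.S4674

open Cfsg CfsgLib.BrauerPairs

/-- Fix a prime p and a maximal ideal M of the algebraic integers containing p. Let N be a normal subgroup of the finite group G, Q a p-subgroup of N, H = N_G(Q) and L = H ∩ N = N_N(Q). Let d be a p-block of N with defect group Q and e the p-block of L with defect group Q that induces d inside N (its Brauer correspondent). Then block induction from H to G is a bijection from the p-blocks of H covering e onto the p-blocks of G covering d: every block of H covering e induces exactly one block of G, and that block covers d; and every block of G covering d is induced by exactly one block of H covering e. -/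
theorem result {G : Type*} [Group G] [Fintype G] (p : ℕ) [Fact p.Prime] (M : Ideal Cfsg.AlgInt) (hM : Cfsg.IsPModular p M) (N : Subgroup G) [N.Normal] [Fintype N] (Q : Subgroup G) (hQ : IsPGroup p Q) (hQN : Q ≤ N) [Fintype ↥(Subgroup.normalizer (Q : Set G) ⊓ N)] (d : Set (Cfsg.IrrCharacter N)) (hd : Cfsg.IsPBlock M d) (hdQ : Cfsg.IsDefectGroup p M d (Q.subgroupOf N)) (e : Set (Cfsg.IrrCharacter ↥(Subgroup.normalizer (Q : Set G) ⊓ N))) (he : Cfsg.IsPBlock M e) (heQ : Cfsg.IsDefectGroup p M e (Q.subgroupOf (Subgroup.normalizer (Q : Set G) ⊓ N))) (hed : Cfsg.IsInducedBlockIn M N (Subgroup.normalizer (Q : Set G) ⊓ N) e d) : (∀ c : Set (Cfsg.IrrCharacter ↥(Subgroup.normalizer (Q : Set G))), Cfsg.IsPBlock M c → (∃ ψ ∈ c, ∃ ξ ∈ e, Cfsg.classInner (fun l : ↥(Subgroup.normalizer (Q : Set G) ⊓ N) => (ψ : ↥(Subgroup.normalizer (Q : Set G)) → ℂ) (Subgroup.inclusion inf_le_left l)) (ξ : ↥(Subgroup.normalizer (Q : Set G) ⊓ N) → ℂ) ≠ 0) → ∃! B : Set (Cfsg.IrrCharacter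 G), Cfsg.IsInducedBlock M (Subgroup.normalizer (Q : Set G)) c B ∧ (∃ χ ∈ B, ∃ θ ∈ d, Cfsg.classInner (fun n : N => (χ : G → ℂ) n) (θ : N → ℂ) ≠ 0)) ∧ (∀ B : Set (Cfsg.IrrCharacter G), Cfsg.IsPBlock M B → (∃ χ ∈ B, ∃ θ ∈ d, Cfsg.classInner (fun n : N => (χ : G → ℂ) n) (θ : N → ℂ) ≠ 0) → ∃! c : Set (Cfsg.IrrCharacter ↥(Subgroup.normalizer (Q : Set G))), (Cfsg.IsPBlock M c ∧ ∃ ψ ∈ c, ∃ ξ ∈ e, Cfsg.classInner (fun l : ↥(Subgroup.normalizer (Q : Set G) ⊓ N) => (ψ : ↥(Subgroup.normalizer (Q : Set G)) → ℂ) (Subgroup.inclusion inf_le_left l)) (ξ : ↥(Subgroup.normalizer (Q : Set G) ⊓ N) → ℂ) ≠ 0) ∧ Cfsg.IsInducedBlock M (Subgroup.normalizer (Q : Set G)) c B) := by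
  haveI : M.IsPrime := CfsgLib.Blocks.isPrime_of_isPModular hM
  haveI : CharP (CfsgLib.Blocks.Res M) p := CfsgLib.Blocks.charP_res hM
  classical
  haveI := Fintype.ofFinite (Subgroup.normalizer (Q : Set G))
  have hNt : (⊤ : Subgroup G) ≤ Subgroup.normalizer (N : Set G) := by
    rw [Subgroup.normalizer_eq_top N]
  have hQH : Q ≤ (Subgroup.normalizer (Q : Set G)) ⊓ N := le_inf Subgroup.le_normalizer hQN
  have hKH : (Subgroup.normalizer (Q : Set G)) ≤ Subgroup.normalizer (((Subgroup.normalizer (Q : Set G)) ⊓ N : Subgroup G) : Set G) := fun x hx =>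
    Subgroup.mem_normalizer_iff.2 fun u => by
      have h1 := Subgroup.mem_normalizer_iff.1 (Subgroup.le_normalizer hx) u
      have h2 := Subgroup.mem_normalizer_iff.1 (hNt (Subgroup.mem_top x)) u
      simp only [Subgroup.mem_inf]
      exact and_congr h1 h2
  have hCK : Subgroup.centralizer (Q : Set G) ≤ (Subgroup.normalizer (Q : Set G)) := Subgroup.centralizer_le_normalizer _
  have hdQ' : IsDefectIn p N N (subIdem M N d) Q := by
    have h := (isDefectGroup_sub_iff hM hd).1 hdQ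
    rwa [Subgroup.subgroupOf_map_subtype, inf_eq_left.2 hQN] at h
  have heQ' : IsDefectIn p (N ⊓ (Subgroup.normalizer (Q : Set G))) (N ⊓ (Subgroup.normalizer (Q : Set G))) (subIdem M _ e) Q := by
    have h := (isDefectGroup_sub_iff hM he).1 heQ
    rw [Subgroup.subgroupOf_map_subtype, inf_eq_left.2 hQH] at h
    exact isDefectIn_congr (inf_comm (Subgroup.normalizer (Q : Set G)) N) h
  have he' := isBlockIdem_congr (inf_comm (Subgroup.normalizer (Q : Set G)) N) (isBlockIdem_subIdem (M := M) he)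
  have hd' := isBlockIdem_subIdem (M := M) hd
  have hde : brau Q (subIdem M N d) = subIdem M _ e :=
    brau_eq_of_defect (p := p) rfl hd' hdQ' he'
      ((isInducedBlockIn_iff hM hQ hQH inf_le_right inf_le_left
        (fun x hx => Subgroup.mem_inf.2 ⟨hCK (Subgroup.mem_inf.1 hx).2, (Subgroup.mem_inf.1 hx).1⟩)
        he hd).1 hed)
  constructor
  · intro c hc hcov
    have hce := (covers_sub_iff inf_le_left hKH hc he).1 hcov
    have hg := isBlockIdem_subIdem (M := M) hc
    obtain ⟨b, ⟨hb, hbg⟩, huniq⟩ := existsUnique_brau_block hQ hg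
    obtain ⟨B, hB, rfl⟩ := exists_isPBlock_of_isBlockIdem hb
    refine ⟨B, ⟨(isInducedBlock_iff hM hQ Subgroup.le_normalizer le_rfl hCK hc hB).2 hbg,
      (covers_iff N hB hd).2 (covers_of_brau hd' hdQ' he' hde hb hg hce hbg)⟩, ?_⟩
    rintro B' ⟨hind, -⟩
    exact redElem_blockCoeff_injective hind.2.1 hB (huniq _ ⟨isBlockIdem_redElem_blockCoeff hind.2.1,
      (isInducedBlock_iff hM hQ Subgroup.le_normalizer le_rfl hCK hc hind.2.1).1 hind⟩)
  · intro B hB hcov
    obtain ⟨g, ⟨hg, hge, hbg⟩, huniq⟩ := existsUnique_harrisKnorr hNt hd' hdQ' he' heQ' hde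
      (isBlockIdem_redElem_blockCoeff (M := M) hB) ((covers_iff N hB hd).1 hcov)
    obtain ⟨c, hc, rfl⟩ := exists_isPBlock_subIdem hg
    refine ⟨c, ⟨⟨hc, (covers_sub_iff inf_le_left hKH hc he).2 hge⟩,
      (isInducedBlock_iff hM hQ Subgroup.le_normalizer le_rfl hCK hc hB).2 hbg⟩, ?_⟩
    rintro c' ⟨⟨hc', hcov'⟩, hind⟩
    exact subIdem_injective hc' hc (huniq _ ⟨isBlockIdem_subIdem hc',
      (covers_sub_iff inf_le_left hKH hc' he).1 hcov',
      (isInducedBlock_iff hM hQ Subgroup.le_normalizer le_rfl hCK hc' hB).1 hind⟩)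

end Cfsg.Agent.S4674
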