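import Cfsg.Statements.S4679
import Cfsg.Agent.Lib.BrauerPairs.BridgeFusion
-- import your own Cfsg.Agent.* helpers here

set_option autoImplicit false
open Cfsg

namespace Cfsg.Agent.S4679

open Cfsg CfsgLib.BrauerPairs

/-- Fix a prime p and a maximal ideal M of the algebraic integers containing p, a p-block B of the finite group G with maximal Brauer pair (P, e), its fusion system F on P, a Brauer pair (Q, f) ≤ (P, e), and let T be the stabilizer of f in N_G(Q). Then Q is fully normalized in F if and only if N_P(Q) is a defect group of the block of T whose idempotent is that of f. -/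
theorem result {G : Type*} [Group G] [Fintype G] (p : ℕ) [Fact p.Prime] (M : Ideal Cfsg.AlgInt) (hM : Cfsg.IsPModular p M) (B : Set (Cfsg.IrrCharacter G)) (P : Subgroup G) (e : Set (Cfsg.IrrCharacter (Subgroup.centralizer (P : Set G)))) (hmax : Cfsg.IsMaximalBrauerPair p M B P e) (F : Cfsg.FusionSystem P) (hF : Cfsg.IsBlockFusionSystemOn p M B P e F) (Q : Subgroup G) (f : Set (Cfsg.IrrCharacter (Subgroup.centralizer (Q : Set G)))) (hQP : Q ≤ P) (hf : Cfsg.IsPBlock M f) (hle : Cfsg.SubpairLE p M Q f P e) (T : Subgroup G) (hT : ∀ y : G, y ∈ T ↔ y ∈ Subgroup.normalizer (Q : Set G) ∧ Cfsg.StabilizesBlock (Subgroup.centralizer (Q : Set G)) f y) : F.IsFullyNormalized Q ↔ ∃ F' : Set (Cfsg.IrrCharacter T), Cfsg.IsPBlock M F' ∧ (∀ t : T, Cfsg.blockCoeff F' t = Cfsg.subgroupBlockCoeff (Subgroup.centralizer (Q : Set G)) f (t : G)) ∧ Cfsg.IsDefectGroup p M F' ((P ⊓ Subgroup.normalizer (Q : Set G)).subgroupOf T) := by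
  haveI : M.IsPrime := CfsgLib.Blocks.isPrime_of_isPModular hM
  haveI : M.IsMaximal := hM.2.1
  haveI : CharP (CfsgLib.Blocks.Res M) p := CfsgLib.Blocks.charP_res hM
  haveI : IsAlgClosed (CfsgLib.Blocks.Res M) := CfsgLib.Blocks.isAlgClosed_res
  obtain ⟨hB, he, hP⟩ := (isMaximalBrauerPair_iff hM).1 hmax
  have hb := isBlockIdem_redElem_blockCoeff (M := M) hB
  obtain ⟨-, hF'⟩ := (isBlockFusionSystemOn_iff hM).1 hF
  have hle' := pairLE_of_subpairLE hM hle
  have hfp := hle'.isPair_left hP.1.1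
  have hTS : pairStab (⊤ : Subgroup G) Q (subIdem M _ f) = T := by
    ext y
    rw [mem_pairStab_top_iff hf, hT]
  have hCT : Subgroup.centralizer (Q : Set G) ≤ T :=
    (cenIn_top Q).ge.trans ((cenIn_le_pairStab hfp).trans hTS.le)
  have hD : P ⊓ Subgroup.normalizer (Q : Set G) ≤ T :=
    (hle'.normalizer_le_stab hP.1.1).trans hTS.le
  rw [hF'.isFullyNormalized_iff hb hP hle', hTS]
  constructor
  · intro hd
    obtain ⟨F₀, hF₀, hcoeff, heq⟩ := exists_block_stab (T := T) hf hfp.1 (hTS ▸ le_pairStab hfp)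
      hCT hTS.ge
    refine ⟨F₀, hF₀, hcoeff, (isDefectGroup_sub_iff hM hF₀).2 ?_⟩
    rw [Subgroup.subgroupOf_map_subtype, inf_eq_left.2 hD, heq]
    exact hd
  · rintro ⟨F₀, hF₀, hcoeff, hd⟩
    have hd' := (isDefectGroup_sub_iff hM hF₀).1 hd
    rwa [Subgroup.subgroupOf_map_subtype, inf_eq_left.2 hD,
      subIdem_eq_of_blockCoeff hCT hcoeff] at hd'

end Cfsg.Agent.S4679
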