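import Cfsg.Statements.S4681
import Cfsg.Agent.Lib.BrauerPairs.ThirdMain
-- import your own Cfsg.Agent.* helpers here

set_option autoImplicit false
open Cfsg

namespace Cfsg.Agent.S4681

open Cfsg CfsgLib.BrauerPairs

/-- Fix a prime p and a maximal ideal M of the algebraic integers containing p. Let B₀ be the principal p-block of the finite group G, P a Sylow p-subgroup and e₀ the principal p-block of C_G(P). Then (P, e₀) is a maximal Brauer pair of B₀, and the fusion system of B₀ on (P, e₀) is the fusion system of G on P: its maps from each subgroup of P are exactly the conjugation maps into P by elements of G. -/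
theorem result {G : Type*} [Group G] [Fintype G] (p : ℕ) [Fact p.Prime] (M : Ideal Cfsg.AlgInt) (hM : Cfsg.IsPModular p M) (S : Sylow p G) : Cfsg.IsMaximalBrauerPair p M (Cfsg.principalBlock M G) (S : Subgroup G) (Cfsg.principalBlock M (Subgroup.centralizer ((S : Subgroup G) : Set G))) ∧ ∀ F : Cfsg.FusionSystem (S : Subgroup G), Cfsg.IsBlockFusionSystemOn p M (Cfsg.principalBlock M G) (S : Subgroup G) (Cfsg.principalBlock M (Subgroup.centralizer ((S : Subgroup G) : Set G))) F → ∀ Q : Subgroup G, F.Hom Q = (Cfsg.groupFusionSystem (S : Subgroup G)).Hom Q := by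
  haveI : M.IsPrime := CfsgLib.Blocks.isPrime_of_isPModular hM
  haveI : CharP (CfsgLib.Blocks.Res M) p := CfsgLib.Blocks.charP_res hM
  have hmax := (isMaximalBrauerPair_iff hM).2
    ⟨isPBlock_principalBlock (G := G) M, isPBlock_principalBlock M, isMaxPair_sylow hM S⟩
  refine ⟨hmax, fun F hF Q => ?_⟩
  rw [((isBlockFusionSystemOn_iff hM).1 hF).2 Q]
  ext φ
  constructor
  · rintro ⟨hQ, g, -, hφ, hg, -⟩
    exact ⟨hQ, fun u => hg (by rw [← range_eq_cj hφ]; exact ⟨u, rfl⟩), g, hφ⟩
  · rintro ⟨hQ, hS, g, hφ⟩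
    have hg : cj g Q ≤ (S : Subgroup G) := by
      rw [← range_eq_cj hφ]
      rintro _ ⟨u, rfl⟩
      exact hS u
    refine ⟨hQ, g, Subgroup.mem_top g, hφ, hg, b0 M Q, pairLE_principal hM S.2 Q hQ, ?_⟩
    rw [conjA_b0]
    exact pairLE_principal hM S.2 _ hg

end Cfsg.Agent.S4681
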