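import Cfsg.Statements.S4682
import Cfsg.Agent.Lib.BrauerPairs.BridgeFusion
-- import your own Cfsg.Agent.* helpers here

set_option autoImplicit false
open Cfsg

namespace Cfsg.Agent.S4682

open Cfsg CfsgLib.BrauerPairs

/-- Fix a prime p and a maximal ideal M of the algebraic integers containing p, a p-block B of the finite group G with maximal Brauer pair (P, e), P abelian, and a Brauer pair (Q, f) ≤ (P, e). Let T_Q be the stabilizer of f in N_G(Q) and T_P the stabilizer of e in N_G(P). Then every element of T_Q is a product of an element of T_P and an element of C_G(Q); and the index of C_G(Q) in T_Q equals the index of T_P ∩ C_G(Q) in T_P ∩ N_G(Q). -/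
theorem result {G : Type*} [Group G] [Fintype G] (p : ℕ) [Fact p.Prime] (M : Ideal Cfsg.AlgInt) (hM : Cfsg.IsPModular p M) (B : Set (Cfsg.IrrCharacter G)) (P : Subgroup G) (e : Set (Cfsg.IrrCharacter (Subgroup.centralizer (P : Set G)))) (hmax : Cfsg.IsMaximalBrauerPair p M B P e) (hab : ∀ x ∈ P, ∀ y ∈ P, x * y = y * x) (Q : Subgroup G) (f : Set (Cfsg.IrrCharacter (Subgroup.centralizer (Q : Set G)))) (hQP : Q ≤ P) (hf : Cfsg.IsPBlock M f) (hle : Cfsg.SubpairLE p M Q f P e) (TQ : Subgroup G) (hTQ : ∀ y : G, y ∈ TQ ↔ y ∈ Subgroup.normalizer (Q : Set G) ∧ Cfsg.StabilizesBlock (Subgroup.centralizer (Q : Set G)) f y) (TP : Subgroup G) (hTP : ∀ y : G, y ∈ TP ↔ y ∈ Subgroup.normalizer (P : Set G) ∧ Cfsg.StabilizesBlock (Subgroup.centralizer (P : Set G)) e y) : (∀ x ∈ TQ, ∃ y ∈ TP, ∃ c ∈ Subgroup.centralizer (Q : Set G), x = y * c) ∧ ((Subgroup.centralizer (Q : Set G)).subgroupOf TQ).index = ((TP ⊓ Subgroup.centralizer (Q : Set G)).subgroupOf (TP ⊓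 Subgroup.normalizer (Q : Set G))).index := by
  haveI : M.IsPrime := CfsgLib.Blocks.isPrime_of_isPModular hM
  haveI : M.IsMaximal := hM.2.1
  haveI : CharP (CfsgLib.Blocks.Res M) p := CfsgLib.Blocks.charP_res hM
  haveI : IsAlgClosed (CfsgLib.Blocks.Res M) := CfsgLib.Blocks.isAlgClosed_res
  obtain ⟨hB, he, hP⟩ := (isMaximalBrauerPair_iff hM).1 hmax
  have hb := isBlockIdem_redElem_blockCoeff (M := M) hB
  have hle' := pairLE_of_subpairLE hM hle
  have hfp := hle'.isPair_left hP.1.1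
  have hQ : pairStab (⊤ : Subgroup G) Q (subIdem M _ f) = TQ := by
    ext y
    rw [mem_pairStab_top_iff hf, hTQ]
  have hP' : pairStab (⊤ : Subgroup G) P (subIdem M _ e) = TP := by
    ext y
    rw [mem_pairStab_top_iff he, hTP]
  set C := Subgroup.centralizer (Q : Set G) with hC
  have hCQ : C ≤ TQ := (cenIn_top Q).ge.trans ((cenIn_le_pairStab hfp).trans hQ.le)
  have hfirst : ∀ x ∈ TQ, ∃ y ∈ TP, ∃ c ∈ C, x = y * c := by
    intro x hx
    obtain ⟨y, hy, c, hc, rfl⟩ := hP.stab_eq_of_abelian hb hab hle' x (hQ.ge hx)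
    exact ⟨y, hP'.le hy, c, (cenIn_top Q).le hc, rfl⟩
  refine ⟨hfirst, ?_⟩
  set A := TP ⊓ Subgroup.normalizer (Q : Set G) with hA
  have hAQ : A ≤ TQ := by
    intro y hy
    obtain ⟨hy1, hy2⟩ := Subgroup.mem_inf.1 hy
    rw [← hP'] at hy1
    obtain ⟨-, hyP, hye⟩ := mem_pairStab.1 hy1
    have h := hle'.conj (c := y) (Subgroup.mem_top y)
    rw [cj_of_mem_normalizer hy2, cj_of_mem_normalizer hyP, hye] at h
    rw [← hQ]
    exact mem_pairStab.2 ⟨Subgroup.mem_top y, hy2,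
      (existsUnique_pairLE hP.1.1 hle'.le).unique h hle'⟩
  haveI : (C.subgroupOf TQ).Normal := Subgroup.normal_subgroupOf_of_le_normalizer fun x hx =>
    normalizer_le_normalizer_cen Q ((hTQ x).1 hx).1
  have hsup : A.subgroupOf TQ ⊔ C.subgroupOf TQ = ⊤ := by
    rw [← Subgroup.subgroupOf_sup hAQ hCQ, Subgroup.subgroupOf_eq_top]
    intro x hx
    obtain ⟨y, hy, c, hc, rfl⟩ := hfirst x hx
    refine mul_mem ((le_sup_left : A ≤ A ⊔ C) (Subgroup.mem_inf.2 ⟨hy, ?_⟩))
      ((le_sup_right : C ≤ A ⊔ C) hc)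
    have h1 := ((hTQ _).1 hx).1
    simpa using Subgroup.mul_mem _ h1 (Subgroup.inv_mem _
      (Subgroup.centralizer_le_normalizer _ hc))
  have h1 : (C.subgroupOf TQ).index = C.relIndex A := by
    rw [← Subgroup.relIndex_top_right, ← hsup, Subgroup.relIndex_sup_right,
      Subgroup.relIndex_subgroupOf hAQ]
  rw [h1]
  show C.relIndex A = (TP ⊓ C).relIndex A
  rw [← Subgroup.inf_relIndex_right C A, ← Subgroup.inf_relIndex_right (TP ⊓ C) A]
  congr 1
  rw [inf_comm TP C, inf_assoc, inf_eq_right.2 (inf_le_left : A ≤ TP)]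

end Cfsg.Agent.S4682
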