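import Cfsg.Statements.S4683
import Cfsg.Agent.Lib.BrauerCharacters.PrincipalSection
import Cfsg.Agent.Lib.BrauerPairs.InducedBridge
-- import your own Cfsg.Agent.* helpers here

set_option autoImplicit false
open Cfsg

namespace Cfsg.Agent.S4683

open Cfsg CfsgLib.BrauerCharacters Finset

/-- Fix a prime p and a maximal ideal M of the algebraic integers containing p, a p-block B of the finite group G, a p-element u and a p-block e of C = C_G(u) such that (⟨u⟩, e) is a Brauer pair of B (a Brauer element of B). For χ ∈ B let χ_u be the e-part of the class function c ↦ χ(u c) on C and χ_u' the e-part of c ↦ χ(u⁻¹ c). Then the sum over χ ∈ B and over the p-regular elements s of C of χ_u(s)·χ_u'(s⁻¹) equals the order of C times the p-regular rank of e (the number of irreducible Brauer characters of e). -/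
theorem result {G : Type*} [Group G] [Fintype G] (p : ℕ) [Fact p.Prime] (M : Ideal Cfsg.AlgInt) (hM : Cfsg.IsPModular p M) (B : Set (Cfsg.IrrCharacter G)) (u : G) (hu : ∃ k : ℕ, orderOf u = p ^ k) (e : Set (Cfsg.IrrCharacter (Subgroup.centralizer (Subgroup.zpowers u : Set G)))) (hBe : Cfsg.IsBrauerPairOf p M B (Subgroup.zpowers u) e) : ∑ᶠ χ ∈ B, ∑ᶠ s : Subgroup.centralizer (Subgroup.zpowers u : Set G), Cfsg.pRegularPart p (Cfsg.blockPart e (fun c : Subgroup.centralizer (Subgroup.zpowers u : Set G) => (χ : G → ℂ) (u * c))) s * Cfsg.blockPart e (fun c : Subgroup.centralizer (Subgroup.zpowers u : Set G) => (χ : G → ℂ) (u⁻¹ * c)) s⁻¹ = (Nat.card (Subgroup.centralizer (Subgroup.zpowers u : Set G)) : ℂ) * (Cfsg.blockRank p e : ℂ) := by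
  classical
  haveI := CfsgLib.Blocks.isPrime_of_isPModular hM
  haveI := Fintype.ofFinite (IrrCharacter G)
  haveI := CfsgLib.Blocks.charP_res hM
  haveI : M.IsMaximal := hM.2.1
  haveI : IsAlgClosed (CfsgLib.Blocks.Res M) := CfsgLib.Blocks.isAlgClosed_res
  obtain ⟨hB, he, hpair⟩ := (CfsgLib.BrauerPairs.isBrauerPairOf_iff hM).1 hBe
  have hind : IsInducedBlock M (Subgroup.centralizer (Subgroup.zpowers u : Set G)) e B :=
    (CfsgLib.BrauerPairs.isInducedBlock_iff hM hBe.1.1
      (fun x hx => Subgroup.mem_centralizer_iff.2 fun y hy => by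
        obtain ⟨a, rfl⟩ := hx
        obtain ⟨b, rfl⟩ := hy
        exact (Commute.zpow_zpow_self u b a).eq)
      (Subgroup.centralizer_le_normalizer _) le_rfl he hB).2 hpair.2
  have key : ∀ (D : Subgroup G) (hD : D = Subgroup.centralizer ({u} : Set G)) (e : Set (IrrCharacter D)),
      IsPBlock M e → IsInducedBlock M D e B → ∀ [Fintype D],
      ∑ χ ∈ blockFinset B, ∑ s : D,
        pRegularPart p (blockPart e (fun c : D => (χ : G → ℂ) (u * c))) s *
          blockPart e (fun c : D => (χ : G → ℂ) (u⁻¹ * c)) s⁻¹ =
        (Nat.card D : ℂ) * (blockRank p e : ℂ) := by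
    rintro D rfl e he hind hF
    obtain rfl : hF = Fintype.ofFinite _ := Subsingleton.elim _ _
    letI : Fintype (Subgroup.centralizer ({u} : Set G)) := Fintype.ofFinite _
    haveI := Fintype.ofFinite (IrrCharacter (Subgroup.centralizer ({u} : Set G)))
    have hpart : ∀ (χ : IrrCharacter G) (s : Subgroup.centralizer ({u} : Set G)),
        blockPart e (fun c : Subgroup.centralizer ({u} : Set G) => (χ : G → ℂ) (u * c)) s =
          secPart u e χ s := by
      intro χ s
      unfold blockPart
      rw [finsum_mem_eq_sum_blockFinset]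
      refine sum_congr rfl fun ξ _ => ?_
      have hz : (cenElem u : Subgroup.centralizer ({u} : Set G)).1 = u := rfl
      obtain ⟨-, hmul⟩ := centralVal_spec ξ (commute_cenElem u)
      rw [hmul, coe_resMult, ← mul_assoc]
      congr 1
      rw [mul_comm (classInner _ _) (centralVal _ _)]
      simp only [classInner, mul_sum]
      refine Fintype.sum_equiv (Equiv.mulLeft (cenElem u : Subgroup.centralizer ({u} : Set G))) _ _ fun c => ?_
      simp only [Equiv.coe_mulLeft, Subgroup.coe_mul, hz]
      obtain ⟨hpow, hmul⟩ := centralVal_spec ξ (commute_cenElem u)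
      rw [hmul, map_mul]
      have hnorm := CfsgLib.CharTheory.norm_eq_one_of_pow_eq_one' (isOfFinOrder_of_finite _).orderOf_pos.ne' hpow
      have h1 := Complex.mul_conj' (centralVal (ξ : Subgroup.centralizer ({u} : Set G) → ℂ) (cenElem u))
      rw [hnorm, Complex.ofReal_one, one_pow] at h1
      linear_combination (-(Nat.card (Subgroup.centralizer ({u} : Set G)) : ℂ)⁻¹ * (χ : G → ℂ) (u * c) *
        starRingEnd ℂ ((ξ : Subgroup.centralizer ({u} : Set G) → ℂ) c)) * h1
    have hinv : ∀ (χ : IrrCharacter G) (s : Subgroup.centralizer ({u} : Set G)),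
        blockPart e (fun c : Subgroup.centralizer ({u} : Set G) => (χ : G → ℂ) (u⁻¹ * c)) s⁻¹ =
          starRingEnd ℂ (secPart u e χ s) := by
      intro χ s
      rw [← hpart]
      unfold blockPart
      rw [finsum_mem_eq_sum_blockFinset, finsum_mem_eq_sum_blockFinset, map_sum]
      refine sum_congr rfl fun ξ _ => ?_
      rw [map_mul, CfsgLib.BrauerCharacters.conj_apply]
      congr 1
      simp only [classInner, map_mul, map_inv₀, map_natCast, map_sum, Complex.conj_conj]
      congr 1
      refine Fintype.sum_equiv (Equiv.inv _) _ _ fun c => ?_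
      simp only [Equiv.inv_apply, Subgroup.coe_inv, CfsgLib.BrauerCharacters.conj_apply, inv_inv, mul_inv_rev]
      congr 1
      have h := Subgroup.mem_centralizer_singleton_iff.1 c.2
      have hcomm : Commute u (c : G) := h.symm
      rw [hcomm.inv_left.eq]
    rw [← sum_regInner_self_eq_blockRank (weakOrth hM he), mul_sum, sum_comm]
    rw [sum_congr rfl (g := fun s : Subgroup.centralizer ({u} : Set G) =>
      if p ∣ orderOf s then 0 else ∑ ξ ∈ blockFinset e,
        (ξ : Subgroup.centralizer ({u} : Set G) → ℂ) s *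
          starRingEnd ℂ ((ξ : Subgroup.centralizer ({u} : Set G) → ℂ) s)) (fun s _ => ?_)]
    · rw [sum_congr rfl (s₁ := blockFinset e) (fun ξ _ => by
        rw [regInner, classInner, ← mul_assoc, mul_inv_cancel₀ (Nat.cast_ne_zero.2 Nat.card_pos.ne'),
          one_mul]), sum_comm]
      refine sum_congr rfl fun s _ => ?_
      split_ifs with hs
      · exact (sum_eq_zero fun ξ _ => by rw [pRegularPart_apply, if_pos hs, zero_mul]).symm
      · exact sum_congr rfl fun ξ _ => by rw [pRegularPart_apply, if_neg hs]
    · simp only [pRegularPart_apply, hpart, hinv, ite_mul, zero_mul]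
      by_cases hs : p ∣ orderOf s
      · simp [hs]
      · simp only [hs, if_false]
        rw [sum_subset (subset_univ _) (fun χ _ hχ => by
          rw [secPart_eq_zero_of_isInducedBlock u hu hM hind (by simpa using hχ) hs, zero_mul]),
          sum_secPart_mul_conj u e hu hM he hs hs]
        refine sum_congr rfl fun ξ _ => ?_
        obtain ⟨hpow, hmul⟩ := centralVal_spec ξ (commute_cenElem u)
        have hnorm := CfsgLib.CharTheory.norm_eq_one_of_pow_eq_one' (isOfFinOrder_of_finite _).orderOf_pos.ne' hpow
        rw [hmul, map_mul, mul_mul_mul_comm, Complex.mul_conj', hnorm]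
        simp
  haveI := Fintype.ofFinite (Subgroup.centralizer (Subgroup.zpowers u : Set G))
  rw [finsum_mem_eq_sum_blockFinset]
  simp only [finsum_eq_sum_of_fintype]
  exact key _ (centralizer_zpowers_eq u) e he hind

end Cfsg.Agent.S4683
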