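import Cfsg.Statements.S4685
-- import your own Cfsg.Agent.* helpers here
import Cfsg.Agent.Lib.BlockStar.Nonvanishing
import Cfsg.Agent.Lib.BrauerPairs.BridgeFusion

set_option autoImplicit false
open Cfsg

namespace Cfsg.Agent.S4685

open CfsgLib.BlockStar CfsgLib.BrauerPairs

/-- Fix a prime p and a maximal ideal M of the algebraic integers containing p, a p-block B of the finite group G with maximal Brauer pair (P, e) and fusion system F on P. Then for every h the number of irreducible characters of height h in B is divisible by the index of Z(P) ∩ foc(F) in Z(P), where foc(F) is the focal subgroup of F. -/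
theorem result {G : Type*} [Group G] [Fintype G] (p : ℕ) [Fact p.Prime] (M : Ideal Cfsg.AlgInt) (hM : Cfsg.IsPModular p M) (B : Set (Cfsg.IrrCharacter G)) (P : Subgroup G) (e : Set (Cfsg.IrrCharacter (Subgroup.centralizer (P : Set G)))) (hmax : Cfsg.IsMaximalBrauerPair p M B P e) (F : Cfsg.FusionSystem P) (hF : Cfsg.IsBlockFusionSystemOn p M B P e F) (h : ℕ) : ((P ⊓ Subgroup.centralizer (P : Set G) ⊓ F.focalSubgroup).subgroupOf (P ⊓ Subgroup.centralizer (P : Set G))).index ∣ Nat.card {χ : Cfsg.IrrCharacter G // χ ∈ B ∧ Cfsg.blockHeight p B (χ : G → ℂ) = h} := by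
  classical
  haveI : M.IsPrime := CfsgLib.Blocks.isPrime_of_isPModular hM
  haveI : M.IsMaximal := hM.2.1
  haveI : CharP (CfsgLib.Blocks.Res M) p := CfsgLib.Blocks.charP_res hM
  haveI : IsAlgClosed (CfsgLib.Blocks.Res M) := CfsgLib.Blocks.isAlgClosed_res
  obtain ⟨hB, he, hP⟩ := (isMaximalBrauerPair_iff hM).1 hmax
  obtain ⟨-, hF'⟩ := (isBlockFusionSystemOn_iff hM).1 hF
  haveI : Finite (trivChars (F.focalSubgroup.subgroupOf P)) := Nat.finite_of_card_ne_zero (by
    rw [card_trivChars (commutator_le_focal F)]; exact Subgroup.index_ne_zero_of_finite)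
  set L := trivChars (F.focalSubgroup.subgroupOf P)
  set Z : Subgroup G := P ⊓ Subgroup.centralizer (P : Set G)
  set N := F.focalSubgroup.subgroupOf P with hNdef
  have hN : commutator P ≤ N := commutator_le_focal F
  haveI := normal_of_commutator_le hN
  set N2 := N ⊔ Z.subgroupOf P
  set K0 := (trivChars N2).subgroupOf L
  have hle : trivChars N2 ≤ L := trivChars_anti le_sup_left
  have hcard : K0.index * N2.index = N.index := by
    rw [← card_trivChars hN, ← card_trivChars (hN.trans le_sup_left : commutator P ≤ N2),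
      ← Nat.card_congr (Subgroup.subgroupOfEquivOfLe hle).toEquiv, mul_comm,
      Subgroup.card_mul_index]
  have hidx : K0.index = ((Z ⊓ F.focalSubgroup).subgroupOf Z).index := by
    have h1 : N.relIndex N2 * N2.index = N.index := Subgroup.relIndex_mul_index le_sup_left
    have h2 : K0.index = N.relIndex N2 :=
      Nat.eq_of_mul_eq_mul_right (Nat.pos_of_ne_zero Subgroup.index_ne_zero_of_finite)
        (hcard.trans h1.symm)
    rw [h2, show N2 = N ⊔ Z.subgroupOf P from rfl, Subgroup.relIndex_sup_left, hNdef,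
      Subgroup.relIndex_subgroupOf inf_le_left, ← Subgroup.relIndex, Subgroup.inf_relIndex_left]
  rw [← hidx]
  letI := heightAction hM hB hP hF' h
  refine dvd_card_of_dvd_index (L := trivChars (F.focalSubgroup.subgroupOf P)) _ fun χ => ?_
  refine Subgroup.index_dvd_of_le fun lam hlam => Subgroup.mem_subgroupOf.2 ?_
  have h1 := congrArg Subtype.val (MulAction.mem_stabilizer_iff.1 hlam)
  have hfix : starMap hM hB hP hF' lam ⟨χ.1, χ.2.1⟩ = ⟨χ.1, χ.2.1⟩ := Subtype.ext h1
  have hker : N2 ≤ (lam : P →* ℂˣ).ker := by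
    refine sup_le (fun x hx => lam.2 x hx) fun u hu => ?_
    have huZ : (u : G) ∈ Subgroup.centralizer (P : Set G) :=
      (Subgroup.mem_inf.1 (Subgroup.mem_subgroupOf.1 hu)).2
    obtain ⟨c, g, hc, hg, hne⟩ := exists_val_ne_zero_of_central hM hB hP χ.2.1 u.2 huZ
    exact apply_eq_one_of_fixed hM hB hP hF' hfix hc hg hne
  exact fun x hx => hker hx

end Cfsg.Agent.S4685
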