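import Cfsg.Statements.S4688
import Cfsg.Agent.Lib.BrauerPairs.ThirdMain
import Cfsg.Agent.Lib.BrauerPairs.TransportPairs
-- import your own Cfsg.Agent.* helpers here

set_option autoImplicit false
open Cfsg

namespace Cfsg.Agent.S4688

open Cfsg CfsgLib.BrauerPairs

/-- Fix a prime p and a maximal ideal M of the algebraic integers containing p, and a nilpotent p-block B of the finite group G with maximal Brauer pair (P, e). Then for every Brauer pair (Q, f) of B, f is a nilpotent block of C_G(Q); and if moreover (Q, f) ≤ (P, e), then C_P(Q) is a defect group of f as a block of C_G(Q). -/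
theorem result {G : Type*} [Group G] [Fintype G] (p : ℕ) [Fact p.Prime] (M : Ideal Cfsg.AlgInt) (hM : Cfsg.IsPModular p M) (B : Set (Cfsg.IrrCharacter G)) (P : Subgroup G) (e : Set (Cfsg.IrrCharacter (Subgroup.centralizer (P : Set G)))) (hmax : Cfsg.IsMaximalBrauerPair p M B P e) (hnil : Cfsg.IsNilpotentBlock p M B) (Q : Subgroup G) (f : Set (Cfsg.IrrCharacter (Subgroup.centralizer (Q : Set G)))) (hQf : Cfsg.IsBrauerPairOf p M B Q f) : Cfsg.IsNilpotentBlock p M f ∧ (Cfsg.SubpairLE p M Q f P e → Cfsg.IsDefectGroup p M f ((P ⊓ Subgroup.centralizer (Q : Set G)).subgroupOf (Subgroup.centralizer (Q : Set G)))) := by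
  haveI : M.IsPrime := CfsgLib.Blocks.isPrime_of_isPModular hM
  haveI : M.IsMaximal := hM.2.1
  haveI : CharP (CfsgLib.Blocks.Res M) p := CfsgLib.Blocks.charP_res hM
  haveI : IsAlgClosed (CfsgLib.Blocks.Res M) := CfsgLib.Blocks.isAlgClosed_res
  obtain ⟨hB, he, hP⟩ := (isMaximalBrauerPair_iff hM).1 hmax
  have hb := isBlockIdem_redElem_blockCoeff (M := M) hB
  have hnil' := ((isNilpotentBlock_iff hM).1 hnil).2
  obtain ⟨-, hf, hp⟩ := (isBrauerPairOf_iff hM).1 hQf
  constructor
  · rw [isNilpotentBlock_iff hM]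
    refine ⟨hf, ?_⟩
    rw [← isNilp_mapG_iff (Subgroup.centralizer (Q : Set G)).subtype_injective, map_top_subtype,
      ← redElem_subgroupBlockCoeff]
    have := hnil'.centralizer hb hp
    rwa [cenIn_top] at this
  · intro hle
    have := hnil'.isDefectIn_cenIn hb hP (pairLE_of_subpairLE hM hle)
    rw [cenIn_top] at this
    rw [isDefectGroup_sub_iff hM hf, Subgroup.subgroupOf_map_subtype, inf_eq_left.2 inf_le_right]
    exact this

end Cfsg.Agent.S4688
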