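import Cfsg.Statements.S4689
import Cfsg.Agent.Lib.BlockStar.Nilpotent

set_option autoImplicit false
open Cfsg CfsgLib.BrauerPairs CfsgLib.BlockStar

namespace Cfsg.Agent.S4689

/-- Fix a prime p and a maximal ideal M of the algebraic integers containing p, and a nilpotent p-block B of the finite group G. Then B has p-regular rank one (a single irreducible Brauer character), and some χ₀ ∈ B restricts to that Brauer character: every χ ∈ B agrees on the p-regular elements with a natural-number multiple of χ₀. -/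
theorem result {G : Type*} [Group G] [Fintype G] (p : ℕ) [Fact p.Prime] (M : Ideal Cfsg.AlgInt) (hM : Cfsg.IsPModular p M) (B : Set (Cfsg.IrrCharacter G)) (hnil : Cfsg.IsNilpotentBlock p M B) : Cfsg.blockRank p B = 1 ∧ ∃ χ₀ ∈ B, ∀ χ ∈ B, ∃ d : ℕ, ∀ x : G, Cfsg.pRegularPart p (χ : G → ℂ) x = (d : ℂ) * Cfsg.pRegularPart p (χ₀ : G → ℂ) x := by
  haveI : M.IsPrime := CfsgLib.Blocks.isPrime_of_isPModular hM
  haveI : M.IsMaximal := hM.2.1
  haveI : CharP (CfsgLib.Blocks.Res M) p := CfsgLib.Blocks.charP_res hM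
  haveI : IsAlgClosed (CfsgLib.Blocks.Res M) := CfsgLib.Blocks.isAlgClosed_res
  obtain ⟨hB, hnil'⟩ := (isNilpotentBlock_iff hM).1 hnil
  have hb := isBlockIdem_redElem_blockCoeff (M := M) hB
  obtain ⟨P, hP⟩ := exists_isDefectGroup hM hB
  obtain ⟨e, he⟩ := exists_isMaxPair_of_isDefectIn hb ((isDefectGroup_iff hM hB).1 hP)
  obtain ⟨h1, h2, -⟩ := structure_of_nilp hM hB he hnil'
  exact ⟨h1, h2⟩

end Cfsg.Agent.S4689
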