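import Cfsg.Statements.S4692
import Cfsg.Agent.Lib.BrauerPairs.PIndex
-- import your own Cfsg.Agent.* helpers here

set_option autoImplicit false
open Cfsg

namespace Cfsg.Agent.S4692

open Cfsg CfsgLib.BrauerPairs

/-- Fix a prime p and a maximal ideal M of the algebraic integers containing p. Let N be a normal subgroup of p-power index in the finite group G and c a p-block of N stable under conjugation by G, and let B be the p-block of G whose idempotent is that of c (it exists and is unique). Then c is nilpotent as a block of N if and only if B is nilpotent as a block of G. -/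
theorem result {G : Type*} [Group G] [Fintype G] (p : ℕ) [Fact p.Prime] (M : Ideal Cfsg.AlgInt) (hM : Cfsg.IsPModular p M) (N : Subgroup G) [N.Normal] (hN : ∃ k : ℕ, N.index = p ^ k) (c : Set (Cfsg.IrrCharacter N)) (hc : Cfsg.IsPBlock M c) (hst : ∀ x : G, Cfsg.StabilizesBlock N c x) (B : Set (Cfsg.IrrCharacter G)) (hB : Cfsg.IsPBlock M B) (hBc : ∀ g : G, Cfsg.blockCoeff B g = Cfsg.subgroupBlockCoeff N c g) : Cfsg.IsNilpotentBlock p M c ↔ Cfsg.IsNilpotentBlock p M B := by
  haveI : M.IsPrime := CfsgLib.Blocks.isPrime_of_isPModular hM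
  haveI : M.IsMaximal := hM.2.1
  haveI : CharP (CfsgLib.Blocks.Res M) p := CfsgLib.Blocks.charP_res hM
  obtain ⟨k, hk⟩ := hN
  have hNt : Subgroup.normalizer (N : Set G) = ⊤ := Subgroup.normalizer_eq_top N
  have hidx : N.relIndex ⊤ = p ^ k := by rw [Subgroup.relIndex_top_right, hk]
  have hfix : subIdem M N c ∈ fixedBy (CfsgLib.Blocks.Res M) (⊤ : Subgroup G) := fun x _ =>
    ((stabilizesBlock_iff hc).1 (hst x)).2
  have hred : redElem M (blockCoeff B) = subIdem M N c := by rw [subIdem, funext hBc]
  rw [isNilpotentBlock_iff hM, isNilpotentBlock_iff hM, hred,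
    ← isNilp_iff_of_index hM le_top (by rw [hNt]) hidx (isBlockIdem_subIdem hc) hfix,
    ← isNilp_mapG_iff N.subtype_injective (L := (⊤ : Subgroup N)), map_top_subtype,
    ← redElem_subgroupBlockCoeff]
  exact ⟨fun h => ⟨hB, h.2⟩, fun h => ⟨hc, h.2⟩⟩

end Cfsg.Agent.S4692
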