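import Cfsg.Statements.S4693
import Cfsg.Agent.Lib.BrauerPairs.BridgeFusion
import Cfsg.Agent.Lib.BrauerPairs.PIndex
import Cfsg.Agent.Lib.BrauerPairs.NormalP
-- import your own Cfsg.Agent.* helpers here

set_option autoImplicit false
open Cfsg

namespace Cfsg.Agent.S4693

open Cfsg CfsgLib.BrauerPairs

/-- Fix a prime p and a maximal ideal M of the algebraic integers containing p, a p-block B of the finite group G with maximal Brauer pair (P, e) and fusion system F on P, and a Brauer pair (Q, f) ≤ (P, e) with Q centric in F. Suppose every element of G normalizes Q and stabilizes f. Then the idempotent of B agrees with that of f modulo M at every element of G, and f is the idempotent of a nilpotent block of Q·C_G(Q): some p-block of Q·C_G(Q) has the idempotent coefficients of f and is nilpotent. -/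
theorem result {G : Type*} [Group G] [Fintype G] (p : ℕ) [Fact p.Prime] (M : Ideal Cfsg.AlgInt) (hM : Cfsg.IsPModular p M) (B : Set (Cfsg.IrrCharacter G)) (P : Subgroup G) (e : Set (Cfsg.IrrCharacter (Subgroup.centralizer (P : Set G)))) (hmax : Cfsg.IsMaximalBrauerPair p M B P e) (F : Cfsg.FusionSystem P) (hF : Cfsg.IsBlockFusionSystemOn p M B P e F) (Q : Subgroup G) (f : Set (Cfsg.IrrCharacter (Subgroup.centralizer (Q : Set G)))) (hQP : Q ≤ P) (hf : Cfsg.IsPBlock M f) (hle : Cfsg.SubpairLE p M Q f P e) (hcen : F.IsCentric Q) (hG : ∀ x : G, x ∈ Subgroup.normalizer (Q : Set G) ∧ Cfsg.StabilizesBlock (Subgroup.centralizer (Q : Set G)) f x) : (∀ g : G, Cfsg.MemLocalIdeal M (Cfsg.blockCoeff B g - Cfsg.subgroupBlockCoeff (Subgroup.centralizer (Q : Set G)) f g)) ∧ ∃ F' : Set (Cfsg.IrrCharacter ↥(Q ⊔ Subgroup.centralizer (Q : Set G))), Cfsg.IsPBlock M F' ∧ (∀ t : ↥(Q ⊔ Subgroup.centralizer (Q : Set G)), Cfsg.blockCoeff F' t = Cfsg.subgroupBlockCoeff (Subgroup.centralizer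 (Q : Set G)) f (t : G)) ∧ Cfsg.IsNilpotentBlock p M F' := by
  haveI : M.IsPrime := CfsgLib.Blocks.isPrime_of_isPModular hM
  haveI : CharP (CfsgLib.Blocks.Res M) p := CfsgLib.Blocks.charP_res hM
  obtain ⟨hB, he, hP⟩ := (isMaximalBrauerPair_iff hM).1 hmax
  have hb := isBlockIdem_redElem_blockCoeff (M := M) hB
  obtain ⟨-, hF'⟩ := (isBlockFusionSystemOn_iff hM).1 hF
  have hle' := pairLE_of_subpairLE hM hle
  have hpair := (hle'.pairOf_iff hb).2 hP.1
  have hstab : pairStab (⊤ : Subgroup G) Q (subIdem M _ f) = ⊤ :=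
    eq_top_iff.2 fun x _ => (mem_pairStab_top_iff hf).2 (hG x)
  have hbf : redElem M (blockCoeff B) = subIdem M _ f := by
    have h := hpair.eq_relTr hb (fun x _ => (hG x).1)
    rwa [hstab, relTr_of_fixed (k := CfsgLib.Blocks.Res M) ⊤ ⊤ (fun x _ => ((stabilizesBlock_iff hf).1 (hG x).2).2), Subgroup.relIndex_self,
      Nat.cast_one, one_smul] at h
  refine ⟨fun g => ?_, ?_⟩
  · have h := congrArg (fun y : MonoidAlgebra (CfsgLib.Blocks.Res M) G => y.coeff g) hbf
    simp only [coeff_redElem] at h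
    exact (redC_eq_redC_iff (CfsgLib.Blocks.memLocalRing_blockCoeff hB g)
      (memLocalRing_subgroupBlockCoeff hf g)).1 h
  · set H := Q ⊔ Subgroup.centralizer (Q : Set G) with hH
    have hHeq : Q ⊔ cenIn (⊤ : Subgroup G) Q = H := by rw [cenIn_top]
    obtain ⟨F', hF'b, hcoeff, heq⟩ := exists_block_stab (T := H) hf hpair.1.1 le_sup_left le_sup_right
      (by rw [hstab]; exact le_top)
    refine ⟨F', hF'b, hcoeff, (isNilpotentBlock_iff hM).2 ⟨hF'b, ?_⟩⟩
    rw [← isNilp_mapG_iff H.subtype_injective (L := (⊤ : Subgroup H)), map_top_subtype,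
      ← redElem_subgroupBlockCoeff]
    show IsNilp p H (subIdem M H F')
    rw [heq]
    have hfix : subIdem M _ f ∈ fixedBy (CfsgLib.Blocks.Res M) H := fun x _ =>
      ((stabilizesBlock_iff hf).1 (hG x).2).2
    have hblock : IsBlockIdem H (subIdem M _ f) := heq ▸ isBlockIdem_subIdem hF'b
    obtain ⟨D, hD⟩ := exists_isDefectIn (p := p) (le_refl H) Subgroup.le_normalizer hblock hfix
    obtain ⟨hQD, hDC⟩ := isDefectIn_cenIn_of_sup hpair.1 (hHeq.symm ▸ hD)
    have hZ := (hF'.isCentric_iff hb hP hle').1 hcen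
    obtain ⟨c, hc, hcD⟩ := hZ.exists_conj hDC
    rw [cenIn_top] at hc hcD
    have hDQ : D ⊓ Subgroup.centralizer (Q : Set G) ≤ Q := by
      rw [hcD]
      rintro _ ⟨z, hz, rfl⟩
      obtain ⟨hzQ, hzC⟩ := Subgroup.mem_inf.1 hz
      exact (Subgroup.mem_normalizer_iff.1 (hG c).1 z).1 hzQ
    have hQn : Subgroup.centralizer (Q : Set G) ≤ Subgroup.normalizer (Q : Set G) :=
      Subgroup.centralizer_le_normalizer _
    have hQC : ∀ x ∈ H, ∃ q ∈ Q, ∃ z ∈ Subgroup.centralizer (Q : Set G), x = q * z := by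
      intro x hx
      rw [← SetLike.mem_coe, hH,
        Subgroup.coe_mul_of_right_le_normalizer_left Q _ hQn] at hx
      obtain ⟨q, hq, z, hz, rfl⟩ := hx
      exact ⟨q, hq, z, hz, rfl⟩
    have hDle : D ≤ Q := by
      intro d hd
      obtain ⟨q, hq, z, hz, rfl⟩ := hQC d (hD.1 hd)
      have hzD : z ∈ D := by simpa using D.mul_mem (D.inv_mem (hQD hq)) hd
      exact Q.mul_mem hq (hDQ (Subgroup.mem_inf.2 ⟨hzD, hz⟩))
    intro R h hR x hx hreg
    have hRQ : R ≤ Q := by
      obtain ⟨t, ht, hle2⟩ := hD.exists_conj_le hR.1.1 hR.1.2.1 (fun h0 =>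
        hR.1.2.2.ne_zero (by rw [← hR.2, h0, zero_mul]))
      intro u hu
      exact (Subgroup.mem_normalizer_iff''.1 (hG t).1 u).2 (hDle (hle2 u hu))
    refine Subgroup.centralizer_le (SetLike.coe_subset_coe.2 hRQ) ?_
    obtain ⟨q, hq, z, hz, rfl⟩ := hQC x (mem_pairStab.1 hx).1
    obtain ⟨j, hj⟩ := IsPGroup.iff_orderOf.1 hpair.1.1 ⟨q, hq⟩
    rw [Subgroup.orderOf_mk] at hj
    have hcomm : Commute q z := Subgroup.mem_centralizer_iff.1 hz q hq
    refine mem_of_pow_mem (a := j) hM.1 hreg ?_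
    rw [hcomm.mul_pow, ← hj, pow_orderOf_eq_one, one_mul]
    exact pow_mem hz _

end Cfsg.Agent.S4693
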