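import Cfsg.Statements.S4694
import Cfsg.Agent.Lib.BrauerPairs.InducedBridge
import Cfsg.Agent.Lib.Blocks.CentralDefect
import Cfsg.Agent.Lib.Blocks.DefectZero
import Cfsg.Agent.Lib.RealChar.DegreeRatio
import Cfsg.Agent.Lib.CharTheory.Inflation
import Cfsg.Agent.Lib.Coherence.Constituent
import Cfsg.Agent.Lib.CyclicTI.IndNormal

set_option autoImplicit false
open Cfsg

namespace Cfsg.Agent.S4694

open CfsgLib CfsgLib.BrauerPairs CfsgLib.CharTheory

/-- Restricting further keeps a constituent. -/
theorem classInner_restrict_ne_zero {X Y : Type*} [Group X] [Group Y] [Fintype X] [Fintype Y]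
    (f : Y →* X) {χ ϑ : X → ℂ} (hχ : IsCharacter X χ) (hϑ : IsIrrCharacter X ϑ)
    (h : classInner χ ϑ ≠ 0) (hY : IsIrrCharacter Y (fun y => ϑ (f y))) :
    classInner (fun y => χ (f y)) (fun y => ϑ (f y)) ≠ 0 := by
  classical
  haveI := Fintype.ofFinite (IrrCharacter X)
  obtain ⟨m, hm⟩ := IsCharacter.exists_sum hχ
  have hm0 : m ⟨ϑ, hϑ⟩ ≠ 0 := by
    intro h0
    apply h
    rw [hm, classInner_sum_irr (fun φ => (m φ : ℂ)) ⟨ϑ, hϑ⟩, h0, Nat.cast_zero]
  have hterm : ∀ φ : IrrCharacter X, ∃ k : ℕ,
      classInner (fun y => (φ : X → ℂ) (f y)) (fun y => ϑ (f y)) = k := fun φ =>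
    IsCharacter.exists_classInner_eq_nat
      (Coherence.isCharacter_comp (IsIrrCharacter.isCharacter φ.2) f) ⟨_, hY⟩
  choose k hk using hterm
  have hk1 : k ⟨ϑ, hϑ⟩ = 1 := by
    have := hk ⟨ϑ, hϑ⟩
    rw [classInner_self_of_isIrr hY] at this
    exact_mod_cast this.symm
  have hval : classInner (fun y => χ (f y)) (fun y => ϑ (f y)) = ((∑ φ, m φ * k φ : ℕ) : ℂ) := by
    have : (fun y => χ (f y)) = ∑ φ : IrrCharacter X, (m φ : ℂ) • fun y => (φ : X → ℂ) (f y) := by
      funext y
      conv_lhs => rw [hm]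
      simp [Finset.sum_apply]
    rw [this, classInner_sum_left]
    simp [classInner_smul_left, hk]
  rw [hval, Nat.cast_ne_zero]
  intro h0
  have := Finset.sum_eq_zero_iff.1 h0 ⟨ϑ, hϑ⟩ (Finset.mem_univ _)
  rw [hk1, mul_one] at this
  exact hm0 this


/-- Fix a prime p and a maximal ideal M of the algebraic integers containing p, a p-block B of the finite group G and a Brauer pair (Q, e) of B. Let T be the stabilizer of e in N_G(Q) and suppose that (Q, e) carries a weight: the block of T whose idempotent is that of e contains an irreducible character χ that is constant on the cosets of Q and whose degree has p-part equal to the p-part of the index of Q in T. Then Z(Q) is a defect group of e as a block of C_G(Q), and Q is the largest normal p-subgroup of T: every p-subgroup of T normalized by T lies in Q. -/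
theorem result {G : Type*} [Group G] [Fintype G] (p : ℕ) [Fact p.Prime] (M : Ideal Cfsg.AlgInt) (hM : Cfsg.IsPModular p M) (B : Set (Cfsg.IrrCharacter G)) (Q : Subgroup G) (e : Set (Cfsg.IrrCharacter (Subgroup.centralizer (Q : Set G)))) (hQe : Cfsg.IsBrauerPairOf p M B Q e) (T : Subgroup G) (hT : ∀ y : G, y ∈ T ↔ y ∈ Subgroup.normalizer (Q : Set G) ∧ Cfsg.StabilizesBlock (Subgroup.centralizer (Q : Set G)) e y) (F' : Set (Cfsg.IrrCharacter T)) (hF' : Cfsg.IsPBlock M F') (hF'e : ∀ t : T, Cfsg.blockCoeff F' t = Cfsg.subgroupBlockCoeff (Subgroup.centralizer (Q : Set G)) e (t : G)) (χ : Cfsg.IrrCharacter T) (hχ : χ ∈ F') (hχQ : ∀ q : G, q ∈ Q → ∀ t : T, ∀ t' : T, (t' : G) = q * (t : G) → (χ : T → ℂ) t' = (χ : T → ℂ) t) (hdeg : (Cfsg.charDegree (χ : T → ℂ)).factorization p + (Nat.card Q).factorization p = (Nat.card T).factorization p) : Cfsg.IsDefectGroup p M e ((Q ⊓ Subgroup.centralizer (Q : Set G)).subgroupOf (Subgroup.centralizer (Q : Set G))) ∧ ∀ R : Subgroup G, R ≤ T → IsPGroup p R → (∀ t ∈ T, t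 ∈ Subgroup.normalizer (R : Set G)) → R ≤ Q := by
  classical
  haveI : M.IsPrime := CfsgLib.Blocks.isPrime_of_isPModular hM
  haveI : M.IsMaximal := hM.2.1
  haveI : CharP (CfsgLib.Blocks.Res M) p := CfsgLib.Blocks.charP_res hM
  obtain ⟨⟨hQp, heb⟩, -, -⟩ := hQe
  haveI := Fintype.ofFinite T
  haveI := Fintype.ofFinite (Subgroup.centralizer (Q : Set G))
  have hTN : T ≤ Subgroup.normalizer (Q : Set G) := fun t ht => ((hT t).1 ht).1
  have hTC : T ≤ Subgroup.normalizer (Subgroup.centralizer (Q : Set G) : Set G) :=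
    hTN.trans (normalizer_le_normalizer_cen Q)
  have hstabC : ∀ c ∈ Subgroup.centralizer (Q : Set G),
      StabilizesBlock (Subgroup.centralizer (Q : Set G)) e c := fun c hc =>
    ⟨Subgroup.le_normalizer hc, fun ξ hξ => ⟨ξ, hξ, fun h h' hh => by
      have := CharTheory.IsIrrCharacter.isClassFunction ξ.2 h ⟨c, hc⟩
      rw [← this]
      exact congrArg ξ.1 (Subtype.ext hh)⟩⟩
  have hCT : Subgroup.centralizer (Q : Set G) ≤ T := fun c hc =>
    (hT c).2 ⟨Subgroup.centralizer_le_normalizer _ hc, hstabC c hc⟩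
  have hQT : Q ≤ T := fun q hq => (hT q).2 ⟨Subgroup.le_normalizer hq, by
    refine ⟨normalizer_le_normalizer_cen Q (Subgroup.le_normalizer hq), fun ξ hξ => ⟨ξ, hξ, fun h h' hh => ?_⟩⟩
    refine congrArg ξ.1 (Subtype.ext ?_)
    have hc := Subgroup.mem_centralizer_iff.1 h.2 q hq
    first
      | (rw [hh, hc, mul_inv_cancel_right])
      | (rw [hh]; calc q⁻¹ * (h : G) * q = q⁻¹ * ((h : G) * q) := mul_assoc _ _ _
          _ = (h : G) := by rw [← hc, inv_mul_cancel_left])⟩
  -- `Q` is in the kernel of `χ`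
  set Qt := Q.subgroupOf T with hQt
  haveI hQtn : Qt.Normal := Subgroup.normal_subgroupOf_of_le_normalizer hTN
  have hker : ∀ q ∈ Qt, (χ : T → ℂ) q = (χ : T → ℂ) 1 := fun q hq =>
    hχQ (q : G) hq 1 q (by simp)
  have hQtp : IsPGroup p Qt := hQp.of_equiv (Subgroup.subgroupOfEquivOfLe hQT).symm
  have hQtcard : Nat.card Qt = Nat.card Q :=
    Nat.card_congr (Subgroup.subgroupOfEquivOfLe hQT).toEquiv
  obtain ⟨ψ, hψ, hψeq⟩ := CharTheory.exists_descend χ.2 Qt hker
  have hfull : ¬ p ∣ Nat.card (T ⧸ Qt) / charDegree ((⟨ψ, hψ⟩ : IrrCharacter (T ⧸ Qt)) : T ⧸ Qt → ℂ) := by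
    refine (Blocks.not_dvd_card_div_charDegree_iff (p := p) ⟨ψ, hψ⟩).2 ?_
    have h1 : charDegree ψ = charDegree (χ : T → ℂ) := by
      simp only [charDegree]; rw [hψeq 1]; rfl
    have h2 : (Nat.card T).factorization p
        = (Nat.card (T ⧸ Qt)).factorization p + (Nat.card Qt).factorization p := by
      rw [Subgroup.card_eq_card_quotient_mul_card_subgroup Qt,
        Nat.factorization_mul Nat.card_pos.ne' Nat.card_pos.ne', Finsupp.add_apply]
    show (charDegree ψ).factorization p = _
    rw [h1]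
    rw [hQtcard] at h2
    omega
  constructor
  · -- a constituent on `Q C(Q)`
    set X : Subgroup T := Qt ⊔ (Subgroup.centralizer (Q : Set G)).subgroupOf T with hX
    haveI : ((Subgroup.centralizer (Q : Set G)).subgroupOf T).Normal :=
      Subgroup.normal_subgroupOf_of_le_normalizer hTC
    haveI hXn : X.Normal := by rw [hX]; infer_instance
    haveI := Fintype.ofFinite X
    have hXc : IsCharacter X (fun x : X => (χ : T → ℂ) x) :=
      Coherence.isCharacter_comp (IsIrrCharacter.isCharacter χ.2) X.subtype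
    obtain ⟨ϑ, hϑi, hϑc⟩ := Coherence.exists_constituent hXc
      (by simpa using apply_one_ne_zero_of_isIrr χ.2)
    have hϑker : ∀ x : X, (x : T) ∈ Qt → ϑ x = ϑ 1 := fun x hx =>
      Coherence.constituent_apply_eq hXc hϑi hϑc (by simpa using hker _ hx)
    obtain ⟨r, hr, hrdeg⟩ := RealChar.degree_div_dvd_index X χ.2 hϑi hϑc
    -- restrict to `C(Q)`
    let f : Subgroup.centralizer (Q : Set G) →* X :=
      { toFun := fun c => ⟨⟨c, hCT c.2⟩, Subgroup.mem_sup_right (Subgroup.mem_subgroupOf.2 c.2)⟩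
        map_one' := rfl
        map_mul' := fun _ _ => rfl }
    set Qx : Subgroup X := Qt.subgroupOf X with hQx
    obtain ⟨η, hη, hηeq⟩ := CharTheory.exists_descend hϑi Qx fun x hx => hϑker x hx
    have hsurj : Function.Surjective ((QuotientGroup.mk' Qx).comp f) := by
      intro a
      obtain ⟨x, rfl⟩ := QuotientGroup.mk'_surjective Qx a
      have hx : (x : T) ∈ ((Qt ⊔ (Subgroup.centralizer (Q : Set G)).subgroupOf T : Subgroup T) : Set T) :=
        x.2
      rw [Subgroup.normal_mul] at hx
      obtain ⟨q, hq, c, hc, hqc⟩ := hx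
      refine ⟨⟨(c : G), hc⟩, ?_⟩
      simp only [MonoidHom.comp_apply, QuotientGroup.mk'_apply, QuotientGroup.eq]
      show (((f ⟨(c : G), hc⟩)⁻¹ * x : X) : T) ∈ Qt
      have : ((f ⟨(c : G), hc⟩ : X) : T) = c := rfl
      rw [Subgroup.coe_mul, Subgroup.coe_inv, this, ← hqc]
      have := hQtn.conj_mem q hq c⁻¹
      simpa [mul_assoc] using this
    have hθi : IsIrrCharacter (Subgroup.centralizer (Q : Set G)) (fun c => ϑ (f c)) := by
      have h1 := CharTheory.isIrrCharacter_comp hη hsurj
      have h2 : (fun c => ϑ (f c)) = fun c => η (((QuotientGroup.mk' Qx).comp f) c) :=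
        funext fun c => hηeq (f c)
      rw [h2]; exact h1
    set θ : IrrCharacter (Subgroup.centralizer (Q : Set G)) := ⟨_, hθi⟩ with hθdef
    have hθc : classInner (fun c : Subgroup.centralizer (Q : Set G) =>
        (χ : T → ℂ) (Subgroup.inclusion hCT c)) (θ : Subgroup.centralizer (Q : Set G) → ℂ) ≠ 0 :=
      classInner_restrict_ne_zero f hXc hϑi hϑc hθi
    have hθe : θ ∈ e := by
      have hcov := (covers_sub_iff (M := M) hCT hTC hF'
        (Blocks.isPBlock_blockOf θ)).1 ⟨χ, hχ, θ, Blocks.sameBlock_refl _, hθc⟩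
      have heq : subIdem M T F' = subIdem M (Subgroup.centralizer (Q : Set G)) e := by
        ext g
        rw [coeff_redElem, coeff_redElem]
        congr 1
        by_cases hg : g ∈ T
        · rw [subgroupBlockCoeff, dif_pos hg]; exact hF'e ⟨g, hg⟩
        · rw [subgroupBlockCoeff, dif_neg hg, subgroupBlockCoeff, dif_neg fun h => hg (hCT h)]
      rw [heq] at hcov
      have := subIdem_injective heb (Blocks.isPBlock_blockOf θ)
        ((isBlockIdem_subIdem heb).eq_of_mul_ne_zero
          (isBlockIdem_subIdem (Blocks.isPBlock_blockOf θ)) hcov)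
      rw [this]
      exact Blocks.sameBlock_refl _
    have hZc : Q.subgroupOf (Subgroup.centralizer (Q : Set G))
        ≤ Subgroup.center (Subgroup.centralizer (Q : Set G)) := fun z hz =>
      Subgroup.mem_center_iff.2 fun c =>
        Subtype.ext (Subgroup.mem_centralizer_iff.1 c.2 z hz).symm
    have hZp : IsPGroup p (Q.subgroupOf (Subgroup.centralizer (Q : Set G))) :=
      IsPGroup.comap_of_injective hQp _ (Subgroup.subtype_injective _)
    rw [Subgroup.inf_subgroupOf_right]
    refine Blocks.isDefectGroup_of_centralDefect hM heb hZc hZp hθe (fun z hz => ?_) ?_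
    · exact hϑker (f z) (by exact hz)
    · obtain ⟨a, ha0, -, ha⟩ := CharTheory.IsIrrCharacter.exists_degree_dvd hθi
      obtain ⟨a', ha0', hadvd, ha'⟩ := CharTheory.IsIrrCharacter.exists_degree_dvd hη
      have haa : a = a' := by
        have hθ1 : ϑ (f 1) = (a : ℂ) := ha
        have h1 : ϑ (f 1) = η 1 := by rw [map_one, hηeq 1]; rfl
        rw [hθ1, ha'] at h1; exact_mod_cast h1
      subst haa
      have hϑ1 : ϑ 1 = (a : ℂ) := by rw [hηeq 1]; exact ha'
      have hχdeg : charDegree (χ : T → ℂ) = r * a := by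
        rw [charDegree, hrdeg, hϑ1, ← Nat.cast_mul, Complex.natCast_re, Nat.floor_natCast]
      have hr0 : r ≠ 0 := by
        rintro rfl
        exact apply_one_ne_zero_of_isIrr χ.2 (by simpa using hrdeg)
      have hθdeg : charDegree (θ : Subgroup.centralizer (Q : Set G) → ℂ) = a := by
        have hθ1 : (θ : Subgroup.centralizer (Q : Set G) → ℂ) 1 = (a : ℂ) := ha
        rw [charDegree, hθ1, Complex.natCast_re, Nat.floor_natCast]
      have h1 : (charDegree (χ : T → ℂ)).factorization p = r.factorization p + a.factorization p := by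
        rw [hχdeg, Nat.factorization_mul hr0 ha0.ne']; rfl
      have hXidx : X.index * Nat.card X = Nat.card T := by
        rw [mul_comm]; exact Subgroup.card_mul_index X
      have h2 : r.factorization p ≤ X.index.factorization p :=
        (Nat.factorization_le_iff_dvd hr0 Subgroup.index_ne_zero_of_finite).2 hr p
      have hqx : Nat.card (X ⧸ Qx) * Nat.card Qt = Nat.card X := by
        rw [← Nat.card_congr (Subgroup.subgroupOfEquivOfLe (le_sup_left : Qt ≤ X)).toEquiv]
        exact (Subgroup.card_eq_card_quotient_mul_card_subgroup Qx).symm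
      have hkerf : ((QuotientGroup.mk' Qx).comp f).ker
          = Q.subgroupOf (Subgroup.centralizer (Q : Set G)) := by
        ext c
        rw [MonoidHom.mem_ker, MonoidHom.comp_apply, QuotientGroup.mk'_apply, QuotientGroup.eq_one_iff]
        rfl
      have hcz : Nat.card (Subgroup.centralizer (Q : Set G))
          = Nat.card (X ⧸ Qx) * Nat.card (Q.subgroupOf (Subgroup.centralizer (Q : Set G))) := by
        rw [← hkerf, Subgroup.card_eq_card_quotient_mul_card_subgroup ((QuotientGroup.mk' Qx).comp f).ker,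
          Nat.card_congr (QuotientGroup.quotientKerEquivOfSurjective _ hsurj).toEquiv]
      have h3 : a.factorization p ≤ (Nat.card (X ⧸ Qx)).factorization p :=
        (Nat.factorization_le_iff_dvd ha0.ne' Nat.card_pos.ne').2 hadvd p
      have h4 : (Nat.card T).factorization p = X.index.factorization p
          + ((Nat.card (X ⧸ Qx)).factorization p + (Nat.card Q).factorization p) := by
        rw [← hQtcard, ← hXidx, ← hqx, Nat.factorization_mul Subgroup.index_ne_zero_of_finite
          (mul_ne_zero Nat.card_pos.ne' Nat.card_pos.ne'),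
          Nat.factorization_mul Nat.card_pos.ne' Nat.card_pos.ne']
        simp only [Finsupp.add_apply]
      rw [hθdeg, hcz, Nat.factorization_mul Nat.card_pos.ne' Nat.card_pos.ne', Finsupp.add_apply]
      omega
  · intro R hRT hRp hRn
    set Rb : Subgroup (T ⧸ Qt) := (R.subgroupOf T).map (QuotientGroup.mk' Qt) with hRb
    haveI : (R.subgroupOf T).Normal := Subgroup.normal_subgroupOf_of_le_normalizer hRn
    haveI : Rb.Normal := Subgroup.Normal.map inferInstance _ (QuotientGroup.mk'_surjective Qt)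
    haveI := Fintype.ofFinite Rb
    have hRbp : IsPGroup p Rb := (hRp.comap_of_injective _ T.subtype_injective).map _
    have hbot : Rb = ⊥ := by
      by_contra hne
      obtain ⟨a, ha, ha1⟩ := Rb.bot_or_exists_ne_one.resolve_left hne
      have hvan : ∀ b ∈ Rb, b ≠ 1 → ψ b = 0 := fun b hb hb1 => by
        refine Blocks.irr_eq_zero_of_full (⟨ψ, hψ⟩ : IrrCharacter (T ⧸ Qt)) hfull ?_
        obtain ⟨j, hj⟩ := IsPGroup.iff_orderOf.1 hRbp ⟨b, hb⟩
        rw [Subgroup.orderOf_mk] at hj
        rcases Nat.eq_zero_or_pos j with rfl | hj0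
        · exact absurd (orderOf_eq_one_iff.1 (by simpa using hj)) hb1
        · rw [hj]; exact dvd_pow_self p hj0.ne'
      haveI := Fintype.ofFinite (T ⧸ Qt)
      have hsum : ∑ b : Rb, ψ b = ψ 1 := by
        rw [Finset.sum_eq_single (1 : Rb)]
        · rfl
        · exact fun b _ hb => hvan b b.2 fun h => hb (Subtype.ext h)
        · simp
      by_cases hk : ∀ b ∈ Rb, ψ b = ψ 1
      · have := hk a ha
        rw [hvan a ha ha1] at this
        exact apply_one_ne_zero_of_isIrr hψ this.symm
      · rw [CyclicTI.sum_normal_eq_zero Rb hψ hk] at hsum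
        exact apply_one_ne_zero_of_isIrr hψ hsum.symm
    intro x hx
    have h1 : QuotientGroup.mk' Qt ⟨x, hRT hx⟩ ∈ Rb := ⟨⟨x, hRT hx⟩, hx, rfl⟩
    rw [hbot, Subgroup.mem_bot, QuotientGroup.mk'_apply, QuotientGroup.eq_one_iff] at h1
    exact h1

end Cfsg.Agent.S4694
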