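import Cfsg.Statements.S4697
import Cfsg.Agent.Lib.BrauerPairs.RankTwoBound

set_option autoImplicit false
open Cfsg

namespace Cfsg.Agent.S4697

theorem mem_span_three {A : Type*} [CommGroup A] {x y z : A}
    (h : Subgroup.closure ({x, y, z} : Set A) = ⊤) (u : A) :
    ∃ i j k : ℤ, u = x ^ i * y ^ j * z ^ k := by
  have hu : u ∈ Subgroup.closure ({x, y, z} : Set A) := h ▸ Subgroup.mem_top u
  rw [Set.insert_eq, Subgroup.closure_union, Subgroup.mem_sup] at hu
  obtain ⟨a, ha, b, hb, rfl⟩ := hu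
  obtain ⟨i, rfl⟩ := Subgroup.mem_closure_singleton.1 ha
  obtain ⟨j, k, rfl⟩ := Subgroup.mem_closure_pair.1 hb
  exact ⟨i, j, k, by rw [mul_assoc]⟩

theorem card_le_orderOf_three {A : Type*} [CommGroup A] [Finite A] {x y z : A}
    (h : Subgroup.closure ({x, y, z} : Set A) = ⊤) :
    Nat.card A ≤ orderOf x * (orderOf y * orderOf z) := by
  rw [← Nat.card_zpowers x, ← Nat.card_zpowers y, ← Nat.card_zpowers z, ← Nat.card_prod,
    ← Nat.card_prod]
  refine Nat.card_le_card_of_surjective
    (fun q : Subgroup.zpowers x × Subgroup.zpowers y × Subgroup.zpowers z =>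
      (q.1 : A) * q.2.1 * q.2.2) fun u => ?_
  obtain ⟨i, j, k, rfl⟩ := mem_span_three h u
  exact ⟨(⟨x ^ i, i, rfl⟩, ⟨y ^ j, j, rfl⟩, ⟨z ^ k, k, rfl⟩), rfl⟩

/-- Let p be a prime, M a maximal ideal of the algebraic integers containing p, and B a p-block of the finite group G with an abelian defect group D of order p^d. If D has rank 2 (its least number of generators is 2) then B contains at most p^d irreducible characters; if D has rank 3 then the number k of irreducible characters in B satisfies k^3 ≤ p^(5d). -/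
theorem result {G : Type*} [Group G] [Finite G] (p : ℕ) [Fact p.Prime] (M : Ideal Cfsg.AlgInt) (hM : Cfsg.IsPModular p M) (B : Set (Cfsg.IrrCharacter G)) (hB : Cfsg.IsPBlock M B) (D : Subgroup G) (hBD : Cfsg.IsDefectGroup p M B D) (hab : IsMulCommutative D) (d : ℕ) (hDd : Nat.card D = p ^ d) : (Group.rank D = 2 → Nat.card B ≤ p ^ d) ∧ (Group.rank D = 3 → Nat.card B ^ 3 ≤ p ^ (5 * d)) := by
  haveI : M.IsPrime := CfsgLib.Blocks.isPrime_of_isPModular hM
  haveI := Fintype.ofFinite G
  haveI := hab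
  letI : CommGroup D := { (inferInstance : Group D) with
    mul_comm := fun a b => hab.is_comm.comm a b }
  have hc : ∀ u ∈ D, ∀ w ∈ D, u * w = w * u := fun u hu w hw =>
    congrArg Subtype.val (hab.is_comm.comm (⟨u, hu⟩ : D) ⟨w, hw⟩)
  refine ⟨fun h2 => ?_, fun h3 => ?_⟩
  · obtain ⟨S, hS, hcl⟩ := Group.rank_spec D
    rw [h2] at hS
    classical
    obtain ⟨x, y, -, rfl⟩ := Finset.card_eq_two.1 hS
    rw [Finset.coe_pair] at hcl
    rw [← hDd]
    refine CfsgLib.BrauerPairs.card_le_of_two_gen hM hB hBD hc x.2 y.2 fun u hu => ?_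
    obtain ⟨i, j, hij⟩ := Subgroup.mem_closure_pair.1
      (hcl ▸ Subgroup.mem_top (⟨u, hu⟩ : D) : (⟨u, hu⟩ : D) ∈ Subgroup.closure ({x, y} : Set D))
    exact ⟨i, j, by simpa using (congrArg Subtype.val hij).symm⟩
  · obtain ⟨S, hS, hcl⟩ := Group.rank_spec D
    rw [h3] at hS
    classical
    obtain ⟨x, y, z, -, -, -, rfl⟩ := Finset.card_eq_three.1 hS
    simp only [Finset.coe_insert, Finset.coe_singleton] at hcl
    have key : ∀ x y z : D, Subgroup.closure ({x, y, z} : Set D) = ⊤ →
        orderOf y ≤ orderOf x → orderOf z ≤ orderOf x → Nat.card B ^ 3 ≤ p ^ (5 * d) := by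
      intro x y z hcl hyx hzx
      obtain ⟨a, ha⟩ := IsPGroup.iff_orderOf.1 (IsPGroup.of_card hDd) x
      have hk := CfsgLib.BrauerPairs.card_mul_le_of_three_gen hM hB hBD hc x.2 y.2 z.2
        (fun u hu => by
          obtain ⟨i, j, k, hijk⟩ := mem_span_three hcl (⟨u, hu⟩ : D)
          exact ⟨i, j, k, by simpa using congrArg Subtype.val hijk⟩)
        (a := a) (by rw [Subgroup.orderOf_coe]; exact ha)
      rw [hDd, ← pow_mul] at hk
      have hle : p ^ d ≤ p ^ (3 * a) := by
        have h := (card_le_orderOf_three hcl).trans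
          (Nat.mul_le_mul_left _ (Nat.mul_le_mul hyx hzx))
        rw [hDd, ha, ← pow_add, ← pow_add] at h
        exact h.trans_eq (by congr 1; omega)
      have hp0 : 0 < p := (Fact.out : p.Prime).pos
      refine Nat.le_of_mul_le_mul_right ?_ (pow_pos hp0 d)
      calc Nat.card B ^ 3 * p ^ d ≤ Nat.card B ^ 3 * p ^ (3 * a) := Nat.mul_le_mul_left _ hle
        _ = (Nat.card B * p ^ a) ^ 3 := by rw [mul_pow, ← pow_mul, mul_comm a 3]
        _ ≤ (p ^ (d * 2)) ^ 3 := Nat.pow_le_pow_left hk 3
        _ = p ^ (5 * d) * p ^ d := by rw [← pow_mul, ← pow_add]; congr 1; omega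
    rcases le_total (orderOf y) (orderOf x) with h1 | h1
    · rcases le_total (orderOf z) (orderOf x) with h4 | h4
      · exact key x y z hcl h1 h4
      · refine key z x y ?_ h4 (h1.trans h4)
        rw [← hcl]; congr 1; ext; simp; tauto
    · rcases le_total (orderOf z) (orderOf y) with h4 | h4
      · refine key y x z ?_ h1 h4
        rw [← hcl]; congr 1; ext; simp; tauto
      · refine key z x y ?_ (h1.trans h4) h4
        rw [← hcl]; congr 1; ext; simp; tauto

end Cfsg.Agent.S4697
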