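import Cfsg.Statements.S4699
import Mathlib
-- import your own Cfsg.Agent.* helpers here

set_option autoImplicit false
set_option linter.style.haveILetI false
set_option linter.unusedSectionVars false
open Cfsg

namespace Cfsg.Agent.S4699

open Module MonoidAlgebra
open scoped Pointwise

section linear

variable {F : Type*} [Field F] {V : Type*} [AddCommGroup V] [Module F V]

/-- The geometric series of length `p ^ n` in characteristic `p`. -/
theorem geom_sum_char (p n : ℕ) [Fact p.Prime] [CharP F p] :
    (∑ j ∈ Finset.range (p ^ n), (Polynomial.X : Polynomial F) ^ j) =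
      (Polynomial.X - 1) ^ (p ^ n - 1) := by
  have hne : (Polynomial.X - 1 : Polynomial F) ≠ 0 := by
    rw [← Polynomial.C_1]
    exact Polynomial.X_sub_C_ne_zero 1
  refine mul_right_cancel₀ hne ?_
  rw [geom_sum_mul, ← pow_succ, Nat.sub_add_cancel (Nat.one_le_pow _ _ (Fact.out : p.Prime).pos),
    sub_pow_char_pow, one_pow]

/-- Iterated commutators with `T` vanish where all the two-sided products vanish. -/
theorem pow_leftSubRight_apply (T : Module.End F V) (v : V) : ∀ (m : ℕ) (φ : Module.End F V),
    (∀ a b : ℕ, a + b = m → (T ^ a * φ * T ^ b) v = 0) →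
      (((LinearMap.mulLeft F T - LinearMap.mulRight F T : Module.End F (Module.End F V)) ^ m) φ) v = 0 := by
  intro m
  induction m with
  | zero => intro φ h; simpa using h 0 0 rfl
  | succ m ih =>
    intro φ h
    rw [pow_succ, Module.End.mul_apply, LinearMap.sub_apply, LinearMap.mulLeft_apply,
      LinearMap.mulRight_apply, map_sub, LinearMap.sub_apply]
    rw [ih (T * φ) (fun a b hab => by
        have := h (a + 1) b (by omega)
        rwa [pow_succ, mul_assoc (T ^ a) T φ] at this),
      ih (φ * T) (fun a b hab => by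
        have := h a (b + 1) (by omega)
        rwa [pow_succ', ← mul_assoc (T ^ a * φ), mul_assoc (T ^ a) φ T] at this), sub_zero]

/-- A relative trace over a cyclic `p`-group kills the kernel of a high power of `x - 1`. -/
theorem trace_apply_eq_zero (p n : ℕ) [Fact p.Prime] [CharP F p] (T : Module.End F V)
    (x : (Module.End F V)ˣ) (hx : (x : Module.End F V) = 1 + T) {d s : ℕ} (hd : T ^ d = 0)
    (hq : d + s ≤ p ^ n) (φ : Module.End F V) (v : V) (hv : (T ^ s) v = 0) :
    (∑ j ∈ Finset.range (p ^ n),
      ((x ^ j : (Module.End F V)ˣ) : Module.End F V) * φ *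
        (((x ^ j)⁻¹ : (Module.End F V)ˣ) : Module.End F V)) v = 0 := by
  set C : Module.End F (Module.End F V) :=
    LinearMap.mulLeft F (x : Module.End F V) * LinearMap.mulRight F ((x⁻¹ : (Module.End F V)ˣ) : Module.End F V)
    with hC
  have hterm : ∀ j : ℕ, (C ^ j) φ = ((x ^ j : (Module.End F V)ˣ) : Module.End F V) * φ *
      (((x ^ j)⁻¹ : (Module.End F V)ˣ) : Module.End F V) := by
    intro j
    rw [hC, Commute.mul_pow (LinearMap.commute_mulLeft_right _ _), LinearMap.pow_mulLeft,
      LinearMap.pow_mulRight, Module.End.mul_apply, LinearMap.mulLeft_apply,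
      LinearMap.mulRight_apply, ← Units.val_pow_eq_pow_val, ← Units.val_pow_eq_pow_val, inv_pow,
      mul_assoc]
  have hsum : (∑ j ∈ Finset.range (p ^ n), C ^ j) = (C - 1) ^ (p ^ n - 1) := by
    have := congrArg (Polynomial.aeval C) (geom_sum_char (F := F) p n)
    simpa using this
  have hTx : Commute T ((x⁻¹ : (Module.End F V)ˣ) : Module.End F V) := by
    refine (Commute.units_inv_right ?_)
    rw [hx]
    exact (Commute.one_right T).add_right (Commute.refl T)
  have hC1 : C - 1 = (LinearMap.mulLeft F T - LinearMap.mulRight F T) *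
      LinearMap.mulRight F ((x⁻¹ : (Module.End F V)ˣ) : Module.End F V) := by
    refine LinearMap.ext fun ψ => ?_
    simp only [hC, LinearMap.sub_apply, Module.End.mul_apply, Module.End.one_apply,
      LinearMap.mulLeft_apply, LinearMap.mulRight_apply]
    have h1 : ψ * ((x⁻¹ : (Module.End F V)ˣ) : Module.End F V) * (1 + T) = ψ := by
      rw [← hx, Units.inv_mul_cancel_right]
    conv_lhs => arg 2; rw [← h1]
    rw [hx, add_mul, one_mul, mul_add, mul_one]
    abel
  have hcomm : Commute (LinearMap.mulLeft F T - LinearMap.mulRight F T : Module.End F (Module.End F V))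
      (LinearMap.mulRight F ((x⁻¹ : (Module.End F V)ˣ) : Module.End F V)) := by
    refine (LinearMap.commute_mulLeft_right _ _).sub_left ?_
    refine LinearMap.ext fun ψ => ?_
    simp only [Module.End.mul_apply, LinearMap.mulRight_apply]
    rw [mul_assoc, mul_assoc, hTx.eq]
  rw [Finset.sum_congr rfl (fun j _ => (hterm j).symm), ← LinearMap.sum_apply, hsum, hC1,
    hcomm.mul_pow, Module.End.mul_apply]
  refine pow_leftSubRight_apply T v _ _ fun a b hab => ?_
  rcases Nat.lt_or_ge a d with ha | ha
  · rw [Module.End.mul_apply]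
    obtain ⟨c, rfl⟩ := Nat.exists_eq_add_of_le (show s ≤ b by omega)
    simp only [Nat.add_comm s c, pow_add, Module.End.mul_apply, hv, map_zero]
  · rw [pow_eq_zero_of_le ha hd, zero_mul, zero_mul, LinearMap.zero_apply]

end linear

section main

universe u v w

variable {G : Type u} [Group G] [Finite G] {F : Type v} [Field F] {V : Type w} [AddCommGroup V]
  [Module F V]

/-- A nilpotent endomorphism power: if `T ^ e` kills the kernel of `T ^ s` with `e < s`, then
`T ^ s = 0`. -/
theorem pow_eq_zero_of_ker {T : Module.End F V} {e s d : ℕ} (hd : T ^ d = 0) (hes : e < s)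
    (h : ∀ v, (T ^ s) v = 0 → (T ^ e) v = 0) : T ^ s = 0 := by
  have : ∀ k, T ^ (s + k) = 0 → T ^ s = 0 := by
    intro k
    induction k using Nat.strong_induction_on with
    | _ k ih =>
      intro hk
      rcases Nat.eq_zero_or_pos k with rfl | hk0
      · exact hk
      have h2 : T ^ (e + k) = 0 := LinearMap.ext fun w => by
        rw [pow_add, Module.End.mul_apply, LinearMap.zero_apply]
        refine h _ ?_
        rw [← Module.End.mul_apply, ← pow_add, hk, LinearMap.zero_apply]
      rcases Nat.lt_or_ge s (e + k) with hlt | hge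
      · exact ih (e + k - s) (by omega) (by rw [Nat.add_sub_cancel' hlt.le]; exact h2)
      · exact pow_eq_zero_of_le hge h2
  exact this d (pow_eq_zero_of_le (Nat.le_add_left d s) hd)

theorem main (p : ℕ) [Fact p.Prime] (P : Sylow p G) (hcyc : IsCyclic P) (n : ℕ) (hn : 2 ≤ n)
    (hPn : Nat.card P = p ^ n)
    (hTI : ∀ Q : Sylow p G, Q ≠ P → (P : Subgroup G) ⊓ (Q : Subgroup G) = ⊥) [CharP F p]
    [FiniteDimensional F V] (ρ : Representation F G V) (hfaith : Function.Injective ρ)
    (hirr : ρ.IsIrreducible) : p ^ n - (p - 1) ≤ Module.finrank F V := by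
  classical
  haveI := Fintype.ofFinite G
  have hp : p.Prime := Fact.out
  by_contra hlt
  set d := Module.finrank F V with hddef
  have hds : d + p ≤ p ^ n := by
    have := hp.two_le
    omega
  -- a generator
  set C := Multiplicative (ZMod (p ^ n)) with hCdef
  haveI : NeZero (p ^ n) := ⟨(pow_pos hp.pos n).ne'⟩
  let e₀ : C ≃* (P : Subgroup G) := ((AddEquiv.toMultiplicative (ZMod.ringEquivCongr hPn).symm.toAddEquiv).trans (zmodCyclicMulEquiv hcyc))
  let x₀ : C := Multiplicative.ofAdd 1
  have hgen : ∀ c : C, c = x₀ ^ (Multiplicative.toAdd c).val := by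
    intro c
    apply Multiplicative.toAdd.injective
    rw [toAdd_pow, toAdd_ofAdd, nsmul_eq_mul, mul_one, ZMod.natCast_zmod_val]
  have hx₀ord : orderOf x₀ = p ^ n := by
    rw [orderOf_ofAdd_eq_addOrderOf, ZMod.addOrderOf_one]
  let π : C →* G := (P : Subgroup G).subtype.comp e₀.toMonoidHom
  have hπinj : Function.Injective π := Subtype.val_injective.comp e₀.injective
  let Φ : MonoidAlgebra F C →ₐ[F] Module.End F V := MonoidAlgebra.lift F _ C ((ρ : G →* Module.End F V).comp π)
  have hΦof : ∀ c : C, Φ (MonoidAlgebra.of F C c) = ρ (π c) := fun c => MonoidAlgebra.lift_of _ _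
  let a₀ : MonoidAlgebra F C := MonoidAlgebra.of F C x₀ - 1
  set T : Module.End F V := Φ a₀ with hT
  have hTeq : T = ρ (π x₀) - 1 := by rw [hT, map_sub, map_one, hΦof]
  let xu : (Module.End F V)ˣ := ((ρ : G →* Module.End F V).comp π).toHomUnits x₀
  have hxu : (xu : Module.End F V) = 1 + T := by
    rw [hTeq]
    show ρ (π x₀) = _
    abel
  have hxupow : ∀ j : ℕ, ((xu ^ j : (Module.End F V)ˣ) : Module.End F V) = ρ (π (x₀ ^ j)) ∧
      (((xu ^ j)⁻¹ : (Module.End F V)ˣ) : Module.End F V) = ρ (π (x₀ ^ j))⁻¹ := by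
    intro j
    simp only [xu, ← map_pow, ← map_inv]
    exact ⟨rfl, rfl⟩
  -- nilpotency
  have hTnil : IsNilpotent T := by
    refine ⟨p ^ n, ?_⟩
    rw [hT, ← map_pow]
    have : a₀ ^ (p ^ n) = 0 := by
      haveI : CharP (MonoidAlgebra F C) p := charP_of_injective_algebraMap (R := F)
        (algebraMap F (MonoidAlgebra F C)).injective p
      simp only [a₀]
      rw [sub_pow_char_pow, one_pow, ← map_pow, orderOf_dvd_iff_pow_eq_one.1 (dvd_of_eq hx₀ord), map_one, sub_self]
    rw [this, map_zero]
  have hTd : T ^ d = 0 := by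
    obtain ⟨k, hk⟩ := hTnil
    have := ((LinearMap.isNilpotent_iff_charpoly T).1 ⟨k, hk⟩ : _)
    have h2 := LinearMap.aeval_self_charpoly T
    rw [this] at h2
    simpa using h2
  have hTp : T ^ p ≠ 0 := by
    intro h0
    have hlift : ρ (π x₀) ^ p = 1 := by
      haveI : CharP (MonoidAlgebra F C) p := charP_of_injective_algebraMap (R := F)
        (algebraMap F (MonoidAlgebra F C)).injective p
      have h1 : a₀ ^ p = MonoidAlgebra.of F C x₀ ^ p - 1 := by
        simp only [a₀]
        rw [sub_pow_char, one_pow]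
      rw [hT, ← map_pow, h1, map_sub, map_one, map_pow, hΦof, sub_eq_zero] at h0
      exact h0
    rw [← map_pow, ← map_one ρ] at hlift
    have h2 : x₀ ^ p = 1 := hπinj (by rw [map_pow, map_one]; exact hfaith hlift)
    have := Nat.le_of_dvd hp.pos (hx₀ord ▸ orderOf_dvd_of_pow_eq_one h2)
    have h3 : p ^ 2 ≤ p ^ n := Nat.pow_le_pow_right hp.pos hn
    have := hp.two_le
    nlinarith
  -- the action of the normalizer
  set N : Subgroup G := Subgroup.normalizer ((P : Subgroup G) : Set G) with hN
  haveI := Fintype.ofFinite N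
  let σ : N →* MulAut C :=
    (MulAut.congr e₀.symm).toMonoidHom.comp (P : Subgroup G).normalizerMonoidHom
  have hσπ : ∀ (h : N) (c : C), π (σ h c) = (h : G) * π c * (h : G)⁻¹ := by
    intro h c
    show ((e₀ (e₀.symm ((P : Subgroup G).normalizerMonoidHom h (e₀.symm.symm c)))) : G) = _
    rw [MulEquiv.apply_symm_apply]
    rfl
  let S : Finset C := Finset.univ.image fun h : N => σ h x₀
  have hSσ : ∀ h : N, S.image (σ h) = S := by
    intro h
    ext y
    simp only [S, Finset.mem_image, Finset.mem_univ, true_and]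
    constructor
    · rintro ⟨z, ⟨k, rfl⟩, rfl⟩
      exact ⟨h * k, by rw [map_mul]; rfl⟩
    · rintro ⟨k, rfl⟩
      exact ⟨_, ⟨h⁻¹ * k, rfl⟩, by rw [← MulAut.mul_apply, ← map_mul, mul_inv_cancel_left]⟩
  have hS1 : x₀ ∈ S := Finset.mem_image.2 ⟨1, Finset.mem_univ _, by rw [map_one]; rfl⟩
  -- its orbit has at most `p - 1` elements
  have hScard : S.card ≤ p - 1 := by
    haveI : Finite (MulAut C) := Finite.of_injective _ DFunLike.coe_injective
    haveI := Fintype.ofFinite σ.range
    have h1 : S.card ≤ Nat.card σ.range := by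
      rw [Nat.card_eq_fintype_card, ← Finset.card_univ]
      refine (Finset.card_le_card ?_).trans (Finset.card_image_le (f := fun f : σ.range => (f : MulAut C) x₀))
      intro y hy
      obtain ⟨h, -, rfl⟩ := Finset.mem_image.1 hy
      exact Finset.mem_image.2 ⟨⟨σ h, h, rfl⟩, Finset.mem_univ _, rfl⟩
    have h2 : Nat.card σ.range ∣ p ^ (n - 1) * (p - 1) := by
      refine (Subgroup.card_subgroup_dvd_card _).trans (dvd_of_eq ?_)
      rw [IsCyclic.card_mulAut, show Nat.card C = p ^ n from (Nat.card_congr Multiplicative.toAdd).trans (Nat.card_zmod _),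
        Nat.totient_prime_pow hp (by omega)]
    have hle : (P : Subgroup G) ≤ N := Subgroup.le_normalizer
    have h3 : Nat.card σ.range ∣ (P : Subgroup G).index := by
      rw [← Subgroup.index_ker]
      refine (Subgroup.index_dvd_of_le (show (P : Subgroup G).subgroupOf N ≤ σ.ker from ?_)).trans ?_
      · intro h hh
        refine MonoidHom.mem_ker.2 (MulEquiv.ext fun c => hπinj ?_)
        rw [hσπ]
        haveI : IsMulCommutative (P : Subgroup G) := inferInstance
        have hc := congrArg Subtype.val (mul_comm' (⟨(h : G), hh⟩ : (P : Subgroup G)) (e₀ c))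
        show (h : G) * π c * (h : G)⁻¹ = π c
        rw [mul_inv_eq_iff_eq_mul]
        exact hc
      · exact Dvd.intro _ (Subgroup.relIndex_mul_index hle)
    have h4 : Nat.Coprime (Nat.card σ.range) (p ^ (n - 1)) := by
      refine Nat.Coprime.pow_right _ (Nat.coprime_comm.1 (hp.coprime_iff_not_dvd.2 fun hd => ?_))
      exact P.not_dvd_index (hd.trans h3)
    exact h1.trans (Nat.le_of_dvd (by have := hp.two_le; omega) (h4.dvd_of_dvd_mul_left h2))
  let θ : MonoidAlgebra F C := ∏ y ∈ S, (MonoidAlgebra.of F C y - 1)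
  set ψ : Module.End F V := Φ θ with hψdef
  -- the invariance
  have hconj : ∀ h : N, ρ (h : G) * ψ * ρ ((h : G))⁻¹ = ψ := by
    intro h
    have key : ∀ S' : Finset C, ρ (h : G) * Φ (∏ y ∈ S', (MonoidAlgebra.of F C y - 1)) * ρ ((h : G))⁻¹ =
        Φ (∏ y ∈ S', (MonoidAlgebra.of F C (σ h y) - 1)) := by
      intro S'
      induction S' using Finset.induction_on with
      | empty => simp [← map_mul]
      | insert y S'' hy ih =>
        rw [Finset.prod_insert hy, Finset.prod_insert hy, map_mul, map_mul, ← ih, map_sub, map_sub,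
          map_one, hΦof, hΦof, hσπ, map_mul, map_mul]
        have hinv : ρ ((h : G))⁻¹ * ρ (h : G) = 1 := by rw [← map_mul, inv_mul_cancel, map_one]
        simp only [sub_mul, mul_sub, one_mul, mul_assoc]
        simp only [← mul_assoc (ρ ((h : G))⁻¹) (ρ (h : G)), hinv, one_mul]
    rw [hψdef, key S]
    conv_rhs => rw [show θ = ∏ y ∈ S.image (σ h), (MonoidAlgebra.of F C y - 1) by rw [hSσ h],
      Finset.prod_image fun a _ b _ hab => (σ h).injective hab]
  -- `θ` is associated to a power of `a₀`
  have hdvd1 : a₀ ^ S.card ∣ θ := by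
    rw [← Finset.prod_const]
    refine Finset.prod_dvd_prod_of_dvd _ _ fun y _ => ?_
    rw [hgen y, map_pow]
    exact sub_one_dvd_pow_sub_one _ _
  have hdvd2 : θ ∣ a₀ ^ S.card := by
    rw [← Finset.prod_const]
    refine Finset.prod_dvd_prod_of_dvd _ _ fun y hy => ?_
    obtain ⟨h, -, rfl⟩ := Finset.mem_image.1 hy
    have h5 : x₀ = σ h x₀ ^ (Multiplicative.toAdd ((σ h).symm x₀)).val := by
      rw [← map_pow, ← hgen, MulEquiv.apply_symm_apply]
    show MonoidAlgebra.of F C (σ h x₀) - 1 ∣ MonoidAlgebra.of F C x₀ - 1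
    conv_rhs => rw [h5, map_pow]
    exact sub_one_dvd_pow_sub_one _ _
  have hψker : ∀ v, T v = 0 → ψ v = 0 := by
    intro v hv
    obtain ⟨W, hW⟩ := hdvd1
    obtain ⟨c, hc⟩ := Nat.exists_eq_succ_of_ne_zero (Finset.card_ne_zero.2 ⟨x₀, hS1⟩)
    rw [hψdef, hW, hc, pow_succ, mul_comm, map_mul, map_mul, ← hT, Module.End.mul_apply,
      Module.End.mul_apply, hv, map_zero, map_zero]
  -- conjugates of `ψ` over the cosets
  let Fc : G ⧸ N → Module.End F V := fun c => ρ c.out * ψ * ρ c.out⁻¹
  have hFmk : ∀ g : G, Fc (g : G ⧸ N) = ρ g * ψ * ρ g⁻¹ := by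
    intro g
    obtain ⟨h, hh⟩ := QuotientGroup.mk_out_eq_mul N g
    show ρ (Quotient.out (g : G ⧸ N)) * ψ * ρ (Quotient.out (g : G ⧸ N))⁻¹ = _
    rw [hh, mul_inv_rev, map_mul, map_mul]
    conv_rhs => rw [← hconj h]
    simp only [mul_assoc]
  have hFsmul : ∀ (g : G) (c : G ⧸ N), Fc (g • c) = ρ g * Fc c * ρ g⁻¹ := by
    intro g c
    induction c using QuotientGroup.induction_on with
    | H k =>
      rw [MulAction.Quotient.smul_coe, smul_eq_mul, hFmk, hFmk, mul_inv_rev, map_mul, map_mul]
      simp only [mul_assoc]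
  haveI := Fintype.ofFinite (G ⧸ N)
  set Ψ : Module.End F V := ∑ c, Fc c with hΨ
  have hΨcomm : ∀ g : G, ρ g * Ψ = Ψ * ρ g := by
    intro g
    rw [hΨ, Finset.mul_sum, Finset.sum_mul]
    refine Fintype.sum_equiv (MulAction.toPerm g) _ _ fun c => ?_
    rw [MulAction.toPerm_apply, hFsmul, mul_assoc _ (ρ g⁻¹), ← map_mul, inv_mul_cancel, map_one,
      mul_one]
  -- the part off the identity coset
  set base : G ⧸ N := ((1 : G) : G ⧸ N) with hbase
  have hfree : ∀ (y : C) (c : G ⧸ N), c ≠ base → π y • c = c → y = 1 := by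
    intro y c hc hyc
    induction c using QuotientGroup.induction_on with
    | H g =>
      rw [MulAction.Quotient.smul_coe, smul_eq_mul, eq_comm, QuotientGroup.eq] at hyc
      set h : G := g⁻¹ * (π y * g) with hh
      have hyP : π y ∈ (P : Subgroup G) := (e₀ y).2
      have hhp : IsPGroup p (Subgroup.zpowers h) := by
        rw [IsPGroup.iff_card]
        have : orderOf h = orderOf y := by
          rw [hh, show g⁻¹ * (π y * g) = MulAut.conj g⁻¹ (π y) by simp [mul_assoc],
            MulEquiv.orderOf_eq, orderOf_injective π hπinj]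
        obtain ⟨k, -, hk⟩ := (Nat.dvd_prime_pow hp).1 (show orderOf y ∣ p ^ n from
          (orderOf_dvd_natCard y).trans (dvd_of_eq ((Nat.card_congr Multiplicative.toAdd).trans (Nat.card_zmod _))))
        exact ⟨k, by rw [Nat.card_zpowers, this, hk]⟩
      have hsup : IsPGroup p (Subgroup.zpowers h ⊔ (P : Subgroup G) : Subgroup G) :=
        hhp.to_sup_of_normal_right' P.2 (Subgroup.zpowers_le.2 hyc)
      have hhP : h ∈ (P : Subgroup G) := by
        rw [← P.3 hsup le_sup_right]
        exact (le_sup_left : Subgroup.zpowers h ≤ Subgroup.zpowers h ⊔ (P : Subgroup G)) (Subgroup.mem_zpowers h)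
      by_contra hy1
      refine hc ?_
      rw [hbase, QuotientGroup.eq, mul_one, Subgroup.inv_mem_iff]
      have hQ : g • P = P := by
        by_contra hne
        have h6 := hTI (g • P) hne
        have h7 : π y ∈ (P : Subgroup G) ⊓ ((g • P : Sylow p G) : Subgroup G) := by
          refine ⟨hyP, ?_⟩
          show π y ∈ MulAut.conj g • (P : Subgroup G)
          rw [Subgroup.mem_pointwise_smul_iff_inv_smul_mem]
          simpa [hh, mul_assoc] using hhP
        rw [h6, Subgroup.mem_bot] at h7
        exact hy1 (hπinj (h7.trans (map_one π).symm))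
      exact Sylow.smul_eq_iff_mem_normalizer.1 hQ
  have hrest : ∀ v, (T ^ p) v = 0 → (∑ c ∈ Finset.univ.erase base, Fc c) v = 0 := by
    intro v hv
    letI : MulAction C (G ⧸ N) := MulAction.compHom _ π
    let q : G ⧸ N → MulAction.orbitRel.Quotient C (G ⧸ N) := Quotient.mk''
    haveI := Fintype.ofFinite (MulAction.orbitRel.Quotient C (G ⧸ N))
    have hbasefix : ∀ y : C, y • base = base := by
      intro y
      show π y • ((1 : G) : G ⧸ N) = ((1 : G) : G ⧸ N)
      rw [MulAction.Quotient.smul_coe, smul_eq_mul, mul_one, QuotientGroup.eq, mul_one,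
        Subgroup.inv_mem_iff]
      exact Subgroup.le_normalizer (e₀ y).2
    rw [← Finset.sum_fiberwise (Finset.univ.erase base) q, LinearMap.sum_apply]
    refine Finset.sum_eq_zero fun ω _ => ?_
    by_cases hne : ∃ c ∈ Finset.univ.erase base, q c = ω
    · obtain ⟨c₀, hc₀, hqc₀⟩ := hne
      have hc₀' := (Finset.mem_erase.1 hc₀).1
      have hfib : (Finset.univ.erase base).filter (fun c => q c = ω) =
          Finset.univ.image (fun y : C => y • c₀) := by
        ext c
        simp only [Finset.mem_filter, Finset.mem_erase, Finset.mem_univ, and_true, Finset.mem_image,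
          true_and, ← hqc₀, q, Quotient.eq'', MulAction.orbitRel_apply, MulAction.mem_orbit_iff]
        refine ⟨fun h => h.2, fun ⟨y, hy⟩ => ⟨fun hb => hc₀' ?_, y, hy⟩⟩
        rw [← hbasefix y⁻¹, ← hb, ← hy, inv_smul_smul]
      have hinj : Set.InjOn (fun y : C => y • c₀) (Finset.univ : Finset C) := by
        intro a _ b _ hab
        have := hfree (b⁻¹ * a) c₀ hc₀' (by
          show (b⁻¹ * a) • c₀ = c₀
          rw [mul_smul, show a • c₀ = b • c₀ from hab, inv_smul_smul])
        exact (inv_mul_eq_one.1 this).symm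
      rw [hfib, Finset.sum_image hinj]
      have hreindex : (∑ y : C, Fc (y • c₀)) = ∑ j ∈ Finset.range (p ^ n),
          ((xu ^ j : (Module.End F V)ˣ) : Module.End F V) * Fc c₀ *
            (((xu ^ j)⁻¹ : (Module.End F V)ˣ) : Module.End F V) := by
        refine Finset.sum_bij' (fun y _ => (Multiplicative.toAdd y).val) (fun j _ => x₀ ^ j)
          (fun y _ => Finset.mem_range.2 (ZMod.val_lt _)) (fun j _ => Finset.mem_univ _)
          (fun y _ => (hgen y).symm) (fun j hj => ?_) (fun y _ => ?_)
        · show (Multiplicative.toAdd (x₀ ^ j)).val = j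
          rw [toAdd_pow, toAdd_ofAdd, nsmul_eq_mul, mul_one, ZMod.val_natCast,
            Nat.mod_eq_of_lt (Finset.mem_range.1 hj)]
        · rw [(hxupow _).1, (hxupow _).2, ← hgen y]
          exact hFsmul (π y) c₀
      rw [hreindex]
      exact trace_apply_eq_zero p n T xu hxu hTd hds (Fc c₀) v hv
    · rw [Finset.sum_eq_zero (fun c hc => absurd ⟨c, (Finset.mem_filter.1 hc).1, (Finset.mem_filter.1 hc).2⟩ hne)]
      rfl
  have hsplit : Ψ = ψ + ∑ c ∈ Finset.univ.erase base, Fc c := by
    rw [hΨ, ← Finset.add_sum_erase _ _ (Finset.mem_univ base)]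
    congr 1
    rw [hbase, hFmk, inv_one, map_one, one_mul, mul_one]
  -- Schur
  have hΨ0 : Ψ = 0 := by
    obtain ⟨m, hm⟩ := hTnil
    have hex : ∃ v, v ≠ 0 ∧ T v = 0 := by
      by_contra hcon
      push Not at hcon
      have hinj : Function.Injective T := (injective_iff_map_eq_zero T).2 fun v hv => by
        by_contra hv0
        exact hcon v hv0 hv
      refine hTp ?_
      have : Function.Injective (T ^ m : Module.End F V) := by
        rw [Module.End.coe_pow]
        exact hinj.iterate m
      refine LinearMap.ext fun v => ?_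
      refine this ?_
      simp [hm]
    obtain ⟨v, hv0, hv⟩ := hex
    have hTpv : (T ^ p) v = 0 := by
      obtain ⟨c, hc⟩ := Nat.exists_eq_succ_of_ne_zero hp.ne_zero
      rw [hc, pow_succ, Module.End.mul_apply, hv, map_zero]
    have hΨv : Ψ v = 0 := by
      rw [hsplit, LinearMap.add_apply, hψker v hv, hrest v hTpv, add_zero]
    let K : Subrepresentation ρ := ⟨LinearMap.ker Ψ, fun g w hw => by
      rw [LinearMap.mem_ker] at hw ⊢
      rw [← Module.End.mul_apply, ← hΨcomm, Module.End.mul_apply, hw, map_zero]⟩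
    haveI : IsSimpleOrder (Subrepresentation ρ) := hirr
    rcases eq_bot_or_eq_top K with h | h
    · exfalso
      have : v ∈ K.toSubmodule := LinearMap.mem_ker.2 hΨv
      rw [h] at this
      exact hv0 ((Submodule.mem_bot F).1 this)
    · exact LinearMap.ker_eq_top.1 (congrArg Subrepresentation.toSubmodule h)
  have hkill : ∀ v, (T ^ p) v = 0 → (T ^ S.card) v = 0 := by
    intro v hv
    have h1 : ψ v = 0 := by
      have := LinearMap.congr_fun hsplit v
      rw [hΨ0, LinearMap.add_apply, hrest v hv, add_zero, LinearMap.zero_apply] at this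
      exact this.symm
    obtain ⟨U, hU⟩ := hdvd2
    rw [hT, ← map_pow, hU, mul_comm θ U, map_mul, Module.End.mul_apply, ← hψdef, h1, map_zero]
  exact hTp (pow_eq_zero_of_ker hTd (by have := hp.two_le; omega) hkill)

end main


/-- Let p be a prime and G a finite group whose Sylow p-subgroup P is cyclic of order p^n with n ≥ 2 and meets every other Sylow p-subgroup trivially. Then every faithful irreducible representation of G on a finite-dimensional space over a finite field of characteristic p has dimension at least p^n − (p − 1). -/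
theorem result {G : Type*} [Group G] [Finite G] (p : ℕ) [Fact p.Prime] (P : Sylow p G) (hcyc : IsCyclic P) (n : ℕ) (hn : 2 ≤ n) (hPn : Nat.card P = p ^ n) (hTI : ∀ Q : Sylow p G, Q ≠ P → (P : Subgroup G) ⊓ (Q : Subgroup G) = ⊥) (F : Type*) [Field F] [Finite F] [CharP F p] (V : Type*) [AddCommGroup V] [Module F V] [FiniteDimensional F V] (ρ : Representation F G V) (hfaith : Function.Injective ρ) (hirr : ρ.IsIrreducible) : p ^ n - (p - 1) ≤ Module.finrank F V := by
  exact main p P hcyc n hn hPn hTI ρ hfaith hirr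

end Cfsg.Agent.S4699
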