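import Cfsg.Statements.S4700
import Cfsg.Agent.Lib.SmallGroups.BrauerReynoldsPerfect
-- import your own Cfsg.Agent.* helpers here

set_option autoImplicit false
open Cfsg

namespace Cfsg.Agent.S4700

/-- Let G be a finite perfect group and p a prime such that a Sylow p-subgroup of G has order p, and write the number of Sylow p-subgroups as 1 + np. Let H = O_p'(G). Then either p > 3 and G/H is isomorphic to PSL(2, p); or p = 2^m + 1 > 3 and G/H is isomorphic to SL(2, 2^m); or n = (hup + u^2 + u + h)/(u + 1) for some positive integers h and u. -/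
theorem result {G : Type*} [Group G] [Finite G] (hperf : commutator G = ⊤) (p : ℕ) [Fact p.Prime] (P : Sylow p G) (hP : Nat.card P = p) (n : ℕ) (hn : Nat.card (Sylow p G) = 1 + n * p) : (∃ (F : Type) (_ : Field F) (_ : Fintype F), Fintype.card F = p ∧ 3 < p ∧ Nonempty (G ⧸ Cfsg.pPrimeCore p G ≃* Matrix.ProjectiveSpecialLinearGroup (Fin 2) F)) ∨ (∃ (m : ℕ) (F : Type) (_ : Field F) (_ : Fintype F), Fintype.card F = 2 ^ m ∧ p = 2 ^ m + 1 ∧ 3 < p ∧ Nonempty (G ⧸ Cfsg.pPrimeCore p G ≃* Matrix.SpecialLinearGroup (Fin 2) F)) ∨ (∃ h u : ℕ, 0 < h ∧ 0 < u ∧ n * (u + 1) = h * u * p + u ^ 2 + u + h) := by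
  classical
  by_cases hF : ∃ h u : ℕ, 0 < h ∧ 0 < u ∧ n * (u + 1) = h * u * p + u ^ 2 + u + h
  · exact Or.inr (Or.inr hF)
  push Not at hF
  haveI : CfsgLib.SmallGroups.BrauerReynolds.NonF p n := ⟨fun h u hh hu => hF h u hh hu⟩
  rcases CfsgLib.SmallGroups.BrauerReynolds.brauer_perfect hperf P hP hn with h | h
  · exact Or.inl h
  · obtain ⟨m, F, iF, jF, hFc, hp2, h3, ⟨i⟩⟩ := h
    have hm : m ≠ 0 := fun h => by rw [h, pow_zero] at hp2; omega
    let π : Matrix.SpecialLinearGroup (Fin 2) F →* Matrix.ProjectiveSpecialLinearGroup (Fin 2) F :=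
      QuotientGroup.mk' _
    have hb : Function.Bijective π := by
      refine (Nat.bijective_iff_surjective_and_card _).2 ⟨QuotientGroup.mk'_surjective _, ?_⟩
      rw [CfsgLib.ClassicalLinear.card_PSL_two_of_even hFc (Nat.even_pow.2 ⟨even_two, hm⟩),
        CfsgLib.ClassicalLinear.card_SL_two hFc]
    exact Or.inr (Or.inl ⟨m, F, iF, jF, hFc, hp2, h3, ⟨i.trans (MulEquiv.ofBijective π hb).symm⟩⟩)

end Cfsg.Agent.S4700
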