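import Cfsg.Statements.S4701
import Cfsg.Agent.Lib.SmallGroups.BrauerReynoldsMain
import Cfsg.Agent.Lib.Cores.PCore
-- import your own Cfsg.Agent.* helpers here

set_option autoImplicit false
open Cfsg
open scoped commutatorElement

namespace Cfsg.Agent.S4701

/-- A perfect group with a prime divisor `p` of small cube is simple of the two types. -/
theorem simple_section {G : Type*} [Group G] [Finite G] (hperf : commutator G = ⊤) (p : ℕ) [hp : Fact p.Prime]
    (hdvd : p ∣ Nat.card G) (hbig : Nat.card G < p ^ 3) (P : Sylow p G) (hP : ¬ (P : Subgroup G).Normal) :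
    ∃ (K : Subgroup G) (_ : K.Normal) (M : Subgroup (G ⧸ K)),
      M.Normal ∧ IsSimpleGroup M ∧ ¬ IsCyclic M ∧ p ∣ Nat.card M := by
  classical
  set K := Cfsg.pPrimeCore p G
  haveI hKn : K.Normal := inferInstance
  have hK := CfsgLib.Cores.not_dvd_card_pPrimeCore (G := G) (p := p)
  have hsq : ¬ p ^ 2 ∣ Nat.card G := by
    intro h
    have hn1 : Nat.card (Sylow p G) ≠ 1 := fun h1 => hP (by
      haveI : Subsingleton (Sylow p G) := (Nat.card_eq_one_iff_unique.mp h1).1
      exact Sylow.normal_of_subsingleton P)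
    have hmod := card_sylow_modEq_one p G
    have hpn : p + 1 ≤ Nat.card (Sylow p G) := by
      have hpos : 0 < Nat.card (Sylow p G) := Nat.card_pos
      by_contra hlt
      push Not at hlt
      rcases (Nat.lt_succ_iff.1 hlt).eq_or_lt with h2 | h2
      · rw [h2, Nat.ModEq, Nat.mod_self, Nat.mod_eq_of_lt hp.out.one_lt] at hmod
        omega
      · rw [Nat.ModEq, Nat.mod_eq_of_lt h2, Nat.mod_eq_of_lt hp.out.one_lt] at hmod
        omega
    have h3 : p ^ 2 ≤ Nat.card ↥(Subgroup.normalizer ((P : Subgroup G) : Set G)) :=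
      (Nat.le_of_dvd Nat.card_pos (P.pow_dvd_card_of_pow_dvd_card h)).trans
        (Subgroup.card_le_of_le Subgroup.le_normalizer)
    have h4 := CfsgLib.SmallGroups.card_sylow_mul_card_normalizer P
    have := Nat.mul_le_mul hpn h3
    nlinarith
  have hcardQ : Nat.card G = Nat.card (G ⧸ K) * Nat.card K := Subgroup.card_eq_card_quotient_mul_card_subgroup K
  have hpQ : p ∣ Nat.card (G ⧸ K) := (hp.out.dvd_mul.1 (hcardQ ▸ hdvd)).resolve_right hK
  have hsqQ : ¬ p ^ 2 ∣ Nat.card (G ⧸ K) := fun h => hsq (hcardQ ▸ h.mul_right _)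
  have hcore : Cfsg.pPrimeCore p (G ⧸ K) = ⊥ := CfsgLib.Cores.pPrimeCore_quotient_pPrimeCore p
  have hperfQ : commutator (G ⧸ K) = ⊤ := by
    rw [← top_le_iff, ← Subgroup.map_top_of_surjective _ (QuotientGroup.mk'_surjective K), ← hperf,
      commutator_def, Subgroup.map_commutator, Subgroup.map_top_of_surjective _ (QuotientGroup.mk'_surjective K)]
    rfl
  obtain ⟨R⟩ := (inferInstance : Nonempty (Sylow p (G ⧸ K)))
  have hR : Nat.card ↥(R : Subgroup (G ⧸ K)) = p := by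
    obtain ⟨m, hm⟩ := hpQ
    have hm' : ¬ p ∣ m := fun h => hsqQ (by rw [hm, pow_two]; exact Nat.mul_dvd_mul_left p h)
    simpa using CfsgLib.SmallGroups.card_sylow_eq (a := 1) (by simpa using hm) hm' R
  set M := Subgroup.normalClosure ((R : Subgroup (G ⧸ K)) : Set (G ⧸ K)) with hM
  haveI hMn : M.Normal := Subgroup.normalClosure_normal
  have hRM : (R : Subgroup (G ⧸ K)) ≤ M := Subgroup.le_normalClosure
  have hpM : p ∣ Nat.card M := hR ▸ Subgroup.card_dvd_of_le hRM
  have hMsub : ∀ L : Subgroup M, L.Normal → L = ⊥ ∨ L = ⊤ := by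
    intro L hL
    by_cases hpL : p ∣ Nat.card L
    · right
      obtain ⟨x, hx⟩ := exists_prime_orderOf_dvd_card' p hpL
      let Z := (Subgroup.zpowers ((x : M) : G ⧸ K))
      have hZ : Nat.card Z = p := by rw [Nat.card_zpowers, Subgroup.orderOf_coe, Subgroup.orderOf_coe, hx]
      obtain ⟨S, hS⟩ := (IsPGroup.of_card (p := p) (n := 1) (G := Z) (by rw [hZ, pow_one])).exists_le_sylow
      have hScard : Nat.card ↥(S : Subgroup (G ⧸ K)) = p :=
        (Sylow.card_eq_multiplicity S).trans ((Sylow.card_eq_multiplicity R).symm.trans hR)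
      have hSZ : (S : Subgroup (G ⧸ K)) = Z :=
        (Subgroup.eq_of_le_of_card_ge hS (by rw [hScard, hZ])).symm
      have hSM : ∀ T : Sylow p (G ⧸ K), (T : Subgroup (G ⧸ K)) ≤ M := fun T => by
        obtain ⟨g, rfl⟩ := MulAction.exists_smul_eq (G ⧸ K) R T
        rintro _ ⟨w, hw, rfl⟩
        exact hMn.conj_mem w (hRM hw) g
      have hall : ∀ T : Sylow p (G ⧸ K), (T : Subgroup (G ⧸ K)) ≤ L.map M.subtype := by
        intro T
        obtain ⟨g, hg⟩ := MulAction.exists_smul_eq M (S.subtype (hSM S)) (T.subtype (hSM T))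
        intro w hw
        have hw' : (⟨w, hSM T hw⟩ : M) ∈ ((T.subtype (hSM T)) : Subgroup M) := by
          simpa [Sylow.coe_subtype, Subgroup.mem_subgroupOf] using hw
        rw [← hg] at hw'
        obtain ⟨v, hv, hvw⟩ := hw'
        have hvL : v ∈ L := by
          have h1 : (v : G ⧸ K) ∈ Z := by
            rw [← hSZ]; simpa [Sylow.coe_subtype, Subgroup.mem_subgroupOf] using hv
          obtain ⟨i, hi⟩ := Subgroup.mem_zpowers_iff.1 h1
          have : v = (x : M) ^ i := Subtype.ext (by rw [← hi]; simp)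
          rw [this]
          exact L.zpow_mem x.2 i
        refine ⟨⟨w, hSM T hw⟩, ?_, rfl⟩
        rw [← hvw]
        exact hL.conj_mem v hvL g
      have hMle : M ≤ L.map M.subtype := by
        refine (Subgroup.closure_le _).2 ?_
        intro w hw
        obtain ⟨a, ha, hconj⟩ := Group.mem_conjugatesOfSet_iff.1 hw
        obtain ⟨g, hg⟩ := isConj_iff.1 hconj
        exact hall (g • R) ⟨a, ha, hg⟩
      rw [eq_top_iff]
      intro w _
      obtain ⟨v, hv, hvw⟩ := hMle w.2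
      rwa [show w = v from Subtype.ext hvw.symm]
    · left
      have h1 : L ≤ Cfsg.pPrimeCore p M := CfsgLib.Cores.le_pPrimeCore_of_not_dvd hp.out hpL
      have h2 := CfsgLib.Cores.map_subtype_pPrimeCore_le (p := p) (N := M) (Subgroup.Normal.isSubnormal hMn)
      rw [hcore, le_bot_iff, Subgroup.map_eq_bot_iff_of_injective _ M.subtype_injective] at h2
      rwa [h2, le_bot_iff] at h1
  haveI hnt : Nontrivial M := Finite.one_lt_card_iff_nontrivial.1
    (lt_of_lt_of_le hp.out.one_lt (Nat.le_of_dvd Nat.card_pos hpM))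
  haveI hsimple : IsSimpleGroup M := ⟨hMsub⟩
  refine ⟨K, hKn, M, hMn, hsimple, fun hc => ?_, hpM⟩
  haveI := hc
  letI : CommGroup M := IsCyclic.commGroup
  have hMprime : (Nat.card M).Prime := IsSimpleGroup.prime_card
  have hMp : Nat.card M = p := ((Nat.prime_dvd_prime_iff_eq hp.out hMprime).1 hpM).symm
  have hMR : M = (R : Subgroup (G ⧸ K)) :=
    (Subgroup.eq_of_le_of_card_ge hRM (by rw [hR, hMp])).symm
  haveI hRn : (R : Subgroup (G ⧸ K)).Normal := hMR ▸ hMn
  haveI : IsCyclic ↥(R : Subgroup (G ⧸ K)) := isCyclic_of_prime_card hR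
  letI : CommGroup ↥(R : Subgroup (G ⧸ K)) := IsCyclic.commGroup
  have hidx : Nat.Coprime (Nat.card ↥(R : Subgroup (G ⧸ K))) (R : Subgroup (G ⧸ K)).index := by
    rw [hR]; exact hp.out.coprime_iff_not_dvd.2 R.not_dvd_index
  obtain ⟨H, hH⟩ := Subgroup.exists_right_complement'_of_coprime hidx
  have hcent : ∀ g : G ⧸ K, ∀ z ∈ (R : Subgroup (G ⧸ K)), g * z = z * g := by
    intro g z hz
    let φ : G ⧸ K →* MulAut ↥(R : Subgroup (G ⧸ K)) := MulAut.conjNormal
    haveI : Fact (Nat.card ↥(R : Subgroup (G ⧸ K))).Prime := ⟨by rw [hR]; exact hp.out⟩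
    let ψ := (IsCyclic.mulAutMulEquiv ↥(R : Subgroup (G ⧸ K))).toMonoidHom.comp φ
    have h1 : commutator (G ⧸ K) ≤ ψ.ker := Abelianization.commutator_subset_ker ψ
    rw [hperfQ] at h1
    have h2 : ψ g = 1 := h1 (Subgroup.mem_top g)
    have h3 : φ g = 1 := (IsCyclic.mulAutMulEquiv ↥(R : Subgroup (G ⧸ K))).injective
      (h2.trans (map_one _).symm)
    have h4 : g * z * g⁻¹ = z := by
      have := congrArg (fun f : MulAut ↥(R : Subgroup (G ⧸ K)) => ((f ⟨z, hz⟩ : ↥(R : Subgroup (G ⧸ K))) : G ⧸ K)) h3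
      simpa [φ, MulAut.conjNormal_apply] using this
    exact mul_inv_eq_iff_eq_mul.1 h4
  haveI hHn : H.Normal := by
    refine ⟨fun w hw g => ?_⟩
    obtain ⟨⟨z, v⟩, rfl⟩ := hH.2 g
    have : (z : G ⧸ K) * v * w * ((z : G ⧸ K) * v)⁻¹ = v * w * (v : G ⧸ K)⁻¹ := by
      have hc := hcent ((v : G ⧸ K) * w * (v : G ⧸ K)⁻¹) z z.2
      calc (z : G ⧸ K) * v * w * ((z : G ⧸ K) * v)⁻¹
          = (z : G ⧸ K) * ((v : G ⧸ K) * w * (v : G ⧸ K)⁻¹) * (z : G ⧸ K)⁻¹ := by group
        _ = _ := by rw [← hc]; group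
    show (z : G ⧸ K) * v * w * ((z : G ⧸ K) * v)⁻¹ ∈ H
    rw [this]
    exact H.mul_mem (H.mul_mem v.2 hw) (H.inv_mem v.2)
  have hHtop : H = ⊤ := by
    refine top_le_iff.1 ?_
    rw [← hperfQ]
    refine (commutator_eq_closure (G ⧸ K)).le.trans ((Subgroup.closure_le _).2 ?_)
    rintro _ ⟨a, b, rfl⟩
    obtain ⟨⟨y, v⟩, rfl⟩ := hH.2 a
    obtain ⟨⟨z, w⟩, rfl⟩ := hH.2 b
    show ⁅(y : G ⧸ K) * v, (z : G ⧸ K) * w⁆ ∈ H
    have hy := fun g => hcent g y y.2
    have hz := fun g => hcent g z z.2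
    have : ⁅(y : G ⧸ K) * v, (z : G ⧸ K) * w⁆ = ⁅(v : G ⧸ K), (w : G ⧸ K)⁆ := by
      simp only [commutatorElement_def]
      calc (y : G ⧸ K) * v * ((z : G ⧸ K) * w) * ((y : G ⧸ K) * v)⁻¹ * ((z : G ⧸ K) * w)⁻¹
          = (y : G ⧸ K) * ((v : G ⧸ K) * z) * w * (v : G ⧸ K)⁻¹ * (y : G ⧸ K)⁻¹ * (w : G ⧸ K)⁻¹ * (z : G ⧸ K)⁻¹ := by group
        _ = (y : G ⧸ K) * ((z : G ⧸ K) * (v * w * (v : G ⧸ K)⁻¹)) * (y : G ⧸ K)⁻¹ * (w : G ⧸ K)⁻¹ * (z : G ⧸ K)⁻¹ := by
            rw [hz v]; group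
        _ = (z : G ⧸ K) * (v * w * (v : G ⧸ K)⁻¹) * (w : G ⧸ K)⁻¹ * (z : G ⧸ K)⁻¹ := by
            rw [← hy ((z : G ⧸ K) * (v * w * (v : G ⧸ K)⁻¹))]; group
        _ = ((z : G ⧸ K) * (v * w * (v : G ⧸ K)⁻¹ * (w : G ⧸ K)⁻¹)) * (z : G ⧸ K)⁻¹ := by group
        _ = _ := by rw [← hz (v * w * (v : G ⧸ K)⁻¹ * (w : G ⧸ K)⁻¹)]; group
    rw [this, commutatorElement_def]
    exact H.mul_mem (H.mul_mem (H.mul_mem v.2 w.2) (H.inv_mem v.2)) (H.inv_mem w.2)
  have h5 := hH.card_mul
  rw [hHtop, Subgroup.card_top, hR] at h5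
  have : 0 < Nat.card (G ⧸ K) := Nat.card_pos
  have := hp.out.two_le
  nlinarith

/-- Let G be a finite perfect group and p a prime dividing the order of G with p^3 larger than the order of G. Suppose a Sylow p-subgroup of G is not normal and G has no normal subgroup of order 2. Then p > 3 and G is isomorphic to PSL(2, p), or to SL(2, 2^m) with p = 2^m + 1. -/
theorem result {G : Type*} [Group G] [Finite G] (hperf : commutator G = ⊤) (p : ℕ) [Fact p.Prime] (hdvd : p ∣ Nat.card G) (hbig : Nat.card G < p ^ 3) (P : Sylow p G) (hP : ¬ (P : Subgroup G).Normal) (h2 : ∀ N : Subgroup G, N.Normal → Nat.card N ≠ 2) : (∃ (F : Type) (_ : Field F) (_ : Fintype F), Fintype.card F = p ∧ 3 < p ∧ Nonempty (G ≃* Matrix.ProjectiveSpecialLinearGroup (Fin 2) F)) ∨ (∃ (m : ℕ) (F : Type) (_ : Field F) (_ : Fintype F), Fintype.card F = 2 ^ m ∧ p = 2 ^ m + 1 ∧ 3 < p ∧ Nonempty (G ≃* Matrix.SpecialLinearGroup (Fin 2) F)) := by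
  classical
  obtain ⟨K, hKn, M, hMn, hMs, hMc, hpM⟩ := simple_section hperf p hdvd hbig P hP
  have hcard : Nat.card G = Nat.card (G ⧸ K) * Nat.card K := Subgroup.card_eq_card_quotient_mul_card_subgroup K
  have hMQ : Nat.card M * M.index = Nat.card (G ⧸ K) := M.card_mul_index
  have hK1 : 0 < Nat.card K := Nat.card_pos
  have hi1 : 0 < M.index := Nat.pos_of_ne_zero Subgroup.index_ne_zero_of_finite
  have hsmall : Nat.card M < p ^ 3 := by
    refine lt_of_le_of_lt ?_ hbig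
    rw [hcard, ← hMQ, mul_assoc]
    exact Nat.le_mul_of_pos_right _ (Nat.mul_pos hi1 hK1)
  have key := CfsgLib.SmallGroups.BrauerReynolds.brauer_reynolds (G := M) hMc hpM hsmall
  have hp3 : 3 * Nat.card M ≥ p ^ 3 ∧ 3 < p := by
    rcases key with ⟨F, iF, jF, hF, h3, ⟨i⟩⟩ | ⟨m, F, iF, jF, hF, hp2, h3, ⟨i⟩⟩
    · refine ⟨?_, h3⟩
      rw [Nat.card_congr i.toEquiv]
      have hodd : Odd p := (Fact.out : p.Prime).odd_of_ne_two (by omega)
      have h := CfsgLib.ClassicalLinear.card_PSL_two_of_odd hF hodd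
      have h9 : 9 ≤ p ^ 2 := by nlinarith
      obtain ⟨q, hq⟩ : ∃ q, p ^ 2 = q + 1 := ⟨p ^ 2 - 1, by omega⟩
      have h' : p ^ 3 = p * (q + 1) := by rw [← hq]; ring
      rw [hq, Nat.add_sub_cancel] at h
      rw [h']
      have hq8 : 8 ≤ q := by omega
      nlinarith
    · refine ⟨?_, h3⟩
      rw [Nat.card_congr i.toEquiv]
      have hm : m ≠ 0 := fun h => by rw [h, pow_zero] at hp2; omega
      rw [CfsgLib.ClassicalLinear.card_PSL_two_of_even hF (Nat.even_pow.2 ⟨even_two, hm⟩)]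
      set q := 2 ^ m
      have hq4 : 4 ≤ q := by
        obtain ⟨l, hl⟩ : 2 ∣ q := dvd_pow_self 2 hm
        omega
      obtain ⟨w, hw⟩ : ∃ w, q ^ 2 = w + 1 := ⟨q ^ 2 - 1, by have : 16 ≤ q ^ 2 := by nlinarith
                                                            omega⟩
      rw [hw, Nat.add_sub_cancel, hp2]
      nlinarith
  have hprod : M.index * Nat.card K ≤ 2 := by
    by_contra h
    push Not at h
    have h2 : Nat.card M * 3 ≤ Nat.card M * (M.index * Nat.card K) := Nat.mul_le_mul_left _ h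
    rw [← mul_assoc, hMQ, ← hcard] at h2
    omega
  have hK : K = ⊥ := by
    have h := h2 K hKn
    rcases Nat.lt_or_ge 1 (Nat.card K) with h1 | h1
    · exfalso
      have : Nat.card K ≤ M.index * Nat.card K := Nat.le_mul_of_pos_left _ hi1
      omega
    · exact Subgroup.card_eq_one.1 (by omega)
  have hM : M = ⊤ := by
    rw [← Subgroup.index_eq_one]
    by_contra hne
    have hle : M.index ≤ 2 := le_trans (Nat.le_mul_of_pos_right _ hK1) hprod
    have h2' : M.index = 2 := by omega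
    have hperfQ : commutator (G ⧸ K) = ⊤ := by
      rw [← top_le_iff, ← Subgroup.map_top_of_surjective _ (QuotientGroup.mk'_surjective K), ← hperf,
        commutator_def, Subgroup.map_commutator, Subgroup.map_top_of_surjective _ (QuotientGroup.mk'_surjective K)]
      rfl
    have hle' : commutator (G ⧸ K) ≤ M := by
      refine (commutator_eq_closure (G ⧸ K)).le.trans ((Subgroup.closure_le _).2 ?_)
      rintro _ ⟨a, b, rfl⟩
      have hiff := fun x y : G ⧸ K => Subgroup.mul_mem_iff_of_index_two h2' (a := x) (b := y)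
      rw [commutatorElement_def, SetLike.mem_coe, hiff, hiff, hiff, inv_mem_iff, inv_mem_iff]
      tauto
    rw [hperfQ, top_le_iff] at hle'
    rw [hle', Subgroup.index_top] at h2'
    omega
  have e : G ≃* M :=
    ((MulEquiv.ofBijective (QuotientGroup.mk' K) ⟨by
      rw [← MonoidHom.ker_eq_bot_iff, QuotientGroup.ker_mk', hK], QuotientGroup.mk'_surjective K⟩).trans
      Subgroup.topEquiv.symm).trans (MulEquiv.subgroupCongr hM.symm)
  rcases key with ⟨F, iF, jF, hF, h3, ⟨i⟩⟩ | ⟨m, F, iF, jF, hF, hp2, h3, ⟨i⟩⟩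
  · exact Or.inl ⟨F, iF, jF, hF, h3, ⟨e.trans i⟩⟩
  · have hm : m ≠ 0 := fun h => by rw [h, pow_zero] at hp2; omega
    let π : Matrix.SpecialLinearGroup (Fin 2) F →* Matrix.ProjectiveSpecialLinearGroup (Fin 2) F :=
      QuotientGroup.mk' _
    have hb : Function.Bijective π := by
      refine (Nat.bijective_iff_surjective_and_card _).2 ⟨QuotientGroup.mk'_surjective _, ?_⟩
      rw [CfsgLib.ClassicalLinear.card_PSL_two_of_even hF (Nat.even_pow.2 ⟨even_two, hm⟩),
        CfsgLib.ClassicalLinear.card_SL_two hF]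
    exact Or.inr ⟨m, F, iF, jF, hF, hp2, h3, ⟨(e.trans i).trans (MulEquiv.ofBijective π hb).symm⟩⟩

end Cfsg.Agent.S4701
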