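import Cfsg.Statements.S4702
import Cfsg.Agent.Lib.AltGroups.SharplyThreeTransitive
import Cfsg.Agent.Lib.ClassicalLinear.Card
-- import your own Cfsg.Agent.* helpers here

set_option autoImplicit false
open Cfsg

namespace Cfsg.Agent.S4702

open Matrix in
theorem nonempty_SL_equiv_PGL_of_char_two {K : Type*} [Field K] [Fintype K] (h2 : (2 : K) = 0) :
    Nonempty (SpecialLinearGroup (Fin 2) K ≃* ProjGenLinGroup (Fin 2) K) := by
  classical
  let φ : SpecialLinearGroup (Fin 2) K →* ProjGenLinGroup (Fin 2) K :=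
    (QuotientGroup.mk' _).comp SpecialLinearGroup.toGL
  have hinj : Function.Injective φ := by
    rw [← MonoidHom.ker_eq_bot_iff, eq_bot_iff]
    intro A hA
    have h : SpecialLinearGroup.toGL A ∈ Subgroup.center (GL (Fin 2) K) :=
      (QuotientGroup.eq_one_iff (N := Subgroup.center (GL (Fin 2) K)) _).1 hA
    rw [GeneralLinearGroup.center_eq_range_scalar, MonoidHom.mem_range] at h
    obtain ⟨u, hu⟩ := h
    have he : (A : Matrix (Fin 2) (Fin 2) K) = scalar (Fin 2) (u : K) :=
      (congrArg (fun g : GL (Fin 2) K => (g : Matrix (Fin 2) (Fin 2) K)) hu).symm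
    have hd := A.2
    rw [show (A : Matrix (Fin 2) (Fin 2) K) = _ from he, det_fin_two] at hd
    have hu1 : (u : K) = 1 := by
      have h3 : ((u : K) - 1) * ((u : K) - 1) = 0 := by
        have h4 : (u : K) * u = 1 := by simpa [scalar_apply, diagonal] using hd
        linear_combination h4 + (1 - (u : K)) * h2
      exact sub_eq_zero.1 (mul_self_eq_zero.1 h3)
    rw [Subgroup.mem_bot]
    apply Subtype.ext
    rw [he, hu1]
    simp
  haveI : Finite (ProjGenLinGroup (Fin 2) K) :=
    Finite.of_surjective _ (QuotientGroup.mk'_surjective (Subgroup.center (GL (Fin 2) K)))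
  refine ⟨MulEquiv.ofBijective φ ((Nat.bijective_iff_injective_and_card φ).2 ⟨hinj, ?_⟩)⟩
  exact CfsgLib.ClassicalLinear.card_PGL.symm

/-- Let G be a triply transitive permutation group on a finite set of odd size m ≥ 3 in which only the identity fixes three or more points. Then m = 2^a + 1 for some a ≥ 1 and G is isomorphic to SL(2, 2^a). -/
theorem result {α : Type*} [Fintype α] [DecidableEq α] (hm : 3 ≤ Fintype.card α) (hodd : Odd (Fintype.card α)) (G : Subgroup (Equiv.Perm α)) (h3 : MulAction.IsMultiplyPretransitive G α 3) (hfix : ∀ g : G, 3 ≤ Nat.card (MulAction.fixedBy α g) → g = 1) : ∃ a : ℕ, 1 ≤ a ∧ Fintype.card α = 2 ^ a + 1 ∧ ∃ (F : Type) (_ : Field F) (_ : Fintype F), Fintype.card F = 2 ^ a ∧ Nonempty (G ≃* Matrix.SpecialLinearGroup (Fin 2) F) := by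
  classical
  haveI : FaithfulSMul G α := ⟨fun {g g'} h => Subtype.ext (Equiv.ext fun x => h x)⟩
  have hsharp : ∀ a b c a' b' c' : α, a ≠ b → b ≠ c → a ≠ c → a' ≠ b' → b' ≠ c' → a' ≠ c' →
      ∃! g : G, g • a = a' ∧ g • b = b' ∧ g • c = c' := by
    intro a b c a' b' c' hab hbc hac hab' hbc' hac'
    let e : ∀ (x y z : α), x ≠ y → y ≠ z → x ≠ z → Fin 3 ↪ α := fun x y z hxy hyz hxz =>
      ⟨![x, y, z], fun i j hij => by
        fin_cases i <;> fin_cases j <;> simp_all⟩
    obtain ⟨g, hg⟩ := h3.exists_smul_eq (e a b c hab hbc hac) (e a' b' c' hab' hbc' hac')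
    have h0 : g • a = a' := DFunLike.congr_fun hg 0
    have h1 : g • b = b' := DFunLike.congr_fun hg 1
    have h2 : g • c = c' := DFunLike.congr_fun hg 2
    refine ⟨g, ⟨h0, h1, h2⟩, ?_⟩
    rintro g' ⟨h0', h1', h2'⟩
    have hfix3 : g'⁻¹ * g = 1 := hfix _ (by
      have hsub : ({a, b, c} : Finset α) ⊆ (Finset.univ.filter fun x => (g'⁻¹ * g) • x = x) := by
        intro x hx
        simp only [Finset.mem_filter, Finset.mem_univ, true_and, mul_smul, inv_smul_eq_iff]
        rcases Finset.mem_insert.1 hx with rfl | hx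
        · rw [h0']; exact h0
        rcases Finset.mem_insert.1 hx with rfl | hx
        · rw [h1']; exact h1
        · rw [Finset.mem_singleton.1 hx, h2']; exact h2
      have hc := Finset.card_le_card hsub
      rw [Finset.card_eq_three.2 ⟨a, b, c, hab, hac, hbc, rfl⟩, ← Fintype.card_subtype] at hc
      rw [Nat.card_eq_fintype_card]
      exact hc)
    exact inv_mul_eq_one.1 hfix3
  obtain ⟨K, _, _, hK, ⟨φ⟩⟩ :=
    CfsgLib.AltGroups.sharply_three_transitive_odd_degree hsharp hodd hm
  obtain ⟨n, hp, hn⟩ := FiniteField.card K (ringChar K)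
  have heven : Even (Fintype.card K) := by
    rw [← hK, Nat.odd_add_one] at hodd
    exact Nat.not_odd_iff_even.1 hodd
  rw [hn] at heven
  have hr : ringChar K = 2 := (Nat.Prime.even_iff hp).1
    ((Nat.even_pow).1 heven).1
  haveI : CharP K 2 := ringChar.of_eq hr
  obtain ⟨ψ⟩ := nonempty_SL_equiv_PGL_of_char_two (CharTwo.two_eq_zero (R := K))
  exact ⟨(n : ℕ), n.pos, by rw [← hK, hn, hr], K, inferInstance, inferInstance, by rw [hn, hr],
    ⟨φ.trans ψ.symm⟩⟩

end Cfsg.Agent.S4702
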