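import Cfsg.Statements.S4703
import Cfsg.Agent.Lib.SmallGroups.QuasiSimpleFamilies
import Cfsg.Agent.Lib.SmallGroups.QuasiSimplePSL
-- import your own Cfsg.Agent.* helpers here

set_option autoImplicit false
open Cfsg

namespace Cfsg.Agent.S4703

open CfsgLib.CharTheory CfsgLib.Blocks CfsgLib.DefectOne CfsgLib.SmallGroups.QuasiSimple

/-- Let G be a finite group whose centre Z has odd order, p > 7 a prime, and suppose a Sylow p-subgroup of G has order p and is not normal. Let ζ be a faithful irreducible character of G (only the identity lies in its kernel). Then either G/Z is isomorphic to PSL(2, p) and ζ has degree (p + 1)/2 or (p − 1)/2, or ζ has degree at least p − 2. -/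
theorem result {G : Type*} [Group G] [Finite G] (hZ : Odd (Nat.card (Subgroup.center G))) (p : ℕ) [Fact p.Prime] (hp : 7 < p) (P : Sylow p G) (hP : Nat.card P = p) (hnn : ¬ (P : Subgroup G).Normal) (ζ : G → ℂ) (hζ : Cfsg.IsIrrCharacter G ζ) (hfaith : ∀ g : G, ζ g = ζ 1 → g = 1) : ((∃ (F : Type) (_ : Field F) (_ : Fintype F), Fintype.card F = p ∧ Nonempty (G ⧸ Subgroup.center G ≃* Matrix.ProjectiveSpecialLinearGroup (Fin 2) F)) ∧ (2 * Cfsg.charDegree ζ = p + 1 ∨ 2 * Cfsg.charDegree ζ = p - 1)) ∨ p - 2 ≤ Cfsg.charDegree ζ := by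
  classical
  haveI := Fintype.ofFinite G
  rcases Nat.lt_or_ge (Cfsg.charDegree ζ) (p - 2) with hlt | hge
  swap
  · exact Or.inr hge
  left
  have hpp : p.Prime := Fact.out
  have hfac : (Nat.card G).factorization p = 1 := by
    have h := P.card_eq_multiplicity
    rw [hP] at h
    exact (Nat.pow_right_injective hpp.two_le ((pow_one p).trans h)).symm
  have hdiv : p ∣ Nat.card G := hP ▸ Subgroup.card_subgroup_dvd_card (P : Subgroup G)
  have hsq : ¬ p ^ 2 ∣ Nat.card G := fun h => by
    have := (hpp.pow_dvd_iff_le_factorization Nat.card_pos.ne').1 h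
    omega
  have hnn' : ∀ H : Subgroup G, H.Normal → Nat.card H ≠ p := fun H hH hc => by
    let Q : Sylow p G := Sylow.ofCard H (by rw [hc, hfac, pow_one])
    obtain ⟨g, hg⟩ := MulAction.exists_smul_eq G Q P
    have h1 : g • Q = Q := Sylow.smul_eq_iff_mem_normalizer.2 (by
      show g ∈ Subgroup.normalizer ((H : Subgroup G) : Set G)
      rw [Subgroup.normalizer_eq_top_iff.2 hH]
      exact Subgroup.mem_top g)
    rw [h1] at hg
    exact hnn (hg ▸ hH)
  have hG : ExactPrime G p := ⟨hpp, hdiv, hsq⟩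
  obtain ⟨u, hu⟩ := exists_prime_orderOf_dvd_card' (G := ↥(pClosure G p)) p (exactPrime_pClosure hG).dvd
  obtain ⟨S, -⟩ := exists_sect (exactPrime_pClosure hG) hu
  have h := hyp_pClosure hG hnn' hζ hfaith (by omega) S
  have hodd : Odd (Nat.card (Subgroup.center (pClosure G p))) := by
    refine hZ.of_dvd_nat ?_
    rw [← Subgroup.card_map_of_injective (K := Subgroup.center (pClosure G p)) (pClosure G p).subtype_injective]
    refine Subgroup.card_dvd_of_le ?_
    rintro _ ⟨z, hz, rfl⟩
    exact center_le_center hfaith (IsIrrCharacter.isCharacter hζ) h z hz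
  have hd : charDegree (fun k : pClosure G p => ζ k) = Cfsg.charDegree ζ := by simp [charDegree]
  rcases h.degree_cases hodd with h' | h' | h' <;> rw [hd] at h'
  · obtain ⟨iso⟩ := CfsgLib.HalfDegree.psl_of_half_degree hdiv hsq hnn' (IsIrrCharacter.isCharacter hζ) hfaith h'
    exact ⟨⟨ZMod p, inferInstance, inferInstance, ZMod.card p, ⟨iso⟩⟩, Or.inr (by omega)⟩
  · obtain ⟨iso⟩ := psl_of_upper hdiv hsq hnn' hζ hfaith hp h'
    exact ⟨⟨ZMod p, inferInstance, inferInstance, ZMod.card p, ⟨iso⟩⟩, Or.inl h'⟩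
  · omega

end Cfsg.Agent.S4703
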