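import Cfsg.Statements.S4704
import Cfsg.Agent.Lib.OrderDegrees.UpperClasses
import Cfsg.Agent.Lib.SmallGroups.QuasiSimplePSL
-- import your own Cfsg.Agent.* helpers here

set_option autoImplicit false
open Cfsg

namespace Cfsg.Agent.S4704

open CfsgLib.CharTheory CfsgLib.Blocks CfsgLib.DefectOne CfsgLib.SmallGroups.QuasiSimple

/-- Let G be a finite group with centre Z, p > 7 a prime, and suppose a Sylow p-subgroup of G has order p and is not normal. Let ζ be a faithful irreducible character of G and t the number of conjugacy classes of G consisting of elements of order p. Then one of the following holds: G/Z is isomorphic to PSL(2, p), ζ has degree (p + 1)/2 or (p − 1)/2 and t = 2; or ζ has degree at least p − 1; or ζ has degree at least p + 3/2 − √(p + 5/4) and p ≤ t^2 − 3t + 1. -/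
theorem result {G : Type*} [Group G] [Finite G] (p : ℕ) [Fact p.Prime] (hp : 7 < p) (P : Sylow p G) (hP : Nat.card P = p) (hnn : ¬ (P : Subgroup G).Normal) (ζ : G → ℂ) (hζ : Cfsg.IsIrrCharacter G ζ) (hfaith : ∀ g : G, ζ g = ζ 1 → g = 1) (t : ℕ) (ht : Nat.card {c : ConjClasses G // ∃ g : G, ConjClasses.mk g = c ∧ orderOf g = p} = t) : ((∃ (F : Type) (_ : Field F) (_ : Fintype F), Fintype.card F = p ∧ Nonempty (G ⧸ Subgroup.center G ≃* Matrix.ProjectiveSpecialLinearGroup (Fin 2) F)) ∧ (2 * Cfsg.charDegree ζ = p + 1 ∨ 2 * Cfsg.charDegree ζ = p - 1) ∧ t = 2) ∨ p - 1 ≤ Cfsg.charDegree ζ ∨ ((p : ℝ) + 3 / 2 - Real.sqrt ((p : ℝ) + 5 / 4) ≤ (Cfsg.charDegree ζ : ℝ) ∧ (p : ℤ) ≤ (t : ℤ) ^ 2 - 3 * t + 1) := by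
  classical
  haveI := Fintype.ofFinite G
  rcases Nat.lt_or_ge (Cfsg.charDegree ζ + 1) p with hlt | hge
  swap
  · exact Or.inr (Or.inl (by omega))
  have hpp : p.Prime := Fact.out
  have hfac : (Nat.card G).factorization p = 1 := by
    have h := P.card_eq_multiplicity
    rw [hP] at h
    exact (Nat.pow_right_injective hpp.two_le ((pow_one p).trans h)).symm
  have hdiv : p ∣ Nat.card G := hP ▸ Subgroup.card_subgroup_dvd_card (P : Subgroup G)
  have hsq : ¬ p ^ 2 ∣ Nat.card G := fun h => by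
    have := (hpp.pow_dvd_iff_le_factorization Nat.card_pos.ne').1 h
    omega
  have hnn' : ∀ H : Subgroup G, H.Normal → Nat.card H ≠ p := fun H hH hc => by
    let Q : Sylow p G := Sylow.ofCard H (by rw [hc, hfac, pow_one])
    obtain ⟨g, hg⟩ := MulAction.exists_smul_eq G Q P
    have h1 : g • Q = Q := Sylow.smul_eq_iff_mem_normalizer.2 (by
      show g ∈ Subgroup.normalizer ((H : Subgroup G) : Set G)
      rw [Subgroup.normalizer_eq_top_iff.2 hH]
      exact Subgroup.mem_top g)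
    rw [h1] at hg
    exact hnn (hg ▸ hH)
  have hG : ExactPrime G p := ⟨hpp, hdiv, hsq⟩
  obtain ⟨u, hu⟩ := exists_prime_orderOf_dvd_card' (G := ↥(pClosure G p)) p (exactPrime_pClosure hG).dvd
  obtain ⟨S, -⟩ := exists_sect (exactPrime_pClosure hG) hu
  have h := hyp_pClosure hG hnn' hζ hfaith hlt S
  have hd : charDegree (fun k : pClosure G p => ζ k) = Cfsg.charDegree ζ := by simp [charDegree]
  obtain ⟨τ, hpt, hcase, hl⟩ := CfsgLib.OrderDegrees.Upper.degree_bound h hp
  have hcount := CfsgLib.OrderDegrees.Upper.card_classes hG (IsIrrCharacter.isClassFunction hζ) S hl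
  rw [ht] at hcount
  obtain rfl : τ = t := by
    have he := rowE_pos h.exact S (trivIrr S.V)
    exact Nat.eq_of_mul_eq_mul_left he (by omega)
  rw [hd] at hcase
  rcases hcase with ⟨ht2, hD⟩ | ⟨hD, he3⟩
  · left
    rcases hD with hD | hD
    · obtain ⟨iso⟩ := CfsgLib.HalfDegree.psl_of_half_degree hdiv hsq hnn' (IsIrrCharacter.isCharacter hζ) hfaith hD
      exact ⟨⟨ZMod p, inferInstance, inferInstance, ZMod.card p, ⟨iso⟩⟩, Or.inr (by omega), ht2⟩
    · obtain ⟨iso⟩ := psl_of_upper hdiv hsq hnn' hζ hfaith hp hD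
      exact ⟨⟨ZMod p, inferInstance, inferInstance, ZMod.card p, ⟨iso⟩⟩, Or.inl hD, ht2⟩
  · right; right
    set e := rowE S (trivIrr S.V)
    constructor
    · have hD' : (Cfsg.charDegree ζ : ℝ) = (p : ℝ) - e := by
        rw [eq_sub_iff_add_eq]
        exact_mod_cast hD
      have hsq' : ((e : ℝ) + 3 / 2) ≤ Real.sqrt ((p : ℝ) + 5 / 4) := by
        refine Real.le_sqrt_of_sq_le ?_
        have h1 : e * (e + 3) ≤ e * τ := Nat.mul_le_mul_left e he3
        have h2 : (e : ℝ) * ((e : ℝ) + 3) ≤ (e : ℝ) * (τ : ℝ) := by exact_mod_cast h1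
        have h3 : (p : ℝ) = (e : ℝ) * (τ : ℝ) + 1 := by exact_mod_cast hpt
        nlinarith
      linarith
    · have hpZ : (p : ℤ) = (e : ℤ) * (τ : ℤ) + 1 := by exact_mod_cast hpt
      have h1 : (e : ℤ) * (τ : ℤ) ≤ ((τ : ℤ) - 3) * (τ : ℤ) :=
        mul_le_mul_of_nonneg_right (by omega) (Int.natCast_nonneg _)
      nlinarith

end Cfsg.Agent.S4704
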