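import Cfsg.Statements.S4706
import Cfsg.Agent.Lib.SmallGroups.BrauerReynoldsPrimeDegree
import Cfsg.Agent.Lib.SmallGroups.BrauerReynoldsMain
import Cfsg.Agent.Lib.PermGroups.PrimeDegreeSylow
import Cfsg.Agent.Lib.ClassicalLinear.Simple
import Cfsg.Agent.Lib.ClassicalLinear.ProjLine
import Cfsg.Agent.S0494
import Mathlib.Data.Fintype.CardEmbedding
-- import your own Cfsg.Agent.* helpers here

set_option autoImplicit false
open Cfsg

namespace Cfsg.Agent.S4706

open CfsgLib.SmallGroups CfsgLib.SmallGroups.BrauerReynolds CfsgLib.BrauerCharacters in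
/-- A transitive group of prime degree `p ≥ 7` with Sylow normaliser of order `2 p` and at least
`1 + 2 p` Sylow subgroups has order at most `p (p - 1) (p - 2)`. -/
theorem card_le_three {G : Type*} [Group G] [Finite G] [IsSimpleGroup G] {α : Type*} [MulAction G α]
    [Finite α] [FaithfulSMul G α] [MulAction.IsPretransitive G α] {p : ℕ} [Fact p.Prime]
    (hα : Nat.card α = p) (h7 : 7 ≤ p) (hnc : ¬ IsMulCommutative G) (P : Sylow p G)
    (hP : Nat.card ↥(P : Subgroup G) = p)
    (hC : Nat.card ↥(Subgroup.centralizer ((P : Subgroup G) : Set G)) = p * 1)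
    (hN : Nat.card ↥(Subgroup.normalizer ((P : Subgroup G) : Set G)) = p * 1 * 2)
    {r : ℕ} (hr : Nat.card (Sylow p G) = 1 + r * p) (hr2 : 2 ≤ r) :
    Nat.card G ≤ p * (p - 1) * (p - 2) := by
  classical
  haveI : Fintype G := Fintype.ofFinite G
  haveI : Fintype α := Fintype.ofFinite α
  obtain ⟨t, ht⟩ := (Fact.out : p.Prime).odd_of_ne_two (by omega)
  have het : p - 1 = 2 * t := by omega
  have S : Setup P 2 1 r t := ⟨⟨hnc, hP, hC, hN, hr, le_rfl, het, hr2⟩, by omega⟩
  haveI : IsMulCommutative ↥(P : Subgroup G) := by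
    haveI : IsCyclic ↥(P : Subgroup G) := isCyclic_of_prime_card hP
    exact ⟨⟨fun a b => IsCyclic.commGroup.mul_comm a b⟩⟩
  obtain ⟨M, hM⟩ := CfsgLib.CharDegreesTheory.exists_isPModular (Fact.out : p.Prime)
  haveI : M.IsPrime := hM.2.1.isPrime
  haveI : Fintype (IrrCharacter G) := Fintype.ofFinite _
  obtain ⟨E, F⟩ := S.exists_frame
  haveI := S.comm_E F
  obtain ⟨D⟩ := AbelianPrincipal.nonempty_data S.hyp hM
  obtain ⟨e₀⟩ : Nonempty (Fin 3 ↪ α) := Function.Embedding.nonempty_of_card_le (by
    rw [Fintype.card_fin, ← Nat.card_eq_fintype_card, hα]; omega)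
  let f : G → (Fin 3 ↪ α) := fun g =>
    ⟨fun i => g • e₀ i, fun i j h => e₀.injective (smul_left_cancel g h)⟩
  have hf : Function.Injective f := by
    intro g k h
    have hfix : ∀ i, (g⁻¹ * k) • e₀ i = e₀ i := fun i => by
      have h1 : g • e₀ i = k • e₀ i := congrArg (fun e : Fin 3 ↪ α => e i) h
      rw [mul_smul, ← h1, inv_smul_smul]
    have h3 : 3 ≤ Nat.card (MulAction.fixedBy α (g⁻¹ * k)) := by
      have := Nat.card_le_card_of_injective
        (fun i => (⟨e₀ i, hfix i⟩ : MulAction.fixedBy α (g⁻¹ * k)))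
        (fun i j h => e₀.injective (congrArg Subtype.val h))
      rwa [Nat.card_fin] at this
    exact inv_mul_eq_one.1 (S.eq_one_of_three_le_card_fixedBy hM D F α hα (by omega) h3)
  have h := Nat.card_le_card_of_injective f hf
  have hdf : p.descFactorial 3 = p * (p - 1) * (p - 2) := by
    simp [Nat.descFactorial]; ring
  rw [Nat.card_eq_fintype_card (α := Fin 3 ↪ α), Fintype.card_embedding_eq, Fintype.card_fin,
    ← Nat.card_eq_fintype_card, hα, hdf] at h
  exact h

/-- Let p > 2 be a prime and G a permutation group on p letters whose Sylow p-subgroup P has normalizer of order 2p. Then either P is normal in G, or p − 1 = 2^a for some a and G is isomorphic to SL(2, 2^a). -/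
theorem result {α : Type*} [Fintype α] [DecidableEq α] {p : ℕ} [Fact p.Prime] (hp : 2 < p) (hα : Fintype.card α = p) (G : Subgroup (Equiv.Perm α)) (P : Sylow p G) (hN : Nat.card (Subgroup.normalizer ((P : Subgroup G) : Set G)) = 2 * p) : (P : Subgroup G).Normal ∨ ∃ (a : ℕ) (F : Type) (_ : Field F) (_ : Fintype F), p = 2 ^ a + 1 ∧ Fintype.card F = 2 ^ a ∧ Nonempty (G ≃* Matrix.SpecialLinearGroup (Fin 2) F) := by
  classical
  by_contra hcon
  rw [not_or] at hcon
  obtain ⟨hnn, hiso⟩ := hcon
  have hp : p.Prime := Fact.out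
  have hα' : Nat.card α = p := by rw [Nat.card_eq_fintype_card, hα]
  haveI : FaithfulSMul G α := inferInstance
  -- transitivity
  have hpG : p ∣ Nat.card G := by
    have h : p ∣ Nat.card ↥(Subgroup.normalizer ((P : Subgroup G) : Set G)) := by rw [hN]; exact dvd_mul_left _ _
    exact h.trans (Subgroup.card_subgroup_dvd_card _)
  obtain ⟨σ, hσ⟩ := exists_prime_orderOf_dvd_card' p hpG
  haveI : MulAction.IsPretransitive G α := by
    haveI := CfsgLib.PermGroups.zpowers_isPretransitive (α := α) hα' hσ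
    exact ⟨fun x y => by
      obtain ⟨g, hg⟩ := MulAction.exists_smul_eq (Subgroup.zpowers σ) x y
      exact ⟨(g : G), hg⟩⟩
  have hP := CfsgLib.PermGroups.natCard_sylow_prime_degree (α := α) hα' P
  have hNP : Nat.card ↥(Subgroup.normalizer ((P : Subgroup G) : Set G)) = p * 2 := by rw [hN, mul_comm]
  haveI hsimple : IsSimpleGroup G :=
    CfsgLib.PermGroups.isSimpleGroup_of_normalizer_prime_index (α := α) hα' P Nat.prime_two hNP hnn
  have hnc : ¬ IsMulCommutative G := fun h => hnn ⟨fun w hw g => by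
    rwa [h.is_comm.comm g w, mul_inv_cancel_right]⟩
  have hcyc : ¬ IsCyclic G := fun h => hnc ⟨⟨fun a b => IsCyclic.commGroup.mul_comm a b⟩⟩
  obtain ⟨r, hr⟩ : ∃ r, Nat.card (Sylow p G) = 1 + r * p := by
    refine ⟨Nat.card (Sylow p G) / p, ?_⟩
    have h := Nat.div_add_mod (Nat.card (Sylow p G)) p
    have hmod := card_sylow_modEq_one p G
    rw [Nat.ModEq, Nat.mod_eq_of_lt hp.one_lt] at hmod
    rw [hmod, mul_comm] at h
    omega
  have hGcard : Nat.card G = (1 + r * p) * (2 * p) := by
    rw [← CfsgLib.SmallGroups.card_sylow_mul_card_normalizer P, hr, hN]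
  have hdvd : Nat.card G ∣ p.factorial := by
    have h := Subgroup.card_subgroup_dvd_card G
    rwa [Nat.card_perm, hα'] at h
  have hn1 : 1 < Nat.card (Sylow p G) := CfsgLib.SmallGroups.one_lt_card_sylow hnc hpG
  have hr1 : 1 ≤ r := by
    rcases Nat.eq_zero_or_pos r with h | h
    · rw [hr, h, zero_mul] at hn1; omega
    · exact h
  have hp5 : 5 ≤ p := by
    by_contra h
    rcases (show p = 3 ∨ p = 4 by omega) with h3 | h4
    · subst h3
      have := Nat.le_of_dvd (Nat.factorial_pos _) hdvd
      simp only [Nat.factorial] at this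
      omega
    · exact absurd (h4 ▸ hp) (by norm_num)
  have hbig : Nat.card G < p ^ 3 := by
    rcases (show p = 5 ∨ 7 ≤ p by
      have h6 : p ≠ 6 := fun h => by rw [h] at hp; norm_num at hp
      omega) with h5 | h7
    · subst h5
      have := Nat.le_of_dvd (Nat.factorial_pos _) hdvd
      simp only [Nat.factorial] at this
      omega
    rcases hr1.eq_or_lt with h1 | h2
    · rw [hGcard, ← h1]
      have : 49 ≤ p * p := Nat.mul_le_mul h7 h7
      nlinarith
    · refine lt_of_le_of_lt (card_le_three (α := α) hα' h7 hnc P hP ?_ ?_ hr h2) ?_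
      · rw [CfsgLib.PermGroups.centralizer_sylow_prime_degree (α := α) hα' P, hP, mul_one]
      · rw [mul_one, hNP]
      · have h1 : (p - 1) * (p - 2) < p * p := by
          calc (p - 1) * (p - 2) ≤ (p - 1) * p := Nat.mul_le_mul_left _ (by omega)
            _ < p * p := Nat.mul_lt_mul_of_pos_right (by omega) (by omega)
        calc p * (p - 1) * (p - 2) = p * ((p - 1) * (p - 2)) := by ring
          _ < p * (p * p) := Nat.mul_lt_mul_of_pos_left h1 (by omega)
          _ = p ^ 3 := by ring
  refine hiso ?_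
  rcases CfsgLib.SmallGroups.BrauerReynolds.brauer_reynolds (G := G) hcyc hpG hbig with
    ⟨F, iF, jF, hF, h3, ⟨i⟩⟩ | ⟨m, F, iF, jF, hF, hp2, h3, ⟨i⟩⟩
  · -- `PSL(2, p)` forces `p = 5`
    have h2 := CfsgLib.ClassicalLinear.card_PSL_two_of_odd hF (hp.odd_of_ne_two (by omega))
    rw [← Nat.card_congr i.toEquiv, hGcard] at h2
    obtain ⟨q, hq⟩ : ∃ q, p ^ 2 = q + 1 := ⟨p ^ 2 - 1, by
      have : 0 < p ^ 2 := by positivity
      omega⟩
    rw [hq, Nat.add_sub_cancel] at h2
    have h4 : 4 * (1 + r * p) = q := by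
      apply Nat.eq_of_mul_eq_mul_left hp.pos
      linarith
    have hdvd5 : p ∣ 5 := by
      have h5 : p * p = 5 + p * (4 * r) := by rw [← sq, hq, ← h4]; ring
      exact (Nat.dvd_add_left (dvd_mul_right p (4 * r))).1 (h5 ▸ dvd_mul_right p p)
    have hp5' : p = 5 := (Nat.prime_dvd_prime_iff_eq hp Nat.prime_five).1 hdvd5
    subst hp5'
    have h60 : Nat.card G = 60 := by
      rw [Nat.card_congr i.toEquiv]
      exact CfsgLib.ClassicalLinear.card_PSL_two_card_five hF
    obtain ⟨a⟩ := Cfsg.Agent.S0494.result h60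
    letI : Fintype (GaloisField 2 2) := Fintype.ofFinite _
    have hK : Fintype.card (GaloisField 2 2) = 4 := by
      rw [← Nat.card_eq_fintype_card, GaloisField.card 2 2 (by norm_num)]; norm_num
    have h60' := CfsgLib.ClassicalLinear.card_PSL_two_card_four hK
    haveI := CfsgLib.ClassicalLinear.isSimpleGroup_psl_fin (F := GaloisField 2 2) (n := 2) le_rfl
      (fun _ => by rw [Nat.card_eq_fintype_card, hK])
    obtain ⟨b⟩ := Cfsg.Agent.S0494.result h60'
    let π : Matrix.SpecialLinearGroup (Fin 2) (GaloisField 2 2) →*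
        Matrix.ProjectiveSpecialLinearGroup (Fin 2) (GaloisField 2 2) := QuotientGroup.mk' _
    have hb : Function.Bijective π := by
      refine (Nat.bijective_iff_surjective_and_card _).2 ⟨QuotientGroup.mk'_surjective _, ?_⟩
      rw [CfsgLib.ClassicalLinear.card_PSL_two_of_even hK (by decide),
        CfsgLib.ClassicalLinear.card_SL_two hK]
    exact ⟨2, GaloisField 2 2, inferInstance, inferInstance, by norm_num, by rw [hK]; norm_num,
      ⟨(a.trans b.symm).trans (MulEquiv.ofBijective π hb).symm⟩⟩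
  · have hm : m ≠ 0 := fun h => by rw [h, pow_zero] at hp2; omega
    let π : Matrix.SpecialLinearGroup (Fin 2) F →* Matrix.ProjectiveSpecialLinearGroup (Fin 2) F :=
      QuotientGroup.mk' _
    have hb : Function.Bijective π := by
      refine (Nat.bijective_iff_surjective_and_card _).2 ⟨QuotientGroup.mk'_surjective _, ?_⟩
      rw [CfsgLib.ClassicalLinear.card_PSL_two_of_even hF (Nat.even_pow.2 ⟨even_two, hm⟩),
        CfsgLib.ClassicalLinear.card_SL_two hF]
    exact ⟨m, F, iF, jF, hp2, hF, ⟨i.trans (MulEquiv.ofBijective π hb).symm⟩⟩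

end Cfsg.Agent.S4706
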