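import Cfsg.Statements.S4707
import Cfsg.Agent.Lib.SmallGroups.BrauerReynoldsTwoP
import Cfsg.Agent.Lib.SmallGroups.BrauerReynoldsMain
import Cfsg.Agent.Lib.PermGroups.Jordan
import Cfsg.Agent.Lib.ClassicalLinear.ProjLine
import Cfsg.Agent.S0494
-- import your own Cfsg.Agent.* helpers here

set_option autoImplicit false
open Cfsg

namespace Cfsg.Agent.S4707

/-- The simple group of the statement, its Sylow subgroup and the order of the normaliser. -/
theorem structure_facts {G : Type*} [Group G] [Finite G] {α : Type*} [MulAction G α] [Finite α]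
    [FaithfulSMul G α] [MulAction.IsPreprimitive G α] {p : ℕ} [Fact p.Prime] (hp : 3 < p)
    (hα : Nat.card α = 2 * p) (P : Sylow p G)
    (hN : Nat.card ↥(Subgroup.normalizer ((P : Subgroup G) : Set G)) = 2 * p) :
    IsSimpleGroup G ∧ Nat.card ↥(P : Subgroup G) = p ∧
      Nat.card ↥(Subgroup.centralizer ((P : Subgroup G) : Set G)) = p * 1 := by
  classical
  have hpp : p.Prime := Fact.out
  haveI : Nonempty α := Finite.card_pos_iff.1 (by omega)
  have h2pG : 2 * p ∣ Nat.card G := by
    obtain ⟨a⟩ := (inferInstance : Nonempty α)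
    rw [← hα, ← MulAction.index_stabilizer_of_transitive G a]
    exact Subgroup.index_dvd_card _
  have hpG : p ∣ Nat.card G := dvd_trans (dvd_mul_left p 2) h2pG
  have hP : Nat.card ↥(P : Subgroup G) = p := by
    obtain ⟨k, hk⟩ := (IsPGroup.iff_card.1 P.isPGroup')
    have h1 : Nat.card ↥(P : Subgroup G) ∣ 2 * p := hN ▸ Subgroup.card_dvd_of_le Subgroup.le_normalizer
    have hdvd : p ∣ Nat.card ↥(P : Subgroup G) := P.dvd_card_of_dvd_card hpG
    rcases (show k = 0 ∨ k = 1 ∨ 2 ≤ k by omega) with rfl | rfl | h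
    · rw [hk, pow_zero] at hdvd
      exact absurd hdvd hpp.not_dvd_one
    · rw [hk, pow_one]
    · exfalso
      have h2 : p * p ∣ 2 * p := by
        refine dvd_trans ?_ h1
        rw [hk, ← sq]
        exact pow_dvd_pow p h
      have := Nat.le_of_dvd two_pos (Nat.dvd_of_mul_dvd_mul_right hpp.pos h2)
      omega
  haveI hcomm : IsMulCommutative ↥(P : Subgroup G) := by
    haveI : IsCyclic ↥(P : Subgroup G) := isCyclic_of_prime_card hP
    exact ⟨⟨fun a b => IsCyclic.commGroup.mul_comm a b⟩⟩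
  have htrans : ∀ M : Subgroup G, M.Normal → M ≠ ⊥ → MulAction.IsPretransitive M α ∧ 2 * p ∣ Nat.card M :=
    fun M hM hne => by
      haveI := hM
      haveI := CfsgLib.PermGroups.isPretransitive_of_normal_of_preprimitive (α := α) M hne
      obtain ⟨a⟩ := (inferInstance : Nonempty α)
      refine ⟨inferInstance, ?_⟩
      rw [← hα, ← MulAction.index_stabilizer_of_transitive M a]
      exact Subgroup.index_dvd_card _
  have hPC : (P : Subgroup G) ≤ Subgroup.centralizer ((P : Subgroup G) : Set G) := fun x hx =>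
    Subgroup.mem_centralizer_iff.2 fun y hy => congrArg Subtype.val
      (hcomm.is_comm.comm (⟨y, hy⟩ : ↥(P : Subgroup G)) ⟨x, hx⟩)
  have hC : Nat.card ↥(Subgroup.centralizer ((P : Subgroup G) : Set G)) = p * 1 := by
    obtain ⟨k, hk⟩ : p ∣ Nat.card ↥(Subgroup.centralizer ((P : Subgroup G) : Set G)) := by
      have h := Subgroup.card_dvd_of_le hPC
      rwa [hP] at h
    have h1 : p * k ∣ p * 2 := by
      rw [← hk, mul_comm p 2, ← hN]
      exact Subgroup.card_dvd_of_le (Subgroup.centralizer_le_normalizer _)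
    rcases (Nat.dvd_prime Nat.prime_two).1 (Nat.dvd_of_mul_dvd_mul_left hpp.pos h1) with rfl | rfl
    · exact hk
    · exfalso
      have hle : Subgroup.normalizer ((P : Subgroup G) : Set G) ≤
          Subgroup.centralizer ((P : Subgroup G) : Set G) :=
        (Subgroup.eq_of_le_of_card_ge (Subgroup.centralizer_le_normalizer _)
          (by rw [hk, hN, mul_comm])).ge
      set K := (MonoidHom.transferSylow P hle).ker with hK
      have hKn : K.Normal := inferInstance
      have hcompl := MonoidHom.ker_transferSylow_isComplement' P hle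
      by_cases hK0 : K = ⊥
      · have h3 := hcompl.card_mul
        rw [← hK, hK0, Subgroup.card_bot, one_mul, hP] at h3
        rw [← h3] at h2pG
        have := Nat.le_of_dvd hpp.pos h2pG
        omega
      · exact MonoidHom.not_dvd_card_ker_transferSylow P hle
          (dvd_trans (dvd_mul_left p 2) (htrans K hKn hK0).2)
  refine ⟨?_, hP, hC⟩
  haveI : Nontrivial G := Finite.one_lt_card_iff_nontrivial.1
    (lt_of_lt_of_le hpp.one_lt (Nat.le_of_dvd Nat.card_pos hpG))
  refine { eq_bot_or_eq_top_of_normal := fun M hM => or_iff_not_imp_left.2 fun hne => ?_ }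
  haveI := hM
  obtain ⟨-, h2pM⟩ := htrans M hM hne
  have hpM : p ∣ Nat.card M := dvd_trans (dvd_mul_left p 2) h2pM
  have hPM : (P : Subgroup G) ≤ M := by
    obtain ⟨x, hx⟩ := exists_prime_orderOf_dvd_card' p hpM
    obtain ⟨Q, hQ⟩ := (IsPGroup.of_card (p := p) (n := 1) (G := Subgroup.zpowers (x : G))
      (by rw [Nat.card_zpowers, Subgroup.orderOf_coe, hx, pow_one])).exists_le_sylow
    have hQZ : Subgroup.zpowers (x : G) = (Q : Subgroup G) := Subgroup.eq_of_le_of_card_ge hQ (by
      rw [Sylow.card_eq_multiplicity Q, ← Sylow.card_eq_multiplicity P, hP, Nat.card_zpowers,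
        Subgroup.orderOf_coe, hx])
    have hQM : (Q : Subgroup G) ≤ M := hQZ ▸ Subgroup.zpowers_le.2 x.2
    obtain ⟨g, rfl⟩ := MulAction.exists_smul_eq G Q P
    rintro _ ⟨w, hw, rfl⟩
    exact hM.conj_mem w (hQM hw) g
  set N := Subgroup.normalizer ((P : Subgroup G) : Set G) with hNdef
  obtain ⟨k, hk⟩ : p ∣ Nat.card ↥(N ⊓ M : Subgroup G) :=
    hP ▸ Subgroup.card_dvd_of_le (le_inf Subgroup.le_normalizer hPM)
  have h1 : p * k ∣ p * 2 := by
    rw [← hk, mul_comm p 2, ← hN]
    exact Subgroup.card_dvd_of_le inf_le_left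
  rcases (Nat.dvd_prime Nat.prime_two).1 (Nat.dvd_of_mul_dvd_mul_left hpp.pos h1) with rfl | rfl
  · -- the normal complement of `M` would be normal in `G`
    exfalso
    have hNM : N ⊓ M = (P : Subgroup G) :=
      (Subgroup.eq_of_le_of_card_ge (le_inf Subgroup.le_normalizer hPM) (by rw [hk, hP, mul_one])).symm
    let Q : Sylow p M := P.subtype hPM
    have hQ : (Q : Subgroup M) = (P : Subgroup G).subgroupOf M := P.coe_subtype hPM
    have hle : Subgroup.normalizer ((Q : Subgroup M) : Set M) ≤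
        Subgroup.centralizer ((Q : Subgroup M) : Set M) := by
      intro x hx
      have hxP : (x : G) ∈ (P : Subgroup G) := by
        rw [← hNM]
        refine ⟨Subgroup.mem_normalizer_iff.2 fun y => ?_, x.2⟩
        by_cases hy : y ∈ M
        · have := Subgroup.mem_normalizer_iff.1 hx ⟨y, hy⟩
          simpa [hQ, Subgroup.mem_subgroupOf] using this
        · refine iff_of_false (fun h => hy (hPM h)) fun h => hy ?_
          have := hM.conj_mem _ (hPM h) (x : G)⁻¹
          simpa [mul_assoc] using this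
      refine Subgroup.mem_centralizer_iff.2 fun y hy => Subtype.ext ?_
      have hy' : (y : G) ∈ (P : Subgroup G) := by simpa [hQ, Subgroup.mem_subgroupOf] using hy
      have h := congrArg Subtype.val (hcomm.is_comm.comm (⟨y, hy'⟩ : ↥(P : Subgroup G)) ⟨x, hxP⟩)
      exact h
    set K := (MonoidHom.transferSylow Q hle).ker with hK
    have hcompl := MonoidHom.ker_transferSylow_isComplement' Q hle
    have hQcard : Nat.card ↥(Q : Subgroup M) = p := by
      rw [hQ, Nat.card_congr (Subgroup.subgroupOfEquivOfLe hPM).toEquiv, hP]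
    have hKidx : K.index = p := by rw [hcompl.symm.index_eq_card, hQcard]
    have hKn : (K.map M.subtype).Normal := by
      refine ⟨fun n hn g => ?_⟩
      obtain ⟨w, hw, rfl⟩ := hn
      have hwM : g * (w : G) * g⁻¹ ∈ M := hM.conj_mem _ w.2 g
      refine ⟨⟨_, hwM⟩, ?_, rfl⟩
      have hnd : ¬ p ∣ orderOf (⟨_, hwM⟩ : M) := by
        rw [← Subgroup.orderOf_coe]
        show ¬ p ∣ orderOf (g * (w : G) * g⁻¹)
        rw [← MulAut.conj_apply, (MulAut.conj g).orderOf_eq, Subgroup.orderOf_coe]
        exact fun h => MonoidHom.not_dvd_card_ker_transferSylow Q hle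
          (h.trans (Subgroup.orderOf_dvd_natCard _ hw))
      have h2 : orderOf ((⟨_, hwM⟩ : M) : M ⧸ K) ∣ orderOf (⟨_, hwM⟩ : M) :=
        orderOf_map_dvd (QuotientGroup.mk' K) _
      have h3 : orderOf ((⟨_, hwM⟩ : M) : M ⧸ K) ∣ p := by
        have h := orderOf_dvd_natCard ((⟨_, hwM⟩ : M) : M ⧸ K)
        rwa [show Nat.card (M ⧸ K) = p from hKidx] at h
      rcases (Nat.dvd_prime hpp).1 h3 with h | h
      · exact (QuotientGroup.eq_one_iff _).1 (orderOf_eq_one_iff.1 h)
      · exact absurd (h ▸ h2) hnd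
    by_cases hK0 : K.map M.subtype = ⊥
    · rw [Subgroup.map_eq_bot_iff_of_injective _ M.subtype_injective] at hK0
      rw [hK0, Subgroup.index_bot] at hKidx
      have := Nat.le_of_dvd hpp.pos (hKidx ▸ h2pM)
      omega
    · have h := (htrans _ hKn hK0).2
      rw [Subgroup.card_subtype] at h
      exact MonoidHom.not_dvd_card_ker_transferSylow Q hle (dvd_trans (dvd_mul_left p 2) h)
  · have hNle : N ⊓ M = N :=
      Subgroup.eq_of_le_of_card_ge inf_le_left (by rw [hk, hN, mul_comm])
    have h := P.normalizer_sup_eq_top' hPM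
    exact (sup_eq_right.2 (hNle ▸ inf_le_right : N ≤ M)).symm.trans h

open CfsgLib.SmallGroups CfsgLib.SmallGroups.BrauerReynolds CfsgLib.BrauerCharacters in
/-- The order bound, and no action on `2 p` points for `p ≥ 17`. -/
theorem bound {G : Type*} [Group G] [Finite G] [IsSimpleGroup G] {α : Type*} [MulAction G α]
    [Finite α] [MulAction.IsPretransitive G α] {p : ℕ} [Fact p.Prime] (hp : 5 ≤ p)
    (hα : Nat.card α = 2 * p) (hn2 : ¬ MulAction.IsMultiplyPretransitive G α 2)
    (hnc : ¬ IsMulCommutative G) (P : Sylow p G) (hP : Nat.card ↥(P : Subgroup G) = p)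
    (hC : Nat.card ↥(Subgroup.centralizer ((P : Subgroup G) : Set G)) = p * 1)
    (hN : Nat.card ↥(Subgroup.normalizer ((P : Subgroup G) : Set G)) = p * 1 * 2)
    {r : ℕ} (hr : Nat.card (Sylow p G) = 1 + r * p) (hr2 : 2 ≤ r) :
    Nat.card G < p ^ 3 ∧
      ∀ q : ℕ, p = q + 1 → 8 ≤ q → Nat.card G = (q + 1) * q * (q - 1) → (∃ m, q = 2 ^ m) → False := by
  classical
  haveI : Fintype G := Fintype.ofFinite G
  obtain ⟨t, ht⟩ := (Fact.out : p.Prime).odd_of_ne_two (by omega)
  have het : p - 1 = 2 * t := by omega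
  have S : Setup P 2 1 r t := ⟨⟨hnc, hP, hC, hN, hr, le_rfl, het, hr2⟩, by omega⟩
  haveI : IsMulCommutative ↥(P : Subgroup G) := by
    haveI : IsCyclic ↥(P : Subgroup G) := isCyclic_of_prime_card hP
    exact ⟨⟨fun a b => IsCyclic.commGroup.mul_comm a b⟩⟩
  obtain ⟨M, hM⟩ := CfsgLib.CharDegreesTheory.exists_isPModular (Fact.out : p.Prime)
  haveI : M.IsPrime := hM.2.1.isPrime
  haveI : Fintype (IrrCharacter G) := Fintype.ofFinite _
  obtain ⟨E, F⟩ := S.exists_frame
  haveI := S.comm_E F
  obtain ⟨D⟩ := AbelianPrincipal.nonempty_data S.hyp hM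
  obtain ⟨θ, hθ⟩ := S.exists_deg_sub_two hM D F α hα hn2
  refine ⟨S.card_lt_cube hM D F ⟨θ, hθ⟩, fun q hq h8 hcard hpow => ?_⟩
  obtain ⟨hdeg, -, -, hodd, hinv, -, -⟩ := S.values_two hM D F hθ
  have ht3 : 3 ≤ t := by omega
  obtain ⟨a⟩ : Nonempty α := Finite.card_pos_iff.1 (by omega)
  set H := MulAction.stabilizer G a with hH
  obtain ⟨m, hm⟩ := hpow
  obtain ⟨s, hs⟩ : ∃ s, q = 2 * s := by
    rcases Nat.eq_zero_or_pos m with h | h
    · rw [h, pow_zero] at hm; omega
    · exact hm ▸ dvd_pow_self 2 h.ne'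
  have hHcard : Nat.card H = (q - 1) * s := by
    have h := H.index_mul_card
    rw [hH, MulAction.index_stabilizer_of_transitive, hα, hcard, ← hH] at h
    have h2 : 2 * p * Nat.card H = 2 * p * ((q - 1) * s) := by
      rw [h, ← hq]
      rw [show p * q * (q - 1) = p * (2 * s) * (q - 1) by rw [← hs]]
      ring
    exact Nat.eq_of_mul_eq_mul_left (by omega) h2
  have hpp : p.Prime := Fact.out
  have hreg : ∀ w : ↥H, ¬ p ∣ orderOf (w : G) := fun w h => by
    have h2 := h.trans (Subgroup.orderOf_dvd_natCard _ w.2)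
    rw [hHcard] at h2
    rcases hpp.dvd_mul.1 h2 with h3 | h3 <;> have := Nat.le_of_dvd (by omega) h3 <;> omega
  have hord : ∀ w : ↥H, 2 ∣ orderOf (w : G) → orderOf (w : G) = 2 := fun w h =>
    S.orderOf_eq_two hM D F hθ ht3 (hreg w) h
  set I := (Finset.univ : Finset ↥H).filter fun w => orderOf w = 2 with hI
  have hIcard : (I.card : ℤ) = q - 1 := by
    obtain ⟨k, hk⟩ := exists_sum_eq_card_mul (CfsgLib.CharTheory.IsIrrCharacter.isCharacter θ.2) H
    have hval : ∀ w ∈ (Finset.univ : Finset ↥H).erase 1,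
        (θ : G → ℂ) w = if orderOf w = 2 then -1 else 0 := by
      intro w hw
      have hw1 : (w : G) ≠ 1 := fun h => Finset.ne_of_mem_erase hw (Subtype.ext h)
      split_ifs with h2
      · exact hinv _ (by rw [Subgroup.orderOf_coe, h2])
      · refine hodd _ hw1 (hreg w) fun h => h2 ?_
        rw [← Subgroup.orderOf_coe]
        exact hord w h
    replace hk : ∑ w ∈ (Finset.univ : Finset ↥H), (θ : G → ℂ) w = (Nat.card H : ℂ) * k := by
      convert hk
    rw [← Finset.add_sum_erase _ _ (Finset.mem_univ (1 : ↥H)), Finset.sum_congr rfl hval, ← Finset.sum_filter,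
      Finset.filter_erase, Finset.erase_eq_of_notMem (by simp), ← hI, Finset.sum_const, nsmul_eq_mul,
      Subgroup.coe_one, hdeg, hHcard] at hk
    have hkZ : (p : ℤ) - 2 - I.card = ((q : ℤ) - 1) * s * k := by
      apply Int.cast_injective (α := ℂ)
      rw [Nat.cast_mul, Nat.cast_sub (by omega : 1 ≤ q)] at hk
      push_cast at hk ⊢
      linear_combination hk
    rcases Nat.eq_zero_or_pos k with h0 | h0
    · rw [h0] at hkZ; push_cast at hkZ; omega
    · exfalso
      have hs2 : 2 ≤ s * k := le_trans (by omega : 2 ≤ s) (Nat.le_mul_of_pos_right s h0)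
      have h1 : ((q : ℤ) - 1) * 2 ≤ ((q : ℤ) - 1) * (s * k : ℕ) :=
        mul_le_mul_of_nonneg_left (by exact_mod_cast hs2) (by omega)
      push_cast at h1
      rw [← mul_assoc] at h1
      omega
  haveI : Fact (Nat.Prime 2) := ⟨Nat.prime_two⟩
  have hcard2 : ∀ T : Sylow 2 ↥H, Nat.card ↥(T : Subgroup ↥H) = s := by
    intro T
    obtain ⟨m', rfl⟩ : ∃ m', m = m' + 1 := ⟨m - 1, by
      rcases Nat.eq_zero_or_pos m with h | h
      · rw [h, pow_zero] at hm; omega
      · omega⟩
    have hs' : s = 2 ^ m' := by rw [pow_succ] at hm; omega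
    have hodd' : ¬ 2 ∣ q - 1 := by omega
    have := CfsgLib.SmallGroups.card_sylow_eq (a := m') (show Nat.card ↥H = 2 ^ m' * (q - 1) by
      rw [hHcard, hs', mul_comm]) hodd' T
    rw [this, hs']
  have hinvol : ∀ T : Sylow 2 ↥H, ∀ w ∈ (T : Subgroup ↥H), w ≠ 1 → orderOf w = 2 := by
    intro T w hw hw1
    obtain ⟨j, hj⟩ := IsPGroup.iff_orderOf.1 T.isPGroup' ⟨w, hw⟩
    rw [Subgroup.orderOf_mk] at hj
    rw [← Subgroup.orderOf_coe]
    refine hord w ?_
    rw [Subgroup.orderOf_coe, hj]
    refine dvd_pow_self 2 fun h => hw1 (orderOf_eq_one_iff.1 ?_)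
    rw [hj, h, pow_zero]
  have huniq : ∀ T T' : Sylow 2 ↥H, ∀ w ∈ (T : Subgroup ↥H), w ∈ (T' : Subgroup ↥H) → w ≠ 1 → T = T' := by
    intro T T' w hw hw' hw1
    -- the centraliser of an involution is an elementary abelian Sylow subgroup
    set C := Subgroup.centralizer ({w} : Set ↥H) with hCdef
    have hcommT : ∀ T : Sylow 2 ↥H, ∀ x ∈ (T : Subgroup ↥H), ∀ y ∈ (T : Subgroup ↥H), x * y = y * x := by
      intro T x hx y hy
      have hsq : ∀ z ∈ (T : Subgroup ↥H), z * z = 1 := fun z hz => by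
        by_cases hz1 : z = 1
        · rw [hz1, one_mul]
        · rw [← sq, ← hinvol T z hz hz1, pow_orderOf_eq_one]
      have hxi : x⁻¹ = x := inv_eq_of_mul_eq_one_right (hsq x hx)
      have hyi : y⁻¹ = y := inv_eq_of_mul_eq_one_right (hsq y hy)
      calc x * y = (x * y)⁻¹ := (inv_eq_of_mul_eq_one_right (hsq _ (mul_mem hx hy))).symm
        _ = y * x := by rw [mul_inv_rev, hxi, hyi]
    have hCp : IsPGroup 2 C := by
      intro x
      by_cases hx : 2 ∣ orderOf ((x : ↥H) : G)
      · refine ⟨1, Subtype.ext ?_⟩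
        have h := hord _ hx
        rw [Subgroup.orderOf_coe] at h
        rw [SubgroupClass.coe_pow, pow_one, Subgroup.coe_one, ← h, pow_orderOf_eq_one]
      · refine ⟨0, Subtype.ext ?_⟩
        rw [pow_zero, pow_one, Subgroup.coe_one]
        by_contra hx1
        rw [Subgroup.orderOf_coe] at hx
        have hc : Commute w (x : ↥H) := (Subgroup.mem_centralizer_singleton_iff.1 x.2).symm
        have hw2 := hinvol T w hw hw1
        have hcop : (orderOf w).Coprime (orderOf (x : ↥H)) := by
          rw [hw2]; exact Nat.prime_two.coprime_iff_not_dvd.2 hx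
        have ho := hc.orderOf_mul_eq_mul_orderOf_of_coprime hcop
        rw [hw2] at ho
        have h := hord (w * x) (by rw [Subgroup.orderOf_coe, ho]; exact dvd_mul_right _ _)
        rw [Subgroup.orderOf_coe, ho] at h
        exact hx1 (orderOf_eq_one_iff.1 (by omega))
    have hsub : ∀ T : Sylow 2 ↥H, w ∈ (T : Subgroup ↥H) → C = (T : Subgroup ↥H) := fun T hT =>
      T.is_maximal' hCp fun z hz => Subgroup.mem_centralizer_singleton_iff.2 (hcommT T z hz w hT)
    exact Sylow.ext ((hsub T hw).symm.trans (hsub T' hw'))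
  haveI : Fintype (Sylow 2 ↥H) := Fintype.ofFinite _
  have hIeq : I = (Finset.univ : Finset (Sylow 2 ↥H)).biUnion
      fun T => ((Finset.univ : Finset ↥H).filter (· ∈ (T : Subgroup ↥H))).erase 1 := by
    ext w
    simp only [hI, Finset.mem_filter, Finset.mem_univ, true_and, Finset.mem_biUnion, Finset.mem_erase]
    constructor
    · intro hw
      obtain ⟨T, hT⟩ := (IsPGroup.of_card (p := 2) (n := 1) (G := Subgroup.zpowers w)
        (by rw [Nat.card_zpowers, hw, pow_one])).exists_le_sylow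
      exact ⟨T, fun h => by rw [h, orderOf_one] at hw; omega, hT (Subgroup.mem_zpowers w)⟩
    · rintro ⟨T, hw1, hwT⟩
      exact hinvol T w hwT hw1
  have hk : I.card = Fintype.card (Sylow 2 ↥H) * (s - 1) := by
    rw [hIeq, Finset.card_biUnion]
    · rw [Finset.sum_congr rfl (g := fun _ => s - 1) fun T _ => by
        rw [Finset.card_erase_of_mem (by simp), ← Fintype.card_subtype, ← Nat.card_eq_fintype_card]
        exact congrArg (· - 1) (hcard2 T), Finset.sum_const, smul_eq_mul, Finset.card_univ]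
    · intro T _ T' _ hne
      rw [Function.onFun, Finset.disjoint_left]
      intro w h h'
      simp only [Finset.mem_erase, Finset.mem_filter, Finset.mem_univ, true_and] at h h'
      exact hne (huniq T T' w h.2 h'.2 h.1)
  have hI' : Fintype.card (Sylow 2 ↥H) * (s - 1) + 1 = 2 * s := by omega
  rcases (show Fintype.card (Sylow 2 ↥H) ≤ 2 ∨ 3 ≤ Fintype.card (Sylow 2 ↥H) by omega) with h | h
  · rcases (show Fintype.card (Sylow 2 ↥H) = 0 ∨ Fintype.card (Sylow 2 ↥H) = 1 ∨
        Fintype.card (Sylow 2 ↥H) = 2 by omega) with h | h | h <;> rw [h] at hI' <;> omega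
  · have := Nat.mul_le_mul_right (s - 1) h
    omega

/-- Let p > 3 be a prime and G a primitive permutation group of degree 2p that is not doubly transitive. If a Sylow p-subgroup of G has normalizer of order 2p, then p = 5 and G is isomorphic to the alternating group of degree 5. -/
theorem result {α : Type*} [Fintype α] [DecidableEq α] {p : ℕ} [Fact p.Prime] (hp : 3 < p) (hα : Fintype.card α = 2 * p) (G : Subgroup (Equiv.Perm α)) (hprim : MulAction.IsPreprimitive G α) (hnot2 : ¬ MulAction.IsMultiplyPretransitive G α 2) (P : Sylow p G) (hN : Nat.card (Subgroup.normalizer ((P : Subgroup G) : Set G)) = 2 * p) : p = 5 ∧ Nonempty (G ≃* alternatingGroup (Fin 5)) := by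
  classical
  have hpp : p.Prime := Fact.out
  have hα' : Nat.card α = 2 * p := by rw [Nat.card_eq_fintype_card, hα]
  haveI := hprim
  obtain ⟨hs, hP, hC⟩ := structure_facts (α := α) hp hα' P hN
  haveI := hs
  have hp5 : 5 ≤ p := by
    by_contra h
    rcases (show p = 4 by omega) with rfl
    norm_num at hpp
  have hpG : p ∣ Nat.card G := hP ▸ Subgroup.card_subgroup_dvd_card _
  have hnc : ¬ IsMulCommutative G := fun h => by
    have hCtop : Subgroup.centralizer ((P : Subgroup G) : Set G) = ⊤ :=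
      top_le_iff.1 fun x _ => Subgroup.mem_centralizer_iff.2 fun y _ => h.is_comm.comm y x
    rw [hCtop, Subgroup.card_top] at hC
    have h1 := Subgroup.card_subgroup_dvd_card (Subgroup.normalizer ((P : Subgroup G) : Set G))
    rw [hN, hC, mul_one] at h1
    have := Nat.le_of_dvd hpp.pos h1
    omega
  have hcyc : ¬ IsCyclic G := fun h => hnc ⟨⟨fun a b => IsCyclic.commGroup.mul_comm a b⟩⟩
  obtain ⟨r, hr⟩ : ∃ r, Nat.card (Sylow p G) = 1 + r * p := by
    refine ⟨Nat.card (Sylow p G) / p, ?_⟩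
    have h := Nat.div_add_mod (Nat.card (Sylow p G)) p
    have hmod := card_sylow_modEq_one p G
    rw [Nat.ModEq, Nat.mod_eq_of_lt hpp.one_lt] at hmod
    rw [hmod, mul_comm] at h
    omega
  have hGcard : Nat.card G = (1 + r * p) * (2 * p) := by
    rw [← CfsgLib.SmallGroups.card_sylow_mul_card_normalizer P, hr, hN]
  have hr1 : 1 ≤ r := by
    have hn1 : 1 < Nat.card (Sylow p G) := CfsgLib.SmallGroups.one_lt_card_sylow hnc hpG
    rcases Nat.eq_zero_or_pos r with h | h
    · rw [hr, h, zero_mul] at hn1; omega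
    · exact h
  have hb : ∀ h2 : 2 ≤ r, _ := fun h2 =>
    bound (α := α) hp5 hα' hnot2 hnc P hP hC (by rw [hN, mul_one, mul_comm]) hr h2
  have hbig : Nat.card G < p ^ 3 := by
    rcases hr1.eq_or_lt with h1 | h2
    · rw [hGcard, ← h1]
      have : 25 ≤ p * p := Nat.mul_le_mul hp5 hp5
      nlinarith
    · exact (hb h2).1
  have key : p = 5 := by
    rcases CfsgLib.SmallGroups.BrauerReynolds.brauer_reynolds (G := G) hcyc hpG hbig with
      ⟨F, iF, jF, hF, h3, ⟨i⟩⟩ | ⟨m, F, iF, jF, hF, hp2, h3, ⟨i⟩⟩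
    · have h2 := CfsgLib.ClassicalLinear.card_PSL_two_of_odd hF (hpp.odd_of_ne_two (by omega))
      rw [← Nat.card_congr i.toEquiv, hGcard] at h2
      obtain ⟨q, hq⟩ : ∃ q, p ^ 2 = q + 1 := ⟨p ^ 2 - 1, by
        have : 0 < p ^ 2 := by positivity
        omega⟩
      rw [hq, Nat.add_sub_cancel] at h2
      have h4 : 4 * (1 + r * p) = q := by
        apply Nat.eq_of_mul_eq_mul_left hpp.pos
        linarith
      have hdvd5 : p ∣ 5 := by
        have h5 : p * p = 5 + p * (4 * r) := by rw [← sq, hq, ← h4]; ring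
        exact (Nat.dvd_add_left (dvd_mul_right p (4 * r))).1 (h5 ▸ dvd_mul_right p p)
      exact (Nat.prime_dvd_prime_iff_eq hpp Nat.prime_five).1 hdvd5
    · by_contra hne
      have hm : m ≠ 0 := fun h => by rw [h, pow_zero] at hp2; omega
      have hcard : Nat.card G = (2 ^ m + 1) * 2 ^ m * (2 ^ m - 1) := by
        rw [Nat.card_congr i.toEquiv,
          CfsgLib.ClassicalLinear.card_PSL_two_of_even hF (Nat.even_pow.2 ⟨even_two, hm⟩)]
        have := Nat.sq_sub_sq (2 ^ m) 1
        rw [one_pow] at this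
        rw [this]; ring
      have h8 : 8 ≤ 2 ^ m := by
        rcases (show m = 1 ∨ m = 2 ∨ 3 ≤ m by omega) with rfl | rfl | h
        · norm_num at hp2; omega
        · norm_num at hp2; omega
        · exact le_trans (by norm_num) (Nat.pow_le_pow_right two_pos h)
      rcases hr1.eq_or_lt with h1 | h2
      · rw [hGcard, ← h1, hp2] at hcard
        have h16 : 2 ^ m * (2 ^ m - 1) * (2 ^ m + 1) = (1 + 1 * (2 ^ m + 1)) * 2 * (2 ^ m + 1) := by
          linarith
        have := Nat.eq_of_mul_eq_mul_right (by omega) h16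
        have h7 : 8 * (2 ^ m - 1) ≤ 2 ^ m * (2 ^ m - 1) := Nat.mul_le_mul_right _ h8
        omega
      · exact (hb h2).2 (2 ^ m) hp2 h8 hcard ⟨m, rfl⟩
  subst key
  refine ⟨rfl, Cfsg.Agent.S0494.result ?_⟩
  rcases CfsgLib.SmallGroups.BrauerReynolds.brauer_reynolds (G := G) hcyc hpG hbig with
    ⟨F, iF, jF, hF, h3, ⟨i⟩⟩ | ⟨m, F, iF, jF, hF, hp2, h3, ⟨i⟩⟩
  · rw [Nat.card_congr i.toEquiv]
    exact CfsgLib.ClassicalLinear.card_PSL_two_card_five hF
  · rw [Nat.card_congr i.toEquiv]
    exact CfsgLib.ClassicalLinear.card_PSL_two_card_four (by omega)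

end Cfsg.Agent.S4707
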