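import Cfsg.Statements.S4708
import Cfsg.Agent.Lib.BrauerPairs.PrincipalCover
import Cfsg.Agent.Lib.ZerosCodegree.ResidualBlock
import Cfsg.Agent.Lib.BlockLocal.NormalInduce
-- import your own Cfsg.Agent.* helpers here

set_option autoImplicit false
open Cfsg

namespace Cfsg.Agent.S4708

/-- Let p be a prime, M a maximal ideal of the algebraic integers containing p, G a finite group and H a normal subgroup. Write λ(X) for the sum of the squares of the degrees of the irreducible characters in the principal p-block of a group X. Then λ(H) ≤ λ(G) ≤ [G : H]·λ(H). -/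
theorem result {G : Type*} [Group G] [Finite G] (p : ℕ) [Fact p.Prime] (M : Ideal Cfsg.AlgInt) (hM : Cfsg.IsPModular p M) (H : Subgroup G) [H.Normal] : (∑ᶠ θ ∈ Cfsg.principalBlock M H, Cfsg.charDegree (θ : H → ℂ) ^ 2) ≤ (∑ᶠ χ ∈ Cfsg.principalBlock M G, Cfsg.charDegree (χ : G → ℂ) ^ 2) ∧ (∑ᶠ χ ∈ Cfsg.principalBlock M G, Cfsg.charDegree (χ : G → ℂ) ^ 2) ≤ H.index * ∑ᶠ θ ∈ Cfsg.principalBlock M H, Cfsg.charDegree (θ : H → ℂ) ^ 2 := by
  classical
  haveI : M.IsPrime := CfsgLib.Blocks.isPrime_of_isPModular hM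
  haveI := Fintype.ofFinite G
  haveI := Fintype.ofFinite H
  haveI := Fintype.ofFinite (Cfsg.IrrCharacter G)
  haveI := Fintype.ofFinite (Cfsg.IrrCharacter H)
  rw [finsum_mem_eq_finite_toFinset_sum _ (Set.toFinite _),
    finsum_mem_eq_finite_toFinset_sum _ (Set.toFinite _)]
  choose m hm hm' using fun χ : Cfsg.IrrCharacter G => CfsgLib.BlockLocal.res_eq_sum H χ
  let dG : Cfsg.IrrCharacter G → ℕ := fun χ => Cfsg.charDegree (χ : G → ℂ)
  let dH : Cfsg.IrrCharacter H → ℕ := fun θ => Cfsg.charDegree (θ : H → ℂ)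
  have hdeg : ∀ χ, dG χ = ∑ θ, m χ θ * dH θ := fun χ => by
    have h := hm χ 1
    rw [Subgroup.coe_one, ← CfsgLib.BlockLocal.coe_charDegree] at h
    simp only [← CfsgLib.BlockLocal.coe_charDegree] at h
    exact_mod_cast h
  have hind : ∀ θ, ∑ χ, m χ θ * dG χ = H.index * dH θ := fun θ => by
    obtain ⟨n, hn⟩ := CfsgLib.CharTheory.IsCharacter.exists_sum
      (CfsgLib.Frobenius.isCharacter_indFun H _ (CfsgLib.CharTheory.IsIrrCharacter.isCharacter θ.2))
    have hnm : ∀ χ, n χ = m χ θ := fun χ => by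
      have h := CfsgLib.Frobenius.classInner_indFun H (θ : H → ℂ) (χ : G → ℂ)
        (CfsgLib.CharTheory.IsIrrCharacter.isClassFunction χ.2)
      rw [hn, CfsgLib.CharTheory.classInner_sum_irr, CfsgLib.CharTheory.classInner_conj_symm,
        hm' χ θ, map_natCast] at h
      exact_mod_cast h
    have h1 := congrFun hn 1
    rw [CfsgLib.Frobenius.indFun_one] at h1
    simp only [Finset.sum_apply, Pi.smul_apply, smul_eq_mul, hnm,
      ← CfsgLib.BlockLocal.coe_charDegree] at h1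
    exact_mod_cast h1.symm
  have htriv : Cfsg.classInner (fun h : H => (CfsgLib.CharTheory.trivIrr G : G → ℂ) h)
      (CfsgLib.CharTheory.trivIrr H : H → ℂ) ≠ 0 := by
    simp [Cfsg.classInner, CfsgLib.CharTheory.trivIrr_apply]
  have hsupp : ∀ χ ∈ Cfsg.principalBlock M G, ∀ θ, m χ θ ≠ 0 →
      θ ∈ Cfsg.principalBlock M H := by
    intro χ hχ θ hθ
    obtain ⟨g, η, hη, rfl⟩ := (CfsgLib.BlockLocal.mem_orbitSet H).1
      (CfsgLib.BlockLocal.mem_orbitSet_of_constituent H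
        (CfsgLib.BrauerPairs.isPBlock_principalBlock M) (χ := CfsgLib.CharTheory.trivIrr G) (χ' := χ) hχ
        (CfsgLib.BrauerPairs.trivIrr_mem_principalBlock M) htriv
        (ψ := θ) (by rw [hm']; exact_mod_cast hθ))
    exact CfsgLib.ZerosCodegree.conjIrr_mem_principalBlock H g hη
  set B := (Set.toFinite (Cfsg.principalBlock M G)).toFinset with hB
  set b := (Set.toFinite (Cfsg.principalBlock M H)).toFinset with hb
  have hBdeg : ∀ χ ∈ B, dG χ = ∑ θ ∈ b, m χ θ * dH θ := fun χ hχ => by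
    rw [hdeg]
    refine (Finset.sum_subset (Finset.subset_univ _) fun θ _ hθ => ?_).symm
    by_contra h
    exact hθ ((Set.Finite.mem_toFinset _).2 (hsupp χ ((Set.Finite.mem_toFinset _).1 hχ) θ
      fun h0 => h (by rw [h0, zero_mul])))
  show ∑ θ ∈ b, dH θ ^ 2 ≤ ∑ χ ∈ B, dG χ ^ 2 ∧
    ∑ χ ∈ B, dG χ ^ 2 ≤ H.index * ∑ θ ∈ b, dH θ ^ 2
  constructor
  · calc ∑ θ ∈ b, dH θ ^ 2 ≤ ∑ θ ∈ b, ∑ χ ∈ B, (m χ θ * dH θ) ^ 2 := by
          refine Finset.sum_le_sum fun θ hθ => ?_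
          obtain ⟨χ, hχ, hne⟩ := CfsgLib.BrauerPairs.exists_principal_over hM H
            ((Set.Finite.mem_toFinset _).1 hθ)
          refine le_trans ?_ (Finset.single_le_sum (f := fun χ => (m χ θ * dH θ) ^ 2)
            (fun _ _ => Nat.zero_le _) ((Set.Finite.mem_toFinset _).2 hχ))
          refine Nat.pow_le_pow_left (Nat.le_mul_of_pos_left _ (Nat.pos_of_ne_zero fun h0 => ?_)) 2
          rw [hm', h0, Nat.cast_zero] at hne
          exact hne rfl
      _ = ∑ χ ∈ B, ∑ θ ∈ b, (m χ θ * dH θ) ^ 2 := Finset.sum_comm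
      _ ≤ ∑ χ ∈ B, dG χ ^ 2 := Finset.sum_le_sum fun χ hχ => by
          rw [hBdeg χ hχ]
          exact Finset.sum_sq_le_sq_sum_of_nonneg fun _ _ => Nat.zero_le _
  · calc ∑ χ ∈ B, dG χ ^ 2 = ∑ χ ∈ B, ∑ θ ∈ b, dH θ * (m χ θ * dG χ) :=
          Finset.sum_congr rfl fun χ hχ => by
            rw [sq]
            nth_rewrite 1 [hBdeg χ hχ]
            rw [Finset.sum_mul]
            exact Finset.sum_congr rfl fun θ _ => by ring
      _ = ∑ θ ∈ b, ∑ χ ∈ B, dH θ * (m χ θ * dG χ) := Finset.sum_comm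
      _ ≤ ∑ θ ∈ b, dH θ * ∑ χ, m χ θ * dG χ := Finset.sum_le_sum fun θ _ => by
          rw [Finset.mul_sum]
          exact Finset.sum_le_sum_of_subset (Finset.subset_univ _)
      _ = H.index * ∑ θ ∈ b, dH θ ^ 2 := by
          rw [Finset.mul_sum]
          exact Finset.sum_congr rfl fun θ _ => by rw [hind]; ring

end Cfsg.Agent.S4708
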