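import Cfsg.Statements.S4709
import Cfsg.Agent.Lib.BlockSections.Exceptional

set_option autoImplicit false
open Cfsg

namespace Cfsg.Agent.S4709

/-- Let p be a prime, M a maximal ideal of the algebraic integers containing p, and G a finite group with a nontrivial abelian Sylow p-subgroup P; put N = N_G(P), C = C_G(P). Suppose N/C is cyclic of order m with 1 < m < #P − 1 (C has index m in N and N is generated by C and one element), and C_G(y) ∩ N = C for every non-identity y ∈ P. Put r = (#P − 1)/m. Then there is s ≤ m such that the principal p-block is the disjoint union of a set X of s characters containing the principal character and a set Y of r characters, with integers a_χ ≠ 0 (χ ∈ X), d and a sign δ = ±1, such that: every χ ∈ X takes the value a_χ at every element whose p-part is a non-identity element of P; there is a map ζ from the non-principal linear characters ψ of P onto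 Y, constant on N-conjugacy classes, with ζ_ψ(z) = d + δ·Σ ψ'(y) for every z whose p-part y is a non-identity element of P, the sum running over the N-conjugates ψ' of ψ; (d − δ)^2 + (r − 1) d^2 + Σ_{χ ∈ X} a_χ^2 = m + 1; all members of Y agree on p-regular elements; and (r d − δ) η(g) + Σ_{χ ∈ X} a_χ χ(g) = 0 for every η ∈ Y and every p-regular g. -/
theorem result {G : Type*} [Group G] [Finite G] (p : ℕ) [Fact p.Prime] (M : Ideal Cfsg.AlgInt) (hM : Cfsg.IsPModular p M) (P : Sylow p G) (hab : IsMulCommutative P) (hP1 : Nat.card P ≠ 1) (m : ℕ) (hm1 : 1 < m) (hm2 : m + 1 < Nat.card P) (hCN : (Subgroup.centralizer ((P : Subgroup G) : Set G)).relIndex (Subgroup.normalizer ((P : Subgroup G) : Set G)) = m) (hcyc : ∃ g : G, g ∈ Subgroup.normalizer ((P : Subgroup G) : Set G) ∧ Subgroup.centralizer ((P : Subgroup G) : Set G) ⊔ Subgroup.zpowers g = Subgroup.normalizer ((P : Subgroup G) : Set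 G)) (hfrob : ∀ y : G, y ∈ (P : Subgroup G) → y ≠ 1 → Subgroup.centralizer ({y} : Set G) ⊓ Subgroup.normalizer ((P : Subgroup G) : Set G) = Subgroup.centralizer ((P : Subgroup G) : Set G)) : ∃ (s : ℕ) (X Y : Set (Cfsg.IrrCharacter G)), s ≤ m ∧ Cfsg.principalBlock M G = X ∪ Y ∧ Disjoint X Y ∧ Nat.card X = s ∧ Nat.card Y = (Nat.card P - 1) / m ∧ (∃ χ₁ ∈ X, (χ₁ : G → ℂ) = fun _ => 1) ∧ ∃ (a : Cfsg.IrrCharacter G → ℤ) (d δ : ℤ) (ζ : (↥(P : Subgroup G) →* ℂˣ) → Cfsg.IrrCharacter G), (δ = 1 ∨ δ = -1) ∧ (∀ χ ∈ X, a χ ≠ 0 ∧ ∀ z y : G, Cfsg.IsPPart p z y → y ∈ (P : Subgroup G) → y ≠ 1 → (χ : G → ℂ) z = (a χ : ℂ)) ∧ (∀ ψ : ↥(P : Subgroup G) →* ℂˣ, ψ ≠ 1 → ζ ψ ∈ Y) ∧ (∀ η ∈ Y, ∃ ψ : ↥(P : Subgroup G) →* ℂˣ, ψ ≠ 1 ∧ ζ ψ = η) ∧ (∀ ψ ψ' : ↥(P : Subgroup G) →* ℂˣ, ψ ≠ 1 → (∃ n : G, n ∈ Subgroup.normalizer ((P : Subgroup G) : Set G) ∧ ∀ w w' : ↥(P : Subgroup G), (w' : G) = n * w * n⁻¹ → ψ' w' = ψ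 w) → ζ ψ' = ζ ψ) ∧ (∀ ψ : ↥(P : Subgroup G) →* ℂˣ, ψ ≠ 1 → ∀ (z : G) (y : ↥(P : Subgroup G)), Cfsg.IsPPart p z (y : G) → (y : G) ≠ 1 → (ζ ψ : G → ℂ) z = (d : ℂ) + (δ : ℂ) * ∑ᶠ ψ' ∈ {ψ' : ↥(P : Subgroup G) →* ℂˣ | ∃ n : G, n ∈ Subgroup.normalizer ((P : Subgroup G) : Set G) ∧ ∀ w w' : ↥(P : Subgroup G), (w' : G) = n * w * n⁻¹ → ψ' w' = ψ w}, ((ψ' y : ℂˣ) : ℂ)) ∧ ((d - δ) ^ 2 + ((Nat.card P - 1) / m - 1 : ℤ) * d ^ 2 + ∑ᶠ χ ∈ X, a χ ^ 2 = (m : ℤ) + 1) ∧ (∀ η ∈ Y, ∀ η' ∈ Y, ∀ g : G, ¬ p ∣ orderOf g → (η : G → ℂ) g = (η' : G → ℂ) g) ∧ (∀ η ∈ Y, ∀ g : G, ¬ p ∣ orderOf g → ((((Nat.card P - 1) / m : ℕ) : ℂ) * d - δ) * (η : G → ℂ) g + ∑ᶠ χ ∈ X, (a χ : ℂ) * (χ : G → ℂ) g = 0) := by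
  haveI := CfsgLib.Blocks.isPrime_of_isPModular hM
  haveI := Fintype.ofFinite G
  have hF : CfsgLib.BlockSections.Exceptional.IsFrobSylow P m := ⟨hab, hCN, hfrob⟩
  obtain ⟨D⟩ := CfsgLib.BlockSections.Exceptional.exists_excData hF hM hm1 hm2
  have hY : Nat.card D.Y = (Nat.card P - 1) / m := by
    rw [show Nat.card P = Nat.card D.Y * m + 1 from D.card_Y.symm, Nat.add_sub_cancel,
      Nat.mul_div_cancel _ (by omega)]
  have hset : ∀ ψ : ↥(P : Subgroup G) →* ℂˣ,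
      {ψ' : ↥(P : Subgroup G) →* ℂˣ | ∃ n : G, n ∈ Subgroup.normalizer ((P : Subgroup G) : Set G) ∧
        ∀ w w' : ↥(P : Subgroup G), (w' : G) = n * w * n⁻¹ → ψ' w' = ψ w} =
      {ψ' | CfsgLib.BlockSections.Exceptional.NRel P ψ ψ'} := fun ψ =>
    Set.ext fun ψ' => CfsgLib.BlockSections.Exceptional.nRel_iff.symm
  have hnorm := D.norm
  refine ⟨Nat.card D.X, D.X, D.Y, ?_, D.union, D.disj, rfl, hY,
    ⟨CfsgLib.CharTheory.trivIrr G, D.triv, funext fun g => CfsgLib.CharTheory.trivIrr_apply g⟩,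
    D.a, D.d, D.δ, D.ζ, D.sign, fun χ hχ => ⟨D.a_ne χ hχ, D.val_X χ hχ⟩, D.ζ_mem, D.ζ_surj,
    ?_, ?_, ?_, D.agree, ?_⟩
  · have hr := D.two_le
    have h1 : (Nat.card D.X : ℤ) ≤ ∑ᶠ χ ∈ D.X, D.a χ ^ 2 := by
      rw [finsum_mem_eq_finite_toFinset_sum _ D.X.toFinite, Nat.card_coe_set_eq,
        Set.ncard_eq_toFinset_card D.X D.X.toFinite, Finset.cast_card]
      refine Finset.sum_le_sum fun χ hχ => ?_
      have := D.a_ne χ (by simpa using hχ)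
      have := pow_two_pos_of_ne_zero this
      omega
    have h2 : 1 ≤ (D.d - D.δ) ^ 2 + ((Nat.card D.Y : ℤ) - 1) * D.d ^ 2 := by
      have hr' : (1 : ℤ) ≤ (Nat.card D.Y : ℤ) - 1 := by omega
      by_cases hd : D.d = 0
      · rw [hd]; rcases D.sign with e | e <;> rw [e] <;> norm_num
      · nlinarith [sq_nonneg (D.d - D.δ), pow_two_pos_of_ne_zero hd]
    have : (Nat.card D.X : ℤ) ≤ m := by linarith
    exact_mod_cast this
  · intro ψ ψ' hψ h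
    have h' := CfsgLib.BlockSections.Exceptional.nRel_iff.2 h
    exact (D.ζ_eq ψ ψ' hψ (by
      obtain ⟨α, -, hα⟩ := h'
      rintro rfl
      exact hψ (hα.symm.trans (MonoidHom.ext fun _ => rfl)))).2 h'
  · intro ψ hψ z y hz hy
    rw [D.val_Y ψ hψ z y hz hy, hset]
  · have hq : 1 ≤ Nat.card P := by omega
    rw [← hnorm, show ((Nat.card D.Y : ℕ) : ℤ) = ((Nat.card P : ℤ) - 1) / (m : ℤ) by
      rw [hY]; push_cast [Nat.cast_sub hq]; rfl]
  · intro η hη g hg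
    rw [← hY]
    exact D.reg η hη g hg

end Cfsg.Agent.S4709
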