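import Cfsg.Statements.S4712
import Cfsg.Agent.Lib.IBr.RationalCount

set_option autoImplicit false
open Cfsg

namespace Cfsg.Agent.S4712

/-- Let p be an odd prime, M a maximal ideal of the algebraic integers containing p, G a finite group of order n with p-part p^a, and B a p-block of G. Call an irreducible character χ p-rational when χ(g^k) = χ(g) for every g and every k coprime to n with k ≡ 1 modulo n/p^a (χ is fixed by the Galois automorphisms fixing the roots of unity of order prime to p). Then the number of p-rational irreducible characters in B is at least the p-regular rank of B (the number of irreducible Brauer characters in B). -/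
theorem result {G : Type*} [Group G] [Finite G] (p : ℕ) [Fact p.Prime] (hodd : p ≠ 2) (M : Ideal Cfsg.AlgInt) (hM : Cfsg.IsPModular p M) (B : Set (Cfsg.IrrCharacter G)) (hB : Cfsg.IsPBlock M B) : Cfsg.blockRank p B ≤ Nat.card {χ : Cfsg.IrrCharacter G // χ ∈ B ∧ ∀ k : ℕ, Nat.Coprime k (Nat.card G) → k ≡ 1 [MOD Nat.card G / p ^ (Nat.card G).factorization p] → ∀ g : G, (χ : G → ℂ) (g ^ k) = (χ : G → ℂ) g} := by
  classical
  haveI := Fintype.ofFinite G
  haveI := CfsgLib.Blocks.isPrime_of_isPModular hM
  haveI := Fintype.ofFinite (IrrCharacter G)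
  obtain ⟨S, hS, hq, hm⟩ := CfsgLib.IBr.exists_system hM (Nat.card G) Nat.card_pos.ne'
  have hn : S.m * S.q = Nat.card G := by
    rw [hm, hq, Nat.div_mul_cancel (Nat.ordProj_dvd _ p)]
  obtain ⟨k₀, hk0, hk1, hgen⟩ := CfsgLib.IBr.exists_generating_exponent S hodd
  rw [hn] at hk0 hgen
  refine (CfsgLib.IBr.blockRank_le_card_fixed hM hB hS hk0 hk1).trans ?_
  rw [Nat.card_eq_fintype_card, Fintype.card_subtype]
  refine Finset.card_le_card fun χ hχ => ?_
  simp only [Finset.mem_filter, Finset.mem_univ, true_and] at hχ ⊢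
  refine ⟨hχ.1, fun k hk hmod g => ?_⟩
  obtain ⟨j, hj⟩ := hgen k hk (hm ▸ hmod)
  have h1 := congrFun (CfsgLib.ZerosCodegree.powTwist_congr hj (χ : G → ℂ)) g
  rw [← CfsgLib.ZerosCodegree.iterate_powTwist, Function.iterate_fixed hχ.2] at h1
  exact h1

end Cfsg.Agent.S4712
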