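import Cfsg.Statements.S4714
import Cfsg.Agent.Lib.BlockLocal.CanonicalChar
import Cfsg.Agent.Lib.BlockLocal.Covering

set_option autoImplicit false
open Cfsg CfsgLib CfsgLib.BlockLocal CfsgLib.CharTheory CfsgLib.BlockLocal.Canonical
open scoped ComplexConjugate

namespace Cfsg.Agent.S4714

/-- Let p be a prime, M a maximal ideal of the algebraic integers containing p, D a p-subgroup of the finite group G with G = D·C_G(D), and B a p-block with defect group D. Let χ be a member of B having D in its kernel (there is exactly one, the canonical character of B). Then the irreducible characters in B are exactly the functions θ on G for which there is an irreducible character ζ of D such that θ(yx) = ζ(y)χ(x) whenever y ∈ D, x has order prime to p and x commutes with y, and θ(z) = 0 whenever the p-part of z does not lie in D. -/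
theorem result {G : Type*} [Group G] [Finite G] (p : ℕ) [Fact p.Prime] (M : Ideal Cfsg.AlgInt) (hM : Cfsg.IsPModular p M) (D : Subgroup G) (hD : IsPGroup p D) (hG : D ⊔ Subgroup.centralizer (D : Set G) = ⊤) (B : Set (Cfsg.IrrCharacter G)) (hB : Cfsg.IsPBlock M B) (hBD : Cfsg.IsDefectGroup p M B D) (χ : Cfsg.IrrCharacter G) (hχ : χ ∈ B) (hχD : ∀ y ∈ D, (χ : G → ℂ) y = (χ : G → ℂ) 1) : (∀ θ : Cfsg.IrrCharacter G, θ ∈ B ↔ ∃ ζ : Cfsg.IrrCharacter D, (∀ (y : D) (x : G), ¬ p ∣ orderOf x → Commute (y : G) x → (θ : G → ℂ) ((y : G) * x) = (ζ : D → ℂ) y * (χ : G → ℂ) x) ∧ (∀ z : G, (∀ y : G, Cfsg.IsPPart p z y → y ∉ D) → (θ : G → ℂ) z = 0)) ∧ ∀ ζ : Cfsg.IrrCharacter D, ∃ θ ∈ B, (∀ (y : D) (x : G), ¬ p ∣ orderOf x → Commute (y : G) x → (θ : G → ℂ) ((y : G) * x) = (ζ : D → ℂ) y * (χ : G → ℂ) x) ∧ (∀ z : G, (∀ y : G, Cfsg.IsPPart p z y → y ∉ D) → (θ : G → ℂ) z = 0) := by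
  classical
  haveI := Blocks.isPrime_of_isPModular hM
  haveI := Fintype.ofFinite G
  haveI := Fintype.ofFinite D
  haveI := normal_of_sup_eq_top hG
  haveI := Fintype.ofFinite (IrrCharacter D)
  have hχ1 := apply_one_ne_zero_of_isIrr χ.2
  obtain ⟨d, -, hd1⟩ := exists_degree_of_isIrr χ.2
  have hinv : ∀ (φ : IrrCharacter D) (g : G), Clifford.conjChar D (φ : D → ℂ) g = φ := by
    intro φ g
    funext x
    obtain ⟨y, hy, hyx⟩ := exists_conj_eq hG g
    refine (CharTheory.irr_apply_eq_of_isConj (isConj_iff.2 ⟨⟨y, hy⟩, Subtype.ext ?_⟩) φ).symm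
    exact (hyx x x.2).symm
  -- a member is glued from any of its constituents on `D`
  have key : ∀ η ∈ B, ∀ φ : IrrCharacter D,
      classInner (fun x : D => (η : G → ℂ) x) (φ : D → ℂ) ≠ 0 →
      (∀ (y : D) (x : G), ¬ p ∣ orderOf x → Commute (y : G) x →
        (η : G → ℂ) ((y : G) * x) = (φ : D → ℂ) y * (χ : G → ℂ) x) ∧
      (∀ z : G, (∀ y : G, IsPPart p z y → y ∉ D) → (η : G → ℂ) z = 0) := by
    intro η hη φ h1
    obtain ⟨m, -, hm⟩ := res_eq_sum D η
    have hres := Clifford.res_eq_of_invariant D η.2 φ.2 (hinv φ) h1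
    rw [hm] at hres
    have hval : ∀ x : D, (η : G → ℂ) x = (m φ : ℂ) * (φ : D → ℂ) x := fun x => congrFun hres x
    have hsum := sum_restrict hD hG hM hB hBD hχ hχD hη hη
    rw [if_pos rfl, hd1, Finset.sum_congr rfl (g := fun x : D => (m φ : ℂ) ^ 2 *
      ((φ : D → ℂ) x * conj ((φ : D → ℂ) x))) (fun x _ => by
        rw [hval, map_mul, map_natCast]; ring), ← Finset.mul_sum] at hsum
    have hφn := classInner_self_of_isIrr φ.2
    rw [classInner, inv_mul_eq_iff_eq_mul₀ (Nat.cast_ne_zero.2 Nat.card_pos.ne'), mul_one] at hφn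
    rw [hφn, mul_comm (Nat.card D : ℂ)] at hsum
    have hmd : (m φ : ℂ) = (χ : G → ℂ) 1 := by
      rw [hd1]
      exact congrArg Nat.cast (Nat.pow_left_injective two_ne_zero (show (m φ) ^ 2 = d ^ 2 by
        exact_mod_cast mul_right_cancel₀ (Nat.cast_ne_zero.2 Nat.card_pos.ne') hsum))
    have hη1 := apply_one_ne_zero_of_isIrr η.2
    refine ⟨fun y x hx _ => ?_, fun z hz => ?_⟩
    · rw [Canonical.apply_mul_eq hG η y.2 (fun w hw => commute_of_regular hD hG hx hw),
        apply_regular hD hG hM hB hBD hχ hχD hη hx, hval y, hmd]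
      field_simp
    · obtain ⟨w, hw⟩ := Blocks.exists_isPPart p z
      exact Canonical.apply_eq_zero hG hM hB hBD hη hw (hz w hw)
  have hex : ∀ ζ : IrrCharacter D, ∃ η ∈ B,
      classInner (fun x : D => (η : G → ℂ) x) (ζ : D → ℂ) ≠ 0 := by
    intro ζ
    set h : ConjClasses D → ℂ := Quotient.lift (fun x : D => (ζ : D → ℂ) x)
      (fun x y hxy => CharTheory.irr_apply_eq_of_isConj hxy ζ) with hh
    by_contra hall
    push Not at hall
    refine apply_one_ne_zero_of_isIrr ζ.2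
      (congrFun (eq_zero_of_pairing hD hG hM hB hBD h fun η hη => ?_) (ConjClasses.mk (1 : D)))
    have h0 := hall η hη
    rw [classInner_conj_symm, map_eq_zero_iff _ (RingHom.injective _), classInner, mul_eq_zero] at h0
    exact h0.resolve_left (inv_ne_zero (Nat.cast_ne_zero.2 Nat.card_pos.ne'))
  refine ⟨fun θ => ⟨fun hθ => ?_, ?_⟩, fun ζ => ?_⟩
  · obtain ⟨φ, hφ⟩ := BlockLocal.exists_constituent D θ
    exact ⟨φ, key θ hθ φ hφ⟩
  · rintro ⟨ζ, hv, h0⟩
    obtain ⟨η, hη, hc⟩ := hex ζ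
    obtain ⟨hv', h0'⟩ := key η hη ζ hc
    have : θ = η := by
      apply Subtype.ext
      funext z
      by_cases hz : ∀ y : G, IsPPart p z y → y ∉ D
      · rw [h0 z hz, h0' z hz]
      · push Not at hz
        obtain ⟨y, hy, hyD⟩ := hz
        obtain ⟨s, hs, hc, -, hreg⟩ := hy
        rw [← hs, hv ⟨y, hyD⟩ s hreg hc, hv' ⟨y, hyD⟩ s hreg hc]
    exact this ▸ hη
  · obtain ⟨η, hη, hc⟩ := hex ζ
    exact ⟨η, hη, key η hη ζ hc⟩

end Cfsg.Agent.S4714
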