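import Cfsg.Statements.S4715
import Cfsg.Agent.Lib.BrauerCharacters.CenterSubsections

set_option autoImplicit false
open Cfsg CfsgLib CfsgLib.BrauerPairs CfsgLib.BrauerCharacters

namespace Cfsg.Agent.S4715

/-- Let p be a prime, M a maximal ideal of the algebraic integers containing p, B a p-block of the finite group G with defect group D of order p^d, H = D·C_G(D), b a block of H inducing B, T the stabilizer of b in N_G(D) and e = [T : H] the inertial index of B; let n be the integer with p^n ≤ e < p^(n+1) and p^c the order of the centre of D. Then every irreducible character in B has height h with h + c ≤ n + d. -/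
theorem result {G : Type*} [Group G] [Finite G] (p : ℕ) [Fact p.Prime] (M : Ideal Cfsg.AlgInt) (hM : Cfsg.IsPModular p M) (B : Set (Cfsg.IrrCharacter G)) (hB : Cfsg.IsPBlock M B) (D : Subgroup G) (hBD : Cfsg.IsDefectGroup p M B D) (d : ℕ) (hDd : Nat.card D = p ^ d) (H : Subgroup G) (hH : H = D ⊔ Subgroup.centralizer (D : Set G)) (b : Set (Cfsg.IrrCharacter H)) (hind : Cfsg.IsInducedBlock M H b B) (T : Subgroup G) (hT : ∀ g : G, g ∈ T ↔ (g ∈ Subgroup.normalizer (D : Set G) ∧ ∀ θ ∈ b, ∀ θ' : Cfsg.IrrCharacter H, (∀ h h' : H, (h' : G) = g * h * g⁻¹ → (θ' : H → ℂ) h' = (θ : H → ℂ) h) → θ' ∈ b)) (e : ℕ) (he : H.relIndex T = e) (n : ℕ) (hn : p ^ n ≤ e ∧ e < p ^ (n + 1)) (c : ℕ) (hc : Nat.card (Subgroup.center D) = p ^ c) : ∀ χ ∈ B, Cfsg.blockHeight p B (χ : G → ℂ) + c ≤ n + d := by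
  classical
  haveI := Fintype.ofFinite G
  haveI := Blocks.isPrime_of_isPModular hM
  haveI := Blocks.charP_res hM
  intro χ hχ
  have hT' : ∀ g : G, g ∈ Subgroup.normalizer (D : Set G) → StabilizesBlock H b g → g ∈ T := by
    intro g hg hst
    refine (hT g).2 ⟨hg, fun θ hθ θ' hθ' => ?_⟩
    obtain ⟨χ', hχ', hconj⟩ := hst.2 θ hθ
    have : θ' = χ' := by
      apply Subtype.ext
      funext k'
      have hk : g⁻¹ * (k' : G) * g ∈ H := (Subgroup.mem_normalizer_iff''.1 hst.1 _).1 k'.2
      rw [hθ' ⟨_, hk⟩ k' (by group), hconj ⟨_, hk⟩ k' (by group)]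
    exact this ▸ hχ'
  have h := pow_height_mul_card_center_le hM hB hBD hH hind hT' hχ
  have hd : blockDefect p B = d := by
    have h1 := Blocks.card_isDefectGroup hM hB hBD
    rw [hDd] at h1
    exact (Nat.pow_right_injective (Fact.out : p.Prime).two_le h1).symm
  rw [hc, he, hd] at h
  have h' : p ^ c * p ^ blockHeight p B (χ : G → ℂ) ≤ p ^ d * e := by exact_mod_cast h
  have h'' : p ^ (blockHeight p B (χ : G → ℂ) + c) < p ^ (n + d + 1) := by
    rw [pow_add, mul_comm]
    refine h'.trans_lt ?_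
    rw [show n + d + 1 = d + (n + 1) by omega, pow_add p d]
    exact Nat.mul_lt_mul_of_pos_left hn.2 (pow_pos (Fact.out : p.Prime).pos d)
  have := (Nat.pow_lt_pow_iff_right (Fact.out : p.Prime).one_lt).1 h''
  omega

end Cfsg.Agent.S4715
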