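import Cfsg.Statements.S4717
import Cfsg.Agent.Lib.BrauerCharacters.InducedDefect

set_option autoImplicit false
open Cfsg

namespace Cfsg.Agent.S4717

/-- Let p be a prime, M a maximal ideal of the algebraic integers containing p, and r a natural number; say that a finite group X has deficiency class r when X has no non-principal p-block of defect ≥ r. If G has deficiency class r then so does the centralizer of every p-element of G; conversely, if r > 0 and the centralizer of every element of order p has deficiency class r, then G has deficiency class r. -/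
theorem result {G : Type*} [Group G] [Finite G] (p : ℕ) [Fact p.Prime] (M : Ideal Cfsg.AlgInt) (hM : Cfsg.IsPModular p M) (r : ℕ) : ((∀ B' : Set (Cfsg.IrrCharacter G), Cfsg.IsPBlock M B' → B' ≠ Cfsg.principalBlock M G → Cfsg.blockDefect p B' < r) → ∀ y : G, (∃ k : ℕ, orderOf y = p ^ k) → (∀ B' : Set (Cfsg.IrrCharacter ↥(Subgroup.centralizer ({y} : Set G))), Cfsg.IsPBlock M B' → B' ≠ Cfsg.principalBlock M ↥(Subgroup.centralizer ({y} : Set G)) → Cfsg.blockDefect p B' < r)) ∧ (0 < r → (∀ y : G, orderOf y = p → (∀ B' : Set (Cfsg.IrrCharacter ↥(Subgroup.centralizer ({y} : Set G))), Cfsg.IsPBlock M B' → B' ≠ Cfsg.principalBlock M ↥(Subgroup.centralizer ({y} : Set G)) → Cfsg.blockDefect p B' < r)) → (∀ B' : Set (Cfsg.IrrCharacter G), Cfsg.IsPBlock M B' → B' ≠ Cfsg.principalBlock M G → Cfsg.blockDefect p B' < r)) := by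
  classical
  haveI := CfsgLib.Blocks.isPrime_of_isPModular hM
  haveI := Fintype.ofFinite G
  refine ⟨fun hG y hy b hb hne => ?_, fun hr hC B hB hne => ?_⟩
  · haveI := Fintype.ofFinite (Subgroup.centralizer ({y} : Set G))
    obtain ⟨B, hind⟩ :=
      CfsgLib.BrauerCharacters.inducedBlockDefined_centralizer y hy hM hb
    refine (CfsgLib.BrauerCharacters.blockDefect_le_of_isInducedBlock hM hind).trans_lt
      (hG B hind.2.1 fun hB0 => hne ?_)
    exact (CfsgLib.BlockLocal.isInducedBlock_principalBlock_iff hM _ ⟨B, hind⟩).1 (hB0 ▸ hind)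
  · by_contra hd
    obtain ⟨y, b, hy, hb, hind, hle⟩ :=
      CfsgLib.BrauerCharacters.exists_inducing_block hM hB (hr.trans_le (not_lt.1 hd))
    haveI := Fintype.ofFinite (Subgroup.centralizer ({y} : Set G))
    refine hd (hle.trans_lt (hC y hy b hb fun hb0 => hne ?_))
    obtain ⟨χ, hχ⟩ := CfsgLib.Blocks.isPBlock_nonempty hB
    have h0 := CfsgLib.BrauerCharacters.isInducedBlock_principal y ⟨1, by rw [hy, pow_one]⟩ hM
    subst hb0
    obtain ⟨ξ, hξ⟩ := CfsgLib.Blocks.isPBlock_nonempty hind.1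
    obtain ⟨ψ, hψ⟩ := CfsgLib.Blocks.isPBlock_nonempty h0.2.1
    refine CfsgLib.Blocks.isPBlock_eq_of_mem hB h0.2.1 hχ
      (CfsgLib.Blocks.mem_of_sameBlock h0.2.1 hψ fun g => ?_)
    have h1 := hind.2.2 ξ hξ χ hχ g
    have h2 := h0.2.2 ξ hξ ψ hψ g
    have h3 := CfsgLib.Blocks.memLocalIdeal_sub h1 h2
    rwa [sub_sub_sub_cancel_left] at h3

end Cfsg.Agent.S4717
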