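import Cfsg.Statements.S4718
import Cfsg.Agent.Lib.BrauerCharacters.Consequences
import Cfsg.Agent.Lib.BrauerCharacters.Landau

set_option autoImplicit false
universe u
open Cfsg

namespace Cfsg.Agent.S4718

/-- Let p be a prime and a a natural number. There is a bound N such that every finite group whose Sylow p-subgroups have order p^a and whose only p-block (relative to a maximal ideal of the algebraic integers containing p) is the principal block has order at most N. -/
theorem result (p : ℕ) [Fact p.Prime] (a : ℕ) : ∃ N : ℕ, ∀ (G : Type u) [Group G] [Finite G] (M : Ideal Cfsg.AlgInt), Cfsg.IsPModular p M → (Nat.card G).factorization p = a → (∀ B : Set (Cfsg.IrrCharacter G), Cfsg.IsPBlock M B → B = Cfsg.principalBlock M G) → Nat.card G ≤ N := by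
  obtain ⟨N, hN⟩ := CfsgLib.BrauerCharacters.exists_card_le_of_card_conjClasses_le.{u} (p ^ (2 * a))
  refine ⟨N, fun G _ _ M hM ha hone => hN G ?_⟩
  haveI := CfsgLib.Blocks.isPrime_of_isPModular hM
  haveI := Fintype.ofFinite G
  have hB : Cfsg.IsPBlock M (Cfsg.principalBlock M G) :=
    ⟨CfsgLib.CharTheory.trivIrr G, rfl⟩
  have huniv : Cfsg.principalBlock M G = Set.univ := Set.eq_univ_of_forall fun χ => by
    rw [← hone _ (CfsgLib.Blocks.isPBlock_blockOf χ)]
    exact CfsgLib.Blocks.mem_blockOf_self χ
  rw [← CfsgLib.CharTheory.card_irrCharacter, ← Nat.card_congr (Equiv.Set.univ _), ← huniv]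
  refine (CfsgLib.BrauerCharacters.card_block_le
    (CfsgLib.BrauerCharacters.weakOrth hM hB) hM hB).trans ?_
  refine Nat.pow_le_pow_right (Fact.out : p.Prime).pos (Nat.mul_le_mul_left 2 ?_)
  exact (Nat.sub_le _ _).trans ha.le

end Cfsg.Agent.S4718
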