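import Cfsg.Statements.S4719
import Cfsg.Agent.S4717
import Cfsg.Agent.S4718
import Cfsg.Agent.Lib.BrauerCharacters.FourGroupBound
import Cfsg.Agent.Lib.BrauerCharacters.CentralInvolution

set_option autoImplicit false
universe u
open Cfsg

namespace Cfsg.Agent.S4719

theorem centralizer_bound (a Nq : ℕ)
    (hNq : ∀ (H : Type u) [Group H] [Finite H] (M : Ideal Cfsg.AlgInt) (r : ℕ),
      Cfsg.IsPModular 2 M → (Nat.card H).factorization 2 < a →
      (∀ B : Set (Cfsg.IrrCharacter H), Cfsg.IsPBlock M B → B ≠ Cfsg.principalBlock M H →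
        Cfsg.blockDefect 2 B < r) →
      (∃ E : Subgroup H, (∀ x ∈ E, x * x = 1) ∧ Nat.card E = 2 ^ (r + 1)) → Nat.card H ≤ Nq)
    (G : Type u) [Group G] [Finite G] (M : Ideal Cfsg.AlgInt) (r : ℕ) (hM : Cfsg.IsPModular 2 M)
    (ha : (Nat.card G).factorization 2 = a) (hr : 0 < r)
    (hdef : ∀ B : Set (Cfsg.IrrCharacter G), Cfsg.IsPBlock M B →
      B ≠ Cfsg.principalBlock M G → Cfsg.blockDefect 2 B < r)
    (E : Subgroup G) (hsq : ∀ x ∈ E, x * x = 1) (hcard : Nat.card E = 2 ^ (r + 1))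
    (v : G) (hv : v ∈ E) (hord : orderOf v = 2) :
    Nat.card (Subgroup.centralizer ({v} : Set G)) ≤ 2 * Nq := by
  classical
  haveI := CfsgLib.Blocks.isPrime_of_isPModular hM
  haveI : Fact (Nat.Prime 2) := ⟨Nat.prime_two⟩
  set C := Subgroup.centralizer ({v} : Set G)
  have hC := (Cfsg.Agent.S4717.result 2 M hM r).1 hdef v ⟨1, by rw [hord, pow_one]⟩
  set z : C := ⟨v, Subgroup.mem_centralizer_singleton_iff.2 rfl⟩
  have hzord : orderOf z = 2 := by rw [← Subgroup.orderOf_coe]; exact hord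
  have hzc : ∀ g : C, z * g = g * z := fun g =>
    Subtype.ext (Subgroup.mem_centralizer_singleton_iff.1 g.2).symm
  set Z := Subgroup.zpowers z
  haveI hZn : Z.Normal := ⟨fun x hx g => by
    obtain ⟨i, rfl⟩ := hx
    rw [← ((show Commute z g from hzc g).zpow_left i).eq, mul_inv_cancel_right]
    exact ⟨i, rfl⟩⟩
  set f := QuotientGroup.mk' Z
  have hz1 : z ≠ 1 := fun h => by rw [h, orderOf_one] at hzord; exact absurd hzord (by norm_num)
  have hz2 : z * z = 1 := by
    have h := pow_orderOf_eq_one z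
    rwa [hzord, pow_two] at h
  have hmemZ : ∀ g : C, g ∈ Z ↔ g = 1 ∨ g = z := by
    intro g
    constructor
    · intro h
      obtain ⟨i, rfl⟩ := h
      rcases Int.even_or_odd i with ⟨k, rfl⟩ | ⟨k, rfl⟩
      · left
        show z ^ (k + k) = 1
        rw [← two_mul, zpow_mul, zpow_two, hz2, one_zpow]
      · right
        show z ^ (2 * k + 1) = z
        rw [zpow_add_one, zpow_mul, zpow_two, hz2, one_zpow, one_mul]
    · rintro (rfl | rfl)
      · exact Z.one_mem
      · exact Subgroup.mem_zpowers _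
  have hker : ∀ g : C, f g = 1 ↔ g = 1 ∨ g = z := fun g =>
    (QuotientGroup.eq_one_iff g).trans (hmemZ g)
  have hCH : Nat.card C = Nat.card (C ⧸ Z) * 2 := by
    rw [Subgroup.card_eq_card_quotient_mul_card_subgroup Z, Nat.card_zpowers, hzord]
  have hfac : (Nat.card C).factorization 2 = (Nat.card (C ⧸ Z)).factorization 2 + 1 := by
    rw [hCH, Nat.factorization_mul Nat.card_pos.ne' (by norm_num), Finsupp.add_apply,
      Nat.prime_two.factorization_self]
  have hCG : (Nat.card C).factorization 2 ≤ a := ha ▸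
    (Nat.factorization_le_iff_dvd Nat.card_pos.ne' Nat.card_pos.ne').2
      (Subgroup.card_subgroup_dvd_card C) 2
  rw [hCH, mul_comm]
  refine Nat.mul_le_mul_left 2 (hNq (C ⧸ Z) M (r - 1) hM (by omega) (fun B hB hne => ?_) ?_)
  · haveI := Fintype.ofFinite (C ⧸ Z)
    haveI := Fintype.ofFinite C
    obtain ⟨ξ, hξ, hξ0⟩ := CfsgLib.BrauerCharacters.exists_height_eq_zero (p := 2)
      (CfsgLib.Blocks.isPBlock_nonempty hB)
    set η : Cfsg.IrrCharacter C := ⟨fun g => (ξ : C ⧸ Z → ℂ) (f g),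
      CfsgLib.CharTheory.isIrrCharacter_comp ξ.2 (QuotientGroup.mk'_surjective Z)⟩
    have hB' : Cfsg.blockOf M (η : C → ℂ) ≠ Cfsg.principalBlock M C := fun h => hne (by
      refine CfsgLib.Blocks.isPBlock_eq_of_mem hB ⟨CfsgLib.CharTheory.trivIrr _, rfl⟩ hξ ?_
      exact CfsgLib.BrauerCharacters.mem_principalBlock_of_inflate hM f
        (QuotientGroup.mk'_surjective Z) hz2 hz1 hzc hker ξ η (fun _ => rfl)
        (h ▸ CfsgLib.Blocks.mem_blockOf_self η))
    have h1 := hC _ (CfsgLib.Blocks.isPBlock_blockOf η) hB'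
    have h2 := CfsgLib.BrauerCharacters.defect_add_degree (p := 2)
      (CfsgLib.Blocks.mem_blockOf_self (M := M) η)
    have h3 := CfsgLib.BrauerCharacters.defect_add_degree (p := 2) hξ
    have hdeg : Cfsg.charDegree (η : C → ℂ) = Cfsg.charDegree (ξ : C ⧸ Z → ℂ) := by
      show ⌊((ξ : C ⧸ Z → ℂ) (f 1)).re⌋₊ = _
      rw [map_one]; rfl
    rw [hdeg] at h2
    omega
  · have hEC : E ≤ C := fun x hx => Subgroup.mem_centralizer_singleton_iff.2 (by
      have hinv : ∀ w ∈ E, w⁻¹ = w := fun w hw => inv_eq_of_mul_eq_one_right (hsq w hw)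
      calc x * v = (x * v)⁻¹ := (hinv _ (E.mul_mem hx hv)).symm
        _ = v * x := by rw [mul_inv_rev, hinv x hx, hinv v hv])
    set E1 := E.subgroupOf C
    set g := f.comp E1.subtype
    refine ⟨g.range, ?_, ?_⟩
    · rintro _ ⟨e, rfl⟩
      rw [← map_mul, show e * e = 1 from Subtype.ext (Subtype.ext (hsq _ e.2)), map_one]
    · have hk : Nat.card g.ker = 2 := by
        rw [← hzord, ← Nat.card_zpowers z]
        refine Nat.card_congr
          { toFun := fun e => ⟨((e : E1) : C), (QuotientGroup.eq_one_iff _).1 e.2⟩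
            invFun := fun e => ⟨⟨(e : C), ?_⟩, (QuotientGroup.eq_one_iff _).2 e.2⟩
            left_inv := fun e => rfl
            right_inv := fun e => rfl }
        rcases (hmemZ (e : C)).1 e.2 with h | h <;> rw [h]
        · exact E1.one_mem
        · exact hv
      have h := Subgroup.card_mul_index g.ker
      rw [Subgroup.index_ker, hk, Nat.card_congr (Subgroup.subgroupOfEquivOfLe hEC).toEquiv,
        hcard, pow_succ'] at h
      rw [show r - 1 + 1 = r by omega]
      exact Nat.eq_of_mul_eq_mul_left (by norm_num) h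

theorem card_bound_of_deficiency (a : ℕ) : ∃ N : ℕ, ∀ (G : Type u) [Group G] [Finite G] (M : Ideal Cfsg.AlgInt) (r : ℕ),
    Cfsg.IsPModular 2 M → (Nat.card G).factorization 2 = a →
    (∀ B : Set (Cfsg.IrrCharacter G), Cfsg.IsPBlock M B → B ≠ Cfsg.principalBlock M G →
      Cfsg.blockDefect 2 B < r) →
    (∃ E : Subgroup G, (∀ x ∈ E, x * x = 1) ∧ Nat.card E = 2 ^ (r + 1)) → Nat.card G ≤ N := by
  classical
  haveI : Fact (Nat.Prime 2) := ⟨Nat.prime_two⟩
  induction a using Nat.strong_induction_on with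
  | _ a ih =>
    choose! F hF using ih
    set Nq := (Finset.range a).sup F
    obtain ⟨N0, hN0⟩ := Cfsg.Agent.S4718.result.{u} 2 a
    obtain ⟨N1, hN1⟩ := CfsgLib.BrauerCharacters.exists_card_le_of_klein.{u} a (2 * Nq)
    refine ⟨max N0 N1, fun G _ _ M r hM ha hdef ⟨E, hsq, hcard⟩ => ?_⟩
    rcases Nat.eq_zero_or_pos r with rfl | hr
    · refine (hN0 G M hM ha fun B hB => ?_).trans (le_max_left _ _)
      by_contra h
      exact Nat.not_lt_zero _ (hdef B hB h)
    refine le_trans ?_ (le_max_right _ _)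
    haveI : Fintype E := Fintype.ofFinite E
    have h4 : 3 ≤ (Finset.univ : Finset E).card := by
      rw [Finset.card_univ, ← Nat.card_eq_fintype_card, hcard]
      calc 3 ≤ 2 ^ (1 + 1) := by norm_num
        _ ≤ 2 ^ (r + 1) := Nat.pow_le_pow_right (by norm_num) (by omega)
    obtain ⟨t, ht⟩ := (Finset.card_pos (s := (Finset.univ : Finset E).erase 1)).1
      (by rw [Finset.card_erase_of_mem (Finset.mem_univ _)]; omega)
    obtain ⟨s, hs⟩ := (Finset.card_pos (s := ((Finset.univ : Finset E).erase 1).erase t)).1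
      (by rw [Finset.card_erase_of_mem ht, Finset.card_erase_of_mem (Finset.mem_univ _)]; omega)
    obtain ⟨hst, hs1⟩ := by simpa [Finset.mem_erase] using hs
    have ht1 : t ≠ 1 := (Finset.mem_erase.1 ht).1
    have hord : ∀ e : E, e ≠ 1 → orderOf (e : G) = 2 := fun e he =>
      orderOf_eq_prime (by rw [pow_two]; exact hsq _ e.2) (fun h => he (Subtype.ext h))
    have hts : t * s ≠ 1 := fun h => hst (by
      have h' : t * t = 1 := Subtype.ext (hsq _ t.2)
      exact mul_left_cancel (h.trans h'.symm))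
    have hcomm : (t : G) * s = s * t := by
      have hinv : ∀ w ∈ E, w⁻¹ = w := fun w hw => inv_eq_of_mul_eq_one_right (hsq w hw)
      calc (t : G) * s = ((t : G) * s)⁻¹ := (hinv _ (E.mul_mem t.2 s.2)).symm
        _ = s * t := by rw [mul_inv_rev, hinv _ s.2, hinv _ t.2]
    have hb := fun (v : E) (hv : v ≠ 1) => centralizer_bound a Nq (fun H _ _ M' r' hM' hlt hd hE =>
      (hF _ hlt H M' r' hM' rfl hd hE).trans (Finset.le_sup (Finset.mem_range.2 hlt)))
      G M r hM ha hr hdef E hsq hcard (v : G) v.2 (hord v hv)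
    exact hN1 G ha.le t s (hord t ht1) (hord s hs1) (hord (t * s) hts) hcomm
      (hb t ht1) (hb s hs1) (hb (t * s) hts)

/-- For every natural number a there is a bound N with the following property. Let G be a finite group with Sylow 2-subgroups of order 2^a and r ≥ 0 such that G has no non-principal 2-block (relative to a maximal ideal of the algebraic integers containing 2) of defect ≥ r, and suppose a Sylow 2-subgroup of G contains an elementary abelian subgroup of order 2^(r+1). Then the order of G is at most N. -/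
theorem result (a : ℕ) : ∃ N : ℕ, ∀ (G : Type u) [Group G] [Finite G] (M : Ideal Cfsg.AlgInt) (r : ℕ) (P : Sylow 2 G), Cfsg.IsPModular 2 M → Nat.card P = 2 ^ a → (∀ B : Set (Cfsg.IrrCharacter G), Cfsg.IsPBlock M B → B ≠ Cfsg.principalBlock M G → Cfsg.blockDefect 2 B < r) → (∃ E : Subgroup G, E ≤ (P : Subgroup G) ∧ IsMulCommutative E ∧ (∀ x ∈ E, x * x = 1) ∧ Nat.card E = 2 ^ (r + 1)) → Nat.card G ≤ N := by
  obtain ⟨N, hN⟩ := card_bound_of_deficiency.{u} a
  refine ⟨N, fun G _ _ M r P hM hP hdef ⟨E, _, _, hsq, hcard⟩ => hN G M r hM ?_ hdef ⟨E, hsq, hcard⟩⟩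
  haveI : Fact (Nat.Prime 2) := ⟨Nat.prime_two⟩
  exact Nat.pow_right_injective le_rfl ((P.card_eq_multiplicity).symm.trans hP)

end Cfsg.Agent.S4719
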