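import Cfsg.Statements.S4721
import Cfsg.Agent.Lib.BlockSections.ExceptionalInvolution

set_option autoImplicit false
open Cfsg

namespace Cfsg.Agent.S4721

/-- Let p be a prime, M a maximal ideal of the algebraic integers containing p, and G a finite group with a nontrivial abelian Sylow p-subgroup P, N = N_G(P), C = C_G(P), such that N/C is cyclic of order 3, #P > 4, and C_G(y) ∩ N = C for every non-identity y ∈ P. Then the principal p-block is the disjoint union of a set X of exactly 3 characters containing the principal character and a set Y of (#P − 1)/3 characters, with signs a_χ = ±1 (χ ∈ X, a = 1 at the principal character) and δ = ±1 such that every χ ∈ X takes the value a_χ at every element whose p-part is a non-identity element of P, and there is a map ζ from the non-principal linear characters of P onto Y, constant on N-conjugacy classes, with ζ_ψ(z) = δ·Σ ψ'(y) over the N-orbit of ψ, for z with p-part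 y ≠ 1 in P. If moreover G has an involution lying in no proper normal subgroup of G, then exactly two of the three numbers −δ and a_χ (χ ∈ X non-principal) equal −1, and the product of the degrees of the two non-principal members of X and of any member of Y is a perfect square. -/
theorem result {G : Type*} [Group G] [Finite G] (p : ℕ) [Fact p.Prime] (M : Ideal Cfsg.AlgInt) (hM : Cfsg.IsPModular p M) (P : Sylow p G) (hab : IsMulCommutative P) (hP1 : Nat.card P ≠ 1) (hCN : (Subgroup.centralizer ((P : Subgroup G) : Set G)).relIndex (Subgroup.normalizer ((P : Subgroup G) : Set G)) = 3) (hcyc : ∃ g : G, g ∈ Subgroup.normalizer ((P : Subgroup G) : Set G) ∧ Subgroup.centralizer ((P : Subgroup G) : Set G) ⊔ Subgroup.zpowers g = Subgroup.normalizer ((P : Subgroup G) : Set G)) (hm2 : 3 + 1 < Nat.card P) (hfrob : ∀ y : G, y ∈ (P : Subgroup G) → y ≠ 1 → Subgroup.centralizer ({y} : Set G) ⊓ Subgroup.normalizer ((P : Subgroup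 G) : Set G) = Subgroup.centralizer ((P : Subgroup G) : Set G)) : ∃ (X Y : Set (Cfsg.IrrCharacter G)), Cfsg.principalBlock M G = X ∪ Y ∧ Disjoint X Y ∧ Nat.card X = 3 ∧ Nat.card Y = (Nat.card P - 1) / 3 ∧ (∃ χ₁ ∈ X, (χ₁ : G → ℂ) = fun _ => 1) ∧ ∃ (a : Cfsg.IrrCharacter G → ℤ) (δ : ℤ) (ζ : (↥(P : Subgroup G) →* ℂˣ) → Cfsg.IrrCharacter G), (δ = 1 ∨ δ = -1) ∧ (∀ χ ∈ X, (a χ = 1 ∨ a χ = -1) ∧ ∀ z y : G, Cfsg.IsPPart p z y → y ∈ (P : Subgroup G) → y ≠ 1 → (χ : G → ℂ) z = (a χ : ℂ)) ∧ (∀ ψ : ↥(P : Subgroup G) →* ℂˣ, ψ ≠ 1 → ζ ψ ∈ Y) ∧ (∀ η ∈ Y, ∃ ψ : ↥(P : Subgroup G) →* ℂˣ, ψ ≠ 1 ∧ ζ ψ = η) ∧ (∀ ψ ψ' : ↥(P : Subgroup G) →* ℂˣ, ψ ≠ 1 → (∃ n : G, n ∈ Subgroup.normalizer ((P : Subgroup G) : Set G) ∧ ∀ w w' : ↥(P : Subgroup G), (w' : G) = n * w * n⁻¹ → ψ' w' = ψ w) → ζ ψ' = ζ ψ) ∧ (∀ ψ : ↥(P : Subgroup G) →* ℂˣ, ψ ≠ 1 → ∀ (z : G) (y : ↥(P : Subgroup G)), Cfsg.IsPPart p z (y : G) → (y : G) ≠ 1 → (ζ ψ : G → ℂ) z = (δ : ℂ)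 * ∑ᶠ ψ' ∈ {ψ' : ↥(P : Subgroup G) →* ℂˣ | ∃ n : G, n ∈ Subgroup.normalizer ((P : Subgroup G) : Set G) ∧ ∀ w w' : ↥(P : Subgroup G), (w' : G) = n * w * n⁻¹ → ψ' w' = ψ w}, ((ψ' y : ℂˣ) : ℂ)) ∧ ((∃ t : G, orderOf t = 2 ∧ ∀ K : Subgroup G, K.Normal → t ∈ K → K = ⊤) → Nat.card {χ : Cfsg.IrrCharacter G // χ ∈ X ∧ (χ : G → ℂ) ≠ (fun _ => 1) ∧ a χ = -1} + (if δ = 1 then 1 else 0) = 2 ∧ ∀ η ∈ Y, IsSquare (Cfsg.charDegree (η : G → ℂ) * ∏ᶠ χ ∈ {χ : Cfsg.IrrCharacter G | χ ∈ X ∧ (χ : G → ℂ) ≠ fun _ => 1}, Cfsg.charDegree (χ : G → ℂ))) := by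
  classical
  haveI := CfsgLib.Blocks.isPrime_of_isPModular hM
  haveI := Fintype.ofFinite G
  have hF : CfsgLib.BlockSections.Exceptional.IsFrobSylow P 3 := ⟨hab, hCN, hfrob⟩
  obtain ⟨D₀⟩ := CfsgLib.BlockSections.Exceptional.exists_excData hF hM (by norm_num) hm2
  obtain ⟨D, hd⟩ := CfsgLib.BlockSections.Exceptional.exists_zeroShift hab D₀
  obtain ⟨hX3, hsign⟩ := CfsgLib.BlockSections.Exceptional.card_X_three D hd
  have hY : Nat.card D.Y = (Nat.card P - 1) / 3 := by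
    rw [show Nat.card P = Nat.card D.Y * 3 + 1 from D.card_Y.symm, Nat.add_sub_cancel,
      Nat.mul_div_cancel _ (by norm_num)]
  have hone : (CfsgLib.CharTheory.trivIrr G : G → ℂ) = fun _ => 1 :=
    funext fun g => CfsgLib.CharTheory.trivIrr_apply g
  have hset : ∀ ψ : ↥(P : Subgroup G) →* ℂˣ,
      {ψ' : ↥(P : Subgroup G) →* ℂˣ | ∃ n : G, n ∈ Subgroup.normalizer ((P : Subgroup G) : Set G) ∧
        ∀ w w' : ↥(P : Subgroup G), (w' : G) = n * w * n⁻¹ → ψ' w' = ψ w} =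
      {ψ' | CfsgLib.BlockSections.Exceptional.NRel P ψ ψ'} := fun ψ =>
    Set.ext fun ψ' => CfsgLib.BlockSections.Exceptional.nRel_iff.symm
  refine ⟨D.X, D.Y, D.union, D.disj, hX3, hY,
    ⟨CfsgLib.CharTheory.trivIrr G, D.triv, hone⟩,
    D.a, D.δ, D.ζ, D.sign, fun χ hχ => ⟨hsign χ hχ, D.val_X χ hχ⟩, D.ζ_mem, D.ζ_surj, ?_, ?_, ?_⟩
  · intro ψ ψ' hψ h
    have h' := CfsgLib.BlockSections.Exceptional.nRel_iff.2 h
    exact (D.ζ_eq ψ ψ' hψ (by
      obtain ⟨α, -, hα⟩ := h'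
      rintro rfl
      exact hψ (hα.symm.trans (MonoidHom.ext fun _ => rfl)))).2 h'
  · intro ψ hψ z y hz hy
    rw [D.val_Y ψ hψ z y hz hy, hset, hd, Int.cast_zero, zero_add]
  · rintro ⟨t, hto, hgen⟩
    obtain ⟨χA, χB, hAB, hpair⟩ : ∃ χA χB : Cfsg.IrrCharacter G, χA ≠ χB ∧
        D.X \ {CfsgLib.CharTheory.trivIrr G} = {χA, χB} := by
      refine Set.ncard_eq_two.1 ?_
      rw [Set.ncard_sdiff_singleton_of_mem D.triv, ← Nat.card_coe_set_eq, hX3]
    have hA : χA ∈ D.X ∧ χA ≠ CfsgLib.CharTheory.trivIrr G := by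
      have : χA ∈ D.X \ {CfsgLib.CharTheory.trivIrr G} := by rw [hpair]; simp
      simpa using this
    have hB : χB ∈ D.X ∧ χB ≠ CfsgLib.CharTheory.trivIrr G := by
      have : χB ∈ D.X \ {CfsgLib.CharTheory.trivIrr G} := by rw [hpair]; simp
      simpa using this
    have hX : D.X = {CfsgLib.CharTheory.trivIrr G, χA, χB} := by
      rw [← hpair, Set.insert_sdiff_singleton, Set.insert_eq_of_mem D.triv]
    obtain ⟨hcount, hsq⟩ := CfsgLib.BlockSections.Exceptional.signs_and_square hF hM rfl D hd hAB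
      hA.2 hB.2 hX (hsign _ hA.1) (hsign _ hB.1) hto hgen
    have hS : {χ : Cfsg.IrrCharacter G | χ ∈ D.X ∧ (χ : G → ℂ) ≠ fun _ => 1} = {χA, χB} := by
      rw [← hpair]
      ext χ
      simp only [Set.mem_ofPred_eq, Set.mem_sdiff, Set.mem_singleton_iff, ← hone]
      exact and_congr_right fun _ => ⟨fun h e => h (by rw [e]), fun h e => h (Subtype.ext e)⟩
    refine ⟨?_, fun η hη => ?_⟩
    · rw [← hcount]
      congr 1
      rw [Nat.card_congr (Equiv.subtypeEquivRight (q := fun χ : Cfsg.IrrCharacter G =>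
        χ ∈ ({χA, χB} : Finset (Cfsg.IrrCharacter G)).filter fun χ => D.a χ = -1) fun χ => by
        rw [Finset.mem_filter, ← Finset.mem_coe, Finset.coe_pair, ← hS]
        exact and_assoc.symm), Nat.card_eq_finsetCard, Finset.card_filter, Finset.sum_pair hAB]
    · rw [hS, finprod_mem_pair hAB]
      exact hsq η hη

end Cfsg.Agent.S4721
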