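import Cfsg.Statements.S4722
import Cfsg.Agent.Lib.BrauerCharacters.PrincipalInvolution
import Cfsg.Agent.Lib.Correspondences.PrincipalBlock

set_option autoImplicit false
open Cfsg

namespace Cfsg.Agent.S4722

/-- Let M be a maximal ideal of the algebraic integers containing 2, P a 2-subgroup of the finite group G, U a subset of P, and t an involution of G such that no element of U is inverted by any conjugate of t. Let θ be a generalized character of P vanishing outside U, and for χ in the principal 2-block B₀ put a_χ = #P⁻¹ Σ_{y ∈ P} χ(y) θ(y⁻¹). Then Σ_{χ ∈ B₀} a_χ χ(t)^2/χ(1) = 0, Σ_{χ ∈ B₀} a_χ χ(1) = 0 and Σ_{χ ∈ B₀} a_χ χ(t) = 0. If moreover #P⁻¹ Σ_{y ∈ P} θ(y) ≠ 0, then either at least two of the a_χ have positive real part and at least two have negative real part, or G has a proper normal subgroup containing O_2'(G) and t. -/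
theorem result {G : Type*} [Group G] [Finite G] (M : Ideal Cfsg.AlgInt) (hM : Cfsg.IsPModular 2 M) (P : Subgroup G) (hP : IsPGroup 2 P) (U : Set G) (hUP : U ⊆ (P : Set G)) (t : G) (ht : orderOf t = 2) (hinv : ∀ u ∈ U, ∀ g : G, (g * t * g⁻¹) * u * (g * t * g⁻¹)⁻¹ ≠ u⁻¹) (θ : ↥P → ℂ) (hθ : Cfsg.IsGeneralizedCharacter ↥P θ) (hθU : ∀ y : ↥P, (y : G) ∉ U → θ y = 0) : (∑ᶠ χ ∈ Cfsg.principalBlock M G, ((Nat.card ↥P : ℂ)⁻¹ * ∑ᶠ y : ↥P, (χ : G → ℂ) (y : G) * θ y⁻¹) * (χ : G → ℂ) t ^ 2 / (χ : G → ℂ) 1 = 0) ∧ (∑ᶠ χ ∈ Cfsg.principalBlock M G, ((Nat.card ↥P : ℂ)⁻¹ * ∑ᶠ y : ↥P, (χ : G → ℂ) (y : G) * θ y⁻¹) * (χ : G → ℂ) 1 = 0) ∧ (∑ᶠ χ ∈ Cfsg.principalBlock M G, ((Nat.card ↥P : ℂ)⁻¹ * ∑ᶠ y : ↥P, (χ : G → ℂ) (y : G) * θ y⁻¹) * (χ : G → ℂ) t = 0) ∧ ((Nat.card ↥P : ℂ)⁻¹ * ∑ᶠ y : ↥P, θ y ≠ 0 → (2 ≤ Nat.card {χ : Cfsg.IrrCharacter G // χ ∈ Cfsg.principalBlock M G ∧ 0 < (((Nat.card ↥P : ℂ)⁻¹ * ∑ᶠ y : ↥P, (χ : G → ℂ) (y : G) * θ y⁻¹)).re}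 ∧ 2 ≤ Nat.card {χ : Cfsg.IrrCharacter G // χ ∈ Cfsg.principalBlock M G ∧ (((Nat.card ↥P : ℂ)⁻¹ * ∑ᶠ y : ↥P, (χ : G → ℂ) (y : G) * θ y⁻¹)).re < 0}) ∨ ∃ K : Subgroup G, K.Normal ∧ K ≠ ⊤ ∧ Cfsg.pPrimeCore 2 G ≤ K ∧ t ∈ K) := by
  classical
  haveI := CfsgLib.Blocks.isPrime_of_isPModular hM
  haveI : Fact (Nat.Prime 2) := ⟨Nat.prime_two⟩
  haveI := Fintype.ofFinite G
  haveI := Fintype.ofFinite P
  have htt : t * t = 1 := by
    have h := pow_orderOf_eq_one t
    rwa [ht, pow_two] at h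
  set A : Cfsg.IrrCharacter G → ℂ := fun χ =>
    (Nat.card P : ℂ)⁻¹ * ∑ y : P, (χ : G → ℂ) (y : G) * θ y⁻¹ with hA
  simp only [finsum_eq_sum_of_fintype]
  simp only [CfsgLib.BrauerCharacters.finsum_mem_eq_sum_blockFinset]
  set B := CfsgLib.BrauerCharacters.blockFinset (Cfsg.principalBlock M G) with hBdef
  have hpel : ∀ y : P, ∃ k : ℕ, orderOf (y : G) = 2 ^ k := fun y => by
    obtain ⟨k, hk⟩ := (IsPGroup.iff_orderOf.1 hP) y
    exact ⟨k, by rw [Subgroup.orderOf_coe, hk]⟩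
  -- vanishing of a linear functional reduces to the elements of `U`
  have hsum : ∀ F : Cfsg.IrrCharacter G → ℂ,
      (∀ y : P, (y : G)⁻¹ ∈ U → ∑ χ ∈ B, (χ : G → ℂ) (y : G) * F χ = 0) →
      ∑ χ ∈ B, A χ * F χ = 0 := by
    intro F hF
    simp only [A, Finset.mul_sum, Finset.sum_mul]
    rw [Finset.sum_comm]
    refine Finset.sum_eq_zero fun y _ => ?_
    by_cases hy : (y : G)⁻¹ ∈ U
    · calc _ = (Nat.card P : ℂ)⁻¹ * θ y⁻¹ * ∑ χ ∈ B, (χ : G → ℂ) (y : G) * F χ := by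
            rw [Finset.mul_sum]; exact Finset.sum_congr rfl fun χ _ => by ring
        _ = 0 := by rw [hF y hy, mul_zero]
    · refine Finset.sum_eq_zero fun χ _ => ?_
      rw [hθU y⁻¹ (by simpa using hy)]
      ring
  have hinv' : ∀ y : P, (y : G)⁻¹ ∈ U → ∀ g : G,
      g * t * g⁻¹ * (y : G) * (g * t * g⁻¹)⁻¹ ≠ (y : G)⁻¹ := fun y hy g hg => by
    refine hinv _ hy g ?_
    rw [inv_inv, ← conj_inv, hg, inv_inv]
  have hne1 : ∀ y : P, (y : G)⁻¹ ∈ U → ¬ IsConj (y : G) 1 := fun y hy h => by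
    refine hinv _ hy 1 ?_
    rw [isConj_comm, isConj_one_right] at h
    simp [h]
  have hnet : ∀ y : P, (y : G)⁻¹ ∈ U → ¬ IsConj (y : G) t := fun y hy h => by
    obtain ⟨g, hg⟩ := isConj_iff.1 h
    refine hinv' y hy g⁻¹ ?_
    have he : g⁻¹ * t * g⁻¹⁻¹ = (y : G) := by rw [← hg]; group
    have hy2 : (y : G)⁻¹ = y := by
      rw [← he, conj_inv, inv_eq_of_mul_eq_one_right htt]
    rw [he, mul_inv_cancel_right, hy2]
  have e1 : ∑ χ ∈ B, A χ * (χ : G → ℂ) 1 = 0 := hsum _ fun y hy => by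
    rw [← CfsgLib.BrauerCharacters.sum_principal_eq_zero_of_not_isConj hM (z := 1) (hpel y)
      ⟨0, orderOf_one⟩ (hne1 y hy)]
    exact Finset.sum_congr rfl fun χ _ => by
      rw [(CfsgLib.BrauerCharacters.charDegree_spec χ).1, Complex.conj_natCast]
  have e2 : ∑ χ ∈ B, A χ * (χ : G → ℂ) t = 0 := hsum _ fun y hy => by
    rw [← CfsgLib.BrauerCharacters.sum_principal_eq_zero_of_not_isConj hM (z := t) (hpel y)
      ⟨1, by rw [ht, pow_one]⟩ (hnet y hy)]
    exact Finset.sum_congr rfl fun χ _ => by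
      rw [CfsgLib.BrauerCharacters.conj_apply_involution χ htt]
  have e3 : ∑ χ ∈ B, A χ * (χ : G → ℂ) t ^ 2 / (χ : G → ℂ) 1 = 0 := by
    simp only [mul_div_assoc]
    refine hsum _ fun y hy => ?_
    haveI := Fintype.ofFinite (Subgroup.centralizer ({(y : G)} : Set G))
    rw [← CfsgLib.BrauerCharacters.sum_principal_mul_sq_eq_zero hM (hpel y) htt (hinv' y hy)]
    exact Finset.sum_congr rfl fun χ _ => (mul_div_assoc _ _ _).symm
  refine ⟨e3, e1, e2, fun hθ0 => ?_⟩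
  -- the coefficients are integers
  have hreal : ∀ χ, ∃ z : ℤ, A χ = z := fun χ => by
    obtain ⟨z, hz⟩ := CfsgLib.CharTheory.exists_classInner_eq_int
      (CfsgLib.CharTheory.IsCharacter.isGeneralizedCharacter
        (CfsgLib.Coherence.isCharacter_comp
          (CfsgLib.CharTheory.IsIrrCharacter.isCharacter χ.2) P.subtype)) hθ
    refine ⟨z, ?_⟩
    rw [← hz, Cfsg.classInner]
    simp only [A]
    congr 1
    exact Finset.sum_congr rfl fun y _ => by
      rw [CfsgLib.CharTheory.IsGeneralizedCharacter.inv hθ y]; rfl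
  choose z hz using hreal
  set Az : Cfsg.IrrCharacter G → ℝ := fun χ => (z χ : ℝ) with hAz
  set f : Cfsg.IrrCharacter G → ℝ := fun χ => (Cfsg.charDegree (χ : G → ℂ) : ℝ) with hf
  set T : Cfsg.IrrCharacter G → ℝ := fun χ => ((χ : G → ℂ) t).re with hT
  have hTc : ∀ χ : Cfsg.IrrCharacter G, ((T χ : ℝ) : ℂ) = (χ : G → ℂ) t := fun χ =>
    Complex.conj_eq_iff_re.1 (CfsgLib.BrauerCharacters.conj_apply_involution χ htt)
  have hfc : ∀ χ : Cfsg.IrrCharacter G, ((f χ : ℝ) : ℂ) = (χ : G → ℂ) 1 := fun χ => by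
    rw [(CfsgLib.BrauerCharacters.charDegree_spec χ).1]; simp [f]
  have hAc : ∀ χ, ((Az χ : ℝ) : ℂ) = A χ := fun χ => by rw [hz]; simp [Az]
  have hfpos : ∀ χ ∈ B, 0 < f χ := fun χ _ => by
    simp only [f]; exact_mod_cast (CfsgLib.BrauerCharacters.charDegree_spec χ).2.1
  have r1 : ∑ χ ∈ B, Az χ * f χ = 0 := Complex.ofReal_injective (by
    push_cast; simp only [hAc, hfc]; exact e1)
  have r2 : ∑ χ ∈ B, Az χ * T χ = 0 := Complex.ofReal_injective (by
    push_cast; simp only [hAc, hTc]; exact e2)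
  have r3 : ∑ χ ∈ B, Az χ * T χ ^ 2 / f χ = 0 := Complex.ofReal_injective (by
    push_cast; simp only [hAc, hTc, hfc]; exact e3)
  set one := CfsgLib.CharTheory.trivIrr G with hone
  have honeB : one ∈ B := CfsgLib.BrauerCharacters.mem_blockFinset.2
    (CfsgLib.Blocks.mem_blockOf_self one)
  have hAone : Az one ≠ 0 := by
    intro h0
    apply hθ0
    have h1 : A one = 0 := by rw [← hAc, h0]; simp
    rw [← h1]
    simp only [A, one, CfsgLib.CharTheory.trivIrr_apply, one_mul]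
    congr 1
    exact (Equiv.sum_comp (Equiv.inv P) θ).symm
  have hTone : T one = f one := Complex.ofReal_injective (by
    rw [hTc, hfc]; rfl)
  have hre : ∀ χ, (A χ).re = Az χ := fun χ => by rw [← hAc]; simp
  -- either two of each sign or a proper normal subgroup
  by_cases hcase : (∀ i ∈ B, ∀ j ∈ B, 0 < Az i → 0 < Az j → i = j) ∨
      (∀ i ∈ B, ∀ j ∈ B, Az i < 0 → Az j < 0 → i = j)
  · right
    obtain ⟨hker, χ, hχB, hχne, hχA⟩ : (∀ i ∈ B, Az i ≠ 0 → T i = f i) ∧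
        ∃ i ∈ B, i ≠ one ∧ Az i ≠ 0 := by
      rcases hcase with h | h
      · exact CfsgLib.BrauerCharacters.eq_of_single_pos B Az f T hfpos r1 r2 r3 honeB hAone hTone h
      · have h' := CfsgLib.BrauerCharacters.eq_of_single_pos B (fun i => -Az i) f T hfpos
          (by simp [r1]) (by simp [r2]) (by simp [neg_div, r3]) honeB (by simpa using hAone) hTone
          (fun i hi j hj h1 h2 => h i hi j hj (neg_pos.1 h1) (neg_pos.1 h2))
        exact ⟨fun i hi hA => h'.1 i hi (by simpa using hA),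
          by obtain ⟨i, hi, hne, hA⟩ := h'.2; exact ⟨i, hi, hne, by simpa using hA⟩⟩
    have hχc := CfsgLib.CharTheory.IsIrrCharacter.isCharacter χ.2
    refine ⟨CfsgLib.Correspondences.charKer hχc, CfsgLib.Correspondences.charKer_normal hχc,
      fun htop => hχne ?_, sSup_le fun N hN x hx => ?_, ?_⟩
    · by_contra hne
      have hcst : ∀ g : G, (χ : G → ℂ) g = (χ : G → ℂ) 1 := fun g =>
        (CfsgLib.Correspondences.mem_charKer hχc).1 (htop ▸ Subgroup.mem_top g)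
      have horth := CfsgLib.CharTheory.classInner_irrCharacter χ one
      rw [if_neg hne, Cfsg.classInner] at horth
      simp only [hcst, one, CfsgLib.CharTheory.trivIrr_apply, map_one, mul_one, Finset.sum_const,
        Finset.card_univ, nsmul_eq_mul, ← Nat.card_eq_fintype_card, ← mul_assoc] at horth
      rw [inv_mul_cancel₀ (Nat.cast_ne_zero.2 Nat.card_pos.ne'), one_mul] at horth
      exact CfsgLib.CharTheory.apply_one_ne_zero_of_isIrr χ.2 horth
    · haveI := hN.1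
      exact CfsgLib.Correspondences.apply_eq_of_mem_principalBlock hM
        (CfsgLib.BrauerCharacters.mem_blockFinset.1 hχB) N
        ((Nat.prime_two.coprime_iff_not_dvd).1 hN.2.symm) hx
    · show (χ : G → ℂ) t = (χ : G → ℂ) 1
      rw [← hTc, ← hfc, hker χ hχB hχA]
  · left
    push Not at hcase
    obtain ⟨⟨i, hi, j, hj, hAi, hAj, hij⟩, ⟨k, hk, l, hl, hAk, hAl, hkl⟩⟩ := hcase
    constructor
    · haveI : Nontrivial {χ : Cfsg.IrrCharacter G //
          χ ∈ Cfsg.principalBlock M G ∧ 0 < (A χ).re} :=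
        ⟨⟨i, CfsgLib.BrauerCharacters.mem_blockFinset.1 hi, by rwa [hre]⟩,
          ⟨j, CfsgLib.BrauerCharacters.mem_blockFinset.1 hj, by rwa [hre]⟩,
          fun h => hij (congrArg Subtype.val h)⟩
      exact Finite.one_lt_card
    · haveI : Nontrivial {χ : Cfsg.IrrCharacter G //
          χ ∈ Cfsg.principalBlock M G ∧ (A χ).re < 0} :=
        ⟨⟨k, CfsgLib.BrauerCharacters.mem_blockFinset.1 hk, by rwa [hre]⟩,
          ⟨l, CfsgLib.BrauerCharacters.mem_blockFinset.1 hl, by rwa [hre]⟩,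
          fun h => hkl (congrArg Subtype.val h)⟩
      exact Finite.one_lt_card

end Cfsg.Agent.S4722
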