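import Cfsg.Statements.S4723
import Cfsg.Agent.Lib.BlockLocal.MaxCovering
import Cfsg.Agent.Lib.BlockLocal.NormalInduce
import Cfsg.Agent.Lib.BlockLocal.RegUnit
import Cfsg.Agent.Lib.BlockLocal.BlockCover
import Cfsg.Agent.Lib.Clifford.Basic
import Cfsg.Agent.Lib.RealChar.DegreeRatio

set_option autoImplicit false
open Cfsg

namespace Cfsg.Agent.S4723

open CfsgLib CfsgLib.BrauerPairs

theorem blockDefect_bound {X : Type*} [Group X] [Fintype X] {q : ℕ}
    {B : Set (IrrCharacter X)} {χ : IrrCharacter X} (hχ : χ ∈ B)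
    (hd : charDegree (χ : X → ℂ) ∣ Nat.card X) (h0 : blockHeight q B (χ : X → ℂ) = 0) :
    (charDegree (χ : X → ℂ)).factorization q + blockDefect q B = (Nat.card X).factorization q ∧
      ∀ ψ ∈ B, (charDegree (χ : X → ℂ)).factorization q ≤
        (charDegree (ψ : X → ℂ)).factorization q := by
  have hle := BlockLocal.factorization_le_of_height_zero h0 (hψ := hχ)
  refine ⟨?_, fun ψ hψ => BlockLocal.factorization_le_of_height_zero h0 hψ⟩
  have h1 : sInf ((fun χ : IrrCharacter X => (charDegree (χ : X → ℂ)).factorization q) '' B)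
      ≤ (charDegree (χ : X → ℂ)).factorization q := Nat.sInf_le ⟨χ, hχ, rfl⟩
  have h2 := (Nat.factorization_le_iff_dvd (BlockLocal.charDegree_irr_ne_zero χ)
    Nat.card_pos.ne').2 hd q
  unfold blockHeight at h0
  unfold blockDefect
  omega

theorem charDegree_dvd {X : Type*} [Group X] [Fintype X] (χ : IrrCharacter X) :
    charDegree (χ : X → ℂ) ∣ Nat.card X := by
  obtain ⟨a, ha0, hadvd, ha⟩ := CharTheory.IsIrrCharacter.exists_degree_dvd χ.2
  rwa [charDegree, ha, Complex.natCast_re, Nat.floor_natCast]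


/-- Let p be a prime, M a maximal ideal of the algebraic integers containing p, H a normal subgroup of the finite group G and b a p-block of H. Let T be the stabilizer of b in G. Then b contains a character θ of height zero whose own stabilizer in G (the elements g with θ(g h g⁻¹) = θ(h) for all h ∈ H) has index prime to p in T, i.e. contains a Sylow p-subgroup of T. -/
theorem result {G : Type*} [Group G] [Finite G] (p : ℕ) [Fact p.Prime] (M : Ideal Cfsg.AlgInt) (hM : Cfsg.IsPModular p M) (H : Subgroup G) [H.Normal] (b : Set (Cfsg.IrrCharacter ↥H)) (hb : Cfsg.IsPBlock M b) (T : Subgroup G) (hT : (∀ g : G, g ∈ T ↔ ∀ θ ∈ b, ∀ θ' : Cfsg.IrrCharacter ↥H, (∀ h h' : ↥H, (h' : G) = g * h * g⁻¹ → (θ' : ↥H → ℂ) h' = (θ : ↥H → ℂ) h) → θ' ∈ b)) : ∃ θ ∈ b, Cfsg.blockHeight p b (θ : ↥H → ℂ) = 0 ∧ ∃ S : Subgroup G, S ≤ T ∧ (∀ g : G, g ∈ S ↔ (g ∈ T ∧ ∀ h h' : ↥H, (h' : G) = g * h * g⁻¹ → (θ : ↥H → ℂ) h' = (θ : ↥H → ℂ) h)) ∧ ¬ p ∣ S.relIndex T := by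
  classical
  haveI : M.IsPrime := Blocks.isPrime_of_isPModular hM
  haveI : M.IsMaximal := hM.2.1
  haveI := Fintype.ofFinite G
  haveI := Fintype.ofFinite T
  haveI := Fintype.ofFinite H
  haveI := Fintype.ofFinite (IrrCharacter T)
  have hconj : ∀ g : G, ∀ h : H, ((MulAut.conjNormal g h : H) : G) = g * h * g⁻¹ :=
    fun g h => MulAut.conjNormal_apply g h
  have hHT : H ≤ T := fun x hx => (hT x).2 fun θ hθ θ' h' => by
    have : θ' = θ := Subtype.ext (funext fun h => by
      have h1 := h' h (⟨x, hx⟩ * h * ⟨x, hx⟩⁻¹) rfl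
      rwa [CharTheory.IsIrrCharacter.isClassFunction θ'.2] at h1)
    rwa [this]
  set N := H.subgroupOf T with hN
  haveI : N.Normal := by rw [hN]; infer_instance
  haveI := Fintype.ofFinite N
  let σ : N ≃* H := Subgroup.subgroupOfEquivOfLe hHT
  have hσ : ∀ n : N, ((σ n : H) : G) = ((n : T) : G) := fun n => rfl
  set b' := compIrr σ '' b with hb'def
  have hb' : IsPBlock M b' := isPBlock_image_compIrr σ hb
  have hinv : ∀ t : T, ∀ η ∈ b', ∀ η' : IrrCharacter N,
      (∀ n : N, (η' : N → ℂ) n = (η : N → ℂ)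
        ⟨t * n * t⁻¹, (inferInstance : N.Normal).conj_mem n n.2 t⟩) → η' ∈ b' := by
    rintro t _ ⟨θ, hθ, rfl⟩ η' hη'
    obtain ⟨θ', rfl⟩ := (compIrr σ).surjective η'
    refine ⟨θ', ?_, rfl⟩
    refine (hT ((t : G)⁻¹)).1 (T.inv_mem t.2) θ hθ θ' fun h h' hh => ?_
    have h1 := hη' (σ.symm h')
    simp only [compIrr_apply, MulEquiv.apply_symm_apply] at h1
    rw [h1]
    refine congrArg (θ : H → ℂ) (Subtype.ext ?_)
    show (t : G) * ((σ.symm h' : N) : T) * (t : G)⁻¹ = h
    rw [← hσ (σ.symm h'), σ.apply_symm_apply, hh]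
    group
  have hfix := BlockLocal.conjA_subIdem_of_invariant (M := M) hb' hinv
  -- a covering block of largest defect
  obtain ⟨η₀, hη₀⟩ := Blocks.isPBlock_nonempty hb'
  obtain ⟨χ₀, hχ₀⟩ := BlockLocal.exists_over N η₀
  let cov : IrrCharacter T → Prop := fun χ =>
    ∃ χ' ∈ blockOf M (χ : T → ℂ), ∃ θ ∈ b',
      classInner (fun n : N => (χ' : T → ℂ) n) (θ : N → ℂ) ≠ 0
  obtain ⟨χ₁, hχ₁, hmax⟩ := Finset.exists_max_image (Finset.univ.filter cov)
    (fun χ => blockDefect p (blockOf M (χ : T → ℂ)))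
    ⟨χ₀, Finset.mem_filter.2 ⟨Finset.mem_univ _, χ₀, Blocks.sameBlock_refl _, η₀, hη₀, hχ₀⟩⟩
  set B := blockOf M (χ₁ : T → ℂ) with hBdef
  have hB : IsPBlock M B := ⟨χ₁, rfl⟩
  have hcov := (Finset.mem_filter.1 hχ₁).2
  obtain ⟨P, hP⟩ := BrauerPairs.exists_isDefectGroup hM hB
  obtain ⟨-, -, hdef⟩ := BlockLocal.max_covering hM N hb' hfix hB hcov
    (fun B' hB' hcov' => by
      obtain ⟨χ, rfl⟩ := hB'
      exact hmax χ (Finset.mem_filter.2 ⟨Finset.mem_univ _, hcov'⟩)) hP
  obtain ⟨χ, hχB, hχ0⟩ := BlockLocal.exists_height_zero (p := p) (Blocks.isPBlock_nonempty hB)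
  obtain ⟨θ₁, hθ₁, hθ₁0⟩ := BlockLocal.exists_height_zero (p := p) (Blocks.isPBlock_nonempty hb')
  obtain ⟨hd1, -⟩ := blockDefect_bound hχB (charDegree_dvd χ) hχ0
  obtain ⟨hd2, hmin⟩ := blockDefect_bound hθ₁ (charDegree_dvd θ₁) hθ₁0
  -- a constituent of `χ` in `b'`
  obtain ⟨η, hη⟩ := BlockLocal.exists_constituent N χ
  have hcard : (Nat.card T).factorization p
      = (Nat.card N).factorization p + N.index.factorization p := by
    rw [← Subgroup.card_mul_index N, Nat.factorization_mul Nat.card_pos.ne'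
      Subgroup.index_ne_zero_of_finite, Finsupp.add_apply]
  obtain ⟨χ', hχ'B, θc, hθc, hθcc⟩ := hcov
  have hηb : η ∈ b' := by
    haveI := Fintype.ofFinite (IrrCharacter N)
    have h1 := (covers_iff N hB hb').1 ⟨χ', hχ'B, θc, hθc, hθcc⟩
    have h2 := (covers_iff N hB (Blocks.isPBlock_blockOf (M := M) η)).1
      ⟨χ, hχB, η, Blocks.sameBlock_refl _, hη⟩
    have hctr : subIdem M N b' ∈ ctr (Blocks.Res M) (⊤ : Subgroup T) :=
      mem_ctr.2 ⟨supp_mono le_top (mem_ctr.1 (isBlockIdem_subIdem hb').mem).1,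
        fun g _ => hfix g⟩
    have he := ((isBlockIdem_redElem_blockCoeff hB).2.2.2 _ hctr
      (isBlockIdem_subIdem hb').mul_self).resolve_left h1
    have hne : subIdem M N b' * subIdem M N (blockOf M (η : N → ℂ)) ≠ 0 := fun h0 => h2 (by
      rw [← he, mul_assoc, h0, mul_zero])
    rw [subIdem_injective hb' (Blocks.isPBlock_blockOf η)
      ((isBlockIdem_subIdem hb').eq_of_mul_ne_zero
        (isBlockIdem_subIdem (Blocks.isPBlock_blockOf η)) hne)]
    exact Blocks.sameBlock_refl _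
  set St : Subgroup T := RealChar.inertia N (η : N → ℂ) with hSt
  have hStiff : ∀ t : T, t ∈ St ↔ Clifford.conjChar N (η : N → ℂ) t = (η : N → ℂ) := fun t => by
    rw [Clifford.conjChar_eq_comp]; exact Iff.rfl
  have hval := Clifford.apply_one_eq N χ.2 η.2 hη
  rw [Clifford.card_conjOrbit N _ St hStiff] at hval
  obtain ⟨a, ha⟩ := CharTheory.IsCharacter.exists_classInner_eq_nat
    (Coherence.isCharacter_comp (CharTheory.IsIrrCharacter.isCharacter χ.2) N.subtype) η
  rw [show (classInner (fun n : N => (χ : T → ℂ) n) (η : N → ℂ)) = (a : ℂ) from ha,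
    ← BlockLocal.coe_charDegree χ, ← BlockLocal.coe_charDegree η, ← Nat.cast_mul, ← Nat.cast_mul,
    Nat.cast_inj] at hval
  have ha0 : a ≠ 0 := fun h0 => hη (by
    rw [show (classInner (fun n : N => (χ : T → ℂ) n) (η : N → ℂ)) = (a : ℂ) from ha, h0,
      Nat.cast_zero])
  rw [hval, Nat.factorization_mul (mul_ne_zero ha0 Subgroup.index_ne_zero_of_finite)
    (BlockLocal.charDegree_irr_ne_zero η), Nat.factorization_mul ha0
    Subgroup.index_ne_zero_of_finite, Finsupp.add_apply, Finsupp.add_apply] at hd1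
  have hηmin := hmin η hηb
  have hStp : St.index.factorization p = 0 := by omega
  have hη0 : blockHeight p b' (η : N → ℂ) = 0 := by
    unfold blockHeight at hθ₁0 ⊢
    omega
  obtain ⟨θ, hθ, rfl⟩ := hηb
  refine ⟨θ, hθ, ?_, St.map T.subtype, Subgroup.map_subtype_le _, fun g => ?_, ?_⟩
  · have hdeg : ∀ ξ : IrrCharacter H,
        charDegree (compIrr σ ξ : N → ℂ) = charDegree (ξ : H → ℂ) := fun ξ => by
      simp [charDegree]
    have himg : (fun ψ : IrrCharacter N => (charDegree (ψ : N → ℂ)).factorization p) '' b'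
        = (fun ψ : IrrCharacter H => (charDegree (ψ : H → ℂ)).factorization p) '' b := by
      rw [hb'def, Set.image_image]; simp only [hdeg]
    unfold blockHeight at hη0 ⊢
    rw [himg, hdeg] at hη0
    exact hη0
  · constructor
    · rintro ⟨t, ht, rfl⟩
      refine ⟨t.2, fun h h' hh => ?_⟩
      have h1 := congrFun (RealChar.mem_inertia N |>.1 ht) (σ.symm h)
      simp only [RealChar.conjFun, compIrr_apply, MulEquiv.apply_symm_apply] at h1
      rw [← h1]
      refine congrArg (θ : H → ℂ) (Subtype.ext ?_)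
      rw [hh, hσ, MulAut.conjNormal_apply]
      show _ = (t : G) * ((σ.symm h : N) : T) * (t : G)⁻¹
      rw [← hσ (σ.symm h), σ.apply_symm_apply]
      rfl
    · rintro ⟨hg, hstab⟩
      refine ⟨⟨g, hg⟩, (RealChar.mem_inertia N).2 (funext fun n => ?_), rfl⟩
      simp only [RealChar.conjFun, compIrr_apply]
      refine hstab _ _ ?_
      rw [hσ, MulAut.conjNormal_apply]
      rfl
  · have hrel : (St.map T.subtype).relIndex T = St.index := by
      rw [Subgroup.relIndex, Subgroup.subgroupOf,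
        Subgroup.comap_map_eq_self_of_injective T.subtype_injective]
    rw [hrel]
    intro hd
    have := (Nat.Prime.factorization_pos_of_dvd Fact.out Subgroup.index_ne_zero_of_finite hd)
    omega

end Cfsg.Agent.S4723
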