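import Cfsg.Statements.S4724
import Cfsg.Agent.Lib.PrimeTI.Order
import Cfsg.Agent.Lib.PrimeTI.Two
import Cfsg.Agent.Lib.SmallGroups.PSLTwoPrime
import Cfsg.Agent.S0495

set_option autoImplicit false
open Cfsg

namespace Cfsg.Agent.S4724

theorem ord5 : orderOf ((2 : ℕ) : ZMod 5) = 5 - 1 := by
  rw [orderOf_eq_iff (by norm_num)]
  decide

theorem ord11 : orderOf ((2 : ℕ) : ZMod 11) = 11 - 1 := by
  rw [orderOf_eq_iff (by norm_num)]
  decide

theorem chk5 : CfsgLib.SmallGroups.PSLTwo.oddCheck 5 2 = true := by decide +kernel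

theorem chk11 : CfsgLib.SmallGroups.PSLTwo.oddCheck 11 2 = true := by decide +kernel

/-- Let G be a transitive permutation group of prime degree p having exactly one irreducible character of degree p. Let P be a Sylow p-subgroup and suppose N_G(P) = P·E for a subgroup E with P ∩ E = 1, such that the normalizer of E has order 2·#E and E meets each of its conjugates by elements outside its normalizer trivially. Then p is 5, 7 or 11 and G is isomorphic to PSL(2, p). -/
theorem result {α : Type*} [Fintype α] [DecidableEq α] {p : ℕ} [Fact p.Prime] (hα : Fintype.card α = p) (G : Subgroup (Equiv.Perm α)) [MulAction.IsPretransitive G α] (huniq : ∃! χ : Cfsg.IrrCharacter G, Cfsg.charDegree (χ : G → ℂ) = p) (P : Sylow p G) (E : Subgroup G) (hPE : (P : Subgroup G) ⊔ E = Subgroup.normalizer ((P : Subgroup G) : Set G)) (hPE' : (P : Subgroup G) ⊓ E = ⊥) (hNE : Nat.card (Subgroup.normalizer (E : Set G)) = 2 * Nat.card E) (hTI : ∀ g : G, g ∉ Subgroup.normalizer (E : Set G) → E ⊓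 E.map (MulAut.conj g).toMonoidHom = ⊥) : (p = 5 ∨ p = 7 ∨ p = 11) ∧ ∃ (F : Type) (_ : Field F) (_ : Fintype F), Fintype.card F = p ∧ Nonempty (G ≃* Matrix.ProjectiveSpecialLinearGroup (Fin 2) F) := by
  classical
  letI : Fintype G := Fintype.ofFinite G
  have hdeg : ∀ χ : IrrCharacter G, (χ : G → ℂ) 1 = (Cfsg.charDegree (χ : G → ℂ) : ℂ) :=
    fun χ => (CfsgLib.BrauerCharacters.charDegree_spec χ).1
  obtain ⟨St, hSt, hStu⟩ := huniq
  have h : CfsgLib.PrimeTI.Hyp G α p :=
    { card := by rw [Nat.card_eq_fintype_card, hα]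
      P := P, E := E, sup_eq := hPE, inf_eq := hPE', card_norm := hNE, ti := hTI, St := St
      St_one := by rw [hdeg, hSt]
      St_unique := fun χ hχ => hStu χ (by
        rw [hdeg] at hχ
        exact_mod_cast hχ) }
  have hcases : (p = 5 ∧ Nat.card G = 60 ∧ Nat.card h.E = 2) ∨
      (p = 7 ∧ Nat.card G = 168 ∧ Nat.card h.E = 3) ∨
      (p = 11 ∧ Nat.card G = 660 ∧ Nat.card h.E = 5) := by
    rcases h.two_le_card_E.eq_or_lt with he | he
    · exact Or.inl ⟨(h.card_two he.symm).1, (h.card_two he.symm).2, he.symm⟩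
    · exact Or.inr (h.card_cases he h.card_E_ne_pred)
  have hnc : ¬ IsMulCommutative G := fun hc =>
    h.not_isSolvable (Group.isSolvable_of_comm fun a b => hc.is_comm.comm a b)
  haveI := h.isSimpleGroup
  have hcs := CfsgLib.PermGroups.card_eq_natCard_sylow_mul h.P
  rw [h.card_N] at hcs
  refine ⟨by rcases hcases with ⟨hp, -⟩ | ⟨hp, -⟩ | ⟨hp, -⟩ <;> simp [hp],
    ZMod p, inferInstance, inferInstance, ZMod.card p, ?_⟩
  rcases hcases with ⟨rfl, hc, he⟩ | ⟨rfl, hc, he⟩ | ⟨rfl, hc, he⟩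
  · exact CfsgLib.SmallGroups.PSLTwo.nonempty_mulEquiv_prime' hnc 2 (by norm_num) ord5 chk5
      (by rw [hc]) (by rw [hc, he] at hcs; omega) (ZMod.card 5)
  · exact Cfsg.Agent.S0495.result hc (ZMod.card 7)
  · exact CfsgLib.SmallGroups.PSLTwo.nonempty_mulEquiv_prime' hnc 2 (by norm_num) ord11 chk11
      (by rw [hc]) (by rw [hc, he] at hcs; omega) (ZMod.card 11)

end Cfsg.Agent.S4724
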