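import Cfsg.Statements.S4725
import Cfsg.Agent.Lib.BlockLocal.BlockCover
import Cfsg.Agent.Lib.BlockLocal.RegUnit
import Cfsg.Agent.Lib.Frobenius.Induce
import Cfsg.Agent.Lib.CharTheory.Degree

set_option autoImplicit false
open Cfsg

namespace Cfsg.Agent.S4725

open CfsgLib CfsgLib.BlockLocal
open scoped ComplexConjugate

theorem blockDefect_bound {X : Type*} [Group X] [Fintype X] {q : ℕ}
    {B : Set (IrrCharacter X)} {χ : IrrCharacter X} (hχ : χ ∈ B)
    (h0 : blockHeight q B (χ : X → ℂ) = 0) :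
    (charDegree (χ : X → ℂ)).factorization q + blockDefect q B = (Nat.card X).factorization q ∧
      ∀ ψ ∈ B, (charDegree (χ : X → ℂ)).factorization q ≤
        (charDegree (ψ : X → ℂ)).factorization q := by
  refine ⟨?_, fun ψ hψ => BlockLocal.factorization_le_of_height_zero h0 hψ⟩
  have h1 : sInf ((fun χ : IrrCharacter X => (charDegree (χ : X → ℂ)).factorization q) '' B)
      ≤ (charDegree (χ : X → ℂ)).factorization q := Nat.sInf_le ⟨χ, hχ, rfl⟩
  obtain ⟨a, ha0, hadvd, ha⟩ := CharTheory.IsIrrCharacter.exists_degree_dvd χ.2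
  have hd : charDegree (χ : X → ℂ) ∣ Nat.card X := by
    rwa [charDegree, ha, Complex.natCast_re, Nat.floor_natCast]
  have h2 := (Nat.factorization_le_iff_dvd (BlockLocal.charDegree_irr_ne_zero χ)
    Nat.card_pos.ne').2 hd q
  unfold blockHeight at h0
  unfold blockDefect
  omega


/-- Let p be a prime, M a maximal ideal of the algebraic integers containing p, H a subgroup of the finite group G, and b a p-block of H inducing the p-block B of G, with b and B of the same defect. Then for every height-zero ζ ∈ b there is a height-zero χ ∈ B whose multiplicity in the character induced from ζ is not divisible by p. -/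
theorem result {G : Type*} [Group G] [Fintype G] (p : ℕ) [Fact p.Prime] (M : Ideal Cfsg.AlgInt) (hM : Cfsg.IsPModular p M) (H : Subgroup G) (b : Set (Cfsg.IrrCharacter ↥H)) (B : Set (Cfsg.IrrCharacter G)) (hind : Cfsg.IsInducedBlock M H b B) (hdef : Cfsg.blockDefect p b = Cfsg.blockDefect p B) (ζ : Cfsg.IrrCharacter ↥H) (hζ : ζ ∈ b) (hζ0 : Cfsg.blockHeight p b (ζ : ↥H → ℂ) = 0) : ∃ χ ∈ B, Cfsg.blockHeight p B (χ : G → ℂ) = 0 ∧ ∃ a : ℕ, Cfsg.classInner (Cfsg.indFun H (ζ : ↥H → ℂ)) (χ : G → ℂ) = (a : ℂ) ∧ ¬ p ∣ a := by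
  classical
  haveI : M.IsPrime := Blocks.isPrime_of_isPModular hM
  haveI := Fintype.ofFinite H
  haveI := Fintype.ofFinite (IrrCharacter G)
  set Bf := Finset.univ.filter fun η : IrrCharacter G => η ∈ B with hBf
  have hBfB : (Bf : Set (IrrCharacter G)) = B := by ext η; simp [hBf]
  obtain ⟨χ₀, hχ₀B, hχ₀⟩ := exists_height_zero (p := p) (Blocks.isPBlock_nonempty hind.2.1)
  have hu := memLocalIdeal_sum_sub_of_isInducedBlock hind hζ hχ₀B
    (CharTheory.IsIrrCharacter.isClassFunction χ₀.2) (isClassFunction_coeffSet Bf) (fun g => by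
      rw [← blockCoeff_eq_coeffSet, hBfB]; exact Blocks.memLocalRing_blockCoeff hind.2.1 g)
  rw [sum_coeffSet_mul_div, if_pos (by simp [hBf, hχ₀B])] at hu
  have hm : ∀ χ : IrrCharacter G, ∃ m : ℕ,
      classInner (indFun H (ζ : H → ℂ)) (χ : G → ℂ) = (m : ℂ) := fun χ =>
    CharTheory.IsCharacter.exists_classInner_eq_nat
      (Frobenius.isCharacter_indFun H _ (CharTheory.IsIrrCharacter.isCharacter ζ.2)) χ
  choose m hm using hm
  set N := ∑ χ ∈ Bf, m χ * charDegree (χ : G → ℂ) with hN
  set D := H.index * charDegree (ζ : H → ℂ) with hD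
  have hD0 : D ≠ 0 :=
    mul_ne_zero Subgroup.index_ne_zero_of_finite (charDegree_irr_ne_zero ζ)
  have hGH : (Nat.card G : ℂ) = (Nat.card H : ℂ) * (H.index : ℂ) := by
    rw [← Nat.cast_mul, Subgroup.card_mul_index]
  have hND : (N : ℂ) / (D : ℂ) = (∑ k : H, coeffSet Bf k * (ζ : H → ℂ) k) / (ζ : H → ℂ) 1 := by
    have hH : (Nat.card H : ℂ) ≠ 0 := Nat.cast_ne_zero.2 Nat.card_pos.ne'
    have hI : (H.index : ℂ) ≠ 0 := Nat.cast_ne_zero.2 Subgroup.index_ne_zero_of_finite
    have h1 : (N : ℂ) = (H.index : ℂ) * ∑ k : H, coeffSet Bf k * (ζ : H → ℂ) k := by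
      simp only [hN, Nat.cast_sum, Nat.cast_mul, coe_charDegree, ← hm, coeffSet, Finset.mul_sum,
        Finset.sum_mul]
      rw [Finset.sum_comm (s := Finset.univ)]
      refine Finset.sum_congr rfl fun χ _ => ?_
      rw [Frobenius.classInner_indFun H _ _ (CharTheory.IsIrrCharacter.isClassFunction χ.2),
        classInner, Finset.mul_sum, Finset.sum_mul]
      refine Finset.sum_congr rfl fun k _ => ?_
      rw [irr_apply_inv, hGH]
      field_simp
    rw [h1, hD, Nat.cast_mul, coe_charDegree, mul_div_mul_left _ _ hI]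
  have hunit : ¬ MemLocalIdeal M ((N : ℂ) / (D : ℂ)) := fun h => by
    rw [hND] at h
    refine Blocks.not_memLocalIdeal_one (M := M) ?_
    have := Blocks.memLocalIdeal_sub h hu
    rwa [sub_sub_cancel] at this
  have hle := factorization_le_of_not_memLocalIdeal_div hM hD0 hunit
  have hN0 : N ≠ 0 := fun h0 => hunit (by simp [h0, Blocks.memLocalIdeal_zero])
  obtain ⟨hd1, hmin⟩ := blockDefect_bound hχ₀B hχ₀
  obtain ⟨hd2, -⟩ := blockDefect_bound hζ hζ0
  have hDv : D.factorization p = (charDegree (χ₀ : G → ℂ)).factorization p := by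
    have hc : (Nat.card G).factorization p = (Nat.card H).factorization p + H.index.factorization p := by
      rw [← Subgroup.card_mul_index H, Nat.factorization_mul Nat.card_pos.ne'
        Subgroup.index_ne_zero_of_finite, Finsupp.add_apply]
    rw [hD, Nat.factorization_mul Subgroup.index_ne_zero_of_finite (charDegree_irr_ne_zero ζ),
      Finsupp.add_apply]
    omega
  obtain ⟨χ, hχ, hχv⟩ : ∃ χ ∈ Bf, ¬ p ^ (D.factorization p + 1) ∣ m χ * charDegree (χ : G → ℂ) := by
    by_contra hall
    push Not at hall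
    have h := ((Fact.out : p.Prime).pow_dvd_iff_le_factorization hN0).1
      (Finset.dvd_sum hall)
    omega
  have hχB : χ ∈ B := (Finset.mem_filter.1 hχ).2
  have hm0 : m χ ≠ 0 := fun h0 => hχv (by simp [h0])
  rw [(Fact.out : p.Prime).pow_dvd_iff_le_factorization
    (mul_ne_zero hm0 (charDegree_irr_ne_zero χ)),
    Nat.factorization_mul hm0 (charDegree_irr_ne_zero χ), Finsupp.add_apply] at hχv
  have hmin' := hmin χ hχB
  refine ⟨χ, hχB, ?_, m χ, hm χ, fun hd => ?_⟩
  · unfold blockHeight at hχ₀ ⊢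
    omega
  · have := (Fact.out : p.Prime).factorization_pos_of_dvd hm0 hd
    omega

end Cfsg.Agent.S4725
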