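import Cfsg.Statements.S4726
import Cfsg.Agent.Lib.BrauerCharacters.PairInduce

set_option autoImplicit false
open Cfsg CfsgLib CfsgLib.BrauerPairs CfsgLib.BrauerCharacters

namespace Cfsg.Agent.S4726

/-- Let p be a prime, M a maximal ideal of the algebraic integers containing p, H a subgroup of the finite group G and b a p-block of H with defect group D₀ such that C_G(D₀) ≤ H. Then b induces a block of G, and for every block B of G induced by b there is a defect group D of B with Z(D) ≤ Z(D₀) ≤ D₀ ≤ D (as subgroups of G). In particular, if the defect groups of B are abelian then D₀ is a defect group of B. -/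
theorem result {G : Type*} [Group G] [Finite G] (p : ℕ) [Fact p.Prime] (M : Ideal Cfsg.AlgInt) (hM : Cfsg.IsPModular p M) (H : Subgroup G) (b : Set (Cfsg.IrrCharacter ↥H)) (hb : Cfsg.IsPBlock M b) (D₀ : Subgroup ↥H) (hD₀ : Cfsg.IsDefectGroup p M b D₀) (hC : Subgroup.centralizer ((D₀.map H.subtype : Subgroup G) : Set G) ≤ H) : Cfsg.InducedBlockDefined M H b ∧ ∀ B : Set (Cfsg.IrrCharacter G), Cfsg.IsInducedBlock M H b B → (∃ D : Subgroup G, Cfsg.IsDefectGroup p M B D ∧ (Subgroup.center ↥D).map D.subtype ≤ ((Subgroup.center ↥D₀).map D₀.subtype).map H.subtype ∧ ((Subgroup.center ↥D₀).map D₀.subtype).map H.subtype ≤ D₀.map H.subtype ∧ D₀.map H.subtype ≤ D) ∧ (∀ D : Subgroup G, Cfsg.IsDefectGroup p M B D → IsMulCommutative ↥D → Cfsg.IsDefectGroup p M B (D₀.map H.subtype)) := by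
  classical
  haveI := Blocks.isPrime_of_isPModular hM
  haveI := Blocks.charP_res hM
  set Q : Subgroup G := D₀.map H.subtype with hQdef
  have hb' := isBlockIdem_subIdem (M := M) hb
  obtain ⟨e, he⟩ := exists_isMaxPair_of_isDefectIn hb' ((isDefectGroup_sub_iff hM hb).1 hD₀)
  have hcen : cenIn H Q = Subgroup.centralizer (Q : Set G) := le_antisymm inf_le_right (le_inf hC le_rfl)
  have hpair : IsPair p ⊤ Q e :=
    ⟨he.1.1.1, le_top, isBlockIdem_congr (hcen.trans (cenIn_top Q).symm) he.1.1.2.2⟩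
  obtain ⟨bB, hbB, hbBQ⟩ := (existsUnique_pairOf hpair).exists
  obtain ⟨B₀, hB₀, rfl⟩ := exists_isPBlock_of_isBlockIdem hbB
  refine ⟨⟨B₀, isInducedBlock_of_pairOf hb hB₀ hC he.1 hbBQ⟩, fun B hind => ?_⟩
  have hB := hind.2.1
  have hbi := isBlockIdem_redElem_blockCoeff (M := M) hB
  have hQB := pairOf_of_isInducedBlock hind hC he.1
  -- the defect group of the block of the centraliser
  have hdef : IsDefectIn p (cenIn H Q) (cenIn H Q) e (Q ⊓ Subgroup.centralizer (Q : Set G)) := by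
    obtain ⟨c, hc, hle, hd⟩ := IsMaxPair.exists_conj_defect hb' he he.1
    have hQc : cj c Q = Q :=
      Subgroup.eq_of_le_of_card_ge hle.le (le_of_eq (Subgroup.card_map_of_injective (MulAut.conj c).injective).symm)
    rw [hQc] at hle hd
    rw [(existsUnique_pairLE he.1.1 le_rfl).unique hle (PairLE.refl _ _ _ _)] at hd
    exact hd
  have hkey : ∀ (R : Subgroup G) (g : MonoidAlgebra (Blocks.Res M) G),
      IsMaxPair p ⊤ (redElem M (blockCoeff B)) R g → PairLE p ⊤ Q e R g →
      R ⊓ Subgroup.centralizer (Q : Set G) ≤ Q ⊓ Subgroup.centralizer (Q : Set G) := by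
    intro R g hR hle
    obtain ⟨D', hD', hge⟩ := hle.exists_defect_ge hR.1.1
    rw [cenIn_top, ← hcen] at hD'
    obtain ⟨x, hx, rfl⟩ := hdef.exists_conj hD'
    intro u hu
    obtain ⟨v, hv, hvu⟩ := hge hu
    have hxv : x * v * x⁻¹ = v := by
      rw [(Subgroup.mem_centralizer_iff.1 (hcen ▸ hx) v hv.1).symm, mul_inv_cancel_right]
    rw [← show v = u from hxv.symm.trans hvu]
    exact hv
  have hcenter : ∀ u ∈ Q ⊓ Subgroup.centralizer (Q : Set G),
      u ∈ ((Subgroup.center ↥D₀).map D₀.subtype).map H.subtype := by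
    rintro u ⟨⟨h, hh, rfl⟩, hu⟩
    refine ⟨h, ⟨⟨h, hh⟩, Subgroup.mem_center_iff.2 fun w => ?_, rfl⟩, rfl⟩
    exact Subtype.ext (Subtype.ext (Subgroup.mem_centralizer_iff.1 hu _ ⟨w, w.2, rfl⟩))
  obtain ⟨R, g, hR, hle⟩ := exists_isMaxPair_above hQB
  refine ⟨⟨R, (isDefectGroup_iff hM hB).2 (hR.isDefectIn hbi), ?_,
    Subgroup.map_mono (Subgroup.map_subtype_le _), hle.le⟩, fun D hD hab => ?_⟩
  · rintro _ ⟨z, hz, rfl⟩
    refine hcenter _ (hkey R g hR hle (Subgroup.mem_inf.2 ⟨z.2, ?_⟩))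
    rw [Subgroup.mem_centralizer_iff]
    intro v hv
    exact congrArg Subtype.val (Subgroup.mem_center_iff.1 hz ⟨v, hle.le hv⟩)
  · obtain ⟨c, -, hcR⟩ := ((isDefectGroup_iff hM hB).1 hD).exists_conj (hR.isDefectIn hbi)
    have : Q = R := by
      refine le_antisymm hle.le fun u hu => (hkey R g hR hle (Subgroup.mem_inf.2 ⟨hu, ?_⟩)).1
      rw [Subgroup.mem_centralizer_iff]
      intro v hv
      have hv' := hle.le hv
      rw [hcR] at hu hv'
      obtain ⟨u', hu', rfl⟩ := hu
      obtain ⟨v', hv', rfl⟩ := hv'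
      rw [← map_mul, ← map_mul]
      exact congrArg _ (congrArg Subtype.val (hab.is_comm.comm ⟨v', hv'⟩ ⟨u', hu'⟩))
    rw [this]
    exact (isDefectGroup_iff hM hB).2 (hR.isDefectIn hbi)

end Cfsg.Agent.S4726
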