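import Cfsg.Statements.S4727
import Cfsg.Agent.Lib.RealChar.PiKernel
import Cfsg.Agent.Lib.BrauerPairs.SubBlocks
import Cfsg.Agent.Lib.CharTheory.Inflation

set_option autoImplicit false
open Cfsg

namespace Cfsg.Agent.S4727

open CfsgLib CfsgLib.BrauerPairs CfsgLib.BGAppendix CfsgLib.RealChar.PiKernel


/-- Let p be a prime, π a set of primes containing p, M a maximal ideal of the algebraic integers containing p, and B a p-block of the finite group G with defect group D; let B₁ be the block of N_G(D) with defect group D that induces B (the Brauer correspondent of B). Suppose every element of O_π'(N_G(D)), the largest normal subgroup of N_G(D) whose order has no prime divisor in π, lies in the kernel of every member of B₁. If y is a p-element whose centralizer C has a normal Hall π'-subgroup (every element of C whose order has no prime divisor in π lies in O_π'(C)), then χ(y x) = χ(y) for every χ ∈ B and every x ∈ C whose order has no prime divisor in π. -/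
theorem result {G : Type*} [Group G] [Finite G] (p : ℕ) [Fact p.Prime] (M : Ideal Cfsg.AlgInt) (hM : Cfsg.IsPModular p M) (π : Set ℕ) (hpπ : p ∈ π) (B : Set (Cfsg.IrrCharacter G)) (hB : Cfsg.IsPBlock M B) (D : Subgroup G) (hBD : Cfsg.IsDefectGroup p M B D) (B₁ : Set (Cfsg.IrrCharacter ↥(Subgroup.normalizer (D : Set G)))) (hB₁ : Cfsg.IsInducedBlock M (Subgroup.normalizer (D : Set G)) B₁ B) (hB₁D : Cfsg.IsDefectGroup p M B₁ (D.subgroupOf (Subgroup.normalizer (D : Set G)))) (hker : ∀ n : ↥(Subgroup.normalizer (D : Set G)), n ∈ Cfsg.piCore {q | q ∉ π} ↥(Subgroup.normalizer (D : Set G)) → n ∈ Cfsg.blockKer B₁) (y : G) (hy : ∃ k : ℕ, orderOf y = p ^ k) (hC : ∀ x : ↥(Subgroup.centralizer ({y} : Set G)), (∀ q : ℕ, q.Prime → q ∣ orderOf x → q ∉ π) → x ∈ Cfsg.piCore {q | q ∉ π} ↥(Subgroup.centralizer ({y} : Set G))) : ∀ χ ∈ B, ∀ x : G, x ∈ Subgroup.centralizer ({y} : Set G) → (∀ q : ℕ, q.Prime → q ∣ orderOf x → q ∉ π) → (χ : G → ℂ) (y * x) = (χ : G → ℂ) y := by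
  classical
  haveI : M.IsPrime := CfsgLib.Blocks.isPrime_of_isPModular hM
  haveI : M.IsMaximal := hM.2.1
  haveI : CharP (CfsgLib.Blocks.Res M) p := CfsgLib.Blocks.charP_res hM
  haveI : IsAlgClosed (CfsgLib.Blocks.Res M) := CfsgLib.Blocks.isAlgClosed_res
  haveI := Fintype.ofFinite G
  intro χ hχ x hxC hxπ
  haveI := Fintype.ofFinite (Subgroup.centralizer ({y} : Set G))
  obtain ⟨e, he, hpairN⟩ := exists_maxPair_correspondent hM hBD hB₁ hB₁D
  have hfix := core_le_leftStab_of_correspondent hM hpπ hB₁.1 hpairN hker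
  let xC : Subgroup.centralizer ({y} : Set G) := ⟨x, hxC⟩
  let yC : Subgroup.centralizer ({y} : Set G) := ⟨y, Subgroup.mem_centralizer_singleton_iff.2 rfl⟩
  have hxord : orderOf xC = orderOf x := Subgroup.orderOf_mk _ _
  have hxcore : xC ∈ piCore {q | q ∉ π} (Subgroup.centralizer ({y} : Set G)) :=
    hC xC fun q hq hd => hxπ q hq (hxord ▸ hd)
  have hxreg : ¬ p ∣ orderOf xC := fun h => hxπ p Fact.out (hxord ▸ h) hpπ
  have h1reg : ¬ p ∣ orderOf (1 : Subgroup.centralizer ({y} : Set G)) := by
    rw [orderOf_one]; exact (Fact.out : p.Prime).not_dvd_one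
  have hcz : Subgroup.centralizer ((Subgroup.zpowers y : Subgroup G) : Set G)
      = Subgroup.centralizer ({y} : Set G) := by
    rw [Subgroup.zpowers_eq_closure, Subgroup.centralizer_closure]
  show (χ : G → ℂ) ((yC * xC : Subgroup.centralizer ({y} : Set G)) : G)
    = (χ : G → ℂ) ((yC : Subgroup.centralizer ({y} : Set G)) : G)
  rw [apply_eq_sum_subFun (M := M) _ χ, apply_eq_sum_subFun (M := M) _ χ]
  refine Finset.sum_congr rfl fun c hc => ?_
  have hcb := BlockSections.mem_blockSets.1 hc
  by_cases hp' : PairOf p (⊤ : Subgroup G) (redElem M (blockCoeff B)) (Subgroup.zpowers y)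
      (subIdem M (Subgroup.centralizer ({y} : Set G)) c)
  · have h0 := core_le_leftStab_of_pairOf hM hpπ hB he hfix hp'
    rw [core, hcz] at h0
    have hk := (le_leftStab_subIdem_iff hM (Subgroup.centralizer ({y} : Set G))
      (piCore {q | q ∉ π} (Subgroup.centralizer ({y} : Set G)))
      (fun h => piSubgroup_piCore (π := {q | q ∉ π}) p Fact.out h hpπ) hcb).1 h0 xC hxcore
    unfold subFun
    refine Finset.sum_congr rfl fun ξ hξ => ?_
    congr 1
    obtain ⟨K, -, hK, hKm⟩ := CharTheory.exists_kernel (CharTheory.IsIrrCharacter.isCharacter ξ.2)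
    exact (hKm yC xC ((hK xC).2 (hk ξ (BrauerCharacters.mem_blockFinset.1 hξ)))).1
  · rw [subFun_eq_zero_of_not hM hB hy rfl (yC := yC) rfl hcb hp' hχ hxreg]
    have h := subFun_eq_zero_of_not hM hB hy rfl (yC := yC) rfl hcb hp' hχ h1reg
    rw [mul_one] at h
    rw [h]

end Cfsg.Agent.S4727
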