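import Cfsg.Statements.S4728
import Cfsg.Agent.Lib.RealChar.PiKernel

set_option autoImplicit false
open Cfsg

namespace Cfsg.Agent.S4728

open CfsgLib CfsgLib.BrauerPairs CfsgLib.BGAppendix CfsgLib.RealChar.PiKernel


/-- Let p be a prime, π a set of primes containing p, M a maximal ideal of the algebraic integers containing p, B a p-block of the finite group G with defect group D, and B₁ the block of N_G(D) with defect group D inducing B. Let D₀ be a p-subgroup, H₀ = D₀·C_G(D₀), and b a block of H₀ inducing B. Write O_π'(X) for the largest normal subgroup of X whose order has no prime divisor in π. Suppose that O_π'(C_G(D₀)) is a normal Hall π'-subgroup of C_G(D₀) (it contains every element of C_G(D₀) whose order has no prime divisor in π) and that every element of it lies in the kernel of every member of b. Then every element of O_π'(N_G(D)) lies in the kernel of every member of B₁. -/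
theorem result {G : Type*} [Group G] [Finite G] (p : ℕ) [Fact p.Prime] (M : Ideal Cfsg.AlgInt) (hM : Cfsg.IsPModular p M) (π : Set ℕ) (hpπ : p ∈ π) (B : Set (Cfsg.IrrCharacter G)) (hB : Cfsg.IsPBlock M B) (D : Subgroup G) (hBD : Cfsg.IsDefectGroup p M B D) (B₁ : Set (Cfsg.IrrCharacter ↥(Subgroup.normalizer (D : Set G)))) (hB₁ : Cfsg.IsInducedBlock M (Subgroup.normalizer (D : Set G)) B₁ B) (hB₁D : Cfsg.IsDefectGroup p M B₁ (D.subgroupOf (Subgroup.normalizer (D : Set G)))) (D₀ : Subgroup G) (hD₀ : IsPGroup p D₀) (H₀ : Subgroup G) (hH₀ : H₀ = D₀ ⊔ Subgroup.centralizer (D₀ : Set G)) (b : Set (Cfsg.IrrCharacter ↥H₀)) (hb : Cfsg.IsInducedBlock M H₀ b B) (hcompl : ∀ x : ↥(Subgroup.centralizer (D₀ : Set G)), (∀ q : ℕ, q.Prime → q ∣ orderOf x → q ∉ π) → x ∈ Cfsg.piCore {q | q ∉ π} ↥(Subgroup.centralizer (D₀ : Set G))) (hkerb : ∀ x : ↥(Subgroup.centralizer (D₀ : Set G)), x ∈ Cfsg.piCore {q | q ∉ π} ↥(Subgroup.centralizer (D₀ : Set G)) → ∀ θ ∈ b, ∀ h : ↥H₀, (h : G) =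 (x : G) → (θ : ↥H₀ → ℂ) h = (θ : ↥H₀ → ℂ) 1) : ∀ n : ↥(Subgroup.normalizer (D : Set G)), n ∈ Cfsg.piCore {q | q ∉ π} ↥(Subgroup.normalizer (D : Set G)) → n ∈ Cfsg.blockKer B₁ := by
  classical
  haveI : M.IsPrime := CfsgLib.Blocks.isPrime_of_isPModular hM
  haveI : M.IsMaximal := hM.2.1
  haveI : CharP (CfsgLib.Blocks.Res M) p := CfsgLib.Blocks.charP_res hM
  haveI : IsAlgClosed (CfsgLib.Blocks.Res M) := CfsgLib.Blocks.isAlgClosed_res
  haveI := Fintype.ofFinite G
  obtain ⟨e, he, hpairN⟩ := exists_maxPair_correspondent hM hBD hB₁ hB₁D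
  set C := Subgroup.centralizer (D₀ : Set G) with hCdef
  have hD₀H : D₀ ≤ H₀ := hH₀ ▸ le_sup_left
  have hCH : C ≤ H₀ := hH₀ ▸ le_sup_right
  have hHN : H₀ ≤ Subgroup.normalizer (D₀ : Set G) :=
    hH₀ ▸ sup_le Subgroup.le_normalizer (Subgroup.centralizer_le_normalizer _)
  set f := subIdem M H₀ b with hfdef
  have hfblk := isBlockIdem_subIdem (M := M) hb.1
  have hfcen : IsBlockIdem C f := by
    have hsupp : f ∈ supp (CfsgLib.Blocks.Res M) C := by
      have := mem_supp_cenIn_of_idem hD₀ hD₀H hHN hfblk.mem hfblk.mul_self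
      exact supp_mono inf_le_right this
    refine ⟨mem_ctr.2 ⟨hsupp, fixedBy_anti hCH (mem_ctr.1 hfblk.mem).2⟩, hfblk.mul_self,
      hfblk.ne_zero, fun y hy hyy => hfblk.2.2.2 y ?_ hyy⟩
    refine mem_ctr.2 ⟨supp_mono hCH (mem_ctr.1 hy).1, ?_⟩
    rw [← le_stabA_iff, hH₀]
    exact sup_le (le_stabA_iff.2 (fixedBy_self_of_supp_cen (mem_ctr.1 hy).1))
      (le_stabA_iff.2 (mem_ctr.1 hy).2)
  have hpair : PairOf p (⊤ : Subgroup G) (redElem M (blockCoeff B)) D₀ f := by
    refine ⟨⟨hD₀, le_top, by rw [cenIn_top]; exact hfcen⟩, ?_⟩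
    exact (isInducedBlock_iff hM hD₀ hD₀H hHN hCH hb.1 hb.2.1).1 hb
  -- the core of `C(D₀)` fixes the local idempotent
  have hfix : core π D₀ ≤ leftStab f := by
    have hn : ((core π D₀).subgroupOf H₀).Normal := Subgroup.normal_subgroupOf_of_le_normalizer
      (hHN.trans ((normalizer_le_normalizer_cen D₀).trans (normalizer_le_normalizer_piCoreOf _ _)))
    have h1 := (le_leftStab_subIdem_iff (p := p) hM H₀ ((core π D₀).subgroupOf H₀) ?_ hb.1).2
      fun u hu => ?_
    · rwa [Subgroup.subgroupOf_map_subtype, inf_eq_left.2 ((piCoreOf_le _ _).trans hCH)] at h1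
    · exact fun h => piSubgroup_subgroupOf (H := H₀) (piSubgroup_piCoreOf {q | q ∉ π} C) p
        Fact.out h hpπ
    · obtain ⟨x, hx, hxu⟩ := Subgroup.mem_subgroupOf.1 hu
      exact fun θ hθ => hkerb x hx θ hθ u hxu.symm
  obtain ⟨c, -, hle⟩ := hpair.exists_conj_le (isBlockIdem_redElem_blockCoeff hb.2.1) he
  have hconj := core_le_leftStab_conj (π := π) c hfix
  intro n hn
  -- it is enough to fix the idempotent of the correspondent
  have hDp : IsPGroup p D := he.1.1.1
  set O := piCoreOf {q | q ∉ π} (Subgroup.normalizer (D : Set G)) with hOdef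
  have hOD : O ≤ core π D := piCoreOf_normalizer_le hpπ hDp
  have hOe : O ≤ leftStab e := by
    intro u hu
    have huC : u ∈ Subgroup.centralizer (D : Set G) := piCoreOf_le _ _ (hOD hu)
    refine mem_leftStab_of_pairLE hle huC (hconj ?_)
    have hu' : u ∈ Subgroup.centralizer ((cj c D₀ : Subgroup G) : Set G) :=
      Subgroup.centralizer_le (SetLike.coe_subset_coe.2 hle.le) huC
    rw [cj_centralizer, mem_cj] at hu'
    have hx := hcompl ⟨c⁻¹ * u * c, hu'⟩ fun q hq hd => by
      rw [Subgroup.orderOf_mk] at hd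
      have h1 : orderOf (c⁻¹ * u * c) = orderOf u := by
        have h := MulEquiv.orderOf_eq (MulAut.conj c⁻¹) u
        rwa [MulAut.conj_apply, inv_inv] at h
      rw [h1] at hd
      have h2 : orderOf (⟨u, hu⟩ : O) ∣ Nat.card O := orderOf_dvd_natCard _
      rw [Subgroup.orderOf_mk] at h2
      exact piSubgroup_piCoreOf {q | q ∉ π} (Subgroup.normalizer (D : Set G)) q hq (hd.trans h2)
    refine core_cj π c D₀ ⟨c⁻¹ * u * c, ⟨_, hx, rfl⟩, ?_⟩
    simp [mul_assoc]
  have hbb := isBlockIdem_subIdem (M := M) hB₁.1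
  haveI := Fintype.ofFinite O
  have hOp : ¬ p ∣ Nat.card O := not_dvd_card_piCoreOf hpπ _
  have hOb : O ≤ leftStab (subIdem M (Subgroup.normalizer (D : Set G)) B₁) := by
    rw [← avg_mul_eq_iff (cast_card_ne_zero hOp), hpairN.eq_relTr hbb le_rfl, mul_relTr]
    · congr 1
      exact (avg_mul_eq_iff (cast_card_ne_zero hOp)).2 hOe
    · exact fun c hc => conjA_avg (le_normalizer_piCoreOf _ _ hc)
  exact (le_leftStab_subIdem_iff hM (Subgroup.normalizer (D : Set G)) _
    (fun h => piSubgroup_piCore (π := {q | q ∉ π}) p Fact.out h hpπ) hB₁.1).1 hOb n hn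

end Cfsg.Agent.S4728
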