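import Cfsg.Statements.S4729
import Cfsg.Agent.Lib.BlockLocal.Covering
import Cfsg.Agent.Lib.Blocks.Defect
import Cfsg.Agent.Lib.Clifford.DetChar
import Cfsg.Agent.Lib.CharTheory.Ito

set_option autoImplicit false
open Cfsg CfsgLib CfsgLib.BlockLocal CfsgLib.CharTheory

namespace Cfsg.Agent.S4729

/-- Let p be a prime, M a maximal ideal of the algebraic integers containing p, G a finite perfect group and P a Sylow p-subgroup. If the principal p-block of G contains a faithful irreducible character of degree less than 2p, then the centralizer of P is a p-group. -/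
theorem result {G : Type*} [Group G] [Finite G] (p : ℕ) [Fact p.Prime] (M : Ideal Cfsg.AlgInt) (hM : Cfsg.IsPModular p M) (hperf : commutator G = ⊤) (P : Sylow p G) (χ : Cfsg.IrrCharacter G) (hχ : χ ∈ Cfsg.principalBlock M G) (hfaith : ∀ g : G, (χ : G → ℂ) g = (χ : G → ℂ) 1 → g = 1) (hdeg : Cfsg.charDegree (χ : G → ℂ) < 2 * p) : IsPGroup p ↥(Subgroup.centralizer ((P : Subgroup G) : Set G)) := by
  classical
  haveI := Blocks.isPrime_of_isPModular hM
  haveI := Fintype.ofFinite G
  have hp : p.Prime := Fact.out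
  set C := Subgroup.centralizer ((P : Subgroup G) : Set G)
  rw [IsPGroup.iff_orderOf]
  -- it is enough that elements of order prime to `p` are trivial
  suffices key : ∀ v ∈ C, ¬ p ∣ orderOf v → v = 1 by
    intro x
    obtain ⟨e, m, hm, hem⟩ := Nat.exists_eq_pow_mul_and_not_dvd
      (orderOf_pos x).ne' p hp.ne_one
    have hpow : orderOf (x ^ p ^ e) = m := by
      rw [orderOf_pow' _ (pow_ne_zero _ hp.ne_zero), hem,
        Nat.gcd_eq_right (dvd_mul_right _ _), Nat.mul_div_cancel_left _ (pow_pos hp.pos e)]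
    have h1 := key _ (x ^ p ^ e).2 (by rw [Subgroup.orderOf_coe, hpow]; exact hm)
    rw [← orderOf_eq_one_iff, Subgroup.orderOf_coe, hpow] at h1
    exact ⟨e, by rw [hem, h1, mul_one]⟩
  intro v hv hord
  obtain ⟨n, ρ, hirr, hρ⟩ := id χ.2
  have hn1 : (χ : G → ℂ) 1 = n := by
    rw [← hρ, Representation.char_one, Module.finrank_fin_fun]
  have hdegn : charDegree (χ : G → ℂ) = n := by
    have := Blocks.charDegree_cast χ
    rw [hn1] at this
    exact_mod_cast this
  rw [hdegn] at hdeg
  have hn0 : (n : ℂ) ≠ 0 := hn1 ▸ apply_one_ne_zero_of_isIrr χ.2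
  set V := Subgroup.zpowers v with hV
  haveI := Fintype.ofFinite V
  haveI := Fintype.ofFinite (IrrCharacter V)
  have hVp : ¬ p ∣ Nat.card V := by rwa [Nat.card_zpowers]
  have hcomm : ∀ a b : V, a * b = b * a := fun a b => by
    obtain ⟨i, hi⟩ := a.2
    obtain ⟨j, hj⟩ := b.2
    exact Subtype.ext (by
      show (a : G) * b = b * a
      rw [← hi, ← hj]
      exact ((Commute.refl v).zpow_zpow i j).eq)
  -- the values on `V` are congruent to the degree
  have hcong : ∀ k : V, MemLocalIdeal M ((χ : G → ℂ) k / n - 1) := by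
    intro k
    set K := Subgroup.centralizer ({(k : G)} : Set G) with hK
    have hPK : (P : Subgroup G) ≤ K := fun u hu => by
      rw [hK, Subgroup.mem_centralizer_singleton_iff]
      exact Subgroup.mem_centralizer_iff.1 ((Subgroup.zpowers_le.2 hv) k.2) u hu
    have hidx : ¬ p ∣ K.index := fun h => P.not_dvd_index (h.trans (Subgroup.index_dvd_of_le hPK))
    have h : MemLocalIdeal M
        (centralChar (fun _ : G => (1 : ℂ)) (k : G) - centralChar (χ : G → ℂ) (k : G)) := hχ (k : G)
    have h2 := Blocks.memLocalIdeal_mul_left (Blocks.memLocalRing_inv_natCast hM hidx)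
      (Blocks.memLocalIdeal_neg h)
    convert h2 using 1
    rw [Blocks.centralChar_apply, Blocks.centralChar_apply, hn1]
    have : (K.index : ℂ) ≠ 0 := Nat.cast_ne_zero.2 Subgroup.index_ne_zero_of_finite
    field_simp
    ring
  obtain ⟨m, hm, hm'⟩ := res_eq_sum V χ
  have hone : ∀ η : IrrCharacter V, (η : V → ℂ) 1 = 1 :=
    fun η => apply_one_eq_one_of_comm hcomm η.2
  have hsum : ∑ η, m η = n := by
    have h := hm 1
    simp only [Subgroup.coe_one, hone, mul_one, hn1] at h
    exact_mod_cast h.symm
  let t : IrrCharacter V := ⟨_, isIrrCharacter_linear (1 : V →* ℂˣ)⟩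
  have ht : ∀ k : V, (t : V → ℂ) k = 1 := fun k => rfl
  have hVunit : MemLocalRing M (Nat.card V : ℂ)⁻¹ := Blocks.memLocalRing_inv_natCast hM hVp
  have hmult : ∀ η, η ≠ t → MemLocalIdeal M ((m η : ℂ) / n) := by
    intro η hη
    have h0 := classInner_irrCharacter t η
    rw [if_neg (Ne.symm hη)] at h0
    have h1 : (m η : ℂ) / n = (Nat.card V : ℂ)⁻¹ *
        ∑ k : V, ((χ : G → ℂ) k / n - 1) * (η : V → ℂ) k⁻¹ := by
      rw [← hm' η]
      simp only [sub_mul, Finset.sum_sub_distrib, mul_sub, one_mul]
      rw [classInner] at h0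
      simp only [ht, one_mul] at h0
      simp only [irr_apply_inv, h0, sub_zero, classInner, Finset.mul_sum, Finset.sum_div]
      exact Finset.sum_congr rfl fun k _ => by ring
    rw [h1]
    exact Blocks.memLocalIdeal_mul_left hVunit (Blocks.memLocalIdeal_sum fun k _ =>
      Blocks.memLocalIdeal_mul_right (hcong k) (Blocks.memLocalRing_irr η k⁻¹))
  have hmp : ∀ η, η ≠ t → m η ≠ 0 → m η = p ∧ n ≠ p := by
    intro η hη h0
    have h := hmult η hη
    have hd : p ∣ m η := (Blocks.memLocalIdeal_natCast_iff hM _).1 (by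
      have := Blocks.memLocalIdeal_mul_right h (Blocks.memLocalRing_natCast n)
      rwa [div_mul_cancel₀ _ hn0] at this)
    have hle : m η ≤ n := hsum ▸ Finset.single_le_sum (fun _ _ => Nat.zero_le _) (Finset.mem_univ η)
    obtain ⟨c, hc⟩ := hd
    have hc1 : c = 1 := by
      rcases c with _ | _ | c
      · exact absurd hc (by simpa using h0)
      · rfl
      · nlinarith
    rw [hc1, mul_one] at hc
    refine ⟨hc, fun hnp => Blocks.not_memLocalIdeal_one (M := M) ?_⟩
    rwa [hc, ← hnp, div_self hn0] at h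
  by_cases hall : ∀ η, η ≠ t → m η = 0
  · refine hfaith v ?_
    have hmt : m t = n := by
      rw [← hsum, Finset.sum_eq_single t (fun η _ h => hall η h) (by simp)]
    have h := hm ⟨v, Subgroup.mem_zpowers v⟩
    rw [Finset.sum_eq_single t (fun η _ h => by rw [hall η h, Nat.cast_zero, zero_mul]) (by simp),
      ht, mul_one, hmt] at h
    rw [hn1]; exact h
  push Not at hall
  obtain ⟨η₀, hη₀, hm0⟩ := hall
  obtain ⟨hmp0, hnp⟩ := hmp η₀ hη₀ hm0
  have hoth : ∀ η, η ≠ η₀ → η ≠ t → m η = 0 := by
    intro η h1 h2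
    by_contra h3
    have h4 := (hmp η h2 h3).1
    have : m η + m η₀ ≤ n := by
      rw [← hsum, ← Finset.sum_pair h1]
      exact Finset.sum_le_sum_of_subset (Finset.subset_univ _)
    omega
  have hmt : m t + p = n := by
    rw [← hsum, ← hmp0, ← Finset.sum_pair (Ne.symm hη₀)]
    exact Finset.sum_subset (Finset.subset_univ _) fun η _ h => by
      simp only [Finset.mem_insert, Finset.mem_singleton, not_or] at h
      exact hoth η h.2 h.1
  obtain ⟨μ, hμ⟩ := exists_hom_of_degree_one η₀.2 (hone η₀)
  -- a diagonal representation with the same character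
  let f : V → Fin n → ℂ := fun k i => if (i : ℕ) < p then (μ k : ℂ) else 1
  let σ : Representation ℂ V (Fin n → ℂ) :=
    { toFun := fun k => Matrix.toLin' (Matrix.diagonal (f k))
      map_one' := by
        have : f 1 = fun _ => 1 := funext fun i => by simp [f]
        rw [this, Matrix.diagonal_one, Matrix.toLin'_one]
        rfl
      map_mul' := fun a b => by
        have : f (a * b) = fun i => f a i * f b i := funext fun i => by
          simp only [f]; split_ifs <;> simp
        rw [this, ← Matrix.diagonal_mul_diagonal, Matrix.toLin'_mul]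
        rfl }
  have hcount : (Finset.univ.filter fun i : Fin n => (i : ℕ) < p).card = p := by
    rw [← Finset.card_fin p]
    exact (Finset.card_bij (fun (i : Fin p) _ => (⟨i, by omega⟩ : Fin n)) (fun i _ => by simp)
      (fun a _ b _ h => Fin.ext (by simpa using h)) (fun i hi => ⟨⟨i, by simpa using hi⟩, by simp⟩)).symm
  have hσ : σ.character = fun k : V => (χ : G → ℂ) k := by
    funext k
    show LinearMap.trace ℂ _ (Matrix.toLin' (Matrix.diagonal (f k))) = _
    rw [Matrix.trace_toLin'_eq, Matrix.trace_diagonal, hm k, ← Finset.sum_subset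
      (Finset.subset_univ {t, η₀}) (fun η _ h => by
        simp only [Finset.mem_insert, Finset.mem_singleton, not_or] at h
        rw [hoth η h.2 h.1, Nat.cast_zero, zero_mul]), Finset.sum_pair (Ne.symm hη₀), ht, hmp0, hμ,
      Finset.sum_ite, Finset.sum_const, Finset.sum_const, Finset.filter_not,
      Finset.card_sdiff_of_subset (Finset.subset_univ _), hcount, Finset.card_univ, Fintype.card_fin,
      show n - p = m t by omega, nsmul_eq_mul, nsmul_eq_mul]
    ring
  have hdet := Clifford.detChar_restrict V (IsIrrCharacter.isCharacter χ.2)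
    (θ := fun k : V => (χ : G → ℂ) k) (fun _ => rfl) ⟨v, Subgroup.mem_zpowers v⟩
  rw [Clifford.detChar_eq ρ hρ, Clifford.detChar_eq σ hσ, Clifford.linFun_apply,
    Clifford.linFun_apply, Clifford.detHom_apply, Clifford.detHom_apply] at hdet
  have htriv : LinearMap.det (ρ v) = 1 := by
    have hle : commutator G ≤ (Clifford.detHom ρ).ker := Abelianization.commutator_subset_ker _
    have := hle (hperf ▸ Subgroup.mem_top v)
    rw [MonoidHom.mem_ker, Units.ext_iff, Clifford.detHom_apply] at this
    simpa using this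
  change LinearMap.det (ρ v) = LinearMap.det (Matrix.toLin' (Matrix.diagonal (f _))) at hdet
  rw [htriv, LinearMap.det_toLin', Matrix.det_diagonal, Finset.prod_ite, Finset.prod_const,
    Finset.prod_const, one_pow, mul_one, hcount, eq_comm, ← Units.val_pow_eq_pow_val,
    ← map_pow, Units.val_eq_one] at hdet
  exfalso
  apply hη₀
  apply Subtype.ext
  funext k
  rw [hμ, ht k]
  obtain ⟨i, hi⟩ := k.2
  have hk : k = (⟨v, Subgroup.mem_zpowers v⟩ : V) ^ i := Subtype.ext (by simpa using hi.symm)
  have hμv : μ ⟨v, Subgroup.mem_zpowers v⟩ = 1 := by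
    rw [map_pow] at hdet
    refine orderOf_eq_one_iff.1 (Nat.eq_one_of_dvd_coprimes ?_ (orderOf_dvd_of_pow_eq_one hdet)
      ((orderOf_map_dvd μ _).trans (orderOf_dvd_natCard _)))
    exact (Nat.Prime.coprime_iff_not_dvd hp).2 hVp
  show (μ k : ℂ) = 1
  rw [hk, map_zpow, hμv, one_zpow, Units.val_one]

end Cfsg.Agent.S4729
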