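import Cfsg.Statements.S4730
import Cfsg.Agent.Lib.BrauerCharacters.ClassMul
import Cfsg.Agent.Lib.CharTheory.Burnside
import Cfsg.Agent.Lib.Blocks.Idempotent

set_option autoImplicit false
open Cfsg CfsgLib.CharTheory CfsgLib.Blocks CfsgLib.BrauerCharacters Finset Module

namespace Cfsg.Agent.S4730

/-- Let p be a prime, M a maximal ideal of the algebraic integers containing p, and G a finite group with trivial centre, Sylow p-subgroup P of order p^a and centre Z(P) of order p^b. If χ is a faithful irreducible character of G whose degree is a power of p, then the p-block of χ has defect at most a − b; in particular, if P is abelian then χ lies in a block of defect zero. -/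
theorem result {G : Type*} [Group G] [Finite G] (p : ℕ) [Fact p.Prime] (M : Ideal Cfsg.AlgInt) (hM : Cfsg.IsPModular p M) (hZ : Subgroup.center G = ⊥) (P : Sylow p G) (a b : ℕ) (ha : Nat.card P = p ^ a) (hb : Nat.card (Subgroup.center ↥(P : Subgroup G)) = p ^ b) (χ : Cfsg.IrrCharacter G) (hfaith : ∀ g : G, (χ : G → ℂ) g = (χ : G → ℂ) 1 → g = 1) (n : ℕ) (hdeg : Cfsg.charDegree (χ : G → ℂ) = p ^ n) : Cfsg.blockDefect p (Cfsg.blockOf M (χ : G → ℂ)) ≤ a - b ∧ (IsMulCommutative ↥(P : Subgroup G) → Cfsg.blockDefect p (Cfsg.blockOf M (χ : G → ℂ)) = 0) := by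
  classical
  haveI := isPrime_of_isPModular hM
  haveI := Fintype.ofFinite G
  have hp : p.Prime := Fact.out
  set Z : Subgroup G := (Subgroup.center ↥(P : Subgroup G)).map (P : Subgroup G).subtype with hZdef
  have hZcard : Nat.card Z = p ^ b := by
    rw [← hb, hZdef]
    exact (Nat.card_congr (Subgroup.equivMapOfInjective _ _
      (Subgroup.subtype_injective _)).toEquiv).symm
  have hcent : ∀ z ∈ Z, ¬ p ∣ (Subgroup.centralizer ({z} : Set G)).index := by
    intro z hz hdvd
    obtain ⟨w, hw, rfl⟩ := hz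
    refine P.not_dvd_index (hdvd.trans (Subgroup.index_dvd_of_le fun x hx => ?_))
    rw [Subgroup.mem_centralizer_singleton_iff]
    exact congrArg Subtype.val (Subgroup.mem_center_iff.1 hw ⟨x, hx⟩)
  have hzero : ∀ z ∈ Z, z ≠ 1 → (χ : G → ℂ) z = 0 := by
    intro z hz hz1
    obtain ⟨d, ρ, hρ, h⟩ := χ.2
    have hd : Module.finrank ℂ (Fin d → ℂ) = p ^ n := by
      have h1 := (charDegree_spec χ).1
      rw [hdeg, ← h, ρ.char_one] at h1
      exact_mod_cast h1
    have hcop : Nat.Coprime (Module.finrank ℂ (Fin d → ℂ))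
        (Subgroup.centralizer ({z} : Set G)).index := by
      rw [hd]
      exact ((hp.coprime_iff_not_dvd).2 (hcent z hz)).pow_left n
    rcases character_eq_zero_or_norm_of_coprime ρ z hcop with h0 | h1
    · rw [← h]; exact h0
    exfalso
    obtain ⟨ω, hω⟩ := (norm_character_eq_iff ρ z).1 h1
    refine hz1 ?_
    rw [← Subgroup.mem_bot, ← hZ]
    refine Subgroup.mem_center_iff.2 fun y => mul_inv_eq_one.1 (hfaith _ ?_)
    have he : ρ (y * z) = ρ (z * y) := by
      rw [map_mul, map_mul, hω, mul_smul_comm, smul_mul_assoc]; rfl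
    rw [← h]
    show LinearMap.trace ℂ _ (ρ (y * z * (z * y)⁻¹)) = LinearMap.trace ℂ _ (ρ 1)
    rw [map_mul, he, ← map_mul, mul_inv_cancel]
  have key : ∀ ψ ∈ blockOf M (χ : G → ℂ), b ≤ (charDegree (ψ : G → ℂ)).factorization p := by
    intro ψ hψ
    by_contra hlt
    obtain ⟨hψ1, hpos, -⟩ := charDegree_spec ψ
    set e := (charDegree (ψ : G → ℂ)).factorization p with he
    set u := ordCompl[p] (charDegree (ψ : G → ℂ)) with hu
    have hu' : ¬ p ∣ u := Nat.not_dvd_ordCompl hp hpos.ne'
    have hsmall : ∀ z ∈ Z, z ≠ 1 → MemLocalIdeal M ((ψ : G → ℂ) z / (ψ : G → ℂ) 1) := by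
      intro z hz hz1
      have hd := hψ z
      rw [centralChar, hzero z hz hz1, mul_zero, zero_div, zero_sub] at hd
      have hd' := memLocalIdeal_neg hd
      rw [neg_neg, centralChar] at hd'
      have hk := memLocalRing_inv_natCast hM (hcent z hz)
      have hk0 : ((Subgroup.centralizer ({z} : Set G)).index : ℂ) ≠ 0 :=
        Nat.cast_ne_zero.2 (centralizer_index_ne_zero z)
      convert memLocalIdeal_mul_left hk hd' using 1
      field_simp
    obtain ⟨m, hm⟩ := exists_nat_sum_subgroup ψ Z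
    have hall : MemLocalIdeal M (∑ g : G,
        (if g ∈ Z then (1 : ℂ) else 0) * ((ψ : G → ℂ) g / (ψ : G → ℂ) 1)) := by
      simp_rw [← mul_div_assoc]
      rw [← Finset.sum_div, hm, hZcard, hψ1]
      conv => arg 2; arg 2; rw [← Nat.ordProj_mul_ordCompl_eq_self (charDegree (ψ : G → ℂ)) p, ← hu, ← he]
      have hp0 : (p : ℂ) ≠ 0 := Nat.cast_ne_zero.2 hp.ne_zero
      have hsplit : ((p ^ b : ℕ) : ℂ) * m / ((p ^ e * u : ℕ) : ℂ) =
          (((p ^ (b - e - 1) * m : ℕ) : ℂ) * (u : ℂ)⁻¹) * (p : ℂ) := by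
        have hu0 : (u : ℂ) ≠ 0 := Nat.cast_ne_zero.2 fun h0 => hu' (h0 ▸ dvd_zero p)
        rw [show b = (b - e - 1) + e + 1 by omega]
        rw [show (b - e - 1) + e + 1 - e - 1 = b - e - 1 by omega]
        push_cast
        field_simp
        ring
      rw [hsplit]
      exact memLocalIdeal_mul_left
        (memLocalRing_mul (memLocalRing_natCast _) (memLocalRing_inv_natCast hM hu'))
        ((memLocalIdeal_natCast_iff hM p).2 dvd_rfl)
    rw [← Finset.add_sum_erase univ _ (mem_univ (1 : G)), if_pos Z.one_mem, one_mul,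
      div_self (hψ1 ▸ Nat.cast_ne_zero.2 hpos.ne')] at hall
    have hrest : MemLocalIdeal M (∑ g ∈ univ.erase (1 : G),
        (if g ∈ Z then (1 : ℂ) else 0) * ((ψ : G → ℂ) g / (ψ : G → ℂ) 1)) := by
      refine memLocalIdeal_sum fun g hg => ?_
      by_cases hgZ : g ∈ Z
      · rw [if_pos hgZ, one_mul]; exact hsmall g hgZ (Finset.mem_erase.1 hg).1
      · rw [if_neg hgZ, zero_mul]; exact memLocalIdeal_zero
    have := memLocalIdeal_sub hall hrest
    rw [add_sub_cancel_right] at this
    exact not_memLocalIdeal_one this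
  have hfa : (Nat.card G).factorization p = a := by
    have := P.card_eq_multiplicity
    rw [ha] at this
    exact (Nat.pow_right_injective hp.two_le this).symm
  have hdef : blockDefect p (blockOf M (χ : G → ℂ)) ≤ a - b := by
    rw [blockDefect, hfa]
    refine Nat.sub_le_sub_left ?_ a
    refine le_csInf (Set.Nonempty.image _ ⟨χ, mem_blockOf_self χ⟩) ?_
    rintro _ ⟨ψ, hψ, rfl⟩
    exact key ψ hψ
  refine ⟨hdef, fun hcomm => ?_⟩
  have hab : p ^ b = p ^ a := by
    rw [← hb, ← ha]
    have : Subgroup.center ↥(P : Subgroup G) = ⊤ :=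
      Subgroup.eq_top_iff' _ |>.2 fun x => Subgroup.mem_center_iff.2 fun y =>
        hcomm.is_comm.comm y x
    rw [this, Subgroup.card_top]
  have := Nat.pow_right_injective hp.two_le hab
  omega

end Cfsg.Agent.S4730
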