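import Cfsg.Statements.S4731
import Cfsg.Agent.Lib.BrauerCharacters.Consequences
import Cfsg.Agent.Lib.BrauerCharacters.ClassMul
import Cfsg.Agent.Lib.Blocks.Orth

set_option autoImplicit false
open Cfsg CfsgLib.CharTheory CfsgLib.Blocks CfsgLib.BrauerCharacters Finset
open scoped ComplexConjugate

namespace Cfsg.Agent.S4731

/-- Let p ≠ q be primes, M_p and M_q maximal ideals of the algebraic integers containing p and q respectively, and G a finite group with no element of order pq; let q^b be the q-part of the order of G. For a p-block B_p (relative to M_p), a q-block B_q (relative to M_q) and a p-singular element y, the sum of χ(1)χ(y) over the irreducible characters χ lying in both B_p and B_q is q^b times an algebraic integer. -/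
theorem result {G : Type*} [Group G] [Finite G] (p q : ℕ) [Fact p.Prime] [Fact q.Prime] (hpq : p ≠ q) (Mp Mq : Ideal Cfsg.AlgInt) (hMp : Cfsg.IsPModular p Mp) (hMq : Cfsg.IsPModular q Mq) (hno : ∀ g : G, orderOf g ≠ p * q) (b : ℕ) (hb : (Nat.card G).factorization q = b) (Bp : Set (Cfsg.IrrCharacter G)) (hBp : Cfsg.IsPBlock Mp Bp) (Bq : Set (Cfsg.IrrCharacter G)) (hBq : Cfsg.IsPBlock Mq Bq) (y : G) (hy : p ∣ orderOf y) : ∃ ω : Cfsg.AlgInt, ∑ᶠ χ ∈ Bp ∩ Bq, (Cfsg.charDegree (χ : G → ℂ) : ℂ) * (χ : G → ℂ) y = (q : ℂ) ^ b * (ω : ℂ) := by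
  classical
  haveI := isPrime_of_isPModular hMp
  haveI := isPrime_of_isPModular hMq
  haveI := Fintype.ofFinite G
  haveI := Fintype.ofFinite (IrrCharacter G)
  set S : Finset (IrrCharacter G) := univ.filter fun χ => χ ∈ Bp ∧ χ ∈ Bq with hS
  set F : G → ℂ := fun z => ∑ χ ∈ S, (χ : G → ℂ) y * conj ((χ : G → ℂ) z) with hF
  -- `F` vanishes on `q`-singular elements
  have hvan : ∀ z : G, q ∣ orderOf z → F z = 0 := by
    intro z hz
    have key : (Nat.card G : ℂ) * F z = ∑ g : G,
        (∑ ψ ∈ blockFinset Bp, (ψ : G → ℂ) y * conj ((ψ : G → ℂ) g)) *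
          ∑ χ ∈ blockFinset Bq, (χ : G → ℂ) g * conj ((χ : G → ℂ) z) := by
      simp only [Finset.sum_mul, Finset.mul_sum]
      rw [sum_comm]
      rw [sum_congr rfl (g := fun ψ : IrrCharacter G => if ψ ∈ Bp then
        (Nat.card G : ℂ) * ((ψ : G → ℂ) y * conj ((ψ : G → ℂ) z)) else 0) fun ψ _ => ?_]
      · rw [← sum_filter, hF, hS, Finset.mul_sum]
        exact sum_congr (by ext; simp [and_comm]) fun _ _ => rfl
      rw [sum_comm, sum_congr rfl (g := fun χ : IrrCharacter G => if χ = ψ then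
          (Nat.card G : ℂ) * ((χ : G → ℂ) y * conj ((ψ : G → ℂ) z)) else 0) fun χ _ => ?_,
        sum_ite_eq']
      · simp only [mem_blockFinset]
      have h := classInner_irr ψ.2 χ.2
      rw [classInner] at h
      rw [sum_congr rfl (g := fun g : G => ((χ : G → ℂ) y * conj ((ψ : G → ℂ) z)) *
        ((ψ : G → ℂ) g * conj ((χ : G → ℂ) g))) (fun g _ => by ring), ← Finset.mul_sum]
      have hne : (Nat.card G : ℂ) ≠ 0 := Nat.cast_ne_zero.2 Nat.card_pos.ne'
      rw [inv_mul_eq_iff_eq_mul₀ hne] at h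
      rw [h]
      by_cases he : χ = ψ
      · rw [if_pos (congrArg Subtype.val he.symm), if_pos he]; ring
      · rw [if_neg fun e => he (Subtype.ext e.symm), if_neg he]; ring
    refine (mul_eq_zero.1 (key.trans (sum_eq_zero fun g _ => ?_))).resolve_left
      (Nat.cast_ne_zero.2 Nat.card_pos.ne')
    by_cases hgp : p ∣ orderOf g
    swap
    · refine mul_eq_zero_of_left ?_ _
      have h := weakOrth hMp hBp g y hgp hy
      rw [finsum_mem_eq_sum_blockFinset] at h
      have h1 := congrArg (starRingEnd ℂ) h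
      simp only [map_sum, map_mul, Complex.conj_conj, map_zero] at h1
      rw [← h1]
      exact sum_congr rfl fun ψ _ => mul_comm _ _
    refine mul_eq_zero_of_right _ ?_
    obtain ⟨a, ha⟩ := exists_isPPart q g
    obtain ⟨v, hv⟩ := exists_isPPart q z
    have hne : ¬ IsConj a v := by
      intro hc
      have hgq : q ∣ orderOf g := by
        by_contra hgq
        rw [(isPPart_eq_one_iff ha).2 hgq, isConj_one_right] at hc
        exact (isPPart_eq_one_iff hv).1 hc hz
      have hpq' : p * q ∣ orderOf g :=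
        ((Nat.coprime_primes Fact.out Fact.out).2 hpq).mul_dvd_of_dvd_of_dvd hgp hgq
      obtain ⟨c, hc'⟩ := hpq'
      refine hno (g ^ c) ?_
      have hc0 : c ≠ 0 := fun h => (orderOf_pos g).ne' (by rw [hc', h, mul_zero])
      rw [orderOf_pow' _ hc0, hc', Nat.gcd_eq_right (Dvd.intro_left _ rfl),
        Nat.mul_div_cancel _ (Nat.pos_of_ne_zero hc0)]
    have h := finsum_mul_eq_zero_of_isPBlock (p := q) hMq hBq ha hv hne
    rw [finsum_mem_eq_sum_blockFinset] at h
    rw [← h]
    exact sum_congr rfl fun χ _ => by rw [IsIrrCharacter.inv χ.2]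
  obtain ⟨Q⟩ := (inferInstance : Nonempty (Sylow q G))
  have hQ : Nat.card (Q : Subgroup G) = q ^ b := by rw [Sylow.card_eq_multiplicity, hb]
  choose m hm using fun χ : IrrCharacter G => exists_nat_sum_subgroup χ (Q : Subgroup G)
  refine ⟨⟨∑ χ ∈ S, (χ : G → ℂ) y * (m χ : ℂ), IsIntegral.sum _ fun χ _ =>
    (isIntegral_apply χ y).mul (isIntegral_algebraMap (R := ℤ) (A := ℂ) (x := (m χ : ℤ)) |> fun h => by
      simpa using h)⟩, ?_⟩
  have hsum : ∑ u : G, (if u ∈ (Q : Subgroup G) then (1 : ℂ) else 0) * F u = F 1 := by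
    rw [sum_eq_single (1 : G)]
    · rw [if_pos (Q : Subgroup G).one_mem, one_mul]
    · intro u _ hu
      by_cases huQ : u ∈ (Q : Subgroup G)
      · rw [hvan u ?_, mul_zero]
        obtain ⟨j, hj⟩ := (IsPGroup.iff_orderOf.1 Q.2) ⟨u, huQ⟩
        rw [Subgroup.orderOf_mk] at hj
        rw [hj]
        refine dvd_pow_self q fun h0 => hu ?_
        rw [h0, pow_zero] at hj
        exact orderOf_eq_one_iff.1 hj
      · rw [if_neg huQ, zero_mul]
    · simp
  rw [finsum_mem_eq_sum_blockFinset]
  have hF1 : F 1 = ∑ χ ∈ blockFinset (Bp ∩ Bq), (charDegree (χ : G → ℂ) : ℂ) * (χ : G → ℂ) y := by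
    refine sum_congr (by ext; simp [hS]) fun χ _ => ?_
    rw [(charDegree_spec χ).1, Complex.conj_natCast, mul_comm]
  rw [← hF1, ← hsum]
  simp only [hF, Finset.mul_sum]
  rw [sum_comm]
  refine sum_congr rfl fun χ _ => ?_
  have h := congrArg (starRingEnd ℂ) (hm χ)
  simp only [map_sum, map_mul, map_natCast, apply_ite (starRingEnd ℂ), map_one, map_zero] at h
  rw [sum_congr rfl (g := fun u : G => (χ : G → ℂ) y *
    ((if u ∈ (Q : Subgroup G) then (1 : ℂ) else 0) * conj ((χ : G → ℂ) u))) (fun u _ => by ring),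
    ← Finset.mul_sum, h, hQ]
  push_cast
  ring

end Cfsg.Agent.S4731
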