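import Cfsg.Statements.S4734
import Cfsg.Agent.Lib.RealChar.PiKernel

set_option autoImplicit false
open Cfsg

namespace Cfsg.Agent.S4734


/-- Let p be a prime, π a set of primes containing p, M a maximal ideal of the algebraic integers containing p, B a p-block of the finite group G with defect group D, and B₁ the block of N_G(D) with defect group D inducing B. Write O_π'(X) for the largest normal subgroup of X whose order has no prime divisor in π, and suppose every element of O_π'(N_G(D)) lies in the kernel of every member of B₁. Let G₀ be a subgroup and B₀ a block of G₀ with defect group D₀ such that C_G(D₀) ≤ G₀ and B₀ induces B. Then every element of O_π'(G₀) lies in the kernel of every member of B₀. -/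
theorem result {G : Type*} [Group G] [Finite G] (p : ℕ) [Fact p.Prime] (M : Ideal Cfsg.AlgInt) (hM : Cfsg.IsPModular p M) (π : Set ℕ) (hpπ : p ∈ π) (B : Set (Cfsg.IrrCharacter G)) (hB : Cfsg.IsPBlock M B) (D : Subgroup G) (hBD : Cfsg.IsDefectGroup p M B D) (B₁ : Set (Cfsg.IrrCharacter ↥(Subgroup.normalizer (D : Set G)))) (hB₁ : Cfsg.IsInducedBlock M (Subgroup.normalizer (D : Set G)) B₁ B) (hB₁D : Cfsg.IsDefectGroup p M B₁ (D.subgroupOf (Subgroup.normalizer (D : Set G)))) (hker : ∀ n : ↥(Subgroup.normalizer (D : Set G)), n ∈ Cfsg.piCore {q | q ∉ π} ↥(Subgroup.normalizer (D : Set G)) → n ∈ Cfsg.blockKer B₁) (G₀ : Subgroup G) (B₀ : Set (Cfsg.IrrCharacter ↥G₀)) (hB₀ : Cfsg.IsInducedBlock M G₀ B₀ B) (D₀ : Subgroup ↥G₀) (hD₀ : Cfsg.IsDefectGroup p M B₀ D₀) (hC : Subgroup.centralizer ((D₀.map G₀.subtype : Subgroup G) : Set G) ≤ G₀) : ∀ x : ↥G₀, x ∈ Cfsg.piCore {q | q ∉ π} ↥G₀ → x ∈ Cfsg.blockKer B₀ := by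
  haveI : M.IsPrime := CfsgLib.Blocks.isPrime_of_isPModular hM
  haveI : M.IsMaximal := hM.2.1
  haveI : CharP (CfsgLib.Blocks.Res M) p := CfsgLib.Blocks.charP_res hM
  open CfsgLib.RealChar.PiKernel CfsgLib.BrauerPairs CfsgLib.BGAppendix in
  intro x hx
  obtain ⟨e, he, hpairN⟩ := CfsgLib.RealChar.PiKernel.exists_maxPair_correspondent hM hBD hB₁ hB₁D
  have hfix := CfsgLib.RealChar.PiKernel.core_le_leftStab_of_correspondent hM hpπ hB₁.1 hpairN hker
  obtain ⟨e₀, he₀, hp₀⟩ := CfsgLib.RealChar.PiKernel.exists_pair_of_inducedBlock hM hB₀ hD₀ hC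
  have h0 := CfsgLib.RealChar.PiKernel.core_le_leftStab_of_pairOf hM hpπ hB₀.2.1 he hfix hp₀
  have h1 := CfsgLib.RealChar.PiKernel.core_le_leftStab_block (π := π) hpπ hC
    (CfsgLib.BrauerPairs.isBlockIdem_subIdem hB₀.1) he₀.1 h0
  refine (CfsgLib.RealChar.PiKernel.le_leftStab_subIdem_iff hM G₀ _ ?_ hB₀.1).1 h1 x hx
  exact fun h => CfsgLib.BGAppendix.piSubgroup_piCore (π := {q | q ∉ π}) p Fact.out h hpπ

end Cfsg.Agent.S4734
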