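import Cfsg.Statements.S4736
import Cfsg.Agent.Lib.BrauerCharacters.ItoPSolvable
import Cfsg.Agent.Lib.BrauerCharacters.ClassMul
import Cfsg.Agent.Lib.BlockLocal.KernelSupport
import Cfsg.Agent.Lib.Correspondences.PrincipalSolvable

set_option autoImplicit false
open Cfsg CfsgLib

namespace Cfsg.Agent.S4736

/-- Let p be a prime, M a maximal ideal of the algebraic integers containing p, and G a finite p-solvable group with Sylow p-subgroup P. Then P is abelian if and only if every irreducible character in the principal p-block of G has height zero. -/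
theorem result {G : Type*} [Group G] [Finite G] (p : ℕ) [Fact p.Prime] (M : Ideal Cfsg.AlgInt) (hM : Cfsg.IsPModular p M) (hsolv : Cfsg.IsPSolvable p G) (P : Sylow p G) : IsMulCommutative P ↔ ∀ χ ∈ Cfsg.principalBlock M G, Cfsg.blockHeight p (Cfsg.principalBlock M G) (χ : G → ℂ) = 0 := by
  classical
  haveI := Blocks.isPrime_of_isPModular hM
  haveI := Fintype.ofFinite G
  set N := pPrimeCore p G with hNdef
  set f := QuotientGroup.mk' N with hfdef
  have hf : Function.Surjective f := QuotientGroup.mk'_surjective N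
  have hNp : ¬ p ∣ Nat.card N := CfsgLib.Cores.not_dvd_card_pPrimeCore
  have hq := CfsgLib.PSolvable.isPSolvable_quotient hsolv N
  set Pb : Sylow p (G ⧸ N) := P.mapSurjective hf
  have hcoe : (Pb : Subgroup (G ⧸ N)) = (P : Subgroup G).map f := rfl
  have hinj : ∀ x y : (P : Subgroup G), f x = f y → x = y := by
    intro x y hxy
    have hxN : ((x⁻¹ * y : (P : Subgroup G)) : G) ∈ N := (QuotientGroup.eq).1 hxy
    obtain ⟨k, hk⟩ := (IsPGroup.iff_orderOf.1 P.2) (x⁻¹ * y)
    have h1 : orderOf (x⁻¹ * y) ∣ Nat.card N := by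
      rw [← Subgroup.orderOf_coe]
      exact Subgroup.orderOf_dvd_natCard _ hxN
    rw [hk] at h1
    rcases Nat.eq_zero_or_pos k with rfl | hk0
    · rw [pow_zero, orderOf_eq_one_iff, inv_mul_eq_one] at hk
      exact hk
    · exact absurd ((dvd_pow_self p hk0.ne').trans h1) hNp
  set one : IrrCharacter G := CharTheory.trivIrr G
  have hone : one ∈ principalBlock M G := Blocks.sameBlock_refl _
  have hinf : sInf ((fun ψ : IrrCharacter G => (charDegree (ψ : G → ℂ)).factorization p) ''
      principalBlock M G) = 0 := by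
    refine Nat.sInf_eq_zero.2 (Or.inl ⟨one, hone, ?_⟩)
    show (charDegree (one : G → ℂ)).factorization p = 0
    rw [show charDegree (one : G → ℂ) = 1 by simp [one, CharTheory.trivIrr, charDegree],
      Nat.factorization_one]
    rfl
  have hB : IsPBlock M (principalBlock M G) := ⟨one, rfl⟩
  have hone' : ∀ x ∈ N, (one : G → ℂ) x = (one : G → ℂ) 1 := fun x _ => rfl
  constructor
  · intro hc χ hχ
    have hker := BlockLocal.apply_eq_one_of_sameBlock hM N hNp
      (Blocks.sameBlock_of_mem hB hone hχ) hone'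
    obtain ⟨ψ, hψ, hψχ⟩ := CharTheory.exists_descend χ.2 N hker
    have hcomm : IsMulCommutative Pb := ⟨⟨by
      rintro ⟨a, ha⟩ ⟨b, hb⟩
      rw [hcoe] at ha hb
      obtain ⟨x, hx, rfl⟩ := ha
      obtain ⟨y, hy, rfl⟩ := hb
      refine Subtype.ext ?_
      show f x * f y = f y * f x
      rw [← map_mul, ← map_mul]
      exact congrArg f (congrArg Subtype.val (hc.is_comm.comm ⟨x, hx⟩ ⟨y, hy⟩))⟩⟩
    have hle : pCore p (G ⧸ N) ≤ (Pb : Subgroup (G ⧸ N)) := by
      obtain ⟨Q, hQ⟩ := (CfsgLib.Cores.isPGroup_pCore p (G ⧸ N)).exists_le_sylow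
      obtain ⟨g, hg⟩ := MulAction.exists_smul_eq (G ⧸ N) Q Pb
      rw [← hg]
      intro r hr
      refine ⟨g⁻¹ * r * g, hQ (by
        have h1 : g⁻¹ * r * g⁻¹⁻¹ ∈ pCore p (G ⧸ N) :=
          Subgroup.Normal.conj_mem inferInstance r hr g⁻¹
        rwa [inv_inv] at h1), ?_⟩
      show g * (g⁻¹ * r * g) * g⁻¹ = r
      group
    have heq : (Pb : Subgroup (G ⧸ N)) = pCore p (G ⧸ N) := by
      refine le_antisymm (fun u hu => ?_) hle
      refine CfsgLib.PSolvable.centralizer_pCore_le hq
        (CfsgLib.Cores.pPrimeCore_quotient_pPrimeCore p)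
        (Subgroup.mem_centralizer_iff.2 fun v hv => ?_)
      exact congrArg Subtype.val (hcomm.is_comm.comm ⟨v, hle hv⟩ ⟨u, hu⟩)
    have hnd := (BrauerCharacters.ItoPSolvable.iff_noDvd hq Pb).1
      ⟨heq ▸ inferInstance, hcomm⟩ ⟨ψ, hψ⟩
    have hdeg : charDegree ψ = charDegree (χ : G → ℂ) := by
      simp only [charDegree]
      rw [hψχ 1]
      rfl
    rw [blockHeight, hinf, Nat.sub_zero]
    exact Nat.factorization_eq_zero_of_not_dvd (hdeg ▸ hnd)
  · intro h
    have hnd : CharDegreesTheory.ItoSolvable.NoDvd p (G ⧸ N) := by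
      intro ψ hd
      set χ : IrrCharacter G := ⟨_, CharTheory.isIrrCharacter_comp ψ.2 hf⟩
      have hker : ∀ x ∈ N, (χ : G → ℂ) x = (χ : G → ℂ) 1 := fun x hx => by
        show (ψ : G ⧸ N → ℂ) (f x) = (ψ : G ⧸ N → ℂ) (f 1)
        rw [map_one, show f x = 1 from (QuotientGroup.eq_one_iff x).2 hx]
      have h0 := h χ (Correspondences.mem_principalBlock_of_trivial_on_pPrimeCore hM hsolv hker)
      rw [blockHeight, hinf, Nat.sub_zero] at h0
      have hpos := (BrauerCharacters.charDegree_spec χ).2.1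
      have hd' : p ∣ charDegree (χ : G → ℂ) := by
        have : charDegree (χ : G → ℂ) = charDegree (ψ : G ⧸ N → ℂ) := by
          simp only [charDegree]
          rw [show (χ : G → ℂ) 1 = (ψ : G ⧸ N → ℂ) (f 1) from rfl, map_one]
        rwa [this]
      exact ((Fact.out : p.Prime).factorization_pos_of_dvd hpos.ne' hd').ne' h0
    obtain ⟨-, hc⟩ := (BrauerCharacters.ItoPSolvable.iff_noDvd hq Pb).2 hnd
    refine ⟨⟨fun x y => hinj _ _ ?_⟩⟩
    rw [Subgroup.coe_mul, Subgroup.coe_mul, map_mul, map_mul]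
    exact congrArg Subtype.val (hc.is_comm.comm ⟨f x, ⟨x, x.2, rfl⟩⟩ ⟨f y, ⟨y, y.2, rfl⟩⟩)

end Cfsg.Agent.S4736
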