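import Cfsg.Statements.S4955
import Cfsg.Agent.Lib.Jordan.GaloisNorm
import Cfsg.Agent.Lib.Jordan.AbelianNormal
import Cfsg.Agent.Lib.CharTheory.Inflation

set_option autoImplicit false
open Cfsg

namespace Cfsg.Agent.S4955

/-- Let X be a finite group with an abelian normal Sylow p-subgroup V (a normal p-subgroup of index prime to p in which any two elements commute), and let G be a complement to V in X. Then for every v in V, writing C for the centralizer of v in G, the number k(X) of conjugacy classes of X satisfies k(X) ≤ (order of C)·(order of V) − ((order of G) − k(G)); the statement is written with the subtracted term moved to the left. In particular, if some v in V is centralized by no nonidentity element of G, then k(X) is at most the order of V. -/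
theorem result {X : Type*} [Group X] [Finite X] (p : ℕ) [Fact p.Prime] (V : Subgroup X) [V.Normal] (hVp : IsPGroup p V) (hidx : ¬ p ∣ V.index) (hab : ∀ a ∈ V, ∀ b ∈ V, a * b = b * a) (G : Subgroup X) (hGV : Subgroup.IsComplement' V G) (v : X) (hv : v ∈ V) : Nat.card (ConjClasses X) + Nat.card G ≤ Nat.card ↥(G ⊓ Subgroup.centralizer ({v} : Set X)) * Nat.card V + Nat.card (ConjClasses G) := by
  classical
  haveI := Fintype.ofFinite X
  haveI := Fintype.ofFinite (Cfsg.IrrCharacter X)
  haveI := Fintype.ofFinite (Cfsg.IrrCharacter (X ⧸ V))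
  haveI : NeZero (Nat.card X) := ⟨Nat.card_pos.ne'⟩
  set n := Nat.card X with hn
  -- the quotient is isomorphic to `G`
  have hpibij : Function.Bijective ((QuotientGroup.mk' V).comp G.subtype) := by
    constructor
    · rw [← MonoidHom.ker_eq_bot_iff, eq_bot_iff]
      intro g hg
      have hg' : (g : X) ∈ V := (QuotientGroup.eq_one_iff _).mp hg
      exact Subtype.ext (Subgroup.disjoint_def.mp hGV.disjoint hg' g.2)
    · intro q
      obtain ⟨x, rfl⟩ := QuotientGroup.mk'_surjective V q
      obtain ⟨⟨a, b⟩, hab' : (a : X) * b = x⟩ := hGV.2 x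
      refine ⟨b, ?_⟩
      rw [← hab']
      simp [(QuotientGroup.eq_one_iff _).mpr a.2]
  let e : ↥G ≃* X ⧸ V := MulEquiv.ofBijective _ hpibij
  have hconj : Nat.card (ConjClasses (X ⧸ V)) = Nat.card (ConjClasses ↥G) := by
    have h : Nat.card {p : ↥G × ↥G // Commute p.1 p.2} =
        Nat.card {p : (X ⧸ V) × (X ⧸ V) // Commute p.1 p.2} :=
      Nat.card_congr (Equiv.subtypeEquiv (e.toEquiv.prodCongr e.toEquiv)
        (fun p => (commute_map_iff (f := e) e.injective).symm))
    rw [card_comm_eq_card_conjClasses_mul_card, card_comm_eq_card_conjClasses_mul_card,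
      ← Nat.card_congr e.toEquiv] at h
    exact (Nat.eq_of_mul_eq_mul_right Nat.card_pos h).symm
  have hquot : Nat.card (X ⧸ V) = Nat.card ↥G := (Nat.card_congr e.toEquiv).symm
  -- the characters trivial on `V`
  let B : Finset (Cfsg.IrrCharacter X) :=
    Finset.univ.filter fun χ => ∀ u ∈ V, (χ : X → ℂ) u = (χ : X → ℂ) 1
  let infl : Cfsg.IrrCharacter (X ⧸ V) → Cfsg.IrrCharacter X := fun ψ =>
    ⟨fun x => (ψ : X ⧸ V → ℂ) (x : X ⧸ V),
      CfsgLib.CharTheory.isIrrCharacter_comp ψ.2 (f := QuotientGroup.mk' V) (QuotientGroup.mk'_surjective V)⟩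
  have hinj : Function.Injective infl := fun a b hab' => Subtype.ext <| funext fun q => by
    obtain ⟨x, rfl⟩ := QuotientGroup.mk'_surjective V q
    exact congrFun (congrArg Subtype.val hab') x
  have hB : B = Finset.univ.image infl := by
    ext χ
    simp only [B, Finset.mem_filter, Finset.mem_univ, true_and, Finset.mem_image]
    constructor
    · intro h
      obtain ⟨ψ, hψ, hψ'⟩ := CfsgLib.CharTheory.exists_descend χ.2 V h
      exact ⟨⟨ψ, hψ⟩, Subtype.ext (funext fun x => (hψ' x).symm)⟩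
    · rintro ⟨ψ, rfl⟩ u hu
      simp [infl, (QuotientGroup.eq_one_iff u).mpr hu]
  have hBcard : B.card = Nat.card (ConjClasses ↥G) := by
    rw [hB, Finset.card_image_of_injective _ hinj, Finset.card_univ, ← Nat.card_eq_fintype_card,
      CfsgLib.CharTheory.card_irrCharacter, hconj]
  have hBsum : ∀ u ∈ V, ∑ χ ∈ B, ‖(χ : X → ℂ) u‖ ^ 2 = (Nat.card ↥G : ℝ) := by
    intro u hu
    rw [hB, Finset.sum_image hinj.injOn]
    have h := CfsgLib.CharTheory.sum_mul_conj (G := X ⧸ V) 1 1
    rw [if_pos (IsConj.refl 1)] at h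
    simp only [Complex.mul_conj'] at h
    have h' : ∑ ψ : Cfsg.IrrCharacter (X ⧸ V), ‖(ψ : X ⧸ V → ℂ) 1‖ ^ 2 = (Nat.card ↥G : ℝ) := by
      have hc : Nat.card (Subgroup.centralizer ({1} : Set (X ⧸ V))) = Nat.card ↥G := by
        rw [show Subgroup.centralizer ({1} : Set (X ⧸ V)) = ⊤ by
          ext; simp [Subgroup.mem_centralizer_singleton_iff], Subgroup.card_top, hquot]
      rw [hc] at h
      exact_mod_cast h
    rw [← h']
    exact Finset.sum_congr rfl fun ψ _ => by simp [infl, (QuotientGroup.eq_one_iff u).mpr hu]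
  -- the conjugates `v ^ t`
  have hcent : ∀ t : ℕ, t.Coprime n →
      Nat.card (Subgroup.centralizer ({v ^ t} : Set X)) =
        Nat.card V * Nat.card ↥(G ⊓ Subgroup.centralizer ({v} : Set X)) := by
    intro t ht
    obtain ⟨m, hm⟩ := exists_pow_eq_self_of_coprime
      (show t.Coprime (orderOf v) from ht.coprime_dvd_right (hn ▸ orderOf_dvd_natCard v))
    have hc : Subgroup.centralizer ({v ^ t} : Set X) = Subgroup.centralizer ({v} : Set X) := by
      ext x
      simp only [Subgroup.mem_centralizer_singleton_iff]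
      exact ⟨fun h => hm ▸ (Commute.pow_right h m), fun h => Commute.pow_right h t⟩
    rw [hc, ← Nat.card_prod]
    have hVC : V ≤ Subgroup.centralizer ({v} : Set X) := fun a ha =>
      Subgroup.mem_centralizer_singleton_iff.mpr (hab a ha v hv)
    refine (Nat.card_congr (Equiv.ofBijective
      (fun p : V × ↥(G ⊓ Subgroup.centralizer ({v} : Set X)) =>
        (⟨(p.1 : X) * p.2, mul_mem (hVC p.1.2) p.2.2.2⟩ : Subgroup.centralizer ({v} : Set X))) ⟨?_, ?_⟩)).symm
    · intro a b hab'
      have h := hGV.1 (a₁ := (a.1, ⟨a.2, a.2.2.1⟩)) (a₂ := (b.1, ⟨b.2, b.2.2.1⟩))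
        (congrArg Subtype.val hab')
      simp only [Prod.mk.injEq, Subtype.mk.injEq] at h
      exact Prod.ext h.1 (Subtype.ext h.2)
    · intro x
      obtain ⟨⟨a, b⟩, hab' : (a : X) * b = x⟩ := hGV.2 x
      refine ⟨(a, ⟨b, b.2, ?_⟩), Subtype.ext hab'⟩
      have : (b : X) = (a : X)⁻¹ * x := by rw [← hab', inv_mul_cancel_left]
      rw [this]
      exact (Subgroup.centralizer ({v} : Set X)).mul_mem (Subgroup.inv_mem _ (hVC a.2)) x.2
  -- the Galois average over the column of `v`
  let A : Finset (Cfsg.IrrCharacter X) := Bᶜ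
  have hcol : ∀ t : ℕ, t.Coprime n → ∑ χ ∈ A, ‖(χ : X → ℂ) (v ^ t)‖ ^ 2 =
      ((Nat.card V * Nat.card ↥(G ⊓ Subgroup.centralizer ({v} : Set X)) : ℕ) : ℝ) - (Nat.card ↥G : ℝ) := by
    intro t ht
    have h := CfsgLib.CharTheory.sum_mul_conj (v ^ t) (v ^ t)
    rw [if_pos (IsConj.refl _), hcent t ht] at h
    simp only [Complex.mul_conj'] at h
    have h' : ∑ χ : Cfsg.IrrCharacter X, ‖(χ : X → ℂ) (v ^ t)‖ ^ 2 =
        ((Nat.card V * Nat.card ↥(G ⊓ Subgroup.centralizer ({v} : Set X)) : ℕ) : ℝ) := by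
      exact_mod_cast h
    rw [← h', ← hBsum _ (V.pow_mem hv t), ← Finset.sum_compl_add_sum B, add_sub_cancel_right]
  have hmain : (A.card : ℝ) * (Fintype.card (ZMod n)ˣ : ℝ) ≤
      (((Nat.card V * Nat.card ↥(G ⊓ Subgroup.centralizer ({v} : Set X)) : ℕ) : ℝ) - (Nat.card ↥G : ℝ)) *
        (Fintype.card (ZMod n)ˣ : ℝ) :=
    calc (A.card : ℝ) * (Fintype.card (ZMod n)ˣ : ℝ)
        ≤ ∑ χ ∈ A, ∑ u : (ZMod n)ˣ, ‖(χ : X → ℂ) (v ^ (u : ZMod n).val)‖ ^ 2 := by
          rw [← nsmul_eq_mul, ← Finset.sum_const]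
          exact Finset.sum_le_sum fun χ _ => CfsgLib.Jordan.totient_le_sum_norm_sq
            (CfsgLib.CharTheory.IsIrrCharacter.isCharacter χ.2) (hn ▸ pow_card_eq_one')
            (CfsgLib.Jordan.apply_ne_zero_of_abelian_sylow V hVp hidx hab χ.2 hv)
      _ = _ := by
          rw [Finset.sum_comm, Finset.sum_congr rfl fun u _ => hcol _ (ZMod.val_coe_unit_coprime u),
            Finset.sum_const, Finset.card_univ, nsmul_eq_mul, mul_comm]
  have hle := le_of_mul_le_mul_right hmain (by exact_mod_cast Fintype.card_pos)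
  have htot : Nat.card (ConjClasses X) = A.card + Nat.card (ConjClasses ↥G) := by
    rw [← CfsgLib.CharTheory.card_irrCharacter, Nat.card_eq_fintype_card, ← hBcard]
    exact (Finset.card_compl_add_card B).symm
  rw [htot]
  have h2 : ((A.card + Nat.card ↥G : ℕ) : ℝ) ≤
      ((Nat.card ↥(G ⊓ Subgroup.centralizer ({v} : Set X)) * Nat.card V : ℕ) : ℝ) := by
    push_cast at hle ⊢
    linarith
  have h3 := Nat.cast_le.mp h2
  omega

end Cfsg.Agent.S4955
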