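import Cfsg.Statements.S4959
import Cfsg.Agent.Lib.Jordan.RealVector
import Cfsg.Agent.Lib.Jordan.AbelianNormal
import Cfsg.Agent.Lib.CharTheory.Degree
import Cfsg.Agent.Lib.CharTheory.Ito

set_option autoImplicit false
set_option linter.style.haveILetI false
open Cfsg CfsgLib.CharTheory CfsgLib.Jordan
open scoped ComplexConjugate

open Cfsg

namespace Cfsg.Agent.S4959

theorem conj_mem (n : ℕ) [NeZero n] {z : ℂ} (hz : z ∈ cycField n) : conj z ∈ cycField n := by
  induction hz using IntermediateField.adjoin_induction with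
  | mem x hx =>
    obtain rfl := hx
    refine mem_cycField_of_pow_eq_one ?_
    rw [← map_pow, (Complex.isPrimitiveRoot_exp n (NeZero.ne n)).pow_eq_one, map_one]
  | algebraMap q => simp
  | add x y _ _ hx hy => rw [map_add]; exact add_mem hx hy
  | inv x _ hx => rw [map_inv₀]; exact inv_mem hx
  | mul x y _ _ hx hy => rw [map_mul]; exact mul_mem hx hy

/-- Complex conjugation commutes with the automorphisms of a cyclotomic field. -/
theorem galois_conj (n : ℕ) [NeZero n] (σ : cycField n ≃ₐ[ℚ] cycField n) {z : ℂ} (hz : z ∈ cycField n) :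
    (σ ⟨conj z, conj_mem n hz⟩ : ℂ) = conj (σ ⟨z, hz⟩ : ℂ) := by
  induction hz using IntermediateField.adjoin_induction with
  | mem x hx =>
    obtain rfl := hx
    obtain ⟨t, -, ht⟩ := exists_galois_pow n σ
    have h1 := (Complex.isPrimitiveRoot_exp n (NeZero.ne n)).pow_eq_one
    rw [ht _ (show (conj _ : ℂ) ^ n = 1 by rw [← map_pow, h1, map_one]), ht _ h1, map_pow]
  | algebraMap q =>
    have e1 : (⟨conj (algebraMap ℚ ℂ q), conj_mem n (algebraMap_mem _ q)⟩ : cycField n) =
        algebraMap ℚ (cycField n) q := Subtype.ext (by simp)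
    have e2 : (⟨algebraMap ℚ ℂ q, algebraMap_mem _ q⟩ : cycField n) = algebraMap ℚ (cycField n) q := rfl
    rw [e1, e2, AlgEquiv.commutes]
    show algebraMap ℚ ℂ q = conj (algebraMap ℚ ℂ q)
    simp
  | add x y hx hy h1 h2 =>
    have e1 : (⟨conj (x + y), conj_mem n (add_mem hx hy)⟩ : cycField n) =
        ⟨conj x, conj_mem n hx⟩ + ⟨conj y, conj_mem n hy⟩ := Subtype.ext (map_add _ x y)
    have e2 : (⟨x + y, add_mem hx hy⟩ : cycField n) = ⟨x, hx⟩ + ⟨y, hy⟩ := rfl
    rw [e1, e2, map_add, map_add, AddMemClass.coe_add, AddMemClass.coe_add, map_add, h1, h2]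
  | inv x hx h1 =>
    have e1 : (⟨conj x⁻¹, conj_mem n (inv_mem hx)⟩ : cycField n) =
        (⟨conj x, conj_mem n hx⟩)⁻¹ := Subtype.ext (map_inv₀ _ x)
    have e2 : (⟨x⁻¹, inv_mem hx⟩ : cycField n) = (⟨x, hx⟩)⁻¹ := rfl
    rw [e1, e2, map_inv₀, map_inv₀]
    push_cast
    rw [map_inv₀, h1]
  | mul x y hx hy h1 h2 =>
    have e1 : (⟨conj (x * y), conj_mem n (mul_mem hx hy)⟩ : cycField n) =
        ⟨conj x, conj_mem n hx⟩ * ⟨conj y, conj_mem n hy⟩ := Subtype.ext (map_mul _ x y)
    have e2 : (⟨x * y, mul_mem hx hy⟩ : cycField n) = ⟨x, hx⟩ * ⟨y, hy⟩ := rfl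
    rw [e1, e2, map_mul, map_mul, MulMemClass.coe_mul, MulMemClass.coe_mul, map_mul, h1, h2]

/-- The absolute value of a value with rational squared absolute value is Galois invariant. -/
theorem norm_galois (n : ℕ) [NeZero n] (σ : cycField n ≃ₐ[ℚ] cycField n) (z : cycField n) {a b : ℕ}
    (hb : b ≠ 0) (h : ‖(z : ℂ)‖ ^ 2 * (b : ℝ) = a) : ‖(σ z : ℂ)‖ ^ 2 = ‖(z : ℂ)‖ ^ 2 := by
  set w : cycField n := ⟨conj (z : ℂ), conj_mem n z.2⟩
  have h1 : z * w * (b : cycField n) = (a : cycField n) := Subtype.ext (by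
    push_cast
    show (z : ℂ) * conj (z : ℂ) * (b : ℂ) = a
    rw [Complex.mul_conj']
    exact_mod_cast h)
  have h2 := congrArg (fun x : cycField n => ((σ x : cycField n) : ℂ)) h1
  simp only [map_mul, map_natCast, MulMemClass.coe_mul] at h2
  rw [show (σ w : ℂ) = conj (σ z : ℂ) from galois_conj n σ z.2, Complex.mul_conj'] at h2
  push_cast at h2
  have h3 : ‖(σ z : ℂ)‖ ^ 2 * (b : ℝ) = a := by exact_mod_cast h2
  exact mul_right_cancel₀ (Nat.cast_ne_zero.2 hb) (h3.trans h.symm)


/-- Let X be a finite group and V a normal subgroup of X in which every element has order dividing the prime p, whose index in X is prime to p and which is its own centralizer in X; so V is an elementary abelian normal Sylow p-subgroup, and any complement G to V in X is a group of order prime to p acting faithfully on the vector space V by conjugation (the coprime linear setting of the k(GV) problem). Let G be a complement to V in X, let v be in V and let H be the centralizer of v in G. Suppose there is a subgroup U of V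 normalized by H, on which H acts faithfully, and carrying an H-invariant bi-additive pairing β with values in the integers modulo p that is nondegenerate on U (equivalently: the restriction of the module V to H has a faithful self-dual submodule; such a v is called a real vector for G). Then the number of conjugacy classes of X is at most the order of V (the real-vector criterion for the k(GV) problem). The pairing is given as a function on X whose relevant values are those on pairs from U. -/
theorem result {X : Type*} [Group X] [Finite X] (p : ℕ) [Fact p.Prime] (V : Subgroup X) [V.Normal] (hVexp : ∀ v ∈ V, v ^ p = 1) (hidx : ¬ p ∣ V.index) (hself : Subgroup.centralizer (V : Set X) = V) (G : Subgroup X) (hGV : Subgroup.IsComplement' V G) (v : X) (hv : v ∈ V) (U : Subgroup X) (hUV : U ≤ V) (hUinv : ∀ h ∈ G, h * v * h⁻¹ = v → ∀ u ∈ U, h * u * h⁻¹ ∈ U) (hUfaith : ∀ h ∈ G, h * v * h⁻¹ = v → (∀ u ∈ U, h * u * h⁻¹ = u) → h = 1) (β : X → X → ZMod p) (hβl : ∀ u ∈ U, ∀ u' ∈ U, ∀ w ∈ U, β (u * u') w = β u w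 + β u' w) (hβr : ∀ u ∈ U, ∀ w ∈ U, ∀ w' ∈ U, β u (w * w') = β u w + β u w') (hβinv : ∀ h ∈ G, h * v * h⁻¹ = v → ∀ u ∈ U, ∀ w ∈ U, β (h * u * h⁻¹) (h * w * h⁻¹) = β u w) (hβnd : ∀ u ∈ U, (∀ w ∈ U, β u w = 0) → u = 1) : Nat.card (ConjClasses X) ≤ Nat.card V := by
  classical
  haveI := Fintype.ofFinite X
  have hp := (Fact.out : p.Prime)
  have hVab : ∀ a ∈ V, ∀ b ∈ V, a * b = b * a := by
    intro a ha b hb
    have : b ∈ Subgroup.centralizer (V : Set X) := by rw [hself]; exact hb
    exact Subgroup.mem_centralizer_iff.1 this a ha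
  have hVp : IsPGroup p V := fun a => ⟨1, Subtype.ext (by simpa using hVexp a a.2)⟩
  set H := G ⊓ Subgroup.centralizer ({v} : Set X) with hH
  haveI := Fintype.ofFinite H
  have hfixv : ∀ h : H, (h : X) * v * (h : X)⁻¹ = v := fun h => by
    rw [Subgroup.mem_centralizer_singleton_iff.1 h.2.2, mul_inv_cancel_right]
  have hHp : ¬ p ∣ Nat.card H := fun h =>
    hidx (hGV.symm.index_eq_card ▸ h.trans (Subgroup.card_dvd_of_le inf_le_left))
  letI : CommGroup U := { (inferInstance : Group U) with
    mul_comm := fun a b => Subtype.ext (hVab a (hUV a.2) b (hUV b.2)) }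
  haveI := Fintype.ofFinite (Additive U)
  let act : H →* AddMonoid.End (Additive U) :=
    { toFun := fun h => AddMonoidHom.mk'
        (fun u => Additive.ofMul (⟨(h : X) * (u.toMul : X) * (h : X)⁻¹,
          hUinv h h.2.1 (hfixv h) _ u.toMul.2⟩ : U))
        (fun a b => congrArg Additive.ofMul (Subtype.ext (by
          show (h : X) * ((a.toMul : X) * b.toMul) * (h : X)⁻¹ =
            ((h : X) * (a.toMul : X) * (h : X)⁻¹) * ((h : X) * (b.toMul : X) * (h : X)⁻¹)
          group)))
      map_one' := AddMonoidHom.ext fun u => Additive.toMul.injective (Subtype.ext (by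
        show ((1 : H) : X) * (u.toMul : X) * ((1 : H) : X)⁻¹ = (u.toMul : X)
        simp))
      map_mul' := fun g h => AddMonoidHom.ext fun u => Additive.toMul.injective (Subtype.ext (by
        show ((g * h : H) : X) * (u.toMul : X) * ((g * h : H) : X)⁻¹ =
          (g : X) * ((h : X) * (u.toMul : X) * (h : X)⁻¹) * (g : X)⁻¹
        rw [Subgroup.coe_mul]; group)) }
  let b' : Additive U →+ (Additive U →+ ZMod p) := AddMonoidHom.mk'
    (fun u => AddMonoidHom.mk' (fun w => β (u.toMul : X) (w.toMul : X))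
      fun w w' => hβr _ u.toMul.2 _ w.toMul.2 _ w'.toMul.2)
    fun u u' => AddMonoidHom.ext fun w => hβl _ u.toMul.2 _ u'.toMul.2 _ w.toMul.2
  obtain ⟨θ, hI, hint, hone, hnorm, hmem, hfield, hrat⟩ := exists_theta (U := Additive U) hHp
    (fun u => Additive.toMul.injective (Subtype.ext (hVexp _ (hUV u.toMul.2))))
    act b' (fun u hu => Additive.toMul.injective (Subtype.ext
      (hβnd _ u.toMul.2 fun w hw => hu (Additive.ofMul (⟨w, hw⟩ : U)))))
    (fun h u w => hβinv h h.2.1 (hfixv h) _ u.toMul.2 _ w.toMul.2)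
  have hfaith : ∀ h : H, h ≠ 1 → ∃ u, act h u ≠ u := by
    intro h hne
    by_contra hall
    push Not at hall
    exact hne (Subtype.ext (hUfaith h h.2.1 (hfixv h) fun u hu =>
      congrArg (fun a : Additive U => ((a.toMul : U) : X)) (hall (Additive.ofMul ⟨u, hu⟩))))
  -- the fixed points in `V`
  set CV : H → Subgroup X := fun h => V ⊓ Subgroup.centralizer ({(h : X)} : Set X) with hCV
  have hVbound : ∀ h : H, ‖θ h‖ ^ 2 * (Nat.card (CV h) : ℝ) ≤ Nat.card V := by
    intro h
    have hCU : Nat.card (fixGrp act h) = Nat.card ↥(U ⊓ CV h) := by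
      refine Nat.card_congr ⟨fun u => ⟨((u : Additive U).toMul : X), ?_⟩,
        fun u => ⟨Additive.ofMul (⟨(u : X), u.2.1⟩ : U), ?_⟩, fun u => rfl, fun u => rfl⟩
      · refine ⟨(u : Additive U).toMul.2, hUV (u : Additive U).toMul.2, ?_⟩
        refine Subgroup.mem_centralizer_singleton_iff.2 ?_
        have := congrArg (fun a : Additive U => ((a.toMul : U) : X)) u.2
        exact (mul_inv_eq_iff_eq_mul.1 this).symm
      · refine Additive.toMul.injective (Subtype.ext ?_)
        show (h : X) * (u : X) * (h : X)⁻¹ = u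
        rw [← Subgroup.mem_centralizer_singleton_iff.1 u.2.2.2, mul_inv_cancel_right]
    have hU : Nat.card (Additive U) = Nat.card U := Nat.card_congr Additive.toMul
    have h1 : Nat.card (CV h) * Nat.card U ≤ Nat.card ↥(U ⊓ CV h) * Nat.card V := by
      have e1 : Nat.card ↥(U ⊓ CV h) * (U ⊓ CV h).relIndex (CV h) = Nat.card (CV h) := by
        rw [← Nat.card_congr (Subgroup.subgroupOfEquivOfLe (inf_le_right : U ⊓ CV h ≤ CV h)).toEquiv]
        exact Subgroup.card_mul_index _
      have e2 : Nat.card U * U.relIndex V = Nat.card V := by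
        rw [← Nat.card_congr (Subgroup.subgroupOfEquivOfLe hUV).toEquiv]
        exact Subgroup.card_mul_index _
      rw [← e1, ← e2, Subgroup.inf_relIndex_right, mul_assoc, mul_comm (U.relIndex _)]
      exact Nat.mul_le_mul_left _ (Nat.mul_le_mul_left _
        (Subgroup.relIndex_le_of_le_right inf_le_left Subgroup.index_ne_zero_of_finite))
    have h2 := hnorm h
    rw [hCU, hU] at h2
    have hU0 : (0 : ℝ) < Nat.card U := by exact_mod_cast Nat.card_pos
    have h1' : (Nat.card (CV h) : ℝ) * Nat.card U ≤ (Nat.card ↥(U ⊓ CV h) : ℝ) * Nat.card V := by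
      exact_mod_cast h1
    refine le_of_mul_le_mul_right ?_ hU0
    calc ‖θ h‖ ^ 2 * (Nat.card (CV h) : ℝ) * Nat.card U
        ≤ ‖θ h‖ ^ 2 * ((Nat.card ↥(U ⊓ CV h) : ℝ) * Nat.card V) := by
          rw [mul_assoc]; exact mul_le_mul_of_nonneg_left h1' (by positivity)
      _ ≤ (Nat.card U : ℝ) * Nat.card V := by
          rw [← mul_assoc]; exact mul_le_mul_of_nonneg_right h2 (Nat.cast_nonneg _)
      _ = _ := mul_comm _ _
  set n := p * Nat.card X with hn
  haveI : NeZero n := ⟨mul_ne_zero hp.ne_zero Nat.card_pos.ne'⟩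
  have hpown : ∀ g : X, g ^ n = 1 := fun g => by rw [hn, mul_comm, pow_mul, pow_card_eq_one', one_pow]
  have hpowH : ∀ h : H, h ^ n = 1 := fun h => Subtype.ext (by simpa using hpown h)
  haveI := cycField_isCyclotomic n
  haveI : FiniteDimensional ℚ (cycField n) := IsCyclotomicExtension.finite {n} ℚ _
  haveI : IsGalois ℚ (cycField n) := IsCyclotomicExtension.isGalois {n} ℚ _
  haveI := Fintype.ofFinite (IrrCharacter X)
  haveI := Fintype.ofFinite (IrrCharacter H)
  choose τ hτc hτ using fun σ : cycField n ≃ₐ[ℚ] cycField n => exists_galois_apply n σ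
  -- the column bound
  have hcol : ∀ (t : ℕ), t.Coprime n → ∀ h : H,
      ∑ χ : IrrCharacter X, ‖(χ : X → ℂ) (v ^ t * h)‖ ^ 2 ≤
        (Nat.card (CV h) : ℝ) * Nat.card (Subgroup.centralizer ({h} : Set H)) := by
    intro t ht h
    have horth := CfsgLib.CharTheory.sum_mul_conj (v ^ t * (h : X)) (v ^ t * h)
    rw [if_pos (IsConj.refl _)] at horth
    simp only [Complex.mul_conj'] at horth
    have horth' : ∑ χ : IrrCharacter X, ‖(χ : X → ℂ) (v ^ t * h)‖ ^ 2 =
        (Nat.card (Subgroup.centralizer ({v ^ t * (h : X)} : Set X)) : ℝ) := by exact_mod_cast horth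
    rw [horth', ← Nat.cast_mul, Nat.cast_le]
    have hvh : Commute v (h : X) := (Subgroup.mem_centralizer_singleton_iff.1 h.2.2).symm
    have hq : (v ^ t * (h : X)) ^ Nat.card V = (h : X) ^ Nat.card V := by
      rw [(hvh.pow_left t).mul_pow]
      have h1 : (⟨v ^ t, V.pow_mem hv t⟩ : V) ^ Nat.card V = 1 := pow_card_eq_one'
      have h2 := congrArg Subtype.val h1
      simp only [Subgroup.coe_pow, Subgroup.coe_one] at h2
      rw [h2, one_mul]
    obtain ⟨j, hj⟩ := exists_pow_eq_self_of_coprime
      (show (Nat.card V).Coprime (orderOf (h : X)) by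
        obtain ⟨e, he⟩ := IsPGroup.iff_card.1 hVp
        rw [he, Subgroup.orderOf_coe]
        exact Nat.Coprime.pow_left e ((hp.coprime_iff_not_dvd).2 fun hd =>
          hHp (hd.trans (orderOf_dvd_natCard h))))
    obtain ⟨m, hm⟩ := exists_pow_eq_self_of_coprime
      (show t.Coprime (orderOf v) from ht.coprime_dvd_right
        ((orderOf_dvd_natCard v).trans (dvd_mul_left _ _)))
    have hpair : ∀ x : Subgroup.centralizer ({v ^ t * (h : X)} : Set X), ∃ q :
        CV h × Subgroup.centralizer ({h} : Set H), (q.1 : X) * (((q.2 : H) : X)) = x := by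
      intro x
      have hxm : Commute (x : X) (v ^ t * (h : X)) := Subgroup.mem_centralizer_singleton_iff.1 x.2
      have hxh : Commute (x : X) (h : X) := by
        have h3 := ((hxm.pow_right (Nat.card V)).pow_right j)
        rwa [hq, hj] at h3
      have hxv : Commute (x : X) v := by
        have h2 : Commute (x : X) (v ^ t) := by
          have := hxm.mul_right hxh.inv_right
          rwa [mul_inv_cancel_right] at this
        have h3 := h2.pow_right m
        rwa [hm] at h3
      obtain ⟨⟨a, b⟩, hab⟩ := hGV.2 (x : X)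
      simp only at hab
      have hconj : ((h : X) * a * (h : X)⁻¹) * ((h : X) * b * (h : X)⁻¹) = (a : X) * b := by
        rw [hab]
        calc _ = (h : X) * ((a : X) * b) * (h : X)⁻¹ := by group
          _ = (x : X) := by rw [hab, ← hxh.eq, mul_inv_cancel_right]
      have huniq := hGV.1 (a₁ := (⟨(h : X) * a * (h : X)⁻¹, (inferInstance : V.Normal).conj_mem _ a.2 _⟩,
        ⟨(h : X) * b * (h : X)⁻¹, G.mul_mem (G.mul_mem h.2.1 b.2) (G.inv_mem h.2.1)⟩)) (a₂ := (a, b)) hconj
      have hah : (h : X) * a * (h : X)⁻¹ = a := congrArg (fun q => ((q.1 : V) : X)) huniq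
      have hbh : (h : X) * b * (h : X)⁻¹ = b := congrArg (fun q => ((q.2 : G) : X)) huniq
      have hbv : Commute (b : X) v := by
        rw [show (b : X) = (a : X)⁻¹ * x by rw [← hab, inv_mul_cancel_left]]
        exact ((show Commute (a : X) v from hVab a a.2 v hv).inv_left).mul_left hxv
      exact ⟨(⟨a, a.2, Subgroup.mem_centralizer_singleton_iff.2 (mul_inv_eq_iff_eq_mul.1 hah).symm⟩,
        ⟨⟨b, b.2, Subgroup.mem_centralizer_singleton_iff.2 hbv⟩, Subgroup.mem_centralizer_singleton_iff.2
          (Subtype.ext (mul_inv_eq_iff_eq_mul.1 hbh).symm)⟩), hab⟩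
    choose q hq' using hpair
    rw [← Nat.card_prod]
    exact Nat.card_le_card_of_injective q fun x y hxy =>
      Subtype.ext (by rw [← hq' x, ← hq' y, hxy])
  -- a maximal ideal over `p`
  obtain ⟨M, hMp, hM⟩ : ∃ M : Ideal AlgInt, (p : AlgInt) ∈ M ∧ M.IsPrime := by
    have hne : Ideal.span {(p : AlgInt)} ≠ ⊤ := by
      rw [Ne, Ideal.span_singleton_eq_top]
      intro hu
      obtain ⟨z, hz⟩ := hu.exists_left_inv
      have hz' : ((z : AlgInt) : ℂ) = ((((p : ℚ))⁻¹ : ℚ) : ℂ) := by
        push_cast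
        refine eq_inv_of_mul_eq_one_left ?_
        simpa using congrArg (fun a : AlgInt => (a : ℂ)) hz
      obtain ⟨k, hk⟩ := exists_int_of_isIntegral_ratCast (q := ((p : ℚ))⁻¹) (hz' ▸ z.2)
      have h1 : (k : ℚ) * p = 1 := by rw [hk, inv_mul_cancel₀ (Nat.cast_ne_zero.2 hp.ne_zero)]
      have h2 : k * (p : ℤ) = 1 := by exact_mod_cast h1
      exact hp.ne_one (by exact_mod_cast Int.eq_one_of_mul_eq_one_left (Int.natCast_nonneg p) h2)
    obtain ⟨M, hM, hle⟩ := Ideal.exists_le_maximal _ hne
    exact ⟨M, hle (Ideal.mem_span_singleton_self _), hM.isPrime⟩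
  have hnotM : ∀ k : ℕ, ¬ p ∣ k → (k : AlgInt) ∉ M := fun k hk hmem' => by
    refine hM.ne_top ((Ideal.eq_top_iff_one M).2 ?_)
    have hb := Nat.gcd_eq_gcd_ab k p
    rw [show Nat.gcd k p = 1 from ((hp.coprime_iff_not_dvd).2 hk).symm] at hb
    have hb' := congrArg (fun z : ℤ => (z : AlgInt)) hb
    push_cast at hb'
    rw [hb']
    exact M.add_mem (M.mul_mem_right _ hmem') (M.mul_mem_right _ hMp)
  -- the bound for one character
  have hrow : ∀ χ : IrrCharacter X,
      (Fintype.card (cycField n ≃ₐ[ℚ] cycField n) : ℝ) * (Fintype.card (IrrCharacter H) : ℝ) *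
        (Nat.card H : ℝ) ≤ ∑ σ, ∑ h : H, ‖θ h‖ ^ 2 * ‖(χ : X → ℂ) (v ^ τ σ * ((h : X) ^ τ σ))‖ ^ 2 := by
    intro χ
    have hχ := IsIrrCharacter.isCharacter χ.2
    let θK : H → cycField n := fun h => ⟨θ h, hfield n (dvd_mul_right p _) hpowH h⟩
    let fK : H → cycField n := fun h => ⟨(χ : X → ℂ) (v * h), mem_cycField hχ (hpown _)⟩
    let ηK : IrrCharacter H → H → cycField n := fun η h =>
      ⟨(η : H → ℂ) h⁻¹, mem_cycField (IsIrrCharacter.isCharacter η.2) (hpowH _)⟩
    let c : IrrCharacter H → cycField n := fun η =>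
      (Nat.card H : cycField n)⁻¹ * ∑ h, θK h * fK h * ηK η h
    have hf : IsClassFunction H (fun h => (χ : X → ℂ) (v * h)) := by
      intro a b
      simp only [Subgroup.coe_mul, Subgroup.coe_inv]
      have hb : Commute v (b : X) := (Subgroup.mem_centralizer_singleton_iff.1 b.2.2).symm
      rw [show v * ((b : X) * a * (b : X)⁻¹) = (b : X) * (v * a) * (b : X)⁻¹ by
        rw [← mul_assoc, ← mul_assoc, hb.eq, mul_assoc (b : X) v]]
      exact IsCharacter.isClassFunction hχ _ _
    have hfI : IntCoeff (fun h : H => (χ : X → ℂ) (v * h)) := by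
      obtain ⟨d, ρ, hρ⟩ := hχ
      have h := intCoeff_trace (ρ.comp H.subtype) (ρ v) (fun g => by
          show Commute (ρ v) (ρ (g : X))
          exact Commute.map (show Commute v (g : X) from (Subgroup.mem_centralizer_singleton_iff.1 g.2.2).symm) ρ)
        (fun μ hμ => by
          refine IsIntegral.of_pow (orderOf_pos v) ?_
          obtain ⟨w, hw⟩ := hμ.exists_hasEigenvector
          have h1 : (ρ v ^ orderOf v) w = μ ^ orderOf v • w := hw.pow_apply _
          rw [← map_pow, pow_orderOf_eq_one, map_one, Module.End.one_apply] at h1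
          have h2 : μ ^ orderOf v = 1 := by
            refine smul_left_injective ℂ hw.2 ?_
            simp only [one_smul]
            exact h1.symm
          rw [h2]; exact isIntegral_one)
      convert h using 2 with g
      rw [← hρ]
      show LinearMap.trace ℂ _ (ρ (v * g)) = _
      rw [map_mul]; rfl
    have hc : ∀ η : IrrCharacter H, (c η : ℂ) =
        classInner (θ * fun h : H => (χ : X → ℂ) (v * h)) (η : H → ℂ) := by
      intro η
      simp only [c, classInner, θK, fK, ηK, Pi.mul_apply, IsIrrCharacter.inv η.2]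
      push_cast [AddSubmonoidClass.coe_finsetSum]
      rfl
    have hcint : ∀ η : IrrCharacter H, IsIntegral ℤ (c η : ℂ) := fun η => hc η ▸ (hI.mul hfI).2 η
    -- no coefficient vanishes
    have hne : ∀ η : IrrCharacter H, c η ≠ 0 := by
      intro η hzero
      have h0 : ∑ h : H, θ h * (χ : X → ℂ) (v * h) * conj ((η : H → ℂ) h) = 0 := by
        have := (hc η).symm.trans (congrArg Subtype.val hzero)
        simp only [classInner, ZeroMemClass.coe_zero, mul_eq_zero] at this
        exact this.resolve_left (inv_ne_zero (Nat.cast_ne_zero.2 Nat.card_pos.ne'))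
      let T : H → AlgInt := fun h => ⟨θ h, hint h⟩ * ⟨_, IsCharacter.isIntegral hχ (v * h)⟩ *
        ⟨_, IsCharacter.isIntegral (IsIrrCharacter.isCharacter η.2) h⁻¹⟩
      have hTsum : ∑ h, T h = 0 := Subtype.ext (by
        push_cast [T, AddSubmonoidClass.coe_finsetSum]
        simp only [IsIrrCharacter.inv η.2]
        exact h0)
      have hT1 : T 1 ∈ M := by
        rw [← Finset.add_sum_erase _ _ (Finset.mem_univ (1 : H)), add_eq_zero_iff_eq_neg] at hTsum
        rw [hTsum]
        refine M.neg_mem (Submodule.sum_mem M fun h hh => ?_)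
        obtain ⟨z, hz, e⟩ := hmem h (hfaith h (Finset.ne_of_mem_erase hh)) M hM hMp
        exact M.mul_mem_right _ (M.mul_mem_right _
          ((show z = (⟨θ h, hint h⟩ : AlgInt) from Subtype.ext e) ▸ hz))
      obtain ⟨e, -, hedvd, he⟩ := IsIrrCharacter.exists_degree_dvd η.2
      obtain ⟨d, hd0, hdd, hd⟩ := IsIrrCharacter.exists_degree_dvd χ.2
      have hpd : ¬ p ∣ d := fun hpd => by
        obtain ⟨d', hd', hdvd'⟩ := exists_degree_dvd_index_of_abelian χ.2 V
          (fun a ha b hb => hVab a ha b hb)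
        have : d = d' := by exact_mod_cast hd.symm.trans hd'
        exact hidx ((this ▸ hpd).trans hdvd')
      have hχv : (⟨_, IsCharacter.isIntegral hχ v⟩ : AlgInt) - (d : AlgInt) ∈ M := by
        obtain ⟨m, l, hl, hpow⟩ := exists_roots_of_isCharacter hχ (n := p) (g := v) (hVexp v hv)
        have hdm : (d : ℂ) = (m : ℂ) := by
          rw [← hd, ← pow_zero v, hpow]; simp
        have hli : ∀ i, IsIntegral ℤ (l i) := fun i =>
          IsIntegral.of_pow hp.pos (by rw [hl i]; exact isIntegral_one)
        have hsum : (⟨_, IsCharacter.isIntegral hχ v⟩ : AlgInt) - (d : AlgInt) =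
            ∑ i, ((⟨l i, hli i⟩ : AlgInt) - 1) := Subtype.ext (by
          push_cast [AddSubmonoidClass.coe_finsetSum]
          rw [Finset.sum_sub_distrib, show ∑ _i : Fin m, (1 : ℂ) = d by simp [hdm]]
          conv_lhs => rw [← pow_one v, hpow]
          simp)
        rw [hsum]
        refine Submodule.sum_mem M fun i _ => hM.mem_of_pow_mem p ?_
        have hz : (⟨l i, hli i⟩ : AlgInt) ^ p = 1 := Subtype.ext (by push_cast; exact hl i)
        obtain ⟨r, hr⟩ := exists_add_pow_prime_eq hp ((⟨l i, hli i⟩ : AlgInt) - 1) (1 : AlgInt)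
        rw [sub_add_cancel, hz, one_pow] at hr
        rw [show ((⟨l i, hli i⟩ : AlgInt) - 1) ^ p = -((p : AlgInt) * ((⟨l i, hli i⟩ : AlgInt) - 1) * 1 * r)
          by linear_combination -hr]
        exact M.neg_mem (M.mul_mem_right _ (M.mul_mem_right _ (M.mul_mem_right _ hMp)))
      have hT : T 1 = (⟨_, IsCharacter.isIntegral hχ v⟩ : AlgInt) * (e : AlgInt) := Subtype.ext (by
        push_cast [T]
        simp [hone, he])
      rw [hT] at hT1
      rcases hM.mem_or_mem hT1 with h1 | h1
      · refine hnotM d hpd ?_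
        have := M.sub_mem h1 hχv
        rwa [sub_sub_cancel] at this
      · exact hnotM e (fun h => hHp (h.trans hedvd)) h1
    -- Galois averaging
    have hav : ∀ η : IrrCharacter H,
        (Fintype.card (cycField n ≃ₐ[ℚ] cycField n) : ℝ) ≤ ∑ σ : cycField n ≃ₐ[ℚ] cycField n, ‖((σ (c η) : cycField n) : ℂ)‖ ^ 2 := by
      intro η
      have hfix : ∀ τ' : cycField n ≃ₐ[ℚ] cycField n,
          τ' (∏ σ : cycField n ≃ₐ[ℚ] cycField n, σ (c η)) = ∏ σ : cycField n ≃ₐ[ℚ] cycField n, σ (c η) := by
        intro τ'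
        rw [map_prod]
        exact Fintype.prod_equiv (Equiv.mulLeft τ') _ _ fun σ => rfl
      have hw' : IsIntegral ℤ (c η) :=
        (isIntegral_algHom_iff (IsScalarTower.toAlgHom ℤ (cycField n) ℂ) Subtype.val_injective).1 (hcint η)
      have hint' : IsIntegral ℤ ((∏ σ : cycField n ≃ₐ[ℚ] cycField n, σ (c η) : cycField n) : ℂ) :=
        (IsIntegral.prod _ fun σ _ => hw'.map (σ.toAlgHom.restrictScalars ℤ)).map
          (IsScalarTower.toAlgHom ℤ (cycField n) ℂ)
      have hge := one_le_norm_of_fixed hfix hint'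
        (Finset.prod_ne_zero_iff.2 fun σ _ h0 => hne η (σ.injective (by rw [h0, map_zero])))
      refine card_le_sum_of_one_le_prod Finset.univ _ (fun σ _ => by positivity) ?_
      rw [Finset.prod_pow]
      refine one_le_pow₀ (hge.trans_eq ?_)
      rw [SubmonoidClass.coe_finsetProd, norm_prod]
    have hpars : ∀ σ : cycField n ≃ₐ[ℚ] cycField n,
        (Nat.card H : ℝ) * ∑ η, ‖((σ (c η) : cycField n) : ℂ)‖ ^ 2 =
          ∑ h : H, ‖θ h‖ ^ 2 * ‖(χ : X → ℂ) (v ^ τ σ * ((h : X) ^ τ σ))‖ ^ 2 := by
      intro σ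
      set Φ : H → ℂ := fun h => ((σ (θK h * fK h) : cycField n) : ℂ) with hΦ
      have hinj : Function.Injective fun h : H => h ^ τ σ :=
        (powCoprime ((hτc σ).symm.coprime_dvd_left
          ((Subgroup.card_subgroup_dvd_card H).trans (dvd_mul_left _ _)))).injective
      let E : H ≃ H := Equiv.ofBijective _ (Finite.injective_iff_bijective.1 hinj)
      have hηK : ∀ (η : IrrCharacter H) (h : H), ((σ (ηK η h) : cycField n) : ℂ) =
          conj ((η : H → ℂ) (E h)) := by
        intro η h
        rw [hτ σ _ (IsIrrCharacter.isCharacter η.2) h⁻¹ (ηK η h) (hpowH _) rfl, inv_pow,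
          IsIrrCharacter.inv η.2]
        rfl
      have hΦc : IsClassFunction H Φ := fun a b => by
        simp only [hΦ]
        congr 2
        exact Subtype.ext (by push_cast [θK, fK]; rw [hI.1 a b]; exact congrArg (θ a * ·) (hf a b))
      have hcΦ : ∀ η, ((σ (c η) : cycField n) : ℂ) = classInner (fun h => Φ (E.symm h)) (η : H → ℂ) := by
        intro η
        simp only [c, map_mul, map_inv₀, map_natCast, map_sum, classInner]
        push_cast [AddSubmonoidClass.coe_finsetSum]
        congr 1
        refine Fintype.sum_equiv E _ _ fun h => ?_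
        simp only [E.symm_apply_apply, hΦ, map_mul, MulMemClass.coe_mul, hηK]
      have hΨ : IsClassFunction H (fun h => Φ (E.symm h)) := fun a b => by
        have : E.symm (b * a * b⁻¹) = b * E.symm a * b⁻¹ := E.injective (by
          rw [Equiv.apply_symm_apply]
          show b * a * b⁻¹ = (b * E.symm a * b⁻¹) ^ τ σ
          rw [conj_pow]
          show b * a * b⁻¹ = b * E (E.symm a) * b⁻¹
          rw [Equiv.apply_symm_apply])
        simp only [this]
        exact hΦc _ _
      have hnormΨ : classInner (fun h => Φ (E.symm h)) (fun h => Φ (E.symm h)) =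
          ((∑ η, ‖((σ (c η) : cycField n) : ℂ)‖ ^ 2 : ℝ) : ℂ) := by
        conv_lhs => arg 2; rw [eq_sum_classInner hΨ]
        rw [classInner_sum_right, Complex.ofReal_sum]
        refine Finset.sum_congr rfl fun η _ => ?_
        rw [classInner_smul_right, ← hcΦ, Complex.ofReal_pow, ← Complex.mul_conj', mul_comm]
      have hsq : ∀ h, ‖Φ h‖ ^ 2 = ‖θ h‖ ^ 2 * ‖(χ : X → ℂ) (v ^ τ σ * ((h : X) ^ τ σ))‖ ^ 2 := by
        intro h
        obtain ⟨a, b, hb, hab⟩ := hrat h
        simp only [hΦ, map_mul, MulMemClass.coe_mul, norm_mul, mul_pow,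
          norm_galois n σ (θK h) hb hab]
        congr 3
        rw [hτ σ _ hχ (v * h) (fK h) (hpown _) rfl,
          (show Commute v (h : X) from (Subgroup.mem_centralizer_singleton_iff.1 h.2.2).symm).mul_pow]
      rw [classInner, inv_mul_eq_iff_eq_mul₀ (Nat.cast_ne_zero.2 Nat.card_pos.ne'),
        E.symm.sum_comp (fun h => Φ h * conj (Φ h))] at hnormΨ
      simp only [Complex.mul_conj'] at hnormΨ
      rw [← Finset.sum_congr rfl fun h _ => hsq h]
      exact_mod_cast hnormΨ.symm
    rw [← Finset.sum_congr rfl fun σ _ => hpars σ, ← Finset.mul_sum, Finset.sum_comm, mul_comm _ (Nat.card H : ℝ)]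
    refine mul_le_mul_of_nonneg_left ?_ (Nat.cast_nonneg _)
    calc (Fintype.card (cycField n ≃ₐ[ℚ] cycField n) : ℝ) * (Fintype.card (IrrCharacter H) : ℝ)
        = ∑ _η : IrrCharacter H, (Fintype.card (cycField n ≃ₐ[ℚ] cycField n) : ℝ) := by
          rw [Finset.sum_const, Finset.card_univ, nsmul_eq_mul, mul_comm]
      _ ≤ _ := Finset.sum_le_sum fun η _ => hav η
  -- the classes of `H`
  have hburn : ∑ h : H, (Nat.card (Subgroup.centralizer ({h} : Set H)) : ℝ) =
      (Fintype.card (IrrCharacter H) : ℝ) * Nat.card H := by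
    have h1 : ∑ h : H, Nat.card (Subgroup.centralizer ({h} : Set H)) = Nat.card (ConjClasses H) * Nat.card H := by
      rw [← card_comm_eq_card_conjClasses_mul_card H,
        Nat.card_congr (Equiv.subtypeProdEquivSigmaSubtype fun a b : H => Commute a b), Nat.card_sigma]
      refine Finset.sum_congr rfl fun h _ => Nat.card_congr (Equiv.subtypeEquivRight fun b => ?_)
      rw [Subgroup.mem_centralizer_singleton_iff]
      exact ⟨fun e => e.symm, fun e => e.symm⟩
    rw [← card_irrCharacter, Nat.card_eq_fintype_card (α := IrrCharacter H)] at h1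
    exact_mod_cast h1
  have hH0 : (0 : ℝ) < Fintype.card (IrrCharacter H) := by
    exact_mod_cast Fintype.card_pos_iff.2 ⟨trivIrr H⟩
  have htot : (Fintype.card (IrrCharacter X) : ℝ) *
      ((Fintype.card (cycField n ≃ₐ[ℚ] cycField n) : ℝ) * (Fintype.card (IrrCharacter H) : ℝ) * (Nat.card H : ℝ)) ≤
      (Nat.card V : ℝ) *
      ((Fintype.card (cycField n ≃ₐ[ℚ] cycField n) : ℝ) * (Fintype.card (IrrCharacter H) : ℝ) * (Nat.card H : ℝ)) := by
    calc _ = ∑ _χ : IrrCharacter X, (Fintype.card (cycField n ≃ₐ[ℚ] cycField n) : ℝ) *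
          (Fintype.card (IrrCharacter H) : ℝ) * (Nat.card H : ℝ) := by simp
      _ ≤ ∑ χ : IrrCharacter X, ∑ σ, ∑ h : H,
          ‖θ h‖ ^ 2 * ‖(χ : X → ℂ) (v ^ τ σ * ((h : X) ^ τ σ))‖ ^ 2 := Finset.sum_le_sum fun χ _ => hrow χ
      _ = ∑ σ, ∑ h : H, ‖θ h‖ ^ 2 *
          ∑ χ : IrrCharacter X, ‖(χ : X → ℂ) (v ^ τ σ * (((h ^ τ σ : H) : H) : X))‖ ^ 2 := by
        rw [Finset.sum_comm]
        refine Finset.sum_congr rfl fun σ _ => ?_
        rw [Finset.sum_comm]
        simp only [Finset.mul_sum, Subgroup.coe_pow]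
      _ ≤ ∑ _σ : cycField n ≃ₐ[ℚ] cycField n, ∑ h : H,
          (Nat.card V : ℝ) * (Nat.card (Subgroup.centralizer ({h} : Set H)) : ℝ) := by
        refine Finset.sum_le_sum fun σ _ => Finset.sum_le_sum fun h _ => ?_
        have hcop : (τ σ).Coprime (orderOf h) := (hτc σ).coprime_dvd_right (orderOf_dvd_of_pow_eq_one (hpowH h))
        obtain ⟨m, hm⟩ := exists_pow_eq_self_of_coprime hcop
        have e1 : Subgroup.centralizer ({h ^ τ σ} : Set H) = Subgroup.centralizer ({h} : Set H) := by
          ext c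
          simp only [Subgroup.mem_centralizer_singleton_iff]
          exact ⟨fun e => by rw [← hm]; exact (show Commute c (h ^ τ σ) from e).pow_right m,
            fun e => (show Commute c h from e).pow_right _⟩
        have e2 : CV (h ^ τ σ) = CV h := by
          simp only [hCV, Subgroup.coe_pow]
          congr 1
          ext c
          simp only [Subgroup.mem_centralizer_singleton_iff]
          have hm' : ((h : X) ^ τ σ) ^ m = h := by
            have := congrArg Subtype.val hm
            simpa using this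
          exact ⟨fun e => by rw [← hm']; exact (show Commute c ((h : X) ^ τ σ) from e).pow_right m,
            fun e => (show Commute c (h : X) from e).pow_right _⟩
        have := hcol _ (hτc σ) (h ^ τ σ)
        rw [e1, e2] at this
        refine (mul_le_mul_of_nonneg_left this (by positivity)).trans ?_
        rw [← mul_assoc]
        exact mul_le_mul_of_nonneg_right (hVbound h) (Nat.cast_nonneg _)
      _ = _ := by
        simp only [← Finset.mul_sum, hburn, Finset.sum_const, Finset.card_univ, nsmul_eq_mul]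
        ring
  have hfin := le_of_mul_le_mul_right htot (mul_pos (mul_pos (by exact_mod_cast Fintype.card_pos) hH0)
    (by exact_mod_cast Nat.card_pos))
  rw [← CfsgLib.CharTheory.card_irrCharacter, Nat.card_eq_fintype_card]
  exact_mod_cast hfin

end Cfsg.Agent.S4959
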