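import Cfsg.Statements.S4964
import Cfsg.Agent.Lib.Blocks.Defect
import Cfsg.Agent.Lib.Blocks.Orth
import Cfsg.Agent.Lib.Correspondences.BlockOrth
import Cfsg.Agent.Lib.CoprimeAction.Basic
import Cfsg.Agent.Lib.PGroups.Frattini
import Cfsg.Agent.Lib.Clifford.Basic

set_option autoImplicit false
set_option linter.style.haveILetI false
set_option linter.unusedSectionVars false
open Cfsg CfsgLib.CharTheory CfsgLib.Blocks

namespace Cfsg.Agent.S4964

open MonoidAlgebra in
/-- A block is determined by the central character on the classes in the support of its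
idempotent. -/
theorem sameBlock_of_support {G : Type*} [Group G] [Finite G] {M : Ideal AlgInt} [M.IsPrime]
    (χ ψ : IrrCharacter G)
    (h : ∀ g : G, ¬ MemLocalIdeal M (blockCoeff (blockOf M (χ : G → ℂ)) g) →
      MemLocalIdeal M (centralChar (χ : G → ℂ) g - centralChar (ψ : G → ℂ) g)) :
    SameBlock M (χ : G → ℂ) (ψ : G → ℂ) := by
  classical
  haveI := Fintype.ofFinite (ConjClasses G)
  set B := blockOf M (χ : G → ℂ)
  have hB : IsPBlock M B := isPBlock_blockOf χ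
  set e := idemRes M B (memLocalRing_blockCoeff hB)
  have he : omegaRes M χ e = omegaRes M ψ e := by
    show omegaResAux M χ e = omegaResAux M ψ e
    rw [omegaResAux_eq, omegaResAux_eq]
    refine Finset.sum_congr rfl fun c _ => ?_
    by_cases hc : MemLocalIdeal M (blockCoeff B c.out)
    · rw [(coeff_idemRes_eq_zero_iff (memLocalRing_blockCoeff hB) c.out).2 hc, zero_mul, zero_mul]
    · congr 1
      rw [← sub_eq_zero, ← map_sub, red_eq_zero_iff]
      rw [AddSubgroupClass.coe_sub, coe_omegaLoc_classSumA, coe_omegaLoc_classSumA]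
      exact h c.out hc
  by_contra hne
  have hψ : ψ ∉ B := hne
  rw [omegaRes_idemRes_of_mem _ (mem_blockOf_self χ), omegaRes_idemRes_of_notMem _ hψ] at he
  exact one_ne_zero he

variable {G : Type*} [Group G] [Finite G] (p : ℕ) [Fact p.Prime]

/-- A `p`-regular element centralizing a `p`-group is the only such element in its coset. -/
theorem eq_of_pRegular {g g' : G} (hg : ¬ p ∣ orderOf g) (hg' : ¬ p ∣ orderOf g')
    (hc : Commute g g') {k : ℕ} (hd : (g⁻¹ * g') ^ p ^ k = 1) : g = g' := by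
  have hp : p.Prime := Fact.out
  have hc' : Commute g⁻¹ g' := hc.inv_left
  have hdvd : orderOf (g⁻¹ * g') ∣ orderOf g * orderOf g' := by
    rw [← orderOf_inv g]
    exact hc'.orderOf_mul_dvd_mul_orderOf
  have h1 : orderOf (g⁻¹ * g') = 1 := by
    refine Nat.eq_one_of_dvd_coprimes ?_ (orderOf_dvd_of_pow_eq_one hd) hdvd
    exact Nat.Coprime.pow_left k ((hp.coprime_iff_not_dvd).2 fun h =>
      (hp.dvd_mul.1 h).elim hg hg')
  exact inv_mul_eq_one.1 (orderOf_eq_one_iff.1 h1)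

/-- Every `p`-regular element of a quotient lifts to a `p`-regular element. -/
theorem exists_pRegular_lift {N : Subgroup G} [N.Normal] {x : G ⧸ N} (hx : ¬ p ∣ orderOf x) :
    ∃ g : G, (g : G ⧸ N) = x ∧ ¬ p ∣ orderOf g := by
  obtain ⟨u, rfl⟩ := QuotientGroup.mk_surjective x
  have hp : p.Prime := Fact.out
  obtain ⟨a, m, hm, hu⟩ := Nat.exists_eq_pow_mul_and_not_dvd (orderOf_pos u).ne' p hp.ne_one
  have hxm : orderOf (u : G ⧸ N) ∣ m := by
    refine Nat.Coprime.dvd_of_dvd_mul_left ?_ (hu ▸ orderOf_map_dvd (QuotientGroup.mk' N) u)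
    exact (Nat.Coprime.pow_left a ((hp.coprime_iff_not_dvd).2 hx)).symm
  obtain ⟨j, hj⟩ : ∃ j : ℕ, p ^ a * j ≡ 1 [MOD m] := by
    haveI : NeZero m := ⟨fun h => hm (h ▸ dvd_zero p)⟩
    have hcop : (p ^ a).Coprime m := Nat.Coprime.pow_left a ((hp.coprime_iff_not_dvd).2 hm)
    refine ⟨((ZMod.unitOfCoprime _ hcop)⁻¹ : (ZMod m)ˣ).val.val, ?_⟩
    rw [← ZMod.natCast_eq_natCast_iff, Nat.cast_mul, ZMod.natCast_zmod_val,
      ← ZMod.coe_unitOfCoprime _ hcop, Nat.cast_one, Units.mul_inv]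
  refine ⟨u ^ (p ^ a * j), ?_, ?_⟩
  · rw [QuotientGroup.mk_pow]
    conv_rhs => rw [← pow_one (u : G ⧸ N)]
    exact pow_eq_pow_iff_modEq.2 (hj.of_dvd hxm)
  · intro h
    refine hm (h.trans (orderOf_dvd_of_pow_eq_one ?_))
    rw [← pow_mul, mul_right_comm, ← hu, pow_mul, pow_orderOf_eq_one, one_pow]

/-- A `p`-regular element trivial on `D/D'` centralizes the `p`-group `D`. -/
theorem mem_centralizer_of_pRegular (D : Subgroup G) [D.Normal] (hD : IsPGroup p D) {g : G}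
    (hg : ¬ p ∣ orderOf g)
    (h : (g : G ⧸ ⁅D, D⁆) ∈ Subgroup.centralizer
      ((D.map (QuotientGroup.mk' ⁅D, D⁆) : Subgroup (G ⧸ ⁅D, D⁆)) : Set (G ⧸ ⁅D, D⁆))) :
    g ∈ Subgroup.centralizer (D : Set G) := by
  refine CfsgLib.CoprimeAction.le_centralizer_of_frattini (A := Subgroup.zpowers g) (K := D)
    (fun a _ => ?_) ?_ ?_ (Subgroup.mem_zpowers g)
  · rw [Subgroup.normalizer_eq_top]
    exact Subgroup.mem_top a
  · obtain ⟨k, hk⟩ := (hD.to_subgroup (frattini D)).exists_card_eq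
    rw [Nat.card_zpowers, hk]
    exact Nat.Coprime.pow_right k (((Fact.out : p.Prime).coprime_iff_not_dvd).2 hg).symm
  · intro a ha k hk
    have hle : ⁅D, D⁆ ≤ (frattini D).map D.subtype := by
      rw [← Subgroup.map_subtype_commutator]
      exact Subgroup.map_mono (CfsgLib.PGroups.commutator_le_frattini hD)
    refine hle ((QuotientGroup.eq_one_iff _).1 ?_)
    obtain ⟨i, rfl⟩ := Subgroup.mem_zpowers_iff.1 ha
    have hc := Subgroup.mem_centralizer_iff.1 (zpow_mem h i) (k : G ⧸ ⁅D, D⁆) ⟨k, hk, rfl⟩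
    simp only [QuotientGroup.mk_mul, QuotientGroup.mk_inv, QuotientGroup.mk_zpow]
    rw [← hc, mul_inv_cancel_right, inv_mul_cancel]

/-- Let D be a normal p-subgroup of the finite group G, let D′ be its commutator subgroup (normal in G), and fix a maximal ideal M of the algebraic integers containing p. Then (i) two irreducible characters of G ⧸ D′ lie in the same p-block if and only if their inflations to G do, and (ii) every p-block of G contains the inflation of some irreducible character of G ⧸ D′; so inflation induces a bijection between the p-blocks of G ⧸ D′ and the p-blocks of G. -/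
theorem result {G : Type*} [Group G] [Finite G] (p : ℕ) [Fact p.Prime] (M : Ideal Cfsg.AlgInt) (hM : Cfsg.IsPModular p M) (D : Subgroup G) [D.Normal] (hD : IsPGroup p D) : (∀ χ ψ : Cfsg.IrrCharacter (G ⧸ ⁅D, D⁆), Cfsg.SameBlock M (χ : G ⧸ ⁅D, D⁆ → ℂ) (ψ : G ⧸ ⁅D, D⁆ → ℂ) ↔ Cfsg.SameBlock M ((χ : G ⧸ ⁅D, D⁆ → ℂ) ∘ QuotientGroup.mk) ((ψ : G ⧸ ⁅D, D⁆ → ℂ) ∘ QuotientGroup.mk)) ∧ ∀ B : Set (Cfsg.IrrCharacter G), Cfsg.IsPBlock M B → ∃ χ : Cfsg.IrrCharacter (G ⧸ ⁅D, D⁆), ∃ θ ∈ B, (θ : G → ℂ) = (χ : G ⧸ ⁅D, D⁆ → ℂ) ∘ QuotientGroup.mk := by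
  classical
  haveI := CfsgLib.Blocks.isPrime_of_isPModular hM
  haveI := Fintype.ofFinite G
  haveI := Fintype.ofFinite (G ⧸ ⁅D, D⁆)
  have hinfl : ∀ χ : Cfsg.IrrCharacter (G ⧸ ⁅D, D⁆),
      IsIrrCharacter G ((χ : G ⧸ ⁅D, D⁆ → ℂ) ∘ QuotientGroup.mk) := fun χ =>
    isIrrCharacter_comp χ.2 (f := QuotientGroup.mk' ⁅D, D⁆) (QuotientGroup.mk'_surjective _)
  have hD' : IsPGroup p ↥(D.map (QuotientGroup.mk' ⁅D, D⁆)) := hD.map _
  refine ⟨fun χ ψ => ⟨fun h g => ?_, fun h => ?_⟩, fun B hB => ?_⟩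
  · -- inflation
    have hkey : ∀ χ : Cfsg.IrrCharacter (G ⧸ ⁅D, D⁆),
        centralChar ((χ : G ⧸ ⁅D, D⁆ → ℂ) ∘ QuotientGroup.mk) g =
          ((Subgroup.centralizer ({g} : Set G)).index : ℂ) /
            ((Subgroup.centralizer ({(g : G ⧸ ⁅D, D⁆)} : Set (G ⧸ ⁅D, D⁆))).index : ℂ) *
            centralChar (χ : G ⧸ ⁅D, D⁆ → ℂ) (g : G ⧸ ⁅D, D⁆) := by
      intro χ
      have : ((Subgroup.centralizer ({(g : G ⧸ ⁅D, D⁆)} : Set (G ⧸ ⁅D, D⁆))).index : ℂ) ≠ 0 :=
        Nat.cast_ne_zero.2 Subgroup.index_ne_zero_of_finite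
      simp only [centralChar_apply, Function.comp_apply, QuotientGroup.mk_one]
      field_simp
    obtain ⟨k, hk⟩ : (Subgroup.centralizer ({(g : G ⧸ ⁅D, D⁆)} : Set (G ⧸ ⁅D, D⁆))).index ∣
        (Subgroup.centralizer ({g} : Set G)).index := by
      refine dvd_trans (Subgroup.index_dvd_of_le ?_) (Subgroup.index_map_dvd _
        (QuotientGroup.mk'_surjective ⁅D, D⁆))
      rintro _ ⟨c, hc, rfl⟩
      rw [Subgroup.mem_centralizer_singleton_iff]
      exact congrArg (QuotientGroup.mk' ⁅D, D⁆) (Subgroup.mem_centralizer_singleton_iff.1 hc)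
    have h0 : ((Subgroup.centralizer ({(g : G ⧸ ⁅D, D⁆)} : Set (G ⧸ ⁅D, D⁆))).index : ℂ) ≠ 0 :=
      Nat.cast_ne_zero.2 Subgroup.index_ne_zero_of_finite
    rw [hkey, hkey, hk, Nat.cast_mul, mul_div_cancel_left₀ _ h0, ← mul_sub]
    exact memLocalIdeal_mul_left (memLocalRing_natCast k) (h _)
  · refine sameBlock_of_support χ ψ fun x hx => ?_
    by_cases hreg : p ∣ orderOf x
    · refine absurd ?_ hx
      rw [blockCoeff_eq_zero_of_dvd_orderOf hM (isPBlock_blockOf χ) hreg]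
      exact memLocalIdeal_zero
    by_cases hcen : x ∈ Subgroup.centralizer
        ((D.map (QuotientGroup.mk' ⁅D, D⁆) : Subgroup (G ⧸ ⁅D, D⁆)) : Set (G ⧸ ⁅D, D⁆))
    · obtain ⟨g, rfl, hg⟩ := exists_pRegular_lift p hreg
      have hgD := mem_centralizer_of_pRegular p D hD hg hcen
      have hidx : (Subgroup.centralizer ({g} : Set G)).index =
          (Subgroup.centralizer ({(g : G ⧸ ⁅D, D⁆)} : Set (G ⧸ ⁅D, D⁆))).index := by
        rw [← card_filter_isConj, ← card_filter_isConj]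
        refine Finset.card_bij (fun a _ => (a : G ⧸ ⁅D, D⁆)) (fun a ha => ?_) (fun a ha b hb hab => ?_)
          (fun b hb => ?_)
        · rw [Finset.mem_filter] at ha ⊢
          exact ⟨Finset.mem_univ _, MonoidHom.map_isConj (QuotientGroup.mk' ⁅D, D⁆) ha.2⟩
        · obtain ⟨c, rfl⟩ := isConj_iff.1 (Finset.mem_filter.1 ha).2
          obtain ⟨d, rfl⟩ := isConj_iff.1 (Finset.mem_filter.1 hb).2
          have hord : ∀ c : G, ¬ p ∣ orderOf (c * g * c⁻¹) := fun c => by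
            rw [← MulAut.conj_apply, MulEquiv.orderOf_eq]
            exact hg
          have hmem : (c * g * c⁻¹)⁻¹ * (d * g * d⁻¹) ∈ ⁅D, D⁆ := QuotientGroup.eq.1 hab
          have hmemD : (c * g * c⁻¹)⁻¹ * (d * g * d⁻¹) ∈ D := Subgroup.commutator_le_left D D hmem
          obtain ⟨k, hk⟩ := hD ⟨_, hmemD⟩
          refine eq_of_pRegular p (hord c) (hord d) ?_ (k := k) (congrArg Subtype.val hk)
          have hcD : c * g * c⁻¹ ∈ Subgroup.centralizer (D : Set G) :=
            Subgroup.Normal.conj_mem inferInstance g hgD c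
          have h1 : Commute (c * g * c⁻¹) ((c * g * c⁻¹)⁻¹ * (d * g * d⁻¹)) :=
            (Subgroup.mem_centralizer_iff.1 hcD _ hmemD).symm
          have h2 := (Commute.refl (c * g * c⁻¹)).mul_right h1
          rwa [mul_inv_cancel_left] at h2
        · obtain ⟨c, rfl⟩ := isConj_iff.1 (Finset.mem_filter.1 hb).2
          obtain ⟨c, rfl⟩ := QuotientGroup.mk_surjective c
          exact ⟨c * g * c⁻¹, Finset.mem_filter.2 ⟨Finset.mem_univ _, isConj_iff.2 ⟨c, rfl⟩⟩, rfl⟩
      have := h g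
      simp only [centralChar_apply, Function.comp_apply, QuotientGroup.mk_one, hidx] at this ⊢
      exact this
    · have hzero : ∀ η : Cfsg.IrrCharacter (G ⧸ ⁅D, D⁆),
          MemLocalIdeal M (centralChar (η : G ⧸ ⁅D, D⁆ → ℂ) x) := fun η => by
        by_contra hne
        refine hcen (Subgroup.centralizer_le ?_ (mem_centralizer_pCore hM hne))
        have hle : D.map (QuotientGroup.mk' ⁅D, D⁆) ≤ pCore p (G ⧸ ⁅D, D⁆) :=
          le_sSup (s := {N : Subgroup (G ⧸ ⁅D, D⁆) | N.Normal ∧ IsPGroup p ↥N})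
            ⟨(inferInstance : D.Normal).map _ (QuotientGroup.mk'_surjective _), hD'⟩
        exact hle
      exact memLocalIdeal_sub (hzero χ) (hzero ψ)
  · haveI : Fintype (Cfsg.IrrCharacter G) := Fintype.ofFinite _
    haveI := Fintype.ofFinite ↥⁅D, D⁆
    obtain ⟨θ, hθB, hθ⟩ : ∃ θ ∈ B, classInner (fun d : ↥⁅D, D⁆ => (θ : G → ℂ) d) (fun _ => 1) ≠ 0 := by
      by_contra hcon
      push Not at hcon
      have h1 : ∑ d : ↥⁅D, D⁆, ∑ᶠ θ ∈ B, (θ : G → ℂ) 1 * (θ : G → ℂ) d =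
          ∑ θ ∈ B.toFinite.toFinset, (θ : G → ℂ) 1 * (θ : G → ℂ) 1 := by
        rw [Finset.sum_eq_single (1 : ↥⁅D, D⁆)]
        · rw [OneMemClass.coe_one, finsum_mem_eq_finite_toFinset_sum _ B.toFinite]
        · intro d _ hd
          refine CfsgLib.Correspondences.sum_block_degree_mul_eq_zero hM hB ?_
          obtain ⟨k, hk⟩ := hD ⟨d, Subgroup.commutator_le_left D D d.2⟩
          obtain ⟨j, -, hj⟩ := (Nat.dvd_prime_pow (Fact.out : p.Prime)).1
            (orderOf_dvd_of_pow_eq_one (congrArg Subtype.val hk))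
          rw [hj]
          refine dvd_pow_self p fun h => hd (Subtype.ext (orderOf_eq_one_iff.1 ?_))
          rw [hj, h, pow_zero]
        · simp
      have h2 : ∑ d : ↥⁅D, D⁆, ∑ᶠ θ ∈ B, (θ : G → ℂ) 1 * (θ : G → ℂ) d = 0 := by
        simp only [finsum_mem_eq_finite_toFinset_sum _ B.toFinite]
        rw [Finset.sum_comm]
        refine Finset.sum_eq_zero fun θ hθ => ?_
        have := hcon θ (B.toFinite.mem_toFinset.1 hθ)
        simp only [classInner, map_one, mul_one, mul_eq_zero, inv_eq_zero, Nat.cast_eq_zero,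
          Nat.card_pos.ne', false_or] at this
        rw [← Finset.mul_sum, this, mul_zero]
      rw [h2] at h1
      obtain ⟨θ₀, hθ₀⟩ := isPBlock_nonempty hB
      have hd : ∀ θ : Cfsg.IrrCharacter G, ∃ d : ℕ, 0 < d ∧ (θ : G → ℂ) 1 = d := fun θ =>
        exists_degree_of_isIrr θ.2
      choose d hd0 hd1 using hd
      simp only [hd1] at h1
      norm_cast at h1
      exact (Finset.sum_pos (fun θ _ => Nat.mul_pos (hd0 θ) (hd0 θ))
        ⟨θ₀, B.toFinite.mem_toFinset.2 hθ₀⟩).ne h1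
    have hres := CfsgLib.Clifford.res_eq_of_invariant ⁅D, D⁆ θ.2 isIrrCharacter_one (fun g => rfl) hθ
    obtain ⟨η, hη, he⟩ := exists_descend θ.2 ⁅D, D⁆ fun g hg =>
      (congrFun hres ⟨g, hg⟩).trans (congrFun hres 1).symm
    exact ⟨⟨η, hη⟩, θ, hθB, funext he⟩

end Cfsg.Agent.S4964
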