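import Cfsg.Statements.S4966
import Mathlib

set_option autoImplicit false
open Cfsg

namespace Cfsg.Agent.S4966

open Module

section
variable {F : Type*} [Field F] {G : Type*} [Group G] {V : Type*} [AddCommGroup V] [Module F V]
  [FiniteDimensional F V] (ρ : Representation F G V)

def Inv (C : Submodule F V) : Prop := ∀ g : G, ∀ x ∈ C, ρ g x ∈ C

def NDg (B : LinearMap.BilinForm F V) (C : Submodule F V) : Prop :=
  ∀ x ∈ C, (∀ y ∈ C, B x y = 0) → x = 0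

def InvF (B : LinearMap.BilinForm F V) (C : Submodule F V) : Prop :=
  ∀ g : G, ∀ x ∈ C, ∀ y ∈ C, B (ρ g x) (ρ g y) = B x y

def Split (p : ℕ) (C : Submodule F V) : Prop :=
  ∃ U W : Submodule F V, Disjoint U W ∧ U ⊔ W = C ∧ Inv ρ U ∧ Inv ρ W ∧
    (∃ A : LinearMap.BilinForm F V, (∀ x, A x x = 0) ∧ InvF ρ A U ∧ NDg A U) ∧
    (∃ S : LinearMap.BilinForm F V, (∀ x y, S x y = S y x) ∧ InvF ρ S W ∧ NDg S W) ∧
    (p = 2 → ∀ g : G, ∀ w ∈ W, ρ g w = w)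

variable {ρ}

theorem Inv.sup {C D : Submodule F V} (hC : Inv ρ C) (hD : Inv ρ D) : Inv ρ (C ⊔ D) := by
  intro g x hx
  obtain ⟨a, ha, b, hb, rfl⟩ := Submodule.mem_sup.mp hx
  rw [map_add]
  exact Submodule.add_mem_sup (hC g a ha) (hD g b hb)

theorem rho_inv_cancel (g : G) (x : V) : ρ g (ρ g⁻¹ x) = x := by
  rw [← Module.End.mul_apply, ← map_mul, mul_inv_cancel, map_one, Module.End.one_apply]

theorem exists_proj {C D : Submodule F V} (h : Disjoint C D) :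
    ∃ π : V →ₗ[F] V, (∀ x ∈ C, π x = x) ∧ (∀ x ∈ D, π x = 0) ∧ ∀ x, π x ∈ C := by
  obtain ⟨R, hR⟩ := Submodule.exists_isCompl (C ⊔ D)
  have hc : IsCompl C (D ⊔ R) := h.isCompl_sup_right_of_isCompl_sup_left hR
  exact ⟨C.projection _ hc, fun x hx => Submodule.projection_apply_left hc ⟨x, hx⟩,
    fun x hx => (Submodule.projection_apply_eq_zero_iff hc).mpr (Submodule.mem_sup_left hx),
    fun x => Submodule.projection_apply_mem hc x⟩

theorem exists_form_sum {U₁ U₂ : Submodule F V} (hd : Disjoint U₁ U₂) (h₁ : Inv ρ U₁) (h₂ : Inv ρ U₂)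
    {A₁ A₂ : LinearMap.BilinForm F V} (i₁ : InvF ρ A₁ U₁) (i₂ : InvF ρ A₂ U₂) (n₁ : NDg A₁ U₁)
    (n₂ : NDg A₂ U₂) :
    ∃ π₁ π₂ : V →ₗ[F] V, InvF ρ (A₁.compl₁₂ π₁ π₁ + A₂.compl₁₂ π₂ π₂) (U₁ ⊔ U₂) ∧
      NDg (A₁.compl₁₂ π₁ π₁ + A₂.compl₁₂ π₂ π₂) (U₁ ⊔ U₂) := by
  obtain ⟨π₁, a₁, b₁, -⟩ := exists_proj hd
  obtain ⟨π₂, a₂, b₂, -⟩ := exists_proj hd.symm
  refine ⟨π₁, π₂, ?_, ?_⟩
  · intro g x hx y hy
    obtain ⟨x₁, hx₁, x₂, hx₂, rfl⟩ := Submodule.mem_sup.mp hx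
    obtain ⟨y₁, hy₁, y₂, hy₂, rfl⟩ := Submodule.mem_sup.mp hy
    simp [a₁ _ hx₁, a₁ _ hy₁, a₁ _ (h₁ g _ hx₁), a₁ _ (h₁ g _ hy₁), b₁ _ hx₂, b₁ _ hy₂,
      b₁ _ (h₂ g _ hx₂), b₁ _ (h₂ g _ hy₂), a₂ _ hx₂, a₂ _ hy₂, a₂ _ (h₂ g _ hx₂), a₂ _ (h₂ g _ hy₂),
      b₂ _ hx₁, b₂ _ hy₁, b₂ _ (h₁ g _ hx₁), b₂ _ (h₁ g _ hy₁), i₁ g x₁ hx₁ y₁ hy₁, i₂ g x₂ hx₂ y₂ hy₂]
  · intro x hx h
    obtain ⟨x₁, hx₁, x₂, hx₂, rfl⟩ := Submodule.mem_sup.mp hx
    have e₁ : x₁ = 0 := n₁ x₁ hx₁ (fun y hy => by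
      simpa [a₁ _ hx₁, b₁ _ hx₂, a₁ _ hy, b₂ _ hy] using h y (Submodule.mem_sup_left hy))
    have e₂ : x₂ = 0 := n₂ x₂ hx₂ (fun y hy => by
      simpa [a₂ _ hx₂, b₂ _ hx₁, a₂ _ hy, b₁ _ hy] using h y (Submodule.mem_sup_right hy))
    simp [e₁, e₂]

theorem Split.sup {p : ℕ} {C D : Submodule F V} (hd : Disjoint C D) (hC : Split ρ p C)
    (hD : Split ρ p D) : Split ρ p (C ⊔ D) := by
  obtain ⟨U, W, hUW, rfl, hU, hW, ⟨A, hA, iA, nA⟩, ⟨S, hS, iS, nS⟩, t⟩ := hC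
  obtain ⟨U', W', hUW', rfl, hU', hW', ⟨A', hA', iA', nA'⟩, ⟨S', hS', iS', nS'⟩, t'⟩ := hD
  have dU : Disjoint U U' := hd.mono le_sup_left le_sup_left
  have dW : Disjoint W W' := hd.mono le_sup_right le_sup_right
  obtain ⟨π₁, π₂, iS2, nS2⟩ := exists_form_sum dW hW hW' iS iS' nS nS'
  obtain ⟨σ₁, σ₂, iA2, nA2⟩ := exists_form_sum dU hU hU' iA iA' nA nA'
  refine ⟨U ⊔ U', W ⊔ W', ?_, sup_sup_sup_comm _ _ _ _, hU.sup hU', hW.sup hW',
    ⟨_, fun x => by simp [hA, hA'], iA2, nA2⟩,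
    ⟨_, fun x y => by simp [hS (π₁ x), hS' (π₂ x)], iS2, nS2⟩, ?_⟩
  · rw [Submodule.disjoint_def]
    intro x hx hx'
    obtain ⟨a, ha, b, hb, rfl⟩ := Submodule.mem_sup.mp hx
    obtain ⟨c, hc, d, hd', he⟩ := Submodule.mem_sup.mp hx'
    have e : a - c = d - b := by
      rw [sub_eq_sub_iff_add_eq_add, he.symm, add_comm]
    have h1 : a - c ∈ U ⊔ W := sub_mem (Submodule.mem_sup_left ha) (Submodule.mem_sup_right hc)
    have h2 : a - c ∈ U' ⊔ W' := e ▸ sub_mem (Submodule.mem_sup_right hd') (Submodule.mem_sup_left hb)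
    have h3 : a - c = 0 := Submodule.disjoint_def.mp hd _ h1 h2
    have h4 : d - b = 0 := e ▸ h3
    rw [sub_eq_zero] at h3 h4
    rw [Submodule.disjoint_def] at hUW hUW'
    simp [hUW a ha (h3 ▸ hc), hUW' b hb (h4 ▸ hd')]
  · intro hp g w hw
    obtain ⟨a, ha, b, hb, rfl⟩ := Submodule.mem_sup.mp hw
    rw [map_add, t hp g a ha, t' hp g b hb]

theorem split_bot (p : ℕ) : Split ρ p (⊥ : Submodule F V) := by
  refine ⟨⊥, ⊥, disjoint_bot_left, sup_idem _, ?_, ?_, ⟨0, ?_, ?_, ?_⟩, ⟨0, ?_, ?_, ?_⟩, ?_⟩ <;>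
    simp [Inv, InvF, NDg]

theorem split_irr {p : ℕ} [Fact p.Prime] [CharP F p] {Z : Submodule F V}
    {B : LinearMap.BilinForm F V} (hB : ∀ g : G, ∀ x y, B (ρ g x) (ρ g y) = B x y)
    (hZ : Inv ρ Z) (hmin : ∀ Q : Submodule F V, Q ≤ Z → Inv ρ Q → Q = ⊥ ∨ Q = Z) (hn : NDg B Z) :
    Split ρ p Z := by
  classical
  obtain ⟨π, hπ, -, -⟩ := exists_proj (disjoint_bot_right : Disjoint Z ⊥)
  let A₀ := B - B.flip
  have hA₀ : ∀ g : G, ∀ x y, A₀ (ρ g x) (ρ g y) = A₀ x y := fun g x y => by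
    simp [A₀, hB]
  by_cases halt : ∀ x ∈ Z, B x x = 0
  · obtain ⟨π', h1, -, h3⟩ := exists_proj (disjoint_bot_right : Disjoint Z ⊥)
    refine ⟨Z, ⊥, disjoint_bot_right, sup_bot_eq _, hZ, by simp [Inv],
      ⟨B.compl₁₂ π' π', fun x => halt _ (h3 x), ?_, ?_⟩,
      ⟨0, by simp, by simp [InvF], by simp [NDg]⟩, by simp⟩
    · intro g x hx y hy
      simp [h1 _ hx, h1 _ hy, h1 _ (hZ g _ hx), h1 _ (hZ g _ hy), hB]
    · intro x hx h
      exact hn x hx (fun y hy => by simpa [h1 _ hx, h1 _ hy] using h y hy)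
  let K : Submodule F V :=
    { carrier := {x | x ∈ Z ∧ ∀ y ∈ Z, A₀ x y = 0}
      add_mem' := fun {a b} ha hb => ⟨add_mem ha.1 hb.1, fun y hy => by simp [ha.2 y hy, hb.2 y hy]⟩
      zero_mem' := ⟨zero_mem _, fun y _ => by simp⟩
      smul_mem' := fun c a ha => ⟨Z.smul_mem c ha.1, fun y hy => by simp [ha.2 y hy]⟩ }
  have hK : Inv ρ K := fun g x hx => ⟨hZ g x hx.1, fun y hy => by
    rw [← rho_inv_cancel (ρ := ρ) g y, hA₀]
    exact hx.2 _ (hZ _ _ hy)⟩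
  rcases hmin K (fun x hx => hx.1) hK with hKb | hKt
  · refine ⟨Z, ⊥, disjoint_bot_right, sup_bot_eq _, hZ, by simp [Inv],
      ⟨A₀, fun x => by simp [A₀], fun g x _ y _ => hA₀ g x y, fun x hx h => ?_⟩,
      ⟨0, by simp, by simp [InvF], by simp [NDg]⟩, by simp⟩
    have : x ∈ K := ⟨hx, h⟩
    simpa [hKb] using this
  · have hsym : ∀ x ∈ Z, ∀ y ∈ Z, B x y = B y x := by
      intro x hx y hy
      have h : x ∈ K := hKt ▸ hx
      simpa [A₀, sub_eq_zero] using h.2 y hy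
    obtain ⟨π', h1, -, h3⟩ := exists_proj (disjoint_bot_right : Disjoint Z ⊥)
    refine ⟨⊥, Z, disjoint_bot_left, bot_sup_eq _, by simp [Inv], hZ,
      ⟨0, by simp, by simp [InvF], by simp [NDg]⟩,
      ⟨B.compl₁₂ π' π', fun x y => hsym _ (h3 x) _ (h3 y), ?_, ?_⟩, ?_⟩
    · intro g x hx y hy
      simp [h1 _ hx, h1 _ hy, h1 _ (hZ g _ hx), h1 _ (hZ g _ hy), hB]
    · intro x hx h
      exact hn x hx (fun y hy => by simpa [h1 _ hx, h1 _ hy] using h y hy)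
    · intro hp g w hw
      have h2 : (2 : F) = 0 := by
        subst hp
        exact_mod_cast CharP.cast_eq_zero F 2
      have hadd : ∀ a ∈ Z, ∀ b ∈ Z, B (a + b) (a + b) = B a a + B b b := by
        intro a ha b hb
        simp only [map_add, LinearMap.add_apply, hsym b hb a ha]
        linear_combination (B a b) * h2
      let Q : Submodule F V :=
        { carrier := {x | x ∈ Z ∧ B x x = 0}
          add_mem' := fun {a b} ha hb => ⟨add_mem ha.1 hb.1, by rw [hadd a ha.1 b hb.1, ha.2, hb.2, add_zero]⟩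
          zero_mem' := ⟨zero_mem _, by simp⟩
          smul_mem' := fun c a ha => ⟨Z.smul_mem c ha.1, by simp [ha.2]⟩ }
      have hQ : Inv ρ Q := fun g x hx => ⟨hZ g x hx.1, by rw [hB]; exact hx.2⟩
      rcases hmin Q (fun x hx => hx.1) hQ with hQb | hQt
      · have hmem : ρ g w + w ∈ Q := ⟨add_mem (hZ g w hw) hw, by
          rw [hadd _ (hZ g w hw) _ hw, hB, ← two_mul, h2, zero_mul]⟩
        rw [hQb, Submodule.mem_bot, add_eq_zero_iff_eq_neg] at hmem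
        rw [hmem]
        have : (2 : F) • w = 0 := by rw [h2, zero_smul]
        rw [two_smul, add_eq_zero_iff_eq_neg] at this
        exact this.symm
      · exact absurd (fun x hx => (show x ∈ Q from hQt ▸ hx).2) halt

theorem split_pair {p : ℕ} {Z N : Submodule F V} {B : LinearMap.BilinForm F V}
    (hB : ∀ g : G, ∀ x y, B (ρ g x) (ρ g y) = B x y) (hZ : Inv ρ Z) (hN : Inv ρ N)
    (hd : Disjoint Z N) (hl : ∀ n ∈ N, (∀ z ∈ Z, B n z = 0) → n = 0)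
    (hr : ∀ z ∈ Z, (∀ n ∈ N, B n z = 0) → z = 0) : Split ρ p (Z ⊔ N) := by
  obtain ⟨π, a₁, b₁, -⟩ := exists_proj hd
  obtain ⟨σ, a₂, b₂, -⟩ := exists_proj hd.symm
  refine ⟨Z ⊔ N, ⊥, disjoint_bot_right, sup_bot_eq _, hZ.sup hN, by simp [Inv],
    ⟨B.compl₁₂ σ π - (B.compl₁₂ σ π).flip, fun x => by simp, ?_, ?_⟩,
    ⟨0, by simp, by simp [InvF], by simp [NDg]⟩, by simp⟩
  · intro g x hx y hy
    obtain ⟨x₁, hx₁, x₂, hx₂, rfl⟩ := Submodule.mem_sup.mp hx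
    obtain ⟨y₁, hy₁, y₂, hy₂, rfl⟩ := Submodule.mem_sup.mp hy
    simp [a₁ _ hx₁, a₁ _ hy₁, a₁ _ (hZ g _ hx₁), a₁ _ (hZ g _ hy₁), b₁ _ hx₂, b₁ _ hy₂,
      b₁ _ (hN g _ hx₂), b₁ _ (hN g _ hy₂), a₂ _ hx₂, a₂ _ hy₂, a₂ _ (hN g _ hx₂), a₂ _ (hN g _ hy₂),
      b₂ _ hx₁, b₂ _ hy₁, b₂ _ (hZ g _ hx₁), b₂ _ (hZ g _ hy₁), hB]
  · intro x hx h
    obtain ⟨z, hz, n, hn, rfl⟩ := Submodule.mem_sup.mp hx
    have e₁ : n = 0 := hl n hn (fun y hy => by
      simpa [a₁ _ hz, b₁ _ hn, a₁ _ hy, a₂ _ hn, b₂ _ hz, b₂ _ hy] using h y (Submodule.mem_sup_left hy))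
    have e₂ : z = 0 := hr z hz (fun y hy => by
      simpa [a₁ _ hz, b₁ _ hn, b₁ _ hy, a₂ _ hy, a₂ _ hn, b₂ _ hz, e₁] using
        h y (Submodule.mem_sup_right hy))
    simp [e₁, e₂]

theorem exists_inv_compl [Finite G] [NeZero (Nat.card G : F)] {C K : Submodule F V} (hC : Inv ρ C)
    (hK : Inv ρ K) (hle : K ≤ C) : ∃ Y, Inv ρ Y ∧ Y ≤ C ∧ Disjoint K Y ∧ K ⊔ Y = C := by
  have : Representation.IsSemisimpleRepresentation ρ := inferInstance
  obtain ⟨Q, hQ⟩ := exists_isCompl (⟨K, fun g x hx => hK g x hx⟩ : Subrepresentation ρ)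
  refine ⟨C ⊓ Q.toSubmodule, fun g x hx => ⟨hC g x hx.1, Q.apply_mem_toSubmodule g hx.2⟩, inf_le_left, ?_, ?_⟩
  · have h := congrArg Subrepresentation.toSubmodule hQ.inf_eq_bot
    rw [disjoint_iff, eq_bot_iff]
    exact (inf_le_inf le_rfl inf_le_right).trans h.le
  · have h : K ⊔ Q.toSubmodule = ⊤ := congrArg Subrepresentation.toSubmodule hQ.sup_eq_top
    rw [inf_comm, ← sup_inf_assoc_of_le _ hle, h, top_inf_eq]

/-- The annihilator of `N` in `Z`. -/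
def ann (B : LinearMap.BilinForm F V) (Z N : Submodule F V) : Submodule F V :=
  Z ⊓ ⨅ n : N, LinearMap.ker (B (n : V))

theorem mem_ann {B : LinearMap.BilinForm F V} {Z N : Submodule F V} {x : V} :
    x ∈ ann B Z N ↔ x ∈ Z ∧ ∀ n ∈ N, B n x = 0 := by
  simp [ann]

theorem inv_ann {B : LinearMap.BilinForm F V} (hB : ∀ g : G, ∀ x y, B (ρ g x) (ρ g y) = B x y)
    {Z N : Submodule F V} (hZ : Inv ρ Z) (hN : Inv ρ N) : Inv ρ (ann B Z N) := by
  intro g x hx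
  rw [mem_ann] at hx ⊢
  refine ⟨hZ g x hx.1, fun n hn => ?_⟩
  rw [← rho_inv_cancel (ρ := ρ) g n, hB]
  exact hx.2 _ (hN _ _ hn)

theorem exists_repr {B : LinearMap.BilinForm F V} {C : Submodule F V} (hn : NDg B C)
    (ψ : V →ₗ[F] F) : ∃ x ∈ C, ∀ y ∈ C, B x y = ψ y := by
  let f : C →ₗ[F] Module.Dual F C := (B.compl₁₂ C.subtype C.subtype)
  have hf : Function.Injective f := by
    rw [← LinearMap.ker_eq_bot, eq_bot_iff]
    intro x hx
    rw [LinearMap.mem_ker] at hx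
    exact Subtype.ext (hn x x.2 (fun y hy => LinearMap.congr_fun hx ⟨y, hy⟩))
  obtain ⟨x, hx⟩ := (LinearMap.injective_iff_surjective_of_finrank_eq_finrank
    Subspace.dual_finrank_eq.symm).mp hf (ψ.comp C.subtype)
  exact ⟨x, x.2, fun y hy => LinearMap.congr_fun hx ⟨y, hy⟩⟩

theorem eq_zero_right {B : LinearMap.BilinForm F V} {C : Submodule F V} (hn : NDg B C) {y : V}
    (hy : y ∈ C) (h : ∀ x ∈ C, B x y = 0) : y = 0 := by
  by_contra hne
  obtain ⟨φ, hφ⟩ := not_forall.mp (mt (Module.forall_dual_apply_eq_zero_iff F y).mp hne)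
  obtain ⟨x, hx, hx'⟩ := exists_repr hn φ
  exact hφ ((hx' y hy).symm.trans (h x hx))

theorem split_induction [Finite G] [NeZero (Nat.card G : F)] {p : ℕ} [Fact p.Prime] [CharP F p]
    {B : LinearMap.BilinForm F V} (hB : ∀ g : G, ∀ x y, B (ρ g x) (ρ g y) = B x y) :
    ∀ C : Submodule F V, Inv ρ C → NDg B C → Split ρ p C := by
  classical
  intro C
  induction C using WellFoundedLT.induction with
  | ind C IH => ?_
  intro hC hn
  rcases eq_or_ne C ⊥ with rfl | hne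
  · exact split_bot p
  have hBf : ∀ g : G, ∀ x y, B.flip (ρ g x) (ρ g y) = B.flip x y := fun g x y => hB g y x
  -- splitting off a nondegenerate invariant subspace
  have hstep : ∀ U : Submodule F V, Inv ρ U → U ≤ C → U ≠ ⊥ → NDg B U → Split ρ p U →
      Split ρ p C := by
    intro U hU hUC hU0 hnU hs
    have hD : Inv ρ (ann B.flip C U) := inv_ann hBf hC hU
    have hd : Disjoint U (ann B.flip C U) := Submodule.disjoint_def.mpr fun x hx hx' =>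
      hnU x hx (fun y hy => (mem_ann.mp hx').2 y hy)
    have hsup : U ⊔ ann B.flip C U = C := by
      refine le_antisymm (sup_le hUC inf_le_left) fun x hx => ?_
      obtain ⟨u, hu, hu'⟩ := exists_repr hnU (B x)
      rw [← add_sub_cancel u x]
      refine Submodule.add_mem_sup hu (mem_ann.mpr ⟨sub_mem hx (hUC hu), fun y hy => ?_⟩)
      simp [hu' y hy]
    have hnD : NDg B (ann B.flip C U) := by
      intro x hx h
      refine hn x (mem_ann.mp hx).1 (fun y hy => ?_)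
      rw [← hsup] at hy
      obtain ⟨a, ha, b, hb, rfl⟩ := Submodule.mem_sup.mp hy
      rw [map_add, h b hb, add_zero]
      exact (mem_ann.mp hx).2 a ha
    have hlt : ann B.flip C U < C := by
      refine lt_of_le_of_ne inf_le_left fun he => hU0 ?_
      rw [eq_bot_iff]
      intro x hx
      exact Submodule.disjoint_def.mp hd x hx (he.symm ▸ hUC hx)
    rw [← hsup]
    exact hs.sup hd (IH _ hlt hD hnD)
  obtain ⟨Z, ⟨hZ, hZC, hZ0⟩, hZmin⟩ := WellFounded.has_min wellFounded_lt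
    {S : Submodule F V | Inv ρ S ∧ S ≤ C ∧ S ≠ ⊥} ⟨C, hC, le_rfl, hne⟩
  have hmin : ∀ Q : Submodule F V, Q ≤ Z → Inv ρ Q → Q = ⊥ ∨ Q = Z := by
    intro Q hQ hQi
    by_contra! hcon
    exact hZmin Q ⟨hQi, hQ.trans hZC, hcon.1⟩ (lt_of_le_of_ne hQ hcon.2)
  by_cases hiso : ∃ x ∈ Z, ∃ y ∈ Z, B x y ≠ 0
  · have hnZ : NDg B Z := by
      intro x hx h
      rcases hmin (ann B.flip Z Z) inf_le_left (inv_ann hBf hZ hZ) with h1 | h1
      · simpa [h1] using (mem_ann.mpr ⟨hx, fun y hy => h y hy⟩ : x ∈ ann B.flip Z Z)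
      · obtain ⟨a, ha, b, hb, hab⟩ := hiso
        exact absurd ((mem_ann.mp (h1.symm ▸ ha)).2 b hb) hab
    exact hstep Z hZ hZC hZ0 hnZ (split_irr hB hZ hmin hnZ)
  push Not at hiso
  -- `KR`: left annihilator of `Z`; `KL`: right annihilator of `Z`
  let KR := ann B.flip C Z
  let KL := ann B C Z
  have hKR : Inv ρ KR := inv_ann hBf hC hZ
  have hKL : Inv ρ KL := inv_ann hB hC hZ
  obtain ⟨Y, hY, hYC, hYd, hYs⟩ := exists_inv_compl hC hKR inf_le_left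
  obtain ⟨Y', hY', hY'C, hY'd, hY's⟩ := exists_inv_compl hC hKL inf_le_left
  obtain ⟨z₀, hz₀, hz₀0⟩ := Submodule.exists_mem_ne_zero_of_ne_bot hZ0
  have hKR_ne : ¬ C ≤ KR := fun h => hz₀0 <| eq_zero_right hn (hZC hz₀)
    (fun x hx => (mem_ann.mp (h hx)).2 z₀ hz₀)
  have hKL_ne : ¬ C ≤ KL := fun h => hz₀0 <| hn z₀ (hZC hz₀)
    (fun x hx => (mem_ann.mp (h hx)).2 z₀ hz₀)
  obtain ⟨N, hNi, hNC, hNR, hNL⟩ : ∃ N, Inv ρ N ∧ N ≤ C ∧ Disjoint KR N ∧ ¬ N ≤ KL := by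
    by_cases h1 : Y ≤ KL
    swap
    · exact ⟨Y, hY, hYC, hYd, h1⟩
    by_cases h2 : Disjoint KR Y'
    · refine ⟨Y', hY', hY'C, h2, fun h => hKL_ne ?_⟩
      rw [← hY's]
      exact sup_le le_rfl h
    let Y'' : Submodule F V := KR ⊓ Y'
    have hY'' : Inv ρ Y'' := fun g x hx => ⟨hKR g x hx.1, hY' g x hx.2⟩
    let T : Submodule F V :=
      { carrier := {x | x ∈ Y ⊔ Y'' ∧ ∀ z ∈ Z, B x z = B z x}
        add_mem' := fun {a b} ha hb => ⟨add_mem ha.1 hb.1, fun z hz => by simp [ha.2 z hz, hb.2 z hz]⟩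
        zero_mem' := ⟨zero_mem _, fun z _ => by simp⟩
        smul_mem' := fun c a ha => ⟨Submodule.smul_mem _ c ha.1, fun z hz => by simp [ha.2 z hz]⟩ }
    have hTC : T ≤ C := fun x hx => sup_le hYC (inf_le_right.trans hY'C) hx.1
    refine ⟨T, fun g x hx => ⟨hY.sup hY'' g x hx.1, fun z hz => ?_⟩, hTC, ?_, ?_⟩
    · rw [← rho_inv_cancel (ρ := ρ) g z, hB, hB]
      exact hx.2 _ (hZ _ _ hz)
    · rw [Submodule.disjoint_def]
      intro x hx hxT
      obtain ⟨y, hy, y', hy', rfl⟩ := Submodule.mem_sup.mp hxT.1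
      have hyKR : y ∈ KR := by simpa using sub_mem hx hy'.1
      obtain rfl : y = 0 := Submodule.disjoint_def.mp hYd y hyKR hy
      have h4 : y' ∈ KL := mem_ann.mpr ⟨hY'C hy'.2, fun z hz => by
        have h3 := hxT.2 z hz
        have h5 : B y' z = 0 := (mem_ann.mp hy'.1).2 z hz
        simp only [zero_add, h5] at h3
        exact h3.symm⟩
      simp [Submodule.disjoint_def.mp hY'd y' h4 hy'.2]
    · intro hT
      obtain ⟨y', hy', hy'0⟩ := Submodule.exists_mem_ne_zero_of_ne_bot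
        (show Y'' ≠ ⊥ from fun h => h2 (disjoint_iff.mpr h))
      obtain ⟨x, hx, hx'⟩ := exists_repr hn (B.flip y')
      rw [← hYs] at hx
      obtain ⟨k, hk, y, hy, rfl⟩ := Submodule.mem_sup.mp hx
      have hmem : y + y' ∈ T := by
        refine ⟨Submodule.add_mem_sup hy hy', fun z hz => ?_⟩
        have h3 := hx' z (hZC hz)
        have h4 : B k z = 0 := (mem_ann.mp hk).2 z hz
        have h5 : B y' z = 0 := (mem_ann.mp hy'.1).2 z hz
        have h6 : B z y = 0 := (mem_ann.mp (h1 hy)).2 z hz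
        simp only [map_add, LinearMap.add_apply, h4, zero_add, LinearMap.flip_apply] at h3
        simp [h3, h5, h6]
      refine hy'0 (Submodule.disjoint_def.mp hY'd y' ?_ hy'.2)
      simpa using sub_mem (hT hmem) (h1 hy)
  have hl : ∀ n ∈ N, (∀ z ∈ Z, B n z = 0) → n = 0 := fun n hn' h =>
    Submodule.disjoint_def.mp hNR n (mem_ann.mpr ⟨hNC hn', h⟩) hn'
  have hN0 : N ≠ ⊥ := fun h => hNL (h ▸ bot_le)
  have hr : ∀ z ∈ Z, (∀ n ∈ N, B n z = 0) → z = 0 := by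
    intro z hz h
    rcases hmin (ann B Z N) inf_le_left (inv_ann hB hZ hNi) with h1 | h1
    · simpa [h1] using (mem_ann.mpr ⟨hz, h⟩ : z ∈ ann B Z N)
    · obtain ⟨n, hn1, hn2⟩ := Submodule.exists_mem_ne_zero_of_ne_bot hN0
      exact absurd (hl n hn1 fun z' hz' => (mem_ann.mp (h1.symm ▸ hz')).2 n hn1) hn2
  have hr' : ∀ z ∈ Z, (∀ n ∈ N, B z n = 0) → z = 0 := by
    intro z hz h
    rcases hmin (ann B.flip Z N) inf_le_left (inv_ann hBf hZ hNi) with h1 | h1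
    · simpa [h1] using (mem_ann.mpr ⟨hz, h⟩ : z ∈ ann B.flip Z N)
    · exact (hNL fun n hn1 => mem_ann.mpr ⟨hNC hn1, fun z' hz' => (mem_ann.mp (h1.symm ▸ hz')).2 n hn1⟩).elim
  have hd : Disjoint Z N := Submodule.disjoint_def.mpr fun x hx hxN =>
    hl x hxN (fun z hz => hiso x hx z hz)
  refine hstep (Z ⊔ N) (hZ.sup hNi) (sup_le hZC hNC) (fun h => hZ0 (eq_bot_iff.mpr (le_sup_left.trans h.le)))
    ?_ (split_pair hB hZ hNi hd hl hr)
  intro x hx h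
  obtain ⟨z, hz, n, hn1, rfl⟩ := Submodule.mem_sup.mp hx
  obtain rfl : n = 0 := hl n hn1 (fun z' hz' => by
    have := h z' (Submodule.mem_sup_left hz')
    simpa [hiso z hz z' hz'] using this)
  obtain rfl : z = 0 := hr' z hz (fun n' hn' => by simpa using h n' (Submodule.mem_sup_right hn'))
  simp

end

/-- Let F be a finite field of characteristic p, G a finite group of order prime to p, and V a finite-dimensional representation of G over F carrying a nondegenerate G-invariant bilinear form (equivalently, V is self-dual). Then V is the direct sum of two G-invariant subspaces U and W such that U carries a G-invariant alternating bilinear form that is nondegenerate on U and W carries a G-invariant symmetric bilinear form that is nondegenerate on W; moreover when p = 2 the decomposition can be chosen with G acting trivially on W. -/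
theorem result {F : Type*} [Field F] [Fintype F] (p : ℕ) [Fact p.Prime] [CharP F p] {G : Type*} [Group G] [Finite G] (hcop : ¬ p ∣ Nat.card G) {V : Type*} [AddCommGroup V] [Module F V] [FiniteDimensional F V] (ρ : Representation F G V) (B : LinearMap.BilinForm F V) (hB : B.Nondegenerate) (hBinv : ∀ g : G, ∀ x y : V, B (ρ g x) (ρ g y) = B x y) : ∃ U W : Submodule F V, IsCompl U W ∧ (∀ g : G, ∀ u ∈ U, ρ g u ∈ U) ∧ (∀ g : G, ∀ w ∈ W, ρ g w ∈ W) ∧ (∃ A : LinearMap.BilinForm F V, (∀ x : V, A x x = 0) ∧ (∀ g : G, ∀ x ∈ U, ∀ y ∈ U, A (ρ g x) (ρ g y) = A x y) ∧ (∀ x ∈ U, (∀ y ∈ U, A x y = 0) → x = 0)) ∧ (∃ S : LinearMap.BilinForm F V, (∀ x y : V, S x y = S y x) ∧ (∀ g : G, ∀ x ∈ W, ∀ y ∈ W, S (ρ g x) (ρ g y) = S x y) ∧ (∀ x ∈ W, (∀ y ∈ W, S x y = 0) → x = 0)) ∧ (p = 2 → ∀ g : G, ∀ w ∈ W, ρ g w = w) := by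
  classical
  have : NeZero (Nat.card G : F) := ⟨fun h => hcop ((CharP.cast_eq_zero_iff F p _).mp h)⟩
  obtain ⟨U, W, hd, hs, hU, hW, ⟨A, hA, iA, nA⟩, ⟨S, hS, iS, nS⟩, ht⟩ :=
    split_induction (p := p) hBinv ⊤ (fun _ _ _ => Submodule.mem_top)
      (fun x _ h => hB.1 x (fun y => h y Submodule.mem_top))
  exact ⟨U, W, ⟨hd, codisjoint_iff.mpr hs⟩, hU, hW, ⟨A, hA, iA, nA⟩, ⟨S, hS, iS, nS⟩, ht⟩

end Cfsg.Agent.S4966
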