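import Cfsg.Statements.S4967
import Mathlib

set_option autoImplicit false
open Cfsg

namespace Cfsg.Agent.S4967

open Module

theorem abstract_field {F : Type*} [Field F] [Fintype F] (p : ℕ) [Fact p.Prime] [CharP F p]
    {H : Type*} [CommGroup H] [Finite H] (hcop : ¬ p ∣ Nat.card H)
    {L : Type*} [Field L] [Algebra F L] [Finite L] {V : Type*} [AddCommGroup V] [Module F V]
    (ρ : Representation F H V) (ι : H →* L) (hι : Function.Injective ι)
    (hgen : Algebra.adjoin F (Set.range ι) = ⊤) (e : L ≃ₗ[F] V)
    (he : ∀ h a, ρ h (e a) = e (ι h * a)) :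
    (finrank F V = 1 → (∃ B : LinearMap.BilinForm F V, B.Nondegenerate ∧
        ∀ h : H, ∀ x y : V, B (ρ h x) (ρ h y) = B x y) → Nat.card H ≤ 2) ∧
    (2 ≤ finrank F V → ((∃ B : LinearMap.BilinForm F V, B.Nondegenerate ∧
        ∀ h : H, ∀ x y : V, B (ρ h x) (ρ h y) = B x y) ↔
          (Even (finrank F V) ∧ Nat.card H ∣ Fintype.card F ^ (finrank F V / 2) + 1))) := by
  classical
  have hc : IsCyclic H := isCyclic_of_injective_ringHom (R := L) (G := H) ι hι
  rw [← e.finrank_eq]
  let q := Fintype.card F
  let φ : L →ₐ[F] L := FiniteField.frobeniusAlgHom F L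
  have hφ : ∀ (i : ℕ) (x : L), (φ ^ i) x = x ^ q ^ i := by
    intro i x
    simp only [φ, AlgHom.coe_pow, FiniteField.coe_frobeniusAlgHom, pow_iterate, q]
  have hfix : ∀ i : ℕ, (∀ h : H, ι h ^ q ^ i = ι h) → finrank F L ∣ i := by
    intro i hi
    rw [← FiniteField.orderOf_frobeniusAlgHom F L, orderOf_dvd_iff_pow_eq_one]
    exact AlgHom.ext_of_adjoin_eq_top hgen (by
      rintro _ ⟨h, rfl⟩
      rw [hφ, hi, AlgHom.one_apply])
  have hforward : (∃ B : LinearMap.BilinForm F V, B.Nondegenerate ∧
        ∀ h : H, ∀ x y : V, B (ρ h x) (ρ h y) = B x y) →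
      ∃ i < finrank F L, Nat.card H ∣ q ^ i + 1 := by
    rintro ⟨B, hB, hBi⟩
    let C : L →ₗ[F] L →ₗ[F] F := B.compl₁₂ e.toLinearMap e.toLinearMap
    have hC : ∀ h a b, C (ι h * a) b = C a (ι h⁻¹ * b) := by
      intro h a b
      have h1 := hBi h (e a) (e (ι h⁻¹ * b))
      rw [he, he, ← mul_assoc, ← map_mul, mul_inv_cancel, map_one, one_mul] at h1
      exact h1
    have hnd : ∀ b, (∀ a, C a b = 0) → b = 0 := fun b hb => e.injective <| by
      rw [map_zero]
      exact hB.2 _ (fun x => by simpa [C] using hb (e.symm x))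
    have hex : ∀ c : L, ∃ d : L, ∀ a b, C (c * a) b = C a (d * b) := by
      intro c
      have hcmem : c ∈ Algebra.adjoin F (Set.range ι) := hgen ▸ Algebra.mem_top
      induction hcmem using Algebra.adjoin_induction with
      | mem x hx =>
        obtain ⟨h, rfl⟩ := hx
        exact ⟨ι h⁻¹, hC h⟩
      | algebraMap r => exact ⟨algebraMap F L r, fun a b => by simp [← Algebra.smul_def]⟩
      | add x y _ _ hx hy =>
        obtain ⟨dx, hx⟩ := hx
        obtain ⟨dy, hy⟩ := hy
        exact ⟨dx + dy, fun a b => by simp [add_mul, hx, hy]⟩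
      | mul x y _ _ hx hy =>
        obtain ⟨dx, hx⟩ := hx
        obtain ⟨dy, hy⟩ := hy
        exact ⟨dy * dx, fun a b => by rw [mul_assoc, hx, hy, ← mul_assoc]⟩
    choose s hs using hex
    have huniq : ∀ c d, (∀ a b, C (c * a) b = C a (d * b)) → s c = d := by
      intro c d hd
      have h1 : ∀ b, (s c - d) * b = 0 := fun b => hnd _ fun a => by
        rw [sub_mul, map_sub, ← hs, ← hd, sub_self]
      simpa [sub_eq_zero] using h1 1
    let σ : L →ₐ[F] L :=
      { toFun := s
        map_one' := huniq _ _ (fun a b => by simp)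
        map_mul' := fun x y => huniq _ _ (fun a b => by
          rw [mul_comm (s x), mul_assoc x, hs, hs, ← mul_assoc])
        map_zero' := huniq _ _ (fun a b => by simp)
        map_add' := fun x y => huniq _ _ (fun a b => by simp [add_mul, hs])
        commutes' := fun r => huniq _ _ (fun a b => by simp [← Algebra.smul_def]) }
    obtain ⟨⟨i, hi⟩, hi'⟩ := (FiniteField.bijective_frobeniusAlgHom_pow F L).2 σ
    refine ⟨i, hi, ?_⟩
    rw [← hc.exponent_eq_card, Monoid.exponent_dvd_iff_forall_pow_eq_one]
    intro h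
    apply hι
    have h2 : (φ ^ i) (ι h) = ι h⁻¹ := by
      show (FiniteField.frobeniusAlgHom F L ^ i) (ι h) = _
      rw [show FiniteField.frobeniusAlgHom F L ^ i = σ from hi']
      exact huniq _ _ (hC h)
    rw [hφ] at h2
    rw [map_pow, map_one, pow_succ, h2, ← map_mul, inv_mul_cancel, map_one]
  refine ⟨fun h1 hB => ?_, fun h2 => ⟨fun hB => ?_, ?_⟩⟩
  · obtain ⟨i, hi, hd⟩ := hforward hB
    rw [h1] at hi
    obtain rfl : i = 0 := by omega
    exact Nat.le_of_dvd (by norm_num) (by simpa using hd)
  · obtain ⟨i, hi, hd⟩ := hforward hB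
    have hpow : ∀ h : H, ι h ^ q ^ i = ι h⁻¹ := by
      intro h
      have h1 : h ^ (q ^ i + 1) = 1 := orderOf_dvd_iff_pow_eq_one.mp
        ((orderOf_dvd_natCard h).trans hd)
      rw [← map_pow]
      congr 1
      rw [pow_succ] at h1
      exact eq_inv_of_mul_eq_one_left h1
    have hdvd : finrank F L ∣ 2 * i := hfix _ fun h => by
      rw [two_mul, pow_add, pow_mul, hpow, hpow, inv_inv]
    have hi0 : i ≠ 0 := by
      rintro rfl
      have hn1 : finrank F L ∣ 1 := hfix 1 fun h => by
        have h3 : ι h = ι h⁻¹ := by simpa using hpow h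
        have h4 : h * h = 1 := by
          have := hι h3
          nth_rw 2 [this]
          exact mul_inv_cancel h
        rw [pow_one, ← map_pow]
        congr 1
        have hodd : Odd q ∨ h = 1 := by
          by_cases hh : h = 1
          · exact .inr hh
          left
          have h5 : orderOf h = 2 := orderOf_eq_prime (by rwa [sq]) hh
          obtain ⟨n, hp, hq⟩ := FiniteField.card F p
          show Odd (Fintype.card F)
          rw [hq]
          refine (hp.odd_of_ne_two ?_).pow
          rintro rfl
          exact hcop (h5 ▸ orderOf_dvd_natCard h)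
        rcases hodd with ⟨k, hk⟩ | rfl
        · rw [hk, pow_succ, pow_mul, sq, h4, one_pow, one_mul]
        · exact one_pow _
      have := Nat.le_of_dvd one_pos hn1
      omega
    obtain ⟨k, hk⟩ := hdvd
    have hk1 : k = 1 := by
      have hk2 : k < 2 := by
        by_contra hh
        have : finrank F L * 2 ≤ finrank F L * k := Nat.mul_le_mul_left _ (not_lt.mp hh)
        omega
      rcases k with _ | _ | k
      · simp at hk; omega
      · rfl
      · omega
    subst hk1
    rw [mul_one] at hk
    refine ⟨⟨i, by omega⟩, ?_⟩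
    rw [show finrank F L / 2 = i by omega]
    exact hd
  · rintro ⟨⟨m, hm⟩, hd⟩
    rw [show finrank F L / 2 = m by omega] at hd
    let τ := FiniteField.frobeniusAlgHom F L ^ m
    obtain ⟨f, hf⟩ : ∃ f : Module.Dual F L, f 1 ≠ 0 :=
      not_forall.mp (mt (Module.forall_dual_apply_eq_zero_iff F (1 : L)).mp one_ne_zero)
    let B : LinearMap.BilinForm F V :=
      ((LinearMap.mul F L).compl₁₂ e.symm.toLinearMap
        (τ.toLinearMap.comp e.symm.toLinearMap)).compr₂ f
    have hB : ∀ a b, B (e a) (e b) = f (a * (φ ^ m) b) := fun a b => by simp [B, τ, φ]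
    refine ⟨B, ⟨fun x hx => ?_, fun y hy => ?_⟩, fun h x y => ?_⟩
    · obtain ⟨a, rfl⟩ := e.surjective x
      by_contra hne
      have ha : a ≠ 0 := fun h => hne (by simp [h])
      obtain ⟨b, hb⟩ := (RingHom.injective (φ ^ m).toRingHom).bijective_of_finite.2 a⁻¹
      have := hx (e b)
      rw [hB, show (φ ^ m) b = a⁻¹ from hb, mul_inv_cancel₀ ha] at this
      exact hf this
    · obtain ⟨b, rfl⟩ := e.surjective y
      by_contra hne
      have hb : (φ ^ m) b ≠ 0 := fun h => hne (by
        rw [map_eq_zero] at h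
        simp [h])
      have := hy (e ((φ ^ m) b)⁻¹)
      rw [hB, inv_mul_cancel₀ hb] at this
      exact hf this
    · obtain ⟨a, rfl⟩ := e.surjective x
      obtain ⟨b, rfl⟩ := e.surjective y
      have h1 : ι h * ι h ^ q ^ m = 1 := by
        rw [← pow_succ', ← map_pow, orderOf_dvd_iff_pow_eq_one.mp ((orderOf_dvd_natCard h).trans hd),
          map_one]
      rw [he, he, hB, hB, map_mul (φ ^ m), hφ m (ι h), mul_mul_mul_comm, h1, one_mul]


/-- Let F be a finite field with r elements and of characteristic p, H a finite abelian group of order prime to p, and V a faithful irreducible representation of H over F of dimension n (faithful: distinct elements act differently; irreducible: the only H-invariant subspaces are 0 and V). Call V self-dual when it carries a nondegenerate H-invariant bilinear form. If n = 1 and V is self-dual then H has order at most 2. If n ≥ 2 then V is self-dual if and only if n is even and the order of H divides r^(n/2) + 1. -/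
theorem result {F : Type*} [Field F] [Fintype F] (p : ℕ) [Fact p.Prime] [CharP F p] {H : Type*} [CommGroup H] [Finite H] (hcop : ¬ p ∣ Nat.card H) {V : Type*} [AddCommGroup V] [Module F V] [FiniteDimensional F V] (ρ : Representation F H V) (hfaith : Function.Injective ρ) (hirr : ∀ U : Submodule F V, (∀ h : H, ∀ u ∈ U, ρ h u ∈ U) → U = ⊥ ∨ U = ⊤) : (Module.finrank F V = 1 → (∃ B : LinearMap.BilinForm F V, B.Nondegenerate ∧ ∀ h : H, ∀ x y : V, B (ρ h x) (ρ h y) = B x y) → Nat.card H ≤ 2) ∧ (2 ≤ Module.finrank F V → ((∃ B : LinearMap.BilinForm F V, B.Nondegenerate ∧ ∀ h : H, ∀ x y : V, B (ρ h x) (ρ h y) = B x y) ↔ (Even (Module.finrank F V) ∧ Nat.card H ∣ Fintype.card F ^ (Module.finrank F V / 2) + 1))) := by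
  classical
  let E := Algebra.adjoin F (Set.range ρ)
  have hcomm : ∀ a ∈ Set.range ρ, ∀ b ∈ Set.range ρ, a * b = b * a := by
    rintro _ ⟨x, rfl⟩ _ ⟨y, rfl⟩
    rw [← map_mul, ← map_mul, mul_comm]
  have : IsMulCommutative E := Algebra.isMulCommutative_adjoin F hcomm
  have hE : ∀ (a : E) (h : H), (a : Module.End F V) * ρ h = ρ h * a := fun a h =>
    congrArg Subtype.val (show a * ⟨ρ h, Algebra.subset_adjoin ⟨h, rfl⟩⟩ =
      ⟨ρ h, Algebra.subset_adjoin ⟨h, rfl⟩⟩ * a from mul_comm' _ _)
  rcases subsingleton_or_nontrivial V with hV | hV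
  · have h0 : Module.finrank F V = 0 := Module.finrank_zero_of_subsingleton
    exact ⟨by omega, by omega⟩
  have : Finite V := Module.finite_of_finite F
  have : Finite (Module.End F V) := Finite.of_injective _ DFunLike.coe_injective
  have hinj : ∀ a : E, a ≠ 0 → Function.Injective (a : Module.End F V) := by
    intro a ha
    rw [← LinearMap.ker_eq_bot]
    rcases hirr (LinearMap.ker (a : Module.End F V)) (fun h u hu => by
      rw [LinearMap.mem_ker] at hu ⊢
      rw [← Module.End.mul_apply, hE, Module.End.mul_apply, hu, map_zero]) with h | h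
    · exact h
    · exact absurd (Subtype.ext (LinearMap.ker_eq_top.mp h)) ha
  have : Nontrivial E := ⟨0, 1, fun h => by
    obtain ⟨v, hv⟩ := exists_ne (0 : V)
    exact hv (by simpa using (congrArg (fun a : E => (a : Module.End F V) v) h).symm)⟩
  have hnzd : NoZeroDivisors E := ⟨fun {a b} hab => by
    by_contra! hcon
    apply hcon.2
    refine Subtype.ext (LinearMap.ext fun v => hinj a hcon.1 ?_)
    have := congrArg (fun a : E => (a : Module.End F V) v) hab
    simpa using this⟩
  open scoped IsMulCommutative in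
  letI : CommRing E := inferInstance
  have : IsDomain E := NoZeroDivisors.to_isDomain E
  letI : Field E := (Finite.isField_of_domain E).toField
  obtain ⟨v₀, hv₀⟩ := exists_ne (0 : V)
  let ev : E →ₗ[F] V :=
    { toFun := fun a => (a : Module.End F V) v₀
      map_add' := fun a b => by simp
      map_smul' := fun c a => by simp }
  have hbij : Function.Bijective ev := by
    constructor
    · rw [← LinearMap.ker_eq_bot, eq_bot_iff]
      intro a ha
      by_contra hne
      exact hv₀ (hinj a hne ((LinearMap.mem_ker.mp ha).trans (map_zero _).symm))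
    · rw [← LinearMap.range_eq_top]
      refine (hirr _ ?_).resolve_left ?_
      · rintro h _ ⟨a, rfl⟩
        exact ⟨⟨ρ h, Algebra.subset_adjoin ⟨h, rfl⟩⟩ * a, rfl⟩
      · intro hb
        exact hv₀ (by simpa [hb] using LinearMap.mem_range_self ev 1 |> fun x => (show v₀ ∈ LinearMap.range ev from x))
  let ι : H →* E :=
    { toFun := fun h => ⟨ρ h, Algebra.subset_adjoin ⟨h, rfl⟩⟩
      map_one' := Subtype.ext (map_one ρ)
      map_mul' := fun a b => Subtype.ext (map_mul ρ a b) }
  refine abstract_field p hcop ρ ι (fun a b h => hfaith (congrArg Subtype.val h)) ?_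
    (LinearEquiv.ofBijective ev hbij) (fun h a => rfl)
  apply Subalgebra.map_injective (f := E.val) Subtype.val_injective
  rw [Algebra.map_top, Subalgebra.range_val, AlgHom.map_adjoin, ← Set.range_comp]
  rfl

end Cfsg.Agent.S4967
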