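import Cfsg.Statements.S5005
import Cfsg.Agent.Lib.Jordan.MathieuBlock

set_option autoImplicit false
set_option linter.style.haveILetI false

open Cfsg CfsgLib.Golay CfsgLib.CharTheory CfsgLib.Jordan CfsgLib.Jordan.MathieuData
open CfsgLib.Jordan.MathieuCent


open Cfsg


open Cfsg

namespace Cfsg.Agent.S5005

theorem M22_eq : Cfsg.Spor.M22 = stabK [1, 8388608] := by
  rw [show (1 : ℕ) = 2 ^ 0 by norm_num, stabK_cons_two_pow (by norm_num),
    show (8388608 : ℕ) = 2 ^ 23 by norm_num, stabK_cons_two_pow (by norm_num), stabK_nil]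
  rfl

theorem card_M22 : Nat.card Cfsg.Spor.M22 = 443520 := by rw [M22_eq, card_stabK_two]

theorem le_M24 : Cfsg.Spor.M22 ≤ M24 := inf_le_left.trans inf_le_left

theorem mem_of_table {g : Equiv.Perm GolayPt} {t : ℕ} (h : IsTbl g t) (hg : g ∈ M24)
    (h23 : tblAt t 23 = 23) (h0 : tblAt t 0 = 0) : g ∈ Cfsg.Spor.M22 := by
  simp only [Cfsg.Spor.M22, Cfsg.Spor.M23, Subgroup.mem_inf, MulAction.mem_stabilizer_iff,
    Equiv.Perm.smul_def]
  exact ⟨⟨hg, idx_injective ((h _).trans h23)⟩, idx_injective ((h _).trans h0)⟩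

theorem fixes (c : Equiv.Perm GolayPt) (hc : c ∈ Cfsg.Spor.M22) :
    ∀ p ∈ ({none, some 0} : Finset GolayPt), c p = p := by
  simp only [Cfsg.Spor.M22, Cfsg.Spor.M23, Subgroup.mem_inf, MulAction.mem_stabilizer_iff,
    Equiv.Perm.smul_def] at hc
  simp [hc.1.2, hc.2]

theorem checks :
    inM24 elt11 = true ∧ inM24 elt7 = true ∧ inM24 elt5 = true ∧
    cycDataOK elt11 fix11 cyc11 = true ∧ cycDataOK elt7 fix7 cyc7 = true ∧
    cycDataOK elt5 fix5 cyc5 = true := by
  decide +kernel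

theorem not_fullDefect (χ : IrrCharacter ↥Cfsg.Spor.M22) :
    (charDegree (χ : ↥Cfsg.Spor.M22 → ℂ)).factorization 2 <
      (Nat.card ↥Cfsg.Spor.M22).factorization 2 := by
  classical
  haveI := Fintype.ofFinite ↥Cfsg.Spor.M22
  by_contra hle
  obtain ⟨hd, hdvd⟩ := apply_one_eq_charDegree χ
  set d := charDegree (χ : ↥Cfsg.Spor.M22 → ℂ) with hddef
  have hd0 : d ≠ 0 := fun h => apply_one_ne_zero_of_isIrr χ.2 (by rw [hd, h, Nat.cast_zero])
  have h7 : 2 ^ 7 ∣ d := by
    rw [Nat.prime_two.pow_dvd_iff_le_factorization hd0]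
    refine le_trans ?_ (not_lt.1 hle)
    rw [← Nat.prime_two.pow_dvd_iff_le_factorization (by rw [card_M22]; norm_num), card_M22]
    decide +kernel
  obtain ⟨k, hk⟩ := h7
  have hvan : ∀ x : ↥Cfsg.Spor.M22, 2 ∣ orderOf x → (χ : ↥Cfsg.Spor.M22 → ℂ) x = 0 := fun x hx =>
    IsIrrCharacter.eq_zero_of_fullDegree χ.2 Nat.prime_two (n := 7)
      (by rw [card_M22]; decide +kernel) hd (hk ▸ dvd_mul_right _ _) hx
  obtain ⟨c11, c7, c5, d11, d7, d5⟩ := checks
  obtain ⟨g11, t11, m11, r11⟩ := exists_elt elt11 11 (by norm_num) c11 (by decide +kernel) (by decide +kernel)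
  obtain ⟨g7, t7, m7, r7⟩ := exists_elt elt7 7 (by norm_num) c7 (by decide +kernel) (by decide +kernel)
  obtain ⟨g5, t5, m5, r5⟩ := exists_elt elt5 5 (by norm_num) c5 (by decide +kernel) (by decide +kernel)
  have C11 : Nat.card ↥(Cfsg.Spor.M22 ⊓ Subgroup.centralizer ({g11} : Set _)) ∣ 22 := by
    obtain ⟨k, h, hk, -⟩ := card_centralizer_dvd le_M24 _ fixes t11 d11 0 22 (by decide +kernel) (by decide +kernel)
    exact h.trans (by simpa [Nat.factorial] using hk)
  have C7 : Nat.card ↥(Cfsg.Spor.M22 ⊓ Subgroup.centralizer ({g7} : Set _)) ∣ 21 := by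
    obtain ⟨k, h, hk, -⟩ := card_centralizer_dvd le_M24 _ fixes t7 d7 1 21 (by decide +kernel) (by decide +kernel)
    exact h.trans (by simpa [Nat.factorial] using hk)
  have C5 : Nat.card ↥(Cfsg.Spor.M22 ⊓ Subgroup.centralizer ({g5} : Set _)) ∣ 40 := by
    obtain ⟨k, h, hk, -⟩ := card_centralizer_dvd le_M24 _ fixes t5 d5 2 20 (by decide +kernel) (by decide +kernel)
    exact h.trans (by simpa [Nat.factorial] using mul_dvd_mul_left 2 hk)
  obtain ⟨s11, T11, y11, b11, n11, v11, a11⟩ := prime_contribution χ hvan (q := 11) (by norm_num)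
    (by decide) card_M22.symm (by decide) (by decide +kernel) (mem_of_table t11 m11 (by decide +kernel)
      (by decide +kernel)) r11 (by decide) C11 rfl
    (fun s => decide (s = 8064)) (by decide +kernel) ⊥ bot_le IsPGroup.of_bot
    (fun r hr => by rw [Subgroup.mem_bot.1 hr, one_mul, mul_one]) Subgroup.card_bot
    (D := 128 * k) (by rw [one_mul]; exact hk)
  obtain ⟨s7, T7, y7, b7, n7, v7, a7⟩ := prime_contribution χ hvan (q := 7) (by norm_num)
    (by decide) card_M22.symm (by decide) (by decide +kernel) (mem_of_table t7 m7 (by decide +kernel)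
      (by decide +kernel)) r7 (by decide) C7 rfl
    (fun s => decide (s = 21120)) (by decide +kernel) ⊥ bot_le IsPGroup.of_bot
    (fun r hr => by rw [Subgroup.mem_bot.1 hr, one_mul, mul_one]) Subgroup.card_bot
    (D := 128 * k) (by rw [one_mul]; exact hk)
  obtain ⟨s5, T5, y5, b5, n5, v5, a5⟩ := prime_contribution χ hvan (q := 5) (by norm_num)
    (by decide) card_M22.symm (by decide) (by decide +kernel) (mem_of_table t5 m5 (by decide +kernel)
      (by decide +kernel)) r5 (by decide) C5 rfl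
    (fun s => decide (s = 22176)) (by decide +kernel) ⊥ bot_le IsPGroup.of_bot
    (fun r hr => by rw [Subgroup.mem_bot.1 hr, one_mul, mul_one]) Subgroup.card_bot
    (D := 128 * k) (by rw [one_mul]; exact hk)
  simp only [decide_eq_true_eq] at b11 b7 b5
  subst b11 b7 b5
  set F : ℕ → Finset ↥Cfsg.Spor.M22 := fun q => Finset.univ.filter fun x => orderOf x = q with hF
  have hdisj : ∀ a b : ℕ, a ≠ b → Disjoint (F a) (F b) := fun a b hab =>
    Finset.disjoint_filter.2 fun x _ h h' => hab (h.symm.trans h')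
  have hu : ∀ {R : Type} [AddCommMonoid R] (f : ↥Cfsg.Spor.M22 → R),
      ∑ x ∈ F 11 ∪ F 7 ∪ F 5, f x = ∑ x ∈ F 11, f x + ∑ x ∈ F 7, f x + ∑ x ∈ F 5, f x := by
    intro R _ f
    rw [Finset.sum_union (by simp only [Finset.disjoint_union_left]; exact
        ⟨hdisj _ _ (by decide), hdisj _ _ (by decide)⟩),
      Finset.sum_union (hdisj _ _ (by decide))]
  have h1S : (1 : ↥Cfsg.Spor.M22) ∉ F 11 ∪ F 7 ∪ F 5 := by simp [hF]
  obtain ⟨hle', heq'⟩ := normSq_sum_le χ (F 11 ∪ F 7 ∪ F 5) h1S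
  rw [hu] at hle' heq'
  simp only [hF] at hle' heq'
  rw [n11, n7, n5, ← hddef, hk, card_M22] at hle' heq'
  set X : ℤ := 8064 * T11 + 21120 * T7 + 22176 * T5 + (128 * (k : ℤ)) ^ 2 with hX
  have hineq : X ≤ 443520 := by
    have : ((X : ℤ) : ℝ) ≤ ((443520 : ℤ) : ℝ) := by
      rw [hX]; push_cast; push_cast at hle'; linarith
    exact_mod_cast this
  have r0 : ∀ D q : ℤ, 0 < q → 0 ≤ D % q * (q - D % q) := fun D q hq =>
    mul_nonneg (Int.emod_nonneg D hq.ne') (sub_nonneg.2 (Int.emod_lt_of_pos D hq).le)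
  have hk5 : k ≤ 5 := by
    by_contra hgt
    have h1 : (6 : ℤ) ≤ k := by exact_mod_cast (not_le.1 hgt)
    have hsq : (589824 : ℤ) ≤ (128 * (k : ℤ)) ^ 2 :=
      le_trans (by norm_num) (pow_le_pow_left₀ (by norm_num) (mul_le_mul_of_nonneg_left h1 (by norm_num)) 2)
    have u11 : 0 ≤ T11 := by
      have := r0 ((128 * k : ℕ) : ℤ) 11 (by norm_num)
      rcases a11 with h | ⟨h, -⟩ <;> push_cast at * <;> omega
    have u7 : 0 ≤ T7 := by
      have := r0 ((128 * k : ℕ) : ℤ) 7 (by norm_num)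
      rcases a7 with h | ⟨h, -⟩ <;> push_cast at * <;> omega
    have u5 : 0 ≤ T5 := by
      have := r0 ((128 * k : ℕ) : ℤ) 5 (by norm_num)
      rcases a5 with h | ⟨h, -⟩ <;> push_cast at * <;> omega
    omega
  have hk3465 : k ∣ 3465 := by
    have := hdvd
    rw [hk, card_M22, show (443520 : ℕ) = 2 ^ 7 * 3465 by norm_num] at this
    exact Nat.dvd_of_mul_dvd_mul_left (by norm_num) this
  have hk3 : k = 3 := by
    interval_cases k
    all_goals (try norm_num at hk3465)
    all_goals (norm_num [hX] at a11 a7 a5 hineq)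
    all_goals omega
  subst hk3
  norm_num at a11 a7 a5
  norm_num [hX] at hineq
  have hT : T11 = 10 ∧ T7 = 6 ∧ T5 = 4 := by omega
  obtain ⟨rfl, rfl, rfl⟩ := hT
  have hzero := heq' (by push_cast; norm_num)
  have hne : χ ≠ trivIrr ↥Cfsg.Spor.M22 := fun h => by
    have h1 := hd
    rw [h, trivIrr_apply, hk] at h1
    norm_num at h1
  have horth := classInner_eq_zero_of_ne χ.2 (trivIrr ↥Cfsg.Spor.M22).2 fun h => hne (Subtype.ext h)
  rw [classInner, mul_eq_zero] at horth
  have hsum := horth.resolve_left (inv_ne_zero (by exact_mod_cast Nat.card_pos.ne'))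
  simp only [trivIrr_apply, map_one, mul_one] at hsum
  rw [← Finset.sum_subset (Finset.subset_univ (insert 1 (F 11 ∪ F 7 ∪ F 5))) (fun x _ hx => by
      simp only [Finset.mem_insert, not_or] at hx
      exact hzero x hx.2 hx.1), Finset.sum_insert h1S, hu] at hsum
  simp only [hF] at hsum
  rw [v11, v7, v5, hd, hk] at hsum
  have hint : (384 : ℤ) + (8064 * (11 * y11 - 384) + 21120 * (7 * y7 - 384) + 22176 * (5 * y5 - 384)) = 0 := by
    have : (((384 : ℤ) + (8064 * (11 * y11 - 384) + 21120 * (7 * y7 - 384) + 22176 * (5 * y5 - 384)) : ℤ) : ℂ) =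
        ((0 : ℤ) : ℂ) := by
      push_cast; push_cast at hsum; linear_combination hsum
    exact_mod_cast this
  omega



/-- All irreducible complex characters of the Mathieu group `M₂₂` lie in a single 2-block: any two of them lie in the same block relative to every maximal ideal of the algebraic integers containing 2. -/
theorem result (M : Ideal Cfsg.AlgInt) (hM : Cfsg.IsPModular 2 M)
    (χ ψ : Cfsg.IrrCharacter ↥Cfsg.Spor.M22) : Cfsg.SameBlock M (χ : ↥Cfsg.Spor.M22 → ℂ) (ψ : ↥Cfsg.Spor.M22 → ℂ) := by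
  exact sameBlock_of_good hM not_fullDefect (fun x hx hord => good_M22 hx hord) χ ψ

end Cfsg.Agent.S5005
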