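import Cfsg.Statements.S5006
import Cfsg.Agent.Lib.Jordan.MathieuBlock

set_option autoImplicit false
set_option linter.style.haveILetI false

open Cfsg CfsgLib.Golay CfsgLib.CharTheory CfsgLib.Jordan CfsgLib.Jordan.MathieuData
open CfsgLib.Jordan.MathieuCent


open Cfsg

namespace Cfsg.Agent.S5006

theorem card_M24 : Nat.card M24 = 244823040 := natCard_M24

theorem checks :
    inM24 elt23 = true ∧ inM24 elt11 = true ∧ inM24 elt7 = true ∧ inM24 elt5 = true ∧
    cycDataOK elt23 fix23 cyc23 = true ∧ cycDataOK elt11 fix11 cyc11 = true ∧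
    cycDataOK elt7 fix7 cyc7 = true ∧ cycDataOK elt5 fix5 cyc5 = true ∧
    CfsgLib.GolayStructure.spanOK [(comm7, comm7)] = true ∧
    CfsgLib.GolayStructure.spanOK [(comm5a, comm5a), (comm5b, comm5b)] = true := by
  decide +kernel

theorem not_fullDefect (χ : IrrCharacter ↥M24) :
    (charDegree (χ : ↥M24 → ℂ)).factorization 2 < (Nat.card ↥M24).factorization 2 := by
  classical
  haveI := Fintype.ofFinite ↥M24
  by_contra hle
  obtain ⟨hd, hdvd⟩ := apply_one_eq_charDegree χ
  set d := charDegree (χ : ↥M24 → ℂ) with hddef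
  have hd0 : d ≠ 0 := fun h => apply_one_ne_zero_of_isIrr χ.2 (by rw [hd, h, Nat.cast_zero])
  have h10 : 2 ^ 10 ∣ d := by
    rw [Nat.prime_two.pow_dvd_iff_le_factorization hd0]
    refine le_trans ?_ (not_lt.1 hle)
    rw [← Nat.prime_two.pow_dvd_iff_le_factorization (by rw [card_M24]; norm_num), card_M24]
    decide +kernel
  obtain ⟨k, hk⟩ := h10
  have hvan : ∀ x : ↥M24, 2 ∣ orderOf x → (χ : ↥M24 → ℂ) x = 0 := fun x hx =>
    IsIrrCharacter.eq_zero_of_fullDegree χ.2 Nat.prime_two (n := 10)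
      (by rw [card_M24]; decide +kernel) hd (hk ▸ dvd_mul_right _ _) hx
  obtain ⟨c23, c11, c7, c5, d23, d11, d7, d5, o7, o5⟩ := checks
  obtain ⟨g23, t23, m23, r23⟩ := exists_elt elt23 23 (by norm_num) c23 (by decide +kernel) (by decide +kernel)
  obtain ⟨g11, t11, m11, r11⟩ := exists_elt elt11 11 (by norm_num) c11 (by decide +kernel) (by decide +kernel)
  obtain ⟨g7, t7, m7, r7⟩ := exists_elt elt7 7 (by norm_num) c7 (by decide +kernel) (by decide +kernel)
  obtain ⟨g5, t5, m5, r5⟩ := exists_elt elt5 5 (by norm_num) c5 (by decide +kernel) (by decide +kernel)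
  have hS : ∀ c ∈ M24, ∀ p ∈ (∅ : Finset GolayPt), c p = p := fun c _ p hp => absurd hp (by simp)
  have C23 : Nat.card ↥(M24 ⊓ Subgroup.centralizer ({g23} : Set _)) ∣ 23 := by
    obtain ⟨k, h, hk, -⟩ := card_centralizer_dvd le_rfl ∅ hS t23 d23 1 23 (by decide +kernel) (by decide +kernel)
    exact h.trans (by simpa using hk)
  have C11 : Nat.card ↥(M24 ⊓ Subgroup.centralizer ({g11} : Set _)) ∣ 44 := by
    obtain ⟨k, h, hk, -⟩ := card_centralizer_dvd le_rfl ∅ hS t11 d11 2 22 (by decide +kernel) (by decide +kernel)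
    exact h.trans (by simpa [Nat.factorial] using mul_dvd_mul_left 2 hk)
  have C7 : Nat.card ↥(M24 ⊓ Subgroup.centralizer ({g7} : Set _)) ∣ 126 := by
    obtain ⟨k, h, hk, -⟩ := card_centralizer_dvd le_rfl ∅ hS t7 d7 3 21 (by decide +kernel) (by decide +kernel)
    exact h.trans (by simpa [Nat.factorial] using mul_dvd_mul_left 6 hk)
  have C5 : Nat.card ↥(M24 ⊓ Subgroup.centralizer ({g5} : Set _)) ∣ 120 := by
    obtain ⟨k, h, hk, ho⟩ := card_centralizer_dvd le_rfl ∅ hS t5 d5 4 20 (by decide +kernel) (by decide +kernel)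
    have hodd : Odd k := ho (by decide +kernel)
    have h5 : k ∣ 5 := (Nat.coprime_two_right.2 hodd |>.pow_right 2).dvd_of_dvd_mul_left
      (by simpa using hk)
    exact h.trans (by simpa [Nat.factorial] using mul_dvd_mul_left 24 h5)
  obtain ⟨-, -, -, e7p, e7c⟩ := spanPerm_props o7
  obtain ⟨-, -, -, e5p, e5c⟩ := spanPerm_props o5
  obtain ⟨s23, T23, _, b23, n23, -, a23⟩ := prime_contribution χ hvan (q := 23) (by norm_num)
    (by decide) card_M24.symm (by decide) (by decide +kernel) m23 r23 (by decide) C23 rfl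
    (fun s => decide (967680 ≤ s)) (by decide +kernel) ⊥ bot_le IsPGroup.of_bot
    (fun r hr => by rw [Subgroup.mem_bot.1 hr, one_mul, mul_one]) Subgroup.card_bot
    (D := 1024 * k) (by rw [one_mul]; exact hk)
  obtain ⟨s11, T11, _, b11, n11, -, a11⟩ := prime_contribution χ hvan (q := 11) (by norm_num)
    (by decide) card_M24.symm (by decide) (by decide +kernel) m11 r11 (by decide) C11 rfl
    (fun s => decide (2225664 ≤ s)) (by decide +kernel) ⊥ bot_le IsPGroup.of_bot
    (fun r hr => by rw [Subgroup.mem_bot.1 hr, one_mul, mul_one]) Subgroup.card_bot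
    (D := 1024 * k) (by rw [one_mul]; exact hk)
  obtain ⟨s7, T7, _, b7, n7, -, a7⟩ := prime_contribution χ hvan (q := 7) (by norm_num)
    (by decide) card_M24.symm (by decide) (by decide +kernel) m7 r7 (by decide) C7 rfl
    (fun s => decide (1943040 ≤ s)) (by decide +kernel) _ (spanPerm_le _) e7p
    (spanPerm_comm_elt o7 t7 (by decide +kernel)) (e := 2) (e7c.trans (by decide +kernel))
    (D := 512 * k) (by rw [← hddef, hk]; ring)
  obtain ⟨s5, T5, _, b5, n5, -, a5⟩ := prime_contribution χ hvan (q := 5) (by norm_num)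
    (by decide) card_M24.symm (by decide) (by decide +kernel) m5 r5 (by decide) C5 rfl
    (fun s => decide (1020096 ≤ s)) (by decide +kernel) _ (spanPerm_le _) e5p
    (spanPerm_comm_elt o5 t5 (by decide +kernel)) (e := 4) (e5c.trans (by decide +kernel))
    (D := 256 * k) (by rw [← hddef, hk]; ring)
  simp only [decide_eq_true_eq] at b23 b11 b7 b5
  set F : ℕ → Finset ↥M24 := fun q => Finset.univ.filter fun x => orderOf x = q with hF
  have hdisj : ∀ a b : ℕ, a ≠ b → Disjoint (F a) (F b) := fun a b hab =>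
    Finset.disjoint_filter.2 fun x _ h h' => hab (h.symm.trans h')
  have hle' := (normSq_sum_le χ (F 23 ∪ F 11 ∪ F 7 ∪ F 5) (by simp [hF])).1
  rw [Finset.sum_union (by simp only [Finset.disjoint_union_left]; exact
      ⟨⟨hdisj _ _ (by decide), hdisj _ _ (by decide)⟩, hdisj _ _ (by decide)⟩),
    Finset.sum_union (by simp only [Finset.disjoint_union_left]; exact
      ⟨hdisj _ _ (by decide), hdisj _ _ (by decide)⟩),
    Finset.sum_union (hdisj _ _ (by decide))] at hle'
  simp only [hF] at hle'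
  rw [n23, n11, n7, n5, ← hddef, hk, card_M24] at hle'
  have hineq : (s23 : ℤ) * T23 + s11 * T11 + s7 * 4 * T7 + s5 * 16 * T5 + (1024 * (k : ℤ)) ^ 2 ≤
      244823040 := by
    have : (((s23 : ℤ) * T23 + s11 * T11 + s7 * 4 * T7 + s5 * 16 * T5 + (1024 * (k : ℤ)) ^ 2 : ℤ) : ℝ) ≤
        ((244823040 : ℤ) : ℝ) := by push_cast; push_cast at hle'; linarith
    exact_mod_cast this
  have hk239 : k ∣ 239085 := by
    have := hdvd
    rw [hk, card_M24, show (244823040 : ℕ) = 2 ^ 10 * 239085 by norm_num] at this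
    exact Nat.dvd_of_mul_dvd_mul_left (by norm_num) this
  have hk15 : k ≤ 15 := by
    by_contra hgt
    have h1 : (16 : ℤ) ≤ k := by exact_mod_cast (not_le.1 hgt)
    have l0 : ∀ D q T : ℤ, 0 < q → (D % q * (q - D % q) + 2 * q ≤ T ∨ (T = D % q * (q - D % q) ∧ True)) →
        0 ≤ T := by
      intro D q T hq h
      have := mul_nonneg (Int.emod_nonneg D hq.ne') (sub_nonneg.2 (Int.emod_lt_of_pos D hq).le)
      rcases h with h | ⟨h, -⟩ <;> omega
    have u23 := l0 _ _ _ (by norm_num) (a23.imp_right fun h => ⟨h.1, trivial⟩)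
    have u11 := l0 _ _ _ (by norm_num) (a11.imp_right fun h => ⟨h.1, trivial⟩)
    have u7 := l0 _ _ _ (by norm_num) (a7.imp_right fun h => ⟨h.1, trivial⟩)
    have u5 := l0 _ _ _ (by norm_num) (a5.imp_right fun h => ⟨h.1, trivial⟩)
    have hsq : (268435456 : ℤ) ≤ (1024 * (k : ℤ)) ^ 2 :=
      le_trans (by norm_num) (pow_le_pow_left₀ (by norm_num) (mul_le_mul_of_nonneg_left h1 (by norm_num)) 2)
    have z23 := mul_nonneg (Int.natCast_nonneg s23) u23
    have z11 := mul_nonneg (Int.natCast_nonneg s11) u11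
    have z7 := mul_nonneg (mul_nonneg (Int.natCast_nonneg s7) (by norm_num : (0 : ℤ) ≤ 4)) u7
    have z5 := mul_nonneg (mul_nonneg (Int.natCast_nonneg s5) (by norm_num : (0 : ℤ) ≤ 16)) u5
    linarith
  have l23 : ((1024 * k : ℕ) : ℤ) % 23 * (23 - ((1024 * k : ℕ) : ℤ) % 23) ≤ T23 := by
    rcases a23 with h | ⟨h, -⟩ <;> push_cast at h ⊢ <;> omega
  have l11 : ((1024 * k : ℕ) : ℤ) % 11 * (11 - ((1024 * k : ℕ) : ℤ) % 11) ≤ T11 := by
    rcases a11 with h | ⟨h, -⟩ <;> push_cast at h ⊢ <;> omega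
  have l7 : ((512 * k : ℕ) : ℤ) % 7 * (7 - ((512 * k : ℕ) : ℤ) % 7) ≤ T7 := by
    rcases a7 with h | ⟨h, -⟩ <;> push_cast at h ⊢ <;> omega
  have l5 : ((256 * k : ℕ) : ℤ) % 5 * (5 - ((256 * k : ℕ) : ℤ) % 5) ≤ T5 := by
    rcases a5 with h | ⟨h, -⟩ <;> push_cast at h ⊢ <;> omega
  have g23' : (967680 : ℤ) ≤ s23 := by exact_mod_cast b23
  have g11' : (2225664 : ℤ) ≤ s11 := by exact_mod_cast b11
  have g7' : (1943040 : ℤ) ≤ s7 := by exact_mod_cast b7
  have g5' : (1020096 : ℤ) ≤ s5 := by exact_mod_cast b5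
  have r0 : ∀ D q : ℤ, 0 < q → 0 ≤ D % q * (q - D % q) := fun D q hq =>
    mul_nonneg (Int.emod_nonneg D hq.ne') (sub_nonneg.2 (Int.emod_lt_of_pos D hq).le)
  have p23 := mul_le_mul g23' l23 (r0 _ _ (by norm_num)) (Int.natCast_nonneg s23)
  have p11 := mul_le_mul g11' l11 (r0 _ _ (by norm_num)) (Int.natCast_nonneg s11)
  have p7 := mul_le_mul g7' l7 (r0 _ _ (by norm_num)) (Int.natCast_nonneg s7)
  have p5 := mul_le_mul g5' l5 (r0 _ _ (by norm_num)) (Int.natCast_nonneg s5)
  interval_cases k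
  all_goals (try norm_num at hk239)
  all_goals (norm_num at hineq)
  all_goals (norm_num at p23 p11 p7 p5; linarith)

/-- All irreducible complex characters of the Mathieu group `M₂₄` lie in a single 2-block: any two of them lie in the same block relative to every maximal ideal of the algebraic integers containing 2. -/
theorem result (M : Ideal Cfsg.AlgInt) (hM : Cfsg.IsPModular 2 M)
    (χ ψ : Cfsg.IrrCharacter ↥Cfsg.M24) : Cfsg.SameBlock M (χ : ↥Cfsg.M24 → ℂ) (ψ : ↥Cfsg.M24 → ℂ) := by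
  exact sameBlock_of_good hM not_fullDefect (fun x hx hord => good_M24 hx hord) χ ψ

end Cfsg.Agent.S5006
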