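import Cfsg.Statements.S5010
import Cfsg.Agent.Lib.CharDegreesTheory.SquarefreeDegrees

set_option autoImplicit false
open Cfsg

namespace Cfsg.Agent.S5010

set_option linter.style.haveILetI false

/-- Let `G` be a finite solvable group. If every irreducible complex character degree of `G` is squarefree (1 included), then the derived length of `G` is at most 4. -/
theorem result {G : Type*} [Group G] [Finite G] [Group.IsSolvable G]
    (h : ∀ χ : Cfsg.IrrCharacter G, Squarefree (Cfsg.charDegree (χ : G → ℂ))) : derivedSeries G 4 = ⊥ := by
  exact CfsgLib.CharDegreesTheory.SquarefreeDegrees.derived_four h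

end Cfsg.Agent.S5010
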