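import Cfsg.Statements.S5014
import Cfsg.Agent.Lib.RootGroups.RankOne
-- import your own Cfsg.Agent.* helpers here

set_option autoImplicit false
open Cfsg

namespace Cfsg.Agent.S5014

open CfsgLib.RootGroups

/-- Let X = ⟨A, B⟩ be a rank one group with unipotent subgroups A and B and let Ω be the set of conjugates of A under X. Then Ω has at least three members, X acts doubly transitively on Ω by conjugation (any two ordered pairs of distinct members are carried to one another by a single element of X), and A acts regularly on Ω with A removed: for C, D in Ω different from A there is exactly one element of A conjugating C to D. -/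
theorem result {G : Type*} [Group G] {A B : Subgroup G} (h : Cfsg.IsRankOnePair A B) :
    (∃ C₁ ∈ Cfsg.unipotentSubgroups A B, ∃ C₂ ∈ Cfsg.unipotentSubgroups A B, ∃ C₃ ∈ Cfsg.unipotentSubgroups A B,
      C₁ ≠ C₂ ∧ C₁ ≠ C₃ ∧ C₂ ≠ C₃) ∧
    (∀ C₁ ∈ Cfsg.unipotentSubgroups A B, ∀ C₂ ∈ Cfsg.unipotentSubgroups A B, ∀ D₁ ∈ Cfsg.unipotentSubgroups A B,
      ∀ D₂ ∈ Cfsg.unipotentSubgroups A B, C₁ ≠ C₂ → D₁ ≠ D₂ →
        ∃ x ∈ A ⊔ B, Cfsg.conjBy C₁ x = D₁ ∧ Cfsg.conjBy C₂ x = D₂) ∧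
    (∀ C ∈ Cfsg.unipotentSubgroups A B, ∀ D ∈ Cfsg.unipotentSubgroups A B, C ≠ A → D ≠ A →
      ∃! a : G, a ∈ A ∧ Cfsg.conjBy C a = D) := by
  refine ⟨?_, ?_, ?_⟩
  · obtain ⟨a, b, hp⟩ := exists_paired_pair h
    refine ⟨A, left_mem_unipotent A B, B, right_mem_unipotent h, Cfsg.conjBy B a,
      conjBy_right_mem h hp.1, h.ne, ?_, ?_⟩
    · intro e
      rw [eq_comm, conjBy_eq_iff, conjBy_of_mem (A.inv_mem hp.1)] at e
      exact h.ne e.symm
    · exact fun e => hp.2.1 (eq_one_of_mem_normalizer h hp.1 e.symm)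
  · intro C₁ h1 C₂ h2 D₁ h3 D₂ h4 hC hD
    obtain ⟨x, hx, rfl, rfl⟩ := exists_conj_pair h h1 h2 hC
    obtain ⟨y, hy, rfl, rfl⟩ := exists_conj_pair h h3 h4 hD
    exact ⟨y * x⁻¹, Subgroup.mul_mem _ hy (Subgroup.inv_mem _ hx),
      by rw [conjBy_conjBy, inv_mul_cancel_right], by rw [conjBy_conjBy, inv_mul_cancel_right]⟩
  · intro C hC D hD hCA hDA
    obtain ⟨a, ha, rfl⟩ := ((mem_unipotent_iff h).1 hC).resolve_left hCA
    obtain ⟨a', ha', rfl⟩ := ((mem_unipotent_iff h).1 hD).resolve_left hDA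
    refine ⟨a' * a⁻¹, ⟨A.mul_mem ha' (A.inv_mem ha),
      by rw [conjBy_conjBy, inv_mul_cancel_right]⟩, ?_⟩
    rintro c ⟨hc, he⟩
    rw [conjBy_conjBy] at he
    rw [← conjBy_right_inj h (A.mul_mem hc ha) ha' he, mul_inv_cancel_right]

end Cfsg.Agent.S5014
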