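import Cfsg.Statements.S5015
import Cfsg.Agent.Lib.RootGroups.RankOne
-- import your own Cfsg.Agent.* helpers here

set_option autoImplicit false
open Cfsg

namespace Cfsg.Agent.S5015

open CfsgLib.RootGroups

/-- Let a group Y act doubly transitively on a set Ω with at least three points, and suppose that the stabilizer of a point α contains a nilpotent subgroup A, normalized by that stabilizer, which acts regularly on the points other than α. Then for any y in Y moving α, the subgroups A and y A y⁻¹ are the unipotent subgroups of a rank one group, and the normal closure of A in Y (the subgroup generated by all conjugates of A) is generated by A and y A y⁻¹ alone. -/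
theorem result {Y Ω : Type*} [Group Y] [MulAction Y Ω]
    (h2 : MulAction.IsMultiplyPretransitive Y Ω 2) (hΩ : 3 ≤ ENat.card Ω) (α : Ω) (A : Subgroup Y)
    (hA : A ≤ MulAction.stabilizer Y α) (hAn : ∀ y ∈ MulAction.stabilizer Y α, Cfsg.conjBy A y = A)
    (hnil : Group.IsNilpotent A) (hreg : ∀ β γ : Ω, β ≠ α → γ ≠ α → ∃! a : Y, a ∈ A ∧ a • β = γ)
    (y : Y) (hy : y ∉ MulAction.stabilizer Y α) :
    Cfsg.IsRankOnePair A (Cfsg.conjBy A y) ∧ Subgroup.normalClosure (A : Set Y) = A ⊔ Cfsg.conjBy A y := by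
  -- the conjugate of `A` belonging to a point depends only on that point
  have hpt : ∀ g g' : Y, g • α = g' • α → Cfsg.conjBy A g = Cfsg.conjBy A g' := by
    intro g g' he
    have h1 : g'⁻¹ * g ∈ MulAction.stabilizer Y α := by
      rw [MulAction.mem_stabilizer_iff, mul_smul, he, inv_smul_smul]
    have h2 := hAn _ h1
    rw [← conjBy_conjBy, conjBy_eq_iff, inv_inv] at h2
    exact h2
  have hβ : y • α ≠ α := fun e => hy (MulAction.mem_stabilizer_iff.2 e)
  -- regularity of `conjBy A g`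
  have hreg' : ∀ (g : Y) (β γ : Ω), β ≠ g • α → γ ≠ g • α →
      ∃ b ∈ Cfsg.conjBy A g, b • β = γ := by
    intro g β γ hb hc
    obtain ⟨a, ⟨ha, he⟩, -⟩ := hreg (g⁻¹ • β) (g⁻¹ • γ)
      (fun e => hb (by rw [← e, smul_inv_smul])) (fun e => hc (by rw [← e, smul_inv_smul]))
    exact ⟨g * a * g⁻¹, conj_mem_conjBy ha, by rw [mul_smul, mul_smul, he, smul_inv_smul]⟩
  have hfix : ∀ (g : Y), ∀ b ∈ Cfsg.conjBy A g, b • (g • α) = g • α := by
    intro g b hb
    rw [mem_conjBy] at hb
    have h1 := MulAction.mem_stabilizer_iff.1 (hA hb)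
    rw [mul_smul, mul_smul, inv_smul_eq_iff] at h1
    exact h1
  have hfree : ∀ a ∈ A, ∀ β : Ω, β ≠ α → a • β = β → a = 1 := fun a ha β hb he =>
    (hreg β β hb hb).unique ⟨ha, he⟩ ⟨A.one_mem, one_smul Y β⟩
  -- there is a third point
  obtain ⟨γ, hγα, hγβ⟩ : ∃ γ : Ω, γ ≠ α ∧ γ ≠ y • α := by
    by_contra hc
    push Not at hc
    have huniv : (Set.univ : Set Ω) = {α, y • α} := by
      ext z
      simp only [Set.mem_univ, Set.mem_insert_iff, Set.mem_singleton_iff, true_iff]
      exact (em (z = α)).imp id (hc z)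
    have h1 : (Set.univ : Set Ω).encard ≤ 2 := by
      rw [huniv]
      exact (Set.encard_insert_le _ _).trans
        (by rw [Set.encard_singleton, one_add_one_eq_two])
    rw [Set.encard_univ] at h1
    exact absurd (hΩ.trans h1) (by norm_num)
  obtain ⟨a₀, ⟨ha₀, hae⟩, -⟩ := hreg (y • α) γ hβ hγα
  have ha₀1 : a₀ ≠ 1 := fun e => hγβ (by rw [← hae, e, one_smul])
  have hne : A ≠ Cfsg.conjBy A y := by
    intro e
    exact ha₀1 (hfree a₀ ha₀ _ hβ (hfix y a₀ (e ▸ ha₀)))
  haveI := hnil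
  refine ⟨⟨hne, hnil,
    Group.nilpotent_of_mulEquiv (A.equivMapOfInjective _ (MulAut.conj y).injective), ?_, ?_⟩, ?_⟩
  · intro a ha ha1
    have h1 : a⁻¹ • (y • α) ≠ y • α := fun e =>
      ha1 (inv_eq_one.1 (hfree _ (A.inv_mem ha) _ hβ e))
    obtain ⟨b, hb, hbe⟩ := hreg' y α (a⁻¹ • (y • α)) (Ne.symm hβ) h1
    refine ⟨b⁻¹, Subgroup.inv_mem _ hb, fun e => ?_, ?_⟩
    · rw [inv_eq_one] at e
      rw [e, one_smul] at hbe
      have h2 := MulAction.mem_stabilizer_iff.1 (hA (A.inv_mem ha))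
      exact hβ (MulAction.injective a⁻¹ (hbe.symm.trans h2.symm))
    · rw [inv_inv, conjBy_conjBy]
      exact hpt _ _ (by rw [hbe, mul_smul])
  · intro b hb hb1
    have h1 : b⁻¹ • α ≠ α := by
      intro e
      apply hb1
      have hbmem : y⁻¹ * b⁻¹ * y ∈ A := mem_conjBy.1 (Subgroup.inv_mem _ hb)
      have h2 : (y⁻¹ * b⁻¹ * y) • (y⁻¹ • α) = y⁻¹ • α := by
        rw [mul_smul, mul_smul, smul_inv_smul, e]
      have h3 := hfree _ hbmem _ (fun e' => hβ (by rw [inv_smul_eq_iff] at e'; exact e'.symm)) h2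
      rw [mul_eq_one_iff_eq_inv, mul_eq_left] at h3
      exact inv_eq_one.1 h3
    obtain ⟨a, ⟨ha, hae⟩, -⟩ := hreg (y • α) (b⁻¹ • α) hβ h1
    refine ⟨a⁻¹, A.inv_mem ha, fun e => ?_, ?_⟩
    · rw [inv_eq_one] at e
      rw [e, one_smul] at hae
      have h2 := hfix y b⁻¹ (Subgroup.inv_mem _ hb)
      exact hβ (MulAction.injective b⁻¹ (h2.trans hae))
    · rw [inv_inv, conjBy_conjBy]
      exact hpt _ _ (by rw [mul_smul, hae])
  · refine le_antisymm ?_ (sup_le Subgroup.le_normalClosure ?_)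
    · rw [Subgroup.normalClosure]
      refine (Subgroup.closure_le _).2 fun x hx => ?_
      obtain ⟨a, ha, hc⟩ := Group.mem_conjugatesOfSet_iff.1 hx
      obtain ⟨c, rfl⟩ := isConj_iff.1 hc
      have hx' : c * a * c⁻¹ ∈ Cfsg.conjBy A c := conj_mem_conjBy ha
      by_cases hcα : c • α = α
      · rw [hAn c (MulAction.mem_stabilizer_iff.2 hcα)] at hx'
        exact Subgroup.mem_sup_left hx'
      · obtain ⟨a', ⟨ha', he⟩, -⟩ := hreg (y • α) (c • α) hβ hcα
        rw [hpt c (a' * y) (by rw [mul_smul, he]), ← conjBy_conjBy] at hx'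
        exact conjBy_le_of_le le_sup_right (Subgroup.mem_sup_left ha') hx'
    · intro x hx
      rw [mem_conjBy] at hx
      have := (Subgroup.normalClosure_normal (s := (A : Set Y))).conj_mem _
        (Subgroup.le_normalClosure hx) y
      simpa [mul_assoc] using this

end Cfsg.Agent.S5015
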