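import Cfsg.Statements.S5018
import Cfsg.Agent.Lib.RootGroups.RankOne
-- import your own Cfsg.Agent.* helpers here

set_option autoImplicit false
open Cfsg

namespace Cfsg.Agent.S5018

open CfsgLib.RootGroups

/-- A rank one group is not nilpotent, and its second centre equals its centre. -/
theorem result {X : Type*} [Group X] {A B : Subgroup X} (h : Cfsg.IsRankOneGroup X A B) :
    Subgroup.upperCentralSeries X 2 = Subgroup.center X ∧ ¬ Group.IsNilpotent X := by
  obtain ⟨hgen, hp⟩ := h
  have h2 : Subgroup.upperCentralSeries X 2 = Subgroup.center X := by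
    refine le_antisymm ?_ (Subgroup.upperCentralSeries_one X ▸
      Subgroup.upperCentralSeries_mono X one_le_two)
    intro z hz
    have hz' : ∀ g : X, z * g * z⁻¹ * g⁻¹ ∈ Subgroup.center X := by
      intro g
      have := (Subgroup.mem_upperCentralSeries_succ_iff (G := X) (n := 1)).1 hz g
      rwa [Subgroup.upperCentralSeries_one] at this
    have hfixA : ∀ {A B : Subgroup X}, Cfsg.IsRankOnePair A B → A ⊔ B = ⊤ →
        Cfsg.conjBy A z = A := by
      intro A B hp hgen
      by_contra hne
      -- `A` and its conjugate are distinct unipotent subgroups, but they commute modulo the centre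
      have hC : Cfsg.conjBy A z ∈ Cfsg.unipotentSubgroups A B :=
        conjBy_mem_unipotent (left_mem_unipotent A B) (hgen ▸ Subgroup.mem_top z)
      have hpair := isRankOnePair_of_mem hp (left_mem_unipotent A B) hC (Ne.symm hne)
      obtain ⟨a, ha, ha1⟩ := exists_ne_one_of_ne_bot (ne_bot_left hp)
      refine not_commute hpair ha ha1 (conj_mem_conjBy (g := z) ha)
        (fun e => ha1 (by simpa [mul_inv_eq_one] using e)) ?_
      have hc : Commute a (z * a * z⁻¹ * a⁻¹ * a) :=
        Commute.mul_right (Subgroup.mem_center_iff.1 (hz' a) a) (Commute.refl a)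
      simpa [mul_assoc] using hc
    have hA : ∀ a ∈ A, Commute z a := by
      intro a ha
      have hmem : z * a * z⁻¹ * a⁻¹ ∈ A :=
        A.mul_mem (hfixA hp hgen ▸ conj_mem_conjBy ha) (A.inv_mem ha)
      have h1 := eq_one_of_mem_normalizer hp hmem
        (conjBy_of_commute fun x _ => (Subgroup.mem_center_iff.1 (hz' a) x).symm)
      exact mul_inv_eq_iff_eq_mul.1 (mul_inv_eq_one.1 h1)
    have hB := commute_right_of_commute_left hp hA
      (hfixA (Cfsg.RankOnePair_symm hp) (by rwa [sup_comm]))
    exact Subgroup.mem_center_iff.2 fun g =>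
      (commute_of_sup hA hB g (hgen ▸ Subgroup.mem_top g)).eq.symm
  refine ⟨h2, fun hnil => ?_⟩
  have hstab : ∀ n, Subgroup.upperCentralSeries X n ≤ Subgroup.center X := by
    intro n
    induction n with
    | zero => simp
    | succ k ih =>
      intro x hx
      rw [← h2]
      refine (Subgroup.mem_upperCentralSeries_succ_iff (G := X) (n := 1)).2 fun y => ?_
      rw [Subgroup.upperCentralSeries_one]
      exact ih ((Subgroup.mem_upperCentralSeries_succ_iff (G := X) (n := k)).1 hx y)
  obtain ⟨n, hn⟩ := hnil.nilpotent'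
  obtain ⟨a, b, hab⟩ := exists_paired_pair hp
  refine not_commute hp hab.1 hab.2.1 hab.2.2.1 hab.2.2.2.1 ?_
  have : a ∈ Subgroup.center X := hstab n (hn ▸ Subgroup.mem_top a)
  exact (Subgroup.mem_center_iff.1 this b).symm

end Cfsg.Agent.S5018
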