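import Cfsg.Statements.S5020
import Cfsg.Agent.Lib.RootGroups.SL2Pair
import Cfsg.Agent.Lib.RootGroups.Simple
import Cfsg.Agent.Lib.Cores.Quasisimple
-- import your own Cfsg.Agent.* helpers here

set_option autoImplicit false
open Cfsg

namespace Cfsg.Agent.S5020

open CfsgLib.RootGroups
open scoped commutatorElement

/-- Let X be a special rank one group with abelian unipotent subgroups A and B, and H = N(A) ∩ N(B) its diagonal subgroup. Then either A has at most three elements and X is isomorphic to SL₂(2), SL₂(3) or PSL₂(3); or X = X' A with the commutator subgroup X' quasisimple and the commutator subgroup ⁅A, H⁆ having more than three elements. -/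
theorem result {X : Type*} [Group X] {A B : Subgroup X} (h : Cfsg.IsRankOneGroup X A B)
    (hs : Cfsg.IsSpecialRankOnePair A B) (hab : Cfsg.HasAbelianUnipotents A B) :
    (ENat.card A ≤ 3 ∧ (Nonempty (X ≃* Matrix.SpecialLinearGroup (Fin 2) (ZMod 2)) ∨
        Nonempty (X ≃* Matrix.SpecialLinearGroup (Fin 2) (ZMod 3)) ∨
        Nonempty (X ≃* Matrix.ProjectiveSpecialLinearGroup (Fin 2) (ZMod 3)))) ∨
    (commutator X ⊔ A = ⊤ ∧ Cfsg.IsQuasisimple (commutator X) ∧
      3 < ENat.card ↥(⁅A, Cfsg.rankOneDiagonal A B⁆ : Subgroup X)) := by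
  by_cases hbig : 3 < ENat.card A
  · right
    have hbig' := exists_big hbig
    have hle := le_commutator_diagonal hs hab hbig'
    have heq : ⁅A, Cfsg.rankOneDiagonal A B⁆ = A := by
      refine le_antisymm ?_ hle
      rw [Subgroup.commutator_le]
      intro x hx k hk
      rw [commutatorElement_def, show x * k * x⁻¹ * k⁻¹ = x * (k * x⁻¹ * k⁻¹) by group]
      refine A.mul_mem hx ?_
      have := conj_mem_conjBy (g := k) (A.inv_mem hx)
      rwa [conjBy_eq_self_iff.2 hk.1.2] at this
    have htop : commutator X = ⊤ := by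
      have h1 := sup_le_commutator hs hab hbig'
      rw [h.1] at h1
      rw [commutator_def]
      exact top_le_iff.1 h1
    refine ⟨by rw [htop, top_sup_eq], ?_, by rw [heq]; exact hbig⟩
    have hqs := (Cfsg.Agent.S5017.result h).2 (Group.isPerfect_def.2 htop)
    rw [htop]
    exact (CfsgLib.Cores.isQuasisimple_congr Subgroup.topEquiv).2 hqs
  · left
    push Not at hbig
    refine ⟨hbig, ?_⟩
    obtain ⟨a, b, hp⟩ := exists_paired_pair hs.1
    haveI hfin : Finite A := ENat.card_lt_top.1 (lt_of_le_of_lt hbig (by decide))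
    have hcard : Nat.card A ≤ 3 := by
      rw [ENat.card_eq_coe_natCard] at hbig
      exact_mod_cast hbig
    have h2 : 1 < Nat.card A := by
      haveI : Nontrivial A := ⟨⟨a, hp.1⟩, 1, fun e => hp.2.1 (congrArg Subtype.val e)⟩
      exact Finite.one_lt_card
    obtain ⟨p, hpp, hpc⟩ : ∃ p, p.Prime ∧ Nat.card A = p :=
      ⟨_, by interval_cases Nat.card A <;> norm_num, rfl⟩
    haveI := Fact.mk hpp
    have hA : ∀ x ∈ A, x ^ p = 1 := fun x hx => by
      have := pow_card_eq_one' (x := (⟨x, hx⟩ : A))
      rw [hpc] at this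
      exact congrArg Subtype.val this
    have hzp : Subgroup.zpowers a = A := by
      refine Subgroup.eq_of_le_of_card_ge ((Subgroup.zpowers_le).2 hp.1) ?_
      rw [Nat.card_zpowers, hpc, orderOf_eq_prime (hA a hp.1) hp.2.1]
    have hgen : Subgroup.closure ({a, b} : Set X) = ⊤ := by
      rw [eq_top_iff, ← h.1]
      have hAle : A ≤ Subgroup.closure ({a, b} : Set X) := by
        rw [← hzp, Subgroup.zpowers_le]
        exact Subgroup.subset_closure (Set.mem_insert _ _)
      refine sup_le hAle ?_
      rw [← hp.conj_left]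
      exact conjBy_le_of_le hAle (Subgroup.mul_mem _
        (Subgroup.subset_closure (Set.mem_insert _ _))
        (Subgroup.inv_mem _ (Subgroup.subset_closure (Set.mem_insert_of_mem _ rfl))))
    have he := closure_pair_sl2 hs hab hA hp
    rw [hgen] at he
    interval_cases Nat.card A
    · subst hpc
      refine Or.inl (he.elim (fun ⟨e⟩ => ⟨Subgroup.topEquiv.symm.trans e⟩) fun ⟨e⟩ => ?_)
      have hbot : Subgroup.center (Matrix.SpecialLinearGroup (Fin 2) (ZMod 2)) = ⊥ := by
        rw [Subgroup.eq_bot_iff_forall]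
        intro g hg
        rcases (CfsgLib.SL2.mem_center_iff g).1 hg with rfl | rfl
        · rfl
        · apply Subtype.ext
          ext i j
          fin_cases i <;> fin_cases j <;> simp <;> rfl
      exact ⟨(Subgroup.topEquiv.symm.trans e).trans
        ((QuotientGroup.quotientMulEquivOfEq hbot).trans QuotientGroup.quotientBot)⟩
    · subst hpc
      exact Or.inr (he.imp (fun ⟨e⟩ => ⟨Subgroup.topEquiv.symm.trans e⟩)
        fun ⟨e⟩ => ⟨Subgroup.topEquiv.symm.trans e⟩)

end Cfsg.Agent.S5020
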