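import Cfsg.Statements.S5021
import Cfsg.Agent.Lib.RootGroups.Special
-- import your own Cfsg.Agent.* helpers here

set_option autoImplicit false
open Cfsg

namespace Cfsg.Agent.S5021

open CfsgLib.RootGroups

/-- In a special rank one group with abelian unipotent subgroups A and B, either A is an elementary abelian p-group for some prime p, or A is torsion-free and divisible (every element of A has an n-th root in A for every positive n). -/
theorem result {X : Type*} [Group X] {A B : Subgroup X} (h : Cfsg.IsRankOneGroup X A B)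
    (hs : Cfsg.IsSpecialRankOnePair A B) (hab : Cfsg.HasAbelianUnipotents A B) :
    (∃ p : ℕ, p.Prime ∧ Cfsg.IsElementaryAbelian p A) ∨
    ((∀ a ∈ A, a ≠ 1 → ¬ IsOfFinOrder a) ∧ ∀ a ∈ A, ∀ n : ℕ, 0 < n → ∃ c ∈ A, c ^ n = a) := by
  by_cases htor : ∀ a ∈ A, a ≠ 1 → ¬ IsOfFinOrder a
  · refine Or.inr ⟨htor, fun a ha n hn => ?_⟩
    rcases eq_or_ne a 1 with rfl | ha1
    · exact ⟨1, A.one_mem, one_pow n⟩
    · exact exists_pow_eq hs hab ha fun e =>
        htor a ha ha1 (isOfFinOrder_iff_pow_eq_one.2 ⟨n, hn, e⟩)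
  · push Not at htor
    obtain ⟨a, ha, ha1, hfin⟩ := htor
    exact Or.inl ⟨orderOf a, prime_orderOf hs hab ha ha1 hfin, hab.1,
      fun x hx => pow_eq_one_of_torsion hs hab ha ha1 hfin hx⟩

end Cfsg.Agent.S5021
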