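import Cfsg.Statements.S5023
import Cfsg.Agent.Lib.RootGroups.Quadratic
-- import your own Cfsg.Agent.* helpers here

set_option autoImplicit false
open Cfsg

namespace Cfsg.Agent.S5023

open CfsgLib.RootGroups

/-- Let X be a rank one group with unipotent subgroups A and B that acts faithfully on an abelian group V (written additively) with A acting quadratically: a' • (a • v − v) = a • v − v for all a, a' in A and v in V. Then A is either torsion-free or an elementary abelian p-group for some prime p. -/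
theorem result {X : Type*} [Group X] {A B : Subgroup X} (h : Cfsg.IsRankOneGroup X A B)
    {V : Type*} [AddCommGroup V] [DistribMulAction X V] (hf : ∀ x : X, (∀ v : V, x • v = v) → x = 1)
    (hq : ∀ a ∈ A, ∀ a' ∈ A, ∀ v : V, a' • (a • v - v) = a • v - v) :
    (∀ a ∈ A, a ≠ 1 → ¬ IsOfFinOrder a) ∨ ∃ p : ℕ, p.Prime ∧ Cfsg.IsElementaryAbelian p A := by
  have hnt := nontrivial_of_faithful h.2 hq fun x _ => hf x
  have hcomm : ∀ a ∈ A, ∀ a' ∈ A, a * a' = a' * a := by
    intro a ha a' ha'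
    refine (inv_mul_eq_one.1 (hf ((a' * a)⁻¹ * (a * a')) fun v => ?_)).symm
    rw [mul_smul, inv_smul_eq_iff, mul_smul, mul_smul]
    have e1 := hq a' ha' a ha v
    have e2 := hq a ha a' ha' v
    rw [smul_sub, sub_eq_iff_eq_add] at e1 e2
    rw [e1, e2]
    abel
  have hpow : ∀ a ∈ A, ∀ (n : ℕ) (v : V), a ^ n • v = v + n • (a • v - v) := by
    intro a ha n
    induction n with
    | zero => intro v; simp
    | succ k ih =>
      intro v
      rw [pow_succ', mul_smul, ih v, smul_add, smul_comm a k (a • v - v), hq a ha a ha v, succ_nsmul]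
      abel
  by_cases htor : ∀ a ∈ A, a ≠ 1 → ¬ IsOfFinOrder a
  · exact Or.inl htor
  right
  push Not at htor
  obtain ⟨a₁, ha₁, ha₁1, hfin⟩ := htor
  obtain ⟨p, hp, hdvd⟩ := Nat.exists_prime_and_dvd
    (show orderOf a₁ ≠ 1 from fun e => ha₁1 (orderOf_eq_one_iff.1 e))
  have ha : a₁ ^ (orderOf a₁ / p) ∈ A := A.pow_mem ha₁ _
  have ha1 : a₁ ^ (orderOf a₁ / p) ≠ 1 := by
    intro e
    have h1 := Nat.le_of_dvd
      (Nat.div_pos (Nat.le_of_dvd (orderOf_pos_iff.2 hfin) hdvd) hp.pos)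
      (orderOf_dvd_of_pow_eq_one e)
    exact absurd h1 (not_le.2 (Nat.div_lt_self (orderOf_pos_iff.2 hfin) hp.one_lt))
  have hap : (a₁ ^ (orderOf a₁ / p)) ^ p = 1 := by
    rw [← pow_mul, Nat.div_mul_cancel hdvd, pow_orderOf_eq_one]
  refine ⟨p, hp, ⟨⟨fun x y => Subtype.ext (hcomm x x.2 y y.2)⟩⟩, fun a' ha' => ?_⟩
  by_contra hne
  obtain ⟨v, hv, hnv⟩ := hnt
  obtain ⟨b', hb'⟩ := exists_paired h.2 (A.pow_mem ha' p) hne
  obtain ⟨b, hb⟩ := exists_paired h.2 ha ha1
  -- `v` lies in `p [V, A]` modulo fixed vectors, and `p [V, A]` is fixed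
  have h1 := fixedBy_key h.2 hq hb' hv
  obtain ⟨u, hu⟩ : ∃ u, u = b'⁻¹ • v - v := ⟨_, rfl⟩
  rw [← hu, hpow a' ha' p u, add_sub_cancel_left] at h1
  have hw := smul_sub_mem_commModule (A := A) ha' u
  have h2 := fixedBy_key h.2 hq hb hw
  obtain ⟨w, hwd⟩ : ∃ w, w = a' • u - u := ⟨_, rfl⟩
  obtain ⟨u', hu'⟩ : ∃ u', u' = b⁻¹ • w - w := ⟨_, rfl⟩
  rw [← hwd, ← hu'] at h2
  rw [← hwd] at h1
  have h3 : p • (a₁ ^ (orderOf a₁ / p) • u' - u') = 0 := by
    have h4 := hpow _ ha p u'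
    rw [hap, one_smul] at h4
    exact left_eq_add.1 h4
  have h5 : FixedBy A B (p • w) := by
    intro x hx
    have h6 := congrArg (p • ·) (h2 x hx)
    simp only [smul_add, h3, add_zero] at h6
    rw [smul_comm x p w]
    have h7 : p • (x • (a₁ ^ (orderOf a₁ / p) • u' - u')) = 0 := by
      rw [← smul_comm, h3, smul_zero]
    rwa [h7, add_zero] at h6
  exact hnv (by simpa using fixedBy_sub h1 h5)

end Cfsg.Agent.S5023
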