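import Cfsg.Statements.S5024
import Cfsg.Agent.Lib.RootGroups.Sets
-- import your own Cfsg.Agent.* helpers here

set_option autoImplicit false
open Cfsg

namespace Cfsg.Agent.S5024

open CfsgLib.RootGroups

/-- Let S be a set of abstract root subgroups of G, A and C members of S, B a rank one partner of A in S and D a rank one partner of C in S. If the rank one group ⟨A, B⟩ is contained in ⟨C, D⟩ then the two coincide, and C and D are conjugates of A inside ⟨A, B⟩. -/
theorem result {G : Type*} [Group G] {S : Set (Subgroup G)} (hS : Cfsg.IsRootSubgroupSet S)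
    {A B C D : Subgroup G} (hA : A ∈ S) (hC : C ∈ S) (hB : B ∈ Cfsg.rankOnePartners S A) (hD : D ∈ Cfsg.rankOnePartners S C)
    (hle : A ⊔ B ≤ C ⊔ D) : A ⊔ B = C ⊔ D ∧ C ∈ Cfsg.unipotentSubgroups A B ∧ D ∈ Cfsg.unipotentSubgroups A B := by
  obtain ⟨hBS, hp⟩ := hB
  obtain ⟨hDS, hq⟩ := hD
  obtain ⟨a, b, hab⟩ := exists_paired_pair hp
  have hAle : A ≤ C ⊔ D := le_sup_left.trans hle
  have hBle : B ≤ C ⊔ D := le_sup_right.trans hle
  have hA' : A ∈ Cfsg.unipotentSubgroups C D :=
    (mem_unipotent_or_central hS hC hDS hq hA hAle).resolve_right fun h =>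
      not_commute hp hab.1 hab.2.1 hab.2.2.1 hab.2.2.2.1 (h a hab.1 b (hBle hab.2.2.1))
  have hB' : B ∈ Cfsg.unipotentSubgroups C D :=
    (mem_unipotent_or_central hS hC hDS hq hBS hBle).resolve_right fun h =>
      not_commute hp hab.1 hab.2.1 hab.2.2.1 hab.2.2.2.1 (h b hab.2.2.1 a (hAle hab.1)).symm
  refine ⟨sup_eq_of_mem hq hA' hB' hp.ne, ?_, ?_⟩ <;>
    rw [unipotentSubgroups_of_mem hq hA' hB' hp.ne]
  · exact left_mem_unipotent C D
  · exact right_mem_unipotent hq

end Cfsg.Agent.S5024
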