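import Cfsg.Statements.S5026
import Cfsg.Agent.Lib.RootGroups.Sets
-- import your own Cfsg.Agent.* helpers here

set_option autoImplicit false
open Cfsg

namespace Cfsg.Agent.S5026

open CfsgLib.RootGroups

/-- Let S be a degenerate set of abstract root subgroups of G (a set of abstract transvection groups) and let a, b be commuting non-identity elements of members of S with a b ≠ 1. Then the members of S centralizing a b are exactly those centralizing both a and b. -/
theorem result {G : Type*} [Group G] {S : Set (Subgroup G)} (hS : Cfsg.IsRootSubgroupSet S) (hdeg : Cfsg.IsDegenerateRootSet S)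
    {a b : G} (ha : a ∈ Cfsg.rootElements S) (hb : b ∈ Cfsg.rootElements S) (hab : a * b = b * a) (hab1 : a * b ≠ 1) :
    Cfsg.centralizingMembers S (Subgroup.zpowers (a * b)) =
      Cfsg.centralizingMembers S (Subgroup.zpowers a) ∩ Cfsg.centralizingMembers S (Subgroup.zpowers b) := by
  have hmem : ∀ (E : Subgroup G) (x : G),
      E ≤ Subgroup.centralizer ((Subgroup.zpowers x : Subgroup G) : Set G) ↔
        ∀ e ∈ E, Commute e x := by
    intro E x
    constructor
    · exact fun h e he =>
        (Subgroup.mem_centralizer_iff.1 (h he) x (Subgroup.mem_zpowers x)).symm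
    · intro h e he
      refine Subgroup.mem_centralizer_iff.2 ?_
      rintro y ⟨n, rfl⟩
      exact ((h e he).zpow_right n).symm.eq
  obtain ⟨ha1, A, hA, haA⟩ := ha
  obtain ⟨hb1, B, hB, hbB⟩ := hb
  ext E
  simp only [Cfsg.centralizingMembers, Set.mem_ofPred_eq, Set.mem_inter_iff, hmem]
  constructor
  · rintro ⟨hE, hc⟩
    have hconj : ∀ e ∈ E, Commute e a → Commute e b := fun e he h => by
      have h1 := (h.inv_right).mul_right (hc e he)
      rwa [inv_mul_cancel_left] at h1
    suffices h : ∀ e ∈ E, Commute e a from ⟨⟨hE, h⟩, hE, fun e he => hconj e he (h e he)⟩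
    intro e he
    haveI := hS.commutative A hA
    rcases hS.pair A hA E hE with h1 | h1 | h1
    · exact (commutator_eq_bot_iff_forall_commute.1 h1 a haA e he).symm
    · exfalso
      rcases hS.pair B hB E hE with h2 | h2 | h2
      · obtain ⟨e', he'1, he'2⟩ := exists_ne_one_of_ne_bot (hS.ne_bot E hE)
        have h3 : Commute e' b := (commutator_eq_bot_iff_forall_commute.1 h2 b hbB e' he'1).symm
        have h4 := (hc e' he'1).mul_right h3.inv_right
        rw [mul_inv_cancel_right] at h4
        exact not_commute h1 haA ha1 he'1 he'2 h4.symm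
      · -- both rank one pairs: `B` is a conjugate of `A`
        obtain ⟨e₁, h₁⟩ := exists_paired h1 haA ha1
        obtain ⟨e₂, h₂⟩ := exists_paired h2 (B.inv_mem hbB) (inv_ne_one.2 hb1)
        have hEE : Cfsg.conjBy E a⁻¹ = Cfsg.conjBy E b := by
          have h5 : Cfsg.conjBy E (a * b) = E :=
            conjBy_of_commute fun x hx => (hc x hx).symm
          conv_lhs => rw [← h5, conjBy_conjBy, inv_mul_cancel_left]
        have hB' : B ∈ Cfsg.unipotentSubgroups A E := by
          have h6 := h₂.2.2.2.2
          rw [inv_inv, ← hEE, ← h₁.2.2.2.2, conjBy_eq_iff, inv_inv, conjBy_conjBy] at h6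
          exact ⟨_, Subgroup.mul_mem _ (Subgroup.mem_sup_right h₂.2.2.1)
            (Subgroup.inv_mem _ (Subgroup.mem_sup_right h₁.2.2.1)), h6⟩
        by_cases hAB : B = A
        · refine not_commute h1 (A.mul_mem haA (hAB ▸ hbB)) hab1 h₁.2.2.1 ?_ ?_
          · exact h₁.2.2.2.1
          · exact (hc e₁ h₁.2.2.1).symm
        · exact not_commute (isRankOnePair_of_mem h1 hB' (left_mem_unipotent A E) hAB) hbB hb1
            haA ha1 hab.symm
      · exact hdeg B hB E hE h2
    · exact absurd h1 (hdeg A hA E hE)
  · rintro ⟨⟨hE, h1⟩, -, h2⟩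
    exact ⟨hE, fun e he => (h1 e he).mul_right (h2 e he)⟩

end Cfsg.Agent.S5026
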