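import Cfsg.Statements.S5027
import Cfsg.Agent.Lib.RootGroups.Sets
-- import your own Cfsg.Agent.* helpers here

set_option autoImplicit false
open Cfsg

namespace Cfsg.Agent.S5027

open CfsgLib.RootGroups

/-- Let S be a set of abstract root subgroups of G such that every member of S has a rank one partner in S (the graph of rank one pairs on S has no isolated vertex). Then the second centre of G equals its centre. -/
theorem result {G : Type*} [Group G] {S : Set (Subgroup G)} (hS : Cfsg.IsRootSubgroupSet S)
    (hF : ∀ A ∈ S, ¬ Cfsg.IsIsolatedIn (Cfsg.FAdj S) S A) : Subgroup.upperCentralSeries G 2 = Subgroup.center G := by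
  refine le_antisymm ?_ (Subgroup.upperCentralSeries_one G ▸
    Subgroup.upperCentralSeries_mono G one_le_two)
  intro z hz
  have hz' : ∀ g : G, z * g * z⁻¹ * g⁻¹ ∈ Subgroup.center G := fun g => by
    have := (Subgroup.mem_upperCentralSeries_succ_iff (G := G) (n := 1)).1 hz g
    rwa [Subgroup.upperCentralSeries_one] at this
  have hcomm : ∀ A ∈ S, A ≤ Subgroup.centralizer ({z} : Set G) := by
    intro A hA a ha
    rw [Subgroup.mem_centralizer_singleton_iff]
    rcases eq_or_ne a 1 with rfl | ha1
    · simp
    obtain ⟨B, hB, hp⟩ := (not_isolated_iff hA).1 (hF A hA)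
    have hmem : (z * a * z⁻¹ * a⁻¹) * a ∈ Cfsg.conjBy A z := by
      rw [inv_mul_cancel_right]; exact conj_mem_conjBy ha
    have h1 := (eq_of_mul_mem hS hA hB (hS.conj_mem A hA z) hp
      (fun x _ => (Subgroup.mem_center_iff.1 (hz' a) x).symm) ha ha1 hmem).2
    exact (mul_inv_eq_iff_eq_mul.1 (mul_inv_eq_one.1 h1)).symm
  have htop : Subgroup.centralizer ({z} : Set G) = ⊤ :=
    top_le_iff.1 (hS.generates ▸ iSup₂_le hcomm)
  exact Subgroup.mem_center_iff.2 fun g =>
    Subgroup.mem_centralizer_singleton_iff.1 (htop.symm ▸ Subgroup.mem_top g)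

end Cfsg.Agent.S5027
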