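import Cfsg.Statements.S5029
import Cfsg.Agent.Lib.RootGroups.Connected
-- import your own Cfsg.Agent.* helpers here

set_option autoImplicit false
open Cfsg

namespace Cfsg.Agent.S5029

open CfsgLib.RootGroups

/-- Let S be a set of abstract root subgroups of G, A ∈ S having a rank one partner in S, and B ∈ S with C = ⁅A, B⁆ ∈ S. Then the members of S contained in AC are the conjugates of A by elements of B together with C, they partition AC, the members of S inside AC partition AC so that A is a line partner of C, and for every non-identity a ∈ A the map b ↦ a⁻¹ b⁻¹ a b is an isomorphism from B onto C. -/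
theorem result {G : Type*} [Group G] {S : Set (Subgroup G)} (hS : Cfsg.IsRootSubgroupSet S)
    {A B : Subgroup G} (hA : ¬ Cfsg.IsIsolatedIn (Cfsg.FAdj S) S A) (hAS : A ∈ S) (hB : B ∈ S) (hC : ⁅A, B⁆ ∈ S) :
    Cfsg.membersIn S (A ⊔ ⁅A, B⁆) = (fun b : G => Cfsg.conjBy A b) '' (B : Set G) ∪ {⁅A, B⁆} ∧
    Cfsg.IsSubgroupPartition (A ⊔ ⁅A, B⁆) (Cfsg.membersIn S (A ⊔ ⁅A, B⁆)) ∧
    A ∈ Cfsg.linePartners S ⁅A, B⁆ ∧
    ∀ a ∈ A, a ≠ 1 → ∃ φ : ↥B ≃* ↥⁅A, B⁆, ∀ b : ↥B, (φ b : G) = a⁻¹ * (b : G)⁻¹ * a * b := by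
  obtain ⟨A', hA', hp⟩ := (not_isolated_iff hAS).1 hA
  have h := rcc_of_commutator_mem hS hAS hB hC
  refine ⟨rcc_membersIn hS hAS hA' hp h, rcc_partition hS hAS hA' hp h,
    (rcc_linePartners hS hAS hA' hp h).1, fun a ha ha1 => ?_⟩
  haveI := hS.commutative B hB
  have hmem : ∀ b : ↥B, a⁻¹ * (b : G)⁻¹ * a * b ∈ ⁅A, B⁆ := fun b => by
    simpa using mem_commutator_of_mem (A.inv_mem ha) (B.inv_mem b.2)
  let ψ : ↥B →* ↥⁅A, B⁆ := MonoidHom.mk' (fun b => ⟨_, hmem b⟩) (fun x y => Subtype.ext (by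
    have h1 := (rcc_commute_right h (hmem x) y.2).eq
    have h2 := (commute_of_isMulCommutative x.2 y.2).eq
    show a⁻¹ * ((x * y : ↥B) : G)⁻¹ * a * ((x * y : ↥B) : G) =
      (a⁻¹ * (x : G)⁻¹ * a * x) * (a⁻¹ * (y : G)⁻¹ * a * y)
    rw [Subgroup.coe_mul]
    calc a⁻¹ * ((x : G) * y)⁻¹ * a * ((x : G) * y)
        = (a⁻¹ * (y : G)⁻¹ * a) * ((a⁻¹ * (x : G)⁻¹ * a * x) * y) := by group
      _ = (a⁻¹ * (y : G)⁻¹ * a) * (y * (a⁻¹ * (x : G)⁻¹ * a * x)) := by rw [h1]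
      _ = (a⁻¹ * (y : G)⁻¹ * a * y) * (a⁻¹ * (x : G)⁻¹ * a * x) := by group
      _ = _ := by
        haveI := hS.commutative _ hC
        exact (commute_of_isMulCommutative (hmem y) (hmem x)).eq))
  have hinj : Function.Injective ψ := by
    intro x y e
    have e' : a⁻¹ * (x : G)⁻¹ * a * x = a⁻¹ * (y : G)⁻¹ * a * y := congrArg Subtype.val e
    have := rcc_commutator_inj hS hAS hA' hp h (A.inv_mem ha) (inv_ne_one.2 ha1)
      (B.inv_mem x.2) (B.inv_mem y.2) (by simpa using e')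
    exact Subtype.ext (inv_injective this)
  have hsurj : Function.Surjective ψ := by
    rintro ⟨c, hc⟩
    obtain ⟨b, hb, e⟩ := rcc_exists_commutator h (A.inv_mem ha) (inv_ne_one.2 ha1) hc
    exact ⟨⟨b⁻¹, B.inv_mem hb⟩, Subtype.ext (by simpa [ψ] using e)⟩
  exact ⟨MulEquiv.ofBijective ψ ⟨hinj, hsurj⟩, fun b => rfl⟩

end Cfsg.Agent.S5029
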