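import Cfsg.Statements.S5030
import Cfsg.Agent.Lib.RootGroups.Nilpotent
-- import your own Cfsg.Agent.* helpers here

set_option autoImplicit false
open Cfsg

namespace Cfsg.Agent.S5030

open CfsgLib.RootGroups
open scoped commutatorElement

/-- Let S be a set of abstract root subgroups of G and A, B, C ∈ S with ⁅A, B⁆ ∈ S and ⁅B, C⁆ ∈ S, where A and C are different and commute. For a non-identity b ∈ B put X = ⟨A, b⁻¹ C b⟩ and Y = ⟨b⁻¹ A b, C⟩ and R = ⟨A, B, C⟩. Then X and Y are either both abelian or both nilpotent of class exactly two; X and Y commute elementwise; XY is normal in R with R = (XY) B; and R is nilpotent. -/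
theorem result {G : Type*} [Group G] {S : Set (Subgroup G)} (hS : Cfsg.IsRootSubgroupSet S)
    {A B C : Subgroup G} (hA : A ∈ S) (hB : B ∈ S) (hC : C ∈ S) (hAB : ⁅A, B⁆ ∈ S) (hBC : ⁅B, C⁆ ∈ S)
    (hAC : C ∈ Cfsg.commutingPartners S A)
    {b : G} (hb : b ∈ B) (hb1 : b ≠ 1) :
    ((IsMulCommutative ↥(A ⊔ Cfsg.conjBy C b⁻¹) ∧ IsMulCommutative ↥(Cfsg.conjBy A b⁻¹ ⊔ C)) ∨
      ((¬ IsMulCommutative ↥(A ⊔ Cfsg.conjBy C b⁻¹) ∧
          ⁅⁅A ⊔ Cfsg.conjBy C b⁻¹, A ⊔ Cfsg.conjBy C b⁻¹⁆, A ⊔ Cfsg.conjBy C b⁻¹⁆ = ⊥) ∧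
        (¬ IsMulCommutative ↥(Cfsg.conjBy A b⁻¹ ⊔ C) ∧
          ⁅⁅Cfsg.conjBy A b⁻¹ ⊔ C, Cfsg.conjBy A b⁻¹ ⊔ C⁆, Cfsg.conjBy A b⁻¹ ⊔ C⁆ = ⊥))) ∧
    ⁅A ⊔ Cfsg.conjBy C b⁻¹, Cfsg.conjBy A b⁻¹ ⊔ C⁆ = ⊥ ∧
    (∀ r ∈ A ⊔ B ⊔ C, Cfsg.conjBy ((A ⊔ Cfsg.conjBy C b⁻¹) ⊔ (Cfsg.conjBy A b⁻¹ ⊔ C)) r =
      (A ⊔ Cfsg.conjBy C b⁻¹) ⊔ (Cfsg.conjBy A b⁻¹ ⊔ C)) ∧
    ((A ⊔ Cfsg.conjBy C b⁻¹) ⊔ (Cfsg.conjBy A b⁻¹ ⊔ C)) ⊔ B = A ⊔ B ⊔ C ∧
    Group.IsNilpotent ↥(A ⊔ B ⊔ C) := by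
  have h1 := rcc_of_commutator_mem hS hA hB hAB
  have h2 := rcc_of_commutator_mem hS hB hC hBC
  have hAC' : ∀ a ∈ A, ∀ c ∈ C, Commute a c := commutator_eq_bot_iff_forall_commute.1 hAC.2.2
  haveI := hS.commutative A hA
  haveI := hS.commutative B hB
  haveI := hS.commutative C hC
  -- the two halves of the configuration, symmetrically
  have hconjA : ∀ b ∈ B, Cfsg.conjBy A b ≤ A ⊔ ⁅A, B⁆ := fun b hb => rcc_conjBy_le h1 hb
  have hconjC : ∀ b ∈ B, Cfsg.conjBy C b ≤ C ⊔ ⁅B, C⁆ := fun b hb => by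
    rw [Subgroup.commutator_comm B C]
    exact rcc_conjBy_le (rootCommutatorCase_symm h2) hb
  have hbi : b⁻¹ ∈ B := B.inv_mem hb
  have hbi1 : b⁻¹ ≠ 1 := inv_ne_one.2 hb1
  have hmem : ∀ (U : Subgroup G) (u : G), u ∈ U → b⁻¹ * u * b ∈ Cfsg.conjBy U b⁻¹ := by
    intro U u hu
    simpa using conj_mem_conjBy (g := b⁻¹) hu
  have haa' : ∀ a ∈ A, ∀ x ∈ A ⊔ ⁅A, B⁆, Commute a x := fun a ha x hx =>
    commute_of_sup (fun y hy => commute_of_isMulCommutative ha hy)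
      (fun y hy => (rcc_commute_left h1 hy ha).symm) x hx
  have hcc' : ∀ c ∈ C, ∀ x ∈ C ⊔ ⁅B, C⁆, Commute c x := fun c hc x hx =>
    commute_of_sup (fun y hy => commute_of_isMulCommutative hc hy)
      (fun y hy => (rcc_commute_right h2 hy hc).symm) x hx
  -- the pairs are not rank one
  have hX1 : ¬ Cfsg.IsRankOnePair A (Cfsg.conjBy C b⁻¹) := by
    intro hp
    obtain ⟨c, hc, hne⟩ : ∃ c ∈ C, b⁻¹ * c * b * c⁻¹ ≠ 1 := by
      by_contra hh
      push Not at hh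
      apply rcc_ne_bot hS h2
      rw [← h2.2.2.1 _ hbi hbi1, eq_bot_iff, Subgroup.closure_le]
      rintro _ ⟨c, hc, rfl⟩
      simp only [inv_inv, SetLike.mem_coe, Subgroup.mem_bot]
      exact hh c hc
    have hc1 : c ≠ 1 := fun e => hne (by rw [e]; group)
    have hz : ∀ x ∈ Cfsg.conjBy C b⁻¹ ⊔ A, Commute c⁻¹ x := commute_of_sup
      (fun y hy => (hcc' c hc y (hconjC _ hbi hy)).inv_left)
      (fun y hy => ((hAC' y hy c hc).symm).inv_left)
    have hq : c⁻¹ * (b⁻¹ * c * b) ∈ ⁅B, C⁆ := by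
      have h3 : b⁻¹ * c * b * c⁻¹ ∈ ⁅B, C⁆ := by simpa using mem_commutator_of_mem hbi hc
      have h4 : c⁻¹ * (b⁻¹ * c * b) = c⁻¹ * (b⁻¹ * c * b * c⁻¹) * c := by group
      rwa [h4, mul_assoc, (rcc_commute_right h2 h3 hc).eq, inv_mul_cancel_left]
    refine hc1 (inv_eq_one.1 (eq_of_mul_mem hS (hS.conj_mem C hC b⁻¹) hA h2.1
      (Cfsg.RankOnePair_symm hp) hz (hmem C c hc) (fun e => hc1 ?_) hq).2)
    calc c = b * (b⁻¹ * c * b) * b⁻¹ := by group
      _ = 1 := by rw [e]; group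
  have hY1 : ¬ Cfsg.IsRankOnePair (Cfsg.conjBy A b⁻¹) C := by
    intro hp
    obtain ⟨a, ha, hne⟩ : ∃ a ∈ A, a * b⁻¹ * a⁻¹ * b⁻¹⁻¹ ≠ 1 := by
      by_contra hh
      push Not at hh
      apply rcc_ne_bot hS h1
      rw [← h1.2.2.2 _ hbi hbi1, eq_bot_iff, Subgroup.closure_le]
      rintro _ ⟨a, ha, rfl⟩
      simp only [SetLike.mem_coe, Subgroup.mem_bot]
      exact hh a ha
    have ha1 : a ≠ 1 := fun e => hne (by rw [e]; group)
    have hz : ∀ x ∈ Cfsg.conjBy A b⁻¹ ⊔ C, Commute a⁻¹ x := commute_of_sup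
      (fun y hy => (haa' a ha y (hconjA _ hbi hy)).inv_left)
      (fun y hy => (hAC' a ha y hy).inv_left)
    have hq : a⁻¹ * (b⁻¹ * a * b) ∈ ⁅A, B⁆ := by
      have h3 := mem_commutator_of_mem (A.inv_mem ha) hbi
      simpa [mul_assoc] using h3
    refine ha1 (inv_eq_one.1 (eq_of_mul_mem hS (hS.conj_mem A hA b⁻¹) hC h1.1 hp hz
      (hmem A a ha) (fun e => ha1 ?_) hq).2)
    calc a = b * (b⁻¹ * a * b) * b⁻¹ := by group
      _ = 1 := by rw [e]; group
  set X := A ⊔ Cfsg.conjBy C b⁻¹ with hX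
  set Y := Cfsg.conjBy A b⁻¹ ⊔ C with hY
  -- commutativity of `X` and `Y` is equivalent
  have hAeq : ∀ y ∈ B, y ≠ 1 →
      (⁅Cfsg.conjBy A y, C⁆ = ⊥ ↔ ⁅(⁅A, B⁆ : Subgroup G), C⁆ = ⊥) := by
    intro y hy hy1
    simp only [commutator_eq_bot_iff_forall_commute]
    constructor
    · intro h p hp c hc
      have hle : ⁅A, B⁆ ≤ Subgroup.centralizer ({c} : Set G) := by
        rw [← h1.2.2.2 y hy hy1, Subgroup.closure_le]
        rintro _ ⟨a, ha, rfl⟩
        simp only [SetLike.mem_coe, Subgroup.mem_centralizer_singleton_iff]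
        rw [show a * y * a⁻¹ * y⁻¹ = a * (y * a⁻¹ * y⁻¹) by group]
        exact ((hAC' a ha c hc).mul_left
          (h _ (conj_mem_conjBy (A.inv_mem ha)) c hc)).eq
      exact Subgroup.mem_centralizer_singleton_iff.1 (hle hp)
    · intro h x hx c hc
      exact (commute_of_sup (g := c) (fun a ha => (hAC' a ha c hc).symm)
        (fun p hp => (h p hp c hc).symm) x (hconjA y hy hx)).symm
  have hXY : IsMulCommutative ↥X ↔ IsMulCommutative ↥Y := by
    rw [isMulCommutative_sup_iff hS hA (hS.conj_mem C hC b⁻¹),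
      isMulCommutative_sup_iff hS (hS.conj_mem A hA b⁻¹) hC, hAeq _ hbi hbi1, ← hAeq b hb hb1,
      ← conjBy_eq_bot (g := b), conjBy_commutator, conjBy_cancel_inv]
  have hX2 := class_two_of_not_rankOne hS hA (hS.conj_mem C hC b⁻¹) hX1
  have hY2 := class_two_of_not_rankOne hS (hS.conj_mem A hA b⁻¹) hC hY1
  -- `X` and `Y` commute
  have hcomm : ∀ x ∈ X, ∀ y ∈ Y, Commute x y := by
    intro x hx y hy
    refine (commute_of_sup (g := y) (fun a ha => ?_) (fun c hc => ?_) x hx).symm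
    · exact (commute_of_sup (g := a) (fun u hu => haa' a ha u (hconjA _ hbi hu))
        (fun u hu => hAC' a ha u hu) y hy).symm
    · refine (commute_of_sup (g := c) (fun u hu => ?_) (fun u hu => ?_) y hy).symm
      · rw [mem_conjBy, inv_inv] at hu hc
        have := ((hAC' _ hu _ hc).map (MulAut.conj b⁻¹).toMonoidHom).symm
        simpa [mul_assoc] using this
      · exact (hcc' u hu c (hconjC _ hbi hc)).symm
  -- the product
  set W := ⁅A, B⁆ ⊔ ⁅B, C⁆ with hW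
  set M := X ⊔ Y with hM
  have hPM : ⁅A, B⁆ ≤ M := by
    rw [← h1.2.2.2 _ hbi hbi1, Subgroup.closure_le]
    rintro _ ⟨a, ha, rfl⟩
    rw [SetLike.mem_coe]
    simp only [inv_inv]
    rw [show a * b⁻¹ * a⁻¹ * b = a * (b⁻¹ * a⁻¹ * b) by group]
    exact M.mul_mem (Subgroup.mem_sup_left (Subgroup.mem_sup_left ha))
      (Subgroup.mem_sup_right (Subgroup.mem_sup_left (hmem A a⁻¹ (A.inv_mem ha))))
  have hQM : ⁅B, C⁆ ≤ M := by
    rw [← h2.2.2.1 _ hbi hbi1, Subgroup.closure_le]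
    rintro _ ⟨c, hc, rfl⟩
    rw [SetLike.mem_coe]
    simp only [inv_inv]
    exact M.mul_mem (Subgroup.mem_sup_left (Subgroup.mem_sup_right (hmem C c hc)))
      (Subgroup.mem_sup_right (Subgroup.mem_sup_right (C.inv_mem hc)))
  have hMeq : M = A ⊔ C ⊔ W := by
    refine le_antisymm (sup_le (sup_le (le_sup_left.trans le_sup_left) ?_)
      (sup_le ?_ (le_sup_right.trans le_sup_left))) (sup_le (sup_le ?_ ?_) (sup_le hPM hQM))
    · exact (hconjC _ hbi).trans (sup_le (le_sup_right.trans le_sup_left)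
        (le_sup_right.trans le_sup_right))
    · exact (hconjA _ hbi).trans (sup_le (le_sup_left.trans le_sup_left)
        (le_sup_left.trans le_sup_right))
    · exact le_sup_left.trans le_sup_left
    · exact le_sup_right.trans le_sup_right
  have hAM : A ≤ M := le_sup_left.trans le_sup_left
  have hCM : C ≤ M := le_sup_right.trans le_sup_right
  have hWM : W ≤ M := sup_le hPM hQM
  have hBW : ∀ y ∈ B, ∀ w ∈ W, Commute y w := fun y hy w hw =>
    commute_of_sup (fun p hp => (rcc_commute_right h1 hp hy).symm)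
      (fun q hq => (rcc_commute_left h2 hq hy).symm) w hw
  have hMB : M ⊔ B = A ⊔ B ⊔ C := by
    refine le_antisymm (sup_le (hMeq.le.trans (sup_le (sup_le ?_ ?_) (sup_le ?_ ?_))) ?_)
      (sup_le (sup_le (hAM.trans le_sup_left) le_sup_right) (hCM.trans le_sup_left))
    · exact le_sup_left.trans le_sup_left
    · exact le_sup_right
    · rw [Subgroup.commutator_le]
      intro x hx y hy
      rw [commutatorElement_def]
      exact Subgroup.mul_mem _ (Subgroup.mul_mem _ (Subgroup.mul_mem _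
        (Subgroup.mem_sup_left (Subgroup.mem_sup_left hx))
        (Subgroup.mem_sup_left (Subgroup.mem_sup_right hy)))
        (Subgroup.inv_mem _ (Subgroup.mem_sup_left (Subgroup.mem_sup_left hx))))
        (Subgroup.inv_mem _ (Subgroup.mem_sup_left (Subgroup.mem_sup_right hy)))
    · rw [Subgroup.commutator_le]
      intro x hx y hy
      rw [commutatorElement_def]
      exact Subgroup.mul_mem _ (Subgroup.mul_mem _ (Subgroup.mul_mem _
        (Subgroup.mem_sup_left (Subgroup.mem_sup_right hx)) (Subgroup.mem_sup_right hy))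
        (Subgroup.inv_mem _ (Subgroup.mem_sup_left (Subgroup.mem_sup_right hx))))
        (Subgroup.inv_mem _ (Subgroup.mem_sup_right hy))
    · exact le_sup_right.trans le_sup_left
  have hBle : ∀ y ∈ B, Cfsg.conjBy M y ≤ M := by
    intro y hy
    rw [hMeq, conjBy_sup, conjBy_sup, conjBy_of_commute (hBW y hy)]
    refine sup_le (sup_le ((hconjA y hy).trans ?_) ((hconjC y hy).trans ?_)) le_sup_right
    · exact sup_le (le_sup_left.trans le_sup_left) (le_sup_left.trans le_sup_right)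
    · exact sup_le (le_sup_right.trans le_sup_left) (le_sup_right.trans le_sup_right)
  have hBnorm : B ≤ Subgroup.normalizer (M : Set G) := by
    intro y hy
    refine conjBy_eq_self_iff.1 (le_antisymm (hBle y hy) ?_)
    have := conjBy_mono (g := y) (hBle y⁻¹ (B.inv_mem hy))
    rwa [conjBy_cancel_inv] at this
  have hRnorm : ∀ r ∈ A ⊔ B ⊔ C, Cfsg.conjBy M r = M := fun r hr => by
    refine conjBy_eq_self_iff.2 ?_
    rw [← hMB] at hr
    exact (sup_le Subgroup.le_normalizer hBnorm : M ⊔ B ≤ _) hr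
  -- commutators in `M` are central in `M`
  have hMcom : ∀ x ∈ M, ∀ y ∈ M, ∀ z ∈ M, Commute (x * y * x⁻¹ * y⁻¹) z := by
    intro x hx y hy z hz
    obtain ⟨x₁, hx₁, x₂, hx₂, rfl⟩ := exists_mul_of_mem_sup hcomm hx
    obtain ⟨y₁, hy₁, y₂, hy₂, rfl⟩ := exists_mul_of_mem_sup hcomm hy
    have he : (x₁ * x₂) * (y₁ * y₂) * (x₁ * x₂)⁻¹ * (y₁ * y₂)⁻¹ =
        (x₁ * y₁ * x₁⁻¹ * y₁⁻¹) * (x₂ * y₂ * x₂⁻¹ * y₂⁻¹) := by
      calc (x₁ * x₂) * (y₁ * y₂) * (x₁ * x₂)⁻¹ * (y₁ * y₂)⁻¹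
          = x₁ * (x₂ * y₁) * y₂ * x₂⁻¹ * x₁⁻¹ * y₂⁻¹ * y₁⁻¹ := by group
        _ = x₁ * (y₁ * x₂) * y₂ * x₂⁻¹ * x₁⁻¹ * y₂⁻¹ * y₁⁻¹ := by rw [(hcomm _ hy₁ _ hx₂).eq]
        _ = x₁ * y₁ * ((x₂ * y₂ * x₂⁻¹) * x₁⁻¹) * y₂⁻¹ * y₁⁻¹ := by group
        _ = x₁ * y₁ * (x₁⁻¹ * (x₂ * y₂ * x₂⁻¹)) * y₂⁻¹ * y₁⁻¹ := by
          rw [← (hcomm _ (X.inv_mem hx₁) _
            (Y.mul_mem (Y.mul_mem hx₂ hy₂) (Y.inv_mem hx₂))).eq]
        _ = x₁ * y₁ * x₁⁻¹ * ((x₂ * y₂ * x₂⁻¹ * y₂⁻¹) * y₁⁻¹) := by group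
        _ = x₁ * y₁ * x₁⁻¹ * (y₁⁻¹ * (x₂ * y₂ * x₂⁻¹ * y₂⁻¹)) := by
          rw [← (hcomm _ (X.inv_mem hy₁) _
            (Y.mul_mem (Y.mul_mem (Y.mul_mem hx₂ hy₂) (Y.inv_mem hx₂)) (Y.inv_mem hy₂))).eq]
        _ = _ := by group
    rw [he]
    have hk₁ : x₁ * y₁ * x₁⁻¹ * y₁⁻¹ ∈ X :=
      X.mul_mem (X.mul_mem (X.mul_mem hx₁ hy₁) (X.inv_mem hx₁)) (X.inv_mem hy₁)
    have hk₂ : x₂ * y₂ * x₂⁻¹ * y₂⁻¹ ∈ Y :=
      Y.mul_mem (Y.mul_mem (Y.mul_mem hx₂ hy₂) (Y.inv_mem hx₂)) (Y.inv_mem hy₂)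
    exact Commute.mul_left
      (commute_of_sup (commutator_eq_bot_iff_forall_commute.1 hX2 _
        (mem_commutator_of_mem hx₁ hy₁)) (fun u hu => hcomm _ hk₁ u hu) z hz)
      (commute_of_sup (fun u hu => (hcomm u hu _ hk₂).symm)
        (commutator_eq_bot_iff_forall_commute.1 hY2 _ (mem_commutator_of_mem hx₂ hy₂)) z hz)
  -- nilpotency
  set R := A ⊔ B ⊔ C with hR
  set T : Set G := (A : Set G) ∪ B ∪ C with hT'
  have hT : Subgroup.closure T = R := by
    rw [hT', Subgroup.closure_union, Subgroup.closure_union, Subgroup.closure_eq,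
      Subgroup.closure_eq, Subgroup.closure_eq]
  have hMR : M ≤ R := hMB ▸ le_sup_left
  let com : G → G → G := fun x y => x * y * x⁻¹ * y⁻¹
  have hM' : ∀ k, (∀ z ∈ M, Commute k z) → ∀ (n : ℕ), k ∈ R →
      (∀ y ∈ B, k * y * k⁻¹ * y⁻¹ ∈ ucsIn R n) → k ∈ ucsIn R (n + 1) := by
    intro k hk n hkR hB'
    refine mem_ucsIn_succ hT hkR ?_
    rintro g ((hg | hg) | hg)
    · rw [(hk g (hAM hg)).eq]; simp
    · exact hB' g hg
    · rw [(hk g (hCM hg)).eq]; simp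
  -- `⁅B, M⁆` lies in `W` times commutators of `M`
  let W' : Subgroup G := W ⊔ ⁅M, M⁆
  have hW'M : W' ≤ M := sup_le hWM (by
    rw [Subgroup.commutator_le]
    intro x hx y hy
    rw [commutatorElement_def]
    exact M.mul_mem (M.mul_mem (M.mul_mem hx hy) (M.inv_mem hx)) (M.inv_mem hy))
  have hWn : ∀ x ∈ M, ∀ n ∈ W', x * n * x⁻¹ ∈ W' := by
    intro x hx n hn
    have h3 : x * n * x⁻¹ * n⁻¹ ∈ W' :=
      Subgroup.mem_sup_right (mem_commutator_of_mem hx (hW'M hn))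
    have := W'.mul_mem h3 hn
    rwa [inv_mul_cancel_right] at this
  have hBM : ∀ y ∈ B, ∀ x ∈ M, com y x ∈ W' := by
    intro y hy x hx
    let Z : Subgroup G :=
      { carrier := {x | x ∈ M ∧ com y x ∈ W'}
        one_mem' := ⟨M.one_mem, by simp [com]⟩
        mul_mem' := by
          rintro u v ⟨hu, hu'⟩ ⟨hv, hv'⟩
          refine ⟨M.mul_mem hu hv, ?_⟩
          have := W'.mul_mem hu' (hWn u hu _ hv')
          convert this using 1
          simp only [com]; group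
        inv_mem' := by
          rintro u ⟨hu, hu'⟩
          refine ⟨M.inv_mem hu, ?_⟩
          have := hWn u⁻¹ (M.inv_mem hu) _ (W'.inv_mem hu')
          convert this using 1
          simp only [com]; group }
    have hle : A ⊔ C ⊔ W ≤ Z := by
      refine sup_le (sup_le ?_ ?_) ?_
      · intro a ha
        refine ⟨hAM ha, Subgroup.mem_sup_left (Subgroup.mem_sup_left ?_)⟩
        have := Subgroup.inv_mem _ (mem_commutator_of_mem ha hy)
        convert this using 1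
        simp only [com]; group
      · exact fun c hc => ⟨hCM hc, Subgroup.mem_sup_left (Subgroup.mem_sup_right
          (mem_commutator_of_mem hy hc))⟩
      · intro w hw
        refine ⟨hWM hw, ?_⟩
        simp only [com]
        rw [(hBW y hy w hw).eq]; simp
    exact (hle (hMeq ▸ hx)).2
  have comR : ∀ x ∈ M, ∀ y ∈ M, com x y ∈ R := fun x hx y hy =>
    hMR (M.mul_mem (M.mul_mem (M.mul_mem hx hy) (M.inv_mem hx)) (M.inv_mem hy))
  -- conjugating a commutator of `M` by an element of `B`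
  have hconjcom : ∀ y ∈ B, ∀ x ∈ M, ∀ x' ∈ M, com (com x x') y =
      com x x' * (com (com y x * x) (com y x' * x'))⁻¹ := by
    intro y _ x _ x' _
    simp only [com]; group
  have comM : ∀ x ∈ M, ∀ y ∈ M, ∀ z ∈ M, com (x * y) z = com x z * com y z := by
    intro x hx y hy z hz
    have hk := hMcom y hy z hz
    simp only [com]
    calc x * y * z * (x * y)⁻¹ * z⁻¹ = x * (y * z * y⁻¹ * z⁻¹) * x⁻¹ * (x * z * x⁻¹ * z⁻¹) := by group
      _ = (y * z * y⁻¹ * z⁻¹) * (x * z * x⁻¹ * z⁻¹) := by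
        rw [← (hk x hx).eq, mul_inv_cancel_right]
      _ = _ := (hk _ (M.mul_mem (M.mul_mem (M.mul_mem hx hz) (M.inv_mem hx)) (M.inv_mem hz))).eq
  have comM' : ∀ x ∈ M, ∀ y ∈ M, ∀ z ∈ M, com x (y * z) = com x y * com x z := by
    intro x hx y hy z hz
    have hk := hMcom x hx z hz
    simp only [com]
    calc x * (y * z) * x⁻¹ * (y * z)⁻¹ = x * y * x⁻¹ * y⁻¹ * (y * (x * z * x⁻¹ * z⁻¹) * y⁻¹) := by group
      _ = _ := by rw [← (hk y hy).eq, mul_inv_cancel_right]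
  have hW'w : ∀ (S' : Subgroup G), ∀ z ∈ M, (∀ w ∈ W, com w z ∈ S') →
      ∀ n ∈ W', com n z ∈ S' := by
    intro S' z hz hw n hn
    have hWc : ∀ w ∈ W, ∀ k ∈ ⁅M, M⁆, Commute w k := by
      intro w hw k hk
      have hle : ⁅M, M⁆ ≤ Subgroup.centralizer ({w} : Set G) := by
        rw [Subgroup.commutator_le]
        intro u hu v hv
        rw [Subgroup.mem_centralizer_singleton_iff, commutatorElement_def]
        exact (hMcom u hu v hv w (hWM hw)).eq
      exact (Subgroup.mem_centralizer_singleton_iff.1 (hle hk)).symm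
    obtain ⟨w, hwW, k, hk, rfl⟩ := exists_mul_of_mem_sup hWc hn
    have hle : ⁅M, M⁆ ≤ Subgroup.centralizer ({z} : Set G) := by
      rw [Subgroup.commutator_le]
      intro u hu v hv
      rw [Subgroup.mem_centralizer_singleton_iff, commutatorElement_def]
      exact (hMcom u hu v hv z hz).eq
    have hkz : Commute k z := Subgroup.mem_centralizer_singleton_iff.1 (hle hk)
    rw [comM w (hWM hwW) k (hW'M (Subgroup.mem_sup_right hk)) z hz]
    have : com k z = 1 := by simp only [com]; rw [hkz.eq]; group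
    rw [this, mul_one]
    exact hw w hwW
  have hZ1 : ∀ w ∈ W, ∀ w' ∈ W, com w w' ∈ ucsIn R 1 := by
    intro w hw w' hw'
    refine hM' _ (hMcom w (hWM hw) w' (hWM hw')) 0 (comR w (hWM hw) w' (hWM hw')) fun y hy => ?_
    have : Commute (com w w') y :=
      ((hBW y hy _ (W.mul_mem (W.mul_mem (W.mul_mem hw hw') (W.inv_mem hw)) (W.inv_mem hw')))).symm
    have e : com w w' * y * (com w w')⁻¹ * y⁻¹ = 1 := by rw [this.eq]; group
    rw [e]; exact one_mem _
  have hZ2 : ∀ x ∈ M, ∀ w ∈ W, com x w ∈ ucsIn R 2 := by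
    intro x hx w hw
    refine hM' _ (hMcom x hx w (hWM hw)) 1 (comR x hx w (hWM hw)) fun y hy => ?_
    change com (com x w) y ∈ ucsIn R 1
    have hn := hBM y hy x hx
    have h1' : com y w = 1 := by simp only [com]; rw [(hBW y hy w hw).eq]; group
    rw [hconjcom y hy x hx w (hWM hw), h1', one_mul, comM _ (hW'M hn) x hx w (hWM hw)]
    have e : ∀ p r : G, r * (p * r)⁻¹ = p⁻¹ := fun p r => by group
    rw [e]
    exact (ucsIn R 1).inv_mem (hW'w _ w (hWM hw) (fun w₀ hw₀ => hZ1 w₀ hw₀ w hw) _ hn)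
  have hZ2' : ∀ w ∈ W, ∀ x ∈ M, com w x ∈ ucsIn R 2 := fun w hw x hx => by
    have := (ucsIn R 2).inv_mem (hZ2 x hx w hw)
    convert this using 1
    simp only [com]; group
  have hZ3 : ∀ x ∈ M, ∀ x' ∈ M, com x x' ∈ ucsIn R 3 := by
    intro x hx x' hx'
    refine hM' _ (hMcom x hx x' hx') 2 (comR x hx x' hx') fun y hy => ?_
    change com (com x x') y ∈ ucsIn R 2
    have hn := hBM y hy x hx
    have hn' := hBM y hy x' hx'
    have hnM := hW'M hn
    have hn'M := hW'M hn'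
    rw [hconjcom y hy x hx x' hx', comM _ hnM x hx _ (M.mul_mem hn'M hx'),
      comM' x hx _ hn'M x' hx']
    have h3 : com (com y x) (com y x' * x') ∈ ucsIn R 2 :=
      hW'w _ _ (M.mul_mem hn'M hx') (fun w hw => hZ2' w hw _ (M.mul_mem hn'M hx')) _ hn
    have h4 : com x (com y x') ∈ ucsIn R 2 := by
      have := (ucsIn R 2).inv_mem (hW'w _ x hx (fun w hw => hZ2' w hw x hx) _ hn')
      convert this using 1
      simp only [com]; group
    have e : ∀ p q r : G, r * (p * (q * r))⁻¹ = (p * q)⁻¹ := fun p q r => by group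
    rw [e]
    exact (ucsIn R 2).inv_mem ((ucsIn R 2).mul_mem h3 h4)
  have hWR : W ≤ R := hWM.trans hMR
  have hZ4 : ∀ w ∈ W, w ∈ ucsIn R 4 := by
    intro w hw
    refine mem_ucsIn_succ hT (hWR hw) ?_
    rintro g ((hg | hg) | hg)
    · exact hZ3 w (hWM hw) g (hAM hg)
    · rw [(hBW g hg w hw).symm.eq]; simp
    · exact hZ3 w (hWM hw) g (hCM hg)
  have hAR : A ≤ R := le_sup_left.trans le_sup_left
  have hBR : B ≤ R := le_sup_right.trans le_sup_left
  have hCR : C ≤ R := le_sup_right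
  have hZ5A : ∀ a ∈ A, a ∈ ucsIn R 5 := by
    intro a ha
    refine mem_ucsIn_succ hT (hAR ha) ?_
    rintro g ((hg | hg) | hg)
    · rw [(commute_of_isMulCommutative ha hg).eq]; simp
    · exact hZ4 _ (Subgroup.mem_sup_left (mem_commutator_of_mem ha hg))
    · rw [(hAC' a ha g hg).eq]; simp
  have hZ5C : ∀ c ∈ C, c ∈ ucsIn R 5 := by
    intro c hc
    refine mem_ucsIn_succ hT (hCR hc) ?_
    rintro g ((hg | hg) | hg)
    · rw [(hAC' g hg c hc).symm.eq]; simp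
    · refine hZ4 _ (Subgroup.mem_sup_right ?_)
      rw [Subgroup.commutator_comm]
      exact mem_commutator_of_mem hc hg
    · rw [(commute_of_isMulCommutative hc hg).eq]; simp
  have hZ5B : ∀ y ∈ B, y ∈ ucsIn R 5 := by
    intro y hy
    refine mem_ucsIn_succ hT (hBR hy) ?_
    rintro g ((hg | hg) | hg)
    · refine hZ4 _ (Subgroup.mem_sup_left ?_)
      rw [Subgroup.commutator_comm]
      exact mem_commutator_of_mem hy hg
    · rw [(commute_of_isMulCommutative hy hg).eq]; simp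
    · exact hZ4 _ (Subgroup.mem_sup_right (mem_commutator_of_mem hy hg))
  refine ⟨?_, commutator_eq_bot_iff_forall_commute.2 hcomm, hRnorm, hMB,
    isNilpotent_of_ucsIn (k := 5) hT ?_⟩
  · by_cases hc : IsMulCommutative ↥X
    · exact Or.inl ⟨hc, hXY.1 hc⟩
    · exact Or.inr ⟨⟨hc, hX2⟩, fun h => hc (hXY.2 h), hY2⟩
  · rintro g ((hg | hg) | hg)
    · exact hZ5A g hg
    · exact hZ5B g hg
    · exact hZ5C g hg

end Cfsg.Agent.S5030
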