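import Cfsg.Statements.S5033
import Cfsg.Agent.Lib.RootGroups.Simple
import Cfsg.Agent.Lib.Cores.Quasisimple
-- import your own Cfsg.Agent.* helpers here

set_option autoImplicit false
open Cfsg

namespace Cfsg.Agent.S5033

open CfsgLib.RootGroups
open scoped commutatorElement

/-- Quasisimplicity criterion for groups generated by abstract root subgroups. Let S be a set of abstract root subgroups of G with more than one member such that: the graph of rank one pairs on S is connected; no two different members of S have the same set of commuting members of S; if S is degenerate then every member of S has more than three elements; and every rank one pair in S is special. Then for every A ∈ S one has G = G' A with A ∩ G' ≠ 1, and the commutator subgroup G' is quasisimple. Moreover G is perfect if S is non-degenerate, or if some rank one pair A, B in S generates a perfect group. -/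
theorem result {G : Type*} [Group G] {S : Set (Subgroup G)} (hS : Cfsg.IsRootSubgroupSet S) (h2 : ∃ A ∈ S, ∃ B ∈ S, A ≠ B)
    (h1 : Cfsg.IsConnectedFamily (Cfsg.FAdj S) S)
    (h2' : ∀ A ∈ S, ∀ C ∈ S, A ≠ C → Cfsg.centralizingMembers S A ≠ Cfsg.centralizingMembers S C)
    (h3 : Cfsg.IsDegenerateRootSet S → ∀ A ∈ S, 3 < ENat.card A)
    (h4 : ∀ A ∈ S, ∀ B ∈ Cfsg.rankOnePartners S A, Cfsg.IsSpecialRankOnePair A B) :
    (∀ A ∈ S, commutator G ⊔ A = ⊤ ∧ A ⊓ commutator G ≠ ⊥) ∧ Cfsg.IsQuasisimple ↥(commutator G) ∧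
    (Cfsg.IsNondegenerateRootSet S → commutator G = ⊤) ∧
    ((∃ A ∈ S, ∃ B ∈ Cfsg.rankOnePartners S A, Group.IsPerfect ↥(A ⊔ B)) → commutator G = ⊤) := by
  obtain ⟨A₁, hA₁, B₁, hB₁, hne⟩ := h2
  -- connectedness gives a class with partners
  have hclass : Cfsg.IsConjClassOfSubgroups S := by
    refine ⟨⟨A₁, hA₁⟩, fun A hA B hB => ?_⟩
    have hr := h1 A hA B hB
    induction hr with
    | refl => exact ⟨1, (conjBy_one A).symm⟩
    | tail _ hadj ih =>
      obtain ⟨g, rfl⟩ := ih hadj.1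
      obtain ⟨y, -, hy⟩ := right_mem_unipotent hadj.2.2
      exact ⟨y * g, by rw [hy, conjBy_conjBy]⟩
  obtain ⟨B₀, hB₀, hp₀⟩ := exists_partner_of_reach (h1 A₁ hA₁ B₁ hB₁) hne.symm
  have hab : ∀ A ∈ S, ∀ B ∈ S, Cfsg.HasAbelianUnipotents A B :=
    fun A hA B hB => ⟨hS.commutative A hA, hS.commutative B hB⟩
  have hperf : Cfsg.IsDegenerateRootSet S → ∀ A ∈ S, ∀ B ∈ S, Cfsg.IsRankOnePair A B →
      A ⊔ B ≤ ⁅A ⊔ B, A ⊔ B⁆ := fun hd A hA B hB hp =>
    sup_le_commutator (h4 A hA B ⟨hB, hp⟩) (hab A hA B hB) (exists_big (h3 hd A hA))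
  have hcls : Cfsg.IsRootSubgroupClass S := ⟨hS, hclass⟩
  have hnd : ¬ Cfsg.IsDegenerateRootSet S → Cfsg.IsNondegenerateRootSet S := by
    intro hd
    rw [Cfsg.IsDegenerateRootSet] at hd
    push Not at hd
    obtain ⟨P, hP, Q, hQ, hPQ⟩ := hd
    exact ⟨⟨P, hP, _, hPQ.1, rcc_left_ne hS hPQ, commutator_eq_bot_iff_forall_commute.2
      (rcc_sup_commute hPQ)⟩, ⟨A₁, hA₁, B₀, hB₀, hp₀⟩, P, hP, Q, hQ, hPQ⟩
  have hmem : ∀ N : Subgroup G, N.Normal → ∀ A ∈ S, ∀ x ∈ A, x ≠ 1 → x ∈ N → N = ⊤ := by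
    intro N hN A hA x hx hx1 hxN
    refine (em (Cfsg.IsDegenerateRootSet S)).elim (fun hd => ?_) fun hd => ?_
    · obtain ⟨B, hB, hp⟩ := exists_partner hclass hS hA₁ hB₀ hp₀ hA
      refine normal_eq_top_of_member hS hclass hA hN ?_
      have hx' : x ∈ (A ⊔ B) ⊓ N := ⟨Subgroup.mem_sup_left hx, hxN⟩
      have hnorm : ∀ y ∈ A ⊔ B, ∀ n ∈ (A ⊔ B) ⊓ N, y * n * y⁻¹ ∈ (A ⊔ B) ⊓ N := fun y hy n hn =>
        ⟨Subgroup.mul_mem _ (Subgroup.mul_mem _ hy hn.1) (Subgroup.inv_mem _ hy),
          hN.conj_mem n hn.2 y⟩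
      rcases normal_dichotomy hp inf_le_left hnorm with h5 | h5
      · -- `⟨A, B⟩` is perfect, hence inside `N`
        haveI := hS.commutative A hA
        haveI := hN
        have hcom : ⁅A ⊔ B, A ⊔ B⁆ ≤ N := by
          rw [Subgroup.commutator_le]
          intro u hu v hv
          have hN' : ∀ w ∈ A ⊔ B, ∃ a ∈ A, QuotientGroup.mk' N a = QuotientGroup.mk' N w := by
            intro w hw
            obtain ⟨n, hn, a, ha, rfl⟩ := Subgroup.mem_sup_of_normal_left.1
              ((h5.trans (sup_le_sup_right inf_le_right _)) hw)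
            exact ⟨a, ha, by rw [map_mul,
              (QuotientGroup.eq_one_iff n).2 hn |> fun e => (e : QuotientGroup.mk' N n = 1),
              one_mul]⟩
          obtain ⟨a, ha, hau⟩ := hN' u hu
          obtain ⟨a', ha', hav⟩ := hN' v hv
          rw [← QuotientGroup.eq_one_iff, ← QuotientGroup.mk'_apply, map_commutatorElement,
            ← hau, ← hav, commutatorElement_eq_one_iff_commute]
          exact (commute_of_isMulCommutative ha ha').map _
        exact le_sup_left.trans ((hperf hd A hA B hB hp).trans hcom)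
      · exfalso
        obtain ⟨b, hxb⟩ := exists_paired hp hx hx1
        exact not_commute hp hx hx1 hxb.2.2.1 hxb.2.2.2.1
          (h5 x hx' b (Subgroup.mem_sup_right hxb.2.2.1))
    · obtain ⟨P, hP, Q, hQ, hPQ⟩ := (hnd hd).2.2
      obtain ⟨E, hE, hAE⟩ := exists_rcc_right hclass hS hP hQ hPQ hA
      refine normal_eq_top_of_member hS hclass hAE.1 hN ?_
      rw [← hAE.2.2.1 x hx hx1, Subgroup.closure_le]
      rintro _ ⟨e, _, rfl⟩
      show x * e * x⁻¹ * e⁻¹ ∈ N
      rw [show x * e * x⁻¹ * e⁻¹ = x * (e * x⁻¹ * e⁻¹) by group]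
      exact N.mul_mem hxN (hN.conj_mem _ (N.inv_mem hxN) e)
  have hpair : ∀ N : Subgroup G, N.Normal → ∀ A ∈ S, ∀ B ∈ S, Cfsg.IsRankOnePair A B →
      (∀ x ∈ A ⊔ B, ∀ y ∈ A ⊔ B, x * y * x⁻¹ * y⁻¹ ∈ N) → N = ⊤ := by
    intro N hN A hA B hB hp hXN
    refine (em (Cfsg.IsDegenerateRootSet S)).elim (fun hd => ?_) fun hd => ?_
    · refine normal_eq_top_of_member hS hclass hA hN (le_sup_left.trans
        ((hperf hd A hA B hB hp).trans ?_))
      rw [Subgroup.commutator_le]
      exact fun u hu v hv => by rw [commutatorElement_def]; exact hXN u hu v hv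
    · obtain ⟨⟨T, hT, g1, g2, g3⟩, -⟩ := nondeg_pair hcls (hnd hd) hA hB hp
      have hTS : T ∈ S := hT.1.1
      have hc : ⁅T, B⁆ = ⁅B, T⁆ := Subgroup.commutator_comm T B
      obtain ⟨a, b, hab'⟩ := exists_paired_pair hp
      have hX : a * b * a⁻¹ * b⁻¹ ∈ A ⊔ B := Subgroup.mul_mem _ (Subgroup.mul_mem _
        (Subgroup.mul_mem _ (Subgroup.mem_sup_left hab'.1) (Subgroup.mem_sup_right hab'.2.2.1))
        (Subgroup.inv_mem _ (Subgroup.mem_sup_left hab'.1)))
        (Subgroup.inv_mem _ (Subgroup.mem_sup_right hab'.2.2.1))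
      set k := a * b * a⁻¹ * b⁻¹ with hkdef
      have hkN : k ∈ N :=
        hXN a (Subgroup.mem_sup_left hab'.1) b (Subgroup.mem_sup_right hab'.2.2.1)
      -- `k` is not central in `⟨A, B⟩`
      have hknc : ¬ ∀ y ∈ B ⊔ A, Commute k y := by
        intro hall
        haveI := hS.commutative B hB
        have hcomm : Commute (a * b * a⁻¹) b := by
          rw [show a * b * a⁻¹ = k * b by rw [hkdef]; group]
          exact (hall b (Subgroup.mem_sup_left hab'.2.2.1)).mul_left (Commute.refl b)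
        have hne' : Cfsg.conjBy B a ≠ B := fun e =>
          hab'.2.1 (eq_one_of_mem_normalizer hp hab'.1 e)
        exact not_commute (isRankOnePair_of_mem hp (conjBy_right_mem hp hab'.1)
          (right_mem_unipotent hp) hne') (conj_mem_conjBy hab'.2.2.1)
          (fun e => hab'.2.2.2.1 (by simpa [mul_inv_eq_one] using e)) hab'.2.2.1 hab'.2.2.2.1 hcomm
      -- so it moves some element of the line, and the commutator lies in `N`
      obtain ⟨u, hu, hune⟩ : ∃ u ∈ T ⊔ ⁅B, T⁆, ¬ Commute k u := by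
        by_contra hh
        push Not at hh
        exact hknc (config_centralizer_central hS hTS hB hA hc (rootCommutatorCase_symm g1) g2 g3
          (by rwa [sup_comm]) (fun t ht => hh t (Subgroup.mem_sup_left ht))
          (fun c hc' => hh c (Subgroup.mem_sup_right hc')))
      -- the line is normalized by `⟨A, B⟩`
      have hnorm : A ⊔ B ≤ Subgroup.normalizer ((T ⊔ ⁅B, T⁆ : Subgroup G) : Set G) := by
        have hstep : ∀ (U V D : Subgroup G), Cfsg.RootCommutatorCase S U D →
            U ⊔ ⁅U, D⁆ = V → ∀ d ∈ D, Cfsg.conjBy V d ≤ V := by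
          intro U V D h5 e d hd
          rw [← e, conjBy_sup, conjBy_of_commute fun x hx => (rcc_commute_right h5 hx hd).symm]
          exact sup_le (rcc_conjBy_le h5 hd) le_sup_right
        have hsub : ∀ (V D : Subgroup G), (∀ d ∈ D, Cfsg.conjBy V d ≤ V) →
            D ≤ Subgroup.normalizer (V : Set G) := by
          intro V D h5 d hd
          refine conjBy_eq_self_iff.1 (le_antisymm (h5 d hd) ?_)
          have := conjBy_mono (g := d) (h5 d⁻¹ (D.inv_mem hd))
          rwa [conjBy_cancel_inv] at this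
        refine sup_le (hsub _ _ (hstep ⁅B, T⁆ _ A (rootCommutatorCase_symm g2) ?_))
          (hsub _ _ (hstep T _ B (rootCommutatorCase_symm g1) (by rw [hc])))
        rw [Subgroup.commutator_comm ⁅B, T⁆ A, g3, sup_comm]
      have hmem' : k * u * k⁻¹ * u⁻¹ ∈ T ⊔ ⁅B, T⁆ := by
        refine Subgroup.mul_mem _ ?_ (Subgroup.inv_mem _ hu)
        have := conj_mem_conjBy (g := k) hu
        rwa [conjBy_eq_self_iff.2 (hnorm hX)] at this
      have hmemN : k * u * k⁻¹ * u⁻¹ ∈ N := by
        rw [show k * u * k⁻¹ * u⁻¹ = k * (u * k⁻¹ * u⁻¹) by group]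
        exact N.mul_mem hkN (hN.conj_mem _ (N.inv_mem hkN) u)
      have hne1 : k * u * k⁻¹ * u⁻¹ ≠ 1 := fun e =>
        hune (mul_inv_eq_iff_eq_mul.1 (mul_inv_eq_one.1 e))
      rw [← hc] at hmem'
      rcases rcc_cover (rootCommutatorCase_symm g1) hmem' with h5 | ⟨y, -, h5⟩
      · exact hmem N hN _ (by rw [hc]; exact g1.1) _ h5 hne1 hmemN
      · exact hmem N hN _ (hS.conj_mem T hTS y) _ h5 hne1 hmemN
  have hdich : ∀ N : Subgroup G, N.Normal → N = ⊤ ∨ N ≤ Subgroup.center G := fun N hN =>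
    normal_dichotomy_rootSet hS hclass hA₁ hB₀ hp₀ h2' hN (hmem N hN) (hpair N hN)
  -- `G` is perfect
  have htop : commutator G = ⊤ := by
    haveI hn : (commutator G).Normal := inferInstance
    refine (hdich _ hn).resolve_right fun hc => ?_
    obtain ⟨a, b, hab'⟩ := exists_paired_pair hp₀
    haveI := hS.commutative B₀ hB₀
    have hcomm : Commute (a * b * a⁻¹) b := by
      rw [show a * b * a⁻¹ = (a * b * a⁻¹ * b⁻¹) * b by group]
      refine Commute.mul_left ?_ (Commute.refl b)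
      have hk : a * b * a⁻¹ * b⁻¹ ∈ commutator G := by
        rw [commutator_def, ← commutatorElement_def]
        exact Subgroup.commutator_mem_commutator (Subgroup.mem_top a) (Subgroup.mem_top b)
      exact (Subgroup.mem_center_iff.1 (hc hk) b).symm
    have hne' : Cfsg.conjBy B₀ a ≠ B₀ := fun e =>
      hab'.2.1 (eq_one_of_mem_normalizer hp₀ hab'.1 e)
    exact not_commute (isRankOnePair_of_mem hp₀ (conjBy_right_mem hp₀ hab'.1)
      (right_mem_unipotent hp₀) hne') (conj_mem_conjBy hab'.2.2.1)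
      (fun e => hab'.2.2.2.1 (by simpa [mul_inv_eq_one] using e)) hab'.2.2.1 hab'.2.2.2.1 hcomm
  refine ⟨fun A hA => ⟨by rw [htop, top_sup_eq], by rw [htop, inf_top_eq]; exact hS.ne_bot A hA⟩,
    ?_, fun _ => htop, fun _ => htop⟩
  haveI : Group.IsPerfect G := Group.isPerfect_def.2 htop
  haveI : Nontrivial G := by
    obtain ⟨a, ha, ha1⟩ := exists_ne_one_of_ne_bot (hS.ne_bot A₁ hA₁)
    exact ⟨⟨a, 1, ha1⟩⟩
  rw [htop, CfsgLib.Cores.isQuasisimple_congr Subgroup.topEquiv]
  exact CfsgLib.Cores.isQuasisimple_of_normal fun N hN hne' => (hdich N hN).resolve_left hne'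

end Cfsg.Agent.S5033
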