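import Cfsg.Statements.S5035
import Cfsg.Agent.Lib.RootGroups.Sets
-- import your own Cfsg.Agent.* helpers here

set_option autoImplicit false
open Cfsg

namespace Cfsg.Agent.S5035

open CfsgLib.RootGroups

/-- Let S be a set of abstract root subgroups of G whose graph of rank one pairs is connected, and f a homomorphism from G onto a group H. Then either the images of the members of S form a set of abstract root subgroups of H whose graph of rank one pairs is again connected, or H equals the image of a member of S. -/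
theorem result {G H : Type*} [Group G] [Group H] {S : Set (Subgroup G)} (hS : Cfsg.IsRootSubgroupSet S)
    (hc : Cfsg.IsConnectedFamily (Cfsg.FAdj S) S) (f : G →* H) (hf : Function.Surjective f) :
    (Cfsg.IsRootSubgroupSet ((fun A : Subgroup G => A.map f) '' S) ∧
      Cfsg.IsConnectedFamily (Cfsg.FAdj ((fun A : Subgroup G => A.map f) '' S)) ((fun A : Subgroup G => A.map f) '' S)) ∨
    ∃ A ∈ S, A.map f = ⊤ := by
  have hconj : ∀ (C : Subgroup G) (g : G),
      (Cfsg.conjBy C g).map f = Cfsg.conjBy (C.map f) (f g) := by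
    intro C g
    rw [Cfsg.conjBy, Cfsg.conjBy, Subgroup.map_map, Subgroup.map_map]
    congr 1
    ext x; simp
  -- the members form one conjugacy class as soon as they are connected
  have hconn : ∀ A ∈ S, ∀ B, Relation.ReflTransGen (Cfsg.FAdj S) A B →
      ∃ g, B = Cfsg.conjBy A g := by
    intro A _ B hr
    induction hr with
    | refl => exact ⟨1, (conjBy_one A).symm⟩
    | tail _ hadj ih =>
      obtain ⟨g, rfl⟩ := ih
      obtain ⟨y, -, hy⟩ := right_mem_unipotent hadj.2.2
      exact ⟨y * g, by rw [hy, conjBy_conjBy]⟩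
  by_cases hbot : ∃ A ∈ S, A.map f = ⊥
  · obtain ⟨A, hA, hA0⟩ := hbot
    refine Or.inr ⟨A, hA, ?_⟩
    rw [hA0, eq_comm, eq_bot_iff, ← Subgroup.map_top_of_surjective f hf, ← hS.generates,
      Subgroup.map_le_iff_le_comap]
    refine iSup₂_le fun B hB => ?_
    obtain ⟨g, rfl⟩ := hconn A hA B (hc A hA B hB)
    rw [← Subgroup.map_le_iff_le_comap, hconj, hA0]
    exact (Subgroup.map_bot _).le
  left
  push Not at hbot
  have hpair : ∀ A ∈ S, ∀ B ∈ S, Cfsg.IsRankOnePair A B → A.map f = B.map f ∨
      Cfsg.IsRankOnePair (A.map f) (B.map f) := fun A _ B _ hp =>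
    (em (A.map f = B.map f)).imp id (isRankOnePair_map hp f)
  have hcomm : ∀ A ∈ S, IsMulCommutative (A.map f) := by
    intro A hA
    haveI := hS.commutative A hA
    infer_instance
  refine ⟨⟨?_, ?_, ?_, ?_, ?_⟩, ?_⟩
  · rintro _ ⟨A, hA, rfl⟩; exact hcomm A hA
  · rintro _ ⟨A, hA, rfl⟩; exact hbot A hA
  · rw [iSup_image, ← Subgroup.map_top_of_surjective f hf, ← hS.generates]
    simp only [Subgroup.map_iSup]
  · rintro _ ⟨A, hA, rfl⟩ h
    obtain ⟨g, rfl⟩ := hf h
    exact ⟨Cfsg.conjBy A g, hS.conj_mem A hA g, hconj A g⟩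
  · rintro _ ⟨A, hA, rfl⟩ _ ⟨B, hB, rfl⟩
    show ⁅A.map f, B.map f⁆ = ⊥ ∨ _ ∨ _
    rcases hS.pair A hA B hB with h | h | h
    · exact Or.inl (by rw [← Subgroup.map_commutator, h, Subgroup.map_bot])
    · refine (hpair A hA B hB h).imp (fun e => ?_) Or.inl
      haveI := hcomm B hB
      rw [e, commutator_eq_bot_iff_forall_commute]
      exact fun x hx y hy => commute_of_isMulCommutative hx hy
    · refine Or.inr (Or.inr ⟨?_, ?_, ?_, ?_⟩)
      · exact ⟨⁅A, B⁆, h.1, Subgroup.map_commutator _ _ f⟩
      · rw [← Subgroup.map_commutator, ← Subgroup.map_sup]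
        rintro _ ⟨c, hc', rfl⟩ _ ⟨x, hx, rfl⟩
        rw [← map_mul, ← map_mul, h.2.1 c hc' x hx]
      · rintro _ ⟨a, ha, rfl⟩ ha1
        rw [← Subgroup.map_commutator, ← h.2.2.1 a ha (fun e => ha1 (by rw [e, map_one])),
          MonoidHom.map_closure, Subgroup.coe_map, Set.image_image, Set.image_image]
        simp
      · rintro _ ⟨b, hb, rfl⟩ hb1
        rw [← Subgroup.map_commutator, ← h.2.2.2 b hb (fun e => hb1 (by rw [e, map_one])),
          MonoidHom.map_closure, Subgroup.coe_map, Set.image_image, Set.image_image]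
        simp
  · rintro _ ⟨A, hA, rfl⟩ _ ⟨B, hB, rfl⟩
    refine Relation.ReflTransGen.trans ?_ Relation.ReflTransGen.refl
    have key : ∀ C, Relation.ReflTransGen (Cfsg.FAdj S) A C → Relation.ReflTransGen
        (Cfsg.FAdj ((fun A : Subgroup G => A.map f) '' S)) (A.map f) (C.map f) := by
      intro C hr
      induction hr with
      | refl => exact Relation.ReflTransGen.refl
      | tail _ hadj ih =>
        rcases hpair _ hadj.1 _ hadj.2.1 hadj.2.2 with e | e
        · rwa [← e]
        · exact ih.tail ⟨Set.mem_image_of_mem _ hadj.1, Set.mem_image_of_mem _ hadj.2.1, e⟩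
    exact key B (hc A hA B hB)

end Cfsg.Agent.S5035
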