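import Cfsg.Statements.S5036
import Cfsg.Agent.Lib.RootGroups.Classes
-- import your own Cfsg.Agent.* helpers here

set_option autoImplicit false
open Cfsg

namespace Cfsg.Agent.S5036

open CfsgLib.RootGroups

/-- Let S be a set of abstract root subgroups of G, A, B ∈ S with C = ⁅A, B⁆ ∈ S, and D ∈ S with ⁅D, C⁆ = A. Put X = ⟨B, D⟩ and N = AC. Then B, D form a rank one pair; the conjugates of A under X are the conjugates of C under X, namely the conjugates of A by elements of B together with C, equally the conjugates of C by elements of D together with A, and they partition N; and the centralizer of N in X is central in X. -/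
theorem result {G : Type*} [Group G] {S : Set (Subgroup G)} (hS : Cfsg.IsRootSubgroupSet S)
    {A B D : Subgroup G} (hA : A ∈ S) (hB : B ∈ S) (hC : ⁅A, B⁆ ∈ S) (hD : D ∈ S) (hDC : ⁅D, ⁅A, B⁆⁆ = A) :
    Cfsg.IsRankOnePair B D ∧
    {E | ∃ x ∈ B ⊔ D, E = Cfsg.conjBy A x} = {E | ∃ x ∈ B ⊔ D, E = Cfsg.conjBy ⁅A, B⁆ x} ∧
    {E | ∃ x ∈ B ⊔ D, E = Cfsg.conjBy A x} = (fun b : G => Cfsg.conjBy A b) '' (B : Set G) ∪ {⁅A, B⁆} ∧
    {E | ∃ x ∈ B ⊔ D, E = Cfsg.conjBy A x} = (fun d : G => Cfsg.conjBy ⁅A, B⁆ d) '' (D : Set G) ∪ {A} ∧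
    Cfsg.IsSubgroupPartition (A ⊔ ⁅A, B⁆) {E | ∃ x ∈ B ⊔ D, E = Cfsg.conjBy A x} ∧
    ∀ x ∈ (B ⊔ D) ⊓ Subgroup.centralizer ((A ⊔ ⁅A, B⁆ : Subgroup G) : Set G), ∀ y ∈ B ⊔ D, x * y = y * x := by
  have h1 := rcc_of_commutator_mem hS hA hB hC
  have h2 := rcc_of_commutator_mem hS hD hC (by rw [hDC]; exact hA)
  have hp := config_rankOne hS hA hB hD rfl h1 h2 hDC
  have horb := config_orbit hS hA hB hD rfl h1 h2 hDC
  have hC' : ∃ x ∈ B ⊔ D, ⁅A, B⁆ = Cfsg.conjBy A x := by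
    have : ⁅A, B⁆ ∈ {E | ∃ x ∈ B ⊔ D, E = Cfsg.conjBy A x} := horb ▸ Or.inr rfl
    exact this
  have hsame : {E | ∃ x ∈ B ⊔ D, E = Cfsg.conjBy A x} =
      {E | ∃ x ∈ B ⊔ D, E = Cfsg.conjBy ⁅A, B⁆ x} := by
    obtain ⟨y, hy, hy'⟩ := hC'
    ext E
    constructor
    · rintro ⟨x, hx, rfl⟩
      exact ⟨x * y⁻¹, Subgroup.mul_mem _ hx (Subgroup.inv_mem _ hy),
        by rw [hy', conjBy_conjBy, inv_mul_cancel_right]⟩
    · rintro ⟨x, hx, rfl⟩
      exact ⟨x * y, Subgroup.mul_mem _ hx hy, by rw [hy', conjBy_conjBy]⟩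
  refine ⟨hp, hsame, horb, ?_, ⟨?_, ?_, ?_⟩, ?_⟩
  · refine le_antisymm ?_ ?_
    · intro E hE
      rw [horb] at hE
      rcases hE with ⟨b, hb, rfl⟩ | rfl
      · rcases eq_or_ne b 1 with rfl | hb1
        · exact Or.inr (conjBy_one A)
        · obtain ⟨d, hd⟩ := exists_paired hp (B.inv_mem hb) (inv_ne_one.2 hb1)
          refine Or.inl ⟨d⁻¹, D.inv_mem hd.2.2.1, ?_⟩
          have := config_conjBy_C hS hA hB hD rfl h1 h2 hDC hd
          rw [← conjBy_conjBy, conjBy_eq_iff, inv_inv] at this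
          exact this
      · exact Or.inl ⟨1, D.one_mem, conjBy_one _⟩
    · rintro E (⟨d, hd, rfl⟩ | rfl)
      · rw [hsame]; exact ⟨d, Subgroup.mem_sup_right hd, rfl⟩
      · exact ⟨1, Subgroup.one_mem _, (conjBy_one _).symm⟩
  · intro E hE
    rw [horb] at hE
    rcases hE with ⟨b, hb, rfl⟩ | rfl
    · exact rcc_conjBy_le h1 hb
    · exact le_sup_right
  · intro x hx _
    rw [horb]
    rcases rcc_cover h1 hx with h | ⟨b, hb, h⟩
    · exact ⟨_, Or.inr rfl, h⟩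
    · exact ⟨_, Or.inl ⟨b, hb, rfl⟩, h⟩
  · have hAC : ∀ b ∈ B, ∀ x ∈ Cfsg.conjBy A b, x ∈ ⁅A, B⁆ → x = 1 := by
      intro b hb x hx hx'
      rw [mem_conjBy] at hx
      have h : b⁻¹ * x * b = x := by
        rw [mul_assoc, (rcc_commute_right h1 hx' hb).eq, inv_mul_cancel_left]
      rw [h] at hx
      exact config_inf hS hA hB hD rfl h1 h2 hDC hx hx'
    intro E hE F hF hne
    rw [horb] at hE hF
    rw [Subgroup.eq_bot_iff_forall]
    rintro x ⟨hxE, hxF⟩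
    rcases hE with ⟨b, hb, rfl⟩ | rfl <;> rcases hF with ⟨b', hb', rfl⟩ | rfl
    · have hbb : b'⁻¹ * b ≠ 1 := fun e => hne (by rw [inv_mul_eq_one.1 e])
      have hbb' : b'⁻¹ * b ∈ B := B.mul_mem (B.inv_mem hb') hb
      replace hxE : b⁻¹ * x * b ∈ A := mem_conjBy.1 hxE
      replace hxF : b'⁻¹ * x * b' ∈ A := mem_conjBy.1 hxF
      obtain ⟨c, hc, e⟩ := config_conj_B hS hA hB hD rfl h1 h2 hDC hxE hbb'
      have e' : c * (b⁻¹ * x * b) = b'⁻¹ * x * b' := by rw [← e]; group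
      have hu : (b⁻¹ * x * b) * c = (b'⁻¹ * x * b') * 1 := by
        rw [mul_one, ← e', (rcc_commute_left h1 hc hxE).eq]
      obtain ⟨heq, hc1⟩ :=
        config_unique hS hA hB hD rfl h1 h2 hDC hxE hxF hc (Subgroup.one_mem _) hu
      rw [hc1, one_mul, mul_inv_eq_iff_eq_mul] at e
      have := config_inj hS hA hB hD rfl h1 h2 hDC hxE hbb' hbb e.symm
      calc x = b * (b⁻¹ * x * b) * b⁻¹ := by group
        _ = 1 := by rw [this]; group
    · exact hAC b hb x hxE hxF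
    · exact hAC b' hb' x hxF hxE
    · exact absurd rfl hne
  · intro x hx y hy
    rw [Subgroup.mem_inf, Subgroup.mem_centralizer_iff] at hx
    exact config_centralizer_central hS hA hB hD rfl h1 h2 hDC hx.1
      (fun a ha => (hx.2 a (Subgroup.mem_sup_left ha)).symm)
      (fun c hc => (hx.2 c (Subgroup.mem_sup_right hc)).symm) y hy

end Cfsg.Agent.S5036
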