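import Cfsg.Statements.S5037
import Cfsg.Agent.Lib.RootGroups.Classes
-- import your own Cfsg.Agent.* helpers here

set_option autoImplicit false
open Cfsg

namespace Cfsg.Agent.S5037

open CfsgLib.RootGroups

/-- Let S be a class of abstract root subgroups of G that is either degenerate or non-degenerate (so either the commutator case never occurs, or all three cases occur), and A ≠ C members of S. If every member of S commuting with A commutes with C, then A and C have the same commuting members of S; and if every rank one partner of A is a rank one partner of C, then A and C commute and have the same rank one partners. -/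
theorem result {G : Type*} [Group G] {S : Set (Subgroup G)} (hS : Cfsg.IsRootSubgroupClass S)
    (hdn : Cfsg.IsDegenerateRootSet S ∨ Cfsg.IsNondegenerateRootSet S)
    {A C : Subgroup G} (hA : A ∈ S) (hC : C ∈ S) (hAC : A ≠ C) :
    (Cfsg.centralizingMembers S A ⊆ Cfsg.centralizingMembers S C →
      Cfsg.centralizingMembers S A = Cfsg.centralizingMembers S C) ∧
    (Cfsg.rankOnePartners S A ⊆ Cfsg.rankOnePartners S C →
      ⁅A, C⁆ = ⊥ ∧ Cfsg.rankOnePartners S A = Cfsg.rankOnePartners S C) := by
  have hSr := hS.1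
  have hcomm : ∀ {X Y : Subgroup G}, ⁅X, Y⁆ = ⊥ → ∀ x ∈ X, ∀ y ∈ Y, Commute x y :=
    fun h => commutator_eq_bot_iff_forall_commute.1 h
  have hself : ∀ X ∈ S, X ∈ Cfsg.centralizingMembers S X := fun X hX => by
    haveI := hSr.commutative X hX
    exact mem_centralizingMembers_iff.2 ⟨hX,
      commutator_eq_bot_iff_forall_commute.2 fun x hx y hy => commute_of_isMulCommutative hx hy⟩
  have hndeg : ∀ X ∈ S, ∀ Y ∈ S, Cfsg.RootCommutatorCase S X Y → Cfsg.IsNondegenerateRootSet S :=
    fun X hX Y hY h => hdn.resolve_left fun hd => hd X hX Y hY h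
  have hpartner : ∀ {P Q : Subgroup G}, P ∈ S → Q ∈ S → Cfsg.IsRankOnePair P Q →
      ∀ X ∈ S, ∃ Y ∈ S, Cfsg.IsRankOnePair X Y := fun hP hQ h X hX =>
    exists_partner hS.2 hSr hP hQ h hX
  -- the first part, for any ordered pair
  have part1 : ∀ A ∈ S, ∀ C ∈ S,
      Cfsg.centralizingMembers S A ⊆ Cfsg.centralizingMembers S C →
      Cfsg.centralizingMembers S A = Cfsg.centralizingMembers S C := by
    intro A hA C hC h
    have hAC : ∀ a ∈ A, ∀ c ∈ C, Commute a c :=
      hcomm (mem_centralizingMembers_iff.1 (h (hself A hA))).2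
    refine le_antisymm h fun E hE => ?_
    rw [mem_centralizingMembers_iff] at hE ⊢
    refine ⟨hE.1, ?_⟩
    by_contra hEA
    -- a common partner
    have hF : ∀ {P Q : Subgroup G}, P ∈ S → Q ∈ S → Cfsg.IsRankOnePair P Q →
        ∃ F ∈ S, Cfsg.IsRankOnePair C F ∧ Cfsg.IsRankOnePair A F := by
      intro P Q hP hQ hpq
      obtain ⟨F, hFS, hCF⟩ := hpartner hP hQ hpq C hC
      refine ⟨F, hFS, hCF, ?_⟩
      obtain ⟨c, f, hcf⟩ := exists_paired_pair hCF
      rcases hSr.pair A hA F hFS with h1 | h1 | h1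
      · exfalso
        refine commutator_ne_bot hCF ?_
        rw [Subgroup.commutator_comm]
        exact (mem_centralizingMembers_iff.1 (h (mem_centralizingMembers_iff.2
          ⟨hFS, by rw [Subgroup.commutator_comm, h1]⟩))).2
      · exact h1
      · exfalso
        have hmem : A ∈ Cfsg.centralizingMembers S (Cfsg.conjBy A f⁻¹) := by
          refine mem_centralizingMembers_iff.2
            ⟨hA, commutator_eq_bot_iff_forall_commute.2 fun x hx y hy => ?_⟩
          haveI := hSr.commutative A hA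
          obtain ⟨a', ha', k, hk, rfl⟩ := exists_mul_of_mem_sup (rcc_sup_commute h1)
            (rcc_conjBy_le h1 (F.inv_mem hcf.2.2.1) hy)
          exact (commute_of_isMulCommutative hx ha').mul_right (rcc_commute_left h1 hk hx).symm
        have h2 := (mem_centralizingMembers_iff.1 (centralizing_subset_conj hSr h f⁻¹ hmem)).2
        rw [hcf.2.2.2.2] at h2
        have h3 := congrArg (fun U => Cfsg.conjBy U c) h2
        rw [conjBy_commutator, conjBy_cancel_inv,
          conjBy_of_commute (fun x hx => (hAC x hx c hcf.1).symm), conjBy_eq_bot.2 rfl] at h3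
        exact rcc_ne_bot hSr h1 h3
    rcases hdn with hdeg | hnd
    · -- degenerate
      have hAE : Cfsg.IsRankOnePair A E := by
        rcases hSr.pair A hA E hE.1 with h1 | h1 | h1
        · exact absurd (by rw [Subgroup.commutator_comm, h1]) hEA
        · exact h1
        · exact absurd h1 (hdeg A hA E hE.1)
      obtain ⟨F, hFS, hCF, hAF⟩ := hF hA hE.1 hAE
      have hEC : ∀ e ∈ E, ∀ c ∈ C, Commute e c := hcomm hE.2
      have hEF : Cfsg.IsRankOnePair E F := by
        rcases hSr.pair E hE.1 F hFS with h1 | h1 | h1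
        · exfalso
          obtain ⟨x, hx, hxE⟩ := right_mem_unipotent hAE
          have h2 := centralizing_subset_conj hSr h x
          rw [← hxE, conjBy_of_commute (commute_fix x hx hAC hEC)] at h2
          refine commutator_ne_bot hCF ?_
          rw [Subgroup.commutator_comm]
          exact (mem_centralizingMembers_iff.1 (h2 (mem_centralizingMembers_iff.2
            ⟨hFS, by rw [Subgroup.commutator_comm, h1]⟩))).2
        · exact h1
        · exact absurd h1 (hdeg E hE.1 F hFS)
      obtain ⟨f, hf, hf1⟩ := exists_ne_one_of_ne_bot (ne_bot_right hAF)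
      obtain ⟨a, ha⟩ := exists_paired_right hAF hf hf1
      obtain ⟨c, hc⟩ := exists_paired_right hCF hf hf1
      obtain ⟨e, he⟩ := exists_paired_right hEF hf hf1
      -- `F` commutes with its conjugate by `e c⁻¹`
      have h1 : ⁅F, Cfsg.conjBy F (e * c⁻¹)⁆ = ⊥ := by
        have h2 := congrArg (fun U => Cfsg.conjBy (Cfsg.conjBy U f⁻¹) e) hE.2
        simp only [conjBy_commutator, conjBy_eq_bot.2 rfl] at h2
        rwa [he.2.2.2.2, hc.2.2.2.2, conjBy_cancel_inv, conjBy_conjBy] at h2
      have h2 := centralizing_subset_conj hSr (centralizing_subset_conj hSr h f⁻¹) a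
      rw [ha.2.2.2.2, hc.2.2.2.2, conjBy_cancel_inv, conjBy_conjBy] at h2
      have h3 := (mem_centralizingMembers_iff.1 (h2 (mem_centralizingMembers_iff.2
        ⟨hSr.conj_mem F hFS (e * c⁻¹), by rw [Subgroup.commutator_comm, h1]⟩))).2
      have h4 : ⁅Cfsg.conjBy F e, Cfsg.conjBy F a⁆ = ⊥ := by
        have h5 := congrArg (fun U => Cfsg.conjBy U c) h3
        simp only [conjBy_commutator, conjBy_eq_bot.2 rfl, conjBy_conjBy] at h5
        rwa [← mul_assoc, ← mul_assoc, ← (hEC e he.1 c hc.1).eq, ← (hAC a ha.1 c hc.1).eq,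
          mul_inv_cancel_right, mul_inv_cancel_right] at h5
      obtain ⟨f₁, hf₁⟩ := exists_paired hAF (A.inv_mem ha.1) (inv_ne_one.2 ha.2.1)
      obtain ⟨f₂, hf₂⟩ := exists_paired hEF (E.inv_mem he.1) (inv_ne_one.2 he.2.1)
      have e1 := hf₁.2.2.2.2
      have e2 := hf₂.2.2.2.2
      rw [inv_inv] at e1 e2
      have h5 := congrArg (fun U => Cfsg.conjBy U f₁) h4
      simp only [conjBy_commutator, conjBy_eq_bot.2 rfl, ← e1, ← e2, conjBy_cancel_inv,
        conjBy_conjBy] at h5
      rw [mul_inv_cancel, conjBy_one] at h5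
      have h6 := (mem_centralizingMembers_iff.1 (h (mem_centralizingMembers_iff.2
        ⟨hSr.conj_mem E hE.1 (f₁ * f₂⁻¹), h5⟩))).2
      by_cases hg : f₁ * f₂⁻¹ = 1
      · rw [hg, conjBy_one] at h5
        exact hEA h5
      · obtain ⟨e₃, he₃⟩ := exists_paired_right hEF
          (F.inv_mem (F.mul_mem hf₁.2.2.1 (F.inv_mem hf₂.2.2.1))) (inv_ne_one.2 hg)
        have e3 := he₃.2.2.2.2
        rw [inv_inv] at e3
        rw [e3] at h6
        have h7 := congrArg (fun U => Cfsg.conjBy U e₃) h6
        simp only [conjBy_commutator, conjBy_eq_bot.2 rfl, conjBy_cancel_inv] at h7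
        rw [conjBy_of_commute (fun x hx => hEC e₃ he₃.1 x hx)] at h7
        exact commutator_ne_bot hCF (by rw [Subgroup.commutator_comm, h7])
    · -- non-degenerate
      obtain ⟨P, hP, Q, hQ, hpq⟩ := hnd.2.1
      obtain ⟨F, hFS, hCF, hAF⟩ := hF hP hQ hpq
      exact hEA (mem_centralizingMembers_iff.1 (subset_symm_of_special
        (Cfsg.centralizingMembers S) (fun X Y => centralizing_subset_conj hSr) hAC
        (nondeg_pair hS hnd hA hFS hAF).2 (nondeg_pair hS hnd hC hFS hCF).2 h
        (mem_centralizingMembers_iff.2 hE))).2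
  refine ⟨part1 A hA C hC, fun h => ?_⟩
  have hne : ⁅A, C⁆ = ⊥ := by
    rcases hSr.pair A hA C hC with h1 | h1 | h1
    · exact h1
    · exact absurd rfl (h ⟨hC, h1⟩).2.ne
    · exfalso
      have hnd := hndeg A hA C hC h1
      obtain ⟨P₀, hP₀, Q₀, hQ₀, hpq⟩ := hnd.2.1
      obtain ⟨C', hC', hCC'⟩ := hpartner hP₀ hQ₀ hpq C hC
      have h1' := rootCommutatorCase_symm h1
      obtain ⟨P, hP, hLP⟩ := hpartner hP₀ hQ₀ hpq ⁅C, A⁆ h1'.1
      obtain ⟨T, hT, g1, g2, g3, -⟩ :=
        line_structure hSr h1'.1 hP hLP (rcc_linePartners hSr hC hC' hCC' h1').1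
      have hTne : T ≠ ⁅C, A⁆ := fun e => rcc_left_ne hSr g2 (e.symm.trans g3.symm)
      rw [sup_comm, rcc_membersIn hSr hC hC' hCC' h1'] at hT
      obtain ⟨a, ha, hTa⟩ := hT.resolve_right hTne
      simp only at hTa
      have hTA : ⁅T, A⁆ = ⁅C, A⁆ := by
        haveI := hSr.commutative A hA
        have h2 := conjBy_commutator C A a
        rw [hTa, conjBy_of_mem ha, conjBy_commutator_of_mem (Subgroup.mem_sup_right ha)] at h2
        exact h2.symm
      have hTS : T ∈ S := hTa ▸ hSr.conj_mem C hC a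
      have hTAc : Cfsg.RootCommutatorCase S T A :=
        rcc_of_commutator_mem hSr hTS hA (by rw [hTA]; exact h1'.1)
      have hcomm' : ⁅⁅P, T⁆, ⁅C, A⁆⁆ = T := by rw [Subgroup.commutator_comm, g3]
      have hAE := config_rankOne hSr hTS hA g1.1 hTA hTAc (rootCommutatorCase_symm g2) hcomm'
      have h3 := partners_subset_conj hSr h a
      rw [conjBy_of_mem ha, hTa] at h3
      exact commutator_ne_bot (h3 ⟨g1.1, hAE⟩).2 (commutator_eq_bot_iff_forall_commute.2
        fun x hx y hy => (rcc_commute_right g1 hy hx).symm)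
  refine ⟨hne, le_antisymm h fun E hE => ?_⟩
  by_cases hex : ∃ F, F ∈ Cfsg.rankOnePartners S A
  · obtain ⟨F, hF⟩ := hex
    rcases hdn with hdeg | hnd
    · have hiff : ∀ X ∈ S, ∀ Y ∈ S,
          (Y ∈ Cfsg.centralizingMembers S X ↔ Y ∉ Cfsg.rankOnePartners S X) := by
        intro X hX Y hY
        rw [mem_centralizingMembers_iff, Subgroup.commutator_comm]
        refine ⟨fun h1 h2 => commutator_ne_bot h2.2 h1.2, fun h1 => ⟨hY, ?_⟩⟩
        rcases hSr.pair X hX Y hY with h2 | h2 | h2
        · exact h2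
        · exact absurd ⟨hY, h2⟩ h1
        · exact absurd h2 (hdeg X hX Y hY)
      have heq := part1 C hC A hA fun Y hY =>
        (hiff A hA Y (mem_centralizingMembers_iff.1 hY).1).2 fun h1 =>
          (hiff C hC Y (mem_centralizingMembers_iff.1 hY).1).1 hY (h h1)
      by_contra h1
      have h2 := (hiff A hA E hE.1).2 h1
      rw [← heq] at h2
      exact (hiff C hC E hE.1).1 h2 hE
    · exact subset_symm_of_special (Cfsg.rankOnePartners S)
        (fun X Y => partners_subset_conj hSr) (hcomm hne)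
        (nondeg_pair hS hnd hA hF.1 hF.2).2 (nondeg_pair hS hnd hC hF.1 (h hF).2).2 h hE
  · exact absurd (hpartner hC hE.1 hE.2 A hA) fun ⟨Y, hY, hY'⟩ => hex ⟨Y, hY, hY'⟩
where
  commute_fix {A C E : Subgroup G} (x : G) (hx : x ∈ A ⊔ E)
      (hAC : ∀ a ∈ A, ∀ c ∈ C, Commute a c) (hEC : ∀ e ∈ E, ∀ c ∈ C, Commute e c) :
      ∀ c ∈ C, Commute x c := fun c hc =>
    (commute_of_sup (g := c) (fun a ha => (hAC a ha c hc).symm)
      (fun e he => (hEC e he c hc).symm) x hx).symm

end Cfsg.Agent.S5037
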