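import Cfsg.Statements.S5038
import Cfsg.Agent.Lib.RootGroups.Connected
-- import your own Cfsg.Agent.* helpers here

set_option autoImplicit false
open Cfsg

namespace Cfsg.Agent.S5038

open CfsgLib.RootGroups

/-- Let S be a set of abstract root subgroups of G in which every member has a rank one partner, A ∈ S and B a line partner of A. Then the subgroup generated by the members of S normalizing AB permutes the members of S inside AB doubly transitively by conjugation. -/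
theorem result {G : Type*} [Group G] {S : Set (Subgroup G)} (hS : Cfsg.IsRootSubgroupSet S)
    (hF : ∀ A ∈ S, ¬ Cfsg.IsIsolatedIn (Cfsg.FAdj S) S A) {A B : Subgroup G} (hA : A ∈ S) (hB : B ∈ Cfsg.linePartners S A) :
    ∀ C₁ ∈ Cfsg.membersIn S (A ⊔ B), ∀ C₂ ∈ Cfsg.membersIn S (A ⊔ B), ∀ D₁ ∈ Cfsg.membersIn S (A ⊔ B),
      ∀ D₂ ∈ Cfsg.membersIn S (A ⊔ B), C₁ ≠ C₂ → D₁ ≠ D₂ →
        ∃ x ∈ ⨆ E ∈ Cfsg.normalizingMembers S (A ⊔ B), E, Cfsg.conjBy C₁ x = D₁ ∧ Cfsg.conjBy C₂ x = D₂ := by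
  obtain ⟨A', hA', hp⟩ := (not_isolated_iff hA).1 (hF A hA)
  obtain ⟨T, hT, h1, h2, h3, h4⟩ := line_structure hS hA hA' hp hB
  have hAT : A ∈ Cfsg.linePartners S T := by
    have := (rcc_linePartners hS hA hA' hp h2).1
    rwa [h3] at this
  obtain ⟨T', hT', hq⟩ := (not_isolated_iff hT.1).1 (hF T hT.1)
  obtain ⟨T₂, hT₂, g1, g2, g3, g4⟩ := line_structure hS hT.1 hT' hq hAT
  have hmem1 : ∀ C ∈ Cfsg.membersIn S (A ⊔ B),
      C = T ∨ ∃ k ∈ ⁅A', T⁆, C = Cfsg.conjBy A k := by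
    intro C hC
    rw [← h4] at hC
    have hC' : C ∈ Cfsg.membersIn S (A ⊔ ⁅A, ⁅A', T⁆⁆) := by rwa [h3]
    rw [rcc_membersIn hS hA hA' hp h2, h3] at hC'
    rcases hC' with ⟨k, hk, e⟩ | e
    · exact Or.inr ⟨k, hk, e.symm⟩
    · exact Or.inl e
  have hmem2 : ∀ C ∈ Cfsg.membersIn S (A ⊔ B),
      C = T₂ ∨ ∃ k ∈ ⁅T', T₂⁆, C = Cfsg.conjBy T k := by
    intro C hC
    rw [← h4, sup_comm, ← g4] at hC
    have hC' : C ∈ Cfsg.membersIn S (T ⊔ ⁅T, ⁅T', T₂⁆⁆) := by rwa [g3]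
    rw [rcc_membersIn hS hT.1 hT' hq g2, g3] at hC'
    rcases hC' with ⟨k, hk, e⟩ | e
    · exact Or.inr ⟨k, hk, e.symm⟩
    · exact Or.inl e
  set N := ⨆ E ∈ Cfsg.normalizingMembers S (A ⊔ B), E with hN
  have hnormal : ∀ x ∈ N, Cfsg.conjBy (A ⊔ B) x = A ⊔ B := fun x hx =>
    conjBy_eq_self_iff.2 ((iSup₂_le fun E hE => hE.2 :
      N ≤ Subgroup.normalizer ((A ⊔ B : Subgroup G) : Set G)) hx)
  have hN' : ∀ (U V : Subgroup G) (K : Subgroup G), K ∈ S → U ⊔ V = A ⊔ B →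
      (∀ k ∈ K, ∀ v ∈ V, Commute k v) → (∀ k ∈ K, Cfsg.conjBy U k ≤ A ⊔ B) → ∀ k ∈ K, k ∈ N := by
    intro U V K hK hUV hV hU
    have hle : ∀ k ∈ K, Cfsg.conjBy (A ⊔ B) k ≤ A ⊔ B := by
      intro k hk
      rw [← hUV, conjBy_sup, conjBy_of_commute (hV k hk), hUV]
      exact sup_le (hU k hk) (hUV ▸ le_sup_right)
    have hKn : K ≤ Subgroup.normalizer ((A ⊔ B : Subgroup G) : Set G) := by
      intro k hk
      refine conjBy_eq_self_iff.1 (le_antisymm (hle k hk) ?_)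
      have := conjBy_mono (g := k) (hle k⁻¹ (K.inv_mem hk))
      rwa [conjBy_cancel_inv] at this
    exact fun k hk => Subgroup.mem_iSup_of_mem K (Subgroup.mem_iSup_of_mem ⟨hK, hKn⟩ hk)
  have hK1 : ∀ k ∈ ⁅A', T⁆, k ∈ N := hN' A T _ h1.1 h4
    (fun k hk v hv => rcc_commute_right h1 hk hv) (fun k hk => by
      have := rcc_conjBy_le h2 hk
      rwa [h3, h4] at this)
  have hK2 : ∀ k ∈ ⁅T', T₂⁆, k ∈ N := hN' T T₂ _ g1.1 (by rw [g4, sup_comm, h4])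
    (fun k hk v hv => rcc_commute_right g1 hk hv) (fun k hk => by
      have := rcc_conjBy_le g2 hk
      rwa [g3, g4, sup_comm T A, h4] at this)
  have hTfix : ∀ k ∈ ⁅A', T⁆, Cfsg.conjBy T k = T := fun k hk =>
    conjBy_of_commute fun v hv => rcc_commute_right h1 hk hv
  have hTmem : T ∈ Cfsg.membersIn S (A ⊔ B) := ⟨hT.1, h4 ▸ le_sup_right⟩
  have hAmem : A ∈ Cfsg.membersIn S (A ⊔ B) := ⟨hA, le_sup_left⟩
  have hTA : T ≠ A := fun e => rcc_left_ne hS h2 (by rw [h3, e])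
  -- `T` is conjugate to `A` under `N`
  obtain ⟨g, hg, hgT⟩ : ∃ g ∈ N, Cfsg.conjBy A g = T := by
    rcases hmem2 A hAmem with e | ⟨k, hk, e⟩
    · -- a third member
      obtain ⟨a, ha, ha1⟩ := exists_ne_one_of_ne_bot (ne_bot_left hp)
      obtain ⟨k, hk, hk1⟩ := exists_ne_one_of_ne_bot (hS.ne_bot _ h1.1)
      have hCne : Cfsg.conjBy A k ≠ A := by
        intro e'
        apply rcc_ne_bot hS h2
        rw [← h2.2.2.2 k hk hk1, eq_bot_iff, Subgroup.closure_le]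
        rintro _ ⟨x, hx, rfl⟩
        rw [SetLike.mem_coe, Subgroup.mem_bot]
        by_contra hne'
        have hxA : x * k * x⁻¹ * k⁻¹ ∈ A := by
          rw [show x * k * x⁻¹ * k⁻¹ = x * (k * x⁻¹ * k⁻¹) by group]
          exact A.mul_mem hx (e' ▸ conj_mem_conjBy (A.inv_mem hx))
        exact rcc_left_ne hS h2
          (eq_of_mem_of_mem hS hA hA' h2.1 hp hxA hne' (mem_commutator_of_mem hx hk)).symm
      have hC : Cfsg.conjBy A k ∈ Cfsg.membersIn S (A ⊔ B) :=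
        ⟨hS.conj_mem A hA k, by rw [← h4, ← h3]; exact rcc_conjBy_le h2 hk⟩
      obtain ⟨k', hk', e'⟩ := (hmem2 _ hC).resolve_left (fun e' => hCne (e'.trans e.symm))
      exact ⟨k'⁻¹ * k, N.mul_mem (N.inv_mem (hK2 k' hk')) (hK1 k hk),
        by rw [← conjBy_conjBy, e', conjBy_inv_cancel]⟩
    · exact ⟨k⁻¹, N.inv_mem (hK2 k hk), by rw [conjBy_eq_iff, inv_inv]; exact e⟩
  have htrans : ∀ C ∈ Cfsg.membersIn S (A ⊔ B), ∃ x ∈ N, Cfsg.conjBy A x = C := by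
    intro C hC
    rcases hmem1 C hC with rfl | ⟨k, hk, rfl⟩
    · exact ⟨g, hg, hgT⟩
    · exact ⟨k, hK1 k hk, rfl⟩
  have hpair : ∀ C₁ ∈ Cfsg.membersIn S (A ⊔ B), ∀ C₂ ∈ Cfsg.membersIn S (A ⊔ B), C₁ ≠ C₂ →
      ∃ x ∈ N, Cfsg.conjBy T x = C₁ ∧ Cfsg.conjBy A x = C₂ := by
    intro C₁ hC₁ C₂ hC₂ hne
    obtain ⟨x, hx, rfl⟩ := htrans C₁ hC₁
    have hy : x * g⁻¹ ∈ N := N.mul_mem hx (N.inv_mem hg)
    have hyT : Cfsg.conjBy T (x * g⁻¹) = Cfsg.conjBy A x := by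
      rw [← hgT, conjBy_conjBy, inv_mul_cancel_right]
    have hC₂' : Cfsg.conjBy C₂ (x * g⁻¹)⁻¹ ∈ Cfsg.membersIn S (A ⊔ B) :=
      ⟨hS.conj_mem _ hC₂.1 _,
        (conjBy_mono hC₂.2).trans (hnormal _ (N.inv_mem hy)).le⟩
    rcases hmem1 _ hC₂' with e | ⟨k, hk, e⟩
    · exact absurd ((conjBy_eq_iff.1 e).trans (by rw [inv_inv, hyT])) (Ne.symm hne)
    · refine ⟨x * g⁻¹ * k, N.mul_mem hy (hK1 k hk), ?_, ?_⟩
      · rw [← conjBy_conjBy, hTfix k hk, hyT]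
      · rw [← conjBy_conjBy, ← e, conjBy_cancel_inv]
  intro C₁ hC₁ C₂ hC₂ D₁ hD₁ D₂ hD₂ hC hD
  obtain ⟨x, hx, rfl, rfl⟩ := hpair C₁ hC₁ C₂ hC₂ hC
  obtain ⟨y, hy, rfl, rfl⟩ := hpair D₁ hD₁ D₂ hD₂ hD
  exact ⟨y * x⁻¹, N.mul_mem hy (N.inv_mem hx), by rw [conjBy_conjBy, inv_mul_cancel_right],
    by rw [conjBy_conjBy, inv_mul_cancel_right]⟩

end Cfsg.Agent.S5038
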