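import Cfsg.Statements.S5039
import Cfsg.Agent.Lib.RootGroups.BadPair
-- import your own Cfsg.Agent.* helpers here

set_option autoImplicit false
universe u
open Cfsg

namespace Cfsg.Agent.S5039

open CfsgLib.RootGroups

theorem four_le_card {G : Type*} [Group G] {P : Subgroup G} {x : G} (hx : x ∈ P)
    (h : ∀ n, 0 < n → n < 4 → x ^ n ≠ 1) : 3 < ENat.card P := by
  have hinj : Function.Injective fun i : Fin 4 => (⟨x ^ (i : ℕ), P.pow_mem hx _⟩ : P) := by
    intro i j hij
    have hij' : x ^ (i : ℕ) = x ^ (j : ℕ) := congrArg Subtype.val hij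
    apply Fin.ext
    by_contra hne
    rcases lt_or_gt_of_ne hne with hlt | hlt
    · refine h ((j : ℕ) - i) (by omega) (by omega) ?_
      rw [pow_sub _ hlt.le, hij', mul_inv_cancel]
    · refine h ((i : ℕ) - j) (by omega) (by omega) ?_
      rw [pow_sub _ hlt.le, hij', mul_inv_cancel]
  refine lt_of_lt_of_le ?_ (ENat.card_le_card_of_injective hinj)
  rw [ENat.card_eq_coe_fintype_card, Fintype.card_fin]
  exact_mod_cast (by omega : 3 < 4)

/-- An upper unitriangular matrix. -/
def upperElem {k : Type*} [Field k] (x : k) : Matrix.SpecialLinearGroup (Fin 2) k :=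
  ⟨!![1, x; 0, 1], by simp⟩

theorem upperElem_mem {k : Type*} [Field k] (x : k) : upperElem x ∈ upperUnipotentSL2 k :=
  Subgroup.subset_closure ⟨by simp [upperElem], by simp [upperElem], by simp [upperElem]⟩

theorem eq_of_upperElem_central {k : Type*} [Field k] {x y : k}
    (h : (upperElem x)⁻¹ * upperElem y ∈ Subgroup.center (Matrix.SpecialLinearGroup (Fin 2) k)) :
    x = y := by
  have hm : (upperElem x)⁻¹ * upperElem y = upperElem (y - x) := by
    rw [inv_mul_eq_iff_eq_mul]
    ext i j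
    rw [Matrix.SpecialLinearGroup.coe_mul]
    fin_cases i <;> fin_cases j <;> simp [upperElem, Matrix.mul_apply, Fin.sum_univ_two]
  rw [hm, Subgroup.mem_center_iff] at h
  let L : Matrix.SpecialLinearGroup (Fin 2) k := ⟨!![1, 0; 1, 1], by simp⟩
  have h1 : ((L * upperElem (y - x) : Matrix.SpecialLinearGroup (Fin 2) k) :
      Matrix (Fin 2) (Fin 2) k) = ↑(upperElem (y - x) * L) := by rw [h L]
  rw [Matrix.SpecialLinearGroup.coe_mul, Matrix.SpecialLinearGroup.coe_mul] at h1
  have h2 := congrFun (congrFun h1 0) 0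
  simp [L, upperElem, Matrix.mul_apply, Fin.sum_univ_two] at h2
  exact (sub_eq_zero.1 h2).symm

/-- Let S be a class of abstract root subgroups of G containing two different commuting members. Suppose that, in case S is degenerate and every element of every member of S has order at most 3, the following holds: for every A ∈ S and every rank one partner B of A there are subgroups A₀ ≤ A and B₀ ≤ B generating an image of SL₂(k) with central kernel, k a field with at least four elements, A₀ and B₀ being the images of the unitriangular subgroups. Then every rank one pair A, B in S is special. -/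
theorem result {G : Type u} [Group G] {S : Set (Subgroup G)} (hS : Cfsg.IsRootSubgroupClass S)
    (hcomm : ∃ A ∈ S, ∃ C ∈ S, A ≠ C ∧ ⁅A, C⁆ = ⊥)
    (hH : Cfsg.IsDegenerateRootSet S → (∀ A ∈ S, ∀ a ∈ A, 0 < orderOf a ∧ orderOf a ≤ 3) →
      ∀ A ∈ S, ∀ B ∈ Cfsg.rankOnePartners S A, ∃ A₀ B₀ : Subgroup G, A₀ ≤ A ∧ B₀ ≤ B ∧
        ∃ (k : Type u) (_ : Field k), 3 < ENat.card k ∧ Cfsg.IsPSL2PairOver k A₀ B₀)
    {A B : Subgroup G} (hA : A ∈ S) (hB : B ∈ Cfsg.rankOnePartners S A) : Cfsg.IsSpecialRankOnePair A B := by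
  obtain ⟨A₁, hA₁, C₁, hC₁, hne₁, hc₁⟩ := hcomm
  by_cases hdeg : Cfsg.IsDegenerateRootSet S
  swap
  · simp only [Cfsg.IsDegenerateRootSet] at hdeg
    push Not at hdeg
    obtain ⟨P, hP, Q, hQ, hPQ⟩ := hdeg
    exact (nondeg_pair hS ⟨⟨A₁, hA₁, C₁, hC₁, hne₁, hc₁⟩, ⟨A, hA, B, hB.1, hB.2⟩,
      ⟨P, hP, Q, hQ, hPQ⟩⟩ hA hB.1 hB.2).2
  have hbig : ∀ P ∈ S, 3 < ENat.card P := by
    obtain ⟨P, hP, hcard⟩ : ∃ P ∈ S, 3 < ENat.card P := by
      by_cases hord : ∀ A ∈ S, ∀ a ∈ A, 0 < orderOf a ∧ orderOf a ≤ 3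
      · obtain ⟨A₀, B₀, hle, -, k, hk, hcard, φ, -, hker, hup, -⟩ := hH hdeg hord A hA B hB
        refine ⟨A, hA, hcard.trans_le ?_⟩
        have hu : ∀ x : k, φ (upperElem x) ∈ A := fun x =>
          hle (hup ▸ Subgroup.mem_map_of_mem φ (upperElem_mem x))
        refine ENat.card_le_card_of_injective (f := fun x => (⟨φ (upperElem x), hu x⟩ : A)) ?_
        intro x y hxy
        have h := hker (MonoidHom.mem_ker.2 (show φ ((upperElem x)⁻¹ * upperElem y) = 1 by
          rw [map_mul, map_inv, inv_mul_eq_one]; exact congrArg Subtype.val hxy))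
        exact eq_of_upperElem_central h
      · push Not at hord
        obtain ⟨P, hP, x, hx, hord⟩ := hord
        refine ⟨P, hP, four_le_card hx fun n hn hn4 hpow => ?_⟩
        have h0 : 0 < orderOf x :=
          orderOf_pos_iff.2 (isOfFinOrder_iff_pow_eq_one.2 ⟨n, hn, hpow⟩)
        have := Nat.le_of_dvd hn (orderOf_dvd_of_pow_eq_one hpow)
        have := hord h0
        omega
    intro Q hQ
    obtain ⟨g, rfl⟩ := hS.2.2 P hP Q hQ
    rwa [← ENat.card_congr (P.equivMapOfInjective _ (MulAut.conj g).injective).toEquiv]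
  refine special_of_not_sameBlock hS.1 hdeg hA hB.1 hB.2 fun hbad => ?_
  obtain ⟨g, rfl⟩ := hS.2.2 A₁ hA₁ A hA
  have hC := commutingPartners_conjBy hS.1
    (show C₁ ∈ Cfsg.commutingPartners S A₁ from ⟨hC₁, hne₁.symm, hc₁⟩) g
  exact bad_false hS.1 hdeg hA hB.1 hB.2 hbad
    (exists_good_partner hS hA hB.1 hB.2 hC) (hbig _ hA)

end Cfsg.Agent.S5039
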