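import Cfsg.Statements.S5043
import Cfsg.Agent.Lib.Transpositions.TransvSL
-- import your own Cfsg.Agent.* helpers here

set_option autoImplicit false
open Matrix
open Cfsg

namespace Cfsg.Agent.S5043

/-- Let k be a field and n a natural number. In SL_{n+3}(k) (so in every dimension at least 3) the conjugates of the root subgroup of elementary transvections 1 + c E₁₂ (c ∈ k) — that is, the groups of transvections attached to an incident point–hyperplane pair — form a non-degenerate class of abstract k-root subgroups of SL_{n+3}(k) whose graph of rank one pairs is connected. -/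
theorem result (k : Type*) [Field k] (n : ℕ) :
    Cfsg.IsRootSubgroupClass {A : Subgroup (Matrix.SpecialLinearGroup (Fin (n + 3)) k) |
        ∃ g : Matrix.SpecialLinearGroup (Fin (n + 3)) k,
          A = Cfsg.conjBy (Subgroup.closure {t : Matrix.SpecialLinearGroup (Fin (n + 3)) k |
            ∃ c : k, (t : Matrix (Fin (n + 3)) (Fin (n + 3)) k) = Matrix.transvection 0 1 c}) g} ∧
    Cfsg.IsNondegenerateRootSet {A : Subgroup (Matrix.SpecialLinearGroup (Fin (n + 3)) k) |
        ∃ g : Matrix.SpecialLinearGroup (Fin (n + 3)) k,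
          A = Cfsg.conjBy (Subgroup.closure {t : Matrix.SpecialLinearGroup (Fin (n + 3)) k |
            ∃ c : k, (t : Matrix (Fin (n + 3)) (Fin (n + 3)) k) = Matrix.transvection 0 1 c}) g} ∧
    Cfsg.IsKRootSubgroupSet k {A : Subgroup (Matrix.SpecialLinearGroup (Fin (n + 3)) k) |
        ∃ g : Matrix.SpecialLinearGroup (Fin (n + 3)) k,
          A = Cfsg.conjBy (Subgroup.closure {t : Matrix.SpecialLinearGroup (Fin (n + 3)) k |
            ∃ c : k, (t : Matrix (Fin (n + 3)) (Fin (n + 3)) k) = Matrix.transvection 0 1 c}) g} ∧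
    Cfsg.IsConnectedFamily (Cfsg.FAdj {A : Subgroup (Matrix.SpecialLinearGroup (Fin (n + 3)) k) |
        ∃ g : Matrix.SpecialLinearGroup (Fin (n + 3)) k,
          A = Cfsg.conjBy (Subgroup.closure {t : Matrix.SpecialLinearGroup (Fin (n + 3)) k |
            ∃ c : k, (t : Matrix (Fin (n + 3)) (Fin (n + 3)) k) = Matrix.transvection 0 1 c}) g})
      {A : Subgroup (Matrix.SpecialLinearGroup (Fin (n + 3)) k) |
        ∃ g : Matrix.SpecialLinearGroup (Fin (n + 3)) k,
          A = Cfsg.conjBy (Subgroup.closure {t : Matrix.SpecialLinearGroup (Fin (n + 3)) k |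
            ∃ c : k, (t : Matrix (Fin (n + 3)) (Fin (n + 3)) k) = Matrix.transvection 0 1 c}) g} := by
  have h0 : (Pi.single 1 (1 : k) : Fin (n + 3) → k) ⬝ᵥ Pi.single 0 1 = 0 := by simp
  have hset : {A : Subgroup (Matrix.SpecialLinearGroup (Fin (n + 3)) k) |
        ∃ g : Matrix.SpecialLinearGroup (Fin (n + 3)) k,
          A = Cfsg.conjBy (Subgroup.closure {t : Matrix.SpecialLinearGroup (Fin (n + 3)) k |
            ∃ c : k, (t : Matrix (Fin (n + 3)) (Fin (n + 3)) k) = Matrix.transvection 0 1 c}) g} =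
      CfsgLib.Transpositions.transvRoots (Fin (n + 3)) k := by
    rw [CfsgLib.Transpositions.closure_transvection_eq]
    have hm := CfsgLib.Transpositions.transvRoot_mem (u := (Pi.single 0 (1 : k) : Fin (n + 3) → k))
      (φ := Pi.single 1 1) (by simp) (by simp) h0
    refine Set.ext fun A => ⟨?_, ?_⟩
    · rintro ⟨g, rfl⟩
      exact CfsgLib.Transpositions.isRootSubgroupSet_transvRoots.conj_mem _ hm g
    · exact fun hA => (CfsgLib.Transpositions.isConjClass_transvRoots (by simp)).2 _ hm _ hA
  rw [hset]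
  refine ⟨⟨CfsgLib.Transpositions.isRootSubgroupSet_transvRoots,
    CfsgLib.Transpositions.isConjClass_transvRoots (by simp)⟩, ?_,
    CfsgLib.Transpositions.isKRootSubgroupSet_transvRoots,
    CfsgLib.Transpositions.connected_transvRoots⟩
  have ne01 : (0 : Fin (n + 3)) ≠ 1 := by simp
  have ne02 : (0 : Fin (n + 3)) ≠ 2 := by simp [Fin.ext_iff, Fin.val_ofNat, Nat.mod_eq_of_lt]
  have ne12 : (1 : Fin (n + 3)) ≠ 2 := by simp [Fin.ext_iff, Fin.val_ofNat, Nat.mod_eq_of_lt]
  let A := CfsgLib.Transpositions.transvRoot (Pi.single (0 : Fin (n + 3)) (1 : k)) (Pi.single 1 1)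
  let B := CfsgLib.Transpositions.transvRoot (Pi.single (0 : Fin (n + 3)) (1 : k)) (Pi.single 2 1)
  let C := CfsgLib.Transpositions.transvRoot (Pi.single (1 : Fin (n + 3)) (1 : k)) (Pi.single 0 1)
  let D := CfsgLib.Transpositions.transvRoot (Pi.single (1 : Fin (n + 3)) (1 : k)) (Pi.single 2 1)
  have hmem : ∀ i j : Fin (n + 3), i ≠ j → CfsgLib.Transpositions.transvRoot (Pi.single i (1 : k))
      (Pi.single j 1) ∈ CfsgLib.Transpositions.transvRoots (Fin (n + 3)) k := fun i j hij =>
    CfsgLib.Transpositions.transvRoot_mem (by simp) (by simp) (by simp [hij.symm])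
  refine ⟨⟨A, hmem _ _ ne01, B, hmem _ _ ne02, ?_, ?_⟩, ⟨A, hmem _ _ ne01, C, hmem _ _ ne01.symm, ?_⟩,
    ⟨A, hmem _ _ ne01, D, hmem _ _ ne12, ?_⟩⟩
  · intro e
    obtain ⟨t, ht⟩ := CfsgLib.Transpositions.exists_eq_smul_of_rootLine_eq
      (CfsgLib.Transpositions.hasLine_vmv h0).1
      (CfsgLib.Transpositions.hasLine_vmv (by simp [ne02.symm])) e
    have := congrFun (congrFun ht 0) 2
    simp [Matrix.vecMulVec_apply, ne12.symm] at this
  · refine CfsgLib.Transpositions.commutator_rootLine_eq_bot CfsgLib.Transpositions.slRho_injective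
      (CfsgLib.Transpositions.hasLine_vmv h0).1
      (CfsgLib.Transpositions.hasLine_vmv (by simp [ne02.symm])).1 ?_
    rw [CfsgLib.Transpositions.vmv_mul_vmv, CfsgLib.Transpositions.vmv_mul_vmv]
    simp [ne01, ne02]
  · exact CfsgLib.Transpositions.isRankOnePair_transvRoot (by simp) (by simp) h0 (by simp [ne01])
      (by simp) (by simp)
  · refine CfsgLib.Transpositions.rootCommutatorCase_rootLine CfsgLib.Transpositions.slRho_injective
      (d := Matrix.vecMulVec (Pi.single (0 : Fin (n + 3)) (1 : k)) (Pi.single 2 1)) (c := 1)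
      (CfsgLib.Transpositions.hasLine_vmv h0)
      (CfsgLib.Transpositions.hasLine_vmv (by simp [ne12.symm]))
      (CfsgLib.Transpositions.hasLine_vmv (by simp [ne02.symm])).1 one_ne_zero ?_ ?_ ?_ (hmem _ _ ne02)
    · simp [CfsgLib.Transpositions.triple_vmv, ne02]
    · simp [CfsgLib.Transpositions.triple_vmv, ne02]
    · rw [CfsgLib.Transpositions.vmv_mul_vmv, CfsgLib.Transpositions.vmv_mul_vmv]
      simp [ne02]

end Cfsg.Agent.S5043
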