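import Cfsg.Statements.S5045
import Cfsg.Agent.Lib.RootInvolutions.Isolated
-- import your own Cfsg.Agent.* helpers here

set_option autoImplicit false
open Cfsg

namespace Cfsg.Agent.S5045

open CfsgLib.RootInvol

/-- Let G be a finite group generated by a set D of root involutions, and W the set of members of D whose product with every other member of D has even order or is trivial (the isolated vertices of the odd-order-product graph on D). Then W is conjugation-invariant and generates a normal 2-subgroup of G meeting D in exactly W; the commutator of two members of D lying in different connected components of that graph, each with more than one member, lies in the subgroup generated by W; and for a in such a component, every member of D commuting with a, different from a and with product with a in D, lies in that component or in W. -/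
theorem result {G : Type*} [Group G] [Finite G] {D : Set G} (hD : Cfsg.IsRootInvolutionSet D) :
    (∀ w ∈ {w | Cfsg.IsIsolatedElem (Cfsg.OddAdj D) D w}, ∀ g : G, g * w * g⁻¹ ∈ {w | Cfsg.IsIsolatedElem (Cfsg.OddAdj D) D w}) ∧
    (Subgroup.closure {w | Cfsg.IsIsolatedElem (Cfsg.OddAdj D) D w}).Normal ∧
    IsPGroup 2 ↥(Subgroup.closure {w | Cfsg.IsIsolatedElem (Cfsg.OddAdj D) D w}) ∧
    (Subgroup.closure {w | Cfsg.IsIsolatedElem (Cfsg.OddAdj D) D w} : Set G) ∩ D = {w | Cfsg.IsIsolatedElem (Cfsg.OddAdj D) D w} ∧
    (∀ a ∈ D, ∀ b ∈ D, (∃ a' ∈ Cfsg.elemComponentOf (Cfsg.OddAdj D) D a, a' ≠ a) →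
      (∃ b' ∈ Cfsg.elemComponentOf (Cfsg.OddAdj D) D b, b' ≠ b) →
      Cfsg.elemComponentOf (Cfsg.OddAdj D) D a ≠ Cfsg.elemComponentOf (Cfsg.OddAdj D) D b →
        a * b * a⁻¹ * b⁻¹ ∈ Subgroup.closure {w | Cfsg.IsIsolatedElem (Cfsg.OddAdj D) D w}) ∧
    (∀ a ∈ D, (∃ a' ∈ Cfsg.elemComponentOf (Cfsg.OddAdj D) D a, a' ≠ a) →
      Cfsg.productPartners D a ⊆ Cfsg.elemComponentOf (Cfsg.OddAdj D) D a ∪ {w | Cfsg.IsIsolatedElem (Cfsg.OddAdj D) D w}) := by
  have hW : ∀ w ∈ {w | Cfsg.IsIsolatedElem (Cfsg.OddAdj D) D w}, ∀ g : G,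
      g * w * g⁻¹ ∈ {w | Cfsg.IsIsolatedElem (Cfsg.OddAdj D) D w} :=
    fun w hw g => isolated_conj hD hw g
  have hle : Subgroup.closure {w | Cfsg.IsIsolatedElem (Cfsg.OddAdj D) D w} ≤ Cfsg.pCore 2 G :=
    (Subgroup.closure_le _).2 fun w hw => mem_pCore_of_isolated hD hw
  refine ⟨hW, ?_, (CfsgLib.Cores.isPGroup_pCore 2 G).to_le hle, ?_, ?_, ?_⟩
  · constructor
    intro n hn g
    have h : (Subgroup.closure {w | Cfsg.IsIsolatedElem (Cfsg.OddAdj D) D w}).map
        (MulAut.conj g).toMonoidHom ≤
          Subgroup.closure {w | Cfsg.IsIsolatedElem (Cfsg.OddAdj D) D w} := by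
      rw [MonoidHom.map_closure, Subgroup.closure_le]
      rintro _ ⟨w, hw, rfl⟩
      exact Subgroup.subset_closure (hW w hw g)
    exact h (Subgroup.mem_map_of_mem (MulAut.conj g).toMonoidHom hn)
  · ext d
    exact ⟨fun h => isolated_of_mem_pCore hD h.2 (hle h.1),
      fun h => ⟨Subgroup.subset_closure h, h.1⟩⟩
  · intro a ha b hb hA hB hne
    obtain ⟨a', ha'⟩ := exists_partner_of_component hA
    obtain ⟨b', hb'⟩ := exists_partner_of_component hB
    have he : a * b * a⁻¹ * b⁻¹ = br a b := by rw [inv_eq hD ha, inv_eq hD hb, br]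
    rcases trichotomy hD ha hb with h | h | h
    · rw [h.eq, mul_inv_cancel_right, mul_inv_cancel]
      exact Subgroup.one_mem _
    · exact absurd (component_eq hD (Relation.ReflTransGen.single h)) hne
    · rw [he]
      refine Subgroup.subset_closure ?_
      have hcD := br_mem hD ha hb h
      have h1 : br a b ∈ Cfsg.productPartners D a := by
        refine ⟨⟨hcD, (commute_br_left hD ha hb h).symm.eq, fun e => ?_⟩, ?_⟩
        · exact ne_of_commute_mul_mem hD ha (left_mul_br_mem hD ha hb h) e.symm
        · rw [← (commute_br_left hD ha hb h).eq]; exact left_mul_br_mem hD ha hb h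
      have h2 : br a b ∈ Cfsg.productPartners D b := by
        refine ⟨⟨hcD, (commute_br_right hD ha hb h).symm.eq, fun e => ?_⟩, ?_⟩
        · exact ne_of_commute_mul_mem hD hb (right_mul_br_mem hD ha hb h) e.symm
        · rw [← (commute_br_right hD ha hb h).eq]; exact right_mul_br_mem hD ha hb h
      rcases mem_component_of_productPartners hD ha' h1 with r1 | r1
      · rcases mem_component_of_productPartners hD hb' h2 with r2 | r2
        · exact absurd ((component_eq hD r1).trans (component_eq hD r2).symm) hne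
        · exact r2
      · exact r1
  · intro a ha hA x hx
    obtain ⟨a', ha'⟩ := exists_partner_of_component hA
    exact (mem_component_of_productPartners hD ha' hx).imp (fun h => ⟨hx.1.1, h⟩) id

end Cfsg.Agent.S5045
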