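import Cfsg.Statements.S5046
import Cfsg.Agent.Lib.RootInvolutions.Connected
-- import your own Cfsg.Agent.* helpers here

set_option autoImplicit false
open Cfsg

namespace Cfsg.Agent.S5046

open CfsgLib.RootInvol

/-- Let G be a finite group generated by a set D of root involutions whose odd-order-product graph is connected, and d ∈ D. Then the members e of D with the same commuting members as d are exactly those for which the union of the commuting members of d and the members whose product with d has order 4 equals the corresponding union for e. -/
theorem result {G : Type*} [Group G] [Finite G] {D : Set G} (hD : Cfsg.IsRootInvolutionSet D)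
    (hc : Cfsg.IsConnectedSet (Cfsg.OddAdj D) D) {d : G} (hd : d ∈ D) :
    Cfsg.sameCommutingClass D d =
      {e | e ∈ D ∧ Cfsg.commutingMembers D d ∪ Cfsg.fourPartners D d = Cfsg.commutingMembers D e ∪ Cfsg.fourPartners D e} := by
  ext e
  constructor
  · rintro ⟨he, h⟩
    exact ⟨he, (union_eq_iff hD hd he).2
      ((commutingMembers_eq_iff hD (conj_of_connected hD hc) hd he).1 h)⟩
  · rintro ⟨he, h⟩
    exact ⟨he, (commutingMembers_eq_iff hD (conj_of_connected hD hc) hd he).2
      ((union_eq_iff hD hd he).1 h)⟩

end Cfsg.Agent.S5046
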