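import Cfsg.Statements.S5049
import Cfsg.Agent.Lib.Cores.PCore

set_option autoImplicit false
open Cfsg
open scoped commutatorElement

namespace Cfsg.Agent.S5049

/-- Let G be a finite group generated by a set D of odd transpositions (root involutions with no product of order 4), Q = O₂(G), and for a ∈ D let Q_a be the commutator subgroup of Q with a. Then every member of D commuting with a centralizes Q_a; and for b ∈ D with ab of odd order greater than 1, the centralizer of ab in Q is the intersection of the centralizers of a and b in Q. -/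
theorem result {G : Type*} [Group G] [Finite G] {D : Set G} (hD : Cfsg.IsOddTranspositionSet D) {a : G} (ha : a ∈ D) :
    (∀ e ∈ Cfsg.commutingMembers D a, ∀ q ∈ ⁅Cfsg.pCore 2 G, Subgroup.zpowers a⁆, e * q = q * e) ∧
    (∀ b ∈ Cfsg.oddPartners D a,
      Cfsg.pCore 2 G ⊓ Subgroup.centralizer {a * b} = Cfsg.pCore 2 G ⊓ Subgroup.centralizer {a} ⊓ Subgroup.centralizer {b}) := by
  set Q := Cfsg.pCore 2 G with hQdef
  have hQ : IsPGroup 2 ↥Q := CfsgLib.Cores.isPGroup_pCore 2 G
  have hQn : Q.Normal := Cfsg.pCore_normal 2 G
  have hsq : ∀ d ∈ D, d * d = 1 := fun d hd => by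
    rw [← pow_two, ← hD.1.orderOf_eq d hd]; exact pow_orderOf_eq_one d
  -- two members with product a `2`-element commute
  have htwo : ∀ u ∈ D, ∀ v ∈ D, ∀ j : ℕ, (u * v) ^ (2 ^ j) = 1 → u * v = v * u := by
    intro u hu v hv j hj
    rcases hD.1.pair u hu v hv with h | h | h
    · exact h
    · obtain ⟨l, -, hl⟩ := (Nat.dvd_prime_pow Nat.prime_two).mp (orderOf_dvd_of_pow_eq_one hj)
      rcases l with _ | l
      · rw [pow_zero, orderOf_eq_one_iff, mul_eq_one_iff_eq_inv] at hl
        rw [hl, inv_mul_cancel, mul_inv_cancel]
      · rw [hl, pow_succ] at h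
        exact absurd h (Nat.not_odd_iff_even.mpr ⟨2 ^ l, by ring⟩)
    · exact absurd h.1 (hD.2 u hu v hv)
  have hconj : ∀ q ∈ Q, ∀ u ∈ D, u * a = a * u → u * (q * a * q⁻¹) = q * a * q⁻¹ * u := by
    intro q hq u hu hua
    have hua2 : (u * a) * (u * a) = 1 := by
      calc (u * a) * (u * a) = u * (a * u) * a := by group
        _ = u * (u * a) * a := by rw [← hua]
        _ = (u * u) * (a * a) := by group
        _ = 1 := by rw [hsq u hu, hsq a ha, one_mul]
    set r := a * q * a⁻¹ * q⁻¹ with hr
    have hrQ : r ∈ Q := Q.mul_mem (hQn.conj_mem q hq a) (Q.inv_mem hq)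
    have hainv : a⁻¹ = a := inv_eq_of_mul_eq_one_right (hsq a ha)
    have e : u * (q * a * q⁻¹) = (u * a) * r := by
      calc u * (q * a * q⁻¹) = u * (a * a) * q * a * q⁻¹ := by rw [hsq a ha]; group
        _ = (u * a) * (a * q * a * q⁻¹) := by group
        _ = (u * a) * r := by rw [hr, hainv]
    have hmem : (u * (q * a * q⁻¹)) * (u * (q * a * q⁻¹)) ∈ Q := by
      rw [e]
      have : u * a * r * (u * a * r) = ((u * a) * r * (u * a)⁻¹) * ((u * a) * (u * a)) * r := by group
      rw [this, hua2, mul_one]
      exact Q.mul_mem (hQn.conj_mem r hrQ _) hrQ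
    obtain ⟨j, hj⟩ := hQ ⟨_, hmem⟩
    refine htwo u hu _ (hD.1.conj_mem a ha q) (j + 1) ?_
    rw [pow_succ', pow_mul, pow_two]
    exact congrArg Subtype.val hj
  constructor
  · intro e he q hq
    have hle : ⁅Q, Subgroup.zpowers a⁆ ≤ Subgroup.centralizer ({e} : Set G) := by
      rw [Subgroup.commutator_le]
      intro q hq z hz
      obtain ⟨n, rfl⟩ := Subgroup.mem_zpowers_iff.mp hz
      have ha2 : a ^ (2 : ℤ) = 1 := by rw [zpow_two]; exact hsq a ha
      refine Subgroup.mem_centralizer_singleton_iff.mpr ?_
      rcases Int.even_or_odd n with ⟨m, rfl⟩ | ⟨m, rfl⟩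
      · rw [← two_mul, zpow_mul, ha2, one_zpow, commutatorElement_one_right, mul_one, one_mul]
      · rw [zpow_add, zpow_mul, ha2, one_zpow, one_mul, zpow_one, commutatorElement_def,
          inv_eq_of_mul_eq_one_right (hsq a ha)]
        have h1 : Commute e (q * a * q⁻¹) := hconj q hq e he.1 he.2
        have h2 : Commute e a := he.2
        exact (h1.mul_right h2).eq.symm
    exact (Subgroup.mem_centralizer_singleton_iff.mp (hle hq)).symm
  · rintro b ⟨hb, hba, hodd⟩
    refine le_antisymm ?_ ?_
    · rintro q ⟨hq, hqc⟩
      have hqab : q * (a * b) = a * b * q := Subgroup.mem_centralizer_singleton_iff.mp hqc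
      have ha1 : Commute a (q * a * q⁻¹) := hconj q hq a ha rfl
      set s := q * a * q⁻¹ * a with hs
      have hsa : Commute a s := ha1.mul_right (Commute.refl a)
      have hsb : q * b * q⁻¹ * b = a * s * a := by
        have hb' : q * b * q⁻¹ = (q * a * q⁻¹) * (a * b) := by
          have : q * (a * b) * q⁻¹ = a * b := by rw [hqab, mul_inv_cancel_right]
          calc q * b * q⁻¹ = q * (a * a) * b * q⁻¹ := by rw [hsq a ha, mul_one]
            _ = (q * a * q⁻¹) * (q * (a * b) * q⁻¹) := by group
            _ = (q * a * q⁻¹) * (a * b) := by rw [this]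
        calc q * b * q⁻¹ * b = (q * a * q⁻¹) * a * (b * b) := by rw [hb']; group
          _ = s := by rw [hsq b hb, mul_one]
          _ = a * s * a := by rw [hsa.eq, mul_assoc, hsq a ha, mul_one]
      have hsQ : s ∈ Q := by
        have : s = q * (a * q⁻¹ * a⁻¹) := by rw [hs, inv_eq_of_mul_eq_one_right (hsq a ha)]; group
        rw [this]; exact Q.mul_mem hq (hQn.conj_mem _ (Q.inv_mem hq) a)
      have hsab : Commute (a * b) s := by
        refine Commute.mul_left hsa ?_
        -- `b` commutes with its conjugate by `q`
        have hbq : Commute b (q * b * q⁻¹) := by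
          have hr : b * q * b⁻¹ * q⁻¹ ∈ Q := Q.mul_mem (hQn.conj_mem q hq b) (Q.inv_mem hq)
          obtain ⟨j, hj⟩ := hQ ⟨_, hr⟩
          refine htwo b hb _ (hD.1.conj_mem b hb q) j ?_
          rw [show b * (q * b * q⁻¹) = b * q * b⁻¹ * q⁻¹ by rw [inv_eq_of_mul_eq_one_right (hsq b hb)]; group]
          exact congrArg Subtype.val hj
        have := hbq.mul_right (Commute.refl b)
        rwa [hsb, hsa.eq, mul_assoc, hsq a ha, mul_one] at this
      have hs1 : s = 1 := by
        have hss : s * s = 1 := by
          have e1 : q * a * q⁻¹ = s * a := by rw [hs, mul_assoc _ a a, hsq a ha, mul_one]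
          have e2 : q * b * q⁻¹ = s * b := by
            calc q * b * q⁻¹ = q * b * q⁻¹ * b * b := by rw [mul_assoc _ b b, hsq b hb, mul_one]
              _ = s * b := by rw [hsb, hsa.eq, mul_assoc s a a, hsq a ha, mul_one]
          have hfix : (s * a) * (s * b) = a * b := by
            rw [← e1, ← e2]
            calc q * a * q⁻¹ * (q * b * q⁻¹) = q * (a * b) * q⁻¹ := by group
              _ = a * b := by rw [hqab, mul_inv_cancel_right]
          refine mul_right_cancel (b := a * b) ?_
          rw [one_mul]
          calc s * s * (a * b) = s * (s * a) * b := by group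
            _ = s * (a * s) * b := by rw [hsa.eq]
            _ = (s * a) * (s * b) := by group
            _ = a * b := hfix
        by_contra hne
        -- `s a` and `b` have product of order twice an odd number
        have hsa' : s * a ∈ D := by
          have : s * a = q * a * q⁻¹ := by rw [hs, mul_assoc _ a a, hsq a ha, mul_one]
          rw [this]; exact hD.1.conj_mem a ha q
        rcases hD.1.pair (s * a) hsa' b hb with h | h | h
        · have hab : a * b = b * a := by
            refine mul_left_cancel (a := s) ?_
            have hbs : Commute b s := by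
              have h' : Commute (a * (a * b)) s := hsa.mul_left hsab
              rwa [← mul_assoc, hsq a ha, one_mul] at h'
            calc s * (a * b) = s * a * b := by group
              _ = b * (s * a) := h
              _ = (b * s) * a := by group
              _ = s * (b * a) := by rw [hbs.eq]; group
          have h1 : (a * b) ^ 2 = 1 := by
            rw [pow_two]
            calc a * b * (a * b) = a * (b * a) * b := by group
              _ = a * (a * b) * b := by rw [← hab]
              _ = (a * a) * (b * b) := by group
              _ = 1 := by rw [hsq a ha, hsq b hb, one_mul]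
          rcases (Nat.dvd_prime Nat.prime_two).mp (orderOf_dvd_of_pow_eq_one h1) with h' | h'
          · rw [orderOf_eq_one_iff, mul_eq_one_iff_eq_inv] at h'
            exact hba (by rw [h', inv_eq_of_mul_eq_one_right (hsq b hb)])
          · rw [h'] at hodd; exact absurd hodd (by decide)
        · rw [mul_assoc, hsab.symm.orderOf_mul_eq_mul_orderOf_of_coprime] at h
          · rw [orderOf_eq_prime (p := 2) (by rw [pow_two]; exact hss) hne] at h
            exact absurd (Nat.Odd.of_mul_left h) (by decide)
          · rw [orderOf_eq_prime (p := 2) (by rw [pow_two]; exact hss) hne]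
            exact (Nat.coprime_two_left).mpr hodd
        · exact hD.2 _ hsa' b hb h.1
      have hqa : q * a = a * q := by
        have : q * a * q⁻¹ = a := by
          calc q * a * q⁻¹ = q * a * q⁻¹ * (a * a) := by rw [hsq a ha, mul_one]
            _ = s * a := by rw [hs]; group
            _ = a := by rw [hs1, one_mul]
        exact mul_inv_eq_iff_eq_mul.mp this
      have hqb : q * b = b * q := by
        refine mul_left_cancel (a := a) ?_
        calc a * (q * b) = (a * q) * b := by group
          _ = (q * a) * b := by rw [hqa]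
          _ = q * (a * b) := by group
          _ = a * (b * q) := by rw [hqab]; group
      exact ⟨⟨hq, Subgroup.mem_centralizer_singleton_iff.mpr hqa⟩, Subgroup.mem_centralizer_singleton_iff.mpr hqb⟩
    · rintro q ⟨⟨hq, hqa⟩, hqb⟩
      replace hqa : q * a = a * q := Subgroup.mem_centralizer_singleton_iff.mp hqa
      replace hqb : q * b = b * q := Subgroup.mem_centralizer_singleton_iff.mp hqb
      refine ⟨hq, Subgroup.mem_centralizer_singleton_iff.mpr ?_⟩
      rw [← mul_assoc, hqa, mul_assoc, hqb, mul_assoc]

end Cfsg.Agent.S5049
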