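import Cfsg.Statements.S5057


set_option autoImplicit false
open Cfsg

namespace Cfsg.Agent.S5057

open Equiv

/-- A fixed double transposition. -/
private def d₀ : Perm (Fin 6) := Equiv.swap 0 1 * Equiv.swap 2 3

private theorem chk : ∀ g : Perm (Fin 6), (∀ i, g (g i) = i) → (Finset.univ.filter fun i => g i ≠ i).card = 4 →
    (∀ i, d₀ (g i) = g (d₀ i)) ∨ (∀ i, (d₀ * g) ((d₀ * g) ((d₀ * g) i)) = i) ∨
    (∀ i, (d₀ * g) ((d₀ * g) ((d₀ * g) ((d₀ * g) ((d₀ * g) i)))) = i) ∨
    ((∀ i, (d₀ * g) ((d₀ * g) ((d₀ * g) ((d₀ * g) i))) = i) ∧ ¬ ∀ i, (d₀ * g) ((d₀ * g) i) = i) := by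
  decide +kernel

private theorem d₀_sign : Equiv.Perm.sign d₀ = 1 := by decide +kernel

private theorem cycleType_eq {g : Perm (Fin 6)} (h2 : orderOf g = 2) (hs : Equiv.Perm.sign g = 1) :
    g.cycleType = Multiset.replicate 2 2 := by
  obtain ⟨n, hn⟩ := Equiv.Perm.cycleType_prime_order (σ := g) (h2.symm ▸ Nat.prime_two)
  rw [h2] at hn
  have hsum : g.cycleType.sum ≤ 6 := by
    rw [Equiv.Perm.sum_cycleType]
    exact le_trans (Finset.card_le_univ _) (by simp)
  rw [hn, Multiset.sum_replicate, smul_eq_mul] at hsum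
  rw [Equiv.Perm.sign_of_cycleType, hn, Multiset.sum_replicate, Multiset.card_replicate, smul_eq_mul] at hs
  rw [hn]
  congr 1
  have : n < 3 := by omega
  interval_cases n
  · exact absurd hs (by decide)
  · rfl
  · exact absurd hs (by decide)

/-- The involutions of the alternating group of degree 6 form a class of root involutions (a single conjugacy class of involutions generating the group, any two of which commute, have product of odd order, or have product of order 4 whose square is again an involution of the class), and the product of any two of them has order at most 5. -/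
theorem result :
    Cfsg.IsRootInvolutionClass {g : ↥(alternatingGroup (Fin 6)) | orderOf g = 2} ∧
    ∀ d ∈ {g : ↥(alternatingGroup (Fin 6)) | orderOf g = 2}, ∀ e ∈ {g : ↥(alternatingGroup (Fin 6)) | orderOf g = 2},
      orderOf (d * e) ≤ 5 := by
  set A := alternatingGroup (Fin 6)
  set D : Set ↥A := {g | orderOf g = 2} with hD
  let e₀ : ↥A := ⟨d₀, d₀_sign⟩
  have he₀ : orderOf e₀ = 2 := by
    rw [← Subgroup.orderOf_coe]
    exact orderOf_eq_prime (by decide +kernel) (by decide +kernel)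
  have hconj : ∀ d ∈ D, ∃ g : ↥A, d = g * e₀ * g⁻¹ := by
    intro d hd
    have hd' : orderOf (d : Perm (Fin 6)) = 2 := by rw [Subgroup.orderOf_coe]; exact hd
    have he' : orderOf (e₀ : Perm (Fin 6)) = 2 := by rw [Subgroup.orderOf_coe]; exact he₀
    obtain ⟨c, hc⟩ := isConj_iff.mp (Equiv.Perm.isConj_iff_cycleType_eq.mpr
      ((cycleType_eq he' e₀.2).trans (cycleType_eq hd' d.2).symm))
    by_cases hcs : Equiv.Perm.sign c = 1
    · exact ⟨⟨c, hcs⟩, Subtype.ext hc.symm⟩
    · have hsw : Equiv.Perm.sign (c * Equiv.swap (0 : Fin 6) 1) = 1 := by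
        rw [map_mul, Equiv.Perm.sign_swap (by decide)]
        rcases Int.units_eq_one_or (Equiv.Perm.sign c) with h | h
        · exact absurd h hcs
        · rw [h]; rfl
      refine ⟨⟨_, hsw⟩, Subtype.ext ?_⟩
      have hfix : Equiv.swap (0 : Fin 6) 1 * d₀ * (Equiv.swap (0 : Fin 6) 1)⁻¹ = d₀ := by decide +kernel
      calc (d : Perm (Fin 6)) = c * d₀ * c⁻¹ := hc.symm
        _ = c * (Equiv.swap (0 : Fin 6) 1 * d₀ * (Equiv.swap (0 : Fin 6) 1)⁻¹) * c⁻¹ := by rw [hfix]
        _ = _ := by simp [mul_assoc, e₀]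
  have hDconj : ∀ d ∈ D, ∀ g : ↥A, g * d * g⁻¹ ∈ D := by
    intro d hd g
    show orderOf (MulAut.conj g d) = 2
    exact (orderOf_injective (MulAut.conj g).toMonoidHom (MulAut.conj g).injective d).trans hd
  have base : ∀ e ∈ D, e₀ * e = e * e₀ ∨ orderOf (e₀ * e) = 3 ∨ orderOf (e₀ * e) = 5 ∨
      (orderOf (e₀ * e) = 4 ∧ (e₀ * e) ^ 2 ∈ D) := by
    intro e he
    have he' : orderOf (e : Perm (Fin 6)) = 2 := by rw [Subgroup.orderOf_coe]; exact he
    have hinv : ∀ i, (e : Perm (Fin 6)) ((e : Perm (Fin 6)) i) = i := fun i => by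
      rw [← Equiv.Perm.mul_apply, ← pow_two, ← he', pow_orderOf_eq_one]; rfl
    have hcard : (Finset.univ.filter fun i => (e : Perm (Fin 6)) i ≠ i).card = 4 := by
      have := Equiv.Perm.sum_cycleType (e : Perm (Fin 6))
      rw [cycleType_eq he' e.2] at this
      simpa [Equiv.Perm.support] using this.symm
    rcases em (e₀ * e = e * e₀) with hcomm | hcomm
    · exact Or.inl hcomm
    have hne : e₀ * e ≠ 1 := fun h => hcomm (by
      have : e₀ = e⁻¹ := mul_eq_one_iff_eq_inv.mp h
      rw [this, inv_mul_cancel, mul_inv_cancel])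
    have key : ∀ n : ℕ, ((e₀ * e) ^ n = 1 ↔ ∀ i, (((d₀ * (e : Perm (Fin 6))) : Perm (Fin 6)) ^ n) i = i) := by
      intro n
      rw [Subtype.ext_iff]
      exact Equiv.Perm.ext_iff
    rcases chk e hinv hcard with h | h | h | ⟨h4, h2⟩
    · exact absurd (Subtype.ext (Equiv.Perm.ext h)) hcomm
    · haveI : Fact (Nat.Prime 3) := ⟨Nat.prime_three⟩
      exact Or.inr (Or.inl (orderOf_eq_prime ((key 3).mpr h) hne))
    · haveI : Fact (Nat.Prime 5) := ⟨Nat.prime_five⟩
      exact Or.inr (Or.inr (Or.inl (orderOf_eq_prime ((key 5).mpr h) hne)))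
    · haveI : Fact (Nat.Prime 2) := ⟨Nat.prime_two⟩
      have hn2 : (e₀ * e) ^ 2 ≠ 1 := fun h => h2 ((key 2).mp h)
      have h4' : (e₀ * e) ^ 4 = 1 := (key 4).mpr h4
      refine Or.inr (Or.inr (Or.inr ⟨?_, ?_⟩))
      · exact orderOf_eq_prime_pow (p := 2) (n := 1) (by simpa using hn2) h4'
      · exact orderOf_eq_prime (by rw [← pow_mul]; exact h4') hn2
  have gen : ∀ d ∈ D, ∀ e ∈ D, d * e = e * d ∨ orderOf (d * e) = 3 ∨ orderOf (d * e) = 5 ∨
      (orderOf (d * e) = 4 ∧ (d * e) ^ 2 ∈ D) := by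
    intro d hd e he
    obtain ⟨g, rfl⟩ := hconj d hd
    have he1 : g⁻¹ * e * g ∈ D := by simpa using hDconj e he g⁻¹
    have hprod : g * e₀ * g⁻¹ * e = MulAut.conj g (e₀ * (g⁻¹ * e * g)) := by
      simp [mul_assoc]
    have hord : orderOf (g * e₀ * g⁻¹ * e) = orderOf (e₀ * (g⁻¹ * e * g)) := by
      rw [hprod]; exact orderOf_injective (MulAut.conj g).toMonoidHom (MulAut.conj g).injective _
    rcases base _ he1 with h | h | h | ⟨h, h'⟩
    · left
      have := congrArg (MulAut.conj g) h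
      simpa [mul_assoc] using this
    · exact Or.inr (Or.inl (hord.trans h))
    · exact Or.inr (Or.inr (Or.inl (hord.trans h)))
    · refine Or.inr (Or.inr (Or.inr ⟨hord.trans h, ?_⟩))
      rw [hprod, ← map_pow]
      simpa using hDconj _ h' g
  refine ⟨⟨⟨fun d hd => hd, ?_, fun d hd g => hDconj d hd g, fun a ha b hb => ?_⟩, ⟨e₀, he₀⟩, fun a ha b hb => ?_⟩, fun d hd e he => ?_⟩
  · have hn : (Subgroup.closure D).Normal := by
      refine ⟨fun x hx g => ?_⟩
      have : g * x * g⁻¹ ∈ (Subgroup.closure D).map (MulAut.conj g).toMonoidHom := ⟨x, hx, rfl⟩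
      refine (?_ : _ ≤ Subgroup.closure D) this
      rw [MonoidHom.map_closure]
      exact Subgroup.closure_mono (by rintro - ⟨y, hy, rfl⟩; exact hDconj y hy g)
    let x : ↥A := ⟨Equiv.swap 0 1 * Equiv.swap 3 4, Equiv.Perm.mem_alternatingGroup.mpr (by decide +kernel)⟩
    let y : ↥A := ⟨Equiv.swap 1 2 * Equiv.swap 3 4, Equiv.Perm.mem_alternatingGroup.mpr (by decide +kernel)⟩
    have hx : x ∈ D := by
      show orderOf x = 2
      rw [← Subgroup.orderOf_coe]; exact orderOf_eq_prime (by decide +kernel) (by decide +kernel)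
    have hy : y ∈ D := by
      show orderOf y = 2
      rw [← Subgroup.orderOf_coe]; exact orderOf_eq_prime (by decide +kernel) (by decide +kernel)
    have h3 : Equiv.Perm.IsThreeCycle ((x * y : ↥A) : Perm (Fin 6)) := by
      have : ((x * y : ↥A) : Perm (Fin 6)) = Equiv.swap (1 : Fin 6) 0 * Equiv.swap (1 : Fin 6) 2 := by decide +kernel
      rw [this]
      exact Equiv.Perm.isThreeCycle_swap_mul_swap_same (by decide) (by decide) (by decide)
    have htop := Equiv.Perm.IsThreeCycle.alternating_normalClosure (by simp) h3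
    rw [eq_top_iff, ← htop]
    refine Subgroup.normalClosure_le_normal ?_
    rintro z (rfl : z = _)
    exact mul_mem (Subgroup.subset_closure hx) (Subgroup.subset_closure hy)
  · rcases gen a ha b hb with h | h | h | h
    · exact Or.inl h
    · exact Or.inr (Or.inl (by rw [h]; decide))
    · exact Or.inr (Or.inl (by rw [h]; decide))
    · exact Or.inr (Or.inr h)
  · obtain ⟨g, rfl⟩ := hconj a ha
    obtain ⟨h, rfl⟩ := hconj b hb
    exact ⟨h * g⁻¹, by group⟩
  · rcases gen d hd e he with h | h | h | ⟨h, -⟩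
    · have h2 : (d * e) ^ 2 = 1 := by
        rw [pow_two, mul_assoc, ← mul_assoc e d e, ← h, mul_assoc d e e, ← pow_two e, ← he, pow_orderOf_eq_one, mul_one,
          ← pow_two, ← hd, pow_orderOf_eq_one]
      exact le_trans (Nat.le_of_dvd (by norm_num) (orderOf_dvd_of_pow_eq_one h2)) (by norm_num)
    all_goals omega

end Cfsg.Agent.S5057
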