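import Cfsg.Statements.S5059
import Cfsg.Agent.Lib.Transpositions.PairTheorems

set_option autoImplicit false
universe u
open Cfsg
open CfsgLib.Transpositions

namespace Cfsg.Agent.S5059

/-- Let k be a field of characteristic not 2 with k not of order 3, M a finite-dimensional k-vector space and G ≤ GL(M) such that (G, M) is a quadratic pair (M irreducible for G, and G generated by its quadratically acting elements σ whose scalar family 1 + c(σ − 1), c ∈ k, lies in G). Write 𝒬_d for the quadratic elements of G of minimal commutator rank, E(σ) for the subgroup generated by the members of 𝒬_d with the same fixed space and commutator space as σ, and Σ for the set of these subgroups. Then for σ ∈ 𝒬_d the subgroup E(σ) consists exactly of those members together with the identity, it is abelian, and if k has prime characteristic p every element of E(σ) has order dividing p. -/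
theorem result {k : Type u} [Field k] (hk2 : ringChar k ≠ 2) (hk3 : Nat.card k ≠ 3)
    {M : Type u} [AddCommGroup M] [Module k M] [FiniteDimensional k M]
    {G : Subgroup (LinearMap.GeneralLinearGroup k M)} (hG : Cfsg.IsQuadraticPair G)
    {σ : LinearMap.GeneralLinearGroup k M} (hσ : σ ∈ Cfsg.minimalQuadraticElements G) :
    (Cfsg.sameActionSubgroup G σ : Set (LinearMap.GeneralLinearGroup k M)) = Cfsg.sameActionClass G σ ∪ {1} ∧
    IsMulCommutative ↥(Cfsg.sameActionSubgroup G σ) ∧
    (∀ p : ℕ, p.Prime → ringChar k = p → ∀ x ∈ Cfsg.sameActionSubgroup G σ, x ^ p = 1) := by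
  have ha := minLine_of_mem hσ
  rw [sameActionSubgroup_eq ha, sameActionClass_eq ha]
  refine ⟨?_, ⟨⟨fun u v => Subtype.ext (classGroup_comm u.2 v.2)⟩⟩, fun p hp hpk x hx => ?_⟩
  · ext g
    constructor
    · intro hg
      rcases eq_or_ne g 1 with rfl | hg1
      exacts [Or.inr rfl, Or.inl ⟨hg, hg1⟩]
    · rintro (⟨hg, -⟩ | rfl)
      exacts [hg, one_mem _]
  · obtain ⟨y, hy, ey⟩ := classGroup_val hx
    have hyy : y * y = 0 := classSpace.mul_eq_zero hy hy
    have hpow : ∀ n : ℕ, ((x ^ n : (Module.End k M)ˣ) : Module.End k M) = 1 + (n : k) • y := by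
      intro n
      induction n with
      | zero => simp
      | succ n ih =>
        rw [pow_succ, Units.val_mul, ih, ey, mul_add, mul_one, add_mul, one_mul, smul_mul_assoc, hyy,
          smul_zero, add_zero, Nat.cast_succ]
        module
    have : ((p : ℕ) : k) = 0 := by rw [← hpk]; exact ringChar.Nat.cast_ringChar
    refine Units.ext ?_
    rw [hpow p, this, zero_smul, add_zero]
    rfl

end Cfsg.Agent.S5059
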