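import Cfsg.Statements.S5060
import Cfsg.Agent.Lib.Transpositions.SL2Field

set_option autoImplicit false
open Cfsg

namespace Cfsg.Agent.S5060

/-- Let k ⊆ K be fields with the characteristic of k not 2 and k not of order 3, and let α ∈ K be a non-zero element algebraic over k. Then the subgroup of SL₂(K) generated by the upper unitriangular matrices with entry c and the lower unitriangular matrices with entry cα, c ranging over k, is exactly the group of matrices of SL₂(K) with all entries in k(α). -/
theorem result {k K : Type*} [Field k] [Field K] [Algebra k K] (hk2 : ringChar k ≠ 2) (hk3 : Nat.card k ≠ 3)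
    (α : K) (hα : IsAlgebraic k α) (hα0 : α ≠ 0) :
    (Subgroup.closure ({g : Matrix.SpecialLinearGroup (Fin 2) K | ∃ c : k, (g : Matrix (Fin 2) (Fin 2) K) = !![1, algebraMap k K c; 0, 1]} ∪
        {g : Matrix.SpecialLinearGroup (Fin 2) K | ∃ c : k, (g : Matrix (Fin 2) (Fin 2) K) = !![1, 0; algebraMap k K c * α, 1]}) :
      Set (Matrix.SpecialLinearGroup (Fin 2) K)) =
    {g : Matrix.SpecialLinearGroup (Fin 2) K | ∀ i j : Fin 2, (g : Matrix (Fin 2) (Fin 2) K) i j ∈ IntermediateField.adjoin k ({α} : Set K)} := by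
  have h2 : (2 : k) ≠ 0 := by
    intro h
    have h' : ((2 : ℕ) : k) = 0 := by exact_mod_cast h
    exact hk2 (by
      rcases (Nat.dvd_prime Nat.prime_two).mp (ringChar.dvd h') with h1 | h1
      · exact absurd h1 CharP.ringChar_ne_one
      · exact h1)
  set F := IntermediateField.adjoin k ({α} : Set K) with hF
  haveI : FiniteDimensional k F := IntermediateField.adjoin.finiteDimensional hα.isIntegral
  set gen : F := IntermediateField.AdjoinSimple.gen k α with hgen
  have hgen0 : gen ≠ 0 := fun h => hα0 (congrArg Subtype.val h)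
  have htop : Algebra.adjoin k {gen} = ⊤ := by
    have h := (IntermediateField.adjoin.powerBasis hα.isIntegral).adjoin_gen_eq_top
    rwa [IntermediateField.adjoin.powerBasis_gen] at h
  have hX := CfsgLib.Transpositions.lineGen_eq_top h2 hk3 F (Units.mk0 gen hgen0) htop
  set φ := Matrix.SpecialLinearGroup.map (n := Fin 2) (algebraMap F K)
  set S := ({g : Matrix.SpecialLinearGroup (Fin 2) K | ∃ c : k, (g : Matrix (Fin 2) (Fin 2) K) = !![1, algebraMap k K c; 0, 1]} ∪
        {g : Matrix.SpecialLinearGroup (Fin 2) K | ∃ c : k, (g : Matrix (Fin 2) (Fin 2) K) = !![1, 0; algebraMap k K c * α, 1]})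
  have hclo : (Subgroup.closure S) = (CfsgLib.Transpositions.lineGen k ((Units.mk0 gen hgen0 : Fˣ) : F)).map φ := by
    rw [CfsgLib.Transpositions.lineGen, MonoidHom.map_closure]
    congr 1
    ext g
    constructor
    · rintro (⟨c, hc⟩ | ⟨c, hc⟩)
      · refine ⟨_, Or.inl ⟨c, rfl⟩, Subtype.ext ?_⟩
        rw [hc]; ext i j; fin_cases i <;> fin_cases j <;> simp [φ, ← IsScalarTower.algebraMap_apply]
      · refine ⟨_, Or.inr ⟨c, rfl⟩, Subtype.ext ?_⟩
        rw [hc]; ext i j
        fin_cases i <;> fin_cases j <;> simp [φ, hgen, ← IsScalarTower.algebraMap_apply]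
    · rintro ⟨-, ⟨c, rfl⟩ | ⟨c, rfl⟩, rfl⟩
      · exact Or.inl ⟨c, by ext i j; fin_cases i <;> fin_cases j <;> simp [φ, ← IsScalarTower.algebraMap_apply]⟩
      · exact Or.inr ⟨c, by
          ext i j; fin_cases i <;> fin_cases j <;> simp [φ, hgen, ← IsScalarTower.algebraMap_apply]⟩
  rw [hclo, hX]
  ext g
  constructor
  · rintro ⟨h, -, rfl⟩ i j
    exact (h i j).2
  · intro hg
    let M : Matrix (Fin 2) (Fin 2) F := Matrix.of fun i j => ⟨_, hg i j⟩
    have hM : M.map (algebraMap F K) = (g : Matrix (Fin 2) (Fin 2) K) := by ext i j; rfl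
    have hdet : M.det = 1 := by
      apply (algebraMap F K).injective
      rw [RingHom.map_det, RingHom.mapMatrix_apply, hM, map_one]
      exact g.2
    exact ⟨⟨M, hdet⟩, trivial, Subtype.ext hM⟩

end Cfsg.Agent.S5060
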