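import Cfsg.Statements.S5061
import Cfsg.Agent.Lib.Transpositions.QuadPrelude

set_option autoImplicit false
open Cfsg

namespace Cfsg.Agent.S5061

/-- Let M be a finite-dimensional vector space over a field k, G ≤ GL(M), and 𝒲 a set of subgroups of G, invariant under conjugation by G, such that any two members of 𝒲 generate a subgroup acting unipotently on M (for some n all products of n endomorphisms g − 1 from it vanish). Then the subgroup generated by all members of 𝒲 acts unipotently on M and is normal in G. -/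
theorem result {k : Type*} [Field k] {M : Type*} [AddCommGroup M] [Module k M] [FiniteDimensional k M]
    {G : Subgroup (LinearMap.GeneralLinearGroup k M)} {W : Set (Subgroup (LinearMap.GeneralLinearGroup k M))} (hWG : ∀ A ∈ W, A ≤ G)
    (hWW : ∀ A ∈ W, ∀ B ∈ W, Cfsg.IsUnipotentOn (A ⊔ B)) (hWconj : ∀ A ∈ W, ∀ g ∈ G, Cfsg.conjBy A g ∈ W) :
    Cfsg.IsUnipotentOn (⨆ A ∈ W, A) ∧ ∀ g ∈ G, Cfsg.conjBy (⨆ A ∈ W, A) g = ⨆ A ∈ W, A := by
  have hconjG : ∀ g ∈ G, ∀ A ∈ W, Cfsg.conjBy A g ∈ W := fun g hg A hA => hWconj A hA g hg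
  refine ⟨?_, fun g hg => le_antisymm ?_ ?_⟩
  · rw [CfsgLib.Transpositions.isUnipotentOn_iff]
    exact CfsgLib.Transpositions.isUnipGroup_iSup_of_pairwise W
      (fun B hB C hC g hg => hWconj B hB g (hWG C hC hg))
      (fun B hB C hC => (CfsgLib.Transpositions.isUnipotentOn_iff _).mp (hWW B hB C hC))
  · simp only [Cfsg.conjBy, Subgroup.map_iSup, iSup_le_iff]
    exact fun A hA => le_iSup₂ (f := fun B _ => B) _ (hWconj A hA g hg)
  · simp only [iSup_le_iff]
    intro A hA x hx
    refine ⟨g⁻¹ * x * g, ?_, by simp [mul_assoc]⟩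
    exact le_iSup₂ (f := fun B _ => B) _ (hWconj A hA g⁻¹ (inv_mem hg)) ⟨x, hx, by simp⟩

end Cfsg.Agent.S5061
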