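import Cfsg.Statements.S5063
import Cfsg.Agent.Lib.Transpositions.CentralProduct

set_option autoImplicit false
universe u
open Cfsg
open CfsgLib.Transpositions

namespace Cfsg.Agent.S5063

/-- Let k be a field of characteristic not 2 with k not of order 3, M a finite-dimensional k-vector space and G ≤ GL(M) such that (G, M) is a quadratic pair (M irreducible for G, and G generated by its quadratically acting elements σ whose scalar family 1 + c(σ − 1), c ∈ k, lies in G). Write 𝒬_d for the quadratic elements of G of minimal commutator rank, E(σ) for the subgroup generated by the members of 𝒬_d with the same fixed space and commutator space as σ, and Σ for the set of these subgroups. Then G is a central product of finitely many quasisimple normal subgroups G₁, …, G_s (pairwise commuting and together generating G), each generated by the quadratic elements of G it contains, and every quadratic element of G lies in one of them. -/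
theorem result {k : Type u} [Field k] (hk2 : ringChar k ≠ 2) (hk3 : Nat.card k ≠ 3)
    {M : Type u} [AddCommGroup M] [Module k M] [FiniteDimensional k M]
    {G : Subgroup (LinearMap.GeneralLinearGroup k M)} (hG : Cfsg.IsQuadraticPair G) :
    ∃ (s : ℕ) (Gi : Fin s → Subgroup (LinearMap.GeneralLinearGroup k M)),
      (∀ i, Gi i ≤ G ∧ ∀ g ∈ G, Cfsg.conjBy (Gi i) g = Gi i) ∧ (∀ i j, i ≠ j → ⁅Gi i, Gi j⁆ = ⊥) ∧ (⨆ i, Gi i) = G ∧
      (∀ i, Cfsg.IsQuasisimple ↥(Gi i) ∧ Subgroup.closure (Cfsg.quadraticElements G ∩ (Gi i : Set (LinearMap.GeneralLinearGroup k M))) = Gi i) ∧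
      Cfsg.quadraticElements G ⊆ ⋃ i, (Gi i : Set (LinearMap.GeneralLinearGroup k M)) := by
  have h2 := two_ne_zero_of_ringChar hk2
  have hN := noUnip_of_irreducible hG.1
  obtain ⟨n, Q, hQG, hQq, hQgen, hQcomm, hdec⟩ := hasLineFactors h2 hk3 G hN
  have hline : ∀ {g : LinearMap.GeneralLinearGroup k M} {x : Module.End k M} {P : Subgroup (LinearMap.GeneralLinearGroup k M)},
      IsLine k P x → (g : Module.End k M) = 1 + x → g ∈ P := by
    intro g x P hx e
    obtain ⟨h, hh, e'⟩ := hx.exists_one
    exact (Units.ext (e'.trans e.symm) : h = g) ▸ hh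
  have hjoin : (⨆ i, Q i) = G := by
    refine le_antisymm (iSup_le hQG) ?_
    conv_lhs => rw [← hG.2]
    rw [Subgroup.closure_le]
    intro σ hσ
    obtain ⟨hl, -⟩ := mem_quadraticElements_iff.mp hσ
    obtain ⟨y, e, hy⟩ := hdec _ hl
    have := (isLine_sum hl.1 Finset.univ y (P := ⨆ i, Q i) (fun i _ => (hy i).1.mono (le_iSup Q i))
      (fun i _ => (hy i).2.1) (fun i _ => (hy i).2.2)).1
    rw [← e] at this
    exact hline this (by abel)
  have hnorm : ∀ i, G ≤ Subgroup.normalizer (Q i : Set (LinearMap.GeneralLinearGroup k M)) := by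
    intro i
    conv_lhs => rw [← hjoin]
    refine iSup_le fun j => ?_
    by_cases hij : j = i
    · subst hij; exact Subgroup.le_normalizer
    · refine le_trans ?_ (Subgroup.centralizer_le_normalizer _)
      rw [← Subgroup.commutator_eq_bot_iff_le_centralizer]
      exact hQcomm j i hij
  refine ⟨n, Q, fun i => ⟨hQG i, fun g hg => ?_⟩, hQcomm, hjoin, fun i => ⟨hQq i, ?_⟩, fun σ hσ => ?_⟩
  · refine Subgroup.ext fun x => ⟨?_, fun hx => ⟨g⁻¹ * x * g, ?_, by simp [mul_assoc]⟩⟩
    · rintro ⟨y, hy, rfl⟩
      exact (Subgroup.mem_normalizer_iff.mp (hnorm i hg) y).mp hy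
    · simpa using (Subgroup.mem_normalizer_iff.mp (hnorm i (inv_mem hg)) x).mp hx
  · refine le_antisymm ((Subgroup.closure_le _).mpr fun g hg => hg.2) ?_
    conv_lhs => rw [← hQgen i]
    exact Subgroup.closure_mono fun g hg => ⟨mem_quadraticElements_iff.mpr
      ⟨hg.2.2, fun h => hg.2.1 (Units.ext (sub_eq_zero.mp h))⟩, hg.1⟩
  · obtain ⟨hl, hne⟩ := mem_quadraticElements_iff.mp hσ
    obtain ⟨y, e, hy⟩ := hdec _ hl
    obtain ⟨i, hi⟩ : ∃ i, y i ≠ 0 := by
      by_contra hc; push Not at hc; exact hne (by rw [e]; simp [hc])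
    have huniq : ∀ j, j ≠ i → y j = 0 := fun j hj =>
      factor_piece_unique hG.1 (hQq i) (hN.of_normal (hQG i) (hnorm i)) (hQcomm i j (Ne.symm hj)) (hnorm i)
        (hy i).1 (hy j).1 (mul_eq_zero_of_range_ker hl.1 (hy i).2.2 (hy j).2.1) hi
    rw [Finset.sum_eq_single_of_mem i (Finset.mem_univ i) (fun j _ hj => huniq j hj)] at e
    exact Set.mem_iUnion.mpr ⟨i, hline (hy i).1 (by rw [← e]; abel)⟩

end Cfsg.Agent.S5063
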