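import Cfsg.Statements.S5064
import Cfsg.Agent.Lib.Transpositions.SL2Extension

set_option autoImplicit false
universe u
open Cfsg
open CfsgLib.Transpositions

namespace Cfsg.Agent.S5064

/-- Let k be a field of characteristic not 2 with k not of order 3, M a finite-dimensional k-vector space and G ≤ GL(M) such that (G, M) is a quadratic pair (M irreducible for G, and G generated by its quadratically acting elements σ whose scalar family 1 + c(σ − 1), c ∈ k, lies in G). Write 𝒬_d for the quadratic elements of G of minimal commutator rank, E(σ) for the subgroup generated by the members of 𝒬_d with the same fixed space and commutator space as σ, and Σ for the set of these subgroups. If σ, τ ∈ 𝒬_d and the subgroup H generated by their two scalar families does not act unipotently on M, then H is isomorphic to SL₂ over a simple algebraic extension k(λ) of k. -/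
theorem result {k : Type u} [Field k] (hk2 : ringChar k ≠ 2) (hk3 : Nat.card k ≠ 3)
    {M : Type u} [AddCommGroup M] [Module k M] [FiniteDimensional k M]
    {G : Subgroup (LinearMap.GeneralLinearGroup k M)} (hG : Cfsg.IsQuadraticPair G)
    {σ τ : LinearMap.GeneralLinearGroup k M} (hσ : σ ∈ Cfsg.minimalQuadraticElements G) (hτ : τ ∈ Cfsg.minimalQuadraticElements G)
    (hH : ¬ Cfsg.IsUnipotentOn (Subgroup.closure (Cfsg.scalarFamily σ ∪ Cfsg.scalarFamily τ))) :
    ∃ (K : Type u) (_ : Field K) (_ : Algebra k K) (lam : K), IsAlgebraic k lam ∧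
      IntermediateField.adjoin k ({lam} : Set K) = ⊤ ∧
      Nonempty (↥(Subgroup.closure (Cfsg.scalarFamily σ ∪ Cfsg.scalarFamily τ)) ≃* Matrix.SpecialLinearGroup (Fin 2) K) := by
  have h2 := two_ne_zero_of_ringChar hk2
  have ha := minLine_of_mem hσ
  have hb := minLine_of_mem hτ
  have hset : Cfsg.scalarFamily σ ∪ Cfsg.scalarFamily τ =
      linePair k ((σ : Module.End k M) - 1) ((τ : Module.End k M) - 1) := by
    refine Set.ext fun g => ⟨?_, ?_⟩
    · rintro (⟨c, hc⟩ | ⟨c, hc⟩)
      exacts [⟨c, Or.inl hc⟩, ⟨c, Or.inr hc⟩]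
    · rintro ⟨c, hc | hc⟩
      exacts [Or.inl ⟨c, hc⟩, Or.inr ⟨c, hc⟩]
  rw [hset] at hH ⊢
  have hab : ((σ : Module.End k M) - 1) * ((τ : Module.End k M) - 1) * ((σ : Module.End k M) - 1) ≠ 0 := by
    intro h0
    refine hH ((isUnipotentOn_iff _).mpr ((isUnip_pair h2 hk3 ha hb h0).mono ((Subgroup.closure_le _).mpr ?_)))
    rintro g ⟨t, ht | ht⟩
    · refine Subgroup.mem_sup_left ?_
      rw [mem_classGroup, ht, add_sub_cancel_left]
      exact Submodule.smul_mem _ t (self_mem_classSpace ha)
    · refine Subgroup.mem_sup_right ?_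
      rw [mem_classGroup, ht, add_sub_cancel_left]
      exact Submodule.smul_mem _ t (self_mem_classSpace hb)
  obtain ⟨D, hD⟩ := exists_corner h2 hk3 ha hb hab
  exact exists_sl2_extension D hD ha.2.1 h2 hk3

end Cfsg.Agent.S5064
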