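import Cfsg.Statements.S5067


set_option autoImplicit false
open Cfsg
open scoped commutatorElement

namespace Cfsg.Agent.S5067

/-- Let P be a non-abelian nilpotent p-group (every element of p-power order; P possibly infinite) generated by two abelian subgroups E and F. Then the normal closure of E in P, and likewise that of F, has nilpotency class strictly smaller than that of P. -/
theorem result {P : Type*} [Group P] {p : ℕ} [Fact p.Prime] (hP : IsPGroup p P) [Group.IsNilpotent P]
    (hna : ¬ IsMulCommutative P) {E F : Subgroup P} (hE : IsMulCommutative ↥E) (hF : IsMulCommutative ↥F) (hgen : E ⊔ F = ⊤) :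
    Group.nilpotencyClass ↥(Subgroup.normalClosure (E : Set P)) < Group.nilpotencyClass P ∧
    Group.nilpotencyClass ↥(Subgroup.normalClosure (F : Set P)) < Group.nilpotencyClass P := by
  have key : ∀ A : Subgroup P, IsMulCommutative ↥A →
      Group.nilpotencyClass ↥(Subgroup.normalClosure (A : Set P)) < Group.nilpotencyClass P := by
    intro A hA
    set N := Subgroup.normalClosure (A : Set P) with hN
    set c := Group.nilpotencyClass P with hc
    have hc2 : 2 ≤ c := by
      by_contra h
      have h1 : (⊤ : Subgroup P).lowerCentralSeries 1 = ⊥ :=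
        Subgroup.lowerCentralSeries_eq_bot_iff_nilpotencyClass_le.mpr (by omega)
      rw [Subgroup.top_lowerCentralSeries_one] at h1
      exact hna ((commutator_eq_bot_iff P).1 h1)
    set K := (⊤ : Subgroup P).lowerCentralSeries 2 with hK
    have hN1 : N.lowerCentralSeries 1 ≤ K := by
      set π := QuotientGroup.mk' K with hπ
      have hcen : ∀ g x z : P, π ⁅g, x⁆ * π z = π z * π ⁅g, x⁆ := by
        intro g x z
        have hm : ⁅⁅g, x⁆, z⁆ ∈ K := by
          rw [hK, Subgroup.lowerCentralSeries_succ]
          refine Subgroup.commutator_mem_commutator ?_ (Subgroup.mem_top z)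
          rw [Subgroup.lowerCentralSeries_succ]
          exact Subgroup.commutator_mem_commutator (Subgroup.mem_top g) (Subgroup.mem_top x)
        rw [← commutatorElement_eq_one_iff_mul_comm, ← map_commutatorElement]
        exact (QuotientGroup.eq_one_iff _).mpr hm
      have hgen : ∀ u ∈ Group.conjugatesOfSet (A : Set P), ∀ v ∈ Group.conjugatesOfSet (A : Set P),
          π u * π v = π v * π u := by
        intro u hu v hv
        obtain ⟨x, hx, hxu⟩ := Group.mem_conjugatesOfSet_iff.mp hu
        obtain ⟨g, rfl⟩ := isConj_iff.mp hxu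
        obtain ⟨y, hy, hyv⟩ := Group.mem_conjugatesOfSet_iff.mp hv
        obtain ⟨h, rfl⟩ := isConj_iff.mp hyv
        have hxy : π x * π y = π y * π x := by
          rw [← map_mul, ← map_mul]
          exact congrArg π (congrArg Subtype.val (hA.1.1 ⟨x, hx⟩ ⟨y, hy⟩))
        have e : ∀ g x : P, π (g * x * g⁻¹) = π ⁅g, x⁆ * π x := fun g x => by
          rw [← map_mul, commutatorElement_def, inv_mul_cancel_right]
        have c1 := hcen g x
        have c2 := hcen h y
        rw [e, e]
        calc π ⁅g, x⁆ * π x * (π ⁅h, y⁆ * π y) = π ⁅g, x⁆ * (π x * π ⁅h, y⁆) * π y := by group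
          _ = π ⁅g, x⁆ * π ⁅h, y⁆ * (π x * π y) := by rw [← c2 x]; group
          _ = π ⁅h, y⁆ * π ⁅g, x⁆ * (π y * π x) := by rw [hxy, c1 ⁅h, y⁆]
          _ = π ⁅h, y⁆ * (π ⁅g, x⁆ * π y) * π x := by group
          _ = π ⁅h, y⁆ * π y * (π ⁅g, x⁆ * π x) := by rw [c1 y]; group
      rw [Subgroup.lowerCentralSeries_succ, Subgroup.lowerCentralSeries_zero, Subgroup.commutator_le]
      intro u hu v hv
      rw [← QuotientGroup.eq_one_iff (N := K)]
      show π ⁅u, v⁆ = 1
      rw [map_commutatorElement, commutatorElement_eq_one_iff_mul_comm]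
      have hmem : ∀ w ∈ Group.conjugatesOfSet (A : Set P), π u * π w = π w * π u := by
        intro w hw
        change u ∈ Subgroup.closure (Group.conjugatesOfSet (A : Set P)) at hu
        induction hu using Subgroup.closure_induction with
        | mem u hu => exact hgen u hu w hw
        | one => simp
        | mul a b _ _ ha hb => rw [map_mul, mul_assoc, hb, ← mul_assoc, ha, mul_assoc]
        | inv a _ ha => rw [map_inv]; exact (Commute.inv_left ha)
      change v ∈ Subgroup.closure (Group.conjugatesOfSet (A : Set P)) at hv
      induction hv using Subgroup.closure_induction with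
      | mem v hv => exact hmem v hv
      | one => simp
      | mul a b _ _ ha hb => rw [map_mul, ← mul_assoc, ha, mul_assoc, hb, ← mul_assoc]
      | inv a _ ha => rw [map_inv]; exact (Commute.inv_right ha)
    have hNi : ∀ i, N.lowerCentralSeries (i + 1) ≤ (⊤ : Subgroup P).lowerCentralSeries (i + 2) := by
      intro i
      induction i with
      | zero => exact hN1
      | succ i ih =>
        rw [Subgroup.lowerCentralSeries_succ N (i + 1), Subgroup.lowerCentralSeries_succ ⊤ (i + 2)]
        exact Subgroup.commutator_mono ih le_top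
    obtain ⟨i, hi⟩ : ∃ i, c = i + 2 := ⟨c - 2, by omega⟩
    have hbot : N.lowerCentralSeries (i + 1) = ⊥ :=
      le_bot_iff.mp ((hNi i).trans (le_of_eq (Subgroup.lowerCentralSeries_eq_bot_iff_nilpotencyClass_le.mpr (by omega))))
    have hle : Group.nilpotencyClass ↥N ≤ i + 1 := by
      refine Subgroup.lowerCentralSeries_eq_bot_iff_nilpotencyClass_le.mp ?_
      rw [← Subgroup.map_subtype_inj, Subgroup.map_bot, Subgroup.top_subtype_lowerCentralSeries, hbot]
    omega
  exact ⟨key E hE, key F hF⟩

end Cfsg.Agent.S5067
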