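import Cfsg.Statements.S5069
import Cfsg.Agent.Lib.Transpositions.SigmaStructure

set_option autoImplicit false
universe u
open Cfsg
open CfsgLib.Transpositions
open Relation (ReflTransGen)

namespace Cfsg.Agent.S5069

/-- Let k be a field of characteristic not 2 with k not of order 3, M a finite-dimensional k-vector space and G ≤ GL(M) such that (G, M) is a quadratic pair (M irreducible for G, and G generated by its quadratically acting elements σ whose scalar family 1 + c(σ − 1), c ∈ k, lies in G). Write 𝒬_d for the quadratic elements of G of minimal commutator rank, E(σ) for the subgroup generated by the members of 𝒬_d with the same fixed space and commutator space as σ, and Σ for the set of these subgroups. Then Σ is a disjoint union of finitely many parts Σ₁, …, Σ_r such that the subgroups G_i generated by the Σ_i commute pairwise, each G_i is quasisimple, and inside G_i the members of Σ_i form a class of abstract root subgroups in which every rank one pair A, B contains subgroups A₀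 ≤ A, B₀ ≤ B generating an image of SL₂(k₁) with central kernel on unitriangular subgroups for some field k₁ with at least four elements. -/
theorem result {k : Type u} [Field k] (hk2 : ringChar k ≠ 2) (hk3 : Nat.card k ≠ 3)
    {M : Type u} [AddCommGroup M] [Module k M] [FiniteDimensional k M]
    {G : Subgroup (LinearMap.GeneralLinearGroup k M)} (hG : Cfsg.IsQuadraticPair G) :
    ∃ (r : ℕ) (part : Fin r → Set (Subgroup (LinearMap.GeneralLinearGroup k M))),
      (⋃ i, part i) = Cfsg.quadraticRootSubgroups G ∧ (∀ i j, i ≠ j → Disjoint (part i) (part j)) ∧ (∀ i, (part i).Nonempty) ∧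
      (∀ i j, i ≠ j → ⁅(⨆ A ∈ part i, A), (⨆ A ∈ part j, A)⁆ = ⊥) ∧
      (∀ i, Cfsg.IsQuasisimple ↥(⨆ A ∈ part i, A) ∧
        Cfsg.IsRootSubgroupClass ((fun A : Subgroup (LinearMap.GeneralLinearGroup k M) => A.subgroupOf (⨆ B ∈ part i, B)) '' (part i)) ∧
        ∀ A ∈ part i, ∀ B ∈ Cfsg.rankOnePartners (part i) A, ∃ A₀ B₀ : Subgroup (LinearMap.GeneralLinearGroup k M), A₀ ≤ A ∧ B₀ ≤ B ∧
          ∃ (k₁ : Type u) (_ : Field k₁), 3 < ENat.card k₁ ∧ Cfsg.IsPSL2PairOver k₁ A₀ B₀) := by
  have h2 := two_ne_zero_of_ringChar hk2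
  have hN := noUnip_of_irreducible hG.1
  have hfin := finite_parts h2 hk3 hN
  let T := (CfsgLib.Transpositions.part G) '' Cfsg.quadraticRootSubgroups G
  have : Finite ↥T := hfin.to_subtype
  let e : Fin (Nat.card ↥T) ≃ ↥T := (Finite.equivFin ↥T).symm
  have hrep : ∀ i, ∃ A ∈ Cfsg.quadraticRootSubgroups G, CfsgLib.Transpositions.part G A = (e i).1 := fun i => (e i).2
  have hinj : ∀ i j, i ≠ j → (e i).1 ≠ (e j).1 := fun i j hij h => hij (e.injective (Subtype.ext h))
  refine ⟨Nat.card ↥T, fun i => (e i).1, ?_, ?_, ?_, ?_, ?_⟩ <;> beta_reduce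
  · refine Set.Subset.antisymm ?_ fun A hA => ?_
    · simp only [Set.iUnion_subset_iff]
      intro i B hB
      obtain ⟨A, hA, hAi⟩ := hrep i
      rw [← hAi] at hB
      exact hB.1
    · refine Set.mem_iUnion.mpr ⟨e.symm ⟨_, A, hA, rfl⟩, ?_⟩
      rw [Equiv.apply_symm_apply]
      exact ⟨hA, ReflTransGen.refl⟩
  · intro i j hij
    refine Set.disjoint_left.mpr fun B hBi hBj => hinj i j hij ?_
    obtain ⟨A, hA, hAi⟩ := hrep i
    obtain ⟨A', hA', hAj⟩ := hrep j
    rw [← hAi] at hBi ⊢
    rw [← hAj] at hBj ⊢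
    rw [part_eq_of_reach hBi.2, part_eq_of_reach hBj.2]
  · intro i
    obtain ⟨A, hA, hAi⟩ := hrep i
    exact ⟨A, hAi ▸ ⟨hA, ReflTransGen.refl⟩⟩
  · intro i j hij
    obtain ⟨A, hA, hAi⟩ := hrep i
    obtain ⟨A', hA', hAj⟩ := hrep j
    rw [← hAi, ← hAj]
    refine commutator_partGroup h2 hk3 hN fun h => hinj i j hij ?_
    rw [← hAi, ← hAj, part_eq_of_reach h]
  · intro i
    obtain ⟨A, hA, hAi⟩ := hrep i
    rw [← hAi]
    refine ⟨part_quasisimple h2 hk3 hN hA, part_rootClass h2 hk3 hN hA, fun C hC D hD => ?_⟩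
    obtain ⟨hcard, A₀, B₀, hA₀, hB₀, hp⟩ := exists_psl2_subpair h2 hk3 hC.1 hD.1.1 hD.2
    exact ⟨A₀, B₀, hA₀, hB₀, k, inferInstance, hcard, hp⟩

end Cfsg.Agent.S5069
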