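import Cfsg.Statements.S5074
import Cfsg.Agent.Lib.Transpositions.QuadBridge
import Cfsg.Agent.Lib.Transpositions.LineDecomp

set_option autoImplicit false
universe u
open Cfsg
open CfsgLib.Transpositions

namespace Cfsg.Agent.S5074

/-- Let k be a field of characteristic not 2 with k not of order 3, M a finite-dimensional k-vector space and G ≤ GL(M) such that (G, M) is a quadratic pair (M irreducible for G, and G generated by its quadratically acting elements σ whose scalar family 1 + c(σ − 1), c ∈ k, lies in G). Write 𝒬_d for the quadratic elements of G of minimal commutator rank, E(σ) for the subgroup generated by the members of 𝒬_d with the same fixed space and commutator space as σ, and Σ for the set of these subgroups. Then G is the product of the subgroup G₀ generated by Σ with the centralizer of G₀ in G. -/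
theorem result {k : Type u} [Field k] (hk2 : ringChar k ≠ 2) (hk3 : Nat.card k ≠ 3)
    {M : Type u} [AddCommGroup M] [Module k M] [FiniteDimensional k M]
    {G : Subgroup (LinearMap.GeneralLinearGroup k M)} (hG : Cfsg.IsQuadraticPair G) :
    (⨆ A ∈ Cfsg.quadraticRootSubgroups G, A) ⊔
      (G ⊓ Subgroup.centralizer ((⨆ A ∈ Cfsg.quadraticRootSubgroups G, A : Subgroup (LinearMap.GeneralLinearGroup k M)) : Set (LinearMap.GeneralLinearGroup k M))) = G := by
  set G₀ := (⨆ A ∈ Cfsg.quadraticRootSubgroups G, A : Subgroup (LinearMap.GeneralLinearGroup k M)) with hG₀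
  have hle : G₀ ≤ G := iSup₂_le fun A hA => by
    obtain ⟨a, ha, rfl⟩ := mem_quadraticRootSubgroups_iff.mp hA
    exact classGroup_le ha
  have key : ∀ g ∈ G, ∀ x ∈ G₀, g * x * g⁻¹ ∈ G₀ := by
    intro g hg x hx
    have : g * x * g⁻¹ ∈ G₀.map (MulAut.conj g).toMonoidHom := ⟨x, hx, rfl⟩
    refine (?_ : _ ≤ G₀) this
    simp only [hG₀, Subgroup.map_iSup, iSup_le_iff]
    intro A hA
    obtain ⟨a, ha, rfl⟩ := mem_quadraticRootSubgroups_iff.mp hA
    rw [classGroup_conj ha (Subgroup.le_normalizer hg)]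
    exact le_iSup₂ (f := fun B _ => B) _ (classGroup_mem _)
  have hn : G ≤ Subgroup.normalizer (G₀ : Set (LinearMap.GeneralLinearGroup k M)) := fun g hg =>
    Subgroup.mem_normalizer_iff.mpr fun x => ⟨key g hg x, fun h => by
      simpa [mul_assoc] using key g⁻¹ (inv_mem hg) _ h⟩
  refine le_antisymm (sup_le hle inf_le_left) ?_
  conv_lhs => rw [← hG.2]
  rw [Subgroup.closure_le]
  intro σ hσ
  obtain ⟨hl, -⟩ := mem_quadraticElements_iff.mp hσ
  obtain ⟨a₁, a₀, e, h₁, h₀, r₁, k₁, r₀, k₀, hc⟩ :=
    line_decomp (two_ne_zero_of_ringChar hk2) hk3 (noUnip_of_irreducible hG.1) hle hn _ hl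
  obtain ⟨g₁, hg₁, e₁⟩ := h₁.exists_one
  obtain ⟨g₀, hg₀, e₀⟩ := h₀.exists_one
  have hprod : a₁ * a₀ = 0 := by
    ext m
    refine LinearMap.mem_ker.mp (k₁ ?_)
    exact mem_of_mul_eq_zero hl.1 (r₀ (LinearMap.mem_range_self a₀ m))
  have he : σ = g₁ * g₀ := by
    refine Units.ext ?_
    rw [Units.val_mul, e₁, e₀, mul_add, mul_one, add_mul, one_mul, hprod, add_zero, add_assoc, ← e]
    abel
  rw [he]
  refine mul_mem (Subgroup.mem_sup_left hg₁) (Subgroup.mem_sup_right ⟨hg₀, fun x hx => Units.ext ?_⟩)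
  rw [Units.val_mul, Units.val_mul, e₀, mul_add, add_mul, mul_one, one_mul, (hc x hx).eq]

end Cfsg.Agent.S5074
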