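import Cfsg.Statements.S5081
import Cfsg.Agent.Lib.Alperin.Theorem

set_option autoImplicit false
open Cfsg

namespace Cfsg.Agent.S5081

/-- Let F be a saturated fusion system over a finite p-group S, P a proper subgroup of S that is fully normalized, and H the subgroup of Aut_F(P) generated by the automorphisms that extend to maps of the system defined on strictly larger subgroups of S. Then either P is not essential and H is all of Aut_F(P), or P is essential and the image of H in Out_F(P) = Aut_F(P)/Inn(P) is strongly p-embedded there. -/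
theorem result {Ω : Type*} [Group Ω] {S : Subgroup Ω} [Finite S] (p : ℕ) [Fact p.Prime] (hS : IsPGroup p S) (F : Cfsg.FusionSystem S) (hF : F.IsSaturated p) (P : Subgroup Ω) (hPS : P < S) (hPn : F.IsFullyNormalized P) (H : Subgroup (MulAut P)) (hH : H = Subgroup.closure {α : MulAut P | ∃ (Q : Subgroup Ω) (hPQ : P < Q) (φ : Q →* Ω), φ ∈ F.Hom Q ∧ ∀ x : P, φ (Subgroup.inclusion hPQ.le x) = α x}) : (¬ F.IsEssential p P ∧ H = F.autGroup P) ∨ (F.IsEssential p P ∧ ∃ _ : ((Cfsg.Inn P).subgroupOf (F.autGroup P)).Normal, Cfsg.IsStronglyPEmbedded p ((H.subgroupOf (F.autGroup P)).map (QuotientGroup.mk' ((Cfsg.Inn P).subgroupOf (F.autGroup P))))) := by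
  have hdef : H = CfsgLib.Alperin.extendableAut F P := hH
  subst hdef
  by_cases h : CfsgLib.Alperin.extendableAut F P = F.autGroup P
  · exact Or.inl ⟨fun hE => CfsgLib.Alperin.extendableAut_ne_of_essential hS hF hE h, h⟩
  · exact Or.inr ⟨CfsgLib.Alperin.essential_of_extendableAut_ne hS hF hPS hPn h,
      (CfsgLib.Alperin.stronglyPEmbedded_of_extendableAut_ne hS hF hPS hPn h).2⟩

end Cfsg.Agent.S5081
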