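import Cfsg.Statements.S5083
import Cfsg.Agent.Lib.Alperin.Theorem

set_option autoImplicit false
open Cfsg

namespace Cfsg.Agent.S5083

open Cfsg.FusionSystem in
theorem le_antisymm_hom {Ω : Type*} [Group Ω] {S : Subgroup Ω} {F E : Cfsg.FusionSystem S}
    (h₁ : ∀ P, F.Hom P ⊆ E.Hom P) (h₂ : ∀ P, E.Hom P ⊆ F.Hom P) : F = E := by
  have : F.Hom = E.Hom := funext fun P => Set.Subset.antisymm (h₁ P) (h₂ P)
  cases F; cases E; simp only at this; subst this; rfl

/-- If F is a saturated fusion system over a finite p-group S in which Aut_F(P) is a p-group for every P ≤ S, then F is the inner fusion system of S (all its maps are conjugations by elements of S). -/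
theorem result {Ω : Type*} [Group Ω] {S : Subgroup Ω} [Finite S] (p : ℕ) [Fact p.Prime] (hS : IsPGroup p S) (F : Cfsg.FusionSystem S) (hF : F.IsSaturated p) (h : ∀ P : Subgroup Ω, P ≤ S → IsPGroup p (F.autGroup P)) : F = Cfsg.innerFusionSystem S := by
  apply le_antisymm_hom
  · refine CfsgLib.Alperin.alperin hS hF _ fun P hP => ?_
    have hn : F.IsFullyNormalized P := by
      rcases hP with rfl | hP
      · exact CfsgLib.Alperin.isFullyNormalized_top F
      · exact hP.2.1
    obtain ⟨-, R, hR⟩ := (CfsgLib.Alperin.centralized_automized_of_fullyNormalized hS hF hn).2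
    have htop : (⊤ : Subgroup (F.autGroup P)) ≤ R := (R.is_maximal'
      ((h P hn.1).of_surjective Subgroup.topEquiv.symm.toMonoidHom (MulEquiv.surjective _))
      le_top).le
    intro α hα
    have hmem : (⟨α, hα⟩ : F.autGroup P) ∈ (R : Subgroup (F.autGroup P)) := htop (Subgroup.mem_top _)
    rw [hR] at hmem
    obtain ⟨g, hg, hx⟩ := CfsgLib.Alperin.mem_autInducedBy_iff.mp hmem
    exact (CfsgLib.Alperin.mem_autGroup_iff _ hn.1).mpr ⟨hn.1, g, hg, hx⟩
  · rintro P φ ⟨hP, g, hg, hx⟩
    exact CfsgLib.Alperin.mem_of_conj hP hg hx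

end Cfsg.Agent.S5083
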