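import Cfsg.Statements.S5085
import Cfsg.Agent.Lib.Alperin.Receptive

set_option autoImplicit false
open Cfsg

namespace Cfsg.Agent.S5085

/-- In any fusion system, a characteristic subgroup of a subgroup that is normal in the system is itself normal in the system. -/
theorem result {Ω : Type*} [Group Ω] {S : Subgroup Ω} (F : Cfsg.FusionSystem S) (Q U : Subgroup Ω) (hQ : F.IsNormal Q) (hUQ : U ≤ Q) (hU : (U.subgroupOf Q).Characteristic) : F.IsNormal U := by
  obtain ⟨hQS, hext⟩ := hQ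
  refine ⟨hUQ.trans hQS, fun P φ hφ => ?_⟩
  obtain ⟨ψ, hψ, hψφ, hψQ⟩ := hext P φ hφ
  have hle : P ⊔ U ≤ P ⊔ Q := sup_le_sup_left hUQ P
  refine ⟨ψ.comp (Subgroup.inclusion hle), CfsgLib.Alperin.restrict_mem hψ hle,
    fun x => hψφ x, ?_⟩
  let f : Q →* Q := (ψ.comp (Subgroup.inclusion le_sup_right)).codRestrict Q fun x =>
    hψQ.le ⟨_, Subgroup.mem_subgroupOf.mpr x.2, rfl⟩
  have hf : Function.Bijective f := by
    refine ⟨fun a b hab => ?_, fun y => ?_⟩
    · exact Subgroup.inclusion_injective _ (F.injective_of_mem hψ (congrArg Subtype.val hab))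
    · obtain ⟨w, hw, hwy⟩ := hψQ.ge y.2
      exact ⟨⟨w, hw⟩, Subtype.ext hwy⟩
  have hfix : (U.subgroupOf Q).map (MulEquiv.ofBijective f hf).toMonoidHom = U.subgroupOf Q :=
    Subgroup.characteristic_iff_map_eq.mp hU _
  apply le_antisymm
  · rintro _ ⟨w, hw, rfl⟩
    exact hfix.le ⟨⟨w, hUQ hw⟩, hw, rfl⟩
  · intro y hy
    obtain ⟨w, hw, hwy⟩ := hfix.ge (show (⟨y, hUQ hy⟩ : Q) ∈ U.subgroupOf Q from hy)
    exact ⟨⟨w, Subgroup.mem_sup_right hw⟩, hw, congrArg Subtype.val hwy⟩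

end Cfsg.Agent.S5085
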