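import Cfsg.Statements.S5087
import Cfsg.Agent.Lib.FusionBasics.Normal

set_option autoImplicit false
open Cfsg

namespace Cfsg.Agent.S5087

/-- In a saturated fusion system over a finite p-group S, a subgroup Q is normal in the system if and only if every subgroup P that equals S or is essential contains Q and every element of Aut_F(P) maps Q onto itself. -/
theorem result {Ω : Type*} [Group Ω] {S : Subgroup Ω} [Finite S] (p : ℕ) [Fact p.Prime] (hS : IsPGroup p S) (F : Cfsg.FusionSystem S) (hF : F.IsSaturated p) (Q : Subgroup Ω) : F.IsNormal Q ↔ ∀ P : Subgroup Ω, (P = S ∨ F.IsEssential p P) → (Q ≤ P ∧ ∀ α ∈ F.autGroup P, (Q.subgroupOf P).map α.toMonoidHom = Q.subgroupOf P) := by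
  constructor
  · intro hQ P hP
    have hPS : P ≤ S := by
      rcases hP with rfl | hP
      exacts [le_rfl, hP.1.1]
    haveI := CfsgLib.Alperin.finite_of_le hPS
    refine ⟨?_, fun α hα => CfsgLib.FusionBasics.aut_mem_iff_map_eq fun x hx =>
      CfsgLib.FusionBasics.aut_apply_mem_of_stronglyClosed
        (CfsgLib.FusionSub.isNormal_stronglyClosed hQ) hPS hα x hx⟩
    rcases hP with rfl | hP
    · exact hQ.1
    · exact CfsgLib.FusionBasics.normal_le_centric_radical hS hQ hP.1
        (CfsgLib.Alperin.isRadical_of_essential hS hP)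
  · intro h
    exact CfsgLib.FusionBasics.isNormal_of_generators hS hF fun P hP =>
      ⟨(h P hP).1, fun α hα x hx => ((h P hP).2 α hα).le ⟨x, hx, rfl⟩⟩

end Cfsg.Agent.S5087
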