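import Cfsg.Statements.S5088
import Cfsg.Agent.Lib.FusionBasics.Normal

set_option autoImplicit false
open Cfsg

namespace Cfsg.Agent.S5088

/-- In a saturated fusion system over a finite p-group, a subgroup Q is normal in the system if and only if there is a chain of subgroups 1 = Q₀ ≤ Q₁ ≤ ⋯ ≤ Qₙ = Q such that each Qᵢ with i ≥ 1 is strongly closed in the system and [Q, Qᵢ] ≤ Qᵢ₋₁. -/
theorem result {Ω : Type*} [Group Ω] {S : Subgroup Ω} [Finite S] (p : ℕ) [Fact p.Prime] (hS : IsPGroup p S) (F : Cfsg.FusionSystem S) (hF : F.IsSaturated p) (Q : Subgroup Ω) : F.IsNormal Q ↔ ∃ (n : ℕ) (Qs : Fin (n + 1) → Subgroup Ω), Qs 0 = ⊥ ∧ Qs (Fin.last n) = Q ∧ Monotone Qs ∧ ∀ i : Fin n, F.StronglyClosed (Qs i.succ) ∧ ⁅Q, Qs i.succ⁆ ≤ Qs (Fin.castSucc i) := by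
  constructor
  · intro hQ
    haveI := CfsgLib.Alperin.finite_of_le hQ.1
    obtain ⟨n, Qs, h0, hn, hmono, hchar, hc⟩ :=
      CfsgLib.FusionBasics.exists_central_series (CfsgLib.Alperin.isPGroup_of_le hS hQ.1)
    exact ⟨n, Qs, h0, hn, hmono, fun i =>
      ⟨CfsgLib.FusionBasics.stronglyClosed_of_characteristic hQ (hchar _).1 (hchar _).2, hc i⟩⟩
  · rintro ⟨n, Qs, h0, hn, -, h⟩
    exact CfsgLib.FusionSub.isNormal_of_central_series hS hF Q Qs h0 hn (fun i => (h i).1)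
      fun i => (h i).2

end Cfsg.Agent.S5088
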