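import Cfsg.Statements.S5089
import Cfsg.Agent.Lib.FusionBasics.Normal

set_option autoImplicit false
open Cfsg

namespace Cfsg.Agent.S5089

/-- A saturated fusion system over a finite p-group has a nontrivial subgroup that is normal in the system (O_p(F) ≠ 1) if and only if some nontrivial abelian subgroup is strongly closed in the system. -/
theorem result {Ω : Type*} [Group Ω] {S : Subgroup Ω} [Finite S] (p : ℕ) [Fact p.Prime] (hS : IsPGroup p S) (F : Cfsg.FusionSystem S) (hF : F.IsSaturated p) : F.core ≠ ⊥ ↔ ∃ Q : Subgroup Ω, Q ≠ ⊥ ∧ IsMulCommutative Q ∧ F.StronglyClosed Q := by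
  constructor
  · intro h
    obtain ⟨Q, hne, hQ⟩ := CfsgLib.FusionBasics.exists_isNormal_of_core_ne_bot h
    haveI := CfsgLib.Alperin.finite_of_le hQ.1
    haveI : Nontrivial Q := Q.nontrivial_iff_ne_bot.mpr hne
    have hZ := (CfsgLib.Alperin.isPGroup_of_le hS hQ.1).center_nontrivial
    refine ⟨(Subgroup.center Q).map Q.subtype, ?_, ?_, ?_⟩
    · exact fun h => Subgroup.nontrivial_iff_ne_bot _ |>.mp hZ
        ((Subgroup.map_eq_bot_iff_of_injective _ Q.subtype_injective).mp h)
    · refine ⟨⟨?_⟩⟩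
      rintro ⟨_, a, ha, rfl⟩ ⟨_, b, hb, rfl⟩
      exact Subtype.ext (congrArg (fun z : Q => (z : Ω)) (Subgroup.mem_center_iff.mp hb a))
    · refine CfsgLib.FusionBasics.stronglyClosed_of_characteristic hQ (Subgroup.map_subtype_le _) ?_
      rw [← Subgroup.comap_subtype, Subgroup.comap_map_eq_self_of_injective Q.subtype_injective]
      infer_instance
  · rintro ⟨A, hne, hcomm, hA⟩ h
    refine hne (le_bot_iff.mp ((CfsgLib.FusionBasics.le_core
      (CfsgLib.FusionSub.isNormal_of_abelian hS hF hA ?_)).trans h.le))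
    rw [Subgroup.commutator_eq_bot_iff_le_centralizer]
    intro a ha b hb
    exact congrArg Subtype.val (hcomm.is_comm.comm ⟨b, hb⟩ ⟨a, ha⟩)

end Cfsg.Agent.S5089
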