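import Cfsg.Statements.S5091
import Cfsg.Agent.Lib.FusionModels.Bridge
import Cfsg.Agent.Lib.FusionModels.Unique

set_option autoImplicit false
open Cfsg

namespace Cfsg.Agent.S5091

open Cfsg.FusionSystem CfsgLib.Alperin CfsgLib.FusionModels

variable {Ω : Type*} [Group Ω] {S : Subgroup Ω} {F : FusionSystem S} {Q : Subgroup Ω}

/-- `F`, seen over `N_S(Q) = S`. -/
def overNormalizer (F : FusionSystem S) (hSN : S ≤ normalizerIn S Q) :
    FusionSystem (normalizerIn S Q) where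
  Hom := F.Hom
  le_of_mem h := ⟨(F.le_of_mem h).1.trans hSN, fun x => hSN ((F.le_of_mem h).2 x)⟩
  injective_of_mem h := F.injective_of_mem h
  conj_mem hP hg := F.conj_mem (hP.trans (normalizerIn_le S Q)) (normalizerIn_le S Q hg)
  comp_mem h₁ h₂ h := F.comp_mem h₁ h₂ h
  inv_mem h := F.inv_mem h

theorem overNormalizer_isNormalizerSystem (hQ : F.IsNormal Q) (hSN : S ≤ normalizerIn S Q) :
    F.IsNormalizerSystem Q (overNormalizer F hSN) := fun P => by
  ext φ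
  refine ⟨fun h => ⟨h, (F.le_of_mem h).1.trans hSN, fun x => hSN ((F.le_of_mem h).2 x), ?_⟩, fun h => h.1⟩
  obtain ⟨ψ, hψ, hψx, hψQ⟩ := hQ.2 P φ h
  exact ⟨ψ, hψ, hψx, hψQ⟩

theorem overNormalizer_isModel {p : ℕ} {G : Type*} [Group G] {ι : S →* G}
    (hM : F.IsModel p G ι) (hSN : S ≤ normalizerIn S Q) :
    (overNormalizer F hSN).IsModel p G (ι.comp (Subgroup.inclusion (normalizerIn_le S Q))) := by
  obtain ⟨hfin, ⟨hinj, hreal⟩, ⟨T, hT⟩, hcent⟩ := hM
  refine ⟨hfin, ⟨hinj.comp (Subgroup.inclusion_injective _), fun P hP φ hφ => ?_⟩, ⟨T, ?_⟩, hcent⟩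
  · exact hreal P (hP.trans (normalizerIn_le S Q)) φ fun x => normalizerIn_le S Q (hφ x)
  · rw [hT]
    refine le_antisymm ?_ ?_
    · rintro _ ⟨x, rfl⟩
      exact ⟨⟨x, hSN x.2⟩, congrArg ι (Subtype.ext rfl)⟩
    · rintro _ ⟨x, rfl⟩
      exact ⟨_, rfl⟩

/-- Model Theorem, uniqueness: two models of a constrained saturated fusion system over a finite p-group S are isomorphic by an isomorphism compatible with the two embeddings of S. -/
theorem result {Ω : Type*} [Group Ω] {S : Subgroup Ω} [Finite S] (p : ℕ) [Fact p.Prime] (hS : IsPGroup p S) (F : Cfsg.FusionSystem S) (hF : F.IsConstrained p) {G₁ G₂ : Type*} [Group G₁] [Group G₂] (ι₁ : S →* G₁) (ι₂ : S →* G₂) (h₁ : F.IsModel p G₁ ι₁) (h₂ : F.IsModel p G₂ ι₂) : ∃ φ : G₁ ≃* G₂, ∀ x : S, φ (ι₁ x) = ι₂ x := by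
  obtain ⟨hsat, Q, hQ, hQc⟩ := hF
  have hSN := le_normalizerIn_of_isNormal hQ
  have hN := overNormalizer_isNormalizerSystem hQ hSN
  have hC : centralizerIn S Q ≤ Q := hQc.2 Q (isConj_refl F hQ.1)
  obtain ⟨ρ₁, hl₁⟩ := exists_isLocalModel_of_isModel hN (overNormalizer_isModel h₁ hSN) hQ.1 hC
  obtain ⟨ρ₂, hl₂⟩ := exists_isLocalModel_of_isModel hN (overNormalizer_isModel h₂ hSN) hQ.1 hC
  obtain ⟨f, hf, -⟩ := hl₁.unique hS hsat (isFullyNormalized_of_isNormal hQ) hQc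
    (autInducedBy_le_autGroup F hQ.1) le_rfl hl₂
  exact ⟨f, fun x => (congrArg (fun z => f (ι₁ z)) (Subtype.ext rfl)).trans
    ((hf ⟨x, hSN x.2⟩).trans (congrArg ι₂ (Subtype.ext rfl)))⟩

end Cfsg.Agent.S5091
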