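import Cfsg.Statements.S5102
import Cfsg.Agent.Lib.Alperin.Receptive

set_option autoImplicit false
open Cfsg

namespace Cfsg.Agent.S5102

/-- A normal p-subgroup of a finite group G is normal in the fusion system of G on a Sylow p-subgroup. -/
theorem result {G : Type*} [Group G] [Finite G] (p : ℕ) [Fact p.Prime] (S : Sylow p G) (R : Subgroup G) [R.Normal] (hR : IsPGroup p R) : (Cfsg.groupFusionSystem (S : Subgroup G)).IsNormal R := by
  have hRS : R ≤ (S : Subgroup G) := hR.le_sylow_of_normal S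
  refine ⟨hRS, fun P φ hφ => ?_⟩
  obtain ⟨hP, hφS, g, hg⟩ := hφ
  have hle : P ⊔ R ≤ (S : Subgroup G).comap (MulAut.conj g).toMonoidHom := by
    refine sup_le (fun x hx => ?_) (fun x hx => hRS (Subgroup.Normal.conj_mem ‹R.Normal› x hx g))
    show g * x * g⁻¹ ∈ (S : Subgroup G)
    rw [← hg ⟨x, hx⟩]
    exact hφS _
  refine ⟨conjHom (P ⊔ R) g, ⟨sup_le hP hRS, fun x => hle x.2, g, fun _ => rfl⟩,
    fun x => (hg x).symm, ?_⟩
  apply le_antisymm
  · rintro _ ⟨x, hx, rfl⟩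
    exact Subgroup.Normal.conj_mem ‹R.Normal› _ hx g
  · intro y hy
    refine ⟨⟨g⁻¹ * y * g⁻¹⁻¹, Subgroup.mem_sup_right (Subgroup.Normal.conj_mem ‹R.Normal› y hy g⁻¹)⟩,
      Subgroup.Normal.conj_mem ‹R.Normal› y hy g⁻¹, ?_⟩
    show g * (g⁻¹ * y * g⁻¹⁻¹) * g⁻¹ = y
    group

end Cfsg.Agent.S5102
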