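import Cfsg.Statements.S5106
import Cfsg.Agent.Lib.FusionBasics.Normal

set_option autoImplicit false
open Cfsg

namespace Cfsg.Agent.S5106

/-- In a saturated fusion system over a finite p-group S, a subgroup R ≤ S is normal in the system if and only if every map of the system whose source is a subgroup of R is the restriction of an element of Aut_F(R). -/
theorem result {Ω : Type*} [Group Ω] {S : Subgroup Ω} [Finite S] (p : ℕ) [Fact p.Prime] (hS : IsPGroup p S) (F : Cfsg.FusionSystem S) (hF : F.IsSaturated p) (R : Subgroup Ω) (hRS : R ≤ S) : F.IsNormal R ↔ ∀ (P : Subgroup Ω) (hPR : P ≤ R) (φ : P →* Ω), φ ∈ F.Hom P → ∃ α ∈ F.autGroup R, ∀ x : P, ((α (Subgroup.inclusion hPR x) : R) : Ω) = φ x := by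
  constructor
  · intro hR P hPR φ hφ
    obtain ⟨ψ, hψ, hψx, hψR⟩ := hR.2 P φ hφ
    have hr : (ψ.comp (Subgroup.inclusion le_sup_right)).range = R :=
      (CfsgLib.Alperin.range_comp_inclusion ψ le_sup_right).trans hψR
    obtain ⟨α, hα, hαx⟩ := CfsgLib.Alperin.exists_aut_of_hom F
      (CfsgLib.Alperin.restrict_mem hψ le_sup_right) hr
    exact ⟨α, hα, fun x => (hαx _).trans ((congrArg ψ (Subtype.ext rfl)).trans (hψx x))⟩
  · intro h
    haveI := CfsgLib.Alperin.finite_of_le hRS
    obtain ⟨n, Qs, h0, hn, -, hchar, hc⟩ :=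
      CfsgLib.FusionBasics.exists_central_series (CfsgLib.Alperin.isPGroup_of_le hS hRS)
    refine CfsgLib.FusionSub.isNormal_of_central_series hS hF R Qs h0 hn (fun i => ?_) hc
    obtain ⟨hle, hch⟩ := hchar i.succ
    refine ⟨hle.trans hRS, fun P hP φ hφ x => ?_⟩
    obtain ⟨α, -, hαx⟩ := h P (hP.trans hle) φ hφ
    rw [← hαx x]
    exact (Subgroup.characteristic_iff_map_eq.mp hch α).le
      ⟨Subgroup.inclusion (hP.trans hle) x, hP x.2, rfl⟩

end Cfsg.Agent.S5106
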