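import Cfsg.Statements.S5107
import Cfsg.Agent.Lib.FusionBasics.Normal
import Cfsg.Agent.Lib.FusionBasics.Group

set_option autoImplicit false
open Cfsg

namespace Cfsg.Agent.S5107

/-- If a Sylow p-subgroup S of a finite group G has nilpotency class at most two and its centre is strongly closed in S with respect to G, then every map of the fusion system of G on S is conjugation by an element of N_G(S), and S is the largest subgroup normal in that fusion system. -/
theorem result {G : Type*} [Group G] [Finite G] (p : ℕ) [Fact p.Prime] (S : Sylow p G) (hcl : ⁅(S : Subgroup G), (S : Subgroup G)⁆ ≤ (S : Subgroup G) ⊓ Subgroup.centralizer ((S : Subgroup G) : Set G)) (hZ : Cfsg.IsStronglyClosed ((S : Subgroup G) ⊓ Subgroup.centralizer ((S : Subgroup G) : Set G)) (S : Subgroup G)) : (∀ (P : Subgroup G) (φ : P →* G), φ ∈ (Cfsg.groupFusionSystem (S : Subgroup G)).Hom P → ∃ g ∈ Subgroup.normalizer ((S : Subgroup G) : Set G), ∀ x : P, φ x = g * (x : G) * g⁻¹) ∧ (Cfsg.groupFusionSystem (S : Subgroup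 G)).core = S := by
  set Z := (S : Subgroup G) ⊓ Subgroup.centralizer ((S : Subgroup G) : Set G) with hZdef
  set F := Cfsg.groupFusionSystem (S : Subgroup G)
  have hF : F.IsSaturated p := CfsgLib.FusionBasics.group_isSaturated S
  have hsc : F.StronglyClosed Z := by
    refine ⟨hZ.1, fun R hR φ hφ x => ?_⟩
    obtain ⟨-, hφS, g, hg⟩ := hφ
    rw [hg]
    exact hZ.2 x (hR x.2) g (hg x ▸ hφS x)
  have hN : F.IsNormal S := by
    refine CfsgLib.FusionSub.isNormal_of_central_series S.2 hF _ (n := 2) ![⊥, Z, S] rfl rfl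
      (fun i => ?_) fun i => ?_
    · fin_cases i
      exacts [hsc, CfsgLib.FusionSub.stronglyClosed_self F]
    · fin_cases i
      · show ⁅(S : Subgroup G), Z⁆ ≤ ⊥
        rw [le_bot_iff, Subgroup.commutator_eq_bot_iff_le_centralizer]
        intro s hs z hz
        exact (hz.2 s hs).symm
      · exact hcl
  refine ⟨fun P φ hφ => ?_, le_antisymm (CfsgLib.FusionBasics.core_le F)
    (CfsgLib.FusionBasics.le_core hN)⟩
  obtain ⟨ψ, hψ, hψx, hψS⟩ := hN.2 P φ hφ
  obtain ⟨-, -, g, hg⟩ := hψ
  refine ⟨g, Subgroup.mem_normalizer_iff_map_conj_eq.mpr (Subgroup.eq_of_le_of_card_ge ?_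
    (Subgroup.card_map_of_injective (MulEquiv.injective _)).ge), fun x => ?_⟩
  · rintro _ ⟨s, hs, rfl⟩
    exact hψS.le ⟨⟨s, Subgroup.mem_sup_right hs⟩, hs, hg _⟩
  · rw [← hψx, hg]
    rfl

end Cfsg.Agent.S5107
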