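import Cfsg.Statements.S5112
import Cfsg.Agent.Lib.Alperin.Theorem
import Cfsg.Agent.Lib.TwoGroups.Aut

set_option autoImplicit false
open Cfsg

namespace Cfsg.Agent.S5112

/-- If S is a dihedral or generalized quaternion 2-group of order at least 16, then in every saturated fusion system over S (at the prime 2) the automorphism group Aut_F(S) consists of the inner automorphisms of S. -/
theorem result {Ω : Type*} [Group Ω] {S : Subgroup Ω} [Finite S] (n : ℕ) (hn : 4 ≤ n) (hshape : Nonempty (S ≃* DihedralGroup (2 ^ (n - 1))) ∨ Nonempty (S ≃* QuaternionGroup (2 ^ (n - 2)))) (F : Cfsg.FusionSystem S) (hF : F.IsSaturated 2) : F.autGroup S = Cfsg.Inn S := by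
  have hA : IsPGroup 2 (MulAut S) := by
    rcases hshape with ⟨⟨e⟩⟩ | ⟨⟨e⟩⟩
    · exact CfsgLib.TwoGroups.isPGroup_mulAut_congr e.symm
        (CfsgLib.TwoGroups.isPGroup_mulAut_dihedral (by omega))
    · exact CfsgLib.TwoGroups.isPGroup_mulAut_congr e.symm
        (CfsgLib.TwoGroups.isPGroup_mulAut_quaternion (by omega))
  have hS : IsPGroup 2 S := by
    rcases hshape with ⟨⟨e⟩⟩ | ⟨⟨e⟩⟩
    · refine (IsPGroup.of_card (n := n) ?_).of_equiv e.symm
      rw [DihedralGroup.nat_card]
      conv_rhs => rw [show n = n - 1 + 1 by omega, pow_succ']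
    · haveI : NeZero (2 ^ (n - 2)) := ⟨by positivity⟩
      refine (IsPGroup.of_card (n := n) ?_).of_equiv e.symm
      rw [Nat.card_eq_fintype_card, QuaternionGroup.card]
      conv_rhs => rw [show n = n - 2 + 1 + 1 by omega, pow_succ', pow_succ']
      ring
  haveI : Fact (Nat.Prime 2) := ⟨Nat.prime_two⟩
  obtain ⟨-, R, hR⟩ := (CfsgLib.Alperin.centralized_automized_of_fullyNormalized hS hF
    (CfsgLib.Alperin.isFullyNormalized_top F)).2
  have htop : (⊤ : Subgroup (F.autGroup S)) ≤ R := (R.is_maximal'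
    ((hA.to_subgroup (F.autGroup S)).of_surjective Subgroup.topEquiv.symm.toMonoidHom
      (MulEquiv.surjective _)) le_top).le
  refine le_antisymm (fun α hα => ?_) (CfsgLib.Alperin.inn_le_autGroup F le_rfl)
  have hmem : (⟨α, hα⟩ : F.autGroup S) ∈ (R : Subgroup (F.autGroup S)) := htop (Subgroup.mem_top _)
  rw [hR] at hmem
  obtain ⟨g, hg, hx⟩ := CfsgLib.Alperin.mem_autInducedBy_iff.mp hmem
  exact ⟨⟨g, hg⟩, MulEquiv.ext fun x => Subtype.ext (hx x).symm⟩

end Cfsg.Agent.S5112
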