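import Cfsg.Statements.S5114
import Cfsg.Agent.Lib.Alperin.InvariantCore
import Cfsg.Agent.Lib.FusionSub.Induction

set_option autoImplicit false
open Cfsg Cfsg.FusionSystem

namespace Cfsg.Agent.S5114

theorem congr_orderOf {A B : Type*} [Group A] [Group B] (e : A ≃* B) (γ : MulAut A) :
    orderOf (MulAut.congr e γ) = orderOf γ :=
  orderOf_injective (MulAut.congr e).toMonoidHom (MulEquiv.injective _) γ

/-- Let F be a saturated fusion system over a finite p-group S and E a fusion system over S contained in F. If Aut_E(P) contains the subgroup of Aut_F(P) generated by its elements of p-power order for every subgroup P that is centric in F, then the same holds for every subgroup of S (E has index prime to p in F), every map of F with source a subgroup P of S is an element of Aut_F(S) composed with a map of E, and a subgroup is centric in E exactly when it is centric in F. -/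
theorem result {Ω : Type*} [Group Ω] {S : Subgroup Ω} [Finite S] (p : ℕ) [Fact p.Prime] (hS : IsPGroup p S) (F : Cfsg.FusionSystem S) (hF : F.IsSaturated p) (E : Cfsg.FusionSystem S) (hEF : E.IsSubsystemOf F) (h : ∀ P : Subgroup Ω, F.IsCentric P → (Subgroup.closure {α : ↥(F.autGroup P) | ∃ k : ℕ, orderOf α = p ^ k}).map (F.autGroup P).subtype ≤ E.autGroup P) : E.HasPrimeToPIndexIn F p ∧ (∀ (P : Subgroup Ω) (φ : P →* Ω), φ ∈ F.Hom P → ∃ α ∈ F.autGroup S, ∃ φ₀ ∈ E.Hom P, ∀ (x : P) (hx : φ₀ x ∈ S), φ x = ((α ⟨φ₀ x, hx⟩ : S) : Ω)) ∧ ∀ P : Subgroup Ω, E.IsCentric P ↔ F.IsCentric P := by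
  -- the hypothesis, pointwise
  have hp : ∀ P : Subgroup Ω, F.IsCentric P → ∀ γ ∈ F.autGroup P, (∃ k : ℕ, orderOf γ = p ^ k) →
      γ ∈ E.autGroup P := by
    rintro P hP γ hγ ⟨k, hk⟩
    exact h P hP ⟨⟨γ, hγ⟩, Subgroup.subset_closure ⟨k, by rw [← hk, Subgroup.orderOf_mk]⟩, rfl⟩
  let E' : Cfsg.FusionSystem S := CfsgLib.Alperin.invariantCore E F
  have hinv : CfsgLib.Alperin.InvCond E' F := CfsgLib.Alperin.invCond_invariantCore E F
  let D := CfsgLib.Alperin.frattiniSystem E' F hinv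
  -- p-elements at centric subgroups lie in the invariant core
  have hp' : ∀ P : Subgroup Ω, F.IsCentric P → ∀ γ ∈ F.autGroup P, (∃ k : ℕ, orderOf γ = p ^ k) →
      γ ∈ E'.autGroup P := by
    intro P hP γ hγ hk
    refine (CfsgLib.Alperin.mem_autGroup_iff E' hP.1).mpr
      ⟨(CfsgLib.Alperin.mem_autGroup_iff E hP.1).mp (hp P hP γ hγ hk), fun a ha => ?_⟩
    let φ : P →* Ω := S.subtype.comp (a.toMonoidHom.comp (Subgroup.inclusion hP.1))
    have hφ : φ ∈ F.Hom P := CfsgLib.Alperin.restrict_mem_apply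
      ((CfsgLib.Alperin.mem_autGroup_iff F le_rfl).mp ha) hP.1 fun x => rfl
    have hr : φ.range = CfsgLib.Alperin.autImage a P := by
      ext y
      constructor
      · rintro ⟨x, rfl⟩
        exact CfsgLib.Alperin.mem_autImage _ x.2
      · rintro ⟨x, hx, rfl⟩
        exact ⟨⟨x, hx⟩, rfl⟩
    set e := CfsgLib.Alperin.isoOfHom φ (F.injective_of_mem hφ) hr
    have hc : F.IsCentric (CfsgLib.Alperin.autImage a P) :=
      ⟨CfsgLib.Alperin.autImage_le a P, fun Q hQ =>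
        hP.2 Q (CfsgLib.Alperin.IsConj.trans ⟨φ, hφ, hr⟩ hQ)⟩
    have hγ' : MulAut.congr e γ ∈ F.autGroup (CfsgLib.Alperin.autImage a P) := by
      rw [← CfsgLib.Alperin.autGroup_map_congr hφ hr]
      exact ⟨γ, hγ, rfl⟩
    have := hp _ hc _ hγ' (by rwa [congr_orderOf])
    refine ⟨_, (CfsgLib.Alperin.mem_autGroup_iff E (CfsgLib.Alperin.autImage_le a P)).mp this,
      fun x hxT hφx => ?_⟩
    show (((MulAut.congr e γ) (e x) : CfsgLib.Alperin.autImage a P) : Ω) = _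
    rw [MulAut.congr_apply]
    simp only [MulEquiv.trans_apply, MulEquiv.symm_apply_apply]
    rfl
  -- Frattini at centric subgroups
  have hall : ∀ (P : Subgroup Ω) (φ : P →* Ω), φ ∈ F.Hom P → φ ∈ D.Hom P := by
    intro P φ hφ
    refine CfsgLib.FusionSub.closed_induction_centric hS hF
      (CfsgLib.FusionSub.closed_hom F D) (fun Q hQn hQc big α hα => ?_) hφ
    rcases hQn.1.eq_or_lt with heq | hlt
    · subst heq
      exact ⟨α, hα, Q.subtype, CfsgLib.Alperin.incl_mem E' le_rfl, fun _ _ => rfl⟩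
    let K : Subgroup (MulAut Q) := (Subgroup.closure {α : ↥(F.autGroup Q) | ∃ k : ℕ,
      orderOf α = p ^ k}).map (F.autGroup Q).subtype
    have hK : ∀ a ∈ F.autGroup Q, ∀ κ ∈ K, a * κ * a⁻¹ ∈ K := by
      intro a ha κ hκ
      obtain ⟨k, hk, rfl⟩ := hκ
      refine ⟨⟨a, ha⟩ * k * ⟨a, ha⟩⁻¹, ?_, rfl⟩
      have hle : Subgroup.closure {α : ↥(F.autGroup Q) | ∃ k : ℕ, orderOf α = p ^ k} ≤
          (Subgroup.closure {α : ↥(F.autGroup Q) | ∃ k : ℕ, orderOf α = p ^ k}).comap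
            (MulAut.conj (⟨a, ha⟩ : F.autGroup Q)).toMonoidHom := by
        refine (Subgroup.closure_le _).mpr ?_
        rintro z ⟨j, hj⟩
        exact Subgroup.subset_closure ⟨j, by
          rw [orderOf_injective _ (MulEquiv.injective _)]; exact hj⟩
      exact hle hk
    obtain ⟨κ, hκ, χ, hχ, he, R, hQR, ψ, hRN, hψ, hext, hgR⟩ :=
      CfsgLib.FusionSub.frattini_extend hS hF hQn K hK hα
    obtain ⟨g, hgS, hgN, hgQ⟩ := CfsgLib.FusionSub.exists_mem_normalizer_not_mem hS hlt le_rfl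
    have hgk : CfsgLib.Alperin.conjAut Q g hgN ∈ K := by
      obtain ⟨n, hn⟩ := CfsgLib.Alperin.isPGroup_autInducedBy hS Q
        ⟨_, CfsgLib.Alperin.conjAut_mem hgS hgN⟩
      obtain ⟨j, -, hj⟩ := (Nat.dvd_prime_pow Fact.out).mp
        (orderOf_dvd_of_pow_eq_one (congrArg Subtype.val hn))
      exact ⟨⟨_, CfsgLib.Alperin.autInducedBy_le_autGroup F hQn.1
        (CfsgLib.Alperin.conjAut_mem hgS hgN)⟩,
        Subgroup.subset_closure ⟨j, by rw [Subgroup.orderOf_mk]; exact hj⟩, rfl⟩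
    have hlt' : Q < R := lt_of_le_of_ne hQR fun h => hgQ (h.ge (hgR g hgS hgN hgk))
    have hχD : Q.subtype.comp χ.toMonoidHom ∈ D.Hom Q :=
      CfsgLib.Alperin.restrict_mem_apply (big R ψ hψ (CfsgLib.FusionSub.card_lt_card
        (CfsgLib.Alperin.dom_le hψ) hlt')) hlt'.le fun x => (hext x).symm
    have hκE : κ ∈ E'.autGroup Q := by
      have hle : K ≤ E'.autGroup Q := by
        rw [Subgroup.map_le_iff_le_comap]
        refine (Subgroup.closure_le _).mpr ?_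
        rintro z ⟨j, hj⟩
        exact hp' Q hQc z z.2 ⟨j, by rw [← hj, Subgroup.orderOf_coe]⟩
      exact hle hκ.1
    have hκD : Q.subtype.comp κ.toMonoidHom ∈ D.Hom Q :=
      CfsgLib.Alperin.mem_frattiniSystem_of_mem hinv
        ((CfsgLib.Alperin.mem_autGroup_iff E' hQn.1).mp hκE)
    subst he
    exact CfsgLib.Alperin.comp_mem_apply hχD hκD (fun x => (χ x).2) fun x => rfl
  have hconj : ∀ {P Q : Subgroup Ω}, F.IsConj P Q → ∀ β ∈ E'.autGroup P,
      ∀ φ : P →* Ω, ∀ hφ : φ ∈ F.Hom P, ∀ hr : φ.range = Q,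
      MulAut.congr (CfsgLib.Alperin.isoOfHom φ (F.injective_of_mem hφ) hr) β ∈ E'.autGroup Q :=
    fun _ β hβ φ hφ hr => CfsgLib.Alperin.congr_mem_autGroup hinv (hall _ φ hφ) _ hr hβ
  refine ⟨⟨hEF, fun P hP => ?_⟩, fun P φ hφ => ?_, fun P => ⟨fun hc => ?_, fun hc => ?_⟩⟩
  · -- index prime to p
    rw [Subgroup.map_le_iff_le_comap]
    refine (Subgroup.closure_le _).mpr ?_
    rintro γ ⟨k, hk⟩
    show (γ : MulAut P) ∈ E.autGroup P
    suffices h' : (γ : MulAut P) ∈ E'.autGroup P from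
      (CfsgLib.Alperin.mem_autGroup_iff E hP).mpr
        ((CfsgLib.Alperin.mem_autGroup_iff E' hP).mp h').1
    obtain ⟨Q, hPQ, hQn⟩ := CfsgLib.Alperin.exists_isFullyNormalized F hP
    obtain ⟨φ, hφ, hr⟩ := hPQ
    set e := CfsgLib.Alperin.isoOfHom φ (F.injective_of_mem hφ) hr
    have hγ' : MulAut.congr e γ ∈ F.autGroup Q := by
      rw [← CfsgLib.Alperin.autGroup_map_congr hφ hr]
      exact ⟨γ, γ.2, rfl⟩
    obtain ⟨-, -, B, hB⟩ :=
      CfsgLib.Alperin.centralized_automized_of_fullyNormalized hS hF hQn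
    haveI := CfsgLib.Alperin.finite_autGroup F hQn.1
    let γ' : F.autGroup Q := ⟨MulAut.congr e γ, hγ'⟩
    have hγp : IsPGroup p (Subgroup.zpowers γ') := by
      refine IsPGroup.of_card (n := k) ?_
      rw [Nat.card_zpowers, Subgroup.orderOf_mk, congr_orderOf, Subgroup.orderOf_coe, hk]
    obtain ⟨T, hT⟩ := hγp.exists_le_sylow
    obtain ⟨δ, hδ⟩ := MulAction.exists_smul_eq (F.autGroup Q) T B
    have hmem : δ * γ' * δ⁻¹ ∈ (B : Subgroup (F.autGroup Q)) := by
      rw [← hδ, Sylow.coe_subgroup_smul]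
      exact ⟨γ', hT (Subgroup.mem_zpowers γ'), rfl⟩
    rw [hB, Subgroup.mem_subgroupOf] at hmem
    have h1 := CfsgLib.Alperin.autInducedBy_le_autGroup E' hQn.1 hmem
    -- conjugate back inside `Q`
    obtain ⟨θ, hθ, hθx⟩ : ∃ θ ∈ F.Hom Q, ∀ x : Q, θ x = (((δ⁻¹ : F.autGroup Q) : MulAut Q) x : Ω) :=
      ⟨_, (CfsgLib.Alperin.mem_autGroup_iff F hQn.1).mp (δ⁻¹ : F.autGroup Q).2, fun _ => rfl⟩
    have hθr : θ.range = Q := by
      ext y
      constructor
      · rintro ⟨x, rfl⟩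
        rw [hθx]
        exact (((δ⁻¹ : F.autGroup Q) : MulAut Q) x).2
      · intro hy
        exact ⟨(δ : MulAut Q) ⟨y, hy⟩, by rw [hθx]; simp⟩
    have h2 := hconj ⟨θ, hθ, hθr⟩ _ h1 θ hθ hθr
    have h3 : MulAut.congr (CfsgLib.Alperin.isoOfHom θ (F.injective_of_mem hθ) hθr)
        ((δ * γ' * δ⁻¹ : F.autGroup Q) : MulAut Q) = MulAut.congr e γ := by
      refine MulEquiv.ext fun y => ?_
      obtain ⟨x, rfl⟩ := (CfsgLib.Alperin.isoOfHom θ (F.injective_of_mem hθ) hθr).surjective y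
      rw [MulAut.congr_apply]
      simp only [MulEquiv.trans_apply, MulEquiv.symm_apply_apply]
      refine Subtype.ext ?_
      rw [CfsgLib.Alperin.isoOfHom_apply, hθx]
      have e1 : CfsgLib.Alperin.isoOfHom θ (F.injective_of_mem hθ) hθr x =
          ((δ⁻¹ : F.autGroup Q) : MulAut Q) x := Subtype.ext (hθx x)
      rw [e1]
      simp [γ']
    rw [h3] at h2
    obtain ⟨θ', hθ', hθ'r, hθ'1, -⟩ := CfsgLib.Alperin.exists_inverse hφ hr
    have h4 := hconj ⟨θ', hθ', hθ'r⟩ _ h2 θ' hθ' hθ'r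
    have h5 : MulAut.congr (CfsgLib.Alperin.isoOfHom θ' (F.injective_of_mem hθ') hθ'r)
        (MulAut.congr e γ) = (γ : MulAut P) := by
      refine MulEquiv.ext fun y => ?_
      have e1 : CfsgLib.Alperin.isoOfHom θ' (F.injective_of_mem hθ') hθ'r = e.symm := by
        refine MulEquiv.ext fun z => Subtype.ext ?_
        obtain ⟨x, rfl⟩ := e.surjective z
        rw [MulEquiv.symm_apply_apply, CfsgLib.Alperin.isoOfHom_apply]
        exact hθ'1 x _
      rw [e1, MulAut.congr_apply, MulAut.congr_apply]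
      simp
    rwa [h5] at h4
  · obtain ⟨a, ha, φ₀, hφ₀, hx⟩ := hall P φ hφ
    exact ⟨a, ha, φ₀, hφ₀.1, hx⟩
  · refine ⟨hc.1, fun Q hQ c hcQ => ?_⟩
    obtain ⟨φ, hφ, rfl⟩ := hQ
    obtain ⟨a, ha, φ₀, hφ₀, hx⟩ := hall P φ hφ
    obtain ⟨w, hw⟩ := a.surjective ⟨c, hcQ.1⟩
    have hwc : (w : Ω) ∈ centralizerIn S φ₀.range := by
      refine ⟨w.2, ?_⟩
      rintro _ ⟨x, rfl⟩
      let z : S := ⟨φ₀ x, CfsgLib.Alperin.apply_mem hφ₀ x⟩
      have h1 : φ x * c = c * φ x := hcQ.2 (φ x) ⟨x, rfl⟩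
      have h2 : a z * a w = a w * a z := Subtype.ext (by
        rw [hw]
        show ((a z : S) : Ω) * c = c * ((a z : S) : Ω)
        rw [← hx x (CfsgLib.Alperin.apply_mem hφ₀ x)]
        exact h1)
      rw [← map_mul, ← map_mul] at h2
      exact congrArg Subtype.val (a.injective h2)
    obtain ⟨x, hxw⟩ := hc.2 _ ⟨φ₀, hφ₀.1, rfl⟩ hwc
    refine ⟨x, ?_⟩
    rw [hx x (CfsgLib.Alperin.apply_mem hφ₀ x),
      show (⟨φ₀ x, CfsgLib.Alperin.apply_mem hφ₀ x⟩ : S) = w from Subtype.ext hxw, hw]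
  · refine ⟨hc.1, fun Q hQ => hc.2 Q ?_⟩
    obtain ⟨φ, hφ, hr⟩ := hQ
    exact ⟨φ, hEF P hφ, hr⟩

end Cfsg.Agent.S5114
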