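import Cfsg.Statements.S5118
import Cfsg.Agent.Lib.Alperin.SubgroupSystem
import Cfsg.Agent.Lib.FusionSub.Puig

set_option autoImplicit false
open Cfsg Cfsg.FusionSystem

namespace Cfsg.Agent.S5118

/-- For a finite group G with Sylow p-subgroup S and a normal subgroup H, the fusion system of H on S ∩ H is a normal subsystem of the fusion system of G on S. -/
theorem result {G : Type*} [Group G] [Finite G] (p : ℕ) [Fact p.Prime] (S : Sylow p G) (H : Subgroup G) [H.Normal] : (Cfsg.fusionSystemOfSubgroup H ((S : Subgroup G) ⊓ H) inf_le_right).IsNormalIn (Cfsg.groupFusionSystem (S : Subgroup G)) p := by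
  set T : Subgroup G := (S : Subgroup G) ⊓ H with hTdef
  set F := groupFusionSystem (S : Subgroup G) with hFdef
  set E := fusionSystemOfSubgroup H T inf_le_right with hEdef
  obtain ⟨R, hR⟩ := CfsgLib.Alperin.exists_sylow_inf_normal S H
  have hEs : E.IsSaturated p := CfsgLib.Alperin.fusionSystemOfSubgroup_isSaturated _ R hR
  have hFs := CfsgLib.FusionBasics.group_isSaturated S
  have hsc : F.StronglyClosed T := by
    refine ⟨inf_le_left, ?_⟩
    rintro W hW φ ⟨-, hS', g, hg⟩ x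
    exact ⟨hS' x, hg x ▸ Subgroup.Normal.conj_mem inferInstance _ (hW x.2).2 g⟩
  have hTS : T ≤ (S : Subgroup G) := inf_le_left
  refine ⟨⟨hEs, hFs, ?_, hsc, ?_, ?_⟩, ?_⟩
  · rintro Q φ ⟨hQ, hφ, g, -, hg⟩
    exact ⟨hQ.trans hTS, fun x => (hφ x).1, g, hg⟩
  · rintro P hPT φ ⟨-, hφT, h, hh, hx⟩ α hα
    obtain ⟨n, -, hn⟩ := CfsgLib.Alperin.mem_autInducedBy_iff.mp
      (CfsgLib.FusionBasics.group_autGroup hTS ▸ hα)
    have hαeq : ∀ x : T, ((α x : T) : G) = n * (x : G) * n⁻¹ := hn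
    refine ⟨conjHom _ (n * h * n⁻¹), ⟨?_, ?_, n * h * n⁻¹,
      Subgroup.Normal.conj_mem inferInstance h hh n, fun _ => rfl⟩, fun x hφx hαx => ?_⟩
    · rintro _ ⟨w, -, rfl⟩
      exact (α w).2
    · rintro ⟨_, ⟨w, hwT⟩, hw, rfl⟩
      show n * h * n⁻¹ * (α ⟨w, hwT⟩ : T) * (n * h * n⁻¹)⁻¹ ∈ T
      have h1 : (n * (φ ⟨w, hw⟩ : G) * n⁻¹ : G) ∈ T := by
        rw [← hαeq ⟨φ ⟨w, hw⟩, hφT _⟩]
        exact (α _).2
      rw [hαeq]
      rw [hx] at h1
      simpa [mul_assoc] using h1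
    · show n * h * n⁻¹ * ((α ⟨x, hPT x.2⟩ : T) : G) * (n * h * n⁻¹)⁻¹ = _
      rw [hαeq, hαeq]
      show n * h * n⁻¹ * (n * (x : G) * n⁻¹) * (n * h * n⁻¹)⁻¹ = n * φ x * n⁻¹
      rw [hx x]
      group
  · rintro P hPT φ ⟨-, hφS, g, hg⟩
    have hg' : g ∈ ((Subgroup.normalizer (T : Set G) ⊔ H : Subgroup G) : Set G) := by
      have htop := Sylow.normalizer_sup_eq_top R
      have e : (R : Subgroup H).map H.subtype = T := by
        rw [hR, Subgroup.subgroupOf_map_subtype]
        exact inf_eq_left.mpr inf_le_right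
      rw [e] at htop
      rw [htop]
      exact Set.mem_univ g
    rw [Subgroup.mul_normal] at hg'
    obtain ⟨n, hn, h, hh, rfl⟩ := Set.mem_mul.mp hg'
    have hφT : ∀ x : P, φ x ∈ T := fun x =>
      hsc.2 P hPT φ ⟨hPT.trans hTS, hφS, n * h, hg⟩ x
    have hh' : ∀ x : P, h * (x : G) * h⁻¹ ∈ T := fun x => by
      have := CfsgLib.Alperin.mem_normalizer_conj (Subgroup.inv_mem _ hn) (hφT x)
      rw [hg] at this
      simpa [mul_assoc] using this
    refine ⟨CfsgLib.Alperin.conjAut T n hn, ?_, conjHom P h, ⟨hPT, hh', h, hh, fun _ => rfl⟩,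
      fun x hx => ?_⟩
    · rw [CfsgLib.FusionBasics.group_autGroup hTS]
      exact CfsgLib.Alperin.conjAut_mem (Subgroup.mem_top n) hn
    · show φ x = n * (h * (x : G) * h⁻¹) * n⁻¹
      rw [hg]
      group
  · intro α hα
    obtain ⟨-, -, h, hh, hx⟩ := (CfsgLib.Alperin.mem_autGroup_iff E le_rfl).mp hα
    have hx' : ∀ x : T, ((α x : T) : G) = h * (x : G) * h⁻¹ := hx
    have hhN : h ∈ Subgroup.normalizer (T : Set G) := CfsgLib.Alperin.normalizer_of_induced hx'
    set C := Subgroup.centralizer (T : Set G) with hCdef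
    set CS := centralizerIn (S : Subgroup G) T with hCSdef
    set D := C ⊓ H with hDdef
    have hnormC : ∀ g ∈ Subgroup.normalizer (T : Set G), ∀ c ∈ C, g * c * g⁻¹ ∈ C := by
      intro g hg c hc
      have h1 : C.map (MulAut.conj g).toMonoidHom = C :=
        (CfsgLib.FusionBasics.map_conj_centralizer g T).trans
          (congrArg (fun U : Subgroup G => Subgroup.centralizer (U : Set G))
            (Subgroup.mem_normalizer_iff_map_conj_eq.mp hg))
      exact h1.le ⟨c, hc, rfl⟩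
    have hSN : (S : Subgroup G) ≤ Subgroup.normalizer (T : Set G) :=
      CfsgLib.FusionSub.stronglyClosed_le_normalizer hsc
    have hidx : ¬ p ∣ CS.relIndex C := by
      have h1 : ¬ p ∣ (S : Subgroup G).relIndex ⊤ := by
        rw [Subgroup.relIndex_top_right]; exact S.not_dvd_index
      have h2 := CfsgLib.FusionBasics.not_dvd_relIndex_of_le (C := C) le_top le_top
        (fun s hs => Subgroup.mem_normalizer_iff.mpr fun c => ⟨hnormC s (hSN hs) c, fun hc => by
          simpa [mul_assoc] using hnormC s⁻¹ (Subgroup.inv_mem _ (hSN hs)) _ hc⟩) h1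
      rwa [← Subgroup.inf_relIndex_right] at h2
    set M := CS ⊔ D with hMdef
    have hMC : M ≤ C := sup_le inf_le_right inf_le_left
    have hconjM : ∀ c ∈ CS, h * c * h⁻¹ ∈ M := by
      intro c hc
      have h1 : h * c * h⁻¹ * c⁻¹ ∈ D :=
        ⟨C.mul_mem (hnormC h hhN c hc.2) (C.inv_mem hc.2), by
          have := H.mul_mem hh (Subgroup.Normal.conj_mem inferInstance _ (H.inv_mem hh) c)
          simpa [mul_assoc] using this⟩
      have := M.mul_mem (Subgroup.mem_sup_right h1) (Subgroup.mem_sup_left hc)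
      rwa [inv_mul_cancel_right] at this
    let CSM : Sylow p M := IsPGroup.toSylow (P := CS.subgroupOf M)
      ((S.2.to_le (CfsgLib.Alperin.centralizerIn_le _ T)).comap_of_injective _ M.subtype_injective)
      (fun hd => hidx (hd.trans ((dvd_mul_right _ (M.relIndex C)).trans
        (Subgroup.relIndex_mul_relIndex CS M C le_sup_left hMC).dvd)))
    have hconjle : CS.map (MulAut.conj h).toMonoidHom ≤ M := by
      rintro _ ⟨c, hc, rfl⟩
      exact hconjM c hc
    obtain ⟨Q, hQ⟩ := (((S.2.to_le (CfsgLib.Alperin.centralizerIn_le _ T)).map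
      (MulAut.conj h).toMonoidHom).comap_of_injective M.subtype M.subtype_injective :
        IsPGroup p ((CS.map (MulAut.conj h).toMonoidHom).comap M.subtype)).exists_le_sylow
    obtain ⟨m, hm⟩ := MulAction.exists_smul_eq M Q CSM
    have hm' : (m : G) ∈ ((CS ⊔ D : Subgroup G) : Set G) := m.2
    rw [Subgroup.coe_mul_of_left_le_normalizer_right CS D (fun s hs => Subgroup.mem_normalizer_iff.mpr
      fun c => ⟨fun hc => ⟨hnormC s (hSN hs.1) c hc.1, Subgroup.Normal.conj_mem inferInstance c hc.2 s⟩,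
        fun hc => ⟨by simpa [mul_assoc] using hnormC s⁻¹ (Subgroup.inv_mem _ (hSN hs.1)) _ hc.1,
          by simpa [mul_assoc] using Subgroup.Normal.conj_mem (inferInstance : H.Normal) _ hc.2 s⁻¹⟩⟩)] at hm'
    obtain ⟨c₀, hc₀, d, hd, hcd⟩ := Set.mem_mul.mp hm'
    have hmove : ∀ c ∈ CS, d * h * c * (d * h)⁻¹ ∈ CS := by
      intro c hc
      have h1 : (⟨_, hconjM c hc⟩ : M) ∈ (Q : Subgroup M) := hQ ⟨c, hc, rfl⟩
      have h2 : m * ⟨_, hconjM c hc⟩ * m⁻¹ ∈ (CSM : Subgroup M) := by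
        rw [← hm, Sylow.coe_subgroup_smul]
        exact ⟨_, h1, rfl⟩
      have h3 : (m : G) * (h * c * h⁻¹) * (m : G)⁻¹ ∈ CS := h2
      rw [← hcd] at h3
      have := CS.mul_mem (CS.mul_mem (CS.inv_mem hc₀) h3) hc₀
      simpa [mul_assoc] using this
    have hdh : ∀ x ∈ T, d * h * x * (d * h)⁻¹ = h * x * h⁻¹ := by
      intro x hx₀
      have h1 : h * x * h⁻¹ ∈ T := CfsgLib.Alperin.mem_normalizer_conj hhN hx₀
      calc d * h * x * (d * h)⁻¹ = d * (h * x * h⁻¹) * d⁻¹ := by group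
        _ = h * x * h⁻¹ := by rw [← hd.1 _ h1, mul_inv_cancel_right]
    set U := T ⊔ CS with hUdef
    have hU : U ≤ U.comap (MulAut.conj (d * h)).toMonoidHom := by
      refine sup_le (fun x hx₀ => ?_) (fun x hx₀ => ?_)
      · refine Subgroup.mem_sup_left ?_
        show d * h * x * (d * h)⁻¹ ∈ T
        rw [hdh x hx₀]
        exact CfsgLib.Alperin.mem_normalizer_conj hhN hx₀
      · exact Subgroup.mem_sup_right (hmove x hx₀)
    have hUS : U ≤ (S : Subgroup G) := sup_le hTS (CfsgLib.Alperin.centralizerIn_le _ T)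
    obtain ⟨b, hb, hbx⟩ := CfsgLib.Alperin.exists_aut_of_hom' F
      (CfsgLib.FusionBasics.conjHom_mem_group (P := U) (d * h) hUS fun x hx₀ => hUS (hU hx₀))
      fun x => hU x.2
    refine ⟨b, hb, fun x => ?_, fun c hc => ?_⟩
    · rw [hbx, hx']
      exact hdh x x.2
    · rw [hbx]
      have h1 : (c : G)⁻¹ * (d * h * c * (d * h)⁻¹) ∈ CS :=
        CS.mul_mem (CS.inv_mem hc) (hmove c hc)
      have h2 : (c : G)⁻¹ * (d * h * c * (d * h)⁻¹) ∈ H := by
        have := H.mul_mem (Subgroup.Normal.conj_mem inferInstance _ (H.mul_mem hd.2 hh) (c : G)⁻¹)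
          (H.inv_mem (H.mul_mem hd.2 hh))
        simpa [mul_assoc] using this
      exact ⟨⟨h1.1, h2⟩, h1.2⟩

end Cfsg.Agent.S5118
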