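import Cfsg.Statements.S5119
import Cfsg.Agent.Lib.Alperin.Invariant
import Cfsg.Agent.Lib.FusionSub.Induction

set_option autoImplicit false
open Cfsg Cfsg.FusionSystem

namespace Cfsg.Agent.S5119

/-- Let F be a saturated fusion system over a finite p-group S and E a subsystem of F over a subgroup T that is strongly closed in F. Then E is invariant in F (invariance under Aut_F(T) plus the Frattini condition) if and only if the strong invariance condition holds: for P ≤ Q ≤ T, every map φ of E from P into Q and every map ψ of F with source Q, the transported map ψ φ ψ⁻¹ on ψ(P) is a map of E. -/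
theorem result {Ω : Type*} [Group Ω] {S : Subgroup Ω} [Finite S] (p : ℕ) [Fact p.Prime] (hS : IsPGroup p S) (F : Cfsg.FusionSystem S) (hF : F.IsSaturated p) {T : Subgroup Ω} (E : Cfsg.FusionSystem T) (hE : E.IsSubsystemOf F) (hT : F.StronglyClosed T) : E.IsInvariantIn F ↔ ∀ (P Q : Subgroup Ω) (hPQ : P ≤ Q) (_ : Q ≤ T) (φ : P →* Ω) (_ : φ ∈ E.Hom P) (hφQ : ∀ x : P, φ x ∈ Q) (ψ : Q →* Ω) (_ : ψ ∈ F.Hom Q), ∃ χ ∈ E.Hom ((P.subgroupOf Q).map ψ), ∀ (x : P) (hx : ψ (Subgroup.inclusion hPQ x) ∈ (P.subgroupOf Q).map ψ), χ ⟨ψ (Subgroup.inclusion hPQ x), hx⟩ = ψ ⟨φ x, hφQ x⟩ := by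
  constructor
  · rintro ⟨-, -, hinv, hfrat⟩ P Q hPQ hQT φ hφ hφQ ψ hψ
    obtain ⟨a, ha, ψ₀, hψ₀, hx⟩ := hfrat Q hQT ψ hψ
    obtain ⟨θ, hθ, -, hθ1, -⟩ := CfsgLib.Alperin.exists_inverse hψ₀ rfl
    let ψP : P →* Ω := ψ₀.comp (Subgroup.inclusion hPQ)
    have hψP : ψP ∈ E.Hom P := CfsgLib.Alperin.restrict_mem hψ₀ hPQ
    obtain ⟨ρ, hρ, -, hρ1, -⟩ := CfsgLib.Alperin.exists_inverse hψP rfl
    have hρP : ∀ y : ψP.range, ρ y ∈ P := by
      rintro ⟨_, x, rfl⟩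
      exact (hρ1 x ⟨x, rfl⟩).symm ▸ x.2
    let φ' : ψP.range →* Ω := ψ₀.comp ((φ.comp (ρ.codRestrict P hρP)).codRestrict Q fun y => hφQ _)
    have hφ' : φ' ∈ E.Hom ψP.range :=
      E.comp_mem (E.comp_mem hρ hφ hρP) hψ₀ fun y => hφQ _
    obtain ⟨χ, hχ, hχx⟩ := hinv ψP.range (CfsgLib.Alperin.range_le hψP) φ' hφ' a ha
    have hmem : ∀ x : P, ψ (Subgroup.inclusion hPQ x) ∈
        (ψP.range.subgroupOf T).map (T.subtype.comp a.toMonoidHom) := fun x =>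
      ⟨⟨ψP x, CfsgLib.Alperin.apply_mem hψP x⟩, ⟨x, rfl⟩, (hx _ _).symm⟩
    have hle : (P.subgroupOf Q).map ψ ≤ (ψP.range.subgroupOf T).map (T.subtype.comp a.toMonoidHom) := by
      rintro _ ⟨w, hw, rfl⟩
      exact hmem ⟨w, hw⟩
    refine ⟨χ.comp (Subgroup.inclusion hle), CfsgLib.Alperin.restrict_mem hχ hle, fun x hxm => ?_⟩
    have h1 : ρ ⟨ψP x, ⟨x, rfl⟩⟩ = (x : Ω) := hρ1 x _
    have h2 : φ' ⟨ψP x, ⟨x, rfl⟩⟩ = ψ₀ ⟨φ x, hφQ x⟩ := by
      have : (⟨ρ ⟨ψP x, ⟨x, rfl⟩⟩, hρP _⟩ : P) = x := Subtype.ext h1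
      exact congrArg ψ₀ (Subtype.ext (congrArg φ this))
    have h3 := hχx ⟨ψP x, ⟨x, rfl⟩⟩ (CfsgLib.Alperin.apply_mem hφ' _)
      ⟨⟨ψP x, CfsgLib.Alperin.apply_mem hψP x⟩, ⟨x, rfl⟩, rfl⟩
    refine Eq.trans ?_ ((hx ⟨φ x, hφQ x⟩ (CfsgLib.Alperin.apply_mem hψ₀ _)).symm)
    refine Eq.trans ?_ (h3.trans (by simp only [h2]))
    exact congrArg χ (Subtype.ext (hx _ _))
  · intro hstr
    have hinv : CfsgLib.Alperin.InvCond E F := by
      intro P hPT φ hφ α hα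
      obtain ⟨χ, hχ, hχx⟩ := hstr P T hPT le_rfl φ hφ (CfsgLib.Alperin.apply_mem hφ)
        (T.subtype.comp α.toMonoidHom) ((CfsgLib.Alperin.mem_autGroup_iff F hT.1).mp hα)
      exact ⟨χ, hχ, fun x hφx hαx => hχx x hαx⟩
    refine ⟨hE, hT, hinv, ?_⟩
    haveI := CfsgLib.Alperin.finite_of_le hT.1
    refine CfsgLib.Alperin.frattini_of_aut hS hF hinv hT fun Q hQT hQn big α hα => ?_
    rcases hQT.eq_or_lt with heq | hlt
    · subst heq
      exact ⟨α, hα, Q.subtype, CfsgLib.Alperin.incl_mem E le_rfl, fun _ _ => rfl⟩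
    have hK : ∀ a ∈ F.autGroup Q, ∀ κ ∈ E.autGroup Q, a * κ * a⁻¹ ∈ E.autGroup Q := by
      intro a ha κ hκ
      obtain ⟨χ, hχ, hχx⟩ := hstr Q Q le_rfl hQT _
        ((CfsgLib.Alperin.mem_autGroup_iff E hQT).mp hκ) (fun x => (κ x).2) _
        ((CfsgLib.Alperin.mem_autGroup_iff F hQn.1).mp ha)
      have hle : Q ≤ (Q.subgroupOf Q).map (Q.subtype.comp a.toMonoidHom) := fun y hy =>
        ⟨a⁻¹ ⟨y, hy⟩, (a⁻¹ ⟨y, hy⟩).2, by simp⟩
      refine (CfsgLib.Alperin.mem_autGroup_iff E hQT).mpr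
        (CfsgLib.Alperin.restrict_mem_apply hχ hle fun y => ?_)
      have hmy : (((a (a⁻¹ y)) : Q) : Ω) ∈ (Q.subgroupOf Q).map (Q.subtype.comp a.toMonoidHom) :=
        hle (a _).2
      refine Eq.trans ?_ ((hχx (a⁻¹ y) hmy).symm.trans
        (congrArg χ (Subtype.ext (show (((a (a⁻¹ y)) : Q) : Ω) = (y : Ω) by simp))))
      simp
    obtain ⟨κ, hκ, χ, hχ, he, R, hQR, ψ, hRN, hψ, hext, hgR⟩ :=
      CfsgLib.FusionSub.frattini_extend hS hF hQn (E.autGroup Q) hK hα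
    obtain ⟨g, hgT, hgN, hgQ⟩ :=
      CfsgLib.FusionSub.exists_mem_normalizer_not_mem hS hlt hT.1
    have hgk : CfsgLib.Alperin.conjAut Q g hgN ∈ E.autGroup Q :=
      CfsgLib.Alperin.autInducedBy_le_autGroup E hQT (CfsgLib.Alperin.conjAut_mem hgT hgN)
    have hlt' : Q < R ⊓ T := lt_of_le_of_ne (le_inf hQR hQT) fun h =>
      hgQ (h.ge ⟨hgR g (hT.1 hgT) hgN hgk, hgT⟩)
    have h1 := big _ inf_le_right (CfsgLib.FusionSub.card_lt_card (inf_le_right.trans hT.1) hlt')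
      _ (CfsgLib.Alperin.restrict_mem hψ (inf_le_left : R ⊓ T ≤ R))
    have hχD : Q.subtype.comp χ.toMonoidHom ∈ (CfsgLib.Alperin.frattiniSystem E F hinv).Hom Q :=
      CfsgLib.Alperin.restrict_mem_apply h1 hlt'.le fun x => (hext x).symm
    have hκD : Q.subtype.comp κ.toMonoidHom ∈ (CfsgLib.Alperin.frattiniSystem E F hinv).Hom Q :=
      CfsgLib.Alperin.mem_frattiniSystem_of_mem hinv
        ((CfsgLib.Alperin.mem_autGroup_iff E hQT).mp hκ.1)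
    subst he
    exact CfsgLib.Alperin.comp_mem_apply hχD hκD (fun x => (χ x).2) fun x => rfl

end Cfsg.Agent.S5119
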