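import Cfsg.Statements.S5122
import Cfsg.Agent.Lib.Alperin.Theorem
import Cfsg.Agent.Lib.FusionBasics.Group
-- import your own Cfsg.Agent.* helpers here

set_option autoImplicit false
open Cfsg

namespace Cfsg.Agent.S5122

/-- Let G be a finite group with Sylow p-subgroup S. Every subgroup P of S has a G-conjugate Q ≤ S such that N_S(Q) is a Sylow p-subgroup of N_G(Q); and for any Q ≤ S with that property, C_S(Q) is a Sylow p-subgroup of C_G(Q) and the automorphisms of Q induced by N_S(Q) form a Sylow p-subgroup of those induced by N_G(Q). -/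
theorem result {G : Type*} [Group G] [Finite G] (p : ℕ) [Fact p.Prime] (S : Sylow p G) : (∀ P : Subgroup G, P ≤ S → ∃ g : G, P.map (MulAut.conj g).toMonoidHom ≤ S ∧ (∃ R : Sylow p ↥(Subgroup.normalizer ((P.map (MulAut.conj g).toMonoidHom : Subgroup G) : Set G)), (R : Subgroup ↥(Subgroup.normalizer ((P.map (MulAut.conj g).toMonoidHom : Subgroup G) : Set G))) = (Cfsg.FusionSystem.normalizerIn (S : Subgroup G) (P.map (MulAut.conj g).toMonoidHom)).subgroupOf (Subgroup.normalizer ((P.map (MulAut.conj g).toMonoidHom : Subgroup G) : Set G)))) ∧ ∀ Q : Subgroup G, Q ≤ S → (∃ R : Sylow p ↥(Subgroup.normalizer (Q : Set G)), (R : Subgroup ↥(Subgroup.normalizer (Q : Set G))) = (Cfsg.FusionSystem.normalizerIn (S : Subgroup G) Q).subgroupOf (Subgroup.normalizer (Q : Set G))) → (∃ R : Sylow p ↥(Subgroup.centralizer (Q : Set G)), (R : Subgroup ↥(Subgroup.centralizer (Q : Set G))) = (Cfsg.FusionSystem.centralizerIn (S : Subgroup G) Q).subgroupOf (Subgroup.centralizer (Q : Set G))) ∧ (∃ R : Sylow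 p ↥(Cfsg.autInducedBy ⊤ Q), (R : Subgroup ↥(Cfsg.autInducedBy ⊤ Q)) = (Cfsg.autInducedBy (S : Subgroup G) Q).subgroupOf (Cfsg.autInducedBy ⊤ Q)) := by
  constructor
  · intro P hP
    obtain ⟨Q, hQ, hn⟩ := CfsgLib.FusionBasics.exists_fullyNormalized hP
    obtain ⟨-, hQS, g, rfl⟩ := CfsgLib.FusionBasics.group_isConj.mp hQ
    exact ⟨g, hQS, (CfsgLib.FusionBasics.group_isFullyNormalized_iff S hQS).mp hn⟩
  · intro Q hQ hR
    have hn := (CfsgLib.FusionBasics.group_isFullyNormalized_iff S hQ).mpr hR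
    refine ⟨(CfsgLib.FusionBasics.group_isFullyCentralized_iff S hQ).mp
      (CfsgLib.FusionBasics.group_fullyCentralized_of_fullyNormalized S hn), ?_⟩
    have h := (CfsgLib.FusionBasics.group_fullyAutomized_of_fullyNormalized S hn).2
    rw [CfsgLib.FusionBasics.group_autGroup hQ] at h
    exact h

end Cfsg.Agent.S5122
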