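import Cfsg.Statements.S5123
import Cfsg.Agent.Lib.Alperin.Theorem
import Cfsg.Agent.Lib.FusionBasics.Group

set_option autoImplicit false
open Cfsg Cfsg.FusionSystem

namespace Cfsg.Agent.S5123

/-- Let G be a finite group with Sylow p-subgroup S, P, Q ≤ S and g ∈ G with gPg⁻¹ = Q, and suppose N_S(Q) is a Sylow p-subgroup of N_G(Q). Let N be the set of x ∈ N_S(P) with gxg⁻¹ ∈ N_S(Q)C_G(Q). Then some h ∈ C_G(Q) satisfies (hg)N(hg)⁻¹ ≤ S. -/
theorem result {G : Type*} [Group G] [Finite G] (p : ℕ) [Fact p.Prime] (S : Sylow p G) (P Q : Subgroup G) (hP : P ≤ S) (hQ : Q ≤ S) (g : G) (hg : P.map (MulAut.conj g).toMonoidHom = Q) (hN : (∃ R : Sylow p ↥(Subgroup.normalizer (Q : Set G)), (R : Subgroup ↥(Subgroup.normalizer (Q : Set G))) = (Cfsg.FusionSystem.normalizerIn (S : Subgroup G) Q).subgroupOf (Subgroup.normalizer (Q : Set G)))) : ∃ h ∈ Subgroup.centralizer (Q : Set G), ((Cfsg.FusionSystem.normalizerIn (S : Subgroup G) P) ⊓ (Cfsg.FusionSystem.normalizerIn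 (S : Subgroup G) Q ⊔ Subgroup.centralizer (Q : Set G)).comap (MulAut.conj g).toMonoidHom).map (MulAut.conj (h * g)).toMonoidHom ≤ S := by
  have hn := (CfsgLib.FusionBasics.group_isFullyNormalized_iff S hQ).mpr hN
  have hrec := CfsgLib.FusionBasics.group_receptive_of_fullyCentralized S
    (CfsgLib.FusionBasics.group_fullyCentralized_of_fullyNormalized S hn)
  have hgQ : ∀ x ∈ P, g * x * g⁻¹ ∈ Q := fun x hx => hg ▸ ⟨x, hx, rfl⟩
  have hφ : conjHom P g ∈ (groupFusionSystem (S : Subgroup G)).Hom P :=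
    CfsgLib.FusionBasics.conjHom_mem_group g hP fun x hx => hQ (hgQ x hx)
  obtain ⟨ψ, ⟨-, hψS, g', hg'⟩, hext⟩ := hrec.2 P (conjHom P g) hφ
    ((CfsgLib.Alperin.range_conjHom P g).trans hg)
  have hPE := CfsgLib.Alperin.le_extender hφ
  refine ⟨g' * g⁻¹, fun q hq => ?_, ?_⟩
  · have hq' : q ∈ P.map (MulAut.conj g).toMonoidHom := hg.symm ▸ hq
    obtain ⟨x, hx, rfl⟩ := hq'
    have h : g' * x * g'⁻¹ = g * x * g⁻¹ :=
      (hg' ⟨x, hPE hx⟩).symm.trans (hext x hx _)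
    simp only [MulEquiv.coe_toMonoidHom, MulAut.conj_apply]
    rw [← h]
    nth_rw 2 [h]
    group
  · rintro _ ⟨x, ⟨hxN, hxC⟩, rfl⟩
    have hxC' : g * x * g⁻¹ ∈ ((normalizerIn (S : Subgroup G) Q ⊔
        Subgroup.centralizer (Q : Set G) : Subgroup G) : Set G) := hxC
    rw [Subgroup.coe_mul_of_left_le_normalizer_right] at hxC'
    · obtain ⟨n, hn', c, hc, hnc⟩ := Set.mem_mul.mp hxC'
      have hxE : x ∈ extender (S : Subgroup G) P (conjHom P g) := by
        refine CfsgLib.Alperin.mem_extender_iff.mpr ⟨hxN.1, hxN.2, n, hn'.1, fun y hy => ?_⟩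
        show g * (x * y * x⁻¹) * g⁻¹ = n * (g * y * g⁻¹) * n⁻¹
        have hc' : c * (g * y * g⁻¹) * c⁻¹ = g * y * g⁻¹ := by
          rw [← hc _ (hgQ y y.2), mul_inv_cancel_right]
        calc g * (x * y * x⁻¹) * g⁻¹ = (g * x * g⁻¹) * (g * y * g⁻¹) * (g * x * g⁻¹)⁻¹ := by group
          _ = n * (c * (g * y * g⁻¹) * c⁻¹) * n⁻¹ := by rw [← hnc]; group
          _ = _ := by rw [hc']
      have := hψS ⟨x, hxE⟩
      rw [hg'] at this
      simpa using this
    · intro n hn'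
      refine Subgroup.mem_normalizer_iff_map_conj_eq.mpr ?_
      exact (CfsgLib.FusionBasics.map_conj_centralizer n Q).trans
        (congrArg (fun T : Subgroup G => Subgroup.centralizer (T : Set G))
          (Subgroup.mem_normalizer_iff_map_conj_eq.mp hn'.2))

end Cfsg.Agent.S5123
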