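import Cfsg.Statements.S5139
import Cfsg.Agent.Lib.Alperin.SubgroupSystem
import Cfsg.Agent.Lib.Alperin.PPowerIndex

set_option autoImplicit false
open Cfsg Cfsg.FusionSystem

namespace Cfsg.Agent.S5139

/-- Let G be a finite group with Sylow p-subgroup S and O^p(G) the subgroup generated by the elements of order prime to p. Then the p-residual subsystem of the fusion system of G on S — the saturated subsystem of p-power index over the hyperfocal subgroup — is the fusion system of O^p(G) on S ∩ O^p(G): its maps are exactly the conjugation maps by elements of O^p(G) between subgroups of S ∩ O^p(G). -/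
theorem result {G : Type*} [Group G] [Finite G] (p : ℕ) [Fact p.Prime] (S : Sylow p G) (E : Cfsg.FusionSystem ((Cfsg.groupFusionSystem (S : Subgroup G)).hyperfocalSubgroup p)) (hE : (Cfsg.groupFusionSystem (S : Subgroup G)).IsPResidual p E) : ∃ h : (S : Subgroup G) ⊓ Cfsg.pResidual p G ≤ Cfsg.pResidual p G, ∀ P : Subgroup G, E.Hom P = (Cfsg.fusionSystemOfSubgroup (Cfsg.pResidual p G) ((S : Subgroup G) ⊓ Cfsg.pResidual p G) h).Hom P := by
  haveI := CfsgLib.FusionExamples.pResidual_normal p G
  have hhyp := CfsgLib.FusionBasics.hyperfocal_group S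
  refine ⟨inf_le_right, fun P => ?_⟩
  obtain ⟨hEs, hEi⟩ := hE
  revert E hEs hEi
  generalize hT : (groupFusionSystem (S : Subgroup G)).hyperfocalSubgroup p = T
  intro E hEs hEi
  obtain rfl : T = (S : Subgroup G) ⊓ pResidual p G := hT.symm.trans hhyp
  obtain ⟨R, hR⟩ := CfsgLib.Alperin.exists_sylow_inf_normal S (pResidual p G)
  refine CfsgLib.Alperin.hom_eq_of_hasPPowerIndexIn (F := groupFusionSystem (S : Subgroup G)) S.2
    inf_le_left hEs (CfsgLib.Alperin.fusionSystemOfSubgroup_isSaturated _ R hR) hEi ?_ P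
  refine ⟨?_, hhyp.le, fun Q hQ => ?_⟩
  · rintro Q φ ⟨hQ, hφ, g, -, hg⟩
    exact ⟨hQ.trans inf_le_left, fun x => (hφ x).1, g, hg⟩
  · refine (CfsgLib.FusionBasics.pResidual_autGroup_le (S : Subgroup G)
      (hQ.trans inf_le_left)).trans fun α hα => ?_
    obtain ⟨g, hg, hgx⟩ := CfsgLib.Alperin.mem_autInducedBy_iff.mp hα
    exact (CfsgLib.Alperin.mem_autGroup_iff _ hQ).mpr ⟨hQ, fun x => hQ (α x).2, g, hg, hgx⟩

end Cfsg.Agent.S5139
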