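import Cfsg.Statements.S5143
import Cfsg.Agent.Lib.FusionProduct.Unique
import Cfsg.Agent.Lib.FusionProduct.Residual

set_option autoImplicit false
open Cfsg

namespace Cfsg.Agent.S5143

/-- Let F be a saturated fusion system over a finite p-group S, E a normal subsystem over T, and R a subgroup with T ≤ R ≤ S. Then there is exactly one saturated subsystem D of F over R (exactly one family of map sets) whose p-residual subsystem is that of E: the hyperfocal subgroups of D and E coincide and the p-residual subsystems of D and of E have the same maps. -/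
theorem result {Ω : Type*} [Group Ω] {S : Subgroup Ω} [Finite S] (p : ℕ) [Fact p.Prime] (hS : IsPGroup p S) (F : Cfsg.FusionSystem S) (hF : F.IsSaturated p) {T : Subgroup Ω} (E : Cfsg.FusionSystem T) (hE : E.IsNormalIn F p) (R : Subgroup Ω) (hTR : T ≤ R) (hRS : R ≤ S) : ∃ D : Cfsg.FusionSystem R, (D.IsSaturated p ∧ D.IsSubsystemOf F ∧ D.hyperfocalSubgroup p = E.hyperfocalSubgroup p ∧ ∀ (D₁ : Cfsg.FusionSystem (D.hyperfocalSubgroup p)) (E₁ : Cfsg.FusionSystem (E.hyperfocalSubgroup p)), D.IsPResidual p D₁ → E.IsPResidual p E₁ → ∀ P : Subgroup Ω, D₁.Hom P = E₁.Hom P) ∧ ∀ D' : Cfsg.FusionSystem R, D'.IsSaturated p → D'.IsSubsystemOf F → D'.hyperfocalSubgroup p = E.hyperfocalSubgroup p → (∀ (D₁ : Cfsg.FusionSystem (D'.hyperfocalSubgroup p)) (E₁ : Cfsg.FusionSystem (E.hyperfocalSubgroup p)), D'.IsPResidual p D₁ → E.IsPResidual p E₁ → ∀ P : Subgroup Ω, D₁.Hom P = E₁.Hom P) → ∀ P : Subgroup Ω, D'.Hom P = D.Hom P := by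
  have h : CfsgLib.FusionProduct.Setup F E p := ⟨hS, hF, hE⟩
  have c : CfsgLib.FusionProduct.Ctx F E p R := ⟨h, hTR, hRS⟩
  haveI : Finite R := CfsgLib.Alperin.finite_of_le hRS
  haveI := h.finT
  have hRp : IsPGroup p R := CfsgLib.Alperin.isPGroup_of_le hS hRS
  have hDi := CfsgLib.FusionProduct.dSys_pPowerIndex c
  refine ⟨CfsgLib.FusionProduct.dSys c, ⟨CfsgLib.FusionProduct.dSys_isSaturated c,
    CfsgLib.FusionProduct.dSys_le_F c,
    (CfsgLib.FusionSub.hyperfocal_eq_of_pPowerIndex hRp hDi).symm,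
    fun D₁ E₁ hD₁ hE₁ => CfsgLib.FusionProduct.residual_hom_eq hRp hDi D₁ E₁ hD₁ hE₁⟩,
    fun D' hs' hsub' hhyp hres P => ?_⟩
  -- the residual of `E` is normal in `F` and has `p`-power index in both systems
  obtain ⟨E₁, hE₁s, hE₁i⟩ := CfsgLib.FusionBasics.PPower.exists_pPowerIndex h.isPT h.esat
    (CfsgLib.FusionSub.hyperfocal_le E p) le_rfl
  have hWR : E.hyperfocalSubgroup p ≤ R := (CfsgLib.FusionSub.hyperfocal_le E p).trans hTR
  have c₁ : CfsgLib.FusionProduct.Ctx F E₁ p R :=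
    ⟨⟨hS, hF, CfsgLib.FusionProduct.pResidual_isNormalIn h rfl hE₁s hE₁i⟩, hWR, hRS⟩
  have hE₁D : E₁.HasPPowerIndexIn (CfsgLib.FusionProduct.dSys c) p :=
    CfsgLib.FusionProduct.pPowerIndex_trans (CfsgLib.FusionSub.hyperfocal_le E p) hDi hE₁i
      (CfsgLib.FusionSub.hyperfocal_eq_of_pPowerIndex hRp hDi).ge
  obtain ⟨D₁, hD₁s, hD₁i⟩ := CfsgLib.FusionBasics.PPower.exists_pPowerIndex hRp hs'
    (CfsgLib.FusionSub.hyperfocal_le D' p) le_rfl
  have heq : ∀ Q, D₁.Hom Q = E₁.Hom Q := hres D₁ E₁ ⟨hD₁s, hD₁i⟩ ⟨hE₁s, hE₁i⟩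
  have hE₁D' : E₁.HasPPowerIndexIn D' p := by
    refine ⟨fun Q φ hφ => hD₁i.1 Q ((heq Q).ge hφ), hhyp.le, fun Q hQ => ?_⟩
    have haut : D₁.autGroup Q = E₁.autGroup Q := by
      simp only [Cfsg.FusionSystem.autGroup, heq]
    exact haut ▸ hD₁i.2.2 Q (hhyp.symm ▸ hQ)
  rw [CfsgLib.FusionProduct.eq_dSys c₁ hs' hsub' hE₁D',
    CfsgLib.FusionProduct.eq_dSys c₁ (CfsgLib.FusionProduct.dSys_isSaturated c)
      (CfsgLib.FusionProduct.dSys_le_F c) hE₁D]

end Cfsg.Agent.S5143
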