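import Cfsg.Statements.S5144
import Cfsg.Agent.Lib.Alperin.Theorem

set_option autoImplicit false
open Cfsg Cfsg.FusionSystem

namespace Cfsg.Agent.S5144

theorem isCentral_bot {Ω : Type*} [Group Ω] {S : Subgroup Ω} (F : FusionSystem S) : F.IsCentral ⊥ := by
  refine ⟨bot_le, fun P φ hφ => ⟨_, CfsgLib.Alperin.restrict_mem hφ (sup_le le_rfl bot_le),
    fun x => rfl, fun x => ?_⟩⟩
  have hx : (x : Ω) = 1 := Subgroup.mem_bot.mp x.2
  rw [hx, show (Subgroup.inclusion (le_sup_right : (⊥ : Subgroup Ω) ≤ P ⊔ ⊥) x) = 1 from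
    Subtype.ext hx, map_one]

theorem isCentral_sup {Ω : Type*} [Group Ω] {S : Subgroup Ω} {F : FusionSystem S}
    {Q₁ Q₂ : Subgroup Ω} (h₁ : F.IsCentral Q₁) (h₂ : F.IsCentral Q₂) : F.IsCentral (Q₁ ⊔ Q₂) := by
  refine ⟨sup_le h₁.1 h₂.1, fun P φ hφ => ?_⟩
  obtain ⟨ψ₁, hψ₁, hP₁, hQ₁⟩ := h₁.2 P φ hφ
  obtain ⟨ψ₂, hψ₂, hP₂, hQ₂⟩ := h₂.2 (P ⊔ Q₁) ψ₁ hψ₁
  let ψ : ↥(P ⊔ (Q₁ ⊔ Q₂)) →* Ω := ψ₂.comp (Subgroup.inclusion (sup_assoc P Q₁ Q₂).ge)
  refine ⟨ψ, CfsgLib.Alperin.restrict_mem hψ₂ _, fun x => ?_, fun x => ?_⟩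
  · exact (hP₂ (Subgroup.inclusion le_sup_left x)).trans (hP₁ x)
  · have hle : Q₁ ⊔ Q₂ ≤ ((ψ.eqLocus (Subgroup.subtype _)).map (Subgroup.subtype _)) := by
      refine sup_le (fun q hq => ?_) (fun q hq => ?_)
      · refine ⟨⟨q, (le_sup_left.trans le_sup_right : Q₁ ≤ P ⊔ (Q₁ ⊔ Q₂)) hq⟩, ?_, rfl⟩
        exact (hP₂ (Subgroup.inclusion le_sup_right ⟨q, hq⟩)).trans (hQ₁ ⟨q, hq⟩)
      · refine ⟨⟨q, (le_sup_right.trans le_sup_right : Q₂ ≤ P ⊔ (Q₁ ⊔ Q₂)) hq⟩, ?_, rfl⟩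
        exact hQ₂ ⟨q, hq⟩
    obtain ⟨y, hy, hyx⟩ := hle x.2
    have : y = Subgroup.inclusion le_sup_right x := Subtype.ext hyx
    rw [← this]
    exact hy.trans hyx

/-- For a fusion system over a finite subgroup S, the centre of the system (the join of all subgroups central in it) is itself central in the system, hence its largest central subgroup. -/
theorem result {Ω : Type*} [Group Ω] {S : Subgroup Ω} [Finite S] (F : Cfsg.FusionSystem S) : F.IsCentral F.center := by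
  have hfin : {Q : Subgroup Ω | F.IsCentral Q}.Finite := by
    haveI : Finite (Subgroup S) := inferInstance
    refine (Set.finite_range (fun T : Subgroup S => T.map S.subtype)).subset fun Q hQ => ?_
    exact ⟨Q.subgroupOf S, Subgroup.map_subgroupOf_eq_of_le hQ.1⟩
  obtain ⟨Q, hQ, hmax⟩ := hfin.exists_maximal ⟨⊥, isCentral_bot F⟩
  have hall : ∀ R, F.IsCentral R → R ≤ Q := fun R hR =>
    le_sup_right.trans (hmax (isCentral_sup hQ hR) le_sup_left)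
  have : F.center = Q := le_antisymm (sSup_le hall) (le_sSup hQ)
  exact this.symm ▸ hQ

end Cfsg.Agent.S5144
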