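import Cfsg.Statements.S5147
import Cfsg.Agent.Lib.Alperin.GroupConstrained

set_option autoImplicit false
open Cfsg Cfsg.FusionSystem

namespace Cfsg.Agent.S5147

/-- Let G be a finite group with Sylow 2-subgroup S whose 2-fusion system on S is constrained, and L a component of G (a subnormal quasisimple subgroup). Then the 2-fusion system of L/Z(L) on the image of S ∩ L is constrained. -/
theorem result {G : Type*} [Group G] [Finite G] (S : Sylow 2 G) (hF : (Cfsg.groupFusionSystem (S : Subgroup G)).IsConstrained 2) (L : Subgroup G) (hL : Cfsg.IsComponent L) : (Cfsg.groupFusionSystem (((S : Subgroup G).subgroupOf L).map (QuotientGroup.mk' (Subgroup.center L)))).IsConstrained 2 := by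
  obtain ⟨⟨T, hT⟩, hc⟩ := CfsgLib.Alperin.group_isConstrained_of_subnormal S hF hL.1
  rw [← hT] at hc ⊢
  exact CfsgLib.Alperin.group_isConstrained_of_central_quotient T hc _
    (QuotientGroup.mk'_surjective _) (by rw [QuotientGroup.ker_mk'])

end Cfsg.Agent.S5147
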