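import Cfsg.Statements.S5163
import Cfsg.Agent.S5160
import Cfsg.Agent.Lib.InvChar.PSLUnitriangular
import Cfsg.Agent.Lib.PSolvable.FrattiniFacts

set_option autoImplicit false
open Cfsg

namespace Cfsg.Agent.S5163
open Cfsg.FusionSystem CfsgLib.Alperin CfsgLib.InvChar.PSLUnitriangular CfsgLib.ReflectionsSpinor.PSL

variable {K : Type*} [Field K] [Fintype K] {n : ℕ}

/-- A strongly closed subgroup absorbs conjugates lying in `S`. -/
theorem mem_of_closed {G : Type*} [Group G] {S T : Subgroup G}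
    (hT : (Cfsg.groupFusionSystem S).StronglyClosed T) {x : G} (hx : x ∈ T) (g : G) (h : g * x * g⁻¹ ∈ S) :
    g * x * g⁻¹ ∈ T := by
  refine hT.2 (Subgroup.zpowers x) ((Subgroup.zpowers_le).2 hx) _
    (CfsgLib.FusionBasics.conjHom_mem_group g ((Subgroup.zpowers_le).2 (hT.1 hx)) fun y hy => ?_)
    ⟨x, Subgroup.mem_zpowers x⟩
  obtain ⟨k, rfl⟩ := Subgroup.mem_zpowers_iff.1 hy
  rw [← conj_zpow]
  exact zpow_mem h k

section

variable (p : ℕ) [Fact p.Prime] [CharP K p]
  (φ : MulAut (Matrix.ProjectiveSpecialLinearGroup (Fin n) K)) (S : Sylow p (Matrix.ProjectiveSpecialLinearGroup (Fin n) K))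
  (hS : (S : Subgroup (Matrix.ProjectiveSpecialLinearGroup (Fin n) K)) = (upperUni n K).map (φ.toMonoidHom.comp (QuotientGroup.mk' _)))
include hS

/-- The projection in the coordinates of `S`. -/
abbrev proj : Matrix.SpecialLinearGroup (Fin n) K →* Matrix.ProjectiveSpecialLinearGroup (Fin n) K :=
  φ.toMonoidHom.comp (QuotientGroup.mk' _)

theorem proj_mem {u : Matrix.SpecialLinearGroup (Fin n) K} (hu : u ∈ upperUni n K) :
    proj φ u ∈ (S : Subgroup (Matrix.ProjectiveSpecialLinearGroup (Fin n) K)) := hS ▸ ⟨u, hu, rfl⟩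

theorem exists_pow_eq_one {u : Matrix.SpecialLinearGroup (Fin n) K} (hu : u ∈ upperUni n K) :
    ∃ m, u ^ p ^ m = 1 := by
  obtain ⟨f, -, hf⟩ := CfsgLib.ClassicalLinear.card_field_eq_pow (F := K) p
  have hU : IsPGroup p (upperUni n K) := IsPGroup.of_card (n := f * (n * (n - 1) / 2))
    (by rw [card_upperUni, Nat.card_eq_fintype_card, hf, pow_mul])
  obtain ⟨m, hm⟩ := hU ⟨u, hu⟩
  exact ⟨m, congrArg Subtype.val hm⟩

theorem proj_eq {a b : Matrix.SpecialLinearGroup (Fin n) K} :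
    proj φ a = proj φ b ↔ ∃ c : K, (b : Matrix (Fin n) (Fin n) K) = c • (a : Matrix (Fin n) (Fin n) K) := by
  rw [← cl_eq_cl_iff]
  exact ⟨fun h => φ.injective h, fun h => congrArg φ h⟩

/-- Commuting images of `p`-elements commute. -/
theorem commute_of_proj [NeZero n] {s r : Matrix.SpecialLinearGroup (Fin n) K} {m : ℕ} (hr : r ^ p ^ m = 1)
    (h : Commute (proj φ s) (proj φ r)) : s * r = r * s := by
  have h' : proj φ (s * r * s⁻¹) = proj φ r := by
    rw [map_mul, map_mul, map_inv, h.eq, mul_inv_cancel_right]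
  obtain ⟨c, hc⟩ := (proj_eq p φ S hS).1 h'
  have hc1 : c = 1 := by
    have h1 := congrArg (· ^ p ^ m) hc
    simp only [smul_pow, ← Matrix.SpecialLinearGroup.coe_pow, conj_pow, hr, mul_one, mul_inv_cancel,
      Matrix.SpecialLinearGroup.coe_one] at h1
    have h2 := congrFun (congrFun h1 0) 0
    simp at h2
    have h3 : (c - 1) ^ p ^ m = 0 := by rw [sub_pow_char_pow, one_pow, ← h2, sub_self]
    exact sub_eq_zero.1 (pow_eq_zero_iff (pow_ne_zero m (Fact.out : p.Prime).ne_zero) |>.1 h3)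
  rw [hc1, one_smul] at hc
  have : s * r * s⁻¹ = r := (Subtype.ext hc).symm
  rwa [mul_inv_eq_iff_eq_mul] at this

theorem stronglyClosed_eq_bot_or_eq (hn : 3 ≤ n) (T : Subgroup (Matrix.ProjectiveSpecialLinearGroup (Fin n) K))
    (hT : (Cfsg.groupFusionSystem (S : Subgroup (Matrix.ProjectiveSpecialLinearGroup (Fin n) K))).StronglyClosed T) : T = ⊥ ∨ T = (S : Subgroup (Matrix.ProjectiveSpecialLinearGroup (Fin n) K)) := by
  haveI : NeZero n := ⟨by omega⟩
  by_cases hbot : T = ⊥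
  · exact Or.inl hbot
  refine Or.inr (le_antisymm hT.1 ?_)
  set S' : Subgroup (Matrix.ProjectiveSpecialLinearGroup (Fin n) K) := (S : Subgroup (Matrix.ProjectiveSpecialLinearGroup (Fin n) K))
  haveI : (T.subgroupOf S').Normal := ⟨fun x hx g => mem_of_closed hT hx (g : Matrix.ProjectiveSpecialLinearGroup (Fin n) K)
    (g * x * g⁻¹).2⟩
  haveI : Group.IsNilpotent S' := S.isPGroup'.isNilpotent
  have hne : T.subgroupOf S' ≠ ⊥ := fun h => hbot (by
    rw [← Subgroup.map_subgroupOf_eq_of_le hT.1, h, Subgroup.map_bot])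
  obtain ⟨z, hz, hz1⟩ := Subgroup.ne_bot_iff_exists_ne_one.1 (CfsgLib.PSolvable.inf_center_ne_bot hne) |> fun ⟨z, hz⟩ =>
    (⟨z.1, z.2, fun h => hz (Subtype.ext h)⟩ : ∃ z : S', z ∈ T.subgroupOf S' ⊓ Subgroup.center S' ∧ z ≠ 1)
  let i₀ : Fin n := ⟨0, by omega⟩
  let l : Fin n := ⟨n - 1, by omega⟩
  have hil : i₀ ≠ l := fun h => by simp [i₀, l, Fin.ext_iff] at h; omega
  obtain ⟨u, hu, hzu⟩ : (z : Matrix.ProjectiveSpecialLinearGroup (Fin n) K) ∈ (upperUni n K).map (proj φ) := hS ▸ z.2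
  have hcen : cl u ∈ rootSet (e i₀) (e l) := by
    rw [← center_upperUni (by omega) i₀ l rfl rfl]
    refine ⟨⟨u, hu, rfl⟩, ?_⟩
    rintro _ ⟨w, hw, rfl⟩
    apply φ.injective
    rw [map_mul, map_mul]
    have h := congrArg Subtype.val (Subgroup.mem_center_iff.1 hz.2 ⟨proj φ w, proj_mem p φ S hS hw⟩)
    simp only [Subgroup.coe_mul, ← hzu] at h
    exact h.symm
  obtain ⟨t, ht⟩ := (mem_rootSet (e_dot hil)).1 hcen
  rw [el_e hil] at ht
  have hz' : (z : Matrix.ProjectiveSpecialLinearGroup (Fin n) K) = proj φ (tr hil t) := by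
    rw [← hzu]; exact congrArg φ ht
  have ht0 : t ≠ 0 := fun h => hz1 (Subtype.ext (by rw [hz', h, tr_zero, map_one]; rfl))
  have hzT : proj φ (tr hil t) ∈ T := hz' ▸ hz.1
  have htr : ∀ {j k : Fin n} (h : j < k) (c : K), proj φ (tr h.ne c) ∈ T := by
    intro j k h c
    by_cases hc : c = 0
    · rw [hc, tr_zero, map_one]; exact one_mem _
    obtain ⟨g, hg⟩ := exists_conj_tr hn hil h.ne ht0 hc
    rw [← hg, map_mul, map_mul, map_inv]
    refine mem_of_closed hT hzT _ ?_
    rw [← map_inv, ← map_mul, ← map_mul, hg]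
    exact proj_mem p φ S hS (tr_mem h c)
  have hle : upperUni n K ≤ T.comap (proj φ) := fun s hs => by
    refine (Subgroup.closure_le _).2 ?_ (mem_closure_tr hs)
    rintro _ ⟨j, k, h, c, rfl⟩
    exact htr h c
  rw [hS]
  exact Subgroup.map_le_iff_le_comap.2 hle

theorem rad_centric (hn : 3 ≤ n) {i j : Fin n} (hij : (j : ℕ) = i + 1) :
    (Cfsg.groupFusionSystem (S : Subgroup (Matrix.ProjectiveSpecialLinearGroup (Fin n) K))).IsCentric ((rad i j hij).map (proj φ)) := by
  haveI : NeZero n := ⟨by omega⟩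
  refine ⟨hS ▸ Subgroup.map_mono fun s hs => hs.1, ?_⟩
  rintro Q ⟨ψ, ⟨-, -, g, hg⟩, rfl⟩ c ⟨hcS, hcQ⟩
  set c' := g⁻¹ * c * g with hc'
  have hcomm : ∀ r ∈ rad i j hij, Commute c' (proj φ r) := by
    intro r hr
    have h := Subgroup.mem_centralizer_iff.1 hcQ _ ⟨⟨proj φ r, r, hr, rfl⟩, rfl⟩
    simp only [hg] at h
    show g⁻¹ * c * g * proj φ r = proj φ r * (g⁻¹ * c * g)
    calc g⁻¹ * c * g * proj φ r = g⁻¹ * (c * (g * proj φ r * g⁻¹)) * g := by group
      _ = g⁻¹ * (g * proj φ r * g⁻¹ * c) * g := by rw [h]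
      _ = _ := by group
  obtain ⟨k, hk⟩ := (QuotientGroup.mk'_surjective (Subgroup.center (Matrix.SpecialLinearGroup (Fin n) K))) (φ.symm g)
  obtain ⟨u, hu, hcu⟩ : c ∈ (upperUni n K).map (proj φ) := hS ▸ hcS
  have hk' : proj φ k = g := by
    show φ (QuotientGroup.mk' _ k) = g
    rw [hk]; exact φ.apply_symm_apply g
  obtain ⟨m, hm⟩ := exists_pow_eq_one p φ S hS hu
  have hs' : proj φ (k⁻¹ * u * k) = c' := by rw [map_mul, map_mul, map_inv, hk', hcu]
  have hsm : (k⁻¹ * u * k) ^ p ^ m = 1 := by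
    have := conj_pow (i := p ^ m) (a := k⁻¹) (b := u)
    rw [inv_inv] at this
    rw [this, hm, mul_one, inv_mul_cancel]
  have hin : k⁻¹ * u * k ∈ rad i j hij := by
    refine mem_rad_of_commute hij hn hsm fun r hr => ?_
    obtain ⟨m', hm'⟩ := exists_pow_eq_one p φ S hS hr.1
    exact commute_of_proj p φ S hS hm' (hs' ▸ hcomm r hr)
  refine ⟨⟨c', ⟨_, hin, hs'⟩⟩, ?_⟩
  rw [hg]
  simp only [hc']
  group

theorem simple_of_coordinates (hn : 3 ≤ n) : (Cfsg.groupFusionSystem (S : Subgroup (Matrix.ProjectiveSpecialLinearGroup (Fin n) K))).IsSimple p := by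
  haveI : NeZero n := ⟨by omega⟩
  have hF : (Cfsg.groupFusionSystem (S : Subgroup (Matrix.ProjectiveSpecialLinearGroup (Fin n) K))).IsSaturated p := CfsgLib.FusionBasics.group_isSaturated S
  have hS1 : (S : Subgroup (Matrix.ProjectiveSpecialLinearGroup (Fin n) K)) ≠ ⊥ := by
    intro h
    let i₀ : Fin n := ⟨0, by omega⟩
    let l : Fin n := ⟨n - 1, by omega⟩
    have hlt : i₀ < l := Fin.lt_def.2 (by simp only [i₀, l]; omega)
    have h1 := proj_mem p φ S hS (tr_mem hlt (1 : K))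
    rw [h, Subgroup.mem_bot, ← map_one (proj φ), proj_eq p φ S hS] at h1
    obtain ⟨c, hc⟩ := h1
    have h2 := congrFun (congrFun hc i₀) l
    rw [Matrix.SpecialLinearGroup.coe_one, Matrix.smul_apply, tr_apply, if_neg hlt.ne,
      if_pos ⟨rfl, rfl⟩, Matrix.one_apply_ne hlt.ne, zero_add, smul_eq_mul, mul_one] at h2
    have h3 := congrFun (congrFun hc i₀) i₀
    rw [Matrix.SpecialLinearGroup.coe_one, Matrix.smul_apply, tr_apply, if_pos rfl,
      if_neg (fun h => hlt.ne' h.2), Matrix.one_apply_eq, add_zero, smul_eq_mul, mul_one] at h3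
    exact one_ne_zero (h3.trans h2.symm)
  refine ⟨hF, hS1, fun T E hE => ?_⟩
  rcases stronglyClosed_eq_bot_or_eq p φ S hS hn T hE.1.2.2.2.1 with rfl | rfl
  · exact Or.inl rfl
  refine Or.inr ⟨rfl, fun P => Set.Subset.antisymm (hE.1.2.2.1 P) fun f hf => ?_⟩
  have hinv := hE.1.2.2
  set J := ((E.autGroup (S : Subgroup (Matrix.ProjectiveSpecialLinearGroup (Fin n) K))).comap (S : Subgroup (Matrix.ProjectiveSpecialLinearGroup (Fin n) K)).normalizerMonoidHom).map
    (Subgroup.normalizer ((S : Subgroup (Matrix.ProjectiveSpecialLinearGroup (Fin n) K)) : Set (Matrix.ProjectiveSpecialLinearGroup (Fin n) K))).subtype with hJ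
  have hgen : ∀ t, ∀ (hN : t ∈ Subgroup.normalizer ((S : Subgroup (Matrix.ProjectiveSpecialLinearGroup (Fin n) K)) : Set (Matrix.ProjectiveSpecialLinearGroup (Fin n) K))),
      ∀ R, (Cfsg.groupFusionSystem (S : Subgroup (Matrix.ProjectiveSpecialLinearGroup (Fin n) K))).IsCentric R →
      (Cfsg.groupFusionSystem (S : Subgroup (Matrix.ProjectiveSpecialLinearGroup (Fin n) K))).IsFullyNormalized R →
      t ∈ Subgroup.closure {g | g ∈ Subgroup.normalizer (R : Set (Matrix.ProjectiveSpecialLinearGroup (Fin n) K)) ∧ ∃ k : ℕ, orderOf g = p ^ k} → t ∈ J := by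
    intro t hN R hRc hRn ht
    obtain ⟨htN, htE⟩ := Cfsg.Agent.S5160.pElements_mem S hinv hRn ht
    have h := Cfsg.Agent.S5160.lift_top S hE.1.1 hE.1.2.2.1 hN R hRc htN
      (mem_of_apply_eq ((mem_autGroup_iff E hRc.1).mp htE) fun x => rfl)
    exact ⟨⟨t, hN⟩, (mem_autGroup_iff E le_rfl).mpr (mem_of_apply_eq h fun x => rfl), rfl⟩
  have hU : ∀ u ∈ upperUni n K, proj φ u ∈ J := by
    intro u hu
    have hmem := proj_mem p φ S hS hu
    exact ⟨⟨_, Subgroup.le_normalizer hmem⟩, autInducedBy_le_autGroup E le_rfl (conjAut_mem hmem _), rfl⟩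
  have hmemN : ∀ {H : Subgroup (Matrix.SpecialLinearGroup (Fin n) K)} {s : Matrix.SpecialLinearGroup (Fin n) K},
      (∀ r ∈ H, s * r * s⁻¹ ∈ H) → proj φ s ∈ Subgroup.normalizer ((H.map (proj φ) : Subgroup (Matrix.ProjectiveSpecialLinearGroup (Fin n) K)) : Set (Matrix.ProjectiveSpecialLinearGroup (Fin n) K)) := by
    intro H s h
    refine mem_normalizer_of_conj_mem ?_
    rintro _ ⟨r, hr, rfl⟩
    exact ⟨_, h r hr, by rw [map_mul, map_mul, map_inv]⟩
  have hdgU : ∀ (d : Fin n → K) (hd : ∏ k, d k = 1), ∀ r ∈ upperUni n K, dg d hd * r * (dg d hd)⁻¹ ∈ upperUni n K := by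
    intro d hd r hr
    refine ((Subgroup.closure_le ((upperUni n K).comap (MulAut.conj (dg d hd)).toMonoidHom)).2 ?_ (mem_closure_tr hr) :)
    rintro _ ⟨a, b, hab, c, rfl⟩
    by_cases h : ∃ i j : Fin n, (j : ℕ) = i + 1 ∧ ¬ (a = i ∧ b = j)
    · obtain ⟨i, j, hij, hne⟩ := h
      exact (conj_dg hij (tr_mem_rad hij hab hne c) d hd).1
    · exfalso
      push Not at h
      have e1 := h ⟨0, by omega⟩ ⟨1, by omega⟩ rfl
      have e2 := h ⟨1, by omega⟩ ⟨2, by omega⟩ rfl
      simp [e1.1, Fin.ext_iff] at e2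
  have hH : ∀ x, x ∈ {x : Matrix.SpecialLinearGroup (Fin n) K | ∃ (i j : Fin n) (c : K) (hij : i ≠ j) (hc : c ≠ 0),
      (j : ℕ) = i + 1 ∧ x = dg (hvec i j c) (prod_hvec hij hc)} → proj φ x ∈ J := by
    rintro _ ⟨i, j, c, hne, hc, hij, rfl⟩
    refine hgen _ ?_ _ (rad_centric p φ S hS hn hij) ?_ ?_
    · rw [hS]; exact hmemN (hdgU _ _)
    · refine ⟨(rad_centric p φ S hS hn hij).1, fun Q _ => ?_⟩
      have h1 : normalizerIn (S : Subgroup (Matrix.ProjectiveSpecialLinearGroup (Fin n) K)) ((rad i j hij).map (proj φ)) = (S : Subgroup (Matrix.ProjectiveSpecialLinearGroup (Fin n) K)) := by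
        refine le_antisymm inf_le_left (le_inf le_rfl ?_)
        conv_lhs => rw [hS]
        rintro _ ⟨s, hs, rfl⟩
        refine hmemN fun r hr => ?_
        have hconj : upperUni n K ≤ Subgroup.normalizer ((rad i j hij : Subgroup (Matrix.SpecialLinearGroup (Fin n) K)) : Set (Matrix.SpecialLinearGroup (Fin n) K)) := fun s hs => by
          refine (Subgroup.closure_le _).2 ?_ (mem_closure_tr hs)
          rintro _ ⟨a, b, hab, t, rfl⟩
          by_cases h : a = i ∧ b = j
          · obtain ⟨rfl, rfl⟩ := h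
            exact mem_normalizer_of_conj_mem fun r hr => conj_tr_upper hij hr t
          · exact Subgroup.le_normalizer (tr_mem_rad hij hab h t)
        exact (Subgroup.mem_normalizer_iff.1 (hconj hs) r).1 hr
      rw [h1]
      exact Subgroup.card_le_of_le inf_le_left
    · rw [hvec_eq hne hc, map_mul, map_mul, map_mul]
      have hx : ∀ t, proj φ (tr hne t) ∈ Subgroup.closure
          {g | g ∈ Subgroup.normalizer (((rad i j hij).map (proj φ) : Subgroup (Matrix.ProjectiveSpecialLinearGroup (Fin n) K)) : Set (Matrix.ProjectiveSpecialLinearGroup (Fin n) K)) ∧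
            ∃ k : ℕ, orderOf g = p ^ k} := fun t =>
        Subgroup.subset_closure ⟨hmemN fun r hr => conj_tr_upper hij hr t,
          exists_orderOf_eq (m := 1) (by rw [← map_pow, tr_pow_char, map_one])⟩
      have hy : ∀ t, proj φ (tr hne.symm t) ∈ Subgroup.closure
          {g | g ∈ Subgroup.normalizer (((rad i j hij).map (proj φ) : Subgroup (Matrix.ProjectiveSpecialLinearGroup (Fin n) K)) : Set (Matrix.ProjectiveSpecialLinearGroup (Fin n) K)) ∧
            ∃ k : ℕ, orderOf g = p ^ k} := fun t =>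
        Subgroup.subset_closure ⟨hmemN fun r hr => conj_tr_lower hij hr t,
          exists_orderOf_eq (m := 1) (by rw [← map_pow, tr_pow_char, map_one])⟩
      exact mul_mem (mul_mem (mul_mem (hy _) (hx _)) (hy _)) (hx _)
  have htop : (Cfsg.groupFusionSystem (S : Subgroup (Matrix.ProjectiveSpecialLinearGroup (Fin n) K))).autGroup (S : Subgroup (Matrix.ProjectiveSpecialLinearGroup (Fin n) K)) ≤
      E.autGroup (S : Subgroup (Matrix.ProjectiveSpecialLinearGroup (Fin n) K)) := by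
    rw [CfsgLib.FusionBasics.group_autGroup le_rfl]
    refine (Subgroup.closure_le _).mpr ?_
    rintro a ⟨g, -, hga⟩
    have hgN := normalizer_of_induced hga
    obtain ⟨k, hk⟩ := (QuotientGroup.mk'_surjective (Subgroup.center (Matrix.SpecialLinearGroup (Fin n) K))) (φ.symm g)
    have hk' : proj φ k = g := by
      show φ (QuotientGroup.mk' _ k) = g
      rw [hk]; exact φ.apply_symm_apply g
    have htri : (k : Matrix (Fin n) (Fin n) K).IsUpperTriangular := by
      refine triangular_of_conj fun x y hxy => ?_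
      have h1 : proj φ (k * tr hxy.ne 1 * k⁻¹) ∈ (S : Subgroup (Matrix.ProjectiveSpecialLinearGroup (Fin n) K)) := by
        rw [map_mul, map_mul, map_inv, hk']
        exact mem_normalizer_conj hgN (proj_mem p φ S hS (tr_mem hxy 1))
      rw [hS] at h1
      obtain ⟨w, hw, hwe⟩ := h1
      obtain ⟨c, hc⟩ := (proj_eq p φ S hS).1 hwe
      rw [hc]
      intro a b hab
      rw [Matrix.smul_apply, mem_upperUni.1 hw a b (le_of_lt hab), if_neg (show ¬ a = b from ne_of_gt hab), smul_zero]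
    obtain ⟨d, hd, u, hu, rfl⟩ := exists_dg_mul htri
    obtain ⟨⟨g', hg'⟩, hgE, hgg⟩ : g ∈ J := by
      rw [← hk', map_mul]
      refine mul_mem ?_ (hU u hu)
      exact ((Subgroup.closure_le (J.comap (proj φ))).2 hH) (mem_closure_hvec d hd)
    change g' = g at hgg
    subst hgg
    exact (mem_autGroup_iff E le_rfl).mpr
      (mem_of_apply_eq ((mem_autGroup_iff E le_rfl).mp hgE) fun x => hga x)
  have hP := dom_le hf
  obtain ⟨α, hα, f₀, hf₀, hx⟩ := hinv.2.2.2 P hP f hf
  have hm : ∀ x : P, f₀ x ∈ (S : Subgroup (Matrix.ProjectiveSpecialLinearGroup (Fin n) K)) := (E.le_of_mem hf₀).2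
  exact comp_mem_apply hf₀ ((mem_autGroup_iff E le_rfl).mp (htop hα)) hm fun x => hx x (hm x)

end

/-- For a finite field K of characteristic p and n ≥ 3, the p-fusion system of the projective special linear group PSL_n(K) on a Sylow p-subgroup is simple. -/
theorem result {K : Type*} [Field K] [Fintype K] (p : ℕ) [Fact p.Prime] [CharP K p] (n : ℕ) (hn : 3 ≤ n) (S : Sylow p (Matrix.ProjectiveSpecialLinearGroup (Fin n) K)) : (Cfsg.groupFusionSystem (S : Subgroup (Matrix.ProjectiveSpecialLinearGroup (Fin n) K))).IsSimple p := by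
  obtain ⟨P, hP⟩ := CfsgLib.ReflectionsSpinor.PSL.exists_sylow_image (n := n) (F := K) p
  obtain ⟨g, hg⟩ := MulAction.exists_smul_eq (Matrix.ProjectiveSpecialLinearGroup (Fin n) K) P S
  refine simple_of_coordinates p (MulAut.conj g) S ?_ hn
  rw [← hg, Sylow.coe_subgroup_smul, ← Subgroup.map_map]
  refine SetLike.coe_injective ?_
  rw [Subgroup.coe_map, Subgroup.coe_map]
  show (MulAut.conj g : _ → _) '' (P : Set _) = _
  rw [hP]
  rfl

end Cfsg.Agent.S5163
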