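import Cfsg.Statements.S5166
import Cfsg.Agent.Lib.FusionSub.MathieuM11
import Cfsg.Agent.Lib.OutMathieu.Outer
-- import your own Cfsg.Agent.* helpers here

set_option autoImplicit false
open Cfsg

namespace Cfsg.Agent.S5166

open CfsgLib.FusionSub.Mathieu

/-- The 2-fusion system of the Mathieu group M₁₁ (as the explicit permutation group carved out of the automorphism group of the binary Golay code) on a Sylow 2-subgroup is simple: saturated, over a nontrivial 2-group, with no normal subsystem other than the trivial one and itself. -/
theorem result (S : Sylow 2 Cfsg.Spor.M11) : (Cfsg.groupFusionSystem (S : Subgroup Cfsg.Spor.M11)).IsSimple 2 := by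
  have hK : Cfsg.Spor.M11 = CfsgLib.Golay.stabK certM11.sets := CfsgLib.OutMathieu.M11_eq_stabK
  exact CfsgLib.FusionSub.Mathieu.SylCert.isSimple certM11_els certM11_center certM11_closure certM11_norm (by decide) hK
    (m := 495) (by rw [hK]; exact CfsgLib.Golay.card_stabK_dodecad_point.trans (by decide)) (by decide) S

end Cfsg.Agent.S5166
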