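import Cfsg.Statements.S5170
import Cfsg.Agent.Lib.FusionSub.MathieuM24
import Cfsg.Agent.Lib.OutMathieu.Outer
-- import your own Cfsg.Agent.* helpers here

set_option autoImplicit false
open Cfsg

namespace Cfsg.Agent.S5170

open CfsgLib.FusionSub.Mathieu

/-- The 2-fusion system of the Mathieu group M₂₄ (as the explicit permutation group of the 24 points preserving the binary Golay code) on a Sylow 2-subgroup is simple: saturated, over a nontrivial 2-group, with no normal subsystem other than the trivial one and itself. -/
theorem result (S : Sylow 2 Cfsg.M24) : (Cfsg.groupFusionSystem (S : Subgroup Cfsg.M24)).IsSimple 2 := by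
  have hK : Cfsg.M24 = CfsgLib.Golay.stabK certM24.sets := CfsgLib.Golay.stabK_nil.symm
  exact CfsgLib.FusionSub.Mathieu.SylCert.isSimple certM24_els certM24_center certM24_closure certM24_norm (by decide) hK
    (m := 239085) (by rw [hK]; exact CfsgLib.Golay.natCard_M24.trans (by decide)) (by decide) S

end Cfsg.Agent.S5170
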