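import Cfsg.Statements.S5171
import Cfsg.Agent.Lib.FusionSub.SympNormalizer

set_option autoImplicit false
open Cfsg CfsgLib.FusionSub CfsgLib.FusionSub.Symp CfsgLib.ReflectionsSpinor.PSpAut

namespace Cfsg.Agent.S5171

/-- For a finite field K of characteristic p and m ≥ 2, excluding the case m = 2 with K of two elements, the p-fusion system of the projective symplectic group PSp_{2m}(K) on a Sylow p-subgroup is simple. -/
theorem result {K : Type*} [Field K] [Fintype K] (p : ℕ) [Fact p.Prime] [CharP K p] (m : ℕ) (hm : 2 ≤ m) (hex : m = 2 → 3 ≤ Fintype.card K) (S : Sylow p (Cfsg.PSp m K)) : (Cfsg.groupFusionSystem (S : Subgroup (Cfsg.PSp m K))).IsSimple p := by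
  classical
  obtain ⟨P, hP⟩ := exists_sylow_image (m := m) (F := K) p
  obtain ⟨g, hg⟩ := MulAction.exists_smul_eq (Cfsg.PSp m K) P S
  let π : Matrix.symplecticGroup (Fin m) K →* Cfsg.PSp m K :=
    (MulAut.conj g).toMonoidHom.comp (QuotientGroup.mk' (Subgroup.center (Matrix.symplecticGroup (Fin m) K)))
  have hπ : Function.Surjective π := (MulAut.conj g).surjective.comp (QuotientGroup.mk'_surjective _)
  have hker : π.ker = Subgroup.center (Matrix.symplecticGroup (Fin m) K) := by
    ext z
    show MulAut.conj g (QuotientGroup.mk' _ z) = 1 ↔ _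
    rw [map_eq_one_iff (MulAut.conj g) (MulAut.conj g).injective, QuotientGroup.mk'_apply, QuotientGroup.eq_one_iff]
  have hS : (S : Subgroup (Cfsg.PSp m K)) = (uniU m K).map π := by
    have hP' : (P : Subgroup (Cfsg.PSp m K)) =
        (uniU m K).map (QuotientGroup.mk' (Subgroup.center (Matrix.symplecticGroup (Fin m) K))) :=
      SetLike.coe_injective hP
    rw [← hg, Sylow.coe_subgroup_smul, hP', ← Subgroup.map_map]
    rfl
  obtain ⟨f, hf0, hf⟩ := CfsgLib.ClassicalLinear.card_field_eq_pow (F := K) p
  have hdvd : p ∣ Fintype.card K := hf ▸ dvd_pow_self p hf0.ne'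
  have hcop : ∀ z ∈ π.ker, z ∈ Subgroup.center (Matrix.symplecticGroup (Fin m) K) ∧ (orderOf z).Coprime p := by
    intro z hz
    rw [hker] at hz
    refine ⟨hz, Nat.Coprime.symm ((Fact.out : p.Prime).coprime_iff_not_dvd.2 fun hd => ?_)⟩
    have h1 : p ∣ Nat.gcd 2 (Fintype.card K - 1) := by
      rw [← CfsgLib.ClassicalLinear.card_center_sp (F := K) (m := m) (by omega)]
      exact hd.trans (Subgroup.orderOf_dvd_natCard _ hz)
    have h2 := Nat.dvd_sub hdvd (h1.trans (Nat.gcd_dvd_right _ _))
    rw [Nat.sub_sub_self (Fintype.card_pos)] at h2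
    exact (Fact.out : p.Prime).one_lt.ne' (Nat.dvd_one.1 h2)
  have h3 : 3 ≤ m ∨ ∃ μ : K, μ ≠ 0 ∧ μ ≠ 1 := by
    rcases Nat.lt_or_ge m 3 with h | h
    · refine Or.inr ?_
      have hlt : ({0, 1} : Finset K).card < (Finset.univ : Finset K).card := by
        rw [Finset.card_univ]
        exact lt_of_le_of_lt Finset.card_le_two (by have := hex (by omega); omega)
      obtain ⟨μ, -, hμ⟩ := Finset.exists_mem_notMem_of_card_lt_card hlt
      simp only [Finset.mem_insert, Finset.mem_singleton, not_or] at hμ
      exact ⟨μ, hμ⟩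
    · exact Or.inl h
  have hl : ∀ i : Fin m, i ≤ (⟨m - 1, by omega⟩ : Fin m) := fun i => by
    show i.val ≤ m - 1
    have := i.isLt
    omega
  refine isSimple_of_cover π hπ hcop (uniU m K) (isPGroup_uniU p) (uniU_ne_bot (by omega)) S hS
    (noStronglyClosed_uniU hm h3 (isPGroup_uniU p)) ![siegelRad m K, cornerRad hl] ?_ ?_ ?_ ?_ ?_
  · intro i
    fin_cases i
    · exact siegelRad_le
    · exact cornerRad_le hl
  · intro i
    fin_cases i
    · exact uniU_le_normalizer_siegelRad
    · exact uniU_le_normalizer_cornerRad hl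
  · rw [hker]
    intro i g
    fin_cases i
    · exact fun h => centralizer_siegelRad (by omega) h
    · exact fun h => centralizer_cornerRad hm hl h
  · intro i
    fin_cases i
    · exact exists_siegel_element
    · exact exists_corner_element hl
  · exact fun n hn => normalizer_generation p hl hn

end Cfsg.Agent.S5171
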