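import Cfsg.Statements.S5172
import Cfsg.Agent.Lib.InvChar.UnitaryFusion

set_option autoImplicit false
open Cfsg

namespace Cfsg.Agent.S5172

/-- For a finite field K with q² elements of characteristic p and n ≥ 4, the p-fusion system of the projective special unitary group PSU_n(q) (realised over K) on a Sylow p-subgroup is simple. -/
theorem result {K : Type*} [Field K] [Fintype K] (p q : ℕ) [Fact p.Prime] [CharP K p] (hK : Fintype.card K = q ^ 2) (n : ℕ) (hn : 4 ≤ n) (S : Sylow p (Cfsg.PSU n K q)) : (Cfsg.groupFusionSystem (S : Subgroup (Cfsg.PSU n K q))).IsSimple p := by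
  obtain ⟨S₀⟩ := CfsgLib.ClassicalAut.Unitary.exists_setup (F := K) (n := n) (q := q) hK (by omega) (by omega)
  haveI : Finite ↥(Cfsg.SU n K q) := inferInstance
  obtain ⟨P⟩ : Nonempty (Sylow p ↥(Cfsg.SU n K q)) := inferInstance
  obtain ⟨g, hg⟩ := MulAction.exists_smul_eq (Cfsg.PSU n K q)
    (P.mapSurjective (f := QuotientGroup.mk' (Subgroup.center (Cfsg.SU n K q))) (QuotientGroup.mk'_surjective _)) S
  obtain ⟨p', hp', hchar, hdvd⟩ := S₀.exists_char
  have hpp : p' = p := CharP.eq K hchar ‹CharP K p›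
  subst hpp
  refine CfsgLib.InvChar.UnitaryFusion.simple_of_coordinates S₀
    ((MulAut.conj g).toMonoidHom.comp (QuotientGroup.mk' (Subgroup.center (Cfsg.SU n K q))))
    ((MulAut.conj g).surjective.comp (QuotientGroup.mk'_surjective _))
    (fun a b => ⟨fun h => (MulAut.conj g).injective h, fun h => congrArg (MulAut.conj g) h⟩) P S ?_ hn hdvd
  rw [← hg, Sylow.coe_subgroup_smul, ← Subgroup.map_map]
  rfl

end Cfsg.Agent.S5172
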