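import Cfsg.Statements.S5345
import Cfsg.Agent.Lib.Fischer.Width

set_option autoImplicit false
open Cfsg

namespace Cfsg.Agent.S5345

/-- Let D be a conjugation-invariant generating set of 3-transpositions of a finite group G and T a Sylow 2-subgroup of G. Then the members of D lying in T generate an abelian subgroup, and their number is the width of D (the largest number of pairwise commuting members of D). -/
theorem result {G : Type*} [Group G] [Finite G] {D : Set G} (hD : Cfsg.IsThreeTranspositionGroup D) (T : Sylow 2 G) : IsMulCommutative (Subgroup.closure {d : G | d ∈ D ∧ d ∈ T}) ∧ {d : G | d ∈ D ∧ d ∈ T}.ncard = Cfsg.commutingWidth D := by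
  have hcomm : ∀ a ∈ {d : G | d ∈ D ∧ d ∈ T}, ∀ b ∈ {d : G | d ∈ D ∧ d ∈ T}, Commute a b :=
    fun a ha b hb => CfsgLib.Fischer.commute_of_isPGroup_two hD.1 T.isPGroup' ha.1 hb.1
      (mul_mem ha.2 hb.2)
  refine ⟨Subgroup.isMulCommutative_closure (fun a ha b hb => (hcomm a ha b hb).eq), le_antisymm
    (CfsgLib.Fischer.le_commutingWidth (fun a ha => ha.1) hcomm) ?_⟩
  obtain ⟨E, hE, hc, hn⟩ := CfsgLib.Fischer.exists_width_set D
  rw [← hn]
  have hP : IsPGroup 2 (Subgroup.closure E) := by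
    intro z
    refine ⟨1, Subtype.ext ?_⟩
    show (z : G) ^ (2 ^ 1) = 1
    rw [pow_one]
    have key : ∀ z ∈ Subgroup.closure E, z ^ 2 = 1 ∧ ∀ y, (∀ e ∈ E, Commute e y) → Commute z y := by
      intro z hz
      induction hz using Subgroup.closure_induction with
      | mem z hz => exact ⟨by rw [pow_two, CfsgLib.Fischer.sq_eq_one hD.1 (hE hz)], fun y hy => hy z hz⟩
      | one => exact ⟨one_pow _, fun y _ => Commute.one_left y⟩
      | mul a b _ _ ha hb =>
        refine ⟨?_, fun y hy => (ha.2 y hy).mul_left (hb.2 y hy)⟩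
        rw [(ha.2 b fun e he => (hb.2 e fun f hf => hc f hf e he).symm).mul_pow, ha.1, hb.1, one_mul]
      | inv a _ ha => exact ⟨by rw [inv_pow, ha.1, inv_one], fun y hy => (ha.2 y hy).inv_left⟩
    exact (key _ z.2).1
  obtain ⟨Q, hQ⟩ := hP.exists_le_sylow
  obtain ⟨g, rfl⟩ := MulAction.exists_smul_eq G T Q
  have hsub : E ⊆ (fun x => g * x * g⁻¹) '' {d : G | d ∈ D ∧ d ∈ T} := by
    intro e he
    have h1 : e ∈ ((g • T : Sylow 2 G) : Subgroup G) := hQ (Subgroup.subset_closure he)
    rw [Sylow.coe_subgroup_smul, Subgroup.mem_pointwise_smul_iff_inv_smul_mem] at h1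
    simp only [MulAut.smul_def] at h1
    refine ⟨g⁻¹ * e * g⁻¹⁻¹, ⟨hD.2.1 g⁻¹ e (hE he), ?_⟩, by group⟩
    have h2 : g⁻¹ * e * g ∈ (T : Subgroup G) := by simpa using h1
    rw [inv_inv]
    exact h2
  exact (Set.ncard_le_ncard hsub (Set.toFinite _)).trans (Set.ncard_image_le (Set.toFinite _))

end Cfsg.Agent.S5345
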