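import Cfsg.Statements.S5346
import Cfsg.Agent.Lib.Fischer.Width

set_option autoImplicit false
open Cfsg

namespace Cfsg.Agent.S5346

/-- Let D be a conjugation-invariant generating set of 3-transpositions of a finite group G and d a member of D. Then D has width 1 (no two different members of D commute) if and only if G is the product of the subgroup generated by d with the largest normal 3-subgroup of G. -/
theorem result {G : Type*} [Group G] [Finite G] {D : Set G} (hD : Cfsg.IsThreeTranspositionGroup D) {d : G} (hd : d ∈ D) : Cfsg.commutingWidth D = 1 ↔ Subgroup.zpowers d ⊔ Cfsg.pCore 3 G = ⊤ := by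
  rw [CfsgLib.Fischer.commutingWidth_eq_one_iff hd]
  refine ⟨fun hw => CfsgLib.Fischer.zpowers_sup_pCore_of_width_one hD hw hd, fun h => ?_⟩
  haveI := CfsgLib.Cores.pCore_characteristic 3 G
  let π := QuotientGroup.mk' (Cfsg.pCore 3 G)
  have hP := CfsgLib.Cores.isPGroup_pCore 3 G
  have him : ∀ a ∈ D, π a = π d := by
    intro a ha
    have hmem : π a ∈ Subgroup.zpowers (π d) := by
      have : a ∈ Subgroup.zpowers d ⊔ Cfsg.pCore 3 G := h ▸ Subgroup.mem_top a
      have h2 : π a ∈ (Subgroup.zpowers d ⊔ Cfsg.pCore 3 G).map π := ⟨a, this, rfl⟩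
      rw [Subgroup.map_sup, MonoidHom.map_zpowers, sup_eq_left.2] at h2
      · exact h2
      · rintro _ ⟨y, hy, rfl⟩
        rw [show π y = 1 from (QuotientGroup.eq_one_iff y).2 hy]
        exact one_mem _
    have hd2 : π d ^ (2 : ℤ) = 1 := by
      rw [show (2 : ℤ) = ((2 : ℕ) : ℤ) from rfl, zpow_natCast, ← map_pow, pow_two,
        CfsgLib.Fischer.sq_eq_one hD.1 hd, map_one]
    obtain ⟨k, hk⟩ := hmem
    have hk' : π d ^ k = π a := hk
    rcases Int.even_or_odd' k with ⟨m, rfl | rfl⟩
    · rw [zpow_mul, hd2, one_zpow] at hk'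
      have h1 : a ∈ Cfsg.pCore 3 G := (QuotientGroup.eq_one_iff a).1 hk'.symm
      obtain ⟨j, hj⟩ := hP ⟨a, h1⟩
      have h3 := orderOf_dvd_of_pow_eq_one (congrArg Subtype.val hj : a ^ (3 ^ j) = 1)
      rw [hD.1.1 a ha] at h3
      have := Nat.prime_two.dvd_of_dvd_pow h3
      omega
    · rw [zpow_add, zpow_mul, hd2, one_zpow, one_mul, zpow_one] at hk'
      exact hk'.symm
  intro a ha b hb hab
  refine CfsgLib.Fischer.eq_of_isPGroup_three hD.1 hP ha hb ?_ hab
  rw [← QuotientGroup.eq_one_iff]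
  show π (a * b) = 1
  rw [map_mul, him a ha, him b hb, ← map_mul, CfsgLib.Fischer.sq_eq_one hD.1 hd, map_one]

end Cfsg.Agent.S5346
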