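import Cfsg.Statements.S5348
import Cfsg.Agent.Lib.Fischer.Classes

set_option autoImplicit false
open Cfsg

namespace Cfsg.Agent.S5348

/-- Let D be a conjugation-invariant generating set of 3-transpositions of a finite group G and d a member of D. Let V be the set of members of D commuting with exactly the same members of D as d, and W the set of members w of D such that the members of D other than w commuting with w are precisely the members of D other than d commuting with d. Then V = {d} or W = {d}. -/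
theorem result {G : Type*} [Group G] [Finite G] {D : Set G} (hD : Cfsg.IsThreeTranspositionGroup D) {d : G} (hd : d ∈ D) : {v : G | v ∈ D ∧ ∀ e ∈ D, Commute v e ↔ Commute d e} = {d} ∨ {w : G | w ∈ D ∧ {y : G | y ∈ D ∧ y ≠ d ∧ Commute d y} = {y : G | y ∈ D ∧ y ≠ w ∧ Commute w y}} = {d} := by
  by_contra hcon
  rw [not_or] at hcon
  obtain ⟨h1, h2⟩ := hcon
  have e1 : ∃ v, CfsgLib.Fischer.SameV D d v ∧ v ≠ d := by
    by_contra h
    refine h1 (Set.eq_singleton_iff_unique_mem.2
      ⟨⟨hd, fun _ _ => Iff.rfl⟩, fun v hv => ?_⟩)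
    by_contra hne
    exact h ⟨v, hv, hne⟩
  have e2 : ∃ w, CfsgLib.Fischer.SameW D d w ∧ w ≠ d := by
    by_contra h
    refine h2 (Set.eq_singleton_iff_unique_mem.2 ⟨⟨hd, rfl⟩, fun v hv => ?_⟩)
    by_contra hne
    exact h ⟨v, hv, hne⟩
  obtain ⟨v, hv, hvd⟩ := e1
  obtain ⟨w, hw, hwd⟩ := e2
  have hnc : ¬ Commute d w := fun c => hwd (hw.eq_of_commute c)
  have hvw : v ≠ w := fun e => hnc (e ▸ hv.commute)
  have h3 : Commute w v := (hw.commute_iff hv.1 hvd hvw).2 hv.commute
  exact hnc ((hv.2 w hw.1).1 h3.symm)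

end Cfsg.Agent.S5348
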