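import Cfsg.Statements.S5349
import Cfsg.Agent.Lib.Fischer.Classes

set_option autoImplicit false
open Cfsg

namespace Cfsg.Agent.S5349

/-- Let D be a conjugacy class of 3-transpositions generating the finite group G, with at least two members, and d a member of D. Then the set of members of D commuting with exactly the same members of D as d coincides with the set of members of D lying in the coset of d modulo the largest normal 2-subgroup of G, and also with the orbit of d under conjugation by that normal 2-subgroup. -/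
theorem result {G : Type*} [Group G] [Finite G] {D : Set G} (hD : Cfsg.IsThreeTranspositionClass D) (hD2 : ∃ a ∈ D, ∃ b ∈ D, a ≠ b) {d : G} (hd : d ∈ D) : {v : G | v ∈ D ∧ ∀ e ∈ D, Commute v e ↔ Commute d e} = {v : G | v ∈ D ∧ d⁻¹ * v ∈ Cfsg.pCore 2 G} ∧ {v : G | v ∈ D ∧ ∀ e ∈ D, Commute v e ↔ Commute d e} = {v : G | ∃ g ∈ Cfsg.pCore 2 G, v = g * d * g⁻¹} := by
  have hG := CfsgLib.Fischer.group_of_class hD
  have hinv := CfsgLib.Fischer.inv_eq hD.1 hd
  have hiff : ∀ v, (v ∈ D ∧ ∀ e ∈ D, Commute v e ↔ Commute d e) ↔ (v ∈ D ∧ d⁻¹ * v ∈ Cfsg.pCore 2 G) := by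
    intro v
    rw [hinv]
    exact CfsgLib.Fischer.sameV_iff hG hd
  refine ⟨Set.ext hiff, Set.ext fun v => ⟨fun hv => ?_, fun hv => ?_⟩⟩
  · obtain ⟨y, hy, hnc⟩ : ∃ y ∈ D, ¬ Commute d y := by
      by_contra! hall
      obtain ⟨a, ha, b, hb, hne⟩ := hD2
      have hc := CfsgLib.Fischer.mem_center hG.2.2 hall
      have key : ∀ x ∈ D, x = d := fun x hx => by
        obtain ⟨g, hg⟩ := CfsgLib.Fischer.exists_conj_of_class hD hd hx
        rw [← hg, Subgroup.mem_center_iff.1 hc g, mul_inv_cancel_right]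
      exact hne ((key a ha).trans (key b hb).symm)
    have hs : CfsgLib.Fischer.SameV D d v := hv
    have hnc' : ¬ Commute v y := fun c => hnc ((hs.2 y hy).1 c)
    have hmem := hs.mem_pCore hG hd
    haveI := CfsgLib.Cores.pCore_characteristic 2 G
    have hn : (Cfsg.pCore 2 G).Normal := inferInstance
    refine ⟨y * (d * v) * y⁻¹, hn.conj_mem _ hmem y, ?_⟩
    have hdd := CfsgLib.Fischer.sq_eq_one hD.1 hd
    have hvv := CfsgLib.Fischer.sq_eq_one hD.1 hv.1
    have hyy := CfsgLib.Fischer.sq_eq_one hD.1 hy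
    have b1 : y * d * y = d * y * d := CfsgLib.Fischer.braid hD.1 hy hd fun c => hnc c.symm
    have b2 : y * v * y = v * y * v := CfsgLib.Fischer.braid hD.1 hy hv.1 fun c => hnc' c.symm
    simp only [mul_inv_rev, inv_inv, hinv, CfsgLib.Fischer.inv_eq hD.1 hy,
      CfsgLib.Fischer.inv_eq hD.1 hv.1]
    symm
    calc y * (d * v) * y * d * (y * (v * d * y)) = y * d * v * (y * d * y) * v * d * y := by group
      _ = y * d * v * d * y * (d * v) * d * y := by rw [b1]; group
      _ = y * d * v * d * y * (v * d) * d * y := by rw [hs.commute.eq]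
      _ = y * (d * v) * d * y * (v * d) * d * y := by group
      _ = y * (v * d) * d * y * (v * d) * d * y := by rw [hs.commute.eq]
      _ = y * v * (d * d) * y * v * (d * d) * y := by group
      _ = (y * v * y) * v * y := by rw [hdd]; group
      _ = v * y * (v * v) * y := by rw [b2]; group
      _ = v := by rw [hvv, mul_one, mul_assoc, hyy, mul_one]
  · obtain ⟨g, hg, rfl⟩ := hv
    refine (hiff _).2 ⟨hG.2.1 g d hd, ?_⟩
    haveI := CfsgLib.Cores.pCore_characteristic 2 G
    have hn : (Cfsg.pCore 2 G).Normal := inferInstance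
    rw [show d⁻¹ * (g * d * g⁻¹) = d⁻¹ * g * (d⁻¹)⁻¹ * g⁻¹ by group]
    exact mul_mem (hn.conj_mem g hg d⁻¹) (inv_mem hg)

end Cfsg.Agent.S5349
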