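import Cfsg.Statements.S5350
import Cfsg.Agent.Lib.Fischer.Classes

set_option autoImplicit false
open Cfsg

namespace Cfsg.Agent.S5350

/-- Let D be a conjugacy class of 3-transpositions generating the finite group G, with at least two members, and d a member of D. Then the set of members w of D whose commuting partners in D (other than w) are exactly those of d (other than d) coincides with the set of members of D lying in the coset of d modulo the largest normal 3-subgroup of G, and also with the orbit of d under conjugation by that normal 3-subgroup. -/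
theorem result {G : Type*} [Group G] [Finite G] {D : Set G} (hD : Cfsg.IsThreeTranspositionClass D) (hD2 : ∃ a ∈ D, ∃ b ∈ D, a ≠ b) {d : G} (hd : d ∈ D) : {w : G | w ∈ D ∧ {y : G | y ∈ D ∧ y ≠ d ∧ Commute d y} = {y : G | y ∈ D ∧ y ≠ w ∧ Commute w y}} = {w : G | w ∈ D ∧ d⁻¹ * w ∈ Cfsg.pCore 3 G} ∧ {w : G | w ∈ D ∧ {y : G | y ∈ D ∧ y ≠ d ∧ Commute d y} = {y : G | y ∈ D ∧ y ≠ w ∧ Commute w y}} = {w : G | ∃ g ∈ Cfsg.pCore 3 G, w = g * d * g⁻¹} := by
  have hG := CfsgLib.Fischer.group_of_class hD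
  have hinv := CfsgLib.Fischer.inv_eq hD.1 hd
  have hiff : ∀ v, (v ∈ D ∧ CfsgLib.Fischer.perp D d = CfsgLib.Fischer.perp D v) ↔
      (v ∈ D ∧ d⁻¹ * v ∈ Cfsg.pCore 3 G) := by
    intro v
    rw [hinv]
    exact CfsgLib.Fischer.sameW_iff hG hd
  refine ⟨Set.ext hiff, Set.ext fun v => ⟨fun hv => ?_, fun hv => ?_⟩⟩
  · have hs : CfsgLib.Fischer.SameW D d v := hv
    by_cases hvd : v = d
    · exact ⟨1, one_mem _, by rw [hvd]; group⟩
    have hnc : ¬ Commute d v := fun c => hvd (hs.eq_of_commute c)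
    refine ⟨d * v, hs.mem_pCore hG hd, ?_⟩
    rw [mul_inv_rev, hinv, CfsgLib.Fischer.inv_eq hD.1 hv.1]
    calc v = d * (d * v * d) * d := by
          rw [show d * (d * v * d) * d = (d * d) * v * (d * d) by group,
            CfsgLib.Fischer.sq_eq_one hD.1 hd, one_mul, mul_one]
      _ = d * (v * d * v) * d := by rw [CfsgLib.Fischer.braid hD.1 hd hv.1 hnc]
      _ = _ := by group
  · obtain ⟨g, hg, rfl⟩ := hv
    refine (hiff _).2 ⟨hG.2.1 g d hd, ?_⟩
    haveI := CfsgLib.Cores.pCore_characteristic 3 G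
    have hn : (Cfsg.pCore 3 G).Normal := inferInstance
    rw [show d⁻¹ * (g * d * g⁻¹) = d⁻¹ * g * (d⁻¹)⁻¹ * g⁻¹ by group]
    exact mul_mem (hn.conj_mem g hg d⁻¹) (inv_mem hg)

end Cfsg.Agent.S5350
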