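import Cfsg.Statements.S5354
import Cfsg.Agent.Lib.Fischer.Maximal

set_option autoImplicit false
open Cfsg

namespace Cfsg.Agent.S5354

/-- Let D be a conjugation-invariant generating set of 3-transpositions of the finite group G on which G acts primitively by conjugation, and suppose two different members of D commute (width at least 2). Then G has a quasisimple normal subgroup L of index at most 2 with the generalized Fitting subgroup of G equal to L times the centre, the commuting graph of D is connected, and for d in D the subgroup generated by the members of D commuting with d is a maximal D-subgroup: it is proper, and every subgroup generated by members of D that contains it is either it or G. -/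
theorem result {G : Type*} [Group G] [Finite G] {D : Set G} (hD : Cfsg.IsThreeTranspositionGroup D) (hprim : Cfsg.IsPrimitiveUnderConj D) (hw : ∃ a ∈ D, ∃ b ∈ D, a ≠ b ∧ Commute a b) : (∃ L : Subgroup G, L.Normal ∧ Cfsg.IsQuasisimple L ∧ L.index ≤ 2 ∧ Cfsg.generalizedFittingSubgroup G = L ⊔ Subgroup.center G) ∧ (Cfsg.commutingGraph D).Connected ∧ ∀ d ∈ D, Subgroup.closure {y : G | y ∈ D ∧ Commute d y} ≠ ⊤ ∧ ∀ H : Subgroup G, Cfsg.IsDSubgroup D H → Subgroup.closure {y : G | y ∈ D ∧ Commute d y} ≤ H → H = Subgroup.closure {y : G | y ∈ D ∧ Commute d y} ∨ H = ⊤ := by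
  have hC := CfsgLib.Fischer.class_of_primitive hD hprim
  have hD2 := hprim.2.1
  have h2 := CfsgLib.Fischer.pCore_two_le_center_of_primitive hD hprim
  have h3 := CfsgLib.Fischer.pCore_three_le_center_of_primitive hD hprim hw
  have hconn := CfsgLib.Fischer.connected_of_primitive hD hprim hw
  refine ⟨⟨Cfsg.layer G, CfsgLib.Fischer.layer_normal G,
    CfsgLib.Fischer.isQuasisimple_layer hC hD2 h2 h3,
    CfsgLib.Fischer.index_le_two_of_connected hC hD2 h2 h3 hconn,
    CfsgLib.Fischer.generalizedFitting_eq hC hD2 h2 h3⟩, hconn, fun d hd => ⟨fun htop => ?_, fun H hH hle => ?_⟩⟩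
  · obtain ⟨y, hy, hnc⟩ := CfsgLib.Fischer.exists_not_commute_of_class hC hD2 hd
    exact hnc (CfsgLib.Fischer.commute_of_mem_perpGroup (D := D)
      (show y ∈ CfsgLib.Fischer.perpGroup D d by
        show y ∈ Subgroup.closure {y : G | y ∈ D ∧ Commute d y}
        rw [htop]
        exact Subgroup.mem_top y))
  · by_cases hall : ∀ x ∈ D, x ∈ H → Commute d x
    · left
      refine le_antisymm ?_ hle
      rw [← hH]
      exact Subgroup.closure_mono fun x hx => ⟨hx.1, hall x hx.1 hx.2⟩
    · right
      push Not at hall
      obtain ⟨x, hx, hxH, hdx⟩ := hall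
      rw [eq_top_iff, ← CfsgLib.Fischer.perpGroup_sup_eq_top hD hprim hconn hd hx hdx]
      exact sup_le hle (Subgroup.zpowers_le.2 hxH)

end Cfsg.Agent.S5354
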