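import Cfsg.Statements.S5355
import Cfsg.Agent.Lib.Fischer.Derived

set_option autoImplicit false
open Cfsg

namespace Cfsg.Agent.S5355

/-- Let D be a conjugacy class of 3-transpositions generating the finite group G, with at least two members, and d a member of D. Suppose that every member of D commuting with d commutes with exactly the same members of D as d does, and that exactly one member of D other than d commutes with d. Then G is isomorphic to the symmetric group of degree 4. -/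
theorem result {G : Type*} [Group G] [Finite G] {D : Set G} (hD : Cfsg.IsThreeTranspositionClass D) (hD2 : ∃ a ∈ D, ∃ b ∈ D, a ≠ b) {d : G} (hd : d ∈ D) (hV : {y : G | y ∈ D ∧ Commute d y} = {v : G | v ∈ D ∧ ∀ e ∈ D, Commute v e ↔ Commute d e}) (hm : {y : G | y ∈ D ∧ Commute d y}.ncard = 2) : Nonempty (G ≃* Equiv.Perm (Fin 4)) := by
  have sw : ∀ i j i' j' : Fin 4, i ≠ j → i' ≠ j' → i ≠ i' → i ≠ j' → j ≠ i' → j ≠ j' →
      Equiv.swap i j * Equiv.swap i' j' = Equiv.swap i' j' * Equiv.swap i j ∧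
        Equiv.swap i' j' ≠ Equiv.swap i j := by decide
  have hG := CfsgLib.Fischer.group_of_class hD
  -- every member has exactly one partner
  have hpart : ∀ x ∈ D, {y : G | y ∈ D ∧ Commute x y}.ncard = 2 := by
    intro x hx
    obtain ⟨g, rfl⟩ := CfsgLib.Fischer.exists_conj_of_class hD hd hx
    have e : {y : G | y ∈ D ∧ Commute (g * d * g⁻¹) y} =
        (fun y => g * y * g⁻¹) '' {y : G | y ∈ D ∧ Commute d y} := by
      ext y
      constructor
      · rintro ⟨hy, hc⟩
        have e1 : y = g * (g⁻¹ * y * g⁻¹⁻¹) * g⁻¹ := by group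
        refine ⟨_, ⟨hG.2.1 g⁻¹ y hy, ?_⟩, e1.symm⟩
        rwa [e1, CfsgLib.Fischer.conj_commute_iff] at hc
      · rintro ⟨z, ⟨hz, hc⟩, rfl⟩
        exact ⟨hG.2.1 g z hz, (CfsgLib.Fischer.conj_commute_iff g d z).2 hc⟩
    rw [e, Set.ncard_image_of_injective _ fun a b h => by simpa using h, hm]
  have huniq : ∀ x ∈ D, ∀ y ∈ D, ∀ z ∈ D, Commute x y → Commute x z → y ≠ x → z ≠ x → y = z := by
    intro x hx y hy z hz hxy hxz hyx hzx
    by_contra hne
    have hsub : ({x, y, z} : Set G) ⊆ {y : G | y ∈ D ∧ Commute x y} := by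
      rintro w (rfl | rfl | rfl)
      exacts [⟨hx, Commute.refl _⟩, ⟨hy, hxy⟩, ⟨hz, hxz⟩]
    have h3 : ({x, y, z} : Set G).ncard = 3 := by
      rw [Set.ncard_insert_of_notMem (by simp [Ne.symm hyx, Ne.symm hzx]), Set.ncard_pair hne]
    have := Set.ncard_le_ncard hsub (Set.toFinite _)
    rw [h3, hpart x hx] at this
    omega
  obtain ⟨v, hv, hvd⟩ : ∃ v ∈ {y : G | y ∈ D ∧ Commute d y}, v ≠ d :=
    Set.exists_ne_of_one_lt_ncard (by rw [hm]; omega) d
  have hsame : ∀ e ∈ D, Commute v e ↔ Commute d e := (hV ▸ hv : v ∈ {v : G | v ∈ D ∧ ∀ e ∈ D, Commute v e ↔ Commute d e}).2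
  obtain ⟨y, hy, hnc⟩ := CfsgLib.Fischer.exists_not_commute_of_class hD hD2 hd
  have hvy : ¬ Commute v y := fun c => hnc ((hsame y hy).1 c)
  obtain ⟨φ, hinj, h1, h2, h3⟩ := CfsgLib.Fischer.SymFour.exists_injective_of_string hD.1 hd hy hv.1
    (Ne.symm hvd) hv.2 hnc fun c => hvy c.symm
  -- conjugates of the three generators lie in `D`
  have hmem : ∀ σ : Equiv.Perm (Fin 4), ∀ i j, i ≠ j → σ = Equiv.swap i j → φ σ ∈ D := by
    intro σ i j hij hσ
    obtain ⟨τ, hτ⟩ : ∃ τ : Equiv.Perm (Fin 4), Equiv.swap i j = τ * Equiv.swap 0 1 * τ⁻¹ := by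
      revert hij
      clear hσ
      revert i j
      decide
    rw [hσ, hτ, map_mul, map_mul, map_inv, h1]
    exact hG.2.1 _ d hd
  -- the product of a pair is moved by the product of a third pair
  have hmove : ∀ x ∈ D, ∀ a ∈ D, ∀ b ∈ D, Commute a b → a ≠ b → ¬ Commute a x → ¬ Commute b x →
      ∃ x', x' ∈ D ∧ Commute x x' ∧ x' ≠ x ∧ x * (a * b) * x = a * b * (x * x') ∧
        a * b * (x * x') = x * x' * (a * b) := by
    intro x hx a ha b hb hab hne hax hbx
    obtain ⟨ψ, hinj', g1, g2, g3⟩ := CfsgLib.Fischer.SymFour.exists_injective_of_string hD.1 ha hx hb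
      hne hab hax fun c => hbx c.symm
    refine ⟨ψ (Equiv.swap 0 3), ?_, ?_, ?_, ?_, ?_⟩
    · rw [show Equiv.swap (0 : Fin 4) 3 = (Equiv.swap 2 3 * Equiv.swap 1 2) * Equiv.swap 0 1 *
          (Equiv.swap 2 3 * Equiv.swap 1 2)⁻¹ by decide, map_mul, map_mul, map_inv, g1]
      exact hG.2.1 _ a ha
    · rw [← g2]
      exact (show Commute (Equiv.swap (1 : Fin 4) 2) (Equiv.swap 0 3) by unfold Commute SemiconjBy; decide).map ψ
    · rw [← g2]
      exact fun h => absurd (hinj' h) (by decide)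
    · rw [← g1, ← g2, ← g3, ← map_mul, ← map_mul, ← map_mul, ← map_mul, ← map_mul]
      congr 1; decide
    · rw [← g1, ← g2, ← g3, ← map_mul, ← map_mul, ← map_mul, ← map_mul]
      congr 1; decide
  have hall : ∀ x ∈ D, x ∈ φ.range := by
    intro x hx
    by_contra hxr
    -- `x` commutes with none of the six transpositions
    have hno : ∀ i j i' j' : Fin 4, i ≠ j → i' ≠ j' → i ≠ i' → i ≠ j' → j ≠ i' → j ≠ j' →
        ¬ Commute (φ (Equiv.swap i j)) x := by
      intro i j i' j' hij hij' n1 n2 n3 n4 hc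
      have hp := hmem _ i j hij rfl
      have hp' := hmem _ i' j' hij' rfl
      apply hxr
      by_cases hxe : x = φ (Equiv.swap i j)
      · exact hxe ▸ ⟨_, rfl⟩
      refine (huniq _ hp x hx _ hp' hc ?_ hxe ?_).symm ▸ ⟨_, rfl⟩
      · exact (show Commute (Equiv.swap i j) (Equiv.swap i' j') from
          (sw i j i' j' hij hij' n1 n2 n3 n4).1).map φ
      · exact fun h => (sw i j i' j' hij hij' n1 n2 n3 n4).2 (hinj h)
    have hne : ∀ i j i' j' : Fin 4, i ≠ j → i' ≠ j' → i ≠ i' → i ≠ j' → j ≠ i' → j ≠ j' →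
        Commute (φ (Equiv.swap i j)) (φ (Equiv.swap i' j')) ∧
          φ (Equiv.swap i j) ≠ φ (Equiv.swap i' j') := by
      intro i j i' j' a b c d e f
      exact ⟨(show Commute (Equiv.swap i j) (Equiv.swap i' j') from (sw i j i' j' a b c d e f).1).map φ,
        fun h => (sw i j i' j' a b c d e f).2 (hinj h).symm⟩
    have hu : ∀ i j i' j' : Fin 4, i ≠ j → i' ≠ j' → i ≠ i' → i ≠ j' → j ≠ i' → j ≠ j' →
        ∃ x', x' ∈ D ∧ Commute x x' ∧ x' ≠ x ∧
          x * φ (Equiv.swap i j * Equiv.swap i' j') * x =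
            φ (Equiv.swap i j * Equiv.swap i' j') * (x * x') ∧
          φ (Equiv.swap i j * Equiv.swap i' j') * (x * x') =
            x * x' * φ (Equiv.swap i j * Equiv.swap i' j') := by
      intro i j i' j' a b c d e f
      rw [map_mul]
      exact hmove x hx _ (hmem _ i j a rfl) _ (hmem _ i' j' b rfl) (hne i j i' j' a b c d e f).1
        (hne i j i' j' a b c d e f).2 (hno i j i' j' a b c d e f)
        (hno i' j' i j b a c.symm e.symm d.symm f.symm)
    obtain ⟨x1, hx1, hc1, hn1, e1, -⟩ := hu 0 1 2 3 (by decide) (by decide) (by decide) (by decide) (by decide) (by decide)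
    obtain ⟨x2, hx2, hc2, hn2, e2, k2⟩ := hu 1 2 0 3 (by decide) (by decide) (by decide) (by decide) (by decide) (by decide)
    obtain ⟨x3, hx3, hc3, hn3, e3, -⟩ := hu 0 2 1 3 (by decide) (by decide) (by decide) (by decide) (by decide) (by decide)
    obtain rfl : x2 = x1 := huniq x hx x2 hx2 x1 hx1 hc2 hc1 hn2 hn1
    obtain rfl : x3 = x2 := huniq x hx x3 hx3 x2 hx2 hc3 hc2 hn3 hn2
    have hxx := CfsgLib.Fischer.sq_eq_one hD.1 hx
    have hu2 : (x * x3) * (x * x3) = 1 := by
      rw [← pow_two, (CfsgLib.Fischer.sq_mul_iff hD.1 hx hx3).2 hc3]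
    have hprod : φ (Equiv.swap 0 2 * Equiv.swap 1 3) =
        φ (Equiv.swap 0 1 * Equiv.swap 2 3) * φ (Equiv.swap 1 2 * Equiv.swap 0 3) := by
      rw [← map_mul]; congr 1; decide
    set u := x * x3
    set p := φ (Equiv.swap 0 1 * Equiv.swap 2 3)
    set q := φ (Equiv.swap 1 2 * Equiv.swap 0 3)
    rw [hprod] at e3
    have h4 : x * (p * q) * x = p * q := by
      calc x * (p * q) * x = x * p * (x * x) * q * x := by rw [hxx]; group
        _ = (x * p * x) * (x * q * x) := by group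
        _ = p * (u * q) * u := by rw [e1, e2]; group
        _ = p * (q * u) * u := by rw [k2]
        _ = p * q * (u * u) := by group
        _ = p * q := by rw [hu2, mul_one]
    rw [h4, left_eq_mul] at e3
    rw [mul_eq_one_iff_eq_inv, CfsgLib.Fischer.inv_eq hD.1 hx3] at e3
    exact hn3 e3.symm
  have hsurj : Function.Surjective φ := by
    rw [← MonoidHom.range_eq_top, eq_top_iff, ← hG.2.2, Subgroup.closure_le]
    exact hall
  exact ⟨(MulEquiv.ofBijective φ ⟨hinj, hsurj⟩).symm⟩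

end Cfsg.Agent.S5355
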