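import Cfsg.Statements.S5356
import Cfsg.Agent.Lib.Fischer.Derived

set_option autoImplicit false
open Cfsg

namespace Cfsg.Agent.S5356

/-- Let D be a conjugacy class of 3-transpositions generating the finite group G, with at least two members, and d a member of D such that every member of D commuting with d commutes with exactly the same members of D as d. Then there is a Sylow 3-subgroup P of G normalized by d such that G is generated by d, P and the largest normal 2-subgroup of G. -/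
theorem result {G : Type*} [Group G] [Finite G] {D : Set G} (hD : Cfsg.IsThreeTranspositionClass D) (hD2 : ∃ a ∈ D, ∃ b ∈ D, a ≠ b) {d : G} (hd : d ∈ D) (hV : {y : G | y ∈ D ∧ Commute d y} = {v : G | v ∈ D ∧ ∀ e ∈ D, Commute v e ↔ Commute d e}) : ∃ P : Sylow 3 G, d ∈ Subgroup.normalizer (P : Set G) ∧ Subgroup.zpowers d ⊔ (P : Subgroup G) ⊔ Cfsg.pCore 2 G = ⊤ := by
  have hG := CfsgLib.Fischer.group_of_class hD
  haveI : Fact (Nat.Prime 3) := ⟨Nat.prime_three⟩
  have hinv := CfsgLib.Fischer.inv_eq hD.1 hd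
  have hdd := CfsgLib.Fischer.sq_eq_one hD.1 hd
  have hVc : ∀ v ∈ D, Commute d v → CfsgLib.Fischer.SameV D d v := fun v hv hc =>
    (hV ▸ (⟨hv, hc⟩ : v ∈ {y : G | y ∈ D ∧ Commute d y}) :
      v ∈ {v : G | v ∈ D ∧ ∀ e ∈ D, Commute v e ↔ Commute d e})
  obtain ⟨y, hy, hnc⟩ := CfsgLib.Fischer.exists_not_commute_of_class hD hD2 hd
  -- 3-subgroups normalised by `d` containing `d y`
  have hzp : ∀ e ∈ D, ¬ Commute d e → IsPGroup 3 (Subgroup.zpowers (d * e)) := fun e he h =>
    IsPGroup.of_card (n := 1) (by rw [Nat.card_zpowers, CfsgLib.Fischer.orderOf_mul hD.1 hd he h, pow_one])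
  have hnorm_zp : ∀ e ∈ D, d ∈ Subgroup.normalizer (Subgroup.zpowers (d * e) : Set G) := by
    intro e he
    have h1 : d * (d * e) * d⁻¹ = (d * e)⁻¹ := by
      rw [hinv, mul_inv_rev, hinv, CfsgLib.Fischer.inv_eq hD.1 he, ← mul_assoc, hdd, one_mul]
    rw [Subgroup.mem_normalizer_iff]
    intro n
    constructor
    · rintro ⟨k, rfl⟩
      exact ⟨-k, by show (d * e) ^ (-k) = _; rw [zpow_neg, ← inv_zpow, ← h1, conj_zpow]⟩
    · rintro ⟨k, hk⟩
      refine ⟨-k, ?_⟩
      show (d * e) ^ (-k) = n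
      have hk' : (d * e) ^ k = d * n * d⁻¹ := hk
      have h2 : d * ((d * e) ^ (-k)) * d⁻¹ = d * n * d⁻¹ := by
        rw [← hk', ← conj_zpow, h1, inv_zpow, zpow_neg, inv_inv]
      exact mul_left_cancel (mul_right_cancel h2)
  obtain ⟨S, ⟨hS3, hSd, hSy⟩, hmax⟩ := Set.Finite.exists_maximal
    (s := {S : Subgroup G | IsPGroup 3 S ∧ d ∈ Subgroup.normalizer (S : Set G) ∧ d * y ∈ S})
    (Set.toFinite _) ⟨Subgroup.zpowers (d * y), hzp y hy hnc, hnorm_zp y hy, Subgroup.mem_zpowers _⟩
  set T := Subgroup.normalizer (S : Set G) with hT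
  have h2n : (Cfsg.pCore 2 G).Normal := by
    haveI := CfsgLib.Cores.pCore_characteristic 2 G
    infer_instance
  have hprod : ∀ t ∈ T, d * (t * d * t⁻¹) ∈ S := by
    intro t ht
    have he : t * d * t⁻¹ ∈ D := hG.2.1 t d hd
    have heT : t * d * t⁻¹ ∈ T := mul_mem (mul_mem ht hSd) (inv_mem ht)
    have hdeT : d * (t * d * t⁻¹) ∈ T := mul_mem hSd heT
    by_cases hc : Commute d (t * d * t⁻¹)
    · -- commuting: the conjugate is `d` itself
      by_cases hed : t * d * t⁻¹ = d
      · rw [hed, hdd]; exact one_mem S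
      exfalso
      have hs := hVc _ he hc
      have hu : d * (t * d * t⁻¹) ∈ Cfsg.pCore 2 G := hs.mem_pCore hG hd
      set u := d * (t * d * t⁻¹) with hu_def
      have hdisj : ∀ s ∈ S, Commute u s := by
        intro s hs'
        have h1 : u * s * u⁻¹ * s⁻¹ ∈ Cfsg.pCore 2 G := by
          rw [show u * s * u⁻¹ * s⁻¹ = u * (s * u⁻¹ * s⁻¹) by group]
          exact mul_mem hu (h2n.conj_mem _ (inv_mem hu) s)
        have h2 : u * s * u⁻¹ * s⁻¹ ∈ S :=
          mul_mem ((Subgroup.mem_normalizer_iff.1 hdeT s).1 hs') (inv_mem hs')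
        obtain ⟨i, hi⟩ := (CfsgLib.Cores.isPGroup_pCore 2 G) ⟨_, h1⟩
        obtain ⟨j, hj⟩ := hS3 ⟨_, h2⟩
        have h3 := pow_gcd_eq_one.2 ⟨(congrArg Subtype.val hi : (u * s * u⁻¹ * s⁻¹) ^ (2 ^ i) = 1),
          (congrArg Subtype.val hj : (u * s * u⁻¹ * s⁻¹) ^ (3 ^ j) = 1)⟩
        rw [show Nat.gcd (2 ^ i) (3 ^ j) = 1 from Nat.Coprime.pow _ _ (by norm_num), pow_one,
          mul_inv_eq_one, mul_inv_eq_iff_eq_mul] at h3
        exact h3
      have huy : Commute u y := by
        have e : y = d * (d * y) := by rw [← mul_assoc, hdd, one_mul]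
        rw [e]
        exact ((Commute.refl d).mul_left hc.symm).mul_right (hdisj _ hSy)
      have hvy : ¬ Commute (t * d * t⁻¹) y := fun c => hnc ((hs.2 y hy).1 c)
      exact hed (CfsgLib.Fischer.eq_of_commute_mul hD.1 hd he hy hnc hvy huy).symm
    · by_contra hout
      have hle : Subgroup.zpowers (d * (t * d * t⁻¹)) ≤ T := Subgroup.zpowers_le.2 hdeT
      have hmem : S ⊔ Subgroup.zpowers (d * (t * d * t⁻¹)) ∈
          {S : Subgroup G | IsPGroup 3 S ∧ d ∈ Subgroup.normalizer (S : Set G) ∧ d * y ∈ S} := by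
        refine ⟨hS3.to_sup_of_normal_left' (hzp _ he hc) hle, ?_, Subgroup.mem_sup_left hSy⟩
        have key : ∀ n ∈ S ⊔ Subgroup.zpowers (d * (t * d * t⁻¹)),
            d * n * d⁻¹ ∈ S ⊔ Subgroup.zpowers (d * (t * d * t⁻¹)) := by
          intro n hn
          rw [Subgroup.sup_eq_closure] at hn
          induction hn using Subgroup.closure_induction with
          | mem n hn =>
            rcases hn with hn | hn
            · exact Subgroup.mem_sup_left ((Subgroup.mem_normalizer_iff.1 hSd n).1 hn)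
            · exact Subgroup.mem_sup_right ((Subgroup.mem_normalizer_iff.1 (hnorm_zp _ he) n).1 hn)
          | one => rw [mul_one, mul_inv_cancel]; exact one_mem _
          | mul p q _ _ hp hq =>
            rw [show d * (p * q) * d⁻¹ = d * p * d⁻¹ * (d * q * d⁻¹) by group]
            exact mul_mem hp hq
          | inv p _ hp =>
            rw [show d * p⁻¹ * d⁻¹ = (d * p * d⁻¹)⁻¹ by group]
            exact inv_mem hp
        rw [Subgroup.mem_normalizer_iff]
        intro n
        refine ⟨key n, fun h => ?_⟩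
        have := key _ h
        rwa [hinv, show d * (d * n * d) * d = (d * d) * n * (d * d) by group, hdd, one_mul, mul_one] at this
      exact hout ((hmax hmem le_sup_left) (Subgroup.mem_sup_right (Subgroup.mem_zpowers _)))
  -- `S` is a Sylow 3-subgroup
  have hST : S ≤ T := Subgroup.le_normalizer
  obtain ⟨R, hR⟩ := (hS3.comap_subtype (K := T)).exists_le_sylow
  have hRS : (R : Subgroup T).map T.subtype = S := by
    have hge : S ≤ (R : Subgroup T).map T.subtype := by
      intro s hs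
      exact ⟨⟨s, hST hs⟩, hR hs, rfl⟩
    refine le_antisymm (hmax ⟨R.isPGroup'.map _, ?_, hge hSy⟩ hge) hge
    rw [Subgroup.mem_normalizer_iff]
    have key : ∀ n ∈ (R : Subgroup T).map T.subtype, d * n * d⁻¹ ∈ (R : Subgroup T).map T.subtype := by
      rintro _ ⟨r, hr, rfl⟩
      have h1 : d * ((r : G) * d * (r : G)⁻¹) ∈ S := hprod r r.2
      have h2 := mul_mem (hge h1) (⟨r, hr, rfl⟩ : (r : G) ∈ (R : Subgroup T).map T.subtype)
      show d * (r : G) * d⁻¹ ∈ _
      convert h2 using 1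
      rw [hinv]; group
    intro n
    refine ⟨key n, fun h => ?_⟩
    have := key _ h
    rwa [hinv, show d * (d * n * d) * d = (d * d) * n * (d * d) by group, hdd, one_mul, mul_one] at this
  obtain ⟨P, hP⟩ := hS3.exists_le_sylow
  have hPS : (P : Subgroup G) = S := by
    by_contra hne
    have hlt : S < P := lt_of_le_of_ne hP (Ne.symm hne)
    haveI : Group.IsNilpotent (P : Subgroup G) := P.isPGroup'.isNilpotent
    have hlt' : S.subgroupOf P < Subgroup.normalizer ((S.subgroupOf P : Subgroup P) : Set P) := by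
      refine normalizerCondition_of_isNilpotent _ (lt_top_iff_ne_top.2 fun h => ?_)
      exact hne (le_antisymm (Subgroup.subgroupOf_eq_top.1 h) hP)
    obtain ⟨n, hn, hnS⟩ := SetLike.exists_of_lt hlt'
    have hnT : (n : G) ∈ T := by
      rw [hT, Subgroup.mem_normalizer_iff]
      intro s
      constructor
      · intro hs
        have := (Subgroup.mem_normalizer_iff.1 hn ⟨s, hP hs⟩).1 hs
        exact this
      · intro hs
        have hsP : s ∈ (P : Subgroup G) := by
          have := mul_mem (mul_mem (inv_mem n.2) (hP hs)) n.2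
          simpa [mul_assoc] using this
        exact (Subgroup.mem_normalizer_iff.1 hn ⟨s, hsP⟩).2 hs
    have hRmax : ((P : Subgroup G).subgroupOf T) = (R : Subgroup T) := by
      refine R.3 P.isPGroup'.comap_subtype ?_
      intro r hr
      exact hP (hRS ▸ ⟨r, hr, rfl⟩ : (r : G) ∈ S)
    apply hnS
    show (n : G) ∈ S
    rw [← hRS]
    exact ⟨⟨n, hnT⟩, hRmax ▸ (n.2 : (n : G) ∈ (P : Subgroup G)), rfl⟩
  refine ⟨P, show d ∈ Subgroup.normalizer ((P : Subgroup G) : Set G) by rw [hPS]; exact hSd, ?_⟩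
  -- the image in `G / O₂` has width one
  set π := QuotientGroup.mk' (Cfsg.pCore 2 G) with hπ
  have hmem0 : ∀ a ∈ D, π a ≠ 1 := by
    intro a ha h
    have h1 : a ∈ Cfsg.pCore 2 G := (QuotientGroup.eq_one_iff a).1 h
    obtain ⟨z, hz, hcz⟩ := CfsgLib.Fischer.exists_not_commute_of_class hD hD2 ha
    obtain ⟨g, rfl⟩ := CfsgLib.Fischer.exists_conj_of_class hD ha hz
    exact hcz (CfsgLib.Fischer.commute_of_isPGroup_two hD.1 (CfsgLib.Cores.isPGroup_pCore 2 G) ha hz
      (mul_mem h1 (h2n.conj_mem a h1 g)))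
  have hDset : Cfsg.IsThreeTranspositionGroup (π '' D) := by
    refine ⟨⟨?_, ?_⟩, ?_, ?_⟩
    · rintro _ ⟨a, ha, rfl⟩
      exact orderOf_eq_prime (by rw [← map_pow, pow_two, CfsgLib.Fischer.sq_eq_one hD.1 ha, map_one])
        (hmem0 a ha)
    · rintro _ ⟨a, ha, rfl⟩ _ ⟨b, hb, rfl⟩
      rcases hD.1.2 a ha b hb with h | h
      · exact Or.inl (by rw [← map_mul, ← map_pow, h, map_one])
      · exact Or.inr (by rw [← map_mul, ← map_pow, h, map_one])
    · intro g _ ⟨a, ha, e⟩
      obtain ⟨g, rfl⟩ := QuotientGroup.mk'_surjective _ g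
      exact ⟨_, hG.2.1 g a ha, by rw [← e]; simp [hπ]⟩
    · rw [← MonoidHom.map_closure, hG.2.2, Subgroup.map_top_of_surjective _ (QuotientGroup.mk'_surjective _)]
  have hw : ∀ a ∈ π '' D, ∀ b ∈ π '' D, Commute a b → a = b := by
    rintro _ ⟨a, ha, rfl⟩ _ ⟨b, hb, rfl⟩ hab
    have hab2 : Commute a b := by
      by_contra hc
      have h2 : π (a * b) ^ 2 = 1 := by
        rw [map_mul, hab.mul_pow, ← map_pow, ← map_pow, pow_two, pow_two,
          CfsgLib.Fischer.sq_eq_one hD.1 ha, CfsgLib.Fischer.sq_eq_one hD.1 hb, map_one, one_mul]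
      have h3 : π (a * b) ^ 3 = 1 := by
        rw [← map_pow, CfsgLib.Fischer.cube_of_not_commute hD.1 ha hb hc, map_one]
      rw [pow_succ, h2, one_mul] at h3
      exact hc (CfsgLib.Fischer.commute_of_isPGroup_two hD.1 (CfsgLib.Cores.isPGroup_pCore 2 G) ha hb
        ((QuotientGroup.eq_one_iff _).1 h3))
    obtain ⟨g, rfl⟩ := CfsgLib.Fischer.exists_conj_of_class hD hd ha
    have hb' : g⁻¹ * b * g⁻¹⁻¹ ∈ D := hG.2.1 g⁻¹ b hb
    have hc' : Commute d (g⁻¹ * b * g⁻¹⁻¹) := by
      have e : b = g * (g⁻¹ * b * g⁻¹⁻¹) * g⁻¹ := by group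
      rwa [e, CfsgLib.Fischer.conj_commute_iff] at hab2
    have h := (hVc _ hb' hc').mem_pCore hG hd
    have h2 : π d * π (g⁻¹ * b * g⁻¹⁻¹) = 1 := by
      rw [← map_mul]; exact (QuotientGroup.eq_one_iff _).2 h
    have hd' : π (g⁻¹ * b * g⁻¹⁻¹) = π d := by
      rw [eq_inv_of_mul_eq_one_right h2, ← map_inv, hinv]
    rw [show π b = π g * π (g⁻¹ * b * g⁻¹⁻¹) * (π g)⁻¹ by simp [mul_assoc], hd']
    simp
  have htop := CfsgLib.Fischer.zpowers_sup_pCore_of_width_one hDset hw ⟨d, hd, rfl⟩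
  have hker : π.ker = Cfsg.pCore 2 G := QuotientGroup.ker_mk' _
  have hK : π.ker ≤ Subgroup.zpowers d ⊔ (P : Subgroup G) ⊔ Cfsg.pCore 2 G := by
    rw [hker]; exact le_sup_right
  refine Subgroup.map_injective_of_ker_le (f := π) hK le_top ?_
  have hPle : Cfsg.pCore 3 (G ⧸ Cfsg.pCore 2 G) ≤ (P : Subgroup G).map π :=
    (CfsgLib.Cores.pCore_le_sylow (P.mapSurjective (f := π) (QuotientGroup.mk'_surjective _))).trans
      (le_of_eq (Sylow.coe_mapSurjective _ P))
  rw [Subgroup.map_top_of_surjective _ (QuotientGroup.mk'_surjective _), eq_top_iff, ← htop,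
    Subgroup.map_sup, Subgroup.map_sup, MonoidHom.map_zpowers]
  exact sup_le (le_sup_of_le_left le_sup_left) (le_sup_of_le_left (le_sup_of_le_right hPle))

end Cfsg.Agent.S5356
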