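import Cfsg.Statements.S5358
import Cfsg.Agent.Lib.Fischer.Refl3

set_option autoImplicit false
open scoped MatrixGroups
open Cfsg

namespace Cfsg.Agent.S5358

/-- Let Q be a non-degenerate quadratic form on the n-dimensional coordinate space over the field with three elements and u, v vectors of the same non-zero norm Q(u) = Q(v) spanning different lines (v ≠ u and v ≠ −u). Then the reflection matrices of u and v commute if and only if u and v are orthogonal for the polar form of Q. -/
theorem result (n : ℕ) (Q : QuadraticForm (ZMod 3) (Fin n → ZMod 3)) (hQ : (QuadraticMap.polarBilin Q).Nondegenerate) (u v : Fin n → ZMod 3) (hu : Q u ≠ 0) (huv : Q u = Q v) (h1 : v ≠ u) (h2 : v ≠ -u) : Commute (Cfsg.reflectionMatrix (⇑Q) u) (Cfsg.reflectionMatrix (⇑Q) v) ↔ QuadraticMap.polar (⇑Q) u v = 0 := by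
  have hv : Q v ≠ 0 := huv ▸ hu
  have key : Commute (CfsgLib.OrthGen.refl Q hu) (CfsgLib.OrthGen.refl Q hv) ↔
      Commute (Cfsg.reflectionMatrix (⇑Q) u) (Cfsg.reflectionMatrix (⇑Q) v) := by
    constructor
    · intro h
      exact congrArg (fun g : ↥(Cfsg.isometryGroup (ZMod 3) (⇑Q)) =>
        ((g : Matrix.GeneralLinearGroup (Fin n) (ZMod 3)) : Matrix (Fin n) (Fin n) (ZMod 3))) h.eq
    · intro h
      exact Subtype.ext (Units.ext h.eq)
  rw [← key, CfsgLib.Fischer.Refl3.commute_iff hu hv huv]
  exact ⟨fun h => h.elim id fun h' => (h'.elim h1 h2).elim, Or.inl⟩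

end Cfsg.Agent.S5358
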