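import Cfsg.Statements.S5359
import Cfsg.Agent.Lib.Fischer.Refl3
import Cfsg.Agent.Lib.Parabolic.OrthIndexTwo

set_option autoImplicit false
open scoped MatrixGroups
open Cfsg

namespace Cfsg.Agent.S5359

/-- Let Q be a non-degenerate quadratic form on the n-dimensional coordinate space over the field with three elements, n odd and at least 5, and c a non-zero scalar. Then the subgroup of the isometry group of Q generated by the reflections in vectors of norm c has index 2 in the isometry group. -/
theorem result (n : ℕ) (hn : 5 ≤ n) (hodd : Odd n) (Q : QuadraticForm (ZMod 3) (Fin n → ZMod 3)) (hQ : (QuadraticMap.polarBilin Q).Nondegenerate) (c : ZMod 3) (hc : c ≠ 0) : (Cfsg.reflectionSubgroup (⇑Q) c).index = 2 := by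
  have e : Cfsg.reflectionSubgroup (⇑Q) c = CfsgLib.OrthGen.reflClassGroup Q c := by
    unfold Cfsg.reflectionSubgroup CfsgLib.OrthGen.reflClassGroup Cfsg.reflectionsOfNorm
    congr 1
    ext g
    constructor
    · rintro ⟨v, hv, hg⟩
      exact ⟨v, 1, one_ne_zero, by rw [hv]; ring, hg⟩
    · rintro ⟨v, t, ht, hv, hg⟩
      refine ⟨v, ?_, hg⟩
      rw [hv, pow_two, CfsgLib.Fischer.Refl3.sq_eq t ht, mul_one]
  rw [e]
  exact CfsgLib.OrthGen.index_reflClassGroup CfsgLib.Fischer.Refl3.two_ne hQ
    (by rw [Fintype.card_fin]; omega) (Or.inl (by simpa using hn)) hc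

end Cfsg.Agent.S5359
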