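import Cfsg.Statements.S5361
import Cfsg.Agent.Lib.Fischer.Primitive

set_option autoImplicit false
open Cfsg

namespace Cfsg.Agent.S5361

open scoped commutatorElement

/-- Let D be a conjugacy class of 3-transpositions generating the finite group G, and suppose the centre of G is trivial and some two different members of D commute. Then the following are equivalent: (1) the commutator subgroup of G is simple (possibly of prime order); (2) G acts primitively on D by conjugation; (3) the largest normal 2-subgroup and the largest normal 3-subgroup of G are trivial and the commuting graph of D is connected. -/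
theorem result {G : Type*} [Group G] [Finite G] {D : Set G} (hD : Cfsg.IsThreeTranspositionClass D) (hZ : Subgroup.center G = ⊥) (hw : ∃ a ∈ D, ∃ b ∈ D, a ≠ b ∧ Commute a b) : (IsSimpleGroup (commutator G) ↔ Cfsg.IsPrimitiveUnderConj D) ∧ (Cfsg.IsPrimitiveUnderConj D ↔ (Cfsg.pCore 2 G = ⊥ ∧ Cfsg.pCore 3 G = ⊥ ∧ (Cfsg.commutingGraph D).Connected)) := by
  have hG := CfsgLib.Fischer.group_of_class hD
  have hD2 : ∃ a ∈ D, ∃ b ∈ D, a ≠ b := by
    obtain ⟨a, ha, b, hb, hne, -⟩ := hw
    exact ⟨a, ha, b, hb, hne⟩
  have hcomm : ∀ a ∈ D, ∀ b ∈ D, a * b ∈ commutator G := by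
    intro a ha b hb
    obtain ⟨g, rfl⟩ := CfsgLib.Fischer.exists_conj_of_class hD ha hb
    rw [show a * (g * a * g⁻¹) = ⁅a, g⁆ by
      rw [commutatorElement_def, CfsgLib.Fischer.inv_eq hD.1 ha]; group]
    exact Subgroup.commutator_mem_commutator (Subgroup.mem_top a) (Subgroup.mem_top g)
  -- consequences of primitivity
  have hprimFacts : Cfsg.IsPrimitiveUnderConj D → (IsSimpleGroup (commutator G) ∧
      (Cfsg.pCore 2 G = ⊥ ∧ Cfsg.pCore 3 G = ⊥ ∧ (Cfsg.commutingGraph D).Connected)) := by
    intro hp
    have h2 := CfsgLib.Fischer.pCore_two_le_center_of_primitive hG hp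
    have h3 := CfsgLib.Fischer.pCore_three_le_center_of_primitive hG hp hw
    have hconn := CfsgLib.Fischer.connected_of_primitive hG hp hw
    refine ⟨?_, by rw [eq_bot_iff, ← hZ]; exact h2, by rw [eq_bot_iff, ← hZ]; exact h3, hconn⟩
    haveI := CfsgLib.Fischer.layer_normal G
    have hidx := CfsgLib.Fischer.index_le_two_of_connected hD hD2 h2 h3 hconn
    have hle : commutator G ≤ Cfsg.layer G := by
      rcases Nat.lt_or_ge (Cfsg.layer G).index 2 with h | h
      · have h0 : (Cfsg.layer G).index ≠ 0 := Subgroup.index_ne_zero_of_finite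
        rw [Subgroup.index_eq_one.1 (by omega : (Cfsg.layer G).index = 1)]
        exact le_top
      · have h21 : (Cfsg.layer G).index = 2 := by omega
        rw [commutator_def, Subgroup.commutator_le]
        intro x _ y _
        rw [commutatorElement_def, Subgroup.mul_mem_iff_of_index_two h21,
          Subgroup.mul_mem_iff_of_index_two h21, Subgroup.mul_mem_iff_of_index_two h21,
          inv_mem_iff, inv_mem_iff]
        tauto
    have hge : Cfsg.layer G ≤ commutator G := by
      rw [← CfsgLib.Cores.commutator_layer_self G, commutator_def]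
      exact Subgroup.commutator_mono le_top le_top
    rw [le_antisymm hle hge]
    have hQ := CfsgLib.Fischer.isQuasisimple_layer hD hD2 h2 h3
    have hcz : Subgroup.center (Cfsg.layer G) = ⊥ := by
      rw [eq_bot_iff]
      intro x hx
      have h1 : (x : G) ∈ Subgroup.center G :=
        CfsgLib.Fischer.centralizer_layer_le_center hD hD2 h2 h3 (Subgroup.mem_centralizer_iff.2
          fun y hy => congrArg Subtype.val (Subgroup.mem_center_iff.1 hx ⟨y, hy⟩))
      rw [hZ, Subgroup.mem_bot] at h1
      exact Subgroup.mem_bot.2 (Subtype.ext h1)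
    haveI := hQ.2
    haveI := CfsgLib.Cores.nontrivial_of_isQuasisimple hQ
    exact IsSimpleGroup.isSimpleGroup_of_surjective (QuotientGroup.quotientBot.toMonoidHom.comp
      (QuotientGroup.quotientMulEquivOfEq hcz).toMonoidHom)
      (QuotientGroup.quotientBot.surjective.comp (QuotientGroup.quotientMulEquivOfEq hcz).surjective)
  have hcrit : (Cfsg.pCore 2 G = ⊥ ∧ Cfsg.pCore 3 G = ⊥ ∧ (Cfsg.commutingGraph D).Connected) →
      Cfsg.IsPrimitiveUnderConj D := by
    rintro ⟨e2, e3, hconn⟩
    have h2 : Cfsg.pCore 2 G ≤ Subgroup.center G := by rw [e2]; exact bot_le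
    have h3 : Cfsg.pCore 3 G ≤ Subgroup.center G := by rw [e3]; exact bot_le
    exact CfsgLib.Fischer.primitive_of_index hD hD2 h2 h3
      (CfsgLib.Fischer.index_le_two_of_connected hD hD2 h2 h3 hconn)
  refine ⟨⟨fun hs => ?_, fun hp => (hprimFacts hp).1⟩, fun hp => (hprimFacts hp).2, hcrit⟩
  haveI := hs
  -- normal p-subgroups are trivial
  have hbot : ∀ p, p = 2 ∨ p = 3 → Cfsg.pCore p G = ⊥ := by
    intro p hp
    haveI hpr : Fact p.Prime := ⟨by rcases hp with rfl | rfl <;> norm_num⟩
    haveI := CfsgLib.Cores.pCore_characteristic p G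
    have hn : (Cfsg.pCore p G).Normal := inferInstance
    have hcases := (inferInstance : ((Cfsg.pCore p G).subgroupOf (commutator G)).Normal).eq_bot_or_eq_top
    rcases hcases with h | h
    · rw [eq_bot_iff, ← hZ]
      intro n hn'
      rw [Subgroup.mem_center_iff]
      intro g
      have h1 : ⁅g, n⁆ ∈ commutator G :=
        Subgroup.commutator_mem_commutator (Subgroup.mem_top g) (Subgroup.mem_top n)
      have h2 : ⁅g, n⁆ ∈ Cfsg.pCore p G := by
        rw [commutatorElement_def]; exact mul_mem (hn.conj_mem n hn' g) (inv_mem hn')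
      have h3 : (⟨_, h1⟩ : commutator G) ∈ (Cfsg.pCore p G).subgroupOf (commutator G) := h2
      rw [h, Subgroup.mem_bot] at h3
      exact commutatorElement_eq_one_iff_mul_comm.1 (congrArg Subtype.val h3)
    · exfalso
      have hle : commutator G ≤ Cfsg.pCore p G := Subgroup.subgroupOf_eq_top.1 h
      have hP : IsPGroup p (commutator G) := IsPGroup.to_le (CfsgLib.Cores.isPGroup_pCore p G) hle
      have hcp : Subgroup.center (commutator G) = ⊤ :=
        (inferInstance : (Subgroup.center (commutator G)).Normal).eq_bot_or_eq_top.resolve_left fun hb => by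
          have := hP.center_nontrivial
          rw [hb] at this
          exact not_subsingleton _ (inferInstance : Subsingleton (⊥ : Subgroup (commutator G)))
      obtain ⟨x, hx⟩ := exists_ne (1 : commutator G)
      have hz : Subgroup.zpowers x = ⊤ := by
        haveI : (Subgroup.zpowers x).Normal := ⟨fun n hn g => by
          rw [show g * n * g⁻¹ = n by
            rw [Subgroup.mem_center_iff.1 (hcp ▸ Subgroup.mem_top n : n ∈ Subgroup.center _) g,
              mul_inv_cancel_right]]
          exact hn⟩
        exact (inferInstance : (Subgroup.zpowers x).Normal).eq_bot_or_eq_top.resolve_left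
          fun hb => hx (Subgroup.zpowers_eq_bot.1 hb)
      rcases hp with rfl | rfl
      · -- a normal subgroup of order two is central
        have hx2 : orderOf x = 2 := by
          obtain ⟨y, hy⟩ := exists_prime_orderOf_dvd_card' 2 (G := commutator G) (by
            obtain ⟨k, hk⟩ := hP x
            have h2 := orderOf_dvd_of_pow_eq_one hk
            obtain ⟨j, -, hj⟩ := (Nat.dvd_prime_pow Nat.prime_two).1 h2
            have hj0 : j ≠ 0 := fun e => hx (orderOf_eq_one_iff.1 (by rw [hj, e, pow_zero]))
            exact (hj ▸ dvd_pow_self 2 hj0).trans (orderOf_dvd_natCard x))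
          have hz' : Subgroup.zpowers y = ⊤ := by
            haveI : (Subgroup.zpowers y).Normal := ⟨fun n hn g => by
              rw [show g * n * g⁻¹ = n by
                rw [Subgroup.mem_center_iff.1 (hcp ▸ Subgroup.mem_top n : n ∈ Subgroup.center _) g,
                  mul_inv_cancel_right]]
              exact hn⟩
            exact (inferInstance : (Subgroup.zpowers y).Normal).eq_bot_or_eq_top.resolve_left
              fun hb => by rw [Subgroup.zpowers_eq_bot.1 hb, orderOf_one] at hy; omega
          obtain ⟨k, hk⟩ : x ∈ Subgroup.zpowers y := hz' ▸ Subgroup.mem_top x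
          have := orderOf_dvd_of_pow_eq_one (x := x) (n := 2) (by
            rw [← hk, ← zpow_natCast, ← zpow_mul, mul_comm, zpow_mul, zpow_natCast, ← hy,
              pow_orderOf_eq_one, one_zpow])
          exact (Nat.prime_two.eq_one_or_self_of_dvd _ this).resolve_left
            fun e => hx (orderOf_eq_one_iff.1 e)
        have hxc : (x : G) ∈ Subgroup.center G := by
          rw [Subgroup.mem_center_iff]
          intro g
          have hconj : g * x * g⁻¹ ∈ commutator G :=
            Subgroup.Normal.conj_mem inferInstance _ x.2 g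
          obtain ⟨k, hk⟩ : (⟨_, hconj⟩ : commutator G) ∈ Subgroup.zpowers x := hz ▸ Subgroup.mem_top _
          have hk' : x ^ k = ⟨_, hconj⟩ := hk
          have hx22 : x ^ (2 : ℤ) = 1 := by
            rw [show (2 : ℤ) = ((2 : ℕ) : ℤ) from rfl, zpow_natCast, ← hx2, pow_orderOf_eq_one]
          rcases Int.even_or_odd' k with ⟨m, rfl | rfl⟩
          · rw [zpow_mul, hx22, one_zpow] at hk'
            have h1 : g * (x : G) * g⁻¹ = 1 := congrArg Subtype.val hk'.symm
            exact absurd (Subtype.ext (conj_eq_one_iff.1 h1)) hx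
          · rw [zpow_add, zpow_mul, hx22, one_zpow, one_mul, zpow_one] at hk'
            have h1 : g * (x : G) * g⁻¹ = x := congrArg Subtype.val hk'.symm
            exact mul_inv_eq_iff_eq_mul.1 h1
        rw [hZ, Subgroup.mem_bot] at hxc
        exact hx (Subtype.ext hxc)
      · -- a commuting pair gives an involution in a 3-group
        obtain ⟨a, ha, b, hb, hne, hab⟩ := hw
        exact hne (CfsgLib.Fischer.eq_of_isPGroup_three hD.1 hP ha hb (hcomm a ha b hb) hab)
  have h2 : Cfsg.pCore 2 G ≤ Subgroup.center G := by rw [hbot 2 (Or.inl rfl)]; exact bot_le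
  have h3 : Cfsg.pCore 3 G ≤ Subgroup.center G := by rw [hbot 3 (Or.inr rfl)]; exact bot_le
  haveI := CfsgLib.Fischer.layer_normal G
  have hge : Cfsg.layer G ≤ commutator G := by
    rw [← CfsgLib.Cores.commutator_layer_self G, commutator_def]
    exact Subgroup.commutator_mono le_top le_top
  have heq : commutator G ≤ Cfsg.layer G := by
    rcases (inferInstance : ((Cfsg.layer G).subgroupOf (commutator G)).Normal).eq_bot_or_eq_top with h | h
    · exfalso
      apply CfsgLib.Fischer.layer_ne_bot hD hD2 h2 h3
      rw [eq_bot_iff]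
      intro x hx
      have h3 : (⟨x, hge hx⟩ : commutator G) ∈ (Cfsg.layer G).subgroupOf (commutator G) := hx
      rw [h, Subgroup.mem_bot] at h3
      exact Subgroup.mem_bot.2 (congrArg Subtype.val h3)
    · exact Subgroup.subgroupOf_eq_top.1 h
  obtain ⟨a, ha, -⟩ := id hD2
  exact CfsgLib.Fischer.primitive_of_index hD hD2 h2 h3
    (CfsgLib.Fischer.index_le_two_of_images hD hD2 h2 h3 ha fun x hx => heq (hcomm a ha x hx))

end Cfsg.Agent.S5361
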