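import Cfsg.Statements.S5363
import Cfsg.Agent.Lib.Fischer.Basic

set_option autoImplicit false
open Cfsg

namespace Cfsg.Agent.S5363

/-- Let D be a conjugation-invariant set of involutions of a finite group G. Then every product of two members of D has odd order or order 2 if and only if, for every a in D and every b in D different from a and commuting with a, the members of D commuting with a b are exactly those commuting with both a and b. -/
theorem result {G : Type*} [Group G] [Finite G] {D : Set G} (hinv : ∀ d ∈ D, orderOf d = 2) (hconj : ∀ g : G, ∀ d ∈ D, g * d * g⁻¹ ∈ D) : (∀ a ∈ D, ∀ b ∈ D, Odd (orderOf (a * b)) ∨ orderOf (a * b) = 2) ↔ ∀ a ∈ D, ∀ b ∈ D, b ≠ a → Commute a b → {y : G | y ∈ D ∧ Commute (a * b) y} = {y : G | y ∈ D ∧ Commute a y} ∩ {y : G | y ∈ D ∧ Commute b y} := by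
  have hsq : ∀ {x}, x ∈ D → x * x = 1 := fun hx => CfsgLib.Fischer.sq_of_orderOf (hinv _ hx)
  have hinv' : ∀ {x}, x ∈ D → x⁻¹ = x := fun hx => CfsgLib.Fischer.inv_of_orderOf (hinv _ hx)
  constructor
  · intro h a ha b hb hne hab
    ext y
    constructor
    · rintro ⟨hy, hc⟩
      have hya : Commute a y := by
        by_contra hnc
        have hyne : y ≠ a := fun e => hnc (e ▸ Commute.refl a)
        have hodd : Odd (orderOf (y * a)) := by
          rcases h y hy a ha with h1 | h1
          · exact h1
          · exfalso
            have h2 := CfsgLib.Fischer.inv_of_orderOf h1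
            rw [mul_inv_rev, hinv' hy, hinv' ha] at h2
            exact hnc h2
        have ht : orderOf (a * b) = 2 := by
          refine orderOf_eq_prime ?_ ?_
          · rw [hab.mul_pow, pow_two, pow_two, hsq ha, hsq hb, one_mul]
          · intro h1
            rw [mul_eq_one_iff_eq_inv, hinv' hb] at h1
            exact hne h1.symm
        have hca : Commute (a * b) a := (Commute.refl a).mul_left hab.symm
        have hct : Commute (y * a) (a * b) := hc.symm.mul_left hca.symm
        have hyb : y * b = y * a * (a * b) := by
          rw [show y * a * (a * b) = y * (a * a) * b by group, hsq ha, mul_one]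
        have hord : orderOf (y * b) = orderOf (y * a) * 2 := by
          rw [hyb, hct.orderOf_mul_eq_mul_orderOf_of_coprime, ht]
          rw [ht]
          exact (Nat.coprime_two_right.2 hodd)
        rcases h y hy b hb with h1 | h1
        · rw [hord] at h1
          exact Nat.not_odd_iff_even.2 (even_two.mul_left _) h1
        · rw [hord] at h1
          have : orderOf (y * a) = 1 := by omega
          rw [orderOf_eq_one_iff, mul_eq_one_iff_eq_inv, hinv' ha] at this
          exact hyne this
      have hyb : Commute b y := by
        have h2 : b = a * (a * b) := by rw [← mul_assoc, hsq ha, one_mul]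
        rw [h2]
        exact hya.mul_left hc
      exact ⟨⟨hy, hya⟩, hy, hyb⟩
    · rintro ⟨⟨hy, h1⟩, -, h2⟩
      exact ⟨hy, h1.mul_left h2⟩
  · intro h a ha b hb
    rcases Nat.even_or_odd (orderOf (a * b)) with ⟨m, hm⟩ | ho
    · right
      have hpos := orderOf_pos (a * b)
      have hm0 : 0 < m := by omega
      set z := (a * b) ^ m with hz
      have hz2 : z * z = 1 := by rw [hz, ← pow_add, ← hm, pow_orderOf_eq_one]
      have hz1 : z ≠ 1 := fun e => by
        have := Nat.le_of_dvd hm0 (orderOf_dvd_of_pow_eq_one e)
        omega
      have hflip : a * (a * b) = (a * b)⁻¹ * a := by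
        rw [mul_inv_rev, hinv' ha, hinv' hb, mul_assoc, hsq ha, mul_one, ← mul_assoc, hsq ha, one_mul]
      have key : ∀ n : ℕ, a * (a * b) ^ n ∈ D ∧ a * (a * b) ^ (n + 1) ∈ D := by
        intro n
        induction n with
        | zero => exact ⟨by simpa using ha, by rw [pow_one, ← mul_assoc, hsq ha, one_mul]; exact hb⟩
        | succ k ih =>
          refine ⟨ih.2, ?_⟩
          have e : a * (a * b) ^ (k + 1 + 1) = (a * b)⁻¹ * (a * (a * b) ^ k) * (a * b)⁻¹⁻¹ := by
            rw [inv_inv, ← mul_assoc ((a * b)⁻¹) a, ← hflip, pow_succ, pow_succ']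
            simp only [mul_assoc]
          rw [e]
          exact hconj _ _ ih.1
      have hazD : a * z ∈ D := (key m).1
      have hcaz : Commute a z := by
        have h1 : a * z * a * z = 1 := by
          rw [← hsq hazD]; group
        have h3 : a * z * a = z := by
          rw [eq_inv_of_mul_eq_one_left h1, inv_eq_of_mul_eq_one_right hz2]
        show a * z = z * a
        nth_rw 2 [← h3]
        rw [mul_assoc, hsq ha, mul_one]
      have hne : a * z ≠ a := fun e => hz1 (mul_eq_left.1 e)
      have hcom : Commute a (a * z) := (Commute.refl a).mul_right hcaz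
      have hset := h a ha (a * z) hazD hne hcom
      have hzz : a * (a * z) = z := by rw [← mul_assoc, hsq ha, one_mul]
      rw [hzz] at hset
      have hbz : Commute z b := by
        have hcb : Commute z (a * b) := (Commute.refl (a * b)).pow_left m
        have e : b = a * (a * b) := by rw [← mul_assoc, hsq ha, one_mul]
        rw [e]
        exact hcaz.symm.mul_right hcb
      have hb' : b ∈ {y : G | y ∈ D ∧ Commute a y} ∩ {y : G | y ∈ D ∧ Commute (a * z) y} := hset ▸ ⟨hb, hbz⟩
      have hab : Commute a b := hb'.1.2
      refine orderOf_eq_prime ?_ ?_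
      · rw [hab.mul_pow, pow_two, pow_two, hsq ha, hsq hb, one_mul]
      · intro h1
        rw [h1, orderOf_one] at hm
        omega
    · exact Or.inl ho

end Cfsg.Agent.S5363
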