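import Cfsg.Statements.S5364
import Cfsg.Agent.Lib.Fischer.Basic

set_option autoImplicit false
open Cfsg

namespace Cfsg.Agent.S5364

/-- Let D be a conjugation-invariant set of involutions of a finite group G and t an involution in the centre of G such that d t does not lie in D for any d in D. If the images of the members of D in G modulo the subgroup generated by t satisfy the 3-transposition order conditions (each has order 2 and any two have product of order at most 3), then so do the members of D. -/
theorem result {G : Type*} [Group G] [Finite G] {D : Set G} (hinv : ∀ d ∈ D, orderOf d = 2) (hconj : ∀ g : G, ∀ d ∈ D, g * d * g⁻¹ ∈ D) (t : G) (ht : orderOf t = 2) (htZ : t ∈ Subgroup.center G) (hDt : ∀ d ∈ D, d * t ∉ D) [(Subgroup.zpowers t).Normal] (himg : Cfsg.IsThreeTranspositionSet ((QuotientGroup.mk : G → G ⧸ Subgroup.zpowers t) '' D)) : Cfsg.IsThreeTranspositionSet D := by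
  have hsq : ∀ {x}, x ∈ D → x * x = 1 := fun hx => CfsgLib.Fischer.sq_of_orderOf (hinv _ hx)
  have hinv' : ∀ {x}, x ∈ D → x⁻¹ = x := fun hx => CfsgLib.Fischer.inv_of_orderOf (hinv _ hx)
  refine ⟨hinv, fun d hd e he => ?_⟩
  have htt : t * t = 1 := CfsgLib.Fischer.sq_of_orderOf ht
  have htc : ∀ g, Commute t g := fun g => (Subgroup.mem_center_iff.1 htZ g).symm
  have hz : ∀ {x : G}, x ∈ Subgroup.zpowers t → x = 1 ∨ x = t := by
    intro x hx
    obtain ⟨k, rfl⟩ := hx
    have h2 : t ^ (2 : ℤ) = 1 := by
      rw [show (2 : ℤ) = ((2 : ℕ) : ℤ) from rfl, zpow_natCast, pow_two, htt]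
    rcases Int.even_or_odd' k with ⟨m, rfl | rfl⟩
    · left; simp [zpow_mul, h2]
    · right; simp [zpow_add, zpow_mul, h2]
  have himg' := himg.2 _ ⟨d, hd, rfl⟩ _ ⟨e, he, rfl⟩
  simp only [← QuotientGroup.mk_mul, ← QuotientGroup.mk_pow, QuotientGroup.eq_one_iff] at himg'
  rcases himg' with h2 | h3
  · rcases hz h2 with h | h
    · exact Or.inl h
    · exfalso
      apply hDt d hd
      have : d * t = e * d * e⁻¹ := by
        rw [← h, pow_two, hinv' he]
        calc d * (d * e * (d * e)) = (d * d) * e * d * e := by group
          _ = e * d * e := by rw [hsq hd, one_mul]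
      rw [this]
      exact hconj e d hd
  · rcases hz h3 with h | h
    · exact Or.inr h
    · exfalso
      apply hDt e he
      have : e * t = (e * d * e) * d * (e * d * e)⁻¹ := by
        rw [← h, pow_three, mul_inv_rev, mul_inv_rev, hinv' he, hinv' hd]
        group
      rw [this]
      exact hconj _ d hd

end Cfsg.Agent.S5364
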