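import Cfsg.Statements.S5372
import Cfsg.Agent.Lib.Fischer.M22Unique.Iso
import Cfsg.Agent.Lib.Fischer.M23Unique.Iso
import Cfsg.Agent.Lib.Fischer.UniqueTwentyFour.Iso

set_option autoImplicit false
open Cfsg

namespace Cfsg.Agent.S5372

open CfsgLib.Fischer CfsgLib.InvChar.FischerProducts in
/-- The local quotient of type M(23) is the presented group. -/
theorem local_equiv {G : Type*} [Group G] [Finite G] {D : Set G} (hD : Cfsg.IsThreeTranspositionGroup D)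
    (hprim : Cfsg.IsPrimitiveUnderConj D) (ht : Cfsg.IsOfTypeM24 G D) {d : G} (hd : d ∈ D) :
    ∃ e : Cfsg.Spor.Fi23 ≃* (Subgroup.closure (perp D d) ⧸ Subgroup.center (Subgroup.closure (perp D d))),
      e '' conjugatesOf (PresentedGroup.of Cfsg.Spor.Fi23.Gen.a) =
        imageSet D d (Subgroup.closure (perp D d)) := by
  have hg := TypeTwentyFour.good_at hD hprim ht hd
  have hp := TypeTwentyFour.primitive_at hD hprim ht hd
  have h23 := TypeTwentyFour.type23_at hD hprim ht hd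
  exact M23Unique.exists_equiv hg.tt hp h23 fun z hz =>
    M22Unique.exists_equiv (TypeTwentyThree.good_at hg.tt hp h23 hz).tt
      (TypeTwentyThree.primitive_at hg.tt hp h23 hz) (TypeTwentyThree.type22_at hg.tt hp h23 hz)

/-- Uniqueness of the 3-transposition groups of type M(24). Let G₁ and G₂ be finite groups with trivial centres, each generated by a conjugation-invariant set of 3-transpositions Dᵢ on which it acts primitively, such that for some member d of Dᵢ the subgroup generated by the members of Dᵢ other than d commuting with d has central largest normal 2- and 3-subgroups, and suppose each Gᵢ with Dᵢ is of type M(24). Then there is an isomorphism from G₁ to G₂ carrying D₁ onto D₂. -/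
theorem result {G₁ G₂ : Type*} [Group G₁] [Finite G₁] [Group G₂] [Finite G₂] {D₁ : Set G₁} {D₂ : Set G₂} (hD₁ : Cfsg.IsThreeTranspositionGroup D₁) (hprim₁ : Cfsg.IsPrimitiveUnderConj D₁) (hZ₁ : Subgroup.center G₁ = ⊥) (d₁ : G₁) (hd₁ : d₁ ∈ D₁) (h3₁ : Cfsg.pCore 3 ↥(Subgroup.closure {y : G₁ | y ∈ D₁ ∧ y ≠ d₁ ∧ Commute d₁ y}) ≤ Subgroup.center ↥(Subgroup.closure {y : G₁ | y ∈ D₁ ∧ y ≠ d₁ ∧ Commute d₁ y})) (h2₁ : Cfsg.pCore 2 ↥(Subgroup.closure {y : G₁ | y ∈ D₁ ∧ y ≠ d₁ ∧ Commute d₁ y}) ≤ Subgroup.center ↥(Subgroup.closure {y : G₁ | y ∈ D₁ ∧ y ≠ d₁ ∧ Commute d₁ y})) (hD₂ : Cfsg.IsThreeTranspositionGroup D₂) (hprim₂ : Cfsg.IsPrimitiveUnderConj D₂) (hZ₂ : Subgroup.center G₂ = ⊥) (d₂ : G₂) (hd₂ : d₂ ∈ D₂) (h3₂ : Cfsg.pCore 3 ↥(Subgroup.closure {y : G₂ | y ∈ D₂ ∧ y ≠ d₂ ∧ Commute d₂ y}) ≤ Subgroup.center ↥(Subgroup.closure {y : G₂ | y ∈ D₂ ∧ y ≠ d₂ ∧ Commute d₂ y})) (h2₂ : Cfsg.pCore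 2 ↥(Subgroup.closure {y : G₂ | y ∈ D₂ ∧ y ≠ d₂ ∧ Commute d₂ y}) ≤ Subgroup.center ↥(Subgroup.closure {y : G₂ | y ∈ D₂ ∧ y ≠ d₂ ∧ Commute d₂ y})) (ht₁ : Cfsg.IsOfTypeM24 G₁ D₁) (ht₂ : Cfsg.IsOfTypeM24 G₂ D₂) : ∃ e : G₁ ≃* G₂, e '' D₁ = D₂ := by
  obtain ⟨e₁, he₁⟩ := local_equiv hD₁ hprim₁ ht₁ hd₁
  obtain ⟨e₂, he₂⟩ := local_equiv hD₂ hprim₂ ht₂ hd₂
  refine CfsgLib.Fischer.UniqueTwentyFour.exists_equiv_of_local hD₁ hprim₁ ht₁ hD₂ hprim₂ ht₂ hd₁ hd₂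
    (e₁.symm.trans e₂) ?_
  rw [← he₁, ← he₂, Set.image_image]
  simp only [MulEquiv.trans_apply, MulEquiv.symm_apply_apply]

end Cfsg.Agent.S5372
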