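import Cfsg.Statements.S5378
import Cfsg.Agent.Lib.ConwayType.Build
import Cfsg.Agent.Lib.ConwayType.Main

set_option autoImplicit false
open Cfsg

namespace Cfsg.Agent.S5378

/-- Let G be a finite group of Conway type: it has an involution z whose centralizer C has generalized Fitting subgroup Q extraspecial of order 2^9 with C/Q isomorphic to the commutator subgroup of the isometry group of the hyperbolic quadratic form in dimension 8 over the field with two elements, and some conjugate of z other than z lies in Q. Then G has exactly three conjugacy classes of involutions. -/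
theorem result {G : Type*} [Group G] [Finite G] (z : G) (hz : orderOf z = 2) (Q : Subgroup (Subgroup.centralizer ({z} : Set G))) [Q.Normal] (hF : Cfsg.generalizedFittingSubgroup (Subgroup.centralizer ({z} : Set G)) = Q) (hQ : Cfsg.IsExtraspecial 2 Q) (hcard : Nat.card Q = 2 ^ 9) (e : (Subgroup.centralizer ({z} : Set G)) ⧸ Q ≃* Cfsg.Omega (ZMod 2) (Cfsg.quadFormPlus 4 (ZMod 2))) (hnwc : ∃ g : G, (∃ hq : g * z * g⁻¹ ∈ Subgroup.centralizer ({z} : Set G), (⟨g * z * g⁻¹, hq⟩ : Subgroup.centralizer ({z} : Set G)) ∈ Q) ∧ g * z * g⁻¹ ≠ z) : ∃ a b c : G, orderOf a = 2 ∧ orderOf b = 2 ∧ orderOf c = 2 ∧ ¬ IsConj a b ∧ ¬ IsConj a c ∧ ¬ IsConj b c ∧ ∀ x : G, orderOf x = 2 → IsConj x a ∨ IsConj x b ∨ IsConj x c := by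
  obtain ⟨Qf, θ, ρ, J, S, hmem⟩ :=
    CfsgLib.ConwayType.exists_setting z hz Q hF hQ hcard e
  obtain ⟨g, ⟨hq, hqQ⟩, hne⟩ := hnwc
  obtain ⟨y, h, P⟩ := S.exists_pairSetting ((hmem _ hq).2 hqQ) hne
  obtain ⟨s₀, u₀, T0⟩ := P.exists_rep_of CfsgLib.ConwayType.mid_cV CfsgLib.ConwayType.uV
  obtain ⟨s₁, u₁, T1⟩ := P.exists_rep_of CfsgLib.ConwayType.mid_e2V CfsgLib.ConwayType.e3V
  have hQ2 : IsPGroup 2 ↥(Qf z) := S.core.extra.1.1
  have ht0 := P.rep_involution (P.data0 T0)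
  have ht1 := P.rep_involution (P.data1 T1)
  refine ⟨z, s₁ * u₁, s₀ * u₀, hz, orderOf_eq_prime_iff.2 ⟨by rw [pow_two]; exact ht1.1, ht1.2⟩,
    orderOf_eq_prime_iff.2 ⟨by rw [pow_two]; exact ht0.1, ht0.2⟩,
    P.not_isConj_t1 T1, P.not_isConj_t0 T0, fun hc => P.not_isConj_t0_t1 T0 T1 hc.symm,
    fun x hx => ?_⟩
  obtain ⟨c, hc⟩ := S.exists_conj_comm hQ2 hx
  obtain ⟨h2, h1⟩ := S.conj_involution (c := c) (i := x)
    (by rw [← pow_two, ← hx, pow_orderOf_eq_one]) (fun e1 => by rw [e1, orderOf_one] at hx; omega)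
  have hxc : IsConj x (c * x * c⁻¹) := isConj_iff.2 ⟨c, rfl⟩
  rcases P.isConj_cases T0 T1 hc h2 h1 with e1 | e1 | e1
  exacts [Or.inl (hxc.trans e1), Or.inr (Or.inl (hxc.trans e1)), Or.inr (Or.inr (hxc.trans e1))]

end Cfsg.Agent.S5378
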