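import Cfsg.Statements.S5379
import Cfsg.Agent.Lib.SuzukiType.Build

set_option autoImplicit false
open Cfsg

namespace Cfsg.Agent.S5379

/-- Let G be a finite group of Suzuki sporadic type: it has an involution z whose centralizer C has generalized Fitting subgroup Q extraspecial of order 2^7 with C/Q isomorphic to the commutator subgroup of the isometry group of the elliptic quadratic form in dimension 6 over the field with two elements, and some conjugate of z other than z lies in Q. Then G has exactly two conjugacy classes of involutions. -/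
theorem result {G : Type*} [Group G] [Finite G] (z : G) (hz : orderOf z = 2) (Q : Subgroup (Subgroup.centralizer ({z} : Set G))) [Q.Normal] (hF : Cfsg.generalizedFittingSubgroup (Subgroup.centralizer ({z} : Set G)) = Q) (hQ : Cfsg.IsExtraspecial 2 Q) (hcard : Nat.card Q = 2 ^ 7) (e : (Subgroup.centralizer ({z} : Set G)) ⧸ Q ≃* Cfsg.Omega (ZMod 2) (Cfsg.quadFormMinus 2 (ZMod 2) 1 1)) (hnwc : ∃ g : G, (∃ hq : g * z * g⁻¹ ∈ Subgroup.centralizer ({z} : Set G), (⟨g * z * g⁻¹, hq⟩ : Subgroup.centralizer ({z} : Set G)) ∈ Q) ∧ g * z * g⁻¹ ≠ z) : ∃ a b : G, orderOf a = 2 ∧ orderOf b = 2 ∧ ¬ IsConj a b ∧ ∀ x : G, orderOf x = 2 → IsConj x a ∨ IsConj x b := by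
  obtain ⟨Qf, θ, ρ, J, S, hmem⟩ :=
    CfsgLib.SuzukiType.exists_setting z hz Q hF hQ hcard e
  obtain ⟨g, ⟨hq, hqQ⟩, hne⟩ := hnwc
  obtain ⟨y, h, P⟩ := S.exists_pairSetting ((hmem _ hq).2 hqQ) hne
  obtain ⟨s, u, T0⟩ := P.exists_T0
  have hQ2 : IsPGroup 2 ↥(Qf z) := S.core.extra.1.1
  have ht := P.t0_involution T0
  refine ⟨z, s * u, hz, orderOf_eq_prime_iff.2 ⟨by rw [pow_two]; exact ht.1, ht.2⟩,
    P.not_isConj T0, fun x hx => ?_⟩
  obtain ⟨c, hc⟩ := S.exists_conj_comm hQ2 hx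
  obtain ⟨h2, h1⟩ := S.conj_involution (c := c) (i := x)
    (by rw [← pow_two, ← hx, pow_orderOf_eq_one]) (fun e1 => by rw [e1, orderOf_one] at hx; omega)
  have hxc : IsConj x (c * x * c⁻¹) := isConj_iff.2 ⟨c, rfl⟩
  rcases P.isConj_cases T0 hc h2 h1 with e1 | e1
  · exact Or.inl (hxc.trans e1)
  · exact Or.inr (hxc.trans e1)

end Cfsg.Agent.S5379
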