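import Cfsg.Statements.S5389
import Cfsg.Agent.Lib.SuzCo0.Cent
-- import your own Cfsg.Agent.* helpers here

set_option autoImplicit false
open Cfsg

namespace Cfsg.Agent.S5389

/-- A simple section of the automorphism group of the Leech lattice satisfying the Suzuki-sporadic-type hypothesis (the group so obtained is the sporadic Suzuki group; that identification is not part of this statement): there is a subgroup A of order 3 of that automorphism group such that the centralizer of A modulo the subgroup generated by A and the centre of the automorphism group is a non-abelian simple group satisfying the large extraspecial hypothesis of minus type in dimension 6 — an involution whose centralizer has extraspecial generalized Fitting subgroup of order 2^7 with quotient the commutator subgroup of the isometry group of the elliptic quadratic form in dimension 6 over the field with two elements, the involution not weakly closed in that extraspecial group. -/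
theorem result : ∃ A : Subgroup ↥Cfsg.Co0, Nat.card A = 3 ∧ ∃ (hn : ((A ⊔ Subgroup.center ↥Cfsg.Co0).subgroupOf (Subgroup.centralizer (A : Set ↥Cfsg.Co0))).Normal), ∃ (S : Type) (_ : Group S) (_ : Finite S), Nonempty (S ≃* ↥(Subgroup.centralizer (A : Set ↥Cfsg.Co0)) ⧸ (A ⊔ Subgroup.center ↥Cfsg.Co0).subgroupOf (Subgroup.centralizer (A : Set ↥Cfsg.Co0))) ∧ IsSimpleGroup S ∧ ¬ IsMulCommutative S ∧ ∃ z : S, orderOf z = 2 ∧ ∃ (Q : Subgroup (Subgroup.centralizer ({z} : Set S))) (_ : Q.Normal), Cfsg.generalizedFittingSubgroup (Subgroup.centralizer ({z} : Set S)) = Q ∧ Cfsg.IsExtraspecial 2 Q ∧ Nat.card Q = 2 ^ 7 ∧ Nonempty ((Subgroup.centralizer ({z} : Set S)) ⧸ Q ≃* Cfsg.Omega (ZMod 2) (Cfsg.quadFormMinus 2 (ZMod 2) 1 1)) ∧ ∃ g : S, (∃ hq : g * z * g⁻¹ ∈ Subgroup.centralizer ({z} : Set S), (⟨g * z * g⁻¹, hq⟩ : Subgroup.centralizer ({z} : Set S)) ∈ Q) ∧ g * z * g⁻¹ ≠ z := by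
  obtain ⟨hS, hcard⟩ := Cfsg.Agent.S1694.result
  have e := CfsgLib.SuzCo0.sectionEquiv
  refine ⟨CfsgLib.SuzCo0.aGroup, CfsgLib.SuzCo0.card_aGroup, CfsgLib.SuzCo0.normal_modGroup,
    CfsgLib.SuzCo0.Cent.Sx, inferInstance, inferInstance, ⟨MulEquiv.refl _⟩,
    (haveI := hS; e.symm.isSimpleGroup), ?_, CfsgLib.SuzCo0.Cent.zS,
    CfsgLib.SuzCo0.Cent.orderOf_zS, CfsgLib.SuzCo0.Cent.QH, inferInstance,
    CfsgLib.SuzCo0.Cent.generalizedFitting_H, CfsgLib.SuzCo0.Cent.isExtraspecial_QH,
    CfsgLib.SuzCo0.Cent.card_QH, ⟨CfsgLib.SuzCo0.Cent.quotEquiv⟩, CfsgLib.SuzCo0.Cent.exists_fused⟩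
  intro h
  haveI : IsSimpleGroup CfsgLib.SuzCo0.Cent.Sx := by haveI := hS; exact e.symm.isSimpleGroup
  haveI := h
  letI : CommGroup CfsgLib.SuzCo0.Cent.Sx :=
    { (inferInstance : Group CfsgLib.SuzCo0.Cent.Sx) with mul_comm := mul_comm' }
  have hp := IsSimpleGroup.prime_card (α := CfsgLib.SuzCo0.Cent.Sx)
  rw [← Nat.card_congr e.toEquiv, hcard] at hp
  norm_num at hp

end Cfsg.Agent.S5389
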