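import Cfsg.Statements.S5392
import Cfsg.Agent.Lib.Fischer.LeechIrred

set_option autoImplicit false
open Cfsg

namespace Cfsg.Agent.S5392

/-- The Leech lattice modulo twice itself is a faithful irreducible module for the first Conway group: an automorphism of the rank-24 lattice built from the length-24 code that moves every lattice vector only by twice a lattice vector lies in the centre of the automorphism group (the centre consists of ±1, which act trivially there, so the kernel is exactly the centre), and an additive subgroup lying between twice the lattice and the lattice that is invariant under all lattice automorphisms is one of the two. -/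
theorem result : (∀ g : ↥Cfsg.Co0, (∀ v : ↥Cfsg.leechLattice, ∃ w : ↥Cfsg.leechLattice, ((g • v : ↥Cfsg.leechLattice) : Cfsg.GolayPt → ℤ) - (v : Cfsg.GolayPt → ℤ) = 2 • (w : Cfsg.GolayPt → ℤ)) → g ∈ Subgroup.center ↥Cfsg.Co0) ∧ ∀ M : AddSubgroup (Cfsg.GolayPt → ℤ), (∀ v ∈ Cfsg.leechLattice, (2 : ℤ) • v ∈ M) → M ≤ Cfsg.leechLattice → (∀ g : ↥Cfsg.Co0, ∀ v : ↥Cfsg.leechLattice, (v : Cfsg.GolayPt → ℤ) ∈ M → ((g • v : ↥Cfsg.leechLattice) : Cfsg.GolayPt → ℤ) ∈ M) → (∀ x ∈ M, ∃ w ∈ Cfsg.leechLattice, x = (2 : ℤ) • w) ∨ M = Cfsg.leechLattice := by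
  refine ⟨fun g hg => CfsgLib.Fischer.LeechIrred.mem_center_of_fixed fun v => ?_, fun M h2 hle hinv => ?_⟩
  · obtain ⟨w, hw⟩ := hg v
    refine ⟨w, Subtype.ext ?_⟩
    show ((g • v : ↥Cfsg.leechLattice) : Cfsg.GolayPt → ℤ) =
      (v : Cfsg.GolayPt → ℤ) + ((w : Cfsg.GolayPt → ℤ) + w)
    rw [← two_nsmul, ← hw]
    abel
  · let W : AddSubgroup ↥Cfsg.leechLattice := M.comap Cfsg.leechLattice.subtype
    have h2W : ∀ u : ↥Cfsg.leechLattice, u + u ∈ W := fun u => by
      show ((u : Cfsg.GolayPt → ℤ) + u) ∈ M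
      rw [← two_zsmul]
      exact h2 _ u.2
    by_cases hall : ∀ x ∈ M, ∃ w ∈ Cfsg.leechLattice, x = (2 : ℤ) • w
    · exact Or.inl hall
    · right
      push Not at hall
      obtain ⟨x, hx, hn⟩ := hall
      have hA := CfsgLib.Fischer.LeechIrred.vecA_mem (W := W) (fun g f hf => hinv g f hf) h2W
        (f₀ := ⟨x, hle hx⟩) hx (fun ⟨w, hw⟩ => hn w w.2 (by
          rw [two_zsmul]
          exact congrArg Subtype.val hw))
      have htop := CfsgLib.Fischer.LeechIrred.eq_top (W := W) (fun g f hf => hinv g f hf) h2W hA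
      refine le_antisymm hle fun v hv => ?_
      exact (AddSubgroup.eq_top_iff' W).1 htop ⟨v, hv⟩

end Cfsg.Agent.S5392
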