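import Cfsg.Statements.S5394
import Cfsg.Agent.Lib.ExtraspecialLarge.M24Classes

set_option autoImplicit false
open Cfsg
open scoped Pointwise

namespace Cfsg.Agent.S5394

/-- The automorphism group of the length-24 code built from the squares modulo 23 has exactly two conjugacy classes of involutions: an involution either fixes exactly the eight points of an octad or has no fixed points, both kinds occur, and any two involutions of the same kind are conjugate in the group. -/
theorem result : (∀ g ∈ Cfsg.M24, orderOf g = 2 → (Finset.univ.filter fun p => g p = p) ∈ Cfsg.octads ∨ ∀ p, g p ≠ p) ∧ (∃ g ∈ Cfsg.M24, orderOf g = 2 ∧ (Finset.univ.filter fun p => g p = p) ∈ Cfsg.octads) ∧ (∃ g ∈ Cfsg.M24, orderOf g = 2 ∧ ∀ p, g p ≠ p) ∧ ∀ g ∈ Cfsg.M24, ∀ h ∈ Cfsg.M24, orderOf g = 2 → orderOf h = 2 → ((∀ p, g p ≠ p) ↔ (∀ p, h p ≠ p)) → ∃ k ∈ Cfsg.M24, k * g * k⁻¹ = h := by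
  classical
  open CfsgLib.Golay CfsgLib.ExtraspecialLarge.M24Classes in
  (
  obtain ⟨hf2, hn2, -⟩ := rep_checks
  have hmask : ∃ o : ℕ, inCode o = true ∧ popc o = 8 ∧ ∀ p : GolayPt,
      (tblAt repFix2 (idx p) = idx p ↔ o.testBit (idx p) = true) :=
    ⟨((List.range 24).map fun j => if tblAt repFix2 j = j then 2 ^ j else 0).sum, by decide +kernel⟩
  have octa : ∀ g ∈ Cfsg.M24, ∀ w ∈ Cfsg.M24, ∀ r : Equiv.Perm GolayPt, IsTbl r repFix2 →
      w * r * w⁻¹ = g → (Finset.univ.filter fun p => g p = p) ∈ Cfsg.octads := by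
    intro g _ w hw r hr he
    obtain ⟨o, hoC, ho8, ho⟩ := hmask
    have hu : (Finset.univ.filter fun p => g p = p) = w • unmask o := by
      subst he
      ext p
      rw [Finset.mem_filter, Finset.mem_smul_finset]
      constructor
      · rintro ⟨-, hp⟩
        refine ⟨w⁻¹ p, mem_unmask.2 ((ho _).1 ?_), by simp⟩
        rw [← hr]
        congr 1
        apply w.injective
        simpa using hp
      · rintro ⟨q, hq, rfl⟩
        refine ⟨Finset.mem_univ _, ?_⟩
        have hq' : r q = q := idx_injective ((hr q).trans ((ho q).2 (mem_unmask.1 hq)))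
        simp [hq']
    rw [hu]
    exact smul_mem_octads hw (mem_octads_iff.2 ⟨o, inCode_iff.1 hoC, ho8, rfl⟩)
  have free : ∀ g : Equiv.Perm GolayPt, (Finset.univ.filter fun p => g p = p).card = 0 → ∀ p, g p ≠ p := by
    intro g hg p hp
    have hmem : p ∈ Finset.univ.filter fun p => g p = p := by simp [hp]
    rw [Finset.card_eq_zero.1 hg] at hmem
    simp at hmem
  have notfree : ∀ g : Equiv.Perm GolayPt, (Finset.univ.filter fun p => g p = p).card = 8 → ¬ ∀ p, g p ≠ p := by
    intro g hg h
    rw [Finset.filter_false_of_mem fun p _ => h p] at hg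
    simp at hg
  have mkrep : ∀ t : ℕ, inM24 t = true → ((List.range 24).all fun x => iterAt t 2 x == x) = true →
      (Finset.univ.filter fun p : GolayPt => tblAt t (idx p) = idx p).card ≠ 24 →
      ∃ g ∈ Cfsg.M24, IsTbl g t ∧ orderOf g = 2 := by
    intro t ht h3 hfix
    obtain ⟨g, hg⟩ := exists_isTbl (show okTbl t = true by
      simp only [inM24, Bool.and_eq_true] at ht; exact ht.1)
    refine ⟨g, mem_M24_of_isTbl hg ht, hg, orderOf_eq_prime ?_ ?_⟩
    · refine Equiv.ext fun p => idx_injective ?_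
      rw [iterAt_spec hg p 2, Equiv.Perm.one_apply]
      simp only [List.all_eq_true, List.mem_range, beq_iff_eq] at h3
      exact h3 _ (idx_lt p)
    · rintro rfl
      apply hfix
      rw [← card_fixed hg]
      simp [Finset.card_univ, GolayPt]
  refine ⟨fun g hg ho => ?_, ?_, ?_, fun g hg h hh hog hoh hiff => ?_⟩
  · rcases involution_cases hg ho with ⟨-, w, hw, r, hr, he⟩ | ⟨h0, -⟩
    · exact Or.inl (octa g hg w hw r hr he)
    · exact Or.inr (free g h0)
  · obtain ⟨g, hg, ht, ho⟩ := mkrep _ hf2 (by decide +kernel) (by rw [rep_fixed_counts.1]; decide)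
    exact ⟨g, hg, ho, octa g hg 1 (one_mem _) g ht (by simp)⟩
  · obtain ⟨g, hg, ht, ho⟩ := mkrep _ hn2 (by decide +kernel) (by rw [rep_fixed_counts.2.1]; decide)
    exact ⟨g, hg, ho, free g (by rw [card_fixed ht]; exact rep_fixed_counts.2.1)⟩
  · rcases involution_cases hg hog with ⟨hc, w, hw, r, hr, he⟩ | ⟨hc, w, hw, r, hr, he⟩ <;>
      rcases involution_cases hh hoh with ⟨hc', w', hw', r', hr', he'⟩ | ⟨hc', w', hw', r', hr', he'⟩
    rotate_left
    · exact absurd (hiff.2 (free h hc')) (notfree g hc)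
    · exact absurd (hiff.1 (free g hc)) (notfree h hc')
    rotate_left
    all_goals
      refine ⟨w' * w⁻¹, mul_mem hw' (inv_mem hw), ?_⟩
      rw [← he, ← he', hr.ext hr']
      group)

end Cfsg.Agent.S5394
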