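import Cfsg.Statements.S5395
import Cfsg.Agent.Lib.PGroups.Extraspecial

set_option autoImplicit false
open Cfsg

namespace Cfsg.Agent.S5395

open scoped commutatorElement

/-- For a finite extraspecial 2-group E, an automorphism of E that induces the identity on E modulo its centre is inner (so these automorphisms form exactly the inner automorphism group, an elementary abelian 2-group of order |E|/2). -/
theorem result {E : Type*} [Group E] [Finite E] (hE : Cfsg.IsExtraspecial 2 E) (φ : E ≃* E) (hφ : ∀ x : E, φ x * x⁻¹ ∈ Subgroup.center E) : ∃ g : E, ∀ x : E, φ x = g * x * g⁻¹ := by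
  haveI : Fact (Nat.Prime 2) := ⟨Nat.prime_two⟩
  obtain ⟨S, hS, hSc⟩ := CfsgLib.PGroups.IsExtraspecial.exists_basis hE
  let Z := Subgroup.center E
  let f : E ⧸ Z → (S → Z) := fun q s =>
    ⟨⁅q.out, (s : E)⁆, CfsgLib.PGroups.IsExtraspecial.commutator_mem_center hE _ _⟩
  have hinj : Function.Injective f := by
    intro q₁ q₂ he
    rw [← q₁.out_eq', ← q₂.out_eq', QuotientGroup.eq]
    set a := q₁.out
    set b := q₂.out
    have hfix : ∀ e ∈ Subgroup.closure (S : Set E), Commute (a⁻¹ * b) e := by
      intro e hem
      induction hem using Subgroup.closure_induction with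
      | mem e hem =>
        have h1 : ⁅a, e⁆ = ⁅b, e⁆ := congrArg Subtype.val (congrFun he ⟨e, hem⟩)
        rw [commutatorElement_def, commutatorElement_def, mul_left_inj] at h1
        show a⁻¹ * b * e = e * (a⁻¹ * b)
        calc a⁻¹ * b * e = a⁻¹ * (b * e * b⁻¹) * b := by group
          _ = a⁻¹ * (a * e * a⁻¹) * b := by rw [h1]
          _ = _ := by group
      | one => exact Commute.one_right _
      | mul x y _ _ hx hy => exact hx.mul_right hy
      | inv x _ hx => exact hx.inv_right
    exact Subgroup.mem_center_iff.2 fun e => (hfix e (hS ▸ Subgroup.mem_top e)).symm.eq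
  have hbij : Function.Bijective f := by
    refine (Nat.bijective_iff_injective_and_card f).2 ⟨hinj, ?_⟩
    rw [Nat.card_fun, show Nat.card Z = 2 from hE.2, ← Subgroup.index_eq_card, show Z.index = 2 ^ S.card from hSc.symm]
    simp
  obtain ⟨q, hq⟩ := hbij.2 fun s => ⟨φ s * (s : E)⁻¹, hφ _⟩
  refine ⟨q.out, fun x => ?_⟩
  have hx : x ∈ Subgroup.closure (S : Set E) := hS ▸ Subgroup.mem_top x
  induction hx using Subgroup.closure_induction with
  | mem x hx =>
    have h1 : ⁅q.out, x⁆ = φ x * x⁻¹ := congrArg Subtype.val (congrFun hq ⟨x, hx⟩)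
    rw [commutatorElement_def, mul_left_inj] at h1
    exact h1.symm
  | one => simp
  | mul x y _ _ hx hy => rw [map_mul, hx, hy]; group
  | inv x _ hx => rw [map_inv, hx]; group

end Cfsg.Agent.S5395
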