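import Cfsg.Statements.S5397
import Cfsg.Agent.Lib.ConwayType.Build
import Cfsg.Agent.Lib.ConwayType.NotConj
import Cfsg.Agent.Lib.ConwayType.Golay.Standard
import Cfsg.Agent.Lib.ConwayType.Golay.Final
import Cfsg.Agent.Lib.ConwayType.Golay.Stab
import Cfsg.Agent.Lib.ConwayType.Golay.Coord11
import Cfsg.Agent.Lib.ConwayType.Golay.Gauge
import Cfsg.Agent.Lib.ConwayType.Golay.DecTableV

set_option autoImplicit false
open Cfsg CfsgLib.ConwayType CfsgLib.ConwayType.Golay CfsgLib.ConwayType.GolayModel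

namespace Cfsg.Agent.S5397

theorem result {G : Type*} [Group G] [Finite G] (z : G) (hz : orderOf z = 2) (Q : Subgroup (Subgroup.centralizer ({z} : Set G))) [Q.Normal] (hF : Cfsg.generalizedFittingSubgroup (Subgroup.centralizer ({z} : Set G)) = Q) (hQ : Cfsg.IsExtraspecial 2 Q) (hcard : Nat.card Q = 2 ^ 9) (e : (Subgroup.centralizer ({z} : Set G)) ⧸ Q ≃* Cfsg.Omega (ZMod 2) (Cfsg.quadFormPlus 4 (ZMod 2))) (hnwc : ∃ g : G, (∃ hq : g * z * g⁻¹ ∈ Subgroup.centralizer ({z} : Set G), (⟨g * z * g⁻¹, hq⟩ : Subgroup.centralizer ({z} : Set G)) ∈ Q) ∧ g * z * g⁻¹ ≠ z) : ∃ A : Subgroup G, Cfsg.IsElementaryAbelian 2 A ∧ Nat.card A = 2 ^ 11 ∧ z ∈ A ∧ ∃ _ : (A.subgroupOf (Subgroup.normalizer (A : Set G))).Normal, Nonempty (↥(Subgroup.normalizer (A : Set G)) ⧸ A.subgroupOf (Subgroup.normalizer (A : Set G)) ≃* ↥Cfsg.M24) ∧ (∃ K : Subgroup ↥(Subgroup.normalizer (A : Set G)), (A.subgroupOf (Subgroup.normalizer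 (A : Set G))).IsComplement' K) ∧ ∃ a ∈ A, ∃ b ∈ A, a ≠ 1 ∧ b ≠ 1 ∧ (∀ n ∈ Subgroup.normalizer (A : Set G), n * a * n⁻¹ ≠ b) ∧ ∀ c ∈ A, c ≠ 1 → ∃ n ∈ Subgroup.normalizer (A : Set G), n * c * n⁻¹ = a ∨ n * c * n⁻¹ = b := by
  classical
  obtain ⟨Qf, θ₀, ρ₀, J, S, hQf⟩ := exists_setting z hz Q hF hQ hcard e
  obtain ⟨g, ⟨hq, hgQ⟩, hne⟩ := hnwc
  obtain ⟨y, h, P₀⟩ := S.exists_pairSetting ((hQf _ hq).2 hgQ) hne
  obtain ⟨θ, ρ, P, hA⟩ := exists_standard P₀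
  set A := AU z Qf θ (InW true) with hAdef
  have hzA : z ∈ A := (mem_AU_Q P.toSetting P.toSetting.z_mem).2 (by
    rw [P.toSetting.θ_z]; exact InW.zero true)
  haveI hn : (A.subgroupOf (Subgroup.normalizer (A : Set G))).Normal :=
    (Subgroup.normal_subgroupOf_iff_le_normalizer Subgroup.le_normalizer).mpr le_rfl
  obtain ⟨Φ, C, hO⟩ : ∃ Φ, CoordsOn A Φ ∧ ∀ x, IsConj (Φ x) z ↔ octTable.testBit (enc x) = true := by
    obtain ⟨Y, hY, hYθ, hYadd, hY0⟩ := exists_section P true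
    obtain ⟨h', φ, ψ, P', F, hn', hφ, hg', g23, g13, g12⟩ := exists_gauged_swap P hY hYθ hYadd hA
    obtain ⟨t, hT, C, ht, hH⟩ := exists_coords P' hY hYθ hYadd hY0 F hA hn' hφ hg'
      (fun t T _ _ _ => g23 t T) (fun t T _ _ _ => g13 t T) (fun t T _ _ _ => g12 t T)
    refine ⟨_, C, isConj_iff_table
      (isConj_iff_tableV P' (decData P' hY hYθ hYadd hA hT C)) (fun k => ?_) hH⟩
    obtain ⟨r, -, hr⟩ := exists_R_action P' C hY hYθ ht k
    exact ⟨r, hr⟩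
  have hcen : ∀ g, (∀ a ∈ A, g * a = a * g) → g ∈ A := fun g hg => by
    rw [hAdef, ← centralizer_AU P.toSetting hA.1]
    exact Subgroup.mem_centralizer_iff.2 fun a ha => (hg a ha).symm
  have hstab : Nat.card ↥(Subgroup.normalizer (A : Set G) ⊓ Subgroup.centralizer ({z} : Set G)) =
      2 ^ 11 * 322560 := by
    rw [hAdef, card_normalizer_inf P.toSetting true, Setting.card_Q P.toSetting]; norm_num
  have hmove : ∃ n ∈ Subgroup.normalizer (A : Set G), n * z * n⁻¹ ≠ z := exists_move P hA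
  obtain ⟨hiso, hcardN, horb⟩ := exists_iso_and_orbits C hcen hO hzA hstab hmove
  obtain ⟨K, hK⟩ := exists_complement P hA (m := 239085) (by norm_num)
    (hcardN.trans (by norm_num))
  exact ⟨A, hA, card_AU P true, hzA, hn, hiso, ⟨K, hK⟩, horb⟩

end Cfsg.Agent.S5397
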