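import Cfsg.Statements.S5403
import Cfsg.Agent.Lib.J2Ico.SectionQuotient
import Cfsg.Agent.Lib.J2Ico.SectionLarge
import Cfsg.Agent.S0824
-- import your own Cfsg.Agent.* helpers here

set_option autoImplicit false
open Cfsg

namespace Cfsg.Agent.S5403

/-- A simple section of the automorphism group of the Leech lattice satisfying the Hall–Janko-type hypothesis (the group so obtained is the Hall–Janko group; that identification is not part of this statement): there is a subgroup A of order 5 of that automorphism group such that the centralizer of A modulo the subgroup generated by A and the centre of the automorphism group is a non-abelian simple group satisfying the large extraspecial hypothesis of minus type in dimension 4 — an involution whose centralizer has extraspecial generalized Fitting subgroup of order 32 with quotient the commutator subgroup of the isometry group of the elliptic quadratic form in dimension 4 over the field with two elements (the alternating group of degree 5), the involution not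 weakly closed in that extraspecial group. -/
theorem result : ∃ A : Subgroup ↥Cfsg.Co0, Nat.card A = 5 ∧ ∃ (hn : ((A ⊔ Subgroup.center ↥Cfsg.Co0).subgroupOf (Subgroup.centralizer (A : Set ↥Cfsg.Co0))).Normal), ∃ (S : Type) (_ : Group S) (_ : Finite S), Nonempty (S ≃* ↥(Subgroup.centralizer (A : Set ↥Cfsg.Co0)) ⧸ (A ⊔ Subgroup.center ↥Cfsg.Co0).subgroupOf (Subgroup.centralizer (A : Set ↥Cfsg.Co0))) ∧ IsSimpleGroup S ∧ ¬ IsMulCommutative S ∧ ∃ z : S, orderOf z = 2 ∧ ∃ (Q : Subgroup (Subgroup.centralizer ({z} : Set S))) (_ : Q.Normal), Cfsg.generalizedFittingSubgroup (Subgroup.centralizer ({z} : Set S)) = Q ∧ Cfsg.IsExtraspecial 2 Q ∧ Nat.card Q = 2 ^ 5 ∧ Nonempty ((Subgroup.centralizer ({z} : Set S)) ⧸ Q ≃* Cfsg.Omega (ZMod 2) (Cfsg.quadFormMinus 1 (ZMod 2) 1 1)) ∧ ∃ g : S, (∃ hq : g * z * g⁻¹ ∈ Subgroup.centralizer ({z} : Set S), (⟨g * z * g⁻¹, hq⟩ : Subgroup.centralizer ({z} : Set S)) ∈ Q) ∧ g * z * g⁻¹ ≠ z := by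
  obtain ⟨ε⟩ := Cfsg.Agent.S0824.result (F := ZMod 2) (ZMod.card 2)
  have hcomm : commutator (Equiv.Perm (Fin 5)) = alternatingGroup (Fin 5) :=
    alternatingGroup.commutator_perm_eq (by simp)
  have homega : Nonempty (alternatingGroup (Fin 5) ≃*
      Cfsg.Omega (ZMod 2) (Cfsg.quadFormMinus 1 (ZMod 2) 1 1)) := by
    have e : (commutator (Cfsg.isometryGroup (ZMod 2) (Cfsg.quadFormMinus 1 (ZMod 2) 1 1))).map
        ε.toMonoidHom = alternatingGroup (Fin 5) := by
      rw [← hcomm, commutator_def, commutator_def, Subgroup.map_commutator,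
        Subgroup.map_top_of_surjective _ ε.surjective]
    exact ⟨((ε.subgroupMap _).trans (MulEquiv.subgroupCongr e)).symm⟩
  obtain ⟨o⟩ := homega
  have hJ := CfsgLib.Mathieu.J2.isSimpleGroup_j2Group
  refine ⟨CfsgLib.J2Ico.Section.aGroup, CfsgLib.J2Ico.Section.card_aGroup,
    CfsgLib.J2Ico.Section.normal_modGroup, ↥CfsgLib.Mathieu.J2.j2Group, inferInstance, inferInstance,
    ⟨CfsgLib.J2Ico.equivJ2.symm.trans CfsgLib.J2Ico.Section.sectionEquiv⟩, hJ, ?_, ?_⟩
  · intro h
    haveI := h
    letI : CommGroup ↥CfsgLib.Mathieu.J2.j2Group :=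
      { (inferInstance : Group ↥CfsgLib.Mathieu.J2.j2Group) with mul_comm := mul_comm' }
    have hp := IsSimpleGroup.prime_card (α := ↥CfsgLib.Mathieu.J2.j2Group)
    rw [CfsgLib.Mathieu.J2.card_j2Group] at hp
    norm_num at hp
  · obtain ⟨g, ⟨h1, h2⟩, h3⟩ := CfsgLib.J2Ico.Involution.exists_fused
    refine ⟨⟨CfsgLib.J2Ico.Involution.tPerm, CfsgLib.J2Ico.Involution.tPerm_mem⟩,
      CfsgLib.J2Ico.Involution.orderOf_t, CfsgLib.J2Ico.Involution.centHom.ker, inferInstance,
      CfsgLib.J2Ico.Involution.generalizedFitting_Kp,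
      CfsgLib.J2Ico.Involution.isExtraspecial_centHom_ker,
      CfsgLib.J2Ico.Involution.card_centHom_ker,
      ⟨(QuotientGroup.quotientKerEquivOfSurjective _
        CfsgLib.J2Ico.Involution.centHom_surjective).trans o⟩, g, ⟨h1, h2⟩, h3⟩

end Cfsg.Agent.S5403
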