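import Cfsg.Statements.S5408
import Cfsg.Agent.Lib.Fischer2.MonsterModule

set_option autoImplicit false
open Cfsg

namespace Cfsg.Agent.S5408

/-- Let G be a finite group of Monster type at the involution z with Q the extraspecial normal subgroup of order 2^25 of C = C_G(z) (so C/Q is identified with the first Conway group with Q modulo its centre the Leech lattice modulo 2, and z is not weakly closed in Q). Then Q is of plus type: it contains an elementary abelian subgroup of order 2^13. -/
theorem result {G : Type*} [Group G] [Finite G] (z : G) (Q : Subgroup (Subgroup.centralizer ({z} : Set G))) [Q.Normal] (hM : Cfsg.IsOfMonsterType z Q) : ∃ E : Subgroup Q, Cfsg.IsElementaryAbelian 2 E ∧ Nat.card E = 2 ^ 13 := by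
  obtain ⟨⟨-, -, hQ, -, -⟩, e, ψ, hψ⟩ := hM
  have : Fact (Nat.Prime 2) := ⟨Nat.prime_two⟩
  have hform := CfsgLib.Fischer2.isInvariantForm hQ hψ
  obtain ⟨hadd, hsurj, hker, -⟩ := hψ
  have hψ0 : ψ 0 = 1 := (hker 0).2 ⟨0, (add_zero 0).symm⟩
  let φ : Multiplicative Cfsg.leechLattice →* Q ⧸ Subgroup.center Q :=
    { toFun := fun v => ψ v.toAdd
      map_one' := hψ0
      map_mul' := fun v w => hadd v.toAdd w.toAdd }
  set L := CfsgLib.Fischer2.fourSubgroup with hL
  let M : Subgroup (Q ⧸ Subgroup.center Q) := (AddSubgroup.toSubgroup L).map φ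
  let E : Subgroup Q := M.comap (QuotientGroup.mk' (Subgroup.center Q))
  have hE2 : ∀ x ∈ E, x * x = 1 := by
    intro x hx
    obtain ⟨v, hv, hvx⟩ := hx
    have h1 : ψ v.toAdd = QuotientGroup.mk x := hvx
    rw [← CfsgLib.Fischer2.centerChar_eq_zero_iff, CfsgLib.Fischer2.centerChar_sq_eq hQ v.toAdd x h1]
    exact hform.eq_zero_of_mem hv
  -- 2^12 distinct images
  let V : Finset (Fin 11) × Fin 2 → Cfsg.leechLattice := fun p =>
    (∑ k ∈ p.1, CfsgLib.Fischer2.vecK ((k : ℕ) : ZMod 23)) + (p.2 : ℕ) • CfsgLib.Fischer2.vecA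
  have hVL : ∀ p, V p ∈ L := fun p =>
    L.add_mem (L.sum_mem fun k _ => AddSubgroup.subset_closure (Or.inl ⟨_, rfl⟩))
      (L.nsmul_mem (AddSubgroup.subset_closure (Or.inr rfl)) _)
  have hcast : Function.Injective (fun k : Fin 11 => ((k : ℕ) : ZMod 23)) := by
    intro a b h; revert h; revert a b; decide
  have hVk : ∀ (p : Finset (Fin 11) × Fin 2) (k : Fin 11),
      (V p : Cfsg.GolayPt → ℤ) (some ((k : ℕ) : ZMod 23)) = 4 * (if k ∈ p.1 then 1 else 0) := by
    intro p k
    simp only [V, AddSubgroup.coe_add, AddSubgroup.coe_nsmul, AddSubgroup.val_finsetSum, Pi.add_apply,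
      Finset.sum_apply, Pi.smul_apply, CfsgLib.Fischer2.vecK, CfsgLib.Fischer2.vecA, ← Finset.mul_sum,
      reduceCtorEq, or_false, if_false, Option.some.injEq, mul_zero, smul_zero, add_zero]
    congr 1
    rw [Finset.sum_congr rfl (g := fun j => if k = j then (1 : ℤ) else 0)
      (fun j _ => if_congr ⟨fun h => hcast h, fun h => by rw [h]⟩ rfl rfl), Finset.sum_ite_eq]
  have hVo : ∀ (p : Finset (Fin 11) × Fin 2) (x : ZMod 23), (∀ k : Fin 11, x ≠ ((k : ℕ) : ZMod 23)) →
      (V p : Cfsg.GolayPt → ℤ) (some x) = 0 := by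
    intro p x hx
    simp only [V, AddSubgroup.coe_add, AddSubgroup.coe_nsmul, AddSubgroup.val_finsetSum, Pi.add_apply,
      Finset.sum_apply, Pi.smul_apply, CfsgLib.Fischer2.vecK, CfsgLib.Fischer2.vecA, ← Finset.mul_sum,
      reduceCtorEq, or_false, if_false, Option.some.injEq, mul_zero, smul_zero, add_zero]
    rw [Finset.sum_eq_zero fun j _ => if_neg (hx j), mul_zero]
  have hVn : ∀ p : Finset (Fin 11) × Fin 2,
      (V p : Cfsg.GolayPt → ℤ) none = 4 * (p.1.card + 2 * (p.2 : ℕ)) := by
    intro p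
    simp only [V, AddSubgroup.coe_add, AddSubgroup.coe_nsmul, AddSubgroup.val_finsetSum, Pi.add_apply,
      Finset.sum_apply, Pi.smul_apply, CfsgLib.Fischer2.vecK, CfsgLib.Fischer2.vecA, or_true, if_true,
      Finset.sum_const, nsmul_eq_mul, Pi.mul_apply, Pi.natCast_apply]
    simp
    ring
  have hinj : ∀ p p', (ψ (V p) = ψ (V p')) → p = p' := by
    intro p p' h
    have hd : ψ (V p - V p') = 1 := by
      have := hadd (V p - V p') (V p')
      rw [sub_add_cancel, h] at this
      exact right_eq_mul.1 this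
    obtain ⟨w, hw⟩ := (hker _).1 hd
    have hwi : ∀ i, 2 * (w : Cfsg.GolayPt → ℤ) i = (V p : Cfsg.GolayPt → ℤ) i - (V p' : Cfsg.GolayPt → ℤ) i := by
      intro i
      have := congrFun (congrArg Subtype.val hw) i
      simp only [AddSubgroup.coe_sub, AddSubgroup.coe_add, Pi.sub_apply, Pi.add_apply] at this
      omega
    obtain ⟨m, hm, hsum, hcls⟩ := CfsgLib.Leech.mem_leechLattice_iff_mem_leechSet.1 w.2
    obtain ⟨n, hn, hns⟩ := CfsgLib.Golay.mem_supports_iff.1 (hcls 2)
    -- the code word is supported on the twelve points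
    have hsmall : ∀ i : ℕ, i < 24 → n.testBit i = true → (8390655).testBit i = true := by
      intro i hi hbit
      have hmem := (CfsgLib.Golay.pt_mem_unmask hi).2 hbit
      rw [hns, Finset.mem_filter] at hmem
      have hmod := hmem.2.eq
      by_contra hno
      have hi23 : 11 ≤ i ∧ i < 23 :=
        (by decide : ∀ i < 24, ¬ (8390655 : ℕ).testBit i = true → 11 ≤ i ∧ i < 23) i hi hno
      have hpt : CfsgLib.Golay.pt i = some (i : ZMod 23) := by simp [CfsgLib.Golay.pt, hi23.2]
      have hne : ∀ k : Fin 11, (i : ZMod 23) ≠ ((k : ℕ) : ZMod 23) := by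
        intro k hk
        have := congrArg ZMod.val hk
        rw [ZMod.val_natCast_of_lt hi23.2, ZMod.val_natCast_of_lt (by omega)] at this
        omega
      have h0 := hwi (CfsgLib.Golay.pt i)
      rw [hpt, hVo p _ hne, hVo p' _ hne] at h0
      rw [hpt] at hmod
      omega
    have hn0 : n = 0 := by
      have hall : CfsgLib.Golay.allSpan CfsgLib.Golay.basisMasks (fun n => n == 0 || !(n &&& 8390655 == n)) = true := by
        decide +kernel
      have := (CfsgLib.Golay.allSpan_iff.1 hall) n hn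
      rcases Bool.or_eq_true _ _ |>.mp this with h' | h'
      · exact beq_iff_eq.1 h'
      · exfalso
        rw [Bool.not_eq_true', beq_eq_false_iff_ne] at h'
        apply h'
        apply Nat.eq_of_testBit_eq
        intro i
        rw [Nat.testBit_and]
        by_cases hi : i < 24
        · by_cases hb : n.testBit i = true
          · rw [hb, hsmall i hi hb]; rfl
          · rw [Bool.not_eq_true] at hb; rw [hb]; rfl
        · have hlt : n < 2 ^ i := lt_of_lt_of_le (CfsgLib.Golay.lt_of_mem_codeMasks hn)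
            (Nat.pow_le_pow_right (by norm_num) (by omega))
          rw [Nat.testBit_lt_two_pow hlt]; rfl
    rw [hn0, CfsgLib.Golay.unmask_zero] at hns
    have hno : ∀ i, ¬ ((w : Cfsg.GolayPt → ℤ) i ≡ 2 [ZMOD 4]) := fun i hi => by
      have : i ∈ (∅ : Finset Cfsg.GolayPt) := hns ▸ Finset.mem_filter.2 ⟨Finset.mem_univ i, hi⟩
      simp at this
    have h1 : p.1 = p'.1 := by
      ext k
      have h0 := hwi (some ((k : ℕ) : ZMod 23))
      rw [hVk, hVk] at h0
      have h2 := hno (some ((k : ℕ) : ZMod 23))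
      by_cases a : k ∈ p.1 <;> by_cases b : k ∈ p'.1 <;> simp only [a, b, if_true, if_false] at h0 ⊢ <;>
        exfalso <;> apply h2 <;> show _ % 4 = _ % 4 <;> omega
    have hw0 : ∀ x : ZMod 23, (w : Cfsg.GolayPt → ℤ) (some x) = 0 := by
      intro x
      by_cases hx : ∀ k : Fin 11, x ≠ ((k : ℕ) : ZMod 23)
      · have := hwi (some x); rw [hVo p x hx, hVo p' x hx] at this; omega
      · push Not at hx
        obtain ⟨k, rfl⟩ := hx
        have := hwi (some ((k : ℕ) : ZMod 23))
        rw [hVk, hVk, h1] at this; omega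
    have hsum' : ∑ i, (w : Cfsg.GolayPt → ℤ) i = (w : Cfsg.GolayPt → ℤ) none := by
      rw [Fintype.sum_option]; simp [hw0]
    rw [hsum'] at hsum
    have h0 := hwi none
    rw [hVn, hVn, h1] at h0
    have hsum8 := hsum.eq
    have hm0 := (hm (some 0)).eq
    rw [hw0] at hm0
    have : (p.2 : ℕ) = p'.2 := by omega
    exact Prod.ext h1 (Fin.ext this)
  have hM : 2 ^ 12 ≤ Nat.card M := by
    have := Nat.card_le_card_of_injective
      (fun p => (⟨ψ (V p), Multiplicative.ofAdd (V p), hVL p, rfl⟩ : M))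
      (fun p p' h => hinj p p' (congrArg Subtype.val h))
    simpa [Nat.card_eq_fintype_card] using this
  have hEcard : Nat.card E = 2 * Nat.card M := by
    let f : E →* M := ((QuotientGroup.mk' (Subgroup.center Q)).comp E.subtype).codRestrict M (fun x => x.2)
    have hsur : Function.Surjective f := by
      rintro ⟨y, hy⟩
      obtain ⟨x, rfl⟩ := QuotientGroup.mk'_surjective _ y
      exact ⟨⟨x, hy⟩, rfl⟩
    have hk : Nat.card f.ker = 2 := by
      rw [← hQ.2]
      apply Nat.card_eq_of_bijective (fun x : f.ker => (⟨(x : E), ?_⟩ : Subgroup.center Q))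
      · constructor
        · intro a b h; exact Subtype.ext (Subtype.ext (congrArg (fun c : Subgroup.center Q => (c : Q)) h))
        · rintro ⟨c, hc⟩
          have h1 : QuotientGroup.mk' (Subgroup.center Q) c = 1 := (QuotientGroup.eq_one_iff c).2 hc
          have hcE : c ∈ E := by
            show _ ∈ M; rw [h1]; exact one_mem M
          exact ⟨⟨⟨c, hcE⟩, Subtype.ext h1⟩, rfl⟩
      · exact (QuotientGroup.eq_one_iff _).1 (congrArg Subtype.val (MonoidHom.mem_ker.1 x.2))
    rw [← Subgroup.card_mul_index f.ker, Subgroup.index_ker, MonoidHom.range_eq_top.2 hsur,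
      Subgroup.card_top, hk]
  have hEp : IsPGroup 2 E := hQ.1.1.to_subgroup E
  obtain ⟨n, hn⟩ := IsPGroup.iff_card.1 hEp
  have h13 : 13 ≤ n := by
    by_contra h
    have : 2 ^ n ≤ 2 ^ 12 := Nat.pow_le_pow_right (by norm_num) (by omega)
    have h4096 : (2 : ℕ) ^ 12 = 4096 := by norm_num
    omega
  obtain ⟨F, hF⟩ := Sylow.exists_subgroup_card_pow_prime (G := E) 2 (n := 13) (by
    rw [hn]; exact pow_dvd_pow 2 h13)
  refine ⟨F.map E.subtype, ⟨⟨⟨fun a b => ?_⟩⟩, ?_⟩, ?_⟩
  · have hsq : ∀ x : (F.map E.subtype : Subgroup Q), x * x = 1 := fun x =>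
      Subtype.ext (hE2 x (Subgroup.map_subtype_le F x.2))
    have hinv : ∀ x : (F.map E.subtype : Subgroup Q), x⁻¹ = x := fun x => inv_eq_of_mul_eq_one_right (hsq x)
    calc a * b = (a * b)⁻¹ := (hinv _).symm
      _ = b * a := by rw [mul_inv_rev, hinv, hinv]
  · intro a ha
    rw [pow_two]
    exact hE2 a (Subgroup.map_subtype_le F ha)
  · rw [Subgroup.card_map_of_injective E.subtype_injective, hF]

end Cfsg.Agent.S5408
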