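import Cfsg.Statements.S5411
import Cfsg.Agent.Lib.Fischer2.MonsterFrame

set_option autoImplicit false
open Cfsg

namespace Cfsg.Agent.S5411

/-- Let G be a finite group of Monster type at the involution z with Q the extraspecial normal subgroup of order 2^25 of C = C_G(z) (so C/Q is identified with the first Conway group with Q modulo its centre the Leech lattice modulo 2, and z is not weakly closed in Q). Then C acts transitively by conjugation on the involutions of Q that are not conjugate to z in G. -/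
theorem result {G : Type*} [Group G] [Finite G] (z : G) (Q : Subgroup (Subgroup.centralizer ({z} : Set G))) [Q.Normal] (hM : Cfsg.IsOfMonsterType z Q) (s t : G) (hsQ : ∃ hsc : s ∈ Subgroup.centralizer ({z} : Set G), (⟨s, hsc⟩ : Subgroup.centralizer ({z} : Set G)) ∈ Q) (htQ : ∃ htc : t ∈ Subgroup.centralizer ({z} : Set G), (⟨t, htc⟩ : Subgroup.centralizer ({z} : Set G)) ∈ Q) (hs2 : orderOf s = 2) (ht2 : orderOf t = 2) (hs : ¬ IsConj z s) (ht : ¬ IsConj z t) : ∃ h ∈ Subgroup.centralizer ({z} : Set G), h * s * h⁻¹ = t := by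
  obtain ⟨hS, e, ψ, hψ⟩ := hM
  obtain ⟨hsc, hsQ⟩ := hsQ
  obtain ⟨htc, htQ⟩ := htQ
  have F := CfsgLib.Fischer2.settingFacts hS
  have key : ∀ (a : G) (ha : a ∈ Subgroup.centralizer ({z} : Set G))
      (haQ : (⟨a, ha⟩ : Subgroup.centralizer ({z} : Set G)) ∈ Q), orderOf a = 2 → ¬ IsConj z a →
      (⟨⟨a, ha⟩, haQ⟩ : Q) ∉ Subgroup.center Q ∧ ∃ w : Cfsg.leechLattice,
        Cfsg.sqNorm (w : Cfsg.GolayPt → ℤ) = 32 ∧ ψ w = QuotientGroup.mk ⟨⟨a, ha⟩, haQ⟩ := by
    intro a ha haQ ha2 hnc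
    have hc : (⟨⟨a, ha⟩, haQ⟩ : Q) ∉ Subgroup.center Q := by
      intro h
      rcases (F.mem_center_iff _).1 h with h | h
      · rw [show a = 1 from h, orderOf_one] at ha2; omega
      · exact hnc (by rw [show a = z from h])
    have hsq : (⟨⟨a, ha⟩, haQ⟩ : Q) * ⟨⟨a, ha⟩, haQ⟩ = 1 := by
      apply CfsgLib.Fischer2.qVal_injective
      show a * a = 1
      rw [← pow_two, ← ha2]; exact pow_orderOf_eq_one a
    refine ⟨hc, ?_⟩
    obtain ⟨w, hw | hw, hwx⟩ := CfsgLib.Fischer2.exists_class F hS.2.2.1 hψ hsq hc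
    · exact ⟨w, hw, hwx⟩
    · exact absurd ((CfsgLib.Fischer2.conj_iff_class hS hψ _).2 ⟨w, hw, hwx⟩).1 hnc
  obtain ⟨-, v, hv, hvx⟩ := key s hsc hsQ hs2 hs
  obtain ⟨hy, w, hw, hwy⟩ := key t htc htQ ht2 ht
  obtain ⟨g, hg⟩ := (CfsgLib.Fischer2.sameOrbit_norm32 hv (show (none : Cfsg.GolayPt) ≠ some 0 by simp)).trans
    (CfsgLib.Fischer2.sameOrbit_norm32 hw (show (none : Cfsg.GolayPt) ≠ some 0 by simp)).symm
  exact CfsgLib.Fischer2.exists_conj_of_class F hψ g hvx hwy hy (hg ▸ CfsgLib.Fischer2.CongTwo.refl _)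

end Cfsg.Agent.S5411
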