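import Cfsg.Statements.S5412
import Cfsg.Agent.Lib.Fischer2.BabyMonster
import Cfsg.Agent.Lib.Fischer2.MonsterTransport

set_option autoImplicit false
open Cfsg

namespace Cfsg.Agent.S5412

/-- Let G be a finite group of Monster type at the involution z with Q the extraspecial normal subgroup of order 2^25 of C = C_G(z) (so C/Q is identified with the first Conway group with Q modulo its centre the Leech lattice modulo 2, and z is not weakly closed in Q). Let t be an involution of Q not conjugate to z in G. Then the centralizer of t modulo the subgroup generated by t is a group of Baby Monster type (an involution whose centralizer D has generalized Fitting subgroup R extraspecial of order 2^23 with D/R identified with the second Conway group acting on R modulo its centre as on the vectors of the Leech lattice modulo 2 orthogonal to a short vector, modulo that vector; the involution not weakly closed in R). -/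
theorem result {G : Type*} [Group G] [Finite G] (z : G) (Q : Subgroup (Subgroup.centralizer ({z} : Set G))) [Q.Normal] (hM : Cfsg.IsOfMonsterType z Q) (t : G) (htQ : ∃ htc : t ∈ Subgroup.centralizer ({z} : Set G), (⟨t, htc⟩ : Subgroup.centralizer ({z} : Set G)) ∈ Q) (ht2 : orderOf t = 2) (ht : ¬ IsConj z t) [hn : ((Subgroup.zpowers t).subgroupOf (Subgroup.centralizer ({t} : Set G))).Normal] : Cfsg.IsOfBabyMonsterType (↥(Subgroup.centralizer ({t} : Set G)) ⧸ (Subgroup.zpowers t).subgroupOf (Subgroup.centralizer ({t} : Set G))) := by
  open CfsgLib.Fischer2 in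
  obtain ⟨hS, e, ψ, hψ⟩ := hM
  obtain ⟨htc, htm⟩ := htQ
  have F := CfsgLib.Fischer2.settingFacts hS
  have ht1 : t ≠ 1 := fun h => by rw [h, orderOf_one] at ht2; omega
  let x : Q := ⟨⟨t, htc⟩, htm⟩
  have hx2 : x * x = 1 := CfsgLib.Fischer2.qVal_injective (by
    show t * t = 1
    rw [← pow_two, ← ht2, pow_orderOf_eq_one])
  have hxc : x ∉ Subgroup.center Q := fun h => by
    rcases (F.mem_center_iff x).1 h with h | h
    · exact ht1 h
    · exact ht (show IsConj z t from (show t = z from h) ▸ IsConj.refl t)
  obtain ⟨w, hw, hwx⟩ := CfsgLib.Fischer2.exists_class32 hS hψ hx2 hxc ht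
  obtain ⟨g, hg⟩ : CfsgLib.Fischer2.SameOrbit w Spor.leechU :=
    (CfsgLib.Fischer2.sameOrbit_norm32 hw (show (none : GolayPt) ≠ some 0 by simp)).trans
      (CfsgLib.Fischer2.sameOrbit_norm32 CfsgLib.Fischer2.sqNorm_leechU
        (show (none : GolayPt) ≠ some 0 by simp)).symm
  exact CfsgLib.Fischer2.baby_monster_type hS (CfsgLib.Fischer2.isLeechModTwoIso_twist hψ g) x
    (by rw [← hg, inv_smul_smul, hwx]) t rfl ht2 ht

end Cfsg.Agent.S5412
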