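import Cfsg.Statements.S5413
import Cfsg.Agent.Lib.MonsterLocal.Main
import Cfsg.Agent.Lib.MonsterLocal.FiveHom

set_option autoImplicit false
open Cfsg

namespace Cfsg.Agent.S5413

/-- Let G be a finite group of Monster type at the involution z with Q the extraspecial normal subgroup of order 2^25 of C = C_G(z) (so C/Q is identified with the first Conway group with Q modulo its centre the Leech lattice modulo 2, and z is not weakly closed in Q). Let s be a conjugate of z in Q other than z and let B be a Sylow 5-subgroup of the joint centralizer of z and s. Then the centralizer of B modulo B is a group of Harada–Norton type (an involution whose centralizer D has generalized Fitting subgroup R extraspecial of order 2^9 with D/R the wreath product of the alternating group of degree 5 by a group of order 2, the involution not weakly closed in R). -/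
theorem result {G : Type*} [Group G] [Finite G] (z : G) (Q : Subgroup (Subgroup.centralizer ({z} : Set G))) [Q.Normal] (hM : Cfsg.IsOfMonsterType z Q) (s : G) (hsQ : ∃ hsc : s ∈ Subgroup.centralizer ({z} : Set G), (⟨s, hsc⟩ : Subgroup.centralizer ({z} : Set G)) ∈ Q) (hs : IsConj z s) (hs1 : s ≠ z) (B : Subgroup G) (hB : B ≤ Subgroup.centralizer ({z, s} : Set G)) (hBp : Nat.card B = 5 ^ (Nat.card ↥(Subgroup.centralizer ({z, s} : Set G))).factorization 5) [hn : (B.subgroupOf (Subgroup.centralizer (B : Set G))).Normal] : Cfsg.IsOfHaradaNortonType (↥(Subgroup.centralizer (B : Set G)) ⧸ B.subgroupOf (Subgroup.centralizer (B : Set G))) := by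
  classical
  obtain ⟨hS, e, ψ, hψ⟩ := hM
  obtain ⟨hsc, hsQ⟩ := hsQ
  let x : Q := ⟨⟨s, hsc⟩, hsQ⟩
  have hp5 : Nat.Prime 5 := by norm_num
  have hfac : (244823040 : ℕ).factorization 5 = 1 := by
    rw [show (244823040 : ℕ) = 5 * 48964608 by norm_num, Nat.factorization_mul (by norm_num) (by norm_num),
      Finsupp.add_apply, Nat.Prime.factorization_self hp5, Nat.factorization_eq_zero_of_not_dvd (by norm_num)]
  have hBc : Nat.card B = 5 := by
    rw [hBp, CfsgLib.MonsterLocal.factorization_joint hS hψ (x := x) hs hs1 hp5 (by norm_num), hfac, pow_one]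
  obtain ⟨g, hg⟩ := CfsgLib.MonsterLocal.exists_sq (c := CfsgLib.MonsterLocal.Five.data) CfsgLib.MonsterLocal.Five.ok
    (π := 777111735115971555190552860465304622) (u := 644701952195758815016847184462141664)
    (by decide +kernel) (by decide +kernel) (by decide +kernel)
  have hgen : ∀ r : ℕ, ¬ 5 ∣ r → ∃ n, 2 ^ n % 5 = r % 5 := by
    intro r hr
    have h : r % 5 = 1 ∨ r % 5 = 2 ∨ r % 5 = 4 ∨ r % 5 = 3 := by omega
    rcases h with h | h | h | h <;> rw [h]
    · exact ⟨0, rfl⟩
    · exact ⟨1, rfl⟩
    · exact ⟨2, rfl⟩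
    · exact ⟨3, rfl⟩
  obtain ⟨e', ψ', b, -, zb, R, hR, hset, hiso, -⟩ :=
    CfsgLib.MonsterLocal.exists_setting (c := CfsgLib.MonsterLocal.Five.data) hS hψ CfsgLib.MonsterLocal.Five.ok hp5
      CfsgLib.MonsterLocal.Five.cent (Pr := fun _ => True)
      (CfsgLib.MonsterLocal.reach_of_single hp5 hfac CfsgLib.MonsterLocal.Five.cent.orderOf_tau)
      (w := 4) (by decide +kernel) (by norm_num)
      (fun N hN hN2 => @CfsgLib.MonsterLocal.Five.no_normal_two N hN hN2) 2 g hg hgen (x := x) hs hs1 B hB hBc
      (fun _ _ _ _ _ _ _ _ _ _ _ => trivial)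
      (fun _ _ _ _ _ _ _ _ _ _ _ => ⟨fun _ _ _ _ _ => trivial, fun _ _ _ _ _ _ _ => trivial⟩)
  exact ⟨zb, R, hR, hset, hiso⟩

end Cfsg.Agent.S5413
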