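import Cfsg.Statements.S5414
import Cfsg.Agent.Lib.MonsterLocal.ThreeJoint

set_option autoImplicit false
open Cfsg

namespace Cfsg.Agent.S5414

/-- Let G be a finite group of Monster type at the involution z with Q the extraspecial normal subgroup of order 2^25 of C = C_G(z) (so C/Q is identified with the first Conway group with Q modulo its centre the Leech lattice modulo 2, and z is not weakly closed in Q). Let s be a conjugate of z in Q other than z and let Y be a subgroup of order 3 of the joint centralizer L of z and s that is not 3-central in L (Y lies in the centre of no Sylow 3-subgroup of L). Then the centralizer of Y modulo Y is a group of Thompson type (an involution whose centralizer D has generalized Fitting subgroup R extraspecial of order 2^9 with D/R the alternating group of degree 9, the involution not weakly closed in R). -/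
theorem result {G : Type*} [Group G] [Finite G] (z : G) (Q : Subgroup (Subgroup.centralizer ({z} : Set G))) [Q.Normal] (hM : Cfsg.IsOfMonsterType z Q) (s : G) (hsQ : ∃ hsc : s ∈ Subgroup.centralizer ({z} : Set G), (⟨s, hsc⟩ : Subgroup.centralizer ({z} : Set G)) ∈ Q) (hs : IsConj z s) (hs1 : s ≠ z) (Y : Subgroup G) (hY : Y ≤ Subgroup.centralizer ({z, s} : Set G)) (hY3 : Nat.card Y = 3) (hnc : ∀ P : Sylow 3 ↥(Subgroup.centralizer ({z, s} : Set G)), ¬ Y.subgroupOf (Subgroup.centralizer ({z, s} : Set G)) ≤ (Subgroup.center ↥(P : Subgroup ↥(Subgroup.centralizer ({z, s} : Set G)))).map (P : Subgroup ↥(Subgroup.centralizer ({z, s} : Set G))).subtype) [hn : (Y.subgroupOf (Subgroup.centralizer (Y : Set G))).Normal] : Cfsg.IsOfThompsonType (↥(Subgroup.centralizer (Y : Set G)) ⧸ Y.subgroupOf (Subgroup.centralizer (Y : Set G))) := by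
  classical
  obtain ⟨hS, e, ψ, hψ⟩ := hM
  obtain ⟨hsc, hsQ⟩ := hsQ
  let x : Q := ⟨⟨s, hsc⟩, hsQ⟩
  obtain ⟨g, hg⟩ := CfsgLib.MonsterLocal.exists_sq (c := CfsgLib.MonsterLocal.Three.data) CfsgLib.MonsterLocal.Three.ok
    (π := 984036102911248115080220955032835104) (u := 233748572372425031960113141184078406)
    (by decide +kernel) (by decide +kernel) (by decide +kernel)
  have hgen : ∀ r : ℕ, ¬ 3 ∣ r → ∃ n, 2 ^ n % 3 = r % 3 := by
    intro r hr
    have h : r % 3 = 1 ∨ r % 3 = 2 := by omega
    rcases h with h | h <;> rw [h]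
    · exact ⟨0, rfl⟩
    · exact ⟨1, rfl⟩
  obtain ⟨e', ψ', b, -, zb, R, hR, hset, hiso, -⟩ :=
    CfsgLib.MonsterLocal.exists_setting (c := CfsgLib.MonsterLocal.Three.data) hS hψ CfsgLib.MonsterLocal.Three.ok
      Nat.prime_three CfsgLib.MonsterLocal.Three.cent (Pr := CfsgLib.MonsterLocal.Three.NoFix)
      CfsgLib.MonsterLocal.Three.reach (w := 4) (by decide +kernel) (by norm_num)
      (fun N hN hN2 => @CfsgLib.MonsterLocal.Three.no_normal_two N hN hN2) 2 g hg hgen (x := x) hs hs1 Y hY hY3
      (fun e' ψ' h b hb hbo => CfsgLib.MonsterLocal.Three.prOf_noncentral hS h (x := x) hs hs1 Y hY hY3 hnc hb hbo)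
      (fun e₀ ψ₀ b X q hq hc hne e' ψ' h => CfsgLib.MonsterLocal.Three.prOf_frames X hq hc hne h)
  exact ⟨zb, R, hR, hset, hiso⟩

end Cfsg.Agent.S5414
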