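import Cfsg.Statements.S5418
import Cfsg.Agent.Lib.MonsterLocal.AutoSeven
import Cfsg.Agent.Lib.Cores.Components

set_option autoImplicit false
open Cfsg

namespace Cfsg.Agent.S5418

/-- Let G be a finite group of Monster type at the involution z with Q the extraspecial normal subgroup of order 2^25 of C = C_G(z) (so C/Q is identified with the first Conway group with Q modulo its centre the Leech lattice modulo 2, and z is not weakly closed in Q). Let s be a conjugate of z in Q other than z and let B be a Sylow 7-subgroup of the joint centralizer of z and s. Then the centralizer of B has index 6 in the normalizer of B; and some involution inverting B induces, by conjugation, a non-inner automorphism of the layer of the centralizer of B. -/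
theorem result {G : Type*} [Group G] [Finite G] (z : G) (Q : Subgroup (Subgroup.centralizer ({z} : Set G))) [Q.Normal] (hM : Cfsg.IsOfMonsterType z Q) (s : G) (hsQ : ∃ hsc : s ∈ Subgroup.centralizer ({z} : Set G), (⟨s, hsc⟩ : Subgroup.centralizer ({z} : Set G)) ∈ Q) (hs : IsConj z s) (hs1 : s ≠ z) (B : Subgroup G) (hB : B ≤ Subgroup.centralizer ({z, s} : Set G)) (hBp : Nat.card B = 7 ^ (Nat.card ↥(Subgroup.centralizer ({z, s} : Set G))).factorization 7) : (Subgroup.centralizer (B : Set G)).relIndex (Subgroup.normalizer (B : Set G)) = 6 ∧ ∃ t : G, orderOf t = 2 ∧ (∀ b ∈ B, t * b * t⁻¹ = b⁻¹) ∧ (∀ x ∈ (Cfsg.layer ↥(Subgroup.centralizer (B : Set G))).map (Subgroup.centralizer (B : Set G)).subtype, t * x * t⁻¹ ∈ (Cfsg.layer ↥(Subgroup.centralizer (B : Set G))).map (Subgroup.centralizer (B : Set G)).subtype) ∧ ¬ ∃ l ∈ (Cfsg.layer ↥(Subgroup.centralizer (B : Set G))).map (Subgroup.centralizer (B : Set G)).subtype, ∀ x ∈ (Cfsg.layer ↥(Subgroup.centralizer (B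 : Set G))).map (Subgroup.centralizer (B : Set G)).subtype, t * x * t⁻¹ = l * x * l⁻¹ := by
  classical
  obtain ⟨hS, e, ψ, hψ⟩ := hM
  obtain ⟨hsc, hsQ⟩ := hsQ
  let x : Q := ⟨⟨s, hsc⟩, hsQ⟩
  have hp7 : Nat.Prime 7 := by norm_num
  have hfac : (244823040 : ℕ).factorization 7 = 1 := by
    rw [show (244823040 : ℕ) = 7 * 34974720 by norm_num, Nat.factorization_mul (by norm_num) (by norm_num),
      Finsupp.add_apply, Nat.Prime.factorization_self hp7, Nat.factorization_eq_zero_of_not_dvd (by norm_num)]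
  have hBc : Nat.card B = 7 := by
    rw [hBp, CfsgLib.MonsterLocal.factorization_joint hS hψ (x := x) hs hs1 hp7 (by norm_num), hfac, pow_one]
  obtain ⟨e', ψ', b, X, hBb, -⟩ :=
    CfsgLib.MonsterLocal.exists_loc (c := CfsgLib.MonsterLocal.Seven.data) hS hψ CfsgLib.MonsterLocal.Seven.ok hp7
      CfsgLib.MonsterLocal.Seven.cent (Pr := fun _ => True)
      (CfsgLib.MonsterLocal.reach_of_single hp7 hfac CfsgLib.MonsterLocal.Seven.cent.orderOf_tau) (x := x) hs hs1 B hB hBc
      (fun _ _ _ _ _ _ _ _ _ _ _ => trivial)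
  have hbo : orderOf (b : G) = 7 := by rw [Subgroup.orderOf_coe]; exact X.order
  refine ⟨?_, ?_⟩
  · obtain ⟨g, hg⟩ := CfsgLib.MonsterLocal.Seven.exists_gen5
    have hne : CfsgLib.MonsterLocal.Seven.data.σ ^ 5 ≠ 1 := fun h => by
      have h1 := orderOf_dvd_of_pow_eq_one h
      rw [show orderOf CfsgLib.MonsterLocal.Seven.data.σ = 7 from X.cent.order] at h1
      norm_num at h1
    obtain ⟨h, -, hh⟩ := X.exists_lift hne hg
    rw [hBb]
    exact CfsgLib.MonsterLocal.relIndex_six hbo (h := (h : G)) (by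
      rw [← Subgroup.coe_mul, ← InvMemClass.coe_inv, ← Subgroup.coe_mul, hh, SubmonoidClass.coe_pow])
  obtain ⟨t, ht2, htb⟩ := CfsgLib.MonsterLocal.Seven.exists_inverting X
  have htbG : (t : G) * (b : G) * (t : G)⁻¹ = (b : G)⁻¹ := by
    rw [← InvMemClass.coe_inv, ← InvMemClass.coe_inv, ← Subgroup.coe_mul, ← Subgroup.coe_mul, htb]
  have hinv : ∀ a ∈ B, (t : G) * a * (t : G)⁻¹ = a⁻¹ := by
    intro a ha
    rw [hBb] at ha
    obtain ⟨k, rfl⟩ := Subgroup.mem_zpowers_iff.1 ha
    rw [← conj_zpow, htbG, inv_zpow]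
  set C := Subgroup.centralizer (B : Set G) with hCdef
  refine ⟨(t : G), by rw [Subgroup.orderOf_coe, ht2], hinv, ?_, ?_⟩
  · have htN : ∀ a, a ∈ C ↔ (t : G) * a * (t : G)⁻¹ ∈ C := by
      intro a
      rw [hCdef, Subgroup.mem_centralizer_iff, Subgroup.mem_centralizer_iff]
      constructor
      · intro h v hv
        have h1 := h v⁻¹ (B.inv_mem hv)
        have hv' : v = (t : G) * v⁻¹ * (t : G)⁻¹ := by rw [hinv _ (B.inv_mem hv), inv_inv]
        rw [hv']
        calc (t : G) * v⁻¹ * (t : G)⁻¹ * ((t : G) * a * (t : G)⁻¹) = (t : G) * (v⁻¹ * a) * (t : G)⁻¹ := by group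
          _ = (t : G) * (a * v⁻¹) * (t : G)⁻¹ := by rw [h1]
          _ = _ := by group
      · intro h v hv
        have h1 := h ((t : G) * v * (t : G)⁻¹) (by rw [hinv v hv]; exact B.inv_mem hv)
        calc v * a = (t : G)⁻¹ * ((t : G) * v * (t : G)⁻¹ * ((t : G) * a * (t : G)⁻¹)) * (t : G) := by group
          _ = (t : G)⁻¹ * ((t : G) * a * (t : G)⁻¹ * ((t : G) * v * (t : G)⁻¹)) * (t : G) := by rw [h1]
          _ = a * v := by group
    let α : C ≃* C :=
      { toFun := fun a => ⟨(t : G) * a * (t : G)⁻¹, (htN _).1 a.2⟩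
        invFun := fun a => ⟨(t : G)⁻¹ * a * (t : G), (htN _).2 (by
          rw [show (t : G) * ((t : G)⁻¹ * a * (t : G)) * (t : G)⁻¹ = a by group]; exact a.2)⟩
        left_inv := fun a => Subtype.ext (by
          show (t : G)⁻¹ * ((t : G) * a * (t : G)⁻¹) * (t : G) = a; group)
        right_inv := fun a => Subtype.ext (by
          show (t : G) * ((t : G)⁻¹ * a * (t : G)) * (t : G)⁻¹ = a; group)
        map_mul' := fun a a' => Subtype.ext (by
          show (t : G) * ((a : G) * a') * (t : G)⁻¹ = (t : G) * a * (t : G)⁻¹ * ((t : G) * a' * (t : G)⁻¹); group) }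
    rintro _ ⟨y, hy, rfl⟩
    refine ⟨α y, ?_, rfl⟩
    rw [← CfsgLib.Cores.map_layer_equiv α]
    exact ⟨y, hy, rfl⟩
  · rintro ⟨l, ⟨lC, hlL, rfl⟩, hl⟩
    have hz := CfsgLib.MonsterLocal.Seven.z_mem_layer X B hBb
    obtain ⟨hax, haxc, haxne⟩ := CfsgLib.MonsterLocal.Seven.axis_mem X
    obtain ⟨h, hhb, hhz⟩ := CfsgLib.MonsterLocal.Seven.conj_fix X _ hax haxc haxne
    have hhC : h ∈ C := by
      rw [hCdef, hBb, Subgroup.mem_centralizer_iff]
      rintro _ ⟨k, rfl⟩
      exact ((show Commute h (b : G) from mul_inv_eq_iff_eq_mul.1 hhb).zpow_right k).symm.eq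
    have hx : CfsgLib.Fischer2.qVal (CfsgLib.Fischer2.liftVec ψ' CfsgLib.Fischer2.vecA) ∈
        (Cfsg.layer C).map C.subtype := by
      obtain ⟨zC, hzC, hze⟩ := hz
      refine ⟨⟨h, hhC⟩ * zC * (⟨h, hhC⟩ : C)⁻¹, (inferInstance : (Cfsg.layer C).Normal).conj_mem _ hzC _, ?_⟩
      rw [← hhz, ← hze]
      rfl
    have hfix : ∀ v ∈ (Cfsg.layer C).map C.subtype,
        (lC : G)⁻¹ * (t : G) * v = v * ((lC : G)⁻¹ * (t : G)) := by
      intro v hv
      have h1 : (t : G) * v * (t : G)⁻¹ = (lC : G) * v * (lC : G)⁻¹ := hl v hv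
      calc (lC : G)⁻¹ * (t : G) * v = (lC : G)⁻¹ * ((t : G) * v * (t : G)⁻¹) * (t : G) := by group
        _ = v * ((lC : G)⁻¹ * (t : G)) := by rw [h1]; group
    refine CfsgLib.MonsterLocal.Seven.false_of_inverting X (u := (lC : G)⁻¹ * (t : G)) ?_ (hfix z hz) (hfix _ hx)
    have hlb : (lC : G) * (b : G) = (b : G) * (lC : G) :=
      (Subgroup.mem_centralizer_iff.1 lC.2 (b : G) (by rw [hBb]; exact Subgroup.mem_zpowers _)).symm
    have hlb' : Commute (lC : G)⁻¹ (b : G)⁻¹ := ((show Commute (lC : G) (b : G) from hlb).inv_left).inv_right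
    calc (lC : G)⁻¹ * (t : G) * (b : G) * ((lC : G)⁻¹ * (t : G))⁻¹
        = (lC : G)⁻¹ * ((t : G) * (b : G) * (t : G)⁻¹) * (lC : G) := by group
      _ = (b : G)⁻¹ := by rw [htbG, hlb'.eq, inv_mul_cancel_right]

end Cfsg.Agent.S5418
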