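import Cfsg.Statements.S5420
import Cfsg.Agent.Lib.Fischer2.LargeExtraspecial

set_option autoImplicit false
open Cfsg

namespace Cfsg.Agent.S5420

/-- Let Q be an extraspecial 2-subgroup of the finite group G whose centralizer in G is its centre Z and which is normal in the centralizer of Z. If Z lies in the largest normal 2-subgroup of G, then Q is a large extraspecial 2-subgroup of G: it normalizes no non-trivial subgroup of G of odd order. -/
theorem result {G : Type*} [Group G] [Finite G] (Q : Subgroup G) (hL1 : Cfsg.IsExtraspecial 2 ↥Q) (hL2 : Subgroup.centralizer (Q : Set G) = ((Subgroup.center ↥Q).map Q.subtype)) (hL3 : Subgroup.centralizer (((Subgroup.center ↥Q).map Q.subtype) : Set G) ≤ Subgroup.normalizer (Q : Set G)) (hZ : ((Subgroup.center ↥Q).map Q.subtype) ≤ Cfsg.pCore 2 G) : Cfsg.IsLargeExtraspecial Q := by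
  refine ⟨hL1, hL2, hL3, fun K hodd hQK => ?_⟩
  apply CfsgLib.Fischer2.eq_bot_of_le_centralizer hL1 hL2 hL3 hodd hQK
  intro k hk
  rw [Subgroup.mem_centralizer_iff]
  intro z hz
  have hP : IsPGroup 2 (Cfsg.pCore 2 G) := by
    have : Fact (Nat.Prime 2) := ⟨Nat.prime_two⟩
    exact Sylow.sSup_of_normal _ (fun N hN => hN.2) (fun N hN => hN.1)
  have hn : k ∈ Subgroup.normalizer ((Cfsg.pCore 2 G : Subgroup G) : Set G) := by
    rw [Subgroup.normalizer_eq_top]; exact Subgroup.mem_top _
  exact (CfsgLib.Fischer2.commute_of_mem_pGroup hodd hP (hZ hz) hk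
    (hQK (CfsgLib.Fischer2.centerImage_le Q hz)) hn).symm

end Cfsg.Agent.S5420
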