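import Cfsg.Statements.S5422
import Cfsg.Agent.Lib.Fischer2.ExtraspecialConjugate

set_option autoImplicit false
open Cfsg

namespace Cfsg.Agent.S5422

/-- Let Q be an extraspecial 2-subgroup of the finite group G whose centralizer in G is its centre Z and which is normal in the centralizer of Z; suppose Q has width at least 2 (order 2^(2w+1) with w ≥ 2) and g is an element of G not normalizing Z with g Z g⁻¹ inside Q. Then Z lies inside g Q g⁻¹; writing V for the subgroup generated by Z and g Z g⁻¹ (a four-group), the normalizer of V induces on V its full automorphism group, that is, the centralizer of V has index 6 in the normalizer of V; and Q is a large extraspecial 2-subgroup of G. -/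
theorem result {G : Type*} [Group G] [Finite G] (Q : Subgroup G) (hL1 : Cfsg.IsExtraspecial 2 ↥Q) (hL2 : Subgroup.centralizer (Q : Set G) = ((Subgroup.center ↥Q).map Q.subtype)) (hL3 : Subgroup.centralizer (((Subgroup.center ↥Q).map Q.subtype) : Set G) ≤ Subgroup.normalizer (Q : Set G)) (w : ℕ) (hw : 2 ≤ w) (hcard : Nat.card ↥Q = 2 ^ (2 * w + 1)) (g : G) (hg : g ∉ Subgroup.normalizer (((Subgroup.center ↥Q).map Q.subtype) : Set G)) (hZg : (((Subgroup.center ↥Q).map Q.subtype)).map (MulAut.conj g).toMonoidHom ≤ Q) : ((Subgroup.center ↥Q).map Q.subtype) ≤ (Q).map (MulAut.conj g).toMonoidHom ∧ (Subgroup.centralizer ((((Subgroup.center ↥Q).map Q.subtype) ⊔ (((Subgroup.center ↥Q).map Q.subtype)).map (MulAut.conj g).toMonoidHom : Subgroup G) : Set G)).relIndex (Subgroup.normalizer ((((Subgroup.center ↥Q).map Q.subtype) ⊔ (((Subgroup.center ↥Q).map Q.subtype)).map (MulAut.conj g).toMonoidHom : Subgroup G) : Set G)) = 6 ∧ Cfsg.IsLargeExtraspecial Q := by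
  obtain ⟨z, hzo, hzQ, hzZ, hZz⟩ := CfsgLib.Fischer2.IsExtraspecial.exists_center_gen hL1
  have hcZ := CfsgLib.Fischer2.IsExtraspecial.card_centerImage hL1
  set Z := (Subgroup.center ↥Q).map Q.subtype with hZdef
  have hz1 : z ≠ 1 := by intro h; rw [h, orderOf_one] at hzo; norm_num at hzo
  have hz2 : z * z = 1 := by rw [← pow_two, ← hzo]; exact pow_orderOf_eq_one z
  have hmem : ∀ x ∈ Z, x = 1 ∨ x = z := fun x hx =>
    CfsgLib.Fischer2.eq_one_or_eq_of_card_two hcZ hzZ hz1 hx
  set t := g * z * g⁻¹ with ht
  have htQ : t ∈ Q := hZg ⟨z, hzZ, by simp [t]⟩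
  have htne : t ≠ z := by
    intro h
    apply hg
    rw [Subgroup.mem_normalizer_iff]
    have hgz : Commute g z := mul_inv_eq_iff_eq_mul.1 h
    intro x
    constructor
    · intro hx
      rcases hmem x hx with rfl | rfl
      · simp
      · show g * x * g⁻¹ ∈ Z
        rw [hgz.eq]; simpa using hzZ
    · intro hx
      rcases hmem _ hx with h' | h'
      · rw [conj_eq_one_iff.1 h']; exact Subgroup.one_mem _
      · rw [mul_left_cancel (mul_right_cancel (h'.trans h.symm))]; exact hzZ
  have hcard8 : 8 < Nat.card ↥Q := by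
    rw [hcard]
    calc 8 < 2 ^ (2 * 2 + 1) := by norm_num
      _ ≤ _ := Nat.pow_le_pow_right (by norm_num) (by omega)
  have hzQ' := CfsgLib.Fischer2.mem_conj_of_conj_mem hL1 hL2 hL3 hcard8 hzZ hz1 htQ htne
  have hlarge := CfsgLib.Fischer2.isLargeExtraspecial_of_conj_mem hL1 hL2 hL3 hcard8 hzZ hz1 htQ htne
  refine ⟨fun x hx => ?_, ?_, hlarge⟩
  · rcases hmem x hx with rfl | rfl
    · exact Subgroup.one_mem _
    · exact hzQ'
  · set V := Z ⊔ Z.map (MulAut.conj g).toMonoidHom with hV
    have hzc := ((CfsgLib.Fischer2.mem_centerImage_iff Q z).1 hzZ).2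
    have htc : t ∉ Z := by
      intro h; rcases hmem t h with h | h
      · exact hz1 (conj_eq_one_iff.1 h)
      · exact htne h
    have ht1 : t ≠ 1 := fun h => hz1 (conj_eq_one_iff.1 h)
    have ht2 : t * t = 1 := by
      rw [show t * t = g * (z * z) * g⁻¹ by simp only [t]; group, hz2]; group
    have hzt : z * t = t * z := hzc t htQ
    have hzV : z ∈ V := Subgroup.mem_sup_left hzZ
    have htV : t ∈ V := Subgroup.mem_sup_right ⟨z, hzZ, by simp [t]⟩
    have hztV : z * t ∈ V := V.mul_mem hzV htV
    -- the members of V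
    have hVmem : ∀ x ∈ V, x = 1 ∨ x = z ∨ x = t ∨ x = z * t := by
      intro x hx
      have hVc : V = Subgroup.closure ({z, t} : Set G) := by
        rw [hV, hZz, MonoidHom.map_zpowers, Subgroup.zpowers_eq_closure, Subgroup.zpowers_eq_closure,
          ← Subgroup.closure_union, Set.singleton_union]
        simp [t]
      rw [hVc] at hx
      induction hx using Subgroup.closure_induction with
      | mem x hx =>
        rcases hx with rfl | rfl
        · exact Or.inr (Or.inl rfl)
        · exact Or.inr (Or.inr (Or.inl rfl))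
      | one => exact Or.inl rfl
      | mul x y _ _ hx hy =>
        have e1 : t * (z * t) = z := by rw [hzt, ← mul_assoc, ht2, one_mul]
        have e2 : z * (z * t) = t := by rw [← mul_assoc, hz2, one_mul]
        have e3 : z * t * z = t := by rw [hzt, mul_assoc, hz2, mul_one]
        have e4 : z * t * t = z := by rw [mul_assoc, ht2, mul_one]
        have e5 : z * t * (z * t) = 1 := by rw [← mul_assoc, e3, ht2]
        rcases hx with rfl | rfl | rfl | rfl <;> rcases hy with rfl | rfl | rfl | rfl <;>
          simp [hz2, ht2, hzt.symm, e1, e2, e3, e4, e5]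
      | inv x _ hx =>
        have e1 : (z * t)⁻¹ = z * t := by
          apply inv_eq_of_mul_eq_one_right
          rw [← mul_assoc, hzt, mul_assoc t z z, hz2, mul_one, ht2]
        rcases hx with rfl | rfl | rfl | rfl
        · simp
        · simp [inv_eq_of_mul_eq_one_right hz2]
        · simp [inv_eq_of_mul_eq_one_right ht2]
        · simp [e1]
    set N := Subgroup.normalizer (V : Set G) with hN
    set C := Subgroup.centralizer (V : Set G) with hC
    set W : Set G := {z, t, z * t} with hW
    have hWne : z * t ≠ z ∧ z * t ≠ t ∧ z * t ≠ 1 :=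
      ⟨fun h => ht1 (mul_eq_left.1 h), fun h => hz1 (mul_eq_right.1 h), fun h => htc (by
        have : t = z⁻¹ := (mul_eq_one_iff_inv_eq.1 h).symm
        rw [this]; exact Z.inv_mem hzZ)⟩
    have hVW : ∀ x : G, x ∈ W ↔ x ∈ V ∧ x ≠ 1 := by
      intro x
      constructor
      · rintro (rfl | rfl | rfl)
        · exact ⟨hzV, hz1⟩
        · exact ⟨htV, ht1⟩
        · exact ⟨hztV, hWne.2.2⟩
      · rintro ⟨hx, hx1⟩
        rcases hVmem x hx with h | h | h | h
        · exact absurd h hx1
        · exact Or.inl h
        · exact Or.inr (Or.inl h)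
        · exact Or.inr (Or.inr h)
    have hstab : ∀ n : N, ∀ x : W, (n : G) * x * (n : G)⁻¹ ∈ W := fun n x => by
      obtain ⟨h1, h2⟩ := (hVW _).1 x.2
      exact (hVW _).2 ⟨((Subgroup.mem_normalizer_iff.1 n.2) _).1 h1, fun h => h2 (conj_eq_one_iff.1 h)⟩
    let act : N →* Equiv.Perm W := MonoidHom.mk' (fun n =>
      { toFun := fun x => ⟨(n : G) * x * (n : G)⁻¹, hstab n x⟩
        invFun := fun x => ⟨((n⁻¹ : N) : G) * x * ((n⁻¹ : N) : G)⁻¹, hstab n⁻¹ x⟩
        left_inv := fun x => by apply Subtype.ext; simp [mul_assoc]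
        right_inv := fun x => by apply Subtype.ext; simp [mul_assoc] }) (by
      intro a b; ext x; simp [mul_assoc])
    have hker : C.subgroupOf N = act.ker := by
      ext n
      rw [Subgroup.mem_subgroupOf, MonoidHom.mem_ker, hC, Subgroup.mem_centralizer_iff, Equiv.ext_iff]
      constructor
      · intro h x
        apply Subtype.ext
        show (n : G) * x * (n : G)⁻¹ = x
        rw [← h x ((hVW _).1 x.2).1, mul_inv_cancel_right]
      · intro h x hx
        rcases eq_or_ne x 1 with rfl | h1
        · simp
        · have : (n : G) * x * (n : G)⁻¹ = x := congrArg Subtype.val (h ⟨x, (hVW x).2 ⟨hx, h1⟩⟩)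
          exact (mul_inv_eq_iff_eq_mul.1 this).symm
    rw [Subgroup.relIndex, hker, Subgroup.index_ker]
    -- elements of Q and of its conjugate normalise V
    have hnorm : ∀ q : G, q * z * q⁻¹ ∈ V → q * t * q⁻¹ ∈ V → q ∈ N := by
      intro q h1 h2
      rw [hN, Subgroup.mem_normalizer_iff]
      have hmap : V.map (MulAut.conj q).toMonoidHom = V := by
        apply Subgroup.eq_of_le_of_card_ge
        · rintro _ ⟨x, hx, rfl⟩
          show q * x * q⁻¹ ∈ V
          rcases hVmem x hx with rfl | rfl | rfl | rfl
          · simpa using V.one_mem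
          · exact h1
          · exact h2
          · rw [show q * (z * t) * q⁻¹ = (q * z * q⁻¹) * (q * t * q⁻¹) by group]
            exact V.mul_mem h1 h2
        · rw [Subgroup.card_map_of_injective (MulEquiv.injective _)]
      intro x
      constructor
      · intro hx; rw [← hmap]; exact ⟨x, hx, by simp⟩
      · intro hx
        rw [← hmap] at hx
        obtain ⟨y, hy, hyx⟩ := hx
        have : q * y * q⁻¹ = q * x * q⁻¹ := by simpa using hyx
        rwa [← mul_left_cancel (mul_right_cancel this)]
    obtain ⟨q, hq, hqt⟩ := CfsgLib.Fischer2.IsExtraspecial.exists_conj_eq_mul hL1 hzZ hz1 htQ htc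
    obtain ⟨w, hw, hwz⟩ := hzQ'
    have hwz' : g * w * g⁻¹ = z := by simpa using hwz
    have hwc : w ∉ Z := by
      intro h; rcases hmem w h with rfl | rfl
      · exact hz1 (by simpa using hwz'.symm)
      · exact htne hwz'
    obtain ⟨r₀, hr₀, hr₀w⟩ := CfsgLib.Fischer2.IsExtraspecial.exists_conj_eq_mul hL1 hzZ hz1 hw hwc
    set r := g * r₀ * g⁻¹ with hr
    have hqz : q * z * q⁻¹ = z := by rw [← hzc q hq]; group
    have hrt : r * t * r⁻¹ = t := by
      calc r * t * r⁻¹ = g * (r₀ * z * r₀⁻¹) * g⁻¹ := by simp only [r, t]; group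
        _ = g * z * g⁻¹ := by rw [← hzc r₀ hr₀]; group
    have hrz : r * z * r⁻¹ = z * t := by
      calc r * z * r⁻¹ = g * (r₀ * w * r₀⁻¹) * g⁻¹ := by rw [← hwz']; simp only [r]; group
        _ = t * (g * w * g⁻¹) := by rw [hr₀w]; simp only [t]; group
        _ = _ := by rw [hwz', hzt]
    have hqN : q ∈ N := hnorm q (by rw [hqz]; exact hzV) (by rw [hqt]; exact hztV)
    have hrN : r ∈ N := hnorm r (by rw [hrz]; exact hztV) (by rw [hrt]; exact htV)
    let zW : W := ⟨z, (hVW z).2 ⟨hzV, hz1⟩⟩
    let tW : W := ⟨t, (hVW t).2 ⟨htV, ht1⟩⟩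
    let ztW : W := ⟨z * t, (hVW _).2 ⟨hztV, hWne.2.2⟩⟩
    have hWcard : Nat.card W = 3 := by
      rw [Nat.card_coe_set_eq, hW,
        Set.ncard_insert_of_notMem (by simp [htne.symm, hWne.1.symm]), Set.ncard_pair hWne.2.1.symm]
    -- the two transpositions generate
    have hbig : 6 ≤ Nat.card act.range := by
      have hsurj : Function.Surjective act := by
        classical
        have : Fintype W := Fintype.ofFinite W
        have hc3 : Fintype.card W = 3 := by rw [← Nat.card_eq_fintype_card, hWcard]
        have hWall : ∀ x : W, x = zW ∨ x = tW ∨ x = ztW := by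
          rintro ⟨x, rfl | rfl | rfl⟩ <;> simp [zW, tW, ztW]
        have hz_t : zW ≠ tW := fun h => htne (congrArg Subtype.val h).symm
        have hz_zt : zW ≠ ztW := fun h => hWne.1 (congrArg Subtype.val h).symm
        have ht_zt : tW ≠ ztW := fun h => hWne.2.1 (congrArg Subtype.val h).symm
        have hqzt : q * (z * t) * q⁻¹ = t := by
          calc q * (z * t) * q⁻¹ = (q * z * q⁻¹) * (q * t * q⁻¹) := by group
            _ = z * (z * t) := by rw [hqz, hqt]
            _ = t := by rw [← mul_assoc, hz2, one_mul]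
        have hrzt : r * (z * t) * r⁻¹ = z := by
          calc r * (z * t) * r⁻¹ = (r * z * r⁻¹) * (r * t * r⁻¹) := by group
            _ = z := by rw [hrz, hrt, mul_assoc, ht2, mul_one]
        have e1 : act ⟨q, hqN⟩ = Equiv.swap tW ztW := by
          ext x
          rcases hWall x with rfl | rfl | rfl
          · rw [Equiv.swap_apply_of_ne_of_ne hz_t hz_zt]; exact hqz
          · rw [Equiv.swap_apply_left]; exact hqt
          · rw [Equiv.swap_apply_right]; exact hqzt
        have e2 : act ⟨r, hrN⟩ = Equiv.swap zW ztW := by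
          ext x
          rcases hWall x with rfl | rfl | rfl
          · rw [Equiv.swap_apply_left]; exact hrz
          · rw [Equiv.swap_apply_of_ne_of_ne hz_t.symm ht_zt]; exact hrt
          · rw [Equiv.swap_apply_right]; exact hrzt
        have e3 : Equiv.swap zW tW ∈ act.range := by
          rw [show Equiv.swap zW tW = Equiv.swap tW ztW * Equiv.swap zW ztW * Equiv.swap tW ztW by
            ext x
            rcases hWall x with rfl | rfl | rfl <;>
              simp [Equiv.swap_apply_def, hz_t, hz_zt, ht_zt, hz_t.symm, hz_zt.symm, ht_zt.symm]]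
          exact Subgroup.mul_mem _ (Subgroup.mul_mem _ ⟨_, e1⟩ ⟨_, e2⟩) ⟨_, e1⟩
        intro σ
        suffices σ ∈ act.range from this
        have hle : (⊤ : Subgroup (Equiv.Perm W)) ≤ act.range := by
          rw [← Equiv.Perm.closure_isSwap, Subgroup.closure_le]
          rintro _ ⟨x, y, hxy, rfl⟩
          rcases hWall x with rfl | rfl | rfl <;> rcases hWall y with rfl | rfl | rfl <;>
            first
              | exact absurd rfl hxy
              | exact ⟨_, e1⟩
              | exact ⟨_, e2⟩
              | exact e3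
              | (rw [Equiv.swap_comm]; first | exact ⟨_, e1⟩ | exact ⟨_, e2⟩ | exact e3)
        exact hle (Subgroup.mem_top σ)
      rw [MonoidHom.range_eq_top.2 hsurj, Subgroup.card_top, Nat.card_perm, hWcard]
      rfl
    have hle : Nat.card act.range ≤ 6 := by
      have := Subgroup.card_le_card_group act.range
      rw [Nat.card_perm, hWcard] at this
      exact this
    omega

end Cfsg.Agent.S5422
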