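import Cfsg.Statements.S5423
import Cfsg.Agent.Lib.Fischer2.HeisenbergSetting

set_option autoImplicit false
set_option linter.style.haveILetI false
open Cfsg

namespace Cfsg.Agent.S5423

open CfsgLib.Fischer2.Heisenberg
open scoped Matrix

/-- The coordinate space of the translations. -/
abbrev W (n : ℕ) := ZMod 2 × V n

/-- Coordinates on `U` in which the chosen involution is the first basis vector. -/
theorem exists_coord {G : Type*} [Group G] [Finite G] {n : ℕ} {U : Subgroup G}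
    (hU : Cfsg.IsElementaryAbelian 2 U) (hUcard : Nat.card ↥U = 2 ^ (n + 1)) {z : G} (hzU : z ∈ U)
    (hz : z ≠ 1) :
    ∃ ι : W n → G, Function.Injective ι ∧ (∀ p q, ι (p + q) = ι p * ι q) ∧
      (∀ x, x ∈ U ↔ ∃ p, ι p = x) ∧ ι (1, 0) = z := by
  haveI := hU.1
  haveI : Fact (Nat.Prime 2) := ⟨Nat.prime_two⟩
  letI : CommGroup U := { (inferInstance : Group U) with mul_comm := IsMulCommutative.is_comm.comm }
  letI : Module (ZMod 2) (Additive U) := AddCommGroup.zmodModule (fun x => by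
    show (Additive.toMul x) ^ 2 = 1
    exact Subtype.ext (hU.2 _ x.toMul.2))
  haveI : Fintype (Additive U) := Fintype.ofFinite _
  have hrank : Module.finrank (ZMod 2) (Additive U) = n + 1 := by
    have h1 := Module.card_eq_pow_finrank (K := ZMod 2) (V := Additive U)
    rw [ZMod.card, ← Nat.card_eq_fintype_card, Nat.card_congr Additive.toMul, hUcard] at h1
    exact (Nat.pow_right_injective (le_refl 2) h1).symm
  let L : Additive U ≃ₗ[ZMod 2] V (n + 1) :=
    LinearEquiv.ofFinrankEq _ _ (by rw [hrank, Module.finrank_pi, Fintype.card_fin])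
  let zU : Additive U := Additive.ofMul ⟨z, hzU⟩
  have hv : L zU ≠ 0 := by
    intro h
    rw [LinearEquiv.map_eq_zero_iff] at h
    exact hz (congrArg Subtype.val (congrArg Additive.toMul h))
  obtain ⟨g, hg⟩ := exists_gl_mulVec (show (Pi.single 0 1 : V (n + 1)) ≠ 0 by simp) hv
  let J : V (n + 1) → G := fun v => ((Additive.toMul (L.symm v) : U) : G)
  have hJinj : Function.Injective J :=
    Subtype.val_injective.comp (Additive.toMul.injective.comp L.symm.injective)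
  have hJadd : ∀ v w, J (v + w) = J v * J w := fun v w => by
    simp only [J, map_add, toMul_add, Subgroup.coe_mul]
  have hJr : ∀ x, x ∈ U ↔ ∃ v, J v = x := fun x =>
    ⟨fun hx => ⟨L (Additive.ofMul ⟨x, hx⟩), by simp [J]⟩, fun ⟨v, hv⟩ => hv ▸ SetLike.coe_mem _⟩
  have hJz : J (L zU) = z := by simp [J, zU]
  let A := (g : Matrix (Fin (n + 1)) (Fin (n + 1)) (ZMod 2))
  let B := ((g⁻¹ : GL (Fin (n + 1)) (ZMod 2)) : Matrix (Fin (n + 1)) (Fin (n + 1)) (ZMod 2))
  have hBA : ∀ v, B *ᵥ (A *ᵥ v) = v := fun v => by simp [A, B, Matrix.mulVec_mulVec]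
  have hAB : ∀ v, A *ᵥ (B *ᵥ v) = v := fun v => by simp [A, B, Matrix.mulVec_mulVec]
  refine ⟨fun p => J (A *ᵥ Fin.cons p.1 p.2), ?_, ?_, ?_, ?_⟩
  · intro p q h
    have h2 := congrArg (B *ᵥ ·) (hJinj h)
    simp only [hBA] at h2
    obtain ⟨h3, h4⟩ := Fin.cons_inj.1 h2
    exact Prod.ext h3 h4
  · intro p q
    have hc : (Fin.cons (p + q).1 (p + q).2 : V (n + 1)) =
        Fin.cons p.1 p.2 + Fin.cons q.1 q.2 := by
      funext i
      refine Fin.cases ?_ (fun j => ?_) i <;> simp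
    dsimp only
    rw [← hJadd, ← Matrix.mulVec_add, ← hc]
  · intro x
    rw [hJr]
    constructor
    · rintro ⟨v, rfl⟩
      exact ⟨((B *ᵥ v) 0, Fin.tail (B *ᵥ v)), by simp only [Fin.cons_self_tail, hAB]⟩
    · rintro ⟨p, hp⟩
      exact ⟨_, hp⟩
  · have h1 : (Fin.cons (1 : ZMod 2) (0 : V n) : V (n + 1)) = Pi.single 0 1 := by
      funext i
      refine Fin.cases ?_ (fun j => ?_) i <;> simp
    show J (A *ᵥ Fin.cons 1 0) = z
    rw [h1, hg, hJz]

variable {G : Type*} [Group G]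

/-- Coordinates together with the faithful full action of the complement. -/
structure Coord (U M : Subgroup G) (n : ℕ) where
  ι : W n → G
  inj : Function.Injective ι
  add : ∀ p q, ι (p + q) = ι p * ι q
  range : ∀ x, x ∈ U ↔ ∃ p, ι p = x
  inf_eq : U ⊓ M = ⊥
  sup_eq : U ⊔ M = ⊤
  faith : ∀ m ∈ M, (∀ u ∈ U, m * u * m⁻¹ = u) → m = 1
  full : ∀ φ : ↥U ≃* ↥U, ∃ m ∈ M, ∀ u : ↥U, ((φ u : ↥U) : G) = m * u * m⁻¹

namespace Coord

variable {U M : Subgroup G} {n : ℕ} (S : Coord U M n)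

theorem ι_zero : S.ι 0 = 1 := by
  have := S.add 0 0
  rw [add_zero] at this
  exact left_eq_mul.1 this

theorem ι_mem (p : W n) : S.ι p ∈ U := (S.range _).2 ⟨p, rfl⟩

theorem exists_auto (f : W n ≃+ W n) :
    ∃ m ∈ M, ∀ p, m * S.ι p * m⁻¹ = S.ι (f p) := by
  let e : W n ≃ U := Equiv.ofBijective (fun p => ⟨S.ι p, S.ι_mem p⟩)
    ⟨fun p q h => S.inj (congrArg Subtype.val h), fun x => by
      obtain ⟨p, hp⟩ := (S.range x).1 x.2
      exact ⟨p, Subtype.ext hp⟩⟩
  let φ : U ≃* U := MulEquiv.mk' (e.symm.trans (f.toEquiv.trans e)) fun x y => by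
    obtain ⟨p, rfl⟩ := e.surjective x
    obtain ⟨q, rfl⟩ := e.surjective y
    have hpq : e (p + q) = e p * e q := Subtype.ext (S.add p q)
    simp only [← hpq, Equiv.trans_apply, Equiv.symm_apply_apply, AddEquiv.toEquiv_eq_coe,
      EquivLike.coe_coe, map_add]
    exact Subtype.ext (S.add _ _)
  obtain ⟨m, hm, h⟩ := S.full φ
  refine ⟨m, hm, fun p => ?_⟩
  rw [show S.ι p = (e p : G) from rfl, ← h (e p)]
  show (e (f (e.symm (e p))) : G) = S.ι (f p)
  rw [Equiv.symm_apply_apply]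
  rfl

/-- The element of the complement inducing a given automorphism. -/
noncomputable def μ (f : W n ≃+ W n) : G := (S.exists_auto f).choose

theorem μ_mem (f : W n ≃+ W n) : S.μ f ∈ M := (S.exists_auto f).choose_spec.1

theorem μ_conj (f : W n ≃+ W n) (p : W n) : S.μ f * S.ι p * (S.μ f)⁻¹ = S.ι (f p) :=
  (S.exists_auto f).choose_spec.2 p

theorem μ_ι (f : W n ≃+ W n) (p : W n) : S.μ f * S.ι p = S.ι (f p) * S.μ f :=
  mul_inv_eq_iff_eq_mul.1 (S.μ_conj f p)

theorem eq_μ {m : G} (hm : m ∈ M) {f : W n ≃+ W n}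
    (h : ∀ p, m * S.ι p * m⁻¹ = S.ι (f p)) : m = S.μ f := by
  have : (S.μ f)⁻¹ * m = 1 := S.faith _ (M.mul_mem (M.inv_mem (S.μ_mem f)) hm) fun u hu => by
    obtain ⟨p, rfl⟩ := (S.range u).1 hu
    rw [show (S.μ f)⁻¹ * m * S.ι p * ((S.μ f)⁻¹ * m)⁻¹ =
      (S.μ f)⁻¹ * (m * S.ι p * m⁻¹) * S.μ f by group, h, ← S.μ_conj f p]
    group
  exact (inv_mul_eq_one.1 this).symm

theorem μ_trans (f g : W n ≃+ W n) : S.μ (g.trans f) = S.μ f * S.μ g := by
  refine (S.eq_μ (M.mul_mem (S.μ_mem f) (S.μ_mem g)) fun p => ?_).symm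
  rw [show S.μ f * S.μ g * S.ι p * (S.μ f * S.μ g)⁻¹ =
    S.μ f * (S.μ g * S.ι p * (S.μ g)⁻¹) * (S.μ f)⁻¹ by group, S.μ_conj, S.μ_conj]
  rfl

theorem μ_eq_one {f : W n ≃+ W n} (h : S.μ f = 1) (p : W n) : f p = p := by
  have := S.μ_conj f p
  rw [h, one_mul, inv_one, mul_one] at this
  exact (S.inj this).symm

theorem exists_conj [U.Normal] (x : G) :
    ∃ f : W n ≃+ W n, ∀ p, x * S.ι p * x⁻¹ = S.ι (f p) := by
  have h1 : ∀ (y : G) (p : W n), ∃ q, S.ι q = y * S.ι p * y⁻¹ := fun y p =>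
    (S.range _).1 ((inferInstance : U.Normal).conj_mem _ (S.ι_mem p) y)
  choose F hF using h1
  refine ⟨{ toFun := F x, invFun := F x⁻¹, left_inv := fun p => S.inj ?_, right_inv := fun p => S.inj ?_,
            map_add' := fun p q => S.inj ?_ }, fun p => (hF x p).symm⟩
  · rw [hF, hF]; group
  · rw [hF, hF]; group
  · rw [hF, S.add, S.add, hF, hF]; group

end Coord

/-- The transvections fixing the chosen involution. -/
def bAut {n : ℕ} (w : V n) : W n ≃+ W n where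
  toFun p := (p.1 + p.2 ⬝ᵥ w, p.2)
  invFun p := (p.1 - p.2 ⬝ᵥ w, p.2)
  left_inv p := by simp
  right_inv p := by simp
  map_add' p q := by
    refine Prod.ext ?_ rfl
    simp only [Prod.fst_add, Prod.snd_add, add_dotProduct]
    abel

/-- The linear group of the second coordinate. -/
def kAut {n : ℕ} (g : GL (Fin n) (ZMod 2)) : W n ≃+ W n where
  toFun p := (p.1, (g : Matrix (Fin n) (Fin n) (ZMod 2)) *ᵥ p.2)
  invFun p := (p.1, ((g⁻¹ : GL (Fin n) (ZMod 2)) : Matrix (Fin n) (Fin n) (ZMod 2)) *ᵥ p.2)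
  left_inv p := by simp [Matrix.mulVec_mulVec]
  right_inv p := by simp [Matrix.mulVec_mulVec]
  map_add' p q := by
    refine Prod.ext rfl ?_
    simp only [Prod.snd_add, Matrix.mulVec_add]

theorem dot_vecMul_inv {n : ℕ} (g : GL (Fin n) (ZMod 2)) (v w : V n) :
    ((g : Matrix (Fin n) (Fin n) (ZMod 2)) *ᵥ v) ⬝ᵥ
      (w ᵥ* ((g⁻¹ : GL (Fin n) (ZMod 2)) : Matrix (Fin n) (Fin n) (ZMod 2))) = v ⬝ᵥ w := by
  rw [dotProduct_comm, ← Matrix.dotProduct_mulVec, Matrix.mulVec_mulVec, ← Units.val_mul,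
    inv_mul_cancel, Units.val_one, Matrix.one_mulVec, dotProduct_comm]

/-- An automorphism fixing the first basis vector is a transvection times an element of `GL_n`. -/
theorem exists_factor {n : ℕ} (f : W n ≃+ W n) (hf : f (1, 0) = (1, 0)) :
    ∃ (w : V n) (g : GL (Fin n) (ZMod 2)), ∀ p, f p = bAut w (kAut g p) := by
  have hdec : ∀ p : W n, f p = (p.1 + (f (0, p.2)).1, (f (0, p.2)).2) := by
    intro p
    obtain ⟨e, v⟩ := p
    rcases z2_cases e with rfl | rfl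
    · simp
    · rw [show ((1 : ZMod 2), v) = (1, 0) + (0, v) by simp, map_add, hf]
      ext <;> simp
  let gl : V n →ₗ[ZMod 2] V n := AddMonoidHom.toZModLinearMap 2
    (AddMonoidHom.mk' (fun v => (f (0, v)).2) fun v v' => by
      rw [show ((0 : ZMod 2), v + v') = (0, v) + (0, v') by simp, map_add]; rfl)
  have hinj : Function.Injective gl := by
    refine (injective_iff_map_eq_zero _).2 fun v hv => ?_
    have hv' : (f (0, v)).2 = 0 := hv
    have h1 : f ((f (0, v)).1, v) = 0 := by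
      rw [hdec]
      exact Prod.ext (CharTwo.add_self_eq_zero _) hv'
    exact congrArg Prod.snd (f.map_eq_zero_iff.1 h1)
  let G' : Matrix (Fin n) (Fin n) (ZMod 2) := LinearMap.toMatrix' gl
  have hG : ∀ v, G' *ᵥ v = (f (0, v)).2 := fun v => LinearMap.toMatrix'_mulVec gl v
  have hu : IsUnit G' := Matrix.mulVec_injective_iff_isUnit.1 fun v v' h =>
    hinj (((hG v).symm.trans h).trans (hG v'))
  obtain ⟨g, hg⟩ := hu
  have hg' : ∀ v, (g : Matrix (Fin n) (Fin n) (ZMod 2)) *ᵥ v = (f (0, v)).2 := fun v => hg ▸ hG v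
  let ψ : V n →+ ZMod 2 := AddMonoidHom.mk'
    (fun u => (f (0, ((g⁻¹ : GL (Fin n) (ZMod 2)) : Matrix (Fin n) (Fin n) (ZMod 2)) *ᵥ u)).1)
    fun u u' => by
      rw [Matrix.mulVec_add, show ∀ a b : V n, ((0 : ZMod 2), a + b) = (0, a) + (0, b) from fun a b => by simp,
        map_add]
      rfl
  refine ⟨fun i => ψ (Pi.single i 1), g, fun p => ?_⟩
  rw [hdec]
  refine Prod.ext ?_ (hg' p.2).symm
  show p.1 + (f (0, p.2)).1 =
    p.1 + ((g : Matrix (Fin n) (Fin n) (ZMod 2)) *ᵥ p.2) ⬝ᵥ fun i => ψ (Pi.single i 1)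
  congr 1
  have hsum : ∀ u, ψ u = u ⬝ᵥ fun i => ψ (Pi.single i 1) := fun u => by
    conv_lhs => rw [← Finset.univ_sum_single u, map_sum]
    refine Finset.sum_congr rfl fun i _ => ?_
    rcases z2_cases (u i) with h | h <;> simp [h]
  rw [← hsum]
  show _ = (f (0, _ *ᵥ _)).1
  rw [Matrix.mulVec_mulVec, ← Units.val_mul, inv_mul_cancel, Units.val_one, Matrix.one_mulVec]

/-- The root elements. -/
noncomputable def data {U M : Subgroup G} [U.Normal] {n : ℕ} (hn : 1 ≤ n)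
    (S : Coord U M n) : Data G n where
  z := S.ι (1, 0)
  a v := S.ι (0, v)
  b w := S.μ (bAut w)
  k := MonoidHom.mk' (fun g => S.μ (kAut g)) fun g g' => by
    rw [← S.μ_trans]
    congr 1
    apply AddEquiv.ext
    intro p
    simp [kAut, Matrix.mulVec_mulVec]
  σ g v := (g : Matrix (Fin n) (Fin n) (ZMod 2)) *ᵥ v
  τ g w := w ᵥ* ((g⁻¹ : GL (Fin n) (ZMod 2)) : Matrix (Fin n) (Fin n) (ZMod 2))
  zz := by
    rw [← S.add, ← S.ι_zero]
    exact congrArg S.ι (Prod.ext (CharTwo.add_self_eq_zero _) (add_zero _))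
  z_a v := by rw [← S.add, ← S.add, add_comm]
  z_b w := by
    rw [S.μ_ι]
    simp [bAut]
  z_k g := by
    show S.ι (1, 0) * S.μ (kAut g) = S.μ (kAut g) * S.ι (1, 0)
    rw [S.μ_ι]
    simp [kAut]
  a_add v v' := by rw [← S.add]; simp
  b_add w w' := by
    rw [← S.μ_trans]
    congr 1
    apply AddEquiv.ext
    intro p
    simp [bAut, dotProduct_add, add_left_comm, add_comm]
  b_a v w := by
    rw [S.μ_ι, ← mul_assoc]
    congr 1
    show S.ι ((0 : ZMod 2) + v ⬝ᵥ w, v) = _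
    rw [zero_add]
    rcases z2_cases (v ⬝ᵥ w) with h | h
    · simp [h]
    · rw [h, if_neg one_ne_zero, ← S.add]
      simp
  conj_a g v := by
    show S.μ (kAut g) * S.ι (0, v) = _
    rw [S.μ_ι]
    rfl
  conj_b g w := by
    show S.μ _ * S.μ _ = S.μ _ * S.μ _
    rw [← S.μ_trans, ← S.μ_trans]
    congr 1
    apply AddEquiv.ext
    intro p
    refine Prod.ext ?_ rfl
    show p.1 + p.2 ⬝ᵥ w = p.1 + ((g : Matrix (Fin n) (Fin n) (ZMod 2)) *ᵥ p.2) ⬝ᵥ
      (w ᵥ* ((g⁻¹ : GL (Fin n) (ZMod 2)) : Matrix (Fin n) (Fin n) (ZMod 2)))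
    rw [dot_vecMul_inv]
  faith g hg := by
    have h : g⁻¹ = 1 := Units.ext (Matrix.ext fun i j => by
      have := congrFun (hg (Pi.single i 1)) j
      rw [Matrix.single_one_vecMul] at this
      simpa [Matrix.one_apply, Pi.single_apply, eq_comm] using this)
    exact inv_eq_one.1 h
  inj e v w g h := by
    have he : (if e = 0 then 1 else S.ι (1, 0)) * S.ι (0, v) = S.ι (e, v) := by
      rcases z2_cases e with rfl | rfl
      · simp
      · rw [if_neg one_ne_zero, ← S.add]; simp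
    rw [he, mul_assoc, MonoidHom.mk'_apply, ← S.μ_trans] at h
    have h1 : S.μ ((kAut g).trans (bAut w)) = 1 := by
      rw [← Subgroup.mem_bot, ← S.inf_eq]
      refine ⟨?_, S.μ_mem _⟩
      rw [eq_inv_of_mul_eq_one_right h]
      exact U.inv_mem (S.ι_mem _)
    rw [h1, mul_one, ← S.ι_zero] at h
    obtain ⟨rfl, rfl⟩ := Prod.ext_iff.1 (S.inj h)
    have h2 := S.μ_eq_one h1
    have hg : g = 1 := Units.ext (Matrix.ext_of_mulVec_single fun i => by
      rw [Units.val_one, Matrix.one_mulVec]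
      exact congrArg Prod.snd (h2 (0, Pi.single i 1)))
    refine ⟨rfl, rfl, funext fun i => ?_, hg⟩
    simpa [bAut, kAut, hg] using congrArg Prod.fst (h2 (0, Pi.single i 1))
  surj x hx := by
    obtain ⟨u, hu, m, hm, rfl⟩ : ∃ u ∈ U, ∃ m ∈ M, u * m = x := by
      have : x ∈ ((U ⊔ M : Subgroup G) : Set G) := by rw [S.sup_eq]; exact Subgroup.mem_top x
      rw [Subgroup.normal_mul] at this
      obtain ⟨u, hu, m, hm, rfl⟩ := this
      exact ⟨u, hu, m, hm, rfl⟩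
    obtain ⟨⟨e, v⟩, rfl⟩ := (S.range u).1 hu
    obtain ⟨f, hf⟩ := S.exists_conj m
    have hmz : m * S.ι (1, 0) = S.ι (1, 0) * m := by
      have h1 : S.ι (e, v) * S.ι (1, 0) = S.ι (1, 0) * S.ι (e, v) := by
        rw [← S.add, ← S.add, add_comm]
      rw [mul_assoc, ← mul_assoc (S.ι (1, 0)), ← h1, mul_assoc (S.ι (e, v)) (S.ι (1, 0)) m] at hx
      exact mul_left_cancel hx
    have hf1 : f (1, 0) = (1, 0) := S.inj (by rw [← hf, hmz, mul_inv_cancel_right])
    obtain ⟨w, g, hwg⟩ := exists_factor f hf1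
    refine ⟨e, v, w, g, ?_⟩
    have he : (if e = 0 then 1 else S.ι (1, 0)) * S.ι (0, v) = S.ι (e, v) := by
      rcases z2_cases e with rfl | rfl
      · simp
      · rw [if_neg one_ne_zero, ← S.add]; simp
    rw [he, mul_assoc (S.ι (e, v)), MonoidHom.mk'_apply, ← S.μ_trans]
    congr 1
    exact S.eq_μ hm fun p => (hf p).trans (congrArg S.ι (hwg p))
  norm := by
    obtain ⟨k, rfl⟩ : ∃ k, n = k + 1 := ⟨n - 1, by omega⟩
    refine ⟨Pi.single 0 1, by simp, fun x _ e v => ?_⟩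
    have he : ∀ (e : ZMod 2) (v : V (k + 1)),
        (if e = 0 then 1 else S.ι (1, 0)) * S.ι (0, v) = S.ι (e, v) := by
      intro e v
      rcases z2_cases e with rfl | rfl
      · simp
      · rw [if_neg one_ne_zero, ← S.add]; simp
    obtain ⟨f, hf⟩ := S.exists_conj x
    exact ⟨(f (e, v)).1, (f (e, v)).2, by rw [he, he, hf]⟩

theorem result {G : Type*} [Group G] [Finite G] (n : ℕ) (hn : 1 ≤ n) (U M : Subgroup G) [U.Normal] (hU : Cfsg.IsElementaryAbelian 2 U) (hUcard : Nat.card ↥U = 2 ^ (n + 1)) (hUM : U ⊓ M = ⊥) (hUM' : U ⊔ M = ⊤) (hfaith : ∀ m ∈ M, (∀ u ∈ U, m * u * m⁻¹ = u) → m = 1) (hfull : ∀ φ : ↥U ≃* ↥U, ∃ m ∈ M, ∀ u : ↥U, ((φ u : ↥U) : G) = m * u * m⁻¹) (Z : Subgroup G) (hZU : Z ≤ U) (hZ : Nat.card ↥Z = 2) (Q : Subgroup G) (hQ : Q = (Cfsg.pCore 2 ↥(Subgroup.centralizer (Z : Set G))).map (Subgroup.centralizer (Z : Set G)).subtype) : Cfsg.IsExtraspecial 2 ↥Q ∧ Nat.card ↥Q = 2 ^ (2 * n + 1) ∧ (∃ E : Subgroup G,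 E ≤ Q ∧ Cfsg.IsElementaryAbelian 2 E ∧ Nat.card ↥E = 2 ^ (n + 1)) ∧ Cfsg.IsLargeExtraspecial Q ∧ ∃ K : Subgroup G, K ≤ Subgroup.centralizer (Z : Set G) ∧ Q ⊓ K = ⊥ ∧ Q ⊔ K = Subgroup.centralizer (Z : Set G) ∧ Nonempty (↥K ≃* Matrix.GeneralLinearGroup (Fin n) (ZMod 2)) := by
  obtain ⟨z, hzo⟩ : ∃ z : Z, orderOf z = 2 := by
    haveI : Fact (Nat.Prime 2) := ⟨Nat.prime_two⟩
    exact exists_prime_orderOf_dvd_card' 2 (by rw [hZ])
  have hz1 : (z : G) ≠ 1 := fun h => by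
    rw [show z = 1 from Subtype.ext h, orderOf_one] at hzo
    norm_num at hzo
  have hZz : Z = Subgroup.closure {(z : G)} := by
    rw [← Subgroup.zpowers_eq_closure]
    exact (Subgroup.eq_of_le_of_card_ge (Subgroup.zpowers_le.2 z.2)
      (by rw [hZ, Nat.card_zpowers, Subgroup.orderOf_coe, hzo])).symm
  obtain ⟨ι, hι1, hι2, hι3, hι4⟩ := exists_coord hU hUcard (hZU z.2) hz1
  let S := data hn (Coord.mk ι hι1 hι2 hι3 hUM hUM' hfaith hfull)
  have hC : Subgroup.centralizer (Z : Set G) = Subgroup.centralizer ({S.z} : Set G) := by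
    rw [hZz, Subgroup.centralizer_closure, ← hι4]
    rfl
  rw [hC] at hQ ⊢
  obtain rfl : Q = S.Q := hQ.trans S.map_pCore
  exact S.conclusion hn

end Cfsg.Agent.S5423
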