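import Cfsg.Statements.S5424
import Cfsg.Agent.Lib.Fischer2.HeisenbergSetting

set_option autoImplicit false
open Cfsg

namespace Cfsg.Agent.S5424

open CfsgLib.Fischer2.Heisenberg
open scoped Matrix

variable {n : ℕ}

/-- A matrix fixing the point and the hyperplane of the transvection. -/
def bk (e : ZMod 2) (r w : V n) (g : Matrix (Fin n) (Fin n) (ZMod 2)) :
    Matrix (Fin (n + 2)) (Fin (n + 2)) (ZMod 2) :=
  Matrix.of <| Fin.cons (Fin.cons 1 (Fin.cons e r) : Fin (n + 2) → ZMod 2)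
    (Fin.cons (Fin.cons 0 (Fin.cons 1 0) : Fin (n + 2) → ZMod 2)
      fun i => (Fin.cons 0 (Fin.cons (w i) (g i)) : Fin (n + 2) → ZMod 2))

theorem bk_mul (e e' : ZMod 2) (r r' w w' : V n) (g g' : Matrix (Fin n) (Fin n) (ZMod 2)) :
    bk e r w g * bk e' r' w' g' = bk (e + e' + r ⬝ᵥ w') (r' + r ᵥ* g') (w + g *ᵥ w') (g * g') := by
  ext i j
  refine Fin.cases ?_ (fun i => Fin.cases ?_ (fun i => ?_) i) i <;>
    refine Fin.cases ?_ (fun j => Fin.cases ?_ (fun j => ?_) j) j <;>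
    simp [bk, Matrix.mul_apply, Fin.sum_univ_succ, dotProduct, Matrix.vecMul, Matrix.mulVec,
      add_comm, add_left_comm, add_assoc]

theorem bk_one : bk (0 : ZMod 2) (0 : V n) 0 1 = 1 := by
  ext i j
  refine Fin.cases ?_ (fun i => Fin.cases ?_ (fun i => ?_) i) i <;>
    refine Fin.cases ?_ (fun j => Fin.cases ?_ (fun j => ?_) j) j <;>
    simp [bk, Matrix.one_apply, Fin.ext_iff]

theorem bk_inj {e e' : ZMod 2} {r r' w w' : V n} {g g' : Matrix (Fin n) (Fin n) (ZMod 2)}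
    (h : bk e r w g = bk e' r' w' g') : e = e' ∧ r = r' ∧ w = w' ∧ g = g' :=
  ⟨by simpa [bk] using congrFun (congrFun h 0) 1,
    funext fun j => by simpa [bk] using congrFun (congrFun h 0) j.succ.succ,
    funext fun i => by simpa [bk] using congrFun (congrFun h i.succ.succ) 1,
    Matrix.ext fun i j => by simpa [bk] using congrFun (congrFun h i.succ.succ) j.succ.succ⟩

theorem transvection_eq : Matrix.transvection (0 : Fin (n + 2)) 1 (1 : ZMod 2) = bk 1 0 0 1 := by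
  ext i j
  refine Fin.cases ?_ (fun i => Fin.cases ?_ (fun i => ?_) i) i <;>
    refine Fin.cases ?_ (fun j => Fin.cases ?_ (fun j => ?_) j) j <;>
    simp [bk, Matrix.transvection, Matrix.one_apply, Matrix.single, Fin.succ_ne_zero,
      (Fin.succ_ne_zero _).symm, Fin.ext_iff]

theorem one_ne_ss (j : Fin n) : (1 : Fin (n + 2)) ≠ j.succ.succ := by
  rw [← Fin.succ_zero_eq_one]
  exact fun h => Fin.succ_ne_zero j (Fin.succ_injective _ h).symm

abbrev SL' (n : ℕ) := Matrix.SpecialLinearGroup (Fin (n + 2)) (ZMod 2)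

theorem det_one {m : Type*} [Fintype m] [DecidableEq m] {A B : Matrix m m (ZMod 2)}
    (h : A * B = 1) : A.det = 1 := by
  have h1 : A.det * B.det = 1 := by rw [← Matrix.det_mul, h, Matrix.det_one]
  exact (fun a b => (by decide : ∀ a b : ZMod 2, a * b = 1 → a = 1) a b) _ _ h1

theorem bk_inv (e : ZMod 2) (r w : V n) (g : GL (Fin n) (ZMod 2)) :
    bk e r w (g : Matrix (Fin n) (Fin n) (ZMod 2)) *
      bk (-(e + -(r ⬝ᵥ ((g⁻¹ : GL (Fin n) (ZMod 2)) : Matrix (Fin n) (Fin n) (ZMod 2)) *ᵥ w)))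
        (-(r ᵥ* ((g⁻¹ : GL (Fin n) (ZMod 2)) : Matrix (Fin n) (Fin n) (ZMod 2))))
        (-(((g⁻¹ : GL (Fin n) (ZMod 2)) : Matrix (Fin n) (Fin n) (ZMod 2)) *ᵥ w))
        ((g⁻¹ : GL (Fin n) (ZMod 2)) : Matrix (Fin n) (Fin n) (ZMod 2)) = 1 := by
  rw [bk_mul, ← bk_one, ← Units.val_mul, mul_inv_cancel, Units.val_one, Matrix.mulVec_neg,
    Matrix.mulVec_mulVec, ← Units.val_mul, mul_inv_cancel, Units.val_one, Matrix.one_mulVec,
    dotProduct_neg, add_neg_cancel, neg_add_cancel]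
  congr 1
  ring

/-- The elements of the centraliser. -/
def sb (e : ZMod 2) (r w : V n) (g : GL (Fin n) (ZMod 2)) : SL' n :=
  ⟨bk e r w g, det_one (bk_inv e r w g)⟩

theorem sb_mul (e e' : ZMod 2) (r r' w w' : V n) (g g' : GL (Fin n) (ZMod 2)) :
    sb e r w g * sb e' r' w' g' =
      sb (e + e' + r ⬝ᵥ w') (r' + r ᵥ* (g' : Matrix (Fin n) (Fin n) (ZMod 2)))
        (w + (g : Matrix (Fin n) (Fin n) (ZMod 2)) *ᵥ w') (g * g') :=
  Subtype.ext (bk_mul _ _ _ _ _ _ _ _)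

theorem sb_one : sb (0 : ZMod 2) (0 : V n) 0 1 = 1 := Subtype.ext bk_one

theorem sb_inj {e e' : ZMod 2} {r r' w w' : V n} {g g' : GL (Fin n) (ZMod 2)}
    (h : sb e r w g = sb e' r' w' g') : e = e' ∧ r = r' ∧ w = w' ∧ g = g' := by
  obtain ⟨h1, h2, h3, h4⟩ := bk_inj (congrArg Subtype.val h)
  exact ⟨h1, h2, h3, Units.ext h4⟩

/-- The value of the normal form. -/
theorem form_eq (e : ZMod 2) (v w : V n) (g : GL (Fin n) (ZMod 2)) :
    (if e = 0 then 1 else sb 1 0 0 1) * sb 0 v 0 1 * sb 0 0 w 1 * sb 0 0 0 g =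
      sb (e + v ⬝ᵥ w) (v ᵥ* (g : Matrix (Fin n) (Fin n) (ZMod 2))) w g := by
  have : (if e = 0 then (1 : SL' n) else sb 1 0 0 1) = sb e 0 0 1 := by
    rcases z2_cases e with rfl | rfl
    · simp [sb_one]
    · simp
  rw [this, sb_mul, sb_mul, sb_mul]
  simp

theorem commute_iff {x : SL' n} (h : x * sb 1 0 0 1 = sb 1 0 0 1 * x) :
    (∀ i : Fin (n + 1), x.1 i.succ 0 = 0) ∧ x.1 0 0 = x.1 1 1 ∧
      ∀ j : Fin n, x.1 1 j.succ.succ = 0 := by
  have h' : x.1 * bk 1 0 0 1 = bk 1 0 0 1 * x.1 := congrArg Subtype.val h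
  refine ⟨fun i => ?_, ?_, fun j => ?_⟩
  · have := congrFun (congrFun h' i.succ) 1
    revert this
    refine Fin.cases ?_ (fun i => ?_) i <;>
      simp [bk, Matrix.mul_apply, Fin.sum_univ_succ, Matrix.one_apply]
  · have := congrFun (congrFun h' 0) 1
    simp [bk, Matrix.mul_apply, Fin.sum_univ_succ, Matrix.one_apply] at this
    linear_combination this
  · have := congrFun (congrFun h' 0) j.succ.succ
    simp [bk, Matrix.mul_apply, Fin.sum_univ_succ, Matrix.one_apply] at this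
    linear_combination this

theorem exists_sb {x : SL' n} (h : x * sb 1 0 0 1 = sb 1 0 0 1 * x) :
    ∃ e r w g, x = sb e r w g := by
  have key : ∀ y : SL' n, y * sb 1 0 0 1 = sb 1 0 0 1 * y →
      y.1 = bk (y.1 0 1) (fun j => y.1 0 j.succ.succ) (fun i => y.1 i.succ.succ 1)
        (Matrix.of fun i j => y.1 i.succ.succ j.succ.succ) := by
    intro y hy
    obtain ⟨h0, h1, h2⟩ := commute_iff hy
    have hd : y.1 0 0 = 1 := by
      rcases z2_cases (y.1 0 0) with hz | hz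
      · exfalso
        have : y.1.det = 0 := Matrix.det_eq_zero_of_column_eq_zero 0 (Fin.cases hz h0)
        rw [y.2] at this
        exact one_ne_zero this
      · exact hz
    have h10 : y.1 1 0 = 0 := h0 0
    ext i j
    refine Fin.cases ?_ (fun i => Fin.cases ?_ (fun i => ?_) i) i <;>
      refine Fin.cases ?_ (fun j => Fin.cases ?_ (fun j => ?_) j) j <;>
      simp [bk, h0, h2, hd, h10, ← h1]
  have hi : x⁻¹ * sb 1 0 0 1 = sb 1 0 0 1 * x⁻¹ := by
    rw [eq_mul_inv_iff_mul_eq, mul_assoc, ← h, inv_mul_cancel_left]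
  have hx := key x h
  have hx' := key x⁻¹ hi
  have e1 : x.1 * (x⁻¹ : SL' n).1 = 1 := congrArg Subtype.val (mul_inv_cancel x)
  have e2 : (x⁻¹ : SL' n).1 * x.1 = 1 := congrArg Subtype.val (inv_mul_cancel x)
  rw [hx, hx', bk_mul, ← bk_one] at e1
  rw [hx, hx', bk_mul, ← bk_one] at e2
  exact ⟨_, _, _, ⟨_, _, (bk_inj e1).2.2.2, (bk_inj e2).2.2.2⟩, Subtype.ext hx⟩

theorem toGL_inv_cancel (g : GL (Fin n) (ZMod 2)) (v : V n) :
    (v ᵥ* ((g⁻¹ : GL (Fin n) (ZMod 2)) : Matrix (Fin n) (Fin n) (ZMod 2))) ᵥ*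
      (g : Matrix (Fin n) (Fin n) (ZMod 2)) = v := by
  rw [Matrix.vecMul_vecMul, ← Units.val_mul, inv_mul_cancel, Units.val_one, Matrix.vecMul_one]

/-- The root elements. -/
def data (hn : 1 ≤ n) : Data (SL' n) n where
  z := sb 1 0 0 1
  a v := sb 0 v 0 1
  b w := sb 0 0 w 1
  k := MonoidHom.mk' (fun g => sb 0 0 0 g) fun g g' => by rw [sb_mul]; simp
  σ g v := v ᵥ* ((g⁻¹ : GL (Fin n) (ZMod 2)) : Matrix (Fin n) (Fin n) (ZMod 2))
  τ g w := (g : Matrix (Fin n) (Fin n) (ZMod 2)) *ᵥ w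
  zz := by rw [sb_mul, ← sb_one]; simp [show (1 : ZMod 2) + 1 = 0 from by decide]
  z_a v := by rw [sb_mul, sb_mul]; simp
  z_b w := by rw [sb_mul, sb_mul]; simp
  z_k g := by simp [sb_mul]
  a_add v v' := by rw [sb_mul]; simp [add_comm]
  b_add w w' := by rw [sb_mul]; simp
  b_a v w := by
    have : (if v ⬝ᵥ w = 0 then (1 : SL' n) else sb 1 0 0 1) = sb (v ⬝ᵥ w) 0 0 1 := by
      rcases z2_cases (v ⬝ᵥ w) with h | h <;> simp [h, sb_one]
    rw [this, sb_mul, sb_mul, sb_mul]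
    simp [show ∀ t : ZMod 2, t + t = 0 from by decide]
  conj_a g v := by
    simp only [MonoidHom.mk'_apply, sb_mul, toGL_inv_cancel]
    simp
  conj_b g w := by simp [sb_mul]
  faith g hg := Units.ext (Matrix.ext_of_mulVec_single fun i => by
    rw [hg, Units.val_one, Matrix.one_mulVec])
  inj e v w g h := by
    simp only [MonoidHom.mk'_apply, form_eq] at h
    rw [← sb_one] at h
    obtain ⟨h1, h2, rfl, rfl⟩ := sb_inj h
    simp only [Units.val_one, Matrix.vecMul_one] at h2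
    subst h2
    exact ⟨by simpa using h1, rfl, rfl, rfl⟩
  surj x hx := by
    obtain ⟨e, r, w, g, rfl⟩ := exists_sb hx
    refine ⟨e - (r ᵥ* ((g⁻¹ : GL (Fin n) (ZMod 2)) : Matrix (Fin n) (Fin n) (ZMod 2))) ⬝ᵥ w,
      r ᵥ* ((g⁻¹ : GL (Fin n) (ZMod 2)) : Matrix (Fin n) (Fin n) (ZMod 2)), w, g, ?_⟩
    rw [MonoidHom.mk'_apply, form_eq, toGL_inv_cancel]
    simp
  norm := by
    obtain ⟨m, rfl⟩ : ∃ m, n = m + 1 := ⟨n - 1, by omega⟩
    refine ⟨Pi.single 0 1, fun h => by simpa using congrFun h 0, fun x hx e v => ?_⟩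
    have hbk : ∀ (e : ZMod 2) (v : V (m + 1)), bk e v 0 1 =
        1 + Matrix.vecMulVec (Pi.single 0 1) (Fin.cons 0 (Fin.cons e v) : Fin (m + 3) → ZMod 2) := by
      intro e v
      ext i j
      refine Fin.cases ?_ (fun i => Fin.cases ?_ (fun i => ?_) i) i <;>
        refine Fin.cases ?_ (fun j => Fin.cases ?_ (fun j => ?_) j) j <;>
        simp [bk, Matrix.vecMulVec_apply, Matrix.one_apply, Fin.succ_ne_zero,
          (Fin.succ_ne_zero _).symm] <;>
          first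
          | exact one_ne_ss _
          | exact (one_ne_ss _).symm
    have hx' : x.1 * bk 0 (Pi.single 0 1) 0 1 = bk 0 (Pi.single 0 1) 0 1 * x.1 :=
      congrArg Subtype.val hx
    rw [hbk, mul_add, mul_one, add_mul, one_mul, add_left_cancel_iff, Matrix.mul_vecMulVec,
      Matrix.vecMulVec_mul] at hx'
    -- `x` fixes the centre of the transvection
    have hcol : ∀ i : Fin (m + 2), x.1 i.succ 0 = 0 := by
      intro i
      have := congrFun (congrFun hx' i.succ) ((0 : Fin (m + 1)).succ.succ)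
      rw [Matrix.vecMulVec_apply, Matrix.vecMulVec_apply, Fin.cons_succ, Fin.cons_succ,
        Pi.single_eq_same, mul_one, Pi.single_eq_of_ne (Fin.succ_ne_zero i), zero_mul] at this
      simpa using this
    have h00 : x.1 0 0 = 1 := by
      rcases z2_cases (x.1 0 0) with hz | hz
      · exfalso
        have : x.1.det = 0 := Matrix.det_eq_zero_of_column_eq_zero 0 (Fin.cases hz hcol)
        rw [x.2] at this
        exact one_ne_zero this
      · exact hz
    let f : Fin (m + 3) → ZMod 2 := Fin.cons 0 (Fin.cons e v)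
    have hA : ∀ (e : ZMod 2) (v : V (m + 1)),
        (if e = 0 then (1 : SL' (m + 1)) else sb 1 0 0 1) * sb 0 v 0 1 = sb e v 0 1 := by
      intro e v
      rcases z2_cases e with rfl | rfl
      · simp
      · simp [sb_mul]
    have he0 : x.1 *ᵥ (Pi.single 0 1) = Pi.single 0 1 := funext fun i => by
      refine Fin.cases ?_ (fun i => ?_) i
      · simpa using h00
      · simp [hcol i]
    let f' : Fin (m + 3) → ZMod 2 := f ᵥ* (x⁻¹ : SL' (m + 1)).1
    have hf0 : f' 0 = 0 := by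
      have e0 : (x⁻¹ : SL' (m + 1)).1 *ᵥ (Pi.single 0 1) = Pi.single 0 1 := by
        conv_lhs => rw [← he0, Matrix.mulVec_mulVec, ← Matrix.SpecialLinearGroup.coe_mul,
          inv_mul_cancel, Matrix.SpecialLinearGroup.coe_one, Matrix.one_mulVec]
      have h3 : f' ⬝ᵥ Pi.single 0 1 = f ⬝ᵥ Pi.single 0 1 := by
        show (f ᵥ* _) ⬝ᵥ _ = _
        rw [← Matrix.dotProduct_mulVec, e0]
      simpa [f] using h3
    refine ⟨f' 1, fun j => f' j.succ.succ, ?_⟩
    rw [hA, hA]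
    refine Subtype.ext ?_
    show x.1 * bk e v 0 (1 : GL (Fin (m + 1)) (ZMod 2)).1 * (x⁻¹ : SL' (m + 1)).1 = bk _ _ _ _
    rw [Units.val_one, hbk, hbk, mul_add, mul_one, add_mul, ← Matrix.SpecialLinearGroup.coe_mul,
      mul_inv_cancel, Matrix.SpecialLinearGroup.coe_one, Matrix.mul_vecMulVec, Matrix.vecMulVec_mul, he0]
    congr 2
    refine funext fun j => ?_
    refine Fin.cases ?_ (fun j => Fin.cases ?_ (fun j => ?_) j) j
    · simpa [f'] using hf0
    · rfl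
    · rfl

/-- Over the field with two elements the special and general linear groups agree. -/
noncomputable def slEquiv (n : ℕ) :
    GL (Fin n) (ZMod 2) ≃* Matrix.SpecialLinearGroup (Fin n) (ZMod 2) where
  toFun g := ⟨g, det_one (congrArg Units.val (mul_inv_cancel g))⟩
  invFun := Matrix.SpecialLinearGroup.toGL
  left_inv _ := Units.ext rfl
  right_inv _ := Subtype.ext rfl
  map_mul' _ _ := Subtype.ext rfl

theorem result (n : ℕ) (hn : 2 ≤ n) (z : Matrix.SpecialLinearGroup (Fin (n + 2)) (ZMod 2)) (hz : (z : Matrix (Fin (n + 2)) (Fin (n + 2)) (ZMod 2)) = Matrix.transvection 0 1 1) (Q : Subgroup (Matrix.SpecialLinearGroup (Fin (n + 2)) (ZMod 2))) (hQ : Q = (Cfsg.pCore 2 ↥(Subgroup.centralizer ({z} : Set (Matrix.SpecialLinearGroup (Fin (n + 2)) (ZMod 2))))).map (Subgroup.centralizer ({z} : Set (Matrix.SpecialLinearGroup (Fin (n + 2)) (ZMod 2)))).subtype) : Cfsg.IsExtraspecial 2 ↥Q ∧ Nat.card ↥Q = 2 ^ (2 * n + 1) ∧ (∃ E :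 Subgroup (Matrix.SpecialLinearGroup (Fin (n + 2)) (ZMod 2)), E ≤ Q ∧ Cfsg.IsElementaryAbelian 2 E ∧ Nat.card ↥E = 2 ^ (n + 1)) ∧ Cfsg.IsLargeExtraspecial Q ∧ ∃ K : Subgroup (Matrix.SpecialLinearGroup (Fin (n + 2)) (ZMod 2)), K ≤ Subgroup.centralizer ({z} : Set (Matrix.SpecialLinearGroup (Fin (n + 2)) (ZMod 2))) ∧ Q ⊓ K = ⊥ ∧ Q ⊔ K = Subgroup.centralizer ({z} : Set (Matrix.SpecialLinearGroup (Fin (n + 2)) (ZMod 2))) ∧ Nonempty (↥K ≃* Matrix.SpecialLinearGroup (Fin n) (ZMod 2)) := by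
  have hn1 : 1 ≤ n := by omega
  let S := data hn1
  obtain rfl : z = S.z := Subtype.ext (by rw [hz, transvection_eq]; rfl)
  obtain rfl : Q = S.Q := hQ.trans S.map_pCore
  obtain ⟨h1, h2, h3, h4, K, k1, k2, k3, ⟨e⟩⟩ := S.conclusion hn1
  exact ⟨h1, h2, h3, h4, K, k1, k2, k3, ⟨e.trans (slEquiv n)⟩⟩

end Cfsg.Agent.S5424
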