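import Cfsg.Statements.S5425
import Cfsg.Agent.S5423
import Cfsg.Agent.S5424
import Cfsg.Agent.Lib.GolayStructure.OctadStab
import Cfsg.Agent.Lib.Golay.Stab
import Cfsg.Agent.Lib.ExtraspecialLarge.M24Classes

set_option autoImplicit false
set_option linter.style.haveILetI false
open Cfsg

namespace Cfsg.Agent.S5425

open CfsgLib.Fischer2.Heisenberg CfsgLib.GolayStructure
open scoped Pointwise Matrix

/-- The root data may be transported to an overgroup containing the relevant centralisers. -/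
def mapData {H G : Type*} [Group H] [Group G] {n : ℕ} (S : Data H n) (f : H →* G)
    (hf : Function.Injective f) (hz : ∀ x : G, x * f S.z = f S.z * x → ∃ y, f y = x)
    (ha : ∀ v : V n, v ≠ 0 → ∀ x : G, x * f (S.a v) = f (S.a v) * x → ∃ y, f y = x) :
    Data G n where
  z := f S.z
  a v := f (S.a v)
  b w := f (S.b w)
  k := f.comp S.k
  σ := S.σ
  τ := S.τ
  zz := by rw [← map_mul, S.zz, map_one]
  z_a v := by rw [← map_mul, S.z_a, map_mul]
  z_b w := by rw [← map_mul, S.z_b, map_mul]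
  z_k g := by rw [MonoidHom.comp_apply, ← map_mul, S.z_k, map_mul]
  a_add v v' := by rw [S.a_add, map_mul]
  b_add w w' := by rw [S.b_add, map_mul]
  b_a v w := by
    rw [← map_mul, S.b_a, map_mul, map_mul]
    split <;> simp
  conj_a g v := by simp only [MonoidHom.comp_apply, ← map_mul, S.conj_a]
  conj_b g w := by simp only [MonoidHom.comp_apply, ← map_mul, S.conj_b]
  faith := S.faith
  inj e v w g h := S.inj e v w g (hf (by
    rw [map_one, ← h, map_mul, map_mul, map_mul]
    split <;> simp))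
  surj x hx := by
    obtain ⟨y, rfl⟩ := hz x hx
    rw [← map_mul, ← map_mul] at hx
    obtain ⟨e, v, w, g, rfl⟩ := S.surj y (hf hx)
    refine ⟨e, v, w, g, ?_⟩
    rw [map_mul, map_mul, map_mul]
    split <;> simp
  norm := by
    obtain ⟨v₀, h0, h⟩ := S.norm
    refine ⟨v₀, h0, fun x hx e v => ?_⟩
    obtain ⟨y, rfl⟩ := ha v₀ h0 x hx
    rw [← map_mul, ← map_mul] at hx
    obtain ⟨e', v', h'⟩ := h y (hf hx) e v
    refine ⟨e', v', ?_⟩
    have := congrArg f h'
    simp only [map_mul, map_inv, apply_ite f, map_one] at this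
    exact this

/-- An elementary abelian group of order 16 has at most 20160 automorphisms. -/
theorem card_mulAut_le {U : Type*} [Group U] [Finite U] (hcard : Nat.card U = 16)
    (hsq : ∀ u : U, u * u = 1) : Nat.card (MulAut U) ≤ 20160 := by
  classical
  haveI : Fact (Nat.Prime 2) := ⟨Nat.prime_two⟩
  have hcomm : ∀ x y : U, x * y = y * x := fun x y => by
    have hi : ∀ w : U, w⁻¹ = w := fun w => inv_eq_of_mul_eq_one_right (hsq w)
    rw [← hi (x * y), mul_inv_rev, hi, hi]
  letI : CommGroup U := { (inferInstance : Group U) with mul_comm := hcomm }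
  letI : Module (ZMod 2) (Additive U) := AddCommGroup.zmodModule (fun x => by
    rw [two_nsmul]; exact hsq x.toMul)
  haveI : Fintype (Additive U) := Fintype.ofFinite _
  have hrank : Module.finrank (ZMod 2) (Additive U) = 4 := by
    have h1 := Module.card_eq_pow_finrank (K := ZMod 2) (V := Additive U)
    rw [ZMod.card, ← Nat.card_eq_fintype_card, Nat.card_congr Additive.toMul, hcard] at h1
    exact (Nat.pow_right_injective (le_refl 2) (show 2 ^ 4 = 2 ^ _ from h1)).symm
  let L : Additive U ≃ₗ[ZMod 2] (Fin 4 → ZMod 2) :=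
    LinearEquiv.ofFinrankEq _ _ (by rw [hrank, Module.finrank_pi, Fintype.card_fin])
  let T : MulAut U → ((Fin 4 → ZMod 2) →ₗ[ZMod 2] (Fin 4 → ZMod 2)) := fun φ =>
    L.toLinearMap.comp ((AddMonoidHom.toZModLinearMap 2 (MonoidHom.toAdditive φ.toMonoidHom)).comp
      L.symm.toLinearMap)
  have hT : ∀ φ x, T φ (L x) = L (Additive.ofMul (φ x.toMul)) := fun φ x => by
    simp only [T, LinearMap.comp_apply, LinearEquiv.coe_coe, LinearEquiv.symm_apply_apply]
    rfl
  let M : MulAut U →* Matrix (Fin 4) (Fin 4) (ZMod 2) :=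
    { toFun := fun φ => LinearMap.toMatrix' (T φ)
      map_one' := by
        have e : T 1 = LinearMap.id := LinearMap.ext fun v => by
          obtain ⟨x, rfl⟩ := L.surjective v
          rw [hT]; rfl
        rw [e, LinearMap.toMatrix'_id]
      map_mul' := fun φ ψ => by
        have e : T (φ * ψ) = (T φ).comp (T ψ) := LinearMap.ext fun v => by
          obtain ⟨x, rfl⟩ := L.surjective v
          show T (φ * ψ) (L x) = T φ (T ψ (L x))
          rw [hT, hT, hT]; rfl
        rw [e, LinearMap.toMatrix'_comp] }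
  have hinj : Function.Injective M.toHomUnits := by
    intro φ ψ h
    have h' : T φ = T ψ := LinearMap.toMatrix'.injective (congrArg Units.val h)
    refine MulEquiv.ext fun u => ?_
    have := LinearMap.congr_fun h' (L (Additive.ofMul u))
    rw [hT, hT] at this
    exact Additive.ofMul.injective (L.injective this)
  refine (Nat.card_le_card_of_injective _ hinj).trans (le_of_eq ?_)
  rw [Matrix.card_GL_field]
  simp [Fin.prod_univ_succ, ZMod.card]

local notation "PermP" => Equiv.Perm GolayPt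

theorem kernel_fix {o : Finset GolayPt} (ho : o ∈ octads) {u : PermP} (hu : u ∈ octadKernel o)
    (hu1 : u ≠ 1) {p : GolayPt} : u p = p ↔ p ∈ o := by
  refine ⟨fun h => ?_, fun h => (mem_octadKernel.1 hu).2 p h⟩
  by_contra hp
  apply hu1
  rw [← Subgroup.mem_bot, ← (card_octadPointGroup ho hp).2]
  exact Subgroup.mem_inf.2 ⟨hu, Subgroup.mem_inf.2 ⟨octadKernel_le o hu, h⟩⟩

theorem centralizer_kernel {o : Finset GolayPt} (ho : o ∈ octads) {u : PermP} (hu : u ∈ octadKernel o)
    (hu1 : u ≠ 1) {g : PermP} (hg : g ∈ M24) (hgu : g * u = u * g) : g ∈ octadGroup o := by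
  refine mem_octadGroup.2 ⟨hg, Finset.eq_of_subset_of_card_le (fun q hq => ?_) ?_⟩
  · obtain ⟨p, hp, rfl⟩ := Finset.mem_smul_finset.1 hq
    rw [Equiv.Perm.smul_def, ← kernel_fix ho hu hu1, ← Equiv.Perm.mul_apply, ← hgu,
      Equiv.Perm.mul_apply, (kernel_fix ho hu hu1).2 hp]
  · rw [Finset.card_smul_finset]

theorem eq_one_of_fix_compl {o : Finset GolayPt} (ho : o ∈ octads) {p : GolayPt} (hp : p ∉ o)
    {g : PermP} (hg : g ∈ M24) (hord : orderOf g = 2) (hfix : ∀ q, q ∉ o → g q = q) : False := by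
  classical
  have h1 : oᶜ ⊆ Finset.univ.filter fun q => g q = q := fun q hq =>
    Finset.mem_filter.2 ⟨Finset.mem_univ q, hfix q (Finset.mem_compl.1 hq)⟩
  have h2 := Finset.card_le_card h1
  rw [Finset.card_compl, CfsgLib.Golay.card_eq_of_mem_octads ho, CfsgLib.GolayStructure.card_golayPt] at h2
  rcases CfsgLib.ExtraspecialLarge.M24Classes.involution_cases hg hord with ⟨h, -⟩ | ⟨h, -⟩ <;>
    omega

/-- The octad group is an affine general linear group. -/
theorem exists_data {o : Finset GolayPt} (ho : o ∈ octads) {z : octadGroup o}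
    (hzK : (z : PermP) ∈ octadKernel o) (hz1 : z ≠ 1) :
    ∃ S : Data (octadGroup o) 3, S.z = z ∧ ∀ v, ((S.a v : octadGroup o) : PermP) ∈ octadKernel o := by
  classical
  obtain ⟨p, hp⟩ : ∃ p, p ∉ o := by
    by_contra h
    push Not at h
    have h1 := Finset.card_le_card (show (Finset.univ : Finset GolayPt) ⊆ o from fun q _ => h q)
    rw [CfsgLib.Golay.card_eq_of_mem_octads ho, Finset.card_univ, CfsgLib.GolayStructure.card_golayPt] at h1
    omega
  obtain ⟨hK, hKsq⟩ := CfsgLib.Golay.octad_pointwise ho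
  set U := (octadKernel o).subgroupOf (octadGroup o) with hU
  set M := (octadPointGroup o p).subgroupOf (octadGroup o) with hM
  haveI : U.Normal := by rw [hU, ← octadRestrict_ker o]; infer_instance
  have hsq : ∀ u : U, u * u = 1 := fun u => Subtype.ext (Subtype.ext (hKsq _ u.2))
  have hUc : Nat.card U = 16 := by
    rw [hU, Nat.card_congr (Subgroup.subgroupOfEquivOfLe (octadKernel_le o)).toEquiv, hK]
  have hEA : Cfsg.IsElementaryAbelian 2 U := by
    refine ⟨⟨⟨fun x y => ?_⟩⟩, fun a ha => ?_⟩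
    · have hi : ∀ w : U, w⁻¹ = w := fun w => inv_eq_of_mul_eq_one_right (hsq w)
      rw [← hi (x * y), mul_inv_rev, hi, hi]
    · rw [pow_two]; exact congrArg Subtype.val (hsq ⟨a, ha⟩)
  have hinf : U ⊓ M = ⊥ := by
    rw [eq_bot_iff]
    rintro x ⟨h1, h2⟩
    have : (x : PermP) ∈ octadKernel o ⊓ octadPointGroup o p := ⟨h1, h2⟩
    rw [(card_octadPointGroup ho hp).2, Subgroup.mem_bot] at this
    exact Subgroup.mem_bot.2 (Subtype.ext this)
  have hsup : U ⊔ M = ⊤ := by
    rw [hU, hM, ← Subgroup.subgroupOf_sup (octadKernel_le o) inf_le_left, octadKernel_sup ho hp,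
      Subgroup.subgroupOf_self]
  -- the action of the complement
  let φ : M →* MulAut U := (MulAut.conjNormal : octadGroup o →* MulAut U).comp M.subtype
  have hφ : Function.Injective φ := by
    rw [← MonoidHom.ker_eq_bot_iff]
    obtain ⟨e⟩ := octadPointGroup_iso ho hp
    let e' : M ≃* alternatingGroup (Fin 8) :=
      (Subgroup.subgroupOfEquivOfLe inf_le_left).trans e
    haveI : IsSimpleGroup (alternatingGroup (Fin 8)) := alternatingGroup.isSimpleGroup (by simp)
    haveI : IsSimpleGroup M := e'.isSimpleGroup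
    refine ((inferInstance : IsSimpleGroup M).eq_bot_or_eq_top_of_normal φ.ker inferInstance).resolve_right ?_
    intro htop
    obtain ⟨m, hm⟩ : ∃ m : M, orderOf m = 2 := by
      haveI : Fact (Nat.Prime 2) := ⟨Nat.prime_two⟩
      refine exists_prime_orderOf_dvd_card' 2 ?_
      rw [hM, Nat.card_congr (Subgroup.subgroupOfEquivOfLe inf_le_left).toEquiv,
        (card_octadPointGroup ho hp).1]
      norm_num
    have hm' : φ m = 1 := by rw [← MonoidHom.mem_ker, htop]; exact Subgroup.mem_top m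
    refine eq_one_of_fix_compl ho hp (g := ((m : octadGroup o) : PermP))
      (mem_octadGroup.1 (m : octadGroup o).2).1 (by rw [Subgroup.orderOf_coe, Subgroup.orderOf_coe, hm])
      fun q hq => ?_
    obtain ⟨u, hu, rfl⟩ := octadKernel_transitive ho hp hq
    have h := congrArg (fun ψ : MulAut U => (((ψ ⟨⟨u, octadKernel_le o hu⟩, hu⟩ : U) : octadGroup o) : PermP)) hm'
    simp only [φ, MonoidHom.comp_apply, MulAut.conjNormal_apply, MulAut.one_apply, Subgroup.coe_mul,
      InvMemClass.coe_inv, Subgroup.coe_subtype] at h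
    rw [mul_inv_eq_iff_eq_mul] at h
    have hmp : ((m : octadGroup o) : PermP) p = p := (Subgroup.mem_inf.1 m.2).2
    calc ((m : octadGroup o) : PermP) (u p) = (((m : octadGroup o) : PermP) * u) p := rfl
      _ = (u * ((m : octadGroup o) : PermP)) p := by rw [h]
      _ = u p := by rw [Equiv.Perm.mul_apply, hmp]
  haveI : Finite U := Subtype.finite
  haveI : Finite (MulAut U) :=
    Finite.of_injective (fun f : MulAut U => (f : U → U)) DFunLike.coe_injective
  have hbij : Function.Bijective φ := by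
    refine ⟨hφ, (hφ.bijective_of_nat_card_le ?_).2⟩
    rw [show Nat.card M = 20160 by
      rw [hM, Nat.card_congr (Subgroup.subgroupOfEquivOfLe inf_le_left).toEquiv,
        (card_octadPointGroup ho hp).1]]
    exact card_mulAut_le hUc hsq
  have hfaith : ∀ m ∈ M, (∀ u ∈ U, m * u * m⁻¹ = u) → m = 1 := fun m hm h =>
    congrArg Subtype.val (hφ (a₁ := ⟨m, hm⟩) (a₂ := 1) (by
      rw [map_one]
      exact MulEquiv.ext fun u => Subtype.ext (h u u.2)))
  have hfull : ∀ ψ : ↥U ≃* ↥U, ∃ m ∈ M, ∀ u : ↥U, ((ψ u : ↥U) : octadGroup o) = m * u * m⁻¹ := fun ψ => by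
    obtain ⟨m, rfl⟩ := hbij.2 ψ
    exact ⟨m, m.2, fun u => rfl⟩
  obtain ⟨ι, hι1, hι2, hι3, hι4⟩ := Cfsg.Agent.S5423.exists_coord (n := 3) hEA hUc
    (show z ∈ U from hzK) hz1
  exact ⟨Cfsg.Agent.S5423.data (by norm_num)
    (Cfsg.Agent.S5423.Coord.mk ι hι1 hι2 hι3 hinf hsup hfaith hfull), hι4, fun v =>
      (hι3 _).2 ⟨(0, v), rfl⟩⟩

theorem result (z : ↥Cfsg.M24) (hz : orderOf z = 2) (hfix : (Finset.univ.filter fun p : Cfsg.GolayPt => (z : Equiv.Perm Cfsg.GolayPt) p = p) ∈ Cfsg.octads) (Q : Subgroup ↥Cfsg.M24) (hQ : Q = (Cfsg.pCore 2 ↥(Subgroup.centralizer ({z} : Set ↥Cfsg.M24))).map (Subgroup.centralizer ({z} : Set ↥Cfsg.M24)).subtype) : Cfsg.IsExtraspecial 2 ↥Q ∧ Nat.card ↥Q = 2 ^ 7 ∧ (∃ E : Subgroup ↥Cfsg.M24, E ≤ Q ∧ Cfsg.IsElementaryAbelian 2 E ∧ Nat.card ↥E = 2 ^ 4) ∧ Cfsg.IsLargeExtraspecial Q ∧ ∃ K : Subgroup ↥Cfsg.M24, K ≤ Subgroup.centralizer ({z} : Set ↥Cfsg.M24) ∧ Q ⊓ K = ⊥ ∧ Q ⊔ K = Subgroup.centralizer ({z} : Set ↥Cfsg.M24) ∧ Nonempty (↥K ≃* Matrix.SpecialLinearGroup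 (Fin 3) (ZMod 2)) := by
  set o := Finset.univ.filter fun p : Cfsg.GolayPt => (z : PermP) p = p with ho
  have hzK : (z : PermP) ∈ octadKernel o :=
    mem_octadKernel.2 ⟨z.2, fun p hp => (Finset.mem_filter.1 hp).2⟩
  have hz1 : (z : PermP) ≠ 1 := fun h => by
    rw [show z = 1 from Subtype.ext h, orderOf_one] at hz
    norm_num at hz
  obtain ⟨S, hSz, hSa⟩ := exists_data hfix (z := ⟨z, octadKernel_le o hzK⟩) hzK
    (fun h => hz1 (congrArg Subtype.val h))
  let f : octadGroup o →* ↥Cfsg.M24 := Subgroup.inclusion inf_le_left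
  have key : ∀ (u : octadGroup o), (u : PermP) ∈ octadKernel o → u ≠ 1 →
      ∀ x : ↥Cfsg.M24, x * f u = f u * x → ∃ y, f y = x := by
    intro u hu hu1 x hx
    exact ⟨⟨x, centralizer_kernel hfix hu (fun h => hu1 (Subtype.ext h)) x.2 (congrArg Subtype.val hx)⟩,
      Subtype.ext rfl⟩
  have hzne : S.z ≠ 1 := S.z_ne
  let T := mapData S f (Subgroup.inclusion_injective _)
    (key S.z (hSz ▸ hzK) hzne)
    (fun v hv => key (S.a v) (hSa v) fun h => hv
      (S.inj 0 v 0 1 (by simp [h, Data.b_zero])).2.1)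
  have hTz : T.z = z := by
    show f S.z = z
    rw [hSz]; rfl
  obtain rfl : Q = T.Q := by rw [hQ, ← T.map_pCore, hTz]
  obtain ⟨h1, h2, h3, h4, K, k1, k2, k3, ⟨e⟩⟩ := T.conclusion (by norm_num : 1 ≤ 3)
  rw [hTz] at k1 k3
  exact ⟨h1, h2, h3, h4, K, k1, k2, k3, ⟨e.trans (Cfsg.Agent.S5424.slEquiv 3)⟩⟩

end Cfsg.Agent.S5425
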