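import Cfsg.Statements.S5426
import Cfsg.Agent.Lib.Fischer2.LargeStructure
import Cfsg.Agent.Lib.Subnormal.Basic

set_option autoImplicit false
set_option linter.style.haveILetI false
open Cfsg

namespace Cfsg.Agent.S5426

open CfsgLib.Fischer2 CfsgLib.Fixity

theorem result {G : Type*} [Group G] [Finite G] (Q : Subgroup G) (hQ : Cfsg.IsLargeExtraspecial Q) (z : G) (hz : ((Subgroup.center ↥Q).map Q.subtype) = Subgroup.zpowers z) (M : Subgroup G) (hM : M = Subgroup.normalClosure ({z} : Set G)) : Q.Normal ∨ (IsMulCommutative ↥M ∧ Cfsg.generalizedFittingSubgroup G = Cfsg.pCore 2 G) ∨ (M = Cfsg.generalizedFittingSubgroup G ∧ IsSimpleGroup ↥M ∧ ¬ IsMulCommutative ↥M) ∨ (M = Cfsg.generalizedFittingSubgroup G ∧ ∃ (L : Subgroup G) (u : G), u ∈ Q ∧ IsSimpleGroup ↥L ∧ ¬ IsMulCommutative ↥L ∧ L ⊓ (L).map (MulAut.conj u).toMonoidHom = ⊥ ∧ (∀ x ∈ L, ∀ y ∈ (L).map (MulAut.conj u).toMonoidHom, x * y = y * x) ∧ L ⊔ (L).map (MulAut.conj u).toMonoidHom = M ∧ ∃ z₁ ∈ L, z = z₁ * (u * z₁ * u⁻¹) ∧ (∃ R : Sylow 2 ↥L,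 (R : Subgroup ↥L) = (Subgroup.centralizer ({z₁} : Set G)).subgroupOf L ∧ (frattini ↥(R : Subgroup ↥L)).map ((L.subtype).comp (R : Subgroup ↥L).subtype) ≤ Subgroup.zpowers z₁) ∧ Q ≠ (Cfsg.pCore 2 ↥(Subgroup.centralizer ({z} : Set G))).map (Subgroup.centralizer ({z} : Set G)).subtype) := by
  haveI : Fact (Nat.Prime 2) := ⟨Nat.prime_two⟩
  have hzZ : z ∈ (Subgroup.center Q).map Q.subtype := hz ▸ Subgroup.mem_zpowers z
  have hz1 : z ≠ 1 := fun h => by
    have := IsExtraspecial.card_centerImage hQ.1
    rw [hz, h, Subgroup.zpowers_one_eq_bot, Subgroup.card_bot] at this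
    norm_num at this
  haveI hMn : M.Normal := hM ▸ Subgroup.normalClosure_normal
  have hzM : z ∈ M := hM ▸ Subgroup.subset_normalClosure rfl
  have hmin : ∀ K : Subgroup G, K.Normal → K ≤ M → K = ⊥ ∨ K = M := fun K hK hKM => by
    rw [or_iff_not_imp_left]
    intro hne
    refine le_antisymm hKM ?_
    rw [hM]
    haveI := hK
    exact Subgroup.normalClosure_le_normal
      (Set.singleton_subset_iff.2 (mem_of_normal_ne_bot hQ hzZ hz1 hK hne))
  have hodd : Cfsg.pPrimeCore 2 G = ⊥ :=
    sSup_eq_bot.2 fun K hK => hQ.2.2.2 K (Nat.coprime_two_right.1 hK.2) fun q _ => by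
      haveI := hK.1
      rw [Subgroup.normalizer_eq_top]; exact Subgroup.mem_top _
  by_cases hna : IsMulCommutative M
  · refine Or.inr (Or.inl ⟨hna, CfsgLib.Balance.generalizedFittingSubgroup_eq_pCore hodd ?_⟩)
    have hMsolv : Group.IsSolvable M :=
      isSolvable_of_comm fun a b => hna.is_comm.comm a b
    have hEM := CfsgLib.Cores.layer_le_centralizer_of_isSolvable (S := M) hMn.isSubnormal
    -- the layer centralises `z`, so it normalises `Q`
    have hEz : ∀ e ∈ layer G, e * z = z * e := fun e he =>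
      (Subgroup.mem_centralizer_iff.1 (hEM he) z hzM).symm
    have hEQ : layer G ≤ Subgroup.normalizer (Q : Set G) := fun e he =>
      hQ.2.2.1 (LargeStructure.mem_centralizer_center hQ hzZ hz1 (hEz e he))
    haveI hEn : (layer G).Normal := inferInstance
    set D := Q ⊓ layer G with hD
    have hDsub : D.IsSubnormal := by
      refine CfsgLib.Subnormal.isSubnormal_of_le_normal (N := layer G) inf_le_right ?_
      refine Subgroup.Normal.isSubnormal ?_
      refine (Subgroup.normal_subgroupOf_iff_le_normalizer inf_le_right).2 fun e he => ?_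
      rw [Subgroup.mem_normalizer_iff]
      intro x
      constructor
      · rintro ⟨h1, h2⟩
        exact ⟨((Subgroup.mem_normalizer_iff.1 (hEQ he)) x).1 h1, hEn.conj_mem x h2 e⟩
      · rintro ⟨h1, h2⟩
        refine ⟨((Subgroup.mem_normalizer_iff.1 (hEQ he)) x).2 h1, ?_⟩
        have := hEn.conj_mem _ h2 e⁻¹
        simpa [mul_assoc] using this
    haveI : Group.IsNilpotent D := (hQ.1.1.1.to_le inf_le_left).isNilpotent
    have hED := CfsgLib.Cores.layer_le_centralizer_of_isSolvable hDsub
    have h1 : ⁅layer G, Q⁆ ≤ D := by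
      refine le_inf ?_ ?_
      · rw [Subgroup.commutator_le]
        intro e he q hq
        exact Q.mul_mem (((Subgroup.mem_normalizer_iff.1 (hEQ he)) q).1 hq) (Q.inv_mem hq)
      · exact Subgroup.commutator_le_left _ _
    have h2 : ⁅⁅layer G, Q⁆, layer G⁆ = ⊥ := by
      refine Subgroup.commutator_eq_bot_iff_le_centralizer.2 (h1.trans ?_)
      rw [Subgroup.le_centralizer_iff]
      exact hED
    have h3 : ⁅⁅Q, layer G⁆, layer G⁆ = ⊥ := by rw [Subgroup.commutator_comm Q]; exact h2
    have h4 := Subgroup.commutator_commutator_eq_bot_of_rotate h2 h3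
    rw [CfsgLib.Cores.commutator_layer_self, Subgroup.commutator_eq_bot_iff_le_centralizer, hQ.2.1] at h4
    rw [eq_bot_iff, ← CfsgLib.Cores.commutator_layer_self, ← Subgroup.commutator_bot_left ⊤,
      Subgroup.commutator_le]
    intro a ha b hb
    have hcomm : a * b = b * a := by
      obtain ⟨a', ha', rfl⟩ := h4 ha
      obtain ⟨b', hb', rfl⟩ := h4 hb
      rw [← map_mul, ← map_mul, Subgroup.mem_center_iff.1 ha' b']
    rw [commutatorElement_eq_one_iff_mul_comm.2 hcomm]
    exact one_mem _
  -- the non-abelian case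
  have hne : M ≠ ⊥ := fun h => hz1 (Subgroup.mem_bot.1 (h ▸ hzM))
  have hcent : Subgroup.centralizer (M : Set G) = ⊥ := by
    haveI := centralizer_normal_of_normal M
    by_contra h
    have h1 := mem_of_normal_ne_bot hQ hzZ hz1 inferInstance h
    exact hz1 (LargeStructure.eq_one_of_proj hmin hna hzM fun S hS => by
      have h2 : z ∈ Subgroup.centralizer (S : Set G) ⊓ M :=
        ⟨Subgroup.centralizer_le (fun x hx => hS.le hx) h1, hzM⟩
      simpa using LargeStructure.proj_eq hmin hna hS (one_mem S) h2)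
  have hF : M = Cfsg.generalizedFittingSubgroup G := by
    obtain ⟨S, hS⟩ := exists_factor M hne
    haveI := hS.isSimpleGroup hmin
    have hSq : IsComponent S := by
      refine ⟨CfsgLib.Subnormal.isSubnormal_of_le_normal hS.le (Subgroup.Normal.isSubnormal ?_),
        CfsgLib.Cores.isQuasisimple_of_isSimpleGroup (LargeStructure.not_commutative_factor hmin hna hS)⟩
      refine (Subgroup.normal_subgroupOf_iff_le_normalizer hS.le).2 fun n hn => ?_
      rw [Subgroup.mem_normalizer_iff]
      refine fun s => ⟨hS.norm n hn s, fun h => ?_⟩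
      have := hS.norm n⁻¹ (inv_mem hn) _ h
      simpa [mul_assoc] using this
    haveI hEn : (layer G).Normal := inferInstance
    have hEne : layer G ≠ ⊥ := CfsgLib.Cores.hasComponent_iff_layer_ne_bot.1 ⟨S, hSq.1, hSq.2⟩
    refine le_antisymm ?_ (sup_le ?_ ?_)
    · refine le_trans ?_ (CfsgLib.Cores.layer_le_generalizedFittingSubgroup G)
      rw [hM]
      exact Subgroup.normalClosure_le_normal
        (Set.singleton_subset_iff.2 (mem_of_normal_ne_bot hQ hzZ hz1 hEn hEne))
    · refine CfsgLib.Cores.layer_le_iff.2 fun K hK => ?_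
      by_contra hKM
      have := CfsgLib.Cores.le_centralizer_of_not_le hK hMn.isSubnormal hKM
      rw [hcent, le_bot_iff] at this
      exact CfsgLib.Cores.ne_bot_of_isComponent hK this
    · haveI := CfsgLib.Cores.fittingSubgroup_normal (G := G)
      rcases hmin (Cfsg.fittingSubgroup G ⊓ M) inferInstance inf_le_right with h | h
      · have hle : Cfsg.fittingSubgroup G ≤ Subgroup.centralizer (M : Set G) :=
          Subgroup.commutator_eq_bot_iff_le_centralizer.1
            (le_bot_iff.1 ((Subgroup.commutator_le_inf (H₁ := Cfsg.fittingSubgroup G) (H₂ := M)).trans h.le))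
        rw [hcent, le_bot_iff] at hle
        rw [hle]; exact bot_le
      · exfalso
        haveI : Group.IsNilpotent (Cfsg.fittingSubgroup G) := CfsgLib.Cores.isNilpotent_fittingSubgroup
        exact CfsgLib.Cores.not_le_of_isSolvable hSq (S := Cfsg.fittingSubgroup G)
          (hS.le.trans (h.ge.trans inf_le_left))
  refine Or.inr (Or.inr ?_)
  obtain ⟨S, hS⟩ := exists_factor M hne
  haveI := hS.isSimpleGroup hmin
  by_cases hone : ∃ T, IsFactor M T ∧ T ≠ S
  · right
    obtain ⟨T, hT, hTS⟩ := hone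
    obtain ⟨q, hq, hmove⟩ := LargeStructure.exists_moved hQ hzZ hz1 hmin hna hzM hS hT hTS
    have hdis := (hS.eq_or_disjoint (hS.map q)).resolve_left (Ne.symm hmove)
    have hzeq : z = LargeStructure.proj hmin hS z * (q * LargeStructure.proj hmin hS z * q⁻¹) := by
      rw [← LargeStructure.proj_z_conj hQ hzZ hz1 hmin hna hzM hS hq hmove]
      exact LargeStructure.eq_mul_proj hQ hzZ hz1 hmin hna hzM hS hq hmove hzM
    refine ⟨hF, S, q, hq, inferInstance, LargeStructure.not_commutative_factor hmin hna hS, hdis.1,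
      fun x hx y hy => hdis.2 hy x hx, le_antisymm (sup_le hS.le (hS.map q).le) fun n hn => ?_,
      _, LargeStructure.proj_mem hmin hS z, hzeq,
      LargeStructure.exists_sylow hQ hzZ hz1 hmin hna hzM hS hq hmove,
      LargeStructure.ne_pCore hQ hzZ hz1 hmin hna hzM hS hq hmove⟩
    rw [LargeStructure.eq_mul_proj hQ hzZ hz1 hmin hna hzM hS hq hmove hn]
    exact Subgroup.mul_mem_sup (LargeStructure.proj_mem hmin hS n)
      (LargeStructure.proj_mem hmin (hS.map q) n)
  · left
    push Not at hone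
    have hSM : S = M := by
      refine le_antisymm hS.le ?_
      rw [← iSup_cj_eq hmin hS]
      exact iSup_le fun g => (hone _ (hS.map g)).le
    exact ⟨hF, hSM ▸ inferInstance, hna⟩

end Cfsg.Agent.S5426
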