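import Cfsg.Statements.S5427
import Cfsg.Agent.Lib.Fischer2.FittingSetting

set_option autoImplicit false
open Cfsg

namespace Cfsg.Agent.S5427

/-- Let z be an involution of the finite group G whose centralizer C has generalized Fitting subgroup Q, an extraspecial 2-group of width at least 2 (order 2^(2w+1), w ≥ 2). Let K be a subgroup of G such that the subgroup U generated by the K-conjugates of z is abelian and C is generated by the C-conjugates of U. Suppose that either some K-conjugate of z other than z lies in Q, or some element u of U ∩ Q outside the subgroup generated by z has z in the largest normal 2-subgroup of its centralizer. Then G is simple and Q is a large extraspecial 2-subgroup of G. -/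
theorem result {G : Type*} [Group G] [Finite G] (z : G) (hz : orderOf z = 2) (Q : Subgroup G) (hQC : Q ≤ Subgroup.centralizer ({z} : Set G)) (hF : (Cfsg.generalizedFittingSubgroup ↥(Subgroup.centralizer ({z} : Set G))).map (Subgroup.centralizer ({z} : Set G)).subtype = Q) (hQ : Cfsg.IsExtraspecial 2 ↥Q) (w : ℕ) (hw : 2 ≤ w) (hcard : Nat.card ↥Q = 2 ^ (2 * w + 1)) (K U : Subgroup G) (hU : U = Subgroup.closure {x : G | ∃ k ∈ K, x = k * z * k⁻¹}) (hUab : IsMulCommutative ↥U) (hgen : Subgroup.closure {x : G | ∃ c ∈ Subgroup.centralizer ({z} : Set G), ∃ u ∈ U, x = c * u * c⁻¹} = Subgroup.centralizer ({z} : Set G)) (h3 : (∃ k ∈ K, k * z * k⁻¹ ∈ Q ∧ k * z * k⁻¹ ≠ z) ∨ ∃ u ∈ U ⊓ Q, u ∉ Subgroup.zpowers z ∧ (∃ hz' : z ∈ Subgroup.centralizer ({u} : Set G), (⟨z, hz'⟩ : ↥(Subgroup.centralizer ({u} : Set G))) ∈ Cfsg.pCore 2 ↥(Subgroup.centralizer ({u} : Set G)))) : IsSimpleGroup G ∧ Cfsg.IsLargeExtraspecial Q := by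
  obtain ⟨hzZ, hz1, hZz, hC, hN, hNH⟩ := CfsgLib.Fischer2.setting_facts hz hF hQ
  have hcard8 : 8 < Nat.card ↥Q := by
    rw [hcard]
    calc 8 < 2 ^ (2 * 2 + 1) := by norm_num
      _ ≤ _ := Nat.pow_le_pow_right (by norm_num) (by omega)
  have hlarge : Cfsg.IsLargeExtraspecial Q := by
    rcases h3 with ⟨k, -, hkQ, hkne⟩ | ⟨u, hu, huz, hz', hzcore⟩
    · exact CfsgLib.Fischer2.isLargeExtraspecial_of_conj_mem hQ hC hN hcard8 hzZ hz1 hkQ hkne
    · obtain ⟨huU, huQ⟩ := hu
      have hu2 : u ^ 2 = 1 := by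
        have : ∀ y ∈ Subgroup.closure {x : G | ∃ k ∈ K, x = k * z * k⁻¹}, y ^ 2 = 1 ∧ y ∈ U := by
          intro y hy
          induction hy using Subgroup.closure_induction with
          | mem x hx =>
            refine ⟨?_, hU ▸ Subgroup.subset_closure hx⟩
            obtain ⟨k, _, rfl⟩ := hx
            rw [pow_two, show k * z * k⁻¹ * (k * z * k⁻¹) = k * (z * z) * k⁻¹ by group, ← pow_two z,
              show z ^ 2 = 1 from hz ▸ pow_orderOf_eq_one z]
            group
          | one => exact ⟨one_pow _, one_mem _⟩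
          | mul x y _ _ hx hy =>
            refine ⟨?_, mul_mem hx.2 hy.2⟩
            have hc : Commute x y := congrArg Subtype.val (hUab.is_comm.comm ⟨x, hx.2⟩ ⟨y, hy.2⟩)
            rw [hc.mul_pow, hx.1, hy.1, one_mul]
          | inv x _ hx => exact ⟨by rw [inv_pow, hx.1, inv_one], inv_mem hx.2⟩
        exact (this u (hU ▸ huU)).1
      have hu1 : u ≠ 1 := fun h => huz (h ▸ Subgroup.one_mem _)
      refine CfsgLib.Fischer2.isLargeExtraspecial_of_involution hQ hC hN huQ ?_
        (orderOf_eq_prime hu2 hu1) ?_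
      · rw [hZz]; exact huz
      · rw [hZz, Subgroup.zpowers_le]
        exact ⟨⟨z, hz'⟩, hzcore, rfl⟩
  refine ⟨?_, hlarge⟩
  have : Nontrivial G := ⟨⟨z, 1, hz1⟩⟩
  refine IsSimpleGroup.mk fun N hN' => ?_
  by_cases hne : N = ⊥
  · exact Or.inl hne
  right
  have hzN := CfsgLib.Fischer2.mem_of_normal_ne_bot hlarge hzZ hz1 hN' hne
  have hUN : U ≤ N := by
    rw [hU, Subgroup.closure_le]
    rintro _ ⟨k, _, rfl⟩
    exact hN'.conj_mem z hzN k
  apply CfsgLib.Fischer2.eq_top_of_centralizer_le hlarge hzZ hz1 hN'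
  rw [← hgen, Subgroup.closure_le]
  rintro _ ⟨c, _, u, hu, rfl⟩
  exact hN'.conj_mem u (hUN hu) c

end Cfsg.Agent.S5427
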