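import Cfsg.Statements.S5428
import Cfsg.Agent.Lib.Fischer2.LargeImage
import Cfsg.Agent.Lib.Fischer2.FittingSetting
import Cfsg.Agent.Lib.CoprimeAction.Basic
import Cfsg.Agent.Lib.Cores.PCore
open CfsgLib.Fischer2

set_option autoImplicit false
open Cfsg

namespace Cfsg.Agent.S5428

/-- A central element of the fixed points of a coprime action on an extraspecial group is central. -/
theorem mem_center_of_central_fixed {G : Type*} [Group G] [Finite G] {Q A : Subgroup G}
    (hQ : Cfsg.IsExtraspecial 2 ↥Q) {z : G} (hzZ : z ∈ (Subgroup.center ↥Q).map Q.subtype) (hz1 : z ≠ 1)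
    (hAodd : Odd (Nat.card ↥A)) (hAQ : A ≤ Subgroup.normalizer (Q : Set G))
    (hAz : ∀ a ∈ A, a * z = z * a) {r : G} (hrQ : r ∈ Q) (hrA : r ∈ Subgroup.centralizer (A : Set G))
    (hr : ∀ b ∈ Q ⊓ Subgroup.centralizer (A : Set G), r * b = b * r) :
    r ∈ (Subgroup.center ↥Q).map Q.subtype := by
  refine (mem_centerImage_iff Q r).2 ⟨hrQ, fun q hq => ?_⟩
  set N := Q ⊓ Subgroup.centralizer ({r} : Set G) with hN
  have hcop : (Nat.card ↥A).Coprime (Nat.card ↥Q) := by
    obtain ⟨k, hk⟩ := hQ.1.1.exists_card_eq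
    rw [hk]; exact Nat.Coprime.pow_right k (Nat.coprime_two_right.2 hAodd)
  have hsolv : Group.IsSolvable ↥Q := by
    have : Fact (Nat.Prime 2) := ⟨Nat.prime_two⟩
    have : Group.IsNilpotent ↥Q := hQ.1.1.isNilpotent
    infer_instance
  have hmemN : ∀ {x : G}, x ∈ N ↔ x ∈ Q ∧ x * r = r * x := by
    intro x; rw [hN, Subgroup.mem_inf, Subgroup.mem_centralizer_singleton_iff]
  have hcz : ∀ x ∈ Q, x * r * x⁻¹ = r ∨ x * r * x⁻¹ = z * r := fun x hx =>
    IsExtraspecial.conj_eq_or hQ hzZ hz1 hrQ hx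
  have hNn : Q ≤ Subgroup.normalizer (N : Set G) := by
    intro x hx
    have key : ∀ y ∈ Q, ∀ n ∈ N, y * n * y⁻¹ ∈ N := by
      intro y hy n hn
      refine hmemN.2 ⟨mul_mem (mul_mem hy (hmemN.1 hn).1) (inv_mem hy), ?_⟩
      have hyr : y⁻¹ * r * y = r ∨ y⁻¹ * r * y = z * r := by
        have := hcz y⁻¹ (inv_mem hy); rwa [inv_inv] at this
      have hnz : n * z = z * n := (((mem_centerImage_iff Q z).1 hzZ).2 n (hmemN.1 hn).1).symm
      calc y * n * y⁻¹ * r = y * (n * (y⁻¹ * r * y)) * y⁻¹ := by group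
        _ = y * ((y⁻¹ * r * y) * n) * y⁻¹ := by
          rcases hyr with e | e <;> rw [e]
          · rw [(hmemN.1 hn).2]
          · rw [← mul_assoc n z, hnz, mul_assoc z n, (hmemN.1 hn).2, ← mul_assoc z]
        _ = _ := by group
    rw [Subgroup.mem_normalizer_iff]
    refine fun n => ⟨key x hx n, fun hn => ?_⟩
    simpa [mul_assoc] using key x⁻¹ (inv_mem hx) _ hn
  have hAN : A ≤ Subgroup.normalizer (N : Set G) := by
    have key : ∀ a ∈ A, ∀ n ∈ N, a * n * a⁻¹ ∈ N := by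
      intro a ha n hn
      refine hmemN.2 ⟨((Subgroup.mem_normalizer_iff.1 (hAQ ha)) n).1 (hmemN.1 hn).1, ?_⟩
      have har : a * r = r * a := Subgroup.mem_centralizer_iff.1 hrA a ha
      calc a * n * a⁻¹ * r = a * n * (a⁻¹ * (r * a)) * a⁻¹ := by group
        _ = a * (n * r) * a⁻¹ := by rw [← har]; group
        _ = a * (r * n) * a⁻¹ := by rw [(hmemN.1 hn).2]
        _ = (a * r) * n * a⁻¹ := by group
        _ = _ := by rw [har]; group
    intro a ha
    rw [Subgroup.mem_normalizer_iff]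
    refine fun n => ⟨key a ha n, fun hn => ?_⟩
    simpa [mul_assoc] using key a⁻¹ (inv_mem ha) _ hn
  obtain ⟨c, hc, hcN⟩ := CfsgLib.CoprimeAction.exists_centralizer_mem_coset_of_commutator hcop (Or.inr hsolv)
    (inf_le_left : N ≤ Q) hNn hAN hq (fun a ha => by
      have haq : a * q * a⁻¹ ∈ Q := ((Subgroup.mem_normalizer_iff.1 (hAQ ha)) q).1 hq
      refine hmemN.2 ⟨mul_mem haq (inv_mem hq), ?_⟩
      have har : a * r = r * a := Subgroup.mem_centralizer_iff.1 hrA a ha
      have e1 : a * q * a⁻¹ * r * (a * q * a⁻¹)⁻¹ = a * (q * r * q⁻¹) * a⁻¹ := by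
        calc a * q * a⁻¹ * r * (a * q * a⁻¹)⁻¹ = a * q * (a⁻¹ * (r * a)) * q⁻¹ * a⁻¹ := by group
          _ = _ := by rw [← har]; group
      have e2 : a * (q * r * q⁻¹) * a⁻¹ = q * r * q⁻¹ := by
        rcases hcz q hq with e | e <;> rw [e]
        · rw [har, mul_inv_cancel_right]
        · rw [← mul_assoc, hAz a ha, mul_assoc z, har, ← mul_assoc, mul_inv_cancel_right]
      have e4 : q⁻¹ * (a * q * a⁻¹) * r * (q⁻¹ * (a * q * a⁻¹))⁻¹ = r := by
        calc _ = q⁻¹ * (a * q * a⁻¹ * r * (a * q * a⁻¹)⁻¹) * q := by group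
          _ = r := by rw [e1, e2]; group
      have e5 : (a * q * a⁻¹ * q⁻¹) * r * (a * q * a⁻¹ * q⁻¹)⁻¹ = r := by
        have hqi : q⁻¹ * r * q = q * r * q⁻¹ := by
          have hq2 : q * q * r = r * (q * q) := by
            rw [← pow_two]; exact ((mem_centerImage_iff Q _).1 (IsExtraspecial.sq_mem hQ hq)).2 r hrQ
          calc q⁻¹ * r * q = q⁻¹ * (r * (q * q)) * q⁻¹ := by group
            _ = q⁻¹ * (q * q * r) * q⁻¹ := by rw [hq2]
            _ = _ := by group
        calc (a * q * a⁻¹ * q⁻¹) * r * (a * q * a⁻¹ * q⁻¹)⁻¹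
            = (a * q * a⁻¹) * (q⁻¹ * r * q) * (a * q * a⁻¹)⁻¹ := by group
          _ = (a * q * a⁻¹) * (a * (q * r * q⁻¹) * a⁻¹) * (a * q * a⁻¹)⁻¹ := by rw [hqi, e2]
          _ = a * (q * q * r * (q * q)⁻¹) * a⁻¹ := by group
          _ = a * r * a⁻¹ := by
            have hq2 : q * q * r = r * (q * q) := by
              rw [← pow_two]; exact ((mem_centerImage_iff Q _).1 (IsExtraspecial.sq_mem hQ hq)).2 r hrQ
            rw [hq2, mul_inv_cancel_right]
          _ = r := by rw [har, mul_inv_cancel_right]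
      exact mul_inv_eq_iff_eq_mul.1 e5)
  have h1 : r * c = c * r := hr c hc
  have h2 : q⁻¹ * c * r = r * (q⁻¹ * c) := (hmemN.1 hcN).2
  calc r * q = r * (c * (q⁻¹ * c)⁻¹) := by group
    _ = (r * c) * (q⁻¹ * c)⁻¹ := by group
    _ = c * (r * (q⁻¹ * c)⁻¹) := by rw [h1, mul_assoc]
    _ = c * ((q⁻¹ * c)⁻¹ * r) := by rw [(Commute.inv_left (show Commute (q⁻¹ * c) r from h2)).eq.symm]
    _ = q * r := by group

/-- Let z be an involution of the finite group G whose centralizer C has generalized Fitting subgroup Q extraspecial (as a 2-group), let A be a subgroup of C of odd order, and let R be the centralizer of A in Q; suppose R has order at least 32, the largest normal subgroup of odd order of the centralizer of the subgroup generated by A and R lies in A, the order of that centralizer is not divisible by 4, and g is an element of G with g z g⁻¹ in R but outside the centre Z of Q. Let M be the subgroup generated by A and the centralizer of A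 (A is normal in it). Then: the centralizer in M of the subgroup generated by R and A, joined with A, equals the subgroup generated by A and Z; the image of R in M/A is a large extraspecial 2-subgroup of M/A; and g z g⁻¹ is conjugate to z inside the subgroup generated by R and the centralizer of A in g Q g⁻¹. -/
theorem result {G : Type*} [Group G] [Finite G] (z : G) (hz : orderOf z = 2) (Q : Subgroup G) (hQC : Q ≤ Subgroup.centralizer ({z} : Set G)) (hF : (Cfsg.generalizedFittingSubgroup ↥(Subgroup.centralizer ({z} : Set G))).map (Subgroup.centralizer ({z} : Set G)).subtype = Q) (hQ : Cfsg.IsExtraspecial 2 ↥Q) (A : Subgroup G) (hA : A ≤ Subgroup.centralizer ({z} : Set G)) (hAodd : Odd (Nat.card ↥A)) (R : Subgroup G) (hR : R = Q ⊓ Subgroup.centralizer (A : Set G)) (hR32 : 32 ≤ Nat.card ↥R) (hO : (Cfsg.oddCore ↥(Subgroup.centralizer ((A ⊔ R : Subgroup G) : Set G))).map (Subgroup.centralizer ((A ⊔ R : Subgroup G) : Set G)).subtype ≤ A) (h4 : ¬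 4 ∣ Nat.card ↥(Subgroup.centralizer ((A ⊔ R : Subgroup G) : Set G))) (g : G) (hgR : g * z * g⁻¹ ∈ R) (hgZ : g * z * g⁻¹ ∉ ((Subgroup.center ↥Q).map Q.subtype)) (M : Subgroup G) (hM : M = Subgroup.centralizer (A : Set G) ⊔ A) [hn : (A.subgroupOf M).Normal] : (M ⊓ Subgroup.centralizer ((R ⊔ A : Subgroup G) : Set G)) ⊔ A = A ⊔ ((Subgroup.center ↥Q).map Q.subtype) ∧ Cfsg.IsLargeExtraspecial ((R.subgroupOf M).map (QuotientGroup.mk' (A.subgroupOf M))) ∧ ∃ x ∈ R ⊔ ((Q).map (MulAut.conj g).toMonoidHom ⊓ Subgroup.centralizer (A : Set G)), x * (g * z * g⁻¹) * x⁻¹ = z := by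
  obtain ⟨hzZ, hz1, hZz, hC, hN, -⟩ := setting_facts hz hF hQ
  obtain ⟨hzQ, hzc⟩ := (mem_centerImage_iff Q z).1 hzZ
  have hz2 : z * z = 1 := by rw [← pow_two, ← hz, pow_orderOf_eq_one]
  have hnormQ : ∀ m : G, m * z = z * m → m ∈ Subgroup.normalizer (Q : Set G) := by
    intro m hm
    refine hN ?_
    rw [Subgroup.mem_centralizer_iff]
    intro a ha
    rcases eq_one_or_eq_of_card_two (IsExtraspecial.card_centerImage hQ) hzZ hz1 ha with rfl | rfl
    · simp
    · exact hm.symm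
  have hAz : ∀ a ∈ A, a * z = z * a := fun a ha => Subgroup.mem_centralizer_singleton_iff.1 (hA ha)
  have hmemR : ∀ {x : G}, x ∈ R ↔ x ∈ Q ∧ ∀ a ∈ A, a * x = x * a := by
    intro x; rw [hR, Subgroup.mem_inf, Subgroup.mem_centralizer_iff]; rfl
  have hzR : z ∈ R := hmemR.2 ⟨hzQ, hAz⟩
  have hRQ : R ≤ Q := hR ▸ inf_le_left
  have hRC : R ≤ Subgroup.centralizer (A : Set G) := hR ▸ inf_le_right
  have hcard8 : 8 < Nat.card ↥Q := by
    have := Nat.card_le_card_of_injective (Subgroup.inclusion hRQ) (Subgroup.inclusion_injective hRQ)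
    omega
  set s := g * z * g⁻¹ with hs
  have hsne : s ≠ z := fun e => hgZ (e ▸ hzZ)
  have hsQ : s ∈ Q := hRQ hgR
  have hs2 : s * s = 1 := by
    rw [hs, show g * z * g⁻¹ * (g * z * g⁻¹) = g * (z * z) * g⁻¹ by group, hz2]; group
  have hzs : z * s = s * z := hzc s hsQ
  -- an element of `R` moving `s`
  obtain ⟨q, hqR, hqs⟩ : ∃ q ∈ R, q * s * q⁻¹ = z * s := by
    by_contra hall
    push Not at hall
    refine hgZ (mem_center_of_central_fixed hQ hzZ hz1 hAodd (fun a ha => hnormQ a (hAz a ha)) hAz hsQ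
      (hRC hgR) fun b hb => ?_)
    rcases IsExtraspecial.conj_eq_or hQ hzZ hz1 hsQ hb.1 with e | e
    · exact (mul_inv_eq_iff_eq_mul.1 e).symm
    · exact absurd e (hall b (hR.symm ▸ hb))
  -- an element of the conjugate moving `z`
  obtain ⟨p, hpQ', hpA, hpz⟩ : ∃ p ∈ Q.map (MulAut.conj g).toMonoidHom,
      p ∈ Subgroup.centralizer (A : Set G) ∧ p * z * p⁻¹ = s * z := by
    by_contra hall
    push Not at hall
    obtain ⟨z0, hz0Q, hz0e⟩ := mem_conj_of_conj_mem hQ hC hN hcard8 hzZ hz1 hsQ hsne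
    change g * z0 * g⁻¹ = z at hz0e
    set A0 := A.map (MulAut.conj g⁻¹).toMonoidHom with hA0
    have hA0odd : Odd (Nat.card ↥A0) := by
      rwa [Subgroup.card_map_of_injective (MulAut.conj g⁻¹).injective]
    have hA0z : ∀ a ∈ A0, a * z = z * a := by
      rintro _ ⟨a, ha, rfl⟩
      show g⁻¹ * a * g⁻¹⁻¹ * z = z * (g⁻¹ * a * g⁻¹⁻¹)
      have h1 : a * s = s * a := (hmemR.1 hgR).2 a ha
      calc g⁻¹ * a * g⁻¹⁻¹ * z = g⁻¹ * (a * s) * g := by rw [hs]; group
        _ = g⁻¹ * (s * a) * g := by rw [h1]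
        _ = _ := by rw [hs]; group
    have hz0A : z0 ∈ Subgroup.centralizer (A0 : Set G) := by
      rw [Subgroup.mem_centralizer_iff]
      rintro _ ⟨a, ha, rfl⟩
      show g⁻¹ * a * g⁻¹⁻¹ * z0 = z0 * (g⁻¹ * a * g⁻¹⁻¹)
      calc g⁻¹ * a * g⁻¹⁻¹ * z0 = g⁻¹ * (a * (g * z0 * g⁻¹)) * g := by group
        _ = g⁻¹ * ((g * z0 * g⁻¹) * a) * g := by rw [hz0e, hAz a ha]
        _ = _ := by group
    have h0 := mem_center_of_central_fixed hQ hzZ hz1 hA0odd (fun a ha => hnormQ a (hA0z a ha)) hA0z hz0Q hz0A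
      fun b hb => by
        rcases IsExtraspecial.conj_eq_or hQ hzZ hz1 hz0Q hb.1 with e | e
        · exact (mul_inv_eq_iff_eq_mul.1 e).symm
        · exfalso
          refine hall (g * b * g⁻¹) ⟨b, hb.1, rfl⟩ ?_ ?_
          · rw [Subgroup.mem_centralizer_iff]
            intro a ha
            have h1 : g⁻¹ * a * g * b = b * (g⁻¹ * a * g) := by
              have h2 := Subgroup.mem_centralizer_iff.1 hb.2 _ ⟨a, ha, rfl⟩
              simpa using h2
            calc a * (g * b * g⁻¹) = g * (g⁻¹ * a * g * b) * g⁻¹ := by group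
              _ = g * (b * (g⁻¹ * a * g)) * g⁻¹ := by rw [h1]
              _ = _ := by group
          · calc g * b * g⁻¹ * z * (g * b * g⁻¹)⁻¹
                = g * b * g⁻¹ * (g * z0 * g⁻¹) * (g * b * g⁻¹)⁻¹ := by rw [hz0e]
              _ = g * (b * z0 * b⁻¹) * g⁻¹ := by group
              _ = (g * z * g⁻¹) * (g * z0 * g⁻¹) := by rw [e]; group
              _ = s * z := by rw [hz0e, hs]
    rcases eq_one_or_eq_of_card_two (IsExtraspecial.card_centerImage hQ) hzZ hz1 h0 with e | e <;>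
      rw [e] at hz0e
    · exact hz1 (by rw [← hz0e]; group)
    · exact hsne hz0e
  have hps : p * s = s * p := by
    obtain ⟨b, hb, rfl⟩ := hpQ'
    show g * b * g⁻¹ * (g * z * g⁻¹) = g * z * g⁻¹ * (g * b * g⁻¹)
    calc g * b * g⁻¹ * (g * z * g⁻¹) = g * (b * z) * g⁻¹ := by group
      _ = g * (z * b) * g⁻¹ := by rw [hzc b hb]
      _ = _ := by group
  have hxs := swap_product hz2 hs2 hzs hqs hpz hps
  have hxmem : p⁻¹ * q ∈ R ⊔ (Q.map (MulAut.conj g).toMonoidHom ⊓ Subgroup.centralizer (A : Set G)) :=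
    mul_mem (Subgroup.mem_sup_right (inv_mem ⟨hpQ', hpA⟩)) (Subgroup.mem_sup_left hqR)
  -- the centraliser of `A R`
  set L := Subgroup.centralizer ((A ⊔ R : Subgroup G) : Set G) with hL
  have hmemL : ∀ {x : G}, x ∈ L ↔ (∀ a ∈ A, a * x = x * a) ∧ ∀ r ∈ R, r * x = x * r := by
    intro x
    rw [hL, Subgroup.sup_eq_closure, Subgroup.centralizer_closure, Subgroup.mem_centralizer_iff]
    exact ⟨fun h => ⟨fun a ha => h a (Or.inl ha), fun r hr => h r (Or.inr hr)⟩,
      fun h a ha => ha.elim (h.1 a) (h.2 a)⟩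
  have hzL : z ∈ L := hmemL.2 ⟨hAz, fun r hr => (hzc r (hRQ hr)).symm⟩
  set zL : ↥L := ⟨z, hzL⟩ with hzL'
  have hzLc : ∀ l : ↥L, l * zL = zL * l := fun l =>
    Subtype.ext ((hmemL.1 l.2).2 z hzR).symm
  set Zs := Subgroup.zpowers zL with hZs
  have hZc : Zs ≤ Subgroup.center ↥L := Subgroup.zpowers_le.2 (Subgroup.mem_center_iff.2 hzLc)
  have : Zs.Normal := ⟨fun n hn l => by
    rw [(Subgroup.mem_center_iff.1 (hZc hn)) l, mul_inv_cancel_right]; exact hn⟩
  have hzo : orderOf zL = 2 := by rw [← Subgroup.orderOf_coe]; exact hz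
  have hZ2 : Nat.card ↥Zs = 2 := by rw [hZs, Nat.card_zpowers, hzo]
  have hodd : Odd Zs.index := by
    rw [Nat.odd_iff]
    have := Subgroup.card_mul_index Zs
    rw [hZ2] at this
    by_contra hev
    exact h4 ⟨Zs.index / 2, by omega⟩
  obtain ⟨N, hN'⟩ := Subgroup.exists_right_complement'_of_coprime (N := Zs)
    (by rw [hZ2]; exact Nat.coprime_two_left.2 hodd)
  have hNnormal : N.Normal := by
    refine ⟨fun n hn l => ?_⟩
    obtain ⟨⟨a, b⟩, hab⟩ := hN'.2 l
    simp only at hab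
    rw [← hab, show (a : ↥L) * b * n * ((a : ↥L) * b)⁻¹ = (a : ↥L) * (b * n * (b : ↥L)⁻¹) * (a : ↥L)⁻¹ by group,
      ← (Subgroup.mem_center_iff.1 (hZc a.2)) _, mul_inv_cancel_right]
    exact mul_mem (mul_mem b.2 hn) (inv_mem b.2)
  have hNodd : Odd (Nat.card ↥N) := by
    have h1 := hN'.card_mul
    have h2 := Subgroup.card_mul_index Zs
    rw [hZ2] at h1 h2
    rwa [show Nat.card ↥N = Zs.index by omega]
  have hLA : ∀ l ∈ L, l ∈ A ∨ z * l ∈ A := by
    intro l hl
    obtain ⟨⟨a, b⟩, hab⟩ := hN'.2 ⟨l, hl⟩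
    simp only at hab
    have hbA : ((b : ↥L) : G) ∈ A := hO ⟨b, CfsgLib.Cores.le_oddCore hNodd b.2, rfl⟩
    rcases eq_one_or_eq_of_card_two hZ2 (Subgroup.mem_zpowers zL) (fun e => hz1 (congrArg Subtype.val e))
      a.2 with e | e <;> rw [e] at hab <;> have hab' := congrArg Subtype.val hab
    · left
      change (1 : G) * ((b : ↥L) : G) = l at hab'
      rw [← hab', one_mul]; exact hbA
    · right
      change z * ((b : ↥L) : G) = l at hab'
      rw [← hab', ← mul_assoc, hz2, one_mul]; exact hbA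
  have hAnorm : ∀ c ∈ Subgroup.centralizer (A : Set G), ∀ a ∈ A, c * a * c⁻¹ = a := fun c hc a ha => by
    rw [← Subgroup.mem_centralizer_iff.1 hc a ha, mul_inv_cancel_right]
  refine ⟨?_, ?_, p⁻¹ * q, hxmem, hxs⟩
  · rw [sup_comm R A, ← hL]
    refine le_antisymm (sup_le (fun l hl => ?_) le_sup_left) (sup_le le_sup_right ?_)
    · rcases hLA l hl.2 with e | e
      · exact Subgroup.mem_sup_left e
      · rw [show l = z * (z * l) by rw [← mul_assoc, hz2, one_mul]]
        exact mul_mem (Subgroup.mem_sup_right hzZ) (Subgroup.mem_sup_left e)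
    · rw [hZz, Subgroup.zpowers_le]
      exact Subgroup.mem_sup_left ⟨hM ▸ Subgroup.mem_sup_left (Subgroup.mem_centralizer_iff.2 hAz), hzL⟩
  have hCM : Subgroup.centralizer (A : Set G) ≤ M := hM ▸ le_sup_left
  have hRM : R ≤ M := hRC.trans hCM
  have hpi : ∀ a : ↥M, QuotientGroup.mk' (A.subgroupOf M) a = 1 ↔ (a : G) ∈ A := fun a => by
    rw [QuotientGroup.mk'_apply, QuotientGroup.eq_one_iff, Subgroup.mem_subgroupOf]
  have hdecomp : ∀ m : ↥M, ∃ c ∈ Subgroup.centralizer (A : Set G), ∃ a ∈ A, (m : G) = c * a := by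
    intro m
    have hm : (m : G) ∈ ((Subgroup.centralizer (A : Set G) ⊔ A : Subgroup G) : Set G) := hM ▸ m.2
    rw [Subgroup.coe_mul_of_left_le_normalizer_right _ _
      (Subgroup.centralizer_le_normalizer (A : Set G))] at hm
    obtain ⟨c, hc, a, ha, e⟩ := hm
    exact ⟨c, hc, a, ha, e.symm⟩
  have hodd_z : ∀ a ∈ A, a * z = z * a → (a * z) * (a * z) = 1 → a = 1 := by
    intro a ha haz h
    have h2 : a * a = 1 := by
      calc a * a = a * (z * z) * a := by rw [hz2, mul_one]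
        _ = (a * z) * (z * a) := by group
        _ = (a * z) * (a * z) := by rw [haz]
        _ = 1 := h
    have ho : orderOf a ∣ 2 := orderOf_dvd_of_pow_eq_one (by rw [pow_two]; exact h2)
    rcases (Nat.dvd_prime Nat.prime_two).1 ho with e | e
    · exact orderOf_eq_one_iff.1 e
    · exfalso
      have hd := Subgroup.orderOf_dvd_natCard A ha
      rw [e] at hd
      exact (Nat.not_even_iff_odd.2 hAodd) (even_iff_two_dvd.2 hd)
  have hfix : ∀ (c : G), c ∈ Subgroup.centralizer (A : Set G) → c * z * c⁻¹ * z⁻¹ ∈ A → c * z = z * c := by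
    intro c hc h
    have e1 : c * z * c⁻¹ = (c * z * c⁻¹ * z⁻¹) * z := by group
    have h1 := hodd_z _ h (hAz _ h) (by
      rw [← e1, show c * z * c⁻¹ * (c * z * c⁻¹) = c * (z * z) * c⁻¹ by group, hz2]; group)
    exact mul_inv_eq_iff_eq_mul.1 (mul_inv_eq_one.1 h1)
  have hdisj : ∀ a ∈ A, a ∈ Q → a = 1 := by
    intro a ha haQ
    obtain ⟨k, hk⟩ := hQ.1.1.exists_card_eq
    have h0 : A ⊓ Q = ⊥ := Subgroup.inf_eq_bot_of_coprime (by
      rw [hk]; exact Nat.Coprime.pow_right k (Nat.coprime_two_right.2 hAodd))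
    rw [← Subgroup.mem_bot, ← h0]; exact ⟨ha, haQ⟩
  have hconjR : ∀ c : G, c ∈ Subgroup.centralizer (A : Set G) → c * z = z * c → ∀ y ∈ R, c * y * c⁻¹ ∈ R := by
    intro c hc hcz y hy
    rw [hR] at hy ⊢
    exact ⟨((Subgroup.mem_normalizer_iff.1 (hnormQ c hcz)) y).1 hy.1, mul_mem (mul_mem hc hy.2) (Subgroup.inv_mem _ hc)⟩
  have hma : ∀ (c a y : G), a ∈ A → y ∈ R → c * a * y * (c * a)⁻¹ = c * y * c⁻¹ := by
    intro c a y ha hy
    calc c * a * y * (c * a)⁻¹ = c * (a * y) * a⁻¹ * c⁻¹ := by group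
      _ = c * (y * a) * a⁻¹ * c⁻¹ := by rw [(hmemR.1 hy).2 a ha]
      _ = _ := by group
  have heq2 : ∀ a ∈ (Subgroup.center ↥Q).map Q.subtype, a = 1 ∨ a = z := fun a ha =>
    eq_one_or_eq_of_card_two (IsExtraspecial.card_centerImage hQ) hzZ hz1 ha
  refine isLargeExtraspecial_image (QuotientGroup.mk' (A.subgroupOf M)) (QuotientGroup.mk'_surjective _) hRM
    (hQ.1.1.to_le hRQ) hzR ?_ (fun a ha b hb => heq2 _ (IsExtraspecial.commutator_mem hQ (hRQ ha) (hRQ hb)))
    (fun a ha => by rw [← pow_two]; exact heq2 _ (IsExtraspecial.sq_mem hQ (hRQ ha))) ?_ ?_ ?_ (s := s) hgR ?_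
    (x := p⁻¹ * q) (hCM (mul_mem (inv_mem hpA) (hRC hqR))) hxs
  · intro e
    exact hz1 (hdisj z ((hpi _).1 e) hzQ)
  · intro m hm
    obtain ⟨c, hc, a, ha, hmca⟩ := hdecomp m
    have hkey : ∀ y ∈ R, c * y * c⁻¹ * y⁻¹ ∈ A := fun y hy => by
      have := (hpi _).1 (hm ⟨y, hRM hy⟩ hy)
      change (m : G) * y * (m : G)⁻¹ * y⁻¹ ∈ A at this
      rwa [hmca, hma c a y ha hy] at this
    have hcz : c * z = z * c := hfix c hc (hkey z hzR)
    have hcL : c ∈ L := hmemL.2 ⟨fun x hx => Subgroup.mem_centralizer_iff.1 hc x hx, fun y hy => by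
      have h1 := hdisj _ (hkey y hy) (mul_mem (hRQ (hconjR c hc hcz y hy)) (inv_mem (hRQ hy)))
      exact (mul_inv_eq_iff_eq_mul.1 (mul_inv_eq_one.1 h1)).symm⟩
    rcases hLA c hcL with e | e
    · exact Or.inl ((hpi m).2 (by rw [hmca]; exact mul_mem e ha))
    · right
      rw [QuotientGroup.mk'_apply, QuotientGroup.mk'_apply, QuotientGroup.eq, Subgroup.mem_subgroupOf]
      show (m : G)⁻¹ * z ∈ A
      rw [hmca, show (c * a)⁻¹ * z = a⁻¹ * (c⁻¹ * z) by group]
      refine mul_mem (inv_mem ha) ?_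
      have : c⁻¹ * z = (z * c)⁻¹ := by
        rw [mul_inv_rev, inv_eq_of_mul_eq_one_right hz2]
      rw [this]; exact inv_mem e
  · intro m hm y hy
    obtain ⟨c, hc, a, ha, hmca⟩ := hdecomp m
    rw [hmca, hma c a y ha hy]
    refine hconjR c hc (hfix c hc ?_) y hy
    rw [map_mul, map_mul, map_inv] at hm
    have h1 : QuotientGroup.mk' (A.subgroupOf M) (m * ⟨z, hRM hzR⟩ * m⁻¹ * (⟨z, hRM hzR⟩ : ↥M)⁻¹) = 1 := by
      rw [map_mul, map_mul, map_mul, map_inv, map_inv, hm, mul_inv_cancel]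
    have := (hpi _).1 h1
    change (m : G) * z * (m : G)⁻¹ * z⁻¹ ∈ A at this
    rwa [hmca, hma c a z ha hzR] at this
  · set f := (QuotientGroup.mk' (A.subgroupOf M)).domRestrict (R.subgroupOf M) with hf
    have hrange : f.range = (R.subgroupOf M).map (QuotientGroup.mk' (A.subgroupOf M)) :=
      MonoidHom.domRestrict_range _ _
    rw [← hrange]
    have hinj : Function.Injective f := (injective_iff_map_eq_one f).2 fun a ha =>
      Subtype.ext (Subtype.ext (hdisj _ ((hpi _).1 ha) (hRQ (Subgroup.mem_subgroupOf.1 a.2))))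
    rw [← Nat.card_congr (MonoidHom.ofInjective hinj).toEquiv,
      Nat.card_congr (Subgroup.subgroupOfEquivOfLe hRM).toEquiv]
    omega
  · intro e
    rw [QuotientGroup.mk'_apply, QuotientGroup.mk'_apply, QuotientGroup.eq, Subgroup.mem_subgroupOf] at e
    change s⁻¹ * z ∈ A at e
    exact hsne (inv_mul_eq_one.1 (hdisj _ e (mul_mem (inv_mem hsQ) hzQ)))

end Cfsg.Agent.S5428
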