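import Cfsg.Statements.S5429
import Cfsg.Agent.Lib.Fischer2.LargeImage
import Cfsg.Agent.Lib.Fischer2.FittingSetting
open CfsgLib.Fischer2

set_option autoImplicit false
open Cfsg

namespace Cfsg.Agent.S5429

/-- Let z be an involution of the finite group G with centralizer C whose generalized Fitting subgroup Q is extraspecial of width at least 3 (order 2^(2w+1), w ≥ 3); let g be an element of G with g z g⁻¹ in Q but outside the centre Z of Q, and t an involution lying in both Q and g Q g⁻¹ that is not conjugate to z; write P for the centralizer of t in Q and suppose that the elements of C acting trivially by conjugation on P modulo the subgroup generated by t and z are exactly the elements of Q. Then the image of P in the centralizer of t modulo the subgroup generated by t is a large extraspecial 2-subgroup there, and g z g⁻¹ is conjugate to z inside the subgroup generated by P and the centralizer of t in g Q g⁻¹. -/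
theorem result {G : Type*} [Group G] [Finite G] (z : G) (hz : orderOf z = 2) (Q : Subgroup G) (hQC : Q ≤ Subgroup.centralizer ({z} : Set G)) (hF : (Cfsg.generalizedFittingSubgroup ↥(Subgroup.centralizer ({z} : Set G))).map (Subgroup.centralizer ({z} : Set G)).subtype = Q) (hQ : Cfsg.IsExtraspecial 2 ↥Q) (w : ℕ) (hw : 3 ≤ w) (hcard : Nat.card ↥Q = 2 ^ (2 * w + 1)) (g : G) (hgQ : g * z * g⁻¹ ∈ Q) (hgZ : g * z * g⁻¹ ∉ ((Subgroup.center ↥Q).map Q.subtype)) (t : G) (ht : orderOf t = 2) (htQ : t ∈ Q ⊓ (Q).map (MulAut.conj g).toMonoidHom) (htz : ¬ IsConj z t) (P : Subgroup G) (hP : P = Q ⊓ Subgroup.centralizer ({t} : Set G)) (hCP : ∀ c ∈ Subgroup.centralizer ({z} : Set G), (∀ x ∈ P, ∃ y ∈ Subgroup.closure ({t, z} : Set G), c * x * c⁻¹ = x * y) ↔ c ∈ Q) [hn : ((Subgroup.zpowers t).subgroupOf (Subgroup.centralizer ({t} : Set G))).Normal] : Cfsg.IsLargeExtraspecial ((P.subgroupOf (Subgroup.centralizer ({t} : Set G))).map (QuotientGroup.mk' ((Subgroup.zpowers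 t).subgroupOf (Subgroup.centralizer ({t} : Set G))))) ∧ ∃ x ∈ P ⊔ ((Q).map (MulAut.conj g).toMonoidHom ⊓ Subgroup.centralizer ({t} : Set G)), x * (g * z * g⁻¹) * x⁻¹ = z := by
  obtain ⟨hzZ, hz1, hZz, hC, hN, -⟩ := setting_facts hz hF hQ
  have hcard8 : 8 < Nat.card ↥Q := by
    rw [hcard]
    calc 8 < 2 ^ 7 := by norm_num
      _ ≤ _ := Nat.pow_le_pow_right (by norm_num) (by omega)
  obtain ⟨hzQ, hzc⟩ := (mem_centerImage_iff Q z).1 hzZ
  have hz2 : z * z = 1 := by rw [← pow_two, ← hz, pow_orderOf_eq_one]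
  have ht1 : t ≠ 1 := fun e => by rw [e, orderOf_one] at ht; omega
  have ht2 : t * t = 1 := by rw [← pow_two, ← ht, pow_orderOf_eq_one]
  have htnez : t ≠ z := fun e => htz (e ▸ IsConj.refl z)
  have heq : ∀ a ∈ (Subgroup.center ↥Q).map Q.subtype, a = 1 ∨ a = z := fun a ha =>
    eq_one_or_eq_of_card_two (IsExtraspecial.card_centerImage hQ) hzZ hz1 ha
  set s := g * z * g⁻¹ with hs
  have hs1 : s ≠ 1 := fun e => hz1 (conj_eq_one_iff.1 e)
  have hsne : s ≠ z := fun e => hgZ (e ▸ hzZ)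
  have hs2 : s * s = 1 := by
    rw [hs, show g * z * g⁻¹ * (g * z * g⁻¹) = g * (z * z) * g⁻¹ by group, hz2]; group
  obtain ⟨htQ, htQ'⟩ := htQ
  have htZ : t ∉ (Subgroup.center ↥Q).map Q.subtype := fun h => (heq t h).elim ht1 htnez
  obtain ⟨q0, hq0, hq0t⟩ := IsExtraspecial.exists_conj_eq_mul hQ hzZ hz1 htQ htZ
  have hztnc : ¬ IsConj z (z * t) := fun h =>
    htz (h.trans (isConj_iff.2 ⟨q0, hq0t⟩ : IsConj t (z * t)).symm)
  have hmemP : ∀ {a : G}, a ∈ P ↔ a ∈ Q ∧ a * t = t * a := by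
    intro a; rw [hP, Subgroup.mem_inf, Subgroup.mem_centralizer_singleton_iff]
  have hzs : z * s = s * z := hzc s hgQ
  have hz1' : z ∈ Q.map (MulAut.conj g).toMonoidHom :=
    mem_conj_of_conj_mem hQ hC hN hcard8 hzZ hz1 hgQ hsne
  have hperp : ∀ v ∈ Q, (∀ b ∈ P, v * b = b * v) → v = 1 ∨ v = z ∨ v = t ∨ v = z * t := by
    intro v hv hb
    have := mem_of_commute_centralizer hQ hzZ hz1 htQ htZ hv fun b hb' hbt => hb b (hmemP.2 ⟨hb', hbt⟩)
    rwa [inv_eq_of_mul_eq_one_right ht2] at this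
  -- the swapping elements
  have hsnt : s ≠ t := fun e => htz (e ▸ isConj_iff.2 ⟨g, rfl⟩)
  have hsnzt : s ≠ z * t := fun e => hztnc (e ▸ isConj_iff.2 ⟨g, rfl⟩)
  obtain ⟨q, hqP, hqs⟩ : ∃ q ∈ P, q * s * q⁻¹ = z * s := by
    by_contra hall
    push Not at hall
    rcases hperp s hgQ (fun b hb => by
      rcases IsExtraspecial.conj_eq_or hQ hzZ hz1 hgQ (hmemP.1 hb).1 with e | e
      · exact (mul_inv_eq_iff_eq_mul.1 e).symm
      · exact absurd e (hall b hb)) with e | e | e | e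
    exacts [hs1 e, hsne e, hsnt e, hsnzt e]
  obtain ⟨z0, hz0Q, hz0e⟩ := hz1'
  obtain ⟨t0, ht0Q, ht0e⟩ := htQ'
  change g * z0 * g⁻¹ = z at hz0e
  change g * t0 * g⁻¹ = t at ht0e
  obtain ⟨p, hpQ', hpt, hpz⟩ : ∃ p ∈ Q.map (MulAut.conj g).toMonoidHom, p * t = t * p ∧
      p * z * p⁻¹ = s * z := by
    by_contra hall
    push Not at hall
    have ht0Z : t0 ∉ (Subgroup.center ↥Q).map Q.subtype := fun h => by
      rcases heq t0 h with e | e
      · rw [e] at ht0e; exact ht1 (by rw [← ht0e]; group)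
      · rw [e] at ht0e; exact hsnt ht0e
    have h0 := mem_of_commute_centralizer hQ hzZ hz1 ht0Q ht0Z hz0Q fun b hb hbt => by
      rcases IsExtraspecial.conj_eq_or hQ hzZ hz1 hz0Q hb with e | e
      · exact (mul_inv_eq_iff_eq_mul.1 e).symm
      · exfalso
        refine hall (g * b * g⁻¹) ⟨b, hb, rfl⟩ ?_ ?_
        · rw [← ht0e]
          calc g * b * g⁻¹ * (g * t0 * g⁻¹) = g * (b * t0) * g⁻¹ := by group
            _ = g * (t0 * b) * g⁻¹ := by rw [hbt]
            _ = _ := by group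
        · calc g * b * g⁻¹ * z * (g * b * g⁻¹)⁻¹
              = g * b * g⁻¹ * (g * z0 * g⁻¹) * (g * b * g⁻¹)⁻¹ := by rw [hz0e]
            _ = g * (b * z0 * b⁻¹) * g⁻¹ := by group
            _ = (g * z * g⁻¹) * (g * z0 * g⁻¹) := by rw [e]; group
            _ = s * z := by rw [hz0e, hs]
    have ht0i : t0⁻¹ = t0 := by
      refine inv_eq_of_mul_eq_one_right (mul_left_cancel (a := g) (mul_right_cancel (b := g⁻¹) ?_))
      rw [mul_one, mul_inv_cancel, ← ht2, ← ht0e]; group
    rw [ht0i] at h0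
    rcases h0 with e | e | e | e <;> rw [e] at hz0e
    · exact hz1 (by rw [← hz0e]; group)
    · exact hsne hz0e
    · exact htnez (ht0e.symm.trans hz0e)
    · have e2 : s * t = z := by
        rw [← hz0e, hs, ← ht0e]; group
      apply htz
      refine isConj_iff.2 ⟨q * g, ?_⟩
      rw [show q * g * z * (q * g)⁻¹ = q * (g * z * g⁻¹) * q⁻¹ by group, ← hs, hqs, hzs]
      calc s * z = s * (s * t) := by rw [e2]
        _ = t := by rw [← mul_assoc, hs2, one_mul]
  have hps : p * s = s * p := by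
    obtain ⟨b, hb, rfl⟩ := hpQ'
    show g * b * g⁻¹ * (g * z * g⁻¹) = g * z * g⁻¹ * (g * b * g⁻¹)
    calc g * b * g⁻¹ * (g * z * g⁻¹) = g * (b * z) * g⁻¹ := by group
      _ = g * (z * b) * g⁻¹ := by rw [hzc b hb]
      _ = _ := by group
  have hxs := swap_product hz2 hs2 hzs hqs hpz hps
  have hpmem : p ∈ Q.map (MulAut.conj g).toMonoidHom ⊓ Subgroup.centralizer ({t} : Set G) :=
    ⟨hpQ', Subgroup.mem_centralizer_singleton_iff.2 hpt⟩
  have hxmem : p⁻¹ * q ∈ P ⊔ (Q.map (MulAut.conj g).toMonoidHom ⊓ Subgroup.centralizer ({t} : Set G)) :=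
    mul_mem (Subgroup.mem_sup_right (inv_mem hpmem)) (Subgroup.mem_sup_left hqP)
  refine ⟨?_, p⁻¹ * q, hxmem, hxs⟩
  set M := Subgroup.centralizer ({t} : Set G) with hM
  set K := (Subgroup.zpowers t).subgroupOf M with hK
  have hPM : P ≤ M := hP ▸ inf_le_right
  have hzP : z ∈ P := hmemP.2 ⟨hzQ, hzc t htQ⟩
  have hsP : s ∈ P := hmemP.2 ⟨hgQ, by
    obtain ⟨-, hc⟩ := (mem_centerImage_iff Q z).1 hzZ
    rw [← ht0e, hs]
    calc g * z * g⁻¹ * (g * t0 * g⁻¹) = g * (z * t0) * g⁻¹ := by group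
      _ = g * (t0 * z) * g⁻¹ := by rw [hc t0 ht0Q]
      _ = _ := by group⟩
  have hKmem : ∀ a : G, a ∈ Subgroup.zpowers t ↔ a = 1 ∨ a = t := fun a =>
    ⟨fun ha => eq_one_or_eq_of_card_two (Nat.card_zpowers t ▸ ht) (Subgroup.mem_zpowers t) ht1 ha,
      fun ha => by rcases ha with rfl | rfl; exacts [one_mem _, Subgroup.mem_zpowers _]⟩
  have hpi : ∀ a : M, QuotientGroup.mk' K a = 1 ↔ (a : G) = 1 ∨ (a : G) = t := fun a => by
    rw [QuotientGroup.mk'_apply, QuotientGroup.eq_one_iff]; exact hKmem _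
  have hpieq : ∀ a b : M, QuotientGroup.mk' K a = QuotientGroup.mk' K b ↔ (b : G) = a ∨ (b : G) = a * t := by
    intro a b
    rw [QuotientGroup.mk'_apply, QuotientGroup.mk'_apply, QuotientGroup.eq]
    show ((a : G)⁻¹ * b) ∈ Subgroup.zpowers t ↔ _
    rw [hKmem, inv_mul_eq_one, inv_mul_eq_iff_eq_mul]
    exact or_congr_left eq_comm
  have hcomm : ∀ a ∈ P, ∀ b ∈ P, a * b * a⁻¹ * b⁻¹ = 1 ∨ a * b * a⁻¹ * b⁻¹ = z := fun a ha b hb =>
    heq _ (IsExtraspecial.commutator_mem hQ (hmemP.1 ha).1 (hmemP.1 hb).1)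
  have hfixz : ∀ m : M, QuotientGroup.mk' K (m * ⟨z, hPM hzP⟩ * m⁻¹) = QuotientGroup.mk' K ⟨z, hPM hzP⟩ →
      (m : G) * z = z * (m : G) := by
    intro m hm
    rcases (hpieq _ _).1 hm.symm with e | e
    · exact mul_inv_eq_iff_eq_mul.1 e
    · exact absurd (isConj_iff.2 ⟨m, e⟩ : IsConj z (z * t)) hztnc
  have hnormQ : ∀ m : G, m * z = z * m → ∀ y ∈ Q, m * y * m⁻¹ ∈ Q := by
    intro m hm y hy
    refine ((Subgroup.mem_normalizer_iff.1 (hN ?_)) y).1 hy
    rw [Subgroup.mem_centralizer_iff]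
    intro a ha
    rcases heq a ha with rfl | rfl
    · simp
    · exact hm.symm
  refine isLargeExtraspecial_image (QuotientGroup.mk' K) (QuotientGroup.mk'_surjective K) hPM
    (hP ▸ hQ.1.1.to_le inf_le_left) hzP ?_ hcomm (fun a ha => ?_) ?_ ?_ ?_ (s := s) hsP ?_
    (x := p⁻¹ * q) (mul_mem (inv_mem hpmem.2) (hPM hqP)) hxs
  · intro e
    rcases (hpi _).1 e with e | e
    · exact hz1 e
    · exact htnez e.symm
  · rw [← pow_two]; exact heq _ (IsExtraspecial.sq_mem hQ (hmemP.1 ha).1)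
  · intro m hm
    have hmz : (m : G) * z = z * (m : G) := hfixz m (by
      have h := hm ⟨z, hPM hzP⟩ hzP
      rw [map_mul, map_inv, mul_inv_eq_one] at h
      exact h)
    have hmQ : (m : G) ∈ Q := (hCP _ (Subgroup.mem_centralizer_singleton_iff.2 hmz)).1 fun y hy => by
      rcases (hpi _).1 (hm ⟨y, hPM hy⟩ hy) with e | e
      · exact ⟨1, one_mem _, by rw [mul_one]; exact mul_inv_eq_one.1 e⟩
      · refine ⟨t, Subgroup.subset_closure (Or.inl rfl), ?_⟩
        rw [show (m : G) * y * (m : G)⁻¹ = t * y from mul_inv_eq_iff_eq_mul.1 e]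
        exact ((hmemP.1 hy).2).symm
    rcases hperp _ hmQ (fun b hb => by
      have h1 := (hpi _).1 (hm ⟨b, hPM hb⟩ hb)
      rcases heq _ (IsExtraspecial.commutator_mem hQ hmQ (hmemP.1 hb).1) with e | e
      · exact mul_inv_eq_iff_eq_mul.1 (mul_inv_eq_one.1 e)
      · exfalso
        rcases h1 with e' | e'
        · exact hz1 (e.symm.trans e')
        · exact htnez (e'.symm.trans e)) with e | e | e | e
    · exact Or.inl ((hpi m).2 (Or.inl e))
    · exact Or.inr (congrArg _ (Subtype.ext e))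
    · exact Or.inl ((hpi m).2 (Or.inr e))
    · exact Or.inr (((hpieq _ _).2 (Or.inr e)).symm)
  · intro m hm y hy
    refine hmemP.2 ⟨hnormQ _ (hfixz m hm) y (hmemP.1 hy).1, ?_⟩
    exact Subgroup.mem_centralizer_singleton_iff.1 (mul_mem (mul_mem m.2 (hPM hy)) (inv_mem m.2))
  · set f := (QuotientGroup.mk' K).domRestrict (P.subgroupOf M) with hf
    have hrange : f.range = (P.subgroupOf M).map (QuotientGroup.mk' K) := MonoidHom.domRestrict_range _ _
    rw [← hrange, ← Subgroup.index_ker]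
    have h1 := Subgroup.card_mul_index f.ker
    have hker : Nat.card f.ker ≤ 2 := by
      refine le_trans (Nat.card_le_card_of_injective (β := Subgroup.zpowers t)
        (fun a => ⟨(((a : P.subgroupOf M) : M) : G), (hKmem _).2 ((hpi _).1 a.2)⟩) fun a b e => ?_)
        (le_of_eq (by rw [Nat.card_zpowers, ht]))
      exact Subtype.ext (Subtype.ext (Subtype.ext (congrArg Subtype.val e :)))
    have hQP : Nat.card ↥Q ≤ 2 * Nat.card (P.subgroupOf M) := by
      classical
      rw [Nat.card_congr (Subgroup.subgroupOfEquivOfLe hPM).toEquiv,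
        show 2 = Nat.card Bool by simp, ← Nat.card_prod]
      refine Nat.card_le_card_of_injective (fun a : ↥Q =>
        if h : (a : G) ∈ P then (true, (⟨a, h⟩ : ↥P)) else (false, ⟨q0⁻¹ * a, hmemP.2 ⟨mul_mem (inv_mem hq0) a.2, ?_⟩⟩)) ?_
      · rcases IsExtraspecial.conj_eq_or hQ hzZ hz1 htQ a.2 with e | e
        · exact absurd (hmemP.2 ⟨a.2, mul_inv_eq_iff_eq_mul.1 e⟩) h
        · calc q0⁻¹ * (a : G) * t = q0⁻¹ * ((a : G) * t * (a : G)⁻¹) * a := by group
            _ = q0⁻¹ * (q0 * t * q0⁻¹) * a := by rw [e, hq0t]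
            _ = _ := by group
      · intro a b e
        dsimp only at e
        split_ifs at e with ha hb hb
        · exact Subtype.ext (congrArg Subtype.val (Prod.ext_iff.1 e).2 :)
        · simp at e
        · simp at e
        · exact Subtype.ext (mul_left_cancel (congrArg Subtype.val (Prod.ext_iff.1 e).2 :))
    have h2 : Nat.card (P.subgroupOf M) ≤ 2 * f.ker.index := by
      rw [← h1]; exact Nat.mul_le_mul_right _ hker
    have h128 : 2 ^ 7 ≤ Nat.card ↥Q := hcard ▸ Nat.pow_le_pow_right (by norm_num) (by omega)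
    omega
  · intro e
    rcases (hpieq _ _).1 e with e | e
    · exact hsne e.symm
    · change z = s * t at e
      apply hsnzt
      calc s = (s * t) * t := by rw [mul_assoc, ht2, mul_one]
        _ = z * t := by rw [← e]

end Cfsg.Agent.S5429
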