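import Cfsg.Statements.S5430
import Cfsg.Agent.Lib.Fischer2.LargePairQuotient

set_option autoImplicit false
open Cfsg

namespace Cfsg.Agent.S5430

/-- Let Q be a large extraspecial 2-subgroup of the finite group G (extraspecial; centralizer equal to its centre; normal in the centralizer of its centre; normalizing no non-trivial subgroup of odd order) with centre generated by z, an involution, of width w ≥ 2 (order 2^(2w+1)); let g be an element outside the centralizer H of z with g z g⁻¹ in Q; write V for the subgroup generated by z and g z g⁻¹, X for the subgroup generated by Q and g Q g⁻¹, R for the subgroup generated by the centralizer of z in g Q g⁻¹ and the centralizer of g z g⁻¹ in Q, and E for the intersection of Q and g Q g⁻¹. Then R is the centralizer of V in X and is the largest normal 2-subgroup of X, and X/R is isomorphic to the symmetric group of degree 3; moreover the normalizer of V is the product of X and the centralizer of V in H, X is normal in it, and modulo R it is the direct product of X/R and of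 the centralizer of V in H modulo R. -/
theorem result {G : Type*} [Group G] [Finite G] (Q : Subgroup G) (hQ : Cfsg.IsLargeExtraspecial Q) (z : G) (hz : ((Subgroup.center ↥Q).map Q.subtype) = Subgroup.zpowers z) (hz2 : orderOf z = 2) (w : ℕ) (hw : 2 ≤ w) (hcard : Nat.card ↥Q = 2 ^ (2 * w + 1)) (g : G) (hgH : g ∉ Subgroup.centralizer ({z} : Set G)) (hgQ : g * z * g⁻¹ ∈ Q) (V X R E : Subgroup G) (hV : V = Subgroup.closure ({z, g * z * g⁻¹} : Set G)) (hX : X = Q ⊔ (Q).map (MulAut.conj g).toMonoidHom) (hR : R = ((Q).map (MulAut.conj g).toMonoidHom ⊓ Subgroup.centralizer ({z} : Set G)) ⊔ (Q ⊓ Subgroup.centralizer ({g * z * g⁻¹} : Set G))) (hE : E = Q ⊓ (Q).map (MulAut.conj g).toMonoidHom) : R = X ⊓ Subgroup.centralizer (V : Set G) ∧ R = (Cfsg.pCore 2 ↥X).map X.subtype ∧ (∃ h : (R.subgroupOf X).Normal, Nonempty (↥X ⧸ R.subgroupOf X ≃* Equiv.Perm (Fin 3))) ∧ Subgroup.normalizer (V : Set G) = X ⊔ (Subgroup.centralizer ({z} : Set G) ⊓ Subgroup.centralizer (V : Set G)) ∧ (∀ y ∈ Subgroup.normalizer (V : Set G), ∀ x ∈ X, y * x * y⁻¹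 ∈ X) ∧ R ≤ Subgroup.centralizer ({z} : Set G) ⊓ Subgroup.centralizer (V : Set G) ∧ (∀ x ∈ X, ∀ c ∈ Subgroup.centralizer ({z} : Set G) ⊓ Subgroup.centralizer (V : Set G), x * c * x⁻¹ * c⁻¹ ∈ R) ∧ X ⊓ (Subgroup.centralizer ({z} : Set G) ⊓ Subgroup.centralizer (V : Set G)) = R := by
  subst hV hX hR hE
  have h := CfsgLib.Fischer2.LargePair.of_large hQ hz hz2 hw hcard hgH hgQ
  have hW : Subgroup.centralizer ({z} : Set G) ⊓
      Subgroup.centralizer ((Subgroup.closure ({z, g * z * g⁻¹} : Set G) : Subgroup G) : Set G) =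
        CfsgLib.Fischer2.pairW z g := by
    rw [show Subgroup.centralizer ((Subgroup.closure ({z, g * z * g⁻¹} : Set G) : Subgroup G) : Set G) =
      CfsgLib.Fischer2.pairW z g from CfsgLib.Fischer2.LargePair.centralizer_V]
    exact inf_eq_right.2 inf_le_left
  rw [hW]
  refine ⟨?_, h.R_eq_pCore, h.quotient_iso, h.normalizer_V, fun y hy x hx => h.normalizer_norm_X hy hx,
    h.R_le_W, fun x hx c hc => h.commutator_X_W hx hc, h.X_inf_W⟩
  rw [show Subgroup.centralizer ((Subgroup.closure ({z, g * z * g⁻¹} : Set G) : Subgroup G) : Set G) =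
      CfsgLib.Fischer2.pairW z g from CfsgLib.Fischer2.LargePair.centralizer_V]
  exact h.X_inf_W.symm

end Cfsg.Agent.S5430
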