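import Cfsg.Statements.S5432
import Cfsg.Agent.Lib.Fischer2.ExtraspecialOut
import Cfsg.Agent.Lib.LargeSubgroups.ExtraspecialPlus
import Cfsg.Agent.Lib.Replacement.PauliExtension

set_option autoImplicit false
open Cfsg

namespace Cfsg.Agent.S5432

open CfsgLib.Fischer2.ExtraspecialOut CfsgLib.Minimal.ExtraspecialTwo

/-- Plus type in terms of an elementary abelian subgroup. -/
theorem numSq_of_plus {E : Type*} [Group E] [Finite E] (hE : Cfsg.IsExtraspecial 2 E) (n : ℕ)
    (hcard : Nat.card E = 2 ^ (2 * n + 1)) {A : Subgroup E} (hA : Cfsg.IsElementaryAbelian 2 A)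
    (hAc : Nat.card ↥A = 2 ^ (n + 1)) : numSq E = 2 ^ (2 * n) + 2 ^ n := by
  classical
  haveI := Fintype.ofFinite E
  have h4 := CfsgLib.LargeSubgroups.card_order_four_plus n hE hcard hA hAc
  have hiff : ∀ x : E, orderOf x = 4 ↔ ¬ x ^ 2 = 1 := fun x => by
    rw [pow_two]
    refine CfsgLib.LargeSubgroups.orderOf_eq_four_iff ?_
    rcases sq_cases hE x with e | e <;> rw [e]
    exacts [mul_one 1, zE_sq hE]
  rw [Nat.card_congr (Equiv.subtypeEquivRight hiff)] at h4
  have hsum : numSq E + Nat.card {x : E // ¬ x ^ 2 = 1} = Nat.card E := by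
    rw [numSq, ← Nat.card_sum, Nat.card_congr (Equiv.sumCompl _)]
  have e1 : 2 ^ (2 * n + 1) = 2 * 2 ^ (2 * n) := by rw [pow_succ]; ring
  have e2 : 2 ^ n ≤ 2 ^ (2 * n) := Nat.pow_le_pow_right (by norm_num) (by omega)
  omega

open CfsgLib.Replacement.Pauli in
/-- The plus-type model contains a large elementary abelian subgroup. -/
theorem pauli_exists (n : ℕ) : ∃ A : Subgroup (Pauli n), Cfsg.IsElementaryAbelian 2 A ∧
    Nat.card ↥A = 2 ^ (n + 1) := by
  let A : Subgroup (Pauli n) :=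
    { carrier := {g | g.b = 0}
      mul_mem' := fun {g h} hg hh => by
        simp only [Set.mem_ofPred_eq] at hg hh ⊢
        rw [mul_def]; simp [hg, hh]
      one_mem' := rfl
      inv_mem' := fun {g} hg => by
        simp only [Set.mem_ofPred_eq] at hg ⊢
        have e := congrArg Pauli.b (mul_inv_cancel g)
        rw [mul_def] at e
        simpa [hg, one_def] using e }
  have hb : ∀ g : A, (g : Pauli n).b = 0 := fun g => g.2
  refine ⟨A, ⟨⟨⟨fun g h => Subtype.ext ?_⟩⟩, fun g hg => ?_⟩, ?_⟩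
  · rw [Subgroup.coe_mul, Subgroup.coe_mul, commute_eq (g : Pauli n) h]
    simp [pol, hb, zeta, mul_def]
  · have : g.b = 0 := hg
    rw [pow_two, mul_self_eq, this, dot_zero_right, sgn_zero]
    rfl
  · rw [show Nat.card A = Nat.card ((ZMod 3)ˣ × BV n) from Nat.card_congr
      ⟨fun g => (g.1.s, g.1.a), fun p => ⟨⟨p.1, p.2, 0⟩, rfl⟩,
        fun g => Subtype.ext (Pauli.ext rfl rfl g.2.symm), fun _ => rfl⟩,
      Nat.card_prod, card_units_three, Nat.card_fun, Nat.card_zmod, Nat.card_fin, pow_succ']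

theorem result {E : Type*} [Group E] [Finite E] (hE : Cfsg.IsExtraspecial 2 E) (n : ℕ) (hn : 1 ≤ n) (hcard : Nat.card E = 2 ^ (2 * n + 1)) : ((∃ A : Subgroup E, Cfsg.IsElementaryAbelian 2 A ∧ Nat.card ↥A = 2 ^ (n + 1)) → Nonempty (Cfsg.Out E ≃* Cfsg.isometryGroup (ZMod 2) (Cfsg.quadFormPlus n (ZMod 2)))) ∧ ((¬ ∃ A : Subgroup E, Cfsg.IsElementaryAbelian 2 A ∧ Nat.card ↥A = 2 ^ (n + 1)) → Nonempty (Cfsg.Out E ≃* Cfsg.isometryGroup (ZMod 2) (Cfsg.quadFormMinus (n - 1) (ZMod 2) 1 1))) := by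
  obtain ⟨m, hm1, hmc, hm⟩ := exists_hasCoord hE
  obtain rfl : m = n := by
    have := Nat.pow_right_injective (le_refl 2) (hmc.symm.trans hcard)
    omega
  constructor
  · rintro ⟨A, hA, hAc⟩
    rcases hm with ⟨h, -⟩ | ⟨-, hq⟩
    · exact h.nonempty_out_equiv hE
    · have := numSq_of_plus hE m hcard hA hAc
      have := Nat.two_pow_pos m
      omega
  · intro hno
    rcases hm with ⟨-, hq⟩ | ⟨h, -⟩
    · exfalso
      open CfsgLib.Replacement.Pauli in
      obtain ⟨B, hB, hBc⟩ := pauli_exists m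
      have hP := CfsgLib.Replacement.Pauli.isExtraspecial (n := m) hn
      obtain ⟨e⟩ := nonempty_mulEquiv hP hE (hcard.trans CfsgLib.Replacement.Pauli.card_pauli.symm)
        (hq.trans (numSq_of_plus hP m CfsgLib.Replacement.Pauli.card_pauli hB hBc).symm)
      refine hno ⟨B.map e.toMonoidHom, ⟨?_, ?_⟩, ?_⟩
      · haveI := hB.1
        exact Subgroup.map_isMulCommutative B e.toMonoidHom
      · rintro _ ⟨b, hb, rfl⟩
        rw [← map_pow, hB.2 b hb, map_one]
      · rw [Subgroup.card_map_of_injective (f := e.toMonoidHom) e.injective, hBc]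
    · exact h.nonempty_out_equiv hE

end Cfsg.Agent.S5432
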