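import Cfsg.Statements.S5433
import Cfsg.Agent.Lib.Fischer2.LargeExtraspecial

set_option autoImplicit false
open Cfsg

namespace Cfsg.Agent.S5433

/-- Let Q be a large extraspecial 2-subgroup of the finite group G (extraspecial; centralizer equal to its centre; normal in the centralizer of its centre; normalizing no non-trivial subgroup of odd order), and L a normal subgroup of G containing Q. Then G is the product of L and the normalizer of Q. -/
theorem result {G : Type*} [Group G] [Finite G] (Q : Subgroup G) (hQ : Cfsg.IsLargeExtraspecial Q) (L : Subgroup G) [L.Normal] (hQL : Q ≤ L) : L ⊔ Subgroup.normalizer (Q : Set G) = ⊤ := by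
  obtain ⟨hE, hC, hN, -⟩ := hQ
  have : Fact (Nat.Prime 2) := ⟨Nat.prime_two⟩
  have hE' : IsPGroup 2 (Q.subgroupOf L) :=
    (CfsgLib.Fischer2.IsExtraspecial.isPGroup hE).of_equiv (Subgroup.subgroupOfEquivOfLe hQL).symm
  obtain ⟨T, hT⟩ := hE'.exists_le_sylow
  obtain ⟨z, hzo, hzQ, hzZ, hZz⟩ := CfsgLib.Fischer2.IsExtraspecial.exists_center_gen hE
  set T' : Subgroup G := (T : Subgroup L).map L.subtype with hT'
  have hQT : Q ≤ T' := by
    intro q hq
    exact ⟨⟨q, hQL hq⟩, hT (Subgroup.mem_subgroupOf.2 hq), rfl⟩
  have hNT : Subgroup.normalizer (T' : Set G) ≤ Subgroup.normalizer (Q : Set G) := by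
    intro n hn
    apply hN
    -- the centre of T' is Z(Q)
    have hcen : (Subgroup.center Q).map Q.subtype = (Subgroup.center T').map T'.subtype := by
      have hsub : (Subgroup.center T').map T'.subtype ≤ (Subgroup.center Q).map Q.subtype := by
        rw [← hC]
        intro x hx
        rw [Subgroup.mem_centralizer_iff]
        intro q hq
        exact (((CfsgLib.Fischer2.mem_centerImage_iff T' x).1 hx).2 q (hQT hq)).symm
      have hpT : IsPGroup 2 T' := T.isPGroup'.map _
      have : Nontrivial T' := by
        rw [Subgroup.nontrivial_iff_ne_bot]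
        intro hb
        have hz : z ∈ T' := hQT hzQ
        rw [hb, Subgroup.mem_bot] at hz
        rw [hz, orderOf_one] at hzo
        exact absurd hzo (by norm_num)
      have hnt := IsPGroup.center_nontrivial hpT
      symm
      apply Subgroup.eq_of_le_of_card_ge hsub
      rw [CfsgLib.Fischer2.IsExtraspecial.card_centerImage hE,
        ← Nat.card_congr (Subgroup.equivMapOfInjective _ _ T'.subtype_injective).toEquiv]
      exact Finite.one_lt_card
    have hzT : z ∈ (Subgroup.center T').map T'.subtype := hcen ▸ hzZ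
    have hnz : n * z * n⁻¹ ∈ (Subgroup.center T').map T'.subtype := by
      obtain ⟨h1, h2⟩ := (CfsgLib.Fischer2.mem_centerImage_iff T' z).1 hzT
      refine (CfsgLib.Fischer2.mem_centerImage_iff T' _).2
        ⟨((Subgroup.mem_normalizer_iff.1 hn) z).1 h1, fun y hy => ?_⟩
      have hy' : n⁻¹ * y * n ∈ T' :=
        ((Subgroup.mem_normalizer_iff.1 hn) _).2 (by simpa [mul_assoc] using hy)
      calc n * z * n⁻¹ * y = n * (z * (n⁻¹ * y * n)) * n⁻¹ := by group
        _ = n * ((n⁻¹ * y * n) * z) * n⁻¹ := by rw [h2 _ hy']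
        _ = y * (n * z * n⁻¹) := by group
    rw [← hcen] at hnz
    have hz1 : z ≠ 1 := by intro h; rw [h, orderOf_one] at hzo; norm_num at hzo
    rcases CfsgLib.Fischer2.eq_one_or_eq_of_card_two
        (CfsgLib.Fischer2.IsExtraspecial.card_centerImage hE) hzZ hz1 hnz with h | h
    · exact absurd (conj_eq_one_iff.1 h) hz1
    · rw [Subgroup.mem_centralizer_iff]
      intro x hx
      rw [hZz] at hx
      obtain ⟨k, rfl⟩ := hx
      exact ((Commute.zpow_right (show Commute n z from mul_inv_eq_iff_eq_mul.1 h) k).eq).symm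
  rw [eq_top_iff, ← Sylow.normalizer_sup_eq_top T, sup_comm]
  exact sup_le_sup_left hNT L

end Cfsg.Agent.S5433
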