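import Cfsg.Statements.S5434
import Cfsg.Agent.Lib.Fischer2.LargeExtraspecial
import Cfsg.Agent.Lib.CoprimeAction.Basic

set_option autoImplicit false
open Cfsg

namespace Cfsg.Agent.S5434

/-- Let Q be a large extraspecial 2-subgroup of the finite group G (extraspecial; centralizer equal to its centre; normal in the centralizer of its centre; normalizing no non-trivial subgroup of odd order), and A a non-trivial subgroup of odd order of the normalizer of Q. Then Q is the central product of the centralizer of A in Q and the commutator subgroup [Q, A] (they generate Q and commute elementwise), [Q, A] is extraspecial, and the centralizer of A in Q is either the centre of Q or extraspecial. -/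
theorem result {G : Type*} [Group G] [Finite G] (Q : Subgroup G) (hQ : Cfsg.IsLargeExtraspecial Q) (A : Subgroup G) (hA : A ≤ Subgroup.normalizer (Q : Set G)) (hAodd : Odd (Nat.card ↥A)) (hA1 : A ≠ ⊥) : (Q ⊓ Subgroup.centralizer (A : Set G)) ⊔ ⁅Q, A⁆ = Q ∧ (∀ x ∈ Q ⊓ Subgroup.centralizer (A : Set G), ∀ y ∈ ⁅Q, A⁆, x * y = y * x) ∧ Cfsg.IsExtraspecial 2 ↥⁅Q, A⁆ ∧ (Q ⊓ Subgroup.centralizer (A : Set G) = ((Subgroup.center ↥Q).map Q.subtype) ∨ Cfsg.IsExtraspecial 2 ↥(Q ⊓ Subgroup.centralizer (A : Set G))) := by
  obtain ⟨hE, hC, hN, -⟩ := hQ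
  have : Fact (Nat.Prime 2) := ⟨Nat.prime_two⟩
  obtain ⟨z, hzo, hzQ, hzZ, hZz⟩ := CfsgLib.Fischer2.IsExtraspecial.exists_center_gen hE
  have hcard := CfsgLib.Fischer2.IsExtraspecial.card_centerImage hE
  set Z := (Subgroup.center ↥Q).map Q.subtype with hZdef
  have hz1 : z ≠ 1 := by intro h; rw [h, orderOf_one] at hzo; norm_num at hzo
  have hmem : ∀ x ∈ Z, x = 1 ∨ x = z := fun x hx =>
    CfsgLib.Fischer2.eq_one_or_eq_of_card_two hcard hzZ hz1 hx
  have hcop : (Nat.card A).Coprime (Nat.card Q) := by
    obtain ⟨n, hn⟩ := IsPGroup.iff_card.1 hE.1.1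
    rw [hn]
    exact Nat.Coprime.pow_right n (Nat.coprime_two_right.2 hAodd)
  have hnil := hE.1.1.isNilpotent
  have hsolv : Group.IsSolvable A ∨ Group.IsSolvable Q := Or.inr inferInstance
  set C := Q ⊓ Subgroup.centralizer (A : Set G) with hCdef
  set D := ⁅Q, A⁆ with hDdef
  have hDQ : D ≤ Q := CfsgLib.CoprimeAction.commutator_le_left hA
  have hsup : D ⊔ C = Q := CfsgLib.CoprimeAction.commutator_sup_centralizer hA hcop hsolv
  -- A centralises Z
  have hAz : ∀ a ∈ A, Commute a z := by
    intro a ha
    apply mul_inv_eq_iff_eq_mul.1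
    have hnz : a * z * a⁻¹ ∈ Z := by
      obtain ⟨h1, h2⟩ := (CfsgLib.Fischer2.mem_centerImage_iff Q z).1 hzZ
      refine (CfsgLib.Fischer2.mem_centerImage_iff Q _).2
        ⟨((Subgroup.mem_normalizer_iff.1 (hA ha)) z).1 h1, fun y hy => ?_⟩
      have hy' : a⁻¹ * y * a ∈ Q :=
        ((Subgroup.mem_normalizer_iff.1 (hA ha)) _).2 (by simpa [mul_assoc] using hy)
      calc a * z * a⁻¹ * y = a * (z * (a⁻¹ * y * a)) * a⁻¹ := by group
        _ = a * ((a⁻¹ * y * a) * z) * a⁻¹ := by rw [h2 _ hy']
        _ = y * (a * z * a⁻¹) := by group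
    rcases hmem _ hnz with h | h
    · exact absurd (conj_eq_one_iff.1 h) hz1
    · exact h
  -- C and D commute
  have hCD : ∀ x ∈ C, ∀ y ∈ D, x * y = y * x := by
    intro x hx y hy
    have hDle : D ≤ Subgroup.centralizer ({x} : Set G) := by
      rw [hDdef, Subgroup.commutator_le]
      intro q hq a ha
      rw [Subgroup.mem_centralizer_singleton_iff, commutatorElement_def]
      have hax : Commute a x := Subgroup.mem_centralizer_iff.1 hx.2 a ha
      set w := x * q * x⁻¹ * q⁻¹ with hw
      have hwZ : w ∈ Z := CfsgLib.Fischer2.IsExtraspecial.commutator_mem hE hx.1 hq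
      have haw : Commute a w := by
        rcases hmem w hwZ with h | h <;> rw [h]
        · exact Commute.one_right a
        · exact hAz a ha
      symm
      apply mul_inv_eq_iff_eq_mul.1
      calc x * (q * a * q⁻¹ * a⁻¹) * x⁻¹
          = (x * q * x⁻¹) * ((x * a * x⁻¹) * (x * q * x⁻¹)⁻¹ * (x * a * x⁻¹)⁻¹) := by group
        _ = (w * q) * (a * (q⁻¹ * w⁻¹) * a⁻¹) := by
            rw [show x * q * x⁻¹ = w * q by rw [hw]; group,
              show x * a * x⁻¹ = a by rw [← hax.eq]; group, mul_inv_rev]
        _ = w * ((q * a * q⁻¹) * (w⁻¹ * a⁻¹)) := by group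
        _ = w * ((q * a * q⁻¹) * (a⁻¹ * w⁻¹)) := by rw [haw.inv_inv.eq]
        _ = w * (q * a * q⁻¹ * a⁻¹) * w⁻¹ := by group
        _ = q * a * q⁻¹ * a⁻¹ := by
            rw [((CfsgLib.Fischer2.mem_centerImage_iff Q w).1 hwZ).2 (q * a * q⁻¹ * a⁻¹) ?_]
            · group
            · have h1 := hDQ (Subgroup.commutator_mem_commutator hq ha)
              rwa [commutatorElement_def] at h1
    exact ((Subgroup.mem_centralizer_singleton_iff.1 (hDle hy))).symm
  have hcenX : ∀ X Y : Subgroup G, X ≤ Q → X ⊔ Y = Q → (∀ x ∈ X, ∀ y ∈ Y, x * y = y * x) →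
      ∀ v ∈ X, (∀ x ∈ X, v * x = x * v) → v ∈ Z := by
    intro X Y hXQ hXY hc v hv hvX
    refine (CfsgLib.Fischer2.mem_centerImage_iff Q v).2 ⟨hXQ hv, fun y hy => ?_⟩
    rw [← hXY, Subgroup.sup_eq_closure] at hy
    induction hy using Subgroup.closure_induction with
    | mem y hy =>
      rcases hy with hy | hy
      · exact hvX y hy
      · exact hc v hv y hy
    | one => simp
    | mul a b _ _ ha hb => rw [← mul_assoc, ha, mul_assoc, hb, ← mul_assoc]
    | inv a _ ha =>
      exact ((show Commute v a from ha).inv_right).eq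
  have hzC : z ∈ C := ⟨hzQ, Subgroup.mem_centralizer_iff.2 fun a ha => hAz a ha⟩
  have hZC : Z ≤ C := by
    intro x hx; rcases hmem x hx with rfl | rfl
    · exact C.one_mem
    · exact hzC
  -- a non-abelian X in such a decomposition is extraspecial
  have hext : ∀ X Y : Subgroup G, X ≤ Q → X ⊔ Y = Q → (∀ x ∈ X, ∀ y ∈ Y, x * y = y * x) →
      (¬ ∀ a ∈ X, ∀ b ∈ X, a * b = b * a) → Cfsg.IsExtraspecial 2 ↥X := by
    intro X Y hXQ hXY hc hna
    push Not at hna
    obtain ⟨a, ha, b, hb, hab⟩ := hna
    have hzX : z ∈ X := by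
      rcases hmem _ (CfsgLib.Fischer2.IsExtraspecial.commutator_mem hE (hXQ ha) (hXQ hb)) with h | h
      · exact absurd (mul_inv_eq_iff_eq_mul.1 (mul_inv_eq_one.1 h)) hab
      · exact h ▸ X.mul_mem (X.mul_mem (X.mul_mem ha hb) (X.inv_mem ha)) (X.inv_mem hb)
    have hcenter : ∀ v : X, v ∈ Subgroup.center X ↔ (v : G) ∈ Z := by
      intro v
      constructor
      · intro hv
        exact hcenX X Y hXQ hXY hc v v.2 fun x hx =>
          (congrArg Subtype.val (Subgroup.mem_center_iff.1 hv ⟨x, hx⟩)).symm
      · intro hv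
        rw [Subgroup.mem_center_iff]
        intro x
        exact Subtype.ext (((CfsgLib.Fischer2.mem_centerImage_iff Q _).1 hv).2 x (hXQ x.2)).symm
    have hX2 : IsPGroup 2 X := hE.1.1.to_le hXQ
    have hcX : Nat.card (Subgroup.center X) = 2 := by
      rw [← hcard]
      apply Nat.card_eq_of_bijective (fun v : Subgroup.center X => (⟨((v : X) : G), (hcenter v.1).1 v.2⟩ : Z))
      constructor
      · intro v w h; exact Subtype.ext (Subtype.ext (congrArg (fun u : Z => (u : G)) h))
      · rintro ⟨w, hw⟩
        have hwX : w ∈ X := by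
          rcases hmem w hw with rfl | rfl
          · exact X.one_mem
          · exact hzX
        exact ⟨⟨⟨w, hwX⟩, (hcenter ⟨w, hwX⟩).2 hw⟩, rfl⟩
    have hderZ : commutator ↥X ≤ Subgroup.center X := by
      rw [commutator_def, Subgroup.commutator_le]
      intro u _ v _
      rw [hcenter, commutatorElement_def]
      exact CfsgLib.Fischer2.IsExtraspecial.commutator_mem hE (hXQ u.2) (hXQ v.2)
    have hXnil := hX2.isNilpotent
    -- squares in the centre, so the Frattini subgroup is the derived subgroup
    refine ⟨⟨hX2, le_antisymm ?_ ?_, le_antisymm hderZ ?_⟩, hcX⟩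
    · -- frattini ≤ centre
      by_contra hnle
      obtain ⟨v, hv, hvc⟩ := SetLike.not_le_iff_exists.1 hnle
      -- a maximal subgroup missing v: the centraliser of a suitable element
      have hvZ : (v : G) ∉ Z := fun h => hvc ((hcenter v).2 h)
      obtain ⟨q, hq⟩ : ∃ q : X, q * v * q⁻¹ ≠ v := by
        by_contra hno
        push Not at hno
        apply hvc
        rw [Subgroup.mem_center_iff]
        exact fun g => mul_inv_eq_iff_eq_mul.1 (hno g)
      have hker : IsCoatom (Subgroup.centralizer ({q} : Set X)) := by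
        refine ⟨fun h => hq ?_, fun K hK => ?_⟩
        · have : v ∈ Subgroup.centralizer ({q} : Set X) := h ▸ Subgroup.mem_top v
          rw [← Subgroup.mem_centralizer_singleton_iff.1 this]; group
        · obtain ⟨w, hwK, hw⟩ := SetLike.exists_of_lt hK
          rw [eq_top_iff]
          intro y _
          -- y or w⁻¹ * y centralises q
          have hval : ∀ u : X, u ∉ Subgroup.centralizer ({q} : Set X) →
              ((u : G) * q * (u : G)⁻¹ * (q : G)⁻¹ = z) := by
            intro u hu
            rcases hmem _ (CfsgLib.Fischer2.IsExtraspecial.commutator_mem hE (hXQ u.2) (hXQ q.2)) with h | h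
            · exact absurd (Subgroup.mem_centralizer_singleton_iff.2 (Subtype.ext
                (show (u : G) * q = q * u from mul_inv_eq_iff_eq_mul.1 (mul_inv_eq_one.1 h)))) hu
            · exact h
          by_cases hy : y ∈ Subgroup.centralizer ({q} : Set X)
          · exact hK.le hy
          · have h1 := hval y hy
            have h2 := hval w hw
            have : w⁻¹ * y ∈ Subgroup.centralizer ({q} : Set X) := by
              rw [Subgroup.mem_centralizer_singleton_iff]
              apply Subtype.ext
              show (w : G)⁻¹ * y * q = q * ((w : G)⁻¹ * y)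
              calc (w : G)⁻¹ * y * q = (w : G)⁻¹ * ((y : G) * q * (y : G)⁻¹ * (q : G)⁻¹) * q * y := by group
                _ = (w : G)⁻¹ * ((w : G) * q * (w : G)⁻¹ * (q : G)⁻¹) * q * y := by rw [h1, h2]
                _ = _ := by group
            have := K.mul_mem hwK (hK.le this)
            simpa using this
      have := Subgroup.mem_centralizer_singleton_iff.1 (frattini_le_coatom hker hv)
      exact hq (mul_inv_eq_iff_eq_mul.2 this.symm)
    · -- centre ≤ frattini, via a commutator
      intro v hv
      have hder : commutator ↥X ≤ frattini ↥X := by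
        rw [frattini, Order.radical]
        simp only [le_iInf_iff]
        intro K hK
        have hKn := Subgroup.NormalizerCondition.normal_of_coatom K Group.normalizerCondition_of_isNilpotent hK
        obtain ⟨k, hk⟩ := hX2.index K
        rw [commutator_def, Subgroup.commutator_le]
        intro r _ s _
        rw [commutatorElement_def]
        have hsimple : ∀ P : Subgroup (↥X ⧸ K), P = ⊥ ∨ P = ⊤ := by
          intro P
          have hKP : K ≤ P.comap (QuotientGroup.mk' K) := by
            intro y hy
            simp only [Subgroup.mem_comap, QuotientGroup.mk'_apply, (QuotientGroup.eq_one_iff y).2 hy]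
            exact one_mem _
          rcases hK.le_iff.1 hKP with h | h
          · right
            rw [← Subgroup.map_comap_eq_self_of_surjective (QuotientGroup.mk'_surjective K) P, h,
              Subgroup.map_top_of_surjective _ (QuotientGroup.mk'_surjective K)]
          · left
            rw [← Subgroup.map_comap_eq_self_of_surjective (QuotientGroup.mk'_surjective K) P, h,
              QuotientGroup.map_mk'_self]
        apply (QuotientGroup.eq_one_iff _).1
        simp only [QuotientGroup.mk_mul, QuotientGroup.mk_inv]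
        rcases hsimple (Subgroup.zpowers (r : ↥X ⧸ K)) with h | h
        · rw [show (r : ↥X ⧸ K) = 1 from Subgroup.zpowers_eq_bot.1 h]; group
        · obtain ⟨n, hn⟩ := (h ▸ Subgroup.mem_top (s : ↥X ⧸ K) : (s : ↥X ⧸ K) ∈ Subgroup.zpowers (r : ↥X ⧸ K))
          rw [← hn]; group
      apply hder
      have hvz : (v : G) = 1 ∨ (v : G) = z := hmem _ ((hcenter v).1 hv)
      rcases hvz with h | h
      · rw [show v = 1 from Subtype.ext h]; exact one_mem _
      · have hm : (⟨a, ha⟩ : X) * ⟨b, hb⟩ * (⟨a, ha⟩ : X)⁻¹ * (⟨b, hb⟩ : X)⁻¹ ∈ commutator ↥X := by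
          have := Subgroup.commutator_mem_commutator (H₁ := (⊤ : Subgroup X)) (H₂ := ⊤)
            (Subgroup.mem_top (⟨a, ha⟩ : X)) (Subgroup.mem_top (⟨b, hb⟩ : X))
          rwa [commutatorElement_def, ← commutator_def] at this
        convert hm using 1
        apply Subtype.ext
        rw [h]
        rcases hmem _ (CfsgLib.Fischer2.IsExtraspecial.commutator_mem hE (hXQ ha) (hXQ hb)) with h' | h'
        · exact absurd (mul_inv_eq_iff_eq_mul.1 (mul_inv_eq_one.1 h')) hab
        · simpa using h'.symm
    · intro v hv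
      have hm : (⟨a, ha⟩ : X) * ⟨b, hb⟩ * (⟨a, ha⟩ : X)⁻¹ * (⟨b, hb⟩ : X)⁻¹ ∈ commutator ↥X := by
        have := Subgroup.commutator_mem_commutator (H₁ := (⊤ : Subgroup X)) (H₂ := ⊤)
          (Subgroup.mem_top (⟨a, ha⟩ : X)) (Subgroup.mem_top (⟨b, hb⟩ : X))
        rwa [commutatorElement_def, ← commutator_def] at this
      rcases hmem _ ((hcenter v).1 hv) with h | h
      · rw [show v = 1 from Subtype.ext h]; exact one_mem _
      · convert hm using 1
        apply Subtype.ext
        rw [h]
        rcases hmem _ (CfsgLib.Fischer2.IsExtraspecial.commutator_mem hE (hXQ ha) (hXQ hb)) with h' | h'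
        · exact absurd (mul_inv_eq_iff_eq_mul.1 (mul_inv_eq_one.1 h')) hab
        · simpa using h'.symm
  refine ⟨by rw [sup_comm]; exact hsup, hCD, hext D C hDQ hsup (fun x hx y hy => (hCD y hy x hx).symm) ?_, ?_⟩
  · intro hab
    apply hA1
    have hDZ : D ≤ Z := fun v hv =>
      hcenX D C hDQ hsup (fun x hx y hy => (hCD y hy x hx).symm) v hv fun x hx => hab v hv x hx
    have hCQ : C = Q := le_antisymm inf_le_left (hsup ▸ sup_le (hDZ.trans hZC) le_rfl)
    have hAQ : A ≤ Z := by
      rw [← hC]
      intro a ha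
      rw [Subgroup.mem_centralizer_iff]
      intro q hq
      have hq' : q ∈ C := hCQ.symm ▸ hq
      exact (Subgroup.mem_centralizer_iff.1 hq'.2 a ha).symm
    have h2 := Subgroup.card_dvd_of_le hAQ
    rw [hcard, Nat.dvd_prime Nat.prime_two] at h2
    rcases h2 with h2 | h2
    · exact Subgroup.card_eq_one.1 h2
    · rw [h2] at hAodd; exact absurd hAodd (by decide)
  · by_cases hab : ∀ a ∈ C, ∀ b ∈ C, a * b = b * a
    · left
      exact le_antisymm (fun v hv => hcenX C D inf_le_left (by rw [sup_comm]; exact hsup) hCD v hv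
        fun x hx => hab v hv x hx) hZC
    · exact Or.inr (hext C D inf_le_left (by rw [sup_comm]; exact hsup) hCD hab)

end Cfsg.Agent.S5434
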