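import Cfsg.Statements.S5435
import Cfsg.Agent.Lib.TwoFusion.TransferMod
import Cfsg.Agent.Lib.TwoGroups.Basic
import Cfsg.Agent.Lib.PGroups.Frattini

set_option autoImplicit false
open Cfsg
open scoped commutatorElement

namespace Cfsg.Agent.S5435

variable {L : Type*} [Group L] [Finite L] [IsSimpleGroup L]

/-- A simple group has no non-trivial controlled character of a Sylow 2-subgroup. -/
theorem no_controlled (hL : ¬ IsMulCommutative L) (R : Sylow 2 L) {A : Type*} [CommGroup A]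
    (φ : ↥(R : Subgroup L) →* A) {g : L} (hg : g ∈ (R : Subgroup L)) (hne : φ ⟨g, hg⟩ ≠ 1)
    (key : ∀ (m : ℕ) (a : L) (h : a * g ^ m * a⁻¹ ∈ (R : Subgroup L)),
      φ ⟨a * g ^ m * a⁻¹, h⟩ = φ ⟨g, hg⟩ ^ m) : False := by
  have : Fact (Nat.Prime 2) := ⟨Nat.prime_two⟩
  have hidx : Nat.Coprime 2 (R : Subgroup L).index :=
    (Nat.Prime.coprime_iff_not_dvd Nat.prime_two).2 R.not_dvd_index
  have hord : ∃ k : ℕ, orderOf g = 2 ^ k := by
    obtain ⟨k, hk⟩ := (IsPGroup.iff_orderOf.1 R.2) ⟨g, hg⟩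
    exact ⟨k, by rw [← Subgroup.orderOf_mk g hg]; exact hk⟩
  have h1 := CfsgLib.TwoFusion.transfer_ne_one_of_controlled Nat.prime_two hidx φ g hg hord hne key
  rcases IsSimpleGroup.eq_bot_or_eq_top_of_normal φ.transfer.ker inferInstance with h | h
  · exact hL ⟨⟨fun a b => (MonoidHom.ker_eq_bot_iff _).1 h (by rw [map_mul, map_mul, mul_comm])⟩⟩
  · exact h1 (MonoidHom.mem_ker.1 (h ▸ Subgroup.mem_top g))

variable {z : L} {R : Sylow 2 L}

/-- The hypotheses. -/
structure Setup (z : L) (R : Sylow 2 L) : Prop where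
  ne : z ≠ 1
  sq : z * z = 1
  eq : (R : Subgroup L) = Subgroup.centralizer ({z} : Set L)
  mem : z ∈ (R : Subgroup L)
  comm : ∀ a ∈ (R : Subgroup L), ∀ b ∈ (R : Subgroup L), a * b * a⁻¹ * b⁻¹ = 1 ∨ a * b * a⁻¹ * b⁻¹ = z
  square : ∀ a ∈ (R : Subgroup L), a * a = 1 ∨ a * a = z
  nonelem : ¬ ((∀ a ∈ (R : Subgroup L), a * a = 1) ∧
    ∀ a ∈ (R : Subgroup L), ∀ b ∈ (R : Subgroup L), a * b * a⁻¹ * b⁻¹ = 1)

omit [IsSimpleGroup L] in
theorem setup (hz : orderOf z = 2) (hR : (R : Subgroup L) = Subgroup.centralizer ({z} : Set L))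
    (hΦ : (frattini ↥(R : Subgroup L)).map (R : Subgroup L).subtype = Subgroup.zpowers z) : Setup z R := by
  have hsq : z * z = 1 := by rw [← pow_two, ← hz, pow_orderOf_eq_one]
  have hne : z ≠ 1 := fun e => by rw [e, orderOf_one] at hz; omega
  have : Fact (Nat.Prime 2) := ⟨Nat.prime_two⟩
  have hmem : ∀ a : ↥(R : Subgroup L), a ∈ frattini ↥(R : Subgroup L) → (a : L) = 1 ∨ (a : L) = z := by
    intro a ha
    have h1 : (a : L) ∈ Subgroup.zpowers z := hΦ ▸ ⟨a, ha, rfl⟩
    obtain ⟨n, e⟩ := Subgroup.mem_zpowers_iff.1 h1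
    rw [← zpow_mod_orderOf, hz] at e
    rcases Int.emod_two_eq_zero_or_one n with h2 | h2 <;> simp only [Nat.cast_ofNat, h2] at e
    · left; rw [← e, zpow_zero]
    · right; rw [← e, zpow_one]
  exact ⟨hne, hsq, hR, hR ▸ Subgroup.mem_centralizer_singleton_iff.2 rfl,
    fun a ha b hb => hmem (⁅(⟨a, ha⟩ : ↥(R : Subgroup L)), ⟨b, hb⟩⁆)
      (CfsgLib.PGroups.commutatorElement_mem_frattini R.2 _ _),
    fun a ha => by
      have := hmem (⟨a, ha⟩ ^ 2) (CfsgLib.PGroups.pow_mem_frattini R.2 _)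
      rwa [SubmonoidClass.coe_pow, pow_two] at this,
    fun hel => by
      have hbot : frattini ↥(R : Subgroup L) ≤ ⊥ := CfsgLib.PGroups.frattini_le_of (p := 2)
        (by rw [commutator_def, Subgroup.commutator_le]
            intro a _ b _
            rw [Subgroup.mem_bot]
            exact Subtype.ext (hel.2 a a.2 b b.2))
        (fun a => Subgroup.mem_bot.2 (Subtype.ext (by
          rw [SubmonoidClass.coe_pow, pow_two]; exact hel.1 a a.2)))
      have h1 : z ∈ (frattini ↥(R : Subgroup L)).map (R : Subgroup L).subtype := hΦ ▸ Subgroup.mem_zpowers z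
      rw [le_bot_iff.1 hbot, Subgroup.map_bot, Subgroup.mem_bot] at h1
      exact hne h1⟩

/-- Central in `R`. -/
def Central (R : Sylow 2 L) (v : L) : Prop :=
  v ∈ (R : Subgroup L) ∧ ∀ r ∈ (R : Subgroup L), r * v = v * r

/-- Conjugates of `z` in `R`. -/
def InClass (z : L) (R : Sylow 2 L) (u : L) : Prop := u ∈ (R : Subgroup L) ∧ IsConj z u

omit [IsSimpleGroup L] in
theorem Setup.comm_z (S : Setup z R) {r : L} (hr : r ∈ (R : Subgroup L)) : r * z = z * r :=
  Subgroup.mem_centralizer_singleton_iff.1 (S.eq ▸ hr)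

omit [IsSimpleGroup L] in
theorem Setup.mem_of_comm (S : Setup z R) {r : L} (hr : r * z = z * r) : r ∈ (R : Subgroup L) :=
  S.eq ▸ Subgroup.mem_centralizer_singleton_iff.2 hr

omit [IsSimpleGroup L] in
theorem Setup.central_z (S : Setup z R) : Central R z := ⟨S.mem, fun _ hr => S.comm_z hr⟩

omit [IsSimpleGroup L] in
/-- A 2-subgroup containing `R` is `R`. -/
theorem le_R {R : Sylow 2 L} {P : Subgroup L} (hP : IsPGroup 2 P) (h : (R : Subgroup L) ≤ P) :
    P ≤ (R : Subgroup L) := le_of_eq (R.3 hP h)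

omit [IsSimpleGroup L] in
/-- A 2-group centralising a conjugate of a central element lies in a conjugate of `R` over it. -/
theorem exists_conjugator {v a : L} (hv : ∀ r ∈ (R : Subgroup L), r * v = v * r) {T : Subgroup L}
    (hT : IsPGroup 2 T) (hTw : ∀ t ∈ T, t * (a * v * a⁻¹) = a * v * a⁻¹ * t) :
    ∃ b : L, b * v * b⁻¹ = a * v * a⁻¹ ∧ ∀ t ∈ T, b⁻¹ * t * b ∈ (R : Subgroup L) := by
  have : Fact (Nat.Prime 2) := ⟨Nat.prime_two⟩
  set Cw := Subgroup.centralizer ({a * v * a⁻¹} : Set L) with hCw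
  have hTC : T ≤ Cw := fun t ht => Subgroup.mem_centralizer_singleton_iff.2 (hTw t ht)
  have hR2 : ((MulAut.conj a • R : Sylow 2 L) : Subgroup L) ≤ Cw := by
    rintro _ ⟨r₀, hr₀, rfl⟩
    refine Subgroup.mem_centralizer_singleton_iff.2 ?_
    show a * r₀ * a⁻¹ * (a * v * a⁻¹) = a * v * a⁻¹ * (a * r₀ * a⁻¹)
    calc a * r₀ * a⁻¹ * (a * v * a⁻¹) = a * (r₀ * v) * a⁻¹ := by group
      _ = a * (v * r₀) * a⁻¹ := by rw [hv r₀ hr₀]
      _ = _ := by group
  obtain ⟨P, hP⟩ := (hT.of_equiv (Subgroup.subgroupOfEquivOfLe hTC).symm).exists_le_sylow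
  obtain ⟨c, rfl⟩ := MulAction.exists_smul_eq ↥Cw ((MulAut.conj a • R : Sylow 2 L).subtype hR2) P
  refine ⟨(c : L) * a, ?_, fun t ht => ?_⟩
  · have hcw : (c : L) * (a * v * a⁻¹) = a * v * a⁻¹ * (c : L) := Subgroup.mem_centralizer_singleton_iff.1 c.2
    calc (c : L) * a * v * ((c : L) * a)⁻¹ = (c : L) * (a * v * a⁻¹) * (c : L)⁻¹ := by group
      _ = _ := by rw [hcw, mul_inv_cancel_right]
  · obtain ⟨y, hy, e⟩ := hP (show (⟨t, hTC ht⟩ : ↥Cw) ∈ T.subgroupOf Cw from ht)
    obtain ⟨r₀, hr₀, hre⟩ := (show (y : L) ∈ ((MulAut.conj a • R : Sylow 2 L) : Subgroup L) from hy)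
    have e2 : (c : L) * y * (c : L)⁻¹ = t := congrArg Subtype.val e
    have e3 : a * r₀ * a⁻¹ = (y : L) := hre
    rw [show ((c : L) * a)⁻¹ * t * ((c : L) * a) = r₀ by rw [← e2, ← e3]; group]
    exact hr₀

omit [IsSimpleGroup L] in
/-- Burnside: central elements of `R` conjugate in `L` are equal. -/
theorem Setup.central_eq (S : Setup z R) {v : L} (hv : Central R v) {a : L} (h : Central R (a * v * a⁻¹)) :
    a * v * a⁻¹ = v := by
  obtain ⟨b, hb, hbR⟩ := exists_conjugator hv.2 (T := (R : Subgroup L)) R.2 (a := a) (fun r hr => h.2 r hr)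
  set d := b⁻¹ with hd
  have hnorm : ∀ r ∈ (R : Subgroup L), d * r * d⁻¹ ∈ (R : Subgroup L) := fun r hr => by
    rw [hd, inv_inv]; exact hbR r hr
  have hdz : d * z * d⁻¹ = z := by
    by_cases hab : ∀ x ∈ (R : Subgroup L), ∀ y ∈ (R : Subgroup L), x * y * x⁻¹ * y⁻¹ = 1
    · by_cases hs : ∀ x ∈ (R : Subgroup L), x * x = 1
      · exact absurd ⟨hs, hab⟩ S.nonelem
      · push Not at hs
        obtain ⟨x, hx, hxx⟩ := hs
        have e := (S.square x hx).resolve_left hxx
        have e' := S.square _ (hnorm x hx)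
        rw [show d * x * d⁻¹ * (d * x * d⁻¹) = d * (x * x) * d⁻¹ by group, e] at e'
        exact e'.resolve_left fun h => S.ne (conj_eq_one_iff.1 h)
    · push Not at hab
      obtain ⟨x, hx, y, hy, hxy⟩ := hab
      have e := (S.comm x hx y hy).resolve_left hxy
      have e' := S.comm _ (hnorm x hx) _ (hnorm y hy)
      rw [show d * x * d⁻¹ * (d * y * d⁻¹) * (d * x * d⁻¹)⁻¹ * (d * y * d⁻¹)⁻¹ =
        d * (x * y * x⁻¹ * y⁻¹) * d⁻¹ by group, e] at e'
      exact e'.resolve_left fun h => S.ne (conj_eq_one_iff.1 h)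
  have hbmem : b ∈ (R : Subgroup L) := by
    have := inv_mem (S.mem_of_comm (mul_inv_eq_iff_eq_mul.1 hdz))
    rwa [hd, inv_inv] at this
  rw [← hb, hv.2 b hbmem, mul_inv_cancel_right]

omit [IsSimpleGroup L] in
theorem Setup.noncentral (S : Setup z R) {u : L} (hu : InClass z R u) (hne : u ≠ z) : ¬ Central R u := by
  intro hc
  obtain ⟨a, ha⟩ := isConj_iff.1 hu.2
  exact hne (ha ▸ S.central_eq S.central_z (ha.symm ▸ hc))

omit [Finite L] [IsSimpleGroup L] in
theorem Setup.conj_cases (S : Setup z R) {r v : L} (hr : r ∈ (R : Subgroup L)) (hv : v ∈ (R : Subgroup L)) :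
    r * v * r⁻¹ = v ∨ r * v * r⁻¹ = z * v := by
  rcases S.comm r hr v hv with e | e
  · exact Or.inl (mul_inv_eq_one.1 e)
  · exact Or.inr (mul_inv_eq_iff_eq_mul.1 e)

omit [IsSimpleGroup L] in
theorem Setup.exists_mover (S : Setup z R) {u : L} (hu : InClass z R u) (hne : u ≠ z) :
    ∃ x ∈ (R : Subgroup L), x * u * x⁻¹ = z * u := by
  by_contra hall
  push Not at hall
  exact S.noncentral hu hne ⟨hu.1, fun r hr =>
    mul_inv_eq_iff_eq_mul.1 ((S.conj_cases hr hu.1).resolve_right (hall r hr))⟩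

omit [IsSimpleGroup L] in
theorem Setup.elementary (S : Setup z R) {u : L} (hu : InClass z R u) (hne : u ≠ z) :
    (∀ m ∈ (R : Subgroup L), m * u = u * m → m * m = 1) ∧
    ∀ m ∈ (R : Subgroup L), m * u = u * m → ∀ n ∈ (R : Subgroup L), n * u = u * n → m * n = n * m := by
  obtain ⟨a, rfl⟩ := isConj_iff.1 hu.2
  have hpull : ∀ m : L, m * (a * z * a⁻¹) = a * z * a⁻¹ * m → a⁻¹ * m * a ∈ (R : Subgroup L) := fun m hm =>
    S.mem_of_comm (by
      calc a⁻¹ * m * a * z = a⁻¹ * (m * (a * z * a⁻¹)) * a := by group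
        _ = a⁻¹ * (a * z * a⁻¹ * m) * a := by rw [hm]
        _ = _ := by group)
  constructor
  · intro m hm hmu
    rcases S.square m hm with e | e
    · exact e
    · exfalso
      rcases S.square _ (hpull m hmu) with e' | e' <;>
        rw [show a⁻¹ * m * a * (a⁻¹ * m * a) = a⁻¹ * (m * m) * a by group, e] at e'
      · exact S.ne (by
          calc z = a * (a⁻¹ * z * a) * a⁻¹ := by group
            _ = 1 := by rw [e']; group)
      · apply hne
        conv_lhs => rw [← e']
        group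
  · intro m hm hmu n hn hnu
    rcases S.comm m hm n hn with e | e
    · exact mul_inv_eq_iff_eq_mul.1 (mul_inv_eq_one.1 e)
    · exfalso
      rcases S.comm _ (hpull m hmu) _ (hpull n hnu) with e' | e' <;>
        rw [show a⁻¹ * m * a * (a⁻¹ * n * a) * (a⁻¹ * m * a)⁻¹ * (a⁻¹ * n * a)⁻¹ =
          a⁻¹ * (m * n * m⁻¹ * n⁻¹) * a by group, e] at e'
      · exact S.ne (by
          calc z = a * (a⁻¹ * z * a) * a⁻¹ := by group
            _ = 1 := by rw [e']; group)
      · apply hne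
        conv_lhs => rw [← e']
        group

omit [IsSimpleGroup L] in
/-- The product of two moved elements of an abelian maximal subgroup is central. -/
theorem Setup.central_mul (S : Setup z R) {u v x : L} (hu : InClass z R u) (hne : u ≠ z)
    (hx : x ∈ (R : Subgroup L)) (hxu : x * u * x⁻¹ = z * u) (hv : v ∈ (R : Subgroup L)) (hvu : v * u = u * v)
    (hxv : x * v * x⁻¹ = z * v) : Central R (v * u) := by
  refine ⟨mul_mem hv hu.1, ?_⟩
  have hM : ∀ m ∈ (R : Subgroup L), m * u = u * m → m * (v * u) = v * u * m := by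
    intro m hm hmu
    rw [← mul_assoc, (S.elementary hu hne).2 m hm hmu v hv hvu, mul_assoc, hmu, ← mul_assoc]
  have hzv : z * v = v * z := (S.comm_z hv).symm
  have hxx : x * (v * u) * x⁻¹ = v * u := by
    calc x * (v * u) * x⁻¹ = (x * v * x⁻¹) * (x * u * x⁻¹) := by group
      _ = z * v * (z * u) := by rw [hxv, hxu]
      _ = v * (z * z) * u := by rw [hzv]; group
      _ = v * u := by rw [S.sq, mul_one]
  intro r hr
  rcases S.conj_cases hr hu.1 with e | e
  · exact hM r hr (mul_inv_eq_iff_eq_mul.1 e)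
  · have hm : x⁻¹ * r * u = u * (x⁻¹ * r) := by
      calc x⁻¹ * r * u = x⁻¹ * (r * u * r⁻¹) * r := by group
        _ = x⁻¹ * (x * u * x⁻¹) * r := by rw [e, hxu]
        _ = _ := by group
    calc r * (v * u) = x * ((x⁻¹ * r) * (v * u)) := by group
      _ = x * ((v * u) * (x⁻¹ * r)) := by rw [hM _ (mul_mem (inv_mem hx) hr) hm]
      _ = (x * (v * u) * x⁻¹) * r := by group
      _ = v * u * r := by rw [hxx]

omit [IsSimpleGroup L] in
/-- The conjugates of `z` commuting with a conjugate `u`. -/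
theorem Setup.class_comm (S : Setup z R) {u v : L} (hu : InClass z R u) (hne : u ≠ z)
    (hv : InClass z R v) (hvne : v ≠ z) (hvu : v * u = u * v) : v = u ∨ v = z * u := by
  by_contra hcon
  push Not at hcon
  obtain ⟨x, hx, hxu⟩ := S.exists_mover hu hne
  have hxv : x * v * x⁻¹ = z * v := by
    rcases S.conj_cases hx hv.1 with e | e
    · exfalso
      refine S.noncentral hv hvne ⟨hv.1, fun r hr => ?_⟩
      rcases S.conj_cases hr hu.1 with e' | e'
      · exact (S.elementary hu hne).2 r hr (mul_inv_eq_iff_eq_mul.1 e') v hv.1 hvu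
      · have hm : x⁻¹ * r * u = u * (x⁻¹ * r) := by
          calc x⁻¹ * r * u = x⁻¹ * (r * u * r⁻¹) * r := by group
            _ = x⁻¹ * (x * u * x⁻¹) * r := by rw [e', hxu]
            _ = _ := by group
        calc r * v = x * ((x⁻¹ * r) * v) := by group
          _ = x * (v * (x⁻¹ * r)) := by rw [(S.elementary hu hne).2 _ (mul_mem (inv_mem hx) hr) hm v hv.1 hvu]
          _ = (x * v * x⁻¹) * r := by group
          _ = v * r := by rw [e]
    · exact e
  have hc := S.central_mul hu hne hx hxu hv.1 hvu hxv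
  obtain ⟨a, ha⟩ := isConj_iff.1 hu.2
  obtain ⟨b, hb⟩ := isConj_iff.1 hv.2
  have hv0R : a⁻¹ * v * a ∈ (R : Subgroup L) := S.mem_of_comm (by
    calc a⁻¹ * v * a * z = a⁻¹ * (v * (a * z * a⁻¹)) * a := by group
      _ = a⁻¹ * ((a * z * a⁻¹) * v) * a := by rw [ha, hvu]
      _ = _ := by group)
  have hv0c : InClass z R (a⁻¹ * v * a) := ⟨hv0R, hv.2.trans (isConj_iff.2 ⟨a⁻¹, by group⟩)⟩
  have hv0ne : a⁻¹ * v * a ≠ z := fun e => hcon.1 (by rw [← ha, ← e]; group)
  obtain ⟨y, -, hyv⟩ := S.exists_mover hv0c hv0ne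
  have hconj : IsConj z (v * u) := by
    refine hv.2.trans (isConj_iff.2 ⟨a * y * a⁻¹, ?_⟩)
    calc a * y * a⁻¹ * v * (a * y * a⁻¹)⁻¹ = a * (y * (a⁻¹ * v * a) * y⁻¹) * a⁻¹ := by group
      _ = (a * z * a⁻¹) * v := by rw [hyv]; group
      _ = v * u := by rw [ha, hvu]
  have heq : v * u = z := by
    by_contra hne'
    exact S.noncentral ⟨hc.1, hconj⟩ hne' hc
  apply hcon.2
  rw [← heq, mul_assoc, (S.elementary hu hne).1 u hu.1 rfl, mul_one]

omit [IsSimpleGroup L] in
/-- A weakly closed `z` controls fusion. -/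
theorem Setup.controlled (S : Setup z R) (hw : ∀ u, InClass z R u → u = z) {g a : L}
    (hg : g ∈ (R : Subgroup L)) (h : a * g * a⁻¹ ∈ (R : Subgroup L)) :
    ∃ r ∈ (R : Subgroup L), r * g * r⁻¹ = a * g * a⁻¹ := by
  have : Fact (Nat.Prime 2) := ⟨Nat.prime_two⟩
  set y := a * g * a⁻¹ with hy
  set Cy := Subgroup.centralizer ({y} : Set L) with hCy
  have habs : ∀ T : Subgroup L, IsPGroup 2 T → z ∈ T → T ≤ (R : Subgroup L) := by
    intro T hT hzT
    obtain ⟨P, hP⟩ := hT.exists_le_sylow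
    obtain ⟨c, rfl⟩ := MulAction.exists_smul_eq L R P
    obtain ⟨r₀, hr₀, hre⟩ := (show z ∈ ((c • R : Sylow 2 L) : Subgroup L) from hP hzT)
    change c * r₀ * c⁻¹ = z at hre
    have h1 : r₀ = z := hw r₀ ⟨hr₀, isConj_iff.2 ⟨c⁻¹, by rw [← hre]; group⟩⟩
    rw [h1] at hre
    have hc : c ∈ (R : Subgroup L) := S.mem_of_comm (mul_inv_eq_iff_eq_mul.1 hre)
    intro t ht
    obtain ⟨r, hr, rfl⟩ := (show t ∈ ((c • R : Sylow 2 L) : Subgroup L) from hP ht)
    exact mul_mem (mul_mem hc hr) (inv_mem hc)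
  have hzy : z ∈ Cy := Subgroup.mem_centralizer_singleton_iff.2 (S.comm_z h).symm
  have hzay : a * z * a⁻¹ ∈ Cy := Subgroup.mem_centralizer_singleton_iff.2 (by
    calc a * z * a⁻¹ * y = a * (z * g) * a⁻¹ := by rw [hy]; group
      _ = a * (g * z) * a⁻¹ := by rw [S.comm_z hg]
      _ = _ := by rw [hy]; group)
  have hinv : ∀ w : L, w * w = 1 → IsPGroup 2 (Subgroup.zpowers w) := by
    intro w hw2
    rintro ⟨_, n, rfl⟩
    refine ⟨1, Subtype.ext ?_⟩
    show (w ^ n) ^ (2 ^ 1) = 1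
    rw [pow_one, ← zpow_natCast, ← zpow_mul, mul_comm, zpow_mul, zpow_natCast, pow_two, hw2, one_zpow]
  obtain ⟨P, hP⟩ := ((hinv z S.sq).of_equiv
    (Subgroup.subgroupOfEquivOfLe (Subgroup.zpowers_le.2 hzy)).symm).exists_le_sylow
  obtain ⟨P', hP'⟩ := ((hinv (a * z * a⁻¹) (by
    rw [show a * z * a⁻¹ * (a * z * a⁻¹) = a * (z * z) * a⁻¹ by group, S.sq]; group)).of_equiv
    (Subgroup.subgroupOfEquivOfLe (Subgroup.zpowers_le.2 hzay)).symm).exists_le_sylow
  obtain ⟨c, rfl⟩ := MulAction.exists_smul_eq ↥Cy P' P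
  have hPR := habs _ ((c • P' : Sylow 2 ↥Cy).2.map Cy.subtype)
    ⟨⟨z, hzy⟩, hP (show z ∈ Subgroup.zpowers z from Subgroup.mem_zpowers z), rfl⟩
  have hmem : (c : L) * (a * z * a⁻¹) * (c : L)⁻¹ ∈ (R : Subgroup L) :=
    hPR ⟨c * ⟨a * z * a⁻¹, hzay⟩ * c⁻¹,
      ⟨⟨a * z * a⁻¹, hzay⟩, hP' (show a * z * a⁻¹ ∈ Subgroup.zpowers (a * z * a⁻¹) from
        Subgroup.mem_zpowers _), rfl⟩, rfl⟩
  have h1 := hw _ ⟨hmem, isConj_iff.2 ⟨(c : L) * a, by group⟩⟩
  have hca : (c : L) * a ∈ (R : Subgroup L) := S.mem_of_comm (mul_inv_eq_iff_eq_mul.1 (by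
    calc (c : L) * a * z * ((c : L) * a)⁻¹ = (c : L) * (a * z * a⁻¹) * (c : L)⁻¹ := by group
      _ = z := h1))
  refine ⟨_, hca, ?_⟩
  have hcy : (c : L) * y = y * (c : L) := Subgroup.mem_centralizer_singleton_iff.1 c.2
  calc (c : L) * a * g * ((c : L) * a)⁻¹ = (c : L) * y * (c : L)⁻¹ := by rw [hy]; group
    _ = y := by rw [hcy, mul_inv_cancel_right]

/-- `z` is not weakly closed. -/
theorem Setup.exists_class (hL : ¬ IsMulCommutative L) (S : Setup z R) : ∃ u, InClass z R u ∧ u ≠ z := by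
  by_contra hall
  push Not at hall
  set D := (Subgroup.zpowers z).subgroupOf (R : Subgroup L) with hD
  have hzD : ∀ c : ↥(R : Subgroup L), ((c : L) = 1 ∨ (c : L) = z) → c ∈ D := by
    rintro c (e | e)
    · rw [show c = 1 from Subtype.ext e]; exact one_mem _
    · exact Subgroup.mem_subgroupOf.2 (by rw [e]; exact Subgroup.mem_zpowers z)
  have hn : D.Normal := ⟨fun n hn r => by
    rw [show r * n * r⁻¹ = (r * n * r⁻¹ * n⁻¹) * n by group]
    exact mul_mem (hzD _ (S.comm r r.2 n n.2)) hn⟩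
  let A : CommGroup (↥(R : Subgroup L) ⧸ D) :=
    { (inferInstance : Group (↥(R : Subgroup L) ⧸ D)) with
      mul_comm := fun x y => by
        obtain ⟨x, rfl⟩ := QuotientGroup.mk_surjective x
        obtain ⟨y, rfl⟩ := QuotientGroup.mk_surjective y
        rw [← QuotientGroup.mk_mul, ← QuotientGroup.mk_mul, QuotientGroup.eq]
        rw [show (x * y)⁻¹ * (y * x) = y⁻¹ * x⁻¹ * (y⁻¹)⁻¹ * (x⁻¹)⁻¹ by group]
        exact hzD _ (S.comm _ (inv_mem y.2) _ (inv_mem x.2)) }
  obtain ⟨g, hg, hgz⟩ : ∃ g ∈ (R : Subgroup L), g ∉ Subgroup.zpowers z := by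
    by_contra h
    push Not at h
    refine S.nonelem ⟨fun r hr => ?_, fun r hr r' hr' => ?_⟩
    · obtain ⟨n, rfl⟩ := h r hr
      show z ^ n * z ^ n = 1
      rw [← (Commute.refl z).mul_zpow , S.sq, one_zpow]
    · obtain ⟨n, rfl⟩ := h r hr
      obtain ⟨m, rfl⟩ := h r' hr'
      show z ^ n * z ^ m * (z ^ n)⁻¹ * (z ^ m)⁻¹ = 1
      group
  refine no_controlled hL R (QuotientGroup.mk' D) hg
    (fun e => hgz (Subgroup.mem_subgroupOf.1 ((QuotientGroup.eq_one_iff _).1 e))) fun m a hma => ?_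
  obtain ⟨r, hr, e⟩ := S.controlled hall (g := g ^ m) (pow_mem hg m) hma
  rw [show (⟨a * g ^ m * a⁻¹, hma⟩ : ↥(R : Subgroup L)) = ⟨r, hr⟩ * ⟨g, hg⟩ ^ m * (⟨r, hr⟩ : ↥(R : Subgroup L))⁻¹ from
    Subtype.ext e.symm, map_mul, map_mul, map_inv, map_pow, mul_comm (QuotientGroup.mk' D ⟨r, hr⟩),
    mul_inv_cancel_right]

/-- A second class of conjugates, or a dummy. -/
theorem Setup.class_three (S : Setup z R) {u u₂ y : L} (hu : InClass z R u) (hne : u ≠ z)
    (hu₂ : InClass z R u₂) (hne₂ : u₂ ≠ z) (hnc : ¬ u₂ * u = u * u₂) (hy : InClass z R y) :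
    y * u = u * y ∨ y * u₂ = u₂ * y := by
  by_contra hcon
  push Not at hcon
  have hsq : ∀ {v : L}, InClass z R v → v ≠ z → v * v = 1 := fun hv hvne =>
    (S.elementary hv hvne).1 _ hv.1 rfl
  have hyne : y ≠ z := fun e => hcon.1 (e ▸ (S.comm_z hu.1).symm)
  have mv : ∀ {r v : L}, r ∈ (R : Subgroup L) → v ∈ (R : Subgroup L) → ¬ r * v = v * r → r * v = z * v * r :=
    fun {r v} hr hv hne' => mul_inv_eq_iff_eq_mul.1
      ((S.conj_cases hr hv).resolve_left fun e => hne' (mul_inv_eq_iff_eq_mul.1 e))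
  have hzc : ∀ {r : L}, r ∈ (R : Subgroup L) → ∀ t, r * (z * t) = z * (r * t) := fun hr t => by
    rw [← mul_assoc, S.comm_z hr, mul_assoc]
  have e1 := mv hu₂.1 hu.1 hnc
  have e2 := mv hy.1 hu.1 hcon.1
  set c := u * u₂ * y with hc
  have hcR : c ∈ (R : Subgroup L) := mul_mem (mul_mem hu.1 hu₂.1) hy.1
  have hcu : c * u = u * c := by
    calc c * u = u * (u₂ * (y * u)) := by rw [hc]; group
      _ = u * (u₂ * (z * (u * y))) := by rw [e2, mul_assoc z]
      _ = u * (z * (u₂ * u * y)) := by rw [hzc hu₂.1, mul_assoc u₂]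
      _ = u * ((z * z) * (u * u₂ * y)) := by rw [e1]; group
      _ = u * c := by rw [S.sq, one_mul]
  have hcy : c * y = y * c := by
    have f1 := mv hy.1 hu.1 hcon.1
    have f2 := mv hy.1 hu₂.1 hcon.2
    calc c * y = u * u₂ * y * y := by rw [hc]
      _ = (z * z) * (u * u₂ * y * y) := by rw [S.sq, one_mul]
      _ = z * (z * u) * (u₂ * y) * y := by group
      _ = z * (u * z) * (u₂ * y) * y := by rw [(S.comm_z hu.1)]
      _ = z * u * (z * u₂ * y) * y := by group
      _ = z * u * (y * u₂) * y := by rw [f2]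
      _ = (z * u * y) * (u₂ * y) := by group
      _ = (y * u) * (u₂ * y) := by rw [f1]
      _ = y * c := by rw [hc]; group
  have hyval : y = u₂ * u * c := by
    rw [hc]
    calc y = u₂ * u₂ * y := by rw [hsq hu₂ hne₂, one_mul]
      _ = u₂ * (u * u) * u₂ * y := by rw [hsq hu hne, mul_one]
      _ = _ := by group
  have h1 : y * c * (y * c) = 1 := by
    have hc2 := (S.elementary hy hyne).1 c hcR hcy
    calc y * c * (y * c) = y * (c * y) * c := by group
      _ = (y * y) * (c * c) := by rw [hcy]; group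
      _ = 1 := by rw [hsq hy hyne, hc2, one_mul]
  rw [hyval, show u₂ * u * c * c = u₂ * u * (c * c) by group, (S.elementary hu hne).1 c hcR hcu, mul_one] at h1
  apply S.ne
  calc z = z * (u * u₂) * (u * u₂)⁻¹ := by group
    _ = u₂ * u * (u * u₂)⁻¹ := by rw [e1]; group
    _ = 1 := by
      rw [show (u * u₂)⁻¹ = u₂ * u from inv_eq_of_mul_eq_one_right (by
        calc u * u₂ * (u₂ * u) = u * (u₂ * u₂) * u := by group
          _ = 1 := by rw [hsq hu₂ hne₂, mul_one, hsq hu hne])]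
      exact h1

/-- An element of the centre of `R` outside `⟨z⟩` gives a controlled character. -/
theorem Setup.center_small (hL : ¬ IsMulCommutative L) (S : Setup z R) {w : L} (hw : Central R w) :
    w = 1 ∨ w = z := by
  by_contra hcon
  push Not at hcon
  obtain ⟨u, hu, hne⟩ := S.exists_class hL
  obtain ⟨x, hx, hxu⟩ := S.exists_mover hu hne
  have hsqu : u * u = 1 := (S.elementary hu hne).1 u hu.1 rfl
  have hwR := hw.1
  have hwu : w * u = u * w := (hw.2 u hu.1).symm
  have hw2 : w * w = 1 := (S.elementary hu hne).1 w hwR hwu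
  -- two classes
  obtain ⟨u₂, hu₂R, hu₂sq, hcover, hw₂⟩ : ∃ u₂ : L, u₂ ∈ (R : Subgroup L) ∧ u₂ * u₂ = 1 ∧
      (∀ y, InClass z R y → y = z ∨ y = u ∨ y = z * u ∨ y = u₂ ∨ y = z * u₂) ∧
      (u₂ * u = u * u₂ → u₂ = 1) := by
    by_cases h : ∃ u₂, InClass z R u₂ ∧ u₂ * u ≠ u * u₂
    · obtain ⟨u₂, hu₂, hnc⟩ := h
      have hne₂ : u₂ ≠ z := fun e => hnc (e ▸ (S.comm_z hu.1).symm)
      refine ⟨u₂, hu₂.1, (S.elementary hu₂ hne₂).1 _ hu₂.1 rfl, fun y hy => ?_, fun e => absurd e hnc⟩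
      by_cases hyz : y = z
      · exact Or.inl hyz
      rcases S.class_three hu hne hu₂ hne₂ hnc hy with e | e
      · rcases S.class_comm hu hne hy hyz e with r | r
        · exact Or.inr (Or.inl r)
        · exact Or.inr (Or.inr (Or.inl r))
      · rcases S.class_comm hu₂ hne₂ hy hyz e with r | r
        · exact Or.inr (Or.inr (Or.inr (Or.inl r)))
        · exact Or.inr (Or.inr (Or.inr (Or.inr r)))
    · push Not at h
      refine ⟨1, one_mem _, one_mul 1, fun y hy => ?_, fun _ => rfl⟩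
      by_cases hyz : y = z
      · exact Or.inl hyz
      rcases S.class_comm hu hne hy hyz (h y hy) with r | r
      · exact Or.inr (Or.inl r)
      · exact Or.inr (Or.inr (Or.inl r))
  have hzR := S.mem
  have huz : u * z = z * u := S.comm_z hu.1
  -- the subgroup generated by the classes
  set D0 := Subgroup.closure ({z, u, u₂} : Set L) with hD0
  have hD0mem : ∀ d ∈ D0, ∃ i j k : ℕ, d = z ^ i * u ^ j * u₂ ^ k := by
    intro d hd
    have step : ∀ (d g : L), (g = z ∨ g = u ∨ g = u₂) → (∃ i j k : ℕ, d = z ^ i * u ^ j * u₂ ^ k) →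
        ∃ i j k : ℕ, d * g = z ^ i * u ^ j * u₂ ^ k := by
      rintro d g hg ⟨i, j, k, rfl⟩
      rcases hg with rfl | rfl | rfl
      · refine ⟨i + 1, j, k, ?_⟩
        have c1 : Commute (u ^ j * u₂ ^ k) g := (S.comm_z (mul_mem (pow_mem hu.1 j) (pow_mem hu₂R k)) :)
        rw [mul_assoc, mul_assoc, ← mul_assoc (u ^ j), c1.eq, pow_succ]; group
      · rcases S.conj_cases (pow_mem hu₂R k) hu.1 with e | e
        · refine ⟨i, j + 1, k, ?_⟩
          rw [mul_assoc, mul_inv_eq_iff_eq_mul.1 e, pow_succ]; group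
        · refine ⟨i + 1, j + 1, k, ?_⟩
          rw [mul_assoc, mul_inv_eq_iff_eq_mul.1 e, pow_succ, pow_succ]
          have c2 : g ^ j * z = z * g ^ j := S.comm_z (pow_mem hu.1 j)
          calc z ^ i * g ^ j * (z * g * u₂ ^ k) = z ^ i * (g ^ j * z) * g * u₂ ^ k := by group
            _ = z ^ i * (z * g ^ j) * g * u₂ ^ k := by rw [c2]
            _ = _ := by group
      · exact ⟨i, j, k + 1, by rw [pow_succ]; group⟩
    rw [hD0] at hd
    induction hd using Subgroup.closure_induction_right with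
    | one => exact ⟨0, 0, 0, by simp⟩
    | mul_right d hd g hg ih => exact step d g hg ih
    | mul_inv_cancel d hd g hg ih =>
      have hg' : g⁻¹ = g := by
        rcases hg with rfl | rfl | hg
        · exact inv_eq_of_mul_eq_one_right S.sq
        · exact inv_eq_of_mul_eq_one_right hsqu
        · rw [show g = u₂ from hg]; exact inv_eq_of_mul_eq_one_right hu₂sq
      rw [hg']; exact step d g hg ih
  have hD0R : D0 ≤ (R : Subgroup L) := by
    rw [hD0, Subgroup.closure_le]
    rintro t (rfl | rfl | ht)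
    · exact hzR
    · exact hu.1
    · rw [show t = u₂ from ht]; exact hu₂R
  have hwD : w ∉ D0 := by
    intro hmem
    obtain ⟨i, j, k, e⟩ := hD0mem w hmem
    have par : ∀ {v : L}, v * v = 1 → ∀ n : ℕ, v ^ n = 1 ∨ v ^ n = v := fun {v} hv n => by
      rcases Nat.even_or_odd' n with ⟨m, rfl | rfl⟩
      · left; rw [pow_mul, pow_two, hv, one_pow]
      · right; rw [pow_succ, pow_mul, pow_two, hv, one_pow, one_mul]
    have hzi : Central R (z ^ i) := ⟨pow_mem hzR i, fun r hr => (Commute.pow_right (S.comm_z hr : Commute r z) i).eq⟩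
    -- strip the power of `z`
    have hrest : Central R (u ^ j * u₂ ^ k) := by
      refine ⟨mul_mem (pow_mem hu.1 j) (pow_mem hu₂R k), fun r hr => ?_⟩
      rw [show u ^ j * u₂ ^ k = (z ^ i)⁻¹ * w by rw [e]; group]
      exact ((Commute.inv_right (hzi.2 r hr : Commute r (z ^ i))).mul_right (hw.2 r hr : Commute r w)).eq
    have key : u ^ j * u₂ ^ k ≠ 1 → False := by
      intro hne'
      rcases par hsqu j with ej | ej <;> rcases par hu₂sq k with ek | ek <;> rw [ej, ek] at hrest hne'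
      · exact hne' (one_mul 1)
      · rw [one_mul] at hrest hne'
        exact hne' (hw₂ (hrest.2 u hu.1).symm)
      · rw [mul_one] at hrest
        exact S.noncentral hu hne hrest
      · have h1 := hrest.2 u hu.1
        have : u₂ * u = u * u₂ := by
          rw [← mul_assoc, hsqu, one_mul, mul_assoc] at h1
          calc u₂ * u = (u * u) * (u₂ * u) := by rw [hsqu, one_mul]
            _ = u * (u * (u₂ * u)) := mul_assoc _ _ _
            _ = u * u₂ := by rw [← h1]
        rw [hw₂ this, mul_one] at hrest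
        exact S.noncentral hu hne hrest
    have h1 : u ^ j * u₂ ^ k = 1 := by by_contra h; exact key h
    rw [mul_assoc, h1, mul_one] at e
    rcases par S.sq i with ei | ei <;> rw [ei] at e
    · exact hcon.1 e
    · exact hcon.2 e
  set D := D0.subgroupOf (R : Subgroup L) with hD
  have hzD : ∀ c : ↥(R : Subgroup L), ((c : L) = 1 ∨ (c : L) = z) → c ∈ D := by
    rintro c (e | e)
    · rw [show c = 1 from Subtype.ext e]; exact one_mem _
    · exact Subgroup.mem_subgroupOf.2 (by rw [e]; exact Subgroup.subset_closure (Or.inl rfl))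
  have hn : D.Normal := ⟨fun n hn r => by
    rw [show r * n * r⁻¹ = (r * n * r⁻¹ * n⁻¹) * n by group]
    exact mul_mem (hzD _ (S.comm r r.2 n n.2)) hn⟩
  let A : CommGroup (↥(R : Subgroup L) ⧸ D) :=
    { (inferInstance : Group (↥(R : Subgroup L) ⧸ D)) with
      mul_comm := fun x y => by
        obtain ⟨x, rfl⟩ := QuotientGroup.mk_surjective x
        obtain ⟨y, rfl⟩ := QuotientGroup.mk_surjective y
        rw [← QuotientGroup.mk_mul, ← QuotientGroup.mk_mul, QuotientGroup.eq]
        rw [show (x * y)⁻¹ * (y * x) = y⁻¹ * x⁻¹ * (y⁻¹)⁻¹ * (x⁻¹)⁻¹ by group]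
        exact hzD _ (S.comm _ (inv_mem y.2) _ (inv_mem x.2)) }
  refine no_controlled hL R (QuotientGroup.mk' D) hwR
    (fun e => hwD (Subgroup.mem_subgroupOf.1 ((QuotientGroup.eq_one_iff _).1 e))) fun m a hma => ?_
  have hclass : ∀ y : ↥(R : Subgroup L), InClass z R y → QuotientGroup.mk' D y = 1 := by
    intro y hy
    refine (QuotientGroup.eq_one_iff _).2 (Subgroup.mem_subgroupOf.2 ?_)
    have hzm : z ∈ D0 := Subgroup.subset_closure (Or.inl rfl)
    have hum : u ∈ D0 := Subgroup.subset_closure (Or.inr (Or.inl rfl))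
    have hum2 : u₂ ∈ D0 := Subgroup.subset_closure (Or.inr (Or.inr rfl))
    rcases hcover _ hy with r | r | r | r | r <;> rw [r]
    exacts [hzm, hum, mul_mem hzm hum, hum2, mul_mem hzm hum2]
  -- conjugates of `w`
  have main : ∀ (b : L) (hb : b * w * b⁻¹ ∈ (R : Subgroup L)),
      QuotientGroup.mk' D ⟨b * w * b⁻¹, hb⟩ = QuotientGroup.mk' D ⟨w, hwR⟩ := by
    intro b hb
    set v := b * w * b⁻¹ with hv
    by_cases hvw : v = w
    · exact congrArg _ (Subtype.ext hvw)
    set T := (R : Subgroup L) ⊓ Subgroup.centralizer ({v} : Set L) with hT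
    obtain ⟨c, hc, hcT⟩ := exists_conjugator hw.2 (T := T) (R.2.to_le inf_le_left) (a := b)
      (fun t ht => Subgroup.mem_centralizer_singleton_iff.1 ht.2)
    rw [← hv] at hc
    have hzc : c⁻¹ * z * c ∈ (R : Subgroup L) :=
      hcT z ⟨hzR, Subgroup.mem_centralizer_singleton_iff.2 (S.comm_z hb).symm⟩
    set u' := c * z * c⁻¹ with hu'
    have hu'z : u' * z = z * u' := by
      calc u' * z = c * (z * (c⁻¹ * z * c)) * c⁻¹ := by rw [hu']; group
        _ = c * ((c⁻¹ * z * c) * z) * c⁻¹ := by rw [S.comm_z hzc]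
        _ = _ := by rw [hu']; group
    have hu'v : u' * v = v * u' := by
      calc u' * v = c * (z * w) * c⁻¹ := by rw [hu', ← hc]; group
        _ = c * (w * z) * c⁻¹ := by rw [S.comm_z hwR]
        _ = _ := by rw [hu', ← hc]; group
    have hu'c : InClass z R u' := ⟨S.mem_of_comm hu'z, isConj_iff.2 ⟨c, rfl⟩⟩
    have hu'ne : u' ≠ z := fun e => hvw (by
      rw [← hc, hw.2 c (S.mem_of_comm (mul_inv_eq_iff_eq_mul.1 e)), mul_inv_cancel_right])
    obtain ⟨x', hx', hxu'⟩ := S.exists_mover hu'c hu'ne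
    have hvnc : ¬ Central R v := fun hvc => hvw (S.central_eq hw hvc)
    have hxv : x' * v * x'⁻¹ = z * v := by
      rcases S.conj_cases hx' hb with e | e
      · exfalso
        refine hvnc ⟨hb, fun r hr => ?_⟩
        rcases S.conj_cases hr hu'c.1 with e' | e'
        · exact (S.elementary hu'c hu'ne).2 r hr (mul_inv_eq_iff_eq_mul.1 e') v hb hu'v.symm
        · have hm : x'⁻¹ * r * u' = u' * (x'⁻¹ * r) := by
            calc x'⁻¹ * r * u' = x'⁻¹ * (r * u' * r⁻¹) * r := by group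
              _ = x'⁻¹ * (x' * u' * x'⁻¹) * r := by rw [e', hxu']
              _ = _ := by group
          calc r * v = x' * ((x'⁻¹ * r) * v) := by group
            _ = x' * (v * (x'⁻¹ * r)) := by
              rw [(S.elementary hu'c hu'ne).2 _ (mul_mem (inv_mem hx') hr) hm v hb hu'v.symm]
            _ = (x' * v * x'⁻¹) * r := by group
            _ = v * r := by rw [e]
      · exact e
    set w' := v * u' with hw'
    have hw'c : Central R w' := S.central_mul hu'c hu'ne hx' hxu' hb hu'v.symm hxv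
    have hz0c : InClass z R (c⁻¹ * z * c) := ⟨hzc, isConj_iff.2 ⟨c⁻¹, by group⟩⟩
    have hz0ne : c⁻¹ * z * c ≠ z := fun e => hu'ne (by
      rw [hu']; conv_lhs => rw [← e]
      group)
    obtain ⟨y, hy, hyz⟩ := S.exists_mover hz0c hz0ne
    -- the element carrying `u'` to `z`
    set X := c * y * c⁻¹ with hX
    have hXz : X * z * X⁻¹ = u' * z := by
      calc X * z * X⁻¹ = c * (y * (c⁻¹ * z * c) * y⁻¹) * c⁻¹ := by rw [hX]; group
        _ = _ := by rw [hyz, hu']; group
    have hXfix : ∀ t : L, Central R t → X * (c * t * c⁻¹) * X⁻¹ = c * t * c⁻¹ := fun t ht => by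
      calc X * (c * t * c⁻¹) * X⁻¹ = c * (y * t * y⁻¹) * c⁻¹ := by rw [hX]; group
        _ = _ := by rw [ht.2 y hy, mul_inv_cancel_right]
    have hXu : X * u' * X⁻¹ = u' := hXfix z S.central_z
    have hXv : X * v * X⁻¹ = v := by rw [← hc]; exact hXfix w hw
    set B := x' * X with hB
    have hBz : B * z * B⁻¹ = u' := by
      calc B * z * B⁻¹ = (x' * u' * x'⁻¹) * (x' * z * x'⁻¹) := by
            rw [show B * z * B⁻¹ = x' * (X * z * X⁻¹) * x'⁻¹ by rw [hB]; group, hXz]; group
        _ = z * u' * z := by rw [hxu', S.comm_z hx', mul_inv_cancel_right]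
        _ = _ := by rw [← hu'z, mul_assoc, S.sq, mul_one]
    have hBw : B * w' * B⁻¹ = w' := by
      calc B * w' * B⁻¹ = x' * ((X * v * X⁻¹) * (X * u' * X⁻¹)) * x'⁻¹ := by rw [hB, hw']; group
        _ = x' * w' * x'⁻¹ := by rw [hXv, hXu]
        _ = w' := by rw [hw'c.2 x' hx', mul_inv_cancel_right]
    have hu'sq : u' * u' = 1 := (S.elementary hu'c hu'ne).1 u' hu'c.1 rfl
    have hveq : B * (w' * z) * B⁻¹ = v := by
      calc B * (w' * z) * B⁻¹ = (B * w' * B⁻¹) * (B * z * B⁻¹) := by group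
        _ = v * (u' * u') := by rw [hBw, hBz, hw', mul_assoc]
        _ = v := by rw [hu'sq, mul_one]
    have hcz : Central R (w' * z) := ⟨mul_mem hw'c.1 hzR, fun r hr =>
      ((show Commute r w' from hw'c.2 r hr).mul_right (show Commute r z from S.comm_z hr)).eq⟩
    have hwz : w' * z = w := by
      have := S.central_eq hw (a := B⁻¹ * c) (by
        rw [show B⁻¹ * c * w * (B⁻¹ * c)⁻¹ = B⁻¹ * (c * w * c⁻¹) * B by group, hc,
          show B⁻¹ * v * B = w' * z by rw [← hveq]; group]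
        exact hcz)
      rw [show B⁻¹ * c * w * (B⁻¹ * c)⁻¹ = B⁻¹ * (c * w * c⁻¹) * B by group, hc,
        show B⁻¹ * v * B = w' * z by rw [← hveq]; group] at this
      exact this
    have e : (⟨v, hb⟩ : ↥(R : Subgroup L)) = ⟨w, hwR⟩ * ⟨z, hzR⟩ * ⟨u', hu'c.1⟩ := Subtype.ext (by
      show v = w * z * u'
      rw [← hwz, mul_assoc w', S.sq, mul_one, hw', mul_assoc, hu'sq, mul_one])
    rw [e, map_mul, map_mul, hclass ⟨z, hzR⟩ ⟨hzR, IsConj.refl z⟩, hclass ⟨u', hu'c.1⟩ hu'c, mul_one, mul_one]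
  rcases Nat.even_or_odd' m with ⟨l, rfl | rfl⟩
  · have e1 : w ^ (2 * l) = 1 := by rw [pow_mul, pow_two, hw2, one_pow]
    have e2 : (⟨w, hwR⟩ : ↥(R : Subgroup L)) ^ (2 * l) = 1 := Subtype.ext (by simpa using e1)
    rw [← map_pow, e2, map_one]
    refine (QuotientGroup.eq_one_iff _).2 (Subgroup.mem_subgroupOf.2 ?_)
    show a * w ^ (2 * l) * a⁻¹ ∈ D0
    rw [e1, mul_one, mul_inv_cancel]; exact one_mem _
  · have e1 : w ^ (2 * l + 1) = w := by rw [pow_succ, pow_mul, pow_two, hw2, one_pow, one_mul]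
    have e2 : (⟨w, hwR⟩ : ↥(R : Subgroup L)) ^ (2 * l + 1) = ⟨w, hwR⟩ := Subtype.ext (by simpa using e1)
    rw [← map_pow, e2]
    have hm : a * w * a⁻¹ ∈ (R : Subgroup L) := by rw [e1] at hma; exact hma
    rw [← main a hm]
    exact congrArg _ (Subtype.ext (congrArg (fun t => a * t * a⁻¹) e1))

/-- Let L be a finite non-abelian simple group with an involution z whose centralizer R is a Sylow 2-subgroup of L whose Frattini subgroup is the subgroup generated by z. Then R is dihedral of order 8. -/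
theorem result {L : Type*} [Group L] [Finite L] [IsSimpleGroup L] (hL : ¬ IsMulCommutative L) (z : L) (hz : orderOf z = 2) (R : Sylow 2 L) (hR : (R : Subgroup L) = Subgroup.centralizer ({z} : Set L)) (hΦ : (frattini ↥(R : Subgroup L)).map (R : Subgroup L).subtype = Subgroup.zpowers z) : Nonempty (↥(R : Subgroup L) ≃* DihedralGroup 4) := by
  have S := setup hz hR hΦ
  obtain ⟨u, hu, hne⟩ := S.exists_class hL
  obtain ⟨x, hx, hxu⟩ := S.exists_mover hu hne
  have hsqu : u * u = 1 := (S.elementary hu hne).1 u hu.1 rfl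
  have hzu : z * u = u * z := (S.comm_z hu.1).symm
  have hu1 : u ≠ 1 := fun e => by
    rw [e] at hxu; exact S.ne (by simpa using hxu.symm)
  -- the centraliser of `u` in `R`
  have hM : ∀ m ∈ (R : Subgroup L), m * u = u * m → m = 1 ∨ m = z ∨ m = u ∨ m = z * u := by
    intro m hm hmu
    rcases S.conj_cases hx hm with e | e
    · have hc : Central R m := ⟨hm, fun r hr => by
        rcases S.conj_cases hr hu.1 with e' | e'
        · exact (S.elementary hu hne).2 r hr (mul_inv_eq_iff_eq_mul.1 e') m hm hmu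
        · have h2 : x⁻¹ * r * u = u * (x⁻¹ * r) := by
            calc x⁻¹ * r * u = x⁻¹ * (r * u * r⁻¹) * r := by group
              _ = x⁻¹ * (x * u * x⁻¹) * r := by rw [e', hxu]
              _ = _ := by group
          calc r * m = x * ((x⁻¹ * r) * m) := by group
            _ = x * (m * (x⁻¹ * r)) := by rw [(S.elementary hu hne).2 _ (mul_mem (inv_mem hx) hr) h2 m hm hmu]
            _ = (x * m * x⁻¹) * r := by group
            _ = m * r := by rw [e]⟩
      rcases S.center_small hL hc with r | r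
      · exact Or.inl r
      · exact Or.inr (Or.inl r)
    · rcases S.center_small hL (S.central_mul hu hne hx hxu hm hmu e) with r | r
      · refine Or.inr (Or.inr (Or.inl ?_))
        rw [show m = m * u * u by rw [mul_assoc, hsqu, mul_one], r, one_mul]
      · refine Or.inr (Or.inr (Or.inr ?_))
        rw [show m = m * u * u by rw [mul_assoc, hsqu, mul_one], r]
  -- an element of order four
  obtain ⟨r, hr, hr2, hru⟩ : ∃ r ∈ (R : Subgroup L), r * r = z ∧ r * u * r⁻¹ = z * u := by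
    rcases S.square x hx with e | e
    · refine ⟨u * x, mul_mem hu.1 hx, ?_, ?_⟩
      · calc u * x * (u * x) = u * (x * u * x⁻¹) * (x * x) := by group
          _ = (u * z) * u := by rw [hxu, e, mul_one, ← mul_assoc]
          _ = z * (u * u) := by rw [← hzu, mul_assoc]
          _ = z := by rw [hsqu, mul_one]
      · calc u * x * u * (u * x)⁻¹ = u * (x * u * x⁻¹) * u⁻¹ := by group
          _ = _ := by rw [hxu, ← mul_assoc, ← hzu, mul_inv_cancel_right]
    · exact ⟨x, hx, e, hxu⟩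
  have hcard : Nat.card ↥(R : Subgroup L) = 8 := by
    have hle : Nat.card ↥(R : Subgroup L) ≤ 8 := by
      classical
      have hsub : ((R : Subgroup L) : Set L) ⊆
          (({1, z, u, z * u, r, r * z, r * u, r * (z * u)} : Finset L) : Set L) := by
        intro t ht
        simp only [Finset.coe_insert, Finset.coe_singleton, Set.mem_insert_iff, Set.mem_singleton_iff]
        rcases S.conj_cases ht hu.1 with e | e
        · rcases hM t ht (mul_inv_eq_iff_eq_mul.1 e) with h | h | h | h <;> simp [h]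
        · have h2 : r⁻¹ * t * u = u * (r⁻¹ * t) := by
            calc r⁻¹ * t * u = r⁻¹ * (t * u * t⁻¹) * t := by group
              _ = r⁻¹ * (r * u * r⁻¹) * t := by rw [e, hru]
              _ = _ := by group
          have ht' : t = r * (r⁻¹ * t) := by group
          rcases hM _ (mul_mem (inv_mem hr) ht) h2 with h | h | h | h <;> rw [h] at ht' <;> simp [ht']
      rw [← SetLike.coe_sort_coe, Nat.card_coe_set_eq]
      refine (Set.ncard_le_ncard hsub (Finset.finite_toSet _)).trans ?_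
      rw [Set.ncard_coe_finset]
      iterate 7 refine le_trans (Finset.card_insert_le _ _) (Nat.add_le_add_right ?_ 1)
      exact le_of_eq (Finset.card_singleton _)
    have : Fact (Nat.Prime 2) := ⟨Nat.prime_two⟩
    obtain ⟨k, hk⟩ := R.2.exists_card_eq
    rw [hk] at hle ⊢
    have hord : orderOf r = 4 := by
      refine orderOf_eq_prime_pow (p := 2) (n := 1) ?_ ?_
      · rw [pow_one, pow_two, hr2]; exact S.ne
      · rw [pow_succ, pow_one, pow_mul, pow_two r, hr2, pow_two, S.sq]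
    have hune : ¬ (⟨u, hu.1⟩ : ↥(R : Subgroup L)) ∈ Subgroup.zpowers ⟨r, hr⟩ := by
      intro h
      obtain ⟨n, hn⟩ := Subgroup.mem_zpowers_iff.1 h
      have hn' : r ^ n = u := by simpa using congrArg Subtype.val hn
      rw [← hn'] at hru
      apply S.ne
      rw [show r * r ^ n * r⁻¹ = r ^ n by group] at hru
      exact mul_eq_right.1 hru.symm
    have hlt : Nat.card (Subgroup.zpowers (⟨r, hr⟩ : ↥(R : Subgroup L))) < Nat.card ↥(R : Subgroup L) := by
      refine lt_of_le_of_ne (Subgroup.card_le_card_group _) fun e => hune ?_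
      rw [(Subgroup.card_eq_iff_eq_top _).1 e]; exact Subgroup.mem_top _
    rw [Nat.card_zpowers, Subgroup.orderOf_mk, hord, hk] at hlt
    have : 2 < k := by
      by_contra h
      have := Nat.pow_le_pow_right (show 0 < 2 by norm_num) (show k ≤ 2 by omega)
      omega
    have : k ≤ 3 := by
      by_contra h
      have := Nat.pow_le_pow_right (show 0 < 2 by norm_num) (show 4 ≤ k by omega)
      omega
    rw [show k = 3 by omega]; rfl
  have hord : orderOf (⟨r, hr⟩ : ↥(R : Subgroup L)) = 4 := by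
    rw [Subgroup.orderOf_mk]
    have : Fact (Nat.Prime 2) := ⟨Nat.prime_two⟩
    refine orderOf_eq_prime_pow (p := 2) (n := 1) ?_ ?_
    · rw [pow_one, pow_two, hr2]; exact S.ne
    · rw [pow_succ, pow_one, pow_mul, pow_two r, hr2, pow_two, S.sq]
  refine CfsgLib.TwoGroups.nonempty_mulEquiv_dihedral (y := (⟨u, hu.1⟩ : ↥(R : Subgroup L))) hord
    (by rw [hcard]) ?_ ?_ ?_
  · intro h
    obtain ⟨n, hn⟩ := Subgroup.mem_zpowers_iff.1 h
    have hn' : r ^ n = u := by simpa using congrArg Subtype.val hn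
    rw [← hn'] at hru
    apply S.ne
    rw [show r * r ^ n * r⁻¹ = r ^ n by group] at hru
    exact mul_eq_right.1 hru.symm
  · exact Subtype.ext (by rw [SubmonoidClass.coe_pow, pow_two]; exact hsqu)
  · apply Subtype.ext
    show u * r * u⁻¹ = r⁻¹
    rw [inv_eq_of_mul_eq_one_right hsqu]
    refine (inv_eq_of_mul_eq_one_right ?_).symm
    calc r * (u * r * u) = (r * u * r⁻¹) * (r * r) * u := by group
      _ = z * u * z * u := by rw [hru, hr2]
      _ = (z * z) * (u * u) := by rw [mul_assoc z u z, ← hzu]; group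
      _ = 1 := by rw [S.sq, hsqu, one_mul]

end Cfsg.Agent.S5435
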