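import Cfsg.Statements.S5436
import Cfsg.Agent.Lib.Fischer2.FittingSetting

set_option autoImplicit false
open Cfsg

namespace Cfsg.Agent.S5436

/-- Let z be an involution of the finite group G with centralizer H whose generalized Fitting subgroup Q is extraspecial of width at least 2 (order 2^(2w+1), w ≥ 2); suppose some conjugate of z other than z lies in Q, H/Q is a non-abelian simple group, H acts irreducibly by conjugation on Q modulo the subgroup generated by z (the only H-invariant subgroups of Q containing z are that subgroup and Q), and Q is not the subgroup generated by the conjugates of z lying in H. Then G is simple. -/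
theorem result {G : Type*} [Group G] [Finite G] (z : G) (hz : orderOf z = 2) (Q : Subgroup (Subgroup.centralizer ({z} : Set G))) [Q.Normal] (hF : Cfsg.generalizedFittingSubgroup ↥(Subgroup.centralizer ({z} : Set G)) = Q) (hQ : Cfsg.IsExtraspecial 2 ↥Q) (w : ℕ) (hw : 2 ≤ w) (hcard : Nat.card ↥Q = 2 ^ (2 * w + 1)) (hnwc : ∃ g : G, (∃ hq : g * z * g⁻¹ ∈ Subgroup.centralizer ({z} : Set G), (⟨g * z * g⁻¹, hq⟩ : Subgroup.centralizer ({z} : Set G)) ∈ Q) ∧ g * z * g⁻¹ ≠ z) (hsimp : IsSimpleGroup (↥(Subgroup.centralizer ({z} : Set G)) ⧸ Q)) (hna : ¬ IsMulCommutative (↥(Subgroup.centralizer ({z} : Set G)) ⧸ Q)) (hirr : ∀ W : Subgroup (Subgroup.centralizer ({z} : Set G)), W.Normal → W ≤ Q → (W = Q ∨ ∀ x ∈ W, (x : G) ∈ Subgroup.zpowers z)) (hwcl : Subgroup.closure {x : Subgroup.centralizer ({z} : Set G) | IsConj z (x : G)} ≠ Q) : IsSimpleGroup G := by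
  set Q' : Subgroup G := Q.map (Subgroup.centralizer ({z} : Set G)).subtype with hQ'
  have hQe : Cfsg.IsExtraspecial 2 ↥Q' := by
    have e : ↥Q ≃* ↥Q' := Subgroup.equivMapOfInjective _ _ (Subgroup.centralizer ({z} : Set G)).subtype_injective
    refine ⟨⟨hQ.1.1.map _, ?_, ?_⟩, ?_⟩
    · have := congrArg (Subgroup.map e.toMonoidHom) hQ.1.2.1
      rw [CfsgLib.Fischer2.map_frattini_equiv, CfsgLib.Fischer2.map_center_equiv] at this
      exact this
    · have := congrArg (Subgroup.map e.toMonoidHom) hQ.1.2.2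
      rw [CfsgLib.Fischer2.map_commutator_equiv, CfsgLib.Fischer2.map_center_equiv] at this
      exact this
    · have hc : (Subgroup.center ↥Q).map e.toMonoidHom = Subgroup.center ↥Q' :=
        CfsgLib.Fischer2.map_center_equiv e
      rw [← hc, Subgroup.card_map_of_injective e.injective]
      exact hQ.2
  have hF' : (Cfsg.generalizedFittingSubgroup ↥(Subgroup.centralizer ({z} : Set G))).map (Subgroup.centralizer ({z} : Set G)).subtype = Q' := by rw [hF]
  obtain ⟨hzZ, hz1, hZz, hC, hN, hNH⟩ := CfsgLib.Fischer2.setting_facts hz hF' hQe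
  have hcard8 : 8 < Nat.card ↥Q' := by
    rw [hQ', Subgroup.card_map_of_injective (Subgroup.centralizer ({z} : Set G)).subtype_injective, hcard]
    calc 8 < 2 ^ (2 * 2 + 1) := by norm_num
      _ ≤ _ := Nat.pow_le_pow_right (by norm_num) (by omega)
  obtain ⟨g, ⟨hq, hgQ⟩, hgne⟩ := hnwc
  have hgQ' : g * z * g⁻¹ ∈ Q' := ⟨_, hgQ, rfl⟩
  have hlarge := CfsgLib.Fischer2.isLargeExtraspecial_of_conj_mem hQe hC hN hcard8 hzZ hz1 hgQ' hgne
  have hgZ : g * z * g⁻¹ ∉ Subgroup.zpowers z := by
    rw [← hZz]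
    intro h
    rcases CfsgLib.Fischer2.eq_one_or_eq_of_card_two
        (CfsgLib.Fischer2.IsExtraspecial.card_centerImage hQe) hzZ hz1 h with h | h
    · exact hz1 (conj_eq_one_iff.1 h)
    · exact hgne h
  have : Nontrivial G := ⟨⟨z, 1, hz1⟩⟩
  refine IsSimpleGroup.mk fun N hN' => ?_
  by_cases hne : N = ⊥
  · exact Or.inl hne
  right
  have hzN := CfsgLib.Fischer2.mem_of_normal_ne_bot hlarge hzZ hz1 hN' hne
  let W : Subgroup (Subgroup.centralizer ({z} : Set G)) := N.subgroupOf (Subgroup.centralizer ({z} : Set G))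
  have hWn : W.Normal := Subgroup.normal_subgroupOf
  have hWQ : W ⊓ Q = Q := by
    rcases hirr (W ⊓ Q) inferInstance inf_le_right with h | h
    · exact h
    · exact absurd (h ⟨g * z * g⁻¹, hq⟩ ⟨hN'.conj_mem z hzN g, hgQ⟩) hgZ
  have hQW : Q ≤ W := inf_eq_right.1 hWQ
  have hqn : (W.map (QuotientGroup.mk' Q)).Normal := hWn.map _ (QuotientGroup.mk'_surjective Q)
  rcases hsimp.eq_bot_or_eq_top_of_normal _ hqn with h | h
  · exfalso
    apply hwcl
    have hWle : W ≤ Q := by
      rw [Subgroup.map_eq_bot_iff, QuotientGroup.ker_mk'] at h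
      exact h
    have hsub : Subgroup.closure {x : Subgroup.centralizer ({z} : Set G) | IsConj z (x : G)} ≤ Q := by
      rw [Subgroup.closure_le]
      intro x hx
      obtain ⟨c, hc⟩ := isConj_iff.1 hx
      exact hWle (show (x : G) ∈ N from hc ▸ hN'.conj_mem z hzN c)
    have hn : (Subgroup.closure {x : Subgroup.centralizer ({z} : Set G) | IsConj z (x : G)}).Normal := by
      refine ⟨fun x hx h' => ?_⟩
      have hmap : (Subgroup.closure {x : Subgroup.centralizer ({z} : Set G) | IsConj z (x : G)}).map (MulAut.conj h').toMonoidHom ≤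
          Subgroup.closure {x : Subgroup.centralizer ({z} : Set G) | IsConj z (x : G)} := by
        rw [MonoidHom.map_closure, Subgroup.closure_le]
        rintro _ ⟨y, hy, rfl⟩
        exact Subgroup.subset_closure (IsConj.trans hy (isConj_iff.2 ⟨(h' : G), rfl⟩))
      exact hmap ⟨x, hx, rfl⟩
    rcases hirr _ hn hsub with h2 | h2
    · exact h2
    · exact absurd (h2 ⟨g * z * g⁻¹, hq⟩ (Subgroup.subset_closure (isConj_iff.2 ⟨g, rfl⟩))) hgZ
  · apply CfsgLib.Fischer2.eq_top_of_centralizer_le hlarge hzZ hz1 hN'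
    intro x hx
    have : (QuotientGroup.mk' Q ⟨x, hx⟩) ∈ W.map (QuotientGroup.mk' Q) := h ▸ Subgroup.mem_top _
    obtain ⟨w, hw, hwe⟩ := this
    have hmem : w⁻¹ * ⟨x, hx⟩ ∈ W := hQW (QuotientGroup.eq.1 hwe)
    simpa [W, Subgroup.mem_subgroupOf] using W.mul_mem hw hmem

end Cfsg.Agent.S5436
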