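import Cfsg.Statements.S5437

set_option autoImplicit false
open Cfsg

namespace Cfsg.Agent.S5437

/-- Let I be a set of involutions of the finite group G closed under conjugation, and H a subgroup of G. The following are equivalent: (1) for every member x of I lying in H, the conjugates of x lying in H form a single H-class and the centralizer of x lies in H; (2) for every g outside H, no member of I lies in both H and g H g⁻¹; (3) every member of I lying in H fixes exactly one coset in the action of G on the cosets of H. -/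
theorem result {G : Type*} [Group G] [Finite G] (I : Set G) (hI : ∀ x ∈ I, orderOf x = 2) (hIc : ∀ g : G, ∀ x ∈ I, g * x * g⁻¹ ∈ I) (H : Subgroup G) : ((∀ x ∈ I, x ∈ H → (∀ g : G, g * x * g⁻¹ ∈ H → ∃ h ∈ H, h * x * h⁻¹ = g * x * g⁻¹) ∧ Subgroup.centralizer ({x} : Set G) ≤ H) ↔ (∀ g : G, g ∉ H → ∀ x ∈ I, ¬ (x ∈ H ∧ x ∈ (H : Subgroup G).map (MulAut.conj g).toMonoidHom))) ∧ ((∀ g : G, g ∉ H → ∀ x ∈ I, ¬ (x ∈ H ∧ x ∈ (H : Subgroup G).map (MulAut.conj g).toMonoidHom)) ↔ ∀ x ∈ I, x ∈ H → ∃! c : G ⧸ H, x • c = c) := by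
  constructor
  · constructor
    · intro h g hg x hx
      rintro ⟨hxH, y, hy, hyx⟩
      obtain ⟨h1, h2⟩ := h x hx hxH
      have hgx : g⁻¹ * x * g ∈ H := by
        have hyx' : g * y * g⁻¹ = x := by simpa using hyx
        rw [← hyx']; simpa [mul_assoc] using hy
      obtain ⟨k, hk, hkx⟩ := h1 g⁻¹ (by simpa using hgx)
      apply hg
      have hc : g * k ∈ Subgroup.centralizer ({x} : Set G) := by
        rw [Subgroup.mem_centralizer_singleton_iff]
        rw [inv_inv, mul_inv_eq_iff_eq_mul] at hkx
        rw [mul_assoc, hkx]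
        group
      have := H.mul_mem (h2 hc) (H.inv_mem hk)
      simpa [mul_assoc] using this
    · intro h x hx hxH
      refine ⟨fun g hg => ?_, fun c hc => ?_⟩
      · refine ⟨g, ?_, rfl⟩
        by_contra hgH
        refine h g⁻¹ (fun h' => hgH (by simpa using H.inv_mem h')) x hx ⟨hxH, g * x * g⁻¹, hg, ?_⟩
        simp [mul_assoc]
      · by_contra hcH
        refine h c hcH x hx ⟨hxH, x, hxH, ?_⟩
        rw [Subgroup.mem_centralizer_singleton_iff] at hc
        simp [hc]
  · have key : ∀ (x g : G), x • (g : G ⧸ H) = (g : G ⧸ H) ↔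
        x ∈ (H : Subgroup G).map (MulAut.conj g).toMonoidHom := by
      intro x g
      rw [MulAction.Quotient.smul_coe, QuotientGroup.eq, smul_eq_mul]
      constructor
      · intro hh
        refine ⟨((x * g)⁻¹ * g)⁻¹, H.inv_mem hh, ?_⟩
        simp [mul_assoc]
      · rintro ⟨y, hy, rfl⟩
        simpa [mul_assoc] using H.inv_mem hy
    constructor
    · intro h x hx hxH
      refine ⟨((1 : G) : G ⧸ H), (key x 1).2 ⟨x, hxH, by simp⟩, ?_⟩
      intro c
      induction c using QuotientGroup.induction_on with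
      | H g =>
        intro hc
        rw [QuotientGroup.eq]
        by_contra hg
        exact h g (fun hg' => hg (by simpa using H.inv_mem hg')) x hx ⟨hxH, (key x g).1 hc⟩
    · intro h g hg x hx
      rintro ⟨hxH, hxg⟩
      have h1 := (h x hx hxH).unique ((key x g).2 hxg) ((key x 1).2 ⟨x, hxH, by simp⟩)
      rw [QuotientGroup.eq] at h1
      exact hg (by simpa using H.inv_mem h1)

end Cfsg.Agent.S5437
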