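import Cfsg.Statements.S5438

set_option autoImplicit false
open Cfsg

namespace Cfsg.Agent.S5438

/-- Let z be a 2-central involution of the finite group G (an involution central in some Sylow 2-subgroup) and H a subgroup containing z such that the coset H is the only coset of H fixed by z (in the action of G on the cosets of H). Then H has odd index in G, and for every 2-element x of H the conjugates of x lying in H form a single H-class. -/
theorem result {G : Type*} [Group G] [Finite G] (z : G) (hz : Cfsg.IsTwoCentralInvolution z) (H : Subgroup G) (hzH : z ∈ H) (hfix : ∀ g : G, g⁻¹ * z * g ∈ H → g ∈ H) : Odd H.index ∧ ∀ x ∈ H, (∃ k : ℕ, orderOf x = 2 ^ k) → ∀ g : G, g * x * g⁻¹ ∈ H → ∃ h ∈ H, h * x * h⁻¹ = g * x * g⁻¹ := by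
  obtain ⟨hz2, P, hzP, hPz⟩ := hz
  have : Fact (Nat.Prime 2) := ⟨Nat.prime_two⟩
  have hz2' : z * z = 1 := by rw [← pow_two, ← hz2]; exact pow_orderOf_eq_one z
  -- the fixed cosets of z
  have hfixed : ∀ g : G, z • (g : G ⧸ H) = (g : G ⧸ H) ↔ g⁻¹ * z * g ∈ H := by
    intro g
    rw [MulAction.Quotient.smul_coe, QuotientGroup.eq, smul_eq_mul]
    constructor
    · intro h; simpa [mul_assoc] using H.inv_mem h
    · intro h; simpa [mul_assoc] using H.inv_mem h
  constructor
  · have hpg : IsPGroup 2 (Subgroup.zpowers z) := by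
      apply IsPGroup.of_card (n := 1)
      rw [Nat.card_zpowers, hz2, pow_one]
    have hmod := hpg.card_modEq_card_fixedPoints (G ⧸ H)
    have hone : Nat.card (MulAction.fixedPoints (Subgroup.zpowers z) (G ⧸ H)) = 1 := by
      rw [Nat.card_eq_one_iff_exists]
      refine ⟨⟨((1 : G) : G ⧸ H), ?_⟩, ?_⟩
      · rintro ⟨_, n, rfl⟩
        show (z ^ n) • ((1 : G) : G ⧸ H) = _
        rw [MulAction.Quotient.smul_coe, QuotientGroup.eq]
        simpa using H.inv_mem (H.zpow_mem hzH n)
      · rintro ⟨c, hc⟩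
        induction c using QuotientGroup.induction_on with
        | H g =>
          apply Subtype.ext
          have := hfix g ((hfixed g).1 (hc ⟨z, Subgroup.mem_zpowers z⟩))
          exact QuotientGroup.eq.2 (by simpa using H.inv_mem this)
    rw [hone] at hmod
    rw [Subgroup.index_eq_card, Nat.odd_iff]
    exact hmod
  · intro x hx hx2 g hg
    -- every 2-subgroup containing z lies in H
    have hsub : ∀ S : Subgroup G, IsPGroup 2 S → z ∈ S → S ≤ H := by
      intro S hS hzS
      by_contra hSH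
      have hlt : H.subgroupOf S < ⊤ := lt_top_iff_ne_top.2 (fun h => hSH (Subgroup.subgroupOf_eq_top.1 h))
      have := (Group.normalizerCondition_of_isNilpotent (h := hS.isNilpotent)) _ hlt
      obtain ⟨n, hn, hn'⟩ := SetLike.exists_of_lt this
      apply hn'
      rw [Subgroup.mem_subgroupOf]
      apply hfix
      have hz' : (⟨z, hzS⟩ : S) ∈ H.subgroupOf S := Subgroup.mem_subgroupOf.2 hzH
      have h1 : n⁻¹ * ⟨z, hzS⟩ * n ∈ H.subgroupOf S := by
        apply ((Subgroup.mem_normalizer_iff.1 hn) _).2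
        simpa [mul_assoc] using hz'
      simpa [Subgroup.mem_subgroupOf] using h1
    have hPH : (P : Subgroup G) ≤ H := hsub P P.isPGroup' hzP
    -- a 2-element of H has an H-conjugate centralised by z
    have hmove : ∀ y ∈ H, IsPGroup 2 (Subgroup.zpowers y) → ∃ h ∈ H, Commute (h * y * h⁻¹) z := by
      intro y hy hy2
      let PH : Sylow 2 H := P.subtype hPH
      obtain ⟨T, hT⟩ := (hy2.of_equiv (Subgroup.subgroupOfEquivOfLe (Subgroup.zpowers_le.2 hy)).symm).exists_le_sylow
      obtain ⟨h, hh⟩ := MulAction.exists_smul_eq H T PH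
      refine ⟨h, h.2, ?_⟩
      have hmem : (MulAut.conj h) (⟨y, hy⟩ : H) ∈ (PH : Subgroup H) := by
        rw [← hh, Sylow.coe_subgroup_smul]
        exact Subgroup.smul_mem_pointwise_smul _ _ _ (hT (Subgroup.mem_subgroupOf.2 (Subgroup.mem_zpowers y)))
      have hmem' : ((MulAut.conj h (⟨y, hy⟩ : H) : H) : G) ∈ P := by
        exact hmem
      exact hPz _ (by simpa using hmem')
    obtain ⟨k, hk⟩ := hx2
    have hpx : IsPGroup 2 (Subgroup.zpowers x) := IsPGroup.of_card (n := k) (by rw [Nat.card_zpowers, hk])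
    have hpy : IsPGroup 2 (Subgroup.zpowers (g * x * g⁻¹)) := IsPGroup.of_card (n := k) (by
      rw [Nat.card_zpowers, show orderOf (g * x * g⁻¹) = orderOf x from
        orderOf_injective (MulAut.conj g).toMonoidHom (MulAut.conj g).injective x, hk])
    obtain ⟨a, haH, ha⟩ := hmove x hx hpx
    obtain ⟨b, hbH, hb⟩ := hmove _ hg hpy
    set x' := a * x * a⁻¹
    set y' := b * (g * x * g⁻¹) * b⁻¹ with hy'
    set g' := b * g * a⁻¹ with hg'
    have hxy : g' * x' * g'⁻¹ = y' := by simp only [g', x', y']; group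
    -- a conjugate of z under g' commutes with y'
    set C := Subgroup.centralizer ({y'} : Set G)
    have hzC : z ∈ C := Subgroup.mem_centralizer_singleton_iff.2 hb.symm.eq
    have hz'C : g' * z * g'⁻¹ ∈ C := by
      rw [Subgroup.mem_centralizer_singleton_iff, ← hxy]
      calc g' * z * g'⁻¹ * (g' * x' * g'⁻¹) = g' * (z * x') * g'⁻¹ := by group
        _ = g' * (x' * z) * g'⁻¹ := by rw [ha.symm.eq]
        _ = _ := by group
    have hpow : ∀ (u : C), orderOf u = 2 → IsPGroup 2 (Subgroup.zpowers u) :=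
      fun u hu => IsPGroup.of_card (n := 1) (by rw [Nat.card_zpowers, hu, pow_one])
    obtain ⟨S₁, hS₁⟩ := (hpow ⟨z, hzC⟩ (by rw [← Subgroup.orderOf_coe]; exact hz2)).exists_le_sylow
    obtain ⟨S₂, hS₂⟩ := (hpow ⟨g' * z * g'⁻¹, hz'C⟩ (by
      rw [← Subgroup.orderOf_coe]
      exact (orderOf_injective (MulAut.conj g').toMonoidHom (MulAut.conj g').injective z).trans hz2)).exists_le_sylow
    obtain ⟨c, hc⟩ := MulAction.exists_smul_eq C S₂ S₁
    have hS₁H : (S₁ : Subgroup C).map C.subtype ≤ H :=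
      hsub _ (S₁.isPGroup'.map _) ⟨⟨z, hzC⟩, hS₁ (Subgroup.mem_zpowers _), rfl⟩
    have hcg : (c : G) * (g' * z * g'⁻¹) * (c : G)⁻¹ ∈ H := by
      apply hS₁H
      refine ⟨MulAut.conj c ⟨g' * z * g'⁻¹, hz'C⟩, ?_, by simp⟩
      rw [SetLike.mem_coe, ← hc, Sylow.coe_subgroup_smul]
      exact Subgroup.smul_mem_pointwise_smul _ _ _ (hS₂ (Subgroup.mem_zpowers _))
    have hcgH : (c : G) * g' ∈ H := by
      have := hfix ((c : G) * g')⁻¹ (by simpa [mul_assoc] using hcg)
      simpa using H.inv_mem this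
    refine ⟨b⁻¹ * ((c : G) * g') * a, H.mul_mem (H.mul_mem (H.inv_mem hbH) hcgH) haH, ?_⟩
    have hcy : (c : G) * y' * (c : G)⁻¹ = y' := by
      rw [Subgroup.mem_centralizer_singleton_iff.1 c.2]; group
    calc b⁻¹ * ((c : G) * g') * a * x * (b⁻¹ * ((c : G) * g') * a)⁻¹
        = b⁻¹ * ((c : G) * (g' * x' * g'⁻¹) * (c : G)⁻¹) * b := by simp only [x']; group
      _ = b⁻¹ * y' * b := by rw [hxy, hcy]
      _ = g * x * g⁻¹ := by rw [hy']; group

end Cfsg.Agent.S5438
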