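import Cfsg.Statements.S5439

set_option autoImplicit false
open Cfsg

namespace Cfsg.Agent.S5439

/-- Let I and J be two different conjugacy classes of involutions of the finite group G and H a subgroup such that every member of I ∪ J fixes exactly one coset in the action on the cosets of H, and such that for every a in I ∩ H and every b in (I ∪ J) ∩ H different from a and commuting with it, the centralizer of a b lies in H. Then H = G. -/
theorem result {G : Type*} [Group G] [Finite G] (I J : Set G) (a₀ b₀ : G) (ha₀ : orderOf a₀ = 2) (hb₀ : orderOf b₀ = 2) (hI : I = {x | IsConj a₀ x}) (hJ : J = {x | IsConj b₀ x}) (hIJ : I ≠ J) (H : Subgroup G) (hfix : ∀ x ∈ I ∪ J, ∃! c : G ⧸ H, x • c = c) (hcent : ∀ a ∈ I, a ∈ H → ∀ b ∈ I ∪ J, b ∈ H → a ≠ b → a * b = b * a → Subgroup.centralizer ({a * b} : Set G) ≤ H) : H = ⊤ := by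
  subst hI hJ
  -- the fixed coset of a member, and what commutes with it
  have hfix' : ∀ x : G, IsConj a₀ x ∨ IsConj b₀ x → ∀ c d : G ⧸ H, x • c = c → x • d = d → c = d :=
    fun x hx c d hc hd => (hfix x hx).unique hc hd
  have hord : ∀ x : G, IsConj a₀ x ∨ IsConj b₀ x → x * x = 1 := by
    rintro x (hx | hx) <;> obtain ⟨c, rfl⟩ := isConj_iff.1 hx
    · have : a₀ * a₀ = 1 := by rw [← pow_two, ← ha₀]; exact pow_orderOf_eq_one a₀
      calc c * a₀ * c⁻¹ * (c * a₀ * c⁻¹) = c * (a₀ * a₀) * c⁻¹ := by group
        _ = 1 := by rw [this]; group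
    · have : b₀ * b₀ = 1 := by rw [← pow_two, ← hb₀]; exact pow_orderOf_eq_one b₀
      calc c * b₀ * c⁻¹ * (c * b₀ * c⁻¹) = c * (b₀ * b₀) * c⁻¹ := by group
        _ = 1 := by rw [this]; group
  -- commuting members fix the same coset
  have hcomm : ∀ x y : G, (IsConj a₀ x ∨ IsConj b₀ x) → (IsConj a₀ y ∨ IsConj b₀ y) → Commute x y →
      ∀ p : G ⧸ H, x • p = p → y • p = p := by
    intro x y hx _ hxy p hp
    apply hfix' x hx _ _ ?_ hp
    rw [smul_smul, hxy.eq, mul_smul, hp]
  have key : ∀ a b : G, IsConj a₀ a → IsConj b₀ b → ∀ p : G ⧸ H, a • p = p → b • p = p := by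
    intro a b ha hb p hp
    set u := a * b with hu
    have haa := hord a (Or.inl ha)
    have hbb := hord b (Or.inr hb)
    have hainv : a⁻¹ = a := inv_eq_of_mul_eq_one_right haa
    have hbinv : b⁻¹ = b := inv_eq_of_mul_eq_one_right hbb
    have hua : ∀ k : ℕ, u ^ k * a = a * (u⁻¹) ^ k := by
      intro k
      induction k with
      | zero => simp
      | succ k ih =>
        rw [pow_succ, pow_succ', mul_assoc]
        rw [show u * a = a * u⁻¹ by rw [hu, mul_inv_rev, hainv, hbinv]; group]
        rw [← mul_assoc, ih]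
        simp only [mul_assoc]
        rw [← pow_succ, pow_succ']
    have hpos : 0 < orderOf u := orderOf_pos u
    have heven : Even (orderOf u) := by
      rw [← Nat.not_odd_iff_even]
      rintro ⟨k, hk⟩
      -- then a and b are conjugate
      apply hIJ
      have hab : IsConj a b := by
        refine isConj_iff.2 ⟨u ^ k, ?_⟩
        have h1 : u ^ (2 * k + 1) = 1 := hk ▸ pow_orderOf_eq_one u
        have h2 : (u⁻¹) ^ k * (u ^ k)⁻¹ = u := by
          rw [inv_pow, ← mul_inv_rev, ← pow_add, inv_eq_iff_mul_eq_one, ← pow_succ]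
          rw [show k + k + 1 = 2 * k + 1 by omega, h1]
        rw [hua, mul_assoc, h2, hu, ← mul_assoc, haa, one_mul]
      ext x
      exact ⟨fun h => (hb.trans hab.symm).trans (ha.symm.trans h), fun h => (ha.trans hab).trans (hb.symm.trans h)⟩
    obtain ⟨n, hn⟩ := heven
    set j := u ^ n with hj
    have hj1 : j ≠ 1 := pow_ne_one_of_lt_orderOf (by omega) (by omega)
    have hjj : j⁻¹ = j := by
      rw [inv_eq_iff_mul_eq_one, hj, ← pow_add, ← hn, pow_orderOf_eq_one]
    have hja : Commute j a := by
      show j * a = a * j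
      conv_rhs => rw [← hjj]
      rw [hj, hua, inv_pow]
    have hjb : Commute j b := by
      have hju : Commute j u := (Commute.pow_self u n)
      have : b = a * u := by rw [hu, ← mul_assoc, haa, one_mul]
      rw [this]; exact hja.mul_right hju
    -- `a * j` is again a member of one of the classes
    have hmem : IsConj a₀ (a * j) ∨ IsConj b₀ (a * j) := by
      rcases Nat.even_or_odd n with ⟨m, hm⟩ | ⟨m, hm⟩
      · left
        refine ha.trans (isConj_iff.2 ⟨(u ^ m)⁻¹, ?_⟩)
        rw [inv_inv, mul_assoc, show a * u ^ m = (u⁻¹) ^ m * a from ?_]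
        · rw [inv_pow, ← mul_assoc, ← mul_inv_rev, ← pow_add, ← hm]
          rw [← hj, hjj]
          exact hja.eq
        · have h := hua m
          have : a * (u⁻¹) ^ m * a = u ^ m * a * a := by rw [h]
          rw [mul_assoc (u ^ m), haa, mul_one] at this
          calc a * u ^ m = a * (a * (u⁻¹) ^ m * a) := by rw [this]
            _ = _ := by rw [← mul_assoc, ← mul_assoc, haa, one_mul]
      · right
        refine hb.trans (isConj_iff.2 ⟨(u ^ m)⁻¹, ?_⟩)
        rw [inv_inv]
        have hb' : b = a * u := by rw [hu, ← mul_assoc, haa, one_mul]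
        calc (u ^ m)⁻¹ * b * u ^ m = ((u⁻¹) ^ m) * a * (u * u ^ m) := by rw [hb', inv_pow]; group
          _ = a * u ^ m * (u * u ^ m) := by
              have h := hua m
              have h' : a * u ^ m = (u⁻¹) ^ m * a := by
                have : a * (u⁻¹) ^ m * a = u ^ m * a * a := by rw [h]
                rw [mul_assoc (u ^ m), haa, mul_one] at this
                calc a * u ^ m = a * (a * (u⁻¹) ^ m * a) := by rw [this]
                  _ = _ := by rw [← mul_assoc, ← mul_assoc, haa, one_mul]
              rw [h']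
          _ = a * j := by rw [hj, hm, mul_assoc a, ← pow_succ', ← pow_add]; congr 2; omega
    -- so the centraliser of j fixes p
    have hne : a ≠ a * j := fun h => hj1 (mul_eq_left.1 h.symm)
    have hc : Commute a (a * j) := (Commute.refl a).mul_right hja.symm
    have hp' : (a * j) • p = p := hcomm a _ (Or.inl ha) hmem hc p hp
    induction p using QuotientGroup.induction_on with
    | H g =>
      have hstab : ∀ x : G, x • (g : G ⧸ H) = (g : G ⧸ H) ↔ g⁻¹ * x * g ∈ H := by
        intro x
        rw [MulAction.Quotient.smul_coe, QuotientGroup.eq, smul_eq_mul]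
        constructor
        · intro h; simpa [mul_assoc] using H.inv_mem h
        · intro h; simpa [mul_assoc] using H.inv_mem h
      have hconj : ∀ x₀ x : G, IsConj x₀ x → IsConj x₀ (g⁻¹ * x * g) := fun x₀ x hx =>
        hx.trans (isConj_iff.2 ⟨g⁻¹, by simp⟩)
      rw [hstab]
      apply hcent (g⁻¹ * a * g) (hconj _ _ ha) ((hstab a).1 hp) (g⁻¹ * (a * j) * g)
        (hmem.imp (hconj _ _) (hconj _ _)) ((hstab _).1 hp')
        (fun h => hne (mul_left_cancel (mul_right_cancel h)))
      · calc g⁻¹ * a * g * (g⁻¹ * (a * j) * g) = g⁻¹ * (a * (a * j)) * g := by group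
          _ = g⁻¹ * ((a * j) * a) * g := by rw [hc.eq]
          _ = _ := by group
      · rw [Subgroup.mem_centralizer_singleton_iff]
        have e : g⁻¹ * a * g * (g⁻¹ * (a * j) * g) = g⁻¹ * j * g := by
          calc g⁻¹ * a * g * (g⁻¹ * (a * j) * g) = g⁻¹ * ((a * a) * j) * g := by group
            _ = _ := by rw [haa, one_mul]
        rw [e]
        calc g⁻¹ * b * g * (g⁻¹ * j * g) = g⁻¹ * (b * j) * g := by group
          _ = g⁻¹ * (j * b) * g := by rw [hjb.eq]
          _ = _ := by group
  obtain ⟨p, hp, -⟩ := hfix a₀ (Or.inl (IsConj.refl a₀))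
  have hall : ∀ g : G, g • p = p := by
    intro g
    have hb : IsConj b₀ (g⁻¹ * b₀ * g) := isConj_iff.2 ⟨g⁻¹, by simp⟩
    have h1 := key a₀ b₀ (IsConj.refl _) (IsConj.refl _) p hp
    have h2 := key a₀ _ (IsConj.refl _) hb p hp
    apply hfix' b₀ (Or.inr (IsConj.refl _)) _ _ ?_ h1
    calc b₀ • g • p = g • (g⁻¹ * b₀ * g) • p := by rw [smul_smul, smul_smul]; congr 1; group
      _ = g • p := by rw [h2]
  rw [eq_top_iff]
  intro x _
  induction p using QuotientGroup.induction_on with
  | H g =>
    have := hall (g * x * g⁻¹)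
    rw [MulAction.Quotient.smul_coe, QuotientGroup.eq, smul_eq_mul] at this
    simpa [mul_assoc] using H.inv_mem this

end Cfsg.Agent.S5439
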