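import Cfsg.Statements.S5440
import Cfsg.Agent.Lib.LargeFischer.Setting

set_option autoImplicit false
open Cfsg
open CfsgLib.LargeFischer.Six (cl qf conjV)

namespace Cfsg.Agent.S5440

/-- Let G be a finite group of large Fischer type at the involution z: the generalized Fitting subgroup Q of H = C_G(z) is extraspecial of order 2^13, H has normal subgroups Q ≤ H₁ ≤ H₂ with H₁/Q of order 3, H₂/H₁ the projective special unitary group of dimension 4 over the field with nine elements and H₂ of index 2 in H, and some conjugate of z other than z lies in Q. Then H has exactly two orbits, under conjugation, on the involutions of Q other than z. -/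
theorem result {G : Type*} [Group G] [Finite G] (z : G) (Q : Subgroup (Subgroup.centralizer ({z} : Set G))) [Q.Normal] (hF : Cfsg.IsOfLargeFischerTypeAt z Q) : ∃ s t : Subgroup.centralizer ({z} : Set G), s ∈ Q ∧ t ∈ Q ∧ orderOf s = 2 ∧ orderOf t = 2 ∧ (s : G) ≠ z ∧ (t : G) ≠ z ∧ (¬ ∃ h : Subgroup.centralizer ({z} : Set G), h * s * h⁻¹ = t) ∧ ∀ x : Subgroup.centralizer ({z} : Set G), x ∈ Q → orderOf x = 2 → (x : G) ≠ z → (∃ h : Subgroup.centralizer ({z} : Set G), h * s * h⁻¹ = x) ∨ ∃ h : Subgroup.centralizer ({z} : Set G), h * t * h⁻¹ = x := by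
  obtain ⟨zc, hzc, E⟩ := CfsgLib.LargeFischer.Six.exists_extra hF
  obtain ⟨M, hMn, Γ, _, _, _, p, σ, x, -, hQM, hps, -, hp, hmod⟩ := CfsgLib.LargeFischer.Six.exists_mod hF E
  obtain ⟨v2, v4, h20, h40, hq2, hq4, hc2, hc4, hcov⟩ := hmod.two_orbits
  obtain ⟨s, rfl⟩ := CfsgLib.LargeFischer.Six.cl_surjective Q v2
  obtain ⟨t, rfl⟩ := CfsgLib.LargeFischer.Six.cl_surjective Q v4
  rw [E.qf_eq_zero] at hq2 hq4
  have horder : ∀ y : Q, cl Q y ≠ 0 → y * y = 1 → orderOf (y : Subgroup.centralizer ({z} : Set G)) = 2 := by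
    intro y hy hy2
    refine orderOf_eq_prime (by rw [pow_two, ← Subgroup.coe_mul, hy2, Subgroup.coe_one]) fun e => hy ?_
    rw [show y = 1 from Subtype.ext e, E.cl_zero]
    exact one_mem _
  have hne : ∀ y : Q, cl Q y ≠ 0 → ((y : Subgroup.centralizer ({z} : Set G)) : G) ≠ z := by
    intro y hy e
    refine hy ?_
    rw [show y = zc from Subtype.ext (Subtype.ext (e.trans hzc.symm)), E.cl_zero, E.center]
    exact Or.inr rfl
  refine ⟨s, t, s.2, t.2, horder s h20 hq2, horder t h40 hq4, hne s h20, hne t h40, ?_, ?_⟩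
  · rintro ⟨h, hh⟩
    have e1 : conjV Q h (cl Q s) = cl Q t := by
      rw [CfsgLib.LargeFischer.Six.conjV_cl]
      exact congrArg _ (Subtype.ext hh)
    have hmul : ∀ a b v, conjV Q (a * b) v = conjV Q a (conjV Q b v) := fun a b v => by rw [map_mul]; rfl
    have hinj : Function.Injective (conjV Q h) := fun u v e => by
      have e' : conjV Q h⁻¹ (conjV Q h u) = conjV Q h⁻¹ (conjV Q h v) := congrArg (conjV Q h⁻¹) e
      rw [← hmul, ← hmul, inv_mul_cancel, map_one] at e'
      exact e'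
    have hmap : ∀ v, v ∈ MulAction.orbit Γ (cl Q s) → conjV Q h v ∈ MulAction.orbit Γ (cl Q t) := by
      rintro v ⟨γ, rfl⟩
      obtain ⟨a, rfl⟩ := hps γ
      refine ⟨p ⟨h * a * h⁻¹, hMn.conj_mem _ a.2 h⟩, ?_⟩
      show p _ • cl Q t = conjV Q h (p a • cl Q s)
      rw [hp, hp, ← e1, ← hmul, ← hmul, inv_mul_cancel_right]
    have hmap' : ∀ v, v ∈ MulAction.orbit Γ (cl Q t) → ∃ w ∈ MulAction.orbit Γ (cl Q s), conjV Q h w = v := by
      rintro v ⟨γ, rfl⟩
      obtain ⟨a, rfl⟩ := hps γ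
      refine ⟨_, ⟨p ⟨h⁻¹ * a * h, by simpa using hMn.conj_mem _ a.2 h⁻¹⟩, rfl⟩, ?_⟩
      show conjV Q h (p _ • cl Q s) = p a • cl Q t
      rw [hp, hp, ← e1, ← hmul, ← hmul]
      simp only [mul_assoc, mul_inv_cancel_left]
    have := Nat.card_eq_of_bijective (fun w : MulAction.orbit Γ (cl Q s) =>
        (⟨conjV Q h w.1, hmap w.1 w.2⟩ : MulAction.orbit Γ (cl Q t)))
      ⟨fun a b e => Subtype.ext (hinj (congrArg Subtype.val e)), fun v => by
        obtain ⟨w, hw, e⟩ := hmap' v.1 v.2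
        exact ⟨⟨w, hw⟩, Subtype.ext e⟩⟩
    exact absurd (hc2.symm.trans (this.trans hc4)) (by norm_num)
  · intro y hyQ hy2 hyz
    obtain ⟨y', rfl⟩ : ∃ y' : Q, (y' : Subgroup.centralizer ({z} : Set G)) = y := ⟨⟨y, hyQ⟩, rfl⟩
    have hy'2 : y' * y' = 1 := by
      rw [← pow_two, ← hy2]
      exact Subtype.ext (pow_orderOf_eq_one _)
    have hy0 : cl Q y' ≠ 0 := by
      rw [Ne, E.cl_zero, E.center]
      rintro (e | e)
      · rw [e, Subgroup.coe_one, orderOf_one] at hy2; norm_num at hy2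
      · exact hyz (by rw [e, hzc])
    have key : ∀ u : Q, cl Q y' ∈ MulAction.orbit Γ (cl Q u) →
        ∃ h : Subgroup.centralizer ({z} : Set G), h * u * h⁻¹ = y' := by
      rintro u ⟨γ, hγ⟩
      obtain ⟨a, rfl⟩ := hps γ
      have hγ' : p a • cl Q u = cl Q y' := hγ
      rw [hp, CfsgLib.LargeFischer.Six.conjV_cl] at hγ'
      rcases E.cl_eq hγ' with e | e
      · exact ⟨a, congrArg Subtype.val e⟩
      · obtain ⟨b, hb⟩ := E.exists_flip hy0
        have e2 : b * (MulAut.conjNormal (a : Subgroup.centralizer ({z} : Set G)) u) * b⁻¹ = y' := by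
          rw [e, ← mul_assoc, E.zc_comm, mul_assoc zc, mul_assoc, hb, ← mul_assoc, E.zsq, one_mul]
        refine ⟨b * a, ?_⟩
        have e3 := congrArg Subtype.val e2
        simp only [Subgroup.coe_mul, InvMemClass.coe_inv, MulAut.conjNormal_apply] at e3
        rw [← e3]
        group
    rcases hcov (cl Q y') hy0 (E.qf_eq_zero.2 hy'2) with h | h
    · exact Or.inl (key s h)
    · exact Or.inr (key t h)

end Cfsg.Agent.S5440
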