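import Cfsg.Statements.S5441
import Cfsg.Agent.Lib.FischerLarge.Conjugates

set_option autoImplicit false
open Cfsg

namespace Cfsg.Agent.S5441

/-- Let G be a finite group of large Fischer type at the involution z: the generalized Fitting subgroup Q of H = C_G(z) is extraspecial of order 2^13, H has normal subgroups Q ≤ H₁ ≤ H₂ with H₁/Q of order 3, H₂/H₁ the projective special unitary group of dimension 4 over the field with nine elements and H₂ of index 2 in H, and some conjugate of z other than z lies in Q. Then the conjugates of z lying in Q and different from z form a single orbit under conjugation by H. -/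
theorem result {G : Type*} [Group G] [Finite G] (z : G) (Q : Subgroup (Subgroup.centralizer ({z} : Set G))) [Q.Normal] (hF : Cfsg.IsOfLargeFischerTypeAt z Q) (s t : G) (hsQ : ∃ hsc : s ∈ Subgroup.centralizer ({z} : Set G), (⟨s, hsc⟩ : Subgroup.centralizer ({z} : Set G)) ∈ Q) (htQ : ∃ htc : t ∈ Subgroup.centralizer ({z} : Set G), (⟨t, htc⟩ : Subgroup.centralizer ({z} : Set G)) ∈ Q) (hs : IsConj z s) (ht : IsConj z t) (hs1 : s ≠ z) (ht1 : t ≠ z) : ∃ h ∈ Subgroup.centralizer ({z} : Set G), h * s * h⁻¹ = t := by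
  obtain ⟨P, _, _, E, S, M, V, _, _, _, L, f, h, π, -, hP, -, hMn, hidx, hQM, F⟩ :=
    CfsgLib.FischerLarge.exists_frame hF
  haveI := hMn
  obtain ⟨hsc, hsQ⟩ := hsQ
  obtain ⟨htc, htQ⟩ := htQ
  obtain ⟨g, hg⟩ := isConj_iff.1 hs
  obtain ⟨g', hg'⟩ := isConj_iff.1 ht
  have hcs := F.conjFacts hP hQM hidx hF hsQ (g := g) hg hs1
  have hct := F.conjFacts hP hQM hidx hF htQ (g := g') hg' ht1
  have hz1 : z ≠ 1 := fun e => by
    have := hF.1.1
    rw [e, orderOf_one] at this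
    norm_num at this
  have h0 : ∀ {x : G} (hxc : x ∈ Subgroup.centralizer ({z} : Set G))
      (hxQ : (⟨x, hxc⟩ : Subgroup.centralizer ({z} : Set G)) ∈ Q), IsConj z x → x ≠ z →
      π ⟨x, hxc⟩ ≠ 0 ∧ h (π ⟨x, hxc⟩) (π ⟨x, hxc⟩) = 0 := by
    intro x hxc hxQ hx hxne
    obtain ⟨c, rfl⟩ := isConj_iff.1 hx
    refine ⟨F.ne_zero_of hxQ (fun e => hz1 (conj_eq_one_iff.1 e)) hxne, (F.sq _ hxQ).2 (Subtype.ext ?_)⟩
    show c * z * c⁻¹ * (c * z * c⁻¹) = 1
    have hzz : z * z = 1 := by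
      rw [← pow_two, ← hF.1.1, pow_orderOf_eq_one]
    rw [show c * z * c⁻¹ * (c * z * c⁻¹) = c * (z * z) * c⁻¹ by group, hzz]; group
  obtain ⟨hs0, hsi⟩ := h0 hsc hsQ hs hs1
  obtain ⟨ht0, hti⟩ := h0 htc htQ ht ht1
  obtain ⟨a, b, -, -, hca, -, -, -, hcb, -, hcov⟩ := F.cover.exists_orbits hP F.cardL
  have key : ∀ v, v ≠ 0 → h v v = 0 → (CfsgLib.FischerLarge.orb L v).ncard = 1701 →
      CfsgLib.FischerLarge.orb L v = CfsgLib.FischerLarge.orb L b := by
    intro v hv hvi hn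
    rcases hcov v hv hvi with hm | hm
    · rw [CfsgLib.FischerLarge.orb_eq_of_mem hm, hca] at hn
      norm_num at hn
    · exact CfsgLib.FischerLarge.orb_eq_of_mem hm
  have hmem : π ⟨t, htc⟩ ∈ CfsgLib.FischerLarge.orb L (π ⟨s, hsc⟩) := by
    rw [key _ hs0 hsi hcs.orbit, ← key _ ht0 hti hct.orbit]
    exact CfsgLib.FischerLarge.orb_refl _
  obtain ⟨c, hc⟩ := F.exists_conj hsQ htQ ht0 hmem
  exact ⟨c, c.2, congrArg Subtype.val hc⟩

end Cfsg.Agent.S5441
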