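import Cfsg.Statements.S5442
import Cfsg.Agent.Lib.FischerLarge.Conjugates

set_option autoImplicit false
open Cfsg

namespace Cfsg.Agent.S5442

/-- Let G be a finite group of large Fischer type at the involution z: the generalized Fitting subgroup Q of H = C_G(z) is extraspecial of order 2^13, H has normal subgroups Q ≤ H₁ ≤ H₂ with H₁/Q of order 3, H₂/H₁ the projective special unitary group of dimension 4 over the field with nine elements and H₂ of index 2 in H, and some conjugate of z other than z lies in Q. Let s = g z g⁻¹ be a conjugate of z lying in Q and different from z. Then the intersection of Q and g Q g⁻¹ (as subgroups of G) is elementary abelian of order 2^7; and in H/Q, writing X for the image of the centralizer of s in H and E for the image of the intersection of g Q g⁻¹ with H, E is a normal subgroup of X, elementary abelian of order 32, with X/E isomorphic to the alternating group of degree 6. -/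
theorem result {G : Type*} [Group G] [Finite G] (z : G) (Q : Subgroup (Subgroup.centralizer ({z} : Set G))) [Q.Normal] (hF : Cfsg.IsOfLargeFischerTypeAt z Q) (s : G) (hsQ : ∃ hsc : s ∈ Subgroup.centralizer ({z} : Set G), (⟨s, hsc⟩ : Subgroup.centralizer ({z} : Set G)) ∈ Q) (hs : IsConj z s) (hs1 : s ≠ z) (g : G) (hg : g * z * g⁻¹ = s) (X E : Subgroup ((Subgroup.centralizer ({z} : Set G)) ⧸ Q)) (hX : X = ((Subgroup.centralizer ({z} : Set G) ⊓ Subgroup.centralizer ({s} : Set G)).subgroupOf (Subgroup.centralizer ({z} : Set G))).map (QuotientGroup.mk' Q)) (hE : E = ((((Q.map (Subgroup.centralizer ({z} : Set G)).subtype)).map (MulAut.conj g).toMonoidHom ⊓ Subgroup.centralizer ({z} : Set G)).subgroupOf (Subgroup.centralizer ({z} : Set G))).map (QuotientGroup.mk' Q)) : Cfsg.IsElementaryAbelian 2 ((Q.map (Subgroup.centralizer ({z} : Set G)).subtype) ⊓ ((Q.map (Subgroup.centralizer ({z} : Set G)).subtype)).map (MulAut.conj g).toMonoidHom) ∧ Nat.card ↥((Q.map (Subgroup.centralizer ({z} : Set G)).subtype)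 ⊓ ((Q.map (Subgroup.centralizer ({z} : Set G)).subtype)).map (MulAut.conj g).toMonoidHom) = 2 ^ 7 ∧ E ≤ X ∧ (∀ x ∈ X, ∀ y ∈ E, x * y * x⁻¹ ∈ E) ∧ Cfsg.IsElementaryAbelian 2 E ∧ Nat.card E = 32 ∧ ∃ _ : (E.subgroupOf X).Normal, Nonempty (↥X ⧸ E.subgroupOf X ≃* alternatingGroup (Fin 6)) := by
  obtain ⟨P, _, _, E', S, M, V, _, _, _, L, f, h, π, -, hP, -, hMn, hidx, hQM, F⟩ :=
    CfsgLib.FischerLarge.exists_frame hF
  haveI := hMn
  obtain ⟨hsc, hsQ⟩ := hsQ
  have hc := F.conjFacts hP hQM hidx hF hsQ (g := g) hg hs1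
  have hp := CfsgLib.FischerLarge.largePair hF (g := g) (by rw [hg]; exact ⟨_, hsQ, rfl⟩) (by rw [hg]; exact hs1)
  subst hX hE
  refine ⟨⟨⟨⟨fun a b => Subtype.ext (hp.E_comm a.2 b.2)⟩⟩, fun a ha => by rw [pow_two]; exact hp.E_sq ha⟩,
    hc.cardI, hc.le, hc.normal, ⟨⟨⟨fun a b => Subtype.ext (hc.comm _ a.2 _ b.2)⟩⟩,
      fun a ha => by rw [pow_two]; exact hc.sq a ha⟩, hc.cardE, hc.quot⟩

end Cfsg.Agent.S5442
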