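import Cfsg.Statements.S5443
import Cfsg.Agent.Lib.FischerLarge.StabSixMinus

set_option autoImplicit false
open Cfsg

namespace Cfsg.Agent.S5443

/-- Let G be a finite group of large Fischer type at the involution z: the generalized Fitting subgroup Q of H = C_G(z) is extraspecial of order 2^13, H has normal subgroups Q ≤ H₁ ≤ H₂ with H₁/Q of order 3, H₂/H₁ the projective special unitary group of dimension 4 over the field with nine elements and H₂ of index 2 in H, and some conjugate of z other than z lies in Q. Let t be an involution of Q not conjugate to z in G, and S the set of elements of H conjugating t to t or to t z (the stabilizer of the image of t in Q modulo its centre). Then the image of S in H/Q is isomorphic to the full isometry group of the elliptic quadratic form in dimension 6 over the field with two elements. -/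
theorem result {G : Type*} [Group G] [Finite G] (z : G) (Q : Subgroup (Subgroup.centralizer ({z} : Set G))) [Q.Normal] (hF : Cfsg.IsOfLargeFischerTypeAt z Q) (t : Subgroup.centralizer ({z} : Set G)) (htQ : t ∈ Q) (ht2 : orderOf t = 2) (ht : ¬ IsConj z (t : G)) (S : Subgroup (Subgroup.centralizer ({z} : Set G))) (hS : ∀ h : Subgroup.centralizer ({z} : Set G), h ∈ S ↔ (h * t * h⁻¹ = t ∨ ((h * t * h⁻¹ : Subgroup.centralizer ({z} : Set G)) : G) = t * z)) : Nonempty (↥(S.map (QuotientGroup.mk' Q)) ≃* Cfsg.isometryGroup (ZMod 2) (Cfsg.quadFormMinus 2 (ZMod 2) 1 1)) := by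
  obtain ⟨P, _, _, E, S', M, V, _, _, _, L, f, h, π, -, hP, -, hMn, hidx, hQM, F⟩ :=
    CfsgLib.FischerLarge.exists_frame hF
  haveI := hMn
  have hz1 : z ≠ 1 := fun e => by
    have := hF.1.1
    rw [e, orderOf_one] at this
    norm_num at this
  have hzz : z * z = 1 := by rw [← pow_two, ← hF.1.1, pow_orderOf_eq_one]
  have ht1 : (t : G) ≠ 1 := fun e => by
    rw [show t = 1 from Subtype.ext e, orderOf_one] at ht2
    norm_num at ht2
  have htz : (t : G) ≠ z := fun e => ht (by rw [e])
  have ht0 := F.ne_zero_of htQ ht1 htz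
  have hti : h (π t) (π t) = 0 := (F.sq t htQ).2 (by rw [← pow_two, ← ht2, pow_orderOf_eq_one])
  obtain ⟨g0, ⟨hq0, hgQ⟩, hgne⟩ := hF.1.2.2.2.2
  have hc0 := F.conjFacts hP hQM hidx hF hgQ (g := g0) rfl hgne
  obtain ⟨a, b, -, -, hca, -, -, -, hcb, -, hcov⟩ := F.cover.exists_orbits hP F.cardL
  have hs0 : π ⟨g0 * z * g0⁻¹, hq0⟩ ≠ 0 :=
    F.ne_zero_of hgQ (fun e => hz1 (conj_eq_one_iff.1 e)) hgne
  have hsi : h (π ⟨g0 * z * g0⁻¹, hq0⟩) (π ⟨g0 * z * g0⁻¹, hq0⟩) = 0 := (F.sq _ hgQ).2 (Subtype.ext (by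
    show g0 * z * g0⁻¹ * (g0 * z * g0⁻¹) = 1
    rw [show g0 * z * g0⁻¹ * (g0 * z * g0⁻¹) = g0 * (z * z) * g0⁻¹ by group, hzz]; group))
  have h378 : (CfsgLib.FischerLarge.orb L (π t)).ncard = 378 := by
    rcases hcov (π t) ht0 hti with hm | hm
    · rw [CfsgLib.FischerLarge.orb_eq_of_mem hm]; exact hca
    · exfalso
      rcases hcov _ hs0 hsi with hm' | hm'
      · have := hc0.orbit
        rw [CfsgLib.FischerLarge.orb_eq_of_mem hm', hca] at this
        norm_num at this
      · have hmem : π t ∈ CfsgLib.FischerLarge.orb L (π ⟨g0 * z * g0⁻¹, hq0⟩) := by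
          rw [CfsgLib.FischerLarge.orb_eq_of_mem hm']; exact hm
        obtain ⟨c, hc⟩ := F.exists_conj hgQ htQ ht0 hmem
        refine ht (isConj_iff.2 ⟨(c : G) * g0, ?_⟩)
        rw [← hc]
        show (c : G) * g0 * z * ((c : G) * g0)⁻¹ = (c : G) * (g0 * z * g0⁻¹) * (c : G)⁻¹
        group
  refine F.nonempty_stab_iso hP hQM hidx hF htQ ht0 hti h378 S fun c => ?_
  rw [hS]
  constructor
  · rintro (e | e)
    · rw [e]
    · have hzc : z ∈ Subgroup.centralizer ({z} : Set G) := Subgroup.mem_centralizer_singleton_iff.2 rfl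
      have e' : c * t * c⁻¹ = t * ⟨z, hzc⟩ := Subtype.ext e
      have hzQ : (⟨z, hzc⟩ : Subgroup.centralizer ({z} : Set G)) ∈ Q := by
        have := Q.mul_mem (Q.inv_mem htQ) (Subgroup.Normal.conj_mem inferInstance t htQ c)
        rw [e', inv_mul_cancel_left] at this
        exact this
      rw [e', F.map_mul t htQ _ hzQ, (F.ker _ hzQ).2 (Or.inr rfl), add_zero]
  · intro e
    exact F.fiber htQ (Subgroup.Normal.conj_mem inferInstance t htQ c) e.symm

end Cfsg.Agent.S5443
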