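import Cfsg.Statements.S5445
import Cfsg.Agent.S5441
import Cfsg.Agent.Lib.FischerLarge.LineNormalizer

set_option autoImplicit false
open Cfsg

namespace Cfsg.Agent.S5445

/-- Let G be a finite group of large Fischer type at the involution z: the generalized Fitting subgroup Q of H = C_G(z) is extraspecial of order 2^13, H has normal subgroups Q ≤ H₁ ≤ H₂ with H₁/Q of order 3, H₂/H₁ the projective special unitary group of dimension 4 over the field with nine elements and H₂ of index 2 in H, and some conjugate of z other than z lies in Q. Then G has an elementary abelian subgroup V of order 8 containing z whose normalizer L has the following structure: the largest normal 2-subgroup R of L is special of order 2^15 with centre V, and L/R is isomorphic to the direct product of SL(3, 2) and the alternating group of degree 6. -/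
theorem result {G : Type*} [Group G] [Finite G] (z : G) (Q : Subgroup (Subgroup.centralizer ({z} : Set G))) [Q.Normal] (hF : Cfsg.IsOfLargeFischerTypeAt z Q) : ∃ V : Subgroup G, Cfsg.IsElementaryAbelian 2 V ∧ Nat.card V = 8 ∧ z ∈ V ∧ ∃ R : Subgroup G, R = (Cfsg.pCore 2 ↥(Subgroup.normalizer (V : Set G))).map (Subgroup.normalizer (V : Set G)).subtype ∧ Cfsg.IsSpecial 2 ↥R ∧ Nat.card R = 2 ^ 15 ∧ (Subgroup.center ↥R).map R.subtype = V ∧ ∃ _ : (R.subgroupOf (Subgroup.normalizer (V : Set G))).Normal, Nonempty (↥(Subgroup.normalizer (V : Set G)) ⧸ R.subgroupOf (Subgroup.normalizer (V : Set G)) ≃* Matrix.SpecialLinearGroup (Fin 3) (ZMod 2) × ↥(alternatingGroup (Fin 6))) := by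
  obtain ⟨P, _, _, E, Sp, M, Vm, _, _, _, L, f, h, π, -, hP, -, -, hidx, hQM, F⟩ :=
    CfsgLib.FischerLarge.exists_frame hF
  haveI : M.Normal := Subgroup.normal_of_index_eq_two hidx
  obtain ⟨⟨-, -, -, hcard, g, ⟨hsc, hsQ⟩, hs0ne⟩, -⟩ := id hF
  obtain ⟨s, hs, hg⟩ : ∃ s : CfsgLib.FischerLarge.Cz z, s ∈ Q ∧ g * z * g⁻¹ = (s : G) := ⟨_, hsQ, rfl⟩
  have hsne : (s : G) ≠ z := hg ▸ hs0ne
  have hconj0 : IsConj z (s : G) := isConj_iff.2 ⟨g, hg⟩
  have hpair := CfsgLib.FischerLarge.largePair hF (g := g)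
    (by rw [hg]; exact ⟨s, hs, rfl⟩) (by rw [hg]; exact hsne)
  have S : CfsgLib.FischerLarge.LineSetting Q M L f h π s g :=
    ⟨F, hQM, hidx, hs, hg, hpair, F.conjFacts hP hQM hidx hF hs hg hsne, hcard, F.cover.exists_monomial hP⟩
  -- an element exchanging `z` and `s`
  obtain ⟨t, ht, hte⟩ := hpair.z_mem_conj
  obtain ⟨h0, hh0⟩ : ∃ h0 : CfsgLib.FischerLarge.Cz z,
      (h0 : G) * s * (h0 : G)⁻¹ = g⁻¹ * z * g := by
    obtain ⟨tc, htcQ, rfl⟩ := ht
    have hte' : g * (tc : G) * g⁻¹ = z := hte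
    have htz : (tc : G) = g⁻¹ * z * g := by
      calc (tc : G) = g⁻¹ * (g * (tc : G) * g⁻¹) * g := by group
        _ = _ := by rw [hte']
    have htconj : IsConj z (tc : G) := isConj_iff.2 ⟨g⁻¹, by rw [htz]; group⟩
    have htne : (tc : G) ≠ z := fun e => hpair.s_ne (by rw [← e, hte', e])
    obtain ⟨c, hc, hce⟩ := Cfsg.Agent.S5441.result z Q hF (s : G) (tc : G) ⟨s.2, hs⟩ ⟨tc.2, htcQ⟩
      hconj0 htconj hsne htne
    exact ⟨⟨c, hc⟩, hce.trans htz⟩
  set V := CfsgLib.FischerLarge.lineG Q g with hV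
  refine ⟨V, S.elem_line, S.card_line, S.z_line, ?_⟩
  have htrans := fun x hx hx1 => S.transitive hh0 (x := x) hx hx1
  set N := Subgroup.normalizer (V : Set G) with hN
  obtain ⟨w, hwQ, hwV, hπw⟩ := S.exists_om_line
  -- the action on `V`
  let φ₀ : ↥N →* MulAut ↥V := V.normalizerMonoidHom
  have hφ₀ : ∀ (n : ↥N) (x : ↥V), ((φ₀ n x : ↥V) : G) = (n : G) * x * (n : G)⁻¹ := fun _ _ => rfl
  obtain ⟨⟨iso⟩, hrange⟩ := CfsgLib.FischerLarge.exists_autEquiv (A := ↥V) S.card_line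
    (fun a => Subtype.ext (S.line_sq a.2)) (z := ⟨z, S.z_line⟩) (s := ⟨s, S.s_line⟩) (w := ⟨w, hwV⟩)
    (fun x => by
      obtain ⟨i, j, k, e⟩ := S.line_gen hwQ hπw x.2
      refine ⟨i, j, k, Subtype.ext ?_⟩
      rw [e]
      cases i <;> cases j <;> cases k <;> rfl)
    φ₀.range
    (fun a ha => by
      obtain ⟨n, hn, hne⟩ := htrans (a : G) a.2 (fun e => ha (Subtype.ext e))
      exact ⟨_, ⟨⟨n, hn⟩, rfl⟩, Subtype.ext hne⟩)
    (fun i j => by
      obtain ⟨q, hq, hqs, hqw⟩ := S.exists_transvection hwQ hπw i j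
      refine ⟨_, ⟨⟨q, S.Q_norm hq⟩, rfl⟩, Subtype.ext ?_, Subtype.ext ?_, Subtype.ext ?_⟩
      · show (q : G) * z * (q : G)⁻¹ = z
        exact mul_inv_eq_iff_eq_mul.2 (Subgroup.mem_centralizer_singleton_iff.1 q.2)
      · show (q : G) * s * (q : G)⁻¹ = _
        rw [hqs]
        cases i <;> rfl
      · show (q : G) * w * (q : G)⁻¹ = _
        rw [hqw]
        cases j <;> rfl)
  let φ : ↥N →* Matrix.SpecialLinearGroup (Fin 3) (ZMod 2) := iso.toMonoidHom.comp φ₀
  have hφ : Function.Surjective φ := iso.surjective.comp (MonoidHom.range_eq_top.1 hrange)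
  have hker : ∀ n : ↥N, n ∈ φ.ker ↔ (n : G) ∈ Subgroup.centralizer (V : Set G) := by
    intro n
    rw [MonoidHom.mem_ker]
    show iso (φ₀ n) = 1 ↔ _
    rw [MulEquiv.map_eq_one_iff, ← MonoidHom.mem_ker, Subgroup.normalizerMonoidHom_ker, Subgroup.mem_subgroupOf]
  have hCcz : Subgroup.centralizer (V : Set G) ≤ CfsgLib.FischerLarge.Cz z := fun x hx =>
    Subgroup.mem_centralizer_singleton_iff.2 (Subgroup.mem_centralizer_iff.1 hx z S.z_line).symm
  let j : φ.ker →* CfsgLib.FischerLarge.lineC Q g :=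
    { toFun := fun n => ⟨⟨((n : ↥N) : G), hCcz ((hker n).1 n.2)⟩, Subgroup.mem_subgroupOf.2 ((hker n).1 n.2)⟩
      map_one' := rfl
      map_mul' := fun _ _ => rfl }
  have hj : Function.Bijective j := by
    constructor
    · intro a b e
      exact Subtype.ext (Subtype.ext (congrArg (fun x => ((x : CfsgLib.FischerLarge.Cz z) : G))
        (congrArg Subtype.val e) :))
    · rintro ⟨c, hc⟩
      have hcC : (c : G) ∈ Subgroup.centralizer (V : Set G) := Subgroup.mem_subgroupOf.1 hc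
      have hcN : (c : G) ∈ N := Subgroup.centralizer_le_normalizer _ hcC
      exact ⟨⟨⟨(c : G), hcN⟩, (hker ⟨(c : G), hcN⟩).2 hcC⟩, rfl⟩
  obtain ⟨θ₀, hθ₀, hθ₀k⟩ := S.exists_theta
  let θ : φ.ker →* ↥(alternatingGroup (Fin 6)) := θ₀.comp j
  have hθ : Function.Surjective θ := hθ₀.comp hj.2
  have hkθ : ∀ n : φ.ker, n ∈ θ.ker ↔ ((n : ↥N) : G) ∈ (CfsgLib.FischerLarge.lineR Q g).map
      (CfsgLib.FischerLarge.Cz z).subtype := by
    intro n
    show j n ∈ θ₀.ker ↔ _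
    rw [hθ₀k, Subgroup.mem_subgroupOf]
    exact ⟨fun h => ⟨_, h, rfl⟩, fun ⟨c, hc, e⟩ =>
      (show c = ((j n : CfsgLib.FischerLarge.lineC Q g) : CfsgLib.FischerLarge.Cz z) from Subtype.ext e) ▸ hc⟩
  set R := (CfsgLib.FischerLarge.lineR Q g).map (CfsgLib.FischerLarge.Cz z).subtype with hR
  have hRC : R ≤ Subgroup.centralizer (V : Set G) := by
    rintro _ ⟨c, hc, rfl⟩
    exact Subgroup.mem_subgroupOf.1 hc.1
  have hRN : R ≤ N := hRC.trans (Subgroup.centralizer_le_normalizer _)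
  have heq : θ.ker.map φ.ker.subtype = R.subgroupOf N := by
    ext n
    rw [Subgroup.mem_subgroupOf]
    constructor
    · rintro ⟨m, hm, rfl⟩
      exact (hkθ m).1 hm
    · intro hn
      exact ⟨⟨n, (hker n).2 (hRC hn)⟩, (hkθ _).2 hn, rfl⟩
  have hR15 : Nat.card ↥R = 2 ^ 15 := by
    rw [hR, Subgroup.card_map_of_injective (CfsgLib.FischerLarge.Cz z).subtype_injective, S.card_lineR]
  have hRp : IsPGroup 2 ↥R := IsPGroup.of_card hR15
  have hθp : IsPGroup 2 θ.ker := by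
    have h2 : IsPGroup 2 (θ.ker.map φ.ker.subtype) := by
      rw [heq]; exact hRp.of_equiv (Subgroup.subgroupOfEquivOfLe hRN).symm
    exact h2.of_equiv (θ.ker.equivMapOfInjective φ.ker.subtype φ.ker.subtype_injective).symm
  haveI := CfsgLib.FischerLarge.isSimple_SL3
  haveI : IsSimpleGroup ↥(alternatingGroup (Fin 6)) := alternatingGroup.isSimpleGroup (by simp)
  have hA6 : ¬ IsPGroup 2 ↥(alternatingGroup (Fin 6)) := fun hp => by
    haveI : Fact (Nat.Prime 2) := ⟨Nat.prime_two⟩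
    obtain ⟨k, hk⟩ := IsPGroup.iff_card.1 hp
    rw [nat_card_alternatingGroup, Nat.card_fin] at hk
    have hd : 5 ∣ 2 ^ k := hk ▸ (by decide)
    exact absurd ((show Nat.Prime 5 by norm_num).dvd_of_dvd_pow hd) (by norm_num)
  have hA6c : Subgroup.center ↥(alternatingGroup (Fin 6)) = ⊥ :=
    alternatingGroup.center_eq_bot (by simp)
  obtain ⟨q, hq, hqs, -⟩ := S.exists_transvection hwQ hπw true false
  obtain ⟨hcore, hRn, ⟨e⟩⟩ := CfsgLib.FischerLarge.product_structure CfsgLib.FischerLarge.not_isPGroup_SL3 hA6 hA6c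
    φ hφ θ hθ hθp (q := ⟨q, S.Q_norm hq⟩) (fun hφq => by
      have h1 := Subgroup.mem_centralizer_iff.1 ((hker _).1 hφq) s S.s_line
      rw [mul_inv_eq_iff_eq_mul.2 (show (q : G) * s = s * q from h1.symm), left_eq_mul] at hqs
      exact hpair.z_ne_one hqs)
    (fun c hc => by
      rw [heq, Subgroup.mem_subgroupOf]
      have hcC := (hker c).1 hc
      refine ⟨q * ⟨c, hCcz hcC⟩ * q⁻¹ * (⟨c, hCcz hcC⟩ : CfsgLib.FischerLarge.Cz z)⁻¹,
        S.CQ_le_R ⟨Subgroup.mem_subgroupOf.2 ?_, ?_⟩, rfl⟩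
      · refine mul_mem ?_ (inv_mem hcC)
        exact (hker _).1 (φ.normal_ker.conj_mem c hc ⟨q, S.Q_norm hq⟩)
      · rw [mul_assoc, mul_assoc, ← mul_assoc _ q⁻¹]
        exact mul_mem hq ((‹Q.Normal›).conj_mem _ (inv_mem hq) _))
  have hRnN : (R.subgroupOf N).Normal := heq ▸ hRn
  have hnorm : ∀ n ∈ N, ∀ r ∈ R, n * r * n⁻¹ ∈ R := fun n hn r hr =>
    Subgroup.mem_subgroupOf.1 (hRnN.conj_mem ⟨r, hRN hr⟩ (Subgroup.mem_subgroupOf.2 hr) ⟨n, hn⟩)
  obtain ⟨hsp, hcen⟩ := S.special_R htrans hnorm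
  refine ⟨R, ?_, hsp, hR15, hcen, hRnN, ⟨(QuotientGroup.quotientMulEquivOfEq heq.symm).trans e⟩⟩
  rw [← hcore, heq, Subgroup.subgroupOf_map_subtype, inf_eq_left.2 hRN]

end Cfsg.Agent.S5445
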