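import Cfsg.Statements.S5448
import Cfsg.Agent.Lib.LargeFischer.Base.Fusion
import Cfsg.Agent.Lib.LargeFischer.Base.Final
import Cfsg.Agent.Lib.LargeFischer.Base.LayerRows
import Cfsg.Agent.Lib.LargeFischer.Base.Normal

set_option autoImplicit false
open scoped Pointwise
open Cfsg

namespace Cfsg.Agent.S5448

/-- Let G be a finite group of large Fischer type at the involution z: the generalized Fitting subgroup Q of H = C_G(z) is extraspecial of order 2^13, H has normal subgroups Q ≤ H₁ ≤ H₂ with H₁/Q of order 3, H₂/H₁ the projective special unitary group of dimension 4 over the field with nine elements and H₂ of index 2 in H, and some conjugate of z other than z lies in Q. Let T be a Sylow 2-subgroup of G, A its Thompson subgroup, M = N_G(A) its normalizer, and t an involution of A not conjugate to z in G. Then the centralizer of t in M, modulo A, is isomorphic to the setwise stabilizer of a two-element subset of the 24 points in the Mathieu group of degree 24 (the automorphism group of the smaller Mathieu group on 22 points). -/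
theorem result {G : Type*} [Group G] [Finite G] (z : G) (Q : Subgroup (Subgroup.centralizer ({z} : Set G))) [Q.Normal] (hF : Cfsg.IsOfLargeFischerTypeAt z Q) (T : Sylow 2 G) (A M : Subgroup G) (hA : A = Cfsg.thompsonSubgroupOf 2 (T : Subgroup G)) (hM : M = Subgroup.normalizer (A : Set G)) (t : G) (htA : t ∈ A) (ht2 : orderOf t = 2) (ht : ¬ IsConj z t) : ∃ _ : (A.subgroupOf (M ⊓ Subgroup.centralizer ({t} : Set G))).Normal, Nonempty (↥(M ⊓ Subgroup.centralizer ({t} : Set G)) ⧸ A.subgroupOf (M ⊓ Subgroup.centralizer ({t} : Set G)) ≃* ↥(Cfsg.M24 ⊓ MulAction.stabilizer (Equiv.Perm Cfsg.GolayPt) ({none, some 0} : Set Cfsg.GolayPt))) := by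
  obtain ⟨C, hc⟩ := CfsgLib.LargeFischer.Base.exists_normal_coords hF
  obtain ⟨g, hg⟩ := CfsgLib.LargeFischer.Base.thompsonSubgroupOf_eq_conj hF.1 C hc T
  obtain ⟨Lay, hLay⟩ := CfsgLib.LargeFischer.Base.exists_layer_baseA hF.1 hc
  have hA' : A = Lay.A.map (MulAut.conj g).toMonoidHom := by rw [hLay]; exact hA.trans hg
  refine CfsgLib.LargeFischer.Base.duad_of_layer Lay g A M hA' hM t htA ?_ ht
  intro e
  rw [e, orderOf_one] at ht2
  norm_num at ht2

end Cfsg.Agent.S5448
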