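import Cfsg.Statements.S5450
import Cfsg.Agent.Lib.LargeFischer.TypeTwo.Main
import Cfsg.Agent.Lib.LargeFischer.TypeTwo.Transport
import Cfsg.Agent.Lib.LargeFischer.Base.Final
import Cfsg.Agent.Lib.LargeFischer.Base.Normal

set_option autoImplicit false
open Cfsg

namespace Cfsg.Agent.S5450

open CfsgLib.FischerLarge.U62 in
/-- Let G be a finite group of large Fischer type at the involution z: the generalized Fitting subgroup Q of H = C_G(z) is extraspecial of order 2^13, H has normal subgroups Q ≤ H₁ ≤ H₂ with H₁/Q of order 3, H₂/H₁ the projective special unitary group of dimension 4 over the field with nine elements and H₂ of index 2 in H, and some conjugate of z other than z lies in Q. Let t be an involution of Q not conjugate to z in G, and K the generalized Fitting subgroup of the centralizer of t. Then K is quasisimple of index 2 in the centralizer of t, contains t, and the centralizer of t modulo the subgroup generated by t is isomorphic to the full automorphism group of the Fischer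 group Fi₂₂ (as presented). -/
theorem result {G : Type*} [Group G] [Finite G] (z : G) (Q : Subgroup (Subgroup.centralizer ({z} : Set G))) [Q.Normal] (hF : Cfsg.IsOfLargeFischerTypeAt z Q) (t : G) (htQ : ∃ htc : t ∈ Subgroup.centralizer ({z} : Set G), (⟨t, htc⟩ : Subgroup.centralizer ({z} : Set G)) ∈ Q) (ht2 : orderOf t = 2) (ht : ¬ IsConj z t) (K : Subgroup ↥(Subgroup.centralizer ({t} : Set G))) (hK : K = Cfsg.generalizedFittingSubgroup ↥(Subgroup.centralizer ({t} : Set G))) [hn : ((Subgroup.zpowers t).subgroupOf (Subgroup.centralizer ({t} : Set G))).Normal] : Cfsg.IsQuasisimple ↥K ∧ K.index = 2 ∧ (∃ htc : t ∈ Subgroup.centralizer ({t} : Set G), (⟨t, htc⟩ : ↥(Subgroup.centralizer ({t} : Set G))) ∈ K) ∧ Nonempty (↥(Subgroup.centralizer ({t} : Set G)) ⧸ (Subgroup.zpowers t).subgroupOf (Subgroup.centralizer ({t} : Set G)) ≃* MulAut Cfsg.Spor.Fi22) := by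
  obtain ⟨C, hc⟩ := CfsgLib.LargeFischer.Base.exists_normal_coords hF
  obtain ⟨Ly0, -⟩ := CfsgLib.LargeFischer.Base.exists_layer_baseA hF.1 hc
  obtain ⟨P, _, _, E, S, M, V, _, _, _, L, f, h, π, Ly, x, pf, hP, St⟩ := exists_setup hF Ly0
  obtain ⟨⟨φ₀, K₀⟩, hst⟩ := St.exists_coord hP hF
  obtain ⟨φ, Kc, hu0, hu1⟩ := St.exists_std K₀
  obtain ⟨e⟩ := St.nonempty_equiv Kc hu0 hu1 hst
  have hbase : CfsgLib.LargeFischer.TypeTwo.Transport.Concl (Ly.D (CfsgLib.Golay.pt 0) (CfsgLib.Golay.pt 1)) :=
    fun K' hK' => CfsgLib.LargeFischer.TypeTwo.main St hF (St.isQuasisimple e) e K' hK'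
  obtain ⟨t1, t2⟩ := mem_QG'.1 St.base_mem
  obtain ⟨g, hg⟩ := CfsgLib.LargeFischer.TypeTwo.Transport.exists_conj_noncentral hF ⟨t1, t2⟩ htQ
    (orderOf_eq_prime (by rw [pow_two]; exact Ly.D_mul_self _ _) (Ly.D_ne_one pt_small_ne.1)) ht2
    (Ly.D_not_conj pt_small_ne.1) ht
  exact CfsgLib.LargeFischer.TypeTwo.Transport.concl_conj g hg hbase K hK

end Cfsg.Agent.S5450
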