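import Cfsg.Statements.S5452
import Cfsg.Agent.Lib.Fischer2.UnitarySixModel

set_option autoImplicit false
open Cfsg

namespace Cfsg.Agent.S5452

/-- Let G be a finite group with an involution d whose centralizer C is quasisimple with C modulo the subgroup generated by d isomorphic to the projective special unitary group of dimension 6 over the field with four elements, and suppose some conjugate of d other than d commutes with d. Then every involution of C modulo the subgroup generated by d is the image of an involution of C, and d is not a square in G. -/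
theorem result {G : Type*} [Group G] [Finite G] (d : G) (hd : orderOf d = 2) (hq : Cfsg.IsQuasisimple ↥(Subgroup.centralizer ({d} : Set G))) [hzn : ((Subgroup.zpowers d).subgroupOf (Subgroup.centralizer ({d} : Set G))).Normal] (K : Type) [Field K] [Fintype K] (hK : Fintype.card K = 4) (e : ↥(Subgroup.centralizer ({d} : Set G)) ⧸ (Subgroup.zpowers d).subgroupOf (Subgroup.centralizer ({d} : Set G)) ≃* Cfsg.PSU 6 K 2) (hnwc : ∃ g : G, g * d * g⁻¹ ∈ Subgroup.centralizer ({d} : Set G) ∧ g * d * g⁻¹ ≠ d) : (∀ x : ↥(Subgroup.centralizer ({d} : Set G)) ⧸ (Subgroup.zpowers d).subgroupOf (Subgroup.centralizer ({d} : Set G)), orderOf x = 2 → ∃ y : ↥(Subgroup.centralizer ({d} : Set G)), orderOf y = 2 ∧ (QuotientGroup.mk y : ↥(Subgroup.centralizer ({d} : Set G)) ⧸ (Subgroup.zpowers d).subgroupOf (Subgroup.centralizer ({d} : Set G))) = x) ∧ ¬ ∃ g : G, g ^ 2 = d := by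
  classical
  have hd1 : d ≠ 1 := by intro h; rw [h, orderOf_one] at hd; omega
  have hd2 : d * d = 1 := by rw [← pow_two, ← hd]; exact pow_orderOf_eq_one d
  set C := Subgroup.centralizer ({d} : Set G) with hC
  have hdC : d ∈ C := Subgroup.mem_centralizer_singleton_iff.2 rfl
  set dC : C := ⟨d, hdC⟩ with hdCdef
  have hdcen : ∀ x : C, dC * x = x * dC := fun x =>
    Subtype.ext (Subgroup.mem_centralizer_singleton_iff.1 x.2).symm
  have hdC2 : dC * dC = 1 := Subtype.ext hd2
  set π : C →* Cfsg.PSU 6 K 2 := e.toMonoidHom.comp (QuotientGroup.mk' _) with hπdef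
  have hπ : Function.Surjective π := e.surjective.comp (QuotientGroup.mk'_surjective _)
  have hker : ∀ x, π x = 1 → x = 1 ∨ x = dC := by
    intro x hx
    have hx' : (QuotientGroup.mk x : C ⧸ (Subgroup.zpowers d).subgroupOf C) = 1 :=
      e.injective (by rw [map_one]; exact hx)
    rw [QuotientGroup.eq_one_iff, Subgroup.mem_subgroupOf, Subgroup.mem_zpowers_iff] at hx'
    obtain ⟨n, hn⟩ := hx'
    have hdz : d ^ (2 : ℤ) = 1 := by rw [zpow_two, hd2]
    rcases Int.even_or_odd n with ⟨m, hm⟩ | ⟨m, hm⟩ <;> subst hm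
    · left
      refine Subtype.ext ?_
      rw [← hn, ← two_mul, zpow_mul, hdz, one_zpow]; rfl
    · right
      refine Subtype.ext ?_
      rw [← hn, zpow_add_one, zpow_mul, hdz, one_zpow, one_mul]
  have hlift : ∀ a : C, π a * π a = 1 → a * a = 1 := fun a ha =>
    CfsgLib.Fischer2.UnitarySix.sq_eq_one_of_involution hK π hπ hker hdcen hdC2 ha
  constructor
  · intro x hx
    obtain ⟨y, rfl⟩ := QuotientGroup.mk_surjective x
    have hxx : (QuotientGroup.mk y : C ⧸ (Subgroup.zpowers d).subgroupOf C) * QuotientGroup.mk y = 1 := by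
      rw [← pow_two, ← hx]; exact pow_orderOf_eq_one _
    have hy : y * y = 1 := hlift y (by
      show e _ * e _ = 1
      rw [← map_mul]
      exact (congrArg e hxx).trans (map_one e))
    refine ⟨y, orderOf_eq_prime (by rw [pow_two, hy]) ?_, rfl⟩
    intro h
    subst h
    rw [QuotientGroup.mk_one, orderOf_one] at hx
    omega
  · rintro ⟨g, hg⟩
    rw [pow_two] at hg
    have hgC : g ∈ C := Subgroup.mem_centralizer_singleton_iff.2 (by rw [← hg, mul_assoc])
    have h1 : (⟨g, hgC⟩ : C) * ⟨g, hgC⟩ = dC := Subtype.ext hg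
    have h2 := hlift ⟨g, hgC⟩ (by
      rw [← map_mul, h1]
      show e (QuotientGroup.mk dC) = 1
      rw [(QuotientGroup.eq_one_iff dC).2 (Subgroup.mem_subgroupOf.2 (Subgroup.mem_zpowers d)),
        map_one])
    exact hd1 (congrArg Subtype.val (h1.symm.trans h2))

end Cfsg.Agent.S5452
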