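import Cfsg.Statements.S5453
import Cfsg.Agent.Lib.Fischer.TypeTwentyTwoClasses

set_option autoImplicit false
open Cfsg

namespace Cfsg.Agent.S5453

/-- Let G be a finite group with an involution d whose centralizer C is quasisimple, such that C modulo the subgroup generated by d is of type M(22) with respect to some conjugacy class of 3-transpositions generating it and also has an involution whose own centralizer is quasisimple with quotient by it isomorphic to the projective special unitary group of dimension 6 over the field with four elements and which is not weakly closed in that centralizer; and suppose some conjugate of d other than d commutes with d. Then every involution of C modulo the subgroup generated by d is the image of an involution of C, and d is not a square in G. -/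
theorem result {G : Type*} [Group G] [Finite G] (d : G) (hd : orderOf d = 2) (hq : Cfsg.IsQuasisimple ↥(Subgroup.centralizer ({d} : Set G))) [hzn : ((Subgroup.zpowers d).subgroupOf (Subgroup.centralizer ({d} : Set G))).Normal] (htype : ∃ E : Set (↥(Subgroup.centralizer ({d} : Set G)) ⧸ (Subgroup.zpowers d).subgroupOf (Subgroup.centralizer ({d} : Set G))), Cfsg.IsThreeTranspositionClass E ∧ Cfsg.IsOfTypeM22 _ E) (hinvol : ∃ d' : ↥(Subgroup.centralizer ({d} : Set G)) ⧸ (Subgroup.zpowers d).subgroupOf (Subgroup.centralizer ({d} : Set G)), orderOf d' = 2 ∧ Cfsg.IsQuasisimple ↥(Subgroup.centralizer ({d'} : Set _)) ∧ (∃ (K : Type) (_ : Field K) (_ : Fintype K), Fintype.card K = 4 ∧ ∃ _ : ((Subgroup.zpowers d').subgroupOf (Subgroup.centralizer ({d'} : Set _))).Normal, Nonempty (↥(Subgroup.centralizer ({d'} : Set _)) ⧸ (Subgroup.zpowers d').subgroupOf (Subgroup.centralizer ({d'} : Set _)) ≃* Cfsg.PSU 6 K 2)) ∧ ∃ g, g * d' * g⁻¹ ∈ Subgroup.centralizer ({d'} : Set _) ∧ g * d' * g⁻¹ ≠ d') (hnwc : ∃ g : G, g * d * g⁻¹ ∈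 Subgroup.centralizer ({d} : Set G) ∧ g * d * g⁻¹ ≠ d) : (∀ x : ↥(Subgroup.centralizer ({d} : Set G)) ⧸ (Subgroup.zpowers d).subgroupOf (Subgroup.centralizer ({d} : Set G)), orderOf x = 2 → ∃ y : ↥(Subgroup.centralizer ({d} : Set G)), orderOf y = 2 ∧ (QuotientGroup.mk y : ↥(Subgroup.centralizer ({d} : Set G)) ⧸ (Subgroup.zpowers d).subgroupOf (Subgroup.centralizer ({d} : Set G))) = x) ∧ ¬ ∃ g : G, g ^ 2 = d := by
  obtain ⟨E, hE, hT⟩ := htype
  obtain ⟨t, ho, hqt, ⟨K, iK, iK', hK, hn, ⟨e⟩⟩, -⟩ := hinvol
  set C := Subgroup.centralizer ({d} : Set G) with hC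
  have hd1 : d ≠ 1 := by intro h; rw [h, orderOf_one] at hd; omega
  have hd2 : d * d = 1 := by rw [← pow_two, ← hd]; exact pow_orderOf_eq_one d
  set Z := (Subgroup.zpowers d).subgroupOf C
  have hdC : d ∈ C := Subgroup.mem_centralizer_singleton_iff.2 rfl
  let dC : C := ⟨d, hdC⟩
  have hdcen : ∀ x : C, Commute dC x := fun x =>
    Subtype.ext (Subgroup.mem_centralizer_singleton_iff.1 x.2).symm
  have hdC2 : dC * dC = 1 := Subtype.ext hd2
  have hker : ∀ x : C, (QuotientGroup.mk' Z) x = 1 ↔ x = 1 ∨ x = dC := by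
    intro x
    rw [QuotientGroup.mk'_apply, QuotientGroup.eq_one_iff, Subgroup.mem_subgroupOf]
    constructor
    · intro h
      obtain ⟨n, hn⟩ := Subgroup.mem_zpowers_iff.1 h
      rcases Int.even_or_odd n with ⟨m, hm⟩ | ⟨m, hm⟩
      · left
        refine Subtype.ext ?_
        rw [← hn, hm, zpow_add, ← (Commute.refl d).mul_zpow, hd2, one_zpow]
        rfl
      · right
        refine Subtype.ext ?_
        rw [← hn, hm, zpow_add_one, two_mul, zpow_add, ← (Commute.refl d).mul_zpow, hd2, one_zpow, one_mul]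
    · rintro (rfl | rfl)
      · exact one_mem _
      · exact Subgroup.mem_zpowers d
  have hcenZ : Subgroup.center C = Z := by
    refine le_antisymm (fun x hx => ?_) (fun x hx => ?_)
    · have : (QuotientGroup.mk' Z) x ∈ Subgroup.center (C ⧸ Z) := Subgroup.mem_center_iff.2 fun p => by
        obtain ⟨p, rfl⟩ := QuotientGroup.mk'_surjective _ p
        rw [← map_mul, ← map_mul, Subgroup.mem_center_iff.1 hx p]
      rw [hT.1, Subgroup.mem_bot] at this
      exact (QuotientGroup.eq_one_iff x).1 this
    · rcases (hker x).1 ((QuotientGroup.eq_one_iff x).2 hx) with rfl | rfl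
      · exact one_mem _
      · exact Subgroup.mem_center_iff.2 fun p => (hdcen p).symm.eq
  haveI : IsSimpleGroup (C ⧸ Z) := by
    haveI := hq.2
    exact (QuotientGroup.quotientMulEquivOfEq hcenZ).symm.isSimpleGroup
  have hprim := CfsgLib.Fischer.TypeTwentyTwo.primitive_of_simple hE hT
  have hG := CfsgLib.Fischer.group_of_class hE
  have hlift : ∀ x : C, (QuotientGroup.mk' Z) x * (QuotientGroup.mk' Z) x = 1 → x * x = 1 := fun x hx =>
    CfsgLib.Fischer.TypeTwentyTwo.sq_eq_one_lift hG hprim hT
      (fun f hf => CfsgLib.Fischer.TypeTwentyTwo.centralizer_eq hG hprim hT ho hqt hK e hf)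
      (QuotientGroup.mk' Z) (QuotientGroup.mk'_surjective _) (d := dC)
      (fun h => hd1 (congrArg Subtype.val h)) hker hdcen hdC2 hx
  constructor
  · intro x hx
    obtain ⟨y, rfl⟩ := QuotientGroup.mk_surjective x
    have hy : y * y = 1 := hlift y (by
      rw [QuotientGroup.mk'_apply, ← pow_two, ← hx]
      exact pow_orderOf_eq_one _)
    refine ⟨y, orderOf_eq_prime (by rw [pow_two, hy]) ?_, rfl⟩
    intro h
    subst h
    rw [QuotientGroup.mk_one, orderOf_one] at hx
    omega
  · rintro ⟨g, hg⟩
    rw [pow_two] at hg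
    have hgC : g ∈ C := Subgroup.mem_centralizer_singleton_iff.2 (by rw [← hg, mul_assoc])
    have h1 : (⟨g, hgC⟩ : C) * ⟨g, hgC⟩ = dC := Subtype.ext hg
    have h2 := hlift ⟨g, hgC⟩ (by rw [← map_mul, h1]; exact (hker dC).2 (Or.inr rfl))
    exact hd1 (congrArg Subtype.val (h1.symm.trans h2))

end Cfsg.Agent.S5453
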