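import Cfsg.Statements.S5454
import Cfsg.Agent.Lib.Fischer.U6Plane.Setup

set_option autoImplicit false
open Cfsg

namespace Cfsg.Agent.S5454

/-- Let G be a finite group with an involution d whose centralizer C is quasisimple with C modulo the subgroup generated by d isomorphic to the projective special unitary group of dimension 6 over the field with four elements, and suppose some conjugate of d other than d commutes with d. Let S be a Sylow 2-subgroup of C and A the Thompson subgroup of S (generated by the elementary abelian subgroups of S of largest order), regarded as a subgroup of G. Then A is elementary abelian of order 2^10, exactly 22 conjugates of d lie in A, and the normalizer of A permutes them transitively. -/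
theorem result {G : Type*} [Group G] [Finite G] (d : G) (hd : orderOf d = 2) (hq : Cfsg.IsQuasisimple ↥(Subgroup.centralizer ({d} : Set G))) [hzn : ((Subgroup.zpowers d).subgroupOf (Subgroup.centralizer ({d} : Set G))).Normal] (K : Type) [Field K] [Fintype K] (hK : Fintype.card K = 4) (e : ↥(Subgroup.centralizer ({d} : Set G)) ⧸ (Subgroup.zpowers d).subgroupOf (Subgroup.centralizer ({d} : Set G)) ≃* Cfsg.PSU 6 K 2) (hnwc : ∃ g : G, g * d * g⁻¹ ∈ Subgroup.centralizer ({d} : Set G) ∧ g * d * g⁻¹ ≠ d) (S : Sylow 2 ↥(Subgroup.centralizer ({d} : Set G))) (A : Subgroup G) (hA : A = (Cfsg.thompsonSubgroupOf 2 (S : Subgroup ↥(Subgroup.centralizer ({d} : Set G)))).map (Subgroup.centralizer ({d} : Set G)).subtype) : Cfsg.IsElementaryAbelian 2 A ∧ Nat.card A = 2 ^ 10 ∧ Set.ncard {x : G | x ∈ A ∧ IsConj d x} = 22 ∧ ∀ x ∈ A, ∀ y ∈ A, IsConj d x → IsConj d y → ∃ n ∈ Subgroup.normalizer (A : Set G), n * x * n⁻¹ = y := by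
  obtain ⟨c, hz⟩ := CfsgLib.Fischer.U6Plane.exists_cover d hd hq hK e
  obtain ⟨g, hJ, -⟩ := c.exists_thompson S
  have hg : Commute (g : G) d := Subgroup.mem_centralizer_singleton_iff.1 g.2
  have hAeq : A = c.img.map (MulAut.conj (g : G)).toMonoidHom := by
    rw [hA, hJ, CfsgLib.Fischer.U6Plane.Cover.img, Subgroup.map_map, Subgroup.map_map]
    congr 1
  have hmem : ∀ x : G, x ∈ A ↔ (g : G)⁻¹ * x * g ∈ c.img := fun x => by
    rw [hAeq, Subgroup.mem_map]
    constructor
    · rintro ⟨y, hy, rfl⟩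
      simpa [MulAut.conj_apply, mul_assoc] using hy
    · intro h
      exact ⟨_, h, by simp [MulAut.conj_apply, mul_assoc]⟩
  have hconj : ∀ x : G, IsConj d x ↔ IsConj d ((g : G)⁻¹ * x * g) := fun x => by
    have : IsConj x ((g : G)⁻¹ * x * g) := isConj_iff.2 ⟨(g : G)⁻¹, by rw [inv_inv]⟩
    exact ⟨fun h => h.trans this, fun h => h.trans this.symm⟩
  refine ⟨?_, ?_, ?_, ?_⟩
  · rw [hAeq]; exact CfsgLib.ThompsonJ.isElementaryAbelian_map c.img_elementary _
  · rw [hAeq, Subgroup.card_map_of_injective (MulAut.conj (g : G)).injective, c.img_card]; norm_num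
  · have hset : {x : G | x ∈ A ∧ IsConj d x} =
        (fun y => (g : G) * y * (g : G)⁻¹) '' {y : G | y ∈ c.img ∧ IsConj d y} := by
      ext x
      simp only [Set.mem_ofPred_eq, Set.mem_image]
      constructor
      · rintro ⟨h1, h2⟩
        exact ⟨_, ⟨(hmem x).1 h1, (hconj x).1 h2⟩, by group⟩
      · rintro ⟨y, ⟨h1, h2⟩, rfl⟩
        have e' : (g : G)⁻¹ * ((g : G) * y * (g : G)⁻¹) * g = y := by group
        exact ⟨(hmem _).2 (by rw [e']; exact h1), (hconj _).2 (by rw [e']; exact h2)⟩
    rw [hset, Set.ncard_image_of_injective _ (fun a b h => by simpa using h), c.ncard_orbit hz hnwc]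
  · intro x hx y hy hcx hcy
    obtain ⟨n, hn, hnxy⟩ := c.transitive hz hnwc ((hmem x).1 hx) ((hmem y).1 hy) ((hconj x).1 hcx) ((hconj y).1 hcy)
    refine ⟨(g : G) * n * (g : G)⁻¹, Subgroup.mem_normalizer_iff.2 fun a => ?_, ?_⟩
    · rw [hmem, hmem, Subgroup.mem_normalizer_iff.1 hn ((g : G)⁻¹ * a * g)]
      simp [mul_assoc]
    · calc (g : G) * n * (g : G)⁻¹ * x * ((g : G) * n * (g : G)⁻¹)⁻¹
          = (g : G) * (n * ((g : G)⁻¹ * x * g) * n⁻¹) * (g : G)⁻¹ := by group
        _ = y := by rw [hnxy]; group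

end Cfsg.Agent.S5454
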