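import Cfsg.Statements.S5455
import Cfsg.Agent.Lib.Fischer.DoubleM22.Orbit
import Cfsg.Agent.S5458
-- import your own Cfsg.Agent.* helpers here

set_option autoImplicit false
open Cfsg

namespace Cfsg.Agent.S5455

/-- Let G be a finite group with an involution d whose centralizer C is quasisimple, such that C modulo the subgroup generated by d is of type M(22) with respect to some conjugacy class of 3-transpositions generating it and also has an involution whose own centralizer is quasisimple with quotient by it isomorphic to the projective special unitary group of dimension 6 over the field with four elements and which is not weakly closed in that centralizer; and suppose some conjugate of d other than d commutes with d. Let S be a Sylow 2-subgroup of C and A the Thompson subgroup of S, regarded as a subgroup of G. Then A is elementary abelian of order 2^11, exactly 23 conjugates of d lie in A, and the normalizer of A permutes them transitively. -/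
theorem result {G : Type*} [Group G] [Finite G] (d : G) (hd : orderOf d = 2) (hq : Cfsg.IsQuasisimple ↥(Subgroup.centralizer ({d} : Set G))) [hzn : ((Subgroup.zpowers d).subgroupOf (Subgroup.centralizer ({d} : Set G))).Normal] (htype : ∃ E : Set (↥(Subgroup.centralizer ({d} : Set G)) ⧸ (Subgroup.zpowers d).subgroupOf (Subgroup.centralizer ({d} : Set G))), Cfsg.IsThreeTranspositionClass E ∧ Cfsg.IsOfTypeM22 _ E) (hinvol : ∃ d' : ↥(Subgroup.centralizer ({d} : Set G)) ⧸ (Subgroup.zpowers d).subgroupOf (Subgroup.centralizer ({d} : Set G)), orderOf d' = 2 ∧ Cfsg.IsQuasisimple ↥(Subgroup.centralizer ({d'} : Set _)) ∧ (∃ (K : Type) (_ : Field K) (_ : Fintype K), Fintype.card K = 4 ∧ ∃ _ : ((Subgroup.zpowers d').subgroupOf (Subgroup.centralizer ({d'} : Set _))).Normal, Nonempty (↥(Subgroup.centralizer ({d'} : Set _)) ⧸ (Subgroup.zpowers d').subgroupOf (Subgroup.centralizer ({d'} : Set _)) ≃* Cfsg.PSU 6 K 2)) ∧ ∃ g, g * d' * g⁻¹ ∈ Subgroup.centralizer ({d'} : Set _) ∧ g * d' * g⁻¹ ≠ d') (hnwc : ∃ g : G, g * d * g⁻¹ ∈ Subgroup.centralizer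 ({d} : Set G) ∧ g * d * g⁻¹ ≠ d) (S : Sylow 2 ↥(Subgroup.centralizer ({d} : Set G))) (A : Subgroup G) (hA : A = (Cfsg.thompsonSubgroupOf 2 (S : Subgroup ↥(Subgroup.centralizer ({d} : Set G)))).map (Subgroup.centralizer ({d} : Set G)).subtype) : Cfsg.IsElementaryAbelian 2 A ∧ Nat.card A = 2 ^ 11 ∧ Set.ncard {x : G | x ∈ A ∧ IsConj d x} = 23 ∧ ∀ x ∈ A, ∀ y ∈ A, IsConj d x → IsConj d y → ∃ n ∈ Subgroup.normalizer (A : Set G), n * x * n⁻¹ = y := by
  revert S A hA
  set C := Subgroup.centralizer ({d} : Set G) with hC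
  have hd1 : d ≠ 1 := by intro h; rw [h, orderOf_one] at hd; omega
  have hd2 : d * d = 1 := by rw [← pow_two, ← hd]; exact pow_orderOf_eq_one d
  set Z := (Subgroup.zpowers d).subgroupOf C
  obtain ⟨E, hE, hT⟩ := htype
  obtain ⟨t, ho, hqt, ⟨K, iK, iK', hK, hn, ⟨e⟩⟩, hw⟩ := hinvol
  have hdC : d ∈ C := Subgroup.mem_centralizer_singleton_iff.2 rfl
  let dC : C := ⟨d, hdC⟩
  have hdcen : ∀ x : C, Commute dC x := fun x =>
    Subtype.ext (Subgroup.mem_centralizer_singleton_iff.1 x.2).symm
  have hdC2 : dC * dC = 1 := Subtype.ext hd2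
  have hker : ∀ x : C, (QuotientGroup.mk' Z) x = 1 ↔ x = 1 ∨ x = dC := by
    intro x
    rw [QuotientGroup.mk'_apply, QuotientGroup.eq_one_iff, Subgroup.mem_subgroupOf]
    constructor
    · intro h
      obtain ⟨n, hn⟩ := Subgroup.mem_zpowers_iff.1 h
      rcases Int.even_or_odd n with ⟨m, hm⟩ | ⟨m, hm⟩
      · left
        refine Subtype.ext ?_
        rw [← hn, hm, zpow_add, ← (Commute.refl d).mul_zpow, hd2, one_zpow]
        rfl
      · right
        refine Subtype.ext ?_
        rw [← hn, hm, zpow_add_one, two_mul, zpow_add, ← (Commute.refl d).mul_zpow, hd2, one_zpow, one_mul]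
    · rintro (rfl | rfl)
      · exact one_mem _
      · exact Subgroup.mem_zpowers d
  have hcenZ : Subgroup.center C = Z := by
    refine le_antisymm (fun x hx => ?_) (fun x hx => ?_)
    · have : (QuotientGroup.mk' Z) x ∈ Subgroup.center (C ⧸ Z) := Subgroup.mem_center_iff.2 fun p => by
        obtain ⟨p, rfl⟩ := QuotientGroup.mk'_surjective _ p
        rw [← map_mul, ← map_mul, Subgroup.mem_center_iff.1 hx p]
      rw [hT.1, Subgroup.mem_bot] at this
      exact (QuotientGroup.eq_one_iff x).1 this
    · rcases (hker x).1 ((QuotientGroup.eq_one_iff x).2 hx) with rfl | rfl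
      · exact one_mem _
      · exact Subgroup.mem_center_iff.2 fun p => (hdcen p).symm.eq
  haveI : IsSimpleGroup (C ⧸ Z) := by
    haveI := hq.2
    exact (QuotientGroup.quotientMulEquivOfEq hcenZ).symm.isSimpleGroup
  have hprim := CfsgLib.Fischer.TypeTwentyTwo.primitive_of_simple hE hT
  have hG := CfsgLib.Fischer.group_of_class hE
  have hcom : dC ∈ _root_.commutator C := by
    haveI := hq.1
    rw [show _root_.commutator C = ⊤ from Group.IsPerfect.commutator_eq_top]
    exact Subgroup.mem_top _
  have hπ : CfsgLib.Fischer.DoubleM22.IsDouble (QuotientGroup.mk' Z) dC :=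
    { surj := QuotientGroup.mk'_surjective _
      ker := hker
      central := hdcen
      sq := hdC2
      ne := fun h => hd1 (congrArg Subtype.val h)
      perfect := hcom }
  intro S A hA
  exact CfsgLib.Fischer.DoubleM22.thompson_orbit hC rfl hπ hG hprim hT
    (fun f hf => CfsgLib.Fischer.TypeTwentyTwo.centralizer_eq hG hprim hT ho hqt hK e hf)
    (fun T => Cfsg.Agent.S5458.result hG hprim hT ⟨t, ho, hqt, ⟨hn, K, iK, iK', hK, ⟨e⟩⟩, hw⟩ T) hnwc S A hA
end Cfsg.Agent.S5455
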