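import Cfsg.Statements.S5457
import Cfsg.Agent.Lib.Fischer.TypeTwentyThree

set_option autoImplicit false
open Cfsg

namespace Cfsg.Agent.S5457

/-- Let G be a finite group with trivial centre generated by a conjugation-invariant set D of 3-transpositions on which it acts primitively, of type M(23), and suppose G also has an involution whose centralizer C is quasisimple, with C modulo the subgroup generated by that involution both of type M(22) (for some generating class of 3-transpositions) and possessing an involution whose own centralizer is quasisimple with quotient by it the projective special unitary group of dimension 6 over the field with four elements and which is not weakly closed in that centralizer, and with the first involution not weakly closed in C. Then D is the only conjugacy class of 3-transpositions generating G. -/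
theorem result {G : Type*} [Group G] [Finite G] {D : Set G} (hD : Cfsg.IsThreeTranspositionGroup D) (hprim : Cfsg.IsPrimitiveUnderConj D) (h23 : Cfsg.IsOfTypeM23 G D) (hM : ∃ d : G, orderOf d = 2 ∧ Cfsg.IsQuasisimple ↥(Subgroup.centralizer ({d} : Set G)) ∧ (∃ (_ : ((Subgroup.zpowers d).subgroupOf (Subgroup.centralizer ({d} : Set G))).Normal), (∃ E : Set (↥(Subgroup.centralizer ({d} : Set G)) ⧸ (Subgroup.zpowers d).subgroupOf (Subgroup.centralizer ({d} : Set G))), Cfsg.IsThreeTranspositionClass E ∧ Cfsg.IsOfTypeM22 _ E) ∧ ∃ d' : ↥(Subgroup.centralizer ({d} : Set G)) ⧸ (Subgroup.zpowers d).subgroupOf (Subgroup.centralizer ({d} : Set G)), orderOf d' = 2 ∧ Cfsg.IsQuasisimple ↥(Subgroup.centralizer ({d'} : Set _)) ∧ (∃ (K : Type) (_ : Field K) (_ : Fintype K), Fintype.card K = 4 ∧ ∃ _ : ((Subgroup.zpowers d').subgroupOf (Subgroup.centralizer ({d'} : Set _))).Normal, Nonempty (↥(Subgroup.centralizer ({d'} : Set _)) ⧸ (Subgroup.zpowers d').subgroupOf (Subgroup.centralizer ({d'} : Set _)) ≃* Cfsg.PSU 6 K 2)) ∧ ∃ g, g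 * d' * g⁻¹ ∈ Subgroup.centralizer ({d'} : Set _) ∧ g * d' * g⁻¹ ≠ d') ∧ ∃ g : G, g * d * g⁻¹ ∈ Subgroup.centralizer ({d} : Set G) ∧ g * d * g⁻¹ ≠ d) (D' : Set G) (hD' : Cfsg.IsThreeTranspositionClass D') : D' = D := by
  obtain ⟨d, ho, hq, ⟨hn, ⟨E, hE, hT⟩, t, ho', hqt, ⟨K, iK, iK', hK, hnt, ⟨e⟩⟩, -⟩, -⟩ := hM
  set Z := (Subgroup.zpowers d).subgroupOf (Subgroup.centralizer ({d} : Set G))
  haveI := hn
  have hcenZ : Subgroup.center (Subgroup.centralizer ({d} : Set G)) = Z := by
    refine le_antisymm (fun x hx => ?_) (fun x hx => ?_)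
    · have : (QuotientGroup.mk' Z) x ∈ Subgroup.center _ := Subgroup.mem_center_iff.2 fun p => by
        obtain ⟨p, rfl⟩ := QuotientGroup.mk'_surjective _ p
        rw [← map_mul, ← map_mul, Subgroup.mem_center_iff.1 hx p]
      rw [hT.1, Subgroup.mem_bot] at this
      exact (QuotientGroup.eq_one_iff x).1 this
    · obtain ⟨k, hk⟩ := Subgroup.mem_zpowers_iff.1 (Subgroup.mem_subgroupOf.1 hx)
      refine Subgroup.mem_center_iff.2 fun p => Subtype.ext ?_
      show (p : G) * (x : G) = (x : G) * p
      rw [← hk]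
      exact ((show Commute (p : G) d from Subgroup.mem_centralizer_singleton_iff.1 p.2).zpow_right k).eq
  haveI : IsSimpleGroup (↥(Subgroup.centralizer ({d} : Set G)) ⧸ Z) := by
    haveI := hq.2
    exact (QuotientGroup.quotientMulEquivOfEq hcenZ).symm.isSimpleGroup
  haveI := hq.1
  haveI := hnt
  have hEp := CfsgLib.Fischer.TypeTwentyTwo.primitive_of_simple hE hT
  refine CfsgLib.Fischer.TypeTwentyThree.eq_of_class hD hprim h23 ho hE hT
    (fun f hf => CfsgLib.Fischer.TypeTwentyTwo.centralizer_eq (CfsgLib.Fischer.group_of_class hE) hEp hT ho' hqt hK e hf)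
    (QuotientGroup.mk' Z) (QuotientGroup.mk'_surjective _) (fun c hc => ?_) hD'
  obtain ⟨k, hk⟩ := Subgroup.mem_zpowers_iff.1 (Subgroup.mem_subgroupOf.1 ((QuotientGroup.eq_one_iff c).1 hc))
  have hd2 : d * d = 1 := by rw [← pow_two, ← ho]; exact pow_orderOf_eq_one d
  rcases Int.even_or_odd k with ⟨m, hm⟩ | ⟨m, hm⟩
  · left; rw [← hk, hm, zpow_add, ← (Commute.refl d).mul_zpow, hd2, one_zpow]
  · right; rw [← hk, hm, zpow_add_one, two_mul, zpow_add, ← (Commute.refl d).mul_zpow, hd2, one_zpow, one_mul]

end Cfsg.Agent.S5457
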