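import Cfsg.Statements.S5459

set_option autoImplicit false
open Cfsg

namespace Cfsg.Agent.S5459

/-- Let G be a finite group with a quasisimple normal subgroup L and an involution d such that G is generated by L and d, the centre of L has odd order, and d inverts every element of the centre of L. If the commuting graph on the conjugacy class of the image of d in G modulo the centre of L is connected, then the commuting graph on the conjugacy class of d is connected. -/
theorem result {G : Type*} [Group G] [Finite G] (L : Subgroup G) [L.Normal] (hL : Cfsg.IsQuasisimple ↥L) (d : G) (hd : orderOf d = 2) (hgen : L ⊔ Subgroup.zpowers d = ⊤) (hodd : Odd (Nat.card ↥(Subgroup.center ↥L))) (hinv : ∀ c ∈ (Subgroup.center ↥L).map L.subtype, d * c * d⁻¹ = c⁻¹) [hn : ((Subgroup.center ↥L).map L.subtype).Normal] (hconn : (Cfsg.commutingGraph (conjugatesOf (QuotientGroup.mk d : G ⧸ (Subgroup.center ↥L).map L.subtype))).Connected) : (Cfsg.commutingGraph (conjugatesOf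 d)).Connected := by
  classical
  set Z : Subgroup G := (Subgroup.center ↥L).map L.subtype with hZ
  have hd2 : d * d = 1 := by rw [← pow_two, ← hd]; exact pow_orderOf_eq_one d
  have hdinv : d⁻¹ = d := inv_eq_of_mul_eq_one_right hd2
  have hZL : Z ≤ L := Subgroup.map_subtype_le _
  have hZc : ∀ c ∈ Z, ∀ l ∈ L, c * l = l * c := by
    rintro _ ⟨c, hc, rfl⟩ l hl
    exact (congrArg Subtype.val (Subgroup.mem_center_iff.1 hc ⟨l, hl⟩)).symm
  have hcardZ : Nat.card Z = Nat.card (Subgroup.center ↥L) :=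
    (Nat.card_congr (Subgroup.equivMapOfInjective _ _ L.subtype_injective).toEquiv).symm
  have hoddZ : Odd (Nat.card Z) := by rwa [hcardZ]
  -- square roots in Z
  have hsqrt : ∀ c ∈ Z, ∃ u ∈ Z, u * u = c := by
    intro c hc
    obtain ⟨k, hk⟩ := hoddZ
    refine ⟨c ^ (k + 1), Z.pow_mem hc _, ?_⟩
    have : c ^ Nat.card Z = 1 := by
      have := congrArg Subtype.val (pow_card_eq_one' (x := (⟨c, hc⟩ : Z)))
      exact this
    rw [← pow_add, show k + 1 + (k + 1) = Nat.card Z + 1 by omega, pow_succ, this, one_mul]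
  -- every element of G is l or l * d
  have hdec : ∀ g : G, ∃ l ∈ L, g = l ∨ g = l * d := by
    intro g
    have hg : g ∈ L ⊔ Subgroup.zpowers d := hgen ▸ Subgroup.mem_top g
    obtain ⟨l, hl, _, ⟨n, rfl⟩, rfl⟩ := Subgroup.mem_sup_of_normal_left.1 hg
    refine ⟨l, hl, ?_⟩
    show l * d ^ n = l ∨ l * d ^ n = l * d
    rcases Int.even_or_odd n with ⟨m, hm⟩ | ⟨m, hm⟩ <;> subst hm
    · left
      rw [← two_mul, zpow_mul, show d ^ (2 : ℤ) = 1 by rw [zpow_two, hd2], one_zpow, mul_one]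
    · right
      rw [zpow_add_one, zpow_mul, show d ^ (2 : ℤ) = 1 by rw [zpow_two, hd2], one_zpow, one_mul]
  -- members of the class invert Z
  have hinv' : ∀ a ∈ conjugatesOf d, ∀ c ∈ Z, a * c * a⁻¹ = c⁻¹ := by
    intro a ha c hc
    obtain ⟨g, rfl⟩ := isConj_iff.1 ha
    have hc' : g⁻¹ * c * g ∈ Z := by
      simpa using hn.conj_mem c hc g⁻¹
    calc g * d * g⁻¹ * c * (g * d * g⁻¹)⁻¹ = g * (d * (g⁻¹ * c * g) * d⁻¹) * g⁻¹ := by group
      _ = c⁻¹ := by rw [hinv _ hc']; group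
  let π : G →* G ⧸ Z := QuotientGroup.mk' Z
  let Γ := Cfsg.commutingGraph (conjugatesOf d)
  have hadj : ∀ a b : conjugatesOf d, a ≠ b → Commute (a : G) (b : G) → Γ.Adj a b := fun a b hne hc =>
    ⟨hne, Or.inl hc⟩
  let d₀ : conjugatesOf d := ⟨d, IsConj.refl d⟩
  let K : Set (conjugatesOf d) := {a | Γ.Reachable d₀ a}
  -- the component of d covers the class in the quotient
  have hcover : ∀ x : conjugatesOf (π d), ∃ a ∈ K, π (a : G) = x := by
    intro x
    obtain ⟨p⟩ := hconn.preconnected ⟨π d, IsConj.refl _⟩ x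
    suffices ∀ (u v : conjugatesOf (π d)), (Cfsg.commutingGraph (conjugatesOf (π d))).Walk u v →
        (∃ a ∈ K, π (a : G) = u) → ∃ a ∈ K, π (a : G) = v from
      this _ _ p ⟨d₀, SimpleGraph.Reachable.refl _, rfl⟩
    intro u v p
    induction p with
    | nil => exact id
    | @cons u w v h p ih =>
      rintro ⟨a, haK, hau⟩
      apply ih
      obtain ⟨g, hg⟩ := isConj_iff.1 w.2
      obtain ⟨g, rfl⟩ := QuotientGroup.mk'_surjective Z g
      set e := g * d * g⁻¹ with he
      have hew : π e = w := by rw [← hg]; simp [π, e]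
      have heD : e ∈ conjugatesOf d := isConj_iff.2 ⟨g, rfl⟩
      have hcomm : Commute (π (a : G)) (π e) := by
        rw [hau, hew]
        rcases h.2 with hh | hh
        · exact hh
        · exact hh.symm
      set c := (a : G) * e * (a : G)⁻¹ * e⁻¹ with hc
      have hcZ : c ∈ Z := by
        apply (QuotientGroup.eq_one_iff _).1
        show π ((a : G) * e * (a : G)⁻¹ * e⁻¹) = 1
        rw [map_mul, map_mul, map_mul, map_inv, map_inv, hcomm.eq]; group
      obtain ⟨u', hu', huc⟩ := hsqrt c hcZ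
      obtain ⟨u'', hu'', huu⟩ := hsqrt u' hu'
      -- adjust e inside its coset
      set e' := u'' * e * u''⁻¹ with he'
      have hee' : e' = u' * e := by
        have h1 : e * u''⁻¹ = u'' * e := by
          have := congrArg (fun y => y⁻¹) (hinv' e heD u'' hu'')
          simp only [inv_inv, mul_inv_rev] at this
          calc e * u''⁻¹ = (e * (u''⁻¹ * e⁻¹)) * e := by group
            _ = _ := by rw [this]
        calc e' = u'' * (e * u''⁻¹) := by simp only [e']; group
          _ = _ := by rw [h1, ← mul_assoc, huu]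
      have hac : Commute (a : G) e' := by
        apply mul_inv_eq_iff_eq_mul.1
        calc (a : G) * e' * (a : G)⁻¹ = ((a : G) * u' * (a : G)⁻¹) * ((a : G) * e * (a : G)⁻¹) := by
              rw [hee']; group
          _ = u'⁻¹ * (c * e) := by rw [hinv' a a.2 u' hu', hc]; group
          _ = e' := by rw [← huc, hee']; group
      have he'D : e' ∈ conjugatesOf d := isConj_iff.2 ⟨u'' * g, by simp only [e', e]; group⟩
      have hπe' : π e' = w := by
        have : π u' = 1 := (QuotientGroup.eq_one_iff _).2 hu'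
        rw [hee', map_mul, this, one_mul, hew]
      refine ⟨⟨e', he'D⟩, SimpleGraph.Reachable.trans haK (SimpleGraph.Adj.reachable (hadj a ⟨e', he'D⟩ ?_ hac)), hπe'⟩
      intro hae
      apply h.1
      apply Subtype.ext
      rw [← hau, ← hπe', hae]
  -- conjugation acts on the graph
  let c : G → conjugatesOf d → conjugatesOf d := fun g a =>
    ⟨g * a * g⁻¹, IsConj.trans a.2 (isConj_iff.2 ⟨g, rfl⟩)⟩
  have hc_reach : ∀ (g : G) (a b : conjugatesOf d), Γ.Reachable a b → Γ.Reachable (c g a) (c g b) := by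
    intro g a b ⟨p⟩
    induction p with
    | nil => exact SimpleGraph.Reachable.refl _
    | @cons u w v h p ih =>
      refine SimpleGraph.Reachable.trans (SimpleGraph.Adj.reachable (hadj _ _ ?_ ?_)) ih
      · intro hh
        exact h.1 (Subtype.ext (mul_left_cancel (mul_right_cancel (congrArg Subtype.val hh))))
      · rcases h.2 with hh | hh
        · exact Commute.map hh (MulAut.conj g).toMonoidHom
        · exact (Commute.map hh (MulAut.conj g).toMonoidHom).symm
  let H : Subgroup G := {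
    carrier := {g | Γ.Reachable d₀ (c g d₀)}
    one_mem' := by
      show Γ.Reachable d₀ (c 1 d₀)
      rw [show c 1 d₀ = d₀ by apply Subtype.ext; simp [c]]
    mul_mem' := fun {a b} ha hb => by
      show Γ.Reachable d₀ (c (a * b) d₀)
      rw [show c (a * b) d₀ = c a (c b d₀) by apply Subtype.ext; simp [c, mul_assoc]]
      exact SimpleGraph.Reachable.trans ha (hc_reach a _ _ hb)
    inv_mem' := fun {a} ha => by
      show Γ.Reachable d₀ (c a⁻¹ d₀)
      have := hc_reach a⁻¹ _ _ ha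
      rw [show c a⁻¹ (c a d₀) = d₀ by apply Subtype.ext; simp [c, mul_assoc]] at this
      exact this.symm }
  have hdH : d ∈ H := by
    show Γ.Reachable d₀ (c d d₀)
    rw [show c d d₀ = d₀ by apply Subtype.ext; simp [c, d₀]]
  -- G = Z H
  have hGH : ∀ g : G, ∃ u ∈ Z, ∃ h ∈ H, g = u * h := by
    intro g
    obtain ⟨a, haK, ha⟩ := hcover ⟨π (g * d * g⁻¹), isConj_iff.2 ⟨π g, by simp⟩⟩
    obtain ⟨h, hh⟩ := isConj_iff.1 a.2
    have hH : h ∈ H := by
      show Γ.Reachable d₀ (c h d₀)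
      rw [show c h d₀ = a from Subtype.ext hh]
      exact haK
    set w := g * d * g⁻¹ * (h * d * h⁻¹)⁻¹ with hw
    have hwZ : w ∈ Z := by
      apply (QuotientGroup.eq_one_iff _).1
      show π w = 1
      rw [hw, map_mul, map_inv, hh, ha]; exact mul_inv_cancel _
    obtain ⟨u, hu, huw⟩ := hsqrt w hwZ
    have e1 : u * (h * d * h⁻¹) * u⁻¹ = g * d * g⁻¹ := by
      have := hinv' (h * d * h⁻¹) (isConj_iff.2 ⟨h, rfl⟩) u hu
      calc u * (h * d * h⁻¹) * u⁻¹ = u * ((h * d * h⁻¹) * u⁻¹ * (h * d * h⁻¹)⁻¹) * (h * d * h⁻¹) := by group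
        _ = u * ((h * d * h⁻¹) * u * (h * d * h⁻¹)⁻¹)⁻¹ * (h * d * h⁻¹) := by group
        _ = (u * u) * (h * d * h⁻¹) := by rw [this, inv_inv]
        _ = _ := by rw [huw, hw]; group
    refine ⟨u, hu, u⁻¹ * g, ?_, by group⟩
    show Γ.Reachable d₀ (c (u⁻¹ * g) d₀)
    rw [show c (u⁻¹ * g) d₀ = a from Subtype.ext (by
      show u⁻¹ * g * d * (u⁻¹ * g)⁻¹ = (a : G)
      rw [← hh, show u⁻¹ * g * d * (u⁻¹ * g)⁻¹ = u⁻¹ * (g * d * g⁻¹) * u by group, ← e1]; group)]
    exact haK
  -- L is contained in H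
  have hLH : L ≤ H := by
    have hperf : ⁅L, L⁆ = L := by
      have h1 : commutator ↥L = ⊤ := hL.1.commutator_eq_top
      have h2 := congrArg (Subgroup.map L.subtype) h1
      rw [commutator_def, Subgroup.map_commutator, ← MonoidHom.range_eq_map, Subgroup.range_subtype] at h2
      exact h2
    rw [← hperf, Subgroup.commutator_le]
    intro l₁ hl₁ l₂ hl₂
    obtain ⟨u₁, hu₁, h₁, hh₁, e₁⟩ := hGH l₁
    obtain ⟨u₂, hu₂, h₂, hh₂, e₂⟩ := hGH l₂
    have hl₁' : h₁ ∈ L := by
      have : h₁ = u₁⁻¹ * l₁ := by rw [e₁]; group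
      rw [this]; exact L.mul_mem (L.inv_mem (hZL hu₁)) hl₁
    have hl₂' : h₂ ∈ L := by
      have : h₂ = u₂⁻¹ * l₂ := by rw [e₂]; group
      rw [this]; exact L.mul_mem (L.inv_mem (hZL hu₂)) hl₂
    have : l₁ * l₂ * l₁⁻¹ * l₂⁻¹ = h₁ * h₂ * h₁⁻¹ * h₂⁻¹ := by
      have c1 : ∀ x ∈ L, Commute u₁ x := fun x hx => hZc u₁ hu₁ x hx
      have c2 : ∀ x ∈ L, Commute u₂ x := fun x hx => hZc u₂ hu₂ x hx
      rw [e₁, e₂, mul_inv_rev, mul_inv_rev]
      calc u₁ * h₁ * (u₂ * h₂) * (h₁⁻¹ * u₁⁻¹) * (h₂⁻¹ * u₂⁻¹)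
          = u₁ * ((h₁ * u₂) * h₂ * h₁⁻¹) * (u₁⁻¹ * h₂⁻¹) * u₂⁻¹ := by group
        _ = u₁ * (u₂ * (h₁ * h₂ * h₁⁻¹)) * (h₂⁻¹ * u₁⁻¹) * u₂⁻¹ := by
            rw [← (c2 h₁ hl₁').eq, ((c1 _ (L.inv_mem hl₂')).inv_left).eq]; group
        _ = (u₁ * (u₂ * (h₁ * h₂ * h₁⁻¹ * h₂⁻¹))) * u₁⁻¹ * u₂⁻¹ := by group
        _ = _ := by
            have hm : h₁ * h₂ * h₁⁻¹ * h₂⁻¹ ∈ L :=
              L.mul_mem (L.mul_mem (L.mul_mem hl₁' hl₂') (L.inv_mem hl₁')) (L.inv_mem hl₂')
            rw [((c1 _ (L.mul_mem (hZL hu₂) hm))).eq, (c2 _ hm).eq]; group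
    rw [commutatorElement_def, this]
    exact H.mul_mem (H.mul_mem (H.mul_mem hh₁ hh₂) (H.inv_mem hh₁)) (H.inv_mem hh₂)
  have htop : ∀ g : G, g ∈ H := fun g => by
    obtain ⟨l, hl, rfl | rfl⟩ := hdec g
    · exact hLH hl
    · exact H.mul_mem (hLH hl) hdH
  have : Nonempty (conjugatesOf d) := ⟨d₀⟩
  refine ⟨fun a b => ?_⟩
  obtain ⟨g, hg⟩ := isConj_iff.1 a.2
  obtain ⟨g', hg'⟩ := isConj_iff.1 b.2
  have h1 : Γ.Reachable d₀ (c g d₀) := htop g
  have h2 : Γ.Reachable d₀ (c g' d₀) := htop g'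
  rw [show c g d₀ = a from Subtype.ext hg] at h1
  rw [show c g' d₀ = b from Subtype.ext hg'] at h2
  exact h1.symm.trans h2

end Cfsg.Agent.S5459
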