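import Cfsg.Statements.S5462
import Cfsg.Agent.Lib.Fischer.TypeTwentyTwoFixed
-- import your own Cfsg.Agent.* helpers here

set_option autoImplicit false
open Cfsg

namespace Cfsg.Agent.S5462

/-- Let G be a finite group with trivial centre generated by a conjugation-invariant set D of 3-transpositions on which it acts primitively, such that for some d in D the subgroup generated by the members of D other than d commuting with d has central largest normal 2- and 3-subgroups, and suppose G with D is of type M(22). Then every automorphism of G of order 2 fixes some member of D. -/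
theorem result {G : Type*} [Group G] [Finite G] {D : Set G} (hD : Cfsg.IsThreeTranspositionGroup D) (hprim : Cfsg.IsPrimitiveUnderConj D) (d₀ : G) (hd₀ : d₀ ∈ D) (h3 : Cfsg.pCore 3 ↥(Subgroup.closure {y : G | y ∈ D ∧ y ≠ d₀ ∧ Commute d₀ y}) ≤ Subgroup.center ↥(Subgroup.closure {y : G | y ∈ D ∧ y ≠ d₀ ∧ Commute d₀ y})) (h2 : Cfsg.pCore 2 ↥(Subgroup.closure {y : G | y ∈ D ∧ y ≠ d₀ ∧ Commute d₀ y}) ≤ Subgroup.center ↥(Subgroup.closure {y : G | y ∈ D ∧ y ≠ d₀ ∧ Commute d₀ y})) (h22 : Cfsg.IsOfTypeM22 G D) (φ : MulAut G) (hφ : orderOf φ = 2) : ∃ d ∈ D, φ d = d := by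
  open CfsgLib.Fischer in
  have hC := class_of_primitive hD hprim
  have hC' : Cfsg.IsThreeTranspositionClass (φ '' D) := by
    obtain ⟨⟨ho, hp⟩, ⟨d, hd, hDd⟩, hgen⟩ := hC
    refine ⟨⟨?_, ?_⟩, ⟨φ d, ⟨d, hd, rfl⟩, ?_⟩, ?_⟩
    · rintro _ ⟨x, hx, rfl⟩
      exact (φ.orderOf_eq x).trans (ho x hx)
    · rintro _ ⟨x, hx, rfl⟩ _ ⟨y, hy, rfl⟩
      rcases hp x hx y hy with h | h
      · exact Or.inl (by rw [← map_mul, ← map_pow, h, map_one])
      · exact Or.inr (by rw [← map_mul, ← map_pow, h, map_one])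
    · ext z
      simp only [conjugatesOf, Set.mem_setOf_eq, isConj_iff]
      constructor
      · rintro ⟨x, hx, rfl⟩
        rw [hDd] at hx
        obtain ⟨g, rfl⟩ := isConj_iff.1 (show IsConj d x from hx)
        exact ⟨φ g, by simp⟩
      · rintro ⟨g, rfl⟩
        obtain ⟨g, rfl⟩ := φ.surjective g
        exact ⟨g * d * g⁻¹, hD.2.1 g d hd, by simp⟩
    · rw [show (φ '' D) = φ.toMonoidHom '' D from rfl, ← MonoidHom.map_closure, hgen]
      exact Subgroup.map_top_of_surjective _ φ.surjective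
  open CfsgLib.Fischer.TypeTwentyTwo in
  have hφD : ∀ x, φ x ∈ D ↔ x ∈ D := by
    have hcl : φ '' D = D := eq_of_class hD hprim h22 (fun e he => centralizer_eq_closure hD hprim h22 he) hC'
    intro x
    constructor
    · intro hx
      rw [← hcl] at hx
      obtain ⟨y, hy, hyx⟩ := hx
      exact φ.injective hyx ▸ hy
    · intro hx
      exact hcl ▸ ⟨x, hx, rfl⟩
  have hinv : ∀ x, φ (φ x) = x := fun x => by
    have h := pow_orderOf_eq_one φ
    rw [hφ, pow_two] at h
    exact congrArg (fun f : MulAut G => f x) h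
  exact CfsgLib.Fischer.TypeTwentyTwo.exists_fixed hD hprim h22 hinv hφD

end Cfsg.Agent.S5462
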