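import Cfsg.Statements.S5463
import Cfsg.Agent.Lib.InvChar.FischerProducts
import Cfsg.Agent.Lib.InvChar.FischerHexad

set_option autoImplicit false
open Cfsg

namespace Cfsg.Agent.S5463

/-- Let G be a finite group with trivial centre generated by a conjugation-invariant set D of 3-transpositions on which it acts primitively, such that for some d in D the subgroup generated by the members of D other than d commuting with d has central largest normal 2- and 3-subgroups, and suppose G with D is of type M(22). A product j of two distinct commuting members of D determines the pair: any two 2-element sets of commuting members of D with product j coincide. A product j of three distinct pairwise commuting members of D arises from exactly two such 3-element sets. -/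
theorem result {G : Type*} [Group G] [Finite G] {D : Set G} (hD : Cfsg.IsThreeTranspositionGroup D) (hprim : Cfsg.IsPrimitiveUnderConj D) (d₀ : G) (hd₀ : d₀ ∈ D) (h3 : Cfsg.pCore 3 ↥(Subgroup.closure {y : G | y ∈ D ∧ y ≠ d₀ ∧ Commute d₀ y}) ≤ Subgroup.center ↥(Subgroup.closure {y : G | y ∈ D ∧ y ≠ d₀ ∧ Commute d₀ y})) (h2 : Cfsg.pCore 2 ↥(Subgroup.closure {y : G | y ∈ D ∧ y ≠ d₀ ∧ Commute d₀ y}) ≤ Subgroup.center ↥(Subgroup.closure {y : G | y ∈ D ∧ y ≠ d₀ ∧ Commute d₀ y})) (h22 : Cfsg.IsOfTypeM22 G D) : (∀ (j : G) (l l' : List G), (l.Nodup ∧ l.length = 2 ∧ (∀ a ∈ l, a ∈ D) ∧ (∀ a ∈ l, ∀ b ∈ l, Commute a b) ∧ l.prod = j) → (l'.Nodup ∧ l'.length = 2 ∧ (∀ a ∈ l', a ∈ D) ∧ (∀ a ∈ l', ∀ b ∈ l', Commute a b) ∧ l'.prod = j) → (∀ x : G, x ∈ l ↔ x ∈ l')) ∧ ∀ (j : G) (l₀ : List G), (l₀.Nodup ∧ l₀.length = 3 ∧ (∀ a ∈ l₀, a ∈ D) ∧ (∀ a ∈ l₀, ∀ b ∈ l₀, Commute a b) ∧ l₀.prod = j) → ∃ l₁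 l₂ : List G, (l₁.Nodup ∧ l₁.length = 3 ∧ (∀ a ∈ l₁, a ∈ D) ∧ (∀ a ∈ l₁, ∀ b ∈ l₁, Commute a b) ∧ l₁.prod = j) ∧ (l₂.Nodup ∧ l₂.length = 3 ∧ (∀ a ∈ l₂, a ∈ D) ∧ (∀ a ∈ l₂, ∀ b ∈ l₂, Commute a b) ∧ l₂.prod = j) ∧ ¬ (∀ x : G, x ∈ l₁ ↔ x ∈ l₂) ∧ ∀ l : List G, (l.Nodup ∧ l.length = 3 ∧ (∀ a ∈ l, a ∈ D) ∧ (∀ a ∈ l, ∀ b ∈ l, Commute a b) ∧ l.prod = j) → ((∀ x : G, x ∈ l ↔ x ∈ l₁) ∨ (∀ x : G, x ∈ l ↔ x ∈ l₂)) := by
  refine ⟨fun j l l' hl hl' => ?_, fun j l₀ hl₀ => ?_⟩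
  · obtain ⟨hn, hlen, hlD, hc, hp⟩ := hl
    obtain ⟨hn', hlen', hlD', hc', hp'⟩ := hl'
    exact CfsgLib.InvChar.FischerProducts.factorization_unique hD.1 2 (by norm_num)
      (fun _ => CfsgLib.InvChar.FischerProducts.noUnit_four
        (CfsgLib.InvChar.FischerProducts.good_of_primitive hD hprim h22.1))
      (fun k => absurd k (by norm_num)) l l' hn hn' hlen hlen' hlD hlD' hc hc' (hp.trans hp'.symm)
  · obtain ⟨hn, hlen, hlD, hc, rfl⟩ := hl₀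
    obtain ⟨l₂, h₂, hne, hmax⟩ :=
      CfsgLib.InvChar.FischerHexad.exists_two_factorizations hD hprim h22 hn hlen hlD hc
    exact ⟨l₀, l₂, ⟨hn, hlen, hlD, hc, rfl⟩, h₂, hne,
      fun l ⟨hn', hlen', hlD', hc', hp'⟩ => hmax l hn' hlen' hlD' hc' hp'⟩

end Cfsg.Agent.S5463
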