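import Cfsg.Statements.S5471
import Cfsg.Agent.Lib.InvChar.FischerProducts
import Cfsg.Agent.Lib.InvChar.FischerTriples

set_option autoImplicit false
open Cfsg

namespace Cfsg.Agent.S5471

/-- Let G be a finite group with trivial centre generated by a conjugation-invariant set D of 3-transpositions on which it acts primitively, such that for some d in D the subgroup generated by the members of D other than d commuting with d has central largest normal 2- and 3-subgroups, and suppose G with D is of type M(23). Let d₁, d₂, d₃ be distinct pairwise commuting members of D and j their product. Then the joint centralizer of d₁, d₂, d₃ is normal in the centralizer of j with quotient isomorphic to the symmetric group of degree 3. -/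
theorem result {G : Type*} [Group G] [Finite G] {D : Set G} (hD : Cfsg.IsThreeTranspositionGroup D) (hprim : Cfsg.IsPrimitiveUnderConj D) (d₀ : G) (hd₀ : d₀ ∈ D) (h3 : Cfsg.pCore 3 ↥(Subgroup.closure {y : G | y ∈ D ∧ y ≠ d₀ ∧ Commute d₀ y}) ≤ Subgroup.center ↥(Subgroup.closure {y : G | y ∈ D ∧ y ≠ d₀ ∧ Commute d₀ y})) (h2 : Cfsg.pCore 2 ↥(Subgroup.closure {y : G | y ∈ D ∧ y ≠ d₀ ∧ Commute d₀ y}) ≤ Subgroup.center ↥(Subgroup.closure {y : G | y ∈ D ∧ y ≠ d₀ ∧ Commute d₀ y})) (h23 : Cfsg.IsOfTypeM23 G D) (d₁ d₂ d₃ : G) (h₁ : d₁ ∈ D) (h₂ : d₂ ∈ D) (h₃ : d₃ ∈ D) (h12 : d₁ ≠ d₂) (h13 : d₁ ≠ d₃) (h23 : d₂ ≠ d₃) (c12 : Commute d₁ d₂) (c13 : Commute d₁ d₃) (c23 : Commute d₂ d₃) (K C : Subgroup G) (hK : K = Subgroup.centralizer ({d₁, d₂, d₃} : Set G)) (hC : C = Subgroup.centralizer ({d₁ * d₂ * d₃} : Set G)) : K ≤ C ∧ ∃ _ : (K.subgroupOf C).Normal, Nonempty (↥C ⧸ K.subgroupOf C ≃* Equiv.Perm (Fin 3)) := by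
  classical
  have hT : Cfsg.IsOfTypeM23 G D := ‹_›
  obtain ⟨hZ, d, hd, c₀, -, -, hI, -⟩ := id hT
  have hG := CfsgLib.InvChar.FischerProducts.good_of_primitive hD hprim hZ
  obtain ⟨hgood, -, -⟩ := CfsgLib.InvChar.FischerProducts.type22_good
    (S := CfsgLib.InvChar.FischerProducts.imageSet D d (Subgroup.closure (CfsgLib.Fischer.perp D d)))
    (CfsgLib.InvChar.FischerProducts.imageSet_tt hD rfl) hI
  let ι : Fin 3 → G := ![d₁, d₂, d₃]
  have hι : Function.Injective ι := by
    intro a b h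
    fin_cases a <;> fin_cases b <;> simp_all [ι, eq_comm]
  have hιD : ∀ a, ι a ∈ D := fun a => by fin_cases a <;> simp [ι, h₁, h₂, h₃]
  have hιc : ∀ a b, Commute (ι a) (ι b) := fun a b => by
    fin_cases a <;> fin_cases b <;> simp [ι, c12, c13, c23, c12.symm, c13.symm, c23.symm]
  have hl : List.ofFn ι = [d₁, d₂, d₃] := by simp [ι]
  have hprod : (List.ofFn ι).prod = d₁ * d₂ * d₃ := by rw [hl]; simp [mul_assoc]
  have hex : ∀ g : C, ∀ a, ∃ b, ι b = (g : G) * ι a * (g : G)⁻¹ := by
    intro g a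
    have hg := g.2
    simp only [hC, Subgroup.mem_centralizer_singleton_iff] at hg
    let l := (List.ofFn ι).map (MulAut.conj (g : G))
    have hmem : ∀ x ∈ List.ofFn ι, x ∈ D := fun x hx => by
      obtain ⟨b, rfl⟩ := List.mem_ofFn.1 hx; exact hιD b
    have hcomm : ∀ x ∈ List.ofFn ι, ∀ y ∈ List.ofFn ι, Commute x y := fun x hx y hy => by
      obtain ⟨b, rfl⟩ := List.mem_ofFn.1 hx
      obtain ⟨b', rfl⟩ := List.mem_ofFn.1 hy
      exact hιc b b'
    have h := CfsgLib.InvChar.FischerProducts.factorization_unique hD.1 3 le_rfl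
      (fun _ => CfsgLib.InvChar.FischerProducts.noUnit_four hG)
      (fun _ => CfsgLib.InvChar.FischerProducts.noUnit_six_of_type23 hD hprim hT) l (List.ofFn ι)
      ((List.nodup_ofFn.2 hι).map (MulAut.conj (g : G)).injective) (List.nodup_ofFn.2 hι) (by simp [l]) (by simp)
      (fun x hx => by obtain ⟨y, hy, rfl⟩ := List.mem_map.1 hx; exact hD.2.1 g y (hmem y hy)) hmem
      (fun x hx y hy => by
        obtain ⟨x, hx', rfl⟩ := List.mem_map.1 hx
        obtain ⟨y, hy', rfl⟩ := List.mem_map.1 hy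
        exact (hcomm x hx' y hy').map _) hcomm
      (by rw [← map_list_prod, hprod, MulAut.conj_apply, hg, mul_inv_cancel_right])
    exact List.mem_ofFn.1 ((h _).1 (List.mem_map.2 ⟨ι a, List.mem_ofFn.2 ⟨a, rfl⟩, rfl⟩))
  choose f hf using hex
  have fmul : ∀ g g' a, f (g * g') a = f g (f g' a) := fun g g' a => hι (by
    rw [hf, hf, hf, Subgroup.coe_mul]; group)
  have fone : ∀ a, f 1 a = a := fun a => hι (by rw [hf]; simp)
  let φ : C →* Equiv.Perm (Fin 3) :=
    { toFun := fun g => ⟨f g, f g⁻¹, fun a => by rw [← fmul, inv_mul_cancel, fone],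
        fun a => by rw [← fmul, mul_inv_cancel, fone]⟩
      map_one' := Equiv.ext fone
      map_mul' := fun g g' => Equiv.ext (fmul g g') }
  have hφ : ∀ g a, ι (φ g a) = (g : G) * ι a * (g : G)⁻¹ := hf
  have hKC : K ≤ C := by
    intro k hk
    rw [hK, Subgroup.mem_centralizer_iff] at hk
    rw [hC, Subgroup.mem_centralizer_singleton_iff]
    have e1 : Commute k d₁ := (hk d₁ (by simp)).symm
    have e2 : Commute k d₂ := (hk d₂ (by simp)).symm
    have e3 : Commute k d₃ := (hk d₃ (by simp)).symm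
    exact ((e1.mul_right e2).mul_right e3).eq
  have hker : φ.ker = K.subgroupOf C := by
    ext g
    rw [MonoidHom.mem_ker, Subgroup.mem_subgroupOf]
    constructor
    · intro h
      rw [hK, Subgroup.mem_centralizer_iff]
      have h' : ∀ a, ι a * (g : G) = g * ι a := fun a => by
        have := hφ g a
        rw [h, Equiv.Perm.one_apply] at this
        nth_rewrite 1 [this]
        group
      rintro x (rfl | rfl | rfl)
      exacts [h' 0, h' 1, h' 2]
    · intro h
      rw [hK, Subgroup.mem_centralizer_iff] at h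
      refine Equiv.ext fun a => hι ?_
      rw [hφ, Equiv.Perm.one_apply]
      have : ι a * (g : G) = g * ι a := by
        fin_cases a
        exacts [h d₁ (by simp), h d₂ (by simp), h d₃ (by simp)]
      rw [← this, mul_inv_cancel_right]
  have hswap : ∀ a b c : Fin 3, a ≠ b → a ≠ c → b ≠ c → ∃ g : C, φ g = Equiv.swap a b := by
    intro a b c hab hac hbc
    obtain ⟨y, hy, hay, hby⟩ := CfsgLib.InvChar.FischerTriples.exists_common_perp_all hG hd hgood (hιD c)
      (a := ι a) (b := ι b) ⟨hιD a, fun e => hac (hι e), hιc c a⟩ ⟨hιD b, fun e => hbc (hι e), hιc c b⟩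
    obtain ⟨g, ga, gb, gc⟩ := CfsgLib.InvChar.FischerTriples.exists_swap hD.1 (hιD a) (hιD b) hy.1
      (fun e => hab (hι e)) (hιc a b) hay hby (hιc c a) (hιc c b) hy.2.2
    have hgι : ∀ k, g * ι k * g⁻¹ = ι (Equiv.swap a b k) := by
      intro k
      have hk : k = a ∨ k = b ∨ k = c := by omega
      rcases hk with rfl | rfl | rfl
      · rw [Equiv.swap_apply_left, ga]
      · rw [Equiv.swap_apply_right, gb]
      · rw [Equiv.swap_apply_of_ne_of_ne hac.symm hbc.symm, gc]
    have hgC : g ∈ C := by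
      rw [hC, Subgroup.mem_centralizer_singleton_iff]
      have : MulAut.conj g (List.ofFn ι).prod = (List.ofFn ι).prod := by
        rw [map_list_prod, List.map_ofFn]
        refine CfsgLib.InvChar.FischerProducts.prod_perm ?_ ?_
        · have : (MulAut.conj g : G → G) ∘ ι = ι ∘ Equiv.swap a b := funext hgι
          rw [this]
          exact Equiv.Perm.ofFn_comp_perm (Equiv.swap a b) ι
        · intro x hx y hy
          obtain ⟨x, rfl⟩ := List.mem_ofFn.1 hx
          obtain ⟨y, rfl⟩ := List.mem_ofFn.1 hy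
          exact (hιc x y).map _
      rw [hprod, MulAut.conj_apply] at this
      exact mul_inv_eq_iff_eq_mul.1 this
    exact ⟨⟨g, hgC⟩, Equiv.ext fun k => hι ((hφ _ k).trans (hgι k))⟩
  have hsurj : Function.Surjective φ := by
    obtain ⟨u, hu⟩ := hswap 0 1 2 (by decide) (by decide) (by decide)
    obtain ⟨v, hv⟩ := hswap 1 2 0 (by decide) (by decide) (by decide)
    intro σ
    have hall : ∀ σ : Equiv.Perm (Fin 3), σ = 1 ∨ σ = Equiv.swap 0 1 ∨ σ = Equiv.swap 1 2 ∨
        σ = Equiv.swap 0 1 * Equiv.swap 1 2 ∨ σ = Equiv.swap 1 2 * Equiv.swap 0 1 ∨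
        σ = Equiv.swap 0 1 * Equiv.swap 1 2 * Equiv.swap 0 1 := by decide
    rcases hall σ with rfl | rfl | rfl | rfl | rfl | rfl
    exacts [⟨1, map_one φ⟩, ⟨u, hu⟩, ⟨v, hv⟩, ⟨u * v, by rw [map_mul, hu, hv]⟩, ⟨v * u, by rw [map_mul, hu, hv]⟩,
      ⟨u * v * u, by rw [map_mul, map_mul, hu, hv]⟩]
  haveI hn : (K.subgroupOf C).Normal := hker ▸ φ.normal_ker
  exact ⟨hKC, hn, ⟨(QuotientGroup.quotientMulEquivOfEq hker.symm).trans
    (QuotientGroup.quotientKerEquivOfSurjective φ hsurj)⟩⟩

end Cfsg.Agent.S5471
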