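import Cfsg.Statements.S5520
import Cfsg.Agent.Lib.UnitarySixFour.Main

set_option autoImplicit false
open Cfsg

namespace Cfsg.Agent.S5520

/-- In the special unitary group of dimension 6 over the field with four elements (determinant-one matrices preserving the standard Hermitian form), the subgroups K whose centre has order 3 with K modulo its centre isomorphic to the projective special unitary group of dimension 4 over the field with nine elements fall into exactly three conjugacy classes. -/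
theorem result (F : Type) [Field F] [Fintype F] (hF : Fintype.card F = 4) (F9 : Type) [Field F9] [Fintype F9] (hF9 : Fintype.card F9 = 9) : ∃ K₁ K₂ K₃ : Subgroup ↥(Cfsg.SU 6 F 2), (∀ K ∈ [K₁, K₂, K₃], Nat.card ↥(Subgroup.center ↥K) = 3 ∧ Nonempty (↥K ⧸ Subgroup.center ↥K ≃* Cfsg.PSU 4 F9 3)) ∧ (¬ ∃ g : ↥(Cfsg.SU 6 F 2), K₁.map (MulAut.conj g).toMonoidHom = K₂) ∧ (¬ ∃ g : ↥(Cfsg.SU 6 F 2), K₁.map (MulAut.conj g).toMonoidHom = K₃) ∧ (¬ ∃ g : ↥(Cfsg.SU 6 F 2), K₂.map (MulAut.conj g).toMonoidHom = K₃) ∧ ∀ K : Subgroup ↥(Cfsg.SU 6 F 2), Nat.card ↥(Subgroup.center ↥K) = 3 → Nonempty (↥K ⧸ Subgroup.center ↥K ≃* Cfsg.PSU 4 F9 3) → ∃ g : ↥(Cfsg.SU 6 F 2), K.map (MulAut.conj g).toMonoidHom = K₁ ∨ K.map (MulAut.conj g).toMonoidHom = K₂ ∨ K.map (MulAut.conj g).toMonoidHom = K₃ := by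
  classical
  obtain ⟨ω, hω0, hω1, hω⟩ := CfsgLib.UnitarySixFour.exists_omega hF
  have hω2 : ω ^ 2 ≠ 0 := pow_ne_zero _ hω0
  obtain ⟨K₁, g₁, p₁, s₁⟩ := CfsgLib.UnitarySixFour.exists_with_param hF hF9 1 one_ne_zero
  obtain ⟨K₂, g₂, p₂, s₂⟩ := CfsgLib.UnitarySixFour.exists_with_param hF hF9 ω hω0
  obtain ⟨K₃, g₃, p₃, s₃⟩ := CfsgLib.UnitarySixFour.exists_with_param hF hF9 (ω ^ 2) hω2
  have hω21 : (1 : F) ≠ ω ^ 2 := fun e => hω1 (by
    have := CfsgLib.UnitarySixFour.cube_eq_one hF hω0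
    linear_combination this + ω * e)
  have hω2ω : ω ≠ ω ^ 2 := fun e => hω1 (mul_left_cancel₀ hω0 (by linear_combination -e))
  refine ⟨K₁, K₂, K₃, fun K hK => ?_, ?_, ?_, ?_, fun K hc hq => ?_⟩
  · simp only [List.mem_cons, List.not_mem_nil, or_false] at hK
    rcases hK with rfl | rfl | rfl
    exacts [g₁, g₂, g₃]
  · rintro ⟨g, hg⟩
    exact hω1.symm (CfsgLib.UnitarySixFour.param_eq_of_conj hF hF9 g₂ p₁ p₂ s₁ s₂ hg)
  · rintro ⟨g, hg⟩
    exact hω21 (CfsgLib.UnitarySixFour.param_eq_of_conj hF hF9 g₃ p₁ p₃ s₁ s₃ hg)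
  · rintro ⟨g, hg⟩
    exact hω2ω (CfsgLib.UnitarySixFour.param_eq_of_conj hF hF9 g₃ p₂ p₃ s₂ s₃ hg)
  · have hK : CfsgLib.UnitarySixFour.Good F9 K := ⟨hc, hq⟩
    obtain ⟨g, hg⟩ := CfsgLib.UnitarySixFour.exists_conj_syl hF hF9 hK
    obtain ⟨c, hc0, hs, -⟩ := CfsgLib.UnitarySixFour.exists_param hF hF9 (hK.conj g) hg
    refine ⟨g, ?_⟩
    rcases hω c hc0 with rfl | rfl | rfl
    · exact Or.inl (CfsgLib.UnitarySixFour.eq_of_param hF hF9 (hK.conj g) g₁ hg p₁ hc0 hs s₁)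
    · exact Or.inr (Or.inl (CfsgLib.UnitarySixFour.eq_of_param hF hF9 (hK.conj g) g₂ hg p₂ hc0 hs s₂))
    · exact Or.inr (Or.inr (CfsgLib.UnitarySixFour.eq_of_param hF hF9 (hK.conj g) g₃ hg p₃ hc0 hs s₃))

end Cfsg.Agent.S5520
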