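import Cfsg.Statements.S5541
-- import your own Cfsg.Agent.* helpers here

set_option autoImplicit false
open Cfsg

namespace Cfsg.Agent.S5541

/-- Let ρ be a representation of a group H on a finite-dimensional real vector space U whose only ρ-invariant subspaces are the zero subspace and U, and suppose U carries a non-zero ρ-invariant symmetric bilinear form. Then the following are equivalent: (1) there is a non-zero ρ-equivariant commutative bilinear product on U of which every ρ-equivariant bilinear product is a scalar multiple; (2) there is a non-zero ρ-invariant trilinear form on U that is symmetric under all permutations of its arguments and of which every ρ-invariant trilinear form is a scalar multiple. -/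
theorem result {H : Type*} [Group H] {U : Type*} [AddCommGroup U] [Module ℝ U] [FiniteDimensional ℝ U] (ρ : Representation ℝ H U) (hirr : ∀ W : Submodule ℝ U, (∀ g : H, W.map (ρ g) ≤ W) → W = ⊥ ∨ W = ⊤) (B : LinearMap.BilinForm ℝ U) (hB0 : B ≠ 0) (hBs : ∀ u v, B u v = B v u) (hBi : ∀ (g : H) (u v : U), B (ρ g u) (ρ g v) = B u v) : (∃ m : U →ₗ[ℝ] U →ₗ[ℝ] U, m ≠ 0 ∧ (∀ u v, m u v = m v u) ∧ (∀ (g : H) (u v : U), m (ρ g u) (ρ g v) = ρ g (m u v)) ∧ ∀ m' : U →ₗ[ℝ] U →ₗ[ℝ] U, (∀ (g : H) (u v : U), m' (ρ g u) (ρ g v) = ρ g (m' u v)) → ∃ c : ℝ, m' = c • m) ↔ (∃ t : U →ₗ[ℝ] U →ₗ[ℝ] U →ₗ[ℝ] ℝ, t ≠ 0 ∧ (∀ u v w, t u v w = t v u w ∧ t u v w = t u w v) ∧ (∀ (g : H) (u v w : U), t (ρ g u) (ρ g v) (ρ g w) = t u v w) ∧ ∀ t' : U →ₗ[ℝ] U →ₗ[ℝ] U →ₗ[ℝ] ℝ, (∀ (g : H) (u v w : U), t' (ρ g u) (ρ g v) (ρ g w) = t' u v w) → ∃ c : ℝ, t' = c • t) := by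
  have hker : ∀ v, B v = 0 → v = 0 := by
    rcases hirr (LinearMap.ker B) (fun g => by
      rintro _ ⟨v, hv, rfl⟩
      refine LinearMap.mem_ker.2 (LinearMap.ext fun w => ?_)
      have h := hBi g v (ρ g⁻¹ w)
      rw [Representation.self_inv_apply, LinearMap.mem_ker.1 hv] at h
      exact h) with h | h
    · intro v hv; exact (Submodule.mem_bot ℝ).1 (h ▸ LinearMap.mem_ker.2 hv)
    · exact absurd (LinearMap.ker_eq_top.1 h) hB0
  have hnd : B.Nondegenerate :=
    (LinearMap.IsRefl.nondegenerate_iff_separatingLeft (fun u v h => by rwa [hBs])).2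
      (fun v hv => hker v (LinearMap.ext hv))
  set Φ := LinearMap.BilinForm.toDual B hnd with hΦ
  have hΦap : ∀ x w, Φ x w = B x w := fun x w => rfl
  -- a product gives a trilinear form and conversely
  set T : (U →ₗ[ℝ] U →ₗ[ℝ] U) → (U →ₗ[ℝ] U →ₗ[ℝ] U →ₗ[ℝ] ℝ) :=
    fun m => m.compr₂ (Φ : U →ₗ[ℝ] Module.Dual ℝ U) with hT
  set M : (U →ₗ[ℝ] U →ₗ[ℝ] U →ₗ[ℝ] ℝ) → (U →ₗ[ℝ] U →ₗ[ℝ] U) :=
    fun t => t.compr₂ (Φ.symm : Module.Dual ℝ U →ₗ[ℝ] U) with hM
  have Tap : ∀ m u v w, T m u v w = B (m u v) w := fun m u v w => rfl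
  have Map' : ∀ t u v w, B (M t u v) w = t u v w := fun t u v w => by
    rw [← hΦap]; simp [hM]
  have ext2 : ∀ m m' : U →ₗ[ℝ] U →ₗ[ℝ] U, (∀ u v w, B (m u v) w = B (m' u v) w) → m = m' := by
    intro m m' h
    refine LinearMap.ext fun u => LinearMap.ext fun v => sub_eq_zero.1 (hker _ ?_)
    ext w
    simp [h u v w]
  have Tinv : ∀ m, (∀ g u v, m (ρ g u) (ρ g v) = ρ g (m u v)) →
      ∀ g u v w, T m (ρ g u) (ρ g v) (ρ g w) = T m u v w := fun m hm g u v w => by
    rw [Tap, hm, hBi, Tap]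
  have Minv : ∀ t : U →ₗ[ℝ] U →ₗ[ℝ] U →ₗ[ℝ] ℝ,
      (∀ g u v w, t (ρ g u) (ρ g v) (ρ g w) = t u v w) →
      ∀ g u v, M t (ρ g u) (ρ g v) = ρ g (M t u v) := by
    intro t ht g u v
    refine sub_eq_zero.1 (hker _ (LinearMap.ext fun w => ?_))
    have h1 : t (ρ g u) (ρ g v) w = t u v (ρ g⁻¹ w) := by
      have := ht g u v (ρ g⁻¹ w)
      rwa [Representation.self_inv_apply] at this
    have h2 : B (ρ g (M t u v)) w = B (M t u v) (ρ g⁻¹ w) := by
      have := hBi g (M t u v) (ρ g⁻¹ w)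
      rwa [Representation.self_inv_apply] at this
    simp [Map', h1, h2]
  constructor
  · rintro ⟨m, hm0, hms, hmi, hmu⟩
    refine ⟨T m, fun h => hm0 (ext2 m 0 fun u v w => ?_), ?_, Tinv m hmi, ?_⟩
    · rw [← Tap, h]; simp
    · intro u v w
      have s12 : ∀ u v w, T m u v w = T m v u w := fun u v w => by rw [Tap, Tap, hms]
      refine ⟨s12 u v w, ?_⟩
      let t' : U →ₗ[ℝ] U →ₗ[ℝ] U →ₗ[ℝ] ℝ :=
        LinearMap.mk₂ ℝ (fun u v => (T m u).flip v)
          (fun a b c => by ext; simp) (fun a b c => by ext; simp)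
          (fun a b c => by ext; simp) (fun a b c => by ext; simp)
      have t'ap : ∀ u v w, t' u v w = T m u w v := fun u v w => rfl
      obtain ⟨c, hc⟩ := hmu (M t') (Minv t' fun g u v w => by
        rw [t'ap, t'ap, Tinv m hmi])
      have rel : ∀ u v w, T m u w v = c * T m u v w := fun u v w => by
        rw [← t'ap, ← Map', hc, Tap]; simp
      by_contra hne
      rw [rel u v w] at hne
      have hc2 : ∀ u v w, T m u v w = c * c * T m u v w := fun u v w => by
        rw [mul_assoc, ← rel u v w, ← rel u w v]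
      have hc3 : ∀ u v w, T m u v w = c * c * c * T m u v w := fun u v w => by
        calc T m u v w = c * T m u w v := rel u w v
          _ = c * T m w u v := by rw [s12]
          _ = c * (c * T m w v u) := by rw [rel w v u]
          _ = c * (c * T m v w u) := by rw [s12 w v u]
          _ = c * (c * (c * T m v u w)) := by rw [rel v u w]
          _ = c * c * c * T m u v w := by rw [s12 v u w]; ring
      have h0 : T m u v w ≠ 0 := fun h => hne (by rw [h, mul_zero])
      have e2 : c * c = 1 := by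
        have := hc2 u v w
        field_simp at this
        linarith
      have := hc3 u v w
      rw [e2, one_mul] at this
      exact hne this
    · intro t' ht'
      obtain ⟨c, hc⟩ := hmu (M t') (Minv t' ht')
      refine ⟨c, LinearMap.ext fun u => LinearMap.ext fun v => LinearMap.ext fun w => ?_⟩
      rw [← Map', hc]
      simp [Tap]
  · rintro ⟨t, ht0, hts, hti, htu⟩
    refine ⟨M t, fun h => ht0 ?_, ?_, Minv t hti, ?_⟩
    · ext u v w
      rw [← Map', h]
      simp
    · intro u v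
      refine sub_eq_zero.1 (hker _ (LinearMap.ext fun w => ?_))
      simp [Map', (hts u v w).1]
    · intro m' hm'
      obtain ⟨c, hc⟩ := htu (T m') (Tinv m' hm')
      refine ⟨c, ext2 _ _ fun u v w => ?_⟩
      rw [← Tap, hc]
      simp [Map']

end Cfsg.Agent.S5541
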