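import Cfsg.Statements.S5543
import Cfsg.Agent.Lib.Plane4.Majorana

set_option autoImplicit false
open Cfsg

namespace Cfsg.Agent.S5543

/-- Let V be a finite-dimensional real vector space with a commutative bilinear product and a positive-definite symmetric bilinear form that associates with the product and satisfies the Norton inequality (the Majorana setting of the definitions). Let X be a group of linear automorphisms of V in which every element squares to the identity, and suppose every non-identity element x of X is a Majorana involution with an axial vector a(x) of squared length 1, such that for any two distinct non-identity x, y the product a(x) ∘ a(y) equals (1/8)(a(x) + a(y) − a(xy)) (the dihedral subalgebra of type 2A whose third axis belongs to the involution xy). Then X has order at most 4. -/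
theorem result {V : Type*} [AddCommGroup V] [Module ℝ V] [FiniteDimensional ℝ V] (mul : V →ₗ[ℝ] V →ₗ[ℝ] V) (B : LinearMap.BilinForm ℝ V) (hV : Cfsg.Axial.IsMajoranaAmbient mul B) (X : Subgroup (V ≃ₗ[ℝ] V)) (hX : ∀ x ∈ X, x * x = 1) (ax : (V ≃ₗ[ℝ] V) → V) (hax : ∀ x ∈ X, x ≠ 1 → Cfsg.Axial.IsMajoranaPair mul B x (ax x)) (h1 : ∀ x ∈ X, x ≠ 1 → B (ax x) (ax x) = 1) (h2A : ∀ x ∈ X, ∀ y ∈ X, x ≠ 1 → y ≠ 1 → x ≠ y → mul (ax x) (ax y) = (1 / 8 : ℝ) • (ax x + ax y - ax (x * y))) : Nat.card ↥X ≤ 4 := by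
  by_contra hlt
  push Not at hlt
  haveI : Finite ↥X := Nat.finite_of_card_ne_zero (by omega)
  obtain ⟨hcomm, hBs, hpos, hass, -⟩ := hV
  have pick : ∀ S : Finset ↥X, S.card ≤ 4 → ∃ z : ↥X, z ∉ S := by
    intro S hS
    by_contra hall
    push Not at hall
    haveI := Fintype.ofFinite ↥X
    have : Finset.univ ⊆ S := fun z _ => hall z
    have := Finset.card_le_card this
    rw [Finset.card_univ, ← Nat.card_eq_fintype_card] at this
    omega
  classical
  obtain ⟨x, hx1'⟩ := pick {1} (by simp)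
  obtain ⟨y, hy'⟩ := pick {1, x} (Finset.card_le_two.trans (by norm_num))
  obtain ⟨z, hz'⟩ := pick {1, x, y, x * y}
    ((Finset.card_insert_le _ _).trans (by
      have := Finset.card_le_three (a := x) (b := y) (c := x * y); omega))
  simp only [Finset.mem_insert, Finset.mem_singleton, not_or] at hx1' hy' hz'
  obtain ⟨x, hx⟩ := x
  obtain ⟨y, hy⟩ := y
  obtain ⟨z, hz⟩ := z
  simp only [Submonoid.mk_mul_mk, MulMemClass.mk_mul_mk, Subtype.mk.injEq,
    ← OneMemClass.coe_eq_one] at hx1' hy' hz'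
  have inv_self : ∀ u ∈ X, u⁻¹ = u := fun u hu => inv_eq_of_mul_eq_one_right (hX u hu)
  have comm : ∀ u ∈ X, ∀ v ∈ X, u * v = v * u := by
    intro u hu v hv
    have := inv_self _ (X.mul_mem hu hv)
    rw [mul_inv_rev, inv_self u hu, inv_self v hv] at this
    exact this.symm
  have mne : ∀ u ∈ X, ∀ v ∈ X, u ≠ v → u * v ≠ 1 := fun u hu v hv h e => h (by
    rw [← inv_self v hv]; exact eq_inv_of_mul_eq_one_left e)
  have canc : ∀ u ∈ X, ∀ v ∈ X, u * (u * v) = v := fun u hu v hv => by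
    rw [← mul_assoc, hX u hu, one_mul]
  have idem : ∀ u ∈ X, u ≠ 1 → mul (ax u) (ax u) = ax u := fun u hu h =>
    (hax u hu h).2.2.1.1.2.1
  have ip : ∀ u ∈ X, ∀ v ∈ X, u ≠ 1 → v ≠ 1 → u ≠ v →
      7 * B (ax u) (ax v) = 1 - B (ax u) (ax (u * v)) := by
    intro u hu v hv hu1 hv1 huv
    have h := hass (ax u) (ax u) (ax v)
    rw [idem u hu hu1, h2A u hu v hv hu1 hv1 huv] at h
    simp only [map_smul, map_sub, map_add, h1 u hu hu1, smul_eq_mul] at h
    linarith
  have B8 : ∀ u ∈ X, ∀ v ∈ X, u ≠ 1 → v ≠ 1 → u ≠ v → B (ax u) (ax v) = 1 / 8 := by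
    intro u hu v hv hu1 hv1 huv
    have e1 := ip u hu v hv hu1 hv1 huv
    have e2 := ip u hu (u * v) (X.mul_mem hu hv) hu1 (mne u hu v hv huv) (fun h => hv1 (by
      rw [← canc u hu v hv, ← h, hX u hu]))
    rw [canc u hu v hv] at e2
    linarith
  obtain ⟨hy1, hyx⟩ := hy'
  obtain ⟨hz1, hzx, hzy, hzxy⟩ := hz'
  have mp : x * y ∈ X := X.mul_mem hx hy
  have mq : x * z ∈ X := X.mul_mem hx hz
  have mr : y * z ∈ X := X.mul_mem hy hz
  have ms : x * (y * z) ∈ X := X.mul_mem hx mr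
  have p1 : x * y ≠ 1 := mne x hx y hy (Ne.symm hyx)
  have q1 : x * z ≠ 1 := mne x hx z hz (Ne.symm hzx)
  have r1 : y * z ≠ 1 := mne y hy z hz (Ne.symm hzy)
  have xr : x ≠ y * z := fun h => hzxy (by rw [h, comm y hy z hz, mul_assoc, hX y hy, mul_one])
  have s1 : x * (y * z) ≠ 1 := mne x hx _ mr xr
  have xp : x ≠ x * y := fun h => hy1 (left_eq_mul.1 h)
  have xq : x ≠ x * z := fun h => hz1 (left_eq_mul.1 h)
  have xs : x ≠ x * (y * z) := fun h => r1 (left_eq_mul.1 h)
  have yq : y ≠ x * z := fun h => hzxy (by rw [h, ← mul_assoc, hX x hx, one_mul])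
  have pz : x * y ≠ z := fun h => hzxy h.symm
  have pq : x * y ≠ x * z := fun h => hzy (mul_left_cancel h).symm
  have rs : y * z ≠ x * (y * z) := fun h => hx1' (by
    have := mul_right_cancel (b := y * z) (a := 1) (c := x) (by rw [one_mul]; exact h)
    exact this.symm)
  -- the two quarter eigenvectors
  set a := ax x with ha
  have eig : ∀ u ∈ X, u ≠ 1 → x ≠ u → x * u ≠ 1 → x ≠ x * u →
      ax u - ax (x * u) ∈ Cfsg.Axial.eigen mul a (1 / 4) := by
    intro u hu hu1 hxu hxu1 hxxu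
    rw [CfsgLib.Plane4.Majorana.mem_eigen, map_sub, h2A x hx u hu hx1' hu1 hxu,
      h2A x hx (x * u) (X.mul_mem hx hu) hx1' hxu1 hxxu, canc x hx u hu]
    module
  have m1 := eig y hy hy1 (Ne.symm hyx) p1 xp
  have m2 := eig z hz hz1 (Ne.symm hzx) q1 xq
  have m3 := eig (y * z) mr r1 xr s1 xs
  have hfus := (hax x hx hx1').2.2.1.1.2.2.2 (1 / 4) (by simp [Cfsg.Axial.majoranaSpectrum])
    (1 / 4) (by simp [Cfsg.Axial.majoranaSpectrum]) _ m1 _ m2
  have hlaw : Cfsg.Axial.monsterLaw (1 / 4 : ℝ) (1 / 32) (1 / 4) (1 / 4) = {1, 0} := by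
    simp [Cfsg.Axial.monsterLaw]
  rw [hlaw, CfsgLib.Plane4.Majorana.mem_eigenSum_pair] at hfus
  obtain ⟨u, hu, v, hv, huv⟩ := hfus
  have ec1 : x * (y * z) = (x * y) * z := (mul_assoc x y z).symm
  have ec2 : y * (x * z) = x * (y * z) := by rw [← mul_assoc, comm y hy x hx, mul_assoc]
  have ec3 : (x * y) * (x * z) = y * z := by
    rw [comm x hx y hy, mul_assoc, canc x hx z hz]
  have hw : mul (ax y - ax (x * y)) (ax z - ax (x * z)) =
      (-1 / 4 : ℝ) • (ax (y * z) - ax (x * (y * z))) := by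
    simp only [map_sub, LinearMap.sub_apply, h2A y hy z hz hy1 hz1 (Ne.symm hzy),
      h2A y hy _ mq hy1 q1 yq, h2A _ mp z hz p1 hz1 pz, h2A _ mp _ mq p1 q1 pq, ← ec1, ec2, ec3]
    module
  rw [hw] at huv
  set d := ax (y * z) - ax (x * (y * z)) with hd
  rw [CfsgLib.Plane4.Majorana.mem_eigen] at hu hv m3
  have e1 : mul a u + mul a v = (-1 / 4 : ℝ) • ((1 / 4 : ℝ) • d) := by
    rw [← map_add, huv, map_smul, m3]
  rw [hu, hv, one_smul, zero_smul, add_zero] at e1
  have e2 : (1 / 4 : ℝ) • ((1 / 4 : ℝ) • d) = (1 / 4 : ℝ) • d := by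
    have h3 : mul a u = u := by rw [hu, one_smul]
    rw [e1, map_smul, map_smul, m3] at h3
    have h4 := congrArg (fun w => (-4 : ℝ) • w) h3
    simp only [smul_smul] at h4 ⊢
    convert h4 using 2 <;> norm_num
  have d0 : d = 0 := by
    have : (3 / 16 : ℝ) • d = 0 := by
      calc (3 / 16 : ℝ) • d = (1 / 4 : ℝ) • d - (1 / 4 : ℝ) • ((1 / 4 : ℝ) • d) := by module
        _ = 0 := by rw [e2, sub_self]
    exact (smul_eq_zero.1 this).resolve_left (by norm_num)
  have := B8 _ mr _ ms r1 s1 rs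
  rw [← sub_eq_zero.1 d0, h1 _ mr r1] at this
  norm_num at this

end Cfsg.Agent.S5543
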