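import Cfsg.Statements.S5544
import Cfsg.Agent.Lib.Sakuma.Solve
-- import your own Cfsg.Agent.* helpers here

set_option autoImplicit false
open Cfsg

namespace Cfsg.Agent.S5544

open Cfsg.Axial CfsgLib.Plane4.Majorana

variable {V : Type*} [AddCommGroup V] [Module ℝ V] {mul : V →ₗ[ℝ] V →ₗ[ℝ] V} {B : LinearMap.BilinForm ℝ V}

theorem pair_unique {μ ν : V ≃ₗ[ℝ] V} {a : V} (h : IsMajoranaPair mul B μ a) (h' : IsMajoranaPair mul B ν a) :
    μ = ν := by
  refine LinearEquiv.ext fun v => ?_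
  obtain ⟨t, v₀, v₁, v₂, h₀, h₁, h₂, rfl⟩ := decomp h v
  have hmem : t • a + v₀ + v₁ ∈ eigenSum mul a ({1, 0, 1 / 4} : Set ℝ) := by
    refine add_mem (add_mem (Submodule.smul_mem _ t ?_) ?_) ?_
    · exact eigen_le_eigenSum (c := (1 : ℝ)) (by simp) (mem_eigen.2 (by rw [h.2.2.1.1.2.1, one_smul]))
    · exact eigen_le_eigenSum (by simp) h₀
    · exact eigen_le_eigenSum (by simp) h₁
  have e1 : μ (t • a + v₀ + v₁) = t • a + v₀ + v₁ := h.2.2.2.1 _ hmem
  have e2 : ν (t • a + v₀ + v₁) = t • a + v₀ + v₁ := h'.2.2.2.1 _ hmem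
  have e3 : μ v₂ = -v₂ := h.2.2.2.2 v₂ h₂
  have e4 : ν v₂ = -v₂ := h'.2.2.2.2 v₂ h₂
  rw [map_add, map_add ν, e1, e2, e3, e4]

theorem map_eigenSum {g : V ≃ₗ[ℝ] V} (hg : ∀ u v, g (mul u v) = mul (g u) (g v)) (a : V) (T : Set ℝ) :
    eigenSum mul (g a) T = (eigenSum mul a T).map (g : V →ₗ[ℝ] V) := by
  have key : ∀ c : ℝ, eigen mul (g a) c = (eigen mul a c).map (g : V →ₗ[ℝ] V) := by
    intro c
    ext v
    rw [mem_eigen, Submodule.mem_map]
    constructor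
    · intro h
      refine ⟨g.symm v, mem_eigen.2 (g.injective ?_), g.apply_symm_apply v⟩
      rw [hg, map_smul, g.apply_symm_apply, h]
    · rintro ⟨w, hw, rfl⟩
      rw [LinearEquiv.coe_coe, ← hg, mem_eigen.1 hw, map_smul]
  simp only [eigenSum, Submodule.map_iSup, key]

theorem map_eigen {g : V ≃ₗ[ℝ] V} (hg : ∀ u v, g (mul u v) = mul (g u) (g v)) (a : V) (c : ℝ) :
    eigen mul (g a) c = (eigen mul a c).map (g : V →ₗ[ℝ] V) := by
  have := map_eigenSum hg a ({c} : Set ℝ)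
  rwa [eigenSum_singleton, eigenSum_singleton] at this

/-- Automorphisms carry Majorana pairs to Majorana pairs. -/
theorem pair_map {g μ : V ≃ₗ[ℝ] V} {a : V} (hg : ∀ u v, g (mul u v) = mul (g u) (g v))
    (hgB : ∀ u v, B (g u) (g v) = B u v) (h : IsMajoranaPair mul B μ a) :
    IsMajoranaPair mul B (g * μ * g⁻¹) (g a) := by
  obtain ⟨hm, hb, ⟨⟨hne, haa, htop, hlaw⟩, hone⟩, hfix, hneg⟩ := h
  have hgi : ∀ u v, g⁻¹ (mul u v) = mul (g⁻¹ u) (g⁻¹ v) := fun u v => by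
    apply g.injective
    rw [hg]
    show g (g.symm (mul u v)) = mul (g (g.symm u)) (g (g.symm v))
    simp
  have hgg : ∀ w, g⁻¹ (g w) = w := fun w => g.symm_apply_apply w
  refine ⟨fun u v => ?_, fun u v => ?_, ⟨⟨?_, ?_, ?_, ?_⟩, ?_⟩, ?_, ?_⟩
  · simp only [LinearEquiv.mul_apply, hgi, hm, hg]
  · simp only [LinearEquiv.mul_apply, hgB, hb]
    rw [← hgB]
    exact congrArg₂ (fun x y => B x y) (g.apply_symm_apply u) (g.apply_symm_apply v)
  · simpa using hne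
  · rw [← hg, haa]
  · rw [map_eigenSum hg, htop, Submodule.map_top, LinearEquiv.range]
  · intro c hc d hd u hu v hv
    rw [map_eigen hg] at hu hv
    obtain ⟨u, hu, rfl⟩ := hu
    obtain ⟨v, hv, rfl⟩ := hv
    rw [map_eigenSum hg]
    exact ⟨_, hlaw c hc d hd u hu v hv, by simp [hg]⟩
  · rw [map_eigen hg, hone, Submodule.map_span, Set.image_singleton]
    rfl
  · intro v hv
    rw [map_eigenSum hg] at hv
    obtain ⟨w, hw, rfl⟩ := hv
    show g (μ (g⁻¹ (g w))) = g w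
    rw [hgg]
    exact congrArg g (hfix w hw)
  · intro v hv
    rw [map_eigen hg] at hv
    obtain ⟨w, hw, rfl⟩ := hv
    show g (μ (g⁻¹ (g w))) = -g w
    rw [hgg, ← map_neg g]
    exact congrArg g (hneg w hw)

/-- The automorphisms of product and form. -/
def aut (mul : V →ₗ[ℝ] V →ₗ[ℝ] V) (B : LinearMap.BilinForm ℝ V) : Subgroup (V ≃ₗ[ℝ] V) where
  carrier := {g | (∀ u v, g (mul u v) = mul (g u) (g v)) ∧ ∀ u v, B (g u) (g v) = B u v}
  mul_mem' {g h} hg hh := ⟨fun u v => by simp [hh.1, hg.1], fun u v => by simp [hh.2, hg.2]⟩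
  one_mem' := ⟨fun u v => rfl, fun u v => rfl⟩
  inv_mem' {g} hg := by
    refine ⟨fun u v => g.injective ?_, fun u v => ?_⟩
    · rw [hg.1]
      show g (g.symm (mul u v)) = mul (g (g.symm u)) (g (g.symm v))
      simp
    · rw [← hg.2]
      show B (g (g.symm u)) (g (g.symm v)) = B u v
      simp

theorem dihedral {G : Type*} [Group G] {p q : G} (hp : p * p = 1) (hq : q * q = 1) (k : ℤ) :
    p * (q * p) ^ k = (q * p) ^ (-k) * p ∧ q * (q * p) ^ k = (q * p) ^ (-k) * q := by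
  have ip : p⁻¹ = p := inv_eq_of_mul_eq_one_right hp
  have iq : q⁻¹ = q := inv_eq_of_mul_eq_one_right hq
  have h1 : SemiconjBy p (q * p) (q * p)⁻¹ := by
    show p * (q * p) = (q * p)⁻¹ * p
    rw [mul_inv_rev, ip, iq, mul_assoc]
  have h2 : SemiconjBy q (q * p) (q * p)⁻¹ := by
    show q * (q * p) = (q * p)⁻¹ * q
    rw [mul_inv_rev, ip, iq, mul_assoc p q q, hq, mul_one, ← mul_assoc, hq, one_mul]
  constructor
  · rw [zpow_neg, ← inv_zpow]; exact (h1.zpow_right k).eq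
  · rw [zpow_neg, ← inv_zpow]; exact (h2.zpow_right k).eq

/-- Let V be a finite-dimensional real vector space with a commutative bilinear product and a positive-definite symmetric bilinear form that associates with the product and satisfies the Norton inequality (the Majorana setting of the definitions). Let μ₀ and μ₁ be Majorana involutions with axial vectors a₀ and a₁ of squared length 1, each involution having no other axial vector. Then the product μ₀μ₁ has order at most 6: some power (μ₀μ₁)^n with 1 ≤ n ≤ 6 is the identity (so the two involutions generate a dihedral group of order at most 12). This is the 6-transposition property of Majorana involutions. -/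
theorem result {V : Type*} [AddCommGroup V] [Module ℝ V] [FiniteDimensional ℝ V] (mul : V →ₗ[ℝ] V →ₗ[ℝ] V) (B : LinearMap.BilinForm ℝ V) (hV : Cfsg.Axial.IsMajoranaAmbient mul B) (μ₀ μ₁ : V ≃ₗ[ℝ] V) (a₀ a₁ : V) (h₀ : Cfsg.Axial.IsMajoranaPair mul B μ₀ a₀) (h₁ : Cfsg.Axial.IsMajoranaPair mul B μ₁ a₁) (hu₀ : ∀ a : V, Cfsg.Axial.IsMajoranaPair mul B μ₀ a → a = a₀) (hu₁ : ∀ a : V, Cfsg.Axial.IsMajoranaPair mul B μ₁ a → a = a₁) (hn₀ : B a₀ a₀ = 1) (hn₁ : B a₁ a₁ = 1) : ∃ n : ℕ, 1 ≤ n ∧ n ≤ 6 ∧ (μ₀ * μ₁) ^ n = 1 := by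
  have hfix : ∀ {μ : V ≃ₗ[ℝ] V} {a : V}, Cfsg.Axial.IsMajoranaPair mul B μ a → μ a = a :=
    fun {μ a} h => h.2.2.2.1 a (eigen_le_eigenSum (c := (1 : ℝ)) (by simp) (mem_eigen.2 (by rw [h.2.2.1.1.2.1, one_smul])))
  have hinv : ∀ {μ : V ≃ₗ[ℝ] V} {a : V}, Cfsg.Axial.IsMajoranaPair mul B μ a → μ * μ = 1 := by
    intro μ a h
    refine LinearEquiv.ext fun v => ?_
    obtain ⟨t, v₀, v₁, v₂, m₀, m₁, m₂, rfl⟩ := decomp h v
    have e1 : μ (t • a + v₀ + v₁) = t • a + v₀ + v₁ := by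
      refine h.2.2.2.1 _ (add_mem (add_mem (Submodule.smul_mem _ t ?_) ?_) ?_)
      · exact eigen_le_eigenSum (c := (1 : ℝ)) (by simp) (mem_eigen.2 (by rw [h.2.2.1.1.2.1, one_smul]))
      · exact eigen_le_eigenSum (by simp) m₀
      · exact eigen_le_eigenSum (by simp) m₁
    have e3 : μ v₂ = -v₂ := h.2.2.2.2 v₂ m₂
    show μ (μ (t • a + v₀ + v₁ + v₂)) = t • a + v₀ + v₁ + v₂
    rw [map_add, e1, e3, map_add, e1, map_neg, e3, neg_neg]
  have hp := hinv h₀
  have hq := hinv h₁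
  set r := μ₁ * μ₀ with hr
  have hmul : ∀ g h : V ≃ₗ[ℝ] V, ∀ v, (g * h) v = g (h v) := fun _ _ _ => rfl
  have h00 : μ₀ a₀ = a₀ := hfix h₀
  have h11 : μ₁ a₁ = a₁ := hfix h₁
  have hraut : r ∈ aut mul B := mul_mem ⟨h₁.1, h₁.2.1⟩ ⟨h₀.1, h₀.2.1⟩
  let x : ℤ → V := fun i => (r ^ (i / 2)) (if Even i then a₀ else a₁)
  have xe : ∀ k : ℤ, x (2 * k) = (r ^ k) a₀ := fun k => by simp [x]
  have xo : ∀ k : ℤ, x (2 * k + 1) = (r ^ k) a₁ := fun k => by
    have e : (2 * k + 1) / 2 = k := by omega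
    simp [x, e]
  have step : ∀ i j : ℤ, (r ^ i) (x j) = x (2 * i + j) := by
    intro i j
    rcases Int.even_or_odd' j with ⟨k, rfl | rfl⟩
    · rw [xe, ← hmul, ← zpow_add, ← mul_add, xe]
    · rw [xo, ← hmul, ← zpow_add, ← add_assoc, ← mul_add, xo]
  have flip : ∀ j : ℤ, μ₀ (x j) = x (-j) := by
    intro j
    rcases Int.even_or_odd' j with ⟨k, rfl | rfl⟩
    · rw [xe, ← hmul, (dihedral hp hq k).1, hmul, h00, ← mul_neg, xe]
    · have e : μ₀ a₁ = (r⁻¹) a₁ := by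
        rw [hr, mul_inv_rev, inv_eq_of_mul_eq_one_right hp, inv_eq_of_mul_eq_one_right hq, hmul, h11]
      rw [xo, ← hmul, (dihedral hp hq k).1, hmul, e, ← hmul, ← zpow_neg_one, ← zpow_add,
        show -(2 * k + 1) = 2 * (-k + -1) + 1 by ring, xo]
  have hconj : ∀ k : ℤ, r ^ (2 * k) * μ₀ = r ^ k * μ₀ * (r ^ k)⁻¹ ∧
      r ^ (2 * k + 1) * μ₀ = r ^ k * μ₁ * (r ^ k)⁻¹ := by
    intro k
    obtain ⟨d1, d2⟩ := dihedral hp hq (-k)
    rw [neg_neg] at d1 d2
    constructor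
    · rw [← zpow_neg, mul_assoc, d1, ← mul_assoc, ← zpow_add, two_mul]
    · rw [← zpow_neg, mul_assoc (r ^ k), d2, ← mul_assoc, ← zpow_add, ← two_mul, zpow_add_one,
        mul_assoc, hr, mul_assoc μ₁ μ₀ μ₀, hp, mul_one]
  let S : CfsgLib.Sakuma.Seq mul B :=
    { amb := hV
      a := x
      μ := fun i => r ^ i * μ₀
      pair := fun i => by
        rcases Int.even_or_odd' i with ⟨k, rfl | rfl⟩
        · rw [(hconj k).1, xe]
          exact pair_map ((aut mul B).zpow_mem hraut k).1 ((aut mul B).zpow_mem hraut k).2 h₀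
        · rw [(hconj k).2, xo]
          exact pair_map ((aut mul B).zpow_mem hraut k).1 ((aut mul B).zpow_mem hraut k).2 h₁
      act := fun i j => by rw [hmul, flip, step, sub_eq_add_neg]
      norm := fun i => by
        rcases Int.even_or_odd' i with ⟨k, rfl | rfl⟩
        · rw [xe, ((aut mul B).zpow_mem hraut k).2, hn₀]
        · rw [xo, ((aut mul B).zpow_mem hraut k).2, hn₁] }
  obtain ⟨N, hN1, hN6, hN⟩ := S.exists_period
  refine ⟨N, hN1, hN6, ?_⟩
  have hpN := S.pair N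
  rw [hN] at hpN
  have h : r ^ (N : ℤ) * μ₀ = r ^ (0 : ℤ) * μ₀ := pair_unique hpN (S.pair 0)
  have hrN : r ^ (N : ℤ) = 1 := by
    rw [zpow_zero] at h
    exact mul_right_cancel h
  rw [zpow_natCast] at hrN
  rw [show μ₀ * μ₁ = r⁻¹ by
    rw [hr, mul_inv_rev, inv_eq_of_mul_eq_one_right hp, inv_eq_of_mul_eq_one_right hq], inv_pow, hrN, inv_one]

end Cfsg.Agent.S5544
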