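import Cfsg.Statements.S5545
import Cfsg.Agent.Lib.Plane4.Majorana

set_option autoImplicit false
open Cfsg

namespace Cfsg.Agent.S5545

/-- Let V be a finite-dimensional real vector space with a commutative bilinear product and a positive-definite symmetric bilinear form that associates with the product and satisfies the Norton inequality (the Majorana setting of the definitions). Let μ₀, μ₁ be commuting Majorana involutions with distinct axial vectors a₀ ≠ a₁ of squared length 1, each involution having no other axial vector. Then either a₀ and a₁ are orthogonal with a₀ ∘ a₁ = 0 (type 2B), or their inner product is 1/8 and, with a₂ = a₀ + a₁ − 8 a₀ ∘ a₁, the vector a₂ is an idempotent and a₀ ∘ a₂ = (1/8)(a₀ + a₂ − a₁), a₁ ∘ a₂ = (1/8)(a₁ + a₂ − a₀) (type 2A: the three idempotents span a subalgebra with aᵢ ∘ aⱼ = (1/8)(aᵢ + aⱼ − aₖ)). -/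
theorem result {V : Type*} [AddCommGroup V] [Module ℝ V] [FiniteDimensional ℝ V] (mul : V →ₗ[ℝ] V →ₗ[ℝ] V) (B : LinearMap.BilinForm ℝ V) (hV : Cfsg.Axial.IsMajoranaAmbient mul B) (μ₀ μ₁ : V ≃ₗ[ℝ] V) (a₀ a₁ : V) (h₀ : Cfsg.Axial.IsMajoranaPair mul B μ₀ a₀) (h₁ : Cfsg.Axial.IsMajoranaPair mul B μ₁ a₁) (hu₀ : ∀ a : V, Cfsg.Axial.IsMajoranaPair mul B μ₀ a → a = a₀) (hu₁ : ∀ a : V, Cfsg.Axial.IsMajoranaPair mul B μ₁ a → a = a₁) (hn₀ : B a₀ a₀ = 1) (hn₁ : B a₁ a₁ = 1) (hc : μ₀ * μ₁ = μ₁ * μ₀) (hne : a₀ ≠ a₁) : (B a₀ a₁ = 0 ∧ mul a₀ a₁ = 0) ∨ (B a₀ a₁ = 1 / 8 ∧ mul (a₀ + a₁ - (8 : ℝ) • mul a₀ a₁) (a₀ + a₁ - (8 : ℝ) • mul a₀ a₁) = a₀ + a₁ - (8 : ℝ) • mul a₀ a₁ ∧ mul a₀ (a₀ + a₁ - (8 : ℝ) • mul a₀ a₁) = (1 / 8 : ℝ) • (a₀ + (a₀ + a₁ - (8 : ℝ) • mul a₀ a₁) - a₁) ∧ mul a₁ (a₀ + a₁ - (8 : ℝ) • mul a₀ a₁) = (1 / 8 : ℝ) • (a₁ + (a₀ + a₁ - (8 : ℝ) • mul a₀ a₁) - a₀)) := by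
  obtain ⟨hcomm, hBs, hpos, hass, -⟩ := hV
  obtain ⟨hμm, hμB, ⟨⟨hne0, h00, -, hfus0⟩, h10⟩, -⟩ := id h₀
  obtain ⟨-, -, ⟨⟨hne1, h11, -, -⟩, -⟩, -⟩ := id h₁
  -- `μ₀` fixes `a₁`
  have hfix : μ₀ a₁ = a₁ := by
    refine hu₁ _ ?_
    obtain ⟨hm1, hB1, ⟨⟨-, -, htop, hfus1⟩, hp1⟩, hfix1, hneg1⟩ := h₁
    have hmm : ∀ v, mul (μ₀ a₁) (μ₀ v) = μ₀ (mul a₁ v) := fun v => (hμm a₁ v).symm
    have he : ∀ c, Cfsg.Axial.eigen mul (μ₀ a₁) c =
        (Cfsg.Axial.eigen mul a₁ c).map (μ₀ : V →ₗ[ℝ] V) := by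
      intro c
      ext v
      rw [Submodule.mem_map_equiv, CfsgLib.Plane4.Majorana.mem_eigen,
        CfsgLib.Plane4.Majorana.mem_eigen]
      conv_lhs => rw [← μ₀.apply_symm_apply v, hmm, ← map_smul, μ₀.injective.eq_iff]
    have hs : ∀ S, Cfsg.Axial.eigenSum mul (μ₀ a₁) S =
        (Cfsg.Axial.eigenSum mul a₁ S).map (μ₀ : V →ₗ[ℝ] V) := by
      intro S
      simp only [Cfsg.Axial.eigenSum, Submodule.map_iSup, he]
    have hcv : ∀ v, μ₁ (μ₀ v) = μ₀ (μ₁ v) := fun v => by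
      have := congrArg (fun f : V ≃ₗ[ℝ] V => f v) hc
      exact this.symm
    refine ⟨hm1, hB1, ⟨⟨fun h => hne1 (μ₀.map_eq_zero_iff.1 h), by rw [hmm, h11], ?_, ?_⟩, ?_⟩,
      ?_, ?_⟩
    · rw [hs, htop, Submodule.map_top, LinearEquiv.range]
    · intro c hc' d hd u hu v hv
      rw [he, Submodule.mem_map] at hu hv
      obtain ⟨u, hu, rfl⟩ := hu
      obtain ⟨v, hv, rfl⟩ := hv
      rw [hs]
      exact ⟨mul u v, hfus1 c hc' d hd u hu v hv, hμm u v⟩
    · rw [he, hp1, Submodule.map_span, Set.image_singleton]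
      rfl
    · intro v hv
      rw [hs, Submodule.mem_map] at hv
      obtain ⟨u, hu, rfl⟩ := hv
      exact (hcv u).trans (congrArg μ₀ (hfix1 u hu))
    · intro v hv
      rw [he, Submodule.mem_map] at hv
      obtain ⟨u, hu, rfl⟩ := hv
      exact ((hcv u).trans (congrArg μ₀ (hneg1 u hu))).trans (map_neg μ₀ u)
  obtain ⟨t, α, β, hα, hβ, ha1⟩ := CfsgLib.Plane4.Majorana.decomp_fixed h₀ hfix
  have hα' : mul a₀ α = 0 := by simpa using CfsgLib.Plane4.Majorana.mem_eigen.1 hα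
  have hβ' : mul a₀ β = (1 / 4 : ℝ) • β := CfsgLib.Plane4.Majorana.mem_eigen.1 hβ
  have hα₀ : mul α a₀ = 0 := by rw [hcomm, hα']
  have hβ₀ : mul β a₀ = (1 / 4 : ℝ) • β := by rw [hcomm, hβ']
  have oα : B a₀ α = 0 := by
    have := hass a₀ a₀ α
    rw [h00, hα', map_zero] at this
    exact this.symm
  have oβ : B a₀ β = 0 := by
    have := hass a₀ a₀ β
    rw [h00, hβ', map_smul, smul_eq_mul] at this
    linarith
  have hB01 : B a₀ a₁ = t := by
    rw [ha1, map_add, map_add, map_smul, hn₀, oα, oβ, smul_eq_mul, mul_one, add_zero, add_zero]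
  have mem : ∀ c : ℝ, c ∈ ({0, 1 / 4} : Set ℝ) → c ∈ Cfsg.Axial.majoranaSpectrum := by
    rintro c (rfl | rfl) <;> simp [Cfsg.Axial.majoranaSpectrum]
  -- products of the components
  have hαα : mul α α ∈ Cfsg.Axial.eigen mul a₀ 0 := by
    have := hfus0 0 (mem 0 (by simp)) 0 (mem 0 (by simp)) α hα α hα
    rwa [show Cfsg.Axial.monsterLaw (1 / 4 : ℝ) (1 / 32) 0 0 = {0} by
      simp [Cfsg.Axial.monsterLaw], CfsgLib.Plane4.Majorana.eigenSum_singleton] at this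
  have hαβ : mul α β ∈ Cfsg.Axial.eigen mul a₀ (1 / 4) := by
    have := hfus0 0 (mem 0 (by simp)) (1 / 4) (mem _ (by simp)) α hα β hβ
    rwa [show Cfsg.Axial.monsterLaw (1 / 4 : ℝ) (1 / 32) 0 (1 / 4) = {1 / 4} by
      simp [Cfsg.Axial.monsterLaw] <;> norm_num,
      CfsgLib.Plane4.Majorana.eigenSum_singleton] at this
  obtain ⟨lam, γ, hγ, hββ⟩ :
      ∃ (lam : ℝ) (γ : V), γ ∈ Cfsg.Axial.eigen mul a₀ 0 ∧ mul β β = lam • a₀ + γ := by
    have := hfus0 (1 / 4) (mem _ (by simp)) (1 / 4) (mem _ (by simp)) β hβ β hβ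
    rw [show Cfsg.Axial.monsterLaw (1 / 4 : ℝ) (1 / 32) (1 / 4) (1 / 4) = {1, 0} by
      simp [Cfsg.Axial.monsterLaw], CfsgLib.Plane4.Majorana.mem_eigenSum_pair] at this
    obtain ⟨u, hu, γ, hγ, e⟩ := this
    rw [h10] at hu
    obtain ⟨lam, rfl⟩ := Submodule.mem_span_singleton.1 hu
    exact ⟨lam, γ, hγ, e.symm⟩
  have hγ' : mul a₀ γ = 0 := by simpa using CfsgLib.Plane4.Majorana.mem_eigen.1 hγ
  -- the idempotent equation
  have hidem : (t ^ 2 + lam - t) • a₀ + (mul α α + γ - α) +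
      ((2 : ℝ) • mul α β + (t / 2) • β - β) = 0 := by
    have h := h11
    rw [ha1] at h
    simp only [map_add, map_smul, LinearMap.add_apply, LinearMap.smul_apply, h00, hα', hβ', hα₀,
      hβ₀, hcomm β α, hββ, smul_zero] at h
    rw [← sub_eq_zero] at h
    rw [← h]
    module
  obtain ⟨e1, e0, e4⟩ := CfsgLib.Plane4.Majorana.indep h00 hne0
    (sub_mem (add_mem hαα hγ) hα)
    (sub_mem (add_mem (Submodule.smul_mem _ _ hαβ) (Submodule.smul_mem _ _ hβ)) hβ) hidem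
  have eαα : mul α α = α - γ := eq_sub_of_add_eq (sub_eq_zero.1 e0)
  have eαβ : mul α β = (1 / 2 - t / 4) • β := by
    have e4' := congrArg (fun v => (1 / 2 : ℝ) • v) e4
    simp only [smul_sub, smul_add, smul_smul, smul_zero] at e4'
    rw [← sub_eq_zero, ← e4']
    module
  have elam : lam = t - t ^ 2 := by linarith
  subst elam
  have p01 : mul a₀ a₁ = t • a₀ + (1 / 4 : ℝ) • β := by
    rw [ha1]
    simp only [map_add, map_smul, h00, hα', hβ', add_zero]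
  -- the symmetric eigenvector condition
  obtain ⟨t', α', β', hα1, hβ1, ha0⟩ :=
    CfsgLib.Plane4.Majorana.decomp_fixed h₁ (v := a₀) (by
      refine hu₀ _ ?_
      obtain ⟨hm0, hB0, ⟨⟨-, -, htop, hfus⟩, hp⟩, hfixz, hnegz⟩ := h₀
      have hμ1 := h₁.1
      have hmm : ∀ v, mul (μ₁ a₀) (μ₁ v) = μ₁ (mul a₀ v) := fun v => (hμ1 a₀ v).symm
      have he : ∀ c, Cfsg.Axial.eigen mul (μ₁ a₀) c =
          (Cfsg.Axial.eigen mul a₀ c).map (μ₁ : V →ₗ[ℝ] V) := by
        intro c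
        ext v
        rw [Submodule.mem_map_equiv, CfsgLib.Plane4.Majorana.mem_eigen,
          CfsgLib.Plane4.Majorana.mem_eigen]
        conv_lhs => rw [← μ₁.apply_symm_apply v, hmm, ← map_smul, μ₁.injective.eq_iff]
      have hs : ∀ S, Cfsg.Axial.eigenSum mul (μ₁ a₀) S =
          (Cfsg.Axial.eigenSum mul a₀ S).map (μ₁ : V →ₗ[ℝ] V) := by
        intro S
        simp only [Cfsg.Axial.eigenSum, Submodule.map_iSup, he]
      have hcv : ∀ v, μ₀ (μ₁ v) = μ₁ (μ₀ v) := fun v =>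
        congrArg (fun f : V ≃ₗ[ℝ] V => f v) hc
      refine ⟨hm0, hB0, ⟨⟨fun h => hne0 (μ₁.map_eq_zero_iff.1 h), by rw [hmm, h00], ?_, ?_⟩, ?_⟩,
        ?_, ?_⟩
      · rw [hs, htop, Submodule.map_top, LinearEquiv.range]
      · intro c hc' d hd u hu v hv
        rw [he, Submodule.mem_map] at hu hv
        obtain ⟨u, hu, rfl⟩ := hu
        obtain ⟨v, hv, rfl⟩ := hv
        rw [hs]
        exact ⟨mul u v, hfus c hc' d hd u hu v hv, hμ1 u v⟩
      · rw [he, hp, Submodule.map_span, Set.image_singleton]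
        rfl
      · intro v hv
        rw [hs, Submodule.mem_map] at hv
        obtain ⟨u, hu, rfl⟩ := hv
        exact (hcv u).trans (congrArg μ₁ (hfixz u hu))
      · intro v hv
        rw [he, Submodule.mem_map] at hv
        obtain ⟨u, hu, rfl⟩ := hv
        exact ((hcv u).trans (congrArg μ₁ (hnegz u hu))).trans (map_neg μ₁ u))
  have hα1' : mul a₁ α' = 0 := by simpa using CfsgLib.Plane4.Majorana.mem_eigen.1 hα1
  have hβ1' : mul a₁ β' = (1 / 4 : ℝ) • β' := CfsgLib.Plane4.Majorana.mem_eigen.1 hβ1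
  have p10 : mul a₁ a₀ = t' • a₁ + (1 / 4 : ℝ) • β' := by
    conv_lhs => rw [ha0]
    simp only [map_add, map_smul, h11, hα1', hβ1', add_zero]
  have et : t' = t := by
    have o1 : B a₁ α' = 0 := by
      have := hass a₁ a₁ α'
      rw [h11, hα1', map_zero] at this
      exact this.symm
    have o2 : B a₁ β' = 0 := by
      have := hass a₁ a₁ β'
      rw [h11, hβ1', map_smul, smul_eq_mul] at this
      linarith
    rw [← hB01, hBs]
    conv_rhs => rw [ha0]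
    rw [map_add, map_add, map_smul, hn₁, o1, o2, smul_eq_mul, mul_one, add_zero, add_zero]
  subst et
  have eβ' : β' = (4 * (t' - t' ^ 2)) • a₀ - (4 * t') • α + (1 - 4 * t') • β := by
    have h4 : (1 / 4 : ℝ) • β' = mul a₁ a₀ - t' • a₁ := by rw [p10]; abel
    rw [hcomm a₁ a₀, p01, ha1] at h4
    have := congrArg (fun v => (4 : ℝ) • v) h4
    simp only [smul_smul] at this
    norm_num at this
    rw [this]
    module
  have key : (0 : ℝ) • a₀ + (γ - (3 * t') • α) + ((1 / 4 - 2 * t') • β) = 0 := by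
    have h := hβ1'
    rw [eβ', ha1] at h
    simp only [map_add, map_sub, map_smul, LinearMap.add_apply, LinearMap.sub_apply,
      LinearMap.smul_apply, h00, hα', hβ', hα₀, hβ₀, hcomm β α, hββ, eαα, eαβ, smul_zero] at h
    rw [← sub_eq_zero] at h
    rw [← h]
    module
  obtain ⟨-, eγ, eβ⟩ := CfsgLib.Plane4.Majorana.indep h00 hne0
    (sub_mem hγ (Submodule.smul_mem _ _ hα)) (Submodule.smul_mem _ _ hβ) key
  rw [sub_eq_zero] at eγ
  by_cases hβ0 : β = 0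
  · left
    have e := hββ
    simp only [hβ0, map_zero] at e
    obtain ⟨ez, -, -⟩ := CfsgLib.Plane4.Majorana.indep h00 hne0 hγ (zero_mem _)
      (by rw [add_zero]; exact e.symm)
    have : t' = 0 ∨ t' = 1 := by
      rcases mul_eq_zero.1 (show t' * (1 - t') = 0 by linarith) with h | h
      · exact Or.inl h
      · exact Or.inr (by linarith)
    rcases this with rfl | rfl
    · exact ⟨hB01, by rw [p01, hβ0]; simp⟩
    · exfalso
      have h := hn₁
      rw [ha1, hβ0, add_zero, one_smul] at h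
      simp only [map_add, LinearMap.add_apply, hn₀, oα, hBs α a₀] at h
      have : α = 0 := by
        by_contra hα0
        have := hpos α hα0
        linarith
      exact hne (by rw [ha1, this, hβ0]; simp)
  right
  have ht : t' = 1 / 8 := by
    rcases smul_eq_zero.1 eβ with h | h
    · linarith
    · exact absurd h hβ0
  subst ht
  have ep : a₀ + a₁ - (8 : ℝ) • mul a₀ a₁ = (1 / 8 : ℝ) • a₀ + α - β := by
    rw [p01, ha1]
    module
  rw [ep, ha1]
  refine ⟨by rw [← ha1]; exact hB01, ?_, ?_, ?_⟩ <;>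
    (simp only [map_add, map_sub, map_smul, LinearMap.add_apply, LinearMap.sub_apply,
      LinearMap.smul_apply, h00, hα', hβ', hα₀, hβ₀, hcomm β α, hββ, eαα, eαβ, eγ, smul_zero]
     module)

end Cfsg.Agent.S5545
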