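import Cfsg.Statements.S5552
import Cfsg.Agent.Lib.Leech.Pairs
import Cfsg.Agent.Lib.Fischer2.LeechFrame

set_option autoImplicit false
open Cfsg

namespace Cfsg.Agent.S5552

open CfsgLib.Leech CfsgLib.Fischer2 CfsgLib.Golay

/-- The subgroup generated by the minimal vectors. -/
def minGen : AddSubgroup leechLattice :=
  AddSubgroup.closure {v : leechLattice | sqNorm (coordVec v) = 32}

theorem min_mem {v : leechLattice} (h : sqNorm (coordVec v) = 32) : v ∈ minGen :=
  AddSubgroup.subset_closure h

theorem pairVec_min {i j : GolayPt} (h : i ≠ j) : sqNorm (coordVec (pairVec i j)) = 32 := by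
  have e : pairVec i j = fourPair i j false false := Subtype.ext (funext fun p => by
    show coordVec (pairVec i j) p = coordVec (fourPair i j false false) p
    rw [coordVec_pairVec, coordVec_fourPair]; simp)
  rw [e]; exact sqNorm_fourPair h _ _

theorem four_mem (x : leechLattice) (z : GolayPt → ℤ) (hz : ∀ i, coordVec x i = 4 * z i)
    (he : (2 : ℤ) ∣ ∑ i, z i) : x ∈ minGen := by
  classical
  obtain ⟨t, ht⟩ : (2 : ℤ) ∣ z none - ∑ i ∈ Finset.univ.erase none, z i := by
    have hs := Finset.add_sum_erase Finset.univ z (Finset.mem_univ none)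
    obtain ⟨k, hk⟩ := he
    exact ⟨z none - k, by linarith⟩
  have hsome : ∑ i ∈ Finset.univ.erase none, z i = ∑ i, z (some i) := by
    have h1 := Fintype.sum_option z
    have h2 := Finset.add_sum_erase Finset.univ z (Finset.mem_univ none)
    linarith
  let P : GolayPt := none
  let R : GolayPt := some 0
  have hPR : P ≠ R := by decide
  let y : leechLattice := ∑ i ∈ Finset.univ.erase none, z i • pairVec i none +
    t • (fourPair P R false false + fourPair P R false true)
  have hy : y ∈ minGen := by
    refine add_mem (sum_mem fun i hi => AddSubgroup.zsmul_mem _ (min_mem (pairVec_min ?_)) _) ?_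
    · exact Finset.ne_of_mem_erase hi
    · exact AddSubgroup.zsmul_mem _
        (add_mem (min_mem (sqNorm_fourPair hPR _ _)) (min_mem (sqNorm_fourPair hPR _ _))) _
  have hxy : x = y := by
    refine Subtype.ext (funext fun p => ?_)
    show coordVec x p = _
    rw [hz]
    have e : ((y : GolayPt → ℤ)) p = (∑ i ∈ Finset.univ.erase none, z i * coordVec (pairVec i none) p) +
        t * (coordVec (fourPair P R false false) p + coordVec (fourPair P R false true) p) := by
      simp only [y, AddSubgroup.coe_add, Pi.add_apply, AddSubgroup.val_finsetSum, Finset.sum_apply,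
        AddSubgroup.coe_zsmul, Pi.smul_apply, smul_eq_mul, coordVec]
    rw [e]
    simp only [coordVec_pairVec, coordVec_fourPair]
    rcases eq_or_ne p none with rfl | hp
    · rw [Finset.sum_congr rfl (g := fun i => 4 * z i) fun i hi => by
        rw [if_neg (Finset.ne_of_mem_erase hi).symm, if_pos rfl]; ring, ← Finset.mul_sum]
      simp [P, R]
      omega
    · rw [Finset.sum_congr rfl (g := fun i => if p = i then 4 * z i else 0) fun i hi => by
        rw [if_neg hp]; split <;> ring, Finset.sum_ite_eq,
        if_pos (Finset.mem_erase.2 ⟨hp, Finset.mem_univ _⟩)]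
      simp only [P, if_neg hp]
      rcases eq_or_ne p R with h | h <;> simp [h]
  exact hxy ▸ hy

theorem all_mem (x : leechLattice) : x ∈ minGen := by
  classical
  -- every code word is the residue pattern of an element
  have hcode : ∀ n ∈ codeMasks, ∃ y ∈ minGen, ∃ z : GolayPt → ℤ,
      ∀ i, coordVec y i = 2 * bitVec (wordOf n) i + 4 * z i := by
    intro n hn
    have hrow : ∀ b ∈ basisMasks, inCode b = true ∧ popc b = 8 := by decide +kernel
    refine spanMasks_induction (P := fun c => ∃ y ∈ minGen, ∃ z : GolayPt → ℤ,
      ∀ i, coordVec y i = 2 * bitVec c i + 4 * z i) ?_ ?_ (fun b hb => ?_) hn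
    · exact ⟨0, zero_mem _, 0, fun i => by simp [coordVec, bitVec]⟩
    · rintro c c' ⟨y, hy, z, hz⟩ ⟨y', hy', z', hz'⟩
      refine ⟨y + y', add_mem hy hy', fun i => z i + z' i + bitVec c i * bitVec c' i, fun i => ?_⟩
      have := bitVec_add c c' i
      show coordVec y i + coordVec y' i = _
      rw [hz, hz']
      linear_combination 2 * this
    · have ho : unmask b ∈ octads :=
        mem_octads_iff.2 ⟨b, inCode_iff.1 (hrow b hb).1, (hrow b hb).2, rfl⟩
      refine ⟨octVec ho, min_mem ?_, 0, fun i => ?_⟩
      · simp only [sqNorm, coordVec_octVec, ite_pow, zero_pow two_ne_zero, Finset.sum_ite_mem,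
          Finset.univ_inter, Finset.sum_const, card_eq_of_mem_octads ho]
        norm_num
      · rw [coordVec_octVec]
        by_cases h : i ∈ unmask b
        · rw [if_pos h]; simp [bitVec, wordOf, mem_unmask.1 h]
        · rw [if_neg h]; rw [mem_unmask] at h; simp [bitVec, wordOf, h]
  obtain ⟨m, -, c, hc, z, hx, -⟩ :=
    CfsgLib.Leech.mem_leechLattice_iff.1 x.2
  obtain ⟨n, hn, rfl⟩ := CfsgLib.Golay.mem_golayCode_iff.1 hc
  obtain ⟨y, hy, w, hw⟩ := hcode n hn
  let u : leechLattice := m • oddVec none + y
  have hu : u ∈ minGen := add_mem (AddSubgroup.zsmul_mem _ (min_mem (sqNorm_oddVec none)) _) hy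
  let v : GolayPt → ℤ := fun i => z i - w i + (if i = none then m else 0)
  have hd : ∀ i, coordVec (x - u) i = 4 * v i := by
    intro i
    have e : coordVec (x - u) i = (x : GolayPt → ℤ) i - (m * coordVec (oddVec none) i + coordVec y i) := by
      simp [u, coordVec]
    rw [e, hx, hw, coordVec_oddVec]
    simp only [mkVec, v]
    split <;> ring
  have he : (2 : ℤ) ∣ ∑ i, v i := by
    obtain ⟨m', hm', c', hc', z', hd', hpar⟩ :=
      CfsgLib.Leech.mem_leechLattice_iff.1 (x - u).2
    have hm0 : m' = 0 := by
      have := congrFun hd' none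
      rw [show ((x - u : leechLattice) : GolayPt → ℤ) none = coordVec (x - u) none from rfl, hd] at this
      simp only [mkVec] at this
      omega
    subst hm0
    have hcv : ∀ i, bitVec c' i = 0 ∧ z' i = v i := fun i => by
      have := congrFun hd' i
      rw [show ((x - u : leechLattice) : GolayPt → ℤ) i = coordVec (x - u) i from rfl, hd] at this
      simp only [mkVec] at this
      rcases bitVec_cases c' i with h | h <;> rw [h] at this <;> omega
    rw [sub_zero] at hpar
    rwa [Finset.sum_congr rfl fun i _ => (hcv i).2] at hpar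
  have := add_mem (four_mem (x - u) v hd he) hu
  rwa [sub_add_cancel] at this

theorem coordVec_add (v w : leechLattice) : coordVec (v + w) = coordVec v + coordVec w := rfl

theorem coordVec_neg (v : leechLattice) : coordVec (-v) = -coordVec v := rfl

variable {q : leechLattice → ZMod 2} {β : leechLattice → leechLattice → ZMod 2}

theorem q_min (h : IsInvariantForm q β) {v : leechLattice} (hv : sqNorm (coordVec v) = 32) :
    q v = 0 := by
  obtain ⟨g, hg⟩ := sameOrbit_norm32 hv (show (some 0 : GolayPt) ≠ none by simp)
  rw [← h.inv g v, hg, ← vecK_eq_pairVec]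
  exact h.q_vecK 0

theorem q_64 (h : IsInvariantForm q β) {v : leechLattice} (hv : sqNorm (coordVec v) = 64) :
    q v = 0 := by
  obtain ⟨g, u, hu⟩ := isAxisClass_norm64 v hv
  rw [← h.inv g v, hu, h.add_double]
  exact h.q_vecA

theorem form_eq_zero (h : IsInvariantForm q β)
    (hp : ∀ v w, sqNorm (coordVec v) = 32 → sqNorm (coordVec w) = 32 →
      dotInt (coordVec v) (coordVec w) = -8 → β v w = 0) : ∀ v, q v = 0 := by
  have hneg : ∀ a b, β a (-b) = β a b := fun a b => by
    have h2 := h.add_right a b (-b)
    rw [add_neg_cancel, h.symm a 0, h.zero_left] at h2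
    revert h2; generalize β a b = s; generalize β a (-b) = t; revert s t; decide
  have hdot : ∀ v w, sqNorm (coordVec v) = 32 → sqNorm (coordVec w) = 32 →
      dotInt (coordVec v) (coordVec w) ≤ 0 → β v w = 0 := by
    intro v w hv hw hle
    set d := dotInt (coordVec v) (coordVec w) with hd
    have hn : sqNorm (coordVec (v + w)) = 64 + 2 * d := by
      rw [coordVec_add, sqNorm_add, hv, hw, hd]; ring
    obtain ⟨k, hk⟩ : (8 : ℤ) ∣ d := eight_dvd_dotInt v.2 w.2
    have hb : β v w = q (v + w) := by rw [h.add, q_min h hv, q_min h hw, zero_add, zero_add]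
    rcases eq_or_ne (v + w) 0 with h0 | h0
    · rw [hb, h0, h.zero]
    have hmin : 32 ≤ sqNorm (coordVec (v + w)) := le_sqNorm_of_ne_zero (v + w).2 fun e => h0 (Subtype.ext e)
    have : d = 0 ∨ d = -8 ∨ d = -16 := by omega
    rcases this with e | e | e
    · rw [hb]; exact q_64 h (by omega)
    · exact hp v w hv hw (hd ▸ e)
    · rw [hb]; exact q_min h (by omega)
  have hβ : ∀ v w, sqNorm (coordVec v) = 32 → sqNorm (coordVec w) = 32 → β v w = 0 := by
    intro v w hv hw
    rcases le_total (dotInt (coordVec v) (coordVec w)) 0 with hle | hge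
    · exact hdot v w hv hw hle
    · rw [← hneg]
      refine hdot v (-w) hv ?_ ?_
      · rw [coordVec_neg, ← hw]; simp [sqNorm]
      · rw [coordVec_neg, dotInt_neg_right]; omega
  have hall : ∀ v w, β v w = 0 := by
    intro v w
    have h1 : ∀ v, ∀ w, sqNorm (coordVec w) = 32 → β v w = 0 := by
      intro v w hw
      induction (all_mem v) using AddSubgroup.closure_induction with
      | mem a ha => exact hβ a w ha hw
      | zero => exact h.zero_left w
      | add x y _ _ hx hy => rw [h.add_left, hx, hy, add_zero]
      | neg x _ hx => rw [h.symm, hneg, h.symm, hx]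
    induction (all_mem w) using AddSubgroup.closure_induction with
    | mem a ha => exact h1 v a ha
    | zero => rw [h.symm, h.zero_left]
    | add x y _ _ hx hy => rw [h.add_right, hx, hy, add_zero]
    | neg x _ hx => rw [hneg, hx]
  intro v
  induction (all_mem v) using AddSubgroup.closure_induction with
  | mem a ha => exact q_min h ha
  | zero => exact h.zero
  | add x y _ _ hx hy => rw [h.add, hx, hy, hall, add_zero, add_zero]
  | neg x _ hx =>
    have h2 := h.add x (-x)
    rw [add_neg_cancel, h.zero, hx, hall, zero_add, add_zero] at h2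
    exact h2.symm

/-- The standard form. -/
def q0 (v : leechLattice) : ZMod 2 := ((sqNorm (coordVec v) / 16 : ℤ) : ZMod 2)

/-- Its polar form. -/
def b0 (v w : leechLattice) : ZMod 2 := ((dotInt (coordVec v) (coordVec w) / 8 : ℤ) : ZMod 2)

theorem q0_form : IsInvariantForm q0 b0 where
  add v w := by
    obtain ⟨a, ha⟩ := sixteen_dvd_sqNorm v.2
    obtain ⟨b, hb⟩ := sixteen_dvd_sqNorm w.2
    obtain ⟨c, hc⟩ := eight_dvd_dotInt v.2 w.2
    have hn : sqNorm (coordVec (v + w)) = 16 * (a + c + b) := by
      rw [coordVec_add, sqNorm_add]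
      simp only [coordVec] at *
      rw [ha, hb, hc]; ring
    simp only [q0, b0, coordVec] at *
    rw [hn, ha, hb, hc, Int.mul_ediv_cancel_left _ (by norm_num), Int.mul_ediv_cancel_left _ (by norm_num),
      Int.mul_ediv_cancel_left _ (by norm_num), Int.mul_ediv_cancel_left _ (by norm_num)]
    push_cast
    ring
  add_left u v w := by
    obtain ⟨a, ha⟩ := eight_dvd_dotInt u.2 w.2
    obtain ⟨b, hb⟩ := eight_dvd_dotInt v.2 w.2
    have hn : dotInt (coordVec (u + v)) (coordVec w) = 8 * (a + b) := by
      rw [coordVec_add, dotInt_add_left]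
      simp only [coordVec] at *
      rw [ha, hb]; ring
    simp only [b0, coordVec] at *
    rw [hn, ha, hb, Int.mul_ediv_cancel_left _ (by norm_num), Int.mul_ediv_cancel_left _ (by norm_num),
      Int.mul_ediv_cancel_left _ (by norm_num), Int.cast_add]
  symm v w := by simp only [b0]; rw [dotInt_comm']
  self v := by
    obtain ⟨a, ha⟩ := sixteen_dvd_sqNorm v.2
    simp only [b0, coordVec, CfsgLib.Leech.dotInt_self]
    rw [ha, show (16 : ℤ) * a = 8 * (2 * a) by ring, Int.mul_ediv_cancel_left _ (by norm_num),
      ZMod.intCast_zmod_eq_zero_iff_dvd]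
    exact ⟨a, rfl⟩
  double v := by
    obtain ⟨a, ha⟩ := sixteen_dvd_sqNorm v.2
    have hn : sqNorm (coordVec (v + v)) = 16 * (4 * a) := by
      rw [coordVec_add, sqNorm_add, CfsgLib.Leech.dotInt_self]
      simp only [coordVec] at *
      rw [ha]; ring
    simp only [q0]
    rw [hn, Int.mul_ediv_cancel_left _ (by norm_num), ZMod.intCast_zmod_eq_zero_iff_dvd]
    exact ⟨2 * a, by ring⟩
  inv g v := by simp only [q0, sqNorm_smul' g v]

/-- On the Leech lattice of the definitions, let Q be a function to the field with two elements that is constant on cosets of twice the lattice, is a quadratic form there (Q(u+v+w) + Q(u) + Q(v) + Q(w) = Q(u+v) + Q(u+w) + Q(v+w) for all u, v, w), is invariant under every lattice automorphism, and is not identically zero. Then Q(v) is the squared length of v divided by 16, reduced modulo 2, for every lattice vector v (squared lengths of lattice vectors are multiples of 16). -/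
theorem result (Q : ↥Cfsg.leechLattice → ZMod 2) (hcoset : ∀ v w : ↥Cfsg.leechLattice, Q (v + (w + w)) = Q v) (hquad : ∀ u v w : ↥Cfsg.leechLattice, Q (u + v + w) + Q u + Q v + Q w = Q (u + v) + Q (u + w) + Q (v + w)) (hinv : ∀ (g : ↥Cfsg.Co0) (v : ↥Cfsg.leechLattice), Q (g • v) = Q v) (hne : ∃ v : ↥Cfsg.leechLattice, Q v ≠ 0) (v : ↥Cfsg.leechLattice) : Q v = ((Cfsg.sqNorm (v : Cfsg.GolayPt → ℤ) / 16 : ℤ) : ZMod 2) := by
  have hQ0 : Q 0 = 0 := by
    have := hquad 0 0 0
    simp only [add_zero] at this
    revert this; generalize Q 0 = s; revert s; decide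
  have hQd : ∀ w, Q (w + w) = 0 := fun w => by
    have := hcoset 0 w
    rwa [zero_add, hQ0] at this
  let β : leechLattice → leechLattice → ZMod 2 := fun u w => Q (u + w) + Q u + Q w
  have hQ : IsInvariantForm Q β :=
    { add := fun u w => by
        show _ = Q u + Q w + (Q (u + w) + Q u + Q w)
        generalize Q (u + w) = a; generalize Q u = b; generalize Q w = c
        revert a b c; decide
      add_left := fun u w x => by
        show Q (u + w + x) + Q (u + w) + Q x = Q (u + x) + Q u + Q x + (Q (w + x) + Q w + Q x)
        have := hquad u w x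
        revert this
        generalize Q (u + w + x) = a; generalize Q u = b; generalize Q w = c; generalize Q x = d
        generalize Q (u + w) = e; generalize Q (u + x) = f; generalize Q (w + x) = k
        revert a b c d e f k; decide
      symm := fun u w => by show _ + _ + _ = _ + _ + _; rw [add_comm u w]; ring
      self := fun u => by
        show Q (u + u) + Q u + Q u = 0
        rw [hQd, zero_add]; generalize Q u = a; revert a; decide
      double := hQd
      inv := hinv }
  have hD : IsInvariantForm (fun w => Q w + q0 w) (fun u w => β u w + b0 u w) :=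
    { add := fun u w => by
        show Q (u + w) + q0 (u + w) = _
        rw [hQ.add, q0_form.add]; ring
      add_left := fun u w x => by
        show β (u + w) x + b0 (u + w) x = _
        rw [hQ.add_left, q0_form.add_left]; ring
      symm := fun u w => by show β u w + b0 u w = β w u + b0 w u; rw [hQ.symm, q0_form.symm]
      self := fun u => by show β u u + b0 u u = 0; rw [hQ.self, q0_form.self, add_zero]
      double := fun u => by show Q (u + u) + q0 (u + u) = 0; rw [hQd, q0_form.double, add_zero]
      inv := fun g u => by show Q (g • u) + q0 (g • u) = _; rw [hinv, q0_form.inv] }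
  have hb0 : ∀ a b, dotInt (coordVec a) (coordVec b) = -8 → b0 a b = 1 := fun a b h => by
    simp only [b0, h]; decide
  by_cases hP : ∀ a b, sqNorm (coordVec a) = 32 → sqNorm (coordVec b) = 32 →
      dotInt (coordVec a) (coordVec b) = -8 → β a b = 1
  · have h0 := form_eq_zero hD (fun a b ha hb hd => by
      show β a b + b0 a b = 0
      rw [hP a b ha hb hd, hb0 a b hd]; decide) v
    show Q v = q0 v
    revert h0
    show Q v + q0 v = 0 → Q v = q0 v
    generalize Q v = s; generalize q0 v = t; revert s t; decide
  · exfalso
    push Not at hP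
    obtain ⟨a, b, ha, hb, hd, hβ⟩ := hP
    obtain ⟨w, hw⟩ := hne
    apply hw
    refine form_eq_zero hQ (fun a' b' ha' hb' hd' => ?_) w
    obtain ⟨g, hg1, hg2⟩ := pair_transitive ha' hb' ha hb (Or.inr (Or.inl rfl)) hd' hd
    rw [← hQ.polar_inv g a' b', hg1, hg2]
    revert hβ; generalize β a b = s; revert s; decide

end Cfsg.Agent.S5552
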