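import Cfsg.Statements.S5546
import Cfsg.Agent.S5552
import Cfsg.Agent.Lib.Leech.Index

set_option autoImplicit false
set_option linter.style.haveILetI false
open Cfsg

namespace Cfsg.Agent.S5546

open CfsgLib.Leech CfsgLib.Fischer2

instance : Fact (Nat.Prime 13) := ⟨by norm_num⟩

local notation "V13" => Cfsg.GolayPt → ZMod 13

/-- Reduction of lattice vectors modulo 13. -/
def red (v : leechLattice) : V13 := fun i => ((coordVec v i : ℤ) : ZMod 13)

theorem red_add (v w : leechLattice) : red (v + w) = red v + red w :=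
  funext fun _ => Int.cast_add _ _

/-- Eight times a unit vector. -/
def eightVec (i : GolayPt) : leechLattice :=
  ⟨fun p => 8 * (if p = i then 1 else 0), eight_mul_mem _⟩

theorem smul_eq_sum (g : Co0) (v : leechLattice) (p : GolayPt) :
    8 * coordVec (g • v) p = ∑ i, coordVec v i * coordVec (g • eightVec i) p := by
  classical
  have e : (8 : ℤ) • v = ∑ i, coordVec v i • eightVec i := by
    refine Subtype.ext (funext fun q => ?_)
    rcases q with _ | q <;> simp [coordVec, eightVec, mul_comm]
  have e2 : (8 : ℤ) • (g • v) = ∑ i, coordVec v i • (g • eightVec i) := by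
    have h := congrArg (toAddEquiv g) e
    rw [map_zsmul, map_sum] at h
    simp only [map_zsmul] at h
    exact h
  have h := congrArg (fun x : leechLattice => coordVec x p) e2
  simpa [coordVec, AddSubgroup.val_finsetSum] using h

/-- The linear extension of an automorphism modulo 13. -/
noncomputable def ext13 (g : Co0) : V13 →ₗ[ZMod 13] V13 :=
  (Pi.basisFun (ZMod 13) GolayPt).constr (ZMod 13)
    fun i => (8 : ZMod 13)⁻¹ • red (g • eightVec i)

theorem eight_ne : (8 : ZMod 13) ≠ 0 := by decide

theorem ext13_red (g : Co0) (v : leechLattice) : ext13 g (red v) = red (g • v) := by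
  funext p
  have h := congrArg (fun z : ℤ => (z : ZMod 13)) (smul_eq_sum g v p)
  simp only [Int.cast_mul, Int.cast_sum, Int.cast_ofNat] at h
  apply mul_left_cancel₀ eight_ne
  rw [show red (g • v) p = ((coordVec (g • v) p : ℤ) : ZMod 13) from rfl, h,
    ext13, Module.Basis.constr_apply_fintype]
  simp only [Pi.basisFun_equivFun, LinearEquiv.refl_apply, Finset.sum_apply, Pi.smul_apply,
    smul_eq_mul, red, Finset.mul_sum]
  refine Finset.sum_congr rfl fun i _ => ?_
  rw [mul_left_comm, mul_inv_cancel_left₀ eight_ne]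

theorem span_red : Submodule.span (ZMod 13) (Set.range red) = ⊤ := by
  classical
  rw [eq_top_iff, ← (Pi.basisFun (ZMod 13) GolayPt).span_eq, Submodule.span_le]
  rintro _ ⟨i, rfl⟩
  have e : (Pi.basisFun (ZMod 13) GolayPt) i = (8 : ZMod 13)⁻¹ • red (eightVec i) := by
    funext p
    simp only [Pi.basisFun_apply, Pi.smul_apply, smul_eq_mul, red, coordVec, eightVec,
      Pi.single_apply]
    by_cases h : p = i
    · simp [h, inv_mul_cancel₀ eight_ne]
    · simp [h]
  rw [SetLike.mem_coe, e]
  exact Submodule.smul_mem _ _ (Submodule.subset_span ⟨_, rfl⟩)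

theorem ext13_unique {S T : V13 →ₗ[ZMod 13] V13} (h : ∀ v, S (red v) = T (red v)) : S = T :=
  LinearMap.ext_on span_red (by rintro _ ⟨v, rfl⟩; exact h v)

theorem ext13_one : ext13 1 = 1 :=
  ext13_unique fun v => by rw [ext13_red, one_smul]; rfl

theorem ext13_mul (g h : Co0) : ext13 (g * h) = ext13 g * ext13 h :=
  ext13_unique fun v => by rw [Module.End.mul_apply, ext13_red, ext13_red, ext13_red, mul_smul]

/-- Distinct automorphisms stay distinct modulo 13. -/
theorem ext13_faithful {g : Co0} (h : ext13 g = 1) : g = 1 := by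
  have hmin : ∀ v, sqNorm (coordVec v) = 32 → g • v = v := by
    intro v hv
    refine Subtype.ext (funext fun p => ?_)
    have e : red (g • v) = red v := by rw [← ext13_red, h]; rfl
    have hd := (ZMod.intCast_eq_intCast_iff_dvd_sub _ _ 13).1 (congrFun e p)
    have h1 := sq_le_sqNorm (coordVec v) p
    have h2 := sq_le_sqNorm (coordVec (g • v)) p
    rw [CfsgLib.Fischer2.sqNorm_smul'] at h2
    rw [hv] at h1 h2
    have b1 : -5 ≤ coordVec v p ∧ coordVec v p ≤ 5 := by constructor <;> nlinarith
    have b2 : -5 ≤ coordVec (g • v) p ∧ coordVec (g • v) p ≤ 5 := by constructor <;> nlinarith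
    change coordVec (g • v) p = coordVec v p
    omega
  refine Subtype.ext (Equiv.ext fun v => ?_)
  show g • v = v
  induction (S5552.all_mem v) using AddSubgroup.closure_induction with
  | mem a ha => exact hmin a ha
  | zero => exact smul_zero_co0 g
  | add x y _ _ hx hy => rw [smul_add_co0, hx, hy]
  | neg x _ hx => rw [smul_neg_co0, hx]

/-- The functional attached to the fixed vector. -/
noncomputable def uDot : V13 →ₗ[ZMod 13] ZMod 13 :=
  ∑ i, (red Cfsg.Spor.leechU i) • LinearMap.proj i

theorem uDot_red (v : leechLattice) :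
    uDot (red v) = ((dotInt (coordVec Cfsg.Spor.leechU) (coordVec v) : ℤ) : ZMod 13) := by
  simp [uDot, red, dotInt, Int.cast_sum, Int.cast_mul]

theorem uDot_u : uDot (red Cfsg.Spor.leechU) ≠ 0 := by
  rw [uDot_red, dotInt_self]
  decide +kernel

theorem ext13_u (g : Spor.Co2) : ext13 ⟨g.1, g.2.1⟩ (red Cfsg.Spor.leechU) = red Cfsg.Spor.leechU := by
  rw [ext13_red]
  exact congrArg red g.2.2

theorem uDot_ext13 (g : Spor.Co2) (y : V13) : uDot (ext13 ⟨g.1, g.2.1⟩ y) = uDot y := by
  have hu : (⟨g.1, g.2.1⟩ : Co0) • Cfsg.Spor.leechU = Cfsg.Spor.leechU := g.2.2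
  have : uDot.comp (ext13 ⟨g.1, g.2.1⟩) = uDot := by
    refine LinearMap.ext_on span_red ?_
    rintro _ ⟨v, rfl⟩
    rw [LinearMap.comp_apply, ext13_red, uDot_red, uDot_red]
    refine congrArg (fun z : ℤ => (z : ZMod 13)) ?_
    have h := CfsgLib.Leech.dotInt_smul (⟨g.1, g.2.1⟩ : Co0) Cfsg.Spor.leechU v
    rw [hu] at h
    exact h
  exact DFunLike.congr_fun this y

/-- The action on the orthogonal hyperplane. -/
noncomputable def rep23 : Spor.Co2 →* (LinearMap.ker uDot →ₗ[ZMod 13] LinearMap.ker uDot) where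
  toFun g := (ext13 ⟨g.1, g.2.1⟩).restrict fun y hy => by
    rw [LinearMap.mem_ker] at hy ⊢
    rw [uDot_ext13, hy]
  map_one' := LinearMap.ext fun y => Subtype.ext (by
    show ext13 ⟨(1 : Spor.Co2).1, _⟩ y.1 = y.1
    rw [show (⟨(1 : Spor.Co2).1, (1 : Spor.Co2).2.1⟩ : Co0) = 1 from rfl, ext13_one]; rfl)
  map_mul' g h := LinearMap.ext fun y => Subtype.ext (by
    show ext13 ⟨(g * h).1, _⟩ y.1 = ext13 ⟨g.1, g.2.1⟩ (ext13 ⟨h.1, h.2.1⟩ y.1)
    rw [show (⟨(g * h).1, (g * h).2.1⟩ : Co0) = ⟨g.1, g.2.1⟩ * ⟨h.1, h.2.1⟩ from rfl, ext13_mul]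
    rfl)

theorem rep23_injective : Function.Injective rep23 := by
  rw [injective_iff_map_eq_one]
  intro g hg
  have h1 : ext13 ⟨g.1, g.2.1⟩ = 1 := by
    refine LinearMap.ext fun y => ?_
    set u := red Cfsg.Spor.leechU
    have hk : y - (uDot y * (uDot u)⁻¹) • u ∈ LinearMap.ker uDot := by
      rw [LinearMap.mem_ker, map_sub, map_smul, smul_eq_mul, mul_assoc,
        inv_mul_cancel₀ uDot_u, mul_one, sub_self]
    have h := congrArg Subtype.val (DFunLike.congr_fun hg ⟨_, hk⟩)
    change ext13 ⟨g.1, g.2.1⟩ (y - (uDot y * (uDot u)⁻¹) • u) = y - (uDot y * (uDot u)⁻¹) • u at h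
    rw [map_sub, map_smul, ext13_u] at h
    show ext13 ⟨g.1, g.2.1⟩ y = y
    exact sub_left_injective h
  have h2 := ext13_faithful h1
  exact Subtype.ext (congrArg Subtype.val h2 :)

theorem finrank_ker : Module.finrank (ZMod 13) (LinearMap.ker uDot) = 23 := by
  have h := uDot.finrank_range_add_finrank_ker
  have hs : LinearMap.range uDot = ⊤ := by
    refine LinearMap.range_eq_top.2 fun t => ⟨(t * (uDot (red Cfsg.Spor.leechU))⁻¹) • red Cfsg.Spor.leechU, ?_⟩
    rw [map_smul, smul_eq_mul, mul_assoc, inv_mul_cancel₀ uDot_u, mul_one]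
  rw [hs, finrank_top, Module.finrank_self, Module.finrank_fintype_fun_eq_card,
    show Fintype.card GolayPt = 24 from rfl] at h
  omega

/-- The second Conway group (the stabilizer in the Leech lattice automorphism group of the short vector fixed in the definitions) is isomorphic to a subgroup of the general linear group of degree 23 over the field with 13 elements: there is an injective homomorphism into it. -/
theorem result : ∃ f : ↥Cfsg.Spor.Co2 →* GL (Fin 23) (ZMod 13), Function.Injective f := by
  let b := Module.finBasisOfFinrankEq (ZMod 13) (LinearMap.ker uDot) finrank_ker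
  let ψ : (LinearMap.ker uDot →ₗ[ZMod 13] LinearMap.ker uDot) →* Matrix (Fin 23) (Fin 23) (ZMod 13) :=
    (LinearMap.toMatrixAlgEquiv b).toRingEquiv.toMonoidHom
  have hψ : Function.Injective ψ := (LinearMap.toMatrixAlgEquiv b).injective
  refine ⟨(Units.map (ψ.comp rep23)).comp toUnits.toMonoidHom, fun g h e => ?_⟩
  exact rep23_injective (hψ (congrArg Units.val e))

end Cfsg.Agent.S5546
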