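import Cfsg.Statements.S5547
import Cfsg.Agent.S1696
import Cfsg.Agent.Lib.SporRecognition.Fi22Rep.Main

set_option autoImplicit false
open Cfsg

namespace Cfsg.Agent.S5547

/-- The Fischer group Fi₂₂ (the finitely presented 3-transposition group of the definitions) is isomorphic to a subgroup of the general linear group of degree 78 over the field with 13 elements: there is an injective homomorphism into it. -/
theorem result : ∃ f : Cfsg.Spor.Fi22 →* GL (Fin 78) (ZMod 13), Function.Injective f := by
  haveI : IsSimpleGroup Cfsg.Spor.Fi22 := Cfsg.Agent.S1696.result.1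
  refine ⟨CfsgLib.SporRecognition.Fi22Rep.rep, (MonoidHom.ker_eq_bot_iff _).mp ?_⟩
  exact ((inferInstance : (CfsgLib.SporRecognition.Fi22Rep.rep).ker.Normal).eq_bot_or_eq_top).resolve_right
    fun h => CfsgLib.SporRecognition.Fi22Rep.rep_ne_one (MonoidHom.ker_eq_top_iff.mp h)

end Cfsg.Agent.S5547
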