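import Cfsg.Statements.S5549
import Cfsg.Agent.S5548
import Cfsg.Agent.Lib.Leech.Monomial

set_option autoImplicit false
set_option linter.style.haveILetI false
open Cfsg
open scoped Pointwise

namespace Cfsg.Agent.S5549

local notation "F24" => Cfsg.GolayPt → ZMod 2

/-- The sign of a bit. -/
def chi (t : ZMod 2) : ℤ := if t = 0 then 1 else -1

theorem chi_add (s t : ZMod 2) : chi (s + t) = chi s * chi t := by
  revert s t; decide

/-- The word of a pair. -/
def ind (a b : GolayPt) : F24 := Pi.single a 1 + Pi.single b 1

theorem dot_ind (a b : GolayPt) (c : F24) : S5548.dot (ind a b) c = c a + c b := by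
  rw [ind, map_add, LinearMap.add_apply, S5548.dot_apply, S5548.dot_apply]
  simp [Pi.single_apply, ite_mul]

theorem ind_apply (a b p : GolayPt) :
    ind a b p = (if p = a then 1 else 0) + (if p = b then 1 else 0) := by
  simp [ind, Pi.single_apply]

theorem card_support_ind (a b : GolayPt) : support₂ (ind a b) ⊆ {a, b} := by
  intro p hp
  simp only [support₂, Finset.mem_filter, Finset.mem_univ, true_and, ind_apply] at hp
  by_contra h
  simp only [Finset.mem_insert, Finset.mem_singleton, not_or] at h
  simp [h.1, h.2] at hp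

theorem support_add_subset (u v : F24) : support₂ (u + v) ⊆ support₂ u ∪ support₂ v := by
  intro p hp
  simp only [support₂, Finset.mem_filter, Finset.mem_univ, true_and, Finset.mem_union,
    Pi.add_apply] at hp ⊢
  by_contra h
  push Not at h
  exact hp (by rw [h.1, h.2, add_zero])

/-- A short word orthogonal to the code vanishes. -/
theorem eq_zero_of_orth {v : F24} (hv : (support₂ v).card < 8)
    (h : ∀ c ∈ golayCode, S5548.dot v c = 0) : v = 0 := by
  by_contra hne
  have hm : v ∈ golayCode := by
    rw [← S5548.orth_code, LinearMap.BilinForm.mem_orthogonal_iff]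
    intro c hc
    show S5548.dot c v = 0
    exact S5548.dot_refl v c (h c hc)
  exact absurd (CfsgLib.Leech.eight_le_card hm hne) (by omega)

/-- Summing the signs of a functional over the code. -/
theorem sum_chi [Fintype golayCode] (φ : ↥golayCode →+ ZMod 2) (h : ∑ c, chi (φ c) ≠ 0) :
    ∀ c, φ c = 0 := by
  intro c0
  by_contra hc
  apply h
  have h1 : φ c0 = 1 := by revert hc; generalize φ c0 = t; revert t; decide
  have e : ∑ c, chi (φ c) = ∑ c, chi (φ (c + c0)) :=
    (Equiv.sum_comp (Equiv.addRight c0) fun c => chi (φ c)).symm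
  simp only [map_add, h1, chi_add] at e
  rw [← Finset.sum_mul, show chi 1 = -1 from rfl] at e
  omega

theorem ind_eq_ind {a b k l : GolayPt} (hab : a ≠ b) (h : ind a b = ind k l) :
    (k = a ∧ l = b) ∨ (k = b ∧ l = a) := by
  have ha := congrFun h a
  have hb := congrFun h b
  simp only [ind_apply, if_neg hab, if_neg hab.symm, if_true, add_zero, zero_add] at ha hb
  by_cases h1 : a = k <;> by_cases h2 : a = l <;> by_cases h3 : b = k <;> by_cases h4 : b = l <;>
    first
      | exact Or.inl ⟨h1.symm, h4.symm⟩
      | exact Or.inr ⟨h3.symm, h2.symm⟩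
      | (exfalso; exact hab (h1.trans h3.symm))
      | (exfalso; exact hab (h2.trans h4.symm))
      | (exfalso; simp [h1, h2, h3, h4] at ha hb)

/-- Two pairs whose sum is a pair meet. -/
theorem meet_of_sum {a b k l p q : GolayPt} (hab : a ≠ b) (hkl : k ≠ l)
    (h : ind a b + ind k l = ind p q) : a = k ∨ a = l ∨ b = k ∨ b = l := by
  by_contra hc
  simp only [not_or] at hc
  obtain ⟨h1, h2, h3, h4⟩ := hc
  have ha := congrFun h a
  have hb := congrFun h b
  have hk := congrFun h k
  simp only [Pi.add_apply, ind_apply, if_neg h1, if_neg h2, if_neg h3, if_neg h4, if_neg hab,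
    if_neg hab.symm, if_neg hkl, if_neg (Ne.symm h1), if_neg (Ne.symm h3), if_true, add_zero,
    zero_add] at ha hb hk
  have key : ∀ x : GolayPt, (1 : ZMod 2) = (if x = p then 1 else 0) + (if x = q then 1 else 0) →
      x = p ∨ x = q := fun x hx => by
    by_contra hn
    simp only [not_or] at hn
    rw [if_neg hn.1, if_neg hn.2, add_zero] at hx
    exact one_ne_zero hx
  rcases key a ha with e1 | e1 <;> rcases key b hb with e2 | e2 <;>
    rcases key k hk with e3 | e3
  all_goals first
    | exact hab (e1.trans e2.symm)
    | exact h1 (e1.trans e3.symm)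
    | exact h3 (e2.trans e3.symm)

/-- Let X be a group of linear automorphisms of the length-24 binary Golay code of the definitions that fix the all-ones word, containing the coordinate-permutation action of every element of the code's automorphism group (the Mathieu group of degree 24), and such that every element of X sends each codeword into its orbit under that Mathieu group up to adding the all-ones word (X has the same orbits as the Mathieu group on the code modulo the all-ones word). Then every element of X agrees, modulo the all-ones word, with the action of a single element of the Mathieu group: X induces exactly the Mathieu group on the code modulo the all-ones word. -/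
theorem result (X : Subgroup (↥Cfsg.golayCode ≃ₗ[ZMod 2] ↥Cfsg.golayCode)) (h1 : ∀ x ∈ X, ∀ e : ↥Cfsg.golayCode, (e : (Cfsg.GolayPt → ZMod 2)) = (fun _ => (1 : ZMod 2)) → x e = e) (hM : ∀ σ ∈ Cfsg.M24, ∃ x ∈ X, ∀ c : ↥Cfsg.golayCode, ((x c : ↥Cfsg.golayCode) : (Cfsg.GolayPt → ZMod 2)) = fun p => (c : (Cfsg.GolayPt → ZMod 2)) (σ.symm p)) (horb : ∀ x ∈ X, ∀ c : ↥Cfsg.golayCode, ∃ σ ∈ Cfsg.M24, ((x c : ↥Cfsg.golayCode) : (Cfsg.GolayPt → ZMod 2)) = (fun p => (c : (Cfsg.GolayPt → ZMod 2)) (σ.symm p)) ∨ ((x c : ↥Cfsg.golayCode) : (Cfsg.GolayPt → ZMod 2)) = (fun p => (c : (Cfsg.GolayPt → ZMod 2)) (σ.symm p)) + fun _ => (1 : ZMod 2)) (x : ↥Cfsg.golayCode ≃ₗ[ZMod 2] ↥Cfsg.golayCode) (hx : x ∈ X) : ∃ σ ∈ Cfsg.M24, ∀ c : ↥Cfsg.golayCode, ((x c : ↥Cfsg.golayCode) : (Cfsg.GolayPt → ZMod 2)) = (fun p => (c : (Cfsg.GolayPt → ZMod 2)) (σ.symm p)) ∨ ((x c : ↥Cfsg.golayCode) : (Cfsg.GolayPt → ZMod 2)) = (fun p => (c : (Cfsg.GolayPt → ZMod 2)) (σ.symm p)) + fun _ => (1 : ZMod 2) := by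
  classical
  letI : Fintype ↥golayCode := Fintype.ofFinite _
  -- the squared sign sum is preserved
  let s : ↥golayCode → ℤ := fun c => ∑ i, chi ((c : F24) i)
  have hs : ∀ c, s (x c) * s (x c) = s c * s c := by
    intro c
    obtain ⟨τ, -, h | h⟩ := horb x hx c
    · have : s (x c) = s c := by
        simp only [s, h]; exact Equiv.sum_comp τ.symm fun i => chi ((c : F24) i)
      rw [this]
    · have : s (x c) = -s c := by
        simp only [s, h, Pi.add_apply, chi_add, show chi 1 = -1 from rfl, mul_neg, mul_one,
          Finset.sum_neg_distrib]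
        rw [Equiv.sum_comp τ.symm fun i => chi ((c : F24) i)]
      rw [this, neg_mul_neg]
  -- pairs go to pairs
  have hpair : ∀ i j : GolayPt, i ≠ j → ∃ k l, k ≠ l ∧ ∀ c : ↥golayCode,
      ((x c : ↥golayCode) : F24) i + ((x c : ↥golayCode) : F24) j = (c : F24) k + (c : F24) l := by
    intro i j hij
    let ψ : ↥golayCode →+ ZMod 2 :=
      { toFun := fun c => ((x c : ↥golayCode) : F24) i + ((x c : ↥golayCode) : F24) j
        map_zero' := by simp
        map_add' := fun a b => by simp; ring }
    let φ : GolayPt → GolayPt → (↥golayCode →+ ZMod 2) := fun k l =>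
      { toFun := fun c => ((c : F24) k + (c : F24) l)
        map_zero' := by simp
        map_add' := fun a b => by simp; ring }
    have hpos : ∑ c, s c * s c * chi (ψ c) ≠ 0 := by
      have e : ∑ c, s c * s c * chi (ψ c) = ∑ c, s c * s c * chi (φ i j c) := by
        rw [← Equiv.sum_comp x.toEquiv (fun c => s c * s c * chi (φ i j c))]
        exact Finset.sum_congr rfl fun c _ => by
          show s c * s c * chi (ψ c) = s (x c) * s (x c) * chi (φ i j (x c))
          rw [hs]; rfl
      have e2 : ∑ c, s c * s c * chi (φ i j c) =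
          ∑ k, ∑ l, ∑ c, chi ((φ k l + φ i j) c) := by
        simp only [s, Finset.sum_mul_sum]
        simp only [Finset.sum_mul]
        rw [Finset.sum_comm]
        refine Finset.sum_congr rfl fun k _ => ?_
        rw [Finset.sum_comm]
        refine Finset.sum_congr rfl fun l _ => Finset.sum_congr rfl fun c _ => ?_
        simp [φ, chi_add]
      rw [e, e2]
      have hnn : ∀ k l, 0 ≤ ∑ c, chi ((φ k l + φ i j) c) := by
        intro k l
        by_cases h : ∑ c, chi ((φ k l + φ i j) c) = 0
        · rw [h]
        · rw [Finset.sum_congr rfl fun c _ => by rw [sum_chi _ h c]]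
          simp [chi]
      refine ne_of_gt (Finset.sum_pos' (fun k _ => Finset.sum_nonneg fun l _ => hnn k l)
        ⟨i, Finset.mem_univ _, Finset.sum_pos' (fun l _ => hnn i l) ⟨j, Finset.mem_univ _, ?_⟩⟩)
      rw [Finset.sum_congr rfl (g := fun _ => (1 : ℤ)) fun c _ => by
        show chi (φ i j c + φ i j c) = 1
        rw [CharTwo.add_self_eq_zero]; rfl]
      simp only [Finset.sum_const, nsmul_eq_mul, mul_one, Finset.card_univ]
      exact_mod_cast Fintype.card_pos
    have e : ∑ c, s c * s c * chi (ψ c) = ∑ k, ∑ l, ∑ c, chi ((φ k l + ψ) c) := by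
      simp only [s, Finset.sum_mul_sum]
      simp only [Finset.sum_mul]
      rw [Finset.sum_comm]
      refine Finset.sum_congr rfl fun k _ => ?_
      rw [Finset.sum_comm]
      refine Finset.sum_congr rfl fun l _ => Finset.sum_congr rfl fun c _ => ?_
      simp [φ, chi_add]
    rw [e] at hpos
    obtain ⟨k, -, hk⟩ := Finset.exists_ne_zero_of_sum_ne_zero hpos
    obtain ⟨l, -, hl⟩ := Finset.exists_ne_zero_of_sum_ne_zero hk
    have hkl : ∀ c, φ k l c + ψ c = 0 := sum_chi _ hl
    refine ⟨k, l, ?_, fun c => ?_⟩
    · rintro rfl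
      have hz : ind i j = 0 := eq_zero_of_orth (by
        have := Finset.card_le_card (card_support_ind i j)
        have := Finset.card_le_two (a := i) (b := j)
        omega) fun c hc => by
        rw [dot_ind]
        have := hkl (x.symm ⟨c, hc⟩)
        simpa [φ, ψ, CharTwo.add_self_eq_zero] using this
      have := congrFun hz i
      simp [ind_apply, hij] at this
    · have := hkl c
      show ψ c = φ k l c
      revert this
      generalize φ k l c = a; generalize ψ c = b; revert a b; decide
  have hstar : ∀ i : GolayPt, i ≠ none → ∃ k l, k ≠ l ∧ ∀ c : ↥golayCode,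
      ((x c : ↥golayCode) : F24) i + ((x c : ↥golayCode) : F24) none = (c : F24) k + (c : F24) l :=
    fun i hi => hpair i none hi
  choose! k l hkl he using hstar
  set e : GolayPt → F24 := fun i => ind (k i) (l i) with hedef
  have hcard : ∀ a b : GolayPt, (support₂ (ind a b)).card ≤ 2 := fun a b =>
    (Finset.card_le_card (card_support_ind a b)).trans Finset.card_le_two
  have hadd : ∀ u v : F24, (support₂ (u + v)).card ≤ (support₂ u).card + (support₂ v).card :=
    fun u v => (Finset.card_le_card (support_add_subset u v)).trans (Finset.card_union_le _ _)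
  -- two pairs of the star add up to a pair
  have hsum : ∀ i j, i ≠ none → j ≠ none → i ≠ j → ∃ p q, p ≠ q ∧ e i + e j = ind p q := by
    intro i j hi hj hij
    obtain ⟨p, q, hpq, h⟩ := hpair i j hij
    refine ⟨p, q, hpq, ?_⟩
    have hz : e i + e j + ind p q = 0 := eq_zero_of_orth (by
      have := hadd (e i + e j) (ind p q)
      have := hadd (e i) (e j)
      have := hcard p q
      have : (support₂ (e i)).card ≤ 2 := hcard _ _
      have : (support₂ (e j)).card ≤ 2 := hcard _ _
      omega) fun c hc => by
      rw [map_add, map_add, LinearMap.add_apply, LinearMap.add_apply, dot_ind, dot_ind, dot_ind]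
      rw [← he i hi ⟨c, hc⟩, ← he j hj ⟨c, hc⟩, ← h ⟨c, hc⟩]
      generalize ((x ⟨c, hc⟩ : ↥golayCode) : F24) i = u
      generalize ((x ⟨c, hc⟩ : ↥golayCode) : F24) j = v
      generalize ((x ⟨c, hc⟩ : ↥golayCode) : F24) none = w
      revert u v w; decide
    funext r
    have := congrFun hz r
    revert this
    simp only [Pi.add_apply, Pi.zero_apply]
    generalize e i r = u; generalize e j r = v; generalize ind p q r = w
    revert u v w; decide
  -- no three of them form a triangle
  have hno : ∀ i j m, i ≠ none → j ≠ none → m ≠ none → i ≠ j → i ≠ m → j ≠ m →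
      e i + e j + e m ≠ 0 := by
    intro i j m hi hj hm hij him hjm hz
    have hv : ind i none + ind j m = 0 := eq_zero_of_orth (by
      have := hadd (ind i none) (ind j m)
      have := hcard i none
      have := hcard j m
      omega) fun c hc => by
      rw [map_add, LinearMap.add_apply, dot_ind, dot_ind]
      have h := congrArg (fun v => S5548.dot v ((x.symm ⟨c, hc⟩ : ↥golayCode) : F24)) hz
      simp only [map_add, LinearMap.add_apply, map_zero, LinearMap.zero_apply] at h
      simp only [hedef, dot_ind, ← he i hi, ← he j hj, ← he m hm, LinearEquiv.apply_symm_apply] at h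
      revert h
      generalize c i = u; generalize c j = v; generalize c m = w; generalize c none = z
      revert u v w z; decide
    have := congrFun hv i
    simp [ind_apply, hi, hij, him] at this
  -- the common point
  obtain ⟨a, b, c', hab, hac, h0, h1'⟩ : ∃ a b c', a ≠ b ∧ a ≠ c' ∧ e (some 0) = ind a b ∧
      e (some 1) = ind a c' := by
    obtain ⟨p, q, -, h⟩ := hsum (some 0) (some 1) (by simp) (by simp) (by decide)
    have k0 := hkl (some 0) (by simp)
    have k1 := hkl (some 1) (by simp)
    have sw : ∀ a b : GolayPt, ind a b = ind b a := fun a b => by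
      funext r; simp [ind_apply, add_comm]
    rcases meet_of_sum k0 k1 h with g | g | g | g
    · exact ⟨k (some 0), l (some 0), l (some 1), k0, g ▸ k1, rfl, by simp [hedef, g]⟩
    · exact ⟨k (some 0), l (some 0), k (some 1), k0, g ▸ k1.symm, rfl, by
        simp only [hedef]; rw [g, sw]⟩
    · exact ⟨l (some 0), k (some 0), l (some 1), k0.symm, g ▸ k1, sw _ _, by
        simp only [hedef]; rw [g]⟩
    · exact ⟨l (some 0), k (some 0), k (some 1), k0.symm, g ▸ k1.symm, sw _ _, by
        simp only [hedef]; rw [g, sw]⟩
  have hcommon : ∀ i, i ≠ none → ∃ r, a ≠ r ∧ e i = ind a r := by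
    intro i hi
    have k0 := hkl i hi
    by_cases g : k i = a
    · exact ⟨l i, g ▸ k0, by simp [hedef, g]⟩
    by_cases g' : l i = a
    · exact ⟨k i, g' ▸ k0.symm, by funext r; simp [hedef, g', ind_apply, add_comm]⟩
    exfalso
    by_cases e0 : i = some 0
    · subst e0
      rcases ind_eq_ind hab h0.symm with ⟨h, -⟩ | ⟨-, h⟩
      exacts [g h, g' h]
    by_cases e1 : i = some 1
    · subst e1
      rcases ind_eq_ind hac h1'.symm with ⟨h, -⟩ | ⟨-, h⟩
      exacts [g h, g' h]
    obtain ⟨p, q, -, hp⟩ := hsum (some 0) i (by simp) hi (Ne.symm e0)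
    rw [h0] at hp
    obtain ⟨p', q', -, hp'⟩ := hsum (some 1) i (by simp) hi (Ne.symm e1)
    rw [h1'] at hp'
    have hb : b = k i ∨ b = l i := by
      rcases meet_of_sum hab k0 hp with h | h | h | h
      exacts [absurd h.symm g, absurd h.symm g', Or.inl h, Or.inr h]
    have hc : c' = k i ∨ c' = l i := by
      rcases meet_of_sum hac k0 hp' with h | h | h | h
      exacts [absurd h.symm g, absurd h.symm g', Or.inl h, Or.inr h]
    have hbc : b ≠ c' := fun h => by
      obtain ⟨p, q, hpq, hs⟩ := hsum (some 0) (some 1) (by simp) (by simp) (by decide)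
      rw [h0, h1', h] at hs
      have := congrFun hs p
      simp [ind_apply, hpq, CharTwo.add_self_eq_zero] at this
    have hei : e i = ind b c' := by
      funext r
      rcases hb with hb | hb <;> rcases hc with hc | hc
      · exact absurd (hb.trans hc.symm) hbc
      · simp [hedef, hb, hc]
      · simp [hedef, hb, hc, ind_apply, add_comm]
      · exact absurd (hb.trans hc.symm) hbc
    apply hno (some 0) (some 1) i (by simp) (by simp) hi (by decide) (Ne.symm e0) (Ne.symm e1)
    rw [h0, h1', hei]
    funext r
    simp only [Pi.add_apply, ind_apply, Pi.zero_apply]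
    generalize (if r = a then (1 : ZMod 2) else 0) = u
    generalize (if r = b then (1 : ZMod 2) else 0) = v
    generalize (if r = c' then (1 : ZMod 2) else 0) = w
    revert u v w; decide
  choose! r har hr using hcommon
  let g : GolayPt → GolayPt := fun i => if i = none then a else r i
  have ginj : Function.Injective g := by
    intro i j hij
    simp only [g] at hij
    by_cases hi : i = none <;> by_cases hj : j = none <;> simp only [hi, hj, if_true, if_false] at hij
    · rw [hi, hj]
    · exact absurd hij (har j hj)
    · exact absurd hij.symm (har i hi)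
    · by_contra hne
      obtain ⟨p, q, hpq, hs⟩ := hsum i j hi hj hne
      rw [hr i hi, hr j hj, hij] at hs
      have := congrFun hs p
      simp [ind_apply, hpq, CharTwo.add_self_eq_zero] at this
  let σ : Equiv.Perm GolayPt := Equiv.ofBijective g ((Finite.injective_iff_bijective).1 ginj)
  let t : ↥golayCode → ZMod 2 := fun c => ((x c : ↥golayCode) : F24) none + (c : F24) a
  have key : ∀ (c : ↥golayCode) i, ((x c : ↥golayCode) : F24) i = (c : F24) (σ i) + t c := by
    intro c i
    show _ = (c : F24) (g i) + _
    simp only [g, t]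
    by_cases hi : i = none
    · subst hi
      simp only [if_true]
      generalize ((x c : ↥golayCode) : F24) none = u
      generalize (c : F24) a = v
      revert u v; decide
    · rw [if_neg hi]
      have h := he i hi c
      rw [← dot_ind (k i) (l i)] at h
      change _ = S5548.dot (e i) (c : F24) at h
      rw [hr i hi, dot_ind] at h
      revert h
      generalize ((x c : ↥golayCode) : F24) i = u
      generalize ((x c : ↥golayCode) : F24) none = v
      generalize (c : F24) a = w
      generalize (c : F24) (r i) = z
      revert u v w z; decide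
  have hcode : ∀ c ∈ golayCode, (fun i => c (σ i)) ∈ golayCode := by
    intro c hc
    have e : (fun i => c (σ i)) = ((x ⟨c, hc⟩ : ↥golayCode) : F24) + t ⟨c, hc⟩ • (1 : F24) := by
      funext i
      simp only [Pi.add_apply, Pi.smul_apply, Pi.one_apply, smul_eq_mul, mul_one, key]
      rw [add_assoc, CharTwo.add_self_eq_zero, add_zero]
    rw [e]
    exact add_mem (x ⟨c, hc⟩).2 (Submodule.smul_mem _ _ CfsgLib.Leech.one_mem_golayCode)
  have hM24 : σ⁻¹ ∈ M24 := by
    refine CfsgLib.Golay.mem_M24_of_forall fun b hb => ?_
    have hrow : ∀ b ∈ CfsgLib.Golay.basisMasks, CfsgLib.Golay.inCode b = true := by decide +kernel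
    refine ⟨_, hcode _ (CfsgLib.Golay.wordOf_mem_golayCode
      (CfsgLib.Golay.inCode_iff.1 (hrow b hb))), ?_⟩
    ext p
    rw [Finset.mem_inv_smul_finset_iff]
    simp [support₂, CfsgLib.Golay.wordOf]
  refine ⟨σ⁻¹, hM24, fun c => ?_⟩
  rcases CfsgLib.Leech.zmod2_cases (t c) with h | h
  · left
    funext i
    rw [key, h, add_zero]; simp [Equiv.Perm.inv_def]
  · right
    funext i
    rw [Pi.add_apply, key, h]; simp [Equiv.Perm.inv_def]

end Cfsg.Agent.S5549
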