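import Cfsg.Statements.S5550
import Cfsg.Agent.S5548
import Cfsg.Agent.Lib.Leech.Monomial

set_option autoImplicit false
open Cfsg
open scoped Pointwise

namespace Cfsg.Agent.S5550

open CfsgLib.Golay

/-- Two elements stabilising the base octad. -/
def octTbls : List ℕ := [975446387908313780288959146673899776, 108364486931110097759670239364223639]

/-- Each basis row as a sum of moved-row differences. -/
def octCert : List (List (ℕ × ℕ)) := [[(975446387908313780288959146673899776, 0), (975446387908313780288959146673899776, 2), (975446387908313780288959146673899776, 3), (108364486931110097759670239364223639, 3), (108364486931110097759670239364223639, 9)],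
  [(975446387908313780288959146673899776, 0), (975446387908313780288959146673899776, 1), (975446387908313780288959146673899776, 2), (975446387908313780288959146673899776, 3), (975446387908313780288959146673899776, 4), (975446387908313780288959146673899776, 6), (108364486931110097759670239364223639, 3), (108364486931110097759670239364223639, 9)],
  [(975446387908313780288959146673899776, 0), (975446387908313780288959146673899776, 1), (975446387908313780288959146673899776, 2), (975446387908313780288959146673899776, 5), (975446387908313780288959146673899776, 6), (975446387908313780288959146673899776, 7)],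
  [(975446387908313780288959146673899776, 0), (975446387908313780288959146673899776, 1), (975446387908313780288959146673899776, 2), (975446387908313780288959146673899776, 3), (975446387908313780288959146673899776, 5), (975446387908313780288959146673899776, 6), (975446387908313780288959146673899776, 7)],
  [(975446387908313780288959146673899776, 3), (108364486931110097759670239364223639, 3)],
  [(975446387908313780288959146673899776, 0), (975446387908313780288959146673899776, 1), (975446387908313780288959146673899776, 2), (975446387908313780288959146673899776, 3), (975446387908313780288959146673899776, 4), (975446387908313780288959146673899776, 5), (975446387908313780288959146673899776, 6), (108364486931110097759670239364223639, 3), (108364486931110097759670239364223639, 9)],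
  [(975446387908313780288959146673899776, 1), (975446387908313780288959146673899776, 2), (975446387908313780288959146673899776, 3), (975446387908313780288959146673899776, 5), (975446387908313780288959146673899776, 7), (108364486931110097759670239364223639, 3), (108364486931110097759670239364223639, 9)],
  [(975446387908313780288959146673899776, 0), (975446387908313780288959146673899776, 1), (975446387908313780288959146673899776, 2), (975446387908313780288959146673899776, 3), (975446387908313780288959146673899776, 5), (975446387908313780288959146673899776, 6), (975446387908313780288959146673899776, 7), (108364486931110097759670239364223639, 3), (108364486931110097759670239364223639, 9)],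
  [(975446387908313780288959146673899776, 0), (975446387908313780288959146673899776, 1), (975446387908313780288959146673899776, 4), (975446387908313780288959146673899776, 5), (975446387908313780288959146673899776, 6), (975446387908313780288959146673899776, 7)],
  [(975446387908313780288959146673899776, 0), (975446387908313780288959146673899776, 4), (975446387908313780288959146673899776, 5), (975446387908313780288959146673899776, 6), (975446387908313780288959146673899776, 7), (108364486931110097759670239364223639, 1)],
  [(975446387908313780288959146673899776, 0), (975446387908313780288959146673899776, 1), (975446387908313780288959146673899776, 5), (975446387908313780288959146673899776, 6), (975446387908313780288959146673899776, 7)],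
  [(975446387908313780288959146673899776, 0), (975446387908313780288959146673899776, 1), (975446387908313780288959146673899776, 3), (975446387908313780288959146673899776, 4), (108364486931110097759670239364223639, 0), (108364486931110097759670239364223639, 1), (108364486931110097759670239364223639, 3), (108364486931110097759670239364223639, 9)]]

/-- Two elements stabilising the base dodecad. -/
def dodTbls : List ℕ := [470538719405997436052128946868265985, 887287188286750399283807548533151746]

/-- Each basis row as a sum of moved-row differences. -/
def dodCert : List (List (ℕ × ℕ)) := [[(470538719405997436052128946868265985, 4), (470538719405997436052128946868265985, 5), (887287188286750399283807548533151746, 2), (887287188286750399283807548533151746, 5)],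
  [(470538719405997436052128946868265985, 1), (470538719405997436052128946868265985, 2), (887287188286750399283807548533151746, 2)],
  [(470538719405997436052128946868265985, 1), (887287188286750399283807548533151746, 1), (887287188286750399283807548533151746, 2)],
  [(470538719405997436052128946868265985, 0), (470538719405997436052128946868265985, 4), (887287188286750399283807548533151746, 1), (887287188286750399283807548533151746, 2), (887287188286750399283807548533151746, 5)],
  [(470538719405997436052128946868265985, 4), (887287188286750399283807548533151746, 1), (887287188286750399283807548533151746, 2), (887287188286750399283807548533151746, 4), (887287188286750399283807548533151746, 5)],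
  [(470538719405997436052128946868265985, 2), (470538719405997436052128946868265985, 5), (887287188286750399283807548533151746, 1), (887287188286750399283807548533151746, 5)],
  [(470538719405997436052128946868265985, 1), (470538719405997436052128946868265985, 2), (470538719405997436052128946868265985, 4), (887287188286750399283807548533151746, 5)],
  [(887287188286750399283807548533151746, 1)],
  [(470538719405997436052128946868265985, 1), (470538719405997436052128946868265985, 5), (887287188286750399283807548533151746, 1)],
  [(470538719405997436052128946868265985, 1), (470538719405997436052128946868265985, 3), (470538719405997436052128946868265985, 4), (470538719405997436052128946868265985, 5)],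
  [(470538719405997436052128946868265985, 2), (887287188286750399283807548533151746, 2), (887287188286750399283807548533151746, 8)],
  [(470538719405997436052128946868265985, 0), (470538719405997436052128946868265985, 1), (470538719405997436052128946868265985, 2), (470538719405997436052128946868265985, 5), (470538719405997436052128946868265985, 10), (887287188286750399283807548533151746, 1), (887287188286750399283807548533151746, 2), (887287188286750399283807548533151746, 8)]]

/-- The row difference named by a pair. -/
def diffMask (e : ℕ × ℕ) : ℕ :=
  imgMask e.1 (basisMasks.getD e.2 0) ^^^ basisMasks.getD e.2 0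

/-- The check of a certificate for a mask. -/
def certOK (tbls : List ℕ) (cert : List (List (ℕ × ℕ))) (n : ℕ) : Bool :=
  tbls.all (fun t => inM24 t && imgMask t n == n) &&
    (decide (cert.length = 12) && (List.range 12).all fun i =>
      (cert.getD i []).all (fun e => tbls.contains e.1 && decide (e.2 < 12)) &&
        (cert.getD i []).foldr (fun e a => diffMask e ^^^ a) 0 == basisMasks.getD i 0)

theorem certs : certOK octTbls octCert 8391797 = true ∧ certOK dodTbls dodCert dodMask = true ∧
    certOK octTbls octCert 0 = true ∧ certOK octTbls octCert fullMask = true ∧
    certOK octTbls octCert (fullMask ^^^ 8391797) = true := by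
  decide +kernel

theorem wordOf_imgMask {g : Equiv.Perm GolayPt} {t : ℕ} (h : IsTbl g t) (n : ℕ) :
    wordOf (imgMask t n) = fun p => wordOf n (g.symm p) := by
  refine support₂_injective ?_
  rw [support₂_wordOf, ← smul_unmask h]
  ext p
  rw [Finset.mem_smul_finset]
  simp only [support₂, wordOf, Finset.mem_filter, Finset.mem_univ, true_and, mem_unmask,
    Equiv.Perm.smul_def]
  constructor
  · rintro ⟨q, hq, rfl⟩; simp [hq]
  · intro hp; exact ⟨g.symm p, by simpa using hp, by simp⟩

/-- The base case: a certified mask. -/
theorem base {tbls : List ℕ} {cert : List (List (ℕ × ℕ))} {n : ℕ}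
    (h : certOK tbls cert n = true) {w : GolayPt → ZMod 2} (hw : w ∉ golayCode) :
    ∃ σ ∈ M24, σ • unmask n = unmask n ∧ (fun p => w (σ.symm p)) - w ∉ golayCode := by
  simp only [certOK, Bool.and_eq_true, List.all_eq_true, List.mem_range, beq_iff_eq,
    decide_eq_true_eq, List.contains_iff_mem] at h
  obtain ⟨ht, hlen, hc⟩ := h
  by_contra hcon
  push Not at hcon
  apply hw
  rw [← S5548.orth_code, LinearMap.BilinForm.mem_orthogonal_iff]
  intro x hx
  show S5548.dot x w = 0
  obtain ⟨m, hm, rfl⟩ := mem_golayCode_iff.1 hx
  refine spanMasks_induction (P := fun v => S5548.dot v w = 0) (by simp)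
    (fun a b ha hb => by rw [map_add, LinearMap.add_apply, ha, hb, add_zero]) (fun b hb => ?_) hm
  obtain ⟨i, hi, rfl⟩ := List.getElem_of_mem hb
  have hi' : i < 12 := by
    have : basisMasks.length = 12 := by decide +kernel
    omega
  obtain ⟨hmem, hsum⟩ := hc i hi'
  rw [List.getD_eq_getElem _ _ hi] at hsum
  rw [← hsum]
  clear hsum
  generalize cert.getD i [] = l at hmem ⊢
  induction l with
  | nil => simp [wordOf_zero]
  | cons e l ih =>
    rw [List.foldr_cons, wordOf_xor, map_add, LinearMap.add_apply,
      ih fun e' he' => hmem e' (List.mem_cons_of_mem _ he'), add_zero]
    obtain ⟨he, hlt⟩ := hmem e (List.mem_cons_self ..)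
    obtain ⟨htm, hfix⟩ := ht _ he
    obtain ⟨g, hg⟩ := exists_isTbl (Bool.and_eq_true _ _ ▸ htm : okTbl e.1 = true ∧ _).1
    have hgM := mem_M24_of_isTbl hg htm
    have hfix' : g⁻¹ • unmask n = unmask n := by
      rw [inv_smul_eq_iff, smul_unmask hg, hfix]
    have hb' : wordOf (basisMasks.getD e.2 0) ∈ golayCode := by
      refine wordOf_mem_golayCode (inCode_iff.1 ?_)
      have : ∀ j < 12, inCode (basisMasks.getD j 0) = true := by decide +kernel
      exact this _ hlt
    have h0 : S5548.dot (wordOf (basisMasks.getD e.2 0)) ((fun p => w (g⁻¹.symm p)) - w) = 0 := by
      rw [S5548.dot_apply]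
      exact dot_eq_zero hb' (hcon _ (inv_mem hgM) hfix')
    rw [map_sub, sub_eq_zero, Equiv.Perm.inv_def, Equiv.symm_symm] at h0
    show S5548.dot (wordOf (diffMask e)) w = 0
    rw [diffMask, wordOf_xor, map_add, LinearMap.add_apply, wordOf_imgMask hg, ← h0,
      S5548.dot_apply, S5548.dot_apply,
      ← Equiv.sum_comp g fun p => wordOf (basisMasks.getD e.2 0) (g.symm p) * w p]
    simp only [Equiv.symm_apply_apply]
    exact CharTwo.add_self_eq_zero _

/-- Let u be a word of the length-24 binary Golay code of the definitions (possibly zero or all-ones) and w any binary word of length 24 outside the code. Then some automorphism of the code (a coordinate permutation preserving it) fixes u but moves w to a word not congruent to w modulo the code: the stabilizer of a codeword fixes no non-zero element of the quotient of the space of all words by the code. -/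
theorem result (u : (Cfsg.GolayPt → ZMod 2)) (hu : u ∈ Cfsg.golayCode) (w : (Cfsg.GolayPt → ZMod 2)) (hw : w ∉ Cfsg.golayCode) : ∃ σ ∈ Cfsg.M24, (fun p => u (σ.symm p)) = u ∧ (fun p => w (σ.symm p)) - w ∉ Cfsg.golayCode := by
  obtain ⟨m, hm, rfl⟩ := mem_golayCode_iff.1 hu
  obtain ⟨c1, c2, c3, c4, c5⟩ := certs
  have hfull : ∀ m : ℕ, unmask (fullMask ^^^ m) = (unmask m)ᶜ := by
    intro m
    rw [unmask_xor, unmask_fullMask]
    ext p; simp [Finset.mem_symmDiff]
  obtain ⟨n, tb, ct, hc, g, hg, hgn⟩ : ∃ n tb ct, certOK tb ct n = true ∧
      ∃ g ∈ M24, g • unmask n = unmask m := by
    rcases popc_mem_weights hm with h | h | h | h | h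
    · refine ⟨0, _, _, c3, 1, one_mem _, ?_⟩
      rw [one_smul, Finset.card_eq_zero.1 ((card_unmask m).trans h)]
      ext p; simp
    · obtain ⟨⟨g, hg⟩, hgo⟩ := octad_transitive
        (mem_octads_iff.2 ⟨8391797, inCode_iff.1 (by decide +kernel), by decide +kernel, rfl⟩)
        (mem_octads_iff.2 ⟨m, hm, h, rfl⟩)
      exact ⟨_, _, _, c1, g, hg, hgo⟩
    · obtain ⟨⟨g, hg⟩, hgo⟩ := dodecad_transitive dodMask_mem (mem_dodecads_iff.2 ⟨m, hm, h, rfl⟩)
      exact ⟨_, _, _, c2, g, hg, hgo⟩
    · have hoct : (unmask m)ᶜ ∈ octads := by
        rw [← hfull]
        refine mem_octads_iff.2 ⟨fullMask ^^^ m, ?_, ?_, rfl⟩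
        · exact xor_mem_spanMasks (inCode_iff.1 (by decide +kernel)) hm
        · rw [← card_unmask, hfull, Finset.card_compl, card_unmask, h,
            ← Nat.card_eq_fintype_card, card_golayPt]
      obtain ⟨⟨g, hg⟩, hgo⟩ := octad_transitive
        (mem_octads_iff.2 ⟨8391797, inCode_iff.1 (by decide +kernel), by decide +kernel, rfl⟩) hoct
      refine ⟨_, _, _, c5, g, hg, ?_⟩
      have hgo' : g • unmask 8391797 = (unmask m)ᶜ := hgo
      rw [hfull, ← compl_compl (unmask m), ← hgo']
      ext p
      simp [Finset.mem_compl, ← Finset.inv_smul_mem_iff]
    · refine ⟨fullMask, _, _, c4, 1, one_mem _, ?_⟩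
      rw [one_smul, unmask_fullMask, (Finset.card_eq_iff_eq_univ (unmask m)).1 (by
        rw [card_unmask, h, ← Nat.card_eq_fintype_card, card_golayPt])]
  have hw' : (fun p => w (g p)) ∉ golayCode := by
    intro h
    apply hw
    have := CfsgLib.Leech.comp_mem_golayCode (inv_mem hg) h
    convert this using 1
    funext p
    simp [Equiv.Perm.inv_def]
  obtain ⟨h, hh, hfix, hout⟩ := base hc hw'
  refine ⟨g * h * g⁻¹, mul_mem (mul_mem hg hh) (inv_mem hg), ?_, ?_⟩
  · refine support₂_injective ?_
    have hfixm : (g * h * g⁻¹) • unmask m = unmask m := by
      rw [← hgn, smul_smul, inv_mul_cancel_right, mul_smul, hfix]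
    rw [support₂_wordOf]
    conv_rhs => rw [← hfixm]
    generalize g * h * g⁻¹ = σ
    ext p
    rw [Finset.mem_smul_finset]
    simp only [support₂, wordOf, Finset.mem_filter, Finset.mem_univ, true_and, mem_unmask,
      Equiv.Perm.smul_def]
    constructor
    · intro hp; exact ⟨_, by simpa using hp, Equiv.apply_symm_apply _ p⟩
    · rintro ⟨q, hq, rfl⟩; simpa using hq
  · intro hcon
    apply hout
    have := CfsgLib.Leech.comp_mem_golayCode hg hcon
    convert this using 1
    funext p
    simp [Equiv.Perm.inv_def, Equiv.Perm.mul_def]

end Cfsg.Agent.S5550
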