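import Cfsg.Statements.S5553
import Cfsg.Agent.Lib.Leech.Norm
import Cfsg.Agent.Lib.Leech.Code

set_option autoImplicit false
open Cfsg

namespace Cfsg.Agent.S5553

open CfsgLib.Leech

/-- Parity of a coordinate and the differences modulo four. -/
def psi : (GolayPt → ℤ) →+ ZMod 2 × (GolayPt → ZMod 4) where
  toFun x := ((x none : ZMod 2), fun i => ((x i - x none : ℤ) : ZMod 4))
  map_zero' := by simp; rfl
  map_add' x y := Prod.ext (by simp) (funext fun i => by simp; ring)

theorem psi_apply (x : GolayPt → ℤ) :
    psi x = ((x none : ZMod 2), fun i => ((x i - x none : ℤ) : ZMod 4)) := rfl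

/-- Code words vanishing at the extra point. -/
def C0 : Type := {c : golayCode // (c : GolayPt → ZMod 2) none = 0}

theorem card_C0 : Nat.card C0 = 2048 := by
  let e : C0 × ZMod 2 ≃ golayCode :=
    { toFun := fun p => ⟨((p.1.1 : golayCode) : GolayPt → ZMod 2) + p.2 • (1 : GolayPt → ZMod 2),
        add_mem p.1.1.2 (Submodule.smul_mem _ _ one_mem_golayCode)⟩
      invFun := fun c => (⟨⟨(c : GolayPt → ZMod 2) + ((c : GolayPt → ZMod 2) none) • 1,
        add_mem c.2 (Submodule.smul_mem _ _ one_mem_golayCode)⟩, by
          simp [CharTwo.add_self_eq_zero]⟩, (c : GolayPt → ZMod 2) none)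
      left_inv := fun p => by
        obtain ⟨⟨⟨c, hc⟩, h0⟩, t⟩ := p
        refine Prod.ext (Subtype.ext (Subtype.ext (funext fun i => ?_))) ?_
        · simp only at h0
          simp [h0, add_assoc, CharTwo.add_self_eq_zero]
        · simp only at h0
          simp [h0]
      right_inv := fun c => Subtype.ext (funext fun i => by
        simp [add_assoc, CharTwo.add_self_eq_zero]) }
  have h := Nat.card_congr e
  rw [Nat.card_prod, Nat.card_zmod, CfsgLib.Leech.card_golayCode] at h
  omega

/-- The Leech lattice of the definitions has an additive subgroup A containing twice the lattice, of index 2^12 in the lattice, all of whose vectors have squared length divisible by 32: the invariant quadratic form 'squared length over 16 modulo 2' on the lattice modulo twice the lattice (a 24-dimensional space over the field with two elements) vanishes on a 12-dimensional subspace, so it is of plus type. -/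
theorem result : ∃ A : AddSubgroup (Cfsg.GolayPt → ℤ), A ≤ Cfsg.leechLattice ∧ (∀ v ∈ Cfsg.leechLattice, (2 : ℤ) • v ∈ A) ∧ (A.addSubgroupOf Cfsg.leechLattice).index = 2 ^ 12 ∧ ∀ v ∈ A, (32 : ℤ) ∣ Cfsg.sqNorm v := by
  refine ⟨leechLattice ⊓ psi.ker, inf_le_left, ?_, ?_, ?_⟩
  · intro v hv
    refine ⟨leechLattice.zsmul_mem hv 2, ?_⟩
    obtain ⟨m, c, hc, z, rfl, -⟩ := mem_leechSet_iff.1 (mem_leechLattice_iff_mem_leechSet.1 hv)
    show psi _ = 0
    rw [psi_apply]
    refine Prod.ext ?_ (funext fun i => ?_)
    · show ((((2 : ℤ) • mkVec m c z) none : ℤ) : ZMod 2) = 0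
      rw [Pi.smul_apply, smul_eq_mul, Int.cast_mul]
      exact mul_eq_zero_of_left (by decide) _
    · show ((((2 : ℤ) • mkVec m c z) i - ((2 : ℤ) • mkVec m c z) none : ℤ) : ZMod 4) = 0
      rw [ZMod.intCast_zmod_eq_zero_iff_dvd]
      simp only [Pi.smul_apply, smul_eq_mul, mkVec]
      push_cast
      omega
  · have hk : (leechLattice ⊓ psi.ker).addSubgroupOf leechLattice =
        (psi.comp leechLattice.subtype).ker := by
      ext v
      simp [AddSubgroup.mem_addSubgroupOf]
    rw [hk, AddSubgroup.index_ker]
    let f : ZMod 2 × C0 → ZMod 2 × (GolayPt → ZMod 4) := fun p =>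
      (p.1, fun i => if ((p.2.1 : golayCode) : GolayPt → ZMod 2) i = 0 then 0 else 2)
    have finj : Function.Injective f := by
      rintro ⟨s, c⟩ ⟨s', c'⟩ h
      have h1 : s = s' := congrArg Prod.fst h
      refine Prod.ext h1 (Subtype.ext (Subtype.ext (funext fun i => ?_)))
      have h2 := congrFun (congrArg Prod.snd h) i
      simp only [f] at h2
      revert h2
      generalize ((c.1 : golayCode) : GolayPt → ZMod 2) i = a
      generalize ((c'.1 : golayCode) : GolayPt → ZMod 2) i = b
      revert a b
      decide
    have himg : ((psi.comp leechLattice.subtype).range : Set _) = Set.range f := by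
      ext y
      constructor
      · rintro ⟨⟨x, hx⟩, rfl⟩
        obtain ⟨m, -, c, hc, z, rfl, -⟩ := mem_leechLattice_iff.1 hx
        refine ⟨((m : ZMod 2), ⟨⟨c + (c none) • 1,
          add_mem hc (Submodule.smul_mem _ _ one_mem_golayCode)⟩, by
            simp [CharTwo.add_self_eq_zero]⟩), ?_⟩
        show f _ = psi (mkVec m c z)
        rw [psi_apply]
        refine Prod.ext ?_ (funext fun i => ?_)
        · simp only [f, mkVec]
          rw [ZMod.intCast_eq_intCast_iff_dvd_sub]
          push_cast
          omega
        · simp only [f, mkVec, Pi.add_apply, Pi.smul_apply, Pi.one_apply, smul_eq_mul, mul_one]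
          rcases zmod2_cases (c i) with a | a <;> rcases zmod2_cases (c none) with b | b <;>
            simp only [bitVec, a, b, add_zero, zero_add, one_ne_zero, if_true, if_false,
              CharTwo.add_self_eq_zero] <;>
            refine Eq.symm ?_ <;>
            (first
              | (rw [ZMod.intCast_zmod_eq_zero_iff_dvd]; push_cast; omega)
              | (rw [show (2 : ZMod 4) = ((2 : ℤ) : ZMod 4) by norm_num,
                  ZMod.intCast_eq_intCast_iff_dvd_sub]; push_cast; omega))
      · rintro ⟨⟨s, ⟨⟨c, hc⟩, h0⟩⟩, rfl⟩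
        simp only at h0
        refine ⟨⟨mkVec (s.val : ℤ) c (fun i => if i = none then (s.val : ℤ) else 0),
          mkVec_mem hc (by simp)⟩, ?_⟩
        show psi (mkVec (s.val : ℤ) c (fun i => if i = none then (s.val : ℤ) else 0)) = f _
        rw [psi_apply]
        refine Prod.ext ?_ (funext fun i => ?_)
        · simp only [f, mkVec, bitVec, h0, if_true]
          generalize s = t
          revert t
          decide
        · simp only [f, mkVec, bitVec, h0, if_true]
          by_cases hi : i = none
          · subst hi; simp [h0]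
          · rw [if_neg hi]
            rcases zmod2_cases (c i) with a | a <;> rcases zmod2_cases s with rfl | rfl <;>
              simp only [a] <;> decide
    rw [← SetLike.coe_sort_coe, Nat.card_coe_set_eq, himg, ← Nat.card_coe_set_eq,
      Nat.card_range_of_injective finj, Nat.card_prod, Nat.card_zmod, card_C0]
    norm_num
  · rintro v ⟨hv, hk⟩
    obtain ⟨m, hm, c, hc, z, rfl, hd⟩ := mem_leechLattice_iff.1 hv
    have hk' : psi (mkVec m c z) = 0 := hk
    rw [psi_apply, Prod.mk_eq_zero] at hk'
    have hm0 : m = 0 := by
      have := (ZMod.intCast_zmod_eq_zero_iff_dvd _ 2).1 hk'.1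
      simp only [mkVec] at this
      omega
    subst hm0
    have hconst : ∀ i, bitVec c i = bitVec c none := fun i => by
      have := (ZMod.intCast_zmod_eq_zero_iff_dvd _ 4).1 (congrFun hk'.2 i)
      rcases bitVec_cases c i with a | a <;> rcases bitVec_cases c none with b | b <;>
        simp only [mkVec, a, b] at this ⊢ <;> omega
    have hsq : (2 : ℤ) ∣ (∑ i, z i ^ 2) - ∑ i, z i := by
      rw [← Finset.sum_sub_distrib]
      exact Finset.dvd_sum fun i _ => by
        rcases Int.even_or_odd (z i) with ⟨k, hk⟩ | ⟨k, hk⟩ <;> rw [hk]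
        · exact ⟨2 * k * k - k, by ring⟩
        · exact ⟨2 * k * k + k, by ring⟩
    rw [sqNorm_mkVec, ← bitVec_sum, Finset.sum_add_distrib,
      Finset.sum_congr rfl fun i _ => hconst i,
      Finset.sum_congr rfl fun i _ => congrArg (· * z i) (hconst i),
      ← Finset.mul_sum, Finset.sum_const, Finset.card_univ, show Fintype.card GolayPt = 24 from rfl]
    rcases bitVec_cases c none with b | b <;> simp only [b, nsmul_eq_mul] <;> push_cast <;> omega

end Cfsg.Agent.S5553
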