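import Cfsg.Statements.S5588
import Cfsg.Agent.Lib.ExtraspecialLarge.Y555Spider

set_option autoImplicit false
open Cfsg

namespace Cfsg.Agent.S5588

open CfsgLib.ExtraspecialLarge
open CfsgLib.ExtraspecialLarge.RootRefl

/-- relators without the arm relations -/
def rels : Set (FreeGroup Spor.Bimonster.Gen) :=
  Spor.coxRelators Spor.Bimonster.edges ∪ {r' | r' ∈ [(Spor.Bimonster.a * Spor.Bimonster.b1 * Spor.Bimonster.c1 * Spor.Bimonster.a * Spor.Bimonster.b2 * Spor.Bimonster.c2 * Spor.Bimonster.a * Spor.Bimonster.b3 * Spor.Bimonster.c3) ^ 10]}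

/-- the generator in position `i` of a list -/
def emb (L : List Spor.Bimonster.Gen) (i : ℕ) : Spor.Bimonster.Gen := L.getD i .a

/-- its image in the presented group -/
def gen (L : List Spor.Bimonster.Gen) (i : ℕ) : PresentedGroup rels := PresentedGroup.of (emb L i)

/-- the label wanted between two positions -/
def wantLabel (i j : ℕ) : ℕ := if i = j then 1 else if j ∈ Y555.nb11 i then 3 else 2

lemma mem_nodes (x : Spor.Bimonster.Gen) : x ∈ Spor.coxNodes Spor.Bimonster.edges := by
  cases x <;> decide

lemma cox_rel (x y : Spor.Bimonster.Gen) :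
    ((PresentedGroup.of x : PresentedGroup rels) * PresentedGroup.of y) ^
      Spor.coxLabel Spor.Bimonster.edges x y = 1 :=
  PresentedGroup.one_of_mem (Or.inl ⟨x, mem_nodes x, y, mem_nodes y, rfl⟩ :
    (FreeGroup.of x * FreeGroup.of y) ^ Spor.coxLabel Spor.Bimonster.edges x y ∈ rels)

lemma cox_of {L : List Spor.Bimonster.Gen}
    (h : ∀ i < 11, ∀ j < 11, Spor.coxLabel Spor.Bimonster.edges (emb L i) (emb L j) = wantLabel i j) :
    Cox 11 Y555.nb11 (gen L) := by
  have hrel : ∀ i, i < 11 → ∀ j, j < 11 → (gen L i * gen L j) ^ wantLabel i j = 1 := by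
    intro i hi j hj
    rw [← h i hi j hj]
    exact cox_rel (emb L i) (emb L j)
  have hsq : ∀ i, i < 11 → gen L i * gen L i = 1 := fun i hi => by
    simpa [wantLabel] using hrel i hi i hi
  have hinv : ∀ i, i < 11 → (gen L i)⁻¹ = gen L i := fun i hi => inv_eq_of_mul_eq_one_right (hsq i hi)
  refine ⟨hsq, ?_, ?_⟩
  · intro i hi j hj hne hnad
    have h2 := hrel i hi j hj
    simp only [wantLabel, hne, hnad, if_false, pow_two] at h2
    rw [mul_eq_one_iff_eq_inv, mul_inv_rev, hinv i hi, hinv j hj] at h2
    exact h2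
  · intro i hi j hadj
    have hj := Y555.graph11.lt i hi j hadj
    have hne : i ≠ j := fun e => Y555.graph11.irr i hi (e ▸ hadj)
    have h3 := hrel i hi j hj
    simp only [wantLabel, hne, hadj, if_false, if_true, pow_three] at h3
    have e : gen L i * gen L j * gen L i * (gen L j * gen L i * gen L j) = 1 := by
      rw [← h3]; group
    rw [mul_eq_one_iff_eq_inv, mul_inv_rev, mul_inv_rev, hinv i hi, hinv j hj, ← mul_assoc] at e
    exact e

lemma wp_gen (L : List Spor.Bimonster.Gen) (w : List ℕ) :
    wp (gen L) w = PresentedGroup.mk rels ((w.map (emb L)).map FreeGroup.of).prod := by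
  rw [map_list_prod, wp, List.map_map, List.map_map]
  rfl

/-- the word of a product of conjugates of powers of the spider word -/
def transWord (X : List ℕ) : List (List ℕ × Bool) → List ℕ
  | [] => []
  | (g, b) :: fs => g ++ (if b then (List.replicate 10 X).flatten else (List.replicate 10 X).flatten.reverse) ++
      g.reverse ++ transWord X fs

lemma wp_transWord {L : List Spor.Bimonster.Gen} (hs : Cox 11 Y555.nb11 (gen L)) {X : List ℕ}
    (hX : okW 11 X = true) (h1 : wp (gen L) X ^ 10 = 1) :
    ∀ fs : List (List ℕ × Bool), (fs.all fun p => okW 11 p.1) = true → wp (gen L) (transWord X fs) = 1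
  | [], _ => wp_nil
  | (g, b) :: fs, h => by
    simp only [List.all_cons, Bool.and_eq_true] at h
    have hr : okW 11 (List.replicate 10 X).flatten = true := okW_iff.2 fun i hi => by
      obtain ⟨l, hl, hil⟩ := List.mem_flatten.1 hi
      rw [List.eq_of_mem_replicate hl] at hil
      exact okW_iff.1 hX i hil
    have hmid : wp (gen L) (if b then (List.replicate 10 X).flatten
        else (List.replicate 10 X).flatten.reverse) = 1 := by
      cases b
      · rw [if_neg (by simp), wp_reverse hs hr, wp_replicate, h1, inv_one]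
      · rw [if_pos rfl, wp_replicate, h1]
    rw [transWord, wp_append, wp_append, wp_append, hmid, wp_reverse hs h.1,
      wp_transWord hs hX h1 fs h.2]
    group

lemma seed_holds {L : List Spor.Bimonster.Gen} (hs : Cox 11 Y555.nb11 (gen L)) (e : Entry)
    (i : ℕ) (w : List ℕ) (hi : i < 11) (hw : okW 11 w = true) (h1 : wp (gen L) w = 1)
    (hl : e.lhs = unitVec 11 i) (hr : e.rhs = track Y555.nb11 11 w (unitVec 11 i)) :
    e.Holds 11 Y555.nb11 (gen L) := by
  have hi' : IsRoot 11 Y555.nb11 (gen L) (unitVec 11 i) := ⟨_, Rep.base i hi⟩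
  rw [Entry.Holds, hl, hr]
  refine ⟨hi', hi'.track Y555.graph11 hs hw, ?_⟩
  rw [rootElt_track Y555.graph11 hs hi' hw, h1]
  group

lemma spider_eq_one : PresentedGroup.mk rels (([Spor.Bimonster.Gen.a, .b1, .c1, .a, .b2, .c2, .a, .b3, .c3].map
    FreeGroup.of).prod) ^ 10 = 1 := by
  rw [← map_pow]
  refine PresentedGroup.one_of_mem (Or.inr ?_)
  simp [mul_assoc]

/-- positions for the permutation 123 -/
def arms0 : List Spor.Bimonster.Gen := [.a, .b1, .b2, .b3, .c1, .c2, .c3, .d1, .d2, .e1, .f1]

lemma arm0 : (gen arms0) 10 = wp (gen arms0) [0, 1, 2, 3, 4, 5, 7] ^ 9 := by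
  have hs : Cox 11 Y555.nb11 (gen arms0) := cox_of (by decide +kernel)
  have h1 : wp (gen arms0) Y555.spiderWord0 ^ 10 = 1 := by
    rw [wp_gen, show Y555.spiderWord0.map (emb arms0) =
      [Spor.Bimonster.Gen.a, .b1, .c1, .a, .b2, .c2, .a, .b3, .c3] by decide]
    exact spider_eq_one
  refine Y555.arm_relation hs ?_ ?_
  · exact seed_holds hs _ 7 (transWord Y555.spiderWord0 Y555.trans0A) (by omega) (by decide +kernel)
      (wp_transWord hs (by decide) h1 _ (by decide)) rfl (by decide +kernel)
  · exact seed_holds hs _ 8 (transWord Y555.spiderWord0 Y555.trans0B) (by omega) (by decide +kernel)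
      (wp_transWord hs (by decide) h1 _ (by decide)) rfl (by decide +kernel)

/-- positions for the permutation 132 -/
def arms1 : List Spor.Bimonster.Gen := [.a, .b1, .b3, .b2, .c1, .c3, .c2, .d1, .d3, .e1, .f1]

lemma arm1 : (gen arms1) 10 = wp (gen arms1) [0, 1, 2, 3, 4, 5, 7] ^ 9 := by
  have hs : Cox 11 Y555.nb11 (gen arms1) := cox_of (by decide +kernel)
  have h1 : wp (gen arms1) Y555.spiderWord1 ^ 10 = 1 := by
    rw [wp_gen, show Y555.spiderWord1.map (emb arms1) =
      [Spor.Bimonster.Gen.a, .b1, .c1, .a, .b2, .c2, .a, .b3, .c3] by decide]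
    exact spider_eq_one
  refine Y555.arm_relation hs ?_ ?_
  · exact seed_holds hs _ 7 (transWord Y555.spiderWord1 Y555.trans1A) (by omega) (by decide +kernel)
      (wp_transWord hs (by decide) h1 _ (by decide)) rfl (by decide +kernel)
  · exact seed_holds hs _ 8 (transWord Y555.spiderWord1 Y555.trans1B) (by omega) (by decide +kernel)
      (wp_transWord hs (by decide) h1 _ (by decide)) rfl (by decide +kernel)

/-- positions for the permutation 213 -/
def arms2 : List Spor.Bimonster.Gen := [.a, .b2, .b1, .b3, .c2, .c1, .c3, .d2, .d1, .e2, .f2]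

lemma arm2 : (gen arms2) 10 = wp (gen arms2) [0, 1, 2, 3, 4, 5, 7] ^ 9 := by
  have hs : Cox 11 Y555.nb11 (gen arms2) := cox_of (by decide +kernel)
  have h1 : wp (gen arms2) Y555.spiderWord2 ^ 10 = 1 := by
    rw [wp_gen, show Y555.spiderWord2.map (emb arms2) =
      [Spor.Bimonster.Gen.a, .b1, .c1, .a, .b2, .c2, .a, .b3, .c3] by decide]
    exact spider_eq_one
  refine Y555.arm_relation hs ?_ ?_
  · exact seed_holds hs _ 7 (transWord Y555.spiderWord2 Y555.trans2A) (by omega) (by decide +kernel)
      (wp_transWord hs (by decide) h1 _ (by decide)) rfl (by decide +kernel)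
  · exact seed_holds hs _ 8 (transWord Y555.spiderWord2 Y555.trans2B) (by omega) (by decide +kernel)
      (wp_transWord hs (by decide) h1 _ (by decide)) rfl (by decide +kernel)

/-- positions for the permutation 231 -/
def arms3 : List Spor.Bimonster.Gen := [.a, .b2, .b3, .b1, .c2, .c3, .c1, .d2, .d3, .e2, .f2]

lemma arm3 : (gen arms3) 10 = wp (gen arms3) [0, 1, 2, 3, 4, 5, 7] ^ 9 := by
  have hs : Cox 11 Y555.nb11 (gen arms3) := cox_of (by decide +kernel)
  have h1 : wp (gen arms3) Y555.spiderWord3 ^ 10 = 1 := by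
    rw [wp_gen, show Y555.spiderWord3.map (emb arms3) =
      [Spor.Bimonster.Gen.a, .b1, .c1, .a, .b2, .c2, .a, .b3, .c3] by decide]
    exact spider_eq_one
  refine Y555.arm_relation hs ?_ ?_
  · exact seed_holds hs _ 7 (transWord Y555.spiderWord3 Y555.trans3A) (by omega) (by decide +kernel)
      (wp_transWord hs (by decide) h1 _ (by decide)) rfl (by decide +kernel)
  · exact seed_holds hs _ 8 (transWord Y555.spiderWord3 Y555.trans3B) (by omega) (by decide +kernel)
      (wp_transWord hs (by decide) h1 _ (by decide)) rfl (by decide +kernel)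

/-- positions for the permutation 312 -/
def arms4 : List Spor.Bimonster.Gen := [.a, .b3, .b1, .b2, .c3, .c1, .c2, .d3, .d1, .e3, .f3]

lemma arm4 : (gen arms4) 10 = wp (gen arms4) [0, 1, 2, 3, 4, 5, 7] ^ 9 := by
  have hs : Cox 11 Y555.nb11 (gen arms4) := cox_of (by decide +kernel)
  have h1 : wp (gen arms4) Y555.spiderWord4 ^ 10 = 1 := by
    rw [wp_gen, show Y555.spiderWord4.map (emb arms4) =
      [Spor.Bimonster.Gen.a, .b1, .c1, .a, .b2, .c2, .a, .b3, .c3] by decide]
    exact spider_eq_one
  refine Y555.arm_relation hs ?_ ?_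
  · exact seed_holds hs _ 7 (transWord Y555.spiderWord4 Y555.trans4A) (by omega) (by decide +kernel)
      (wp_transWord hs (by decide) h1 _ (by decide)) rfl (by decide +kernel)
  · exact seed_holds hs _ 8 (transWord Y555.spiderWord4 Y555.trans4B) (by omega) (by decide +kernel)
      (wp_transWord hs (by decide) h1 _ (by decide)) rfl (by decide +kernel)

/-- positions for the permutation 321 -/
def arms5 : List Spor.Bimonster.Gen := [.a, .b3, .b2, .b1, .c3, .c2, .c1, .d3, .d2, .e3, .f3]

lemma arm5 : (gen arms5) 10 = wp (gen arms5) [0, 1, 2, 3, 4, 5, 7] ^ 9 := by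
  have hs : Cox 11 Y555.nb11 (gen arms5) := cox_of (by decide +kernel)
  have h1 : wp (gen arms5) Y555.spiderWord5 ^ 10 = 1 := by
    rw [wp_gen, show Y555.spiderWord5.map (emb arms5) =
      [Spor.Bimonster.Gen.a, .b1, .c1, .a, .b2, .c2, .a, .b3, .c3] by decide]
    exact spider_eq_one
  refine Y555.arm_relation hs ?_ ?_
  · exact seed_holds hs _ 7 (transWord Y555.spiderWord5 Y555.trans5A) (by omega) (by decide +kernel)
      (wp_transWord hs (by decide) h1 _ (by decide)) rfl (by decide +kernel)
  · exact seed_holds hs _ 8 (transWord Y555.spiderWord5 Y555.trans5B) (by omega) (by decide +kernel)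
      (wp_transWord hs (by decide) h1 _ (by decide)) rfl (by decide +kernel)

lemma arm_relator {L : List Spor.Bimonster.Gen} (h : gen L 10 = wp (gen L) [0, 1, 2, 3, 4, 5, 7] ^ 9)
    {x : Spor.Bimonster.Gen} {y : FreeGroup Spor.Bimonster.Gen} (hx : emb L 10 = x)
    (hy : ((([0, 1, 2, 3, 4, 5, 7] : List ℕ).map (emb L)).map FreeGroup.of).prod = y) :
    PresentedGroup.mk rels (FreeGroup.of x * (y ^ 9)⁻¹) = 1 := by
  rw [map_mul, map_inv, map_pow, ← hx, ← hy, ← wp_gen, ← h]
  exact mul_inv_cancel _

/-- In the group presented by the sixteen involutions of the Y₅₅₅ Coxeter diagram subject only to the Coxeter relations and the single spider relation (a b₁ c₁ a b₂ c₂ a b₃ c₃)^10 = 1, each of the further relators used in the definitions' presentation of the Bimonster (each end node equals the ninth power of the Coxeter element of a sub-diagram of type E₇) already holds. Equivalently, the Y₅₅₅ diagram with the spider relation alone presents the Bimonster. -/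
theorem result :
    ∀ r ∈ Cfsg.Spor.Bimonster.extra,
      (PresentedGroup.mk (Cfsg.Spor.coxRelators Cfsg.Spor.Bimonster.edges ∪ {r' | r' ∈ [(Cfsg.Spor.Bimonster.a * Cfsg.Spor.Bimonster.b1 * Cfsg.Spor.Bimonster.c1 * Cfsg.Spor.Bimonster.a * Cfsg.Spor.Bimonster.b2 * Cfsg.Spor.Bimonster.c2 * Cfsg.Spor.Bimonster.a * Cfsg.Spor.Bimonster.b3 * Cfsg.Spor.Bimonster.c3) ^ 10]}) r) = 1 := by
  intro r hr
  change PresentedGroup.mk rels r = 1
  simp only [Spor.Bimonster.extra, List.mem_cons, List.not_mem_nil, or_false] at hr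
  rcases hr with rfl | rfl | rfl | rfl | rfl | rfl | rfl
  · exact PresentedGroup.one_of_mem (Or.inr (List.mem_singleton_self _))
  · exact arm_relator arm0 rfl (by simp [emb, arms0, mul_assoc])
  · exact arm_relator arm1 rfl (by simp [emb, arms1, mul_assoc])
  · exact arm_relator arm2 rfl (by simp [emb, arms2, mul_assoc])
  · exact arm_relator arm3 rfl (by simp [emb, arms3, mul_assoc])
  · exact arm_relator arm4 rfl (by simp [emb, arms4, mul_assoc])
  · exact arm_relator arm5 rfl (by simp [emb, arms5, mul_assoc])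

end Cfsg.Agent.S5588
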