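import Cfsg.Statements.S5592
import Cfsg.Agent.Lib.Leech.Norm

set_option autoImplicit false
open Cfsg

namespace Cfsg.Agent.S5592

/-- In the Leech lattice (integer coordinates, sum of squares equal to 8 times the customary norm, so the shortest non-zero vectors have sum of squares 32): if two distinct vectors of sum of squares at most 64 are congruent modulo twice the lattice, then either they are negatives of each other, or both have sum of squares 64 and they are orthogonal. -/
theorem result (x y : Cfsg.GolayPt → ℤ) (hx : x ∈ Cfsg.leechLattice) (hy : y ∈ Cfsg.leechLattice) (hxy : x ≠ y) (hxn : Cfsg.sqNorm x ≤ 64) (hyn : Cfsg.sqNorm y ≤ 64) (hc : (∃ z ∈ Cfsg.leechLattice, x - y = 2 • z)) :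
    x = -y ∨ (Cfsg.sqNorm x = 64 ∧ Cfsg.sqNorm y = 64 ∧ Cfsg.dotInt x y = 0) := by
  obtain ⟨z, hz, he⟩ := hc
  by_cases hneg : x = -y
  · exact Or.inl hneg
  right
  have hs : x + y = 2 • (y + z) := by
    calc x + y = (x - y) + (y + y) := by abel
      _ = 2 • z + (y + y) := by rw [he]
      _ = 2 • (y + z) := by abel
  have hz0 : z ≠ 0 := by
    intro e; rw [e, smul_zero, sub_eq_zero] at he; exact hxy he
  have hyz0 : y + z ≠ 0 := by
    intro e; rw [e, smul_zero] at hs; exact hneg (eq_neg_of_add_eq_zero_left hs)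
  have h1 := CfsgLib.Leech.le_sqNorm_of_ne_zero hz hz0
  have h2 := CfsgLib.Leech.le_sqNorm_of_ne_zero (Cfsg.leechLattice.add_mem hy hz) hyz0
  have h4 : ∀ w : Cfsg.GolayPt → ℤ, Cfsg.sqNorm (2 • w) = 4 * Cfsg.sqNorm w := fun w => by
    simp only [Cfsg.sqNorm, Finset.mul_sum]
    exact Finset.sum_congr rfl fun i _ => by simp; ring
  have hp : Cfsg.sqNorm (x + y) + Cfsg.sqNorm (x - y) = 2 * Cfsg.sqNorm x + 2 * Cfsg.sqNorm y := by
    simp only [Cfsg.sqNorm, Finset.mul_sum, ← Finset.sum_add_distrib]
    exact Finset.sum_congr rfl fun i _ => by simp; ring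
  have hadd := CfsgLib.Leech.sqNorm_add x y
  rw [hs, h4] at hp hadd
  rw [he, h4] at hp
  refine ⟨by omega, by omega, by omega⟩

end Cfsg.Agent.S5592
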