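import Cfsg.Statements.S5593
import Cfsg.Agent.Lib.Leech.Order

set_option autoImplicit false
open Cfsg

namespace Cfsg.Agent.S5593

/-- The automorphism group of the Leech lattice acts transitively on the congruence classes modulo twice the lattice of the vectors of sum of squares 64 (customary norm 8): for any two such vectors some automorphism carries the first to a vector congruent to the second. -/
theorem result (v w : ↥Cfsg.leechLattice) (hv : Cfsg.sqNorm (v : Cfsg.GolayPt → ℤ) = 64) (hw : Cfsg.sqNorm (w : Cfsg.GolayPt → ℤ) = 64) :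
    ∃ g : ↥Cfsg.Co0, ∃ z ∈ Cfsg.leechLattice, ((g • v : ↥Cfsg.leechLattice) : Cfsg.GolayPt → ℤ) - (w : Cfsg.GolayPt → ℤ) = 2 • z := by
  obtain ⟨a, ha⟩ := CfsgLib.Fischer2.isAxisClass_norm64 v hv
  obtain ⟨b, hb⟩ := CfsgLib.Fischer2.isAxisClass_norm64 w hw
  have h := (ha.trans hb.symm).smul b⁻¹
  rw [inv_smul_smul, ← mul_smul] at h
  obtain ⟨z, hz⟩ := CfsgLib.Leech.congTwo_iff.1 h
  exact ⟨b⁻¹ * a, z, z.2, congrArg Subtype.val hz⟩

end Cfsg.Agent.S5593
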