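import Cfsg.Statements.S5594
import Cfsg.Agent.Lib.ExtraspecialLarge.LeechMonomial

set_option autoImplicit false
open Cfsg

namespace Cfsg.Agent.S5594

/-- The automorphism group of the Leech lattice contains the negation map, and the subgroup of order 2 it generates has no complement: the automorphism group is a non-split extension of its quotient by that subgroup (it is not the direct product of a group of order 2 with the first Conway group). -/
theorem result :
    ∃ n : ↥Cfsg.Co0, (∀ v : ↥Cfsg.leechLattice, ((n • v : ↥Cfsg.leechLattice) : Cfsg.GolayPt → ℤ) = -(v : Cfsg.GolayPt → ℤ)) ∧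
    ∀ K : Subgroup ↥Cfsg.Co0, ¬ (Subgroup.zpowers n).IsComplement' K := by
  classical
  set σ : Equiv.Perm Cfsg.GolayPt := Cfsg.projInv with hσdef
  have hσσ : ∀ i, σ.symm i = σ i := fun i => rfl
  have hgen : ∀ t : ZMod 23, CfsgLib.Golay.inCode
      (((List.range 24).map fun j => if qrWord t (σ.symm (CfsgLib.Golay.pt j)) = 1 then 2 ^ j else 0).sum) = true := by
    decide +kernel
  have hmask : ∀ t : ZMod 23, (fun i => qrWord t (σ.symm i)) = CfsgLib.Golay.wordOf
      (((List.range 24).map fun j => if qrWord t (σ.symm (CfsgLib.Golay.pt j)) = 1 then 2 ^ j else 0).sum) := by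
    decide +kernel
  have h : ∀ w ∈ Cfsg.golayCode, (fun i => w (σ.symm i)) ∈ Cfsg.golayCode := by
    intro w hw
    induction hw using Submodule.span_induction with
    | mem x hx =>
      rcases hx with ⟨t, rfl⟩ | hx
      · rw [hmask t]
        exact CfsgLib.Golay.wordOf_mem_golayCode (CfsgLib.Golay.inCode_iff.1 (hgen t))
      · rw [Set.mem_singleton_iff] at hx; subst hx; exact CfsgLib.Leech.one_mem_golayCode
    | zero => exact Cfsg.golayCode.zero_mem
    | add x y _ _ ihx ihy => exact Cfsg.golayCode.add_mem ihx ihy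
    | smul a x _ ih => exact Cfsg.golayCode.smul_mem a ih
  have hd : qrWord 0 ∈ Cfsg.golayCode := Submodule.subset_span (Set.mem_union_left _ ⟨0, rfl⟩)
  have hflip : ∀ i, σ i ∈ Cfsg.support₂ (qrWord 0) ↔ i ∉ Cfsg.support₂ (qrWord 0) := by decide +kernel
  have hinv : ∀ i, σ (σ i) = i := fun i => σ.left_inv i
  let φ : ↥Cfsg.leechLattice → ↥Cfsg.leechLattice := fun v =>
    ⟨Cfsg.signedPerm σ (Cfsg.support₂ (qrWord 0)) v,
      CfsgLib.ExtraspecialLarge.signedPerm_mem h hd v.2⟩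
  have hφ2 : ∀ v, ((φ (φ v) : ↥Cfsg.leechLattice) : Cfsg.GolayPt → ℤ) = -(v : Cfsg.GolayPt → ℤ) := by
    intro v
    funext i
    simp only [φ, Cfsg.signedPerm, hσσ, hinv, Pi.neg_apply]
    by_cases hi : i ∈ Cfsg.support₂ (qrWord 0)
    · rw [if_pos hi, if_neg (fun q => (hflip i).mp q hi)]
    · rw [if_neg hi, if_pos ((hflip i).mpr hi)]
  have hφinj : Function.Injective φ := by
    intro a b e
    have := congrArg (fun v => ((φ v : ↥Cfsg.leechLattice) : Cfsg.GolayPt → ℤ)) e
    simp only [hφ2] at this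
    exact Subtype.ext (neg_injective this)
  have hφsurj : Function.Surjective φ := fun v => ⟨φ (-v), Subtype.ext (by rw [hφ2]; simp)⟩
  let fp : Equiv.Perm ↥Cfsg.leechLattice := Equiv.ofBijective φ ⟨hφinj, hφsurj⟩
  have hf : fp ∈ Cfsg.Co0 := by
    refine ⟨fun v w => Subtype.ext ?_, fun v => ?_⟩
    · show Cfsg.signedPerm σ _ ((v : Cfsg.GolayPt → ℤ) + w) = _ + _
      funext i
      show Cfsg.signedPerm σ _ ((v : Cfsg.GolayPt → ℤ) + w) i =
        Cfsg.signedPerm σ (Cfsg.support₂ (qrWord 0)) (v : Cfsg.GolayPt → ℤ) i +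
        Cfsg.signedPerm σ (Cfsg.support₂ (qrWord 0)) (w : Cfsg.GolayPt → ℤ) i
      simp only [Cfsg.signedPerm, Pi.add_apply]
      split <;> ring
    · show Cfsg.sqNorm (Cfsg.signedPerm σ _ (v : Cfsg.GolayPt → ℤ)) = _
      unfold Cfsg.sqNorm
      rw [← Equiv.sum_comp σ (fun i => Cfsg.signedPerm σ (Cfsg.support₂ (qrWord 0)) (v : Cfsg.GolayPt → ℤ) i ^ 2)]
      refine Finset.sum_congr rfl fun i _ => ?_
      simp only [Cfsg.signedPerm, Equiv.symm_apply_apply]
      split <;> ring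
  let f : ↥Cfsg.Co0 := ⟨fp, hf⟩
  have hn : ∀ v : ↥Cfsg.leechLattice, (((f * f) • v : ↥Cfsg.leechLattice) : Cfsg.GolayPt → ℤ) =
      -(v : Cfsg.GolayPt → ℤ) := fun v => hφ2 v
  refine ⟨f * f, hn, fun K hK => ?_⟩
  have hv8 : CfsgLib.Leech.mkVec 0 0 (fun i => if i = none then 2 else 0) ∈ Cfsg.leechLattice :=
    CfsgLib.Leech.mkVec_mem Cfsg.golayCode.zero_mem (by simp)
  have hne : f * f ≠ 1 := by
    intro e
    have h1 := hn ⟨_, hv8⟩
    rw [e, one_smul] at h1
    have h2 := congrFun h1 none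
    simp [CfsgLib.Leech.mkVec, CfsgLib.Leech.bitVec] at h2
  have hnK : f * f ∉ K := fun q => hne (by
    have hmem : f * f ∈ Subgroup.zpowers (f * f) ⊓ K := ⟨Subgroup.mem_zpowers _, q⟩
    rw [disjoint_iff.mp hK.disjoint] at hmem
    exact hmem)
  obtain ⟨⟨⟨a, n, rfl⟩, ⟨k, hk⟩⟩, hp, -⟩ := hK.existsUnique f
  simp only at hp
  apply hnK
  have hsq : (f * f) * (f * f) = 1 := by
    apply Subtype.ext
    apply Equiv.ext
    intro v
    apply Subtype.ext
    show ((φ (φ (φ (φ v))) : ↥Cfsg.leechLattice) : Cfsg.GolayPt → ℤ) = v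
    rw [hφ2, hφ2, neg_neg]
  have hc : Commute ((f * f) ^ n) f :=
    (((Commute.refl f).mul_left (Commute.refl f))).zpow_left n
  have hk' : k = ((f * f) ^ n)⁻¹ * f := by rw [eq_inv_mul_iff_mul_eq]; exact hp
  have h1 : k * k ∈ K := K.mul_mem hk hk
  have h2 : k * k = f * f := by
    rw [hk', mul_assoc, ← mul_assoc f, ← hc.inv_left.eq, mul_assoc ((f * f) ^ n)⁻¹ f f,
      ← mul_assoc, ← mul_inv_rev, ← zpow_add, ← two_mul, zpow_mul, zpow_two, hsq, one_zpow, inv_one,
      one_mul]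
  rwa [h2] at h1

end Cfsg.Agent.S5594
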