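import Cfsg.Statements.S5601
import Cfsg.Agent.Lib.ExtraspecialLarge.M24Classes

set_option autoImplicit false
open scoped Pointwise
open Cfsg

namespace Cfsg.Agent.S5601

/-- The group of the length-24 code has exactly two conjugacy classes of subgroups of order 3: a subgroup of order 3 fixes either exactly 6 of the 24 points or none of them, both cases occur, and two subgroups of order 3 with the same number of fixed points are conjugate. -/
theorem result : (∀ X : Subgroup ↥Cfsg.M24, Nat.card X = 3 → {p : Cfsg.GolayPt | ∀ x ∈ X, ((x : ↥Cfsg.M24) : Equiv.Perm Cfsg.GolayPt) p = p}.ncard = 6 ∨ {p : Cfsg.GolayPt | ∀ x ∈ X, ((x : ↥Cfsg.M24) : Equiv.Perm Cfsg.GolayPt) p = p}.ncard = 0) ∧ (∃ X : Subgroup ↥Cfsg.M24, Nat.card X = 3 ∧ {p : Cfsg.GolayPt | ∀ x ∈ X, ((x : ↥Cfsg.M24) : Equiv.Perm Cfsg.GolayPt) p = p}.ncard = 6) ∧ (∃ X : Subgroup ↥Cfsg.M24, Nat.card X = 3 ∧ {p : Cfsg.GolayPt | ∀ x ∈ X, ((x :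 ↥Cfsg.M24) : Equiv.Perm Cfsg.GolayPt) p = p}.ncard = 0) ∧ ∀ X Y : Subgroup ↥Cfsg.M24, Nat.card X = 3 → Nat.card Y = 3 → {p : Cfsg.GolayPt | ∀ x ∈ X, ((x : ↥Cfsg.M24) : Equiv.Perm Cfsg.GolayPt) p = p}.ncard = {p : Cfsg.GolayPt | ∀ x ∈ Y, ((x : ↥Cfsg.M24) : Equiv.Perm Cfsg.GolayPt) p = p}.ncard → ∃ k : ↥Cfsg.M24, MulAut.conj k • X = Y := by
  classical
  open CfsgLib.Golay CfsgLib.ExtraspecialLarge.M24Classes in
  have key : ∀ X : Subgroup ↥Cfsg.M24, Nat.card X = 3 → ∃ g : ↥Cfsg.M24,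
      X = Subgroup.zpowers g ∧ orderOf g.1 = 3 ∧
      {p : Cfsg.GolayPt | ∀ x ∈ X, ((x : ↥Cfsg.M24) : Equiv.Perm Cfsg.GolayPt) p = p}.ncard =
        (Finset.univ.filter fun p => g.1 p = p).card := by
    intro X hX
    have : Fact (Nat.Prime 3) := ⟨Nat.prime_three⟩
    obtain ⟨g, hg⟩ := exists_prime_orderOf_dvd_card' (G := ↥X) 3 (by rw [hX])
    have hgo : orderOf (g : ↥Cfsg.M24) = 3 := by rw [Subgroup.orderOf_coe, hg]
    have hz : X = Subgroup.zpowers (g : ↥Cfsg.M24) :=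
      (Subgroup.eq_of_le_of_card_ge (Subgroup.zpowers_le.mpr g.2)
        (by rw [hX, Nat.card_zpowers, hgo])).symm
    refine ⟨g, hz, by rw [Subgroup.orderOf_coe, hgo], ?_⟩
    rw [← Set.ncard_coe_finset]
    congr 1
    ext p
    simp only [Set.mem_setOf_eq, Finset.coe_filter, Finset.mem_univ, true_and]
    refine ⟨fun h => h _ g.2, fun h x hx => ?_⟩
    rw [hz] at hx
    obtain ⟨k, rfl⟩ := hx
    rw [Subgroup.coe_zpow]
    exact Equiv.Perm.zpow_apply_eq_self_of_apply_eq_self h k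
  open CfsgLib.Golay CfsgLib.ExtraspecialLarge.M24Classes in
  have hex : ∀ t n, inM24 t = true → ((List.range 24).all fun x => iterAt t 3 x == x) = true →
      (Finset.univ.filter fun p : Cfsg.GolayPt => tblAt t (idx p) = idx p).card = n → n ≠ 24 →
      ∃ X : Subgroup ↥Cfsg.M24, Nat.card X = 3 ∧
        {p : Cfsg.GolayPt | ∀ x ∈ X, ((x : ↥Cfsg.M24) : Equiv.Perm Cfsg.GolayPt) p = p}.ncard = n := by
    intro t n ht h3 hn h24
    obtain ⟨g, hgM, hgt, hgo⟩ := exists_rep3 ht h3 (by rw [hn]; exact h24)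
    refine ⟨Subgroup.zpowers ⟨g, hgM⟩, by rw [Nat.card_zpowers, Subgroup.orderOf_mk, hgo], ?_⟩
    rw [← hn, ← card_fixed hgt, ← Set.ncard_coe_finset]
    congr 1
    ext p
    simp only [Set.mem_setOf_eq, Finset.coe_filter, Finset.mem_univ, true_and]
    refine ⟨fun h => h _ (Subgroup.mem_zpowers _), fun h x hx => ?_⟩
    obtain ⟨k, rfl⟩ := hx
    rw [Subgroup.coe_zpow]
    exact Equiv.Perm.zpow_apply_eq_self_of_apply_eq_self h k
  open CfsgLib.Golay CfsgLib.ExtraspecialLarge.M24Classes in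
  refine ⟨fun X hX => ?_, hex _ _ rep_checks.2.2.1 rep_checks.2.2.2.2.1 rep_fixed_counts.2.2.1 (by norm_num),
    hex _ _ rep_checks.2.2.2.1 rep_checks.2.2.2.2.2 rep_fixed_counts.2.2.2 (by norm_num), fun X Y hX hY hXY => ?_⟩
  · obtain ⟨g, -, hgo, hc⟩ := key X hX
    rw [hc]
    rcases CfsgLib.ExtraspecialLarge.M24Classes.order_three_cases g.2 hgo with ⟨h, -⟩ | ⟨h, -⟩
    · exact Or.inl h
    · exact Or.inr h
  · obtain ⟨a, rfl, hao, hca⟩ := key X hX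
    obtain ⟨b, rfl, hbo, hcb⟩ := key Y hY
    rw [hca, hcb] at hXY
    obtain ⟨k, hk, he⟩ : ∃ k ∈ Cfsg.M24, k * a.1 * k⁻¹ = b.1 := by
      rcases CfsgLib.ExtraspecialLarge.M24Classes.order_three_cases a.2 hao with
          ⟨ca, wa, hwa, ra, hra, hea⟩ | ⟨ca, wa, hwa, ra, hra, hea⟩ <;>
        rcases CfsgLib.ExtraspecialLarge.M24Classes.order_three_cases b.2 hbo with
          ⟨cb, wb, hwb, rb, hrb, heb⟩ | ⟨cb, wb, hwb, rb, hrb, heb⟩
      all_goals first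
        | omega
        | (refine ⟨wb * wa⁻¹, mul_mem hwb (inv_mem hwa), ?_⟩
           rw [← hea, ← heb, hra.ext hrb]; group)
    refine ⟨⟨k, hk⟩, ?_⟩
    have hh : MulAut.conj (⟨k, hk⟩ : ↥Cfsg.M24) • Subgroup.zpowers a =
        (Subgroup.zpowers a).map (MulAut.conj (⟨k, hk⟩ : ↥Cfsg.M24)).toMonoidHom := rfl
    rw [hh, MonoidHom.map_zpowers]
    congr 1
    exact Subtype.ext he

end Cfsg.Agent.S5601
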