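import Cfsg.Statements.S5602
import Cfsg.Agent.Lib.ExtraspecialLarge.M24Invariant

set_option autoImplicit false
open scoped Pointwise
open Cfsg

namespace Cfsg.Agent.S5602

/-- An element of order 3 of the group of the length-24 code having exactly 6 fixed points maps to themselves exactly 21 octads, exactly 15 trios, exactly 16 sextets and exactly 20 dodecads. -/
theorem result (g : Equiv.Perm Cfsg.GolayPt) (hg : g ∈ Cfsg.M24) (h₃ : orderOf g = 3) (h₆ : (Finset.univ.filter fun p => g p = p).card = 6) : {o : Finset Cfsg.GolayPt | o ∈ Cfsg.octads ∧ g • o = o}.ncard = 21 ∧ {T : Finset (Finset Cfsg.GolayPt) | T ∈ Cfsg.trios ∧ g • T = T}.ncard = 15 ∧ {S : Finset (Finset Cfsg.GolayPt) | S ∈ Cfsg.sextets ∧ g • S = S}.ncard = 16 ∧ {d : Finset Cfsg.GolayPt | d ∈ Cfsg.dodecads ∧ g • d = d}.ncard = 20 := by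
  obtain ⟨-, w, hw, r, hr, he⟩ | ⟨hc, -⟩ := CfsgLib.ExtraspecialLarge.M24Classes.order_three_cases hg h₃
  · have hin : CfsgLib.Golay.inM24 CfsgLib.ExtraspecialLarge.M24Classes.repFix3 = true :=
      CfsgLib.ExtraspecialLarge.M24Classes.rep_checks.2.2.1
    have hrM := CfsgLib.Golay.mem_M24_of_isTbl hr hin
    have hok : CfsgLib.Golay.okTbl _ = true := (Bool.and_eq_true _ _ ▸ hin : _ ∧ _).1
    exact ⟨
      (CfsgLib.ExtraspecialLarge.M24Invariant.ncard_fixed_conj (fun g hg _ hx => CfsgLib.Golay.smul_mem_octads hg hx) hw he).trans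
        ((CfsgLib.ExtraspecialLarge.M24Invariant.ncard_fixed_octads hr hok).trans
          CfsgLib.ExtraspecialLarge.M24Invariant.counts.1),
      (CfsgLib.ExtraspecialLarge.M24Invariant.ncard_fixed_conj (fun g hg _ hx => CfsgLib.ExtraspecialLarge.M24Invariant.smul_mem_trios hg hx) hw he).trans
        ((CfsgLib.ExtraspecialLarge.M24Invariant.ncard_fixed_trios hrM hr hok).trans
          CfsgLib.ExtraspecialLarge.M24Invariant.counts.2.1),
      (CfsgLib.ExtraspecialLarge.M24Invariant.ncard_fixed_conj (fun g hg _ hx => CfsgLib.ExtraspecialLarge.M24Invariant.smul_mem_sextets hg hx) hw he).trans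
        ((CfsgLib.ExtraspecialLarge.M24Invariant.ncard_fixed_sextets hrM hr hok).trans
          CfsgLib.ExtraspecialLarge.M24Invariant.counts.2.2.1),
      (CfsgLib.ExtraspecialLarge.M24Invariant.ncard_fixed_conj (fun g hg _ hx => CfsgLib.Golay.smul_mem_wordsOfWeight hg hx) hw he).trans
        ((CfsgLib.ExtraspecialLarge.M24Invariant.ncard_fixed_dodecads hr hok).trans
          CfsgLib.ExtraspecialLarge.M24Invariant.counts.2.2.2.1)⟩
  · omega

end Cfsg.Agent.S5602
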