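import Cfsg.Statements.S5604
import Cfsg.Agent.Lib.ExtraspecialLarge.SevenNormalizer

set_option autoImplicit false
open scoped Pointwise
open Cfsg
open CfsgLib.ExtraspecialLarge

namespace Cfsg.Agent.S5604

/-- For a subgroup S of order 7 of the group of the length-24 code (a Sylow 7-subgroup): the normaliser of S has order 126, the centraliser of S has order 42 and is non-abelian, and the whole normaliser leaves some trio invariant. (These are the orders of a Frobenius group of order 21 times a symmetric group of degree 3; the isomorphism type itself is not asserted here.) -/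
theorem result (S : Subgroup ↥Cfsg.M24) (hS : Nat.card S = 7) : Nat.card ↥(Subgroup.normalizer (S : Set ↥Cfsg.M24)) = 126 ∧ Nat.card ↥(Subgroup.centralizer (S : Set ↥Cfsg.M24)) = 42 ∧ (∃ x ∈ Subgroup.centralizer (S : Set ↥Cfsg.M24), ∃ y ∈ Subgroup.centralizer (S : Set ↥Cfsg.M24), x * y ≠ y * x) ∧ ∃ T ∈ Cfsg.trios, ∀ n ∈ Subgroup.normalizer (S : Set ↥Cfsg.M24), ((n : ↥Cfsg.M24) : Equiv.Perm Cfsg.GolayPt) • T = T := by
  have : Fact (Nat.Prime 7) := ⟨by norm_num⟩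
  obtain ⟨r, hr⟩ := CfsgLib.Golay.exists_isTbl (Bool.and_eq_true _ _ ▸
    SevenNormalizer.rep_checks.1 : CfsgLib.Golay.okTbl SevenNormalizer.rep7 = true ∧ _).1
  have hrM : r ∈ Cfsg.M24 := CfsgLib.Golay.mem_M24_of_isTbl hr SevenNormalizer.rep_checks.1
  obtain ⟨hN, hC, ⟨a, b, ha, hb, hab⟩, hT⟩ := SevenNormalizer.result_base hr
  let X : ↥Cfsg.M24 := ⟨r, hrM⟩
  have hX : Nat.card (Subgroup.zpowers X) = 7 := by
    rw [Nat.card_zpowers, ← Subgroup.orderOf_coe]
    exact SevenNormalizer.orderOf_rep hr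
  have hfac : (Nat.card ↥Cfsg.M24).factorization 7 = 1 := by
    rw [CfsgLib.Golay.natCard_M24, Nat.factorization_def _ (by norm_num),
      show (244823040 : ℕ) = 7 ^ 1 * 34974720 by norm_num, padicValNat.mul (by norm_num) (by norm_num),
      padicValNat.prime_pow, padicValNat.eq_zero_of_not_dvd (by norm_num)]
  let P : Sylow 7 ↥Cfsg.M24 := Sylow.ofCard (Subgroup.zpowers X) (by rw [hX, hfac, pow_one])
  let Q : Sylow 7 ↥Cfsg.M24 := Sylow.ofCard S (by rw [hS, hfac, pow_one])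
  obtain ⟨c, hc⟩ := MulAction.exists_smul_eq ↥Cfsg.M24 P Q
  have hconj : ∀ x : ↥Cfsg.M24, x ∈ S ↔ c⁻¹ * x * c ∈ Subgroup.zpowers X := by
    intro x
    have h : x ∈ ((c • P : Sylow 7 ↥Cfsg.M24) : Subgroup ↥Cfsg.M24) ↔ x ∈ S := by
      rw [hc]; exact Iff.rfl
    rw [← h, Sylow.coe_subgroup_smul, Subgroup.mem_pointwise_smul_iff_inv_smul_mem]
    simp [MulAut.smul_def, P]
  have hz : ∀ x : ↥Cfsg.M24, x ∈ Subgroup.zpowers X ↔
      (x : Equiv.Perm Cfsg.GolayPt) ∈ Subgroup.zpowers r := by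
    intro x
    simp only [Subgroup.mem_zpowers_iff]
    exact exists_congr fun n => by
      rw [Subtype.ext_iff, SubgroupClass.coe_zpow]
  have hnm : ∀ n : ↥Cfsg.M24, n ∈ Subgroup.normalizer (S : Set ↥Cfsg.M24) ↔
      ((c⁻¹ * n * c : ↥Cfsg.M24) : Equiv.Perm Cfsg.GolayPt) ∈ Cfsg.M24 ⊓
        Subgroup.normalizer (Subgroup.zpowers r : Set (Equiv.Perm Cfsg.GolayPt)) := by
    intro n
    rw [Subgroup.mem_inf, Subgroup.mem_normalizer_iff, Subgroup.mem_normalizer_iff]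
    constructor
    · refine fun h => ⟨Subtype.mem _, fun y => ?_⟩
      constructor
      · intro hy
        obtain ⟨k, rfl⟩ := hy
        have h1 := (hconj _).1 ((h (c * X ^ k * c⁻¹)).1 ((hconj _).2 (by
          simp [mul_assoc, zpow_mem (Subgroup.mem_zpowers X) k])))
        rw [hz] at h1
        simpa [mul_assoc, X] using h1
      · intro hy
        obtain ⟨k, hk⟩ := hy
        have hk' : r ^ k = _ := hk
        have hpre := (h (c * ((c⁻¹ * n * c)⁻¹ * X ^ k * (c⁻¹ * n * c)) * c⁻¹)).2 ((hconj _).2 (by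
          simp [mul_assoc, zpow_mem (Subgroup.mem_zpowers X) k]))
        rw [hconj, hz] at hpre
        simp only [X, Subgroup.coe_mul, Subgroup.coe_inv, SubgroupClass.coe_zpow, hk'] at hpre
        simpa [mul_assoc] using hpre
    · rintro ⟨-, h⟩ x
      rw [hconj, hconj, hz, hz, h]
      simp [mul_assoc]
  have hcm : ∀ n : ↥Cfsg.M24, n ∈ Subgroup.centralizer (S : Set ↥Cfsg.M24) ↔
      ((c⁻¹ * n * c : ↥Cfsg.M24) : Equiv.Perm Cfsg.GolayPt) ∈ Cfsg.M24 ⊓
        Subgroup.centralizer (Subgroup.zpowers r : Set (Equiv.Perm Cfsg.GolayPt)) := by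
    intro n
    rw [Subgroup.mem_inf, Subgroup.mem_centralizer_iff, Subgroup.mem_centralizer_iff]
    constructor
    · refine fun h => ⟨Subtype.mem _, fun y hy => ?_⟩
      obtain ⟨k, rfl⟩ := hy
      have h1 := h (c * X ^ k * c⁻¹) ((hconj _).2 (by
        simp [mul_assoc, zpow_mem (Subgroup.mem_zpowers X) k]))
      have h2 : X ^ k * (c⁻¹ * n * c) = (c⁻¹ * n * c) * X ^ k := by
        calc X ^ k * (c⁻¹ * n * c) = c⁻¹ * (c * X ^ k * c⁻¹ * n) * c := by group
          _ = (c⁻¹ * n * c) * X ^ k := by rw [h1]; group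
      have h3 := congrArg Subtype.val h2
      simp only [X, Subgroup.coe_mul, SubgroupClass.coe_zpow] at h3 ⊢
      exact h3
    · rintro ⟨-, h⟩ x hx
      have h1 : ((c⁻¹ * x * c : ↥Cfsg.M24) * (c⁻¹ * n * c)) =
          (c⁻¹ * n * c) * (c⁻¹ * x * c) := Subtype.ext (h _ ((hz _).1 ((hconj x).1 hx)))
      calc x * n = c * ((c⁻¹ * x * c) * (c⁻¹ * n * c)) * c⁻¹ := by group
        _ = n * x := by rw [h1]; group
  have hbij : ∀ (A : Subgroup ↥Cfsg.M24) (B : Subgroup (Equiv.Perm Cfsg.GolayPt)),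
      B ≤ Cfsg.M24 → (∀ n : ↥Cfsg.M24, n ∈ A ↔
        ((c⁻¹ * n * c : ↥Cfsg.M24) : Equiv.Perm Cfsg.GolayPt) ∈ B) → Nat.card A = Nat.card B := by
    intro A B hB hA
    refine Nat.card_congr (Equiv.ofBijective
      (fun n => ⟨_, (hA n.1).1 n.2⟩) ⟨fun u v e => ?_, fun y => ?_⟩)
    · have h' : c⁻¹ * u.1 * c = c⁻¹ * v.1 * c := Subtype.ext (congrArg (fun z : ↥B => (z : Equiv.Perm Cfsg.GolayPt)) e)
      exact Subtype.ext (mul_left_cancel (mul_right_cancel h'))
    · refine ⟨⟨c * ⟨y.1, hB y.2⟩ * c⁻¹, (hA _).2 ?_⟩, Subtype.ext ?_⟩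
      · simp [mul_assoc]
      · simp [mul_assoc]
  refine ⟨?_, ?_, ?_, ?_⟩
  · rw [hbij _ _ inf_le_left hnm, hN]
  · rw [hbij _ _ inf_le_left hcm, hC]
  · refine ⟨c * ⟨a, ha.1⟩ * c⁻¹, (hcm _).2 ?_, c * ⟨b, hb.1⟩ * c⁻¹, (hcm _).2 ?_, fun e => hab ?_⟩
    · simpa [mul_assoc] using ha
    · simpa [mul_assoc] using hb
    · have e' : (⟨a, ha.1⟩ : ↥Cfsg.M24) * ⟨b, hb.1⟩ = ⟨b, hb.1⟩ * ⟨a, ha.1⟩ := by
        have e2 := congrArg (fun z => c⁻¹ * z * c) e
        simpa [mul_assoc] using e2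
      exact congrArg Subtype.val e'
  · refine ⟨(c : Equiv.Perm Cfsg.GolayPt) • SevenNormalizer.sevenTrio,
      M24Invariant.smul_mem_trios c.2 SevenNormalizer.sevenTrio_mem, fun n hn => ?_⟩
    have h := hT _ ((hnm n).1 hn)
    simp only [Subgroup.coe_mul, Subgroup.coe_inv, mul_smul, inv_smul_eq_iff] at h
    exact h

end Cfsg.Agent.S5604
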