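import Cfsg.Statements.S5606
import Cfsg.Agent.Lib.ExtraspecialLarge.M24Invariant

set_option autoImplicit false
open scoped Pointwise
open Cfsg

namespace Cfsg.Agent.S5606

/-- A fixed-point-free involution of the group of the length-24 code maps to themselves exactly 15 octads, exactly 75 trios and exactly 51 sextets. -/
theorem result (g : Equiv.Perm Cfsg.GolayPt) (hg : g ∈ Cfsg.M24) (h₂ : orderOf g = 2) (h₀ : ∀ p, g p ≠ p) : {o : Finset Cfsg.GolayPt | o ∈ Cfsg.octads ∧ g • o = o}.ncard = 15 ∧ {T : Finset (Finset Cfsg.GolayPt) | T ∈ Cfsg.trios ∧ g • T = T}.ncard = 75 ∧ {S : Finset (Finset Cfsg.GolayPt) | S ∈ Cfsg.sextets ∧ g • S = S}.ncard = 51 := by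
  have hc0 : (Finset.univ.filter fun p => g p = p).card = 0 := by simpa [Finset.filter_eq_empty_iff] using h₀
  obtain ⟨hc, -⟩ | ⟨-, w, hw, r, hr, he⟩ := CfsgLib.ExtraspecialLarge.M24Classes.involution_cases hg h₂
  · omega
  · have hin : CfsgLib.Golay.inM24 CfsgLib.ExtraspecialLarge.M24Classes.repFree2 = true :=
      CfsgLib.ExtraspecialLarge.M24Classes.rep_checks.2.1
    have hrM := CfsgLib.Golay.mem_M24_of_isTbl hr hin
    have hok : CfsgLib.Golay.okTbl _ = true := (Bool.and_eq_true _ _ ▸ hin : _ ∧ _).1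
    exact ⟨
      (CfsgLib.ExtraspecialLarge.M24Invariant.ncard_fixed_conj (fun g hg _ hx => CfsgLib.Golay.smul_mem_octads hg hx) hw he).trans
        ((CfsgLib.ExtraspecialLarge.M24Invariant.ncard_fixed_octads hr hok).trans
          CfsgLib.ExtraspecialLarge.M24Invariant.counts.2.2.2.2.2.2.2.2.2.1),
      (CfsgLib.ExtraspecialLarge.M24Invariant.ncard_fixed_conj (fun g hg _ hx => CfsgLib.ExtraspecialLarge.M24Invariant.smul_mem_trios hg hx) hw he).trans
        ((CfsgLib.ExtraspecialLarge.M24Invariant.ncard_fixed_trios hrM hr hok).trans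
          CfsgLib.ExtraspecialLarge.M24Invariant.counts.2.2.2.2.2.2.2.2.2.2.1),
      (CfsgLib.ExtraspecialLarge.M24Invariant.ncard_fixed_conj (fun g hg _ hx => CfsgLib.ExtraspecialLarge.M24Invariant.smul_mem_sextets hg hx) hw he).trans
        ((CfsgLib.ExtraspecialLarge.M24Invariant.ncard_fixed_sextets hrM hr hok).trans
          CfsgLib.ExtraspecialLarge.M24Invariant.counts.2.2.2.2.2.2.2.2.2.2.2)⟩

end Cfsg.Agent.S5606
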