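import Cfsg.Statements.S5607
import Cfsg.Agent.Lib.ExtraspecialLarge.M24Centralizer

set_option autoImplicit false
open scoped Pointwise
open Cfsg
open CfsgLib.ExtraspecialLarge

namespace Cfsg.Agent.S5607

/-- For a fixed-point-free involution t of the group of the length-24 code: its centraliser in that group has order 7680, is transitive on the 24 points, and is contained, together with t, in the stabiliser of some sextet. -/
theorem result (t : Equiv.Perm Cfsg.GolayPt) (ht : t ∈ Cfsg.M24) (h₂ : orderOf t = 2) (h₀ : ∀ p, t p ≠ p) : Nat.card {c : Equiv.Perm Cfsg.GolayPt // c ∈ Cfsg.M24 ∧ c * t = t * c} = 7680 ∧ (∀ p q : Cfsg.GolayPt, ∃ c ∈ Cfsg.M24, c * t = t * c ∧ c p = q) ∧ ∃ S ∈ Cfsg.sextets, t • S = S ∧ ∀ c ∈ Cfsg.M24, c * t = t * c → c • S = S := by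
  have hc0 : (Finset.univ.filter fun p => t p = p).card = 0 := by
    simpa [Finset.filter_eq_empty_iff] using h₀
  obtain ⟨hc, -⟩ | ⟨-, w, hw, r, hr, he⟩ := M24Classes.involution_cases ht h₂
  · omega
  refine ⟨?_, fun p q => ?_, w • M24Centralizer.centSextet,
    M24Invariant.smul_mem_sextets hw M24Centralizer.centSextet_mem, ?_, fun c hc hct => ?_⟩
  · have h := M24Centralizer.natCard_cent_conj hw he
    rw [M24Centralizer.natCard_centM24 hr] at h
    rw [← h]
    exact Nat.card_congr (Equiv.subtypeEquivRight fun c => M24Centralizer.mem_centM24.symm)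
  · obtain ⟨a, ha, hap⟩ := M24Centralizer.exists_level hr (w⁻¹ p)
    obtain ⟨b, hb, hbq⟩ := M24Centralizer.exists_level hr (w⁻¹ q)
    obtain ⟨hk, hkr⟩ := M24Centralizer.mem_centM24.1 (mul_mem hb (inv_mem ha))
    refine ⟨w * (b * a⁻¹) * w⁻¹, mul_mem (mul_mem hw hk) (inv_mem hw), ?_, ?_⟩
    · calc w * (b * a⁻¹) * w⁻¹ * t = w * ((b * a⁻¹) * r) * w⁻¹ := by rw [← he]; group
        _ = t * (w * (b * a⁻¹) * w⁻¹) := by rw [hkr, ← he]; group
    · rw [Equiv.Perm.mul_apply, Equiv.Perm.mul_apply, Equiv.Perm.mul_apply, ← hap,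
        Equiv.Perm.inv_def a, Equiv.symm_apply_apply, hbq, Equiv.Perm.inv_def,
        Equiv.apply_symm_apply]
  · rw [← he, smul_smul, inv_mul_cancel_right, mul_smul,
      M24Centralizer.smul_centSextet_rep hr]
  · have hk : w⁻¹ * c * w ∈ M24Centralizer.centM24 r := by
      refine M24Centralizer.mem_centM24.2 ⟨mul_mem (mul_mem (inv_mem hw) hc) hw, ?_⟩
      rw [← he] at hct
      calc w⁻¹ * c * w * r = w⁻¹ * (c * (w * r * w⁻¹)) * w := by group
        _ = r * (w⁻¹ * c * w) := by rw [hct]; group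
    have h := M24Centralizer.smul_centSextet hr hk
    rw [mul_smul, mul_smul, inv_smul_eq_iff] at h
    exact h

end Cfsg.Agent.S5607
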