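import Cfsg.Statements.S5608
import Cfsg.Agent.Lib.ExtraspecialLarge.M24Centralizer

set_option autoImplicit false
open scoped Pointwise
open Cfsg
open CfsgLib.ExtraspecialLarge

namespace Cfsg.Agent.S5608

/-- If an element of order 3 and an involution of the group of the length-24 code commute, then either the element of order 3 has exactly 6 fixed points and the involution exactly 8, or both are fixed-point-free. -/
theorem result (x s : Equiv.Perm Cfsg.GolayPt) (hx : x ∈ Cfsg.M24) (hs : s ∈ Cfsg.M24) (h₃ : orderOf x = 3) (h₂ : orderOf s = 2) (hc : Commute x s) : ((Finset.univ.filter fun p => x p = p).card = 6 ∧ (Finset.univ.filter fun p => s p = p).card = 8) ∨ ((Finset.univ.filter fun p => x p = p).card = 0 ∧ (Finset.univ.filter fun p => s p = p).card = 0) := by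
  rcases M24Classes.involution_cases hs h₂ with ⟨h8, -⟩ | ⟨h0, w, hw, r, hr, he⟩
  · rcases M24Classes.order_three_cases hx h₃ with ⟨h6, -⟩ | ⟨hx0, -⟩
    · exact Or.inl ⟨h6, h8⟩
    · exfalso
      have : Fact (Nat.Prime 3) := ⟨Nat.prime_three⟩
      have hinv : ∀ p, s p = p ↔ s (x p) = x p := fun p => by
        rw [← Equiv.Perm.mul_apply, ← hc.eq, Equiv.Perm.mul_apply, x.apply_eq_iff_eq]
      let σ : Equiv.Perm {p // s p = p} := x.subtypePerm (fun p => (hinv p).symm)
      have hσ : σ ^ 3 ^ 1 = 1 := by
        ext p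
        simp only [σ, pow_one, Equiv.Perm.subtypePerm_pow, Equiv.Perm.subtypePerm_apply,
          Equiv.Perm.coe_one, id_eq]
        rw [show x ^ 3 = 1 from h₃ ▸ pow_orderOf_eq_one x, Equiv.Perm.one_apply]
      have hmod := Equiv.Perm.card_compl_support_modEq hσ
      have hnone : σ.supportᶜ = ∅ := by
        rw [Finset.eq_empty_iff_forall_notMem]
        intro p hp
        rw [Finset.mem_compl, Equiv.Perm.notMem_support] at hp
        have hxp : x p.1 = p.1 := congrArg Subtype.val hp
        rw [Finset.card_eq_zero, Finset.filter_eq_empty_iff] at hx0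
        exact hx0 (Finset.mem_univ p.1) hxp
      rw [hnone, Finset.card_empty, Fintype.card_subtype, h8] at hmod
      exact absurd hmod (by decide)
  · refine Or.inr ⟨?_, h0⟩
    have hk : w⁻¹ * x * w ∈ M24Centralizer.centM24 r := by
      refine M24Centralizer.mem_centM24.2 ⟨mul_mem (mul_mem (inv_mem hw) hx) hw, ?_⟩
      have e := hc.eq
      rw [← he] at e
      calc w⁻¹ * x * w * r = w⁻¹ * (x * (w * r * w⁻¹)) * w := by group
        _ = r * (w⁻¹ * x * w) := by rw [e]; group
    have hk3 : orderOf (w⁻¹ * x * w) = 3 := by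
      rw [show w⁻¹ * x * w = MulAut.conj w⁻¹ x by simp, MulEquiv.orderOf_eq, h₃]
    rw [Finset.card_eq_zero, Finset.filter_eq_empty_iff]
    intro p _ hp
    refine M24Centralizer.three_fixedPointFree hr hk hk3 (w⁻¹ p) ?_
    rw [Equiv.Perm.mul_apply, Equiv.Perm.mul_apply, Equiv.Perm.inv_def,
      Equiv.apply_symm_apply, hp]

end Cfsg.Agent.S5608
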