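import Cfsg.Statements.S5609
import Cfsg.Agent.Lib.GolayStructure.Sextet

set_option autoImplicit false
open scoped Pointwise
open Cfsg

namespace Cfsg.Agent.S5609

/-- In the graph on the 759 octads of the length-24 code in which two octads are adjacent when they are disjoint, the graph is connected (of diameter 3) and two distinct octads are at distance 1, 2 or 3 exactly when they meet in 0, 4 or 2 points respectively. -/
theorem result (o o' : Finset Cfsg.GolayPt) (ho : o ∈ Cfsg.octads) (ho' : o' ∈ Cfsg.octads) (hne : o ≠ o') : (Cfsg.blockGraph Cfsg.octads).Connected ∧ ((Cfsg.blockGraph Cfsg.octads).dist ⟨o, ho⟩ ⟨o', ho'⟩ = 1 ↔ (o ∩ o').card = 0) ∧ ((Cfsg.blockGraph Cfsg.octads).dist ⟨o, ho⟩ ⟨o', ho'⟩ = 2 ↔ (o ∩ o').card = 4) ∧ ((Cfsg.blockGraph Cfsg.octads).dist ⟨o, ho⟩ ⟨o', ho'⟩ = 3 ↔ (o ∩ o').card = 2) := by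
  classical
  open CfsgLib.Golay CfsgLib.GolayStructure in
  have hadj : ∀ a b : ↥Cfsg.octads, (Cfsg.blockGraph Cfsg.octads).Adj a b ↔
      Disjoint (a : Finset Cfsg.GolayPt) b := by
    intro a b
    rw [Cfsg.blockGraph, SimpleGraph.fromRel_adj]
    constructor
    · rintro ⟨-, q | q⟩
      · exact q
      · exact q.symm
    · intro q
      exact ⟨fun e => octad_ne_of_disjoint a.2 q (congrArg Subtype.val e), Or.inl q⟩
  open CfsgLib.Golay CfsgLib.GolayStructure in
  have hfour : ∀ a b, a ∈ Cfsg.octads → b ∈ Cfsg.octads → (a ∩ b).card = 4 →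
      ∃ c ∈ Cfsg.octads, Disjoint a c ∧ Disjoint b c := by
    intro a b ha hb h4
    obtain ⟨S, ⟨hS, htS⟩, -⟩ := existsUnique_sextet (t := a ∩ b) h4
    have hu : ∀ x ∈ Cfsg.octads, a ∩ b ⊆ x → x \ (a ∩ b) ∈ S := by
      intro x hx hsub
      rw [eq_sextetOf hS htS]
      exact Finset.mem_insert_of_mem (mem_partners.2 ⟨x, hx, hsub, rfl⟩)
    have h2 : 2 ≤ ((S.erase (a ∩ b)).erase (a \ (a ∩ b)) |>.erase (b \ (a ∩ b))).card := by
      have e1 := Finset.card_erase_of_mem htS
      have e2 := Finset.pred_card_le_card_erase (s := S.erase (a ∩ b)) (a := a \ (a ∩ b))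
      have e3 := Finset.pred_card_le_card_erase
        (s := (S.erase (a ∩ b)).erase (a \ (a ∩ b))) (a := b \ (a ∩ b))
      have := hS.1
      omega
    obtain ⟨v, hv, w, hw, hvw⟩ := Finset.one_lt_card.mp h2
    simp only [Finset.mem_erase] at hv hw
    refine ⟨v ∪ w, hS.2.2 v hv.2.2.2 w hw.2.2.2 hvw, ?_, ?_⟩
    · rw [← Finset.union_sdiff_of_subset (Finset.inter_subset_left : a ∩ b ⊆ a)]
      simp only [Finset.disjoint_union_left, Finset.disjoint_union_right]
      refine ⟨⟨?_, ?_⟩, ?_, ?_⟩ <;> first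
        | exact sextet_disjoint hS htS hv.2.2.2 (Ne.symm hv.2.2.1)
        | exact sextet_disjoint hS (hu a ha Finset.inter_subset_left) hv.2.2.2 (Ne.symm hv.2.1)
        | exact sextet_disjoint hS htS hw.2.2.2 (Ne.symm hw.2.2.1)
        | exact sextet_disjoint hS (hu a ha Finset.inter_subset_left) hw.2.2.2 (Ne.symm hw.2.1)
    · rw [← Finset.union_sdiff_of_subset (Finset.inter_subset_right : a ∩ b ⊆ b)]
      simp only [Finset.disjoint_union_left, Finset.disjoint_union_right]
      refine ⟨⟨?_, ?_⟩, ?_, ?_⟩ <;> first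
        | exact sextet_disjoint hS htS hv.2.2.2 (Ne.symm hv.2.2.1)
        | exact sextet_disjoint hS (hu b hb Finset.inter_subset_right) hv.2.2.2 (Ne.symm hv.1)
        | exact sextet_disjoint hS htS hw.2.2.2 (Ne.symm hw.2.2.1)
        | exact sextet_disjoint hS (hu b hb Finset.inter_subset_right) hw.2.2.2 (Ne.symm hw.1)
  open CfsgLib.Golay CfsgLib.GolayStructure in
  have hpart : ∀ a c b : Finset Cfsg.GolayPt, a ∈ Cfsg.octads → c ∈ Cfsg.octads → b ∈ Cfsg.octads →
      Disjoint a c → (b ∩ a).card + (b ∩ c).card + (b ∩ (a ∪ c)ᶜ).card = 8 := by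
    intro a c b ha hc hb hd
    rw [← Finset.card_union_of_disjoint (hd.mono Finset.inter_subset_right Finset.inter_subset_right),
      ← Finset.inter_union_distrib_left, ← Finset.card_union_of_disjoint
        ((disjoint_compl_right (a := a ∪ c)).mono Finset.inter_subset_right Finset.inter_subset_right),
      ← Finset.inter_union_distrib_left, Finset.union_compl, Finset.inter_univ,
      card_eq_of_mem_octads hb]
  open CfsgLib.Golay CfsgLib.GolayStructure in
  have htwo : ∀ a b, a ∈ Cfsg.octads → b ∈ Cfsg.octads → (a ∩ b).card = 2 →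
      (¬ ∃ c ∈ Cfsg.octads, Disjoint a c ∧ Disjoint b c) ∧
      ∃ c ∈ Cfsg.octads, ∃ d ∈ Cfsg.octads, Disjoint a c ∧ Disjoint c d ∧ Disjoint d b := by
    intro a b ha hb h2
    constructor
    · rintro ⟨c, hc, hac, hbc⟩
      have h8 := hpart a c b ha hc hb hac
      rw [Finset.inter_comm b a, h2, Finset.disjoint_iff_inter_eq_empty.mp hbc, Finset.card_empty] at h8
      have h3 := third_octad ha hc hac
      by_cases e : b = (a ∪ c)ᶜ
      · have : (a ∩ b).card = 0 := by
          rw [e, Finset.card_eq_zero, ← Finset.disjoint_iff_inter_eq_empty]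
          exact (disjoint_compl_union a c).1
        omega
      · rcases octad_inter_card hb h3 e with q | q | q <;> omega
    · obtain ⟨c, hc, hac⟩ : ∃ c ∈ Cfsg.octads, Disjoint a c :=
        Set.nonempty_of_ncard_ne_zero (s := {c | c ∈ Cfsg.octads ∧ Disjoint a c})
          (by rw [ncard_disjoint_5_8_24 card_golayPt octads_isSteinerSystem ha]; omega)
      have h8 := hpart a c b ha hc hb hac
      rw [Finset.inter_comm b a, h2] at h8
      have h3 := third_octad ha hc hac
      obtain ⟨e, he, hae, hbe⟩ : ∃ e ∈ Cfsg.octads, Disjoint a e ∧ (b ∩ e).card = 4 := by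
        have hba : ∀ x, Disjoint a x → b ≠ x := fun x hx e => by
          subst e
          rw [Finset.disjoint_iff_inter_eq_empty.mp hx, Finset.card_empty] at h2; omega
        rcases octad_inter_card hb hc (hba c hac) with q | q | q
        · rcases octad_inter_card hb h3 (hba _ (disjoint_compl_union a c).1) with r | r | r <;> omega
        · exact ⟨_, h3, (disjoint_compl_union a c).1, by omega⟩
        · exact ⟨c, hc, hac, q⟩
      obtain ⟨d, hd, hbd, hed⟩ := hfour b e hb he hbe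
      exact ⟨e, he, d, hd, hae, hed, hbd.symm⟩
  have hreach : ∀ a b : ↥Cfsg.octads, a ≠ b →
      (((a : Finset Cfsg.GolayPt) ∩ b).card = 0 → (Cfsg.blockGraph Cfsg.octads).Adj a b) ∧
      (((a : Finset Cfsg.GolayPt) ∩ b).card = 4 → (∃ c, (Cfsg.blockGraph Cfsg.octads).Adj a c ∧
        (Cfsg.blockGraph Cfsg.octads).Adj c b)) ∧
      (((a : Finset Cfsg.GolayPt) ∩ b).card = 2 → (∃ c d, (Cfsg.blockGraph Cfsg.octads).Adj a c ∧
        (Cfsg.blockGraph Cfsg.octads).Adj c d ∧ (Cfsg.blockGraph Cfsg.octads).Adj d b)) := by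
    intro a b _
    refine ⟨fun q => (hadj a b).mpr (Finset.disjoint_iff_inter_eq_empty.mpr (Finset.card_eq_zero.mp q)),
      fun q => ?_, fun q => ?_⟩
    · obtain ⟨c, hc, h1, h2⟩ := hfour a b a.2 b.2 q
      exact ⟨⟨c, hc⟩, (hadj _ _).mpr h1, (hadj _ _).mpr h2.symm⟩
    · obtain ⟨c, hc, d, hd, h1, h2, h3⟩ := (htwo a b a.2 b.2 q).2
      exact ⟨⟨c, hc⟩, ⟨d, hd⟩, (hadj _ _).mpr h1, (hadj _ _).mpr h2, (hadj _ _).mpr h3⟩
  have hconn : (Cfsg.blockGraph Cfsg.octads).Preconnected := by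
    intro a b
    by_cases e : a = b
    · subst e; exact SimpleGraph.Reachable.refl _
    · obtain ⟨h0, h4, h2⟩ := hreach a b e
      rcases CfsgLib.Golay.octad_inter_card a.2 b.2 (fun q => e (Subtype.ext q)) with q | q | q
      · exact (h0 q).reachable
      · obtain ⟨c, d, r1, r2, r3⟩ := h2 q
        exact r1.reachable.trans (r2.reachable.trans r3.reachable)
      · obtain ⟨c, r1, r2⟩ := h4 q
        exact r1.reachable.trans r2.reachable
  have : Nonempty ↥Cfsg.octads := ⟨⟨o, ho⟩⟩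
  have hab : (⟨o, ho⟩ : ↥Cfsg.octads) ≠ ⟨o', ho'⟩ := fun e => hne (congrArg Subtype.val e)
  obtain ⟨h0, h4, h2⟩ := hreach _ _ hab
  have hd : ((o ∩ o').card = 0 → (Cfsg.blockGraph Cfsg.octads).dist ⟨o, ho⟩ ⟨o', ho'⟩ = 1) ∧
      ((o ∩ o').card = 4 → (Cfsg.blockGraph Cfsg.octads).dist ⟨o, ho⟩ ⟨o', ho'⟩ = 2) ∧
      ((o ∩ o').card = 2 → (Cfsg.blockGraph Cfsg.octads).dist ⟨o, ho⟩ ⟨o', ho'⟩ = 3) := by
    have hpos := (hconn ⟨o, ho⟩ ⟨o', ho'⟩).pos_dist_of_ne hab
    have hn1 : (o ∩ o').card ≠ 0 → (Cfsg.blockGraph Cfsg.octads).dist ⟨o, ho⟩ ⟨o', ho'⟩ ≠ 1 := by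
      intro q r
      have := (hadj _ _).mp (SimpleGraph.dist_eq_one_iff_adj.mp r)
      exact q (by rw [Finset.disjoint_iff_inter_eq_empty.mp this, Finset.card_empty])
    refine ⟨fun q => SimpleGraph.dist_eq_one_iff_adj.mpr (h0 q), fun q => ?_, fun q => ?_⟩
    · obtain ⟨c, r1, r2⟩ := h4 q
      have hle := SimpleGraph.dist_le (r1.toWalk.append r2.toWalk)
      simp at hle
      have := hn1 (by omega)
      omega
    · obtain ⟨c, d, r1, r2, r3⟩ := h2 q
      have hle := SimpleGraph.dist_le (r1.toWalk.append (r2.toWalk.append r3.toWalk))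
      simp at hle
      have := hn1 (by omega)
      have hn2 : (Cfsg.blockGraph Cfsg.octads).dist ⟨o, ho⟩ ⟨o', ho'⟩ ≠ 2 := by
        intro r
        obtain ⟨p, hp⟩ := (hconn ⟨o, ho⟩ ⟨o', ho'⟩).exists_walk_length_eq_dist
        rw [r] at hp
        obtain ⟨m, a1, a2⟩ : ∃ m, (Cfsg.blockGraph Cfsg.octads).Adj ⟨o, ho⟩ m ∧
            (Cfsg.blockGraph Cfsg.octads).Adj m ⟨o', ho'⟩ := by
          match p, hp with
          | SimpleGraph.Walk.cons a1 (SimpleGraph.Walk.cons a2 SimpleGraph.Walk.nil), _ =>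
            exact ⟨_, a1, a2⟩
        exact (htwo o o' ho ho' q).1 ⟨m, m.2, (hadj _ _).mp a1, ((hadj _ _).mp a2).symm⟩
      omega
  refine ⟨⟨hconn⟩, ?_, ?_, ?_⟩
  all_goals
    constructor
    · intro q
      rcases CfsgLib.Golay.octad_inter_card ho ho' hne with e | e | e
      · have := hd.1 e; omega
      · have := hd.2.2 e; omega
      · have := hd.2.1 e; omega
    · intro q
      first
        | exact hd.1 q
        | exact hd.2.1 q
        | exact hd.2.2 q

end Cfsg.Agent.S5609
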