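import Cfsg.Statements.S5625


set_option autoImplicit false
open Cfsg

namespace Cfsg.Agent.S5625

/-- In any Steiner system S(5, 8, 24) and for any set Y of three points, the blocks meeting Y in exactly 3, 2, 1 and 0 points number 21, 168, 360 and 210 respectively (so there are 759 blocks in all). -/
theorem result (α : Type*) [Fintype α] [DecidableEq α] (hα : Fintype.card α = 24) (B : Set (Finset α)) (hB : Cfsg.IsSteinerSystem 5 8 B) (Y : Finset α) (hY : Y.card = 3) : {b : Finset α | b ∈ B ∧ (b ∩ Y).card = 3}.ncard = 21 ∧ {b : Finset α | b ∈ B ∧ (b ∩ Y).card = 2}.ncard = 168 ∧ {b : Finset α | b ∈ B ∧ (b ∩ Y).card = 1}.ncard = 360 ∧ {b : Finset α | b ∈ B ∧ (b ∩ Y).card = 0}.ncard = 210 := by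
  classical
  let Bf : Finset (Finset α) := Finset.univ.filter (· ∈ B)
  have hBf : ∀ b, b ∈ Bf ↔ b ∈ B := fun b => by simp [Bf]
  have hb8 : ∀ b ∈ Bf, b.card = 8 := fun b hb => hB.1 b ((hBf b).mp hb)
  have hdc : ∀ (P : Finset (Finset α)) (Bs : Finset (Finset α)),
      ∑ b ∈ Bs, (P.filter (· ⊆ b)).card = ∑ s ∈ P, (Bs.filter (s ⊆ ·)).card := fun P Bs => by
    rw [Finset.sum_congr rfl (fun b _ => Finset.card_filter _ _),
      Finset.sum_congr rfl (fun s (_ : s ∈ P) => Finset.card_filter _ _), Finset.sum_comm]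
  have hext : ∀ (S U : Finset α) (k : ℕ), S ⊆ U → S.card ≤ k →
      ((U.powersetCard k).filter (S ⊆ ·)).card = (U.card - S.card).choose (k - S.card) := by
    intro S U k hSU hk
    rw [← Finset.card_sdiff_of_subset hSU, ← Finset.card_powersetCard]
    refine Finset.card_bij' (fun t _ => t \ S) (fun t _ => t ∪ S) ?_ ?_ ?_ ?_
    · intro t ht
      simp only [Finset.mem_filter, Finset.mem_powersetCard] at ht ⊢
      exact ⟨Finset.sdiff_subset_sdiff ht.1.1 subset_rfl, by rw [Finset.card_sdiff_of_subset ht.2, ht.1.2]⟩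
    · intro t ht
      simp only [Finset.mem_filter, Finset.mem_powersetCard, Finset.subset_sdiff] at ht ⊢
      refine ⟨⟨Finset.union_subset ht.1.1 hSU, ?_⟩, Finset.subset_union_right⟩
      rw [Finset.card_union_of_disjoint ht.1.2, ht.2]; omega
    · intro t ht
      simp only [Finset.mem_filter] at ht
      exact Finset.sdiff_union_of_subset ht.2
    · intro t ht
      simp only [Finset.mem_powersetCard, Finset.subset_sdiff] at ht
      exact Finset.union_sdiff_cancel_right ht.1.2
  have hN : ∀ S : Finset α, S.card ≤ 5 →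
      (Bf.filter (S ⊆ ·)).card * (8 - S.card).choose (5 - S.card) =
        (24 - S.card).choose (5 - S.card) := by
    intro S hS
    have h1 := hdc ((Finset.univ.powersetCard 5).filter (S ⊆ ·)) (Bf.filter (S ⊆ ·))
    have h2 : ∀ b ∈ Bf.filter (S ⊆ ·),
        (((Finset.univ.powersetCard 5).filter (S ⊆ ·)).filter (· ⊆ b)).card =
          (8 - S.card).choose (5 - S.card) := by
      intro b hb
      rw [Finset.mem_filter] at hb
      rw [← hb8 b hb.1, ← hext S b 5 hb.2 hS]
      congr 1; ext t; simp [Finset.mem_powersetCard]; tauto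
    have h3 : ∀ t ∈ (Finset.univ.powersetCard 5).filter (S ⊆ ·),
        ((Bf.filter (S ⊆ ·)).filter (t ⊆ ·)).card = 1 := by
      intro t ht
      simp only [Finset.mem_filter, Finset.mem_powersetCard] at ht
      obtain ⟨b, hb, huniq⟩ := hB.2 t ht.1.2
      refine Finset.card_eq_one.mpr ⟨b, ?_⟩
      ext c
      simp only [Finset.mem_filter, hBf, Finset.mem_singleton]
      exact ⟨fun hc => huniq c ⟨hc.1.1, hc.2⟩,
        fun hc => hc ▸ ⟨⟨hb.1, ht.2.trans hb.2⟩, hb.2⟩⟩
    rw [Finset.sum_congr rfl h2, Finset.sum_congr rfl h3, Finset.sum_const, Finset.sum_const,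
      hext S Finset.univ 5 (Finset.subset_univ _) hS, Finset.card_univ, hα, smul_eq_mul,
      smul_eq_mul, mul_one] at h1
    exact h1
  let n : ℕ → ℕ := fun j => (Bf.filter fun b => (b ∩ Y).card = j).card
  have hk : ∀ k, k ≤ 3 → ∀ N, (∀ S : Finset α, S.card = k → (Bf.filter (S ⊆ ·)).card = N) →
      ∑ j ∈ Finset.range 4, n j * j.choose k = (3 : ℕ).choose k * N := by
    intro k _ N hN'
    have h1 := hdc (Y.powersetCard k) Bf
    have h2 : ∀ b ∈ Bf, ((Y.powersetCard k).filter (· ⊆ b)).card = (b ∩ Y).card.choose k := by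
      intro b _
      rw [← Finset.card_powersetCard]
      congr 1; ext t; simp [Finset.mem_powersetCard, Finset.subset_inter_iff]; tauto
    have h3 : ∀ s ∈ Y.powersetCard k, (Bf.filter (s ⊆ ·)).card = N :=
      fun s hs => hN' s (Finset.mem_powersetCard.mp hs).2
    rw [Finset.sum_congr rfl h2, Finset.sum_congr rfl h3, Finset.sum_const,
      Finset.card_powersetCard, hY, smul_eq_mul] at h1
    rw [← h1, ← Finset.sum_fiberwise_of_maps_to (g := fun b => (b ∩ Y).card) (t := Finset.range 4)
      (fun b _ => Finset.mem_range.mpr (by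
        have := Finset.card_le_card (Finset.inter_subset_right : b ∩ Y ⊆ Y); omega))]
    refine Finset.sum_congr rfl fun j _ => ?_
    rw [Finset.sum_congr rfl (fun b hb => by rw [(Finset.mem_filter.mp hb).2]), Finset.sum_const,
      smul_eq_mul]
  have c0 : ∀ S : Finset α, S.card = 0 → (Bf.filter (S ⊆ ·)).card = 759 := fun S hS => by
    have := hN S (by omega); simp [hS, Nat.choose] at this; omega
  have c1 : ∀ S : Finset α, S.card = 1 → (Bf.filter (S ⊆ ·)).card = 253 := fun S hS => by
    have := hN S (by omega); simp [hS, Nat.choose] at this; omega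
  have c2 : ∀ S : Finset α, S.card = 2 → (Bf.filter (S ⊆ ·)).card = 77 := fun S hS => by
    have := hN S (by omega); simp [hS, Nat.choose] at this; omega
  have c3 : ∀ S : Finset α, S.card = 3 → (Bf.filter (S ⊆ ·)).card = 21 := fun S hS => by
    have := hN S (by omega); simp [hS, Nat.choose] at this; omega
  have e0 := hk 0 (by omega) _ c0
  have e1 := hk 1 (by omega) _ c1
  have e2 := hk 2 (by omega) _ c2
  have e3 := hk 3 (by omega) _ c3
  simp [Finset.sum_range_succ, Nat.choose] at e0 e1 e2 e3
  have hn : ∀ j, {b : Finset α | b ∈ B ∧ (b ∩ Y).card = j}.ncard = n j := fun j => by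
    rw [show {b : Finset α | b ∈ B ∧ (b ∩ Y).card = j} = ↑(Bf.filter fun b => (b ∩ Y).card = j) by
      ext b; simp [Bf], Set.ncard_coe_finset]
  rw [hn, hn, hn, hn]
  omega

end Cfsg.Agent.S5625
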