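import Cfsg.Statements.S5632
import Cfsg.Agent.Lib.Geometric.LinearStab
-- import your own Cfsg.Agent.* helpers here

set_option autoImplicit false
open Cfsg

namespace Cfsg.Agent.S5632

/-- For a finite field F and subspaces 0 < W < U of F^n with dim W + dim U = n, the elements of SL_n(F) stabilising both W and U form a subgroup that is not maximal in SL_n(F): some subgroup lies strictly between it and SL_n(F). -/
theorem result {F : Type*} [Field F] [Fintype F] (n : ℕ) (W U : Submodule F (Fin n → F)) (hW0 : W ≠ ⊥) (hWU : W < U) (hdim : Module.finrank F W + Module.finrank F U = n) : ∃ K : Subgroup (Matrix.GeneralLinearGroup (Fin n) F), Cfsg.Geo.subspaceStabilizer W ⊓ Cfsg.Geo.subspaceStabilizer U ⊓ Cfsg.Geo.specialLinear (Fin n) F < K ∧ K < Cfsg.Geo.specialLinear (Fin n) F := by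
  have hU : U ≠ ⊤ := by
    intro h
    apply hW0
    rw [h, finrank_top, Module.finrank_fin_fun] at hdim
    exact Submodule.finrank_eq_zero.mp (by omega)
  obtain ⟨x, -, hx⟩ := SetLike.exists_of_lt hU.lt_top
  obtain ⟨u, hu, huW⟩ := SetLike.exists_of_lt hWU
  have hn : u ∉ W ⊔ Submodule.span F {x} := by
    intro h
    obtain ⟨w, hw, t, ht, he⟩ := Submodule.mem_sup.mp h
    obtain ⟨c, rfl⟩ := Submodule.mem_span_singleton.mp ht
    by_cases hc : c = 0
    · rw [hc, zero_smul, add_zero] at he
      exact huW (he ▸ hw)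
    · apply hx
      have h2 : c • x ∈ U := by
        rw [show c • x = u - w by rw [← he]; abel]
        exact U.sub_mem hu (hWU.le hw)
      simpa [smul_smul, inv_mul_cancel₀ hc] using U.smul_mem c⁻¹ h2
  obtain ⟨φ, hφ, hφu⟩ := CfsgLib.Geometric.exists_functional_eq_one hn
  exact ⟨_, CfsgLib.Geometric.stab_inf_stab_lt x φ
      (hφ _ (Submodule.mem_sup_right (Submodule.mem_span_singleton_self x)))
      (fun y hy => Or.inl (hφ y (Submodule.mem_sup_left hy))) hu hφu hx,
    CfsgLib.Geometric.stab_lt_specialLinear hW0 (fun h => hU (top_unique (h ▸ hWU.le)))⟩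

end Cfsg.Agent.S5632
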