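import Cfsg.Statements.S5633
import Cfsg.Agent.Lib.Geometric.LinearStab
-- import your own Cfsg.Agent.* helpers here

set_option autoImplicit false
open Cfsg

namespace Cfsg.Agent.S5633

/-- For a finite field F and complementary non-zero subspaces W ⊕ U = F^n with dim W < dim U, the elements of SL_n(F) stabilising both W and U form a subgroup that is not maximal in SL_n(F): some subgroup lies strictly between it and SL_n(F). -/
theorem result {F : Type*} [Field F] [Fintype F] (n : ℕ) (W U : Submodule F (Fin n → F)) (hW0 : W ≠ ⊥) (hWU : W ⊓ U = ⊥) (hWU' : W ⊔ U = ⊤) (hdim : Module.finrank F W < Module.finrank F U) : ∃ K : Subgroup (Matrix.GeneralLinearGroup (Fin n) F), Cfsg.Geo.subspaceStabilizer W ⊓ Cfsg.Geo.subspaceStabilizer U ⊓ Cfsg.Geo.specialLinear (Fin n) F < K ∧ K < Cfsg.Geo.specialLinear (Fin n) F := by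
  have hU : U ≠ ⊥ := by
    intro h
    rw [h, finrank_bot] at hdim
    omega
  obtain ⟨u, hu, hu0⟩ := Submodule.exists_mem_ne_zero_of_ne_bot hU
  obtain ⟨w, hw, hw0⟩ := Submodule.exists_mem_ne_zero_of_ne_bot hW0
  have hdis : ∀ z, z ∈ W → z ∈ U → z = 0 := fun z h1 h2 => by
    have : z ∈ W ⊓ U := ⟨h1, h2⟩
    rwa [hWU, Submodule.mem_bot] at this
  have hn : u ∉ Submodule.span F {w} := by
    intro h
    obtain ⟨c, rfl⟩ := Submodule.mem_span_singleton.mp h
    exact hu0 (hdis _ (W.smul_mem c hw) hu)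
  obtain ⟨φ, hφ, hφu⟩ := CfsgLib.Geometric.exists_functional_eq_one hn
  exact ⟨_, CfsgLib.Geometric.stab_inf_stab_lt w φ (hφ w (Submodule.mem_span_singleton_self w))
      (fun y _ => Or.inr hw) hu hφu (fun h => hw0 (hdis w hw h)),
    CfsgLib.Geometric.stab_lt_specialLinear hW0 (fun h => hU (by simpa [h] using hWU))⟩

end Cfsg.Agent.S5633
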