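import Cfsg.Statements.S5651
import Cfsg.Agent.Lib.Geometric.SympType.Induction
import Cfsg.Agent.Lib.Geometric.SympType.Local
import Cfsg.Agent.Lib.Geometric.SympType.Transitive
import Cfsg.Agent.Lib.Geometric.SympType.Big
import Cfsg.Agent.Lib.Geometric.SympType.OfData
import Cfsg.Agent.Lib.Geometric.SympType.Base
import Cfsg.Agent.Lib.Geometric.PauliMinus.Dichotomy

set_option autoImplicit false
set_option linter.style.haveILetI false
open Cfsg CfsgLib.Geometric CfsgLib.Geometric.SympType

namespace Cfsg.Agent.S5651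

/-- Let p be an odd prime, F the field with p elements, and m ≥ 7. Let R be a 2-subgroup of GL_2m(F) of exponent 4 in which every characteristic abelian subgroup is cyclic, of order 2^(1+2k) with centre of order 2 and with no elementary abelian subgroup of order 2^(k+1) (minus type), acting absolutely irreducibly on F^(2m) and consisting of isometries of the standard alternating form. Then the elements of Sp_2m(F) normalising R form a maximal subgroup of Sp_2m(F). -/
theorem result {F : Type*} [Field F] [Fintype F] (m : ℕ) (hm : 7 ≤ m) (p k : ℕ) (hp : p.Prime) (hpo : Odd p) (hF : Fintype.card F = p) (R : Subgroup (Matrix.GeneralLinearGroup (Fin m ⊕ Fin m) F)) (hR : Cfsg.Geo.IsSymplecticTypeGroup 2 R) (hirr : Cfsg.Geo.ActsAbsolutelyIrreducibly (Cfsg.Geo.matrixSet R)) (hRD : R ≤ Cfsg.spGL m F) (hcard : Nat.card R = 2 ^ (1 + 2 * k)) (hZ : Nat.card (Subgroup.center R) = 2) (hminus : Cfsg.Geo.IsOfMinusType k R) : Cfsg.Geo.IsMaximalIn (Cfsg.spGL m F) (Cfsg.Geo.subgroupNormalizer R ⊓ Cfsg.spGL m F) :=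 by
  haveI : Fact p.Prime := ⟨hp⟩
  haveI : CharP F p := charP_of_card_eq_prime hF
  have h2 : (2 : F) ≠ 0 := by
    intro h
    have h' : ((2 : ℕ) : F) = 0 := by exact_mod_cast h
    have hd2 := Nat.le_of_dvd two_pos ((CharP.cast_eq_zero_iff F p 2).1 h')
    obtain ⟨r, rfl⟩ := hpo
    have := hp.two_le
    omega
  have hm1 : 1 < Fintype.card (Fin m ⊕ Fin m) := by simp; omega
  haveI : Nonempty (Fin m ⊕ Fin m) := Fintype.card_pos_iff.1 (by omega)
  have hd := card_eq_two_pow hm1 hR hirr h2 hcard hZ
  have hk : 4 ≤ k := by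
    simp only [Fintype.card_sum, Fintype.card_fin] at hd
    by_contra hlt
    have := Nat.pow_le_pow_right (show 0 < 2 by norm_num) (show k ≤ 3 by omega)
    norm_num at this
    omega
  obtain ⟨S, hSf, hN⟩ := exists_sys hm1 h2 hR hirr hRD hcard hZ hminus
  have hK : Cfsg.spGL m F = isom S.f := by rw [hSf]; rfl
  have key : ∀ M : Subgroup (GL (Fin m ⊕ Fin m) F), S.N ≤ M → M ≤ isom S.f → M ≤ S.N ∨ M = isom S.f :=
    dichotomy_of_steps h2 (fun ι _ _ T => dichotomy_three_of_std
      (fun T' M hNM hM => T'.dichotomy h2 hp hF hNM hM) T)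
      (fun j hj ι _ _ T a b ha hb h => T.transitive hj h2 ha hb h)
      (fun j hj hT ι _ _ T M hNM hM hne a ha hq g hg c hc =>
        local_singular hj hp hF h2 T hT hNM hM hne ha hq hg hc)
      k (by omega) _ S
  rw [hN, hK]
  refine ⟨lt_of_le_of_ne S.N_le (S.N_ne_isom hp hF h2 (by omega)), fun M hNM hM => ?_⟩
  rcases key M hNM hM with h | h
  · exact Or.inl (le_antisymm h hNM)
  · exact Or.inr h

end Cfsg.Agent.S5651
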