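import Cfsg.Statements.S5655
import Cfsg.Agent.Lib.Geometric.UnitaryDecomp
import Cfsg.Agent.Lib.Geometric.UnitaryMonomial.Thm

set_option autoImplicit false
open Cfsg

namespace Cfsg.Agent.S5655

/-- Let F be the field with q² elements and n ≥ 13. Let D be a decomposition of F^n into t ≥ 2 pairwise orthogonal subspaces of equal dimension k, each non-degenerate for the standard unitary form, spanning F^n. Unless k = 2 and q = 2, the elements of SU_n(q) permuting the members of D form a maximal subgroup of SU_n(q). -/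
theorem result {F : Type*} [Field F] [Fintype F] (n q : ℕ) (hF : Fintype.card F = q ^ 2) (hn : 13 ≤ n) {t : ℕ} (k : ℕ) (D : Fin t → Submodule F (Fin n → F)) (hD : Cfsg.Geo.IsNondegenerateMDecomposition (Cfsg.hermForm n F q) k D) (hex : ¬ (k = 2 ∧ q = 2)) : Cfsg.Geo.IsMaximalIn (Cfsg.GU n F q ⊓ Cfsg.Geo.specialLinear (Fin n) F) (Cfsg.Geo.decompositionStabilizer D ⊓ (Cfsg.GU n F q ⊓ Cfsg.Geo.specialLinear (Fin n) F)) := by
  classical
  obtain ⟨σ, hσ, hh⟩ := CfsgLib.Geometric.isUnitaryForm_hermForm n q hF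
  have hconj : CfsgLib.UMon.IsConj σ q := ⟨hF, hσ⟩
  have hform : Cfsg.hermForm n F q = CfsgLib.UMon.hb σ := by
    funext u v
    simp [Cfsg.hermForm, CfsgLib.UMon.hb, hσ]
  have hI : CfsgLib.Geometric.isom (Cfsg.hermForm n F q) = Cfsg.GU n F q := rfl
  by_cases hk : k = 1
  · subst hk
    rw [← hI, hform]
    exact CfsgLib.UMon.frame_isMaximalIn hconj (by rw [Fintype.card_fin]; omega) (hform ▸ hD)
  obtain ⟨ζ, hζ, hf⟩ := CfsgLib.Geometric.exists_skewForm_of_unitary hh
  have hk1 : 1 ≤ k := hD.decomp.pos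
  have hk2 : 2 ≤ k := by omega
  have hD' : Cfsg.Geo.IsNondegenerateMDecomposition
      (fun u v => ζ * Cfsg.hermForm n F q u v) k D := by
    refine ⟨hD.decomp, fun i v hv hv0 => ?_, fun i j hij u hu v hv => ?_⟩
    · obtain ⟨⟨x, hx, hxv⟩, ⟨y, hy, hvy⟩⟩ := hD.nondegenerate i v hv hv0
      exact ⟨⟨x, hx, mul_ne_zero hζ hxv⟩, ⟨y, hy, mul_ne_zero hζ hvy⟩⟩
    · show ζ * _ = 0
      rw [hD.orthogonal i j hij u hu v hv, mul_zero]
  have hbig : 3 ≤ k ∨ 3 ≤ t := by
    have := CfsgLib.Geometric.Decomp.card_le hD.decomp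
    rw [Fintype.card_fin] at this
    by_contra h
    push Not at h
    nlinarith
  have hcard : k = 2 → 4 < Nat.card F := by
    intro h
    rw [Nat.card_eq_fintype_card, hF]
    have := hconj.two_le
    have : q ≠ 2 := fun e => hex ⟨h, e⟩
    nlinarith [show 3 ≤ q by omega]
  have := CfsgLib.Geometric.Unitary.decomp_isMaximalIn hf hD' (by rw [Fintype.card_fin]; omega)
    hk2 hbig hcard
  unfold CfsgLib.Geometric.Unitary.sisom at this
  rwa [CfsgLib.Geometric.isom_mul_const hζ, hI] at this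

end Cfsg.Agent.S5655
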