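import Cfsg.Statements.S5658
import Cfsg.Agent.Lib.Geometric.UnitarySubfieldOdd
-- import your own Cfsg.Agent.* helpers here

set_option autoImplicit false
open Cfsg

namespace Cfsg.Agent.S5658

/-- Let F be the field with q² elements, n ≥ 13, and F₀ a subfield with |F| = |F₀| ^ r for an odd prime r. Let P be an invertible matrix such that the standard unitary form takes values in F₀ on the F₀-span of the columns of P. Then the elements of SU_n(q) lying in the subfield group of P (the conjugate by P of the product of GL_n(F₀) with the scalars) form a maximal subgroup of SU_n(q). -/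
theorem result {F : Type*} [Field F] [Fintype F] (n q : ℕ) (hF : Fintype.card F = q ^ 2) (hn : 13 ≤ n) (F₀ : Subfield F) (r : ℕ) (hr : r.Prime) (hro : Odd r) (hcard : Fintype.card F = Nat.card F₀ ^ r) (P : Matrix.GeneralLinearGroup (Fin n) F) (hP : Cfsg.Geo.IsFormRationalStructure (Cfsg.hermForm n F q) F₀ 1 P) : Cfsg.Geo.IsMaximalIn (Cfsg.GU n F q ⊓ Cfsg.Geo.specialLinear (Fin n) F) (Cfsg.Geo.subfieldSubgroup F₀ P ⊓ (Cfsg.GU n F q ⊓ Cfsg.Geo.specialLinear (Fin n) F)) := by
  classical
  obtain ⟨σ, -, hh⟩ := CfsgLib.Geometric.isUnitaryForm_hermForm (F := F) n q hF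
  rw [← Nat.card_eq_fintype_card] at hcard
  obtain ⟨hσ, ω, hω, hω'⟩ :=
    CfsgLib.Geometric.exists_moved_of_odd_degree hh.ne_refl hh.involutive hro hcard
  have h1 := CfsgLib.Geometric.card_eq_sq_comap hh.involutive hσ hω hω'
  have h2 := CfsgLib.Geometric.card_eq_sq_comap hh.involutive (L := ⊤)
    (fun _ _ => Subfield.mem_top _) (Subfield.mem_top ω) hω'
  have hT : Nat.card (⊤ : Subfield F) = Nat.card F :=
    Nat.card_congr (Equiv.subtypeUnivEquiv fun x => Subfield.mem_top x)
  have hK : Nat.card ((⊤ : Subfield F).comap (CfsgLib.Geometric.USubfld.fixed σ).subtype) =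
      Nat.card (CfsgLib.Geometric.USubfld.fixed σ) :=
    Nat.card_congr (Equiv.subtypeUnivEquiv fun x => Subfield.mem_top (x : F))
  rw [hT, hK, hcard, h1, ← pow_mul, mul_comm, pow_mul] at h2
  have h3 := Nat.pow_left_injective (n := 2) (by norm_num) h2
  exact CfsgLib.Geometric.unitarySubfieldOdd_isMaximalIn' (by simp; omega) hh hP hσ hω hω' hr
    (fun h => by rw [h] at hro; exact absurd hro (by decide)) h3.symm

end Cfsg.Agent.S5658
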