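import Cfsg.Statements.S5660
import Cfsg.Agent.Lib.Geometric.UnitarySubfield
-- import your own Cfsg.Agent.* helpers here

set_option autoImplicit false
open Cfsg

namespace Cfsg.Agent.S5660

/-- Let F be the field with q² elements, n ≥ 13 even, and F₀ the subfield with q elements. Let ζ be a non-zero element with ζ + ζ^q = 0 and P an invertible matrix such that ζ times the standard unitary form takes values in F₀ on the F₀-span of the columns of P and the form vanishes on every pair (u, u) of that span (so ζ times the form restricts to a non-degenerate alternating form there). Then the elements of SU_n(q) lying in the subfield group of P form a maximal subgroup of SU_n(q). -/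
theorem result {F : Type*} [Field F] [Fintype F] (n q : ℕ) (hF : Fintype.card F = q ^ 2) (hn : 13 ≤ n) (heven : Even n) (F₀ : Subfield F) (hcard : Fintype.card F = Nat.card F₀ ^ 2) (ζ : F) (hζ0 : ζ ≠ 0) (hζ : ζ + ζ ^ q = 0) (P : Matrix.GeneralLinearGroup (Fin n) F) (hP : Cfsg.Geo.IsFormRationalStructure (Cfsg.hermForm n F q) F₀ ζ P) (halt : ∀ u : Fin n → F, (∀ i, u i ∈ F₀) → Cfsg.hermForm n F q (Matrix.mulVec (P : Matrix (Fin n) (Fin n) F) u) (Matrix.mulVec (P : Matrix (Fin n) (Fin n) F) u) = 0) : Cfsg.Geo.IsMaximalIn (Cfsg.GU n F q ⊓ Cfsg.Geo.specialLinear (Fin n) F) (Cfsg.Geo.subfieldSubgroup F₀ P ⊓ (Cfsg.GU n F q ⊓ Cfsg.Geo.specialLinear (Fin n) F)) := by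
  classical
  obtain ⟨σ, hσ, hh⟩ := CfsgLib.Geometric.isUnitaryForm_hermForm (F := F) n q hF
  have hζσ : σ ζ = -ζ := by rw [hσ]; linear_combination hζ
  have hf : CfsgLib.Geometric.IsSkewForm σ (fun u v => ζ * Cfsg.hermForm n F q u v) := by
    refine ⟨hh.ne_refl, hh.involutive, fun x y v => ?_, fun c x v => ?_, fun v w => ?_,
      fun v hv => ?_⟩
    · rw [hh.add_left]; ring
    · rw [hh.smul_left]; ring
    · rw [map_mul, hζσ, hh.herm v w]; ring
    · obtain ⟨⟨x, hx⟩, ⟨y, hy⟩⟩ := hh.nondegenerate v hv
      exact ⟨⟨x, mul_ne_zero hζ0 hx⟩, ⟨y, mul_ne_zero hζ0 hy⟩⟩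
  have hq : Nat.card F₀ = q := by
    rw [hF] at hcard
    exact (Nat.pow_left_injective (n := 2) (by norm_num) hcard).symm
  have hfix : ∀ x, σ x = x ↔ x ∈ F₀ := by
    have hq1 : 1 < q := by
      have := Fintype.one_lt_card (α := F)
      rw [hF] at this
      by_contra h
      interval_cases q <;> simp at this
    have hsub : (Finset.univ.filter fun x => x ∈ F₀) ⊆
        (Finset.univ.filter fun x : F => x ^ q = x) := by
      intro x hx
      simp only [Finset.mem_filter, Finset.mem_univ, true_and] at hx ⊢
      have hp := congrArg Subtype.val (FiniteField.pow_card (⟨x, hx⟩ : F₀))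
      rw [← Nat.card_eq_fintype_card, hq] at hp
      simpa using hp
    have hcardF₀ : (Finset.univ.filter fun x => x ∈ F₀).card = q := by
      rw [← Fintype.card_subtype, ← Nat.card_eq_fintype_card]; exact hq
    have hle : (Finset.univ.filter fun x : F => x ^ q = x).card ≤ q := by
      have h0 : (Polynomial.X ^ q - Polynomial.X : Polynomial F) ≠ 0 :=
        FiniteField.X_pow_card_sub_X_ne_zero F hq1
      have hs : (Finset.univ.filter fun x : F => x ^ q = x) ⊆
          (Polynomial.X ^ q - Polynomial.X : Polynomial F).roots.toFinset := by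
        intro x hx
        simp only [Finset.mem_filter, Finset.mem_univ, true_and] at hx
        simp [Polynomial.mem_roots h0, hx]
      refine (Finset.card_le_card hs).trans ((Multiset.toFinset_card_le _).trans ?_)
      exact (Polynomial.card_roots' _).trans_eq (FiniteField.X_pow_card_sub_X_natDegree_eq F hq1)
    have heq := Finset.eq_of_subset_of_card_le hsub (hle.trans hcardF₀.ge)
    intro x
    rw [hσ]
    have := Finset.ext_iff.mp heq x
    simpa using this.symm
  have hmax := CfsgLib.Geometric.Unitary.subfield_isMaximalIn hf (P := P)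
    (by rw [Fintype.card_fin]; omega) hfix ?_ ?_
  · rwa [CfsgLib.Geometric.Unitary.sisom, CfsgLib.Geometric.isom_mul_const hζ0] at hmax
  · intro u v hu hv
    obtain ⟨u, hu', rfl⟩ := CfsgLib.Geometric.Subfld.rat_iff_exists.mp hu
    obtain ⟨v, hv', rfl⟩ := CfsgLib.Geometric.Subfld.rat_iff_exists.mp hv
    exact hP u v hu' hv'
  · intro u hu
    obtain ⟨u, hu', rfl⟩ := CfsgLib.Geometric.Subfld.rat_iff_exists.mp hu
    simp [CfsgLib.Geometric.ap_def, halt u hu']

end Cfsg.Agent.S5660
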