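import Cfsg.Statements.S5664
import Cfsg.Agent.Lib.Geometric.ExtField.SympMax

set_option autoImplicit false
open Cfsg

namespace Cfsg.Agent.S5664

/-- For a finite field F and m ≥ 7, let K be a subfield of the algebra of 2m × 2m matrices over F containing the scalars, of prime degree r over F, whose elements k are self-adjoint for the standard alternating form f on F^(2m) (f(k u, v) = f(u, k v)) and satisfy f(k v, v) = 0 for all v. Then the elements of Sp_2m(F) normalising K form a maximal subgroup of Sp_2m(F). -/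
theorem result {F : Type*} [Field F] [Fintype F] (m : ℕ) (hm : 7 ≤ m) (r : ℕ) (hr : r.Prime) (K : Subalgebra F (Matrix (Fin m ⊕ Fin m) (Fin m ⊕ Fin m) F)) (hK : Cfsg.Geo.IsFieldSubalgebra r K) (hsa : Cfsg.Geo.IsSelfAdjointFor (Cfsg.sympForm m F) K) (halt : ∀ k ∈ K, ∀ v : (Fin m ⊕ Fin m → F), Cfsg.sympForm m F (Matrix.mulVec k v) v = 0) : Cfsg.Geo.IsMaximalIn (Cfsg.spGL m F) (Cfsg.Geo.subalgebraNormalizer K ⊓ Cfsg.spGL m F) := by
  letI := CfsgLib.Geometric.ExtF.fieldOfSubalg hK hr.ne_zero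
  have : Finite K :=
    Finite.of_injective (fun x : K => (x : Matrix (Fin m ⊕ Fin m) (Fin m ⊕ Fin m) F)) Subtype.val_injective
  exact CfsgLib.Geometric.ExtF.symp_maximal (CfsgLib.Geometric.isSymplecticForm_sympForm m F)
    (show (Module.finrank F K).Prime by rw [hK.finrank_eq]; exact hr)
    (by rw [Fintype.card_sum, Fintype.card_fin]; omega) K.val K
    (fun k => ⟨fun hk => ⟨⟨k, hk⟩, rfl⟩, fun ⟨a, ha⟩ => ha ▸ a.2⟩) hsa halt

end Cfsg.Agent.S5664
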