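import Cfsg.Statements.S5666
import Cfsg.Agent.Lib.Geometric.SOTensor.Max
import Cfsg.Agent.Lib.Geometric.SympThree.Max
import Cfsg.Agent.Lib.Geometric.SympOrth.Max

set_option autoImplicit false
open Cfsg

namespace Cfsg.Agent.S5666

/-- For a finite field F of odd order q and m ≥ 7, suppose the standard alternating form on F^(2m) is similar, through a change of basis P and a bijection of index sets e, to the tensor product of a non-degenerate symplectic form f₁ on F^(n₁) and a non-degenerate symmetric bilinear form f₂ on F^(n₂) with n₂ ≥ 3. Unless q = 3 and n₂ = 3, the elements of Sp_2m(F) in the stabiliser of this tensor decomposition (the conjugate by P of the Kronecker-product subgroup transported along e) form a maximal subgroup of Sp_2m(F). -/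
theorem result {F : Type*} [Field F] [Fintype F] (m : ℕ) (hm : 7 ≤ m) (hodd : Odd (Fintype.card F)) (n₁ n₂ : ℕ) (hn₂ : 3 ≤ n₂) (hex : ¬ (Fintype.card F = 3 ∧ n₂ = 3)) (e : (Fin m ⊕ Fin m) ≃ Fin n₁ × Fin n₂) (P : Matrix.GeneralLinearGroup (Fin m ⊕ Fin m) F) (f₁ : (Fin n₁ → F) → (Fin n₁ → F) → F) (f₂ : (Fin n₂ → F) → (Fin n₂ → F) → F) (hf₁ : Cfsg.Geo.IsSymplecticForm f₁) (hf₂ : Cfsg.Geo.IsSymmetricForm f₂) (hT : Cfsg.Geo.IsTensorFormStructure id (Cfsg.sympForm m F) f₁ f₂ e P) : Cfsg.Geo.IsMaximalIn (Cfsg.spGL m F) (Cfsg.Geo.tensorProductSubgroup n₁ n₂ e P ⊓ Cfsg.spGL m F) := by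
  have hf := CfsgLib.Geometric.isSymplecticForm_sympForm m F
  have hcard : m + m = n₁ * n₂ := by simpa using Fintype.card_congr e
  have hq : 5 ≤ Fintype.card F ∨ 4 ≤ n₂ := by
    by_cases h : n₂ = 3
    · refine Or.inl ?_
      have h1 := Fintype.one_lt_card (α := F)
      obtain ⟨k, hk⟩ := hodd
      by_contra h5
      exact hex ⟨by omega, h⟩
    · exact Or.inr (by omega)
  obtain ⟨r, hr⟩ : Even n₁ := by
    let B : LinearMap.BilinForm F (Fin n₁ → F) := LinearMap.mk₂ F f₁ hf₁.bilinear.add_left
      hf₁.bilinear.smul_left (fun v x y => hf₁.bilinear.add_right v x y)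
      fun t v x => hf₁.bilinear.smul_right t v x
    have hB : B.Nondegenerate :=
      ⟨fun u hu => by_contra fun h => by
          obtain ⟨v, hv⟩ := (hf₁.nondegenerate u h).2
          exact hv (hu v),
        fun v hv => by_contra fun h => by
          obtain ⟨u, hu⟩ := (hf₁.nondegenerate v h).1
          exact hu (hv u)⟩
    obtain ⟨r, b, -⟩ := CfsgLib.Forms.exists_symplectic_basis B hB fun u => hf₁.alternating u
    exact ⟨r, by simpa [Module.finrank_fin_fun] using Module.finrank_eq_card_basis b⟩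
  rcases lt_or_ge n₁ 4 with h1 | h1
  · obtain rfl : n₁ = 2 := by
      rcases Nat.eq_zero_or_pos n₁ with h0 | h0
      · rw [h0, zero_mul] at hcard
        omega
      · omega
    exact CfsgLib.Geometric.symp_two_tensor_isMaximalIn hf hodd (by omega) hf₁ hf₂ hT
  · rcases lt_or_ge n₂ 4 with h2 | h2
    · obtain rfl : n₂ = 3 := by omega
      exact CfsgLib.Geometric.symp_three_tensor_isMaximalIn hf hodd (hq.resolve_right (by omega)) h1
        hf₁ hf₂ hT
    · exact CfsgLib.Geometric.symp_orth_tensor_isMaximalIn hf hodd h1 h2 hf₁ hf₂ hT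

end Cfsg.Agent.S5666
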