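import Cfsg.Statements.S5667
import Cfsg.Agent.Lib.Geometric.Orth.TensorThree
-- import your own Cfsg.Agent.* helpers here

set_option autoImplicit false
open Cfsg

namespace Cfsg.Agent.S5667

/-- Over the field with 3 elements and for m ≥ 7, suppose the standard alternating form on F^(2m) is similar, through P and e, to the tensor product of a non-degenerate symplectic form f₁ on F^(n₁) and a non-degenerate symmetric bilinear form f₂ on F^3. Then the elements of Sp_2m(3) in the stabiliser of this tensor decomposition form a subgroup that is not maximal: some subgroup lies strictly between it and Sp_2m(3). -/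
theorem result {F : Type*} [Field F] [Fintype F] (m : ℕ) (hm : 7 ≤ m) (hq : Fintype.card F = 3) (n₁ : ℕ) (e : (Fin m ⊕ Fin m) ≃ Fin n₁ × Fin 3) (P : Matrix.GeneralLinearGroup (Fin m ⊕ Fin m) F) (f₁ : (Fin n₁ → F) → (Fin n₁ → F) → F) (f₂ : (Fin 3 → F) → (Fin 3 → F) → F) (hf₁ : Cfsg.Geo.IsSymplecticForm f₁) (hf₂ : Cfsg.Geo.IsSymmetricForm f₂) (hT : Cfsg.Geo.IsTensorFormStructure id (Cfsg.sympForm m F) f₁ f₂ e P) : ∃ K : Subgroup (Matrix.GeneralLinearGroup (Fin m ⊕ Fin m) F), Cfsg.Geo.tensorProductSubgroup n₁ 3 e P ⊓ Cfsg.spGL m F < K ∧ K < Cfsg.spGL m F := by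
  obtain ⟨c, hc, hform⟩ := CfsgLib.Geometric.Tensor.form_pt e P (σ := RingHom.id F)
    (CfsgLib.Geometric.Orth.bilinear_eq_formOfGram hf₁.bilinear)
    (CfsgLib.Geometric.Orth.bilinear_eq_formOfGram hf₂.bilinear) hT
  have hn : Fintype.card (Fin m ⊕ Fin m) = Fintype.card (Fin n₁ × Fin 3) := Fintype.card_congr e
  simp only [Fintype.card_sum, Fintype.card_prod, Fintype.card_fin] at hn
  have h := CfsgLib.Geometric.Orth.exists_between_tensor_symp hq
    (e.trans (Equiv.prodComm _ _)) P (CfsgLib.Geometric.isSymplecticForm_sympForm m F) hf₂ hf₁ hc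
    (fun x x' y y' => by
      rw [CfsgLib.Geometric.Tensor.pt_swap, CfsgLib.Geometric.Tensor.pt_swap, hform,
        mul_comm (f₁ _ _)])
    (by omega)
  rw [CfsgLib.Geometric.Tensor.tensorProductSubgroup_swap] at h
  exact h

end Cfsg.Agent.S5667
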