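import Cfsg.Statements.S5668
import Cfsg.Agent.Lib.Geometric.TensorForm.NonScalar
import Cfsg.Agent.Lib.Geometric.TensorForm.Grow

set_option autoImplicit false
open Cfsg

namespace Cfsg.Agent.S5668

/-- For a finite field F of odd order q and m ≥ 7, suppose the standard alternating form on F^(2m) is similar, through a change of basis P and a bijection of index sets e, to the t-fold tensor power of a non-degenerate symplectic form f₁ on F^k, with t odd, t ≥ 3 and (q, k) ≠ (3, 2). Then the elements of Sp_2m(F) in the stabiliser of this decomposition (the conjugate by P of the standard tensor-wreath subgroup transported along e) form a maximal subgroup of Sp_2m(F). -/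
theorem result {F : Type*} [Field F] [Fintype F] (m : ℕ) (hm : 7 ≤ m) (hodd : Odd (Fintype.card F)) (k t : ℕ) (ht : Odd t) (ht3 : 3 ≤ t) (hex : ¬ (Fintype.card F = 3 ∧ k = 2)) (e : (Fin m ⊕ Fin m) ≃ (Fin t → Fin k)) (P : Matrix.GeneralLinearGroup (Fin m ⊕ Fin m) F) (f₁ : (Fin k → F) → (Fin k → F) → F) (hf₁ : Cfsg.Geo.IsSymplecticForm f₁) (hT : Cfsg.Geo.IsTensorPowerFormStructure id (Cfsg.sympForm m F) f₁ e P) : Cfsg.Geo.IsMaximalIn (Cfsg.spGL m F) (Cfsg.Geo.tensorWreathSubgroup k t e P ⊓ Cfsg.spGL m F) := by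
  classical
  have h2 : (2 : F) ≠ 0 := CfsgLib.Geometric.Orth.two_ne_zero_of_odd hodd
  have hcard : m + m = k ^ t := by
    have h := Fintype.card_congr e
    simpa [Fintype.card_fun] using h
  have hk : 2 ≤ k := by
    by_contra hlt
    have h1 : k ^ t ≤ 1 := pow_le_one₀ (Nat.zero_le k) (by omega)
    omega
  have : NeZero k := ⟨by omega⟩
  refine CfsgLib.Geometric.TensorForm.isMaximalIn_isom_of_standard
    (f := Cfsg.sympForm m F) h2 hf₁ hT fun D hD => ?_
  refine hD.isMaximalIn_of_key (by omega) ht (by omega) fun M hHM hMS hnot => ?_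
  have hM : CfsgLib.Geometric.TensorForm.Over D M := ⟨hHM, hMS⟩
  have hev : Even k := by
    by_contra ho
    rw [Nat.not_even_iff_odd] at ho
    have h := congrArg Matrix.det D.skew
    rw [Matrix.det_transpose, hD.id, Matrix.det_neg, Fintype.card_fin, ho.neg_one_pow,
      show D.J.map (RingHom.id F) = D.J from Matrix.ext fun _ _ => rfl] at h
    exact D.det ((mul_eq_zero.mp
      (show (2 : F) * D.J.det = 0 by linear_combination h)).resolve_left h2)
  have h4 : Nat.card F = 3 → 4 ≤ k := by
    intro h3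
    rw [Nat.card_eq_fintype_card] at h3
    have hk2 : k ≠ 2 := fun h => hex ⟨h3, h⟩
    obtain ⟨c, hc⟩ := hev
    omega
  obtain ⟨i, u, A₀, hu, ⟨g, hg, hgX⟩, hne⟩ :=
    CfsgLib.Geometric.TensorForm.exists_corner hD hk (by omega) h4 hM hnot
  push Not at hne
  exact hM.exists_pure_root hD ht hu hg hgX hne

end Cfsg.Agent.S5668
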