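import Cfsg.Statements.S5670
import Cfsg.Agent.Lib.Geometric.UnitaryTensorMax
import Cfsg.Agent.Lib.Geometric.UnitaryTensor

set_option autoImplicit false
open Cfsg

namespace Cfsg.Agent.S5670

/-- Let F be the field with q² elements and n = n₁ n₂ ≥ 13 with 2 ≤ n₁ < n₂ and (n₁, q) ≠ (2, 2). Suppose the standard unitary form on F^n is similar, through a change of basis P and a bijection of index sets e, to the tensor product of non-degenerate unitary forms f₁ on F^(n₁) and f₂ on F^(n₂) (forms linear in the first argument with f_i(v, w) = f_i(w, v)^q). Then the elements of SU_n(q) in the stabiliser of this tensor decomposition form a maximal subgroup of SU_n(q). -/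
theorem result {F : Type*} [Field F] [Fintype F] (n q : ℕ) (hF : Fintype.card F = q ^ 2) (hn : 13 ≤ n) (n₁ n₂ : ℕ) (h1 : 2 ≤ n₁) (h12 : n₁ < n₂) (hex : ¬ (n₁ = 2 ∧ q = 2)) (e : Fin n ≃ Fin n₁ × Fin n₂) (P : Matrix.GeneralLinearGroup (Fin n) F) (f₁ : (Fin n₁ → F) → (Fin n₁ → F) → F) (f₂ : (Fin n₂ → F) → (Fin n₂ → F) → F) (hf₁ : Cfsg.Geo.IsUnitaryFormPow q f₁) (hf₂ : Cfsg.Geo.IsUnitaryFormPow q f₂) (hT : Cfsg.Geo.IsTensorFormStructure (fun x : F => x ^ q) (Cfsg.hermForm n F q) f₁ f₂ e P) : Cfsg.Geo.IsMaximalIn (Cfsg.GU n F q ⊓ Cfsg.Geo.specialLinear (Fin n) F) (Cfsg.Geo.tensorProductSubgroup n₁ n₂ e P ⊓ (Cfsg.GU n F q ⊓ Cfsg.Geo.specialLinear (Fin n) F)) := by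
  classical
  obtain ⟨σ, hσ, hh⟩ := CfsgLib.Geometric.isUnitaryForm_hermForm (F := F) n q hF
  obtain ⟨ζ, hζ, hf⟩ := CfsgLib.Geometric.exists_skewForm_of_unitary hh
  have hζσ : σ ζ = -ζ := by
    obtain ⟨⟨x, hx⟩, -⟩ := hh.nondegenerate (fun _ => 1) (fun h0 => by
      simpa using congrFun h0 ⟨0, by omega⟩)
    have h := hf.skew x (fun _ => 1)
    rw [map_mul, hh.herm x (fun _ => 1)] at h
    have hne : σ (Cfsg.hermForm n F q (fun _ => 1) x) ≠ 0 := by
      rw [← hh.herm]; exact hx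
    exact mul_right_cancel₀ hne (by linear_combination h)
  have conv : ∀ {k : ℕ} {h : (Fin k → F) → (Fin k → F) → F}, Cfsg.Geo.IsUnitaryFormPow q h →
      Cfsg.Geo.IsUnitaryForm σ h ∧ CfsgLib.Geometric.IsSkewForm σ (fun u v => ζ * h u v) := by
    intro k h hk
    refine ⟨⟨hh.ne_refl, hh.involutive, hk.add_left, hk.smul_left,
      fun v w => by rw [hσ]; exact hk.herm v w, hk.nondegenerate⟩, hh.ne_refl, hh.involutive,
      fun x y v => by rw [hk.add_left]; ring, fun c x v => by rw [hk.smul_left]; ring,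
      fun v w => ?_, fun v hv => ?_⟩
    · rw [map_mul, hζσ, hσ (h w v), ← hk.herm v w]; ring
    · obtain ⟨⟨x, hx⟩, ⟨y, hy⟩⟩ := hk.nondegenerate v hv
      exact ⟨⟨x, mul_ne_zero hζ hx⟩, ⟨y, mul_ne_zero hζ hy⟩⟩
  have gram : ∀ {k : ℕ} {h : (Fin k → F) → (Fin k → F) → F}, Cfsg.Geo.IsUnitaryForm σ h →
      ∀ x y, h x y = Cfsg.Geo.formOfGram (σ : F →+* F) (Cfsg.Geo.gramMatrix h) x y := fun hu =>
    CfsgLib.Geometric.eq_formOfGram hu.add_left hu.smul_left
      (fun x y v => by rw [hu.herm, hu.add_left, map_add, ← hu.herm, ← hu.herm])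
      (fun c v x => by rw [hu.herm, hu.smul_left, map_mul, ← hu.herm]; rfl)
  rw [show (fun x : F => x ^ q) = ⇑(σ : F →+* F) from funext fun x => (hσ x).symm] at hT
  obtain ⟨c, hc, hform⟩ := CfsgLib.Geometric.Tensor.form_pt e P (gram (conv hf₁).1)
    (gram (conv hf₂).1) hT
  have hU : CfsgLib.Geometric.UTensor σ (fun u v => ζ * Cfsg.hermForm n F q u v) e P
      (fun u v => ζ * f₁ u v) (fun u v => ζ * f₂ u v) (c / ζ) :=
    ⟨hf, (conv hf₁).2, (conv hf₂).2, div_ne_zero hc hζ, fun x x' y y' => by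
      rw [hform]; field_simp⟩
  have hcard : n = n₁ * n₂ := by simpa using Fintype.card_congr e
  have hn₂ : 5 ≤ n₂ := by
    by_contra h
    have : n₁ * n₂ ≤ 3 * 4 := Nat.mul_le_mul (by omega) (by omega)
    omega
  have hq : (∃ k : F, σ k = k ∧ k ≠ 0 ∧ k ≠ 1) ∨ 3 ≤ n₁ := by
    refine or_iff_not_imp_right.mpr fun h3 => ?_
    by_contra hc'
    push Not at hc'
    have hall : ∀ x : Fˣ, x ^ (q + 1) = 1 := fun x => Units.ext (by
      have h0 : (x : F) * σ x ≠ 0 := mul_ne_zero x.ne_zero (by simp)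
      have := hc' ((x : F) * σ x) (by rw [map_mul, hh.involutive, mul_comm]) h0
      rw [hσ] at this
      rw [Units.val_pow_eq_pow_val, Units.val_one, pow_succ']
      exact this)
    have hdvd := (FiniteField.forall_pow_eq_one_iff F (q + 1)).mp hall
    rw [hF] at hdvd
    have hle := Nat.le_of_dvd (Nat.succ_pos q) hdvd
    have hq2 : 2 ≤ q := by
      have := Fintype.one_lt_card (α := F)
      rw [hF] at this
      by_contra h
      interval_cases q <;> simp at this
    have hq2' : q ≠ 2 := fun h => hex ⟨by omega, h⟩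
    have : 3 * q ≤ q ^ 2 := by rw [sq]; exact Nat.mul_le_mul_right q (by omega)
    omega
  have hiso : CfsgLib.Geometric.isom (fun u v => ζ * Cfsg.hermForm n F q u v) = Cfsg.GU n F q :=
    CfsgLib.Geometric.isom_mul_const hζ _
  have := hU.isMaximalIn h1 h12 hn₂ hq
  simp only [CfsgLib.Geometric.Unitary.sisom, hiso] at this
  exact this

end Cfsg.Agent.S5670
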