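import Cfsg.Statements.S5671
import Cfsg.Agent.Lib.Geometric.UnitaryTensor
-- import your own Cfsg.Agent.* helpers here

set_option autoImplicit false
open Cfsg

namespace Cfsg.Agent.S5671

/-- Let F be the field with 4 elements (q = 2) and n = 2 n₂ ≥ 13. Suppose the standard unitary form Σ u_i v_i² on F^n is similar, through P and e, to the tensor product of non-degenerate unitary forms f₁ on F^2 and f₂ on F^(n₂). Then the elements of SU_n(2) in the stabiliser of this tensor decomposition form a subgroup that is not maximal: some subgroup lies strictly between it and SU_n(2). -/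
theorem result {F : Type*} [Field F] [Fintype F] (n : ℕ) (hF : Fintype.card F = 4) (hn : 13 ≤ n) (n₂ : ℕ) (e : Fin n ≃ Fin 2 × Fin n₂) (P : Matrix.GeneralLinearGroup (Fin n) F) (f₁ : (Fin 2 → F) → (Fin 2 → F) → F) (f₂ : (Fin n₂ → F) → (Fin n₂ → F) → F) (hf₁ : Cfsg.Geo.IsUnitaryFormPow 2 f₁) (hf₂ : Cfsg.Geo.IsUnitaryFormPow 2 f₂) (hT : Cfsg.Geo.IsTensorFormStructure (fun x : F => x ^ 2) (Cfsg.hermForm n F 2) f₁ f₂ e P) : ∃ K : Subgroup (Matrix.GeneralLinearGroup (Fin n) F), Cfsg.Geo.tensorProductSubgroup 2 n₂ e P ⊓ (Cfsg.GU n F 2 ⊓ Cfsg.Geo.specialLinear (Fin n) F) < K ∧ K < (Cfsg.GU n F 2 ⊓ Cfsg.Geo.specialLinear (Fin n) F) := by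
  obtain ⟨σ, hσ, htwo, hf⟩ := CfsgLib.Geometric.exists_skewForm_hermForm_four (F := F) n hF
  have conv : ∀ {k : ℕ} {h : (Fin k → F) → (Fin k → F) → F}, Cfsg.Geo.IsUnitaryFormPow 2 h →
      CfsgLib.Geometric.IsSkewForm σ h := fun {k h} hh =>
    ⟨hf.ne_refl, hf.involutive, hh.add_left, hh.smul_left, fun v w => by
      rw [hσ, ← hh.herm v w]
      linear_combination (h v w) * htwo, hh.nondegenerate⟩
  have hn₂ : n = 2 * n₂ := by simpa using Fintype.card_congr e
  rw [show (fun x : F => x ^ 2) = ⇑(σ : F →+* F) from funext fun x => (hσ x).symm] at hT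
  exact CfsgLib.Geometric.Unitary.exists_between_tensor_plane hf hF hσ htwo (by omega) e P
    (conv hf₁) (conv hf₂) hT

end Cfsg.Agent.S5671
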