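import Cfsg.Statements.S5675
import Cfsg.Agent.Lib.Geometric.Orth.NondegStab
import Cfsg.Agent.Lib.Geometric.Orth.Plane
-- import your own Cfsg.Agent.* helpers here

set_option autoImplicit false
open Cfsg

namespace Cfsg.Agent.S5675

/-- Let F be a finite field of odd order q, m ≥ 6, Q the standard quadratic form on F^(2m+1) and Ω the commutator subgroup of its isometry group. Let W be a non-zero subspace of even dimension on which the polar form of Q is non-degenerate; exclude the case q = 3, dim W = 2 with Q vanishing on some line of W (a plus-type plane). Then the elements of Ω stabilising W (equivalently, stabilising its orthogonal complement, of odd dimension) form a maximal subgroup of Ω. -/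
theorem result {F : Type*} [Field F] [Fintype F] (hodd : Odd (Fintype.card F)) (m : ℕ) (hm : 6 ≤ m) (W : Submodule F (Unit ⊕ (Fin m ⊕ Fin m) → F)) (hW0 : W ≠ ⊥) (hev : Even (Module.finrank F W)) (hW : Cfsg.Geo.IsNondegenerateOn (QuadraticMap.polar (Cfsg.quadFormOdd m F)) W) (hex : ¬ (Fintype.card F = 3 ∧ Module.finrank F W = 2 ∧ Cfsg.Geo.IsPlusTypeOn (Cfsg.quadFormOdd m F) W)) : Cfsg.Geo.IsMaximalIn (Cfsg.Geo.omegaGL (Cfsg.quadFormOdd m F)) (Cfsg.Geo.subspaceStabilizer W ⊓ Cfsg.Geo.omegaGL (Cfsg.quadFormOdd m F)) := by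
  have hQ := CfsgLib.Geometric.Orth.isNondegenerateQuadraticForm_quadFormOdd hodd m
  have hQ' := CfsgLib.Geometric.Orth.nondeg_toQF hQ
  have hW' : Cfsg.Geo.IsNondegenerateOn
      (QuadraticMap.polar ⇑(CfsgLib.Geometric.Orth.toQF hQ)) W := hW
  have hd := CfsgLib.Geometric.Orth.finrank_add_perpW hW'
  simp only [Fintype.card_sum, Fintype.card_unit, Fintype.card_fin] at hd
  refine CfsgLib.Geometric.Orth.nondeg_stab_isMaximalIn' (Q := CfsgLib.Geometric.Orth.toQF hQ)
    hQ' hW' (by simp only [Fintype.card_sum, Fintype.card_unit, Fintype.card_fin]; omega) hW0 ?_ ?_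
    (fun h => ?_)
  · intro h
    obtain ⟨c, hc⟩ := hev
    rw [h, finrank_top, Module.finrank_fintype_fun_eq_card] at hc
    simp only [Fintype.card_sum, Fintype.card_unit, Fintype.card_fin] at hc
    omega
  · intro U hU h3 h2 hplU
    obtain ⟨c, hc⟩ := hev
    rcases hU with rfl | rfl
    · refine hex ⟨?_, h2, hplU⟩
      rw [Nat.card_eq_fintype_card] at h3
      obtain ⟨d, hd'⟩ := hodd
      have := Fintype.one_lt_card (α := F)
      omega
    · omega
  · simp only [Fintype.card_sum, Fintype.card_unit, Fintype.card_fin] at h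
    omega

end Cfsg.Agent.S5675
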