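import Cfsg.Statements.S5677
import Cfsg.Agent.Lib.Geometric.Orth.DecompStabMax
import Cfsg.Agent.Lib.Geometric.Orth.Plane

set_option autoImplicit false
open Cfsg

namespace Cfsg.Agent.S5677

/-- Let F be a finite field of odd order q, m ≥ 6, Q the standard quadratic form on F^(2m+1) and Ω the commutator subgroup of its isometry group. Let D be a decomposition of F^(2m+1) into t ≥ 2 pairwise orthogonal, pairwise Q-isometric subspaces of equal dimension k > 1 on which the polar form is non-degenerate. Unless q = 3 and k = 3, the elements of Ω permuting the members of D form a maximal subgroup of Ω. -/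
theorem result {F : Type*} [Field F] [Fintype F] (hodd : Odd (Fintype.card F)) (m : ℕ) (hm : 6 ≤ m) {t : ℕ} (k : ℕ) (hk : 1 < k) (D : Fin t → Submodule F (Unit ⊕ (Fin m ⊕ Fin m) → F)) (hD : Cfsg.Geo.IsOrthogonalMDecomposition (Cfsg.quadFormOdd m F) k D) (hex : ¬ (Fintype.card F = 3 ∧ k = 3)) : Cfsg.Geo.IsMaximalIn (Cfsg.Geo.omegaGL (Cfsg.quadFormOdd m F)) (Cfsg.Geo.decompositionStabilizer D ⊓ Cfsg.Geo.omegaGL (Cfsg.quadFormOdd m F)) := by
  have hnd := CfsgLib.Geometric.Orth.isNondegenerateQuadraticForm_quadFormOdd hodd m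
  have hc := CfsgLib.Geometric.Orth.decomp_card_eq hD.decomp.decomp
  simp only [Fintype.card_sum, Fintype.card_unit, Fintype.card_fin] at hc
  have hk3 : 3 ≤ k := by
    by_contra h
    obtain rfl : k = 2 := by omega
    omega
  refine CfsgLib.Geometric.Orth.orthDecomp_isMaximalIn (Q := CfsgLib.Geometric.Orth.toQF hnd)
    (CfsgLib.Geometric.Orth.nondeg_toQF hnd) (CfsgLib.Geometric.Orth.two_ne_zero_of_odd hodd)
    ?_ hD hk3 ?_
  · simp only [Fintype.card_sum, Fintype.card_unit, Fintype.card_fin]; omega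
  · intro h
    rw [Nat.card_eq_fintype_card] at h
    by_contra h4
    refine hex ⟨?_, by omega⟩
    have h1 := Fintype.one_lt_card (α := F)
    obtain ⟨j, hj⟩ := hodd
    omega

end Cfsg.Agent.S5677
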