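import Cfsg.Statements.S5679
import Cfsg.Agent.Lib.Geometric.Orth.Frame.Odd
import Cfsg.Agent.Lib.Geometric.Orth.Frames
import Cfsg.Agent.Lib.Geometric.Orth.DecompStabMax
-- import your own Cfsg.Agent.* helpers here

set_option autoImplicit false
open Cfsg

namespace Cfsg.Agent.S5679

/-- Let F be a field of odd prime order p, m ≥ 6, Q the standard quadratic form on F^(2m+1) and Ω the commutator subgroup of its isometry group. Let D be a decomposition of F^(2m+1) into pairwise orthogonal lines on which Q takes non-zero values lying in one square class (pairwise Q-isometric non-degenerate 1-spaces). Then the elements of Ω permuting these lines form a maximal subgroup of Ω. -/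
theorem result {F : Type*} [Field F] [Fintype F] (hodd : Odd (Fintype.card F)) (m : ℕ) (hm : 6 ≤ m) (hprime : (Fintype.card F).Prime) {t : ℕ} (D : Fin t → Submodule F (Unit ⊕ (Fin m ⊕ Fin m) → F)) (hD : Cfsg.Geo.IsOrthogonalMDecomposition (Cfsg.quadFormOdd m F) 1 D) : Cfsg.Geo.IsMaximalIn (Cfsg.Geo.omegaGL (Cfsg.quadFormOdd m F)) (Cfsg.Geo.decompositionStabilizer D ⊓ Cfsg.Geo.omegaGL (Cfsg.quadFormOdd m F)) := by
  have hQ := CfsgLib.Geometric.Orth.isNondegenerateQuadraticForm_quadFormOdd hodd m
  have hc : 2 * m + 1 = t * 1 :=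
    (by simp; omega : 2 * m + 1 = Fintype.card (Unit ⊕ (Fin m ⊕ Fin m))).trans
      (CfsgLib.Geometric.Orth.decomp_card_eq hD.decomp.decomp)
  exact CfsgLib.Geometric.Orth.Frame.frame_isMaximalIn (Q := CfsgLib.Geometric.Orth.toQF hQ)
    (CfsgLib.Geometric.Orth.two_ne_zero_of_odd hodd) (by simp; omega) (by omega)
    ⟨m, by omega⟩ (CfsgLib.Geometric.Orth.Frame.exists_natCast_of_prime hprime) hD

end Cfsg.Agent.S5679
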