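import Cfsg.Statements.S5680
import Cfsg.Agent.Lib.Geometric.ExtField.OrthExt
import Cfsg.Agent.Lib.Geometric.Orth.Plane
import Cfsg.Agent.Lib.ClassicalForms.Ortho.Standard

set_option autoImplicit false
open Cfsg

namespace Cfsg.Agent.S5680

/-- Let F be a finite field of odd order, m ≥ 6, Q the standard quadratic form on F^(2m+1) and Ω the commutator subgroup of its isometry group. Let K be a subfield of the algebra of (2m+1) × (2m+1) matrices over F containing the scalars, of prime degree r over F with r ≠ 2m + 1, whose elements are self-adjoint for the polar form of Q. Then the elements of Ω normalising K form a maximal subgroup of Ω. -/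
theorem result {F : Type*} [Field F] [Fintype F] (hodd : Odd (Fintype.card F)) (m : ℕ) (hm : 6 ≤ m) (r : ℕ) (hr : r.Prime) (hrn : 2 * m + 1 ≠ r) (K : Subalgebra F (Matrix (Unit ⊕ (Fin m ⊕ Fin m)) (Unit ⊕ (Fin m ⊕ Fin m)) F)) (hK : Cfsg.Geo.IsFieldSubalgebra r K) (hsa : Cfsg.Geo.IsSelfAdjointFor (QuadraticMap.polar (Cfsg.quadFormOdd m F)) K) : Cfsg.Geo.IsMaximalIn (Cfsg.Geo.omegaGL (Cfsg.quadFormOdd m F)) (Cfsg.Geo.subalgebraNormalizer K ⊓ Cfsg.Geo.omegaGL (Cfsg.quadFormOdd m F)) := by
  classical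
  refine CfsgLib.Geometric.ExtF.orth_ext_maximal
    (CfsgLib.Geometric.Orth.isNondegenerateQuadraticForm_quadFormOdd hodd m) hodd hr
    (by simp only [Fintype.card_sum, Fintype.card_unit, Fintype.card_fin]; omega) K hK hsa fun j hj => ?_
  simp only [Fintype.card_sum, Fintype.card_unit, Fintype.card_fin] at hj
  have hjo : Odd j := (Nat.odd_mul.mp (hj ▸ ⟨m, by omega⟩ : Odd (r * j))).2
  obtain ⟨i, hi⟩ := hjo
  have h1 : j ≠ 1 := fun h => hrn (by rw [h, mul_one] at hj; omega)
  rcases Nat.lt_or_ge j 4 with h | h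
  swap
  · exact Or.inl h
  obtain rfl : j = 3 := by omega
  refine Or.inr ⟨rfl, by omega, le_of_eq ?_⟩
  rw [show Fintype.card (Unit ⊕ (Fin m ⊕ Fin m)) - 1 = 2 * m by
    simp only [Fintype.card_sum, Fintype.card_unit, Fintype.card_fin]; omega,
    ← CfsgLib.ClassicalForms.card_zeros_qOdd]
  exact Nat.card_congr (Equiv.subtypeEquivRight fun v => by rw [CfsgLib.ClassicalForms.qOdd_apply])

end Cfsg.Agent.S5680
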