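import Cfsg.Statements.S5681
import Cfsg.Agent.Lib.Geometric.OrthTensorMax.Max
import Cfsg.Agent.Lib.Geometric.UnitaryTensor
import Cfsg.Agent.Lib.Geometric.Orth.Plane
import Cfsg.Agent.Lib.Geometric.Orth.DecompStabMax
-- import your own Cfsg.Agent.* helpers here

set_option autoImplicit false
open Cfsg

namespace Cfsg.Agent.S5681

/-- Let F be a finite field of odd order q, m ≥ 6, Q the standard quadratic form on F^(2m+1) and Ω the commutator subgroup of its isometry group. Suppose the polar form of Q is similar, through a change of basis P and a bijection of index sets e, to the tensor product of non-degenerate symmetric bilinear forms f₁ on F^(n₁) and f₂ on F^(n₂) with 3 ≤ n₁ < n₂. Unless q = 3 and n₁ = 3, the elements of Ω in the stabiliser of this tensor decomposition form a maximal subgroup of Ω. -/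
theorem result {F : Type*} [Field F] [Fintype F] (hodd : Odd (Fintype.card F)) (m : ℕ) (hm : 6 ≤ m) (n₁ n₂ : ℕ) (h1 : 3 ≤ n₁) (h12 : n₁ < n₂) (hex : ¬ (Fintype.card F = 3 ∧ n₁ = 3)) (e : (Unit ⊕ (Fin m ⊕ Fin m)) ≃ Fin n₁ × Fin n₂) (P : Matrix.GeneralLinearGroup (Unit ⊕ (Fin m ⊕ Fin m)) F) (f₁ : (Fin n₁ → F) → (Fin n₁ → F) → F) (f₂ : (Fin n₂ → F) → (Fin n₂ → F) → F) (hf₁ : Cfsg.Geo.IsSymmetricForm f₁) (hf₂ : Cfsg.Geo.IsSymmetricForm f₂) (hT : Cfsg.Geo.IsTensorFormStructure id (QuadraticMap.polar (Cfsg.quadFormOdd m F)) f₁ f₂ e P) : Cfsg.Geo.IsMaximalIn (Cfsg.Geo.omegaGL (Cfsg.quadFormOdd m F)) (Cfsg.Geo.tensorProductSubgroup n₁ n₂ e P ⊓ Cfsg.Geo.omegaGL (Cfsg.quadFormOdd m F)) := by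
  classical
  have hQ := CfsgLib.Geometric.Orth.isNondegenerateQuadraticForm_quadFormOdd hodd m
  have hQn := CfsgLib.Geometric.Orth.nondeg_toQF hQ
  have h2 : (2 : F) ≠ 0 := CfsgLib.Geometric.Orth.two_ne_zero_of_odd hodd
  obtain ⟨c, hc, hform⟩ := CfsgLib.Geometric.Tensor.form_pt e P (σ := RingHom.id F)
    (CfsgLib.Geometric.eq_formOfGram hf₁.bilinear.add_left hf₁.bilinear.smul_left
      (fun x y v => hf₁.bilinear.add_right v x y) fun t v x => hf₁.bilinear.smul_right t v x)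
    (CfsgLib.Geometric.eq_formOfGram hf₂.bilinear.add_left hf₂.bilinear.smul_left
      (fun x y v => hf₂.bilinear.add_right v x y) fun t v x => hf₂.bilinear.smul_right t v x) hT
  have hcard : 2 * m + 1 = n₁ * n₂ := by
    have h := Fintype.card_congr e
    simp only [Fintype.card_sum, Fintype.card_unit, Fintype.card_fin, Fintype.card_prod] at h
    omega
  obtain ⟨h1o, h2o⟩ : Odd n₁ ∧ Odd n₂ := Nat.odd_mul.mp ⟨m, hcard.symm⟩
  obtain ⟨a, ha⟩ := h1o
  obtain ⟨b, hb⟩ := h2o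
  have hS : CfsgLib.Geometric.OrthTensor.OTensor (CfsgLib.Geometric.Orth.toQF hQ) e P f₁ f₂ c :=
    ⟨⟨h2, hf₁⟩, ⟨h2, hf₂⟩, hc, h1, by omega, fun x x' y y' => by
      rw [CfsgLib.Geometric.Orth.coe_toQF]
      exact hform x x' y y'⟩
  have h := hS.isMaximalIn_odd hQn (by omega) ⟨a, ha⟩ ⟨b, hb⟩ ?_
  · rwa [CfsgLib.Geometric.Orth.coe_toQF] at h
  by_cases h5 : 5 ≤ n₁
  · exact Or.inl h5
  refine Or.inr ?_
  by_contra hno
  push Not at hno
  refine hex ⟨?_, by omega⟩
  have hle : Fintype.card F ≤ 3 := by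
    have h := Finset.card_le_card (s := (Finset.univ : Finset F))
      (t := ({0, 1, -1} : Finset F)) fun x _ => by
        by_cases hx : x = 0
        · simp [hx]
        · rcases mul_self_eq_one_iff.mp (hno x hx) with h | h <;> simp [h]
    exact h.trans Finset.card_le_three
  obtain ⟨k, hk⟩ := hodd
  have := Fintype.one_lt_card (α := F)
  omega

end Cfsg.Agent.S5681
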