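import Cfsg.Statements.S5688
import Cfsg.Agent.Lib.Geometric.Orth.NondegStab
-- import your own Cfsg.Agent.* helpers here

set_option autoImplicit false
open Cfsg

namespace Cfsg.Agent.S5688

/-- Let F be a finite field with q elements, n ≥ 13 even, Q a non-degenerate quadratic form on F^n of plus type (some subspace of dimension n/2 is totally singular), and Ω the commutator subgroup of the isometry group of Q, viewed inside GL_n(F). Let W be a non-zero proper subspace with dim W ≠ n/2 on which the polar form of Q is non-degenerate. Exclude the case q ≤ 3 in which W, or its orthogonal complement, is a plane containing a line on which Q vanishes. Then the elements of Ω stabilising W form a maximal subgroup of Ω. -/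
theorem result {F : Type*} [Field F] [Fintype F] {n : ℕ} (hn : 13 ≤ n) (heven : Even n) (Q : (Fin n → F) → F) (hQ : Cfsg.Geo.IsNondegenerateQuadraticForm Q) (hplus : Cfsg.Geo.IsPlusTypeOn Q ⊤) (W : Submodule F (Fin n → F)) (hW0 : W ≠ ⊥) (hW1 : W ≠ ⊤) (hdim : 2 * Module.finrank F W ≠ n) (hW : Cfsg.Geo.IsNondegenerateOn (QuadraticMap.polar Q) W) (hex : ¬ (Fintype.card F ≤ 3 ∧ (∃ U : Submodule F (Fin n → F), Module.finrank F U = 2 ∧ Cfsg.Geo.IsNondegenerateOn (QuadraticMap.polar Q) U ∧ Cfsg.Geo.IsPlusTypeOn Q U ∧ (U = W ∨ (Cfsg.Geo.AreOrthogonalFor (QuadraticMap.polar Q) U W ∧ Module.finrank F U + Module.finrank F W = n))))) : Cfsg.Geo.IsMaximalIn (Cfsg.Geo.omegaGL Q) (Cfsg.Geo.subspaceStabilizer W ⊓ Cfsg.Geo.omegaGL Q) := by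
  have hQ' := CfsgLib.Geometric.Orth.nondeg_toQF hQ
  have hW' : Cfsg.Geo.IsNondegenerateOn
      (QuadraticMap.polar ⇑(CfsgLib.Geometric.Orth.toQF hQ)) W := hW
  refine CfsgLib.Geometric.Orth.nondeg_stab_isMaximalIn' (Q := CfsgLib.Geometric.Orth.toQF hQ)
    hQ' hW' (by rw [Fintype.card_fin]; omega) hW0 hW1 ?_ ?_
  · intro U hU h3 h2 hplU
    refine hex ⟨by rwa [Nat.card_eq_fintype_card] at h3, U, h2, ?_, hplU, ?_⟩
    · rcases hU with rfl | rfl
      · exact hW
      · exact CfsgLib.Geometric.Orth.isNondegenerateOn_perpW hW' hQ'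
    · refine hU.imp id fun h => ?_
      subst h
      refine ⟨fun a ha b hb => ?_, ?_⟩
      · rw [QuadraticMap.polar_comm]; exact ha b hb
      · have := CfsgLib.Geometric.Orth.finrank_add_perpW hW'
        rw [Fintype.card_fin] at this
        omega
  · exact fun h => absurd (by rwa [Fintype.card_fin] at h) hdim

end Cfsg.Agent.S5688
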