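import Cfsg.Statements.S5692
import Cfsg.Agent.Lib.Geometric.Orth.Blocks.PlusType
import Cfsg.Agent.Lib.Geometric.Orth.Blocks.BinaryPlanes
-- import your own Cfsg.Agent.* helpers here

set_option autoImplicit false
open Cfsg

namespace Cfsg.Agent.S5692

/-- Let F be a finite field with q elements, n ≥ 13 even, Q a non-degenerate quadratic form on F^n of plus type (some subspace of dimension n/2 is totally singular), and Ω the commutator subgroup of the isometry group of Q, viewed inside GL_n(F). Let D be a decomposition of F^n into t ≥ 2 pairwise orthogonal, pairwise Q-isometric subspaces of equal dimension k ≥ 2 on which the polar form is non-degenerate, such that: if k is even, either every member is of plus type or t is even; if k is odd, q is odd and the discriminant of Q is a square. Exclude the cases k = 2 with q = 3, k = 2 with plus-type members and q ∈ {2, 4, 5}, k = 3 with q = 3, and k = 4 with plus-type members and q = 2. Then the elements of Ω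 permuting the members of D form a maximal subgroup of Ω. -/
theorem result {F : Type*} [Field F] [Fintype F] {n : ℕ} (hn : 13 ≤ n) (heven : Even n) (Q : (Fin n → F) → F) (hQ : Cfsg.Geo.IsNondegenerateQuadraticForm Q) (hplus : Cfsg.Geo.IsPlusTypeOn Q ⊤) {t : ℕ} (k : ℕ) (hk : 2 ≤ k) (D : Fin t → Submodule F (Fin n → F)) (hD : Cfsg.Geo.IsOrthogonalMDecomposition Q k D) (hke : Even k → ((∀ i, Cfsg.Geo.IsPlusTypeOn Q (D i)) ∨ Even t)) (hko : Odd k → (Odd (Fintype.card F) ∧ Cfsg.Geo.HasSquareDiscriminant Q)) (hex : ¬ ((k = 2 ∧ (Fintype.card F = 3 ∨ ((∀ i, Cfsg.Geo.IsPlusTypeOn Q (D i)) ∧ (Fintype.card F = 2 ∨ Fintype.card F = 4 ∨ Fintype.card F = 5)))) ∨ (k = 3 ∧ Fintype.card F = 3) ∨ (k = 4 ∧ Fintype.card F = 2 ∧ ∀ i, Cfsg.Geo.IsPlusTypeOn Q (D i)))) : Cfsg.Geo.IsMaximalIn (Cfsg.Geo.omegaGL Q) (Cfsg.Geo.decompositionStabilizer D ⊓ Cfsg.Geo.omegaGL Q) := by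
  classical
  have hnd := CfsgLib.Geometric.Orth.nondeg_toQF hQ
  have hc : n = t * k :=
    (Fintype.card_fin n).symm.trans (CfsgLib.Geometric.Orth.decomp_card_eq hD.decomp.decomp)
  rcases Nat.even_or_odd k with hev | hod
  swap
  · obtain ⟨hodd, -⟩ := hko hod
    obtain ⟨r, hr⟩ := hod
    refine CfsgLib.Geometric.Orth.orthDecomp_isMaximalIn (Q := CfsgLib.Geometric.Orth.toQF hQ) hnd
      (CfsgLib.Geometric.Orth.two_ne_zero_of_odd hodd) (by simp; omega) hD (by omega) ?_
    intro hq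
    rw [Nat.card_eq_fintype_card] at hq
    by_contra hk4
    have h1 := Fintype.one_lt_card (α := F)
    obtain ⟨s, hs⟩ := hodd
    exact hex (Or.inr (Or.inl ⟨by omega, by omega⟩))
  by_cases hk2 : k = 2
  · subst hk2
    have hpl : ∀ i, Cfsg.Geo.IsPlusTypeOn Q (D i) ↔
        ¬ CfsgLib.Geometric.Orth.Blocks.Aniso (CfsgLib.Geometric.Orth.toQF hQ) (D i) := fun i =>
      CfsgLib.Geometric.Orth.Blocks.isPlusTypeOn_plane (Q := CfsgLib.Geometric.Orth.toQF hQ)
        (hD.decomp.decomp.finrank_eq i)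
    have hall : ∀ i, Cfsg.Geo.IsPlusTypeOn Q (D i) → ∀ j, Cfsg.Geo.IsPlusTypeOn Q (D j) :=
      fun i hi j => CfsgLib.Geometric.Orth.Blocks.isPlusTypeOn_of_isometric
        (Q := CfsgLib.Geometric.Orth.toQF hQ) (hD.isometric i j) hi
    by_cases hq2 : Fintype.card F = 2
    · refine CfsgLib.Geometric.Orth.Blocks.binaryPlanes_isMaximalIn
        (Q := CfsgLib.Geometric.Orth.toQF hQ) hnd (by rw [Nat.card_eq_fintype_card, hq2]) (by omega)
        hD fun i x hx hQx => ?_
      by_contra hx0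
      exact hex (Or.inl ⟨rfl, Or.inr ⟨hall i ((hpl i).2 fun hA => hx0 (hA x hx hQx)), Or.inl hq2⟩⟩)
    have h1 := Fintype.one_lt_card (α := F)
    have hq3 : Fintype.card F ≠ 3 := fun e => hex (Or.inl ⟨rfl, Or.inl e⟩)
    refine CfsgLib.Geometric.Orth.Blocks.blocks_isMaximalIn (Q := CfsgLib.Geometric.Orth.toQF hQ)
      hnd (by simp; omega) hD (Or.inl ⟨rfl, by omega, fun i hi => ?_⟩) (fun _ => by omega)
    have hp := hall i ((hpl i).2 hi)
    by_contra hlt
    have h6 : Fintype.card F ≠ 6 := fun e => by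
      obtain ⟨p, m, hp', -, hpm⟩ := (isPrimePow_nat_iff _).1 (FiniteField.isPrimePow_card F)
      rw [e] at hpm
      have h2 : 2 ∣ p ^ m := hpm ▸ (by norm_num)
      have h3 : 3 ∣ p ^ m := hpm ▸ (by norm_num)
      have e2 := (Nat.prime_dvd_prime_iff_eq Nat.prime_two hp').1 (Nat.prime_two.dvd_of_dvd_pow h2)
      have e3 := (Nat.prime_dvd_prime_iff_eq Nat.prime_three hp').1
        (Nat.prime_three.dvd_of_dvd_pow h3)
      omega
    rcases (show Fintype.card F = 4 ∨ Fintype.card F = 5 by omega) with e | e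
    · exact hex (Or.inl ⟨rfl, Or.inr ⟨hp, Or.inr (Or.inl e)⟩⟩)
    · exact hex (Or.inl ⟨rfl, Or.inr ⟨hp, Or.inr (Or.inr e)⟩⟩)
  obtain ⟨r, hr⟩ := id hev
  by_cases h2 : (2 : F) = 0
  · refine CfsgLib.Geometric.Orth.Blocks.blocks_isMaximalIn (Q := CfsgLib.Geometric.Orth.toQF hQ)
      hnd (by simp; omega) hD (Or.inr ⟨h2, by omega, hev, fun hq hk4 i hp => ?_⟩) (fun e => absurd e hk2)
    exact hex (Or.inr (Or.inr ⟨hk4, hq, fun j =>
      CfsgLib.Geometric.Orth.Blocks.isPlusTypeOn_of_isometric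
        (Q := CfsgLib.Geometric.Orth.toQF hQ) (hD.isometric i j) hp⟩))
  · exact CfsgLib.Geometric.Orth.orthDecomp_isMaximalIn (Q := CfsgLib.Geometric.Orth.toQF hQ) hnd
      h2 (by simp; omega) hD (by omega) (fun _ => by omega)

end Cfsg.Agent.S5692
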