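import Cfsg.Statements.S5694
import Cfsg.Agent.Lib.Geometric.Orth.Blocks.PlusType
import Cfsg.Agent.Lib.Geometric.Orth.Blocks.BinaryPlanes
-- import your own Cfsg.Agent.* helpers here

set_option autoImplicit false
open Cfsg

namespace Cfsg.Agent.S5694

/-- Let F be a finite field with q elements, n ≥ 13 even, Q a non-degenerate quadratic form on F^n of minus type (no subspace of dimension n/2 is totally singular), and Ω the commutator subgroup of the isometry group of Q, viewed inside GL_n(F). Let D be a decomposition of F^n into t ≥ 2 pairwise orthogonal, pairwise Q-isometric subspaces of equal dimension k ≥ 2 on which the polar form is non-degenerate, such that: if k is odd, q is odd and the discriminant of Q is a square; if k is even, t is odd and no member is of plus type. Unless q = 3 and k ∈ {2, 3}, the elements of Ω permuting the members of D form a maximal subgroup of Ω. -/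
theorem result {F : Type*} [Field F] [Fintype F] {n : ℕ} (hn : 13 ≤ n) (heven : Even n) (Q : (Fin n → F) → F) (hQ : Cfsg.Geo.IsNondegenerateQuadraticForm Q) (hminus : ¬ Cfsg.Geo.IsPlusTypeOn Q ⊤) {t : ℕ} (k : ℕ) (hk : 2 ≤ k) (D : Fin t → Submodule F (Fin n → F)) (hD : Cfsg.Geo.IsOrthogonalMDecomposition Q k D) (hko : Odd k → (Odd (Fintype.card F) ∧ Cfsg.Geo.HasSquareDiscriminant Q)) (hke : Even k → (Odd t ∧ ∀ i, ¬ Cfsg.Geo.IsPlusTypeOn Q (D i))) (hex : ¬ (Fintype.card F = 3 ∧ (k = 2 ∨ k = 3))) : Cfsg.Geo.IsMaximalIn (Cfsg.Geo.omegaGL Q) (Cfsg.Geo.decompositionStabilizer D ⊓ Cfsg.Geo.omegaGL Q) := by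
  classical
  have hnd := CfsgLib.Geometric.Orth.nondeg_toQF hQ
  have hc : n = t * k :=
    (Fintype.card_fin n).symm.trans (CfsgLib.Geometric.Orth.decomp_card_eq hD.decomp.decomp)
  rcases Nat.even_or_odd k with hev | hod
  swap
  · obtain ⟨hodd, -⟩ := hko hod
    obtain ⟨r, hr⟩ := hod
    refine CfsgLib.Geometric.Orth.orthDecomp_isMaximalIn (Q := CfsgLib.Geometric.Orth.toQF hQ) hnd
      (CfsgLib.Geometric.Orth.two_ne_zero_of_odd hodd) (by simp; omega) hD (by omega) ?_
    intro hq
    rw [Nat.card_eq_fintype_card] at hq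
    by_contra hk4
    have h1 := Fintype.one_lt_card (α := F)
    obtain ⟨s, hs⟩ := hodd
    exact hex ⟨by omega, Or.inr (by omega)⟩
  obtain ⟨-, hminus'⟩ := hke hev
  by_cases hk2 : k = 2
  · subst hk2
    have hani : ∀ i, CfsgLib.Geometric.Orth.Blocks.Aniso (CfsgLib.Geometric.Orth.toQF hQ) (D i) :=
      fun i => not_not.1 fun hA => hminus' i ((CfsgLib.Geometric.Orth.Blocks.isPlusTypeOn_plane
        (Q := CfsgLib.Geometric.Orth.toQF hQ) (hD.decomp.decomp.finrank_eq i)).2 hA)
    by_cases hq2 : Fintype.card F = 2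
    · exact CfsgLib.Geometric.Orth.Blocks.binaryPlanes_isMaximalIn
        (Q := CfsgLib.Geometric.Orth.toQF hQ) hnd (by rw [Nat.card_eq_fintype_card, hq2]) (by omega)
        hD hani
    have h1 := Fintype.one_lt_card (α := F)
    have hq3 : Fintype.card F ≠ 3 := fun e => hex ⟨e, Or.inl rfl⟩
    exact CfsgLib.Geometric.Orth.Blocks.blocks_isMaximalIn (Q := CfsgLib.Geometric.Orth.toQF hQ)
      hnd (by simp; omega) hD (Or.inl ⟨rfl, by omega, fun i hi => absurd (hani i) hi⟩)
      (fun _ => by omega)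
  obtain ⟨r, hr⟩ := id hev
  by_cases h2 : (2 : F) = 0
  · exact CfsgLib.Geometric.Orth.Blocks.blocks_isMaximalIn (Q := CfsgLib.Geometric.Orth.toQF hQ)
      hnd (by simp; omega) hD (Or.inr ⟨h2, by omega, hev, fun _ _ => hminus'⟩)
      (fun e => absurd e hk2)
  · exact CfsgLib.Geometric.Orth.orthDecomp_isMaximalIn (Q := CfsgLib.Geometric.Orth.toQF hQ) hnd
      h2 (by simp; omega) hD (by omega) (fun _ => by omega)

end Cfsg.Agent.S5694
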