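import Cfsg.Statements.S5699
import Cfsg.Agent.Lib.Geometric.Orth.NondegStab
import Cfsg.Agent.Lib.Geometric.SingularPair
-- import your own Cfsg.Agent.* helpers here

set_option autoImplicit false
open Cfsg

namespace Cfsg.Agent.S5699

/-- Let F be a finite field with q elements, n ≥ 13 even, Q a non-degenerate quadratic form on F^n (of either type), and Ω the commutator subgroup of the isometry group of Q, viewed inside GL_n(F). Let D be a decomposition of F^n into two orthogonal subspaces of odd dimension n/2 on which the polar form is non-degenerate and which are not Q-isometric to each other. Then the elements of Ω permuting (necessarily fixing) the two subspaces form a maximal subgroup of Ω. -/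
theorem result {F : Type*} [Field F] [Fintype F] {n : ℕ} (hn : 13 ≤ n) (heven : Even n) (Q : (Fin n → F) → F) (hQ : Cfsg.Geo.IsNondegenerateQuadraticForm Q) (k : ℕ) (hk : 2 * k = n) (hko : Odd k) (D : Fin 2 → Submodule F (Fin n → F)) (hD : Cfsg.Geo.IsNondegenerateMDecomposition (QuadraticMap.polar Q) k D) (hni : ¬ Cfsg.Geo.AreIsometricFor Q (D 0) (D 1)) : Cfsg.Geo.IsMaximalIn (Cfsg.Geo.omegaGL Q) (Cfsg.Geo.decompositionStabilizer D ⊓ Cfsg.Geo.omegaGL Q) := by
  have hQ' := CfsgLib.Geometric.Orth.nondeg_toQF hQ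
  have hW' : Cfsg.Geo.IsNondegenerateOn
      (QuadraticMap.polar ⇑(CfsgLib.Geometric.Orth.toQF hQ)) (D 0) := hD.nondegenerate 0
  have hcard : Fintype.card (Fin n) = n := Fintype.card_fin n
  have hperp : CfsgLib.Geometric.Orth.perpW (CfsgLib.Geometric.Orth.toQF hQ) (D 0) = D 1 := by
    refine (Submodule.eq_of_le_of_finrank_eq (fun x hx => CfsgLib.Geometric.Orth.mem_perpW.mpr fun y hy => hD.orthogonal 0 1 (by decide) y hy x hx) ?_).symm
    have h := CfsgLib.Geometric.Orth.finrank_add_perpW hW'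
    rw [hD.decomp.finrank_eq, hcard] at h
    rw [hD.decomp.finrank_eq]
    omega
  have hno : ∀ g ∈ Cfsg.isometryGroup F Q,
      ¬ CfsgLib.Geometric.MapsIn g (D 1) (D 0) := by
    intro g hg hm
    have hmap : (D 1).map (CfsgLib.Geometric.apEquiv g).toLinearMap = D 0 :=
      hm.map_eq (by rw [hD.decomp.finrank_eq, hD.decomp.finrank_eq])
    let e : D 1 ≃ₗ[F] D 0 :=
      ((CfsgLib.Geometric.apEquiv g).submoduleMap (D 1)).trans (LinearEquiv.ofEq _ _ hmap)
    refine hni ⟨e.symm, fun w => ?_⟩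
    obtain ⟨y, rfl⟩ := e.surjective w
    rw [LinearEquiv.symm_apply_apply]
    exact ((CfsgLib.Geometric.Orth.mem_isometryGroup_iff
      (Q := CfsgLib.Geometric.Orth.toQF hQ)).mp hg (y : Fin n → F)).symm
  have hstab : Cfsg.Geo.decompositionStabilizer D ⊓ Cfsg.Geo.omegaGL Q =
      Cfsg.Geo.subspaceStabilizer (D 0) ⊓ Cfsg.Geo.omegaGL Q := by
    have hI : Cfsg.Geo.omegaGL Q ≤ Cfsg.isometryGroup F Q :=
      CfsgLib.Geometric.Orth.omegaGL_le (Q := CfsgLib.Geometric.Orth.toQF hQ)
    refine le_antisymm ?_ ?_ <;> intro g hg <;> refine ⟨?_, hg.2⟩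
    · rcases (CfsgLib.Geometric.mem_pairStab hD.decomp).1 hg.1 with ⟨h, -⟩ | ⟨-, h⟩
      · exact CfsgLib.Geometric.mem_subspaceStabilizer_of_mapsTo g _ h
      · exact absurd h (hno g (hI hg.2))
    · refine (CfsgLib.Geometric.mem_pairStab hD.decomp).2 (Or.inl ⟨fun x hx => ?_, fun x hx => ?_⟩)
      · exact ((CfsgLib.Geometric.mem_subspaceStabilizer_iff _ _).mp hg.1 x).mp hx
      · rw [← hperp] at hx ⊢
        exact CfsgLib.Geometric.Orth.ap_mem_perpW (hI hg.2) hg.1 hx
  rw [hstab]
  refine CfsgLib.Geometric.Orth.nondeg_stab_isMaximalIn_of_swap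
    (Q := CfsgLib.Geometric.Orth.toQF hQ) hQ' hW' (by omega) ?_
    (by rw [hD.decomp.finrank_eq, hcard]; omega) (fun _ h => ?_) (fun _ g hg hPW => hno g hg ?_)
  · intro h
    have := hD.decomp.finrank_eq 0
    rw [h, finrank_bot] at this
    omega
  · rw [hD.decomp.finrank_eq] at h
    omega
  · intro x hx
    exact hPW x (hperp.symm ▸ hx)

end Cfsg.Agent.S5699
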