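import Cfsg.Statements.S5703
import Cfsg.Agent.Lib.Geometric.OrthType.Maximal
import Cfsg.Agent.Lib.Geometric.OrthType.SympDichotomy
import Cfsg.Agent.Lib.Geometric.OrthType.PlaneDichotomy
import Cfsg.Agent.Lib.Geometric.OrthType.PlaneBig

set_option autoImplicit false
open Cfsg

namespace Cfsg.Agent.S5703

/-- Let p be an odd prime, F the field with p elements, n ≥ 13 even, Q a non-degenerate quadratic form on F^n of plus type and Ω the commutator subgroup of its isometry group. Let R be a 2-subgroup of GL_n(F) of exponent 4 in which every characteristic abelian subgroup is cyclic, of order 2^(1+2k) with centre of order 2 and containing an elementary abelian subgroup of order 2^(k+1) (plus type), acting absolutely irreducibly and consisting of isometries of Q. Then the elements of Ω normalising R form a maximal subgroup of Ω. -/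
theorem result {F : Type*} [Field F] [Fintype F] {n : ℕ} (hn : 13 ≤ n) (heven : Even n) (Q : (Fin n → F) → F) (hQ : Cfsg.Geo.IsNondegenerateQuadraticForm Q) (hplus : Cfsg.Geo.IsPlusTypeOn Q ⊤) (p k : ℕ) (hp : p.Prime) (hpo : Odd p) (hF : Fintype.card F = p) (R : Subgroup (Matrix.GeneralLinearGroup (Fin n) F)) (hR : Cfsg.Geo.IsSymplecticTypeGroup 2 R) (hirr : Cfsg.Geo.ActsAbsolutelyIrreducibly (Cfsg.Geo.matrixSet R)) (hRD : R ≤ Cfsg.isometryGroup F Q) (hcard : Nat.card R = 2 ^ (1 + 2 * k)) (hZ : Nat.card (Subgroup.center R) = 2) (hpt : Cfsg.Geo.IsOfPlusType k R) : Cfsg.Geo.IsMaximalIn (Cfsg.Geo.omegaGL Q) (Cfsg.Geo.subgroupNormalizer R ⊓ Cfsg.Geo.omegaGL Q) := by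
  haveI : Fact p.Prime := ⟨hp⟩
  haveI : CharP F p := charP_of_card_eq_prime hF
  have h2 : (2 : F) ≠ 0 := by
    intro h
    have h' : ((2 : ℕ) : F) = 0 := by exact_mod_cast h
    have hd2 := Nat.le_of_dvd two_pos ((CharP.cast_eq_zero_iff F p 2).1 h')
    obtain ⟨r, rfl⟩ := hpo
    have := hp.two_le
    omega
  refine CfsgLib.Geometric.OrthType.isMaximalIn_of_planeLocal hn hQ hplus h2 hR hirr hRD hcard hZ hpt
    fun j hj S M hNO hM hbig b c hb hc hbc => ?_
  rcases S.plane_dichotomy hj h2
      (fun T => CfsgLib.Geometric.OrthType.sympType_dichotomy hp hF h2 hj T) hNO hM hb hc hbc with h | h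
  · exact h
  · exact absurd (S.omega_le_of_plane_full hj h2 hNO hb hc hbc h) hbig

end Cfsg.Agent.S5703
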