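import Cfsg.Statements.S5704
import Cfsg.Agent.Lib.Geometric.Orth.SympTensorMax
import Cfsg.Agent.Lib.Geometric.UnitaryTensor
-- import your own Cfsg.Agent.* helpers here

set_option autoImplicit false
open Cfsg

namespace Cfsg.Agent.S5704

/-- Let F be a finite field with q elements, n ≥ 13 even, Q a non-degenerate quadratic form on F^n of plus type (some subspace of dimension n/2 is totally singular), and Ω the commutator subgroup of the isometry group of Q, viewed inside GL_n(F). Suppose that, through a change of basis P and a bijection of index sets e, the polar form of Q is similar to the tensor product of non-degenerate symplectic forms f₁ on F^(n₁) and f₂ on F^(n₂) with n₁ < n₂, and Q vanishes on the images of all pure tensors. Unless q = 2 and n₁ = 2, the elements of Ω in the stabiliser of this tensor decomposition form a maximal subgroup of Ω. -/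
theorem result {F : Type*} [Field F] [Fintype F] {n : ℕ} (hn : 13 ≤ n) (heven : Even n) (Q : (Fin n → F) → F) (hQ : Cfsg.Geo.IsNondegenerateQuadraticForm Q) (hplus : Cfsg.Geo.IsPlusTypeOn Q ⊤) (n₁ n₂ : ℕ) (h12 : n₁ < n₂) (hex : ¬ (Fintype.card F = 2 ∧ n₁ = 2)) (e : (Fin n) ≃ Fin n₁ × Fin n₂) (P : Matrix.GeneralLinearGroup (Fin n) F) (f₁ : (Fin n₁ → F) → (Fin n₁ → F) → F) (f₂ : (Fin n₂ → F) → (Fin n₂ → F) → F) (hf₁ : Cfsg.Geo.IsSymplecticForm f₁) (hf₂ : Cfsg.Geo.IsSymplecticForm f₂) (hT : Cfsg.Geo.IsTensorFormStructure id (QuadraticMap.polar Q) f₁ f₂ e P) (hpure : (∀ (x₁ : Fin n₁ → F) (x₂ : Fin n₂ → F), Q (Matrix.mulVec (P : Matrix (Fin n) (Fin n) F) ((fun a : Fin n₁ × Fin n₂ => x₁ a.1 * x₂ a.2) ∘ e)) = 0)) : Cfsg.Geo.IsMaximalIn (Cfsg.Geo.omegaGL Q) (Cfsg.Geo.tensorProductSubgroup n₁ n₂ e P ⊓ Cfsg.Geo.omegaGL Q) := by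
  classical
  have hQn := CfsgLib.Geometric.Orth.nondeg_toQF hQ
  obtain ⟨c, hc, hform⟩ := CfsgLib.Geometric.Tensor.form_pt e P (σ := RingHom.id F)
    (CfsgLib.Geometric.eq_formOfGram hf₁.bilinear.add_left hf₁.bilinear.smul_left
      (fun x y v => hf₁.bilinear.add_right v x y) fun t v x => hf₁.bilinear.smul_right t v x)
    (CfsgLib.Geometric.eq_formOfGram hf₂.bilinear.add_left hf₂.bilinear.smul_left
      (fun x y v => hf₂.bilinear.add_right v x y) fun t v x => hf₂.bilinear.smul_right t v x) hT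
  have hS : CfsgLib.Geometric.Orth.STensor (CfsgLib.Geometric.Orth.toQF hQ) e P f₁ f₂ c :=
    ⟨hf₁, hf₂, hc, hform, fun x y => by
      rw [CfsgLib.Geometric.Orth.coe_toQF, CfsgLib.Geometric.Tensor.pt,
        CfsgLib.Geometric.Tensor.coords_apply, CfsgLib.Geometric.ap_def]
      exact hpure x y⟩
  have hcard : n = n₁ * n₂ := by simpa using Fintype.card_congr e
  obtain ⟨a, ha⟩ := CfsgLib.Geometric.Orth.even_of_symp hf₁
  obtain ⟨b, hb⟩ := CfsgLib.Geometric.Orth.even_of_symp hf₂
  have h1 : n₁ + 2 ≤ n₂ := by omega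
  have h5 : 5 ≤ n₂ := by
    by_contra h
    have h4 : n₂ = 4 := by
      rcases Nat.eq_zero_or_pos n₁ with h0 | h0
      · subst h0; omega
      · omega
    subst h4
    omega
  have h := hS.isMaximalIn hQn (by rw [Fintype.card_fin]; omega) h5 ?_ h1
  · rwa [CfsgLib.Geometric.Orth.coe_toQF] at h
  by_cases hex' : ∃ t : F, t ≠ 0 ∧ t ≠ 1
  · exact Or.inl hex'
  push Not at hex'
  refine Or.inr ⟨fun t => (em (t = 0)).imp id (hex' t), ?_⟩
  have hq2 : Fintype.card F = 2 := le_antisymm ?_ Fintype.one_lt_card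
  · rcases Nat.eq_zero_or_pos n₁ with h0 | h0
    · subst h0; omega
    · by_contra h3
      exact hex ⟨hq2, by omega⟩
  · have h := Finset.card_le_card (s := (Finset.univ : Finset F)) (t := ({0, 1} : Finset F))
      fun x _ => by
        by_cases hx : x = 0
        · simp [hx]
        · simp [hex' x hx]
    exact h.trans Finset.card_le_two

end Cfsg.Agent.S5704
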