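import Cfsg.Statements.S5706
import Cfsg.Agent.Lib.Geometric.TensorOrth.Main
import Cfsg.Agent.Lib.Geometric.TensorOrth.Dichotomy

set_option autoImplicit false
open Cfsg

namespace Cfsg.Agent.S5706

/-- Let F be a finite field with q elements, n ≥ 13 even, Q a non-degenerate quadratic form on F^n of plus type (some subspace of dimension n/2 is totally singular), and Ω the commutator subgroup of the isometry group of Q, viewed inside GL_n(F). Suppose that, through a change of basis P and a bijection of index sets e, the polar form of Q is similar to the t-fold tensor power (t ≥ 2) of a non-degenerate symplectic form f₁ on F^k, that Q vanishes on the images of all pure tensors, that t is even if q is odd, that (q, k) is neither (2, 2) nor (3, 2), and that k ≥ 6 if q is even. Then the elements of Ω in the stabiliser of this decomposition form a maximal subgroup of Ω. -/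
theorem result {F : Type*} [Field F] [Fintype F] {n : ℕ} (hn : 13 ≤ n) (heven : Even n) (Q : (Fin n → F) → F) (hQ : Cfsg.Geo.IsNondegenerateQuadraticForm Q) (hplus : Cfsg.Geo.IsPlusTypeOn Q ⊤) (k t : ℕ) (ht : 2 ≤ t) (hqt : Odd (Fintype.card F) → Even t) (hex1 : ¬ (Fintype.card F = 2 ∧ k = 2)) (hex2 : ¬ (Fintype.card F = 3 ∧ k = 2)) (hex3 : ¬ Odd (Fintype.card F) → 6 ≤ k) (e : (Fin n) ≃ (Fin t → Fin k)) (P : Matrix.GeneralLinearGroup (Fin n) F) (f₁ : (Fin k → F) → (Fin k → F) → F) (hf₁ : Cfsg.Geo.IsSymplecticForm f₁) (hT : Cfsg.Geo.IsTensorPowerFormStructure id (QuadraticMap.polar Q) f₁ e P) (hpure : (∀ xs : Fin t → (Fin k → F), Q (Matrix.mulVec (P : Matrix (Fin n) (Fin n) F) ((fun a : Fin t → Fin k => ∏ i, xs i (a i)) ∘ e)) = 0)) : Cfsg.Geo.IsMaximalIn (Cfsg.Geo.omegaGL Q) (Cfsg.Geo.tensorWreathSubgroup k t e P ⊓ Cfsg.Geo.omegaGL Q) := by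
  classical
  have hk : Even k := CfsgLib.Geometric.Orth.even_of_symp hf₁
  have hcard : n = k ^ t := by
    have h := Fintype.card_congr e
    simpa [Fintype.card_fun] using h
  have hk2 : 2 ≤ k := by
    by_contra hlt
    have h1 : k ^ t ≤ 1 := pow_le_one₀ (Nat.zero_le k) (by omega)
    omega
  refine CfsgLib.Geometric.TensorOrth.isMaximalIn_of_dichotomy hn heven Q hQ hplus k t ht hqt hex1
    hex2 hex3 e P f₁ hf₁ hT hpure fun D hD M hM =>
      CfsgLib.Geometric.TensorOrth.dichotomy ht hk hk2 ?_ ?_ hD hM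
  · by_cases hodd : Odd (Fintype.card F)
    · exact Or.inr ⟨CfsgLib.Geometric.Orth.two_ne_zero_of_odd hodd, hqt hodd⟩
    · refine Or.inl ⟨?_, hex3 hodd⟩
      by_contra h2
      exact hodd (Nat.odd_iff.2 (FiniteField.odd_card_of_char_ne_two fun hc => h2 (by
        have := ringChar.of_eq hc
        exact CharP.cast_eq_zero F 2)))
  · intro h3
    rw [Nat.card_eq_fintype_card] at h3
    have : k ≠ 2 := fun h => hex2 ⟨h3, h⟩
    obtain ⟨r, hr⟩ := hk
    omega

end Cfsg.Agent.S5706
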