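import Cfsg.Statements.S5709
import Cfsg.Agent.Lib.Geometric.OrthTensorMax.EvenOdd
import Cfsg.Agent.Lib.Geometric.OrthTensorMax.Gap
import Cfsg.Agent.Lib.Geometric.UnitaryTensor
import Cfsg.Agent.Lib.Geometric.Orth.Plane
import Cfsg.Agent.Lib.Geometric.Orth.DecompStabMax
-- import your own Cfsg.Agent.* helpers here

set_option autoImplicit false
open Cfsg

namespace Cfsg.Agent.S5709

/-- Let F be a finite field with q elements, n ≥ 13 even, Q a non-degenerate quadratic form on F^n of minus type (no subspace of dimension n/2 is totally singular), and Ω the commutator subgroup of the isometry group of Q, viewed inside GL_n(F). Suppose q is odd and that, through a change of basis P and a bijection of index sets e, the polar form of Q is similar to the tensor product of non-degenerate symmetric bilinear forms f₁ on F^(n₁), n₁ odd and at least 3, and f₂ on F^(n₂), n₂ even and at least 4 with no totally isotropic subspace of dimension n₂/2 (minus type). Unless q = 3 and n₁ = 3, the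 elements of Ω in the stabiliser of this tensor decomposition form a maximal subgroup of Ω. -/
theorem result {F : Type*} [Field F] [Fintype F] {n : ℕ} (hn : 13 ≤ n) (heven : Even n) (Q : (Fin n → F) → F) (hQ : Cfsg.Geo.IsNondegenerateQuadraticForm Q) (hminus : ¬ Cfsg.Geo.IsPlusTypeOn Q ⊤) (hodd : Odd (Fintype.card F)) (n₁ n₂ : ℕ) (h1 : 3 ≤ n₁) (h1o : Odd n₁) (h2 : 4 ≤ n₂) (h2e : Even n₂) (hex : ¬ (Fintype.card F = 3 ∧ n₁ = 3)) (e : (Fin n) ≃ Fin n₁ × Fin n₂) (P : Matrix.GeneralLinearGroup (Fin n) F) (f₁ : (Fin n₁ → F) → (Fin n₁ → F) → F) (f₂ : (Fin n₂ → F) → (Fin n₂ → F) → F) (hf₁ : Cfsg.Geo.IsSymmetricForm f₁) (hf₂ : Cfsg.Geo.IsSymmetricForm f₂) (hf₂m : ¬ Cfsg.Geo.IsPlusTypeOn (fun v : Fin n₂ → F => f₂ v v) ⊤) (hT : Cfsg.Geo.IsTensorFormStructure id (QuadraticMap.polar Q) f₁ f₂ e P) : Cfsg.Geo.IsMaximalIn (Cfsg.Geo.omegaGL Q) (Cfsg.Geo.tensorProductSubgroup n₁ n₂ e P ⊓ Cfsg.Geo.omegaGL Q) := by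
  classical
  have hQn := CfsgLib.Geometric.Orth.nondeg_toQF hQ
  have h2' : (2 : F) ≠ 0 := CfsgLib.Geometric.Orth.two_ne_zero_of_odd hodd
  obtain ⟨c, hc, hform⟩ := CfsgLib.Geometric.Tensor.form_pt e P (σ := RingHom.id F)
    (CfsgLib.Geometric.eq_formOfGram hf₁.bilinear.add_left hf₁.bilinear.smul_left
      (fun x y v => hf₁.bilinear.add_right v x y) fun t v x => hf₁.bilinear.smul_right t v x)
    (CfsgLib.Geometric.eq_formOfGram hf₂.bilinear.add_left hf₂.bilinear.smul_left
      (fun x y v => hf₂.bilinear.add_right v x y) fun t v x => hf₂.bilinear.smul_right t v x) hT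
  have hcard : n = n₁ * n₂ := by simpa using Fintype.card_congr e
  obtain ⟨k₁, hk₁⟩ := h1o
  obtain ⟨k₂, hk₂⟩ := h2e
  have hn₂ : 3 ≤ n₁ := h1
  by_cases hgap : n₁ + 3 ≤ n₂
  · have h6 : 6 ≤ n₂ := by omega
    have hS : CfsgLib.Geometric.OrthTensor.OTensor (CfsgLib.Geometric.Orth.toQF hQ) e P f₁ f₂ c :=
      ⟨⟨h2', hf₁⟩, ⟨h2', hf₂⟩, hc, h1, by omega, fun x x' y y' => by
        rw [CfsgLib.Geometric.Orth.coe_toQF]
        exact hform x x' y y'⟩
    have hq : 4 ≤ n₁ ∨ ∃ t : F, t ≠ 0 ∧ t * t ≠ 1 := by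
      by_cases h5 : 4 ≤ n₁
      · exact Or.inl h5
      refine Or.inr ?_
      by_contra hno
      push Not at hno
      refine hex ⟨?_, by omega⟩
      have hle : Fintype.card F ≤ 3 := by
        have h := Finset.card_le_card (s := (Finset.univ : Finset F))
          (t := ({0, 1, -1} : Finset F)) fun x _ => by
            by_cases hx : x = 0
            · simp [hx]
            · rcases mul_self_eq_one_iff.mp (hno x hx) with h | h <;> simp [h]
        exact h.trans Finset.card_le_three
      obtain ⟨k, hk⟩ := hodd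
      have := Fintype.one_lt_card (α := F)
      omega
    have hline : 5 ≤ n₁ ∨ ∀ u p, u ≠ 0 → f₁ u u = 0 → f₁ u p = 0 → f₁ p p = 0 →
        p ∈ Submodule.span F {u} := by
      by_cases h5 : 5 ≤ n₁
      · exact Or.inl h5
      · exact Or.inr (hS.sym₁.noLine_three (by omega))
    have h := hS.isMaximalIn_gap hQn hgap hq hline
    rwa [CfsgLib.Geometric.Orth.coe_toQF] at h
  · -- the factors are exchanged
    have h5 : 5 ≤ n₁ := by
      by_contra h5
      have h3 : n₁ = 3 := by omega
      rw [hcard, h3] at hn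
      omega
    have hdvd : ¬ n₁ ∣ n₂ := by
      rintro ⟨k, hk⟩
      rcases Nat.lt_or_ge k 2 with hk' | hk'
      · interval_cases k <;> omega
      · have h := Nat.mul_le_mul_left n₁ hk'
        omega
    have hS : CfsgLib.Geometric.OrthTensor.OTensor (CfsgLib.Geometric.Orth.toQF hQ)
        (e.trans (Equiv.prodComm _ _)) P f₂ f₁ c :=
      ⟨⟨h2', hf₂⟩, ⟨h2', hf₁⟩, hc, by omega, h5, fun x x' y y' => by
        rw [CfsgLib.Geometric.Orth.coe_toQF, CfsgLib.Geometric.Tensor.pt_swap,
          CfsgLib.Geometric.Tensor.pt_swap]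
        refine (hform y y' x x').trans ?_
        ring⟩
    have hline : 5 ≤ n₂ ∨ ∀ u p, u ≠ 0 → f₂ u u = 0 → f₂ u p = 0 → f₂ p p = 0 →
        p ∈ Submodule.span F {u} := by
      by_cases h5' : 5 ≤ n₂
      · exact Or.inl h5'
      refine Or.inr fun u p hu0 hu hup hp => ?_
      by_contra hpn
      refine hf₂m ⟨Submodule.span F {u, p}, le_top, fun x hx => ?_, ?_⟩
      · obtain ⟨r, s, rfl⟩ := Submodule.mem_span_pair.mp hx
        show f₂ (r • u + s • p) (r • u + s • p) = 0
        simp only [hS.sym₁.add_left, hS.sym₁.add_right, hS.sym₁.smul_left, hS.sym₁.smul_right,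
          hS.sym₁.symm p u, hu, hup, hp]
        ring
      · have hli : LinearIndependent F ![u, p] := (LinearIndependent.pair_iff' hu0).mpr fun a ha =>
          hpn (Submodule.mem_span_singleton.mpr ⟨a, ha⟩)
        have h6 := finrank_span_eq_card hli
        rw [Fintype.card_fin, Matrix.range_cons_cons_empty] at h6
        rw [h6, finrank_top, Module.finrank_fin_fun]
        omega
    have h := hS.isMaximalIn_even_odd ⟨k₁, hk₁⟩ hdvd hQn ⟨k₂, hk₂⟩ hline
    rwa [CfsgLib.Geometric.Orth.coe_toQF, CfsgLib.Geometric.Tensor.tensorProductSubgroup_swap] at h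

end Cfsg.Agent.S5709
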