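import Cfsg.Statements.S5774
import Cfsg.Agent.Lib.Geometric.SLThree.C6
import Cfsg.Agent.Lib.Geometric.SLThree.Singer
import Cfsg.Agent.Lib.Geometric.SLThree.Monomial
import Cfsg.Agent.Lib.Geometric.SLThree.Quad
import Cfsg.Agent.Lib.Geometric.SLThree.Unitary
import Cfsg.Agent.Lib.Geometric.LinearStab
import Cfsg.Agent.Lib.Geometric.LinearSubfield

/-! The maximal subgroups of geometric type of `SL₃(q)`. -/

set_option autoImplicit false
open Cfsg

namespace Cfsg.Agent.S5774

open CfsgLib.Geometric CfsgLib.Geometric.SLThree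

/-- Maximal subgroups of SL_3(q) of geometric type, for a finite field F with q elements (any q). Each of the following subgroups of SL_3(F), obtained by intersecting SL_3(F) with the stated subgroup of GL_3(F), is a maximal subgroup of SL_3(F): (1) the stabiliser of any proper non-zero subspace of F^3; (2) for q ≥ 5, the stabiliser of any decomposition of F^3 into three independent lines; (3) for q ≠ 4, the normaliser of any subfield of the 3 × 3 matrix algebra of degree 3 over F (a commutative subalgebra of dimension 3 in which every non-zero element is invertible); (4) for every subfield F₀ with |F| = |F₀|^r, r prime, every subfield group (a conjugate of GL_3(F₀) times the scalars of F); (5) for q = p prime with p ≡ 1 mod 3, the normaliser of any absolutely irreducible 3-subgroup R of exponent 3 with centre of order 3, all of whose characteristic abelian subgroups are cyclic, of order 3^(1+2m) for some m ≥ 1, with F the smallest field of characteristic p containing the cube roots of unity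 (so R is extraspecial of order 27); (6) for q odd, the group of similarities of any non-degenerate quadratic form on F^3; (7) the group of similarities of any non-degenerate unitary form on F^3 (these exist exactly when q is a square). -/
theorem result {F : Type*} [Field F] [Fintype F] :
    (∀ W : Submodule F (Fin 3 → F), W ≠ ⊥ → W ≠ ⊤ → Cfsg.Geo.IsMaximalIn (Cfsg.Geo.specialLinear (Fin 3) F) (Cfsg.Geo.subspaceStabilizer W ⊓ Cfsg.Geo.specialLinear (Fin 3) F)) ∧
    (5 ≤ Fintype.card F → ∀ D : Fin 3 → Submodule F (Fin 3 → F), Cfsg.Geo.IsMDecomposition 1 D → Cfsg.Geo.IsMaximalIn (Cfsg.Geo.specialLinear (Fin 3) F) (Cfsg.Geo.decompositionStabilizer D ⊓ Cfsg.Geo.specialLinear (Fin 3) F)) ∧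
    (Fintype.card F ≠ 4 → ∀ K : Subalgebra F (Matrix (Fin 3) (Fin 3) F), Cfsg.Geo.IsFieldSubalgebra 3 K → Cfsg.Geo.IsMaximalIn (Cfsg.Geo.specialLinear (Fin 3) F) (Cfsg.Geo.subalgebraNormalizer K ⊓ Cfsg.Geo.specialLinear (Fin 3) F)) ∧
    (∀ (F₀ : Subfield F) (r : ℕ) (P : Matrix.GeneralLinearGroup (Fin 3) F), r.Prime → Fintype.card F = Nat.card F₀ ^ r → Cfsg.Geo.IsMaximalIn (Cfsg.Geo.specialLinear (Fin 3) F) (Cfsg.Geo.subfieldSubgroup F₀ P ⊓ Cfsg.Geo.specialLinear (Fin 3) F)) ∧
    (∀ (p : ℕ) (R : Subgroup (Matrix.GeneralLinearGroup (Fin 3) F)), p.Prime → Fintype.card F = p → p % 3 = 1 → Cfsg.Geo.IsLinearSymplecticTypeData 3 R → Cfsg.Geo.IsMaximalIn (Cfsg.Geo.specialLinear (Fin 3) F) (Cfsg.Geo.subgroupNormalizer R ⊓ Cfsg.Geo.specialLinear (Fin 3) F)) ∧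
    (Odd (Fintype.card F) → ∀ Q : (Fin 3 → F) → F, Cfsg.Geo.IsNondegenerateQuadraticForm Q → Cfsg.Geo.IsMaximalIn (Cfsg.Geo.specialLinear (Fin 3) F) (Cfsg.Geo.quadSimilarityGroup Q ⊓ Cfsg.Geo.specialLinear (Fin 3) F)) ∧
    (∀ (σ : F ≃+* F) (f : (Fin 3 → F) → (Fin 3 → F) → F), Cfsg.Geo.IsUnitaryForm σ f → Cfsg.Geo.IsMaximalIn (Cfsg.Geo.specialLinear (Fin 3) F) (Cfsg.Geo.similarityGroup f ⊓ Cfsg.Geo.specialLinear (Fin 3) F)) := by
  refine ⟨fun W h0 h1 => subspaceStabilizer_isMaximalIn h0 h1,
    fun hq D hD => monomial_isMaximalIn hq D hD,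
    fun hq K hK => singer_isMaximalIn hq K hK,
    fun F₀ r P hr h => linearSubfield_isMaximalIn' (by simp) F₀ hr
      (by rw [Nat.card_eq_fintype_card]; exact h) P,
    fun p R hp hF hp3 hR => ?_,
    fun hodd Q hQ => quadSimilarity_isMaximalIn hodd Q hQ,
    fun σ f hf => unitary_isMaximalIn σ f hf⟩
  have hne : ∀ n : ℕ, ¬ p ∣ n → (n : F) ≠ 0 := fun n hn h0 => hn (by
    have : Fact p.Prime := ⟨hp⟩
    have : CharP F p := charP_of_card_eq_prime hF
    exact (CharP.cast_eq_zero_iff F p n).mp h0)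
  have hp7 : 7 ≤ p := by
    have := hp.two_le
    rcases (show p = 2 ∨ p = 3 ∨ p = 4 ∨ p = 5 ∨ p = 6 ∨ 7 ≤ p by omega) with
      h | h | h | h | h | h <;> first | omega | (subst h; simp_all (config := { decide := true }))
  have h2 : (2 : F) ≠ 0 := by
    exact_mod_cast hne 2 fun h => by have := Nat.le_of_dvd two_pos h; omega
  have h3 : (3 : F) ≠ 0 := by
    exact_mod_cast hne 3 fun h => by have := Nat.le_of_dvd (by norm_num) h; omega
  have h5 : (5 : F) ≠ 0 := by
    exact_mod_cast hne 5 fun h => by have := Nat.le_of_dvd (by norm_num) h; omega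
  refine ⟨lt_of_le_not_ge inf_le_right fun h => c6_not_sl_le h2 h3 hR.symplecticType hR.absIrred
    (le_trans h inf_le_left), fun M hNM hMS => ?_⟩
  by_cases hT : ∀ v φ h, tv v φ h ∈ M → tv v φ h = 1
  · exact Or.inl (le_antisymm
      (le_inf (c6_le_normalizer h2 h3 h5 hR.symplecticType hR.absIrred hMS hNM hT) hMS) hNM)
  · push Not at hT
    obtain ⟨v, φ, h, hm, hne'⟩ := hT
    exact Or.inr (le_antisymm hMS
      (c6_transvection hp hF h2 h3 hR.symplecticType hR.absIrred hNM hm hne'))

end Cfsg.Agent.S5774
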