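import Cfsg.Statements.S5778
import Cfsg.Agent.Lib.SmallDim.UnitaryPrime
import Cfsg.Agent.Lib.SmallDim.CongruenceUnitary
import Cfsg.Agent.Lib.SmallDim.UnitaryProper
import Cfsg.Agent.Lib.SmallDim.UnitaryThreeFive
import Cfsg.Agent.Lib.SmallDim.UnitaryThreeSympl

set_option autoImplicit false
open Cfsg

namespace Cfsg.Agent.S5778

/-- Every maximal subgroup of SU_3(q), q ≥ 3, is of one of the listed geometric types or lies in the residual class. Let F be the field with q² elements, f the standard unitary form Σ u_i v_i^q on F^3, and H a maximal subgroup of SU_3(q) (the determinant-one isometries of f, inside GL_3(F)). Then H is the intersection with SU_3(q) of one of: the stabiliser of a non-zero subspace on which f vanishes; the stabiliser of a non-degenerate 1-space; for q ≠ 5, the stabiliser of a decomposition into three mutually orthogonal non-degenerate 1-spaces; for q ≠ 3, 5, the normaliser of an adjoint-closed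 degree-3 subfield of the matrix algebra; a subfield group of odd prime index whose F₀-structure carries f; for q odd, q ≥ 7, a subfield group of index 2 whose F₀-structure carries f; for q = p ≡ 2 mod 3 prime with p ≥ 11, the normaliser of an absolutely irreducible subgroup of order 27 with centre of order 3, exponent 3 and all characteristic abelian subgroups cyclic, contained in the similarity group of f — or else H lies in the residual class of the unitary case. -/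
theorem result {F : Type*} [Field F] [Fintype F] (q : ℕ) (hF : Fintype.card F = q ^ 2) (hq : 3 ≤ q) (H : Subgroup (Matrix.GeneralLinearGroup (Fin 3) F)) (hH : Cfsg.Geo.IsMaximalIn (Cfsg.GU 3 F q ⊓ Cfsg.Geo.specialLinear (Fin 3) F) H) :
    (∃ W : Submodule F (Fin 3 → F), W ≠ ⊥ ∧ Cfsg.Geo.IsTotallySingularFor (Cfsg.hermForm 3 F q) W ∧ H = Cfsg.Geo.subspaceStabilizer W ⊓ (Cfsg.GU 3 F q ⊓ Cfsg.Geo.specialLinear (Fin 3) F)) ∨
    (∃ W : Submodule F (Fin 3 → F), W ≠ ⊥ ∧ Cfsg.Geo.IsNondegenerateOn (Cfsg.hermForm 3 F q) W ∧ 2 * Module.finrank F W < 3 ∧ H = Cfsg.Geo.subspaceStabilizer W ⊓ (Cfsg.GU 3 F q ⊓ Cfsg.Geo.specialLinear (Fin 3) F)) ∨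
    (q ≠ 5 ∧ ∃ D : Fin 3 → Submodule F (Fin 3 → F), Cfsg.Geo.IsNondegenerateMDecomposition (Cfsg.hermForm 3 F q) 1 D ∧ H = Cfsg.Geo.decompositionStabilizer D ⊓ (Cfsg.GU 3 F q ⊓ Cfsg.Geo.specialLinear (Fin 3) F)) ∨
    (q ≠ 3 ∧ q ≠ 5 ∧ ∃ K : Subalgebra F (Matrix (Fin 3) (Fin 3) F), Cfsg.Geo.IsFieldSubalgebra 3 K ∧ Cfsg.Geo.IsAdjointClosedFor (Cfsg.hermForm 3 F q) K ∧ H = Cfsg.Geo.subalgebraNormalizer K ⊓ (Cfsg.GU 3 F q ⊓ Cfsg.Geo.specialLinear (Fin 3) F)) ∨
    (∃ (F₀ : Subfield F) (r : ℕ) (P : Matrix.GeneralLinearGroup (Fin 3) F), r.Prime ∧ Odd r ∧ Fintype.card F = Nat.card F₀ ^ r ∧ Cfsg.Geo.IsFormRationalStructure (Cfsg.hermForm 3 F q) F₀ 1 P ∧ H = Cfsg.Geo.subfieldSubgroup F₀ P ⊓ (Cfsg.GU 3 F q ⊓ Cfsg.Geo.specialLinear (Fin 3) F)) ∨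
    (Odd q ∧ 7 ≤ q ∧ ∃ (F₀ : Subfield F) (P : Matrix.GeneralLinearGroup (Fin 3) F), Fintype.card F = Nat.card F₀ ^ 2 ∧ Cfsg.Geo.IsFormRationalStructure (Cfsg.hermForm 3 F q) F₀ 1 P ∧ H = Cfsg.Geo.subfieldSubgroup F₀ P ⊓ (Cfsg.GU 3 F q ⊓ Cfsg.Geo.specialLinear (Fin 3) F)) ∨
    (∃ (p : ℕ) (R : Subgroup (Matrix.GeneralLinearGroup (Fin 3) F)), p.Prime ∧ q = p ∧ p % 3 = 2 ∧ 11 ≤ p ∧ Cfsg.Geo.IsSymplecticTypeGroup 3 R ∧ Cfsg.Geo.ActsAbsolutelyIrreducibly (Cfsg.Geo.matrixSet R) ∧ R ≤ Cfsg.Geo.similarityGroup (Cfsg.hermForm 3 F q) ∧ Nat.card R = 27 ∧ Nat.card (Subgroup.center R) = 3 ∧ H = Cfsg.Geo.subgroupNormalizer R ⊓ (Cfsg.GU 3 F q ⊓ Cfsg.Geo.specialLinear (Fin 3) F)) ∨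
    Cfsg.Geo.InUnitaryResidualClass H := by
  obtain ⟨σ, hu⟩ := CfsgLib.SmallDim.exists_unitarySetup 3 hF
  rcases CfsgLib.SmallDim.unitary_prime Nat.prime_three (by decide) hF (Or.inl hq) hH with
    h | h | ⟨D, hD, hH'⟩ | ⟨K, hK, hadj, hH'⟩ | h | ⟨hodd, K, P, hK, hform, hH'⟩ |
      ⟨p, k, R, hp, hchar, hk, hqp, hdvd, hplus, hmin, hRt, hRa, hRG, hc1, hc2, hH'⟩ | h
  · exact Or.inl h
  · exact Or.inr (Or.inl h)
  · by_cases h5 : q = 5
    · subst h5
      haveI := CfsgLib.SmallDim.UThree.charP_of_card (q := 5) (by norm_num) hF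
      exact (CfsgLib.SmallDim.UThree.no_frame_q5 hu hH hD hH').elim
    · exact Or.inr (Or.inr (Or.inl ⟨h5, D, hD, hH'⟩))
  · by_cases h3 : q = 3
    · subst h3
      exact (CfsgLib.SmallDim.UThree.no_field_q3 hu hH hK hadj hH').elim
    by_cases h5 : q = 5
    · subst h5
      haveI := CfsgLib.SmallDim.UThree.charP_of_card (q := 5) (by norm_num) hF
      exact (CfsgLib.SmallDim.UThree.no_field_q5 hu hH hK hadj hH').elim
    exact Or.inr (Or.inr (Or.inr (Or.inl ⟨h3, h5, K, hK, hadj, hH'⟩)))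
  · exact Or.inr (Or.inr (Or.inr (Or.inr (Or.inl h))))
  · by_cases h3 : q = 3
    · subst h3
      obtain ⟨D, hD, hle⟩ := CfsgLib.SmallDim.UThree.real_monomial_three hu hK hform
      refine Or.inr (Or.inr (Or.inl ⟨by norm_num, D, hD, CfsgLib.SmallDim.IsMaximalIn.eq_inf hH ?_
        (hu.not_le_decompositionStabilizer le_rfl (Or.inl le_rfl) hD)⟩))
      rw [hH']
      exact fun g hg => hle ⟨hg.1, hg.2.1⟩
    by_cases h5 : q = 5
    · subst h5
      haveI := CfsgLib.SmallDim.UThree.charP_of_card (q := 5) (by norm_num) hF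
      exact (CfsgLib.SmallDim.UThree.no_real_q5 hu hH hK hform hH').elim
    have h7 : 7 ≤ q := by
      obtain ⟨m, rfl⟩ := hodd
      omega
    exact Or.inr (Or.inr (Or.inr (Or.inr (Or.inr (Or.inl ⟨hodd, h7, K, P, hK, hform, hH'⟩)))))
  · obtain ⟨rfl, hp3⟩ := CfsgLib.SmallDim.exponent_even_three hp hk hdvd hplus hmin
    rw [pow_one] at hqp
    by_cases h5 : q = 5
    · subst h5
      haveI := CfsgLib.SmallDim.UThree.charP_of_card (q := 5) (by norm_num) hF
      exact (CfsgLib.SmallDim.UThree.no_sympl_q5 hu hH hRt hRa hRG (by rw [hc1]; norm_num) hc2 hH').elim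
    have h11 : 11 ≤ p := by
      by_contra hlt
      have : p < 11 := by omega
      interval_cases p <;> first | omega | norm_num at hp
    exact Or.inr (Or.inr (Or.inr (Or.inr (Or.inr (Or.inr (Or.inl
      ⟨p, R, hp, hqp, hp3, h11, hRt, hRa, hRG.trans (CfsgLib.SmallDim.GU_le_similarityGroup _ _),
        by rw [hc1]; norm_num, hc2, hH'⟩))))))
  · exact Or.inr (Or.inr (Or.inr (Or.inr (Or.inr (Or.inr (Or.inr h))))))

end Cfsg.Agent.S5778
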