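import Cfsg.Statements.S5787
import Cfsg.Agent.Lib.SmallDim.SympFourThree

set_option autoImplicit false
open Cfsg

namespace Cfsg.Agent.S5787

/-- Every maximal subgroup of Sp_4(q), q odd, is of one of the listed geometric types or lies in the residual class. Let F be a finite field of odd order q, f the standard alternating form on F^4 (coordinates Fin 2 ⊕ Fin 2), and H a maximal subgroup of the isometry group Sp_4(F) (inside GL_4(F)). Then H is the intersection with Sp_4(F) of one of: the stabiliser of a non-zero totally isotropic subspace; the stabiliser of a decomposition into two orthogonal non-degenerate 2-spaces; for q ≥ 5, of a decomposition into two totally isotropic 2-spaces; the normaliser of a degree-2 subfield K of the matrix algebra, self-adjoint with f(k v, v) = 0; for q ≥ 5, the normaliser of a degree-2 subfield closed under adjoints but not self-adjoint; a subfield group whose F₀-structure carries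 a non-zero multiple of f, |F| = |F₀|^r with r prime; for q = p prime, the normaliser of an absolutely irreducible symplectic-type 2-group of exponent 4, order 32, centre of order 2 and minus type inside the similarity group of f — or else H lies in the residual class of the symplectic case. -/
theorem result {F : Type*} [Field F] [Fintype F] (hodd : Odd (Fintype.card F)) (H : Subgroup (Matrix.GeneralLinearGroup (Fin 2 ⊕ Fin 2) F)) (hH : Cfsg.Geo.IsMaximalIn (Cfsg.spGL 2 F) H) :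
    (∃ W : Submodule F (Fin 2 ⊕ Fin 2 → F), W ≠ ⊥ ∧ Cfsg.Geo.IsTotallySingularFor (Cfsg.sympForm 2 F) W ∧ H = Cfsg.Geo.subspaceStabilizer W ⊓ Cfsg.spGL 2 F) ∨
    (∃ D : Fin 2 → Submodule F (Fin 2 ⊕ Fin 2 → F), Cfsg.Geo.IsNondegenerateMDecomposition (Cfsg.sympForm 2 F) 2 D ∧ H = Cfsg.Geo.decompositionStabilizer D ⊓ Cfsg.spGL 2 F) ∨
    (5 ≤ Fintype.card F ∧ ∃ D : Fin 2 → Submodule F (Fin 2 ⊕ Fin 2 → F), Cfsg.Geo.IsMDecomposition 2 D ∧ (∀ i, Cfsg.Geo.IsTotallySingularFor (Cfsg.sympForm 2 F) (D i)) ∧ H = Cfsg.Geo.decompositionStabilizer D ⊓ Cfsg.spGL 2 F) ∨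
    (∃ K : Subalgebra F (Matrix (Fin 2 ⊕ Fin 2) (Fin 2 ⊕ Fin 2) F), Cfsg.Geo.IsFieldSubalgebra 2 K ∧ Cfsg.Geo.IsSelfAdjointFor (Cfsg.sympForm 2 F) K ∧ (∀ k ∈ K, ∀ v : (Fin 2 ⊕ Fin 2 → F), (Cfsg.sympForm 2 F) (Matrix.mulVec k v) v = 0) ∧ H = Cfsg.Geo.subalgebraNormalizer K ⊓ Cfsg.spGL 2 F) ∨
    (5 ≤ Fintype.card F ∧ ∃ K : Subalgebra F (Matrix (Fin 2 ⊕ Fin 2) (Fin 2 ⊕ Fin 2) F), Cfsg.Geo.IsFieldSubalgebra 2 K ∧ Cfsg.Geo.IsAdjointClosedFor (Cfsg.sympForm 2 F) K ∧ ¬ Cfsg.Geo.IsSelfAdjointFor (Cfsg.sympForm 2 F) K ∧ H = Cfsg.Geo.subalgebraNormalizer K ⊓ Cfsg.spGL 2 F) ∨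
    (∃ (F₀ : Subfield F) (r : ℕ) (P : Matrix.GeneralLinearGroup (Fin 2 ⊕ Fin 2) F) (ζ : F), r.Prime ∧ Fintype.card F = Nat.card F₀ ^ r ∧ ζ ≠ 0 ∧ Cfsg.Geo.IsFormRationalStructure (Cfsg.sympForm 2 F) F₀ ζ P ∧ H = Cfsg.Geo.subfieldSubgroup F₀ P ⊓ Cfsg.spGL 2 F) ∨
    (∃ (p : ℕ) (R : Subgroup (Matrix.GeneralLinearGroup (Fin 2 ⊕ Fin 2) F)), p.Prime ∧ Fintype.card F = p ∧ Cfsg.Geo.IsSymplecticTypeGroup 2 R ∧ Cfsg.Geo.ActsAbsolutelyIrreducibly (Cfsg.Geo.matrixSet R) ∧ R ≤ Cfsg.Geo.similarityGroup (Cfsg.sympForm 2 F) ∧ Nat.card R = 32 ∧ Nat.card (Subgroup.center R) = 2 ∧ Cfsg.Geo.IsOfMinusType 2 R ∧ H = Cfsg.Geo.subgroupNormalizer R ⊓ Cfsg.spGL 2 F) ∨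
    Cfsg.Geo.InSymplecticResidualClass H := by
  classical
  rcases CfsgLib.SmallDim.symp_maximal_cases (by omega) hH with h | ⟨W, h0, hW, hlt, hev, h⟩ |
      ⟨t, k, D, htk, hk, ht, hD, h3, h⟩ | ⟨D, hodd', hD, hts, h⟩ | ⟨r, K, hr, hrn, hr2, hK, hsa, halt, h⟩ |
      ⟨K, hodd', hK, hadj, hnsa, h⟩ | ⟨n₁, n₂, e, P, f₁, f₂, hodd', hnn, h₁, he₁, h₂, hf₁, hf₂, hts, h⟩ | h |
      ⟨R, p, k, hp, hpodd, hFp, hdim, hR, habs, hsim, hcard, hz, hminus, h⟩ |
      ⟨k, t, e, P, f₁, hodd', hkt, hk, hk2, ht, ht3, hne, hf₁, hts, h⟩ | ⟨Q, hev, hQ, hpol, h⟩ | h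
  · exact Or.inl h
  · exfalso
    obtain ⟨j, hj⟩ := hev
    exact h0 (Submodule.finrank_eq_zero.1 (by omega))
  · obtain ⟨rfl, rfl⟩ : t = 2 ∧ k = 2 := by
      obtain ⟨j, rfl⟩ := hk
      have h5 : t * j = 2 := by linarith
      rcases (Nat.dvd_prime Nat.prime_two).1 (Dvd.intro j h5) with ht' | ht'
      · omega
      · subst ht'
        exact ⟨rfl, by omega⟩
    exact Or.inr (Or.inl ⟨D, hD, h⟩)
  · by_cases h5 : 5 ≤ Fintype.card F
    · exact Or.inr (Or.inr (Or.inl ⟨h5, D, hD, hts, h⟩))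
    · have hq : Fintype.card F = 3 := by
        obtain ⟨j, hj⟩ := hodd
        have := Fintype.one_lt_card (α := F)
        omega
      obtain ⟨D', hD', hle⟩ := CfsgLib.SmallDim.planes_three hq hH.1.le hD hts (h.le.trans inf_le_left)
      exact Or.inr (Or.inl ⟨D', hD', CfsgLib.SmallDim.IsMaximalIn.eq_inf hH hle
        (CfsgLib.SmallDim.sp_not_le_decompositionStabilizer hD'.decomp le_rfl)⟩)
  · obtain rfl : r = 2 := by
      rcases (Nat.Prime.dvd_mul hr).1 hrn with h' | h' <;>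
        exact (Nat.prime_dvd_prime_iff_eq hr Nat.prime_two).1 h'
    exact Or.inr (Or.inr (Or.inr (Or.inl ⟨K, hK, hsa, halt, h⟩)))
  · by_cases h5 : 5 ≤ Fintype.card F
    · exact Or.inr (Or.inr (Or.inr (Or.inr (Or.inl ⟨h5, K, hK, hadj, hnsa, h⟩))))
    · have hq : Fintype.card F = 3 := by
        obtain ⟨j, hj⟩ := hodd
        have := Fintype.one_lt_card (α := F)
        omega
      obtain ⟨R, hR, hRsp, hle⟩ :=
        CfsgLib.SmallDim.unitary_three hq hH.1.le hK hadj hnsa (h.le.trans inf_le_left)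
      obtain ⟨hst, habs, hsim, hcard, hz, hminus, heq⟩ :=
        CfsgLib.SmallDim.pauli_maximal hq (k := 2) le_rfl (by norm_num) hH hR hRsp hle
      exact Or.inr (Or.inr (Or.inr (Or.inr (Or.inr (Or.inr (Or.inl
        ⟨3, R, Nat.prime_three, hq, hst, habs, hsim, hcard.trans (by norm_num), hz, hminus, heq⟩))))))
  · exfalso
    have := Nat.mul_le_mul h₁ h₂
    omega
  · exact Or.inr (Or.inr (Or.inr (Or.inr (Or.inr (Or.inl h)))))
  · obtain rfl : k = 2 := by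
      rcases Nat.lt_or_ge k 3 with hk | hk
      · interval_cases k <;> omega
      · have := Nat.pow_le_pow_right (show 1 ≤ 2 by omega) hk
        omega
    exact Or.inr (Or.inr (Or.inr (Or.inr (Or.inr (Or.inr (Or.inl
      ⟨p, R, hp, hFp, hR, habs, hsim, hcard.trans (by norm_num), hz, hminus, h⟩))))))
  · exfalso
    have h8 := (Nat.pow_le_pow_left hk2 3).trans (Nat.pow_le_pow_right (show 1 ≤ k by omega) ht3)
    omega
  · exact absurd hodd hev
  · exact Or.inr (Or.inr (Or.inr (Or.inr (Or.inr (Or.inr (Or.inr h))))))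

end Cfsg.Agent.S5787
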