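import Cfsg.Statements.S5789
import Cfsg.Agent.Lib.Geometric.SympStab
import Cfsg.Agent.Lib.Geometric.SympDecomp
import Cfsg.Agent.Lib.Geometric.SympSubfield
import Cfsg.Agent.Lib.Geometric.SympQuadFour
import Cfsg.Agent.Lib.Geometric.ExtField.SympMax

set_option autoImplicit false
open Cfsg

namespace Cfsg.Agent.S5789

/-- Maximal subgroups of Sp_4(q) of geometric type, q ≥ 4 even. Let F be a finite field of even order q ≥ 4, f the standard alternating form on F^4 (coordinates Fin 2 ⊕ Fin 2) and Sp_4(F) its isometry group inside GL_4(F). Each of the following, intersected with Sp_4(F), is a maximal subgroup of Sp_4(F): (1) the stabiliser of any non-zero totally isotropic subspace (totally isotropic 1-spaces and 2-spaces); (2) the stabiliser of any decomposition of F^4 into two mutually orthogonal non-degenerate 2-spaces; (3) the normaliser of any degree-2 subfield K of the matrix algebra whose elements are self-adjoint for f with f(k v,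 v) = 0 for all k in K and all v; (4) every subfield group for a subfield F₀ with |F| = |F₀|^r, r prime, whose F₀-structure carries a non-zero scalar multiple of f; (5) the similarity group of any non-degenerate quadratic form whose polar form is f (either Witt type); its intersection with Sp_4(F) is the orthogonal group of that form. -/
theorem result {F : Type*} [Field F] [Fintype F] (heven : ¬ Odd (Fintype.card F)) (h4 : 4 ≤ Fintype.card F) :
    (∀ W : Submodule F (Fin 2 ⊕ Fin 2 → F), W ≠ ⊥ → Cfsg.Geo.IsTotallySingularFor (Cfsg.sympForm 2 F) W → Cfsg.Geo.IsMaximalIn (Cfsg.spGL 2 F) (Cfsg.Geo.subspaceStabilizer W ⊓ Cfsg.spGL 2 F)) ∧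
    (∀ D : Fin 2 → Submodule F (Fin 2 ⊕ Fin 2 → F), Cfsg.Geo.IsNondegenerateMDecomposition (Cfsg.sympForm 2 F) 2 D → Cfsg.Geo.IsMaximalIn (Cfsg.spGL 2 F) (Cfsg.Geo.decompositionStabilizer D ⊓ Cfsg.spGL 2 F)) ∧
    (∀ K : Subalgebra F (Matrix (Fin 2 ⊕ Fin 2) (Fin 2 ⊕ Fin 2) F), Cfsg.Geo.IsFieldSubalgebra 2 K → Cfsg.Geo.IsSelfAdjointFor (Cfsg.sympForm 2 F) K → (∀ k ∈ K, ∀ v : (Fin 2 ⊕ Fin 2 → F), (Cfsg.sympForm 2 F) (Matrix.mulVec k v) v = 0) → Cfsg.Geo.IsMaximalIn (Cfsg.spGL 2 F) (Cfsg.Geo.subalgebraNormalizer K ⊓ Cfsg.spGL 2 F)) ∧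
    (∀ (F₀ : Subfield F) (r : ℕ) (P : Matrix.GeneralLinearGroup (Fin 2 ⊕ Fin 2) F) (ζ : F), r.Prime → Fintype.card F = Nat.card F₀ ^ r → ζ ≠ 0 → Cfsg.Geo.IsFormRationalStructure (Cfsg.sympForm 2 F) F₀ ζ P → Cfsg.Geo.IsMaximalIn (Cfsg.spGL 2 F) (Cfsg.Geo.subfieldSubgroup F₀ P ⊓ Cfsg.spGL 2 F)) ∧
    (∀ Q : (Fin 2 ⊕ Fin 2 → F) → F, Cfsg.Geo.IsNondegenerateQuadraticForm Q → (∀ u v : (Fin 2 ⊕ Fin 2 → F), QuadraticMap.polar Q u v = (Cfsg.sympForm 2 F) u v) → Cfsg.Geo.IsMaximalIn (Cfsg.spGL 2 F) (Cfsg.Geo.quadSimilarityGroup Q ⊓ Cfsg.spGL 2 F)) := by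


  have hf := CfsgLib.Geometric.isSymplecticForm_sympForm 2 F
  have hdim : 4 ≤ Fintype.card (Fin 2 ⊕ Fin 2) := by simp
  have hchar : ringChar F = 2 := by
    by_contra h
    exact heven (Nat.odd_iff.mpr (FiniteField.odd_card_of_char_ne_two h))
  obtain ⟨μ, hμ0, hμ1⟩ : ∃ μ : F, μ ≠ 0 ∧ μ ≠ 1 := by
    classical
    by_contra h
    push Not at h
    have : Fintype.card F ≤ 2 := by
      rw [← Finset.card_univ]
      refine (Finset.card_le_card (t := {0, 1}) fun x _ => ?_).trans Finset.card_le_two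
      by_cases hx : x = 0
      · simp [hx]
      · simp [h x hx]
    omega
  refine ⟨fun W hW hts => ?_, fun D hD => ?_, fun K hK hsa halt => ?_,
    fun F₀ r P ζ hr hcard hζ hP => ?_, fun Q hQ hpol => ?_⟩
  · exact CfsgLib.Geometric.Symp.stab_isMaximalIn_of_totallySingular hf hW hts
  · exact CfsgLib.Geometric.Symp.decompStab_isMaximalIn hf hD (by omega)
  · letI := CfsgLib.Geometric.ExtF.fieldOfSubalg hK Nat.prime_two.ne_zero
    have : Finite K := Finite.of_injective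
      (fun x : K => (x : Matrix (Fin 2 ⊕ Fin 2) (Fin 2 ⊕ Fin 2) F)) Subtype.val_injective
    exact CfsgLib.Geometric.ExtF.symp_maximal' hf
      (show (Module.finrank F K).Prime by rw [hK.finrank_eq]; exact Nat.prime_two)
      (Or.inr ⟨by simp, Or.inr ⟨μ, hμ0, hμ1⟩⟩) K.val K
      (fun k => ⟨fun hk => ⟨⟨k, hk⟩, rfl⟩, fun ⟨a, ha⟩ => ha ▸ a.2⟩) hsa halt
  · exact CfsgLib.Geometric.sympSubfield_isMaximalIn' hdim hf hζ hP hr
      (by rwa [Nat.card_eq_fintype_card])
  · exact CfsgLib.Geometric.Symp.quad_isMaximalIn_four hf hchar hQ.smul hpol hdim hμ0 hμ1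

end Cfsg.Agent.S5789
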