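import Cfsg.Statements.S5791
import Cfsg.Agent.Lib.SpFourResidual.Main
import Cfsg.Agent.Lib.SpFourResidual.ExclusionSmall
import Cfsg.Agent.Lib.SpFourResidual.ExclusionSix

set_option autoImplicit false
open Cfsg

namespace Cfsg.Agent.S5791

/-- The maximal subgroups of Sp_4(q), q ≥ 4 even, in the residual class. Let F be a finite field of even order q ≥ 4 and H a maximal subgroup of Sp_4(F) (isometries of the standard alternating form on F^4) lying in the residual class of the symplectic case. Then q = 2^(2m+1) with m ≥ 1 and the perfect socle preimage P of H is, modulo scalars, isomorphic to the Suzuki group over F (the subgroup Sz(F, θ) of the four-dimensional symplectic group with θ(x) = x^(2^(m+1))). -/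
theorem result {F : Type*} [Field F] [Fintype F] (heven : ¬ Odd (Fintype.card F)) (h4 : 4 ≤ Fintype.card F) (H : Subgroup (Matrix.GeneralLinearGroup (Fin 2 ⊕ Fin 2) F)) (hH : Cfsg.Geo.IsMaximalIn (Cfsg.spGL 2 F) H) (hS : Cfsg.Geo.InSymplecticResidualClass H) :
    ∃ (P : Subgroup (Matrix.GeneralLinearGroup (Fin 2 ⊕ Fin 2) F)) (m : ℕ), Cfsg.Geo.IsResidualCore H P ∧ 1 ≤ m ∧ Fintype.card F = 2 ^ (2 * m + 1) ∧
    Nonempty ((P ⧸ (Cfsg.Geo.scalars (Fin 2 ⊕ Fin 2) F).subgroupOf P) ≃* Cfsg.Lie.Sz F (2 ^ (m + 1))) := by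
  classical
  haveI : CharP F 2 := by
    obtain ⟨p, hp⟩ := CharP.exists F
    obtain ⟨n, hpp, hq⟩ := FiniteField.card F p
    rcases hpp.eq_two_or_odd' with rfl | hodd
    · exact hp
    · exact absurd (hq ▸ hodd.pow) heven
  exact CfsgLib.SpFourResidual.residual_classify hH hS fun Q G =>
    ⟨fun K _ _ hK e => CfsgLib.SpFourResidual.not_psl3_four G hK e,
      fun K _ _ hp h7 e => CfsgLib.SpFourResidual.not_psl2_prime G hp h7 e,
      fun K _ _ hK e => CfsgLib.SpFourResidual.not_psl2_nine G
        (by rw [Nat.card_eq_fintype_card]; exact h4) hK e⟩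

end Cfsg.Agent.S5791
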