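import Cfsg.Statements.S5802
import Cfsg.Agent.Lib.SmallDim.UnitarySmallQ
import Cfsg.Agent.Lib.SmallDim.UnitaryTensor
import Cfsg.Agent.Lib.SmallDim.UnitaryGeneral
import Cfsg.Agent.Lib.SmallDim.UnitarySix
import Cfsg.Agent.Lib.SmallDim.UnitaryFieldSix

set_option autoImplicit false
open Cfsg

namespace Cfsg.Agent.S5802

/-- Every maximal subgroup of SU_6(q) is of one of the listed geometric types or lies in the residual class. Let F be the field with q² elements, f the standard unitary form Σ u_i v_i^q on F^6, and H a maximal subgroup of SU_6(q) (inside GL_6(F)). Then H is the intersection with SU_6(q) of one of: the stabiliser of a non-zero totally isotropic subspace; the stabiliser of a non-degenerate 1- or 2-space; for q ≥ 3, the stabiliser of a decomposition into six mutually orthogonal non-degenerate 1-spaces; for q ≥ 3, of a decomposition into three mutually orthogonal non-degenerate 2-spaces;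 of a decomposition into two orthogonal non-degenerate 3-spaces; of a decomposition into two totally isotropic 3-spaces; for q ≥ 3, the normaliser of an adjoint-closed degree-3 subfield of the matrix algebra; for q ≥ 3, the stabiliser of a tensor decomposition of f into unitary forms on F^2 and F^3; a subfield group of odd prime index whose F₀-structure carries f; a subfield group of index 2 and symplectic type; for q odd, a subfield group of index 2 and orthogonal type — or else H lies in the residual class of the unitary case. -/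
theorem result {F : Type*} [Field F] [Fintype F] (q : ℕ) (hF : Fintype.card F = q ^ 2) (H : Subgroup (Matrix.GeneralLinearGroup (Fin 6) F)) (hH : Cfsg.Geo.IsMaximalIn (Cfsg.GU 6 F q ⊓ Cfsg.Geo.specialLinear (Fin 6) F) H) :
    (∃ W : Submodule F (Fin 6 → F), W ≠ ⊥ ∧ Cfsg.Geo.IsTotallySingularFor (Cfsg.hermForm 6 F q) W ∧ H = Cfsg.Geo.subspaceStabilizer W ⊓ (Cfsg.GU 6 F q ⊓ Cfsg.Geo.specialLinear (Fin 6) F)) ∨
    (∃ W : Submodule F (Fin 6 → F), W ≠ ⊥ ∧ Cfsg.Geo.IsNondegenerateOn (Cfsg.hermForm 6 F q) W ∧ 2 * Module.finrank F W < 6 ∧ H = Cfsg.Geo.subspaceStabilizer W ⊓ (Cfsg.GU 6 F q ⊓ Cfsg.Geo.specialLinear (Fin 6) F)) ∨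
    (3 ≤ q ∧ ∃ D : Fin 6 → Submodule F (Fin 6 → F), Cfsg.Geo.IsNondegenerateMDecomposition (Cfsg.hermForm 6 F q) 1 D ∧ H = Cfsg.Geo.decompositionStabilizer D ⊓ (Cfsg.GU 6 F q ⊓ Cfsg.Geo.specialLinear (Fin 6) F)) ∨
    (3 ≤ q ∧ ∃ D : Fin 3 → Submodule F (Fin 6 → F), Cfsg.Geo.IsNondegenerateMDecomposition (Cfsg.hermForm 6 F q) 2 D ∧ H = Cfsg.Geo.decompositionStabilizer D ⊓ (Cfsg.GU 6 F q ⊓ Cfsg.Geo.specialLinear (Fin 6) F)) ∨
    (∃ D : Fin 2 → Submodule F (Fin 6 → F), Cfsg.Geo.IsNondegenerateMDecomposition (Cfsg.hermForm 6 F q) 3 D ∧ H = Cfsg.Geo.decompositionStabilizer D ⊓ (Cfsg.GU 6 F q ⊓ Cfsg.Geo.specialLinear (Fin 6) F)) ∨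
    (∃ D : Fin 2 → Submodule F (Fin 6 → F), Cfsg.Geo.IsMDecomposition 3 D ∧ (∀ i, Cfsg.Geo.IsTotallySingularFor (Cfsg.hermForm 6 F q) (D i)) ∧ H = Cfsg.Geo.decompositionStabilizer D ⊓ (Cfsg.GU 6 F q ⊓ Cfsg.Geo.specialLinear (Fin 6) F)) ∨
    (3 ≤ q ∧ ∃ K : Subalgebra F (Matrix (Fin 6) (Fin 6) F), Cfsg.Geo.IsFieldSubalgebra 3 K ∧ Cfsg.Geo.IsAdjointClosedFor (Cfsg.hermForm 6 F q) K ∧ H = Cfsg.Geo.subalgebraNormalizer K ⊓ (Cfsg.GU 6 F q ⊓ Cfsg.Geo.specialLinear (Fin 6) F)) ∨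
    (3 ≤ q ∧ ∃ (e : Fin 6 ≃ Fin 2 × Fin 3) (P : Matrix.GeneralLinearGroup (Fin 6) F) (f₁ : (Fin 2 → F) → (Fin 2 → F) → F) (f₂ : (Fin 3 → F) → (Fin 3 → F) → F), Cfsg.Geo.IsUnitaryFormPow q f₁ ∧ Cfsg.Geo.IsUnitaryFormPow q f₂ ∧ Cfsg.Geo.IsTensorFormStructure (fun x : F => x ^ q) (Cfsg.hermForm 6 F q) f₁ f₂ e P ∧ H = Cfsg.Geo.tensorProductSubgroup 2 3 e P ⊓ (Cfsg.GU 6 F q ⊓ Cfsg.Geo.specialLinear (Fin 6) F)) ∨
    (∃ (F₀ : Subfield F) (r : ℕ) (P : Matrix.GeneralLinearGroup (Fin 6) F), r.Prime ∧ Odd r ∧ Fintype.card F = Nat.card F₀ ^ r ∧ Cfsg.Geo.IsFormRationalStructure (Cfsg.hermForm 6 F q) F₀ 1 P ∧ H = Cfsg.Geo.subfieldSubgroup F₀ P ⊓ (Cfsg.GU 6 F q ⊓ Cfsg.Geo.specialLinear (Fin 6) F)) ∨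
    (∃ (F₀ : Subfield F) (P : Matrix.GeneralLinearGroup (Fin 6) F) (ζ : F), Fintype.card F = Nat.card F₀ ^ 2 ∧ ζ ≠ 0 ∧ ζ + ζ ^ q = 0 ∧ Cfsg.Geo.IsFormRationalStructure (Cfsg.hermForm 6 F q) F₀ ζ P ∧ (∀ u : Fin 6 → F, (∀ i, u i ∈ F₀) → (Cfsg.hermForm 6 F q) (Matrix.mulVec (P : Matrix (Fin 6) (Fin 6) F) u) (Matrix.mulVec (P : Matrix (Fin 6) (Fin 6) F) u) = 0) ∧ H = Cfsg.Geo.subfieldSubgroup F₀ P ⊓ (Cfsg.GU 6 F q ⊓ Cfsg.Geo.specialLinear (Fin 6) F)) ∨
    (Odd q ∧ ∃ (F₀ : Subfield F) (P : Matrix.GeneralLinearGroup (Fin 6) F), Fintype.card F = Nat.card F₀ ^ 2 ∧ Cfsg.Geo.IsFormRationalStructure (Cfsg.hermForm 6 F q) F₀ 1 P ∧ H = Cfsg.Geo.subfieldSubgroup F₀ P ⊓ (Cfsg.GU 6 F q ⊓ Cfsg.Geo.specialLinear (Fin 6) F)) ∨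
    Cfsg.Geo.InUnitaryResidualClass H := by
  classical
  obtain ⟨σ, hu⟩ := CfsgLib.SmallDim.exists_unitarySetup 6 hF
  have hG : H ≤ Cfsg.GU 6 F q := hH.1.le.trans inf_le_left
  have h2q : q = 2 ∨ 3 ≤ q := by have := hu.two_le; omega
  rcases hu.unitary_general (by omega) hH with h | h | ⟨t, m, D, htm, hD, hHD⟩ | ⟨m, D, hm, hD, hts, hHD⟩ |
    ⟨r, K, hr, hodd, hdvd, hK, hadj, hHK⟩ | ⟨n₁, n₂, e, P, hn₁, h12, hne, hP, hHP⟩ | h | h | h |
    ⟨R, r, m, hR, -, -⟩ | ⟨N, k, L, m, e, P, -, -, -, -, hk, hm, hmk, -⟩ | h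
  · exact Or.inl h
  · exact Or.inr (Or.inl h)
  · have hm6 : m ∣ 6 := ⟨t, by rw [mul_comm]; exact htm.symm⟩
    have hm' : m = 1 ∨ m = 2 ∨ m = 3 ∨ m = 6 := by
      have := Nat.le_of_dvd (by norm_num) hm6
      interval_cases m <;> omega
    rcases hm' with rfl | rfl | rfl | rfl
    · obtain rfl : t = 6 := by omega
      rcases h2q with h2 | h3
      · exact (hu.lines_two_not_maximal h2 hH hD (hHD.le.trans inf_le_left)).elim
      · exact Or.inr (Or.inr (Or.inl ⟨h3, D, hD, hHD⟩))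
    · obtain rfl : t = 3 := by omega
      rcases h2q with h2 | h3
      · obtain ⟨E, hE, hle⟩ := hu.refine_planes h2 hG hD (hHD.le.trans inf_le_left)
        exact (hu.lines_two_not_maximal h2 hH hE hle).elim
      · exact Or.inr (Or.inr (Or.inr (Or.inl ⟨h3, D, hD, hHD⟩)))
    · obtain rfl : t = 2 := by omega
      exact Or.inr (Or.inr (Or.inr (Or.inr (Or.inl ⟨D, hD, hHD⟩))))
    · have := hD.decomp.two_le; omega
  · obtain rfl : m = 3 := by omega
    exact Or.inr (Or.inr (Or.inr (Or.inr (Or.inr (Or.inl ⟨D, hD, hts, hHD⟩)))))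
  · obtain rfl : r = 3 := by
      obtain ⟨j, hj⟩ := hodd
      have := hr.two_le
      have := Nat.le_of_dvd (by norm_num) hdvd
      interval_cases r <;> omega
    rcases h2q with h2 | h3
    · obtain ⟨F₀, P, ζ, hc, hζ0, hζ, hform, hiso, hle⟩ :=
        hu.cubic_field_symplectic h2 hK hadj hH.1.le (hHK.le.trans inf_le_left)
      refine Or.inr (Or.inr (Or.inr (Or.inr (Or.inr (Or.inr (Or.inr (Or.inr (Or.inr (Or.inl ⟨F₀, P, ζ, hc, hζ0, hζ, hform, hiso, CfsgLib.SmallDim.IsMaximalIn.eq_inf hH hle (hu.not_le_subfieldSubgroup (by norm_num) ?_ P)⟩)))))))))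
      rintro rfl
      rw [show Nat.card (⊤ : Subfield F) = Nat.card F from
        Nat.card_congr (Equiv.subtypeUnivEquiv fun x => Subfield.mem_top x), Nat.card_eq_fintype_card] at hc
      exact (lt_self_pow₀ Fintype.one_lt_card (by norm_num)).ne hc
    · exact Or.inr (Or.inr (Or.inr (Or.inr (Or.inr (Or.inr (Or.inl ⟨h3, K, hK, hadj, hHK⟩))))))
  · obtain rfl : n₁ = 2 := by
      have : n₁ * n₁ ≤ 6 := hne ▸ Nat.mul_le_mul_left n₁ h12
      nlinarith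
    obtain rfl : n₂ = 3 := by omega
    rcases h2q with h2 | h3
    · obtain ⟨D, hD, hle⟩ := hu.tensor_two_decomposition h2 (by norm_num) (e := e) hP
      refine Or.inr (Or.inr (Or.inr (Or.inr (Or.inl ⟨D, hD, CfsgLib.SmallDim.IsMaximalIn.eq_inf hH ?_ (hu.not_le_decomposition_of_two_le hD (by norm_num))⟩))))
      exact (le_inf (hHP.le.trans inf_le_left) hG).trans hle
    · exact Or.inr (Or.inr (Or.inr (Or.inr (Or.inr (Or.inr (Or.inr (Or.inl ⟨h3, e, P, _, _, hu.isUnitaryFormPow_hermForm, hu.isUnitaryFormPow_hermForm, hu.isTensorFormStructure e hP, hHP⟩)))))))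
  · exact Or.inr (Or.inr (Or.inr (Or.inr (Or.inr (Or.inr (Or.inr (Or.inr (Or.inl h))))))))
  · exact Or.inr (Or.inr (Or.inr (Or.inr (Or.inr (Or.inr (Or.inr (Or.inr (Or.inr (Or.inl h)))))))))
  · exact Or.inr (Or.inr (Or.inr (Or.inr (Or.inr (Or.inr (Or.inr (Or.inr (Or.inr (Or.inr (Or.inl h))))))))))
  · exfalso
    have hp := hR.sympType.prime
    have hd : r ^ m = 6 := by simpa using hR.dim.symm
    rcases Nat.lt_or_ge m 2 with hm | hm
    · interval_cases m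
      · simp at hd
      · rw [pow_one] at hd; subst hd; exact absurd hp (by decide)
    · have h4 : r ^ 2 ≤ 6 := hd ▸ Nat.pow_le_pow_right hp.pos hm
      have : r ≤ 2 := by nlinarith
      obtain rfl : r = 2 := by have := hp.two_le; omega
      have hdvd : 2 ^ 2 ∣ 6 := hd ▸ pow_dvd_pow 2 hm
      norm_num at hdvd
  · exfalso
    have h4 : m ^ 2 ≤ 6 := hmk ▸ Nat.pow_le_pow_right (by omega) hk
    nlinarith
  · exact Or.inr (Or.inr (Or.inr (Or.inr (Or.inr (Or.inr (Or.inr (Or.inr (Or.inr (Or.inr (Or.inr (h)))))))))))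

end Cfsg.Agent.S5802
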