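import Cfsg.Statements.S5805
import Cfsg.Agent.Lib.SmallDim.SympFrames

set_option autoImplicit false
open Cfsg

namespace Cfsg.Agent.S5805

/-- Every maximal subgroup of Sp_6(q) is of one of the listed geometric types or lies in the residual class. Let F be a finite field with q elements, f the standard alternating form on F^6 (coordinates Fin 3 ⊕ Fin 3), and H a maximal subgroup of Sp_6(F) (inside GL_6(F)). Then H is the intersection with Sp_6(F) of one of: the stabiliser of a non-zero totally isotropic subspace; the stabiliser of a non-degenerate 2-space; for q ≥ 3, the stabiliser of a decomposition into three mutually orthogonal non-degenerate 2-spaces; for q odd, of a decomposition into two totally isotropic 3-spaces; the normaliser of a degree-3 subfield K of the matrix algebra, self-adjoint with f(k v, v) = 0; for q odd, the normaliser of a degree-2 subfield closed under adjoints but not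 self-adjoint; for q odd, q ≥ 5, the stabiliser of a tensor decomposition of f into an alternating form on F^2 and a symmetric form on F^3; a subfield group (|F| = |F₀|^r, r prime) whose F₀-structure carries a non-zero multiple of f; for q even, the similarity group of a non-degenerate quadratic form polarising to f — or else H lies in the residual class of the symplectic case. -/
theorem result {F : Type*} [Field F] [Fintype F] (H : Subgroup (Matrix.GeneralLinearGroup (Fin 3 ⊕ Fin 3) F)) (hH : Cfsg.Geo.IsMaximalIn (Cfsg.spGL 3 F) H) :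
    (∃ W : Submodule F (Fin 3 ⊕ Fin 3 → F), W ≠ ⊥ ∧ Cfsg.Geo.IsTotallySingularFor (Cfsg.sympForm 3 F) W ∧ H = Cfsg.Geo.subspaceStabilizer W ⊓ Cfsg.spGL 3 F) ∨
    (∃ W : Submodule F (Fin 3 ⊕ Fin 3 → F), W ≠ ⊥ ∧ Cfsg.Geo.IsNondegenerateOn (Cfsg.sympForm 3 F) W ∧ Module.finrank F W < 3 ∧ H = Cfsg.Geo.subspaceStabilizer W ⊓ Cfsg.spGL 3 F) ∨
    (3 ≤ Fintype.card F ∧ ∃ D : Fin 3 → Submodule F (Fin 3 ⊕ Fin 3 → F), Cfsg.Geo.IsNondegenerateMDecomposition (Cfsg.sympForm 3 F) 2 D ∧ H = Cfsg.Geo.decompositionStabilizer D ⊓ Cfsg.spGL 3 F) ∨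
    (Odd (Fintype.card F) ∧ ∃ D : Fin 2 → Submodule F (Fin 3 ⊕ Fin 3 → F), Cfsg.Geo.IsMDecomposition 3 D ∧ (∀ i, Cfsg.Geo.IsTotallySingularFor (Cfsg.sympForm 3 F) (D i)) ∧ H = Cfsg.Geo.decompositionStabilizer D ⊓ Cfsg.spGL 3 F) ∨
    (∃ K : Subalgebra F (Matrix (Fin 3 ⊕ Fin 3) (Fin 3 ⊕ Fin 3) F), Cfsg.Geo.IsFieldSubalgebra 3 K ∧ Cfsg.Geo.IsSelfAdjointFor (Cfsg.sympForm 3 F) K ∧ (∀ k ∈ K, ∀ v : (Fin 3 ⊕ Fin 3 → F), (Cfsg.sympForm 3 F) (Matrix.mulVec k v) v = 0) ∧ H = Cfsg.Geo.subalgebraNormalizer K ⊓ Cfsg.spGL 3 F) ∨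
    (Odd (Fintype.card F) ∧ ∃ K : Subalgebra F (Matrix (Fin 3 ⊕ Fin 3) (Fin 3 ⊕ Fin 3) F), Cfsg.Geo.IsFieldSubalgebra 2 K ∧ Cfsg.Geo.IsAdjointClosedFor (Cfsg.sympForm 3 F) K ∧ ¬ Cfsg.Geo.IsSelfAdjointFor (Cfsg.sympForm 3 F) K ∧ H = Cfsg.Geo.subalgebraNormalizer K ⊓ Cfsg.spGL 3 F) ∨
    (Odd (Fintype.card F) ∧ 5 ≤ Fintype.card F ∧ ∃ (e : (Fin 3 ⊕ Fin 3) ≃ Fin 2 × Fin 3) (P : Matrix.GeneralLinearGroup (Fin 3 ⊕ Fin 3) F) (f₁ : (Fin 2 → F) → (Fin 2 → F) → F) (f₂ : (Fin 3 → F) → (Fin 3 → F) → F), Cfsg.Geo.IsSymplecticForm f₁ ∧ Cfsg.Geo.IsSymmetricForm f₂ ∧ Cfsg.Geo.IsTensorFormStructure id (Cfsg.sympForm 3 F) f₁ f₂ e P ∧ H = Cfsg.Geo.tensorProductSubgroup 2 3 e P ⊓ Cfsg.spGL 3 F) ∨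
    (∃ (F₀ : Subfield F) (r : ℕ) (P : Matrix.GeneralLinearGroup (Fin 3 ⊕ Fin 3) F) (ζ : F), r.Prime ∧ Fintype.card F = Nat.card F₀ ^ r ∧ ζ ≠ 0 ∧ Cfsg.Geo.IsFormRationalStructure (Cfsg.sympForm 3 F) F₀ ζ P ∧ H = Cfsg.Geo.subfieldSubgroup F₀ P ⊓ Cfsg.spGL 3 F) ∨
    (¬ Odd (Fintype.card F) ∧ ∃ Q : (Fin 3 ⊕ Fin 3 → F) → F, Cfsg.Geo.IsNondegenerateQuadraticForm Q ∧ (∀ u v : (Fin 3 ⊕ Fin 3 → F), QuadraticMap.polar Q u v = (Cfsg.sympForm 3 F) u v) ∧ H = Cfsg.Geo.quadSimilarityGroup Q ⊓ Cfsg.spGL 3 F) ∨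
    Cfsg.Geo.InSymplecticResidualClass H := by
  classical
  rcases CfsgLib.SmallDim.symp_maximal_cases (by omega) hH with h | ⟨W, h0, hW, hlt, hev, h⟩ |
      ⟨t, k, D, htk, hk, ht, hD, h3, h⟩ | ⟨D, hodd', hD, hts, h⟩ | ⟨r, K, hr, hrn, hr2, hK, hsa, halt, h⟩ |
      ⟨K, hodd', hK, hadj, hnsa, h⟩ | ⟨n₁, n₂, e, P, f₁, f₂, hodd', hnn, h₁, he₁, h₂, hf₁, hf₂, hts, h⟩ | h |
      ⟨R, p, k, hp, hpodd, hFp, hdim, hR, habs, hsim, hcard, hz, hminus, h⟩ |
      ⟨k, t, e, P, f₁, hodd', hkt, hk, hk2, ht, ht3, hne, hf₁, hts, h⟩ | ⟨Q, hev, hQ, hpol, h⟩ | h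
  · exact Or.inl h
  · exact Or.inr (Or.inl ⟨W, h0, hW, hlt, h⟩)
  · obtain ⟨rfl, rfl⟩ : k = 2 ∧ t = 3 := by
      obtain ⟨j, rfl⟩ := hk
      have h5 : t * j = 3 := by linarith
      rcases (Nat.dvd_prime Nat.prime_three).1 (Dvd.intro j h5) with ht' | ht'
      · omega
      · subst ht'
        exact ⟨by omega, rfl⟩
    exact Or.inr (Or.inr (Or.inl ⟨h3 rfl, D, hD, h⟩))
  · exact Or.inr (Or.inr (Or.inr (Or.inl ⟨hodd', D, hD, hts, h⟩)))
  · obtain rfl : r = 3 := by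
      rcases (Nat.Prime.dvd_mul hr).1 hrn with h' | h'
      · obtain rfl := (Nat.prime_dvd_prime_iff_eq hr Nat.prime_two).1 h'
        exact absurd (hr2 rfl) (by decide)
      · exact (Nat.prime_dvd_prime_iff_eq hr Nat.prime_three).1 h'
    exact Or.inr (Or.inr (Or.inr (Or.inr (Or.inl ⟨K, hK, hsa, halt, h⟩))))
  · exact Or.inr (Or.inr (Or.inr (Or.inr (Or.inr (Or.inl ⟨hodd', K, hK, hadj, hnsa, h⟩)))))
  · obtain ⟨rfl, rfl⟩ : n₁ = 2 ∧ n₂ = 3 := by
      obtain ⟨j, rfl⟩ := he₁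
      have h5 : j * n₂ = 3 := by linarith
      rcases (Nat.dvd_prime Nat.prime_three).1 (Dvd.intro n₂ h5) with hj | hj
      · subst hj; exact ⟨rfl, by omega⟩
      · subst hj; omega
    by_cases h5 : 5 ≤ Fintype.card F
    · exact Or.inr (Or.inr (Or.inr (Or.inr (Or.inr (Or.inr (Or.inl
        ⟨hodd', h5, e, P, f₁, f₂, hf₁, hf₂, hts, h⟩))))))
    · have hq : Fintype.card F = 3 := by
        obtain ⟨j, hj⟩ := hodd'
        have := Fintype.one_lt_card (α := F)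
        omega
      obtain ⟨c, hc, hG⟩ := CfsgLib.SmallDim.coordGram_of_structure hts
      have hC : IsUnit (c • Cfsg.Geo.gramMatrix f₁).det := by
        rw [Matrix.det_smul]
        exact (hc.isUnit.pow _).mul ((CfsgLib.SmallDim.IsSesqui.of_bilinear hf₁.bilinear).isUnit_det_gram
          Function.surjective_id hf₁.nondegenerate)
      have hG₂ := (CfsgLib.SmallDim.IsSesqui.of_bilinear hf₂.bilinear).isUnit_det_gram
        Function.surjective_id hf₂.nondegenerate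
      have hsym : (Cfsg.Geo.gramMatrix f₂).transpose = Cfsg.Geo.gramMatrix f₂ := by
        ext i j
        exact hf₂.symm _ _
      obtain ⟨Z, d, hd, hZ⟩ := CfsgLib.SmallDim.exists_frame_three hq hsym hG₂
      obtain ⟨D, hD, hDle⟩ := CfsgLib.SmallDim.frame_decomposition hH.1.le (by norm_num) (by norm_num)
        (h.le.trans inf_le_left) hC (CfsgLib.SmallDim.ne_zero_of_isUnit_det hG₂) hG Z (fun _ => d) (fun _ => hd)
        (hZ.trans (Matrix.smul_one_eq_diagonal d))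
        (CfsgLib.SmallDim.frame_three_mono hq hG₂ hd hZ)
      exact Or.inr (Or.inr (Or.inl ⟨by omega, D, hD, CfsgLib.SmallDim.IsMaximalIn.eq_inf hH hDle
        (CfsgLib.SmallDim.sp_not_le_decompositionStabilizer hD.decomp le_rfl)⟩))
  · exact Or.inr (Or.inr (Or.inr (Or.inr (Or.inr (Or.inr (Or.inr (Or.inl h)))))))
  · exfalso
    rcases Nat.lt_or_ge k 3 with hk | hk
    · interval_cases k <;> omega
    · have := Nat.pow_le_pow_right (show 1 ≤ 2 by omega) hk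
      omega
  · exfalso
    have h8 := (Nat.pow_le_pow_left hk2 3).trans (Nat.pow_le_pow_right (show 1 ≤ k by omega) ht3)
    omega
  · exact Or.inr (Or.inr (Or.inr (Or.inr (Or.inr (Or.inr (Or.inr (Or.inr (Or.inl ⟨hev, Q, hQ, hpol, h⟩))))))))
  · exact Or.inr (Or.inr (Or.inr (Or.inr (Or.inr (Or.inr (Or.inr (Or.inr (Or.inr h))))))))

end Cfsg.Agent.S5805
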