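import Cfsg.Statements.S5813
import Cfsg.Agent.Lib.Geometric.Orth.Frame.Odd
import Cfsg.Agent.Lib.Geometric.Orth.Frames
import Cfsg.Agent.Lib.Geometric.Orth.DecompStabMax
import Cfsg.Agent.Lib.Geometric.Orth.SingularStab
import Cfsg.Agent.Lib.Geometric.Orth.NondegStabSeven
import Cfsg.Agent.Lib.Geometric.Orth.Eight.SubfieldMax
-- import your own Cfsg.Agent.* helpers here

set_option autoImplicit false
open Cfsg

namespace Cfsg.Agent.S5813

/-- Maximal subgroups of Ω_7(q) of geometric type, q odd. Let F be a finite field of odd order q, Q the standard quadratic form x₀² + Σ x_i y_i on F^7 (coordinates Unit ⊕ (Fin 3 ⊕ Fin 3)), and Ω = Ω_7(q) the commutator subgroup of its isometry group, inside GL_7(F). Each of the following, intersected with Ω, is a maximal subgroup of Ω: (1) the stabiliser of any non-zero subspace on which Q vanishes identically (totally singular 1-, 2- and 3-spaces); (2) the stabiliser of any non-zero even-dimensional subspace W on which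 the polar form of Q is non-degenerate (equivalently of its odd-dimensional orthogonal complement), except when q = 3 and W is a 2-space containing a non-zero singular vector (a plus-type plane); (3) for q = p prime, the stabiliser of any decomposition of F^7 into seven pairwise orthogonal, pairwise Q-isometric non-degenerate 1-spaces; (4) every subfield group for a subfield F₀ with |F| = |F₀|^r, r prime, whose F₀-structure carries Q. -/
theorem result {F : Type*} [Field F] [Fintype F] (hodd : Odd (Fintype.card F)) :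
    (∀ W : Submodule F (Unit ⊕ (Fin 3 ⊕ Fin 3) → F), W ≠ ⊥ → Cfsg.Geo.IsTotallySingularQuad (Cfsg.quadFormOdd 3 F) W → Cfsg.Geo.IsMaximalIn (Cfsg.Geo.omegaGL (Cfsg.quadFormOdd 3 F)) (Cfsg.Geo.subspaceStabilizer W ⊓ Cfsg.Geo.omegaGL (Cfsg.quadFormOdd 3 F))) ∧
    (∀ W : Submodule F (Unit ⊕ (Fin 3 ⊕ Fin 3) → F), W ≠ ⊥ → Even (Module.finrank F W) → Cfsg.Geo.IsNondegenerateOn (QuadraticMap.polar (Cfsg.quadFormOdd 3 F)) W → ¬ (Fintype.card F = 3 ∧ Module.finrank F W = 2 ∧ Cfsg.Geo.IsPlusTypeOn (Cfsg.quadFormOdd 3 F) W) → Cfsg.Geo.IsMaximalIn (Cfsg.Geo.omegaGL (Cfsg.quadFormOdd 3 F)) (Cfsg.Geo.subspaceStabilizer W ⊓ Cfsg.Geo.omegaGL (Cfsg.quadFormOdd 3 F))) ∧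
    ((Fintype.card F).Prime → ∀ D : Fin 7 → Submodule F (Unit ⊕ (Fin 3 ⊕ Fin 3) → F), Cfsg.Geo.IsOrthogonalMDecomposition (Cfsg.quadFormOdd 3 F) 1 D → Cfsg.Geo.IsMaximalIn (Cfsg.Geo.omegaGL (Cfsg.quadFormOdd 3 F)) (Cfsg.Geo.decompositionStabilizer D ⊓ Cfsg.Geo.omegaGL (Cfsg.quadFormOdd 3 F))) ∧
    (∀ (F₀ : Subfield F) (r : ℕ) (P : Matrix.GeneralLinearGroup (Unit ⊕ (Fin 3 ⊕ Fin 3)) F), r.Prime → Fintype.card F = Nat.card F₀ ^ r → Cfsg.Geo.IsQuadFormRationalStructure (Cfsg.quadFormOdd 3 F) F₀ P → Cfsg.Geo.IsMaximalIn (Cfsg.Geo.omegaGL (Cfsg.quadFormOdd 3 F)) (Cfsg.Geo.subfieldSubgroup F₀ P ⊓ Cfsg.Geo.omegaGL (Cfsg.quadFormOdd 3 F))) := by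
  have hQ := CfsgLib.Geometric.Orth.isNondegenerateQuadraticForm_quadFormOdd hodd 3
  have hQ' := CfsgLib.Geometric.Orth.nondeg_toQF hQ
  have h2 := CfsgLib.Geometric.Orth.two_ne_zero_of_odd hodd
  have hcard : Fintype.card (Unit ⊕ (Fin 3 ⊕ Fin 3)) = 7 := by simp
  refine ⟨fun W hW0 hW => ?_, fun W hW0 hev hW hex => ?_, fun hprime D hD => ?_,
    fun F₀ r P hr hF hP => ?_⟩
  · exact CfsgLib.Geometric.Orth.singular_stab_isMaximalIn (Q := CfsgLib.Geometric.Orth.toQF hQ)
      hQ' (by omega) hW0 hW (fun h => absurd h (by omega))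
  · set Q := CfsgLib.Geometric.Orth.toQF hQ with hQdef
    have hW' : Cfsg.Geo.IsNondegenerateOn (QuadraticMap.polar ⇑Q) W := hW
    have hd := CfsgLib.Geometric.Orth.finrank_add_perpW hW'
    rw [hcard] at hd
    obtain ⟨c, hc⟩ := hev
    have hpos : 0 < Module.finrank F W :=
      Nat.pos_of_ne_zero fun h => hW0 (Submodule.finrank_eq_zero.mp h)
    obtain h | h | h | h : Module.finrank F W = 2 ∨ Module.finrank F W = 4 ∨
        Module.finrank F W = 6 ∨ 8 ≤ Module.finrank F W := by omega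
    · refine CfsgLib.Geometric.Orth.Eight.nondeg_stab_isMaximalIn_big hQ' hW' (by omega) hW0
        (by omega) fun h3 _ x hx hQx => by_contra fun hx0 => hex ⟨?_, h, ?_⟩
      · rw [Nat.card_eq_fintype_card] at h3
        obtain ⟨d, hd'⟩ := hodd
        have := Fintype.one_lt_card (α := F)
        omega
      · refine ⟨Submodule.span F {x}, (Submodule.span_singleton_le_iff_mem _ _).2 hx,
          fun y hy => ?_, by rw [finrank_span_singleton hx0, h]⟩
        obtain ⟨a, rfl⟩ := Submodule.mem_span_singleton.1 hy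
        show Q (a • x) = 0
        rw [QuadraticMap.map_smul, hQx, smul_zero]
    · show Cfsg.Geo.IsMaximalIn (Cfsg.Geo.omegaGL ⇑Q)
        (Cfsg.Geo.subspaceStabilizer W ⊓ Cfsg.Geo.omegaGL ⇑Q)
      rw [← CfsgLib.Geometric.Orth.stab_perpW_inf hW' hQ']
      exact CfsgLib.Geometric.Orth.Seven.nondeg_stab_isMaximalIn_three hQ'
        (CfsgLib.Geometric.Orth.isNondegenerateOn_perpW hW' hQ') h2 hcard (by omega)
    · show Cfsg.Geo.IsMaximalIn (Cfsg.Geo.omegaGL ⇑Q)
        (Cfsg.Geo.subspaceStabilizer W ⊓ Cfsg.Geo.omegaGL ⇑Q)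
      rw [← CfsgLib.Geometric.Orth.stab_perpW_inf hW' hQ']
      refine CfsgLib.Geometric.Orth.Eight.nondeg_stab_isMaximalIn_big hQ'
        (CfsgLib.Geometric.Orth.isNondegenerateOn_perpW hW' hQ') (by omega) ?_ (by omega)
        fun _ h' => absurd h' (by omega)
      intro h0
      rw [h0, finrank_bot] at hd
      omega
    · omega
  · exact CfsgLib.Geometric.Orth.Frame.frame_isMaximalIn (Q := CfsgLib.Geometric.Orth.toQF hQ)
      h2 (by omega) (by norm_num) ⟨3, rfl⟩
      (CfsgLib.Geometric.Orth.Frame.exists_natCast_of_prime hprime) hD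
  · refine CfsgLib.Geometric.Orth.orthSubfield_isMaximalIn_eight' (ζ := 1) (by omega) hQ one_ne_zero
      ?_ hr (by rwa [Nat.card_eq_fintype_card])
    intro u hu
    simp only [one_mul]
    exact hP u hu

end Cfsg.Agent.S5813
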