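import Cfsg.Statements.S5820
import Cfsg.Agent.Lib.SmallDim.UnitarySmallQ
import Cfsg.Agent.Lib.SmallDim.UnitaryTensor
import Cfsg.Agent.Lib.SmallDim.UnitarySympl

set_option autoImplicit false
open Cfsg

namespace Cfsg.Agent.S5820

/-- Every maximal subgroup of SU_8(q) is of one of the listed geometric types or lies in the residual class. Let F be the field with q² elements, f the standard unitary form Σ u_i v_i^q on F^8, and H a maximal subgroup of SU_8(q) (inside GL_8(F)). Then H is the intersection with SU_8(q) of one of: the stabiliser of a non-zero totally isotropic subspace; the stabiliser of a non-degenerate 1-, 2- or 3-space; the stabiliser of a decomposition into eight mutually orthogonal non-degenerate 1-spaces; for q ≥ 3, of a decomposition into four mutually orthogonal non-degenerate 2-spaces; of a decomposition into two orthogonal non-degenerate 4-spaces; of a decomposition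 into two totally isotropic 4-spaces; for q ≥ 3, the stabiliser of a tensor decomposition of f into unitary forms on F^2 and F^4; a subfield group of odd prime index whose F₀-structure carries f; a subfield group of index 2 and symplectic type; for q odd, a subfield group of index 2 and orthogonal type; for q = p ≡ 3 mod 4 prime, the normaliser of an absolutely irreducible symplectic-type 2-group of order 2^8 with centre of order 4 inside the similarity group of f — or else H lies in the residual class of the unitary case. -/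
theorem result {F : Type*} [Field F] [Fintype F] (q : ℕ) (hF : Fintype.card F = q ^ 2) (H : Subgroup (Matrix.GeneralLinearGroup (Fin 8) F)) (hH : Cfsg.Geo.IsMaximalIn (Cfsg.GU 8 F q ⊓ Cfsg.Geo.specialLinear (Fin 8) F) H) :
    (∃ W : Submodule F (Fin 8 → F), W ≠ ⊥ ∧ Cfsg.Geo.IsTotallySingularFor (Cfsg.hermForm 8 F q) W ∧ H = Cfsg.Geo.subspaceStabilizer W ⊓ (Cfsg.GU 8 F q ⊓ Cfsg.Geo.specialLinear (Fin 8) F)) ∨
    (∃ W : Submodule F (Fin 8 → F), W ≠ ⊥ ∧ Cfsg.Geo.IsNondegenerateOn (Cfsg.hermForm 8 F q) W ∧ 2 * Module.finrank F W < 8 ∧ H = Cfsg.Geo.subspaceStabilizer W ⊓ (Cfsg.GU 8 F q ⊓ Cfsg.Geo.specialLinear (Fin 8) F)) ∨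
    (∃ D : Fin 8 → Submodule F (Fin 8 → F), Cfsg.Geo.IsNondegenerateMDecomposition (Cfsg.hermForm 8 F q) 1 D ∧ H = Cfsg.Geo.decompositionStabilizer D ⊓ (Cfsg.GU 8 F q ⊓ Cfsg.Geo.specialLinear (Fin 8) F)) ∨
    (3 ≤ q ∧ ∃ D : Fin 4 → Submodule F (Fin 8 → F), Cfsg.Geo.IsNondegenerateMDecomposition (Cfsg.hermForm 8 F q) 2 D ∧ H = Cfsg.Geo.decompositionStabilizer D ⊓ (Cfsg.GU 8 F q ⊓ Cfsg.Geo.specialLinear (Fin 8) F)) ∨
    (∃ D : Fin 2 → Submodule F (Fin 8 → F), Cfsg.Geo.IsNondegenerateMDecomposition (Cfsg.hermForm 8 F q) 4 D ∧ H = Cfsg.Geo.decompositionStabilizer D ⊓ (Cfsg.GU 8 F q ⊓ Cfsg.Geo.specialLinear (Fin 8) F)) ∨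
    (∃ D : Fin 2 → Submodule F (Fin 8 → F), Cfsg.Geo.IsMDecomposition 4 D ∧ (∀ i, Cfsg.Geo.IsTotallySingularFor (Cfsg.hermForm 8 F q) (D i)) ∧ H = Cfsg.Geo.decompositionStabilizer D ⊓ (Cfsg.GU 8 F q ⊓ Cfsg.Geo.specialLinear (Fin 8) F)) ∨
    (3 ≤ q ∧ ∃ (e : Fin 8 ≃ Fin 2 × Fin 4) (P : Matrix.GeneralLinearGroup (Fin 8) F) (f₁ : (Fin 2 → F) → (Fin 2 → F) → F) (f₂ : (Fin 4 → F) → (Fin 4 → F) → F), Cfsg.Geo.IsUnitaryFormPow q f₁ ∧ Cfsg.Geo.IsUnitaryFormPow q f₂ ∧ Cfsg.Geo.IsTensorFormStructure (fun x : F => x ^ q) (Cfsg.hermForm 8 F q) f₁ f₂ e P ∧ H = Cfsg.Geo.tensorProductSubgroup 2 4 e P ⊓ (Cfsg.GU 8 F q ⊓ Cfsg.Geo.specialLinear (Fin 8) F)) ∨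
    (∃ (F₀ : Subfield F) (r : ℕ) (P : Matrix.GeneralLinearGroup (Fin 8) F), r.Prime ∧ Odd r ∧ Fintype.card F = Nat.card F₀ ^ r ∧ Cfsg.Geo.IsFormRationalStructure (Cfsg.hermForm 8 F q) F₀ 1 P ∧ H = Cfsg.Geo.subfieldSubgroup F₀ P ⊓ (Cfsg.GU 8 F q ⊓ Cfsg.Geo.specialLinear (Fin 8) F)) ∨
    (∃ (F₀ : Subfield F) (P : Matrix.GeneralLinearGroup (Fin 8) F) (ζ : F), Fintype.card F = Nat.card F₀ ^ 2 ∧ ζ ≠ 0 ∧ ζ + ζ ^ q = 0 ∧ Cfsg.Geo.IsFormRationalStructure (Cfsg.hermForm 8 F q) F₀ ζ P ∧ (∀ u : Fin 8 → F, (∀ i, u i ∈ F₀) → (Cfsg.hermForm 8 F q) (Matrix.mulVec (P : Matrix (Fin 8) (Fin 8) F) u) (Matrix.mulVec (P : Matrix (Fin 8) (Fin 8) F) u) = 0) ∧ H = Cfsg.Geo.subfieldSubgroup F₀ P ⊓ (Cfsg.GU 8 F q ⊓ Cfsg.Geo.specialLinear (Fin 8) F)) ∨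
    (Odd q ∧ ∃ (F₀ : Subfield F) (P : Matrix.GeneralLinearGroup (Fin 8) F), Fintype.card F = Nat.card F₀ ^ 2 ∧ Cfsg.Geo.IsFormRationalStructure (Cfsg.hermForm 8 F q) F₀ 1 P ∧ H = Cfsg.Geo.subfieldSubgroup F₀ P ⊓ (Cfsg.GU 8 F q ⊓ Cfsg.Geo.specialLinear (Fin 8) F)) ∨
    (∃ (p : ℕ) (R : Subgroup (Matrix.GeneralLinearGroup (Fin 8) F)), p.Prime ∧ q = p ∧ p % 4 = 3 ∧ Cfsg.Geo.IsSymplecticTypeGroup 2 R ∧ Cfsg.Geo.ActsAbsolutelyIrreducibly (Cfsg.Geo.matrixSet R) ∧ R ≤ Cfsg.Geo.similarityGroup (Cfsg.hermForm 8 F q) ∧ Nat.card R = 256 ∧ Nat.card (Subgroup.center R) = 4 ∧ H = Cfsg.Geo.subgroupNormalizer R ⊓ (Cfsg.GU 8 F q ⊓ Cfsg.Geo.specialLinear (Fin 8) F)) ∨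
    Cfsg.Geo.InUnitaryResidualClass H := by
  classical
  obtain ⟨σ, hu⟩ := CfsgLib.SmallDim.exists_unitarySetup 8 hF
  have hG : H ≤ Cfsg.GU 8 F q := hH.1.le.trans inf_le_left
  have h2q : q = 2 ∨ 3 ≤ q := by have := hu.two_le; omega
  have hline : ∀ D : Fin 8 → Submodule F (Fin 8 → F),
      Cfsg.Geo.IsNondegenerateMDecomposition (Cfsg.hermForm 8 F q) 1 D →
      H ≤ Cfsg.Geo.decompositionStabilizer D →
      H = Cfsg.Geo.decompositionStabilizer D ⊓ (Cfsg.GU 8 F q ⊓ Cfsg.Geo.specialLinear (Fin 8) F) :=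
    fun D hD hle => CfsgLib.SmallDim.IsMaximalIn.eq_inf hH hle
      (hu.not_le_decompositionStabilizer (by omega) (Or.inr (by omega)) hD)
  rcases hu.unitary_general (by omega) hH with h | h | ⟨t, m, D, htm, hD, hHD⟩ | ⟨m, D, hm, hD, hts, hHD⟩ |
    ⟨r, K, hr, hodd, hdvd, -, -, -⟩ | ⟨n₁, n₂, e, P, hn₁, h12, hne, hP, hHP⟩ | h | h | h |
    ⟨R, r, m, hR, hRG, hno⟩ | ⟨N, k, L, m, e, P, -, -, -, -, hk, hm, hmk, -⟩ | h
  · exact Or.inl h
  · exact Or.inr (Or.inl h)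
  · have hm8 : m ∣ 8 := ⟨t, by rw [mul_comm]; exact htm.symm⟩
    have hm' : m = 1 ∨ m = 2 ∨ m = 4 ∨ m = 8 := by
      have := Nat.le_of_dvd (by norm_num) hm8
      interval_cases m <;> omega
    rcases hm' with rfl | rfl | rfl | rfl
    · obtain rfl : t = 8 := by omega
      exact Or.inr (Or.inr (Or.inl ⟨D, hD, hHD⟩))
    · obtain rfl : t = 4 := by omega
      rcases h2q with h2 | h3
      · obtain ⟨E, hE, hle⟩ := hu.refine_planes h2 hG hD (hHD.le.trans inf_le_left)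
        exact Or.inr (Or.inr (Or.inl ⟨E, hE, hline E hE hle⟩))
      · exact Or.inr (Or.inr (Or.inr (Or.inl ⟨h3, D, hD, hHD⟩)))
    · obtain rfl : t = 2 := by omega
      exact Or.inr (Or.inr (Or.inr (Or.inr (Or.inl ⟨D, hD, hHD⟩))))
    · have := hD.decomp.two_le; omega
  · obtain rfl : m = 4 := by omega
    exact Or.inr (Or.inr (Or.inr (Or.inr (Or.inr (Or.inl ⟨D, hD, hts, hHD⟩)))))
  · exfalso
    obtain ⟨j, hj⟩ := hodd
    have := hr.two_le
    have := Nat.le_of_dvd (by norm_num) hdvd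
    interval_cases r <;> omega
  · obtain rfl : n₁ = 2 := by
      have : n₁ * n₁ ≤ 8 := hne ▸ Nat.mul_le_mul_left n₁ h12
      nlinarith
    obtain rfl : n₂ = 4 := by omega
    rcases h2q with h2 | h3
    · obtain ⟨D, hD, hle⟩ := hu.tensor_two_decomposition h2 (by norm_num) (e := e) hP
      refine Or.inr (Or.inr (Or.inr (Or.inr (Or.inl ⟨D, hD, CfsgLib.SmallDim.IsMaximalIn.eq_inf hH ?_ (hu.not_le_decomposition_of_two_le hD (by norm_num))⟩))))
      exact (le_inf (hHP.le.trans inf_le_left) hG).trans hle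
    · exact Or.inr (Or.inr (Or.inr (Or.inr (Or.inr (Or.inr (Or.inl ⟨h3, e, P, _, _, hu.isUnitaryFormPow_hermForm, hu.isUnitaryFormPow_hermForm, hu.isTensorFormStructure e hP, hHP⟩))))))
  · exact Or.inr (Or.inr (Or.inr (Or.inr (Or.inr (Or.inr (Or.inr (Or.inl h)))))))
  · exact Or.inr (Or.inr (Or.inr (Or.inr (Or.inr (Or.inr (Or.inr (Or.inr (Or.inl h))))))))
  · exact Or.inr (Or.inr (Or.inr (Or.inr (Or.inr (Or.inr (Or.inr (Or.inr (Or.inr (Or.inl h)))))))))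
  · have hd : r ^ m = 8 := by simpa using hR.dim.symm
    have hm0 : m ≠ 0 := fun h => by simp [h] at hd
    obtain rfl : r = 2 := (Nat.prime_dvd_prime_iff_eq hR.sympType.prime Nat.prime_two).1
      (hR.sympType.prime.dvd_of_dvd_pow (show r ∣ 2 ^ 3 from ⟨r ^ (m - 1), by rw [← pow_succ', show m - 1 + 1 = m by omega, hd]; norm_num⟩))
    obtain rfl : m = 3 := Nat.pow_right_injective le_rfl (show 2 ^ m = 2 ^ 3 from hd)
    obtain ⟨p, hp, hqp, ⟨-, hp4, hz⟩ | ⟨h23, -⟩⟩ := hu.sympl_prime hR (Or.inl rfl) hno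
    · refine Or.inr (Or.inr (Or.inr (Or.inr (Or.inr (Or.inr (Or.inr (Or.inr (Or.inr (Or.inr (Or.inl ⟨p, R, hp, hqp, hp4, hR.sympType, hR.absIrred, hRG.trans (CfsgLib.SmallDim.GU_le_similarityGroup 8 q), ?_, hz, CfsgLib.SmallDim.IsMaximalIn.eq_inf hH hR.le_subgroupNormalizer (hu.not_le_normalizer_of_five (by norm_num) hR hRG)⟩))))))))))
      rw [hR.card_eq, hz]; norm_num
    · exact absurd h23 (by norm_num)
  · exfalso
    have h4 : m ^ 2 ≤ 8 := hmk ▸ Nat.pow_le_pow_right (by omega) hk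
    nlinarith
  · exact Or.inr (Or.inr (Or.inr (Or.inr (Or.inr (Or.inr (Or.inr (Or.inr (Or.inr (Or.inr (Or.inr (h)))))))))))

end Cfsg.Agent.S5820
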