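import Cfsg.Statements.S5826
import Cfsg.Agent.Lib.SmallDim.OrthEvenEight

set_option autoImplicit false
open Cfsg

namespace Cfsg.Agent.S5826

/-- Every maximal subgroup of Ω_8^-(q) is of one of the listed geometric types or lies in the residual class. Let F be a finite field with q elements, Q a non-degenerate quadratic form on F^8 of minus type (no totally singular 4-space), Ω the commutator subgroup of its isometry group, and H a maximal subgroup of Ω (inside GL_8(F)). Then H is the intersection with Ω of one of: the stabiliser of a non-zero totally singular subspace; for q odd, the stabiliser of a non-degenerate subspace of odd dimension; the stabiliser of a non-degenerate 2-space of minus type; for q ≥ 4, the stabiliser of a non-degenerate 2-space of plus type; the stabiliser of a non-degenerate 4-space; for q even, the stabiliser of the span of a non-singular vector; the normaliser of a degree-2 subfield of the matrix algebra;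 a subfield group of odd prime index whose F₀-structure carries a non-zero multiple of Q — or else H lies in the residual class of the orthogonal case (modulo scalars H is almost simple, with absolutely irreducible perfect socle preimage realisable over no proper subfield and fixing no non-degenerate unitary form). -/
theorem result {F : Type*} [Field F] [Fintype F] (Q : (Fin 8 → F) → F) (hQ : Cfsg.Geo.IsNondegenerateQuadraticForm Q) (hminus : ¬ Cfsg.Geo.IsPlusTypeOn Q ⊤) (H : Subgroup (Matrix.GeneralLinearGroup (Fin 8) F)) (hH : Cfsg.Geo.IsMaximalIn (Cfsg.Geo.omegaGL Q) H) :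
    (∃ W : Submodule F (Fin 8 → F), W ≠ ⊥ ∧ Cfsg.Geo.IsTotallySingularQuad Q W ∧ H = Cfsg.Geo.subspaceStabilizer W ⊓ Cfsg.Geo.omegaGL Q) ∨
    (Odd (Fintype.card F) ∧ ∃ W : Submodule F (Fin 8 → F), W ≠ ⊥ ∧ W ≠ ⊤ ∧ Odd (Module.finrank F W) ∧ Cfsg.Geo.IsNondegenerateOn (QuadraticMap.polar Q) W ∧ H = Cfsg.Geo.subspaceStabilizer W ⊓ Cfsg.Geo.omegaGL Q) ∨
    (∃ W : Submodule F (Fin 8 → F), Module.finrank F W = 2 ∧ Cfsg.Geo.IsNondegenerateOn (QuadraticMap.polar Q) W ∧ ¬ Cfsg.Geo.IsPlusTypeOn Q W ∧ H = Cfsg.Geo.subspaceStabilizer W ⊓ Cfsg.Geo.omegaGL Q) ∨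
    (4 ≤ Fintype.card F ∧ ∃ W : Submodule F (Fin 8 → F), Module.finrank F W = 2 ∧ Cfsg.Geo.IsNondegenerateOn (QuadraticMap.polar Q) W ∧ Cfsg.Geo.IsPlusTypeOn Q W ∧ H = Cfsg.Geo.subspaceStabilizer W ⊓ Cfsg.Geo.omegaGL Q) ∨
    (∃ W : Submodule F (Fin 8 → F), Module.finrank F W = 4 ∧ Cfsg.Geo.IsNondegenerateOn (QuadraticMap.polar Q) W ∧ H = Cfsg.Geo.subspaceStabilizer W ⊓ Cfsg.Geo.omegaGL Q) ∨
    (¬ Odd (Fintype.card F) ∧ ∃ v : (Fin 8 → F), Q v ≠ 0 ∧ H = Cfsg.Geo.subspaceStabilizer (Submodule.span F {v}) ⊓ Cfsg.Geo.omegaGL Q) ∨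
    (∃ K : Subalgebra F (Matrix (Fin 8) (Fin 8) F), Cfsg.Geo.IsFieldSubalgebra 2 K ∧ H = Cfsg.Geo.subalgebraNormalizer K ⊓ Cfsg.Geo.omegaGL Q) ∨
    (∃ (F₀ : Subfield F) (r : ℕ) (P : Matrix.GeneralLinearGroup (Fin 8) F) (ζ : F), r.Prime ∧ Odd r ∧ Fintype.card F = Nat.card F₀ ^ r ∧ ζ ≠ 0 ∧ Cfsg.Geo.IsQuadFormRationalStructure (fun v : Fin 8 → F => ζ * Q v) F₀ P ∧ H = Cfsg.Geo.subfieldSubgroup F₀ P ⊓ Cfsg.Geo.omegaGL Q) ∨
    Cfsg.Geo.InOrthogonalResidualClass H := by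
  classical
  open CfsgLib.SmallDim CfsgLib.SmallDim.OrthEven CfsgLib.Geometric.Orth Cfsg.Geo in
  (
    set T := toQF hQ with hT
    have hTQ : (⇑T : (Fin 8 → F) → F) = Q := rfl
    have hn : 5 ≤ Fintype.card (Fin 8) := by simp
    have hG : H ≤ omegaGL (⇑T) := hH.1.le
    by_cases hirr : ActsIrreducibly (matrixSet H)
    swap
    · obtain ⟨W, h0, h1, hle, hW, -⟩ :=
        reducible_witness (nondeg_toQF hQ) (by simp) (isometric_of_le_omega hG) hirr
      have heq : H = subspaceStabilizer W ⊓ omegaGL Q :=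
        IsMaximalIn.eq_inf hH hle (omega_not_le_subspaceStabilizer (nondeg_toQF hQ) hn h0 h1)
      rcases hW with hts | ⟨hq, ho, hnd⟩ | ⟨hd, hnd, hp⟩ | ⟨hq, hd, hnd, hp⟩ | ⟨hd, hnd⟩ | ⟨hq, v, hv, rfl⟩
      · exact Or.inl ⟨W, h0, hts, heq⟩
      · exact Or.inr (Or.inl ⟨hq, W, h0, h1, ho, hnd, heq⟩)
      · exact Or.inr (Or.inr (Or.inl ⟨W, hd, hnd, hp, heq⟩))
      · exact Or.inr (Or.inr (Or.inr (Or.inl ⟨hq, W, hd, hnd, hp, heq⟩)))
      · exact Or.inr (Or.inr (Or.inr (Or.inr (Or.inl ⟨W, hd, hnd, heq⟩))))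
      · exact Or.inr (Or.inr (Or.inr (Or.inr (Or.inr (Or.inl ⟨hq, v, hv, heq⟩)))))
    iterate 6 right
    rcases eight_cases (nondeg_toQF hQ) (Fintype.card_fin 8) hminus hG hirr with
      ⟨K, hK, -, hle⟩ | ⟨K, r, P, ζ, hr, hodd, hcard, hKtop, hζ, hrat, hle⟩ | h
    · exact Or.inl ⟨K, hK, IsMaximalIn.eq_inf hH hle
        (omega_not_le_subalgebraNormalizer (nondeg_toQF hQ) hn le_rfl hK)⟩
    · exact Or.inr (Or.inl ⟨K, r, P, ζ, hr, hodd, hcard, hζ, hrat, IsMaximalIn.eq_inf hH hle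
        (omega_not_le_subfieldSubgroup (nondeg_toQF hQ) hn hKtop P)⟩)
    · exact Or.inr (Or.inr h))

end Cfsg.Agent.S5826
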