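import Cfsg.Statements.S5832
import Cfsg.Agent.Lib.SmallDim.UnitaryGeneral
import Cfsg.Agent.Lib.SmallDim.UnitarySympl
import Cfsg.Agent.Lib.SmallDim.UnitaryWreath

set_option autoImplicit false
open Cfsg

namespace Cfsg.Agent.S5832

/-- Every maximal subgroup of SU_9(q) is of one of the listed geometric types or lies in the residual class. Let F be the field with q² elements, f the standard unitary form Σ u_i v_i^q on F^9, and H a maximal subgroup of SU_9(q) (inside GL_9(F)). Then H is the intersection with SU_9(q) of one of: the stabiliser of a non-zero totally isotropic subspace; the stabiliser of a non-degenerate 1-, 2-, 3- or 4-space; the stabiliser of a decomposition into nine mutually orthogonal non-degenerate 1-spaces; of a decomposition into three mutually orthogonal non-degenerate 3-spaces; the normaliser of an adjoint-closed degree-3 subfield of the matrix algebra; a subfield group of odd prime index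 whose F₀-structure carries f; for q odd, a subfield group of index 2 whose F₀-structure carries f; for q = p ≡ 2 mod 3 prime, the normaliser of an absolutely irreducible extraspecial group 3_+^(1+4) of exponent 3 inside the similarity group of f; for q ≥ 3, the stabiliser of a tensor decomposition of f as a tensor square of a unitary form on F^3 — or else H lies in the residual class of the unitary case. -/
theorem result {F : Type*} [Field F] [Fintype F] (q : ℕ) (hF : Fintype.card F = q ^ 2) (H : Subgroup (Matrix.GeneralLinearGroup (Fin 9) F)) (hH : Cfsg.Geo.IsMaximalIn (Cfsg.GU 9 F q ⊓ Cfsg.Geo.specialLinear (Fin 9) F) H) :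
    (∃ W : Submodule F (Fin 9 → F), W ≠ ⊥ ∧ Cfsg.Geo.IsTotallySingularFor (Cfsg.hermForm 9 F q) W ∧ H = Cfsg.Geo.subspaceStabilizer W ⊓ (Cfsg.GU 9 F q ⊓ Cfsg.Geo.specialLinear (Fin 9) F)) ∨
    (∃ W : Submodule F (Fin 9 → F), W ≠ ⊥ ∧ Cfsg.Geo.IsNondegenerateOn (Cfsg.hermForm 9 F q) W ∧ 2 * Module.finrank F W < 9 ∧ H = Cfsg.Geo.subspaceStabilizer W ⊓ (Cfsg.GU 9 F q ⊓ Cfsg.Geo.specialLinear (Fin 9) F)) ∨
    (∃ D : Fin 9 → Submodule F (Fin 9 → F), Cfsg.Geo.IsNondegenerateMDecomposition (Cfsg.hermForm 9 F q) 1 D ∧ H = Cfsg.Geo.decompositionStabilizer D ⊓ (Cfsg.GU 9 F q ⊓ Cfsg.Geo.specialLinear (Fin 9) F)) ∨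
    (∃ D : Fin 3 → Submodule F (Fin 9 → F), Cfsg.Geo.IsNondegenerateMDecomposition (Cfsg.hermForm 9 F q) 3 D ∧ H = Cfsg.Geo.decompositionStabilizer D ⊓ (Cfsg.GU 9 F q ⊓ Cfsg.Geo.specialLinear (Fin 9) F)) ∨
    (∃ K : Subalgebra F (Matrix (Fin 9) (Fin 9) F), Cfsg.Geo.IsFieldSubalgebra 3 K ∧ Cfsg.Geo.IsAdjointClosedFor (Cfsg.hermForm 9 F q) K ∧ H = Cfsg.Geo.subalgebraNormalizer K ⊓ (Cfsg.GU 9 F q ⊓ Cfsg.Geo.specialLinear (Fin 9) F)) ∨
    (∃ (F₀ : Subfield F) (r : ℕ) (P : Matrix.GeneralLinearGroup (Fin 9) F), r.Prime ∧ Odd r ∧ Fintype.card F = Nat.card F₀ ^ r ∧ Cfsg.Geo.IsFormRationalStructure (Cfsg.hermForm 9 F q) F₀ 1 P ∧ H = Cfsg.Geo.subfieldSubgroup F₀ P ⊓ (Cfsg.GU 9 F q ⊓ Cfsg.Geo.specialLinear (Fin 9) F)) ∨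
    (Odd q ∧ ∃ (F₀ : Subfield F) (P : Matrix.GeneralLinearGroup (Fin 9) F), Fintype.card F = Nat.card F₀ ^ 2 ∧ Cfsg.Geo.IsFormRationalStructure (Cfsg.hermForm 9 F q) F₀ 1 P ∧ H = Cfsg.Geo.subfieldSubgroup F₀ P ⊓ (Cfsg.GU 9 F q ⊓ Cfsg.Geo.specialLinear (Fin 9) F)) ∨
    (∃ (p : ℕ) (R : Subgroup (Matrix.GeneralLinearGroup (Fin 9) F)), p.Prime ∧ q = p ∧ p % 3 = 2 ∧ Cfsg.Geo.IsSymplecticTypeGroup 3 R ∧ Cfsg.Geo.ActsAbsolutelyIrreducibly (Cfsg.Geo.matrixSet R) ∧ R ≤ Cfsg.Geo.similarityGroup (Cfsg.hermForm 9 F q) ∧ Nat.card R = 243 ∧ Nat.card (Subgroup.center R) = 3 ∧ H = Cfsg.Geo.subgroupNormalizer R ⊓ (Cfsg.GU 9 F q ⊓ Cfsg.Geo.specialLinear (Fin 9) F)) ∨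
    (3 ≤ q ∧ ∃ (e : Fin 9 ≃ (Fin 2 → Fin 3)) (P : Matrix.GeneralLinearGroup (Fin 9) F) (f₁ : (Fin 3 → F) → (Fin 3 → F) → F), Cfsg.Geo.IsUnitaryFormPow q f₁ ∧ Cfsg.Geo.IsTensorPowerFormStructure (fun x : F => x ^ q) (Cfsg.hermForm 9 F q) f₁ e P ∧ H = Cfsg.Geo.tensorWreathSubgroup 3 2 e P ⊓ (Cfsg.GU 9 F q ⊓ Cfsg.Geo.specialLinear (Fin 9) F)) ∨
    Cfsg.Geo.InUnitaryResidualClass H := by
  classical
  obtain ⟨σ, hu⟩ := CfsgLib.SmallDim.exists_unitarySetup 9 hF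
  have hG : H ≤ Cfsg.GU 9 F q := hH.1.le.trans inf_le_left
  have h2q : q = 2 ∨ 3 ≤ q := by have := hu.two_le; omega
  rcases hu.unitary_general (by omega) hH with h | h | ⟨t, m, D, htm, hD, hHD⟩ | ⟨m, D, hm, -, -, -⟩ |
    ⟨r, K, hr, hodd, hdvd, hK, hadj, hHK⟩ | ⟨n₁, n₂, e, P, hn₁, h12, hne, hP, hHP⟩ | h |
    ⟨F₀, P, ζ, hc, hζ0, hζ, hform, hiso, hHF⟩ | h |
    ⟨R, r, m, hR, hRG, hno⟩ | ⟨N, k, L, m, e, P, hN, hNa, hperf, hL, hk, hm, hmk, -⟩ | h
  · exact Or.inl h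
  · exact Or.inr (Or.inl h)
  · have hm9 : m ∣ 9 := ⟨t, by rw [mul_comm]; exact htm.symm⟩
    have hm' : m = 1 ∨ m = 3 ∨ m = 9 := by
      have := Nat.le_of_dvd (by norm_num) hm9
      interval_cases m <;> omega
    rcases hm' with rfl | rfl | rfl
    · obtain rfl : t = 9 := by omega
      exact Or.inr (Or.inr (Or.inl ⟨D, hD, hHD⟩))
    · obtain rfl : t = 3 := by omega
      exact Or.inr (Or.inr (Or.inr (Or.inl ⟨D, hD, hHD⟩)))
    · have := hD.decomp.two_le; omega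
  · omega
  · obtain rfl : r = 3 := by
      obtain ⟨j, hj⟩ := hodd
      have := hr.two_le
      have := Nat.le_of_dvd (by norm_num) hdvd
      interval_cases r <;> first | omega | exact absurd hr (by decide)
    exact Or.inr (Or.inr (Or.inr (Or.inr (Or.inl ⟨K, hK, hadj, hHK⟩))))
  · obtain rfl : n₁ = 3 := by
      have : n₁ * n₁ ≤ 9 := hne ▸ Nat.mul_le_mul_left n₁ h12
      have : n₁ ≤ 3 := by nlinarith
      interval_cases n₁ <;> omega
    obtain rfl : n₂ = 3 := by omega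
    rcases h2q with h2 | h3
    · exact (hu.tensor_square_not_maximal h2 le_rfl e hP hH (hHP.le.trans inf_le_left)).elim
    · refine Or.inr (Or.inr (Or.inr (Or.inr (Or.inr (Or.inr (Or.inr (Or.inr (Or.inl ⟨h3, _, P, _, hu.isUnitaryFormPow_hermForm, hu.isTensorPowerFormStructure _ hP, CfsgLib.SmallDim.IsMaximalIn.eq_inf hH ((hHP.le.trans inf_le_left).trans (CfsgLib.SmallDim.tensorProductSubgroup_le_wreath 3 e P)) (hu.not_le_wreath_two le_rfl _ hP)⟩))))))))
  · exact Or.inr (Or.inr (Or.inr (Or.inr (Or.inr (Or.inl h)))))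
  · exfalso
    exact hu.no_symplectic_odd (by decide) hiso
  · exact Or.inr (Or.inr (Or.inr (Or.inr (Or.inr (Or.inr (Or.inl h))))))
  · have hd : r ^ m = 9 := by simpa using hR.dim.symm
    have hm0 : m ≠ 0 := fun h => by simp [h] at hd
    obtain rfl : r = 3 := (Nat.prime_dvd_prime_iff_eq hR.sympType.prime Nat.prime_three).1
      (hR.sympType.prime.dvd_of_dvd_pow (show r ∣ 3 ^ 2 from ⟨r ^ (m - 1), by rw [← pow_succ', show m - 1 + 1 = m by omega, hd]; norm_num⟩))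
    obtain rfl : m = 2 := Nat.pow_right_injective (show 2 ≤ 3 by norm_num) (show 3 ^ m = 3 ^ 2 from hd)
    obtain ⟨p, hp, hqp, ⟨h23, -⟩ | ⟨-, hp3, hz⟩⟩ := hu.sympl_prime hR (Or.inr rfl) hno
    · exact absurd h23 (by norm_num)
    · refine Or.inr (Or.inr (Or.inr (Or.inr (Or.inr (Or.inr (Or.inr (Or.inl ⟨p, R, hp, hqp, hp3, hR.sympType, hR.absIrred, hRG.trans (CfsgLib.SmallDim.GU_le_similarityGroup 9 q), ?_, hz, CfsgLib.SmallDim.IsMaximalIn.eq_inf hH hR.le_subgroupNormalizer (hu.not_le_normalizer_of_five (by norm_num) hR hRG)⟩)))))))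
      rw [hR.card_eq, hz]; norm_num
  · obtain ⟨m', e', P', hm', hP', hle, hslot⟩ := hu.unitary_wreath_frame (by norm_num) hG hN.le hNa hL
    have h4 : m ^ 2 ≤ 9 := hmk ▸ Nat.pow_le_pow_right (by omega) hk
    obtain rfl : m = 3 := by nlinarith
    obtain rfl : k = 2 := Nat.pow_right_injective (show 2 ≤ 3 by norm_num) (show 3 ^ k = 3 ^ 2 from hmk)
    obtain rfl : m' = 3 := by
      have h9 := Fintype.card_congr e'
      simp only [Fintype.card_fin, Fintype.card_fun] at h9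
      have : m' ≤ 3 := by nlinarith
      interval_cases m' <;> omega
    rcases h2q with h2 | h3
    · exact (hu.no_induced_three h2 hL hslot).elim
    · refine Or.inr (Or.inr (Or.inr (Or.inr (Or.inr (Or.inr (Or.inr (Or.inr (Or.inl ⟨h3, e', P', _, hu.isUnitaryFormPow_hermForm, hu.isTensorPowerFormStructure e' hP', CfsgLib.SmallDim.IsMaximalIn.eq_inf hH hle (hu.not_le_wreath_two le_rfl e' hP')⟩))))))))
  · exact Or.inr (Or.inr (Or.inr (Or.inr (Or.inr (Or.inr (Or.inr (Or.inr (Or.inr (h)))))))))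

end Cfsg.Agent.S5832
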