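import Cfsg.Statements.S5835
import Cfsg.Agent.Lib.SmallDim.OmegaNine

set_option autoImplicit false
open Cfsg

namespace Cfsg.Agent.S5835

/-- Every maximal subgroup of Ω_9(q), q odd, is of one of the listed geometric types or lies in the residual class. Let F be a finite field of odd order q, Q the standard quadratic form x₀² + Σ x_i y_i on F^9 (coordinates Unit ⊕ (Fin 4 ⊕ Fin 4)), Ω the commutator subgroup of its isometry group, and H a maximal subgroup of Ω (inside GL_9(F)). Then H is the intersection with Ω of one of: the stabiliser of a non-zero totally singular subspace; the stabiliser of a non-zero non-degenerate subspace of even dimension (not a plus-type plane when q = 3); for q prime, the stabiliser of a decomposition into nine pairwise orthogonal, pairwise isometric non-degenerate 1-spaces; for q ≥ 5, the stabiliser of a decomposition into three pairwise orthogonal, pairwise isometric non-degenerate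 3-spaces; the normaliser of a degree-3 subfield of the matrix algebra, self-adjoint for the polar form; a subfield group (|F| = |F₀|^r, r prime) whose F₀-structure carries Q; for q ≥ 5, the stabiliser of a tensor decomposition of the polar form as a tensor square of a symmetric form on F^3 — or else H lies in the residual class of the orthogonal case (modulo scalars H is almost simple, with absolutely irreducible perfect socle preimage realisable over no proper subfield and fixing no non-degenerate unitary form). -/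
theorem result {F : Type*} [Field F] [Fintype F] (hodd : Odd (Fintype.card F)) (H : Subgroup (Matrix.GeneralLinearGroup (Unit ⊕ (Fin 4 ⊕ Fin 4)) F)) (hH : Cfsg.Geo.IsMaximalIn (Cfsg.Geo.omegaGL (Cfsg.quadFormOdd 4 F)) H) :
    (∃ W : Submodule F (Unit ⊕ (Fin 4 ⊕ Fin 4) → F), W ≠ ⊥ ∧ Cfsg.Geo.IsTotallySingularQuad (Cfsg.quadFormOdd 4 F) W ∧ H = Cfsg.Geo.subspaceStabilizer W ⊓ Cfsg.Geo.omegaGL (Cfsg.quadFormOdd 4 F)) ∨
    (∃ W : Submodule F (Unit ⊕ (Fin 4 ⊕ Fin 4) → F), W ≠ ⊥ ∧ Even (Module.finrank F W) ∧ Cfsg.Geo.IsNondegenerateOn (QuadraticMap.polar (Cfsg.quadFormOdd 4 F)) W ∧ ¬ (Fintype.card F = 3 ∧ Module.finrank F W = 2 ∧ Cfsg.Geo.IsPlusTypeOn (Cfsg.quadFormOdd 4 F) W) ∧ H = Cfsg.Geo.subspaceStabilizer W ⊓ Cfsg.Geo.omegaGL (Cfsg.quadFormOdd 4 F)) ∨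
    ((Fintype.card F).Prime ∧ ∃ D : Fin 9 → Submodule F (Unit ⊕ (Fin 4 ⊕ Fin 4) → F), Cfsg.Geo.IsOrthogonalMDecomposition (Cfsg.quadFormOdd 4 F) 1 D ∧ H = Cfsg.Geo.decompositionStabilizer D ⊓ Cfsg.Geo.omegaGL (Cfsg.quadFormOdd 4 F)) ∨
    (5 ≤ Fintype.card F ∧ ∃ D : Fin 3 → Submodule F (Unit ⊕ (Fin 4 ⊕ Fin 4) → F), Cfsg.Geo.IsOrthogonalMDecomposition (Cfsg.quadFormOdd 4 F) 3 D ∧ H = Cfsg.Geo.decompositionStabilizer D ⊓ Cfsg.Geo.omegaGL (Cfsg.quadFormOdd 4 F)) ∨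
    (∃ K : Subalgebra F (Matrix (Unit ⊕ (Fin 4 ⊕ Fin 4)) (Unit ⊕ (Fin 4 ⊕ Fin 4)) F), Cfsg.Geo.IsFieldSubalgebra 3 K ∧ Cfsg.Geo.IsSelfAdjointFor (QuadraticMap.polar (Cfsg.quadFormOdd 4 F)) K ∧ H = Cfsg.Geo.subalgebraNormalizer K ⊓ Cfsg.Geo.omegaGL (Cfsg.quadFormOdd 4 F)) ∨
    (∃ (F₀ : Subfield F) (r : ℕ) (P : Matrix.GeneralLinearGroup (Unit ⊕ (Fin 4 ⊕ Fin 4)) F), r.Prime ∧ Fintype.card F = Nat.card F₀ ^ r ∧ Cfsg.Geo.IsQuadFormRationalStructure (Cfsg.quadFormOdd 4 F) F₀ P ∧ H = Cfsg.Geo.subfieldSubgroup F₀ P ⊓ Cfsg.Geo.omegaGL (Cfsg.quadFormOdd 4 F)) ∨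
    (5 ≤ Fintype.card F ∧ ∃ (e : (Unit ⊕ (Fin 4 ⊕ Fin 4)) ≃ (Fin 2 → Fin 3)) (P : Matrix.GeneralLinearGroup (Unit ⊕ (Fin 4 ⊕ Fin 4)) F) (f₁ : (Fin 3 → F) → (Fin 3 → F) → F), Cfsg.Geo.IsSymmetricForm f₁ ∧ Cfsg.Geo.IsTensorPowerFormStructure id (QuadraticMap.polar (Cfsg.quadFormOdd 4 F)) f₁ e P ∧ H = Cfsg.Geo.tensorWreathSubgroup 3 2 e P ⊓ Cfsg.Geo.omegaGL (Cfsg.quadFormOdd 4 F)) ∨
    Cfsg.Geo.InOrthogonalResidualClass H := by
  classical
  have h2 : (2 : F) ≠ 0 := CfsgLib.ClassicalForms.two_ne_zero_of_odd (by rwa [Nat.card_eq_fintype_card])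
  have hQ : CfsgLib.ClassicalForms.Nondeg (CfsgLib.ClassicalForms.qOdd 4 F) :=
    CfsgLib.ClassicalForms.nondeg_qOdd h2 4
  have hcard : Fintype.card (Unit ⊕ (Fin 4 ⊕ Fin 4)) = 9 := rfl
  have heq := CfsgLib.SmallDim.quadFormOdd_eq 4 F
  by_cases hirr : Cfsg.Geo.ActsIrreducibly (Cfsg.Geo.matrixSet H)
  swap
  · obtain ⟨W, h0, h1, hle, hW | ⟨he, hW, hexc⟩⟩ :=
      CfsgLib.SmallDim.omega_reducible_case h2 (by norm_num) hH.1.le hirr
    · exact Or.inl ⟨W, h0, hW, CfsgLib.SmallDim.IsMaximalIn.eq_inf hH hle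
        (CfsgLib.SmallDim.omega_not_le_subspaceStabilizer h2 (by norm_num) h0 h1)⟩
    · exact Or.inr (Or.inl ⟨W, h0, he, hW, hexc, CfsgLib.SmallDim.IsMaximalIn.eq_inf hH hle
        (CfsgLib.SmallDim.omega_not_le_subspaceStabilizer h2 (by norm_num) h0 h1)⟩)
  have hsub : ∀ K : Subfield F, K ≠ ⊤ → (∃ P, Cfsg.Geo.IsQuadFormRationalStructure (Cfsg.quadFormOdd 4 F) K P ∧
      H ≤ Cfsg.Geo.subfieldSubgroup K P) →
      ∀ r : ℕ, r.Prime → Fintype.card F = Nat.card K ^ r →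
      ∃ (F₀ : Subfield F) (r : ℕ) (P : Matrix.GeneralLinearGroup (Unit ⊕ (Fin 4 ⊕ Fin 4)) F), r.Prime ∧
        Fintype.card F = Nat.card F₀ ^ r ∧ Cfsg.Geo.IsQuadFormRationalStructure (Cfsg.quadFormOdd 4 F) F₀ P ∧
        H = Cfsg.Geo.subfieldSubgroup F₀ P ⊓ Cfsg.Geo.omegaGL (Cfsg.quadFormOdd 4 F) := by
    rintro K hK ⟨P, hrat, hle⟩ r hr hc
    exact ⟨K, r, P, hr, hc, hrat, CfsgLib.SmallDim.IsMaximalIn.eq_inf hH hle
      (CfsgLib.SmallDim.omega_not_le_subfieldSubgroup h2 (by norm_num) hK P)⟩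
  rcases CfsgLib.SmallDim.OrthEven.nine_cases hQ h2 hcard (heq ▸ hH.1.le) hirr with
    ⟨D, hD, hle⟩ | ⟨hq, D, hD, hle⟩ | ⟨K, hK, hsa, hle⟩ | ⟨hq, e, P, c, h⟩ | ⟨N, K, hN, habs, hK, hreal⟩ | h
  · rw [← heq] at hD
    by_cases hp : (Fintype.card F).Prime
    · exact Or.inr (Or.inr (Or.inl ⟨hp, D, hD, CfsgLib.SmallDim.IsMaximalIn.eq_inf hH hle
        (CfsgLib.SmallDim.omega_not_le_decompositionStabilizer h2 (by norm_num) rfl hD.decomp.decomp)⟩))
    · obtain ⟨p, hchar⟩ := CharP.exists F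
      obtain ⟨e, hpp, hq⟩ := FiniteField.card F p
      haveI := Fact.mk hpp
      have hbot : CfsgLib.SmallDim.fixedField (F := F) p 1 ≠ ⊤ := by
        intro htop
        have h1 := CfsgLib.SmallDim.card_fixedField (F := F) (p := p) (k := 1) hq one_pos (one_dvd _)
        rw [htop, pow_one, show Nat.card (⊤ : Subfield F) = Nat.card F from
          Nat.card_congr (Equiv.subtypeUnivEquiv fun x => Subfield.mem_top x), Nat.card_eq_fintype_card] at h1
        exact hp (h1 ▸ hpp)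
      obtain ⟨K₁, r, hr, -, hcardK⟩ := CfsgLib.SmallDim.exists_prime_index_overfield hbot
      exact Or.inr (Or.inr (Or.inr (Or.inr (Or.inr (Or.inl (hsub K₁
        (CfsgLib.SmallDim.OrthEven.ne_top_of_card hr hcardK)
        (CfsgLib.SmallDim.omega_decomposition_subfield h2 hH.1.le hirr hcard hD hle K₁) r hr hcardK))))))
  · rw [← heq] at hD
    refine Or.inr (Or.inr (Or.inr (Or.inl ⟨hq, D, hD, CfsgLib.SmallDim.IsMaximalIn.eq_inf hH hle ?_⟩)))
    rw [heq]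
    refine CfsgLib.SmallDim.OrthEven.omega_not_le_decompositionStabilizer hQ (by omega) hD.decomp.decomp ?_
    rw [hcard]
    have := Nat.pow_lt_pow_right (show 1 < Fintype.card F by omega) (show 4 < 9 - 2 by norm_num)
    have h34 : 3 * Fintype.card F ^ 3 ≤ Fintype.card F ^ 4 := by
      rw [pow_succ (Fintype.card F) 3, mul_comm _ (Fintype.card F)]
      exact Nat.mul_le_mul_right _ (by omega)
    omega
  · rw [← heq] at hsa
    refine Or.inr (Or.inr (Or.inr (Or.inr (Or.inl ⟨K, hK, hsa, CfsgLib.SmallDim.IsMaximalIn.eq_inf hH hle ?_⟩))))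
    rw [heq]
    exact CfsgLib.SmallDim.OrthEven.omega_not_le_subalgebraNormalizer hQ (by omega) (by norm_num) hK
  · obtain ⟨hsym, hten⟩ := h.isTensorPower
    rw [← heq] at hten
    refine Or.inr (Or.inr (Or.inr (Or.inr (Or.inr (Or.inr (Or.inl ⟨hq, e, P, _, hsym, hten,
      CfsgLib.SmallDim.IsMaximalIn.eq_inf hH h.le ?_⟩))))))
    rw [heq]
    exact CfsgLib.SmallDim.OrthEven.omega_not_le_tensorWreathSubgroup hQ (by omega) (by norm_num)
      (by rw [hcard]; norm_num) e P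
  · obtain ⟨B, hB⟩ := hreal
    obtain ⟨K₁, r, hr, hle, hcardK⟩ := CfsgLib.SmallDim.exists_prime_index_overfield hK
    exact Or.inr (Or.inr (Or.inr (Or.inr (Or.inr (Or.inl (hsub K₁
      (CfsgLib.SmallDim.OrthEven.ne_top_of_card hr hcardK)
      (CfsgLib.SmallDim.omega_subfield_case h2 hN hH.1.le habs
        ⟨B, fun s hs i j => hle (hB s hs i j)⟩) r hr hcardK))))))
  · exact Or.inr (Or.inr (Or.inr (Or.inr (Or.inr (Or.inr (Or.inr h))))))

end Cfsg.Agent.S5835
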