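import Cfsg.Statements.S5841
import Cfsg.Agent.Lib.SmallDim.UnitarySmallQ
import Cfsg.Agent.Lib.SmallDim.UnitaryTensor

set_option autoImplicit false
open Cfsg

namespace Cfsg.Agent.S5841

/-- Every maximal subgroup of SU_10(q) is of one of the listed geometric types or lies in the residual class. Let F be the field with q² elements (characteristic p), f the standard unitary form Σ u_i v_i^q on F^10, and H a maximal subgroup of SU_10(q) (inside GL_10(F)). Then H is the intersection with SU_10(q) of one of: the stabiliser of a non-zero totally isotropic subspace; the stabiliser of a non-zero non-degenerate subspace W with 2 dim W < 10; the stabiliser of a decomposition into 10 mutually orthogonal non-degenerate 1-spaces; for q ≥ 3, the stabiliser of a decomposition into 5 mutually orthogonal non-degenerate 2-spaces; the stabiliser of a decomposition into 2 mutually orthogonal non-degenerate 5-spaces; of a decomposition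 into two totally isotropic 5-spaces; the normaliser of an adjoint-closed degree-5 subfield of the matrix algebra; for q ≥ 3, the stabiliser of a tensor decomposition of f into unitary forms on F^2 and F^5; a subfield group of odd prime index whose F₀-structure carries f; a subfield group of index 2 and symplectic type; for q odd, a subfield group of index 2 whose F₀-structure carries f — or else H lies in the residual class of the unitary case (modulo scalars H is almost simple, with absolutely irreducible perfect socle preimage realisable over no proper subfield and fixing no non-degenerate quadratic or symplectic form). -/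
theorem result {F : Type*} [Field F] [Fintype F] (q : ℕ) (hF : Fintype.card F = q ^ 2) (H : Subgroup (Matrix.GeneralLinearGroup (Fin 10) F)) (hH : Cfsg.Geo.IsMaximalIn (Cfsg.GU 10 F q ⊓ Cfsg.Geo.specialLinear (Fin 10) F) H) :
    (∃ W : Submodule F (Fin 10 → F), W ≠ ⊥ ∧ Cfsg.Geo.IsTotallySingularFor (Cfsg.hermForm 10 F q) W ∧ H = Cfsg.Geo.subspaceStabilizer W ⊓ (Cfsg.GU 10 F q ⊓ Cfsg.Geo.specialLinear (Fin 10) F)) ∨
    (∃ W : Submodule F (Fin 10 → F), W ≠ ⊥ ∧ Cfsg.Geo.IsNondegenerateOn (Cfsg.hermForm 10 F q) W ∧ 2 * Module.finrank F W < 10 ∧ H = Cfsg.Geo.subspaceStabilizer W ⊓ (Cfsg.GU 10 F q ⊓ Cfsg.Geo.specialLinear (Fin 10) F)) ∨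
    (∃ D : Fin 10 → Submodule F (Fin 10 → F), Cfsg.Geo.IsNondegenerateMDecomposition (Cfsg.hermForm 10 F q) 1 D ∧ H = Cfsg.Geo.decompositionStabilizer D ⊓ (Cfsg.GU 10 F q ⊓ Cfsg.Geo.specialLinear (Fin 10) F)) ∨
    (3 ≤ q ∧ ∃ D : Fin 5 → Submodule F (Fin 10 → F), Cfsg.Geo.IsNondegenerateMDecomposition (Cfsg.hermForm 10 F q) 2 D ∧ H = Cfsg.Geo.decompositionStabilizer D ⊓ (Cfsg.GU 10 F q ⊓ Cfsg.Geo.specialLinear (Fin 10) F)) ∨
    (∃ D : Fin 2 → Submodule F (Fin 10 → F), Cfsg.Geo.IsNondegenerateMDecomposition (Cfsg.hermForm 10 F q) 5 D ∧ H = Cfsg.Geo.decompositionStabilizer D ⊓ (Cfsg.GU 10 F q ⊓ Cfsg.Geo.specialLinear (Fin 10) F)) ∨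
    (∃ D : Fin 2 → Submodule F (Fin 10 → F), Cfsg.Geo.IsMDecomposition 5 D ∧ (∀ i, Cfsg.Geo.IsTotallySingularFor (Cfsg.hermForm 10 F q) (D i)) ∧ H = Cfsg.Geo.decompositionStabilizer D ⊓ (Cfsg.GU 10 F q ⊓ Cfsg.Geo.specialLinear (Fin 10) F)) ∨
    (∃ K : Subalgebra F (Matrix (Fin 10) (Fin 10) F), Cfsg.Geo.IsFieldSubalgebra 5 K ∧ Cfsg.Geo.IsAdjointClosedFor (Cfsg.hermForm 10 F q) K ∧ H = Cfsg.Geo.subalgebraNormalizer K ⊓ (Cfsg.GU 10 F q ⊓ Cfsg.Geo.specialLinear (Fin 10) F)) ∨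
    (3 ≤ q ∧ ∃ (e : Fin 10 ≃ Fin 2 × Fin 5) (P : Matrix.GeneralLinearGroup (Fin 10) F) (f₁ : (Fin 2 → F) → (Fin 2 → F) → F) (f₂ : (Fin 5 → F) → (Fin 5 → F) → F), Cfsg.Geo.IsUnitaryFormPow q f₁ ∧ Cfsg.Geo.IsUnitaryFormPow q f₂ ∧ Cfsg.Geo.IsTensorFormStructure (fun x : F => x ^ q) (Cfsg.hermForm 10 F q) f₁ f₂ e P ∧ H = Cfsg.Geo.tensorProductSubgroup 2 5 e P ⊓ (Cfsg.GU 10 F q ⊓ Cfsg.Geo.specialLinear (Fin 10) F)) ∨
    (∃ (F₀ : Subfield F) (r : ℕ) (P : Matrix.GeneralLinearGroup (Fin 10) F), r.Prime ∧ Odd r ∧ Fintype.card F = Nat.card F₀ ^ r ∧ Cfsg.Geo.IsFormRationalStructure (Cfsg.hermForm 10 F q) F₀ 1 P ∧ H = Cfsg.Geo.subfieldSubgroup F₀ P ⊓ (Cfsg.GU 10 F q ⊓ Cfsg.Geo.specialLinear (Fin 10) F)) ∨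
    (∃ (F₀ : Subfield F) (P : Matrix.GeneralLinearGroup (Fin 10) F) (ζ : F), Fintype.card F = Nat.card F₀ ^ 2 ∧ ζ ≠ 0 ∧ ζ + ζ ^ q = 0 ∧ Cfsg.Geo.IsFormRationalStructure (Cfsg.hermForm 10 F q) F₀ ζ P ∧ (∀ u : Fin 10 → F, (∀ i, u i ∈ F₀) → (Cfsg.hermForm 10 F q) (Matrix.mulVec (P : Matrix (Fin 10) (Fin 10) F) u) (Matrix.mulVec (P : Matrix (Fin 10) (Fin 10) F) u) = 0) ∧ H = Cfsg.Geo.subfieldSubgroup F₀ P ⊓ (Cfsg.GU 10 F q ⊓ Cfsg.Geo.specialLinear (Fin 10) F)) ∨
    (Odd q ∧ ∃ (F₀ : Subfield F) (P : Matrix.GeneralLinearGroup (Fin 10) F), Fintype.card F = Nat.card F₀ ^ 2 ∧ Cfsg.Geo.IsFormRationalStructure (Cfsg.hermForm 10 F q) F₀ 1 P ∧ H = Cfsg.Geo.subfieldSubgroup F₀ P ⊓ (Cfsg.GU 10 F q ⊓ Cfsg.Geo.specialLinear (Fin 10) F)) ∨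
    Cfsg.Geo.InUnitaryResidualClass H := by
  classical
  obtain ⟨σ, hu⟩ := CfsgLib.SmallDim.exists_unitarySetup 10 hF
  have hG : H ≤ Cfsg.GU 10 F q := hH.1.le.trans inf_le_left
  have h2q : q = 2 ∨ 3 ≤ q := by have := hu.two_le; omega
  have hline : ∀ D : Fin 10 → Submodule F (Fin 10 → F),
      Cfsg.Geo.IsNondegenerateMDecomposition (Cfsg.hermForm 10 F q) 1 D →
      H ≤ Cfsg.Geo.decompositionStabilizer D →
      H = Cfsg.Geo.decompositionStabilizer D ⊓ (Cfsg.GU 10 F q ⊓ Cfsg.Geo.specialLinear (Fin 10) F) :=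
    fun D hD hle => CfsgLib.SmallDim.IsMaximalIn.eq_inf hH hle
      (hu.not_le_decompositionStabilizer (by omega) (Or.inr (by omega)) hD)
  rcases hu.unitary_general (by omega) hH with h | h | ⟨t, m, D, htm, hD, hHD⟩ | ⟨m, D, hm, hD, hts, hHD⟩ |
    ⟨r, K, hr, hodd, hdvd, hK, hadj, hHK⟩ | ⟨n₁, n₂, e, P, hn₁, h12, hne, hP, hHP⟩ | h | h | h |
    ⟨R, r, m, hR, -, -⟩ | ⟨N, k, L, m, e, P, -, -, -, -, hk, hm, hmk, -⟩ | h
  · exact Or.inl h
  · exact Or.inr (Or.inl h)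
  · have hm10 : m ∣ 10 := ⟨t, by rw [mul_comm]; exact htm.symm⟩
    have hm' : m = 1 ∨ m = 2 ∨ m = 5 ∨ m = 10 := by
      have := Nat.le_of_dvd (by norm_num) hm10
      interval_cases m <;> omega
    rcases hm' with rfl | rfl | rfl | rfl
    · obtain rfl : t = 10 := by omega
      exact Or.inr (Or.inr (Or.inl ⟨D, hD, hHD⟩))
    · obtain rfl : t = 5 := by omega
      rcases h2q with h2 | h3
      · obtain ⟨E, hE, hle⟩ := hu.refine_planes h2 hG hD (hHD.le.trans inf_le_left)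
        exact Or.inr (Or.inr (Or.inl ⟨E, hE, hline E hE hle⟩))
      · exact Or.inr (Or.inr (Or.inr (Or.inl ⟨h3, D, hD, hHD⟩)))
    · obtain rfl : t = 2 := by omega
      exact Or.inr (Or.inr (Or.inr (Or.inr (Or.inl ⟨D, hD, hHD⟩))))
    · have := hD.decomp.two_le; omega
  · obtain rfl : m = 5 := by omega
    exact Or.inr (Or.inr (Or.inr (Or.inr (Or.inr (Or.inl ⟨D, hD, hts, hHD⟩)))))
  · obtain rfl : r = 5 := by
      obtain ⟨j, hj⟩ := hodd
      have := hr.two_le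
      have := Nat.le_of_dvd (by norm_num) hdvd
      interval_cases r <;> omega
    exact Or.inr (Or.inr (Or.inr (Or.inr (Or.inr (Or.inr (Or.inl ⟨K, hK, hadj, hHK⟩))))))
  · obtain rfl : n₁ = 2 := by
      have : n₁ * n₁ ≤ 10 := hne ▸ Nat.mul_le_mul_left n₁ h12
      have : n₁ ≤ 3 := by nlinarith
      interval_cases n₁ <;> omega
    obtain rfl : n₂ = 5 := by omega
    rcases h2q with h2 | h3
    · obtain ⟨D, hD, hle⟩ := hu.tensor_two_decomposition h2 (by norm_num) (e := e) hP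
      refine Or.inr (Or.inr (Or.inr (Or.inr (Or.inl ⟨D, hD, CfsgLib.SmallDim.IsMaximalIn.eq_inf hH ?_
        (hu.not_le_decomposition_of_two_le hD (by norm_num))⟩))))
      exact (le_inf (hHP.le.trans inf_le_left) hG).trans hle
    · exact Or.inr (Or.inr (Or.inr (Or.inr (Or.inr (Or.inr (Or.inr (Or.inl ⟨h3, e, P, _, _,
        hu.isUnitaryFormPow_hermForm, hu.isUnitaryFormPow_hermForm, hu.isTensorFormStructure e hP, hHP⟩)))))))
  · exact Or.inr (Or.inr (Or.inr (Or.inr (Or.inr (Or.inr (Or.inr (Or.inr (Or.inl h))))))))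
  · exact Or.inr (Or.inr (Or.inr (Or.inr (Or.inr (Or.inr (Or.inr (Or.inr (Or.inr (Or.inl h)))))))))
  · exact Or.inr (Or.inr (Or.inr (Or.inr (Or.inr (Or.inr (Or.inr (Or.inr (Or.inr (Or.inr (Or.inl h))))))))))
  · exfalso
    have hp := hR.sympType.prime
    have hd : r ^ m = 10 := by simpa using hR.dim.symm
    rcases Nat.lt_or_ge m 2 with hm | hm
    · interval_cases m
      · simp at hd
      · rw [pow_one] at hd; subst hd; exact absurd hp (by decide)
    · have h4 : r ^ 2 ≤ 10 := hd ▸ Nat.pow_le_pow_right hp.pos hm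
      have : r ≤ 3 := by nlinarith
      have := hp.two_le
      have hdvd : r ^ 2 ∣ 10 := hd ▸ pow_dvd_pow r hm
      interval_cases r <;> norm_num at hdvd
  · exfalso
    have h4 : m ^ 2 ≤ 10 := hmk ▸ Nat.pow_le_pow_right (by omega) hk
    obtain rfl : m = 3 := by nlinarith
    have hdvd : 3 ^ 2 ∣ 10 := hmk ▸ pow_dvd_pow 3 hk
    norm_num at hdvd
  · exact Or.inr (Or.inr (Or.inr (Or.inr (Or.inr (Or.inr (Or.inr (Or.inr (Or.inr (Or.inr (Or.inr h))))))))))

end Cfsg.Agent.S5841
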