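import Cfsg.Statements.S5844
import Cfsg.Agent.Lib.SmallDim.SympMaximal

set_option autoImplicit false
open Cfsg

namespace Cfsg.Agent.S5844

/-- Every maximal subgroup of Sp_10(q) is of one of the listed geometric types or lies in the residual class. Let F be a finite field with q elements (characteristic p), f the standard alternating form on F^10 (coordinates Fin 5 ⊕ Fin 5), and H a maximal subgroup of Sp_10(F) (inside GL_10(F)). Then H is the intersection with Sp_10(F) of one of: the stabiliser of a non-zero totally isotropic subspace; the stabiliser of a non-zero non-degenerate subspace of dimension less than 5; for q ≥ 3, the stabiliser of a decomposition into 5 mutually orthogonal non-degenerate 2-spaces; for q odd, of a decomposition into two totally isotropic 5-spaces; the normaliser of a degree-5 subfield K of the matrix algebra, self-adjoint with f(k v, v) = 0; for q odd, the normaliser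 of a degree-2 subfield closed under adjoints but not self-adjoint; for q odd, the stabiliser of a tensor decomposition of f into an alternating form on F^2 and a symmetric form on F^5; a subfield group (|F| = |F₀|^r, r prime) whose F₀-structure carries a non-zero multiple of f; for q even, the similarity group of a non-degenerate quadratic form polarising to f — or else H lies in the residual class of the symplectic case (modulo scalars H is almost simple, with absolutely irreducible perfect socle preimage realisable over no proper subfield and fixing no non-degenerate quadratic or unitary form). -/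
theorem result {F : Type*} [Field F] [Fintype F] (H : Subgroup (Matrix.GeneralLinearGroup (Fin 5 ⊕ Fin 5) F)) (hH : Cfsg.Geo.IsMaximalIn (Cfsg.spGL 5 F) H) :
    (∃ W : Submodule F (Fin 5 ⊕ Fin 5 → F), W ≠ ⊥ ∧ Cfsg.Geo.IsTotallySingularFor (Cfsg.sympForm 5 F) W ∧ H = Cfsg.Geo.subspaceStabilizer W ⊓ Cfsg.spGL 5 F) ∨
    (∃ W : Submodule F (Fin 5 ⊕ Fin 5 → F), W ≠ ⊥ ∧ Cfsg.Geo.IsNondegenerateOn (Cfsg.sympForm 5 F) W ∧ Module.finrank F W < 5 ∧ H = Cfsg.Geo.subspaceStabilizer W ⊓ Cfsg.spGL 5 F) ∨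
    (3 ≤ Fintype.card F ∧ ∃ D : Fin 5 → Submodule F (Fin 5 ⊕ Fin 5 → F), Cfsg.Geo.IsNondegenerateMDecomposition (Cfsg.sympForm 5 F) 2 D ∧ H = Cfsg.Geo.decompositionStabilizer D ⊓ Cfsg.spGL 5 F) ∨
    (Odd (Fintype.card F) ∧ ∃ D : Fin 2 → Submodule F (Fin 5 ⊕ Fin 5 → F), Cfsg.Geo.IsMDecomposition 5 D ∧ (∀ i, Cfsg.Geo.IsTotallySingularFor (Cfsg.sympForm 5 F) (D i)) ∧ H = Cfsg.Geo.decompositionStabilizer D ⊓ Cfsg.spGL 5 F) ∨
    (∃ K : Subalgebra F (Matrix (Fin 5 ⊕ Fin 5) (Fin 5 ⊕ Fin 5) F), Cfsg.Geo.IsFieldSubalgebra 5 K ∧ Cfsg.Geo.IsSelfAdjointFor (Cfsg.sympForm 5 F) K ∧ (∀ k ∈ K, ∀ v : (Fin 5 ⊕ Fin 5 → F), (Cfsg.sympForm 5 F) (Matrix.mulVec k v) v = 0) ∧ H = Cfsg.Geo.subalgebraNormalizer K ⊓ Cfsg.spGL 5 F) ∨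
    (Odd (Fintype.card F) ∧ ∃ K : Subalgebra F (Matrix (Fin 5 ⊕ Fin 5) (Fin 5 ⊕ Fin 5) F), Cfsg.Geo.IsFieldSubalgebra 2 K ∧ Cfsg.Geo.IsAdjointClosedFor (Cfsg.sympForm 5 F) K ∧ ¬ Cfsg.Geo.IsSelfAdjointFor (Cfsg.sympForm 5 F) K ∧ H = Cfsg.Geo.subalgebraNormalizer K ⊓ Cfsg.spGL 5 F) ∨
    (Odd (Fintype.card F) ∧ ∃ (e : (Fin 5 ⊕ Fin 5) ≃ Fin 2 × Fin 5) (P : Matrix.GeneralLinearGroup (Fin 5 ⊕ Fin 5) F) (f₁ : (Fin 2 → F) → (Fin 2 → F) → F) (f₂ : (Fin 5 → F) → (Fin 5 → F) → F), Cfsg.Geo.IsSymplecticForm f₁ ∧ Cfsg.Geo.IsSymmetricForm f₂ ∧ Cfsg.Geo.IsTensorFormStructure id (Cfsg.sympForm 5 F) f₁ f₂ e P ∧ H = Cfsg.Geo.tensorProductSubgroup 2 5 e P ⊓ Cfsg.spGL 5 F) ∨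
    (∃ (F₀ : Subfield F) (r : ℕ) (P : Matrix.GeneralLinearGroup (Fin 5 ⊕ Fin 5) F) (ζ : F), r.Prime ∧ Fintype.card F = Nat.card F₀ ^ r ∧ ζ ≠ 0 ∧ Cfsg.Geo.IsFormRationalStructure (Cfsg.sympForm 5 F) F₀ ζ P ∧ H = Cfsg.Geo.subfieldSubgroup F₀ P ⊓ Cfsg.spGL 5 F) ∨
    (¬ Odd (Fintype.card F) ∧ ∃ Q : (Fin 5 ⊕ Fin 5 → F) → F, Cfsg.Geo.IsNondegenerateQuadraticForm Q ∧ (∀ u v : (Fin 5 ⊕ Fin 5 → F), QuadraticMap.polar Q u v = (Cfsg.sympForm 5 F) u v) ∧ H = Cfsg.Geo.quadSimilarityGroup Q ⊓ Cfsg.spGL 5 F) ∨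
    Cfsg.Geo.InSymplecticResidualClass H := by
  classical
  rcases CfsgLib.SmallDim.symp_maximal_cases (by omega) hH with h | ⟨W, h0, hW, hlt, hev, h⟩ |
      ⟨t, k, D, htk, hk, ht, hD, h3, h⟩ | ⟨D, hodd', hD, hts, h⟩ | ⟨r, K, hr, hrn, hr2, hK, hsa, halt, h⟩ |
      ⟨K, hodd', hK, hadj, hnsa, h⟩ | ⟨n₁, n₂, e, P, f₁, f₂, hodd', hnn, h₁, he₁, h₂, hf₁, hf₂, hts, h⟩ | h |
      ⟨R, p, k, hp, hpodd, hFp, hdim, hR, habs, hsim, hcard, hz, hminus, h⟩ |
      ⟨k, t, e, P, f₁, hodd', hkt, hk, hk2, ht, ht3, hne, hf₁, hts, h⟩ | ⟨Q, hev, hQ, hpol, h⟩ | h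
  · exact Or.inl h
  · exact Or.inr (Or.inl ⟨W, h0, hW, hlt, h⟩)
  · have hk2 : k = 2 ∧ t = 5 := by
      obtain ⟨j, rfl⟩ := hk
      have h5 : t * j = 5 := by linarith
      rcases (Nat.dvd_prime (by norm_num : (5 : ℕ).Prime)).1 (Dvd.intro j h5) with ht' | ht'
      · omega
      · subst ht'
        exact ⟨by omega, rfl⟩
    obtain ⟨rfl, rfl⟩ := hk2
    exact Or.inr (Or.inr (Or.inl ⟨h3 rfl, D, hD, h⟩))
  · exact Or.inr (Or.inr (Or.inr (Or.inl ⟨hodd', D, hD, hts, h⟩)))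
  · obtain rfl : r = 5 := by
      rcases (Nat.Prime.dvd_mul hr).1 hrn with h' | h'
      · obtain rfl := (Nat.prime_dvd_prime_iff_eq hr Nat.prime_two).1 h'
        exact absurd (hr2 rfl) (by decide)
      · exact (Nat.prime_dvd_prime_iff_eq hr (by norm_num)).1 h'
    exact Or.inr (Or.inr (Or.inr (Or.inr (Or.inl ⟨K, hK, hsa, halt, h⟩))))
  · exact Or.inr (Or.inr (Or.inr (Or.inr (Or.inr (Or.inl ⟨hodd', K, hK, hadj, hnsa, h⟩)))))
  · obtain ⟨rfl, rfl⟩ : n₁ = 2 ∧ n₂ = 5 := by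
      obtain ⟨j, rfl⟩ := he₁
      have h5 : j * n₂ = 5 := by linarith
      rcases (Nat.dvd_prime (by norm_num : (5 : ℕ).Prime)).1 (Dvd.intro n₂ h5) with hj | hj
      · subst hj; exact ⟨rfl, by omega⟩
      · subst hj; omega
    exact Or.inr (Or.inr (Or.inr (Or.inr (Or.inr (Or.inr (Or.inl ⟨hodd', e, P, f₁, f₂, hf₁, hf₂, hts, h⟩))))))
  · exact Or.inr (Or.inr (Or.inr (Or.inr (Or.inr (Or.inr (Or.inr (Or.inl h)))))))
  · exfalso
    rcases Nat.lt_or_ge k 4 with hk | hk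
    · interval_cases k <;> omega
    · have := Nat.pow_le_pow_right (show 1 ≤ 2 by omega) hk
      omega
  · exfalso
    rcases Nat.lt_or_ge k 3 with hk3 | hk3
    · obtain rfl : k = 2 := by omega
      rcases Nat.lt_or_ge t 4 with ht4 | ht4
      · interval_cases t; omega
      · have := Nat.pow_le_pow_right (show 1 ≤ 2 by omega) ht4
        omega
    · have h27 := (Nat.pow_le_pow_left hk3 3).trans (Nat.pow_le_pow_right (show 1 ≤ k by omega) ht3)
      omega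
  · exact Or.inr (Or.inr (Or.inr (Or.inr (Or.inr (Or.inr (Or.inr (Or.inr (Or.inl ⟨hev, Q, hQ, hpol, h⟩))))))))
  · exact Or.inr (Or.inr (Or.inr (Or.inr (Or.inr (Or.inr (Or.inr (Or.inr (Or.inr h))))))))

end Cfsg.Agent.S5844
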