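import Cfsg.Statements.S5858
import Cfsg.Agent.Lib.Geometric.Orth.Frame.Odd
import Cfsg.Agent.Lib.Geometric.Orth.Frames
import Cfsg.Agent.Lib.Geometric.Orth.DecompStabMax
import Cfsg.Agent.Lib.Geometric.Orth.SingularStab
import Cfsg.Agent.Lib.Geometric.Orth.NondegStabLow
import Cfsg.Agent.Lib.Geometric.Orth.SubfieldMax
-- import your own Cfsg.Agent.* helpers here

set_option autoImplicit false
open Cfsg

namespace Cfsg.Agent.S5858

/-- Maximal subgroups of Ω_11(q) of geometric type, q odd. Let F be a finite field of odd order q, Q the standard quadratic form x₀² + Σ x_i y_i on F^11 (coordinates Unit ⊕ (Fin 5 ⊕ Fin 5)), and Ω = Ω_11(q) the commutator subgroup of its isometry group, inside GL_11(F). Each of the following, intersected with Ω, is a maximal subgroup of Ω: (1) the stabiliser of any non-zero subspace on which Q vanishes identically (totally singular 1- to 5-spaces); (2) the stabiliser of any non-zero even-dimensional subspace W (dimension 2 to 10)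 on which the polar form of Q is non-degenerate (equivalently of its odd-dimensional orthogonal complement), except when q = 3 and W is a 2-space containing a non-zero singular vector (a plus-type plane); (3) for q = p prime, the stabiliser of any decomposition of F^11 into eleven pairwise orthogonal, pairwise Q-isometric non-degenerate 1-spaces; (4) every subfield group for a subfield F₀ with |F| = |F₀|^r, r prime, whose F₀-structure carries Q. -/
theorem result {F : Type*} [Field F] [Fintype F] (hodd : Odd (Fintype.card F)) :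
    (∀ W : Submodule F (Unit ⊕ (Fin 5 ⊕ Fin 5) → F), W ≠ ⊥ → Cfsg.Geo.IsTotallySingularQuad (Cfsg.quadFormOdd 5 F) W → Cfsg.Geo.IsMaximalIn (Cfsg.Geo.omegaGL (Cfsg.quadFormOdd 5 F)) (Cfsg.Geo.subspaceStabilizer W ⊓ Cfsg.Geo.omegaGL (Cfsg.quadFormOdd 5 F))) ∧
    (∀ W : Submodule F (Unit ⊕ (Fin 5 ⊕ Fin 5) → F), W ≠ ⊥ → Even (Module.finrank F W) → Cfsg.Geo.IsNondegenerateOn (QuadraticMap.polar (Cfsg.quadFormOdd 5 F)) W → ¬ (Fintype.card F = 3 ∧ Module.finrank F W = 2 ∧ Cfsg.Geo.IsPlusTypeOn (Cfsg.quadFormOdd 5 F) W) → Cfsg.Geo.IsMaximalIn (Cfsg.Geo.omegaGL (Cfsg.quadFormOdd 5 F)) (Cfsg.Geo.subspaceStabilizer W ⊓ Cfsg.Geo.omegaGL (Cfsg.quadFormOdd 5 F))) ∧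
    ((Fintype.card F).Prime → ∀ D : Fin 11 → Submodule F (Unit ⊕ (Fin 5 ⊕ Fin 5) → F), Cfsg.Geo.IsOrthogonalMDecomposition (Cfsg.quadFormOdd 5 F) 1 D → Cfsg.Geo.IsMaximalIn (Cfsg.Geo.omegaGL (Cfsg.quadFormOdd 5 F)) (Cfsg.Geo.decompositionStabilizer D ⊓ Cfsg.Geo.omegaGL (Cfsg.quadFormOdd 5 F))) ∧
    (∀ (F₀ : Subfield F) (r : ℕ) (P : Matrix.GeneralLinearGroup (Unit ⊕ (Fin 5 ⊕ Fin 5)) F), r.Prime → Fintype.card F = Nat.card F₀ ^ r → Cfsg.Geo.IsQuadFormRationalStructure (Cfsg.quadFormOdd 5 F) F₀ P → Cfsg.Geo.IsMaximalIn (Cfsg.Geo.omegaGL (Cfsg.quadFormOdd 5 F)) (Cfsg.Geo.subfieldSubgroup F₀ P ⊓ Cfsg.Geo.omegaGL (Cfsg.quadFormOdd 5 F))) := by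
  have hQ := CfsgLib.Geometric.Orth.isNondegenerateQuadraticForm_quadFormOdd hodd 5
  have hQ' := CfsgLib.Geometric.Orth.nondeg_toQF hQ
  have hcard : Fintype.card (Unit ⊕ (Fin 5 ⊕ Fin 5)) = 11 := by simp
  refine ⟨fun W hW0 hW => ?_, fun W hW0 hev hW hex => ?_, fun hprime D hD => ?_,
    fun F₀ r P hr hF hP => ?_⟩
  · exact CfsgLib.Geometric.Orth.singular_stab_isMaximalIn (Q := CfsgLib.Geometric.Orth.toQF hQ)
      hQ' (by omega) hW0 hW (fun h => absurd h (by omega))
  · have hW' : Cfsg.Geo.IsNondegenerateOn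
        (QuadraticMap.polar ⇑(CfsgLib.Geometric.Orth.toQF hQ)) W := hW
    have hd := CfsgLib.Geometric.Orth.finrank_add_perpW hW'
    rw [hcard] at hd
    obtain ⟨c, hc⟩ := hev
    refine CfsgLib.Geometric.Orth.Low.nondeg_stab_isMaximalIn' (Q := CfsgLib.Geometric.Orth.toQF hQ)
      hQ' hW' (by omega) (by omega) hW0 ?_ ?_ (fun h => by omega)
    · intro h
      rw [h, finrank_top, Module.finrank_fintype_fun_eq_card, hcard] at hc
      omega
    · intro U hU h3 h2 hplU
      rcases hU with rfl | rfl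
      · refine hex ⟨?_, h2, hplU⟩
        rw [Nat.card_eq_fintype_card] at h3
        obtain ⟨d, hd'⟩ := hodd
        have := Fintype.one_lt_card (α := F)
        omega
      · omega
  · exact CfsgLib.Geometric.Orth.Frame.frame_isMaximalIn (Q := CfsgLib.Geometric.Orth.toQF hQ)
      (CfsgLib.Geometric.Orth.two_ne_zero_of_odd hodd) (by omega) (by norm_num)
      ⟨5, rfl⟩ (CfsgLib.Geometric.Orth.Frame.exists_natCast_of_prime hprime) hD
  · refine CfsgLib.Geometric.Orth.orthSubfield_isMaximalIn' (ζ := 1) (by omega) hQ one_ne_zero ?_ hr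
      (by rwa [Nat.card_eq_fintype_card])
    intro u hu
    simp only [one_mul]
    exact hP u hu

end Cfsg.Agent.S5858
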