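import Cfsg.Statements.S5876
-- import your own Cfsg.Agent.* helpers here

set_option autoImplicit false
open Cfsg

namespace Cfsg.Agent.S5876

open Module

section

variable {F : Type*} [Field F] [Fintype F] {n : ℕ}

private lemma exists_pow_idem {M : Type*} [Monoid M] [Finite M] (x : M) :
    ∃ N, 0 < N ∧ x ^ N * x ^ N = x ^ N := by
  obtain ⟨i, j, hne, h⟩ := Finite.exists_ne_map_eq_of_infinite (fun k : ℕ => x ^ k)
  wlog hij : i < j generalizing i j
  · exact this j i hne.symm h.symm (by omega)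
  obtain ⟨d, rfl⟩ : ∃ d, j = i + (d + 1) := ⟨j - i - 1, by omega⟩
  have hk : ∀ k, x ^ (i + k * (d + 1)) = x ^ i := by
    intro k
    induction k with
    | zero => simp
    | succ k ih =>
      rw [show i + (k + 1) * (d + 1) = (i + k * (d + 1)) + (d + 1) by ring, pow_add, ih, ← pow_add]
      exact h.symm
  have hle : i ≤ (i + 1) * (d + 1) := le_trans (Nat.le_succ i) (Nat.le_mul_of_pos_right _ (Nat.succ_pos d))
  refine ⟨(i + 1) * (d + 1), by positivity, ?_⟩
  rw [← pow_add, show (i + 1) * (d + 1) + (i + 1) * (d + 1) =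
    ((i + 1) * (d + 1) - i) + (i + (i + 1) * (d + 1)) by omega, pow_add, hk, ← pow_add]
  congr 1
  omega

private lemma exists_common_kernel (hn : 0 < n) (s : Finset (Matrix (Fin n) (Fin n) F))
    (hc : ∀ a ∈ s, ∀ b ∈ s, Commute a b) (hnil : ∀ a ∈ s, IsNilpotent a) :
    ∃ v : Fin n → F, v ≠ 0 ∧ ∀ a ∈ s, Matrix.mulVec a v = 0 := by
  classical
  induction s using Finset.induction_on with
  | empty => exact ⟨fun _ => 1, fun h => one_ne_zero (congrFun h ⟨0, hn⟩), by simp⟩
  | @insert x s hx ih =>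
    obtain ⟨v, hv, hk⟩ := ih (fun a ha b hb => hc a (by simp [ha]) b (by simp [hb]))
      (fun a ha => hnil a (by simp [ha]))
    obtain ⟨N, hN⟩ := hnil x (by simp)
    have hex : ∃ k, Matrix.mulVec (x ^ k) v = 0 := ⟨N, by rw [hN]; simp⟩
    have hk0 : Nat.find hex ≠ 0 := by
      intro h0
      have := Nat.find_spec hex
      rw [h0] at this
      exact hv (by simpa using this)
    obtain ⟨k, hkk⟩ := Nat.exists_eq_succ_of_ne_zero hk0
    refine ⟨Matrix.mulVec (x ^ k) v, Nat.find_min hex (by omega), ?_⟩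
    intro a ha
    rcases Finset.mem_insert.mp ha with rfl | ha
    · rw [Matrix.mulVec_mulVec, ← pow_succ']
      simpa [hkk] using Nat.find_spec hex
    · rw [Matrix.mulVec_mulVec, ((hc a (by simp [ha]) x (by simp)).pow_right k).eq,
        ← Matrix.mulVec_mulVec, hk a ha, Matrix.mulVec_zero]

/-- Fixed space of a matrix. -/
noncomputable def fixSp (g : Matrix (Fin n) (Fin n) F) : Submodule F (Fin n → F) :=
  Module.End.eigenspace (Matrix.toLin' g) 1

private lemma mem_fixSp {g : Matrix (Fin n) (Fin n) F} {v : Fin n → F} :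
    v ∈ fixSp g ↔ Matrix.mulVec g v = v := by
  simp [fixSp, Module.End.mem_eigenspace_iff]

private lemma irr_top {G : Subgroup (GL (Fin n) F)} (hirr : Cfsg.Geo.ActsIrreducibly (Cfsg.Geo.matrixSet G))
    (W : Submodule F (Fin n → F)) (hW : ∀ g ∈ G, ∀ v ∈ W, Matrix.mulVec (g : Matrix (Fin n) (Fin n) F) v ∈ W)
    (hne : W ≠ ⊥) : W = ⊤ := by
  refine (hirr W ?_).resolve_left hne
  rintro _ ⟨g, hg, rfl⟩ _ ⟨v, hv, rfl⟩
  simpa using hW g hg v hv

private lemma idem_eq_one {G : Subgroup (GL (Fin n) F)} (hirr : Cfsg.Geo.ActsIrreducibly (Cfsg.Geo.matrixSet G))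
    (hprim : ∀ (m t : ℕ) (D : Fin t → Submodule F (Fin n → F)), 2 ≤ t → Cfsg.Geo.IsMDecomposition m D →
      ¬ G ≤ Cfsg.Geo.decompositionStabilizer D)
    (I : Set (Matrix (Fin n) (Fin n) F))
    (hidem : ∀ e ∈ I, e * e = e) (hne : ∀ e ∈ I, e ≠ 0) (hcomm : ∀ e ∈ I, ∀ f ∈ I, e * f = f * e)
    (hmul : ∀ e ∈ I, ∀ f ∈ I, e * f ≠ 0 → e * f ∈ I)
    (hconj : ∀ g ∈ G, ∀ e ∈ I, (g : Matrix (Fin n) (Fin n) F) * e *
        ((g⁻¹ : GL (Fin n) F) : Matrix (Fin n) (Fin n) F) ∈ I)
    {x : Matrix (Fin n) (Fin n) F} (hx : x ∈ I) : x = 1 := by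
  classical
  let R : Matrix (Fin n) (Fin n) F → Submodule F (Fin n → F) := fun e => LinearMap.range (Matrix.toLin' e)
  have hRmem : ∀ e ∈ I, ∀ v ∈ R e, Matrix.mulVec e v = v := by
    rintro e he _ ⟨v, rfl⟩
    simp [Matrix.mulVec_mulVec, hidem e he]
  have hRinj : ∀ e ∈ I, ∀ f ∈ I, R e = R f → e = f := by
    intro e he f hf hef
    apply Matrix.toLin'.injective
    refine LinearMap.ext fun v => ?_
    have h1 : Matrix.mulVec f (Matrix.mulVec e v) = Matrix.mulVec e v :=
      hRmem f hf _ (hef ▸ ⟨v, by simp⟩)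
    have h2 : Matrix.mulVec e (Matrix.mulVec f v) = Matrix.mulVec f v :=
      hRmem e he _ (hef ▸ ⟨v, by simp⟩)
    rw [Matrix.mulVec_mulVec] at h1 h2
    simp only [Matrix.toLin'_apply]
    rw [← h1, ← h2, hcomm e he f hf]
  obtain ⟨e, he, hmin⟩ := (Set.toFinite I).exists_minimalFor (fun a => Module.finrank F (R a)) I ⟨x, hx⟩
  have hmin' : ∀ f ∈ I, Module.finrank F (R e) ≤ Module.finrank F (R f) := by
    intro f hf
    rcases le_total (Module.finrank F (R e)) (Module.finrank F (R f)) with h | h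
    · exact h
    · exact hmin hf h
  let c : GL (Fin n) F → Matrix (Fin n) (Fin n) F := fun g =>
    (g : Matrix (Fin n) (Fin n) F) * e * ((g⁻¹ : GL (Fin n) F) : Matrix (Fin n) (Fin n) F)
  have hcR : ∀ g : GL (Fin n) F,
      R (c g) = (R e).map (Matrix.toLin' (g : Matrix (Fin n) (Fin n) F)) := by
    intro g
    apply le_antisymm
    · rintro _ ⟨v, rfl⟩
      exact ⟨_, ⟨Matrix.mulVec ((g⁻¹ : GL (Fin n) F) : Matrix (Fin n) (Fin n) F) v, rfl⟩,
        by simp [c, Matrix.mulVec_mulVec, mul_assoc]⟩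
    · rintro _ ⟨_, ⟨v, rfl⟩, rfl⟩
      refine ⟨Matrix.mulVec (g : Matrix (Fin n) (Fin n) F) v, ?_⟩
      simp [c, Matrix.mulVec_mulVec, mul_assoc]
  have hinj : ∀ g : GL (Fin n) F,
      Function.Injective (Matrix.toLin' (g : Matrix (Fin n) (Fin n) F)) := by
    intro g u v huv
    have h := congrArg (Matrix.mulVec ((g⁻¹ : GL (Fin n) F) : Matrix (Fin n) (Fin n) F)) huv
    simpa [Matrix.mulVec_mulVec] using h
  have hcd : ∀ g : GL (Fin n) F, Module.finrank F (R (c g)) = Module.finrank F (R e) := by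
    intro g
    rw [hcR]
    exact (Submodule.equivMapOfInjective _ (hinj g) (R e)).finrank_eq.symm
  let O : Finset (Matrix (Fin n) (Fin n) F) := Finset.univ.filter fun y => ∃ g ∈ G, c g = y
  have hOmem : ∀ y ∈ O, ∃ g ∈ G, c g = y := fun y hy => (Finset.mem_filter.mp hy).2
  have hOI : ∀ y ∈ O, y ∈ I := by
    intro y hy
    obtain ⟨g, hg, rfl⟩ := hOmem y hy
    exact hconj g hg e he
  have hOd : ∀ y ∈ O, Module.finrank F (R y) = Module.finrank F (R e) := by
    intro y hy
    obtain ⟨g, hg, rfl⟩ := hOmem y hy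
    exact hcd g
  have hcg : ∀ g h : GL (Fin n) F, (g : Matrix (Fin n) (Fin n) F) * c h *
      ((g⁻¹ : GL (Fin n) F) : Matrix (Fin n) (Fin n) F) = c (g * h) := by
    intro g h
    simp [c, mul_assoc, Matrix.mul_inv_rev]
  have hOconj : ∀ g ∈ G, ∀ y ∈ O, (g : Matrix (Fin n) (Fin n) F) * y *
      ((g⁻¹ : GL (Fin n) F) : Matrix (Fin n) (Fin n) F) ∈ O := by
    intro g hg y hy
    obtain ⟨h, hh, rfl⟩ := hOmem y hy
    exact Finset.mem_filter.mpr ⟨Finset.mem_univ _, g * h, mul_mem hg hh, (hcg g h).symm⟩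
  have horth : ∀ a ∈ O, ∀ b ∈ O, a ≠ b → a * b = 0 := by
    intro a ha b hb hab
    by_contra hz
    have hp := hmul a (hOI a ha) b (hOI b hb) hz
    have hpa : a * b = a := by
      refine hRinj _ hp a (hOI a ha) (Submodule.eq_of_le_of_finrank_le ?_ ?_)
      · rintro _ ⟨v, rfl⟩
        exact ⟨Matrix.mulVec b v, by simp [Matrix.mulVec_mulVec]⟩
      · rw [hOd a ha]; exact hmin' _ hp
    have hpb : a * b = b := by
      refine hRinj _ hp b (hOI b hb) (Submodule.eq_of_le_of_finrank_le ?_ ?_)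
      · rw [hcomm a (hOI a ha) b (hOI b hb)]
        rintro _ ⟨v, rfl⟩
        exact ⟨Matrix.mulVec a v, by simp [Matrix.mulVec_mulVec]⟩
      · rw [hOd b hb]; exact hmin' _ hp
    exact hab (hpa.symm.trans hpb)
  let s : Matrix (Fin n) (Fin n) F := ∑ y ∈ O, y
  have hsy : ∀ y ∈ O, s * y = y := by
    intro y hy
    rw [Finset.sum_mul, Finset.sum_eq_single y (fun b hb hby => horth b hb y hy hby)
      (fun h => absurd hy h), hidem y (hOI y hy)]
  have hss : s * s = s := by
    show s * (∑ y ∈ O, y) = _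
    rw [Finset.mul_sum]
    exact Finset.sum_congr rfl hsy
  have heO : e ∈ O := Finset.mem_filter.mpr ⟨Finset.mem_univ _, 1, one_mem G, by simp [c]⟩
  have hscomm : ∀ g ∈ G, (g : Matrix (Fin n) (Fin n) F) * s = s * (g : Matrix (Fin n) (Fin n) F) := by
    intro g hg
    have h1 : (g : Matrix (Fin n) (Fin n) F) * s * ((g⁻¹ : GL (Fin n) F) : Matrix (Fin n) (Fin n) F) = s := by
      simp only [s, Finset.mul_sum, Finset.sum_mul]
      refine Finset.sum_nbij' (fun y => (g : Matrix (Fin n) (Fin n) F) * y *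
        ((g⁻¹ : GL (Fin n) F) : Matrix (Fin n) (Fin n) F))
        (fun y => ((g⁻¹ : GL (Fin n) F) : Matrix (Fin n) (Fin n) F) * y * (g : Matrix (Fin n) (Fin n) F))
        (fun y hy => hOconj g hg y hy) ?_ (fun y _ => by simp [mul_assoc]) (fun y _ => by simp [mul_assoc])
        (fun y _ => rfl)
      intro y hy
      simpa using hOconj g⁻¹ (inv_mem hg) y hy
    calc (g : Matrix (Fin n) (Fin n) F) * s
        = (g : Matrix (Fin n) (Fin n) F) * s * ((g⁻¹ : GL (Fin n) F) : Matrix (Fin n) (Fin n) F) *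
            (g : Matrix (Fin n) (Fin n) F) := by simp [mul_assoc]
      _ = s * (g : Matrix (Fin n) (Fin n) F) := by rw [h1]
  have hs1 : s = 1 := by
    have htop : R s = ⊤ := by
      refine irr_top hirr (R s) ?_ ?_
      · rintro g hg _ ⟨v, rfl⟩
        exact ⟨Matrix.mulVec (g : Matrix (Fin n) (Fin n) F) v,
          by simp [Matrix.mulVec_mulVec, hscomm g hg]⟩
      · intro hbot
        have h0 : s = 0 := Matrix.toLin'.injective (by rw [map_zero]; exact LinearMap.range_eq_bot.mp hbot)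
        exact hne e he (by rw [← hsy e heO, h0, zero_mul])
    apply Matrix.toLin'.injective
    refine LinearMap.ext fun v => ?_
    obtain ⟨w, rfl⟩ : ∃ w, Matrix.toLin' s w = v := LinearMap.mem_range.mp (htop ▸ Submodule.mem_top : v ∈ R s)
    simp [Matrix.mulVec_mulVec, hss]
  have hcard : O.card ≤ 1 := by
    by_contra h2
    let D : Fin O.card → Submodule F (Fin n → F) := fun i => R ((O.equivFin.symm i : O) : Matrix (Fin n) (Fin n) F)
    refine hprim (Module.finrank F (R e)) O.card D (by omega) ⟨by omega, ?_, fun i => hOd _ (O.equivFin.symm i).2, ?_, ?_⟩ ?_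
    · rw [Nat.pos_iff_ne_zero, Ne, Submodule.finrank_eq_zero]
      intro hbot
      exact hne e he (Matrix.toLin'.injective (by rw [map_zero]; exact LinearMap.range_eq_bot.mp hbot))
    · intro i
      rw [Submodule.disjoint_def]
      intro v hv hv'
      set a : Matrix (Fin n) (Fin n) F := ((O.equivFin.symm i : O) : Matrix (Fin n) (Fin n) F) with ha
      have hav : Matrix.mulVec a v = v := hRmem a (hOI _ (O.equivFin.symm i).2) v hv
      have hker : (⨆ j ≠ i, D j) ≤ LinearMap.ker (Matrix.toLin' a) := by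
        refine iSup₂_le fun j hj => ?_
        rintro _ ⟨w, rfl⟩
        have : a * ((O.equivFin.symm j : O) : Matrix (Fin n) (Fin n) F) = 0 :=
          horth _ (O.equivFin.symm i).2 _ (O.equivFin.symm j).2
            (fun h => hj (O.equivFin.symm.injective (Subtype.ext h)).symm)
        simp [Matrix.mulVec_mulVec, this]
      have := hker hv'
      simp only [LinearMap.mem_ker, Matrix.toLin'_apply] at this
      rw [← hav, this]
    · rw [eq_top_iff]
      intro v _
      have hv : v = ∑ y ∈ O, Matrix.mulVec y v := by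
        rw [← Matrix.sum_mulVec]
        change v = Matrix.mulVec s v
        rw [hs1, Matrix.one_mulVec]
      rw [hv]
      refine Submodule.sum_mem _ fun y hy => Submodule.mem_iSup_of_mem (O.equivFin ⟨y, hy⟩) ?_
      exact ⟨v, by simp⟩
    · intro g hg
      let σ : O → O := fun y => ⟨_, hOconj g hg y y.2⟩
      have hσi : Function.Injective σ := by
        intro y z hyz
        have h1 := congrArg (fun w : O => ((g⁻¹ : GL (Fin n) F) : Matrix (Fin n) (Fin n) F) * (w : Matrix (Fin n) (Fin n) F) *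
            (g : Matrix (Fin n) (Fin n) F)) hyz
        exact Subtype.ext (by simpa [σ, mul_assoc] using h1)
      refine ⟨(O.equivFin.symm.trans (Equiv.ofBijective σ
        (Finite.injective_iff_bijective.mp hσi))).trans O.equivFin, fun i => ?_⟩
      obtain ⟨h, hh, hch⟩ := hOmem _ (O.equivFin.symm i).2
      have : D i = R (c h) := by rw [hch]
      rw [this]
      have h2 : D ((O.equivFin.symm.trans (Equiv.ofBijective σ
        (Finite.injective_iff_bijective.mp hσi))).trans O.equivFin i) = R (c (g * h)) := by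
        simp only [D, Equiv.trans_apply, Equiv.symm_apply_apply, Equiv.ofBijective_apply]
        rw [← hcg, hch]
      rw [h2, hcR, hcR, ← Submodule.map_comp, ← Matrix.toLin'_mul, Units.val_mul]
  have hse : s = e := by
    have : O = {e} := Finset.eq_singleton_iff_unique_mem.mpr
      ⟨heO, fun y hy => Finset.card_le_one.mp hcard y hy e heO⟩
    simp [s, this]
  have he1 : e = 1 := hse.symm.trans hs1
  refine hRinj x hx 1 (he1 ▸ he) (Submodule.eq_of_le_of_finrank_le ?_ ?_)
  · rintro v -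
    exact ⟨v, by simp⟩
  · rw [he1] at hmin'; exact hmin' x hx

lemma abelian_fpf {G : Subgroup (GL (Fin n) F)} (hirr : Cfsg.Geo.ActsIrreducibly (Cfsg.Geo.matrixSet G))
    (hprim : ∀ (m t : ℕ) (D : Fin t → Submodule F (Fin n → F)), 2 ≤ t → Cfsg.Geo.IsMDecomposition m D →
      ¬ G ≤ Cfsg.Geo.decompositionStabilizer D) (hn : 0 < n)
    (A : Subgroup G) [hAn : A.Normal] (hA : ∀ a ∈ A, ∀ b ∈ A, a * b = b * a)
    (a : G) (ha : a ∈ A) (ha1 : a ≠ 1) :
    fixSp ((a : GL (Fin n) F) : Matrix (Fin n) (Fin n) F) = ⊥ := by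
  classical
  let ι : G → Matrix (Fin n) (Fin n) F := fun b => ((b : GL (Fin n) F) : Matrix (Fin n) (Fin n) F)
  let K : Subalgebra F (Matrix (Fin n) (Fin n) F) := Algebra.adjoin F (ι '' A)
  have hKc : ∀ x ∈ K, ∀ y ∈ K, Commute x y := by
    intro x hx y hy
    refine Algebra.commute_of_mem_adjoin_of_forall_mem_commute hy ?_
    rintro _ ⟨b, hb, rfl⟩
    refine (Algebra.commute_of_mem_adjoin_of_forall_mem_commute hx ?_).symm
    rintro _ ⟨b', hb', rfl⟩
    show ι b * ι b' = ι b' * ι b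
    simpa [ι] using congrArg ι (hA b hb b' hb')
  have hKconj : ∀ g ∈ G, ∀ x ∈ K, (g : Matrix (Fin n) (Fin n) F) * x *
      ((g⁻¹ : GL (Fin n) F) : Matrix (Fin n) (Fin n) F) ∈ K := by
    intro g hg x hx
    induction hx using Algebra.adjoin_induction with
    | mem x hx =>
      obtain ⟨b, hb, rfl⟩ := hx
      exact Algebra.subset_adjoin ⟨⟨g, hg⟩ * b * ⟨g, hg⟩⁻¹, hAn.conj_mem b hb _, by simp [ι, mul_assoc]⟩
    | algebraMap r => simp [Algebra.algebraMap_eq_smul_one, K.smul_mem (one_mem K)]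
    | add x y _ _ hx hy => rw [mul_add, add_mul]; exact add_mem hx hy
    | mul x y _ _ hx hy => simpa [mul_assoc] using mul_mem hx hy
  have hidem : ∀ e ∈ K, e * e = e → e ≠ 0 → e = 1 := by
    intro e he hee h0
    refine idem_eq_one hirr hprim {f | f ∈ K ∧ f * f = f ∧ f ≠ 0} (fun f hf => hf.2.1) (fun f hf => hf.2.2)
      (fun f hf k hk => hKc f hf.1 k hk.1) ?_ ?_ (x := e) ⟨he, hee, h0⟩
    · intro f hf k hk hfk
      refine ⟨mul_mem hf.1 hk.1, ?_, hfk⟩
      rw [(hKc k hk.1 f hf.1).mul_mul_mul_comm, hf.2.1, hk.2.1]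
    · intro g hg f hf
      refine ⟨hKconj g hg f hf.1, ?_, ?_⟩
      · calc _ = (g : Matrix (Fin n) (Fin n) F) * (f * f) * ((g⁻¹ : GL (Fin n) F) : Matrix (Fin n) (Fin n) F) := by simp [mul_assoc]
          _ = _ := by rw [hf.2.1]
      · intro h
        apply hf.2.2
        have := congrArg (fun z => ((g⁻¹ : GL (Fin n) F) : Matrix (Fin n) (Fin n) F) * z * (g : Matrix (Fin n) (Fin n) F)) h
        simpa [mul_assoc] using this
  have hsub : ∀ b ∈ A, ι b - 1 ∈ K := fun b hb => sub_mem (Algebra.subset_adjoin ⟨b, hb, rfl⟩) (one_mem K)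
  have hnotnil : ¬ IsNilpotent (ι a - 1) := by
    intro hnil
    let s : Finset G := Finset.univ.filter fun b => b ∈ A ∧ IsNilpotent (ι b - 1)
    obtain ⟨v, hv, hvs⟩ := exists_common_kernel hn (s.image fun b => ι b - 1)
      (by
        simp only [Finset.mem_image, s, Finset.mem_filter]
        rintro _ ⟨b, hb, rfl⟩ _ ⟨b', hb', rfl⟩
        exact hKc _ (hsub b hb.2.1) _ (hsub b' hb'.2.1))
      (by
        simp only [Finset.mem_image, s, Finset.mem_filter]
        rintro _ ⟨b, hb, rfl⟩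
        exact hb.2.2)
    let W : Submodule F (Fin n → F) := ⨅ b ∈ s, fixSp (ι b)
    have hW : W = ⊤ := by
      refine irr_top hirr W ?_ ?_
      · intro g hg w hw
        simp only [W, Submodule.mem_iInf, mem_fixSp] at hw ⊢
        intro b hb
        simp only [s, Finset.mem_filter] at hb
        let b' : G := ⟨g, hg⟩⁻¹ * b * ⟨g, hg⟩
        have hbι : ι b' = ((g⁻¹ : GL (Fin n) F) : Matrix (Fin n) (Fin n) F) * ι b * (g : Matrix (Fin n) (Fin n) F) := by
          simp [b', ι]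
        have hb' : b' ∈ s := by
          refine Finset.mem_filter.mpr ⟨Finset.mem_univ _, ?_, ?_⟩
          · simpa [b'] using hAn.conj_mem b hb.2.1 ⟨g, hg⟩⁻¹
          · obtain ⟨k, hk⟩ := hb.2.2
            refine ⟨k, ?_⟩
            have : ι b' - 1 = ((g⁻¹ : GL (Fin n) F) : Matrix (Fin n) (Fin n) F) * (ι b - 1) * (g : Matrix (Fin n) (Fin n) F) := by
              rw [hbι, mul_sub, sub_mul, mul_one, Units.inv_mul]
            rw [this, Units.conj_pow', hk, mul_zero, zero_mul]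
        have h := congrArg (Matrix.mulVec (g : Matrix (Fin n) (Fin n) F)) (hw b' hb')
        simpa [hbι, Matrix.mulVec_mulVec, ← mul_assoc] using h
      · intro hbot
        have : v ∈ W := by
          simp only [W, Submodule.mem_iInf, mem_fixSp]
          intro b hb
          have h := hvs (ι b - 1) (Finset.mem_image.mpr ⟨b, hb, rfl⟩)
          simpa [Matrix.sub_mulVec, sub_eq_zero] using h
        rw [hbot, Submodule.mem_bot] at this
        exact hv this
    apply ha1
    apply Subtype.ext; apply Units.ext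
    apply Matrix.toLin'.injective
    refine LinearMap.ext fun w => ?_
    have hw : w ∈ W := hW ▸ Submodule.mem_top
    simp only [W, Submodule.mem_iInf, mem_fixSp] at hw
    simpa [ι] using hw a (Finset.mem_filter.mpr ⟨Finset.mem_univ _, ha, hnil⟩)
  obtain ⟨N, hN, hee⟩ := exists_pow_idem (ι a - 1)
  rcases eq_or_ne ((ι a - 1) ^ N) 0 with h0 | h0
  · exact absurd ⟨N, h0⟩ hnotnil
  have h1 := hidem _ (pow_mem (hsub a ha) N) hee h0
  rw [eq_bot_iff]
  intro v hv
  rw [mem_fixSp] at hv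
  have hz : Matrix.mulVec (ι a - 1) v = 0 := by rw [Matrix.sub_mulVec, Matrix.one_mulVec]; exact sub_eq_zero.mpr hv
  obtain ⟨k, rfl⟩ := Nat.exists_eq_succ_of_ne_zero hN.ne'
  have : v = Matrix.mulVec ((ι a - 1) ^ (k + 1)) v := by rw [h1, Matrix.one_mulVec]
  rw [pow_succ, ← Matrix.mulVec_mulVec, hz, Matrix.mulVec_zero] at this
  simp [this]

private lemma sup_commutator_le {Γ : Type*} [Group Γ] {Z U E : Subgroup Γ} [Z.Normal]
    (hUU : ⁅U, U⁆ ≤ Z) (hEE : ⁅E, E⁆ ≤ Z) (hUE : ⁅U, E⁆ ≤ Z) : ⁅U ⊔ E, U ⊔ E⁆ ≤ Z := by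
  have key : ∀ H K : Subgroup Γ, ⁅H, K⁆ ≤ Z ↔
      H.map (QuotientGroup.mk' Z) ≤ Subgroup.centralizer (K.map (QuotientGroup.mk' Z) : Set (Γ ⧸ Z)) := by
    intro H K
    rw [← Subgroup.commutator_eq_bot_iff_le_centralizer, ← Subgroup.map_commutator, Subgroup.map_eq_bot_iff,
      QuotientGroup.ker_mk']
  rw [key] at hUU hEE hUE ⊢
  have hEU := Subgroup.le_centralizer_iff.mp hUE
  rw [Subgroup.map_sup]
  exact sup_le (Subgroup.le_centralizer_iff.mpr (sup_le hUU hEU))
    (Subgroup.le_centralizer_iff.mpr (sup_le hUE hEE))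

private lemma exists_class_two {Γ : Type*} [Group Γ] [Finite Γ] (hsol : Group.IsSolvable Γ)
    (Z : Subgroup Γ) [Z.Normal] (hZ : ∀ a ∈ Z, ∀ b ∈ Z, a * b = b * a)
    (hmax : ∀ A : Subgroup Γ, A.Normal → (∀ a ∈ A, ∀ b ∈ A, a * b = b * a) → Z ≤ A → A ≤ Z) :
    ∃ U : Subgroup Γ, U.Normal ∧ U ≤ Subgroup.centralizer (Z : Set Γ) ∧ ⁅U, U⁆ ≤ Z ∧
      Subgroup.centralizer (Z : Set Γ) ⊓ Subgroup.centralizer (U : Set Γ) ≤ Z ∧
      (∀ y ∈ U, (∀ u ∈ U, y * u = u * y) → y ∈ Z) := by
  classical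
  have hZC : Z ≤ Subgroup.centralizer (Z : Set Γ) := fun z hz w hw => hZ w hw z hz
  let 𝒰 : Set (Subgroup Γ) := {U | Z ≤ U ∧ U.Normal ∧ U ≤ Subgroup.centralizer (Z : Set Γ) ∧ ⁅U, U⁆ ≤ Z}
  have hZ𝒰 : Z ∈ 𝒰 := ⟨le_rfl, inferInstance, hZC, Subgroup.commutator_le_left Z Z⟩
  obtain ⟨U, hU⟩ := (Set.toFinite 𝒰).exists_maximal ⟨Z, hZ𝒰⟩
  obtain ⟨hZU, hUn, hUC, hUU⟩ := hU.prop
  have hctr : ∀ y ∈ U, (∀ u ∈ U, y * u = u * y) → y ∈ Z := by
    have h := hmax (U ⊓ Subgroup.centralizer (U : Set Γ)) inferInstance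
      (fun a ha b hb => (hb.2 a ha.1)) (le_inf hZU (Subgroup.le_centralizer_iff.mp hUC))
    exact fun y hy hc => h ⟨hy, fun u hu => (hc u hu).symm⟩
  refine ⟨U, hUn, hUC, hUU, ?_, hctr⟩
  set D := Subgroup.centralizer (Z : Set Γ) ⊓ Subgroup.centralizer (U : Set Γ) with hD
  by_contra hDZ
  have hDn : D.Normal := inferInstance
  obtain ⟨N, hN⟩ := hsol.solvable
  have hex : ∃ k, derivedSeries Γ k ⊓ D ≤ Z := ⟨N, by simp [hN]⟩
  obtain ⟨k, hk⟩ := Nat.exists_eq_succ_of_ne_zero (n := Nat.find hex) (by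
    intro h0
    have := Nat.find_spec hex
    rw [h0] at this
    exact hDZ (by simpa using this))
  have hkn : ¬ derivedSeries Γ k ⊓ D ≤ Z := Nat.find_min hex (by omega)
  have hks : derivedSeries Γ (k + 1) ⊓ D ≤ Z := by simpa [hk] using Nat.find_spec hex
  set E := derivedSeries Γ k ⊓ D with hE
  have hEE : ⁅E, E⁆ ≤ Z := by
    refine le_trans (le_inf ?_ ?_) hks
    · rw [derivedSeries_succ]; exact Subgroup.commutator_mono inf_le_left inf_le_left
    · exact (Subgroup.commutator_mono inf_le_right inf_le_right).trans (Subgroup.commutator_le_left D D)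
  have hUE : ⁅U, E⁆ ≤ Z := by
    rw [Subgroup.commutator_le]
    intro u hu e he
    have h : u * e = e * u := he.2.2 u hu
    have : u * e * u⁻¹ * e⁻¹ = 1 := by rw [h]; group
    rw [commutatorElement_def, this]; exact one_mem Z
  have hmem : U ⊔ E ∈ 𝒰 := by
    have := derivedSeries_normal Γ k
    have : E.Normal := inferInstance
    exact ⟨hZU.trans le_sup_left, inferInstance, sup_le hUC (inf_le_right.trans inf_le_left),
      sup_commutator_le hUU hEE hUE⟩
  have hEU : E ≤ U := le_trans le_sup_right (hU.le_of_ge hmem le_sup_left)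
  exact hkn fun e he => hctr e (hEU he) fun u hu => (he.2.2 u hu).symm

private lemma finrank_commutator_bound (g x y : GL (Fin n) F) (hy : y = g⁻¹ * x⁻¹ * g * x) :
    2 * Module.finrank F (fixSp (g : Matrix (Fin n) (Fin n) F)) ≤
      n + Module.finrank F (fixSp (y : Matrix (Fin n) (Fin n) F)) := by
  set A := fixSp (g : Matrix (Fin n) (Fin n) F)
  set L := Matrix.toLin' ((x⁻¹ : GL (Fin n) F) : Matrix (Fin n) (Fin n) F)
  have hinj : Function.Injective L := by
    intro u v huv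
    have h := congrArg (Matrix.mulVec (x : Matrix (Fin n) (Fin n) F)) huv
    simpa [L, Matrix.mulVec_mulVec] using h
  have hB : Module.finrank F (A.map L) = Module.finrank F A :=
    (Submodule.equivMapOfInjective L hinj A).finrank_eq.symm
  have hle : A ⊓ A.map L ≤ fixSp (y : Matrix (Fin n) (Fin n) F) := by
    rintro _ ⟨hv, w, hw, rfl⟩
    have hv' : Matrix.mulVec (g : Matrix (Fin n) (Fin n) F) (L w) = L w := mem_fixSp.mp hv
    have hw' : Matrix.mulVec (g : Matrix (Fin n) (Fin n) F) w = w := mem_fixSp.mp hw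
    have hx : Matrix.mulVec (x : Matrix (Fin n) (Fin n) F) (L w) = w := by simp [L, Matrix.mulVec_mulVec]
    have hgi : Matrix.mulVec ((g⁻¹ : GL (Fin n) F) : Matrix (Fin n) (Fin n) F) (L w) = L w := by
      conv_lhs => rw [← hv']
      simp [Matrix.mulVec_mulVec]
    rw [mem_fixSp, hy]
    simp only [Units.val_mul, ← Matrix.mulVec_mulVec]
    rw [hx, hw']
    exact hgi
  have h1 := Submodule.finrank_sup_add_finrank_inf_eq A (A.map L)
  have h2 := Submodule.finrank_le (A ⊔ A.map L)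
  have h3 := Submodule.finrank_mono hle
  simp only [Module.finrank_fin_fun] at h2
  omega

end

/-- Fixed-point spaces in primitive soluble linear groups. Let F be a finite field and G a soluble subgroup of GL_n(F) that acts irreducibly on F^n and primitively (G preserves no decomposition of F^n into two or more independent subspaces of equal dimension). Then every non-identity element g of G has fixed-point space {v : g v = v} of dimension at most 3n/4. -/
theorem result {F : Type*} [Field F] [Fintype F] {n : ℕ} (G : Subgroup (Matrix.GeneralLinearGroup (Fin n) F)) (hsol : IsSolvable G) (hirr : Cfsg.Geo.ActsIrreducibly (Cfsg.Geo.matrixSet G)) (hprim : ∀ (m t : ℕ) (D : Fin t → Submodule F (Fin n → F)), 2 ≤ t → Cfsg.Geo.IsMDecomposition m D → ¬ G ≤ Cfsg.Geo.decompositionStabilizer D) (g : Matrix.GeneralLinearGroup (Fin n) F) (hg : g ∈ G) (hg1 : g ≠ 1) :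
    4 * Module.finrank F (Module.End.eigenspace (Matrix.toLin' (g : Matrix (Fin n) (Fin n) F)) 1) ≤ 3 * n := by
  classical
  rcases Nat.eq_zero_or_pos n with rfl | hn
  · exact absurd (Subsingleton.elim g 1) hg1
  show 4 * Module.finrank F (fixSp (g : Matrix (Fin n) (Fin n) F)) ≤ 3 * n
  have key : ∀ (A : Subgroup G), A.Normal → (∀ a ∈ A, ∀ b ∈ A, a * b = b * a) → ∀ a : G, a ∈ A → a ≠ 1 →
      Module.finrank F (fixSp ((a : GL (Fin n) F) : Matrix (Fin n) (Fin n) F)) = 0 := by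
    intro A hAn hA a ha ha1
    have := hAn
    rw [abelian_fpf hirr hprim hn A hA a ha ha1]
    exact finrank_bot F _
  let 𝒜 : Set (Subgroup G) := {A | A.Normal ∧ ∀ a ∈ A, ∀ b ∈ A, a * b = b * a}
  have hbot : (⊥ : Subgroup G) ∈ 𝒜 := ⟨inferInstance, by simp⟩
  obtain ⟨Z, hZ⟩ := (Set.toFinite 𝒜).exists_maximal ⟨⊥, hbot⟩
  have := hZ.prop.1
  have hmax : ∀ A : Subgroup G, A.Normal → (∀ a ∈ A, ∀ b ∈ A, a * b = b * a) → Z ≤ A → A ≤ Z :=
    fun A hAn hA hle => hZ.le_of_ge ⟨hAn, hA⟩ hle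
  have hZf := key Z hZ.prop.1 hZ.prop.2
  have comm : ∀ (a x : G), Module.finrank F (fixSp ((a : GL (Fin n) F) : Matrix (Fin n) (Fin n) F)) * 2 ≤
      n + Module.finrank F (fixSp (((a⁻¹ * x⁻¹ * a * x : G) : GL (Fin n) F) : Matrix (Fin n) (Fin n) F)) := by
    intro a x
    rw [mul_comm]
    exact finrank_commutator_bound _ (x : GL (Fin n) F) _ (by simp)
  have ncomm : ∀ a x : G, a * x ≠ x * a → a⁻¹ * x⁻¹ * a * x ≠ 1 := by
    intro a x h h1
    apply h
    calc a * x = x * a * (a⁻¹ * x⁻¹ * a * x) := by group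
      _ = x * a := by rw [h1, mul_one]
  obtain ⟨g', rfl⟩ : ∃ g' : G, (g' : GL (Fin n) F) = g := ⟨⟨g, hg⟩, rfl⟩
  have hg' : g' ≠ 1 := fun h => hg1 (by simp [h])
  by_cases hgZ : g' ∈ Z
  · rw [hZf g' hgZ hg']; omega
  by_cases hgC : g' ∈ Subgroup.centralizer (Z : Set G)
  swap
  · obtain ⟨z, hz, hne⟩ : ∃ z ∈ Z, z * g' ≠ g' * z := by
      simpa [Subgroup.mem_centralizer_iff] using hgC
    have hm : g'⁻¹ * z⁻¹ * g' * z ∈ Z := by
      have := mul_mem (Subgroup.Normal.conj_mem hZ.prop.1 _ (inv_mem hz) g'⁻¹) hz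
      simpa [mul_assoc] using this
    have h := comm g' z
    rw [hZf _ hm (ncomm g' z (Ne.symm hne))] at h
    omega
  obtain ⟨U, hUn, hUC, hUU, hD, hctr⟩ := exists_class_two hsol Z hZ.prop.2 hmax
  have hUZ : ∀ a ∈ U, ∀ b ∈ U, a⁻¹ * b⁻¹ * a * b ∈ Z := fun a ha b hb => by
    simpa [commutatorElement_def] using hUU (Subgroup.commutator_mem_commutator (inv_mem ha) (inv_mem hb))
  have hU2 : ∀ y ∈ U, y ≠ 1 → 2 * Module.finrank F (fixSp ((y : GL (Fin n) F) : Matrix (Fin n) (Fin n) F)) ≤ n := by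
    intro y hy hy1
    by_cases hyZ : y ∈ Z
    · rw [hZf y hyZ hy1]; omega
    obtain ⟨u, hu, hne⟩ : ∃ u ∈ U, y * u ≠ u * y := by
      by_contra hall
      push Not at hall
      exact hyZ (hctr y hy hall)
    have h := comm y u
    rw [hZf _ (hUZ y hy u hu) (ncomm y u hne)] at h
    omega
  obtain ⟨x, hx, hne⟩ : ∃ x ∈ U, g' * x ≠ x * g' := by
    by_contra hall
    push Not at hall
    exact hgZ (hD ⟨hgC, fun u hu => (hall u hu).symm⟩)
  have hm : g'⁻¹ * x⁻¹ * g' * x ∈ U := by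
    have := mul_mem (Subgroup.Normal.conj_mem hUn _ (inv_mem hx) g'⁻¹) hx
    simpa [mul_assoc] using this
  have h1 := comm g' x
  have h2 := hU2 _ hm (ncomm g' x hne)
  omega

end Cfsg.Agent.S5876
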