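import Cfsg.Statements.S5877
import Cfsg.Agent.Lib.Derangements.ExtraspecialEigen

set_option autoImplicit false
open Cfsg
open scoped commutatorElement

namespace Cfsg.Agent.S5877

/-- Eigenspaces of elements normalising an absolutely irreducible extraspecial group. Let F be a finite field, r a prime, and R ≤ GL_n(F) an absolutely irreducible extraspecial r-group (an r-group whose centre equals its derived subgroup and has order r) of exponent r or 4. Let g ∈ GL_n(F) normalise the product of R with the scalar matrices, have prime order ϖ and not be scalar, and let W be the eigenspace of g for any c ∈ F (W may be the zero subspace). Then dim W ≤ 3n/4 if ϖ = 2, dim W ≤ 2n/3 if ϖ = 3, and dim W ≤ n/2 if ϖ > 3; moreover if ϖ = 3 and 3 does not divide n then dim W ≤ n/2. -/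
theorem result {F : Type*} [Field F] [Fintype F] {n r ϖ : ℕ} (R : Subgroup (Matrix.GeneralLinearGroup (Fin n) F)) (hr : r.Prime) (hR : IsPGroup r R) (hZ : Nat.card (Subgroup.center R) = r) (hext : commutator R = Subgroup.center R) (hexp : Monoid.exponent R = r ∨ Monoid.exponent R = 4) (hirr : Cfsg.Geo.ActsAbsolutelyIrreducibly (Cfsg.Geo.matrixSet R)) (g : Matrix.GeneralLinearGroup (Fin n) F) (hg : g ∈ Cfsg.Geo.subgroupNormalizer (R ⊔ Cfsg.Geo.scalars (Fin n) F)) (hϖ : ϖ.Prime) (hord : orderOf g = ϖ) (hns : g ∉ Cfsg.Geo.scalars (Fin n) F) (c : F) :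
    (ϖ = 2 → 4 * Module.finrank F (Module.End.eigenspace (Matrix.toLin' (g : Matrix (Fin n) (Fin n) F)) c) ≤ 3 * n) ∧
    (ϖ = 3 → 3 * Module.finrank F (Module.End.eigenspace (Matrix.toLin' (g : Matrix (Fin n) (Fin n) F)) c) ≤ 2 * n) ∧
    (3 < ϖ → 2 * Module.finrank F (Module.End.eigenspace (Matrix.toLin' (g : Matrix (Fin n) (Fin n) F)) c) ≤ n) ∧
    (ϖ = 3 → ¬ 3 ∣ n → 2 * Module.finrank F (Module.End.eigenspace (Matrix.toLin' (g : Matrix (Fin n) (Fin n) F)) c) ≤ n) := by
  classical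
  let ρ : Matrix.GeneralLinearGroup (Fin n) F →* Module.End F (Fin n → F) :=
    (Matrix.toLinAlgEquiv' (R := F) (n := Fin n)).toMonoidHom.comp (Units.coeHom _)
  have hρ : ∀ a, ρ a = Matrix.toLinAlgEquiv' (a : Matrix (Fin n) (Fin n) F) := fun a => rfl
  set S := Cfsg.Geo.scalars (Fin n) F with hS
  have hfaith : Function.Injective ρ := fun a b h => Units.ext (Matrix.toLinAlgEquiv'.injective h)
  have hSc : S ≤ Subgroup.center _ := by
    intro z hz
    obtain ⟨s, hs⟩ := (Cfsg.Geo.mem_scalars_iff z).1 hz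
    exact Subgroup.mem_center_iff.2 fun a => Units.ext (by simp [hs])
  have hscalar : ∀ z ∈ S, ∃ s : F, ρ z = s • (1 : Module.End F (Fin n → F)) := by
    intro z hz
    obtain ⟨s, hs⟩ := (Cfsg.Geo.mem_scalars_iff z).1 hz
    exact ⟨s, by rw [hρ, hs, map_smul, map_one]⟩
  have hmem : ∀ a, (∃ s : F, ρ a = s • (1 : Module.End F (Fin n → F))) → a ∈ S := by
    rintro a ⟨s, hs⟩
    have ha : (a : Matrix (Fin n) (Fin n) F) = s • 1 := Matrix.toLinAlgEquiv'.injective (by
      rw [← hρ, hs, map_smul, map_one])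
    refine (Cfsg.Geo.mem_scalars_iff a).2 ?_
    rcases Nat.eq_zero_or_pos n with rfl | hn
    · exact ⟨1, Subsingleton.elim _ _⟩
    · refine ⟨Units.mk0 s fun h0 => ?_, ha⟩
      have : Nonempty (Fin n) := ⟨⟨0, hn⟩⟩
      exact not_isUnit_zero (by rw [h0, zero_smul] at ha; exact ha ▸ a.isUnit)
  have hcomm_scalar : ∀ a, (∀ x ∈ R, a * x = x * a) → a ∈ S := by
    intro a ha
    obtain ⟨s, hs⟩ := hirr.2 (a : Matrix (Fin n) (Fin n) F) (by
      rintro _ ⟨x, hx, rfl⟩
      exact congrArg Units.val (ha x hx))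
    exact hmem a ⟨s, by rw [hρ, hs, map_smul, map_one]⟩
  have hcenter : ∀ z : Subgroup.center R, ((z : R) : Matrix.GeneralLinearGroup (Fin n) F) ∈ S := fun z =>
    hcomm_scalar _ fun x hx => congrArg Subtype.val (Subgroup.mem_center_iff.1 z.2 ⟨x, hx⟩).symm
  have hR' : ∀ x y : R, ⁅(x : Matrix.GeneralLinearGroup (Fin n) F), (y : Matrix.GeneralLinearGroup (Fin n) F)⁆ ∈ S ∧
      ⁅(x : Matrix.GeneralLinearGroup (Fin n) F), (y : Matrix.GeneralLinearGroup (Fin n) F)⁆ ^ r = 1 := by
    intro x y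
    have h : ⁅x, y⁆ ∈ Subgroup.center R := hext ▸ Subgroup.commutator_mem_commutator (Subgroup.mem_top x) (Subgroup.mem_top y)
    refine ⟨hcenter ⟨_, h⟩, ?_⟩
    have h1 : (⟨_, h⟩ : Subgroup.center R) ^ r = 1 := by rw [← hZ]; exact pow_card_eq_one'
    exact congrArg (fun z : Subgroup.center R => ((z : R) : Matrix.GeneralLinearGroup (Fin n) F)) h1
  have hP : ∀ a ∈ R ⊔ S, ∃ x : R, ∃ z ∈ S, a = x * z := fun a ha => by
    obtain ⟨x, hx, z, hz, rfl⟩ := Subgroup.mem_sup_of_normal_right.1 ha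
    exact ⟨⟨x, hx⟩, z, hz, rfl⟩
  have hcz : ∀ (a b : Matrix.GeneralLinearGroup (Fin n) F), ∀ z ∈ S, ⁅a * z, b⁆ = ⁅a, b⁆ ∧ ⁅a, b * z⁆ = ⁅a, b⁆ := by
    intro a b z hz
    have hc := CfsgLib.Derangements.CentralComm.commute_comm hSc hz
    have hl : ⁅z, b⁆ = 1 := commutatorElement_eq_one_iff_commute.2 (hc b)
    have hr' : ⁅a, z⁆ = 1 := commutatorElement_eq_one_iff_commute.2 (hc a).symm
    exact ⟨by rw [CfsgLib.Derangements.CentralComm.comm_mul_left_of hSc (by rw [hl]; exact S.one_mem), hl, mul_one],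
      by rw [CfsgLib.Derangements.CentralComm.comm_mul_right_of hSc (by rw [hr']; exact S.one_mem), hr', mul_one]⟩
  have hcomm : ∀ a ∈ R ⊔ S, ∀ b ∈ R ⊔ S, ⁅a, b⁆ ∈ S ∧ ⁅a, b⁆ ^ r = 1 := by
    intro a ha b hb
    obtain ⟨x, z, hz, rfl⟩ := hP a ha
    obtain ⟨y, w, hw, rfl⟩ := hP b hb
    rw [(hcz _ _ z hz).1, (hcz _ _ w hw).2]
    exact hR' x y
  have hcentral_exp : Odd r → Monoid.exponent R = r := fun hodd => hexp.resolve_right fun h4 => by
    have hdvd : r ∣ 4 := by
      have : Fact r.Prime := ⟨hr⟩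
      obtain ⟨z, hz⟩ := exists_prime_orderOf_dvd_card' (G := Subgroup.center R) r (by rw [hZ])
      rw [← h4, ← hz, ← Subgroup.orderOf_coe]
      exact Monoid.order_dvd_exponent _
    have := (Nat.prime_dvd_prime_iff_eq hr Nat.prime_two).1 (hr.dvd_of_dvd_pow (n := 2) (by norm_num; exact hdvd))
    subst this
    exact absurd hodd (by decide)
  have hD : CfsgLib.Derangements.ExtraEigen.Data ρ (R ⊔ S) S r :=
    { prime := hr
      center := hSc
      scalar := hscalar
      mem_of_scalar := hmem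
      comm := fun a ha b hb => ⟨(hcomm a ha b hb).1, by rw [(hcomm a ha b hb).2, map_one]⟩
      pow_mem := fun a ha => by
        obtain ⟨x, z, hz, rfl⟩ := hP a ha
        rw [(CfsgLib.Derangements.CentralComm.commute_comm hSc hz (x : Matrix.GeneralLinearGroup (Fin n) F)).symm.mul_pow]
        refine S.mul_mem (hcomm_scalar _ fun y hy => ?_) (S.pow_mem hz r)
        rw [← commute_iff_eq, ← commutatorElement_eq_one_iff_commute]
        have hk : ∀ k : ℕ, ⁅(x : Matrix.GeneralLinearGroup (Fin n) F) ^ k, y⁆ =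
            ⁅(x : Matrix.GeneralLinearGroup (Fin n) F), y⁆ ^ k := by
          intro k
          induction k with
          | zero => simp
          | succ k ih =>
            rw [pow_succ, CfsgLib.Derangements.CentralComm.comm_mul_left_of hSc (hR' x ⟨y, hy⟩).1, ih, pow_succ]
        rw [hk]
        exact (hR' x ⟨y, hy⟩).2
      norm := fun hodd a ha => by
        obtain ⟨x, z, hz, rfl⟩ := hP a ha
        obtain ⟨s, hs⟩ := hscalar z⁻¹ (S.inv_mem hz)
        refine ⟨s, ?_⟩
        have h1 : s • ρ ((x : Matrix.GeneralLinearGroup (Fin n) F) * z) = ρ (x : Matrix.GeneralLinearGroup (Fin n) F) := by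
          rw [← mul_one (ρ ((x : Matrix.GeneralLinearGroup (Fin n) F) * z)), ← mul_smul_comm, ← hs, ← map_mul,
            mul_inv_cancel_right]
        rw [h1, ← map_pow, ← SubmonoidClass.coe_pow, ← hcentral_exp hodd, Monoid.pow_exponent_eq_one,
          OneMemClass.coe_one, map_one]
      irr := fun M hM => by
        obtain ⟨s, hs⟩ := hirr.2 (Matrix.toLinAlgEquiv'.symm M) (by
          rintro _ ⟨x, hx, rfl⟩
          apply Matrix.toLinAlgEquiv'.injective
          rw [map_mul, map_mul, AlgEquiv.apply_symm_apply]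
          exact hM x (Subgroup.mem_sup_left hx))
        exact ⟨s, by rw [← Matrix.toLinAlgEquiv'.apply_symm_apply M, hs, map_smul, map_one]⟩ }
  rcases Nat.eq_zero_or_pos n with rfl | hn
  · exact absurd ((Cfsg.Geo.mem_scalars_iff g).2 ⟨1, Subsingleton.elim _ _⟩) hns
  have hrF : (r : F) ≠ 0 := by
    intro h0
    have : Fact r.Prime := ⟨hr⟩
    have : CharP F r := (CharP.charP_iff_prime_eq_zero hr).2 h0
    obtain ⟨z, hz⟩ := exists_prime_orderOf_dvd_card' (G := Subgroup.center R) r (by rw [hZ])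
    obtain ⟨s, hs⟩ := hscalar _ (hcenter z)
    have hne : Nonempty (Fin n) := ⟨⟨0, hn⟩⟩
    have h1 : s ^ r = 1 := CfsgLib.Derangements.ExtraEigen.smul_one_inj (V := Fin n → F) (by
      rw [one_smul, show s ^ r • (1 : Module.End F (Fin n → F)) = (s • 1) ^ r by rw [smul_pow, one_pow], ← hs,
        ← map_pow, ← SubmonoidClass.coe_pow, ← SubmonoidClass.coe_pow, ← hz, pow_orderOf_eq_one]
      simp)
    have h2 : s = 1 := sub_eq_zero.1 (eq_zero_of_pow_eq_zero (n := r) (by rw [sub_pow_char, h1, one_pow, sub_self]))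
    have h3 : z = 1 := by
      have h4 : ρ ((z : R) : Matrix.GeneralLinearGroup (Fin n) F) = ρ 1 := by rw [hs, h2, one_smul, map_one]
      exact Subtype.ext (Subtype.ext (hfaith h4))
    rw [h3, orderOf_one] at hz
    exact hr.one_lt.ne hz
  have key := CfsgLib.Derangements.ExtraEigen.bounds hD hfaith hrF hg hϖ
    (by rw [← hord]; exact pow_orderOf_eq_one g) hns c
  rw [Module.finrank_fin_fun] at key
  exact key

end Cfsg.Agent.S5877
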