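import Cfsg.Statements.S5938
import Cfsg.Agent.Lib.Derangements.PSL2Grow

set_option autoImplicit false
open Cfsg

namespace Cfsg.Agent.S5938

open CfsgLib.Derangements.PSL2

theorem two_ne (F : Type*) [Field F] [Finite F] (p : ℕ) (hq : Nat.card F = p) (hodd : Odd p) : (2 : F) ≠ 0 := by
  classical
  have : Fintype F := Fintype.ofFinite F
  refine CfsgLib.SL2.two_ne_zero_of_odd ?_
  rw [← Nat.card_eq_fintype_card, hq]; exact hodd

/-- Let p be a prime with p ≡ ±1 (mod 8) and F a field with p elements. Then PSL_2(F) has a maximal subgroup isomorphic to the symmetric group S_4. -/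
theorem result {F : Type*} [Field F] [Fintype F] (p : ℕ) [Fact p.Prime] (hF : Fintype.card F = p) (hp : p % 8 = 1 ∨ p % 8 = 7) : ∃ H : Subgroup (Matrix.ProjectiveSpecialLinearGroup (Fin 2) F), IsCoatom H ∧ Nonempty (H ≃* Equiv.Perm (Fin 4)) := by
  classical
  have hq : Nat.card F = p := by rw [Nat.card_eq_fintype_card, hF]
  have hpp : p.Prime := Fact.out
  have hodd : Odd p := Nat.odd_iff.2 (by omega)
  have h2 := two_ne F p hq hodd
  obtain ⟨θ, hθ⟩ : IsSquare (2 : F) := by rw [FiniteField.isSquare_two_iff, hF]; omega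
  have hθ' : θ * θ = 2 := hθ.symm
  obtain ⟨D⟩ := exists_datum (F := F)
  obtain ⟨e⟩ := octPSL_equiv D h2 hθ'
  have hc := (card_octPSL D h2 hθ').1
  have hG := two_mul_card_PSL (F := F) h2
  rw [hq] at hG
  have h7 : 7 ≤ p := by have := hpp.two_le; omega
  have hbig : 24 < Nat.card (Matrix.ProjectiveSpecialLinearGroup (Fin 2) F) := by
    have h48 : 7 * 48 ≤ p * (p ^ 2 - 1) := Nat.mul_le_mul h7 (by
      have : 7 * 7 ≤ p ^ 2 := by rw [pow_two]; exact Nat.mul_le_mul h7 h7
      omega)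
    omega
  refine ⟨octPSL D h2 hθ', ⟨fun h => ?_, fun L hL => ?_⟩, ⟨e⟩⟩
  · rw [h, Subgroup.card_top] at hc; omega
  · have hdvd := Subgroup.card_dvd_of_le hL.le
    have hne : Nat.card L ≠ 24 := fun h =>
      hL.ne (Subgroup.eq_of_le_of_card_ge hL.le (by rw [h, hc]))
    rw [hc] at hdvd
    rcases cases_of_four_le D h2 ((four_le_oct D h2 hθ').trans hL.le) with ⟨⟨f⟩⟩ | ⟨⟨f⟩⟩ | ⟨⟨f⟩⟩ | ⟨R, -, hR⟩
    · rw [Nat.card_congr f.toEquiv, show Nat.card (alternatingGroup (Fin 4)) = 12 by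
        rw [Nat.card_eq_fintype_card]; rfl] at hdvd
      omega
    · exact absurd (by rw [Nat.card_congr f.toEquiv, Nat.card_perm, Nat.card_fin]; rfl) hne
    · rw [Nat.card_congr f.toEquiv, show Nat.card (alternatingGroup (Fin 5)) = 60 by
        rw [Nat.card_eq_fintype_card]; rfl] at hdvd
      omega
    · exact hR.eq_top (subfield_prime hpp hq R)

end Cfsg.Agent.S5938
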