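import Cfsg.Statements.S5941
import Cfsg.Agent.Lib.Derangements.PSL2Grow

set_option autoImplicit false
open Cfsg

namespace Cfsg.Agent.S5941

open CfsgLib.Derangements.PSL2

/-- Let K and F be finite fields of odd characteristic with #F = (#K)². Then PSL_2(F) has a maximal subgroup isomorphic to PGL_2(K). -/
theorem result {F K : Type*} [Field F] [Fintype F] [Field K] [Fintype K] (q : ℕ) (hK : Fintype.card K = q) (hF : Fintype.card F = q ^ 2) (hq : Odd q) : ∃ H : Subgroup (Matrix.ProjectiveSpecialLinearGroup (Fin 2) F), IsCoatom H ∧ Nonempty (H ≃* Matrix.ProjGenLinGroup (Fin 2) K) := by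
  classical
  have hFq : Nat.card F = q ^ 2 := by rw [Nat.card_eq_fintype_card, hF]
  obtain ⟨E, hE⟩ := exists_subfield_card (F := F) two_ne_zero hFq.symm
  have h2 : (2 : F) ≠ 0 := CfsgLib.SL2.two_ne_zero_of_odd (by rw [hF]; exact hq.pow)
  have : Fintype E := Fintype.ofFinite E
  let eK : E ≃+* K := FiniteField.ringEquivOfCardEq (by rw [← Nat.card_eq_fintype_card, hE, hK])
  have hEr : Nat.card E ^ 2 = Nat.card F := by rw [hE, hFq]
  obtain ⟨iso⟩ := sfPSL_equiv_pgl (R := E) fun x hx => isSquare_of_even E hEr even_two hx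
  refine ⟨sfPSL E, ⟨sfPSL_ne_top E le_rfl hEr, fun L hL => ?_⟩,
    ⟨iso.trans (CfsgLib.SL2.Dickson.pglCongr eK)⟩⟩
  have hc : Nat.card (sfPSL E) = q * (q ^ 2 - 1) := by
    rw [Nat.card_congr iso.toEquiv, CfsgLib.ClassicalLinear.card_PGL]
    exact CfsgLib.ClassicalLinear.card_SL_two (by rw [← Nat.card_eq_fintype_card, hE])
  have hdvd := Subgroup.card_dvd_of_le hL.le
  rw [hc] at hdvd
  have hne : Nat.card L ≠ q * (q ^ 2 - 1) := fun h =>
    hL.ne (Subgroup.eq_of_le_of_card_ge hL.le (by rw [h, hc]))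
  have hq3 : 3 ≤ q := by
    have := Finite.one_lt_card (α := E)
    obtain ⟨t, rfl⟩ := hq
    omega
  have hbig : q = 3 ∨ 120 ≤ q * (q ^ 2 - 1) := by
    rcases eq_or_ne q 3 with h | h
    · exact Or.inl h
    · have h5 : 5 ≤ q := by obtain ⟨t, rfl⟩ := hq; omega
      exact Or.inr (Nat.mul_le_mul h5 (show 24 ≤ q ^ 2 - 1 by
        have : 5 * 5 ≤ q ^ 2 := by rw [pow_two]; exact Nat.mul_le_mul h5 h5
        omega))
  rcases cases_of_incl_le (E := E) (by rw [hE]; exact hq3) ((inclPSL_le_sfPSL E).trans hL.le) with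
    ⟨-, ⟨⟨f⟩⟩ | ⟨⟨f⟩⟩ | ⟨⟨f⟩⟩⟩ | ⟨R, -, hR⟩
  · rw [Nat.card_congr f.toEquiv, show Nat.card (alternatingGroup (Fin 4)) = 12 by
      rw [Nat.card_eq_fintype_card]; rfl] at hdvd
    rcases hbig with rfl | hb
    · norm_num at hdvd
    · have := Nat.le_of_dvd (by norm_num) hdvd; omega
  · rw [Nat.card_congr f.toEquiv, Nat.card_perm, Nat.card_fin, show Nat.factorial 4 = 24 from rfl] at hdvd hne
    rcases hbig with rfl | hb
    · norm_num at hne
    · have := Nat.le_of_dvd (by norm_num) hdvd; omega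
  · rw [Nat.card_congr f.toEquiv, show Nat.card (alternatingGroup (Fin 5)) = 60 by
      rw [Nat.card_eq_fintype_card]; rfl] at hdvd
    rcases hbig with rfl | hb
    · norm_num at hdvd
    · have := Nat.le_of_dvd (by norm_num) hdvd; omega
  · obtain ⟨h1, -⟩ := hR.card_dvd
    rcases card_eq_or_of_dvd E R Nat.prime_two hEr
        (by rw [hE]; exact (hdvd.trans h1).trans (dvd_mul_left _ _)) with e | e
    · rw [e, hE] at h1
      exact absurd (Nat.dvd_antisymm h1 hdvd) hne
    · exact hR.eq_top e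

end Cfsg.Agent.S5941
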