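import Cfsg.Statements.S5942
import Cfsg.Agent.Lib.Derangements.PSL2Grow

set_option autoImplicit false
open Cfsg

namespace Cfsg.Agent.S5942

open CfsgLib.Derangements.PSL2

/-- Let K and F be finite fields of odd characteristic with #F = (#K)^r for an odd prime r. Then PSL_2(F) has a maximal subgroup isomorphic to PSL_2(K). -/
theorem result {F K : Type*} [Field F] [Fintype F] [Field K] [Fintype K] (q r : ℕ) (hK : Fintype.card K = q) (hF : Fintype.card F = q ^ r) (hq : Odd q) (hr : r.Prime) (hr2 : r ≠ 2) : ∃ H : Subgroup (Matrix.ProjectiveSpecialLinearGroup (Fin 2) F), IsCoatom H ∧ Nonempty (H ≃* Matrix.ProjectiveSpecialLinearGroup (Fin 2) K) := by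
  classical
  have hFq : Nat.card F = q ^ r := by rw [Nat.card_eq_fintype_card, hF]
  have hro : Odd r := hr.odd_of_ne_two hr2
  obtain ⟨E, hE⟩ := exists_subfield_card (F := F) hr.ne_zero hFq.symm
  have h2 : (2 : F) ≠ 0 := CfsgLib.SL2.two_ne_zero_of_odd (by rw [hF]; exact hq.pow)
  have : Fintype E := Fintype.ofFinite E
  let eK : E ≃+* K := FiniteField.ringEquivOfCardEq (by rw [← Nat.card_eq_fintype_card, hE, hK])
  have hEr : Nat.card E ^ r = Nat.card F := by rw [hE, hFq]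
  obtain ⟨iso⟩ := sfPSL_equiv_psl (R := E) fun c hc => mem_of_sq_mem E hEr (Or.inl hro) hc
  refine ⟨sfPSL E, ⟨sfPSL_ne_top E hr.two_le hEr, fun L hL => ?_⟩,
    ⟨iso.trans (CfsgLib.ClassicalLinear.pslCongr eK)⟩⟩
  have hc : 2 * Nat.card (sfPSL E) = q * (q ^ 2 - 1) := by
    rw [Nat.card_congr iso.toEquiv]
    exact CfsgLib.ClassicalLinear.card_PSL_two_of_odd (by rw [← Nat.card_eq_fintype_card, hE]) hq
  have hdvd := Subgroup.card_dvd_of_le hL.le
  have hne : Nat.card L ≠ Nat.card (sfPSL E) := fun h =>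
    hL.ne (Subgroup.eq_of_le_of_card_ge hL.le (by rw [h]))
  have htwo : Nat.card L ≠ q * (q ^ 2 - 1) := fun h =>
    not_two_mul_dvd_card h2 hFq.symm hro (h ▸ Subgroup.card_subgroup_dvd_card L)
  have hq3 : 3 ≤ q := by
    have := Finite.one_lt_card (α := E)
    obtain ⟨t, rfl⟩ := hq
    omega
  have hbig : q = 3 ∨ 60 ≤ Nat.card (sfPSL E) := by
    rcases eq_or_ne q 3 with h | h
    · exact Or.inl h
    · have h5 : 5 ≤ q := by obtain ⟨t, rfl⟩ := hq; omega
      have : 5 * 24 ≤ q * (q ^ 2 - 1) := Nat.mul_le_mul h5 (show 24 ≤ q ^ 2 - 1 by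
        have : 5 * 5 ≤ q ^ 2 := by rw [pow_two]; exact Nat.mul_le_mul h5 h5
        omega)
      exact Or.inr (by omega)
  rcases cases_of_incl_le (E := E) (by rw [hE]; exact hq3) ((inclPSL_le_sfPSL E).trans hL.le) with
    ⟨-, ⟨⟨f⟩⟩ | ⟨⟨f⟩⟩ | ⟨⟨f⟩⟩⟩ | ⟨R, -, hR⟩
  · rw [Nat.card_congr f.toEquiv, show Nat.card (alternatingGroup (Fin 4)) = 12 by
      rw [Nat.card_eq_fintype_card]; rfl] at hdvd hne
    rcases hbig with rfl | hb
    · rw [show (3 : ℕ) * (3 ^ 2 - 1) = 24 from rfl] at hc; omega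
    · have := Nat.le_of_dvd (by norm_num) hdvd; omega
  · rw [Nat.card_congr f.toEquiv, Nat.card_perm, Nat.card_fin, show Nat.factorial 4 = 24 from rfl] at hdvd htwo
    rcases hbig with rfl | hb
    · norm_num at htwo
    · have := Nat.le_of_dvd (by norm_num) hdvd; omega
  · have h60 : Nat.card L = 60 := by
      rw [Nat.card_congr f.toEquiv, Nat.card_eq_fintype_card]; rfl
    rcases hbig with rfl | hb
    · exfalso
      have hd : 5 ∣ 3 ^ r * ((3 ^ r) ^ 2 - 1) := by
        rw [← hFq, ← two_mul_card_PSL h2]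
        exact ((show 5 ∣ 60 by norm_num).trans (h60 ▸ Subgroup.card_subgroup_dvd_card L)).mul_left 2
      have h5 : 5 ∣ (3 ^ r) ^ 2 - 1 :=
        (Nat.Coprime.dvd_mul_left (Nat.Coprime.pow_right _ (by norm_num))).1 hd
      obtain ⟨t, rfl⟩ := hro
      have : (3 ^ (2 * t + 1)) ^ 2 % 5 = 4 := by
        rw [← pow_mul, show (2 * t + 1) * 2 = 4 * t + 2 by ring, pow_add, pow_mul, Nat.mul_mod, Nat.pow_mod]
        norm_num
      omega
    · rw [h60] at hdvd hne
      have := Nat.le_of_dvd (by norm_num) hdvd; omega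
  · obtain ⟨h1, -⟩ := hR.card_dvd
    rcases card_eq_or_of_dvd E R hr hEr
        (by rw [hE, ← hc]; exact mul_dvd_mul_left 2 (hdvd.trans h1)) with e | e
    · exfalso
      rw [e, hE, ← hc] at h1
      rw [← hc] at htwo
      obtain ⟨c, hcc⟩ := hdvd
      have hpos : 0 < Nat.card (sfPSL E) := Nat.card_pos
      rw [hcc, mul_comm 2] at h1
      have hc2 := Nat.le_of_dvd two_pos (Nat.dvd_of_mul_dvd_mul_left hpos h1)
      interval_cases c
      · rw [mul_zero] at hcc; exact Nat.card_pos.ne' hcc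
      · rw [mul_one] at hcc; exact hne hcc
      · rw [mul_comm] at hcc; exact htwo hcc
    · exact hR.eq_top e

end Cfsg.Agent.S5942
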