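import Cfsg.Statements.S5943
import Cfsg.Agent.Lib.Derangements.PSL2Grow

set_option autoImplicit false
open Cfsg

namespace Cfsg.Agent.S5943

open CfsgLib.Derangements.PSL2

/-- Let K and F be finite fields of characteristic 2 with #K = q > 2 and #F = q^r for a prime r. Then PSL_2(F) has a maximal subgroup isomorphic to PSL_2(K) (which equals PGL_2(K) in characteristic 2). -/
theorem result {F K : Type*} [Field F] [Fintype F] [Field K] [Fintype K] (q r : ℕ) (hK : Fintype.card K = q) (hF : Fintype.card F = q ^ r) (hq : Even q) (hq2 : q ≠ 2) (hr : r.Prime) : ∃ H : Subgroup (Matrix.ProjectiveSpecialLinearGroup (Fin 2) F), IsCoatom H ∧ Nonempty (H ≃* Matrix.ProjectiveSpecialLinearGroup (Fin 2) K) := by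
  classical
  have hFq : Nat.card F = q ^ r := by rw [Nat.card_eq_fintype_card, hF]
  obtain ⟨E, hE⟩ := exists_subfield_card (F := F) hr.ne_zero hFq.symm
  have h2 : (2 : F) = 0 := by
    by_contra h
    have h' := odd_card_of (F := F) h
    rw [hFq] at h'
    exact Nat.not_even_iff_odd.2 h' (hq.pow_of_ne_zero hr.ne_zero)
  have : Fintype E := Fintype.ofFinite E
  let eK : E ≃+* K := FiniteField.ringEquivOfCardEq (by rw [← Nat.card_eq_fintype_card, hE, hK])
  have hEr : Nat.card E ^ r = Nat.card F := by rw [hE, hFq]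
  obtain ⟨iso⟩ := sfPSL_equiv_psl (R := E) fun c hc => mem_of_sq_mem E hEr (Or.inr h2) hc
  refine ⟨sfPSL E, ⟨sfPSL_ne_top E hr.two_le hEr, fun L hL => ?_⟩,
    ⟨iso.trans (CfsgLib.ClassicalLinear.pslCongr eK)⟩⟩
  have hc : Nat.card (sfPSL E) = q * (q ^ 2 - 1) := by
    rw [Nat.card_congr iso.toEquiv]
    exact CfsgLib.ClassicalLinear.card_PSL_two_of_even (by rw [← Nat.card_eq_fintype_card, hE]) hq
  have hdvd := Subgroup.card_dvd_of_le hL.le
  rw [hc] at hdvd
  have hq3 : 3 ≤ q := by
    have := Finite.one_lt_card (α := E)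
    omega
  rcases cases_of_incl_le (E := E) (by rw [hE]; exact hq3) ((inclPSL_le_sfPSL E).trans hL.le) with
    ⟨h, -⟩ | ⟨R, -, hR⟩
  · exact absurd h2 h
  · obtain ⟨h1, -⟩ := hR.card_dvd
    rcases card_eq_or_of_dvd E R hr hEr
        (by rw [hE]; exact (hdvd.trans h1).trans (dvd_mul_left _ _)) with e | e
    · rw [e, hE] at h1
      exact absurd (Subgroup.eq_of_le_of_card_ge hL.le (by rw [hc, Nat.dvd_antisymm h1 hdvd])) hL.ne
    · exact hR.eq_top e

end Cfsg.Agent.S5943
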