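import Cfsg.Statements.S5945
import Cfsg.Agent.Lib.Derangements.PermIndex
-- import your own Cfsg.Agent.* helpers here

set_option autoImplicit false
open Cfsg

namespace Cfsg.Agent.S5945

open MulAction

/-- The symmetric group S_6 has exactly 12 subgroups of index 6; each of them is isomorphic to S_5, and at least one of them is not the stabilizer of any point. -/
theorem result : Nat.card {H : Subgroup (Equiv.Perm (Fin 6)) // H.index = 6} = 12 ∧ (∀ H : Subgroup (Equiv.Perm (Fin 6)), H.index = 6 → Nonempty (H ≃* Equiv.Perm (Fin 5))) ∧ ∃ H : Subgroup (Equiv.Perm (Fin 6)), H.index = 6 ∧ ∀ a : Fin 6, H ≠ MulAction.stabilizer (Equiv.Perm (Fin 6)) a := by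
  classical
  obtain ⟨θ, hθ, hne, hall⟩ := CfsgLib.Derangements.index_six_cases (Ω := Fin 6) (by simp)
  have hidx : ∀ a : Fin 6, (stabilizer (Equiv.Perm (Fin 6)) a).index = 6 := fun a => by
    rw [index_stabilizer_of_transitive, Nat.card_fin]
  have hidx' : ∀ a : Fin 6, ((stabilizer (Equiv.Perm (Fin 6)) a).comap θ).index = 6 := fun a => by
    rw [Subgroup.index_comap_of_surjective _ hθ.2, hidx]
  refine ⟨?_, fun H hH => ?_, (stabilizer (Equiv.Perm (Fin 6)) 0).comap θ, hidx' 0, hne 0⟩
  · let f : Fin 6 ⊕ Fin 6 → {H : Subgroup (Equiv.Perm (Fin 6)) // H.index = 6} := Sum.elim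
      (fun a => ⟨stabilizer (Equiv.Perm (Fin 6)) a, hidx a⟩)
      (fun a => ⟨(stabilizer (Equiv.Perm (Fin 6)) a).comap θ, hidx' a⟩)
    have hf : Function.Bijective f := by
      constructor
      · rintro (a | a) (b | b) h <;> simp only [f, Sum.elim_inl, Sum.elim_inr, Subtype.mk.injEq] at h
        · rw [CfsgLib.Derangements.stabilizer_inj (by simp) h]
        · exact absurd h.symm (hne b a)
        · exact absurd h (hne a b)
        · rw [CfsgLib.Derangements.stabilizer_inj (by simp) (Subgroup.comap_injective hθ.2 h)]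
      · rintro ⟨H, hH⟩
        rcases hall H hH with ⟨x, rfl⟩ | ⟨x, rfl⟩
        · exact ⟨Sum.inl x, rfl⟩
        · exact ⟨Sum.inr x, rfl⟩
    rw [← Nat.card_congr (Equiv.ofBijective f hf)]
    simp
  · rcases hall H hH with ⟨x, rfl⟩ | ⟨x, rfl⟩
    · exact CfsgLib.Derangements.stabilizer_mulEquiv x (by simp)
    · obtain ⟨e⟩ := CfsgLib.Derangements.stabilizer_mulEquiv x (m := 5) (by simp)
      refine ⟨(MulEquiv.ofBijective (θ.subgroupComap (stabilizer (Equiv.Perm (Fin 6)) x)) ⟨?_, ?_⟩).trans e⟩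
      · intro g h hgh
        exact Subtype.ext (hθ.1 (congrArg Subtype.val hgh))
      · rintro ⟨g, hg⟩
        obtain ⟨g', rfl⟩ := hθ.2 g
        exact ⟨⟨g', hg⟩, rfl⟩

end Cfsg.Agent.S5945
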