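import Cfsg.Statements.S5950
import Cfsg.Agent.Lib.Derangements.FixedSubspacesMatrix
import Cfsg.Agent.Lib.Derangements.FixedPairsUnipotent

set_option autoImplicit false
open scoped MatrixGroups
open Cfsg

namespace Cfsg.Agent.S5950

/-- Elements of prime order of PSL_n(q) fixing no decomposition `F^n = U ⊕ W` with `dim U = m`. Here `T = PSL_n(F)` for a field `F` with `q = p^f` elements (`n ≥ 2`, `(n, q) ≠ (2, 2), (2, 3)`); an element of `T` of prime order `r` is represented by a matrix `x` of determinant 1 with `x^r` scalar and `x` not scalar; `i` denotes the multiplicative order of `q` modulo `r` (when `r ≠ p`), and `(a)_r` the `r`-part of `a`. Let `n ≥ 3`, `1 ≤ m < n/2`, and let `r` be a prime dividing the number of such decompositions (unordered pairs `{U, W}` of complementary subspaces with `dim U = m`; since `m ≠ n − m` these are the ordered pairs with `dim U = m`). Then every element of `T` of order `r` fixes such a pair (fixes both `U` and `W` for some complementary `U, W` with `dim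 U = m`) if and only if one of: (i) `r = p > 2` and every partition of `n` into parts of size at most `p` contains, as a sub-multiset, a partition of `m`; (ii) `r = p = 2` and `n` is odd or `m` is even; (iii) `r ≠ p`, `i = 1`, and `r ∣ m` or `(q−1)_r ≥ (n)_r` (with `q ≡ 1 (mod 4)` required when `r = 2` and `n` is even); (iv) `r ≠ p`, `2 ≤ i ≤ m` and `n mod i ≥ m mod i`. -/
theorem result {F : Type*} [Field F] [Fintype F] {p : ℕ} [Fact p.Prime] [CharP F p] {q : ℕ} (hq : Fintype.card F = q)
    (n m : ℕ) (hn : 3 ≤ n) (hm : 1 ≤ m) (hmn : 2 * m < n)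
    (r : ℕ) [Fact r.Prime]
    (hrΩ : r ∣ Nat.card {P : Submodule F (Fin n → F) × Submodule F (Fin n → F) // IsCompl P.1 P.2 ∧ Module.finrank F ↥P.1 = m}) :
    (∀ x : Matrix.SpecialLinearGroup (Fin n) F,
      (∃ c : F, ((x ^ r : Matrix.SpecialLinearGroup (Fin n) F) : Matrix (Fin n) (Fin n) F) = c • (1 : Matrix (Fin n) (Fin n) F)) →
      (∀ c : F, (x : Matrix (Fin n) (Fin n) F) ≠ c • (1 : Matrix (Fin n) (Fin n) F)) →
      ∃ U W : Submodule F (Fin n → F), IsCompl U W ∧ Module.finrank F ↥U = m ∧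
        U.map (Matrix.toLin' (x : Matrix (Fin n) (Fin n) F)) ≤ U ∧ W.map (Matrix.toLin' (x : Matrix (Fin n) (Fin n) F)) ≤ W) ↔
    ((r = p ∧ 2 < p ∧ (∀ μ : Multiset ℕ, (∀ a ∈ μ, 0 < a ∧ a ≤ p) → μ.sum = n → ∃ ν : Multiset ℕ, ν ≤ μ ∧ ν.sum = m)) ∨
     (r = p ∧ p = 2 ∧ (Odd n ∨ Even m)) ∨
     (r ≠ p ∧
      ((orderOf (q : ZMod r) = 1 ∧ (r ∣ m ∨ (padicValNat r n ≤ padicValNat r (q - 1) ∧ (r = 2 → Even n → q % 4 = 1)))) ∨
       (2 ≤ orderOf (q : ZMod r) ∧ orderOf (q : ZMod r) ≤ m ∧ m % orderOf (q : ZMod r) ≤ n % orderOf (q : ZMod r))))) := by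
  subst hq
  rw [← Nat.card_eq_fintype_card (α := F)]
  have hdim : Module.finrank F (Fin n → F) = n := Module.finrank_fin_fun F
  rw [CfsgLib.Derangements.SubFix.forall_sl_iff
    (fun T => ∃ U W : Submodule F (Fin n → F), IsCompl U W ∧ Module.finrank F U = m ∧
      U.map T ≤ U ∧ W.map T ≤ W)]
  simp only [← CfsgLib.Derangements.SubFix.inv_iff_map]
  by_cases hrp : r = p
  · subst hrp
    have hiff : CfsgLib.Derangements.SubFix.Elusive r (fun T : Module.End F (Fin n → F) =>
        ∃ U W : Submodule F (Fin n → F), IsCompl U W ∧ Module.finrank F U = m ∧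
          CfsgLib.Derangements.SubFix.Inv T U ∧ CfsgLib.Derangements.SubFix.Inv T W) ↔
        CfsgLib.Derangements.SubFix.PartCond r n m := by
      refine ⟨fun h => hdim ▸ CfsgLib.Derangements.SubFix.partCond_of_elusive (by omega) h,
        fun h => CfsgLib.Derangements.SubFix.elusive_of_partCond (by omega) (by rw [hdim]; exact h)⟩
    rw [hiff]
    have h2 := (Fact.out : r.Prime).two_le
    rcases h2.eq_or_lt with h | h
    · subst h
      rw [CfsgLib.Derangements.SubFix.partCond_two n m (by omega)]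
      simp
    · simp only [CfsgLib.Derangements.SubFix.PartCond, h, h.ne', true_and, false_and, ne_eq, not_true_eq_false,
        or_false]
  · have hrF : (r : F) ≠ 0 := by
      rw [ne_eq, CharP.cast_eq_zero_iff F p]
      exact fun h => hrp ((Nat.prime_dvd_prime_iff_eq (Fact.out : p.Prime) (Fact.out : r.Prime)).1 h).symm
    have hcount := CfsgLib.Derangements.SubFix.of_dvd_card_pairs (F := F) (V := Fin n → F) (m := m)
      (by omega) hrp hrΩ
    have h := CfsgLib.Derangements.SubFix.elusive_sub_iff (V := Fin n → F) hrF (m := m) (by omega) hcount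
    rw [hdim] at h
    simp only [hrp, false_and, false_or, ne_eq, not_false_eq_true, true_and]
    refine Iff.trans ?_ h
    refine ⟨fun hel T h1 c h2 h3 => ?_, fun hel T h1 c h2 h3 => ?_⟩
    · obtain ⟨U, W, -, hU, hUi, -⟩ := hel T h1 c h2 h3
      exact ⟨U, hU, hUi⟩
    · obtain ⟨U, hU, hUi⟩ := hel T h1 c h2 h3
      obtain ⟨W, hUW, hWi⟩ := CfsgLib.Derangements.SubFix.exists_inv_compl
        (CfsgLib.Derangements.SubFix.const_ne_zero (by omega) h1 h2) hrF h2 hUi
      exact ⟨U, W, hUW, hU, hUi, hWi⟩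

end Cfsg.Agent.S5950
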