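import Cfsg.Statements.S5952
-- import your own Cfsg.Agent.* helpers here

set_option autoImplicit false
open Cfsg

namespace Cfsg.Agent.S5952

open Submodule

lemma inv_dim {F V : Type*} [Field F] [AddCommGroup V] [Module F V] [FiniteDimensional F V] (f : V →ₗ[F] V)
    {s a : ℕ} (E : Submodule F V) (hE : E.map f ≤ E) (U : Fin s → Submodule F V)
    (hUinv : ∀ j, (U j).map f ≤ U j) (hUdim : ∀ j, Module.finrank F ↥(U j) = a)
    (hUirr : ∀ j, ∀ W : Submodule F V, W ≤ U j → W.map f ≤ W → W = ⊥ ∨ W = U j)
    (hind : iSupIndep (fun o : Option (Fin s) => o.elim E U)) (S : Finset (Fin s)) :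
    ∀ Q : Submodule F V, Q.map f ≤ Q → Q ≤ E ⊔ S.sup U →
      ∃ j, Module.finrank F Q = Module.finrank F ↥(Q ⊓ E) + j * a := by
  classical
  induction S using Finset.induction_on with
  | empty => exact fun Q _ hQ => ⟨0, by rw [inf_eq_left.mpr (by simpa using hQ : Q ≤ E)]; simp⟩
  | @insert k S hk ih =>
    intro Q hQf hQ
    rw [Finset.sup_insert] at hQ
    set P := E ⊔ S.sup U with hP
    have hQ' : Q ≤ P ⊔ U k := hQ.trans (sup_le (le_sup_of_le_left le_sup_left)
      (sup_le le_sup_right (le_sup_of_le_left le_sup_right)))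
    have hPf : P.map f ≤ P := by
      rw [hP, Submodule.map_sup]
      refine sup_le_sup hE (Submodule.map_le_iff_le_comap.mpr (Finset.sup_le fun i hi => ?_))
      exact Submodule.map_le_iff_le_comap.mp ((hUinv i).trans (Finset.le_sup hi))
    have hdis : U k ⊓ P = ⊥ := by
      rw [← disjoint_iff]
      refine (hind (some k)).mono_right (sup_le ?_ (Finset.sup_le fun i hi => ?_))
      · exact le_iSup₂_of_le none (by simp) le_rfl
      · exact le_iSup₂_of_le (some i) (by simp [show i ≠ k from fun h => hk (h ▸ hi)]) le_rfl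
    have hmap : ∀ A B : Submodule F V, A.map f ≤ A → B.map f ≤ B → (A ⊓ B).map f ≤ A ⊓ B :=
      fun A B hA hB => le_inf ((Submodule.map_mono inf_le_left).trans hA) ((Submodule.map_mono inf_le_right).trans hB)
    obtain ⟨j, hj⟩ := ih (Q ⊓ P) (hmap Q P hQf hPf) inf_le_right
    have hQE : Q ⊓ P ⊓ E = Q ⊓ E := by rw [inf_assoc, inf_eq_right.mpr (le_sup_left : E ≤ P)]
    rw [hQE] at hj
    have hdim := Submodule.finrank_sup_add_finrank_inf_eq Q P
    have hmod : Q ⊔ P = P ⊔ ((Q ⊔ P) ⊓ U k) := by
      rw [inf_comm (Q ⊔ P) (U k), ← sup_inf_assoc_of_le (U k) (le_sup_right : P ≤ Q ⊔ P),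
        inf_eq_right.mpr (sup_le hQ' le_sup_left)]
    rcases hUirr k _ inf_le_right (hmap (Q ⊔ P) (U k) (by rw [Submodule.map_sup]; exact sup_le_sup hQf hPf) (hUinv k)) with h | h
    · rw [hmod, h, sup_bot_eq] at hdim
      exact ⟨j, by omega⟩
    · have h2 := Submodule.finrank_sup_add_finrank_inf_eq P (U k)
      rw [inf_comm, hdis, finrank_bot, hUdim] at h2
      rw [hmod, h] at hdim
      exact ⟨j + 1, by rw [add_mul, one_mul]; omega⟩

/-- Which dimensions of invariant subspaces a semisimple linear map has. Let `V` be a finite-dimensional vector space over a field `F` and `f` an invertible semisimple linear map of `V`. Suppose `V` is the internal direct sum of the fixed space `C_V(f)` (the eigenspace for 1) and subspaces `U_1, …, U_s`, each `f`-invariant of dimension `a ≥ 1` on which `f` acts irreducibly (no `f`-invariant subspaces other than 0 and `U_j`). Let `0 < m < dim V` and `ℓ = m mod a`. Then `f` leaves some `m`-dimensional subspace invariant if and only if `dim C_V(f) ≥ m`, or `a ≤ m` and `dim C_V(f) ≥ ℓ`.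 -/
theorem result {F V : Type*} [Field F] [AddCommGroup V] [Module F V]
    [FiniteDimensional F V] (f : V →ₗ[F] V) (hf : Function.Bijective f) (hss : Module.End.IsSemisimple f)
    {s a : ℕ} (ha : 1 ≤ a) (U : Fin s → Submodule F V)
    (hUinv : ∀ j, (U j).map f ≤ U j) (hUdim : ∀ j, Module.finrank F ↥(U j) = a)
    (hUirr : ∀ j, ∀ W : Submodule F V, W ≤ U j → W.map f ≤ W → W = ⊥ ∨ W = U j)
    (hdec : DirectSum.IsInternal (fun o : Option (Fin s) => o.elim (Module.End.eigenspace f 1) U))
    (m : ℕ) (hm : 0 < m) (hmV : m < Module.finrank F V) :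
    (∃ W : Submodule F V, Module.finrank F ↥W = m ∧ W.map f ≤ W) ↔
    (m ≤ Module.finrank F ↥(Module.End.eigenspace f 1) ∨
      (a ≤ m ∧ m % a ≤ Module.finrank F ↥(Module.End.eigenspace f 1))) := by
  classical
  set E := Module.End.eigenspace f 1 with hEdef
  have hE : E.map f ≤ E := by
    rintro _ ⟨v, hv, rfl⟩
    have hv' : f v = v := by simpa [hEdef] using hv
    rw [hv']; exact hv
  have hind := hdec.submodule_iSupIndep
  have htop : E ⊔ Finset.univ.sup U = ⊤ := by
    rw [← hdec.submodule_iSup_eq_top, iSup_option, Finset.sup_univ_eq_iSup]; rfl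
  have hfs : ∀ (S : Finset (Fin s)) (B : Submodule F V), B ≤ E →
      Module.finrank F ↥(B ⊔ S.sup U) = Module.finrank F B + S.card * a := by
    intro S
    induction S using Finset.induction_on with
    | empty => intro B _; rw [Finset.sup_empty, sup_bot_eq]; simp
    | @insert k S hk ih =>
      intro B hB
      have hdis : U k ⊓ (B ⊔ S.sup U) = ⊥ := by
        rw [← disjoint_iff]
        refine (hind (some k)).mono_right (sup_le (hB.trans ?_) (Finset.sup_le fun i hi => ?_))
        · exact le_iSup₂_of_le none (by simp) le_rfl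
        · exact le_iSup₂_of_le (some i) (by simp [show i ≠ k from fun h => hk (h ▸ hi)]) le_rfl
      have h2 := Submodule.finrank_sup_add_finrank_inf_eq (U k) (B ⊔ S.sup U)
      rw [hdis, finrank_bot, hUdim, ih B hB] at h2
      rw [Finset.sup_insert, Finset.card_insert_of_notMem hk, sup_left_comm]
      rw [add_mul, one_mul]; omega
  constructor
  · rintro ⟨W, rfl, hWf⟩
    obtain ⟨j, hj⟩ := inv_dim f E hE U hUinv hUdim hUirr hind Finset.univ W hWf (htop ▸ le_top)
    have hle : Module.finrank F ↥(W ⊓ E) ≤ Module.finrank F E := Submodule.finrank_mono inf_le_right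
    rcases Nat.eq_zero_or_pos j with rfl | hj0
    · exact Or.inl (by omega)
    · refine Or.inr ⟨by have := Nat.le_mul_of_pos_left a hj0; omega, ?_⟩
      rw [hj, Nat.add_mul_mod_self_right]
      exact (Nat.mod_le _ _).trans hle
  · intro h
    have hV := hfs Finset.univ E le_rfl
    rw [htop, finrank_top, Finset.card_univ, Fintype.card_fin] at hV
    obtain ⟨k, hks, hkm, hkc⟩ : ∃ k ≤ s, k * a ≤ m ∧ m - k * a ≤ Module.finrank F E := by
      rcases h with h | ⟨hma, hml⟩
      · exact ⟨0, Nat.zero_le _, by simp, by simpa using h⟩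
      · by_cases hs : m / a ≤ s
        · refine ⟨m / a, hs, Nat.div_mul_le_self m a, ?_⟩
          have := Nat.mod_add_div m a
          rw [Nat.mul_comm] at this
          omega
        · refine ⟨s, le_rfl, (Nat.le_div_iff_mul_le (by omega)).mp (by omega), ?_⟩
          omega
    obtain ⟨A', hA'⟩ := exists_linearIndependent_of_le_finrank hkc
    let B : Submodule F V := (Submodule.span F (Set.range A')).map E.subtype
    have hBE : B ≤ E := Submodule.map_subtype_le _ _
    have hBdim : Module.finrank F B = m - k * a := by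
      rw [(Submodule.equivSubtypeMap E _).finrank_eq.symm, finrank_span_eq_card hA', Fintype.card_fin]
    obtain ⟨S, -, hS⟩ := Finset.exists_subset_card_eq (s := (Finset.univ : Finset (Fin s))) (n := k) (by simpa using hks)
    refine ⟨B ⊔ S.sup U, by rw [hfs S B hBE, hBdim, hS]; omega, ?_⟩
    rw [Submodule.map_sup]
    refine sup_le_sup ?_ (Submodule.map_le_iff_le_comap.mpr (Finset.sup_le fun i hi => ?_))
    · rintro _ ⟨v, hv, rfl⟩
      have : f v = v := by simpa [hEdef] using hBE hv
      rwa [this]
    · exact Submodule.map_le_iff_le_comap.mp ((hUinv i).trans (Finset.le_sup hi))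

end Cfsg.Agent.S5952
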