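import Cfsg.Statements.S5953
import Cfsg.Agent.Lib.Derangements.HermPlusOne
import Cfsg.Agent.Lib.Derangements.HermTwo

set_option autoImplicit false
open scoped MatrixGroups
open Cfsg

namespace Cfsg.Agent.S5953

/-- Elements of prime order of PSU_n(q) with no fixed totally isotropic `m`-space. Here `T = PSU_n(q)` (`n ≥ 3`, `(n, q) ≠ (3, 2)`), realised through the matrices of determinant 1 over the field `F` with `q²` elements preserving the Hermitian form `h(u, v) = Σ u_i v_i^q`; an element of `T` of prime order `r` is such a matrix `x` with `x^r` scalar and `x` not scalar. For `r ≠ p` let `i` be the multiplicative order of `q` modulo `r`, `b = i/2` for `i` even and `b = i` for `i` odd, `c = i, i/2, 2i` according as `i ≡ 0, 2 (mod 4)` or `i` odd, and write `k = n mod c`, `ℓ = m mod b`, `ℓ' = m mod c`, `n' = ⌊n/b⌋`, `m' = ⌊m/b⌋`, `s = (r−1)/b`; `(a)_r` is the `r`-part of `a`. Let `1 ≤ m ≤ n/2` and let `r` be a prime dividing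 the number of totally isotropic `m`-spaces. Then every element of `T` of order `r` fixes a totally isotropic `m`-space if and only if either (i) `r = 2`, `p ≠ 2`, and (`m < n/2` or `(q+1)_2 ≤ (n)_2`); or (ii) `r ≠ p`, `r > 2`, `b ≤ m`, `k ≥ 2ℓ`, and either `i ≢ 2 (mod 4)`, or `i ≡ 2 (mod 4)`, `n' − 2m' ≥ s` and (`i > 2`, or `i = 2` and (`r ∣ m` or `(q+1)_r ≥ (n)_r`)). -/
theorem result {F : Type*} [Field F] [Fintype F] {p : ℕ} [Fact p.Prime] [CharP F p] {q : ℕ} (hq : Fintype.card F = q ^ 2)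
    (n m : ℕ) (hn : 3 ≤ n) (hT : (n, q) ≠ (3, 2)) (hm : 1 ≤ m) (hmn : 2 * m ≤ n)
    (r : ℕ) [Fact r.Prime]
    (hrΩ : r ∣ Nat.card {W : Submodule F (Fin n → F) // Module.finrank F ↥W = m ∧ (∀ u ∈ W, ∀ v ∈ W, Cfsg.hermForm n F q u v = 0)})
    (i b c : ℕ) (hi : i = orderOf (q : ZMod r)) (hb : b = if Even i then i / 2 else i)
    (hc : c = if i % 4 = 0 then i else if i % 4 = 2 then i / 2 else 2 * i) :
    (∀ x : Matrix.SpecialLinearGroup (Fin n) F, x ∈ Cfsg.SU n F q →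
      (∃ z : F, ((x ^ r : Matrix.SpecialLinearGroup (Fin n) F) : Matrix (Fin n) (Fin n) F) = z • (1 : Matrix (Fin n) (Fin n) F)) →
      (∀ z : F, (x : Matrix (Fin n) (Fin n) F) ≠ z • (1 : Matrix (Fin n) (Fin n) F)) →
      ∃ W : Submodule F (Fin n → F), Module.finrank F ↥W = m ∧ (∀ u ∈ W, ∀ v ∈ W, Cfsg.hermForm n F q u v = 0) ∧
        W.map (Matrix.toLin' (x : Matrix (Fin n) (Fin n) F)) ≤ W) ↔
    ((r = 2 ∧ p ≠ 2 ∧ (2 * m < n ∨ padicValNat 2 (q + 1) ≤ padicValNat 2 n)) ∨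
     (r ≠ p ∧ 2 < r ∧ b ≤ m ∧ 2 * (m % b) ≤ n % c ∧
       (i % 4 ≠ 2 ∨ (i % 4 = 2 ∧ (r - 1) / b + 2 * (m / b) ≤ n / b ∧
         (2 < i ∨ (i = 2 ∧ (r ∣ m ∨ padicValNat r n ≤ padicValNat r (q + 1)))))))) := by
  classical
  obtain ⟨cj⟩ := CfsgLib.ClassicalForms.exists_conj (F := F) (q := q) (by rw [Nat.card_eq_fintype_card, hq])
  have hK := hq
  have hrp' : r.Prime := Fact.out
  have hpp : p.Prime := Fact.out
  have hq2 : 2 ≤ q := CfsgLib.ClassicalForms.two_le_q (F := F) (q := q) (by rw [Nat.card_eq_fintype_card, hq])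
  have hti : ∀ W : Submodule F (Fin n → F), (∀ u ∈ W, ∀ v ∈ W, Cfsg.hermForm n F q u v = 0) ↔
      CfsgLib.Derangements.Herm.Ti (CfsgLib.Forms.hermBundled n cj.σ) W := fun W =>
    ⟨fun h u hu v hv => by rw [CfsgLib.Forms.hermBundled_eq cj]; exact h v hv u hu,
      fun h u hu v hv => by rw [← CfsgLib.Forms.hermBundled_eq cj]; exact h v hv u hu⟩
  have hcnt : r ∣ CfsgLib.Derangements.Herm.cnt cj.σ n m := by
    refine hrΩ.trans (dvd_of_eq (Nat.card_congr (Equiv.subtypeEquivRight fun W => ?_)))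
    rw [hti W]
  have hall : (∀ x : Matrix.SpecialLinearGroup (Fin n) F, x ∈ Cfsg.SU n F q →
      (∃ z : F, ((x ^ r : Matrix.SpecialLinearGroup (Fin n) F) : Matrix (Fin n) (Fin n) F) =
        z • (1 : Matrix (Fin n) (Fin n) F)) →
      (∀ z : F, (x : Matrix (Fin n) (Fin n) F) ≠ z • (1 : Matrix (Fin n) (Fin n) F)) →
      ∃ W : Submodule F (Fin n → F), Module.finrank F ↥W = m ∧ (∀ u ∈ W, ∀ v ∈ W, Cfsg.hermForm n F q u v = 0) ∧
        W.map (Matrix.toLin' (x : Matrix (Fin n) (Fin n) F)) ≤ W) ↔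
      CfsgLib.Derangements.Herm.AllFix cj n m r := by
    constructor
    · intro H A hA hdet hz hns
      let x : Matrix.SpecialLinearGroup (Fin n) F := ⟨A, hdet⟩
      obtain ⟨W, h1, h2, h3⟩ := H x ((CfsgLib.CharDegrees.mem_SU_iff hK x).2 hA)
        (by rw [Matrix.SpecialLinearGroup.coe_pow]; exact hz) hns
      exact ⟨W, h1, (hti W).1 h2, CfsgLib.Derangements.SubFix.inv_iff_map.2 h3⟩
    · intro H x hx hz hns
      obtain ⟨W, h1, h2, h3⟩ := H _ ((CfsgLib.CharDegrees.mem_SU_iff hK x).1 hx) x.2 (by simpa using hz) hns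
      exact ⟨W, h1, (hti W).2 h2, CfsgLib.Derangements.SubFix.inv_iff_map.1 h3⟩
  rw [hall]
  obtain ⟨ν, hν⟩ : ∃ ν, q = p ^ ν := by
    obtain ⟨l, -, hl⟩ := FiniteField.card F p
    have h1 : q ∣ p ^ (l : ℕ) := by rw [← hl, hq]; exact dvd_pow_self q two_ne_zero
    obtain ⟨ν, -, h⟩ := (Nat.dvd_prime_pow hpp).1 h1
    exact ⟨ν, h⟩
  have hν0 : ν ≠ 0 := fun e => by rw [hν, e, pow_zero] at hq2; omega
  have hexist : ∃ k, n - 2 * m < k ∧ k ≤ n ∧ (-(q : ZMod r)) ^ k = 1 := by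
    by_contra hc
    push Not at hc
    exact CfsgLib.Derangements.Herm.not_dvd_cnt (by rw [Nat.card_eq_fintype_card, hq]) cj hrp' m n hmn hc hcnt
  have hrp : r ≠ p := by
    rintro rfl
    obtain ⟨k, hk, -, hk1⟩ := hexist
    rw [(ZMod.natCast_eq_zero_iff q r).2 (hν ▸ dvd_pow_self r hν0), neg_zero, zero_pow (by omega)] at hk1
    exact zero_ne_one hk1
  have hrq : ¬ r ∣ q := fun h => hrp ((Nat.prime_dvd_prime_iff_eq hrp' hpp).1 (hrp'.dvd_of_dvd_pow (hν ▸ h)))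
  have hrF : (r : F) ≠ 0 := fun h => hrp
    (((Nat.prime_dvd_prime_iff_eq hpp hrp').1 ((CharP.cast_eq_zero_iff F p r).1 h)).symm)
  rcases Nat.lt_or_ge 2 r with hr2 | hr2
  · have O : CfsgLib.Derangements.Herm.Ord r q i b c := ⟨hr2, hrq, hi, hb, hc⟩
    have hex : ¬ 2 * m ≤ n % c := fun h => by
      obtain ⟨k, hk, hkn, hk1⟩ := hexist
      obtain ⟨l, rfl⟩ := O.c_dvd hk1
      have hc0 : 0 < c := Nat.pos_of_ne_zero fun e => by rw [e, zero_mul] at hk; omega
      have h1 : c * l ≤ c * (n / c) :=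
        Nat.mul_le_mul_left c ((Nat.le_div_iff_mul_le hc0).2 (by rw [mul_comm]; exact hkn))
      have := Nat.div_add_mod n c
      omega
    by_cases hi2 : i = 2
    · subst hi2
      have hb1 : b = 1 := by rw [hb, if_pos (by decide)]
      have hc1 : c = 1 := by rw [hc, if_neg (by decide), if_pos (by decide)]
      subst hb1 hc1
      rw [O.main_two hK cj hrF hn hm hmn]
      constructor
      · rintro ⟨h1, h2⟩
        exact Or.inr ⟨hrp, hr2, hm, by simp [Nat.mod_one], Or.inr ⟨rfl, by simpa using h1, Or.inr ⟨rfl, h2⟩⟩⟩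
      · rintro (⟨h, -⟩ | ⟨-, -, -, -, h | ⟨-, h1, h | ⟨-, h2⟩⟩⟩)
        · omega
        · exact absurd rfl h
        · omega
        · exact ⟨by simpa using h1, h2⟩
    · rw [O.main_ne_two hK cj hrF (by omega) hm hmn hex hi2]
      constructor
      · rintro ⟨h1, h2, h3⟩
        refine Or.inr ⟨hrp, hr2, h1, h2, ?_⟩
        by_cases h4 : i % 4 = 2
        · exact Or.inr ⟨h4, h3 h4, Or.inl (by omega)⟩
        · exact Or.inl h4
      · rintro (⟨h, -⟩ | ⟨-, -, h1, h2, h3⟩)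
        · omega
        · refine ⟨h1, h2, fun h4 => ?_⟩
          rcases h3 with h3 | ⟨-, h3, -⟩
          · exact absurd h4 h3
          · exact h3
  · obtain rfl : r = 2 := le_antisymm hr2 hrp'.two_le
    rw [CfsgLib.Derangements.Herm.main_involution hK cj hrq hn hmn]
    constructor
    · intro h; exact Or.inl ⟨rfl, fun e => hrp e.symm, h⟩
    · rintro (⟨-, -, h⟩ | ⟨-, h, -⟩)
      · exact h
      · omega

end Cfsg.Agent.S5953
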