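import Cfsg.Statements.S5954
import Cfsg.Agent.Lib.Omega.UnitaryNondegUnipotent

set_option autoImplicit false
open scoped MatrixGroups
open Cfsg

namespace Cfsg.Agent.S5954

open CfsgLib.Omega.UnitaryNondeg

/-- The order of `-q` from that of `q`. -/
private theorem orderOf_neg_eq {r : ℕ} [Fact r.Prime] (hr2 : r ≠ 2) {x : ZMod r} (hx : x ≠ 0) {i : ℕ}
    (hi : i = orderOf x) :
    orderOf (-x) = if i % 4 = 0 then i else if i % 4 = 2 then i / 2 else 2 * i := by
  have hr : r.Prime := Fact.out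
  have hm1 : (-1 : ZMod r) ≠ 1 := fun h => hr2 ((Nat.prime_dvd_prime_iff_eq hr Nat.prime_two).1
    ((ZMod.natCast_eq_zero_iff 2 r).1 (by push_cast; linear_combination -h)))
  have hi0 : 0 < i := hi ▸ orderOf_pos_iff.2 (isOfFinOrder_iff_pow_eq_one.2
    ⟨r - 1, Nat.sub_pos_of_lt hr.one_lt, ZMod.pow_card_sub_one_eq_one hx⟩)
  have hxi : x ^ i = 1 := hi ▸ pow_orderOf_eq_one x
  have hneg : ∀ j, (-x) ^ j = 1 → i ∣ 2 * j := fun j hj => by
    rw [hi]
    refine orderOf_dvd_of_pow_eq_one ?_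
    rw [pow_mul, ← neg_sq, ← pow_mul, mul_comm, pow_mul, hj, one_pow]
  have hodd1 : ∀ {u : ℕ}, (-1 : ZMod r) ^ u = 1 → Even u := fun {u} hu => by
    rcases Nat.even_or_odd u with h | h
    · exact h
    · rw [h.neg_one_pow] at hu; exact absurd hu hm1
  rcases Nat.even_or_odd i with ⟨h, hh⟩ | ho
  · rw [← two_mul] at hh
    have hxh : x ^ h = -1 := by
      have h1 : (x ^ h) ^ 2 = 1 := by rw [← pow_mul, mul_comm, ← hh, hxi]
      rcases sq_eq_one_iff.1 h1 with h2 | h2
      · exfalso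
        have := Nat.le_of_dvd (by omega) (hi ▸ orderOf_dvd_of_pow_eq_one h2)
        omega
      · exact h2
    rcases Nat.even_or_odd h with he | hho
    · obtain ⟨h', rfl⟩ := he
      rw [if_pos (by omega)]
      refine dvd_antisymm (orderOf_dvd_of_pow_eq_one (by
        rw [Even.neg_pow ⟨h' + h', by omega⟩, hxi])) ?_
      have h1 := pow_orderOf_eq_one (-x)
      obtain ⟨u, hu⟩ := Nat.dvd_of_mul_dvd_mul_left two_pos (hh ▸ hneg _ h1)
      rw [hu, pow_mul, Even.neg_pow ⟨h', rfl⟩, hxh] at h1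
      obtain ⟨w, hw⟩ := hodd1 h1
      exact ⟨w, by rw [hu, hh, hw]; ring⟩
    · obtain ⟨h', rfl⟩ := hho
      rw [if_neg (by omega), if_pos (by omega), show i / 2 = 2 * h' + 1 by omega]
      refine dvd_antisymm (orderOf_dvd_of_pow_eq_one (by
        rw [Odd.neg_pow ⟨h', rfl⟩, hxh, neg_neg])) ?_
      exact Nat.dvd_of_mul_dvd_mul_left two_pos (hh ▸ hneg _ (pow_orderOf_eq_one (-x)))
  · have h2 : i % 2 = 1 := Nat.odd_iff.1 ho
    rw [if_neg (by omega), if_neg (by omega)]
    refine dvd_antisymm (orderOf_dvd_of_pow_eq_one (by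
      rw [Even.neg_pow ⟨i, two_mul i⟩, mul_comm, pow_mul, hxi, one_pow])) ?_
    have h1 := pow_orderOf_eq_one (-x)
    obtain ⟨u, hu⟩ := ((Nat.coprime_two_right.2 ho).dvd_of_dvd_mul_left (hneg _ h1))
    rw [hu, pow_mul, ho.neg_pow, hxi] at h1
    obtain ⟨w, hw⟩ := hodd1 h1
    exact ⟨w, by rw [hu, hw]; ring⟩

/-- Elements of prime order of PSU_n(q) with no fixed nondegenerate `m`-space. Here `T = PSU_n(q)` (`n ≥ 3`, `(n, q) ≠ (3, 2)`), realised through the matrices of determinant 1 over the field `F` with `q²` elements preserving the Hermitian form `h(u, v) = Σ u_i v_i^q`; an element of `T` of prime order `r` is such a matrix `x` with `x^r` scalar and `x` not scalar. For `r ≠ p` let `i` be the multiplicative order of `q` modulo `r`, `b = i/2` for `i` even and `b = i` for `i` odd, `c = i, i/2, 2i` according as `i ≡ 0, 2 (mod 4)` or `i` odd, and write `k = n mod c`, `ℓ = m mod b`, `ℓ' = m mod c`, `n' = ⌊n/b⌋`, `m' = ⌊m/b⌋`, `s = (r−1)/b`; `(a)_r` is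 the `r`-part of `a`. Let `1 ≤ m < n/2` and let `r` be a prime dividing the number of nondegenerate `m`-spaces. Then every element of `T` of order `r` fixes a nondegenerate `m`-space if and only if one of: (i) `r = p > 2` and every partition of `n` into parts of size at most `p` contains (as a sub-multiset) a partition of `m`; (ii) `r = p = 2` and (`n` is odd or `m` is even); (iii) `r = 2 ≠ p` and (`n` is odd, or `m` is even, or `(q+1)_2 ≥ (n)_2` and `q ≡ 3 (mod 4)`); (iv) `r ≠ p`, `r > 2`, and either `i ≠ 2`, `c ≤ m` and `k ≥ ℓ'`, or `i = 2` and (`r ∣ m` or `(q+1)_r ≥ (n)_r`). -/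
theorem result {F : Type*} [Field F] [Fintype F] {p : ℕ} [Fact p.Prime] [CharP F p] {q : ℕ} (hq : Fintype.card F = q ^ 2)
    (n m : ℕ) (hn : 3 ≤ n) (hT : (n, q) ≠ (3, 2)) (hm : 1 ≤ m) (hmn : 2 * m < n)
    (r : ℕ) [Fact r.Prime]
    (hrΩ : r ∣ Nat.card {W : Submodule F (Fin n → F) // Module.finrank F ↥W = m ∧ (∀ u ∈ W, u ≠ 0 → ∃ v ∈ W, Cfsg.hermForm n F q u v ≠ 0)})
    (i b c : ℕ) (hi : i = orderOf (q : ZMod r)) (hb : b = if Even i then i / 2 else i)
    (hc : c = if i % 4 = 0 then i else if i % 4 = 2 then i / 2 else 2 * i) :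
    (∀ x : Matrix.SpecialLinearGroup (Fin n) F, x ∈ Cfsg.SU n F q →
      (∃ z : F, ((x ^ r : Matrix.SpecialLinearGroup (Fin n) F) : Matrix (Fin n) (Fin n) F) = z • (1 : Matrix (Fin n) (Fin n) F)) →
      (∀ z : F, (x : Matrix (Fin n) (Fin n) F) ≠ z • (1 : Matrix (Fin n) (Fin n) F)) →
      ∃ W : Submodule F (Fin n → F), Module.finrank F ↥W = m ∧ (∀ u ∈ W, u ≠ 0 → ∃ v ∈ W, Cfsg.hermForm n F q u v ≠ 0) ∧
        W.map (Matrix.toLin' (x : Matrix (Fin n) (Fin n) F)) ≤ W) ↔
    ((r = p ∧ 2 < p ∧ (∀ μ : Multiset ℕ, (∀ a ∈ μ, 0 < a ∧ a ≤ p) → μ.sum = n → ∃ ν : Multiset ℕ, ν ≤ μ ∧ ν.sum = m)) ∨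
     (r = p ∧ p = 2 ∧ (Odd n ∨ Even m)) ∨
     (r = 2 ∧ p ≠ 2 ∧ (Odd n ∨ Even m ∨ (padicValNat 2 n ≤ padicValNat 2 (q + 1) ∧ q % 4 = 3))) ∨
     (r ≠ p ∧ 2 < r ∧ ((i ≠ 2 ∧ c ≤ m ∧ m % c ≤ n % c) ∨ (i = 2 ∧ (r ∣ m ∨ padicValNat r n ≤ padicValNat r (q + 1)))))) := by
  classical
  obtain ⟨t, rfl⟩ : ∃ t, n = m + t := ⟨n - m, by omega⟩
  have hr : r.Prime := Fact.out
  have hp : p.Prime := Fact.out
  have hmain : (∀ x : Matrix.SpecialLinearGroup (Fin (m + t)) F, x ∈ Cfsg.SU (m + t) F q →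
      (∃ z : F, ((x ^ r : Matrix.SpecialLinearGroup (Fin (m + t)) F) : Matrix (Fin (m + t)) (Fin (m + t)) F) = z • (1 : Matrix (Fin (m + t)) (Fin (m + t)) F)) →
      (∀ z : F, (x : Matrix (Fin (m + t)) (Fin (m + t)) F) ≠ z • (1 : Matrix (Fin (m + t)) (Fin (m + t)) F)) →
      ∃ W : Submodule F (Fin (m + t) → F), Module.finrank F ↥W = m ∧ (∀ u ∈ W, u ≠ 0 → ∃ v ∈ W, Cfsg.hermForm (m + t) F q u v ≠ 0) ∧
        W.map (Matrix.toLin' (x : Matrix (Fin (m + t)) (Fin (m + t)) F)) ≤ W) ↔ ElusiveU F q (m + t) r m := by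
    constructor
    · intro h x hx hdet ⟨z, hz⟩ hns
      let y : Matrix.SpecialLinearGroup (Fin (m + t)) F := ⟨(x : Matrix (Fin (m + t)) (Fin (m + t)) F), hdet⟩
      have hy : y ∈ Cfsg.SU (m + t) F q :=
        (CfsgLib.CharDegrees.mem_SU_iff hq y).2 ((CfsgLib.Generators.mem_GU_iff_qAdjoint hq x).1 hx)
      exact h y hy ⟨z, by rw [Matrix.SpecialLinearGroup.coe_pow]; exact hz⟩ hns
    · intro h x hx ⟨z, hz⟩ hns
      exact h (Matrix.SpecialLinearGroup.toGL x)
        ((CfsgLib.Generators.mem_GU_iff_qAdjoint hq _).2 ((CfsgLib.CharDegrees.mem_SU_iff hq x).1 hx)) x.det_coe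
        ⟨z, by rw [Matrix.SpecialLinearGroup.coe_pow] at hz; exact hz⟩ hns
  rw [hmain]
  by_cases hrp : r = p
  · subst hrp
    rw [elusive_iff_partCond hq (by omega)]
    by_cases h2 : r = 2
    · subst h2
      rw [CfsgLib.Derangements.SubFix.partCond_two _ _ (by omega)]
      simp
    · have h3 : 2 < r := by have := hr.two_le; omega
      simp [h2, h3, CfsgLib.Derangements.SubFix.PartCond]
  · by_cases hdvd : r ∣ q + 1
    · rw [elusive_iff_of_dvd (p := p) hq hrp hdvd (by omega), OneCondU]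
      by_cases h2 : r = 2
      · subst h2
        simp only [hrp, false_and, false_or, ne_eq, lt_irrefl, and_false, or_false, true_and,
          forall_true_left, Ne.symm hrp, not_false_eq_true]
        rw [← even_iff_two_dvd, ← even_iff_two_dvd, Nat.not_even_iff_odd]
        tauto
      · have h3 : 2 < r := by have := hr.two_le; omega
        have hq1 : (q : ZMod r) = -1 := by
          rw [← ZMod.natCast_eq_zero_iff] at hdvd
          push_cast at hdvd
          linear_combination hdvd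
        have hi2 : i = 2 := by
          rw [hi, hq1]
          refine orderOf_eq_prime (by ring) fun h => h2 ((Nat.prime_dvd_prime_iff_eq hr Nat.prime_two).1
            ((ZMod.natCast_eq_zero_iff 2 r).1 (by push_cast; linear_combination -h)))
        simp only [hrp, false_and, false_or, h2, h3, hi2, ne_eq, not_true_eq_false, true_and, not_false_eq_true,
          false_implies, and_true]
        constructor
        · rintro (h | h | h)
          · exact Or.inl h
          · exact Or.inr (by rw [padicValNat.eq_zero_of_not_dvd h]; exact Nat.zero_le _)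
          · exact Or.inr h
        · rintro (h | h)
          · exact Or.inl h
          · exact Or.inr (Or.inr h)
    · have h2 : r ≠ 2 := by
        rintro rfl
        apply hdvd
        obtain ⟨⟨a, ha⟩, -, hcq⟩ := FiniteField.card F p
        have hodd : Odd (q ^ 2) := by
          rw [← hq, hcq]; exact (hp.odd_of_ne_two (Ne.symm hrp)).pow
        exact even_iff_two_dvd.1 (Nat.odd_pow_iff two_ne_zero |>.1 hodd).add_one
      have h3 : 2 < r := by have := hr.two_le; omega
      have hqne : (q : ZMod r) ≠ 0 := natCast_q_ne_zero (F := F) (p := p) hq hrp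
      have hi2 : i ≠ 2 := by
        intro h
        apply hdvd
        have h1 : (q : ZMod r) ^ 2 = 1 := h ▸ hi ▸ pow_orderOf_eq_one _
        rcases sq_eq_one_iff.1 h1 with h4 | h4
        · rw [hi, h4, orderOf_one] at h; omega
        · rw [← ZMod.natCast_eq_zero_iff]; push_cast; rw [h4]; ring
      rw [elusive_iff_of_not_dvd (p := p) hq hrp hdvd (by omega) hrΩ, orderOf_neg_eq h2 hqne hi, ← hc]
      simp [hrp, h2, h3, hi2]

end Cfsg.Agent.S5954
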