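import Cfsg.Statements.S5976
import Cfsg.Agent.Lib.Omega.SympHermField
import Cfsg.Agent.Lib.Omega.SympTestElements
import Cfsg.Agent.Lib.Omega.QuadraticField
-- import your own Cfsg.Agent.* helpers here

set_option autoImplicit false
open scoped MatrixGroups
open Cfsg

namespace Cfsg.Agent.S5976

open CfsgLib CfsgLib.Geometric CfsgLib.Omega CfsgLib.Omega.TensorRank Module
open scoped Matrix

variable {F : Type*} [Field F] {d : ℕ}

theorem ap_neg' {ι : Type} [Fintype ι] [DecidableEq ι] (g : GL ι F) (v : ι → F) : ap g (-v) = -ap g v :=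
  Matrix.mulVec_neg _ _

/-- A full symplectic family gives a basis. -/
theorem exists_basis_of_family (b : Fin d × Fin 2 → (Fin d ⊕ Fin d → F))
    (h0 : ∀ i j s, Cfsg.sympForm d F (b (i, s)) (b (j, s)) = 0)
    (h1 : ∀ i j, Cfsg.sympForm d F (b (i, 0)) (b (j, 1)) = if i = j then 1 else 0) :
    ∃ B : Basis (Fin d × Fin 2) F (Fin d ⊕ Fin d → F), ∀ x, B x = b x := by
  have hA : AdaptedFamily (sympBilin d F) (LinearMap.id : (Fin d ⊕ Fin d → F) →ₗ[F] _) 1 b 1 :=
    ⟨one_mul _, fun i j s => (sympBilin_apply _ _).trans (h0 i j s),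
      fun i j => (sympBilin_apply _ _).trans (h1 i j), fun i => Or.inr ⟨rfl, fun s => ⟨1, by simp⟩⟩⟩
  have hli := hA.linearIndependent (sympBilin_self (d := d) (F := F))
  refine ⟨Basis.mk hli (ge_of_eq (hli.span_eq_top_of_card_eq_finrank' ?_)), fun x => Basis.mk_apply _ _ _⟩
  rw [Fintype.card_prod, Fintype.card_fin, Fintype.card_fin, Module.finrank_fintype_fun_eq_card, Fintype.card_sum,
    Fintype.card_fin]
  ring

/-- An involutory symplectic map is plus or minus one on the planes of some basis. -/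
theorem exists_split_family (h2 : (2 : F) ≠ 0) {x : GL (Fin d ⊕ Fin d) F} (hx : x ∈ Cfsg.spGL d F)
    (hz : ∀ v, ap x (ap x v) = v) :
    ∃ (a : ℕ) (b : Fin d × Fin 2 → (Fin d ⊕ Fin d → F)),
      (∀ i j s, Cfsg.sympForm d F (b (i, s)) (b (j, s)) = 0) ∧
      (∀ i j, Cfsg.sympForm d F (b (i, 0)) (b (j, 1)) = if i = j then 1 else 0) ∧
      ∀ i s, ap x (b (i, s)) = if (i : ℕ) < a then b (i, s) else -b (i, s) := by
  classical
  set B := sympBilin d F with hBdef
  have hB : ∀ v, B v v = 0 := sympBilin_self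
  have hf : ∀ u v, B (ap x u) (ap x v) = B u v := fun u v => by
    rw [hBdef, sympBilin_apply, sympBilin_apply]; exact hx u v
  let P : Submodule F (Fin d ⊕ Fin d → F) :=
    Module.End.eigenspace (Matrix.toLin' (x : Matrix (Fin d ⊕ Fin d) (Fin d ⊕ Fin d) F)) 1
  let M : Submodule F (Fin d ⊕ Fin d → F) :=
    Module.End.eigenspace (Matrix.toLin' (x : Matrix (Fin d ⊕ Fin d) (Fin d ⊕ Fin d) F)) (-1)
  have hP : ∀ v, v ∈ P ↔ ap x v = v := fun v => by rw [Module.End.mem_eigenspace_iff, one_smul]; rfl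
  have hM : ∀ v, v ∈ M ↔ ap x v = -v := fun v => by rw [Module.End.mem_eigenspace_iff, neg_one_smul]; rfl
  have horth : ∀ u ∈ P, ∀ v ∈ M, B u v = 0 := fun u hu v hv => by
    have h := hf u v
    rw [(hP u).1 hu, (hM v).1 hv, map_neg] at h
    exact (mul_eq_zero.1 (by linear_combination -h : (2 : F) * B u v = 0)).resolve_left h2
  have hdec : ∀ v, (2 : F)⁻¹ • (v + ap x v) ∈ P ∧ (2 : F)⁻¹ • (v - ap x v) ∈ M ∧
      (2 : F)⁻¹ • (v + ap x v) + (2 : F)⁻¹ • (v - ap x v) = v := fun v => ⟨(hP _).2 (by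
    rw [ap_smul, ap_add, hz, add_comm]), (hM _).2 (by
    rw [ap_smul, ap_sub, hz, ← smul_neg, neg_sub]), by
    rw [← smul_add, add_add_sub_cancel, ← two_smul F v, smul_smul, inv_mul_cancel₀ h2, one_smul]⟩
  have hPn : ∀ u ∈ P, (∀ w ∈ P, B u w = 0) → u = 0 := fun u hu h => sympBilin_nondegenerate u fun v => by
    obtain ⟨h1, h1', h1''⟩ := hdec v
    rw [← h1'', map_add, h _ h1, horth u hu _ h1', add_zero]
  have hMn : ∀ u ∈ M, (∀ w ∈ M, B u w = 0) → u = 0 := fun u hu h => sympBilin_nondegenerate u fun v => by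
    obtain ⟨h1, h1', h1''⟩ := hdec v
    rw [← h1'', map_add, h _ h1', alt_skew hB, horth _ h1 u hu, neg_zero, add_zero]
  obtain ⟨α, _, _, b, hb0, hb1, hbm, hbl, hbs⟩ := exists_symplectic_family B hB P hPn
  obtain ⟨β, _, _, b', hb0', hb1', hbm', hbl', hbs'⟩ := exists_symplectic_family B hB M hMn
  have hsum : Fintype.card α + Fintype.card β = d := by
    have h1 : finrank F P = Fintype.card α * 2 := by
      rw [← hbs, finrank_span_eq_card hbl, Fintype.card_prod, Fintype.card_fin]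
    have h2' : finrank F M = Fintype.card β * 2 := by
      rw [← hbs', finrank_span_eq_card hbl', Fintype.card_prod, Fintype.card_fin]
    have h3 := Submodule.finrank_sup_add_finrank_inf_eq P M
    have h4 : P ⊔ M = ⊤ := eq_top_iff.2 fun v _ =>
      Submodule.mem_sup.2 ⟨_, (hdec v).1, _, (hdec v).2.1, (hdec v).2.2⟩
    have h5 : P ⊓ M = ⊥ := (Submodule.eq_bot_iff _).2 fun v ⟨hv, hv'⟩ => by
      have h := ((hP v).1 hv).symm.trans ((hM v).1 hv')
      have : (2 : F) • v = 0 := by rw [two_smul]; exact eq_neg_iff_add_eq_zero.1 h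
      exact (smul_eq_zero.1 this).resolve_left h2
    rw [h4, h5, finrank_top, finrank_bot, Module.finrank_fintype_fun_eq_card, Fintype.card_sum, Fintype.card_fin,
      h1, h2'] at h3
    omega
  let e : Fin d ≃ α ⊕ β := (finCongr hsum.symm).trans (finSumFinEquiv.symm.trans
    ((Fintype.equivFin α).symm.sumCongr (Fintype.equivFin β).symm))
  have hel : ∀ i : Fin d, (i : ℕ) < Fintype.card α ↔ (e i).isLeft := by
    intro i
    obtain ⟨y, rfl⟩ := e.symm.surjective i
    rcases y with y | y <;> simp [e]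
  let G : α ⊕ β → Fin 2 → (Fin d ⊕ Fin d → F) := fun y s => Sum.elim (fun a => b (a, s)) (fun a => b' (a, s)) y
  have hG0 : ∀ y y' s, B (G y s) (G y' s) = 0 := by
    rintro (y | y) (y' | y') s
    · exact hb0 y y' s
    · exact horth _ (hbm _) _ (hbm' _)
    · rw [alt_skew hB]; simp [G, horth _ (hbm (y', s)) _ (hbm' (y, s))]
    · exact hb0' y y' s
  have hG1 : ∀ y y', B (G y 0) (G y' 1) = if y = y' then 1 else 0 := by
    rintro (y | y) (y' | y')
    · simp [G, hb1]
    · simp [G, horth _ (hbm (y, 0)) _ (hbm' (y', 1))]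
    · rw [alt_skew hB]; simp [G, horth _ (hbm (y', 1)) _ (hbm' (y, 0))]
    · simp [G, hb1']
  refine ⟨Fintype.card α, fun z => G (e z.1) z.2, fun i j s => ?_, fun i j => ?_, fun i s => ?_⟩
  · rw [← sympBilin_apply, ← hBdef]; exact hG0 _ _ _
  · rw [← sympBilin_apply, ← hBdef, hG1]; exact if_congr e.injective.eq_iff rfl rfl
  · simp only [hel i]
    cases e i with
    | inl a => simp [G, (hP _).1 (hbm (a, s))]
    | inr a => simp [G, (hM _).1 (hbm' (a, s))]

/-- A symplectic map of square minus one turns the planes of some basis. -/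
theorem exists_turn_family [Fintype F] (hodd : Fintype.card F % 2 = 1) (h2 : (2 : F) ≠ 0)
    {x : GL (Fin d ⊕ Fin d) F} (hx : x ∈ Cfsg.spGL d F) (hz : ∀ v, ap x (ap x v) = -v) :
    ∃ b : Fin d × Fin 2 → (Fin d ⊕ Fin d → F),
      (∀ i j s, Cfsg.sympForm d F (b (i, s)) (b (j, s)) = 0) ∧
      (∀ i j, Cfsg.sympForm d F (b (i, 0)) (b (j, 1)) = if i = j then 1 else 0) ∧
      ∀ i s, ap x (b (i, s)) = if s = 0 then b (i, 1) else -b (i, 0) := by
  classical
  set B := sympBilin d F with hBdef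
  have hB : ∀ v, B v v = 0 := sympBilin_self
  have hf : ∀ u v, B (ap x u) (ap x v) = B u v := fun u v => by
    rw [hBdef, sympBilin_apply, sympBilin_apply]; exact hx u v
  have hne : (-1 : F) ≠ 1 := fun h => h2 (by linear_combination -h)
  obtain ⟨α, _, _, b, π, hb⟩ := exists_adapted_basis (B := B)
    (f := Matrix.toLin' (x : Matrix (Fin d ⊕ Fin d) (Fin d ⊕ Fin d) F)) (z := -1)
    hB sympBilin_nondegenerate (fun u v => hf u v) (fun w => by rw [neg_one_smul]; exact hz w)
  have hα : Fintype.card α = d := by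
    have := Module.finrank_eq_card_basis b
    rw [Module.finrank_fintype_fun_eq_card, Fintype.card_prod, Fintype.card_sum, Fintype.card_fin,
      Fintype.card_fin] at this
    omega
  have hplane : ∀ i, ∃ v, B v (ap x v) = 1 ∧ ∃ X Y : F, v = X • b (i, 0) + Y • b (i, 1) ∧
      ∃ X' Y' : F, ap x v = X' • b (i, 0) + Y' • b (i, 1) := by
    intro i
    rcases hb.action i with ⟨-, k, k', hk, h0, h1⟩ | ⟨h, -⟩
    swap
    · exact absurd h hne
    change ap x _ = _ at h0 h1
    have hkk : k * k' = -1 := by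
      have h := hz (b (i, 0))
      rw [h0, ap_smul, h1, smul_smul, ← neg_one_smul F (b (i, 0))] at h
      exact smul_left_injective F (b.ne_zero _) h
    obtain ⟨X, Y, hXY⟩ := S5980.exists_rep hodd hk 1
    refine ⟨X • b (i, 0) + Y • b (i, 1), ?_, X, Y, rfl, Y * k', X * k, ?_⟩
    · rw [ap_add, ap_smul, ap_smul, h0, h1]
      simp only [map_add, map_smul, LinearMap.add_apply, LinearMap.smul_apply, smul_eq_mul, hb.isotropic,
        hb.pairing, alt_skew hB (b (i, 1)) (b (i, 0)), if_true]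
      rw [show k' = -k⁻¹ by
        field_simp
        linear_combination hkk]
      linear_combination hXY
    · rw [ap_add, ap_smul, ap_smul, h0, h1, smul_smul, smul_smul, add_comm]
  choose v hv X Y hvXY X' Y' hxv using hplane
  let e : Fin d ≃ α := (finCongr hα.symm).trans (Fintype.equivFin α).symm
  have horth : ∀ i j, i ≠ j → ∀ a a' c c' : F,
      B (a • b (i, 0) + a' • b (i, 1)) (c • b (j, 0) + c' • b (j, 1)) = 0 := fun i j hij a a' c c' => by
    simp [hb.isotropic, hb.pairing, alt_skew hB (b (i, 1)) (b (j, 0)), hij, Ne.symm hij]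
  refine ⟨fun y => if y.2 = 0 then v (e y.1) else ap x (v (e y.1)), ?_, ?_, ?_⟩
  · intro i j s
    rw [← sympBilin_apply]
    by_cases hij : i = j
    · subst hij; exact hB _
    · fin_cases s
      · simp only [Fin.zero_eta, if_true]
        rw [hvXY, hvXY]
        exact horth _ _ (e.injective.ne hij) _ _ _ _
      · simp only [Fin.mk_one, one_ne_zero, if_false]
        rw [hf, hvXY, hvXY]
        exact horth _ _ (e.injective.ne hij) _ _ _ _
  · intro i j
    rw [← sympBilin_apply]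
    simp only [one_ne_zero, if_true, if_false]
    by_cases hij : i = j
    · subst hij; rw [if_pos rfl]; exact hv _
    · rw [if_neg hij, hvXY, hxv]
      exact horth _ _ (e.injective.ne hij) _ _ _ _
  · intro i s
    fin_cases s
    · simp
    · simp [hz]

/-- The field acting: the unitary subgroup, the elements of odd prime order and a hermitian basis. -/
theorem field_facts [Fintype F] {q : ℕ} (hq : Fintype.card F = q) (h2 : (2 : F) ≠ 0) (hd : 0 < d)
    {E : Type*} [Field E] [Algebra F E] [Finite E] (hfk : finrank F E = 2)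
    (ρ : E →ₐ[F] Matrix (Fin d ⊕ Fin d) (Fin d ⊕ Fin d) F)
    (K : Subalgebra F (Matrix (Fin d ⊕ Fin d) (Fin d ⊕ Fin d) F)) (hρK : ∀ m, m ∈ K ↔ ∃ a, ρ a = m)
    (hK : Cfsg.Geo.IsFieldSubalgebra 2 K)
    (hKf : Cfsg.Geo.IsAdjointClosedFor (Cfsg.sympForm d F) K)
    (hKns : ¬ Cfsg.Geo.IsSelfAdjointFor (Cfsg.sympForm d F) K) :
    (∃ a : ℕ, q ^ a * ∏ i ∈ Finset.range d, (if Even i then q ^ (i + 1) + 1 else q ^ (i + 1) - 1) ∣
      Nat.card ↥(Cfsg.Geo.subalgebraNormalizer K ⊓ Cfsg.spGL d F)) ∧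
    (∀ (r : ℕ) [Fact r.Prime], Odd r → ∀ y : GL (Fin d ⊕ Fin d) F, y ∈ Cfsg.spGL d F →
      y ∈ Cfsg.Geo.subalgebraNormalizer K → y ^ r = 1 →
      Even (rk (y : Matrix (Fin d ⊕ Fin d) (Fin d ⊕ Fin d) F)) ∧ ((r : F) ≠ 0 →
        ∃ w, 2 * w = rk (y : Matrix (Fin d ⊕ Fin d) (Fin d ⊕ Fin d) F) ∧ (w = 0 ∨
          r ∣ q ^ (w * (w - 1) / 2) * ∏ i ∈ Finset.range w, (if Even i then q ^ (i + 1) + 1 else q ^ (i + 1) - 1)))) ∧
    ∃ (θ : Matrix (Fin d ⊕ Fin d) (Fin d ⊕ Fin d) F) (b : F) (e : Fin d → (Fin d ⊕ Fin d → F)),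
      θ ∈ K ∧ (∀ k ∈ K, ∃ c c' : F, k = c • 1 + c' • θ) ∧ (∀ v, θ *ᵥ (θ *ᵥ v) = b • v) ∧ b ≠ 0 ∧
      (∀ i j, Cfsg.sympForm d F (e i) (e j) = 0) ∧
      (∀ i j, Cfsg.sympForm d F (θ *ᵥ e i) (e j) = if i = j then 1 else 0) ∧
      (∀ u v, Cfsg.sympForm d F (θ *ᵥ u) v = -Cfsg.sympForm d F u (θ *ᵥ v)) := by
  classical
  haveI : Nonempty (Fin d ⊕ Fin d) := ⟨.inl ⟨0, hd⟩⟩
  obtain ⟨θ, a, b, hθ, hθns, hθθ, hspan, ha⟩ := exists_quadratic_generator hK
  rw [ha h2, zero_smul, zero_add] at hθθ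
  have hθv : ∀ v, θ *ᵥ (θ *ᵥ v) = b • v := fun v => by
    rw [Matrix.mulVec_mulVec, hθθ, Matrix.smul_mulVec, Matrix.one_mulVec]
  obtain ⟨i₀⟩ : Nonempty (Fin d ⊕ Fin d) := inferInstance
  have hv0 : (Pi.single i₀ 1 : Fin d ⊕ Fin d → F) ≠ 0 := by simp
  have hb : b ≠ 0 := fun h => by
    have h0 : θ *ᵥ (θ *ᵥ Pi.single i₀ 1) = (0 : F) • (θ *ᵥ Pi.single i₀ 1) := by rw [hθv, h, zero_smul, zero_smul]
    have h1 : θ *ᵥ Pi.single i₀ 1 = (0 : F) • (Pi.single i₀ 1 : Fin d ⊕ Fin d → F) := by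
      rw [zero_smul]; exact eq_zero_of_field_eigen hK hθ hθns h0
    exact hv0 (eq_zero_of_field_eigen hK hθ hθns h1)
  -- the adjoint of the generator
  have hskew : ∀ u v, Cfsg.sympForm d F (θ *ᵥ u) v = -Cfsg.sympForm d F u (θ *ᵥ v) := by
    obtain ⟨θ', hθ', hadj⟩ := hKf θ hθ
    obtain ⟨c, c', rfl⟩ := hspan θ' hθ'
    have hadj' : ∀ u v, sympBilin d F (θ *ᵥ u) v = c * sympBilin d F u v + c' * sympBilin d F u (θ *ᵥ v) := by
      intro u v
      have h := hadj u v
      rw [Matrix.add_mulVec, Matrix.smul_mulVec, Matrix.smul_mulVec, Matrix.one_mulVec, ← sympBilin_apply,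
        ← sympBilin_apply, map_add, map_smul, map_smul] at h
      exact h
    have key : ∀ v, ((c * c + c' * c' * b - b) • v + (2 * c * c') • (θ *ᵥ v)) = 0 := by
      intro v
      refine sympBilin_nondegenerate _ fun u => ?_
      have h1 := hadj' (θ *ᵥ u) v
      rw [hadj' u v, hadj' u (θ *ᵥ v), hθv, hθv] at h1
      simp only [map_smul, LinearMap.smul_apply, smul_eq_mul] at h1
      rw [alt_skew sympBilin_self, map_add, map_smul, map_smul, smul_eq_mul, smul_eq_mul]
      linear_combination h1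
    have hcc : c = 0 ∨ c' = 0 := by
      by_contra hne
      push Not at hne
      refine hv0 (eq_zero_of_field_eigen hK hθ hθns (c := -(2 * c * c')⁻¹ * (c * c + c' * c' * b - b)) ?_)
      have hne2 : 2 * c * c' ≠ 0 := mul_ne_zero (mul_ne_zero h2 hne.1) hne.2
      have h := congrArg (fun t => (2 * c * c')⁻¹ • t) (key (Pi.single i₀ 1))
      simp only [smul_add, smul_smul, inv_mul_cancel₀ hne2, one_smul, smul_zero] at h
      rw [eq_neg_of_add_eq_zero_right h, neg_mul, neg_smul]
    have hc' : c' ≠ 0 := fun h => hv0 (eq_zero_of_field_eigen hK hθ hθns (c := c) (by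
      refine sub_eq_zero.1 (sympBilin_nondegenerate _ fun u => ?_)
      rw [map_sub, map_smul, LinearMap.sub_apply, LinearMap.smul_apply, smul_eq_mul,
        hadj' (Pi.single i₀ 1) u, h, zero_mul, add_zero, sub_self]))
    have hc : c = 0 := hcc.resolve_right hc'
    have hsq : (c' * c' - 1) * b = 0 := by
      have h := key (Pi.single i₀ 1)
      rw [hc] at h
      simp only [mul_zero, zero_mul, zero_smul, add_zero, zero_add, smul_eq_zero, hv0, or_false] at h
      linear_combination h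
    rcases mul_self_eq_mul_self_iff.1 (show c' * c' = 1 * 1 by
      linear_combination (mul_eq_zero.1 hsq).resolve_right hb) with h | h
    · refine absurd (fun k hk u v => ?_) hKns
      obtain ⟨e, e', rfl⟩ := hspan k hk
      simp only [Matrix.add_mulVec, Matrix.smul_mulVec, Matrix.one_mulVec, ← sympBilin_apply, map_add, map_smul,
        LinearMap.add_apply, LinearMap.smul_apply, smul_eq_mul, hadj' u v, hc, h]
      ring
    · intro u v
      rw [← sympBilin_apply, hadj', hc, h, sympBilin_apply, sympBilin_apply]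
      ring
  letI : Module E (Fin d ⊕ Fin d → F) :=
    Module.compHom _ ((Matrix.toLinAlgEquiv'.toAlgHom.comp ρ).toRingHom)
  have hsmul : ∀ (a : E) (v : Fin d ⊕ Fin d → F), a • v = ρ a *ᵥ v := fun a v => rfl
  haveI : IsScalarTower F E (Fin d ⊕ Fin d → F) := ⟨fun c a v => by
    rw [hsmul, hsmul, map_smul, Matrix.smul_mulVec]⟩
  obtain ⟨θE, hθE⟩ := (hρK θ).1 hθ
  have hρinj : Function.Injective ρ := ρ.toRingHom.injective
  have hcardE : Nat.card E = q ^ 2 := by
    haveI : Fintype E := Fintype.ofFinite E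
    rw [Nat.card_eq_fintype_card, Module.card_eq_pow_finrank (K := F) (V := E), hfk, hq]
  obtain ⟨cj⟩ := ClassicalForms.exists_conj (F := E) (q := q) hcardE
  have hspanE : ∀ x : E, ∃ c e : F, x = algebraMap F E c + algebraMap F E e * θE := by
    intro x
    obtain ⟨c, e, hce⟩ := hspan (ρ x) ((hρK _).2 ⟨x, rfl⟩)
    refine ⟨c, e, hρinj ?_⟩
    rw [hce, map_add, map_mul, hθE, AlgHom.commutes, AlgHom.commutes, Algebra.algebraMap_eq_smul_one,
      Algebra.algebraMap_eq_smul_one, Matrix.smul_mul, Matrix.one_mul]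
  have hfixF : ∀ c : F, cj.σ (algebraMap F E c) = algebraMap F E c := fun c => by
    rw [cj.apply, ← map_pow, ← hq, FiniteField.pow_card]
  have hsqE : θE * θE = algebraMap F E b := hρinj (by
    rw [map_mul, hθE, hθθ, AlgHom.commutes, Algebra.algebraMap_eq_smul_one])
  have hneg : cj.σ θE = -θE := by
    have h := congrArg cj.σ hsqE
    rw [map_mul, hfixF, ← hsqE] at h
    refine (mul_self_eq_mul_self_iff.1 h).resolve_left fun h' => cj.ne (RingHom.ext fun x => ?_)
    obtain ⟨c, e, rfl⟩ := hspanE x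
    rw [map_add, map_mul, hfixF, hfixF, h', RingHom.id_apply]
  have hH : SympHermField.IsHermField d θE b cj.σ := ⟨hsqE, hneg, hfixF, cj.invol, cj.ne, hspanE,
    fun u v => by rw [hsmul, hsmul, hθE]; exact hskew u v⟩
  have hN : ∀ g : GL (Fin d ⊕ Fin d) F, g ∈ Cfsg.Geo.subalgebraNormalizer K ↔ CfsgLib.Geometric.ExtF.IsSemi E g :=
    CfsgLib.Geometric.ExtF.mem_normalizer_iff_isSemi K (fun a => ρ a) hρK hsmul
  refine ⟨?_, fun r _ hr y hy hyN hyr => ?_, ?_⟩
  · refine ⟨d * (d - 1) / 2, ?_⟩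
    rw [← ClassicalForms.card_gu hcardE]
    exact SympHermField.card_gu_dvd hH hfk cj.apply K hN
  · -- the map is linear
    obtain ⟨τ, hτ⟩ := SympFieldExt.exists_tau hd ((hN _).1 hyN)
    have hit : ∀ (i : ℕ) (a : E) x, ap (y ^ i) (a • x) = (τ ^ i) a • ap (y ^ i) x := by
      intro i
      induction i with
      | zero => intro a x; simp
      | succ i ih =>
        intro a x
        rw [pow_succ', ap_mul, ih, hτ, ← ap_mul, pow_succ']
        rfl
    have hτr : τ ^ r = 1 := AlgEquiv.ext fun a => by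
      have h1 := hit r a (Pi.single (.inl ⟨0, hd⟩) 1)
      rw [hyr, ap_one, ap_one] at h1
      exact (smul_left_injective E (by simp) h1).symm
    have : Module.Finite F E := Module.Finite.of_finite
    have hτ1 : τ = 1 := by
      by_contra hne
      have hdvd : r ∣ 2 := by
        rw [← orderOf_eq_prime hτr hne, ← hfk, ← IsGalois.card_aut_eq_finrank F E]
        exact orderOf_dvd_natCard τ
      have := Nat.le_of_dvd two_pos hdvd
      have := (Fact.out : r.Prime).two_le
      obtain ⟨k, hk⟩ := hr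
      omega
    have hlin : ∀ (a : E) x, ap y (a • x) = a • ap y x := fun a x => by rw [hτ, hτ1]; rfl
    refine ⟨?_, fun hrF => ?_⟩
    · have := SympFieldExt.finiteDimensional_E (F := F) (d := d) (E := E)
      let Y : (Fin d ⊕ Fin d → F) →ₗ[E] (Fin d ⊕ Fin d → F) :=
        { toFun := ap y, map_add' := ap_add y, map_smul' := fun a x => hlin a x }
      refine ⟨finrank E (LinearMap.range (Y - LinearMap.id)), ?_⟩
      rw [rk, show sub1 (y : Matrix (Fin d ⊕ Fin d) (Fin d ⊕ Fin d) F) = (Y - LinearMap.id).restrictScalars F from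
          LinearMap.ext fun v => rfl, LinearMap.range_restrictScalars,
        ← two_mul, ← hfk, Module.finrank_mul_finrank F E (LinearMap.range (Y - LinearMap.id))]
      rfl
    · obtain ⟨w, hw, hw'⟩ := SympHermField.linear_case hH hfk hq cj.apply hrF hy hlin hyr
      refine ⟨w, hw, hw'.imp_right fun h => ?_⟩
      rw [← ClassicalForms.card_gu hcardE]
      exact h.2
  · obtain ⟨e, he⟩ := SympHermField.exists_basis hH hfk
    refine ⟨θ, b, fun i => e i, hθ, hspan, hθv, hb, fun i j => ?_, fun i j => ?_, hskew⟩ <;>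
      have h1 := he i j <;> rw [SympHermField.form_apply, SympHermField.hval] at h1
    · have h2' := (SympHermField.coeff_inj hH (c := Cfsg.sympForm d F (θE • e i) (e j))
        (e := -Cfsg.sympForm d F (e i) (e j)) (c' := if i = j then 1 else 0) (e' := 0) (by
          rw [map_neg, neg_mul, map_zero, zero_mul, add_zero, ← sub_eq_add_neg, h1]; split_ifs <;> simp)).2
      exact neg_eq_zero.1 h2'
    · have h2' := (SympHermField.coeff_inj hH (c := Cfsg.sympForm d F (θE • e i) (e j))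
        (e := -Cfsg.sympForm d F (e i) (e j)) (c' := if i = j then 1 else 0) (e' := 0) (by
          rw [map_neg, neg_mul, map_zero, zero_mul, add_zero, ← sub_eq_add_neg, h1]; split_ifs <;> simp)).1
      rwa [hsmul, hθE] at h2'

/-- The exponents forced by a divisor of a factor of the order of a unitary group. -/
theorem factor_cases {q r i : ℕ} (hr : r.Prime) (hr2 : r ≠ 2) (hq : 1 < q) (hi : i = orderOf (q : ZMod r)) {j : ℕ}
    (h : r ∣ if Even j then q ^ (j + 1) + 1 else q ^ (j + 1) - 1) :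
    i ∣ 2 * (j + 1) ∧ ((i ∣ j + 1) ↔ ¬ Even j) := by
  have : Fact r.Prime := ⟨hr⟩
  have h2 : (2 : ZMod r) ≠ 0 := fun h => hr2 ((Nat.prime_dvd_prime_iff_eq hr Nat.prime_two).1
    ((ZMod.natCast_eq_zero_iff 2 r).1 (by exact_mod_cast h)))
  rw [← ZMod.natCast_eq_zero_iff] at h
  subst hi
  rw [orderOf_dvd_iff_pow_eq_one, orderOf_dvd_iff_pow_eq_one, mul_comm, pow_mul]
  split_ifs at h with he
  · push_cast at h
    have h1 : (q : ZMod r) ^ (j + 1) = -1 := by linear_combination h
    refine ⟨by rw [h1]; ring, ?_⟩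
    rw [h1]
    exact ⟨fun h' => absurd (by linear_combination -h' : (2 : ZMod r) = 0) h2, fun h' => absurd he h'⟩
  · rw [Nat.cast_sub (Nat.one_le_pow _ _ (by omega))] at h
    push_cast at h
    have h1 : (q : ZMod r) ^ (j + 1) = 1 := by linear_combination h
    exact ⟨by rw [h1, one_pow], ⟨fun _ => he, fun _ => h1⟩⟩

/-- In the remaining case the index is prime to `r`. -/
theorem not_dvd_index {q r i d : ℕ} (hr : r.Prime) (hr2 : r ≠ 2) (hq : 1 < q) (hrq : ¬ r ∣ q)
    (hi : i = orderOf (q : ZMod r)) (hi4 : i % 4 = 2) {H I a b : ℕ}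
    (hH : q ^ a * ∏ j ∈ Finset.range d, (if Even j then q ^ (j + 1) + 1 else q ^ (j + 1) - 1) ∣ H)
    (hG : H * I = q ^ b * ∏ j ∈ Finset.range d, (q ^ (2 * (j + 1)) - 1)) : ¬ r ∣ I := by
  intro hI
  set P := ∏ j ∈ Finset.range d, (if Even j then q ^ (j + 1) + 1 else q ^ (j + 1) - 1) with hP
  set R := ∏ j ∈ Finset.range d, (if Even j then q ^ (j + 1) - 1 else q ^ (j + 1) + 1) with hR
  have hsplit : ∏ j ∈ Finset.range d, (q ^ (2 * (j + 1)) - 1) = P * R := by
    rw [hP, hR, ← Finset.prod_mul_distrib]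
    refine Finset.prod_congr rfl fun j _ => ?_
    have h1 : q ^ (2 * (j + 1)) - 1 = (q ^ (j + 1) + 1) * (q ^ (j + 1) - 1) := by
      rw [mul_comm, pow_mul]; simpa using Nat.sq_sub_sq (q ^ (j + 1)) 1
    split_ifs <;> rw [h1]
    ring
  have hP1 : 0 < P := Finset.prod_pos fun j _ => by
    have : 1 < q ^ (j + 1) := Nat.one_lt_pow (by omega) hq
    split_ifs <;> omega
  have h1 : q ^ a * P * r ∣ q ^ b * (P * R) := by rw [← hsplit, ← hG]; exact mul_dvd_mul hH hI
  rw [mul_comm (q ^ a) P, mul_assoc, mul_left_comm (q ^ b)] at h1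
  have h2 := (Dvd.intro_left _ rfl).trans (Nat.dvd_of_mul_dvd_mul_left hP1 h1)
  rcases hr.dvd_mul.1 h2 with h | h
  · exact hrq (hr.dvd_of_dvd_pow h)
  obtain ⟨j, -, hj⟩ := (hr.prime.dvd_finsetProd_iff _).1 h
  have : Fact r.Prime := ⟨hr⟩
  have h2' : (2 : ZMod r) ≠ 0 := fun h => hr2 ((Nat.prime_dvd_prime_iff_eq hr Nat.prime_two).1
    ((ZMod.natCast_eq_zero_iff 2 r).1 (by exact_mod_cast h)))
  rw [← ZMod.natCast_eq_zero_iff] at hj
  split_ifs at hj with he
  · rw [Nat.cast_sub (Nat.one_le_pow _ _ (by omega))] at hj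
    push_cast at hj
    have h1 : i ∣ j + 1 := hi ▸ orderOf_dvd_of_pow_eq_one (by linear_combination hj)
    obtain ⟨k, hk⟩ := he
    have : 2 ∣ j + 1 := (show 2 ∣ i by omega).trans h1
    omega
  · push_cast at hj
    have hm : (q : ZMod r) ^ (j + 1) = -1 := by linear_combination hj
    have h1 : i ∣ 2 * (j + 1) := hi ▸ orderOf_dvd_of_pow_eq_one (by rw [mul_comm, pow_mul, hm]; ring)
    obtain ⟨i', hi'⟩ : 2 ∣ i := by omega
    rw [hi'] at h1
    have h3 : i' ∣ j + 1 := Nat.dvd_of_mul_dvd_mul_left two_pos h1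
    have h4 : i ∣ j + 1 := by
      rw [hi']
      refine Nat.Coprime.mul_dvd_of_dvd_of_dvd ((Nat.prime_two.coprime_iff_not_dvd).2 (by omega)) ?_ h3
      rw [Nat.not_even_iff_odd] at he
      obtain ⟨k, hk⟩ := he
      omega
    have h5 : (q : ZMod r) ^ (j + 1) = 1 := orderOf_dvd_iff_pow_eq_one.1 (hi ▸ h4)
    exact h2' (by linear_combination h5.symm.trans hm)

/-- Elements of prime order of PSp_n(q), q odd, and the subgroups of type GU_{n/2}(q). Here `T = PSp_{2d}(F)` for a field `F` with `q` elements, `q` odd, `d ≥ 2`, realised through the matrices preserving the standard alternating form `f`; `K` is a subalgebra of the `2d × 2d` matrices that is a field of degree 2 over `F`, closed under taking adjoints for `f` but not consisting of self-adjoint elements (so `F^{2d}` becomes a `d`-dimensional space over `K ≅ F_{q²}` on which `f` is the trace of a multiple of a non-degenerate hermitian form); `H` is the subgroup of `T` normalizing `K` — the symplectic maps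 that are `K`-linear or `K`-semilinear, a subgroup of type GU_d(q) (maximality is not assumed). Ω is the set of cosets of `H` in `T`, so an element of `T` of prime order `r` (`x ∈ T` with `x^r` scalar, `x` not scalar) fixes a point of Ω exactly when some `T`-conjugate of `x` normalizes `K`. Let `r` be a prime dividing the index of `H`. Then every element of `T` of order `r` fixes a point of Ω if and only if `r = 2`. -/
theorem result {F : Type*} [Field F] [Fintype F] {p : ℕ} [Fact p.Prime] [CharP F p] {q : ℕ} (hq : Fintype.card F = q)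
    (hodd : Odd q) (d : ℕ) (hd : 2 ≤ d)
    (K : Subalgebra F (Matrix (Fin d ⊕ Fin d) (Fin d ⊕ Fin d) F)) (hK : Cfsg.Geo.IsFieldSubalgebra 2 K)
    (hKf : Cfsg.Geo.IsAdjointClosedFor (Cfsg.sympForm d F) K) (hKns : ¬ Cfsg.Geo.IsSelfAdjointFor (Cfsg.sympForm d F) K)
    (r : ℕ) [Fact r.Prime]
    (hΩ : r ∣ (Cfsg.Geo.subalgebraNormalizer K).relIndex (Cfsg.spGL d F)) :
    (∀ x ∈ Cfsg.spGL d F, (∃ z : F, ((x ^ r : GL (Fin d ⊕ Fin d) F) : Matrix (Fin d ⊕ Fin d) (Fin d ⊕ Fin d) F) = z • (1 : Matrix (Fin d ⊕ Fin d) (Fin d ⊕ Fin d) F)) →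
      (∀ z : F, (x : Matrix (Fin d ⊕ Fin d) (Fin d ⊕ Fin d) F) ≠ z • (1 : Matrix (Fin d ⊕ Fin d) (Fin d ⊕ Fin d) F)) →
      ∃ g ∈ Cfsg.spGL d F, g⁻¹ * x * g ∈ Cfsg.Geo.subalgebraNormalizer K) ↔ r = 2 := by
  classical
  subst hq
  have hr : r.Prime := Fact.out
  have hd0 : 0 < d := by omega
  have hodd' : Fintype.card F % 2 = 1 := Nat.odd_iff.1 hodd
  have h2 : (2 : F) ≠ 0 := fun h => by
    haveI := CharTwo.of_one_ne_zero_of_two_eq_zero (R := F) one_ne_zero h
    rw [FiniteField.even_card_iff_char_two.1 (ringChar.eq F 2)] at hodd'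
    omega
  letI := CfsgLib.Geometric.ExtF.fieldOfSubalg hK two_ne_zero
  have : Finite K :=
    Finite.of_injective (fun a : K => (a : Matrix (Fin d ⊕ Fin d) (Fin d ⊕ Fin d) F)) Subtype.val_injective
  obtain ⟨⟨a, hcard⟩, hcases, θ, b, e, hθ, hspan, hθv, hb, hee, hθe, hskew⟩ :=
    field_facts (E := K) rfl h2 hd0 hK.finrank_eq K.val K
      (fun m => ⟨fun hm => ⟨⟨m, hm⟩, rfl⟩, fun ⟨a, ha⟩ => ha ▸ a.2⟩) hK hKf hKns
  constructor
  · intro H
    rcases hr.eq_two_or_odd' with hr2 | hro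
    · exact hr2
    exfalso
    have get : ∀ x ∈ Cfsg.spGL d F, x ^ r = 1 →
        (∀ z : F, (x : Matrix (Fin d ⊕ Fin d) (Fin d ⊕ Fin d) F) ≠ z • 1) →
        Even (rk (x : Matrix (Fin d ⊕ Fin d) (Fin d ⊕ Fin d) F)) ∧ ((r : F) ≠ 0 →
          ∃ w, 2 * w = rk (x : Matrix (Fin d ⊕ Fin d) (Fin d ⊕ Fin d) F) ∧ (w = 0 ∨
            r ∣ Fintype.card F ^ (w * (w - 1) / 2) * ∏ i ∈ Finset.range w,
              (if Even i then Fintype.card F ^ (i + 1) + 1 else Fintype.card F ^ (i + 1) - 1))) := by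
      intro x hx hxr hns
      obtain ⟨g, hg, hgx⟩ := H x hx ⟨1, by rw [hxr, one_smul]; rfl⟩ hns
      have hyr : (g⁻¹ * x * g) ^ r = 1 := by
        have h2 := conj_pow (a := g⁻¹) (b := x) (i := r)
        rw [inv_inv] at h2
        rw [h2, hxr]; group
      have h := hcases r hro _ (mul_mem (mul_mem (inv_mem hg) hx) hg) hgx hyr
      rwa [rk_conj] at h
    have hrp : r ≠ p := by
      rintro rfl
      obtain ⟨x, hx, hxp, hrk⟩ := SympTest.exists_transvection (F := F) r hd0
      obtain ⟨t, ht⟩ := (get x hx hxp (SympTest.not_scalar_of_rk (by omega) (by omega))).1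
      omega
    have hrF : (r : F) ≠ 0 := fun h => hrp ((Nat.prime_dvd_prime_iff_eq Fact.out hr).1
      ((CharP.cast_eq_zero_iff F p r).1 h)).symm
    have hrq : (Fintype.card F : ZMod r) ≠ 0 := fun h => hrp (by
      obtain ⟨m, -, hm⟩ := FiniteField.card F p
      rw [ZMod.natCast_eq_zero_iff, hm] at h
      exact (Nat.prime_dvd_prime_iff_eq hr Fact.out).1 (hr.dvd_of_dvd_pow h))
    have hrq' : ¬ r ∣ Fintype.card F := fun h => hrq ((ZMod.natCast_eq_zero_iff _ _).2 h)
    have hdvd : r ∣ Nat.card (Cfsg.spGL d F) := hΩ.trans (Subgroup.relIndex_dvd_card _ _)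
    obtain ⟨c, hc, hc0, hc2, hcr, x, hx, hxr, hrk, hns⟩ := SympTest.exists_odd hd0 hro hrF hrq hdvd
    set i := orderOf (Fintype.card F : ZMod r) with hi
    have hi0 : 0 < i := orderOf_pos_iff.2 (isOfFinOrder_iff_pow_eq_one.2
      ⟨r - 1, Nat.sub_pos_of_lt hr.one_lt, ZMod.pow_card_sub_one_eq_one hrq⟩)
    obtain ⟨w, hw, hw'⟩ := (get x hx hxr hns).2 hrF
    rw [hrk] at hw
    rcases hw' with hw0 | hdv
    · omega
    have hr2 : r ≠ 2 := fun h => by rw [h] at hro; exact absurd hro (by decide)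
    rcases hr.dvd_mul.1 hdv with h | h
    · exact hrq' (hr.dvd_of_dvd_pow h)
    obtain ⟨j, hj, hj'⟩ := (hr.prime.dvd_finsetProd_iff _).1 h
    rw [Finset.mem_range] at hj
    obtain ⟨h1, h3⟩ := factor_cases hr hr2 Fintype.one_lt_card hi hj'
    by_cases hie : Even i
    · rw [if_pos hie] at hc
      obtain ⟨i', hi'⟩ := hie
      have hjw : j + 1 = w := by
        have := Nat.le_of_dvd (by omega) h1
        omega
      have hje : Even j := by
        by_contra hje
        have := Nat.le_of_dvd (by omega) (h3.2 hje)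
        omega
      obtain ⟨k, hk⟩ := hje
      refine not_dvd_index hr hr2 Fintype.one_lt_card hrq' hi (by omega) (b := d ^ 2)
        (H := Nat.card ↥(Cfsg.Geo.subalgebraNormalizer K ⊓ Cfsg.spGL d F)) hcard ?_ hΩ
      rw [← ClassicalLinear.card_sp, Nat.card_congr (MonoidHom.ofInjective
        (Forms.spToGL_injective (m := d) (F := F))).toEquiv, Forms.spToGL_range,
        ← Subgroup.card_mul_index ((Cfsg.Geo.subalgebraNormalizer K).subgroupOf (Cfsg.spGL d F))]
      congr 1
      rw [inf_comm, Nat.card_congr (Subgroup.subgroupOfEquivOfLe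
        (inf_le_left : Cfsg.spGL d F ⊓ Cfsg.Geo.subalgebraNormalizer K ≤ Cfsg.spGL d F)).symm.toEquiv,
        Subgroup.inf_subgroupOf_left]
    · rw [if_neg hie] at hc
      rw [Nat.not_even_iff_odd] at hie
      have hij : i ∣ j + 1 := (Nat.Coprime.dvd_of_dvd_mul_left
        ((Nat.prime_two.coprime_iff_not_dvd).2 (by obtain ⟨k, hk⟩ := hie; omega)).symm h1)
      have := Nat.le_of_dvd (by omega) hij
      have hje := h3.1 hij
      obtain ⟨k, hk⟩ := hie
      exact hje ⟨k, by omega⟩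
  · rintro rfl x hx ⟨z, hxz⟩ hns
    have hz : ∀ v, ap x (ap x v) = z • v := fun v => by
      rw [← ap_mul, ← pow_two, ap_def, hxz, Matrix.smul_mulVec, Matrix.one_mulVec]
    have hz1 : z * z = 1 := SympTest.scalar_mul_self hd0 (pow_mem hx 2) hxz
    have hθe' : ∀ i j, Cfsg.sympForm d F (e i) (θ *ᵥ e j) = -(if i = j then 1 else 0) := fun i j => by
      rw [← hθe, hskew, neg_neg]
    have hθθ : ∀ i j, Cfsg.sympForm d F (θ *ᵥ e i) (θ *ᵥ e j) = 0 := fun i j => by
      rw [hskew, hθv, ← sympBilin_apply, map_smul, sympBilin_apply, hee, smul_zero, neg_zero]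
    have Bee : ∀ i j, sympBilin d F (e i) (e j) = 0 := fun i j => (sympBilin_apply _ _).trans (hee i j)
    have Bθθ : ∀ i j, sympBilin d F (θ *ᵥ e i) (θ *ᵥ e j) = 0 := fun i j => (sympBilin_apply _ _).trans (hθθ i j)
    have Bθe : ∀ i j, sympBilin d F (θ *ᵥ e i) (e j) = if i = j then 1 else 0 := fun i j =>
      (sympBilin_apply _ _).trans (hθe i j)
    have Beθ : ∀ i j, sympBilin d F (e i) (θ *ᵥ e j) = -(if i = j then 1 else 0) := fun i j =>
      (sympBilin_apply _ _).trans (hθe' i j)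
    let bs : Fin d × Fin 2 → (Fin d ⊕ Fin d → F) := fun y => if y.2 = 0 then e y.1 else -(θ *ᵥ e y.1)
    have hbs0 : ∀ i j s, Cfsg.sympForm d F (bs (i, s)) (bs (j, s)) = 0 := by
      intro i j s
      rw [← sympBilin_apply]
      fin_cases s <;> simp [bs, Bee, Bθθ]
    have hbs1 : ∀ i j, Cfsg.sympForm d F (bs (i, 0)) (bs (j, 1)) = if i = j then 1 else 0 := by
      intro i j
      rw [← sympBilin_apply]
      simp [bs, Beθ]
    have Bbs0 : ∀ i j s, sympBilin d F (bs (i, s)) (bs (j, s)) = 0 := fun i j s =>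
      (sympBilin_apply _ _).trans (hbs0 i j s)
    have Bbs1 : ∀ i j, sympBilin d F (bs (i, 0)) (bs (j, 1)) = if i = j then 1 else 0 := fun i j =>
      (sympBilin_apply _ _).trans (hbs1 i j)
    obtain ⟨Bs, hBs⟩ := exists_basis_of_family bs hbs0 hbs1
    have hbase : ∀ (f g : (Fin d ⊕ Fin d → F) →ₗ[F] (Fin d ⊕ Fin d → F)), (∀ i, f (bs i) = g (bs i)) →
        ∀ u, f u = g u := fun f g h u => LinearMap.congr_fun (Bs.ext fun i => by rw [hBs]; exact h i) u
    -- conjugating through two families with the same pattern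
    have conj_of : ∀ (y : GL (Fin d ⊕ Fin d) F) (bx cy : Fin d × Fin 2 → (Fin d ⊕ Fin d → F))
        (pat : (Fin d × Fin 2 → (Fin d ⊕ Fin d → F)) → Fin d × Fin 2 → (Fin d ⊕ Fin d → F)),
        (∀ g : GL (Fin d ⊕ Fin d) F, ∀ u, pat (fun t => ap g (u t)) = fun t => ap g (pat u t)) →
        (∀ i j s, Cfsg.sympForm d F (bx (i, s)) (bx (j, s)) = 0) →
        (∀ i j, Cfsg.sympForm d F (bx (i, 0)) (bx (j, 1)) = if i = j then 1 else 0) →
        (∀ i j s, Cfsg.sympForm d F (cy (i, s)) (cy (j, s)) = 0) →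
        (∀ i j, Cfsg.sympForm d F (cy (i, 0)) (cy (j, 1)) = if i = j then 1 else 0) →
        (∀ t, ap x (bx t) = pat bx t) → (∀ t, ap y (cy t) = pat cy t) →
        y ∈ Cfsg.Geo.subalgebraNormalizer K →
        ∃ g ∈ Cfsg.spGL d F, g⁻¹ * x * g ∈ Cfsg.Geo.subalgebraNormalizer K := by
      intro y bx cy pat hpat hb0 hb1 hc0 hc1 hxb hyc hy
      obtain ⟨g, hg, hgc⟩ := S5980.exists_spGL_of_families (by simp) cy bx hc0 hc1 hb0 hb1
      refine ⟨g, hg, ?_⟩
      obtain ⟨C, hC⟩ := exists_basis_of_family cy hc0 hc1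
      have hgc' : bx = fun t => ap g (cy t) := funext fun t => (hgc t).symm
      have key : Matrix.toLin' ((g⁻¹ * x * g : GL (Fin d ⊕ Fin d) F) : Matrix (Fin d ⊕ Fin d) (Fin d ⊕ Fin d) F) =
          Matrix.toLin' (y : Matrix (Fin d ⊕ Fin d) (Fin d ⊕ Fin d) F) := C.ext fun t => by
        rw [Matrix.toLin'_apply, Matrix.toLin'_apply, ← ap_def, ← ap_def, hC, ap_mul, ap_mul, hgc, hxb, hyc,
          hgc', hpat]
        exact ap_inv_ap g _
      rwa [gl_ext fun v => LinearMap.congr_fun key v]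
    rcases mul_self_eq_mul_self_iff.1 (hz1.trans (one_mul 1).symm) with rfl | rfl
    · obtain ⟨a, bx, hb0, hb1, hxb⟩ := exists_split_family h2 hx (fun v => by rw [hz, one_smul])
      let cs : Fin d × Fin 2 → (Fin d ⊕ Fin d → F) := fun t => if (t.1 : ℕ) < a then bs t else -bs t
      have hcs0 : ∀ i j s, Cfsg.sympForm d F (cs (i, s)) (cs (j, s)) = 0 := by
        intro i j s
        rw [← sympBilin_apply]
        simp only [cs]
        split_ifs <;> simp [Bbs0]
      have hcs1 : ∀ i j, Cfsg.sympForm d F (cs (i, 0)) (cs (j, 1)) = if i = j then 1 else 0 := by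
        intro i j
        rw [← sympBilin_apply]
        simp only [cs]
        split_ifs <;> simp_all [Bbs1]
      obtain ⟨y, hy, hyb⟩ := S5980.exists_spGL_of_families (by simp) bs cs hbs0 hbs1 hcs0 hcs1
      refine conj_of y bx bs (fun u t => if (t.1 : ℕ) < a then u t else -u t)
        (fun g u => funext fun t => by simp only; split_ifs <;> simp [ap_neg']) hb0 hb1 hbs0 hbs1
        (fun t => hxb t.1 t.2) (fun t => by rw [hyb]) ?_
      refine mem_normalizer_of_generator hθ hspan y (c := 0) (d := 1) one_ne_zero ?_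
      refine Matrix.toLin'.injective (LinearMap.ext fun u => hbase _ _ (fun t => ?_) u)
      simp only [Matrix.toLin'_apply, zero_smul, zero_add, one_smul, ← Matrix.mulVec_mulVec, ← ap_def]
      obtain ⟨i, s⟩ := t
      have h0 := hyb (i, 0)
      have h1 := hyb (i, 1)
      fin_cases s <;> by_cases hia : (i : ℕ) < a <;>
        simp [bs, cs, hia, ap_neg', Matrix.mulVec_neg, hθv, ap_smul, neg_eq_iff_eq_neg] at h0 h1 ⊢ <;>
        simp [h0, h1, Matrix.mulVec_neg, hθv]
    · obtain ⟨bx, hb0, hb1, hxb⟩ := exists_turn_family hodd' h2 hx (fun v => by rw [hz, neg_one_smul])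
      obtain ⟨c0, c1, hN⟩ := FiniteField.exists_root_sum_quadratic (R := F)
        (f := (Polynomial.X : Polynomial F) ^ 2 + Polynomial.C 1) (g := Polynomial.C (-b) * Polynomial.X ^ 2)
        (by rw [Polynomial.degree_add_C (by rw [Polynomial.degree_X_pow]; decide), Polynomial.degree_X_pow]; rfl)
        (by rw [Polynomial.degree_C_mul_X_pow 2 (neg_ne_zero.2 hb)]; rfl) hodd'
      have hN' : c0 * c0 - b * (c1 * c1) = -1 := by
        simp at hN
        linear_combination hN
      let cs : Fin d × Fin 2 → (Fin d ⊕ Fin d → F) := fun t =>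
        if t.2 = 0 then c0 • e t.1 + c1 • (θ *ᵥ e t.1) else (c1 * b) • e t.1 + c0 • (θ *ᵥ e t.1)
      have hcs0 : ∀ i j s, Cfsg.sympForm d F (cs (i, s)) (cs (j, s)) = 0 := by
        intro i j s
        rw [← sympBilin_apply]
        fin_cases s <;> simp [cs, Bee, Bθθ, Bθe, Beθ] <;> split_ifs <;> ring
      have hcs1 : ∀ i j, Cfsg.sympForm d F (cs (i, 0)) (cs (j, 1)) = if i = j then 1 else 0 := by
        intro i j
        rw [← sympBilin_apply]
        simp [cs, Bee, Bθθ, Bθe, Beθ]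
        split_ifs with hij
        · linear_combination -hN'
        · ring
      obtain ⟨y, hy, hyb⟩ := S5980.exists_spGL_of_families (by simp) bs cs hbs0 hbs1 hcs0 hcs1
      have hy0 : ∀ i, ap y (e i) = c0 • e i + c1 • (θ *ᵥ e i) := fun i => by simpa [bs, cs] using hyb (i, 0)
      have hy1 : ∀ i, ap y (θ *ᵥ e i) = -((c1 * b) • e i + c0 • (θ *ᵥ e i)) := fun i => by
        rw [← neg_neg (θ *ᵥ e i), ap_neg']
        simpa [bs, cs] using congrArg Neg.neg (hyb (i, 1))
      have hysq : ∀ v, ap y (ap y v) = -v := by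
        intro v
        refine hbase ((Matrix.toLin' (y : Matrix (Fin d ⊕ Fin d) (Fin d ⊕ Fin d) F)).comp
          (Matrix.toLin' (y : Matrix (Fin d ⊕ Fin d) (Fin d ⊕ Fin d) F))) (-LinearMap.id) ?_ v
        rintro ⟨i, s⟩
        show ap y (ap y (bs (i, s))) = -bs (i, s)
        fin_cases s <;> simp [bs, hy0, hy1, ap_add, ap_smul, ap_neg']
        · match_scalars
          · linear_combination hN'
          · ring
        · match_scalars
          · ring
          · linear_combination -hN'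
      obtain ⟨cy, hc0', hc1', hyc⟩ := exists_turn_family hodd' h2 hy hysq
      refine conj_of y bx cy (fun u t => if t.2 = 0 then u (t.1, 1) else -u (t.1, 0))
        (fun g u => funext fun t => by simp only; split_ifs <;> simp [ap_neg']) hb0 hb1 hc0' hc1'
        (fun t => hxb t.1 t.2) (fun t => hyc t.1 t.2) ?_
      refine mem_normalizer_of_generator hθ hspan y (c := 0) (d := -1) (by simp) ?_
      refine Matrix.toLin'.injective (LinearMap.ext fun u => hbase _ _ (fun t => ?_) u)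
      simp only [Matrix.toLin'_apply, zero_smul, zero_add, Matrix.smul_mul, Matrix.smul_mulVec,
        ← Matrix.mulVec_mulVec, ← ap_def]
      obtain ⟨i, s⟩ := t
      fin_cases s <;> simp [bs, hy0, hy1, Matrix.mulVec_add, Matrix.mulVec_smul, Matrix.mulVec_neg, hθv, ap_neg',
        ap_smul, smul_smul, mul_comm b] <;> module

end Cfsg.Agent.S5976
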