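import Cfsg.Statements.S5956
import Cfsg.Agent.Lib.Omega.SympJordan
import Cfsg.Agent.Lib.Omega.SympCyclic
import Cfsg.Agent.Lib.Omega.SympSubspaceCount
import Cfsg.Agent.S5980
import Cfsg.Agent.S5976
-- import your own Cfsg.Agent.* helpers here

set_option autoImplicit false
open scoped MatrixGroups
open Cfsg

namespace Cfsg.Agent.S5956

open CfsgLib CfsgLib.Omega CfsgLib.Omega.SympPieces Module
open scoped Matrix

section Planes

variable {F : Type*} [Field F] {V : Type*} [AddCommGroup V] [Module F V]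

/-- The span of some planes of a symplectic family. -/
theorem exists_span_planes {α : Type} [DecidableEq α] (B : LinearMap.BilinForm F V) (hB : ∀ v, B v v = 0)
    (b : α × Fin 2 → V) (h0 : ∀ i j s, B (b (i, s)) (b (j, s)) = 0)
    (h1 : ∀ i j, B (b (i, 0)) (b (j, 1)) = if i = j then 1 else 0) (s : Finset α) (Y : Module.End F V)
    (hY : ∀ i ∈ s, ∀ t, Y (b (i, t)) ∈ Submodule.span F (b '' {x | x.1 ∈ s})) :
    ∃ W : Submodule F V, finrank F W = 2 * s.card ∧ NondegOn B W ∧ ∀ w ∈ W, Y w ∈ W := by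
  classical
  let g : s × Fin 2 → V := fun x => b (x.1, x.2)
  have hA : AdaptedFamily B (LinearMap.id : V →ₗ[F] V) 1 g 1 :=
    ⟨one_mul _, fun i j t => h0 _ _ t, fun i j => by
      show B (b (i.1, 0)) (b (j.1, 1)) = _
      rw [h1]
      exact if_congr Subtype.ext_iff.symm rfl rfl,
      fun i => Or.inr ⟨rfl, fun t => ⟨1, by simp⟩⟩⟩
  have hli := hA.linearIndependent hB
  have himg : b '' {x | x.1 ∈ s} = Set.range g := Set.ext fun v =>
    ⟨fun ⟨x, hx, hv⟩ => ⟨(⟨x.1, hx⟩, x.2), hv⟩, fun ⟨x, hv⟩ => ⟨(x.1, x.2), x.1.2, hv⟩⟩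
  refine ⟨Submodule.span F (Set.range g), ?_, fun w hw hall => ?_, fun w hw => ?_⟩
  · rw [finrank_span_eq_card hli, Fintype.card_prod, Fintype.card_coe, Fintype.card_fin]; ring
  · obtain ⟨c, rfl⟩ := (Submodule.mem_span_range_iff_exists_fun F).1 hw
    have hc : ∀ x, c x = 0 := by
      rintro ⟨i, t⟩
      have h10 : ∀ j, B (g (j, 1)) (g (i, 0)) = -(if i = j then 1 else 0) := fun j => by
        rw [alt_skew hB, hA.pairing]
      fin_cases t
      · have h := hall (g (i, 1)) (Submodule.subset_span ⟨_, rfl⟩)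
        simp [Fintype.sum_prod_type, Fin.sum_univ_two, hA.pairing, hA.isotropic] at h
        exact h
      · have h := hall (g (i, 0)) (Submodule.subset_span ⟨_, rfl⟩)
        simp [Fintype.sum_prod_type, Fin.sum_univ_two, h10, hA.isotropic] at h
        exact h
    simp [hc]
  · refine (Submodule.span_le (p := (Submodule.span F (Set.range g)).comap Y)).2 ?_ hw
    rintro _ ⟨⟨i, t⟩, rfl⟩
    rw [← himg]
    exact hY i.1 i.2 t

end Planes

section Sp

variable {F : Type*} [Field F] {d : ℕ}

theorem toLin_isometry (x : Matrix.symplecticGroup (Fin d) F) (u v : Fin d ⊕ Fin d → F) :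
    sympBilin d F (Matrix.toLin' (x : Matrix (Fin d ⊕ Fin d) (Fin d ⊕ Fin d) F) u)
      (Matrix.toLin' (x : Matrix (Fin d ⊕ Fin d) (Fin d ⊕ Fin d) F) v) = sympBilin d F u v := by
  simp only [Matrix.toLin'_apply, sympBilin_apply]
  exact sympForm_mulVec_of_mem x.2 u v

theorem isometry_pow {V : Type*} [AddCommGroup V] [Module F V] {B : LinearMap.BilinForm F V} {y : Module.End F V}
    (hy : ∀ u v, B (y u) (y v) = B u v) : ∀ (n : ℕ) u v, B ((y ^ n) u) ((y ^ n) v) = B u v := by
  intro n
  induction n with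
  | zero => intro u v; rfl
  | succ n ih => intro u v; rw [pow_succ', Module.End.mul_apply, Module.End.mul_apply, hy, ih]

theorem nontrivial_space (hd : 0 < d) : Nontrivial (Fin d ⊕ Fin d → F) := by
  haveI : Nonempty (Fin d ⊕ Fin d) := ⟨.inl ⟨0, hd⟩⟩
  infer_instance

/-- A scalar isometry squares to one. -/
theorem sq_of_scalar (hd : 0 < d) {z : F}
    (h : ∀ u v, sympBilin d F (z • u) (z • v) = sympBilin d F u v) : z * z = 1 := by
  have := h (Pi.single (.inr ⟨0, hd⟩) 1) (Pi.single (.inl ⟨0, hd⟩) 1)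
  simp [sympBilin_apply, sympForm_eq_sum, Pi.single_apply] at this
  simpa [map_smul, smul_smul] using this

/-- The nondegeneracy clause of the statement. -/
theorem nondeg_iff (W : Submodule F (Fin d ⊕ Fin d → F)) :
    (∀ u ∈ W, u ≠ 0 → ∃ v ∈ W, Cfsg.sympForm d F u v ≠ 0) ↔ NondegOn (sympBilin d F) W := by
  constructor
  · intro h u hu hall
    by_contra hne
    obtain ⟨v, hv, hv'⟩ := h u hu hne
    exact hv' (by rw [← sympBilin_apply]; exact hall v hv)
  · intro h u hu hne
    by_contra hall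
    push Not at hall
    exact hne (h u hu fun v hv => by rw [sympBilin_apply]; exact hall v hv)

/-- An element of prime order with a scalar removed. -/
theorem exists_normalised (hd : 0 < d) {r : ℕ} (hr : Odd r ∨ ((2 : F) = 0 ∧ r = 2))
    (x : Matrix.symplecticGroup (Fin d) F) {z : F}
    (hz : ((x ^ r : Matrix.symplecticGroup (Fin d) F) : Matrix (Fin d ⊕ Fin d) (Fin d ⊕ Fin d) F) = z • 1) :
    ∃ y : Module.End F (Fin d ⊕ Fin d → F), (∀ u v, sympBilin d F (y u) (y v) = sympBilin d F u v) ∧ y ^ r = 1 ∧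
      ∀ W : Submodule F (Fin d ⊕ Fin d → F), (∀ w ∈ W, y w ∈ W) →
        W.map (Matrix.toLin' (x : Matrix (Fin d ⊕ Fin d) (Fin d ⊕ Fin d) F)) ≤ W := by
  set X : Module.End F (Fin d ⊕ Fin d → F) :=
    Matrix.toLin' (x : Matrix (Fin d ⊕ Fin d) (Fin d ⊕ Fin d) F) with hX
  have hXr : X ^ r = z • 1 := by
    rw [hX, ← Matrix.toLin'_pow, ← SubmonoidClass.coe_pow, hz, map_smul, Matrix.toLin'_one]
    rfl
  have hzz : z * z = 1 := sq_of_scalar hd fun u v => by
    have := isometry_pow (toLin_isometry x) r u v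
    rw [← hX, hXr] at this
    exact this
  have hzr : z ^ r = z := by
    rcases hr with ⟨k, rfl⟩ | ⟨h2, rfl⟩
    · rw [pow_succ, pow_mul, pow_two, hzz, one_pow, one_mul]
    · have h : (z - 1) * (z - 1) = 0 := by linear_combination hzz + (1 - z) * h2
      rw [sub_eq_zero.1 (mul_self_eq_zero.1 h), one_pow]
  refine ⟨z • X, fun u v => ?_, by rw [smul_pow, hXr, smul_smul, hzr, hzz, one_smul], fun W hW => ?_⟩
  · simp only [LinearMap.smul_apply, map_smul, smul_eq_mul]
    rw [← mul_assoc, hzz, one_mul]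
    exact toLin_isometry x u v
  · rintro _ ⟨w, hw, rfl⟩
    have := W.smul_mem z (hW w hw)
    rwa [LinearMap.smul_apply, smul_smul, hzz, one_smul] at this

/-- An isometry of order `r` used as a test element. -/
theorem test_element (hd : 0 < d) {r m : ℕ} (hr : Odd r ∨ ((2 : F) = 0 ∧ r = 2))
    (H : ∀ x : ↥(Matrix.symplecticGroup (Fin d) F),
      (∃ z : F, ((x ^ r : ↥(Matrix.symplecticGroup (Fin d) F)) : Matrix (Fin d ⊕ Fin d) (Fin d ⊕ Fin d) F) = z • (1 : Matrix (Fin d ⊕ Fin d) (Fin d ⊕ Fin d) F)) →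
      (∀ z : F, (x : Matrix (Fin d ⊕ Fin d) (Fin d ⊕ Fin d) F) ≠ z • (1 : Matrix (Fin d ⊕ Fin d) (Fin d ⊕ Fin d) F)) →
      ∃ W : Submodule F (Fin d ⊕ Fin d → F), Module.finrank F ↥W = m ∧ (∀ u ∈ W, u ≠ 0 → ∃ v ∈ W, Cfsg.sympForm d F u v ≠ 0) ∧
        W.map (Matrix.toLin' (x : Matrix (Fin d ⊕ Fin d) (Fin d ⊕ Fin d) F)) ≤ W)
    (y : Module.End F (Fin d ⊕ Fin d → F)) (hy : ∀ u v, sympBilin d F (y u) (y v) = sympBilin d F u v)
    (hyr : y ^ r = 1) (hy1 : y ≠ 1) :
    ∃ W : Submodule F (Fin d ⊕ Fin d → F), finrank F W = m ∧ NondegOn (sympBilin d F) W ∧ ∀ w ∈ W, y w ∈ W := by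
  have hmem : LinearMap.toMatrix' y ∈ Matrix.symplecticGroup (Fin d) F :=
    Forms.mem_symplecticGroup_iff_form.2 fun u v => by
      rw [LinearMap.toMatrix'_mulVec, LinearMap.toMatrix'_mulVec, ← sympBilin_apply, ← sympBilin_apply, hy]
  obtain ⟨W, hW, hWn, hWy⟩ := H ⟨_, hmem⟩ ⟨1, by
      rw [one_smul, SubmonoidClass.coe_pow]
      refine Matrix.toLin'.injective ?_
      rw [Matrix.toLin'_pow, Matrix.toLin'_toMatrix', hyr, Matrix.toLin'_one]
      rfl⟩ fun z hz => hy1 (by
      have he : y = z • 1 := by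
        rw [← Matrix.toLin'_toMatrix' y, show LinearMap.toMatrix' y = z • 1 from hz, map_smul, Matrix.toLin'_one]
        rfl
      have hzz : z * z = 1 := sq_of_scalar hd fun u v => by
        have := hy u v
        rwa [he] at this
      have hzr : z ^ r = 1 := by
        haveI := nontrivial_space (F := F) hd
        have h := hyr
        rw [he, smul_pow, one_pow] at h
        exact smul_left_injective F (one_ne_zero (α := Module.End F (Fin d ⊕ Fin d → F))) (h.trans (one_smul F _).symm)
      rcases hr with ⟨k, rfl⟩ | ⟨h2, rfl⟩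
      · rw [pow_succ, pow_mul, pow_two, hzz, one_pow, one_mul] at hzr
        rw [he, hzr, one_smul]
      · have h : (z - 1) * (z - 1) = 0 := by linear_combination hzz + (1 - z) * h2
        rw [he, sub_eq_zero.1 (mul_self_eq_zero.1 h), one_smul])
  refine ⟨W, hW, (nondeg_iff W).1 hWn, fun w hw => ?_⟩
  have := hWy (Submodule.mem_map_of_mem hw)
  rwa [show Matrix.toLin' (LinearMap.toMatrix' y) = y from Matrix.toLin'_toMatrix' y] at this

/-- The forward direction in odd characteristic `p = r`. -/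
theorem partition_of_fixed {p m : ℕ} [Fact p.Prime] [CharP F p] (hd : 0 < d) (hp : 2 < p) (hm : Even m)
    (hmd : m ≤ 2 * d)
    (H : ∀ y : Module.End F (Fin d ⊕ Fin d → F), (∀ u v, sympBilin d F (y u) (y v) = sympBilin d F u v) →
      y ^ p = 1 → y ≠ 1 →
      ∃ W : Submodule F (Fin d ⊕ Fin d → F), finrank F W = m ∧ NondegOn (sympBilin d F) W ∧ ∀ w ∈ W, y w ∈ W)
    (μ : Multiset ℕ) (hμ : ∀ a ∈ μ, 0 < a ∧ a ≤ p) (hpar : ∀ a : ℕ, Odd a → Even (μ.count a))
    (hsum : μ.sum = 2 * d) :
    ∃ ν : Multiset ℕ, ν ≤ μ ∧ ν.sum = m ∧ ∀ a : ℕ, Odd a → Even (ν.count a) := by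
  classical
  have h2 : (2 : F) ≠ 0 := fun h => by
    have h' : ((2 : ℕ) : F) = 0 := by exact_mod_cast h
    have := Nat.le_of_dvd two_pos ((CharP.cast_eq_zero_iff F p 2).1 h')
    omega
  by_cases hall : ∀ a ∈ μ, a = 1
  · have hμ1 : μ = Multiset.replicate (2 * d) 1 := by
      have h := Multiset.eq_replicate_card.2 hall
      rw [h, Multiset.sum_replicate, smul_eq_mul, mul_one] at hsum
      rw [h, hsum]
    refine ⟨Multiset.replicate m 1, hμ1 ▸ (Multiset.replicate_le_replicate 1).2 hmd, by simp, fun a ha => ?_⟩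
    rw [Multiset.count_replicate]
    split_ifs
    · exact hm
    · exact ⟨0, rfl⟩
  push Not at hall
  obtain ⟨a, ha, ha1⟩ := hall
  obtain ⟨y, hy, hNp, hrk⟩ := SympJordan.exists_symp_unipotent (F := F) h2 μ (fun b hb => (hμ b hb).2) hpar hsum
  haveI := nontrivial_space (F := F) hd
  have hyp : y ^ p = 1 := by
    haveI : CharP (Module.End F (Fin d ⊕ Fin d → F)) p :=
      charP_of_injective_algebraMap (algebraMap F (Module.End F (Fin d ⊕ Fin d → F))).injective p
    rwa [sub_pow_char_of_commute _ (Commute.one_right y), one_pow, sub_eq_zero] at hNp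
  have hy1 : y ≠ 1 := by
    intro h
    have h0 := hrk 1
    rw [h, sub_self, rankSeq_top, pow_one] at h0
    have hz : (μ.map (fun b => b - 1)).sum = 0 := by
      rw [← h0, LinearMap.range_zero, finrank_bot]
    have := Multiset.single_le_sum (fun b _ => Nat.zero_le b) _ (Multiset.mem_map_of_mem (fun b => b - 1) ha)
    rw [hz] at this
    have := (hμ a ha).1
    omega
  obtain ⟨W, hWd, hWn, hWy⟩ := H y hy hyp hy1
  obtain ⟨C, -, hC, -, -, hsup, hinf, -⟩ := SympCyclic.exists_orth sympBilin_self sympBilin_nondegenerate hy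
    (le_top : W ≤ ⊤) (fun _ _ => trivial) (fun u _ h => sympBilin_nondegenerate u fun v => h v trivial) hWy hWn
  have hmap : ∀ D : Submodule F (Fin d ⊕ Fin d → F), (∀ v ∈ D, y v ∈ D) → D.map (y - 1) ≤ D := by
    rintro D hD _ ⟨v, hv, rfl⟩
    exact sub_mem (hD v hv) hv
  refine ⟨jordanParts (y - 1) W p, jordanParts_le (IsCompl.of_eq hinf hsup) (hmap W hWy) (hmap C hC) hrk p,
    by rw [sum_jordanParts (hmap W hWy) hNp, hWd], fun e he => ?_⟩
  exact SympJordan.even_count_jordanParts_alt h2 (by omega) sympBilin_self hy hyp hNp hWy hWn he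

/-- The forward direction in characteristic two. -/
theorem four_dvd_of_fixed {m e : ℕ} (h2 : (2 : F) = 0) (hd : d = e * 2) (he : 0 < e)
    (H : ∀ y : Module.End F (Fin d ⊕ Fin d → F), (∀ u v, sympBilin d F (y u) (y v) = sympBilin d F u v) →
      y ^ 2 = 1 → y ≠ 1 →
      ∃ W : Submodule F (Fin d ⊕ Fin d → F), finrank F W = m ∧ NondegOn (sympBilin d F) W ∧ ∀ w ∈ W, y w ∈ W) :
    4 ∣ m := by
  classical
  let E : Fin d ≃ Fin e × Fin 2 := (finCongr hd).trans finProdFinEquiv.symm
  let σ : Fin d → Fin d := fun i => E.symm ((E i).1, (E i).2 + 1)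
  have hσσ : ∀ i, σ (σ i) = i := fun i => by
    simp only [σ, Equiv.apply_symm_apply, add_assoc, show (1 : Fin 2) + 1 = 0 from rfl, add_zero, Prod.mk.eta,
      Equiv.symm_apply_apply]
  have hσne : ∀ i, σ i ≠ i := fun i h => by
    have h' := congrArg (fun j => (E j).2) h
    simp only [σ, Equiv.apply_symm_apply] at h'
    revert h'
    generalize (E i).2 = t
    fin_cases t <;> decide
  let σe : Equiv.Perm (Fin d) := ⟨σ, σ, hσσ, hσσ⟩
  let N : Module.End F (Fin d ⊕ Fin d → F) :=
    { toFun := fun v => Sum.elim (fun _ => 0) (fun i => v (.inl (σ i)))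
      map_add' := fun u v => by ext (i | i) <;> simp
      map_smul' := fun c v => by ext (i | i) <;> simp }
  have hN0 : ∀ v i, N v (.inl i) = 0 := fun v i => rfl
  have hN1 : ∀ v i, N v (.inr i) = v (.inl (σ i)) := fun v i => rfl
  let y : Module.End F (Fin d ⊕ Fin d → F) := 1 + N
  have hy0 : ∀ v, y v = v + N v := fun v => rfl
  have hNN : ∀ v, N (N v) = 0 := fun v => by ext (i | i) <;> simp [hN0, hN1]
  have hyy : ∀ v, y (y v) = v := fun v => by
    rw [hy0, hy0, map_add, hNN, add_zero]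
    have : N v + N v = 0 := by rw [← two_smul F, h2, zero_smul]
    rw [add_assoc, this, add_zero]
  have hBN : ∀ u v, sympBilin d F (N u) v = ∑ i, u (.inl (σ i)) * v (.inl i) := fun u v => by
    rw [sympBilin_apply, sympForm_eq_sum]
    exact Finset.sum_congr rfl fun i _ => by rw [hN0, hN1]; ring
  have hNsym : ∀ u v, sympBilin d F u (N v) = -sympBilin d F (N u) v := fun u v => by
    rw [alt_skew sympBilin_self, hBN, hBN, ← Equiv.sum_comp σe (fun i => v (.inl (σ i)) * u (.inl i))]
    refine congrArg Neg.neg (Finset.sum_congr rfl fun i _ => ?_)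
    show v (.inl (σ (σ i))) * u (.inl (σ i)) = _
    rw [hσσ, mul_comm]
  have hyB : ∀ u v, sympBilin d F (y u) (y v) = sympBilin d F u v := fun u v => by
    simp only [hy0, map_add, LinearMap.add_apply, hNsym, hNN, map_zero, LinearMap.zero_apply]
    ring
  have halt : ∀ u, sympBilin d F (N u) u = 0 := fun u => by
    rw [hBN]
    refine Finset.sum_involution (fun i _ => σ i) (fun i _ => ?_) (fun i _ _ => hσne i) (fun _ _ => Finset.mem_univ _)
      (fun i _ => hσσ i)
    rw [hσσ]
    linear_combination (u (.inl (σ i)) * u (.inl i)) * h2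
  have hy1 : y ≠ 1 := fun h => by
    let i0 : Fin d := ⟨0, by omega⟩
    have := congrFun (LinearMap.congr_fun h (Pi.single (Sum.inl (σ i0)) 1)) (.inr i0)
    simp [hy0, hN1] at this
  obtain ⟨W, hWd, hWn, hWy⟩ := H y hyB (LinearMap.ext hyy) hy1
  obtain ⟨C', -, hC', -, -, hsup, hinf, -⟩ := SympCyclic.exists_orth sympBilin_self sympBilin_nondegenerate hyB
    (le_top : W ≤ ⊤) (fun _ _ => trivial) (fun u _ h => sympBilin_nondegenerate u fun v => h v trivial) hWy hWn
  have hWN : ∀ w ∈ W, N w ∈ W := fun w hw => by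
    have := sub_mem (hWy w hw) hw
    rwa [hy0, add_sub_cancel_left] at this
  have hCN : ∀ w ∈ C', N w ∈ C' := fun w hw => by
    have := sub_mem (hC' w hw) hw
    rwa [hy0, add_sub_cancel_left] at this
  let T : Module.End F W := N.restrict hWN
  have hker : LinearMap.ker T = LinearMap.range T := by
    refine le_antisymm (fun w hw => ?_) ?_
    · have hw0 : ∀ i, (w : Fin d ⊕ Fin d → F) (.inl i) = 0 := fun i => by
        have := congrFun (congrArg Subtype.val (LinearMap.mem_ker.1 hw)) (.inr (σ i))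
        simpa [T, hN1, hσσ] using this
      let v : Fin d ⊕ Fin d → F := Sum.elim (fun i => (w : Fin d ⊕ Fin d → F) (.inr (σ i))) (fun _ => 0)
      have hv : N v = w := by ext (i | i) <;> simp [hN0, hN1, v, hσσ, hw0]
      obtain ⟨a, ha, c, hc, hac⟩ := Submodule.mem_sup.1 (hsup ▸ Submodule.mem_top (x := v))
      refine ⟨⟨a, ha⟩, Subtype.ext ?_⟩
      show N a = w
      have hmem : N c ∈ W ⊓ C' := by
        refine ⟨?_, hCN c hc⟩
        rw [show N c = (w : Fin d ⊕ Fin d → F) - N a by rw [← hv, ← hac, map_add, add_sub_cancel_left]]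
        exact sub_mem w.2 (hWN a ha)
      rw [hinf, Submodule.mem_bot] at hmem
      rw [← hv, ← hac, map_add, hmem, add_zero]
    · rintro _ ⟨w, rfl⟩
      exact LinearMap.mem_ker.2 (Subtype.ext (hNN w))
  obtain ⟨C, hC⟩ := Submodule.exists_isCompl (LinearMap.ker T)
  let β : LinearMap.BilinForm F W := ((sympBilin d F).restrict W).comp T LinearMap.id
  have hβ : NondegOn β C := by
    intro u hu hall
    have hTu : T u = 0 := by
      refine Subtype.ext (hWn _ (T u).2 fun v hv => ?_)
      obtain ⟨k, hk, c, hc, hkc⟩ := Submodule.mem_sup.1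
        (show (⟨v, hv⟩ : W) ∈ LinearMap.ker T ⊔ C by rw [hC.sup_eq_top]; trivial)
      have hv' : v = (k : Fin d ⊕ Fin d → F) + c := (congrArg Subtype.val hkc).symm
      have h1 : sympBilin d F (N u) (k : Fin d ⊕ Fin d → F) = 0 := by
        rw [← neg_eq_zero, ← hNsym, show N k = 0 from congrArg Subtype.val (LinearMap.mem_ker.1 hk), map_zero]
      rw [show ((T u : W) : Fin d ⊕ Fin d → F) = N u from rfl, hv', map_add, h1, zero_add]
      exact hall c hc
    exact (Submodule.disjoint_def.1 hC.disjoint) u (LinearMap.mem_ker.2 hTu) hu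
  obtain ⟨k, hk⟩ := even_finrank_of_nondegOn (B := β) (fun u => halt u) hβ
  have h1 := Submodule.finrank_add_eq_of_isCompl hC
  have h3 := LinearMap.finrank_range_add_finrank_ker T
  rw [hker] at h1 h3
  rw [hWd] at h1 h3
  exact ⟨k, by omega⟩

/-- Selecting pieces in characteristic two. -/
theorem exists_pieces_two (P : Multiset (ℕ × ℕ)) (hP : ∀ a ∈ P, a.1 * a.2 = 2 ∨ a.1 * a.2 = 4) {D m : ℕ}
    (hsum : (P.map fun a => a.1 * a.2).sum = 2 * D) (hm : Even m) (hmD : m ≤ 2 * D)
    (hcond : (2 * D) % 4 = 2 ∨ m % 4 = 0) :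
    ∃ Q ≤ P, (Q.map fun a => a.1 * a.2).sum = m := by
  classical
  let T := P.filter fun a => a.1 * a.2 = 2
  let U := P.filter fun a => ¬ a.1 * a.2 = 2
  have hTU : T + U = P := Multiset.filter_add_not _ P
  have hU : ∀ a ∈ U, a.1 * a.2 = 4 := fun a ha =>
    (hP a (Multiset.mem_of_mem_filter ha)).resolve_left (Multiset.mem_filter.1 ha).2
  have hconst : ∀ (R : Multiset (ℕ × ℕ)) (c : ℕ), (∀ a ∈ R, a.1 * a.2 = c) →
      (R.map fun a => a.1 * a.2).sum = Multiset.card R * c := fun R c h => by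
    rw [Multiset.map_congr rfl h, Multiset.map_const', Multiset.sum_replicate, smul_eq_mul]
  have hsub : ∀ (R : Multiset (ℕ × ℕ)) n, n ≤ Multiset.card R → ∃ Q ≤ R, Multiset.card Q = n := fun R n hn => by
    obtain ⟨l, rfl⟩ : ∃ l : List (ℕ × ℕ), (l : Multiset (ℕ × ℕ)) = R := ⟨R.toList, Multiset.coe_toList R⟩
    exact ⟨(l.take n : List (ℕ × ℕ)), (List.take_sublist _ _).subperm, by simpa using hn⟩
  rw [← hTU, Multiset.map_add, Multiset.sum_add, hconst T 2 (fun a ha => (Multiset.mem_filter.1 ha).2),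
    hconst U 4 hU] at hsum
  rw [Nat.even_iff] at hm
  obtain ⟨Q₂, hQ₂, hc₂⟩ := hsub U (min (Multiset.card U) (m / 4)) (min_le_left _ _)
  obtain ⟨Q₁, hQ₁, hc₁⟩ := hsub T ((m - min (Multiset.card U) (m / 4) * 4) / 2) (by omega)
  refine ⟨Q₁ + Q₂, hTU ▸ add_le_add hQ₁ hQ₂, ?_⟩
  rw [Multiset.map_add, Multiset.sum_add,
    hconst Q₁ 2 (fun a ha => (Multiset.mem_filter.1 (Multiset.mem_of_le hQ₁ ha)).2),
    hconst Q₂ 4 (fun a ha => hU a (Multiset.mem_of_le hQ₂ ha)), hc₁, hc₂]
  omega

/-- Many copies of a small map. -/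
theorem exists_blocks {e₀ M r : ℕ} (X : (Fin e₀ ⊕ Fin e₀ → F) →ₗ[F] (Fin e₀ ⊕ Fin e₀ → F))
    (hX : ∀ u v, Cfsg.sympForm e₀ F (X u) (X v) = Cfsg.sympForm e₀ F u v) (hXr : ∀ u, X^[r] u = u)
    (hXfree : finrank F (LinearMap.range (X - LinearMap.id)) = 2 * e₀) :
    ∃ Y : (Fin (M * e₀) ⊕ Fin (M * e₀) → F) →ₗ[F] (Fin (M * e₀) ⊕ Fin (M * e₀) → F),
      (∀ u v, Cfsg.sympForm (M * e₀) F (Y u) (Y v) = Cfsg.sympForm (M * e₀) F u v) ∧ (∀ u, Y^[r] u = u) ∧
        finrank F (LinearMap.range (Y - LinearMap.id)) = 2 * (M * e₀) := by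
  classical
  let E : Fin M × Fin e₀ ≃ Fin (M * e₀) := finProdFinEquiv
  let R : Fin M → (Fin (M * e₀) ⊕ Fin (M * e₀) → F) →ₗ[F] (Fin e₀ ⊕ Fin e₀ → F) := fun a =>
    LinearMap.funLeft F F (Sum.map (fun u => E (a, u)) (fun u => E (a, u)))
  let Y : (Fin (M * e₀) ⊕ Fin (M * e₀) → F) →ₗ[F] (Fin (M * e₀) ⊕ Fin (M * e₀) → F) :=
    LinearMap.pi (Sum.elim
      (fun i => (LinearMap.proj (Sum.inl (E.symm i).2)).comp (X.comp (R (E.symm i).1)))
      (fun i => (LinearMap.proj (Sum.inr (E.symm i).2)).comp (X.comp (R (E.symm i).1))))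
  have hRY : ∀ v a, R a (Y v) = X (R a v) := fun v a => by
    ext (u | u)
    · show X (R (E.symm (E (a, u))).1 v) (.inl (E.symm (E (a, u))).2) = _
      rw [Equiv.symm_apply_apply]
    · show X (R (E.symm (E (a, u))).1 v) (.inr (E.symm (E (a, u))).2) = _
      rw [Equiv.symm_apply_apply]
  have hext : ∀ v w, (∀ a, R a v = R a w) → v = w := fun v w h => by
    ext (i | i)
    · obtain ⟨⟨a, u⟩, rfl⟩ := E.surjective i
      exact congrFun (h a) (.inl u)
    · obtain ⟨⟨a, u⟩, rfl⟩ := E.surjective i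
      exact congrFun (h a) (.inr u)
  have hform : ∀ v w, Cfsg.sympForm (M * e₀) F v w = ∑ a, Cfsg.sympForm e₀ F (R a v) (R a w) := fun v w => by
    simp only [sympForm_eq_sum]
    rw [← E.sum_comp, Fintype.sum_prod_type]
    rfl
  refine ⟨Y, fun u v => ?_, fun u => hext _ _ fun a => ?_, ?_⟩
  · rw [hform, hform]
    exact Finset.sum_congr rfl fun a _ => by rw [hRY, hRY, hX]
  · have : ∀ i, R a (Y^[i] u) = X^[i] (R a u) := by
      intro i
      induction i with
      | zero => rfl
      | succ i ih => rw [Function.iterate_succ_apply', hRY, ih, Function.iterate_succ_apply']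
    rw [this, hXr]
  · have hXi : LinearMap.ker (X - LinearMap.id) = ⊥ := by
      rw [← Submodule.finrank_eq_zero]
      have h := LinearMap.finrank_range_add_finrank_ker (X - LinearMap.id)
      rw [hXfree, Module.finrank_fintype_fun_eq_card, Fintype.card_sum, Fintype.card_fin] at h
      omega
    have hYi : Function.Injective (Y - LinearMap.id : _ →ₗ[F] _) := by
      rw [injective_iff_map_eq_zero]
      intro v hv
      refine hext _ _ fun a => ?_
      rw [map_zero]
      refine (Submodule.eq_bot_iff _).1 hXi _ (LinearMap.mem_ker.2 ?_)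
      rw [LinearMap.sub_apply, LinearMap.id_apply, ← hRY, ← map_sub,
        show Y v - v = 0 from hv, map_zero]
    rw [LinearMap.finrank_range_of_inj hYi, Module.finrank_fintype_fun_eq_card, Fintype.card_sum, Fintype.card_fin]
    ring

end Sp

/-- Elements of prime order of PSp_n(q) with no fixed nondegenerate `m`-space. Here `T = PSp_n(q)` with `n = 2d ≥ 4`, `(n, q) ≠ (4, 2)`, realised through the symplectic matrices over the field `F` with `q` elements (preserving the standard alternating form); an element of `T` of prime order `r` is such a matrix `x` with `x^r` scalar and `x` not scalar. For `r ≠ p` let `i` be the multiplicative order of `q` modulo `r`, `c = i` for `i` even and `c = 2i` for `i` odd, and write `k = n mod c`, `ℓ = m mod i`, `ℓ' = m mod c`, `n' = ⌊n/i⌋`, `m' = ⌊m/i⌋`, `t = (r−1)/i`. Let `m` be even with `2 ≤ m < n/2` and let `r` be a prime dividing the number of nondegenerate `m`-spaces. Then every element of `T` of order `r` fixes a nondegenerate `m`-space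 if and only if one of: (i) `r = p > 2` and every partition of `n` into parts of size at most `p` in which every odd part has even multiplicity contains (as a sub-multiset) a partition of `m` in which every odd part has even multiplicity; (ii) `r = p = 2` and (`n ≡ 2 (mod 4)` or `m ≡ 0 (mod 4)`); (iii) `r = 2 ≠ p`; (iv) `r ≠ p`, `r > 2`, `c ≤ m` and `k ≥ ℓ'`. -/
theorem result {F : Type*} [Field F] [Fintype F] {p : ℕ} [Fact p.Prime] [CharP F p] {q : ℕ} (hq : Fintype.card F = q)
    (d m : ℕ) (hd : 2 ≤ d) (hT : (d, q) ≠ (2, 2)) (hm : 2 ≤ m) (hme : Even m) (hmd : m < d)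
    (r : ℕ) [Fact r.Prime]
    (hrΩ : r ∣ Nat.card {W : Submodule F (Fin d ⊕ Fin d → F) // Module.finrank F ↥W = m ∧ (∀ u ∈ W, u ≠ 0 → ∃ v ∈ W, Cfsg.sympForm d F u v ≠ 0)})
    (i c : ℕ) (hi : i = orderOf (q : ZMod r)) (hc : c = if Even i then i else 2 * i) :
    (∀ x : ↥(Matrix.symplecticGroup (Fin d) F),
      (∃ z : F, ((x ^ r : ↥(Matrix.symplecticGroup (Fin d) F)) : Matrix (Fin d ⊕ Fin d) (Fin d ⊕ Fin d) F) = z • (1 : Matrix (Fin d ⊕ Fin d) (Fin d ⊕ Fin d) F)) →
      (∀ z : F, (x : Matrix (Fin d ⊕ Fin d) (Fin d ⊕ Fin d) F) ≠ z • (1 : Matrix (Fin d ⊕ Fin d) (Fin d ⊕ Fin d) F)) →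
      ∃ W : Submodule F (Fin d ⊕ Fin d → F), Module.finrank F ↥W = m ∧ (∀ u ∈ W, u ≠ 0 → ∃ v ∈ W, Cfsg.sympForm d F u v ≠ 0) ∧
        W.map (Matrix.toLin' (x : Matrix (Fin d ⊕ Fin d) (Fin d ⊕ Fin d) F)) ≤ W) ↔
    ((r = p ∧ 2 < p ∧ (∀ μ : Multiset ℕ, (∀ a ∈ μ, 0 < a ∧ a ≤ p) → (∀ a : ℕ, Odd a → Even (μ.count a)) → μ.sum = 2 * d →
        ∃ ν : Multiset ℕ, ν ≤ μ ∧ ν.sum = m ∧ ∀ a : ℕ, Odd a → Even (ν.count a))) ∨
     (r = p ∧ p = 2 ∧ ((2 * d) % 4 = 2 ∨ m % 4 = 0)) ∨
     (r = 2 ∧ p ≠ 2) ∨
     (r ≠ p ∧ 2 < r ∧ c ≤ m ∧ m % c ≤ (2 * d) % c)) := by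
  classical
  subst hq
  have hr : r.Prime := Fact.out
  have hp : p.Prime := Fact.out
  have hd0 : 0 < d := by omega
  obtain ⟨m', hm'⟩ := hme
  have h2p : (2 : F) = 0 ↔ p = 2 := by
    rw [show (2 : F) = ((2 : ℕ) : F) by norm_num, CharP.cast_eq_zero_iff F p]
    exact ⟨fun h => (Nat.prime_dvd_prime_iff_eq hp Nat.prime_two).1 h, fun h => h ▸ dvd_rfl⟩
  have hpow : r = p → ∀ y : Module.End F (Fin d ⊕ Fin d → F), y ^ r = 1 → (y - 1) ^ p = 0 := by
    rintro rfl y hy
    haveI := nontrivial_space (F := F) hd0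
    haveI : CharP (Module.End F (Fin d ⊕ Fin d → F)) r :=
      charP_of_injective_algebraMap (algebraMap F (Module.End F (Fin d ⊕ Fin d → F))).injective r
    rw [sub_pow_char_of_commute _ (Commute.one_right y), one_pow, hy, sub_self]
  -- the arithmetic of the semisimple case
  by_cases hcase : r ≠ p ∧ 2 < r
  · obtain ⟨hrp, hr2⟩ := hcase
    have hodd : Odd r := hr.odd_of_ne_two (by omega)
    have hrF : (r : F) ≠ 0 := fun h => hrp ((Nat.prime_dvd_prime_iff_eq hp hr).1
      ((CharP.cast_eq_zero_iff F p r).1 h)).symm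
    have hrq : (Fintype.card F : ZMod r) ≠ 0 := fun h => hrp (by
      obtain ⟨a, -, ha⟩ := FiniteField.card F p
      rw [ZMod.natCast_eq_zero_iff, ha] at h
      exact (Nat.prime_dvd_prime_iff_eq hr hp).1 (hr.dvd_of_dvd_pow h))
    have hi0 : 0 < i := hi ▸ orderOf_pos_iff.2 (isOfFinOrder_iff_pow_eq_one.2
      ⟨r - 1, Nat.sub_pos_of_lt hr.one_lt, ZMod.pow_card_sub_one_eq_one hrq⟩)
    obtain ⟨e₀, he₀⟩ : ∃ e₀, e₀ = if Even i then i / 2 else i := ⟨_, rfl⟩
    have hc2 : c = 2 * e₀ := by
      rw [hc, he₀]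
      split_ifs with h
      · exact (Nat.mul_div_cancel' h.two_dvd).symm
      · rfl
    have he0 : 0 < e₀ := by
      rw [he₀]; split_ifs with h
      · obtain ⟨k, hk⟩ := h; omega
      · exact hi0
    have hdvd : ∀ j, i ∣ 2 * j → e₀ ∣ j := by
      intro j hj
      rw [he₀]
      split_ifs with h
      · obtain ⟨k, hk⟩ := h
        rw [show i / 2 = k by omega]
        exact Nat.dvd_of_mul_dvd_mul_left two_pos (by rwa [show 2 * k = i by omega])
      · exact (Nat.Coprime.dvd_of_dvd_mul_left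
          ((Nat.prime_two.coprime_iff_not_dvd).2 fun h2 => h (even_iff_two_dvd.2 h2)).symm hj)
    have hm2 : m % c = 2 * (m' % e₀) := by
      rw [hc2, hm', ← two_mul, Nat.mul_mod_mul_left]
    have hd2 : (2 * d) % c = 2 * (d % e₀) := by rw [hc2, Nat.mul_mod_mul_left]
    have hcount : d % e₀ < m' := by
      by_contra hle
      obtain ⟨n, hn⟩ : ∃ n, d = n + m' := ⟨d - m', by omega⟩
      subst hn
      rw [show m = 2 * m' by omega] at hrΩ
      obtain ⟨j, hj1, hj2, hj3⟩ := SympSubspace.exists_exponent n m' hrq hrΩ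
      obtain ⟨t, rfl⟩ := hdvd j (hi ▸ hj3)
      have h1 := Nat.div_add_mod (n + m') e₀
      have h2 : t ≤ (n + m') / e₀ := (Nat.le_div_iff_mul_le he0).2 (by rw [mul_comm]; exact hj2)
      have h3 : e₀ * t ≤ e₀ * ((n + m') / e₀) := Nat.mul_le_mul_left _ h2
      omega
    constructor
    · intro H
      refine Or.inr (Or.inr (Or.inr ⟨hrp, hr2, ?_⟩))
      by_contra hneg
      have hlt : d % e₀ < m' % e₀ := by
        by_contra hge
        have hme0 : e₀ ≤ m' := by
          by_contra hlt
          rw [Nat.mod_eq_of_lt (Nat.lt_of_not_le hlt)] at hge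
          omega
        exact hneg ⟨by omega, by omega⟩
      have hMd : d = d / e₀ * e₀ + d % e₀ := (Nat.div_add_mod' d e₀).symm
      have hm'mod := Nat.mod_le m' e₀
      obtain ⟨X, hX, hXr, hXf⟩ := S5980.exists_free (F := F) hrF hrq he0 (fun k hk he => by
          obtain ⟨j, rfl⟩ := he
          rw [← two_mul] at hk ⊢
          exact mul_dvd_mul_left 2 (hdvd j (hi ▸ hk))) (by
          rw [← hi, he₀]
          split_ifs with h
          · rw [Nat.mul_div_cancel' h.two_dvd]
          · exact Dvd.intro_left _ rfl)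
      obtain ⟨Y, hY, hYr, hYf⟩ := exists_blocks (M := d / e₀) X hX hXr hXf
      obtain ⟨x, hx, hxr, hxk⟩ := S5980.exists_embed (d := d) (Fin.castLE (Nat.div_mul_le_self d e₀))
        (Fin.castLE_injective _) Y hY
      set y : Module.End F (Fin d ⊕ Fin d → F) :=
        Matrix.toLin' (x : Matrix (Fin d ⊕ Fin d) (Fin d ⊕ Fin d) F) with hydef
      have hyB : ∀ u v, sympBilin d F (y u) (y v) = sympBilin d F u v := fun u v => by
        simp only [hydef, Matrix.toLin'_apply, sympBilin_apply]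
        exact hx u v
      have hyr : y ^ r = 1 := by
        rw [hydef, ← Matrix.toLin'_pow, ← Units.val_pow_eq_pow_val, hxr r hYr, Units.val_one, Matrix.toLin'_one]
        try rfl
      have hrkv : finrank F (LinearMap.range (y - LinearMap.id)) = 2 * (d / e₀ * e₀) := by
        rw [← hYf, ← hxk, TensorRank.rk]
        congr 2
      have hdpos : 0 < d / e₀ := by
        refine Nat.div_pos ?_ he0
        by_contra hlt'
        rw [Nat.mod_eq_of_lt (Nat.lt_of_not_le hlt')] at hlt
        omega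
      have hy1 : y ≠ 1 := fun h => by
        rw [h, ← Module.End.one_eq_id, sub_self, LinearMap.range_zero, finrank_bot] at hrkv
        have := Nat.mul_pos hdpos he0
        omega
      obtain ⟨W, hWd, hWn, hWy⟩ := test_element hd0 (Or.inl hodd) H y hyB hyr hy1
      let f : Module.End F W := y.restrict hWy
      have hit : ∀ (i : ℕ) (v : W), ((f^[i] v : W) : Fin d ⊕ Fin d → F) = y^[i] v := by
        intro i
        induction i with
        | zero => intro v; rfl
        | succ i ih =>
          intro v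
          rw [Function.iterate_succ_apply', Function.iterate_succ_apply', ← ih v]
          rfl
      have hfr : ∀ v : W, f^[r] v = v := fun v => Subtype.ext (by
        rw [hit, ← Module.End.pow_apply, hyr]; rfl)
      obtain ⟨k, hk⟩ := even_finrank_fixed_alt ((sympBilin d F).restrict W) (fun v => sympBilin_self _)
        (fun v hv => Subtype.ext (hWn v v.2 fun w hw => hv ⟨w, hw⟩)) hrF f (fun u w => hyB u w) hfr
      have hdvdW := PrimeOrder.orderOf_dvd_sub_finrank hrq f ⊤ (fun _ _ => trivial) (fun v _ => hfr v)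
      rw [finrank_top, PrimeOrder.fixedIn, top_inf_eq, hWd] at hdvdW
      have hle : finrank F (LinearMap.ker (f - LinearMap.id)) ≤ finrank F (LinearMap.ker (y - LinearMap.id)) := by
        refine LinearMap.finrank_le_finrank_of_injective (f := ((W.subtype).comp
          (LinearMap.ker (f - LinearMap.id)).subtype).codRestrict _ fun v => ?_) ?_
        · have h := congrArg Subtype.val (LinearMap.mem_ker.1 v.2)
          exact LinearMap.mem_ker.2 h
        · intro a b hab
          exact Subtype.ext (Subtype.ext (congrArg (fun z : LinearMap.ker (y - LinearMap.id) => (z : Fin d ⊕ Fin d → F)) hab))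
      have hrn := LinearMap.finrank_range_add_finrank_ker (y - LinearMap.id)
      rw [hrkv, Module.finrank_fintype_fun_eq_card, Fintype.card_sum, Fintype.card_fin] at hrn
      rw [hk, show m - (k + k) = 2 * (m' - k) by omega] at hdvdW
      obtain ⟨t, ht⟩ := hdvd _ (hi ▸ hdvdW)
      have hkh : k ≤ d % e₀ := by omega
      have hkm : k ≤ m' := by
        have := Submodule.finrank_le (LinearMap.ker (f - LinearMap.id))
        omega
      have hmm : m' % e₀ = k := by
        rw [show m' = k + e₀ * t by omega, Nat.add_mul_mod_self_left, Nat.mod_eq_of_lt]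
        exact lt_of_le_of_lt hkh (Nat.mod_lt _ he0)
      omega
    · rintro (h | h | h | ⟨-, -, -, hle⟩) x ⟨z, hz⟩ -
      · omega
      · omega
      · omega
      rw [hm2, hd2] at hle
      obtain ⟨y, hy, hyr, hyW⟩ := exists_normalised hd0 (Or.inl hodd) x hz
      obtain ⟨M, h, b, hMh, hhe, hb0, hb1, hbl, hbr⟩ := SympPieces.exists_sp_pieces (r := r) hrq (by omega)
        (e₀ := e₀) (by rw [he₀, hi]) (2 * d) (Fin d ⊕ Fin d → F)
        (by rw [Module.finrank_fintype_fun_eq_card, Fintype.card_sum, Fintype.card_fin, two_mul])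
        (sympBilin d F) y sympBilin_self sympBilin_nondegenerate hy
        (fun v => by rw [← Module.End.pow_apply, hyr]; rfl)
      have hdM : d = e₀ * M + h := by rw [mul_comm e₀]; omega
      have hmod : d % e₀ = h := by rw [hdM, Nat.mul_add_mod, Nat.mod_eq_of_lt hhe]
      have hdiv : m' / e₀ ≤ M := by
        refine Nat.le_of_lt_succ ((Nat.div_lt_iff_lt_mul he0).2 ?_)
        rw [Nat.succ_mul, mul_comm M e₀]
        omega
      let S : Finset ((Fin M × Fin e₀) ⊕ Fin h) :=
        ((Finset.univ.filter fun a : Fin M => (a : ℕ) < m' / e₀) ×ˢ (Finset.univ : Finset (Fin e₀))).disjSum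
          (Finset.univ.filter fun j : Fin h => (j : ℕ) < m' % e₀)
      have hS : S.card = m' := by
        rw [Finset.card_disjSum, Finset.card_product, Fin.card_filter_val_lt, Fin.card_filter_val_lt,
          Finset.card_univ, Fintype.card_fin, min_eq_right hdiv, min_eq_right (by omega), mul_comm]
        exact Nat.div_add_mod m' e₀
      obtain ⟨W, hW, hWn, hWy⟩ := exists_span_planes (sympBilin d F) sympBilin_self b hb0 hb1 S y (fun a ha t => by
        rcases a with ⟨a, u⟩ | j
        · refine Submodule.span_mono ?_ (hbl a u t)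
          rintro _ ⟨x, rfl⟩
          refine ⟨(.inl (a, x.1), x.2), ?_, rfl⟩
          simp only [S, Set.mem_ofPred_eq, Finset.inl_mem_disjSum, Finset.mem_product, Finset.mem_univ, and_true]
            at ha ⊢
          exact ha
        · rw [hbr]
          exact Submodule.subset_span ⟨_, ha, rfl⟩)
      exact ⟨W, by rw [hW, hS]; omega, (nondeg_iff W).2 hWn, hyW W hWy⟩
  push Not at hcase
  have hr2' := hr.two_le
  by_cases hrp : r = p
  swap
  · -- involutions in odd characteristic
    obtain rfl : r = 2 := by have := hcase hrp; omega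
    refine iff_of_true (fun x ⟨z, hz⟩ _ => ?_) (Or.inr (Or.inr (Or.inl ⟨rfl, Ne.symm hrp⟩)))
    have h2 : (2 : F) ≠ 0 := fun h => hrp (h2p.1 h).symm
    set X : Module.End F (Fin d ⊕ Fin d → F) :=
      Matrix.toLin' (x : Matrix (Fin d ⊕ Fin d) (Fin d ⊕ Fin d) F) with hX
    have hXX : ∀ w, X (X w) = z • w := fun w => by
      rw [hX, Matrix.toLin'_apply, Matrix.toLin'_apply, Matrix.mulVec_mulVec, ← pow_two,
        ← SubmonoidClass.coe_pow, hz, Matrix.smul_mulVec, Matrix.one_mulVec]
    by_cases hz1 : z = 1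
    · subst hz1
      obtain ⟨a, b, hb0, hb1, hb⟩ := S5976.exists_split_family h2 (x := Forms.spToGL d F x)
        (by rw [← Forms.spToGL_range]; exact ⟨x, rfl⟩) (fun v => by
          have := hXX v
          rwa [one_smul] at this)
      obtain ⟨W, hW, hWn, hWy⟩ := exists_span_planes (sympBilin d F) sympBilin_self b
        (fun i j s => (sympBilin_apply _ _).trans (hb0 i j s)) (fun i j => (sympBilin_apply _ _).trans (hb1 i j))
        (Finset.univ.filter fun j : Fin d => (j : ℕ) < m') X (fun j hj t => by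
          have := hb j t
          rw [show X (b (j, t)) = Geometric.ap (Forms.spToGL d F x) (b (j, t)) from rfl, this]
          split_ifs
          · exact Submodule.subset_span ⟨_, hj, rfl⟩
          · exact neg_mem (Submodule.subset_span ⟨_, hj, rfl⟩))
      refine ⟨W, by rw [hW, Fin.card_filter_val_lt, min_eq_right (by omega)]; omega, (nondeg_iff W).2 hWn, ?_⟩
      rintro _ ⟨w, hw, rfl⟩
      exact hWy w hw
    · obtain ⟨α, _, _, b, π, hb⟩ := exists_adapted_basis (B := sympBilin d F) (f := X) (z := z) sympBilin_self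
        sympBilin_nondegenerate (toLin_isometry x) hXX
      have hα : Fintype.card α = d := by
        have := Module.finrank_eq_card_basis b
        rw [Module.finrank_fintype_fun_eq_card, Fintype.card_prod, Fintype.card_sum, Fintype.card_fin,
          Fintype.card_fin] at this
        omega
      obtain ⟨S, -, hS⟩ := Finset.exists_subset_card_eq (s := (Finset.univ : Finset α)) (n := m')
        (by rw [Finset.card_univ, hα]; omega)
      obtain ⟨W, hW, hWn, hWy⟩ := exists_span_planes (sympBilin d F) sympBilin_self b hb.isotropic hb.pairing S X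
        (fun j hj t => by
          obtain ⟨hπ, -⟩ := (hb.action j).resolve_right fun h => hz1 h.1
          refine Submodule.span_mono (Set.image_mono fun x hx => ?_) (hb.map_mem_span j t)
          rw [Set.mem_ofPred_eq] at hx ⊢
          rw [hx, hπ]
          exact hj)
      refine ⟨W, by rw [hW, hS]; omega, (nondeg_iff W).2 hWn, ?_⟩
      rintro _ ⟨w, hw, rfl⟩
      exact hWy w hw
  subst hrp
  rcases eq_or_ne r 2 with rfl | hr2
  · -- characteristic two
    have h2 : (2 : F) = 0 := h2p.2 rfl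
    constructor
    · intro H
      refine Or.inr (Or.inl ⟨rfl, rfl, ?_⟩)
      by_contra hneg
      push Not at hneg
      obtain ⟨e, he⟩ : ∃ e, d = e * 2 := ⟨d / 2, by omega⟩
      obtain ⟨t, ht⟩ := four_dvd_of_fixed h2 he (by omega) (test_element hd0 (Or.inr ⟨h2, rfl⟩) H)
      omega
    · rintro (h | ⟨-, -, hcond⟩ | h | h) x ⟨z, hz⟩ -
      · omega
      swap
      · exact absurd rfl h.2
      swap
      · exact absurd rfl h.1
      obtain ⟨y, hy, hyr, hyW⟩ := exists_normalised hd0 (Or.inr ⟨h2, rfl⟩) x hz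
      obtain ⟨P, hP, hPs, hPW⟩ := SympCyclic.exists_pieces sympBilin_self sympBilin_nondegenerate hy
        (hpow rfl y hyr) ⊤ (fun _ _ => trivial) (fun u _ h => sympBilin_nondegenerate u fun v => h v trivial)
      rw [finrank_top, Module.finrank_fintype_fun_eq_card, Fintype.card_sum, Fintype.card_fin, ← two_mul] at hPs
      obtain ⟨Q, hQ, hQs⟩ := exists_pieces_two P (fun a ha => by
        obtain ⟨h0, h1, hs, hev, -⟩ := hP a ha
        rw [Nat.even_iff] at hev
        obtain ⟨k, s⟩ := a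
        dsimp at *
        rcases hs with rfl | rfl <;> interval_cases k <;> simp_all) hPs ⟨m', hm'⟩ (by omega) hcond
      obtain ⟨W, -, hWy, hWn, hWd⟩ := hPW Q hQ
      exact ⟨W, hWd.trans hQs, (nondeg_iff W).2 hWn, hyW W hWy⟩
  · -- odd characteristic, unipotent elements
    have hr3 : 2 < r := by omega
    have hodd : Odd r := hr.odd_of_ne_two hr2
    have h2 : (2 : F) ≠ 0 := fun h => hr2 (h2p.1 h)
    constructor
    · intro H
      exact Or.inl ⟨rfl, hr3, fun μ hμ hpar hsum =>
        partition_of_fixed hd0 hr3 ⟨m', hm'⟩ (by omega) (test_element hd0 (Or.inl hodd) H) μ hμ hpar hsum⟩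
    · rintro (⟨-, -, hpart⟩ | h | h | h) x ⟨z, hz⟩ -
      swap
      · omega
      swap
      · omega
      swap
      · exact absurd rfl h.1
      obtain ⟨y, hy, hyr, hyW⟩ := exists_normalised hd0 (Or.inl hodd) x hz
      obtain ⟨P, hP, hPs, hPW⟩ := SympCyclic.exists_pieces sympBilin_self sympBilin_nondegenerate hy
        (hpow rfl y hyr) ⊤ (fun _ _ => trivial) (fun u _ h => sympBilin_nondegenerate u fun v => h v trivial)
      rw [finrank_top, Module.finrank_fintype_fun_eq_card, Fintype.card_sum, Fintype.card_fin, ← two_mul] at hPs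
      obtain ⟨ν, hν, hνs, hνpar⟩ := hpart (P.bind fun a => Multiset.replicate a.2 a.1) (fun a ha => by
          obtain ⟨b, hb, hab⟩ := Multiset.mem_bind.1 ha
          rw [Multiset.eq_of_mem_replicate hab]
          exact ⟨(hP b hb).1, (hP b hb).2.1⟩) (fun a ha => by
          rw [Multiset.count_bind]
          refine even_iff_two_dvd.2 (Multiset.dvd_sum fun n hn => ?_)
          obtain ⟨⟨k, s⟩, hb, rfl⟩ := Multiset.mem_map.1 hn
          rw [Multiset.count_replicate]
          split_ifs with hka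
          · obtain ⟨-, -, hs, hev, -⟩ := hP _ hb
            dsimp at hs hev hka
            subst hka
            rcases hs with rfl | rfl
            · rw [mul_one] at hev
              exact absurd hev (Nat.not_even_iff_odd.2 ha)
            · exact dvd_rfl
          · exact dvd_zero 2) (by
          rw [Multiset.sum_bind, ← hPs]
          refine congrArg Multiset.sum (Multiset.map_congr rfl fun a _ => ?_)
          rw [Multiset.sum_replicate, smul_eq_mul, mul_comm])
      obtain ⟨Q, hQ, hQs⟩ := SympCyclic.exists_subpieces P (fun a ha =>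
        ⟨(hP a ha).1, (hP a ha).2.2.1, (hP a ha).2.2.2.1, (hP a ha).2.2.2.2 h2⟩) ν hν hνpar
      obtain ⟨W, -, hWy, hWn, hWd⟩ := hPW Q hQ
      exact ⟨W, hWd.trans (hQs.trans hνs), (nondeg_iff W).2 hWn, hyW W hWy⟩

end Cfsg.Agent.S5956
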