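import Cfsg.Statements.S5955
import Cfsg.Agent.Lib.Omega.SympIsoCount
import Cfsg.Agent.Lib.Omega.SympIsoPieces
import Cfsg.Agent.S5956
import Cfsg.Agent.S5976
-- import your own Cfsg.Agent.* helpers here

set_option autoImplicit false
open scoped MatrixGroups
open Cfsg

namespace Cfsg.Agent.S5955

open CfsgLib CfsgLib.Omega CfsgLib.Omega.SympPieces CfsgLib.Omega.SympIsoPieces Module Polynomial
open scoped Matrix

variable {F : Type*} [Field F] {d : ℕ}

theorem iso_iff (W : Submodule F (Fin d ⊕ Fin d → F)) :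
    (∀ u ∈ W, ∀ v ∈ W, Cfsg.sympForm d F u v = 0) ↔ IsoOn (sympBilin d F) W :=
  ⟨fun h u hu v hv => (sympBilin_apply u v).trans (h u hu v hv),
    fun h u hu v hv => (sympBilin_apply u v).symm.trans (h u hu v hv)⟩

/-- An isometry of odd order used as a test element. -/
theorem test_element (hd : 0 < d) {r m : ℕ} (hr : Odd r)
    (H : ∀ x : ↥(Matrix.symplecticGroup (Fin d) F),
      (∃ z : F, ((x ^ r : ↥(Matrix.symplecticGroup (Fin d) F)) : Matrix (Fin d ⊕ Fin d) (Fin d ⊕ Fin d) F) = z • (1 : Matrix (Fin d ⊕ Fin d) (Fin d ⊕ Fin d) F)) →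
      (∀ z : F, (x : Matrix (Fin d ⊕ Fin d) (Fin d ⊕ Fin d) F) ≠ z • (1 : Matrix (Fin d ⊕ Fin d) (Fin d ⊕ Fin d) F)) →
      ∃ W : Submodule F (Fin d ⊕ Fin d → F), Module.finrank F ↥W = m ∧ (∀ u ∈ W, ∀ v ∈ W, Cfsg.sympForm d F u v = 0) ∧
        W.map (Matrix.toLin' (x : Matrix (Fin d ⊕ Fin d) (Fin d ⊕ Fin d) F)) ≤ W)
    (y : Module.End F (Fin d ⊕ Fin d → F)) (hy : ∀ u v, sympBilin d F (y u) (y v) = sympBilin d F u v)
    (hyr : y ^ r = 1) (hy1 : y ≠ 1) :
    ∃ W : Submodule F (Fin d ⊕ Fin d → F), finrank F W = m ∧ IsoOn (sympBilin d F) W ∧ ∀ w ∈ W, y w ∈ W := by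
  have hmem : LinearMap.toMatrix' y ∈ Matrix.symplecticGroup (Fin d) F :=
    Forms.mem_symplecticGroup_iff_form.2 fun u v => by
      rw [LinearMap.toMatrix'_mulVec, LinearMap.toMatrix'_mulVec, ← sympBilin_apply, ← sympBilin_apply, hy]
  obtain ⟨W, hW, hWi, hWy⟩ := H ⟨_, hmem⟩ ⟨1, by
      rw [one_smul, SubmonoidClass.coe_pow]
      refine Matrix.toLin'.injective ?_
      rw [Matrix.toLin'_pow, Matrix.toLin'_toMatrix', hyr, Matrix.toLin'_one]
      rfl⟩ fun z hz => hy1 (by
      have he : y = z • 1 := by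
        rw [← Matrix.toLin'_toMatrix' y, show LinearMap.toMatrix' y = z • 1 from hz, map_smul, Matrix.toLin'_one]
        rfl
      have hzz : z * z = 1 := S5956.sq_of_scalar hd fun u v => by
        have := hy u v
        rwa [he] at this
      have hzr : z ^ r = 1 := by
        haveI := S5956.nontrivial_space (F := F) hd
        have h := hyr
        rw [he, _root_.smul_pow, one_pow] at h
        exact smul_left_injective F (one_ne_zero (α := Module.End F (Fin d ⊕ Fin d → F))) (h.trans (one_smul F _).symm)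
      obtain ⟨k, rfl⟩ := hr
      rw [pow_succ, pow_mul, pow_two, hzz, one_pow, one_mul] at hzr
      rw [he, hzr, one_smul])
  refine ⟨W, hW, (iso_iff W).1 hWi, fun w hw => ?_⟩
  have := hWy (Submodule.mem_map_of_mem hw)
  rwa [show Matrix.toLin' (LinearMap.toMatrix' y) = y from Matrix.toLin'_toMatrix' y] at this

/-- A test element made of blocks and a fixed part. -/
theorem exists_model {s e₀ h r : ℕ} (hd : d = s * e₀ + h)
    (X : Fin s → Module.End F (Fin e₀ ⊕ Fin e₀ → F))
    (hX : ∀ a u v, Cfsg.sympForm e₀ F (X a u) (X a v) = Cfsg.sympForm e₀ F u v) (hXr : ∀ a, X a ^ r = 1) :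
    ∃ (y : Module.End F (Fin d ⊕ Fin d → F)) (R : Fin s → ((Fin d ⊕ Fin d → F) →ₗ[F] (Fin e₀ ⊕ Fin e₀ → F)))
      (Rf : (Fin d ⊕ Fin d → F) →ₗ[F] (Fin h ⊕ Fin h → F)),
      (∀ u v, sympBilin d F (y u) (y v) = sympBilin d F u v) ∧ y ^ r = 1 ∧
      (∀ v a, R a (y v) = X a (R a v)) ∧ (∀ v, Rf (y v) = Rf v) ∧
      (∀ u v, sympBilin d F u v = ∑ a, sympBilin e₀ F (R a u) (R a v) + sympBilin h F (Rf u) (Rf v)) ∧
      (∀ v, (∀ a, R a v = 0) → Rf v = 0 → v = 0) ∧ ∀ a, Function.Surjective (R a) := by
  classical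
  let E : (Fin s × Fin e₀) ⊕ Fin h ≃ Fin d :=
    ((Equiv.sumCongr finProdFinEquiv (Equiv.refl (Fin h))).trans finSumFinEquiv).trans (finCongr hd.symm)
  let R : Fin s → ((Fin d ⊕ Fin d → F) →ₗ[F] (Fin e₀ ⊕ Fin e₀ → F)) := fun a =>
    LinearMap.funLeft F F (Sum.map (fun u => E (.inl (a, u))) (fun u => E (.inl (a, u))))
  let Rf : (Fin d ⊕ Fin d → F) →ₗ[F] (Fin h ⊕ Fin h → F) :=
    LinearMap.funLeft F F (Sum.map (fun j => E (.inr j)) (fun j => E (.inr j)))
  let Y : Module.End F (Fin d ⊕ Fin d → F) := LinearMap.pi (Sum.elim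
    (fun k => Sum.elim (fun au : Fin s × Fin e₀ => (LinearMap.proj (Sum.inl au.2)).comp ((X au.1).comp (R au.1)))
      (fun j => (LinearMap.proj (Sum.inl j)).comp Rf) (E.symm k))
    (fun k => Sum.elim (fun au : Fin s × Fin e₀ => (LinearMap.proj (Sum.inr au.2)).comp ((X au.1).comp (R au.1)))
      (fun j => (LinearMap.proj (Sum.inr j)).comp Rf) (E.symm k)))
  have hRY : ∀ v a, R a (Y v) = X a (R a v) := fun v a => by
    ext (u | u) <;> simp [Y, R, LinearMap.funLeft_apply]
  have hfY : ∀ v, Rf (Y v) = Rf v := fun v => by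
    ext (u | u) <;> simp [Y, Rf, LinearMap.funLeft_apply]
  have hext : ∀ v, (∀ a, R a v = 0) → Rf v = 0 → v = 0 := fun v hR hf => by
    ext (k | k)
    · obtain ⟨au | j, rfl⟩ := E.surjective k
      · exact congrFun (hR au.1) (.inl au.2)
      · exact congrFun hf (.inl j)
    · obtain ⟨au | j, rfl⟩ := E.surjective k
      · exact congrFun (hR au.1) (.inr au.2)
      · exact congrFun hf (.inr j)
  have hform : ∀ u v, sympBilin d F u v =
      ∑ a, sympBilin e₀ F (R a u) (R a v) + sympBilin h F (Rf u) (Rf v) := fun u v => by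
    simp only [sympBilin_apply, sympForm_eq_sum]
    rw [← E.sum_comp, Fintype.sum_sum_type, Fintype.sum_prod_type]
    rfl
  refine ⟨Y, R, Rf, fun u v => ?_, LinearMap.ext fun v => ?_, hRY, hfY, hform, hext, fun a w => ?_⟩
  · rw [hform, hform u v, hfY, hfY]
    congr 1
    exact Finset.sum_congr rfl fun a _ => by rw [hRY, hRY, sympBilin_apply, sympBilin_apply, hX]
  · have hit : ∀ (k : ℕ) a, R a ((Y ^ k) v) = (X a ^ k) (R a v) ∧ Rf ((Y ^ k) v) = Rf v := by
      intro k
      induction k with
      | zero => intro a; exact ⟨rfl, rfl⟩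
      | succ k ih =>
        intro a
        rw [pow_succ', Module.End.mul_apply, hRY, hfY, (ih a).1, (ih a).2, pow_succ', Module.End.mul_apply]
        exact ⟨rfl, rfl⟩
    rw [← sub_eq_zero]
    refine hext _ (fun a => ?_) ?_
    · rw [map_sub, (hit r a).1, hXr, Module.End.one_apply, Module.End.one_apply, sub_self]
    · have hf : ∀ k : ℕ, Rf ((Y ^ k) v) = Rf v := by
        intro k
        induction k with
        | zero => rfl
        | succ k ih => rw [pow_succ', Module.End.mul_apply, hfY, ih]
      rw [map_sub, hf, Module.End.one_apply, sub_self]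
  · refine ⟨Function.extend (Sum.map (fun u => E (.inl (a, u))) (fun u => E (.inl (a, u)))) w 0, ?_⟩
    have hinj : Function.Injective (fun u => E (.inl (a, u))) := fun u u' huu =>
      (Prod.mk.injEq _ _ _ _ ▸ (Sum.inl.injEq _ _ ▸ E.injective huu)).2
    exact funext fun k => (hinj.sumMap hinj).extend_apply _ _ _

variable [Fintype F] {r : ℕ} [Fact r.Prime]

/-- An invariant totally isotropic subspace of a test element with fixed-point-free blocks. -/
theorem exists_split (hd : 0 < d) (hodd : Odd r) (hrq : (Fintype.card F : ZMod r) ≠ 0) {s e₀ h m : ℕ}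
    (hdeq : d = s * e₀ + h) (hs : 0 < s) (he : 0 < e₀) (X : Fin s → Module.End F (Fin e₀ ⊕ Fin e₀ → F))
    (hX : ∀ a u v, Cfsg.sympForm e₀ F (X a u) (X a v) = Cfsg.sympForm e₀ F u v) (hXr : ∀ a, X a ^ r = 1)
    (hXf : ∀ a w, X a w = w → w = 0)
    (H : ∀ y : Module.End F (Fin d ⊕ Fin d → F), (∀ u v, sympBilin d F (y u) (y v) = sympBilin d F u v) →
      y ^ r = 1 → y ≠ 1 →
      ∃ W : Submodule F (Fin d ⊕ Fin d → F), finrank F W = m ∧ IsoOn (sympBilin d F) W ∧ ∀ w ∈ W, y w ∈ W) :
    ∃ (f : ℕ) (t : ℕ) (U : Submodule F (Fin d ⊕ Fin d → F)) (y : Module.End F (Fin d ⊕ Fin d → F))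
      (R : Fin s → ((Fin d ⊕ Fin d → F) →ₗ[F] (Fin e₀ ⊕ Fin e₀ → F))),
      m = f + orderOf (Fintype.card F : ZMod r) * t ∧ f ≤ h ∧
      finrank F U = orderOf (Fintype.card F : ZMod r) * t ∧ IsoOn (sympBilin d F) U ∧ (∀ w ∈ U, y w ∈ U) ∧
      (∀ v, y^[r] v = v) ∧ (∀ v a, R a (y v) = X a (R a v)) ∧
      (∀ u ∈ U, ∀ v ∈ U, sympBilin d F u v = ∑ a, sympBilin e₀ F (R a u) (R a v)) ∧
      ∀ v ∈ U, (∀ a, R a v = 0) → v = 0 := by
  classical
  obtain ⟨y, R, Rf, hyB, hyr, hRy, hfy, hform, hext, hsurj⟩ := exists_model (r := r) hdeq X hX hXr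
  have hy1 : y ≠ 1 := by
    intro h1
    haveI : Nonempty (Fin e₀ ⊕ Fin e₀) := ⟨.inl ⟨0, he⟩⟩
    obtain ⟨w, hw⟩ := exists_ne (0 : Fin e₀ ⊕ Fin e₀ → F)
    obtain ⟨v, rfl⟩ := hsurj ⟨0, hs⟩ w
    refine hw (hXf ⟨0, hs⟩ _ ?_)
    rw [← hRy, h1, Module.End.one_apply]
  obtain ⟨W, hWd, hWi, hWy⟩ := H y hyB hyr hy1
  have hit : ∀ v, y^[r] v = v := fun v => by rw [← Module.End.pow_apply, hyr]; rfl
  set i := orderOf (Fintype.card F : ZMod r) with hi
  let K := W ⊓ LinearMap.ker (y - 1)
  have hK : ∀ v ∈ K, ∀ a, R a v = 0 := fun v hv a => hXf a _ (by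
    have h1 : y v = v := sub_eq_zero.1 (LinearMap.mem_ker.1 hv.2)
    rw [← hRy, h1])
  let φ : K →ₗ[F] (Fin h ⊕ Fin h → F) := Rf ∘ₗ K.subtype
  have hφ : Function.Injective φ := by
    rw [injective_iff_map_eq_zero]
    exact fun v hv => Subtype.ext (hext _ (hK v v.2) hv)
  have hfK : finrank F K ≤ h := by
    have h1 : IsoOn (sympBilin h F) (LinearMap.range φ) := by
      rintro _ ⟨u, rfl⟩ _ ⟨v, rfl⟩
      have := hWi u u.2.1 v v.2.1
      rw [hform, Finset.sum_eq_zero (fun a _ => by rw [hK u u.2 a, map_zero, LinearMap.zero_apply]),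
        zero_add] at this
      exact this
    have h2 := two_mul_finrank_le sympBilin_nondegenerate h1
    rw [LinearMap.finrank_range_of_inj hφ, Module.finrank_fintype_fun_eq_card, Fintype.card_sum,
      Fintype.card_fin] at h2
    omega
  -- the moved part
  let U := W.map (y - 1)
  have hUW : U ≤ W := by
    rintro _ ⟨v, hv, rfl⟩
    exact sub_mem (hWy v hv) hv
  have hsplit : finrank F K + finrank F U = m := by
    have h1 := ((y - 1).domRestrict W).finrank_range_add_finrank_ker
    rw [LinearMap.range_domRestrict, ← Submodule.finrank_map_subtype_eq W (LinearMap.ker ((y - 1).domRestrict W)),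
      LinearMap.ker_domRestrict, Submodule.map_comap_subtype] at h1
    rw [← hWd, ← h1, add_comm]
  have hUf : ∀ v ∈ U, Rf v = 0 := by
    rintro _ ⟨v, -, rfl⟩
    rw [LinearMap.sub_apply, Module.End.one_apply, map_sub, hfy, sub_self]
  have hUy : ∀ v ∈ U, y v ∈ U := by
    rintro _ ⟨v, hv, rfl⟩
    exact ⟨y v, hWy v hv, by simp⟩
  obtain ⟨t, ht⟩ := PrimeOrder.orderOf_dvd_finrank_of_free hrq y U hUy (fun v _ => hit v) fun v hv hfix =>
    hext v (fun a => hXf a _ (by rw [← hRy, hfix])) (hUf v hv)
  refine ⟨finrank F K, t, U, y, R, by rw [← hi] at ht; omega, hfK, ht,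
    fun u hu v hv => hWi u (hUW hu) v (hUW hv), hUy, hit, hRy, fun u hu v hv => ?_, fun v hv hR => hext v hR (hUf v hv)⟩
  rw [hform, hUf u hu, map_zero, LinearMap.zero_apply, add_zero]

/-- The bound from the classes. -/
theorem le_of_classes (hrq : (Fintype.card F : ZMod r) ≠ 0) {s e₀ : ℕ} (hi : orderOf (Fintype.card F : ZMod r) = 2 * e₀)
    (X : Fin s → Module.End F (Fin e₀ ⊕ Fin e₀ → F)) (G : Fin s → F[X]) (hG : ∀ a, G a ∈ SelfDual.factors F r)
    (hGX : ∀ a, aeval (X a) (G a) = 0) {U : Submodule F (Fin d ⊕ Fin d → F)}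
    {y : Module.End F (Fin d ⊕ Fin d → F)} (hyr : ∀ v, y^[r] v = v)
    {R : Fin s → ((Fin d ⊕ Fin d → F) →ₗ[F] (Fin e₀ ⊕ Fin e₀ → F))}
    (hUi : IsoOn (sympBilin d F) U) (hUy : ∀ w ∈ U, y w ∈ U) (hRy : ∀ v a, R a (y v) = X a (R a v))
    (hUform : ∀ u ∈ U, ∀ v ∈ U, sympBilin d F u v = ∑ a, sympBilin e₀ F (R a u) (R a v))
    (hUext : ∀ v ∈ U, (∀ a, R a v = 0) → v = 0) :
    open Classical in ∃ k : F[X] → ℕ, finrank F U ≤ ∑ g ∈ SelfDual.factors F r, 2 * e₀ * k g ∧
      ∀ g ∈ SelfDual.factors F r, 2 * k g ≤ (Finset.univ.filter fun a => G a = g).card := by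
  classical
  have hcop : ((SelfDual.factors F r : Finset F[X]) : Set F[X]).Pairwise fun a b => IsCoprime a b := by
    intro a ha b hb hab
    obtain ⟨ha1, ha2, -⟩ := SelfDual.factors_spec hrq ha
    obtain ⟨hb1, hb2, -⟩ := SelfDual.factors_spec hrq hb
    refine (ha1.coprime_iff_not_dvd).2 fun hdvd => hab ?_
    exact eq_of_monic_of_associated ha2 hb2 (ha1.associated_of_dvd hb1 hdvd)
  let f : Module.End F U := y.restrict hUy
  have hRf : ∀ (p : F[X]) (v : Fin d ⊕ Fin d → F) a, R a (aeval y p v) = aeval (X a) p (R a v) := by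
    intro p v a
    induction p using Polynomial.induction_on' with
    | add p q hp hq => simp [hp, hq]
    | monomial n c =>
      simp only [aeval_monomial, Algebra.algebraMap_eq_smul_one, smul_one_mul, LinearMap.smul_apply, map_smul]
      congr 1
      induction n generalizing v with
      | zero => rfl
      | succ n ih => rw [pow_succ, Module.End.mul_apply, ih, hRy, pow_succ, Module.End.mul_apply]
  have htop : LinearMap.ker (aeval f (∏ g ∈ SelfDual.factors F r, g)) = ⊤ := by
    rw [eq_top_iff]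
    intro v _
    refine LinearMap.mem_ker.2 (Subtype.ext (hUext _ (SetLike.coe_mem _) fun a => ?_))
    rw [aeval_restrict_apply hUy, hRf, ← Finset.mul_prod_erase _ (fun g => g) (hG a), mul_comm, map_mul,
      Module.End.mul_apply, hGX, LinearMap.zero_apply, map_zero]
  have hsum := finrank_ker_prod_le f (fun g => g) (SelfDual.factors F r) hcop
  rw [htop, finrank_top] at hsum
  -- each kernel
  have hker : ∀ g ∈ SelfDual.factors F r, ∃ k, finrank F (LinearMap.ker (aeval f g)) = 2 * e₀ * k ∧
      2 * k ≤ (Finset.univ.filter fun a => G a = g).card := by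
    intro g hg
    set K := LinearMap.ker (aeval f g) with hKdef
    let A := {a : Fin s // G a = g}
    let Φ : K →ₗ[F] (A → (Fin e₀ ⊕ Fin e₀ → F)) :=
      LinearMap.pi fun a : A => (R a.1) ∘ₗ U.subtype ∘ₗ K.subtype
    have hKg : ∀ v : K, ∀ a, aeval (X a) g (R a ((v : U) : Fin d ⊕ Fin d → F)) = 0 := fun v a => by
      rw [← hRf, ← aeval_restrict_apply hUy, LinearMap.mem_ker.1 v.2]
      simp
    have hother : ∀ v : K, ∀ a, G a ≠ g → R a ((v : U) : Fin d ⊕ Fin d → F) = 0 := fun v a ha => by
      obtain ⟨p, q, hpq⟩ := hcop hg (hG a) (Ne.symm ha)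
      have h := congrArg (fun P => aeval (X a) P (R a ((v : U) : Fin d ⊕ Fin d → F))) hpq
      simp only [map_add, map_mul, map_one, LinearMap.add_apply, Module.End.mul_apply, hKg, map_zero,
        hGX, LinearMap.zero_apply, Module.End.one_apply, add_zero] at h
      exact h.symm
    have hΦ : Function.Injective Φ := by
      rw [injective_iff_map_eq_zero]
      intro v hv
      refine Subtype.ext (Subtype.ext (hUext _ v.1.2 fun a => ?_))
      by_cases ha : G a = g
      · exact congrFun hv ⟨a, ha⟩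
      · exact hother v a ha
    let BA : LinearMap.BilinForm F (A → (Fin e₀ ⊕ Fin e₀ → F)) :=
      ∑ a : A, (sympBilin e₀ F).compl₁₂ (LinearMap.proj a) (LinearMap.proj a)
    have hBA : ∀ u v, BA u v = ∑ a : A, sympBilin e₀ F (u a) (v a) := fun u v => by
      simp [BA, LinearMap.sum_apply]
    have hnd : ∀ u, (∀ v, BA u v = 0) → u = 0 := fun u hu => funext fun a =>
      sympBilin_nondegenerate (u a) fun w => by
        have h := hu (Pi.single a w)
        rwa [hBA, Finset.sum_eq_single a (fun b _ hb => by rw [Pi.single_eq_of_ne hb, map_zero]) (by simp),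
          Pi.single_eq_same] at h
    have hiso : IsoOn BA (LinearMap.range Φ) := by
      rintro _ ⟨u, rfl⟩ _ ⟨v, rfl⟩
      have h := hUi _ u.1.2 _ v.1.2
      rw [hUform _ u.1.2 _ v.1.2, ← Finset.sum_filter_add_sum_filter_not Finset.univ (fun a => G a = g),
        Finset.sum_eq_zero (s := Finset.filter (fun a => ¬ G a = g) Finset.univ) (fun a ha => by
          rw [hother u a (Finset.mem_filter.1 ha).2, map_zero, LinearMap.zero_apply]), add_zero,
        Finset.sum_subtype (Finset.univ.filter fun a => G a = g) (p := fun a => G a = g) (by simp)] at h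
      rw [hBA]
      exact h
    have hle := two_mul_finrank_le hnd hiso
    rw [LinearMap.finrank_range_of_inj hΦ, Module.finrank_pi_fintype, Finset.sum_const, Finset.card_univ,
      smul_eq_mul, Module.finrank_fintype_fun_eq_card, Fintype.card_sum, Fintype.card_fin,
      Fintype.card_subtype] at hle
    have hfr : ∀ v : U, f^[r] v = v := by
      have hit : ∀ (j : ℕ) (v : U), ((f^[j] v : U) : Fin d ⊕ Fin d → F) = y^[j] v := by
        intro j
        induction j with
        | zero => intro v; rfl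
        | succ j ih =>
          intro v
          rw [Function.iterate_succ_apply', Function.iterate_succ_apply', ← ih v]
          rfl
      exact fun v => Subtype.ext (by rw [hit, hyr])
    have hKy : ∀ v ∈ K, f v ∈ K := fun v hv => LinearMap.mem_ker.2 (by
      rw [show f v = aeval f (Polynomial.X : F[X]) v by rw [aeval_X], ← Module.End.mul_apply, ← map_mul, mul_comm,
        map_mul, Module.End.mul_apply, LinearMap.mem_ker.1 hv, map_zero])
    obtain ⟨-, -, -, -, hdvd, hg1⟩ := SelfDual.factors_spec hrq hg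
    obtain ⟨k, hk⟩ := PrimeOrder.orderOf_dvd_finrank_of_free hrq f K hKy (fun v _ => hfr v) fun v hv hfix => by
      have h1 : aeval f g v = g.eval 1 • v := by
        have hx : ∀ p : F[X], aeval f p v = p.eval 1 • v := by
          intro p
          induction p using Polynomial.induction_on' with
          | add p q hp hq => rw [map_add, LinearMap.add_apply, hp, hq, eval_add, add_smul]
          | monomial n c =>
            rw [aeval_monomial, Module.End.mul_apply, Module.algebraMap_end_apply, eval_monomial, one_pow,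
              mul_one]
            congr 1
            rw [Module.End.pow_apply]
            exact Function.iterate_fixed hfix n
        exact hx g
      rw [LinearMap.mem_ker.1 hv] at h1
      exact (smul_eq_zero.1 h1.symm).resolve_left hg1
    rw [hi] at hk
    refine ⟨k, hk, ?_⟩
    rw [hk] at hle
    rcases Nat.eq_zero_or_pos e₀ with rfl | he
    · obtain ⟨hirr, -, -, hdeg, -, -⟩ := SelfDual.factors_spec hrq hg
      have := hirr.natDegree_pos
      omega
    · exact Nat.le_of_mul_le_mul_right (c := 2 * e₀) (le_trans (le_of_eq (by ring)) (hle.trans (le_of_eq (by ring)))) (by omega)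
  choose! k hk hk' using hker
  exact ⟨k, hsum.trans (le_of_eq (Finset.sum_congr rfl hk)), hk'⟩

/-- Elements of prime order of PSp_n(q) with no fixed totally isotropic `m`-space. Here `T = PSp_n(q)` with `n = 2d ≥ 4`, `(n, q) ≠ (4, 2)`, realised through the symplectic matrices over the field `F` with `q` elements (preserving the standard alternating form); an element of `T` of prime order `r` is such a matrix `x` with `x^r` scalar and `x` not scalar. For `r ≠ p` let `i` be the multiplicative order of `q` modulo `r`, `c = i` for `i` even and `c = 2i` for `i` odd, and write `k = n mod c`, `ℓ = m mod i`, `ℓ' = m mod c`, `n' = ⌊n/i⌋`, `m' = ⌊m/i⌋`, `t = (r−1)/i`. Let `1 ≤ m ≤ n/2` and let `r` be a prime dividing the number of totally isotropic `m`-spaces. Then every element of `T` of order `r` fixes a totally isotropic `m`-space if and only if either (i) `r = 2 ≠ p` and (`m` is even or `q ≡ 1 (mod 4)`); or (ii) `r ≠ p`, `r > 2`, `i ≤ m`, `k ≥ 2ℓ`, and (`i` is odd or `n' − 2m' ≥ t`). -/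
theorem result {F : Type*} [Field F] [Fintype F] {p : ℕ} [Fact p.Prime] [CharP F p] {q : ℕ} (hq : Fintype.card F = q)
    (d m : ℕ) (hd : 2 ≤ d) (hT : (d, q) ≠ (2, 2)) (hm : 1 ≤ m) (hmd : m ≤ d)
    (r : ℕ) [Fact r.Prime]
    (hrΩ : r ∣ Nat.card {W : Submodule F (Fin d ⊕ Fin d → F) // Module.finrank F ↥W = m ∧ (∀ u ∈ W, ∀ v ∈ W, Cfsg.sympForm d F u v = 0)})
    (i c : ℕ) (hi : i = orderOf (q : ZMod r)) (hc : c = if Even i then i else 2 * i) :
    (∀ x : ↥(Matrix.symplecticGroup (Fin d) F),
      (∃ z : F, ((x ^ r : ↥(Matrix.symplecticGroup (Fin d) F)) : Matrix (Fin d ⊕ Fin d) (Fin d ⊕ Fin d) F) = z • (1 : Matrix (Fin d ⊕ Fin d) (Fin d ⊕ Fin d) F)) →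
      (∀ z : F, (x : Matrix (Fin d ⊕ Fin d) (Fin d ⊕ Fin d) F) ≠ z • (1 : Matrix (Fin d ⊕ Fin d) (Fin d ⊕ Fin d) F)) →
      ∃ W : Submodule F (Fin d ⊕ Fin d → F), Module.finrank F ↥W = m ∧ (∀ u ∈ W, ∀ v ∈ W, Cfsg.sympForm d F u v = 0) ∧
        W.map (Matrix.toLin' (x : Matrix (Fin d ⊕ Fin d) (Fin d ⊕ Fin d) F)) ≤ W) ↔
    ((r = 2 ∧ p ≠ 2 ∧ (Even m ∨ q % 4 = 1)) ∨
     (r ≠ p ∧ 2 < r ∧ i ≤ m ∧ 2 * (m % i) ≤ (2 * d) % c ∧ (Odd i ∨ (r - 1) / i + 2 * (m / i) ≤ (2 * d) / i))) := by
  classical
  subst hq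
  have hr : r.Prime := Fact.out
  have hp : p.Prime := Fact.out
  have hd0 : 0 < d := by omega
  have hrp : r ≠ p := by
    rintro rfl
    exact SympIso.not_dvd_card hmd hrΩ
  rcases eq_or_ne r 2 with rfl | hr2
  · -- involutions
    have h2 : (2 : F) ≠ 0 := fun h => hrp ((Nat.prime_dvd_prime_iff_eq hp Nat.prime_two).1
      ((CharP.cast_eq_zero_iff F p 2).1 (by exact_mod_cast h))).symm
    have hodd : Fintype.card F % 2 = 1 := FiniteField.odd_card_of_char_ne_two (fun h => h2 (by
      haveI : CharP F 2 := ringChar.of_eq h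
      exact CharTwo.two_eq_zero))
    constructor
    · intro H
      refine Or.inl ⟨rfl, Ne.symm hrp, ?_⟩
      by_contra hneg
      push Not at hneg
      have hJ2 : Matrix.J (Fin d) F * Matrix.J (Fin d) F = -1 := Matrix.J_squared _ _
      obtain ⟨W, hWd, -, hWy⟩ := H ⟨Matrix.J (Fin d) F, SymplecticGroup.J_mem _ _⟩
        ⟨-1, by rw [SubmonoidClass.coe_pow, pow_two, hJ2, neg_one_smul]⟩ fun z hz => by
          have := congrFun (congrFun hz (.inl ⟨0, hd0⟩)) (.inr ⟨0, hd0⟩)
          simp [Matrix.J] at this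
      let f : Module.End F W := (Matrix.toLin' (Matrix.J (Fin d) F)).restrict
        fun w hw => hWy (Submodule.mem_map_of_mem hw)
      have hff : f * f = (-1 : F) • (1 : Module.End F W) := LinearMap.ext fun w => Subtype.ext (by
        show Matrix.toLin' (Matrix.J (Fin d) F) (Matrix.toLin' (Matrix.J (Fin d) F) w) = (-1 : F) • (w : _)
        rw [Matrix.toLin'_apply, Matrix.toLin'_apply, Matrix.mulVec_mulVec, hJ2, Matrix.neg_mulVec,
          Matrix.one_mulVec, neg_one_smul])
      have hdet := congrArg LinearMap.det hff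
      rw [map_mul, LinearMap.det_smul, map_one, mul_one, hWd, (Nat.not_even_iff_odd.1 hneg.1).neg_one_pow] at hdet
      have h3 := FiniteField.isSquare_neg_one_iff.1 ⟨_, hdet.symm⟩
      omega
    · rintro (⟨-, -, hcond⟩ | ⟨-, h, -⟩) x ⟨z, hz⟩ -
      swap
      · omega
      set X : Module.End F (Fin d ⊕ Fin d → F) :=
        Matrix.toLin' (x : Matrix (Fin d ⊕ Fin d) (Fin d ⊕ Fin d) F) with hX
      have hXX : ∀ w, X (X w) = z • w := fun w => by
        rw [hX, Matrix.toLin'_apply, Matrix.toLin'_apply, Matrix.mulVec_mulVec, ← pow_two,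
          ← SubmonoidClass.coe_pow, hz, Matrix.smul_mulVec, Matrix.one_mulVec]
      have hzz : z * z = 1 := S5956.sq_of_scalar hd0 fun u v => by
        rw [← hXX, ← hXX, S5956.toLin_isometry, S5956.toLin_isometry]
      have hx : Forms.spToGL d F x ∈ Cfsg.spGL d F := by rw [← Forms.spToGL_range]; exact ⟨x, rfl⟩
      have key : ∀ g : Fin m → (Fin d ⊕ Fin d → F), LinearIndependent F g →
          (∀ j k, sympBilin d F (g j) (g k) = 0) → (∀ j, X (g j) ∈ Submodule.span F (Set.range g)) →
          ∃ W : Submodule F (Fin d ⊕ Fin d → F), Module.finrank F ↥W = m ∧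
            (∀ u ∈ W, ∀ v ∈ W, Cfsg.sympForm d F u v = 0) ∧ W.map X ≤ W := by
        intro g hli hiso hinv
        refine ⟨Submodule.span F (Set.range g), by rw [finrank_span_eq_card hli, Fintype.card_fin],
          (iso_iff _).2 fun u hu v hv => ?_, ?_⟩
        · refine (Submodule.span_le (p := LinearMap.ker ((sympBilin d F).flip v))).2 ?_ hu
          rintro _ ⟨j, rfl⟩
          refine (Submodule.span_le (p := LinearMap.ker (sympBilin d F (g j)))).2 ?_ hv
          rintro _ ⟨k, rfl⟩
          exact hiso j k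
        · rw [Submodule.map_span, Submodule.span_le]
          rintro _ ⟨_, ⟨j, rfl⟩, rfl⟩
          exact hinv j
      rcases mul_self_eq_one_iff.1 hzz with rfl | rfl
      · obtain ⟨a, b, hb0, hb1, hb⟩ := S5976.exists_split_family h2 hx (fun v => (hXX v).trans (one_smul F v))
        have hb0' : ∀ i j s, sympBilin d F (b (i, s)) (b (j, s)) = 0 := fun i j s =>
          (sympBilin_apply _ _).trans (hb0 i j s)
        refine key (fun j => b (Fin.castLE hmd j, 0)) ?_ (fun j k => hb0' _ _ _) fun j => ?_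
        · exact (linearIndependent_planes sympBilin_self hb0' fun i j => (sympBilin_apply _ _).trans (hb1 i j)).comp
            (fun j : Fin m => (Fin.castLE hmd j, (0 : Fin 2)))
            fun j k hjk => Fin.castLE_injective hmd (congrArg Prod.fst hjk)
        · rw [show X (b (Fin.castLE hmd j, 0)) = Geometric.ap (Forms.spToGL d F x) (b (Fin.castLE hmd j, 0)) from rfl,
            hb]
          split_ifs
          · exact Submodule.subset_span ⟨j, rfl⟩
          · exact neg_mem (Submodule.subset_span ⟨j, rfl⟩)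
      · obtain ⟨b, hb0, hb1, hb⟩ := S5976.exists_turn_family hodd h2 hx (fun v => (hXX v).trans (neg_one_smul F v))
        have hb0' : ∀ i j s, sympBilin d F (b (i, s)) (b (j, s)) = 0 := fun i j s =>
          (sympBilin_apply _ _).trans (hb0 i j s)
        have hb1' : ∀ i j, sympBilin d F (b (i, 0)) (b (j, 1)) = if i = j then 1 else 0 := fun i j =>
          (sympBilin_apply _ _).trans (hb1 i j)
        have hb10 : ∀ i j, sympBilin d F (b (i, 1)) (b (j, 0)) = -(if j = i then 1 else 0) := fun i j => by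
          rw [alt_skew sympBilin_self, hb1']
        have hli := linearIndependent_planes sympBilin_self hb0' hb1'
        have hX0 : ∀ i, X (b (i, 0)) = b (i, 1) := fun i => (hb i 0).trans (if_pos rfl)
        have hX1 : ∀ i, X (b (i, 1)) = -b (i, 0) := fun i => (hb i 1).trans (if_neg (by decide))
        rcases hcond with ⟨k, hk⟩ | hq4
        · obtain ⟨α, β, hαβ⟩ : ∃ α β : F, α ^ 2 + β ^ 2 = -1 := by
            obtain ⟨a, b, h⟩ := CharP.sq_add_sq F p (-1)
            exact ⟨a, b, by simpa using h⟩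
          let P : Fin k → Fin d := fun j => ⟨2 * j, by omega⟩
          let Q : Fin k → Fin d := fun j => ⟨2 * j + 1, by omega⟩
          have hPQ : ∀ j l, P j ≠ Q l := fun j l h => by
            have := congrArg Fin.val h
            simp only [P, Q] at this
            omega
          have hP : ∀ j l, P j = P l ↔ j = l := fun j l => ⟨fun h => Fin.ext (by
            have := congrArg Fin.val h
            simp only [P] at this
            omega), fun h => h ▸ rfl⟩
          have hQ : ∀ j l, Q j = Q l ↔ j = l := fun j l => ⟨fun h => Fin.ext (by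
            have := congrArg Fin.val h
            simp only [Q] at this
            omega), fun h => h ▸ rfl⟩
          let g : Fin k × Fin 2 → (Fin d ⊕ Fin d → F) := fun w =>
            if w.2 = 0 then b (P w.1, 0) + α • b (Q w.1, 0) + β • b (Q w.1, 1)
            else b (P w.1, 1) + α • b (Q w.1, 1) - β • b (Q w.1, 0)
          have hgli : LinearIndependent F g := by
            rw [Fintype.linearIndependent_iff]
            intro w hw
            rintro ⟨j, t⟩
            fin_cases t
            · have h := congrArg (fun v => sympBilin d F v (b (P j, 1))) hw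
              simpa [g, Fintype.sum_prod_type, Fin.sum_univ_two, hb0', hb1', hb10, hP, fun a b => (hPQ a b).symm,
                hPQ] using h
            · have h := congrArg (fun v => sympBilin d F v (b (P j, 0))) hw
              simpa [g, Fintype.sum_prod_type, Fin.sum_univ_two, hb0', hb1', hb10, hP, fun a b => (hPQ a b).symm,
                hPQ] using h
          let e : Fin m ≃ Fin k × Fin 2 := (finCongr (by omega : m = k * 2)).trans finProdFinEquiv.symm
          refine key (g ∘ e) (hgli.comp e e.injective) (fun j l => ?_) fun j => ?_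
          · rcases eq_or_ne (e j).1 (e l).1 with hjl | hjl <;>
              simp only [Function.comp_apply, g] <;> split_ifs <;>
              simp [hb0', hb1', hb10, hP, hQ, hPQ, fun a b => (hPQ a b).symm, hjl, Ne.symm] <;>
              (first | linear_combination (0 : F) * hαβ | linear_combination hαβ | linear_combination -hαβ)
          · rw [Set.range_comp, Set.range_eq_univ.2 e.surjective, Set.image_univ]
            simp only [Function.comp_apply, g]
            split_ifs with h
            · refine Submodule.subset_span ⟨((e j).1, 1), ?_⟩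
              simp only [map_add, map_smul, hX0, hX1]
              rw [if_neg (by decide)]
              module
            · rw [show X (b (P (e j).1, 1) + α • b (Q (e j).1, 1) - β • b (Q (e j).1, 0)) = -g ((e j).1, 0) by
                simp only [g, if_true, map_add, map_sub, map_smul, hX0, hX1]
                module]
              exact neg_mem (Submodule.subset_span ⟨_, rfl⟩)
        · obtain ⟨ι, hι⟩ : IsSquare (-1 : F) := FiniteField.isSquare_neg_one_iff.2 (by omega)
          refine key (fun j => b (Fin.castLE hmd j, 0) + ι • b (Fin.castLE hmd j, 1)) ?_ (fun j l => ?_) fun j => ?_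
          · rw [Fintype.linearIndependent_iff]
            intro w hw j
            have h := congrArg (fun v => sympBilin d F v (b (Fin.castLE hmd j, 1))) hw
            simpa [hb0', hb1', Fin.castLE_inj] using h
          · simp [hb0', hb1', hb10, Fin.castLE_inj, eq_comm]
          · rw [show X (b (Fin.castLE hmd j, 0) + ι • b (Fin.castLE hmd j, 1)) =
                (-ι) • (b (Fin.castLE hmd j, 0) + ι • b (Fin.castLE hmd j, 1)) by
              rw [map_add, map_smul, hX0, hX1, smul_add, smul_smul, neg_mul, ← hι]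
              module]
            exact Submodule.smul_mem _ _ (Submodule.subset_span ⟨j, rfl⟩)
  -- odd `r`
  have hr3 : 2 < r := by have := hr.two_le; omega
  have hodd : Odd r := hr.odd_of_ne_two hr2
  have hrF : (r : F) ≠ 0 := fun h => hrp ((Nat.prime_dvd_prime_iff_eq hp hr).1
    ((CharP.cast_eq_zero_iff F p r).1 h)).symm
  have hrq : (Fintype.card F : ZMod r) ≠ 0 := fun h => hrp (by
    obtain ⟨a, -, ha⟩ := FiniteField.card F p
    rw [ZMod.natCast_eq_zero_iff, ha] at h
    exact (Nat.prime_dvd_prime_iff_eq hr hp).1 (hr.dvd_of_dvd_pow h))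
  have hi0 : 0 < i := hi ▸ orderOf_pos_iff.2 (isOfFinOrder_iff_pow_eq_one.2
    ⟨r - 1, Nat.sub_pos_of_lt hr.one_lt, ZMod.pow_card_sub_one_eq_one hrq⟩)
  obtain ⟨e₀, he₀⟩ : ∃ e₀, e₀ = if Even i then i / 2 else i := ⟨_, rfl⟩
  have hc2 : c = 2 * e₀ := by
    rw [hc, he₀]
    split_ifs with h
    · exact (Nat.mul_div_cancel' h.two_dvd).symm
    · rfl
  have he0 : 0 < e₀ := by
    rw [he₀]; split_ifs with h
    · obtain ⟨k, hk⟩ := h; omega
    · exact hi0
  have hdvd : ∀ j, i ∣ 2 * j → e₀ ∣ j := by
    intro j hj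
    rw [he₀]
    split_ifs with h
    · obtain ⟨k, hk⟩ := h
      rw [show i / 2 = k by omega]
      exact Nat.dvd_of_mul_dvd_mul_left two_pos (by rwa [show 2 * k = i by omega])
    · exact (Nat.Coprime.dvd_of_dvd_mul_left
        ((Nat.prime_two.coprime_iff_not_dvd).2 fun h2 => h (even_iff_two_dvd.2 h2)).symm hj)
  have hd2 : (2 * d) % c = 2 * (d % e₀) := by rw [hc2, Nat.mul_mod_mul_left]
  have hevq : Even i → i = 2 * e₀ ∧ (2 * d) / i = d / e₀ := fun h => by
    have : i = 2 * e₀ := by rw [he₀, if_pos h, Nat.mul_div_cancel' h.two_dvd]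
    exact ⟨this, by rw [this, Nat.mul_div_mul_left _ _ two_pos]⟩
  have hcount : d % e₀ < m := by
    by_contra hle
    obtain ⟨n, hn⟩ : ∃ n, d = n + m := ⟨d - m, by omega⟩
    subst hn
    obtain ⟨j, hj1, hj2, hj3⟩ := SympIso.exists_exponent n m hrq hrΩ
    obtain ⟨t, rfl⟩ := hdvd j (hi ▸ hj3)
    have h1 := Nat.div_add_mod (n + m) e₀
    have h2 : t ≤ (n + m) / e₀ := (Nat.le_div_iff_mul_le he0).2 (by rw [mul_comm]; exact hj2)
    have h3 : e₀ * t ≤ e₀ * ((n + m) / e₀) := Nat.mul_le_mul_left _ h2
    omega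
  have hsmall : m % i ≤ d % e₀ → i ≤ m := fun h => by
    by_contra hlt
    rw [Nat.mod_eq_of_lt (Nat.lt_of_not_le hlt)] at h
    omega
  have hMd := Nat.div_add_mod' d e₀
  have hM : 0 < d / e₀ := by
    refine Nat.div_pos ?_ he0
    by_contra hlt
    rw [Nat.mod_eq_of_lt (Nat.lt_of_not_le hlt)] at hcount
    omega
  constructor
  · intro H
    have HT := test_element hd0 hodd H
    refine Or.inr ⟨hrp, hr3, ?_⟩
    have hmi : m % i ≤ d % e₀ := by
      obtain ⟨X, hX, hXr, hXf⟩ := S5980.exists_free (F := F) hrF hrq he0 (fun k hk he => by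
          obtain ⟨j, rfl⟩ := he
          rw [← two_mul] at hk ⊢
          exact mul_dvd_mul_left 2 (hdvd j (hi ▸ hk))) (by
          rw [← hi, he₀]
          split_ifs with h
          · rw [Nat.mul_div_cancel' h.two_dvd]
          · exact Dvd.intro_left _ rfl)
      have hfree : ∀ w, X w = w → w = 0 := by
        have hker : LinearMap.ker (X - LinearMap.id) = ⊥ := by
          rw [← Submodule.finrank_eq_zero]
          have h := LinearMap.finrank_range_add_finrank_ker (X - LinearMap.id)
          rw [hXf, Module.finrank_fintype_fun_eq_card, Fintype.card_sum, Fintype.card_fin] at h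
          omega
        intro w hw
        exact (Submodule.eq_bot_iff _).1 hker w (LinearMap.mem_ker.2 (by simp [hw]))
      obtain ⟨f, t, -, -, -, hmf, hf, -⟩ := exists_split hd0 hodd hrq hMd.symm hM he0 (fun _ => X) (fun _ => hX)
        (fun _ => LinearMap.ext fun u => by rw [Module.End.pow_apply]; exact hXr u) (fun _ => hfree) HT
      rw [← hi] at hmf
      rw [hmf, Nat.add_mul_mod_self_left]
      exact (Nat.mod_le f i).trans hf
    refine ⟨hsmall hmi, by omega, ?_⟩
    by_contra hneg
    push Not at hneg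
    obtain ⟨hev, hlt⟩ := hneg
    rw [Nat.not_odd_iff_even] at hev
    obtain ⟨hie, hdiv⟩ := hevq hev
    rw [hdiv] at hlt
    set M := d / e₀ with hMdef
    set t := (r - 1) / i with ht
    have htpos : 0 < t := Nat.div_pos (Nat.le_of_dvd (by omega)
      (hi ▸ ZMod.orderOf_dvd_card_sub_one hrq)) hi0
    obtain ⟨s, hs1, hs2, hs3, hs4⟩ : ∃ s, s ≤ M ∧ M ≤ s + 1 ∧ 0 < s ∧ (s < t ∨ t ≤ s ∧ (s - t) % 2 = 0) := by
      by_cases hMt : M < t
      · exact ⟨M, le_rfl, Nat.le_succ M, hM, Or.inl hMt⟩
      · by_cases hpar : (M - t) % 2 = 0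
        · exact ⟨M, le_rfl, Nat.le_succ M, hM, Or.inr ⟨by omega, hpar⟩⟩
        · exact ⟨M - 1, by omega, by omega, by omega, Or.inr ⟨by omega, by omega⟩⟩
    have hcardt : Fintype.card (SelfDual.factors F r) = t := by
      rw [Fintype.card_coe, SelfDual.card_factors hrq, ← hi]
    let en : Fin t ≃ SelfDual.factors F r := (Fintype.equivFinOfCardEq hcardt).symm
    let G : Fin s → F[X] := fun a => (en ⟨min (a : ℕ) (t - 1), by omega⟩ : F[X])
    have hG : ∀ a, G a ∈ SelfDual.factors F r := fun a => (en _).2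
    choose X hX hGX using fun a => SelfDual.exists_symp_of_factor hrq (hi ▸ hie) (hG a)
    have hXr : ∀ a, X a ^ r = 1 := fun a => by
      obtain ⟨k, hk⟩ := (SelfDual.factors_spec hrq (hG a)).2.2.2.2.1
      have := congrArg (aeval (X a)) hk
      rw [map_sub, map_pow, aeval_X, map_one, map_mul, hGX, zero_mul, sub_eq_zero] at this
      exact this
    have hXf : ∀ a w, X a w = w → w = 0 := fun a w hw => by
      have hx : ∀ p : F[X], aeval (X a) p w = p.eval 1 • w := by
        intro p
        induction p using Polynomial.induction_on' with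
        | add p q hp hq => rw [map_add, LinearMap.add_apply, hp, hq, eval_add, add_smul]
        | monomial n c =>
          rw [aeval_monomial, Module.End.mul_apply, Module.algebraMap_end_apply, eval_monomial, one_pow, mul_one]
          congr 1
          rw [Module.End.pow_apply]
          exact Function.iterate_fixed hw n
      have h := hx (G a)
      rw [hGX, LinearMap.zero_apply] at h
      exact (smul_eq_zero.1 h.symm).resolve_left (SelfDual.factors_spec hrq (hG a)).2.2.2.2.2
    have hse : s * e₀ ≤ d := le_trans (Nat.mul_le_mul_right _ hs1) (by omega)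
    obtain ⟨f, a, U, y, R, hmf, hf, hUd, hUi, hUy, hit, hRy, hUform, hUext⟩ := exists_split hd0 hodd hrq
      (h := d - s * e₀) (by omega) hs3 he0 X hX hXr hXf HT
    rw [← hi] at hmf hUd
    obtain ⟨k, hk, hk'⟩ := le_of_classes hrq (hi ▸ hie) X G hG hGX (y := y) (R := R) hit hUi hUy hRy hUform hUext
    have hklast : ∀ j : Fin t, (j : ℕ) < t - 1 → k (en j) = 0 := by
      intro j hj
      have h1 := hk' _ (en j).2
      have h2 : (Finset.univ.filter fun a => G a = (en j : F[X])).card ≤ 1 := by
        refine Finset.card_le_one.2 fun a ha b hb => ?_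
        simp only [Finset.mem_filter, G, Subtype.coe_inj, en.injective.eq_iff] at ha hb
        have e1 : min (a : ℕ) (t - 1) = j := congrArg Fin.val ha.2
        have e2 : min (b : ℕ) (t - 1) = j := congrArg Fin.val hb.2
        exact Fin.ext (by omega)
      omega
    let last : Fin t := ⟨t - 1, by omega⟩
    have hsum : ∑ g ∈ SelfDual.factors F r, 2 * e₀ * k g = 2 * e₀ * k (en last) := by
      rw [← Finset.sum_coe_sort, ← en.sum_comp (fun g : SelfDual.factors F r => 2 * e₀ * k g),
        Finset.sum_eq_single last (fun j _ hj => ?_) (fun h => absurd (Finset.mem_univ _) h)]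
      rw [hklast j (lt_of_le_of_ne (Nat.le_sub_one_of_lt j.2) fun h => hj (Fin.ext h)), mul_zero]
    have hlast : (Finset.univ.filter fun a => G a = (en last : F[X])).card ≤ s - (t - 1) := by
      refine le_trans (Finset.card_le_card (t := Finset.univ.filter fun a : Fin s => ¬ (a : ℕ) < t - 1)
        fun a ha => ?_) ?_
      · simp only [Finset.mem_filter, G, Subtype.coe_inj, en.injective.eq_iff] at ha ⊢
        have e1 : min (a : ℕ) (t - 1) = t - 1 := congrArg Fin.val ha.2
        exact ⟨Finset.mem_univ _, by omega⟩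
      · have h1 := Finset.card_filter_add_card_filter_not (s := (Finset.univ : Finset (Fin s)))
          (fun a : Fin s => (a : ℕ) < t - 1)
        rw [Fin.card_filter_val_lt, Finset.card_univ, Fintype.card_fin] at h1
        omega
    have h2k := (hk' _ (en last).2).trans hlast
    rw [hUd, hsum, hie] at hk
    have hak : a ≤ k (en last) := Nat.le_of_mul_le_mul_left hk (by omega)
    have hlt' : f < i := by
      have h1 := Nat.mod_lt d he0
      have h2 : M * e₀ ≤ s * e₀ + e₀ := by
        rw [← Nat.succ_mul]; exact Nat.mul_le_mul_right _ hs2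
      omega
    have hmdiv : m / i = a := by
      rw [hmf, Nat.add_mul_div_left _ _ hi0, Nat.div_eq_of_lt hlt', zero_add]
    rcases hs4 with hs4 | ⟨hs4, hpar⟩
    · have ha0 : a = 0 := by omega
      rw [ha0, mul_zero, add_zero] at hmf
      by_cases hsM : s = M
      · subst hsM
        omega
      · have := hsmall hmi
        rw [← hmdiv, Nat.div_eq_zero_iff] at ha0
        omega
    · omega
  · rintro (⟨h, -⟩ | ⟨-, -, hle, hl, hpar⟩) x ⟨z, hz⟩ -
    · omega
    obtain ⟨y, hy, hyr, hyW⟩ := S5956.exists_normalised hd0 (Or.inl hodd) x hz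
    obtain ⟨W, hW, hWi, hWy⟩ := exists_iso_of_arith hrq hr2 (r := r) (B := sympBilin d F) (Y := y) sympBilin_self
      sympBilin_nondegenerate hy (fun v => by rw [← Module.End.pow_apply, hyr]; rfl) (d := d) (e₀ := e₀) (m := m)
      (by rw [Module.finrank_fintype_fun_eq_card, Fintype.card_sum, Fintype.card_fin, two_mul]) hmd
      (by rw [he₀, hi]) (by rw [← hi]; omega) (by
        rw [← hi]
        rcases Nat.even_or_odd i with h | h
        · exact hpar.imp_right fun h' => by rwa [(hevq h).2] at h'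
        · exact Or.inl h)
    exact ⟨W, hW, (iso_iff W).2 hWi, hyW W hWy⟩

end Cfsg.Agent.S5955
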