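import Cfsg.Statements.S5957
import Cfsg.Agent.Lib.Omega.BlockPerm
import Cfsg.Agent.Lib.Omega.LinearInvolution

set_option autoImplicit false
open scoped MatrixGroups Matrix
open Cfsg

namespace Cfsg.Agent.S5957

/-- Involutions of PSL_n(q) and imprimitive subgroups. Here `T = PSL_n(F)` for a field `F` with `q = p^f` elements (`n ≥ 2`, `(n, q) ≠ (2, 2), (2, 3)`), `n = a·t` with `t ≥ 2`, and Ω is the set of direct-sum decompositions of `F^n` into `t` subspaces of dimension `a` (unordered; their number is the number of ordered ones divided by `t!`), whose stabilizers are the imprimitive subgroups of type GL_a(q) ≀ S_t (maximal except in some small cases; maximality is not assumed); an element of `T` of prime order `r` (a matrix `x` of determinant 1 with `x^r` scalar, `x` not scalar) fixes a point of Ω when it permutes the summands of some such decomposition. If the number of such decompositions is even, then every involution of `T` stabilizes one of them (the action is 2-elusive). -/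
theorem result {F : Type*} [Field F] [Fintype F] {p : ℕ} [Fact p.Prime] [CharP F p] {q : ℕ} (hq : Fintype.card F = q)
    (n a t : ℕ) (hn : 2 ≤ n) (hT : (n, q) ≠ (2, 2) ∧ (n, q) ≠ (2, 3)) (hat : n = a * t) (ha : 1 ≤ a) (ht : 2 ≤ t)
    (hΩ : 2 ∣ Nat.card {D : Fin t → Submodule F (Fin n → F) // Cfsg.Geo.IsMDecomposition a D} / Nat.factorial t)
    (x : Matrix.SpecialLinearGroup (Fin n) F)
    (hx1 : ∃ z : F, ((x ^ 2 : Matrix.SpecialLinearGroup (Fin n) F) : Matrix (Fin n) (Fin n) F) = z • (1 : Matrix (Fin n) (Fin n) F))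
    (hx2 : ∀ z : F, (x : Matrix (Fin n) (Fin n) F) ≠ z • (1 : Matrix (Fin n) (Fin n) F)) :
    ∃ D : Fin t → Submodule F (Fin n → F), Cfsg.Geo.IsMDecomposition a D ∧
        ∃ σ : Equiv.Perm (Fin t), ∀ j, (D j).map (Matrix.toLin' (x : Matrix (Fin n) (Fin n) F)) = D (σ j) := by
  obtain ⟨z, hz⟩ := hx1
  set A : Matrix (Fin n) (Fin n) F := (x : Matrix (Fin n) (Fin n) F) with hA
  have hzA : A * A = z • (1 : Matrix (Fin n) (Fin n) F) := by
    rw [← hz, pow_two]; simp [hA]
  have hunit : IsUnit A := by
    rw [Matrix.isUnit_iff_isUnit_det]; simp [hA]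
  obtain ⟨π, b, hπ, hb⟩ := CfsgLib.Omega.exists_monomial_basis (F := F) n (Module.finrank_fin_fun F)
    (Matrix.toLin' A) z (fun w => by simp [Matrix.mulVec_mulVec, hzA, Matrix.smul_mulVec])
  obtain ⟨e, σ, hσ⟩ := CfsgLib.Omega.exists_block_perm a t π hπ (by simp [hat])
  let b' := b.reindex (Equiv.prodUnique (Fin n) (Fin 1)).symm
  refine ⟨_, CfsgLib.Omega.isMDecomposition_span_fibres b' e ht (by simp) ha, σ,
    fun k => CfsgLib.Omega.map_span_fibres b' e ht (by simp; omega) hunit π σ hσ (fun i u => ?_) k⟩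
  obtain ⟨c, hc⟩ := hb i
  have : A *ᵥ b' (i, u) = c • b' (π i, 0) := by
    simpa [b'] using hc
  rw [this]
  exact Submodule.smul_mem _ c (Submodule.subset_span ⟨(π i, 0), rfl, rfl⟩)

end Cfsg.Agent.S5957
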