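import Cfsg.Statements.S5958
import Cfsg.Agent.Lib.Omega.PrimeOrderDecomp

set_option autoImplicit false
open scoped MatrixGroups Matrix
open Cfsg

namespace Cfsg.Agent.S5958

open CfsgLib CfsgLib.Omega.PrimeOrder

variable {F : Type*} [Field F] {n a t r : ℕ}

/-- A basis whose parts are permuted by `A` gives a stabilised decomposition. -/
theorem exists_stable_of_basis {α : Type*} [Fintype α] (b : Module.Basis α F (Fin n → F))
    (e : α ≃ Fin t × Fin a) (ht : 2 ≤ t) (ha : 0 < a) {A : Matrix (Fin n) (Fin n) F} (hA : IsUnit A)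
    (σ : Equiv.Perm (Fin t))
    (h : ∀ x, A *ᵥ b x ∈ Submodule.span F (b '' {y | (e y).1 = σ (e x).1})) :
    ∃ D : Fin t → Submodule F (Fin n → F), Cfsg.Geo.IsMDecomposition a D ∧
      ∃ σ : Equiv.Perm (Fin t), ∀ j, (D j).map (Matrix.toLin' A) = D (σ j) := by
  let b' := b.reindex (Equiv.prodUnique α (Fin 1)).symm
  have hD := Omega.isMDecomposition_span_fibres b' e ht (show a = a * Fintype.card (Fin 1) by simp) ha
  refine ⟨_, hD, σ, fun j => Omega.map_toLin'_eq_of_le hA ?_ ?_⟩
  · rw [Submodule.map_span, Submodule.span_le]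
    rintro _ ⟨_, ⟨⟨x, u⟩, hx, rfl⟩, rfl⟩
    simp only [Set.mem_setOf_eq] at hx
    have h1 : b' (x, u) = b x := by simp [b']
    rw [h1, Matrix.toLin'_apply]
    refine Submodule.span_mono ?_ (hx ▸ h x)
    rintro _ ⟨y, hy, rfl⟩
    exact ⟨(y, 0), hy, by simp [b']⟩
  · exact le_of_eq ((hD.finrank_eq (σ j)).trans (hD.finrank_eq j).symm)

variable [Fintype F] [Fact r.Prime]

theorem orderOf_pos' (hrF : (Fintype.card F : ZMod r) ≠ 0) : 0 < orderOf (Fintype.card F : ZMod r) :=
  orderOf_pos_iff.2 (isOfFinOrder_iff_pow_eq_one.2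
    ⟨r - 1, Nat.sub_pos_of_lt (Fact.out : r.Prime).one_lt, ZMod.pow_card_sub_one_eq_one hrF⟩)

/-- The pieces in dimension `c` can be distributed over the blocks. -/
theorem exists_stable_pieces (hrF : (Fintype.card F : ZMod r) ≠ 0) (hat : n = a * t) (ht : 2 ≤ t) (ha : 0 < a)
    {c : ℕ} (hc : c = orderOf (Fintype.card F : ZMod r)) (hk : n % c = t * (a % c))
    {A : Matrix (Fin n) (Fin n) F} (hA : IsUnit A) (s : F) (Y : (Fin n → F) →ₗ[F] (Fin n → F))
    (hAY : ∀ v, A *ᵥ v = s • Y v) (hY : ∀ v, Y^[r] v = v) :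
    ∃ D : Fin t → Submodule F (Fin n → F), Cfsg.Geo.IsMDecomposition a D ∧
      ∃ σ : Equiv.Perm (Fin t), ∀ j, (D j).map (Matrix.toLin' A) = D (σ j) := by
  classical
  obtain ⟨M, k, hnk, hkc, b, hb1, hb2⟩ := exists_pieces hrF n (Fin n → F) (Module.finrank_fin_fun F) Y hY
  rw [← hc] at hnk hkc
  have hc0 : 0 < c := hc ▸ orderOf_pos' hrF
  have hk' : k = t * (a % c) := by
    rw [← hk, hnk, Nat.add_comm, Nat.add_mul_mod_self_right, Nat.mod_eq_of_lt hkc]
  have hM : M = t * (a / c) := by
    refine Nat.eq_of_mul_eq_mul_right hc0 ?_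
    have : a * t = t * (a / c) * c + t * (a % c) := by
      conv_lhs => rw [← Nat.div_add_mod a c]
      ring
    omega
  let eM : Fin M ≃ Fin t × Fin (a / c) := Fintype.equivOfCardEq (by simp [hM])
  let ek : Fin k ≃ Fin t × Fin (a % c) := Fintype.equivOfCardEq (by simp [hk'])
  let ea : (Fin (a / c) × Fin (orderOf (Fintype.card F : ZMod r))) ⊕ Fin (a % c) ≃ Fin a :=
    Fintype.equivOfCardEq (by simp [← hc, Nat.div_add_mod'])
  let e := (((eM.prodCongr (Equiv.refl (Fin (orderOf (Fintype.card F : ZMod r))))).trans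
      (Equiv.prodAssoc _ _ _)).sumCongr ek).trans
    ((Equiv.prodSumDistrib _ _ _).symm.trans ((Equiv.refl (Fin t)).prodCongr ea))
  have he : ∀ i u, (e (.inl (i, u))).1 = (eM i).1 := fun i u => by simp [e]
  refine exists_stable_of_basis b e ht ha hA 1 fun x => ?_
  rw [hAY]
  refine Submodule.smul_mem _ s ?_
  rcases x with ⟨i, u⟩ | j
  · rcases hb1 i with h | ⟨h, -⟩
    · rw [h u]
      exact Submodule.subset_span ⟨_, rfl, rfl⟩
    · refine Submodule.span_mono ?_ (h _ (Submodule.subset_span ⟨u, rfl⟩))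
      rintro _ ⟨u', rfl⟩
      exact ⟨_, (by rw [Set.mem_setOf_eq, Equiv.Perm.one_apply, he, he]), rfl⟩
  · rw [hb2 j]
    exact Submodule.subset_span ⟨_, rfl, rfl⟩

/-- With enough fixed vectors every piece of dimension `r - 1` gives a cycle of `r` lines. -/
theorem exists_stable_lines (hrF : (Fintype.card F : ZMod r) ≠ 0) (hrF' : (r : F) ≠ 0) (hnt : n = t) (ht : 2 ≤ t)
    {c : ℕ} (hc : c = orderOf (Fintype.card F : ZMod r)) (hcr : c = r - 1) (hk : n ≤ n % c * r)
    {A : Matrix (Fin n) (Fin n) F} (hA : IsUnit A) (s : F) (Y : (Fin n → F) →ₗ[F] (Fin n → F))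
    (hAY : ∀ v, A *ᵥ v = s • Y v) (hY : ∀ v, Y^[r] v = v) :
    ∃ D : Fin t → Submodule F (Fin n → F), Cfsg.Geo.IsMDecomposition 1 D ∧
      ∃ σ : Equiv.Perm (Fin t), ∀ j, (D j).map (Matrix.toLin' A) = D (σ j) := by
  classical
  have hp := exists_pieces hrF n (Fin n → F) (Module.finrank_fin_fun F) Y hY
  rw [← hc] at hp
  obtain ⟨M, k, hnk, hkc, b, hb1, hb2⟩ := hp
  have hr1 : 1 < r := (Fact.out : r.Prime).one_lt
  have hc0 : 0 < c := by omega
  have hkn : n % c = k := by rw [hnk, Nat.add_comm, Nat.add_mul_mod_self_right, Nat.mod_eq_of_lt hkc]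
  have hMk : M ≤ k := by
    refine Nat.le_of_mul_le_mul_right ?_ hc0
    rw [hkn] at hk
    have : k * r = k * c + k := by
      rw [show r = c + 1 by omega]; ring
    omega
  let T : Fin M → Prop := fun i => ∀ u, Y (b (.inl (i, u))) = b (.inl (i, u))
  let z : Fin M → (Fin n → F) := fun i => b (.inl (i, ⟨0, hc0⟩))
  let v : Fin M → (Fin n → F) := fun i => b (.inr (Fin.castLE hMk i)) + z i
  let g : (Fin M × Fin c) ⊕ Fin k → (Fin n → F) := fun x => match x with
    | .inl (i, u) => if T i then b (.inl (i, u)) else Y^[(u : ℕ)] (v i)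
    | .inr j => if h : (j : ℕ) < M then (if T ⟨j, h⟩ then b (.inr j) else Y^[c] (v ⟨j, h⟩)) else b (.inr j)
  have hginl : ∀ i u, g (.inl (i, u)) = if T i then b (.inl (i, u)) else Y^[(u : ℕ)] (v i) := fun i u => rfl
  have hginr : ∀ i : Fin M, g (.inr (Fin.castLE hMk i)) =
      if T i then b (.inr (Fin.castLE hMk i)) else Y^[c] (v i) := fun i => dif_pos i.2
  have hvmem : ∀ i, ¬ T i → ∀ m < r, Y^[m] (v i) ∈ Set.range g := by
    intro i hi m hm
    by_cases hmc : m < c
    · exact ⟨.inl (i, ⟨m, hmc⟩), by rw [hginl, if_neg hi]⟩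
    · exact ⟨.inr (Fin.castLE hMk i), by rw [hginr, if_neg hi, show m = c by omega]⟩
  have hsinr : ∀ i, Y (b (.inr (Fin.castLE hMk i))) = b (.inr (Fin.castLE hMk i)) := fun i => hb2 _
  have hspan : ⊤ ≤ Submodule.span F (Set.range g) := by
    set S := Submodule.span F (Set.range g) with hS
    have hpiece : ∀ i, ¬ T i → b (.inr (Fin.castLE hMk i)) ∈ S ∧ ∀ u, b (.inl (i, u)) ∈ S := by
      intro i hi
      obtain ⟨hinv, hfree⟩ := (hb1 i).resolve_left hi
      set P := Submodule.span F (Set.range fun u => b (.inl (i, u))) with hP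
      have hzP : ∀ m : ℕ, Y^[m] (z i) ∈ P := by
        intro m
        induction m with
        | zero => exact Submodule.subset_span ⟨_, rfl⟩
        | succ m ih => rw [Function.iterate_succ_apply']; exact hinv _ ih
      have hfix : ∀ m : ℕ, Y^[m] (v i) = b (.inr (Fin.castLE hMk i)) + Y^[m] (z i) := by
        intro m
        induction m with
        | zero => rfl
        | succ m ih => rw [Function.iterate_succ_apply', Function.iterate_succ_apply', ih, map_add, hsinr]
      have hsum : ∑ m ∈ Finset.range r, Y^[m] (z i) = 0 := by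
        refine hfree _ (Submodule.sum_mem _ fun m _ => hzP m) ?_
        rw [map_sum]
        rw [Finset.sum_congr rfl fun m _ => (Function.iterate_succ_apply' Y m (z i)).symm]
        have h1 := Finset.sum_range_succ (fun m => Y^[m] (z i)) r
        rw [Finset.sum_range_succ', hY] at h1
        exact add_right_cancel h1
      have hsS : b (.inr (Fin.castLE hMk i)) ∈ S := by
        have h1 : (r : F) • b (.inr (Fin.castLE hMk i)) ∈ S := by
          have h2 : ∑ m ∈ Finset.range r, Y^[m] (v i) = (r : F) • b (.inr (Fin.castLE hMk i)) := by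
            rw [Finset.sum_congr rfl fun m _ => hfix m, Finset.sum_add_distrib, hsum, add_zero, Finset.sum_const,
              Finset.card_range, Nat.cast_smul_eq_nsmul]
          rw [← h2]
          exact Submodule.sum_mem _ fun m hm => Submodule.subset_span (hvmem i hi m (Finset.mem_range.1 hm))
        have := S.smul_mem ((r : F)⁻¹) h1
        rwa [smul_smul, inv_mul_cancel₀ hrF', one_smul] at this
      refine ⟨hsS, fun u => ?_⟩
      set O := Submodule.span F (Set.range fun m : Fin r => Y^[(m : ℕ)] (z i)) with hO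
      have hOP : O ≤ P := Submodule.span_le.2 (by rintro _ ⟨m, rfl⟩; exact hzP m)
      have hOinv : ∀ w ∈ O, Y w ∈ O := by
        intro w hw
        refine Submodule.span_induction ?_ ?_ ?_ ?_ hw
        · rintro _ ⟨m, rfl⟩
          refine Submodule.subset_span ?_
          by_cases hm : (m : ℕ) + 1 < r
          · exact ⟨⟨_, hm⟩, Function.iterate_succ_apply' Y m (z i)⟩
          · refine ⟨⟨0, by omega⟩, ?_⟩
            show z i = Y (Y^[(m : ℕ)] (z i))
            rw [show Y (Y^[(m : ℕ)] (z i)) = Y^[(m : ℕ) + 1] (z i) from (Function.iterate_succ_apply' Y m (z i)).symm,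
              show (m : ℕ) + 1 = r by omega, hY]
        · rw [map_zero]; exact zero_mem _
        · intro x y _ _ hx hy; rw [map_add]; exact add_mem hx hy
        · intro q x _ hx; rw [map_smul]; exact Submodule.smul_mem _ q hx
      have hdvd := orderOf_dvd_finrank_of_free hrF Y O hOinv (fun w _ => hY w) fun w hw => hfree w (hOP hw)
      rw [← hc] at hdvd
      have hPc : Module.finrank F P ≤ c := by
        have := finrank_range_le_card (R := F) (fun u => b (.inl (i, u)))
        rw [Fintype.card_fin] at this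
        exact this
      have hO0 : 0 < Module.finrank F O := by
        rw [Module.finrank_pos_iff, Submodule.nontrivial_iff_ne_bot]
        intro h
        have : z i ∈ O := Submodule.subset_span ⟨⟨0, by omega⟩, rfl⟩
        rw [h, Submodule.mem_bot] at this
        exact b.ne_zero _ this
      have hle : Module.finrank F P ≤ Module.finrank F O := by
        have := Nat.le_of_dvd hO0 hdvd
        omega
      have hOS : O ≤ S := by
        rw [hO, Submodule.span_le]
        rintro _ ⟨m, rfl⟩
        have h1 : Y^[(m : ℕ)] (z i) = Y^[(m : ℕ)] (v i) - b (.inr (Fin.castLE hMk i)) := by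
          rw [hfix, add_sub_cancel_left]
        show Y^[(m : ℕ)] (z i) ∈ S
        rw [h1]
        exact sub_mem (Submodule.subset_span (hvmem i hi m m.2)) hsS
      rw [Submodule.eq_of_le_of_finrank_le hOP hle] at hOS
      exact hOS (Submodule.subset_span ⟨u, rfl⟩)
    rw [← b.span_eq, Submodule.span_le]
    rintro _ ⟨⟨i, u⟩ | j, rfl⟩
    · by_cases hi : T i
      · exact Submodule.subset_span ⟨.inl (i, u), by rw [hginl, if_pos hi]⟩
      · exact (hpiece i hi).2 u
    · by_cases h : (j : ℕ) < M ∧ ¬ ∀ hj, T ⟨j, hj⟩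
      · obtain ⟨h1, h2⟩ := h
        have := (hpiece ⟨j, h1⟩ fun h3 => h2 fun _ => h3).1
        exact this
      · refine Submodule.subset_span ⟨.inr j, ?_⟩
        show (if h : (j : ℕ) < M then _ else _) = _
        split_ifs with h1 h2
        · rfl
        · exact absurd ⟨h1, fun h3 => h2 (h3 h1)⟩ h
        · rfl
  have hgY : ∀ x, ∃ y, g y = Y (g x) := by
    rintro (⟨i, u⟩ | j)
    · rw [hginl]
      by_cases hi : T i
      · exact ⟨.inl (i, u), by rw [hginl, if_pos hi, hi u]⟩
      · rw [if_neg hi, ← Function.iterate_succ_apply' Y]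
        exact hvmem i hi _ (by have := u.2; omega)
    · by_cases h : ∃ h : (j : ℕ) < M, ¬ T ⟨j, h⟩
      · obtain ⟨h1, h2⟩ := h
        rw [show g (.inr j) = Y^[c] (v ⟨j, h1⟩) by show dite _ _ _ = _; rw [dif_pos h1, if_neg h2],
          ← Function.iterate_succ_apply' Y, show c.succ = r by omega, hY]
        exact hvmem _ h2 0 (by omega)
      · have h3 : g (.inr j) = b (.inr j) := by
          show (if h : (j : ℕ) < M then _ else _) = _
          split_ifs with h1 h2
          · rfl
          · exact absurd ⟨h1, h2⟩ h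
          · rfl
        exact ⟨.inr j, by rw [h3, hb2]⟩
  have hcard : Fintype.card ((Fin M × Fin c) ⊕ Fin k) = Module.finrank F (Fin n → F) := by
    rw [Fintype.card_sum, Fintype.card_prod, Fintype.card_fin, Fintype.card_fin, Fintype.card_fin,
      Module.finrank_fin_fun, ← hnk]
  let bg := basisOfTopLeSpanOfCardEqFinrank g hspan hcard
  have hbg : ⇑bg = g := coe_basisOfTopLeSpanOfCardEqFinrank _ _ _
  choose π hπ using hgY
  have hYinj : Function.Injective Y := fun u w huw => by
    rw [← hY u, ← hY w, show r = (r - 1) + 1 by omega, Function.iterate_succ_apply,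
      Function.iterate_succ_apply, huw]
  have hπinj : Function.Injective π := fun x y h => bg.injective <| by
    rw [hbg]; exact hYinj (by rw [← hπ, ← hπ, h])
  let π' := Equiv.ofBijective π (Finite.injective_iff_bijective.1 hπinj)
  let e : (Fin M × Fin c) ⊕ Fin k ≃ Fin t × Fin 1 := Fintype.equivOfCardEq (by
    rw [hcard, Module.finrank_fin_fun, hnt, Fintype.card_prod, Fintype.card_fin, Fintype.card_fin, mul_one])
  let σ : Equiv.Perm (Fin t) := ((Equiv.prodUnique (Fin t) (Fin 1)).symm.trans
    ((e.permCongr π').trans (Equiv.prodUnique (Fin t) (Fin 1))))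
  refine exists_stable_of_basis bg e ht one_pos hA σ fun x => ?_
  rw [hAY, hbg, ← hπ x]
  refine Submodule.smul_mem _ s (Submodule.subset_span ⟨π x, ?_, rfl⟩)
  show (e (π x)).1 = σ (e x).1
  have hx : ((e x).1, (0 : Fin 1)) = e x := Prod.ext rfl (Subsingleton.elim _ _)
  simp [σ, Equiv.permCongr_apply, π', hx]

omit [Fintype F] in
/-- If `z` is no `r`-th power an element with `r`-th power `z` is monomial with cycles of length `r`. -/
theorem exists_stable_monomial {z : F} (hz : ∀ s : F, s ^ r ≠ z) (hat : n = a * t) (ht : 2 ≤ t) (ha : 0 < a)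
    {A : Matrix (Fin n) (Fin n) F} (hA : IsUnit A) (hAz : A ^ r = z • (1 : Matrix (Fin n) (Fin n) F)) :
    ∃ D : Fin t → Submodule F (Fin n → F), Cfsg.Geo.IsMDecomposition a D ∧
      ∃ σ : Equiv.Perm (Fin t), ∀ j, (D j).map (Matrix.toLin' A) = D (σ j) := by
  classical
  have hr : r.Prime := Fact.out
  set g : Polynomial F := Polynomial.X ^ r - Polynomial.C z with hg
  haveI : Fact (Irreducible g) := ⟨X_pow_sub_C_irreducible_of_prime hr hz⟩
  have hgA : Polynomial.aeval (Matrix.toLin' A : Module.End F (Fin n → F)) g = 0 := by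
    rw [hg, map_sub, map_pow, Polynomial.aeval_X, Polynomial.aeval_C, ← Matrix.toLin'_pow, hAz,
      map_smul, Matrix.toLin'_one, Algebra.algebraMap_eq_smul_one]
    exact sub_self _
  let φ : AdjoinRoot g →+* Module.End F (Fin n → F) :=
    Ideal.Quotient.lift (Ideal.span {g})
      (Polynomial.aeval (Matrix.toLin' A : Module.End F (Fin n → F))).toRingHom fun f hf => by
        obtain ⟨h, rfl⟩ := Ideal.mem_span_singleton.1 hf
        show Polynomial.aeval _ (g * h) = 0
        rw [map_mul, hgA, zero_mul]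
  letI : Module (AdjoinRoot g) (Fin n → F) := Module.compHom _ φ
  have hsmul : ∀ (f : Polynomial F) (v : Fin n → F),
      AdjoinRoot.mk g f • v = Polynomial.aeval (Matrix.toLin' A : Module.End F (Fin n → F)) f v := fun f v => rfl
  haveI : IsScalarTower F (AdjoinRoot g) (Fin n → F) := ⟨fun q k v => by
    induction k using AdjoinRoot.induction_on with
    | ih f => rw [AdjoinRoot.smul_mk, hsmul, hsmul, map_smul]; rfl⟩
  haveI : Module.Finite (AdjoinRoot g) (Fin n → F) := Module.Finite.of_restrictScalars_finite F _ _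
  let w := Module.finBasis (AdjoinRoot g) (Fin n → F)
  set m := Module.finrank (AdjoinRoot g) (Fin n → F)
  let pb := AdjoinRoot.powerBasis (f := g) (Fact.out : Irreducible g).ne_zero
  have hdim : pb.dim = r := by
    simp [pb, hg, Polynomial.natDegree_X_pow_sub_C]
  let b : Module.Basis (Fin r × Fin m) F (Fin n → F) :=
    (pb.basis.reindex (finCongr hdim)).smulTower w
  have hb : ∀ u i, b (u, i) = (A ^ (u : ℕ)) *ᵥ w i := by
    intro u i
    rw [Module.Basis.smulTower_apply, Module.Basis.reindex_apply, PowerBasis.basis_eq_pow]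
    show ((AdjoinRoot.powerBasis _).gen ^ (((finCongr hdim).symm u : Fin pb.dim) : ℕ)) • w i = _
    rw [AdjoinRoot.powerBasis_gen, ← AdjoinRoot.mk_X, ← map_pow, hsmul, map_pow, Polynomial.aeval_X,
      ← Matrix.toLin'_pow, Matrix.toLin'_apply]
    rfl
  have hstep : ∀ u i, A *ᵥ b (u, i) ∈ Submodule.span F {b (finRotate r u, i)} := by
    intro u i
    rw [hb u i, Matrix.mulVec_mulVec, ← pow_succ']
    obtain ⟨r', rfl⟩ : ∃ r', r = r' + 1 := ⟨r - 1, by have := hr.pos; omega⟩
    by_cases hu : u = Fin.last r'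
    · subst hu
      rw [Fin.val_last, hAz, Matrix.smul_mulVec, Matrix.one_mulVec, finRotate_last, hb, Fin.val_zero, pow_zero,
        Matrix.one_mulVec]
      exact Submodule.smul_mem _ z (Submodule.mem_span_singleton_self _)
    · have : ((finRotate (r' + 1) u : Fin (r' + 1)) : ℕ) = (u : ℕ) + 1 := coe_finRotate_of_ne_last hu
      rw [hb, this]
      exact Submodule.mem_span_singleton_self _
  have hn : r * m = a * t := by
    have := Module.finrank_eq_card_basis b
    simp only [Module.finrank_fin_fun, Fintype.card_prod, Fintype.card_fin] at this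
    omega
  rcases (Nat.Prime.dvd_mul hr).1 ⟨m, hn.symm⟩ with ⟨a', rfl⟩ | ⟨t', rfl⟩
  · let em : Fin m ≃ Fin t × Fin a' := Fintype.equivOfCardEq (by
      simp only [Fintype.card_fin, Fintype.card_prod]
      exact Nat.eq_of_mul_eq_mul_left hr.pos (by rw [hn]; ring))
    let e : Fin r × Fin m ≃ Fin t × Fin (r * a') :=
      ((Equiv.refl (Fin r)).prodCongr em).trans ((Equiv.prodAssoc _ _ _).symm.trans
        (((Equiv.prodComm (Fin r) (Fin t)).prodCongr (Equiv.refl _)).trans ((Equiv.prodAssoc _ _ _).trans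
          ((Equiv.refl (Fin t)).prodCongr finProdFinEquiv))))
    refine exists_stable_of_basis b e ht ha hA 1 fun ⟨u, i⟩ => ?_
    refine Submodule.span_mono ?_ (hstep u i)
    rintro _ rfl
    exact ⟨_, by simp [e], rfl⟩
  · let em : Fin m ≃ Fin t' × Fin a := Fintype.equivOfCardEq (by
      simp only [Fintype.card_fin, Fintype.card_prod]
      exact Nat.eq_of_mul_eq_mul_left hr.pos (by rw [hn]; ring))
    let e : Fin r × Fin m ≃ Fin (r * t') × Fin a :=
      ((Equiv.refl (Fin r)).prodCongr em).trans ((Equiv.prodAssoc _ _ _).symm.trans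
        (finProdFinEquiv.prodCongr (Equiv.refl _)))
    refine exists_stable_of_basis b e ht ha hA
      (finProdFinEquiv.permCongr ((finRotate r).prodCongr (Equiv.refl (Fin t')))) fun ⟨u, i⟩ => ?_
    refine Submodule.span_mono ?_ (hstep u i)
    rintro _ rfl
    exact ⟨_, by simp [e, Equiv.permCongr_apply], rfl⟩

/-- An element of order `r` with exactly `n - m c` independent fixed vectors. -/
theorem exists_element (p : ℕ) [Fact p.Prime] [CharP F p] (hrF : (Fintype.card F : ZMod r) ≠ 0)
    (hroot : ∀ s : F, s ^ r = 1 → s = 1) {c m : ℕ} (hc : c = orderOf (Fintype.card F : ZMod r)) (hm : 0 < m)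
    (hmn : m * c ≤ n) :
    ∃ x : Matrix.SpecialLinearGroup (Fin n) F, x ^ r = 1 ∧
      (∀ z : F, (x : Matrix (Fin n) (Fin n) F) ≠ z • (1 : Matrix (Fin n) (Fin n) F)) ∧
      (∀ v, (Matrix.toLin' (x : Matrix (Fin n) (Fin n) F))^[r] v = v) ∧
      Module.finrank F (LinearMap.ker (Matrix.toLin' (x : Matrix (Fin n) (Fin n) F) - LinearMap.id)) = n - m * c := by
  classical
  have hc0 : 0 < c := hc ▸ orderOf_pos' hrF
  haveI : NeZero c := ⟨hc0.ne'⟩
  let K := FiniteField.Extension F p c
  letI : Fintype K := Fintype.ofFinite K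
  have hcard : Fintype.card K = Fintype.card F ^ c := by
    have := FiniteField.natCard_extension F p c
    rwa [Nat.card_eq_fintype_card, Nat.card_eq_fintype_card] at this
  obtain ⟨ζ, hζ, hζ1, hζ0⟩ : ∃ ζ : K, ζ ^ r = 1 ∧ ζ ≠ 1 ∧ ζ ≠ 0 := by
    obtain ⟨w, hw⟩ := exists_prime_orderOf_dvd_card' (G := Kˣ) r (by
      rw [Nat.card_eq_fintype_card, Fintype.card_units, hcard, ← ZMod.natCast_eq_zero_iff,
        Nat.cast_sub (Nat.one_le_pow _ _ Fintype.card_pos)]
      push_cast
      rw [hc, pow_orderOf_eq_one, sub_self])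
    refine ⟨(w : K), ?_, fun h1 => ?_, w.ne_zero⟩
    · rw [← Units.val_pow_eq_pow_val, ← hw, pow_orderOf_eq_one, Units.val_one]
    · rw [Units.val_eq_one] at h1
      rw [h1, orderOf_one] at hw
      exact (Fact.out : r.Prime).one_lt.ne hw
  let j := n - m * c
  have hdim : Module.finrank F (Fin n → F) = Module.finrank F ((Fin m → K) × (Fin j → F)) := by
    rw [Module.finrank_prod, Module.finrank_fin_fun, Module.finrank_fin_fun, Module.finrank_pi_fintype,
      FiniteField.finrank_extension F p c, Finset.sum_const, Finset.card_univ, Fintype.card_fin, smul_eq_mul]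
    omega
  let E := LinearEquiv.ofFinrankEq (Fin n → F) ((Fin m → K) × (Fin j → F)) hdim
  let L : ((Fin m → K) × (Fin j → F)) →ₗ[F] ((Fin m → K) × (Fin j → F)) :=
    ((Algebra.lsmul F F (Fin m → K) : K →ₐ[F] Module.End F (Fin m → K)) ζ).prodMap LinearMap.id
  let Y : (Fin n → F) →ₗ[F] (Fin n → F) := E.symm.toLinearMap ∘ₗ L ∘ₗ E.toLinearMap
  have hY : ∀ v, E (Y v) = (ζ • (E v).1, (E v).2) := fun v => by simp [Y, L]
  have hit : ∀ (i : ℕ) v, E (Y^[i] v) = (ζ ^ i • (E v).1, (E v).2) := by
    intro i
    induction i with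
    | zero => intro v; simp
    | succ i ih => intro v; rw [Function.iterate_succ_apply', hY, ih, smul_smul, ← pow_succ']
  have hYr : ∀ v, Y^[r] v = v := fun v => E.injective (by rw [hit, hζ, one_smul])
  have hker : Module.finrank F (LinearMap.ker (Y - LinearMap.id)) = j := by
    let ψ : (Fin j → F) →ₗ[F] (Fin n → F) := E.symm.toLinearMap ∘ₗ LinearMap.inr F _ _
    have h1 : LinearMap.range ψ = LinearMap.ker (Y - LinearMap.id) := by
      ext v
      rw [LinearMap.mem_ker, LinearMap.sub_apply, LinearMap.id_apply, sub_eq_zero, LinearMap.mem_range]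
      constructor
      · rintro ⟨f, rfl⟩
        exact E.injective (by simp [hY, ψ])
      · intro h
        refine ⟨(E v).2, E.injective ?_⟩
        have h2 := congrArg Prod.fst (hY v)
        rw [h] at h2
        have h3 : (E v).1 = 0 := funext fun i => by
          by_contra hne
          exact hζ1 (mul_right_cancel₀ hne (by rw [one_mul]; exact (congrFun h2 i).symm))
        simp [ψ, ← h3]
    rw [← h1, LinearMap.finrank_range_of_inj (f := ψ) (E.symm.injective.comp LinearMap.inr_injective),
      Module.finrank_fin_fun]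
  have hM : (LinearMap.toMatrix' Y) ^ r = 1 := by
    refine Matrix.toLin'.injective ?_
    rw [Matrix.toLin'_pow, Matrix.toLin'_toMatrix', Matrix.toLin'_one, pow_eq_one_of_iterate hYr]
    rfl
  have hdet : (LinearMap.toMatrix' Y).det = 1 := hroot _ (by rw [← Matrix.det_pow, hM, Matrix.det_one])
  refine ⟨⟨LinearMap.toMatrix' Y, hdet⟩, ?_, ?_, fun v => ?_, ?_⟩
  · exact Subtype.ext ((Matrix.SpecialLinearGroup.coe_pow _ _).trans hM)
  · intro z hz
    have hn : 0 < n := lt_of_lt_of_le (Nat.mul_pos hm hc0) hmn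
    have h1 : z = 1 := hroot z (by
      have h := hM
      rw [show LinearMap.toMatrix' Y = z • (1 : Matrix (Fin n) (Fin n) F) from hz, smul_pow, one_pow] at h
      have h2 := congrFun (congrFun h ⟨0, hn⟩) ⟨0, hn⟩
      simpa using h2)
    have h2 : Y = LinearMap.id := by
      rw [← Matrix.toLin'_toMatrix' Y, show LinearMap.toMatrix' Y = z • (1 : Matrix (Fin n) (Fin n) F) from hz, h1,
        one_smul, Matrix.toLin'_one]
    rw [h2, sub_self, LinearMap.ker_zero, finrank_top, Module.finrank_fin_fun] at hker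
    have : 0 < m * c := Nat.mul_pos hm hc0
    omega
  · simp [hYr]
  · show Module.finrank F (LinearMap.ker (Matrix.toLin' (LinearMap.toMatrix' Y) - LinearMap.id)) = n - m * c
    rw [Matrix.toLin'_toMatrix']
    exact hker


/-- Elements of odd prime order of PSL_n(q) and imprimitive subgroups. Here `T = PSL_n(F)` for a field `F` with `q = p^f` elements (`n ≥ 2`, `(n, q) ≠ (2, 2), (2, 3)`), `n = a·t` with `t ≥ 2`, and Ω is the set of direct-sum decompositions of `F^n` into `t` subspaces of dimension `a` (unordered; their number is the number of ordered ones divided by `t!`), whose stabilizers are the imprimitive subgroups of type GL_a(q) ≀ S_t (maximal except in some small cases; maximality is not assumed); an element of `T` of prime order `r` (a matrix `x` of determinant 1 with `x^r` scalar, `x` not scalar) fixes a point of Ω when it permutes the summands of some such decomposition. Let `r ≠ p` be an odd prime dividing the number of such decompositions, let `c` be the multiplicative order of `q` modulo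 `r`, and write `k = n mod c`, `ℓ = a mod c`. Then every element of `T` of order `r` stabilizes such a decomposition if and only if either `a = 1`, `c = r − 1 > 1` and `n ≤ k·r`, or `c ≤ a` and `k = t·ℓ`. -/
theorem result {F : Type*} [Field F] [Fintype F] {p : ℕ} [Fact p.Prime] [CharP F p] {q : ℕ} (hq : Fintype.card F = q)
    (n a t : ℕ) (hn : 2 ≤ n) (hT : (n, q) ≠ (2, 2) ∧ (n, q) ≠ (2, 3)) (hat : n = a * t) (ha : 1 ≤ a) (ht : 2 ≤ t)
    (r : ℕ) [Fact r.Prime] (hr2 : r ≠ 2) (hrp : r ≠ p) (hΩ : r ∣ Nat.card {D : Fin t → Submodule F (Fin n → F) // Cfsg.Geo.IsMDecomposition a D} / Nat.factorial t)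
    (c : ℕ) (hc : c = orderOf (q : ZMod r)) :
    (∀ x : Matrix.SpecialLinearGroup (Fin n) F,
      (∃ z : F, ((x ^ r : Matrix.SpecialLinearGroup (Fin n) F) : Matrix (Fin n) (Fin n) F) = z • (1 : Matrix (Fin n) (Fin n) F)) →
      (∀ z : F, (x : Matrix (Fin n) (Fin n) F) ≠ z • (1 : Matrix (Fin n) (Fin n) F)) →
      ∃ D : Fin t → Submodule F (Fin n → F), Cfsg.Geo.IsMDecomposition a D ∧
        ∃ σ : Equiv.Perm (Fin t), ∀ j, (D j).map (Matrix.toLin' (x : Matrix (Fin n) (Fin n) F)) = D (σ j)) ↔
    ((a = 1 ∧ 1 < c ∧ c = r - 1 ∧ n ≤ (n % c) * r) ∨ (c ≤ a ∧ n % c = t * (a % c))) := by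
  classical
  subst hq
  have hr : r.Prime := Fact.out
  obtain ⟨f, hp', hf⟩ := FiniteField.card F p
  have hrF : (Fintype.card F : ZMod r) ≠ 0 := by
    rw [Ne, ZMod.natCast_eq_zero_iff, hf]
    exact fun h => hrp ((Nat.prime_dvd_prime_iff_eq hr hp').1 (hr.dvd_of_dvd_pow h))
  have hrF' : (r : F) ≠ 0 := by
    rw [Ne, CharP.cast_eq_zero_iff F p]
    exact fun h => hrp ((Nat.prime_dvd_prime_iff_eq hp' hr).1 h).symm
  have hr1 : 1 < r := hr.one_lt
  have hc0 : 0 < c := hc ▸ orderOf_pos' hrF
  have hroot : 1 < c → ∀ s : F, s ^ r = 1 → s = 1 := by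
    intro hc1 s hs
    have hs0 : s ≠ 0 := by rintro rfl; rw [zero_pow hr.ne_zero] at hs; exact zero_ne_one hs
    by_contra hs1
    have hord : orderOf (Units.mk0 s hs0) = r := orderOf_eq_prime (Units.ext (by simp [hs]))
      (fun h => hs1 (by simpa using congrArg Units.val h))
    have h := orderOf_dvd_natCard (Units.mk0 s hs0)
    rw [hord, Nat.card_eq_fintype_card, Fintype.card_units, ← ZMod.natCast_eq_zero_iff,
      Nat.cast_sub Fintype.card_pos, sub_eq_zero, Nat.cast_one] at h
    rw [hc, h, orderOf_one] at hc1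
    exact lt_irrefl _ hc1
  constructor
  · -- necessity
    intro H
    by_contra hneg
    rw [not_or] at hneg
    have hc1 : 1 < c := by
      by_contra h
      have : c = 1 := by omega
      exact hneg.2 ⟨by omega, by simp [this, Nat.mod_one]⟩
    have hroot := hroot hc1
    have hcn : c ≤ n := by
      have h := hΩ.trans (Omega.card_decomp_div_dvd hat (by omega) ht)
      rw [ClassicalLinear.card_GL, Fintype.card_fin] at h
      obtain ⟨i, -, hi⟩ := (hr.prime.dvd_finsetProd_iff _).1 h
      have hin : (i : ℕ) < n := i.2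
      rw [← ZMod.natCast_eq_zero_iff, Nat.cast_sub (Nat.pow_le_pow_right Fintype.card_pos hin.le)] at hi
      push_cast at hi
      have hsplit : (Fintype.card F : ZMod r) ^ n = (Fintype.card F : ZMod r) ^ (i : ℕ) *
          (Fintype.card F : ZMod r) ^ (n - i) := by rw [← pow_add, Nat.add_sub_cancel' hin.le]
      rw [sub_eq_zero, hsplit, mul_eq_left₀ (pow_ne_zero _ hrF)] at hi
      have := Nat.le_of_dvd (by omega) (orderOf_dvd_of_pow_eq_one hi)
      rw [← hc] at this
      omega
    by_cases hsmall : a < c ∧ ¬ (a = 1 ∧ c = r - 1)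
    · obtain ⟨x, hxr, hxne, hY, hker⟩ := exists_element (n := n) p hrF hroot (m := 1) hc one_pos (by omega)
      obtain ⟨D, hD, σ, hσ⟩ := H x ⟨1, by rw [hxr, one_smul]; rfl⟩ hxne
      set Y := Matrix.toLin' (x : Matrix (Fin n) (Fin n) F)
      have hσ1 : ∀ j, σ j = j := by
        intro j
        by_contra hj
        have h1 := mul_le_finrank_range hD hσ hY hj
        have h2 := LinearMap.finrank_range_add_finrank_ker (Y - LinearMap.id)
        rw [Module.finrank_fin_fun] at h2
        have hcr : c ≤ r - 1 := by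
          rw [hc]
          exact Nat.le_of_dvd (by omega) (ZMod.orderOf_dvd_card_sub_one hrF)
        have h3 : (r - 1) * a ≤ r - 1 := by omega
        have ha1 : a = 1 := by
          by_contra ha2
          have : (r - 1) * 2 ≤ (r - 1) * a := Nat.mul_le_mul_left _ (by omega)
          omega
        subst ha1
        exact hsmall.2 ⟨rfl, by omega⟩
      have hfix : ∀ j, fixedIn Y (D j) = D j := by
        intro j
        have hd := orderOf_dvd_sub_finrank hrF Y (D j)
          (fun w hw => by rw [show D j = (D j).map Y by rw [hσ, hσ1]]; exact ⟨w, hw, rfl⟩) (fun w _ => hY w)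
        rw [← hc, hD.finrank_eq] at hd
        refine Submodule.eq_of_le_of_finrank_le (fixedIn_le _ _) ?_
        rw [hD.finrank_eq]
        by_contra h
        have := Nat.le_of_dvd (by omega) hd
        omega
      have h := finrank_fixed_eq_sum hD (fun j => by rw [hσ, hσ1] : ∀ j, (D j).map Y = D j)
      rw [hker] at h
      rw [Finset.sum_congr rfl fun j _ => show Module.finrank F (fixedIn Y (D j)) = a by rw [hfix, hD.finrank_eq]] at h
      rw [Finset.sum_const, Finset.card_univ, Fintype.card_fin, smul_eq_mul, Nat.mul_comm t a, ← hat] at h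
      omega
    · have hM : 0 < n / c := Nat.div_pos hcn hc0
      obtain ⟨x, hxr, hxne, hY, hker⟩ := exists_element (n := n) p hrF hroot (m := n / c) hc hM
        (Nat.div_mul_le_self n c)
      obtain ⟨D, hD, σ, hσ⟩ := H x ⟨1, by rw [hxr, one_smul]; rfl⟩ hxne
      set Y := Matrix.toLin' (x : Matrix (Fin n) (Fin n) F)
      rw [show n - n / c * c = n % c by have := Nat.div_add_mod' n c; omega] at hker
      have hkc : n % c < c := Nat.mod_lt _ hc0
      by_cases hA1 : a = 1 ∧ c = r - 1
      · obtain ⟨rfl, hcr⟩ := hA1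
        have hle := le_mul_finrank_fixed hroot hD hσ hY
        rw [hker] at hle
        exact hneg.1 ⟨rfl, hc1, hcr, by rw [Nat.mul_comm (n % c) r]; omega⟩
      · have hca : c ≤ a := by
          by_contra h
          exact hsmall ⟨by omega, hA1⟩
        have hσ1 : ∀ j, σ j = j := by
          intro j
          by_contra hj
          have := le_finrank_fixed hD hσ hY hj
          omega
        have hle : ∀ j, a % c ≤ Module.finrank F (fixedIn Y (D j)) := by
          intro j
          have hd := orderOf_dvd_sub_finrank hrF Y (D j)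
            (fun w hw => by rw [show D j = (D j).map Y by rw [hσ, hσ1]]; exact ⟨w, hw, rfl⟩) (fun w _ => hY w)
          rw [← hc, hD.finrank_eq] at hd
          have hlea : Module.finrank F (fixedIn Y (D j)) ≤ a :=
            (Submodule.finrank_mono (fixedIn_le _ _)).trans_eq (hD.finrank_eq j)
          have h1 : Module.finrank F (fixedIn Y (D j)) ≡ a [MOD c] := (Nat.modEq_iff_dvd' hlea).2 hd
          calc a % c = Module.finrank F (fixedIn Y (D j)) % c := h1.symm
            _ ≤ _ := Nat.mod_le _ _
        have hsum : t * (a % c) ≤ n % c := by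
          rw [← hker, finrank_fixed_eq_sum hD (fun j => by rw [hσ, hσ1] : ∀ j, (D j).map Y = D j)]
          calc t * (a % c) = ∑ _j : Fin t, a % c := by simp
            _ ≤ _ := Finset.sum_le_sum fun j _ => hle j
        refine hneg.2 ⟨hca, ?_⟩
        conv_lhs => rw [hat, Nat.mul_comm, Nat.mul_mod, Nat.mod_mul_mod]
        exact Nat.mod_eq_of_lt (by omega)
  · -- sufficiency
    intro hyp x ⟨z, hz⟩ hxne
    set A : Matrix (Fin n) (Fin n) F := (x : Matrix (Fin n) (Fin n) F) with hA
    have hunit : IsUnit A := by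
      rw [Matrix.isUnit_iff_isUnit_det, hA, x.det_coe]
      exact isUnit_one
    have hAz : A ^ r = z • (1 : Matrix (Fin n) (Fin n) F) := by rw [← hz]; simp [hA]
    by_cases hs : ∃ s : F, s ^ r = z
    · obtain ⟨s, hs⟩ := hs
      have hs0 : s ≠ 0 := by
        rintro rfl
        rw [zero_pow hr.ne_zero] at hs
        rw [← hs, zero_smul] at hAz
        haveI : Nonempty (Fin n) := ⟨⟨0, by omega⟩⟩
        have := congrArg Matrix.det hAz
        rw [Matrix.det_pow, hA, x.det_coe, one_pow, Matrix.det_zero] at this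
        exact one_ne_zero this
      let Y : (Fin n → F) →ₗ[F] (Fin n → F) := Matrix.toLin' (s⁻¹ • A)
      have hAY : ∀ v, A *ᵥ v = s • Y v := fun v => by
        simp [Y, Matrix.smul_mulVec, smul_smul, mul_inv_cancel₀ hs0]
      have hY : ∀ v, Y^[r] v = v := fun v => by
        rw [← Module.End.pow_apply, ← Matrix.toLin'_pow, smul_pow, hAz, smul_smul, ← hs, ← mul_pow,
          inv_mul_cancel₀ hs0, one_pow, one_smul, Matrix.toLin'_one]
        rfl
      rcases hyp with ⟨ha1, -, hcr, hk⟩ | ⟨-, hk⟩
      · subst ha1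
        exact exists_stable_lines hrF hrF' (by omega) ht hc hcr hk hunit s Y hAY hY
      · exact exists_stable_pieces hrF hat ht (by omega) hc hk hunit s Y hAY hY
    · exact exists_stable_monomial (fun s h => hs ⟨s, h⟩) hat ht (by omega) hunit hAz

end Cfsg.Agent.S5958
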