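import Cfsg.Statements.S5959
import Cfsg.Agent.Lib.Omega.JordanType

set_option autoImplicit false
open scoped MatrixGroups Matrix
open Cfsg

namespace Cfsg.Agent.S5959

/-- Elements of order `p` of PSL_n(q) and imprimitive subgroups: a necessary condition. Here `T = PSL_n(F)` for a field `F` with `q = p^f` elements (`n ≥ 2`, `(n, q) ≠ (2, 2), (2, 3)`), `n = a·t` with `t ≥ 2`, and Ω is the set of direct-sum decompositions of `F^n` into `t` subspaces of dimension `a` (unordered; their number is the number of ordered ones divided by `t!`), whose stabilizers are the imprimitive subgroups of type GL_a(q) ≀ S_t (maximal except in some small cases; maximality is not assumed); an element of `T` of prime order `r` (a matrix `x` of determinant 1 with `x^r` scalar, `x` not scalar) fixes a point of Ω when it permutes the summands of some such decomposition. Suppose `p > 2` divides the number of such decompositions. If every element of `T` of order `p` stabilizes such a decomposition, then every partition of `n` into parts of size at most `p`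 in which the part `p` occurs fewer than `a` times contains (as a sub-multiset) a partition of `a`. -/
theorem result {F : Type*} [Field F] [Fintype F] {p : ℕ} [Fact p.Prime] [CharP F p] {q : ℕ} (hq : Fintype.card F = q)
    (n a t : ℕ) (hn : 2 ≤ n) (hT : (n, q) ≠ (2, 2) ∧ (n, q) ≠ (2, 3)) (hat : n = a * t) (ha : 1 ≤ a) (ht : 2 ≤ t)
    (hp : 2 < p) (hΩ : p ∣ Nat.card {D : Fin t → Submodule F (Fin n → F) // Cfsg.Geo.IsMDecomposition a D} / Nat.factorial t)
    (h : ∀ x : Matrix.SpecialLinearGroup (Fin n) F,
      (∃ z : F, ((x ^ p : Matrix.SpecialLinearGroup (Fin n) F) : Matrix (Fin n) (Fin n) F) = z • (1 : Matrix (Fin n) (Fin n) F)) →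
      (∀ z : F, (x : Matrix (Fin n) (Fin n) F) ≠ z • (1 : Matrix (Fin n) (Fin n) F)) →
      ∃ D : Fin t → Submodule F (Fin n → F), Cfsg.Geo.IsMDecomposition a D ∧
        ∃ σ : Equiv.Perm (Fin t), ∀ j, (D j).map (Matrix.toLin' (x : Matrix (Fin n) (Fin n) F)) = D (σ j)) :
    (∀ μ : Multiset ℕ, (∀ b ∈ μ, 0 < b ∧ b ≤ p) → μ.sum = n → μ.count p < a → ∃ ν : Multiset ℕ, ν ≤ μ ∧ ν.sum = a) := by
  classical
  intro μ hμb hsum hcount
  have hp1 : 1 ≤ p := by omega
  obtain ⟨N, hNp, hrank⟩ := CfsgLib.Omega.exists_nilpotent_of_parts (F := F) (V := Fin n → F) (p := p) μ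
    (fun b hb => (hμb b hb).2) (by simp [hsum])
  set M : Matrix (Fin n) (Fin n) F := LinearMap.toMatrix' N with hM
  set A : Matrix (Fin n) (Fin n) F := 1 + M with hA
  have hMp : M ^ p = 0 := by
    have h1 : LinearMap.toMatrixAlgEquiv' N = M := rfl
    rw [← h1, ← map_pow, hNp, map_zero]
  have hAp : A ^ p = 1 := by
    cases isEmpty_or_nonempty (Fin n) with
    | inl h => exact Subsingleton.elim _ _
    | inr h => rw [hA, add_pow_char_of_commute _ (Commute.one_left M), hMp, one_pow, add_zero]
  have hdet : A.det = 1 := by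
    have h1 := congrArg Matrix.det hAp
    rw [Matrix.det_pow, Matrix.det_one] at h1
    refine sub_eq_zero.1 (eq_zero_of_pow_eq_zero (n := p) ?_)
    rw [sub_pow_char, h1, one_pow, sub_self]
  have hzero : N = 0 → ∃ ν : Multiset ℕ, ν ≤ μ ∧ ν.sum = a := by
    intro hN0
    have h1 : (μ.map (fun b => b - 1)).sum = 0 := by
      rw [← hrank 1]; simp [CfsgLib.Omega.rankSeq, hN0]
    have hall : ∀ b ∈ μ, b = 1 := fun b hb => by
      have h2 := Multiset.single_le_sum (s := μ.map (fun b => b - 1)) (fun _ _ => Nat.zero_le _) (b - 1)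
        (Multiset.mem_map_of_mem (fun b => b - 1) hb)
      have := (hμb b hb).1
      omega
    have hμ1 : μ = Multiset.replicate (Multiset.card μ) 1 := Multiset.eq_replicate_card.2 hall
    refine ⟨Multiset.replicate a 1, ?_, by simp⟩
    have hcard : Multiset.card μ = n := by
      rw [hμ1] at hsum; simpa using hsum
    rw [hμ1, hcard, hat]
    exact Multiset.le_replicate_iff.2 ⟨a, Nat.le_mul_of_pos_right a (by omega), rfl⟩
  by_cases hN0 : N = 0
  · exact hzero hN0
  have hns : ∀ z : F, A ≠ z • (1 : Matrix (Fin n) (Fin n) F) := by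
    intro z hz
    have hz1 : z = 1 := by
      have h1 := hAp
      rw [hz, smul_pow, one_pow] at h1
      have hne : Nonempty (Fin n) := ⟨⟨0, by omega⟩⟩
      have h2 := congrFun (congrFun h1 ⟨0, by omega⟩) ⟨0, by omega⟩
      simp at h2
      exact sub_eq_zero.1 (eq_zero_of_pow_eq_zero (n := p) (by rw [sub_pow_char, h2, one_pow, sub_self]))
    apply hN0
    have : M = 0 := by
      rw [hz1, one_smul, hA] at hz
      simpa using hz
    exact LinearMap.toMatrix'.injective (by rw [← hM, this, map_zero])
  let x : Matrix.SpecialLinearGroup (Fin n) F := ⟨A, hdet⟩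
  obtain ⟨D, hD, σ, hσ⟩ := h x ⟨1, by rw [one_smul]; exact (Matrix.SpecialLinearGroup.coe_pow x p).trans hAp⟩ hns
  set g : Module.End F (Fin n → F) := Matrix.toLin' A with hg
  have hgN : g = 1 + N := by
    rw [hg, hA, map_add, Matrix.toLin'_one, hM, Matrix.toLin'_toMatrix']
    rfl
  have hgp : g ^ p = 1 := by
    have h1 : g = Matrix.toLinAlgEquiv' A := rfl
    rw [h1, ← map_pow, hAp, map_one]
  have hpow : ∀ i j, (D j).map (g ^ i : Module.End F (Fin n → F)) = D ((σ ^ i) j) := by
    intro i
    induction i with
    | zero => intro j; simp [Module.End.one_eq_id]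
    | succ i ih =>
      intro j
      rw [pow_succ', Module.End.mul_eq_comp, Submodule.map_comp, ih, pow_succ', Equiv.Perm.mul_apply]
      exact hσ _
  have hDne : ∀ j, D j ≠ ⊥ := fun j h0 => by
    have := hD.finrank_eq j
    rw [h0, finrank_bot] at this
    omega
  have hDinj : Function.Injective D := hD.indep.injective hDne
  have hσp : σ ^ p = 1 := by
    ext j : 1
    refine hDinj ?_
    rw [← hpow, hgp, Module.End.one_eq_id, Submodule.map_id, Equiv.Perm.one_apply]
  by_cases hσ1 : σ = 1
  · let j₀ : Fin t := ⟨0, by omega⟩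
    have hinv : ∀ j, (D j).map N ≤ D j := by
      intro j
      rintro _ ⟨v, hv, rfl⟩
      have h1 : g v ∈ D j := by
        have h2 : (D j).map g = D (σ j) := hσ j
        rw [hσ1, Equiv.Perm.one_apply] at h2
        rw [← h2]
        exact Submodule.mem_map_of_mem hv
      have h3 : N v = g v - v := by rw [hgN]; simp
      rw [h3]
      exact (D j).sub_mem h1 hv
    let C := ⨆ j, ⨆ (_ : j ≠ j₀), D j
    have hcompl : IsCompl (D j₀) C := by
      refine ⟨hD.indep j₀, ?_⟩
      rw [codisjoint_iff, eq_top_iff, ← hD.iSup_eq_top]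
      refine iSup_le fun j => ?_
      by_cases hj : j = j₀
      · exact hj ▸ le_sup_left
      · exact le_sup_of_le_right (le_iSup₂_of_le j hj le_rfl)
    have hCinv : C.map N ≤ C := by
      rw [Submodule.map_iSup]
      refine iSup_le fun j => ?_
      rw [Submodule.map_iSup]
      refine iSup_le fun hj => ?_
      exact le_iSup₂_of_le (f := fun j (_ : j ≠ j₀) => D j) j hj (hinv j)
    exact ⟨CfsgLib.Omega.jordanParts N (D j₀) p,
      CfsgLib.Omega.jordanParts_le hcompl (hinv j₀) hCinv hrank p,
      (CfsgLib.Omega.sum_jordanParts (hinv j₀) hNp).trans (hD.finrank_eq j₀)⟩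
  · exfalso
    obtain ⟨j, hj⟩ := DFunLike.ne_iff.1 hσ1
    have hperiod : ∀ i, 0 < i → i < p → (σ ^ i) j ≠ j := by
      intro i hi0 hip heq
      have h2 : Function.minimalPeriod σ j ∣ i :=
        Function.IsPeriodicPt.minimalPeriod_dvd (show σ^[i] j = j by rw [← Equiv.Perm.coe_pow]; exact heq)
      have h3 : Function.minimalPeriod σ j ∣ p :=
        Function.IsPeriodicPt.minimalPeriod_dvd (show σ^[p] j = j by rw [← Equiv.Perm.coe_pow, hσp]; rfl)
      rcases (Nat.dvd_prime (Fact.out (p := p.Prime))).1 h3 with h4 | h4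
      · exact hj (Function.minimalPeriod_eq_one_iff_isFixedPt.1 h4)
      · rw [h4] at h2
        exact absurd (Nat.le_of_dvd hi0 h2) (by omega)
    have hgeom : N ^ (p - 1) = ∑ i ∈ Finset.range p, g ^ i := by
      have hpoly : ((Polynomial.X : Polynomial F) - 1) ^ (p - 1) = ∑ i ∈ Finset.range p, Polynomial.X ^ i := by
        have hX : ((Polynomial.X : Polynomial F) - 1) ≠ 0 := by
          rw [← Polynomial.C_1]; exact Polynomial.X_sub_C_ne_zero 1
        refine mul_right_cancel₀ hX ?_
        rw [← pow_succ, Nat.sub_add_cancel hp1, geom_sum_mul, sub_pow_char, one_pow]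
      have h1 := congrArg (Polynomial.aeval g) hpoly
      simp only [map_pow, map_sub, map_sum, Polynomial.aeval_X, map_one] at h1
      rwa [hgN, add_sub_cancel_left, ← hgN] at h1
    have hinjD : Function.Injective ((N ^ (p - 1)).domRestrict (D j)) := by
      rw [injective_iff_map_eq_zero]
      rintro ⟨v, hv⟩ h0
      simp only [LinearMap.domRestrict_apply, hgeom, LinearMap.sum_apply] at h0
      rw [← Nat.sub_add_cancel hp1, Finset.sum_range_succ'] at h0
      simp only [pow_zero, Module.End.one_apply] at h0
      have hmem : v ∈ ⨆ k, ⨆ (_ : k ≠ j), D k := by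
        rw [eq_neg_of_add_eq_zero_right h0]
        refine Submodule.neg_mem _ (Submodule.sum_mem _ fun i hi => ?_)
        rw [Finset.mem_range] at hi
        refine Submodule.mem_iSup_of_mem ((σ ^ (i + 1)) j) (Submodule.mem_iSup_of_mem
          (hperiod (i + 1) (Nat.succ_pos i) (by omega)) ?_)
        rw [← hpow]
        exact Submodule.mem_map_of_mem hv
      have := Submodule.disjoint_def.1 (hD.indep j) v hv hmem
      simpa using this
    have h1 : a ≤ CfsgLib.Omega.rankSeq N ⊤ (p - 1) := by
      rw [← hD.finrank_eq j, ← LinearMap.finrank_range_of_inj hinjD, LinearMap.range_domRestrict]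
      exact Submodule.finrank_mono (Submodule.map_mono le_top)
    rw [hrank] at h1
    have h2 : ∀ ν : Multiset ℕ, (∀ b ∈ ν, b ≤ p) → (ν.map (fun b => b - (p - 1))).sum = ν.count p := by
      intro ν hν
      induction ν using Multiset.induction_on with
      | empty => simp
      | cons b ν ih =>
        have := hν b (Multiset.mem_cons_self b ν)
        rw [Multiset.map_cons, Multiset.sum_cons, Multiset.count_cons,
          ih (fun c hc => hν c (Multiset.mem_cons_of_mem hc))]
        split_ifs <;> omega
    rw [h2 μ (fun b hb => (hμb b hb).2)] at h1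
    omega

end Cfsg.Agent.S5959
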