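import Cfsg.Statements.S5960
import Cfsg.Agent.Lib.Omega.BlockPerm
import Cfsg.Agent.Lib.Omega.SymplecticInvolution
import Cfsg.Agent.Lib.Omega.SympForm

set_option autoImplicit false
open scoped MatrixGroups Matrix
open Cfsg

namespace Cfsg.Agent.S5960

/-- Involutions of PSp_n(q) and imprimitive subgroups. Here `T = PSp_n(q)`, `n = 2d ≥ 4`, `(n, q) ≠ (4, 2)`, realised through the symplectic matrices over the field `F` with `q` elements and the standard alternating form; `n = a·t` with `a` even and `t ≥ 2`, and Ω is the (nonempty) set of orthogonal decompositions of `F^n` into `t` nondegenerate subspaces of dimension `a` (unordered; counted as ordered ones divided by `t!`), whose stabilizers are the imprimitive subgroups of type Sp_a(q) ≀ S_t (maximality is not assumed); an element of `T` of prime order `r` (a symplectic matrix `x` with `x^r` scalar, `x` not scalar) fixes a point of Ω when it permutes the summands of some such decomposition. If the number of such decompositions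 is even, then every involution of `T` stabilizes one of them (the action is 2-elusive). -/
theorem result {F : Type*} [Field F] [Fintype F] {p : ℕ} [Fact p.Prime] [CharP F p] {q : ℕ} (hq : Fintype.card F = q)
    (d : ℕ) (hd : 2 ≤ d) (hT : (d, q) ≠ (2, 2))
    (a t : ℕ) (hat : 2 * d = a * t) (ha : 2 ≤ a) (hae : Even a) (ht : 2 ≤ t) (hΩ : 2 ∣ Nat.card {D : Fin t → Submodule F (Fin d ⊕ Fin d → F) // (Cfsg.Geo.IsMDecomposition a D ∧ (∀ j, ∀ u ∈ D j, u ≠ 0 → ∃ v ∈ D j, Cfsg.sympForm d F u v ≠ 0) ∧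
          (∀ j j', j ≠ j' → ∀ u ∈ D j, ∀ v ∈ D j', Cfsg.sympForm d F u v = 0))} / Nat.factorial t)
    (x : ↥(Matrix.symplecticGroup (Fin d) F))
    (hx1 : ∃ z : F, ((x ^ 2 : ↥(Matrix.symplecticGroup (Fin d) F)) : Matrix (Fin d ⊕ Fin d) (Fin d ⊕ Fin d) F) = z • (1 : Matrix (Fin d ⊕ Fin d) (Fin d ⊕ Fin d) F))
    (hx2 : ∀ z : F, (x : Matrix (Fin d ⊕ Fin d) (Fin d ⊕ Fin d) F) ≠ z • (1 : Matrix (Fin d ⊕ Fin d) (Fin d ⊕ Fin d) F)) :
    ∃ D : Fin t → Submodule F (Fin d ⊕ Fin d → F), (Cfsg.Geo.IsMDecomposition a D ∧ (∀ j, ∀ u ∈ D j, u ≠ 0 → ∃ v ∈ D j, Cfsg.sympForm d F u v ≠ 0) ∧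
          (∀ j j', j ≠ j' → ∀ u ∈ D j, ∀ v ∈ D j', Cfsg.sympForm d F u v = 0)) ∧
        ∃ σ : Equiv.Perm (Fin t), ∀ j, (D j).map (Matrix.toLin' (x : Matrix (Fin d ⊕ Fin d) (Fin d ⊕ Fin d) F)) = D (σ j) := by
  classical
  obtain ⟨z, hz⟩ := hx1
  set A : Matrix (Fin d ⊕ Fin d) (Fin d ⊕ Fin d) F := (x : Matrix (Fin d ⊕ Fin d) (Fin d ⊕ Fin d) F) with hA
  have hzA : A * A = z • (1 : Matrix (Fin d ⊕ Fin d) (Fin d ⊕ Fin d) F) := by
    rw [← hz, pow_two]; simp [hA]
  have hAmem : A ∈ Matrix.symplecticGroup (Fin d) F := x.2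
  obtain ⟨α, _, _, b, π, hb⟩ := CfsgLib.Omega.exists_adapted_basis (B := CfsgLib.Omega.sympBilin d F)
    (f := Matrix.toLin' A) (z := z) CfsgLib.Omega.sympBilin_self CfsgLib.Omega.sympBilin_nondegenerate
    (fun u w => by simp [CfsgLib.Omega.sympBilin_apply, CfsgLib.Omega.sympForm_mulVec_of_mem hAmem])
    (fun w => by simp [Matrix.mulVec_mulVec, hzA, Matrix.smul_mulVec])
  obtain ⟨h, rfl⟩ := hae
  have hcard : Fintype.card α = h * t := by
    have h1 := Module.finrank_eq_card_basis b
    simp at h1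
    nlinarith
  obtain ⟨e, σ, hσ⟩ := CfsgLib.Omega.exists_block_perm h t π hb.inv hcard
  have hm : h + h = h * Fintype.card (Fin 2) := by simp; omega
  have hD := CfsgLib.Omega.isMDecomposition_span_fibres b e ht hm (by omega)
  refine ⟨_, ⟨hD, ?_, ?_⟩, σ, fun k => CfsgLib.Omega.map_span_fibres b e ht (by simp; omega)
    (CfsgLib.Omega.isUnit_of_mem_symplecticGroup hAmem) π σ hσ (fun i u => ?_) k⟩
  rotate_left
  · intro j j' hjj u hu v hv
    rw [← CfsgLib.Omega.sympBilin_apply]
    suffices hall : ∀ w ∈ b '' {x | (e x.1).1 = j'},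
        Submodule.span F (b '' {x | (e x.1).1 = j}) ≤ LinearMap.ker ((CfsgLib.Omega.sympBilin d F).flip w) by
      have : Submodule.span F (b '' {x | (e x.1).1 = j'}) ≤ LinearMap.ker (CfsgLib.Omega.sympBilin d F u) := by
        rw [Submodule.span_le]; intro w hw; exact hall w hw hu
      exact this hv
    rintro _ ⟨⟨i', s'⟩, hi', rfl⟩
    rw [Submodule.span_le]
    rintro _ ⟨⟨i, s⟩, hi, rfl⟩
    simp only [Set.mem_ofPred_eq] at hi hi'
    have hne : i ≠ i' := by rintro rfl; exact hjj (hi.symm.trans hi')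
    show CfsgLib.Omega.sympBilin d F (b (i, s)) (b (i', s')) = 0
    fin_cases s <;> fin_cases s'
    · exact hb.isotropic _ _ _
    · simpa [hne] using hb.pairing i i'
    · have := hb.pairing i' i
      rw [CfsgLib.Omega.alt_skew CfsgLib.Omega.sympBilin_self]
      simp [this, Ne.symm hne]
    · exact hb.isotropic _ _ _
  · have := hb.map_mem_span i u
    simpa using this
  · intro j u hu hu0
    by_contra hc
    push Not at hc
    refine hu0 (CfsgLib.Omega.sympBilin_nondegenerate u fun v => ?_)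
    have htop : ⊤ ≤ LinearMap.ker (CfsgLib.Omega.sympBilin d F u) := by
      rw [← b.span_eq, Submodule.span_le]
      rintro _ ⟨⟨i, s⟩, rfl⟩
      by_cases hij : (e i).1 = j
      · show CfsgLib.Omega.sympBilin d F u (b (i, s)) = 0
        rw [CfsgLib.Omega.sympBilin_apply]
        exact hc _ (Submodule.subset_span ⟨(i, s), hij, rfl⟩)
      · refine (Submodule.span_le (p := LinearMap.ker ((CfsgLib.Omega.sympBilin d F).flip (b (i, s))))).2 ?_ hu
        rintro _ ⟨⟨i', s'⟩, hi', rfl⟩
        simp only [Set.mem_ofPred_eq] at hi'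
        have hne : i' ≠ i := by rintro rfl; exact hij hi'
        show CfsgLib.Omega.sympBilin d F (b (i', s')) (b (i, s)) = 0
        fin_cases s <;> fin_cases s'
        · exact hb.isotropic _ _ _
        · rw [CfsgLib.Omega.alt_skew CfsgLib.Omega.sympBilin_self]
          simp [hb.pairing i i', Ne.symm hne]
        · simpa [hne] using hb.pairing i' i
        · exact hb.isotropic _ _ _
    exact htop (Submodule.mem_top (x := v))

end Cfsg.Agent.S5960
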