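import Cfsg.Statements.S5961
import Cfsg.Agent.S5980
import Cfsg.Agent.Lib.Omega.SympPieces
import Cfsg.Agent.Lib.Omega.PrimeOrderDecomp
-- import your own Cfsg.Agent.* helpers here

set_option autoImplicit false
open scoped MatrixGroups
open Cfsg

namespace Cfsg.Agent.S5961

open CfsgLib CfsgLib.Geometric CfsgLib.Omega CfsgLib.Omega.TensorRank Module
open scoped Matrix

variable {F : Type*} [Field F] {d : ℕ}

/-- The property of an orthogonal decomposition into non-degenerate parts. -/
def IsSympDecomp {t : ℕ} (a : ℕ) (D : Fin t → Submodule F (Fin d ⊕ Fin d → F)) : Prop :=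
  Cfsg.Geo.IsMDecomposition a D ∧ (∀ j, ∀ u ∈ D j, u ≠ 0 → ∃ v ∈ D j, Cfsg.sympForm d F u v ≠ 0) ∧
    (∀ j j', j ≠ j' → ∀ u ∈ D j, ∀ v ∈ D j', Cfsg.sympForm d F u v = 0)

/-- A symplectic family gives a decomposition. -/
theorem exists_decomp_of_family {α : Type} [Fintype α] [DecidableEq α] {t a' : ℕ} (ht : 2 ≤ t) (ha : 0 < a')
    (b : α × Fin 2 → (Fin d ⊕ Fin d → F)) (e : α ≃ Fin t × Fin a') (hd : d = t * a')
    (hb0 : ∀ i j s, Cfsg.sympForm d F (b (i, s)) (b (j, s)) = 0)
    (hb1 : ∀ i j, Cfsg.sympForm d F (b (i, 0)) (b (j, 1)) = if i = j then 1 else 0) :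
    IsSympDecomp (2 * a') fun k => Submodule.span F (b '' {x | (e x.1).1 = k}) := by
  classical
  have hA : AdaptedFamily (sympBilin d F) (LinearMap.id : (Fin d ⊕ Fin d → F) →ₗ[F] _) 1 b 1 :=
    ⟨one_mul _, fun i j s => (sympBilin_apply _ _).trans (hb0 i j s),
      fun i j => (sympBilin_apply _ _).trans (hb1 i j), fun i => Or.inr ⟨rfl, fun s => ⟨1, by simp⟩⟩⟩
  have hli := hA.linearIndependent (sympBilin_self (d := d) (F := F))
  let Bb : Basis (α × Fin 2) F (Fin d ⊕ Fin d → F) := Basis.mk hli (ge_of_eq (hli.span_eq_top_of_card_eq_finrank' (by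
    rw [Fintype.card_prod, Fintype.card_fin, Fintype.card_congr e, Fintype.card_prod, Fintype.card_fin,
      Fintype.card_fin, Module.finrank_fintype_fun_eq_card, Fintype.card_sum, Fintype.card_fin, hd]
    ring)))
  have hBb : ⇑Bb = b := Basis.coe_mk _ _
  have horth : ∀ x y : α × Fin 2, (e x.1).1 ≠ (e y.1).1 → Cfsg.sympForm d F (b x) (b y) = 0 := by
    rintro ⟨i, s⟩ ⟨j, s'⟩ h
    have hij : i ≠ j := fun h' => h (congrArg (fun z => (e z).1) h')
    fin_cases s <;> fin_cases s'
    · exact hb0 i j 0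
    · exact (hb1 i j).trans (if_neg hij)
    · show Cfsg.sympForm d F (b (i, 1)) (b (j, 0)) = 0
      rw [S5980.sympForm_skew, hb1, if_neg (Ne.symm hij), neg_zero]
    · exact hb0 i j 1
  have horth' : ∀ k k', k ≠ k' → ∀ u ∈ Submodule.span F (b '' {x | (e x.1).1 = k}),
      ∀ v ∈ Submodule.span F (b '' {x | (e x.1).1 = k'}), Cfsg.sympForm d F u v = 0 := by
    intro k k' hkk u hu v hv
    rw [← sympBilin_apply]
    refine (Submodule.span_le (p := LinearMap.ker (sympBilin d F u))).2 ?_ hv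
    rintro _ ⟨y, hy, rfl⟩
    show sympBilin d F u (b y) = 0
    refine (Submodule.span_le (p := LinearMap.ker ((sympBilin d F).flip (b y)))).2 ?_ hu
    rintro _ ⟨x, hx, rfl⟩
    show sympBilin d F (b x) (b y) = 0
    rw [sympBilin_apply]
    exact horth x y (by rw [Set.mem_setOf_eq] at hx hy; rw [hx, hy]; exact hkk)
  refine ⟨?_, fun k u hu hu0 => ?_, horth'⟩
  · have h := isMDecomposition_span_fibres Bb e ht (show 2 * a' = a' * Fintype.card (Fin 2) by
      rw [Fintype.card_fin, mul_comm]) (by omega)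
    rw [hBb] at h
    exact h
  · by_contra hall
    push Not at hall
    refine hu0 (sympBilin_nondegenerate u fun w => ?_)
    refine (Submodule.span_le (p := LinearMap.ker (sympBilin d F u))).2 ?_ (hBb ▸ Bb.mem_span w)
    rintro _ ⟨y, rfl⟩
    show sympBilin d F u (b y) = 0
    rw [sympBilin_apply]
    by_cases hy : (e y.1).1 = k
    · exact hall _ (Submodule.subset_span ⟨y, hy, rfl⟩)
    · exact horth' k _ (Ne.symm hy) u hu _ (Submodule.subset_span ⟨y, rfl, rfl⟩)

/-- Any two decompositions are conjugate. -/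
theorem exists_map_decomp {t a' : ℕ} (hd : d = t * a') {D D' : Fin t → Submodule F (Fin d ⊕ Fin d → F)}
    (hD : IsSympDecomp (2 * a') D) (hD' : IsSympDecomp (2 * a') D') :
    ∃ g ∈ Cfsg.spGL d F, ∀ j, (D j).map (Matrix.toLin' (g : Matrix (Fin d ⊕ Fin d) (Fin d ⊕ Fin d) F)) = D' j := by
  classical
  have fam : ∀ D : Fin t → Submodule F (Fin d ⊕ Fin d → F), IsSympDecomp (2 * a') D →
      ∃ b : (Fin t × Fin a') × Fin 2 → (Fin d ⊕ Fin d → F),
        (∀ i j s, Cfsg.sympForm d F (b (i, s)) (b (j, s)) = 0) ∧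
        (∀ i j, Cfsg.sympForm d F (b (i, 0)) (b (j, 1)) = if i = j then 1 else 0) ∧
        ∀ k, Submodule.span F (Set.range fun x : Fin a' × Fin 2 => b ((k, x.1), x.2)) = D k := by
    intro D hD
    have h1 : ∀ k, ∃ p : Fin a' × Fin 2 → (Fin d ⊕ Fin d → F),
        (∀ i j s, Cfsg.sympForm d F (p (i, s)) (p (j, s)) = 0) ∧
        (∀ i j, Cfsg.sympForm d F (p (i, 0)) (p (j, 1)) = if i = j then 1 else 0) ∧
        Submodule.span F (Set.range p) = D k := by
      intro k
      obtain ⟨α, _, _, p, h0, h1, -, hli, hspan⟩ := exists_symplectic_family (sympBilin d F) sympBilin_self (D k)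
        (fun w hw hall => by
          by_contra h0
          obtain ⟨v, hv, hne⟩ := hD.2.1 k w hw h0
          exact hne ((sympBilin_apply _ _).symm.trans (hall v hv)))
      have hα : Fintype.card α = a' := by
        have := hD.1.finrank_eq k
        rw [← hspan, finrank_span_eq_card hli, Fintype.card_prod, Fintype.card_fin] at this
        omega
      let E : Fin a' ≃ α := (Fintype.equivFinOfCardEq hα).symm
      refine ⟨fun x => p (E x.1, x.2), fun i j s => (sympBilin_apply _ _).symm.trans (h0 _ _ s),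
        fun i j => by rw [← sympBilin_apply, h1]; simp, ?_⟩
      rw [← hspan]
      congr 1
      exact Set.ext fun v => ⟨fun ⟨x, hx⟩ => ⟨_, hx⟩, fun ⟨x, hx⟩ => ⟨(E.symm x.1, x.2), by simpa using hx⟩⟩
    choose p h0 h1 hspan using h1
    refine ⟨fun x => p x.1.1 (x.1.2, x.2), fun i j s => ?_, fun i j => ?_, fun k => hspan k⟩
    · by_cases h : i.1 = j.1
      · obtain ⟨k, u⟩ := i; obtain ⟨k', u'⟩ := j
        obtain rfl : k = k' := h
        exact h0 k u u' s
      · exact hD.2.2 _ _ h _ (hspan i.1 ▸ Submodule.subset_span ⟨_, rfl⟩) _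
          (hspan j.1 ▸ Submodule.subset_span ⟨_, rfl⟩)
    · by_cases h : i.1 = j.1
      · obtain ⟨k, u⟩ := i; obtain ⟨k', u'⟩ := j
        obtain rfl : k = k' := h
        rw [h1]; simp
      · rw [if_neg fun h' => h (congrArg Prod.fst h')]
        exact hD.2.2 _ _ h _ (hspan i.1 ▸ Submodule.subset_span ⟨_, rfl⟩) _
          (hspan j.1 ▸ Submodule.subset_span ⟨_, rfl⟩)
  obtain ⟨b, hb0, hb1, hbs⟩ := fam D hD
  obtain ⟨c, hc0, hc1, hcs⟩ := fam D' hD'
  obtain ⟨g, hg, hgbc⟩ := S5980.exists_spGL_of_families (α := Fin t × Fin a')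
    (by rw [Fintype.card_prod, Fintype.card_fin, Fintype.card_fin, hd]) b c hb0 hb1 hc0 hc1
  refine ⟨g, hg, fun j => ?_⟩
  rw [← hbs, ← hcs, Submodule.map_span, ← Set.range_comp]
  congr 1
  exact congrArg Set.range (funext fun x => hgbc _)

/-- The number of unordered decompositions divides the order of `Sp`. -/
theorem card_decomp_dvd [Fintype F] {t a' : ℕ} (ht : 2 ≤ t) (ha : 0 < a') (hd : d = t * a') :
    Nat.card {D : Fin t → Submodule F (Fin d ⊕ Fin d → F) // IsSympDecomp (2 * a') D} / Nat.factorial t ∣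
      Nat.card (Cfsg.spGL d F) := by
  classical
  set X := {D : Fin t → Submodule F (Fin d ⊕ Fin d → F) // IsSympDecomp (2 * a') D}
  obtain ⟨α, _, _, p, h0, h1, -, hli, hspan⟩ := exists_symplectic_family (sympBilin d F) sympBilin_self ⊤
    (fun w _ hall => sympBilin_nondegenerate w fun v => hall v trivial)
  have hα : Fintype.card α = d := by
    have : finrank F (Fin d ⊕ Fin d → F) = Fintype.card (α × Fin 2) := by
      rw [← finrank_span_eq_card hli, hspan, finrank_top]
    rw [Module.finrank_fintype_fun_eq_card, Fintype.card_sum, Fintype.card_fin, Fintype.card_prod,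
      Fintype.card_fin] at this
    omega
  let D₀ : X := ⟨_, exists_decomp_of_family ht ha p (Fintype.equivOfCardEq (by
    rw [hα, Fintype.card_prod, Fintype.card_fin, Fintype.card_fin, hd])) hd
    (fun i j s => (sympBilin_apply _ _).symm.trans (h0 i j s)) fun i j => (sympBilin_apply _ _).symm.trans (h1 i j)⟩
  let act : Cfsg.spGL d F → Submodule F (Fin d ⊕ Fin d → F) → Submodule F (Fin d ⊕ Fin d → F) :=
    fun g S => S.map (Matrix.toLin' ((g : GL (Fin d ⊕ Fin d) F) : Matrix (Fin d ⊕ Fin d) (Fin d ⊕ Fin d) F))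
  have hmul : ∀ g h S, act (g * h) S = act g (act h S) := fun g h S => by
    simp only [act, ← Submodule.map_comp, ← Matrix.toLin'_mul]
    rfl
  have hone : ∀ S, act 1 S = S := fun S => by simp [act]
  let K : Subgroup (Cfsg.spGL d F) :=
    { carrier := {g | ∀ i, act g (D₀.1 i) = D₀.1 i}
      mul_mem' := fun {g h} hg hh i => by rw [hmul, hh, hg]
      one_mem' := fun i => hone _
      inv_mem' := fun {g} hg i => by conv_lhs => rw [← hg i, ← hmul, inv_mul_cancel, hone] }
  let Φ : Cfsg.spGL d F → Fin t → Submodule F (Fin d ⊕ Fin d → F) := fun g i => act g (D₀.1 i)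
  have hcoset : ∀ g g', Φ g = Φ g' ↔ g⁻¹ * g' ∈ K := by
    intro g g'
    rw [funext_iff]
    refine forall_congr' fun i => ?_
    show act g (D₀.1 i) = act g' (D₀.1 i) ↔ act (g⁻¹ * g') (D₀.1 i) = D₀.1 i
    rw [hmul]
    constructor
    · intro h; rw [← h, ← hmul, inv_mul_cancel, hone]
    · intro h; conv_lhs => rw [← h, ← hmul, mul_inv_cancel, hone]
  have hrange : Set.range Φ = {D | IsSympDecomp (2 * a') D} := by
    ext D
    constructor
    · rintro ⟨g, rfl⟩
      let L : (Fin d ⊕ Fin d → F) ≃ₗ[F] (Fin d ⊕ Fin d → F) := apEquiv (g : GL (Fin d ⊕ Fin d) F)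
      have hL : ∀ i, Φ g i = (D₀.1 i).map (L : (Fin d ⊕ Fin d → F) →ₗ[F] (Fin d ⊕ Fin d → F)) := fun i => by
        show Submodule.map _ _ = _
        congr 1
      have hgf := S5980.mem_spGL_iff.1 g.2
      refine ⟨⟨ht, D₀.2.1.pos, fun i => ?_, ?_, ?_⟩, fun i u hu hu0 => ?_, fun i j hij u hu v hv => ?_⟩
      · rw [hL, LinearEquiv.finrank_map_eq, D₀.2.1.finrank_eq]
      · rw [show Φ g = fun i => (D₀.1 i).map (L : (Fin d ⊕ Fin d → F) →ₗ[F] (Fin d ⊕ Fin d → F)) from funext hL]
        exact D₀.2.1.indep.map_orderIso (Submodule.orderIsoMapComap L)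
      · show ⨆ i, Φ g i = ⊤
        simp only [hL, ← Submodule.map_iSup, D₀.2.1.iSup_eq_top, Submodule.map_top, LinearEquiv.range]
      · obtain ⟨u', hu', rfl⟩ := hu
        obtain ⟨v', hv', hne⟩ := D₀.2.2.1 i u' hu' (fun h => hu0 (by rw [h, map_zero]))
        refine ⟨_, ⟨v', hv', rfl⟩, ?_⟩
        rw [Matrix.toLin'_apply, Matrix.toLin'_apply, ← ap_def, ← ap_def, hgf]
        exact hne
      · obtain ⟨u', hu', rfl⟩ := hu
        obtain ⟨v', hv', rfl⟩ := hv
        rw [Matrix.toLin'_apply, Matrix.toLin'_apply, ← ap_def, ← ap_def, hgf]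
        exact D₀.2.2.2 i j hij u' hu' v' hv'
    · intro hD
      obtain ⟨g, hg, hgD⟩ := exists_map_decomp hd D₀.2 hD
      exact ⟨⟨g, hg⟩, funext hgD⟩
  have hG := Forms.card_eq_card_range_mul Φ K hcoset
  rw [hrange] at hG
  change Nat.card (Cfsg.spGL d F) = Nat.card X * Nat.card K at hG
  refine (Nat.div_dvd_of_dvd ?_).trans ⟨_, hG⟩
  let R : X → Set (Submodule F (Fin d ⊕ Fin d → F)) := fun D => Set.range D.1
  haveI : Finite X := Subtype.finite
  rw [← Nat.card_congr (Equiv.sigmaFiberEquiv R), Nat.card_sigma]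
  refine Finset.dvd_sum fun S _ => ?_
  by_cases hS : Nonempty {D : X // R D = S}
  · obtain ⟨D, hDS⟩ := hS
    refine dvd_of_eq ?_
    rw [← Fintype.card_fin t, ← Fintype.card_perm, ← Nat.card_eq_fintype_card]
    have hperm : ∀ s : Equiv.Perm (Fin t), IsSympDecomp (2 * a') (D.1 ∘ s) := fun s =>
      ⟨⟨ht, D.2.1.pos, fun i => D.2.1.finrank_eq _, D.2.1.indep.comp s.injective, by
        rw [← D.2.1.iSup_eq_top]; exact Equiv.iSup_comp (g := D.1) s⟩, fun i => D.2.2.1 _,
        fun i j hij => D.2.2.2 _ _ (s.injective.ne hij)⟩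
    refine Nat.card_eq_of_bijective
      (fun s => ⟨⟨D.1 ∘ s, hperm s⟩, by rw [← hDS]; exact Set.ext fun U =>
        ⟨fun ⟨i, hi⟩ => ⟨s i, hi⟩, fun ⟨i, hi⟩ => ⟨s.symm i, by simpa using hi⟩⟩⟩) ⟨fun s s' h => ?_, fun D' => ?_⟩
    · have h1 := congrArg (fun E : {E : X // R E = S} => E.1.1) h
      exact Equiv.ext fun i => PrimeOrder.decomp_injective D.2.1 (congrFun h1 i)
    · have h1 : ∀ i, ∃ j, D.1 j = D'.1.1 i := fun i => by
        have hm : D'.1.1 i ∈ R D'.1 := ⟨i, rfl⟩
        exact (Set.ext_iff.1 (D'.2.trans hDS.symm) _).1 hm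
      choose f hf using h1
      have hfi : Function.Injective f := fun i j h => PrimeOrder.decomp_injective D'.1.2.1 (by rw [← hf i, ← hf j, h])
      refine ⟨Equiv.ofBijective f (Finite.injective_iff_bijective.1 hfi), Subtype.ext (Subtype.ext (funext fun i => ?_))⟩
      exact hf i
  · rw [not_nonempty_iff] at hS
    rw [Nat.card_of_isEmpty]
    exact dvd_zero _

/-- An element moving exactly `m` blocks of the smallest size. -/
theorem exists_blocks {e₀ m r : ℕ} (hm : m * e₀ ≤ d)
    (X : (Fin e₀ ⊕ Fin e₀ → F) →ₗ[F] (Fin e₀ ⊕ Fin e₀ → F))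
    (hX : ∀ u v, Cfsg.sympForm e₀ F (X u) (X v) = Cfsg.sympForm e₀ F u v) (hXr : ∀ u, X^[r] u = u)
    (hXrk : finrank F (LinearMap.range (X - LinearMap.id)) = 2 * e₀) :
    ∃ x ∈ Cfsg.spGL d F, x ^ r = 1 ∧
      rk (x : Matrix (Fin d ⊕ Fin d) (Fin d ⊕ Fin d) F) = 2 * (m * e₀) := by
  classical
  let E : Fin m × Fin e₀ ≃ Fin (m * e₀) := finProdFinEquiv
  let res : Fin m → (Fin (m * e₀) ⊕ Fin (m * e₀) → F) →ₗ[F] (Fin e₀ ⊕ Fin e₀ → F) := fun i =>
    LinearMap.funLeft F F (Sum.map (fun u => E (i, u)) fun u => E (i, u))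
  let X' : (Fin (m * e₀) ⊕ Fin (m * e₀) → F) →ₗ[F] (Fin (m * e₀) ⊕ Fin (m * e₀) → F) :=
    LinearMap.pi fun z => match z with
      | .inl l => (LinearMap.proj (Sum.inl (E.symm l).2)).comp (X.comp (res (E.symm l).1))
      | .inr l => (LinearMap.proj (Sum.inr (E.symm l).2)).comp (X.comp (res (E.symm l).1))
  have hres : ∀ i v, res i (X' v) = X (res i v) := by
    intro i v
    funext z
    rcases z with u | u
    · show X (res (E.symm (E (i, u))).1 v) (.inl (E.symm (E (i, u))).2) = _
      rw [E.symm_apply_apply]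
    · show X (res (E.symm (E (i, u))).1 v) (.inr (E.symm (E (i, u))).2) = _
      rw [E.symm_apply_apply]
  have hext : ∀ v w : Fin (m * e₀) ⊕ Fin (m * e₀) → F, (∀ i, res i v = res i w) → v = w := by
    intro v w h
    funext z
    rcases z with l | l
    · obtain ⟨⟨i, u⟩, rfl⟩ := E.surjective l
      exact congrFun (h i) (.inl u)
    · obtain ⟨⟨i, u⟩, rfl⟩ := E.surjective l
      exact congrFun (h i) (.inr u)
  have hsum : ∀ v w, Cfsg.sympForm (m * e₀) F v w = ∑ i, Cfsg.sympForm e₀ F (res i v) (res i w) := by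
    intro v w
    simp only [sympForm_eq_sum]
    rw [← E.sum_comp, Fintype.sum_prod_type]
    rfl
  obtain ⟨x, hx, hxr, hrk⟩ := S5980.exists_embed (d := d) (Fin.castLE hm) (Fin.castLE_injective hm) X' (fun v w => by
    simp only [hsum, hres, hX])
  refine ⟨x, hx, hxr r fun v => hext _ _ fun i => ?_, ?_⟩
  · have hit : ∀ k : ℕ, res i (X'^[k] v) = X^[k] (res i v) := by
      intro k
      induction k with
      | zero => rfl
      | succ k ih => rw [Function.iterate_succ_apply', Function.iterate_succ_apply', hres, ih]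
    rw [hit, hXr]
  · rw [hrk]
    have hinj : Function.Injective (X - LinearMap.id : (Fin e₀ ⊕ Fin e₀ → F) →ₗ[F] (Fin e₀ ⊕ Fin e₀ → F)) := by
      rw [LinearMap.injective_iff_surjective, ← LinearMap.range_eq_top]
      exact Submodule.eq_top_of_finrank_eq (by
        rw [hXrk, Module.finrank_fintype_fun_eq_card, Fintype.card_sum, Fintype.card_fin]; omega)
    have hinj' : Function.Injective (X' - LinearMap.id : (Fin (m * e₀) ⊕ Fin (m * e₀) → F) →ₗ[F] (Fin (m * e₀) ⊕ Fin (m * e₀) → F)) := fun v w hvw => hext _ _ fun i => hinj (by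
      have := congrArg (res i) hvw
      simpa [hres] using this)
    rw [LinearMap.finrank_range_of_inj hinj', Module.finrank_fintype_fun_eq_card, Fintype.card_sum, Fintype.card_fin]
    omega

/-- Elements of odd prime order of PSp_n(q) and imprimitive subgroups. Here `T = PSp_n(q)`, `n = 2d ≥ 4`, `(n, q) ≠ (4, 2)`, realised through the symplectic matrices over the field `F` with `q` elements and the standard alternating form; `n = a·t` with `a` even and `t ≥ 2`, and Ω is the (nonempty) set of orthogonal decompositions of `F^n` into `t` nondegenerate subspaces of dimension `a` (unordered; counted as ordered ones divided by `t!`), whose stabilizers are the imprimitive subgroups of type Sp_a(q) ≀ S_t (maximality is not assumed); an element of `T` of prime order `r` (a symplectic matrix `x` with `x^r` scalar, `x` not scalar) fixes a point of Ω when it permutes the summands of some such decomposition. Let `r ≠ p` be an odd prime dividing the number of such decompositions,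 let `i` be the multiplicative order of `q` modulo `r`, `c = i` if `i` is even and `c = 2i` if `i` is odd, and write `k = n mod c`, `ℓ = a mod c`. Then every element of `T` of order `r` stabilizes such a decomposition if and only if `c ≤ a` and `k = t·ℓ`. -/
theorem result {F : Type*} [Field F] [Fintype F] {p : ℕ} [Fact p.Prime] [CharP F p] {q : ℕ} (hq : Fintype.card F = q)
    (d : ℕ) (hd : 2 ≤ d) (hT : (d, q) ≠ (2, 2))
    (a t : ℕ) (hat : 2 * d = a * t) (ha : 2 ≤ a) (hae : Even a) (ht : 2 ≤ t)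
    (r : ℕ) [Fact r.Prime] (hr2 : r ≠ 2) (hrp : r ≠ p) (hΩ : r ∣ Nat.card {D : Fin t → Submodule F (Fin d ⊕ Fin d → F) // (Cfsg.Geo.IsMDecomposition a D ∧ (∀ j, ∀ u ∈ D j, u ≠ 0 → ∃ v ∈ D j, Cfsg.sympForm d F u v ≠ 0) ∧
          (∀ j j', j ≠ j' → ∀ u ∈ D j, ∀ v ∈ D j', Cfsg.sympForm d F u v = 0))} / Nat.factorial t)
    (i c : ℕ) (hi : i = orderOf (q : ZMod r)) (hc : c = if Even i then i else 2 * i) :
    (∀ x : ↥(Matrix.symplecticGroup (Fin d) F),
      (∃ z : F, ((x ^ r : ↥(Matrix.symplecticGroup (Fin d) F)) : Matrix (Fin d ⊕ Fin d) (Fin d ⊕ Fin d) F) = z • (1 : Matrix (Fin d ⊕ Fin d) (Fin d ⊕ Fin d) F)) →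
      (∀ z : F, (x : Matrix (Fin d ⊕ Fin d) (Fin d ⊕ Fin d) F) ≠ z • (1 : Matrix (Fin d ⊕ Fin d) (Fin d ⊕ Fin d) F)) →
      ∃ D : Fin t → Submodule F (Fin d ⊕ Fin d → F), (Cfsg.Geo.IsMDecomposition a D ∧ (∀ j, ∀ u ∈ D j, u ≠ 0 → ∃ v ∈ D j, Cfsg.sympForm d F u v ≠ 0) ∧
          (∀ j j', j ≠ j' → ∀ u ∈ D j, ∀ v ∈ D j', Cfsg.sympForm d F u v = 0)) ∧
        ∃ σ : Equiv.Perm (Fin t), ∀ j, (D j).map (Matrix.toLin' (x : Matrix (Fin d ⊕ Fin d) (Fin d ⊕ Fin d) F)) = D (σ j)) ↔
    (c ≤ a ∧ (2 * d) % c = t * (a % c)) := by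
  classical
  subst hq
  have hr : r.Prime := Fact.out
  obtain ⟨a', rfl⟩ := hae.two_dvd
  have hd' : d = t * a' := by
    have : 2 * d = 2 * (t * a') := by rw [hat]; ring
    omega
  have ha' : 0 < a' := by omega
  have hrF : (r : F) ≠ 0 := fun h => hrp ((Nat.prime_dvd_prime_iff_eq Fact.out hr).1
    ((CharP.cast_eq_zero_iff F p r).1 h)).symm
  have hrq : (Fintype.card F : ZMod r) ≠ 0 := fun h => hrp (by
    obtain ⟨m, -, hm⟩ := FiniteField.card F p
    rw [ZMod.natCast_eq_zero_iff, hm] at h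
    exact (Nat.prime_dvd_prime_iff_eq hr Fact.out).1 (hr.dvd_of_dvd_pow h))
  set c₀ := orderOf (Fintype.card F : ZMod r) with hc₀
  rw [hi] at hc
  have hc0 : 0 < c₀ := orderOf_pos_iff.2 (isOfFinOrder_iff_pow_eq_one.2
    ⟨r - 1, Nat.sub_pos_of_lt hr.one_lt, ZMod.pow_card_sub_one_eq_one hrq⟩)
  have hodd : Odd r := hr.odd_of_ne_two hr2
  have hcr : c₀ ∣ r - 1 := ZMod.orderOf_dvd_card_sub_one hrq
  set e := if Even c₀ then c₀ / 2 else c₀ with he
  have hce : c = 2 * e := by
    rw [hc, he]; split_ifs with h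
    · rw [Nat.mul_div_cancel' h.two_dvd]
    · rfl
  have he0 : 0 < e := by
    rw [he]; split_ifs with h
    · obtain ⟨k, hk⟩ := h; omega
    · exact hc0
  have hcd : c₀ ∣ 2 * e := by
    rw [he]; split_ifs with h
    · rw [Nat.mul_div_cancel' h.two_dvd]
    · exact dvd_mul_left _ _
  have h2e : ∀ k, c₀ ∣ k → Even k → 2 * e ∣ k := by
    intro k hk hke
    rw [he]; split_ifs with h
    · rwa [Nat.mul_div_cancel' h.two_dvd]
    · exact Nat.Coprime.mul_dvd_of_dvd_of_dvd
        ((Nat.prime_two.coprime_iff_not_dvd).2 fun h' => h (even_iff_two_dvd.2 h')) hke.two_dvd hk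
  have her : 2 * e ≤ r - 1 := by
    have hr2' : Even (r - 1) := by obtain ⟨k, hk⟩ := hodd; exact ⟨k, by omega⟩
    exact Nat.le_of_dvd (by have := hr.two_le; omega) (h2e _ hcr hr2')
  have hmodc : (2 * d) % c = 2 * (d % e) := by rw [hce, Nat.mul_mod_mul_left]
  have hmoda : (2 * a') % c = 2 * (a' % e) := by rw [hce, Nat.mul_mod_mul_left]
  have hsign : ∀ (x : ↥(Matrix.symplecticGroup (Fin d) F)) (z : F),
      ((x ^ r : ↥(Matrix.symplecticGroup (Fin d) F)) : Matrix (Fin d ⊕ Fin d) (Fin d ⊕ Fin d) F) = z • 1 → z * z = 1 := by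
    intro x z hz
    let u : Fin d ⊕ Fin d → F := Pi.single (.inr ⟨0, by omega⟩) 1
    let v : Fin d ⊕ Fin d → F := Pi.single (.inl ⟨0, by omega⟩) 1
    have huv : Cfsg.sympForm d F u v = 1 := by simp [u, v, sympForm_eq_sum, Pi.single_apply]
    have h1 := sympForm_mulVec_of_mem (x ^ r).2 u v
    rw [hz, Matrix.smul_mulVec, Matrix.smul_mulVec, Matrix.one_mulVec, Matrix.one_mulVec,
      ← sympBilin_apply, ← sympBilin_apply] at h1
    simp only [map_smul, LinearMap.smul_apply, smul_eq_mul, sympBilin_apply, huv, mul_one] at h1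
    exact h1
  constructor
  · intro H
    have hed : e ≤ d := by
      have hcard : r ∣ Nat.card (Matrix.symplecticGroup (Fin d) F) := by
        rw [Nat.card_congr (MonoidHom.ofInjective (Forms.spToGL_injective (m := d) (F := F))).toEquiv,
          Forms.spToGL_range]
        exact hΩ.trans (card_decomp_dvd ht ha' hd')
      rw [ClassicalLinear.card_sp] at hcard
      rcases hr.dvd_mul.1 hcard with h | h
      · exact absurd ((ZMod.natCast_eq_zero_iff _ _).2 (hr.dvd_of_dvd_pow h)) hrq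
      obtain ⟨i, hi, hi'⟩ := (hr.prime.dvd_finsetProd_iff _).1 h
      rw [Finset.mem_range] at hi
      rw [← ZMod.natCast_eq_zero_iff, Nat.cast_sub (Nat.one_le_pow _ _ Fintype.card_pos)] at hi'
      push_cast at hi'
      rw [sub_eq_zero] at hi'
      have := Nat.le_of_dvd (by omega) (h2e _ (orderOf_dvd_of_pow_eq_one hi') (even_two_mul _))
      omega
    obtain ⟨X, hXsp, hXr, hXrk⟩ := S5980.exists_free hrF hrq he0 h2e hcd
    -- what the permuted decomposition gives for an element with `m` blocks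
    have key : ∀ m, 0 < m → m * e ≤ d →
        ∃ (D : Fin t → Submodule F (Fin d ⊕ Fin d → F)) (σ : Equiv.Perm (Fin t))
          (Y : (Fin d ⊕ Fin d → F) →ₗ[F] (Fin d ⊕ Fin d → F)),
          IsSympDecomp (2 * a') D ∧ (∀ j, (D j).map Y = D (σ j)) ∧ (∀ v, Y^[r] v = v) ∧
          (∀ u v, sympBilin d F (Y u) (Y v) = sympBilin d F u v) ∧
          finrank F (LinearMap.range (Y - LinearMap.id)) = 2 * (m * e) := by
      intro m hm0 hm
      obtain ⟨x, hx, hxr, hrk⟩ := exists_blocks hm X hXsp hXr hXrk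
      let x' : ↥(Matrix.symplecticGroup (Fin d) F) :=
        ⟨(x : Matrix (Fin d ⊕ Fin d) (Fin d ⊕ Fin d) F), Forms.mem_symplecticGroup_iff_form.mpr hx⟩
      have hx'r : ((x' ^ r : ↥(Matrix.symplecticGroup (Fin d) F)) : Matrix (Fin d ⊕ Fin d) (Fin d ⊕ Fin d) F) = 1 := by
        rw [SubmonoidClass.coe_pow, ← Units.val_pow_eq_pow_val, hxr, Units.val_one]
      obtain ⟨D, hD, σ, hσ⟩ := H x' ⟨1, by rw [hx'r, one_smul]⟩ (fun z hz => by
        have hz' : (x : Matrix (Fin d ⊕ Fin d) (Fin d ⊕ Fin d) F) = z • 1 := hz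
        have hz2 : z * z = 1 := by
          let u : Fin d ⊕ Fin d → F := Pi.single (.inr ⟨0, by omega⟩) 1
          let v : Fin d ⊕ Fin d → F := Pi.single (.inl ⟨0, by omega⟩) 1
          have huv : Cfsg.sympForm d F u v = 1 := by simp [u, v, sympForm_eq_sum, Pi.single_apply]
          have h1 := S5980.mem_spGL_iff.1 hx u v
          rw [ap_def, ap_def, hz', Matrix.smul_mulVec, Matrix.smul_mulVec, Matrix.one_mulVec, Matrix.one_mulVec,
            ← sympBilin_apply, ← sympBilin_apply] at h1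
          simp only [map_smul, LinearMap.smul_apply, smul_eq_mul, sympBilin_apply, huv, mul_one] at h1
          exact h1
        have hzr : z ^ r = 1 := by
          have h := congrArg (fun g : GL (Fin d ⊕ Fin d) F =>
            (g : Matrix (Fin d ⊕ Fin d) (Fin d ⊕ Fin d) F) (.inl ⟨0, by omega⟩) (.inl ⟨0, by omega⟩)) hxr
          simpa [Units.val_pow_eq_pow_val, hz', smul_pow] using h
        obtain ⟨k, hk⟩ := hodd
        rw [hk, pow_succ, pow_mul, pow_two, hz2, one_pow, one_mul] at hzr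
        have : sub1 (x : Matrix (Fin d ⊕ Fin d) (Fin d ⊕ Fin d) F) = 0 := LinearMap.ext fun v => by
          simp [hz', hzr]
        rw [rk, this, LinearMap.range_zero, finrank_bot] at hrk
        have := Nat.mul_pos hm0 he0
        omega)
      refine ⟨D, σ, Matrix.toLin' (x : Matrix (Fin d ⊕ Fin d) (Fin d ⊕ Fin d) F), hD, hσ, fun v => ?_, fun u v => ?_, hrk⟩
      · rw [← Module.End.pow_apply, ← Matrix.toLin'_pow, ← Units.val_pow_eq_pow_val, hxr, Units.val_one,
          Matrix.toLin'_one]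
        rfl
      · simp only [Matrix.toLin'_apply, sympBilin_apply]
        exact hx u v
    -- the fixed space in a stable summand
    have hfix : ∀ (D : Fin t → Submodule F (Fin d ⊕ Fin d → F)) (Y : (Fin d ⊕ Fin d → F) →ₗ[F] (Fin d ⊕ Fin d → F)),
        IsSympDecomp (2 * a') D → (∀ j, (D j).map Y = D j) → (∀ v, Y^[r] v = v) →
        (∀ u v, sympBilin d F (Y u) (Y v) = sympBilin d F u v) → ∀ j,
        finrank F (PrimeOrder.fixedIn Y (D j)) ≤ 2 * a' ∧ 2 * e ∣ 2 * a' - finrank F (PrimeOrder.fixedIn Y (D j)) := by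
      intro D Y hD hσ hY hYf j
      have hinv : ∀ w ∈ D j, Y w ∈ D j := fun w hw => by rw [← hσ j]; exact ⟨w, hw, rfl⟩
      have hle : finrank F (PrimeOrder.fixedIn Y (D j)) ≤ 2 * a' :=
        (Submodule.finrank_mono (PrimeOrder.fixedIn_le _ _)).trans_eq (hD.1.finrank_eq j)
      have hd1 := PrimeOrder.orderOf_dvd_sub_finrank hrq Y (D j) hinv (fun v _ => hY v)
      rw [hD.1.finrank_eq] at hd1
      have hit : ∀ (i : ℕ) (v : D j), (((Y.restrict hinv)^[i] v : D j) : Fin d ⊕ Fin d → F) = Y^[i] v := by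
        intro i
        induction i with
        | zero => intro v; rfl
        | succ i ih =>
          intro v
          rw [Function.iterate_succ_apply', Function.iterate_succ_apply', ← ih v]
          rfl
      obtain ⟨k, hk⟩ := even_finrank_fixed_alt ((sympBilin d F).restrict (D j)) (fun v => sympBilin_self _)
        (fun v hall => by
          by_contra h0
          obtain ⟨w, hw, hne⟩ := hD.2.1 j v v.2 (fun h => h0 (Subtype.ext h))
          exact hne ((sympBilin_apply _ _).symm.trans (hall ⟨w, hw⟩)))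
        hrF (Y.restrict hinv) (fun u w => hYf u w) (fun v => Subtype.ext (by rw [hit, hY]))
      have hker : finrank F (LinearMap.ker (Y.restrict hinv - LinearMap.id)) = finrank F (PrimeOrder.fixedIn Y (D j)) := by
        refine LinearEquiv.finrank_eq
          { toFun := fun v => ⟨v.1.1, PrimeOrder.mem_fixedIn.2 ⟨v.1.2, congrArg Subtype.val (sub_eq_zero.1 (LinearMap.mem_ker.1 v.2))⟩⟩
            map_add' := fun _ _ => rfl
            map_smul' := fun _ _ => rfl
            invFun := fun w => ⟨⟨w.1, (PrimeOrder.mem_fixedIn.1 w.2).1⟩,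
              LinearMap.mem_ker.2 (sub_eq_zero.2 (Subtype.ext (PrimeOrder.mem_fixedIn.1 w.2).2))⟩
            left_inv := fun _ => rfl
            right_inv := fun _ => rfl }
      rw [hker] at hk
      exact ⟨hle, h2e _ hd1 ⟨a' - k, by omega⟩⟩
    have hdim : finrank F (Fin d ⊕ Fin d → F) = 2 * d := by
      rw [Module.finrank_fintype_fun_eq_card, Fintype.card_sum, Fintype.card_fin]; omega
    by_cases hea : e ≤ a'
    · refine ⟨by omega, ?_⟩
      obtain ⟨D, σ, Y, hD, hσ, hY, hYf, hrk⟩ := key (d / e) (Nat.div_pos hed he0) (Nat.div_mul_le_self d e)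
      have hker := LinearMap.finrank_range_add_finrank_ker (Y - LinearMap.id)
      rw [hrk, hdim] at hker
      have hde := Nat.div_add_mod' d e
      have hlt := Nat.mod_lt d he0
      have hσ1 : ∀ j, (D j).map Y = D j := fun j => by
        by_cases hj : σ j = j
        · rw [hσ, hj]
        · have := PrimeOrder.le_finrank_fixed hD.1 hσ hY hj
          omega
      have hsum := PrimeOrder.finrank_fixed_eq_sum hD.1 hσ1
      have hge : t * (2 * (a' % e)) ≤ ∑ j, finrank F (PrimeOrder.fixedIn Y (D j)) := by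
        calc t * (2 * (a' % e)) = ∑ _j : Fin t, 2 * (a' % e) := by simp
          _ ≤ _ := Finset.sum_le_sum fun j _ => ?_
        obtain ⟨hle, hdvd⟩ := hfix D Y hD hσ1 hY hYf j
        have h1 : finrank F (PrimeOrder.fixedIn Y (D j)) ≡ 2 * a' [MOD 2 * e] := (Nat.modEq_iff_dvd' hle).2 hdvd
        have h2 : (2 * a') % (2 * e) = 2 * (a' % e) := Nat.mul_mod_mul_left _ _ _
        have h3 := Nat.mod_le (finrank F (PrimeOrder.fixedIn Y (D j))) (2 * e)
        rw [h1] at h3
        omega
      rw [hmodc, hmoda]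
      have hle : t * (a' % e) ≤ d % e := by
        rw [mul_left_comm] at hge
        omega
      have hmod : d % e = (t * (a' % e)) % e := by
        rw [Nat.mul_mod_mod, ← hd']
      have hlt' := Nat.mod_eq_of_lt (show t * (a' % e) < e by omega)
      rw [hmod, hlt']; ring
    · exfalso
      obtain ⟨D, σ, Y, hD, hσ, hY, hYf, hrk⟩ := key 1 one_pos (by omega)
      have hσ1 : ∀ j, (D j).map Y = D j := fun j => by
        by_cases hj : σ j = j
        · rw [hσ, hj]
        · have h := PrimeOrder.mul_le_finrank_range hD.1 hσ hY hj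
          have : (r - 1) * 2 ≤ (r - 1) * (2 * a') := Nat.mul_le_mul_left _ (by omega)
          have := hr.two_le
          omega
      have hsum := PrimeOrder.finrank_fixed_eq_sum hD.1 hσ1
      rw [Finset.sum_congr rfl fun j _ => show finrank F (PrimeOrder.fixedIn Y (D j)) = 2 * a' by
        obtain ⟨hle, hdvd⟩ := hfix D Y hD hσ1 hY hYf j
        by_contra hne
        have := Nat.le_of_dvd (by omega) hdvd
        omega] at hsum
      rw [Finset.sum_const, Finset.card_univ, Fintype.card_fin, smul_eq_mul] at hsum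
      have hker := LinearMap.finrank_range_add_finrank_ker (Y - LinearMap.id)
      rw [hrk, hdim, hsum, Nat.mul_left_comm t 2 a', ← hd'] at hker
      omega
  · rintro ⟨hca, hk⟩ x ⟨z, hz⟩ -
    have hz2 := hsign x z hz
    have hz0 : z ≠ 0 := fun h => by rw [h, zero_mul] at hz2; exact zero_ne_one hz2
    set A : Matrix (Fin d ⊕ Fin d) (Fin d ⊕ Fin d) F := (x : Matrix (Fin d ⊕ Fin d) (Fin d ⊕ Fin d) F) with hA
    let Y : (Fin d ⊕ Fin d → F) →ₗ[F] (Fin d ⊕ Fin d → F) := Matrix.toLin' (z • A)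
    have hY : ∀ v, Y^[r] v = v := fun v => by
      obtain ⟨k, hk⟩ := hodd
      rw [← Module.End.pow_apply, ← Matrix.toLin'_pow, smul_pow, hA, ← SubmonoidClass.coe_pow, hz, smul_smul,
        show z ^ r * z = 1 by rw [hk, pow_succ, pow_mul, pow_two, hz2, one_pow, one_mul, hz2], one_smul,
        Matrix.toLin'_one]
      rfl
    have hYf : ∀ u v, sympBilin d F (Y u) (Y v) = sympBilin d F u v := fun u v => by
      simp only [Y, Matrix.toLin'_apply, Matrix.smul_mulVec, map_smul, LinearMap.smul_apply, smul_eq_mul,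
        ← mul_assoc, hz2, one_mul, sympBilin_apply]
      exact sympForm_mulVec_of_mem x.2 u v
    obtain ⟨M, h, b, hdM, hhe, hb0, hb1, hbl, hbr⟩ := SympPieces.exists_sp_pieces hrq hr2 he
      (2 * d) (Fin d ⊕ Fin d → F) (by rw [Module.finrank_fintype_fun_eq_card, Fintype.card_sum, Fintype.card_fin]; omega)
      (sympBilin d F) Y sympBilin_self sympBilin_nondegenerate hYf hY
    have hhd : d % e = h := by
      rw [show d = h + M * e by omega, Nat.add_mul_mod_self_right, Nat.mod_eq_of_lt hhe]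
    have hh : h = t * (a' % e) := by
      rw [hmodc, hmoda, hhd, mul_left_comm] at hk
      omega
    have hM : M = t * (a' / e) := by
      refine Nat.eq_of_mul_eq_mul_right he0 ?_
      have : t * a' = t * (a' / e) * e + t * (a' % e) := by
        conv_lhs => rw [← Nat.div_add_mod a' e]
        ring
      omega
    let eM : Fin M ≃ Fin t × Fin (a' / e) := Fintype.equivOfCardEq (by simp [hM])
    let ek : Fin h ≃ Fin t × Fin (a' % e) := Fintype.equivOfCardEq (by simp [hh])
    let ea : (Fin (a' / e) × Fin e) ⊕ Fin (a' % e) ≃ Fin a' :=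
      Fintype.equivOfCardEq (by simp [Nat.div_add_mod'])
    let E := (((eM.prodCongr (Equiv.refl (Fin e))).trans (Equiv.prodAssoc _ _ _)).sumCongr ek).trans
      ((Equiv.prodSumDistrib _ _ _).symm.trans ((Equiv.refl (Fin t)).prodCongr ea))
    have hE : ∀ i u, (E (.inl (i, u))).1 = (eM i).1 := fun i u => by simp [E]
    have hD := exists_decomp_of_family ht ha' b E hd'
      (fun i j s => (sympBilin_apply _ _).symm.trans (hb0 i j s)) fun i j => (sympBilin_apply _ _).symm.trans (hb1 i j)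
    refine ⟨_, hD, 1, fun k => ?_⟩
    rw [Equiv.Perm.one_apply]
    refine map_toLin'_eq_of_le ?_ ?_ le_rfl
    · exact isUnit_of_mem_symplecticGroup x.2
    rw [Submodule.map_span, Submodule.span_le]
    rintro _ ⟨_, ⟨⟨q, s⟩, hq, rfl⟩, rfl⟩
    rw [Set.mem_setOf_eq] at hq
    have hAY : ∀ v, Matrix.toLin' A v = z • Y v := fun v => by
      simp [Y, Matrix.smul_mulVec, smul_smul, hz2]
    rw [SetLike.mem_coe, hAY]
    refine Submodule.smul_mem _ _ ?_
    rcases q with ⟨i, u⟩ | j
    · refine Submodule.span_mono ?_ (hbl i u s)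
      rintro _ ⟨w, rfl⟩
      exact ⟨_, (by rw [Set.mem_setOf_eq, hE]; rw [hE] at hq; exact hq), rfl⟩
    · rw [hbr j s]
      exact Submodule.subset_span ⟨_, hq, rfl⟩

end Cfsg.Agent.S5961
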