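import Cfsg.Statements.S5962
import Cfsg.Agent.Lib.Omega.BlockPerm
import Cfsg.Agent.Lib.Omega.SymplecticInvolution
import Cfsg.Agent.Lib.Omega.SympForm

set_option autoImplicit false
open scoped MatrixGroups Matrix
open Cfsg

namespace Cfsg.Agent.S5962

/-- Involutions of PSp_n(q), q odd, and the subgroups GL_{n/2}(q).2. Here `T = PSp_n(q)`, `n = 2d ≥ 4`, `q` odd, realised through the symplectic matrices over the field `F` with `q` elements; Ω is the set of unordered pairs `{U, W}` of complementary totally isotropic `d`-spaces (`F^n = U ⊕ W`), whose stabilizers are the subgroups of type GL_d(q).2 (maximal except in some small cases; maximality is not assumed); an element of `T` of prime order `r` (a symplectic matrix `x` with `x^r` scalar, `x` not scalar) fixes such a pair when it fixes or interchanges `U` and `W`. If the number of such pairs is even, every involution of `T` fixes one of them (the action is 2-elusive). -/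
theorem result {F : Type*} [Field F] [Fintype F] {p : ℕ} [Fact p.Prime] [CharP F p] {q : ℕ} (hq : Fintype.card F = q)
    (d : ℕ) (hd : 2 ≤ d) (hT : (d, q) ≠ (2, 2)) (hodd : Odd q)
    (hΩ : 2 ∣ Nat.card {P : Submodule F (Fin d ⊕ Fin d → F) × Submodule F (Fin d ⊕ Fin d → F) // IsCompl P.1 P.2 ∧ (∀ u ∈ P.1, ∀ v ∈ P.1, Cfsg.sympForm d F u v = 0) ∧ (∀ u ∈ P.2, ∀ v ∈ P.2, Cfsg.sympForm d F u v = 0)} / 2)
    (x : ↥(Matrix.symplecticGroup (Fin d) F))
    (hx1 : ∃ z : F, ((x ^ 2 : ↥(Matrix.symplecticGroup (Fin d) F)) : Matrix (Fin d ⊕ Fin d) (Fin d ⊕ Fin d) F) = z • (1 : Matrix (Fin d ⊕ Fin d) (Fin d ⊕ Fin d) F))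
    (hx2 : ∀ z : F, (x : Matrix (Fin d ⊕ Fin d) (Fin d ⊕ Fin d) F) ≠ z • (1 : Matrix (Fin d ⊕ Fin d) (Fin d ⊕ Fin d) F)) :
    ∃ U W : Submodule F (Fin d ⊕ Fin d → F), IsCompl U W ∧ (∀ u ∈ U, ∀ v ∈ U, Cfsg.sympForm d F u v = 0) ∧ (∀ u ∈ W, ∀ v ∈ W, Cfsg.sympForm d F u v = 0) ∧
        ((U.map (Matrix.toLin' (x : Matrix (Fin d ⊕ Fin d) (Fin d ⊕ Fin d) F)) = U ∧ W.map (Matrix.toLin' (x : Matrix (Fin d ⊕ Fin d) (Fin d ⊕ Fin d) F)) = W) ∨
         (U.map (Matrix.toLin' (x : Matrix (Fin d ⊕ Fin d) (Fin d ⊕ Fin d) F)) = W ∧ W.map (Matrix.toLin' (x : Matrix (Fin d ⊕ Fin d) (Fin d ⊕ Fin d) F)) = U)) := by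
  classical
  obtain ⟨z, hz⟩ := hx1
  set A : Matrix (Fin d ⊕ Fin d) (Fin d ⊕ Fin d) F := (x : Matrix (Fin d ⊕ Fin d) (Fin d ⊕ Fin d) F) with hA
  have hzA : A * A = z • (1 : Matrix (Fin d ⊕ Fin d) (Fin d ⊕ Fin d) F) := by
    rw [← hz, pow_two]; simp [hA]
  have hAmem : A ∈ Matrix.symplecticGroup (Fin d) F := x.2
  have hsq : ∀ w, Matrix.toLin' A (Matrix.toLin' A w) = z • w :=
    fun w => by simp [Matrix.mulVec_mulVec, hzA, Matrix.smul_mulVec]
  set B := CfsgLib.Omega.sympBilin d F with hBdef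
  have hpres : ∀ u w, B (Matrix.toLin' A u) (Matrix.toLin' A w) = B u w := fun u w => by
    simp [hBdef, CfsgLib.Omega.sympBilin_apply, CfsgLib.Omega.sympForm_mulVec_of_mem hAmem]
  obtain ⟨α, _, _, b, π, hb⟩ := CfsgLib.Omega.exists_adapted_basis (B := B)
    (f := Matrix.toLin' A) (z := z) CfsgLib.Omega.sympBilin_self CfsgLib.Omega.sympBilin_nondegenerate
    hpres hsq
  have h2 : (2 : F) ≠ 0 := by
    apply Ring.two_ne_zero
    intro hchar
    have h := (FiniteField.even_card_iff_char_two (F := F)).1 hchar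
    rw [hq] at h
    exact Nat.not_even_iff_odd.2 hodd (Nat.even_iff.2 h)
  let U : Fin 2 → Submodule F (Fin d ⊕ Fin d → F) :=
    fun s => Submodule.span F (b '' {x | x.2 = s})
  have hcompl : IsCompl (U 0) (U 1) := by
    constructor
    · refine b.linearIndependent.disjoint_span_image ?_
      rw [Set.disjoint_left]
      rintro ⟨i, s⟩ (rfl : s = 0) (h : (0 : Fin 2) = 1)
      exact zero_ne_one h
    · rw [codisjoint_iff, eq_top_iff, ← b.span_eq, Submodule.span_le]
      rintro _ ⟨⟨i, s⟩, rfl⟩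
      fin_cases s
      · exact Submodule.mem_sup_left (Submodule.subset_span ⟨(i, 0), rfl, rfl⟩)
      · exact Submodule.mem_sup_right (Submodule.subset_span ⟨(i, 1), rfl, rfl⟩)
  have hiso : ∀ s, ∀ u ∈ U s, ∀ v ∈ U s, Cfsg.sympForm d F u v = 0 := by
    intro s u hu v hv
    rw [← CfsgLib.Omega.sympBilin_apply]
    have h1 : ∀ i, U s ≤ LinearMap.ker (B.flip (b (i, s))) := by
      intro i
      rw [Submodule.span_le]
      rintro _ ⟨⟨j, s'⟩, (rfl : s' = s), rfl⟩
      exact hb.isotropic j i s'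
    have : U s ≤ LinearMap.ker (B u) := by
      rw [Submodule.span_le]
      rintro _ ⟨⟨i, s'⟩, (rfl : s' = s), rfl⟩
      exact h1 i hu
    exact this hv
  have hmap : ∀ s s', (∀ i, Matrix.toLin' A (b (i, s)) ∈ U s') → (U s).map (Matrix.toLin' A) = U s' := by
    intro s s' h
    refine CfsgLib.Omega.map_toLin'_eq_of_le (CfsgLib.Omega.isUnit_of_mem_symplecticGroup hAmem) ?_ (le_of_eq ?_)
    · rw [Submodule.map_span, Submodule.span_le]
      rintro _ ⟨_, ⟨⟨i, s''⟩, (rfl : s'' = s), rfl⟩, rfl⟩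
      exact h i
    · have key : ∀ r, Module.finrank F (U r) = Fintype.card α := by
        intro r
        have hli : LinearIndependent F (fun i : α => b (i, r)) :=
          b.linearIndependent.comp _ (fun i j h => (Prod.ext_iff.1 h).1)
        have hr : Set.range (fun i : α => b (i, r)) = b '' {x | x.2 = r} := by
          ext v; simp
        rw [← finrank_span_eq_card hli, hr]
      rw [key, key]
  refine ⟨U 0, U 1, hcompl, hiso 0, hiso 1, ?_⟩
  by_cases hz1 : z = 1
  · left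
    have h : ∀ i s, Matrix.toLin' A (b (i, s)) ∈ U s := by
      intro i s
      rcases hb.action i with ⟨-, k, k', hk, h0, h1⟩ | ⟨-, h⟩
      · exfalso
        have e1 : B (b (i, 0)) (Matrix.toLin' A (b (i, 0))) = k := by
          rw [h0, map_smul, hb.pairing]; simp
        have e2 := hpres (b (i, 0)) (Matrix.toLin' A (b (i, 0)))
        rw [hsq, hz1, one_smul, CfsgLib.Omega.alt_skew CfsgLib.Omega.sympBilin_self, e1] at e2
        exact mul_ne_zero h2 hk (by linear_combination (-1 : F) * e2)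
      · obtain ⟨c, hc⟩ := h s
        rw [hc]
        exact Submodule.smul_mem _ _ (Submodule.subset_span ⟨(π i, s), rfl, rfl⟩)
    exact ⟨hmap 0 0 (fun i => h i 0), hmap 1 1 (fun i => h i 1)⟩
  · right
    have h : ∀ i, Matrix.toLin' A (b (i, 0)) ∈ U 1 ∧ Matrix.toLin' A (b (i, 1)) ∈ U 0 := by
      intro i
      rcases hb.action i with ⟨-, k, k', hk, h0, h1⟩ | ⟨hz1', -⟩
      · rw [h0, h1]
        exact ⟨Submodule.smul_mem _ _ (Submodule.subset_span ⟨(i, 1), rfl, rfl⟩),
          Submodule.smul_mem _ _ (Submodule.subset_span ⟨(i, 0), rfl, rfl⟩)⟩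
      · exact absurd hz1' hz1
    exact ⟨hmap 0 1 (fun i => (h i).1), hmap 1 0 (fun i => (h i).2)⟩

end Cfsg.Agent.S5962
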