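import Cfsg.Statements.S5963
import Cfsg.Agent.Lib.Omega.PolarPairs
import Cfsg.Agent.Lib.Omega.FreeInverted
import Cfsg.Agent.Lib.Forms.Symplectic

set_option autoImplicit false
open scoped MatrixGroups Matrix
open Cfsg

namespace Cfsg.Agent.S5963

open CfsgLib

/-- Derangements of odd prime order of PSp_n(q), q odd, on pairs of complementary totally isotropic subspaces. Here `T = PSp_n(q)`, `n = 2d ≥ 4`, `q` odd, realised through the symplectic matrices over the field `F` with `q` elements; Ω is the set of unordered pairs `{U, W}` of complementary totally isotropic `d`-spaces (`F^n = U ⊕ W`), whose stabilizers are the subgroups of type GL_d(q).2 (maximal except in some small cases; maximality is not assumed); an element of `T` of prime order `r` (a symplectic matrix `x` with `x^r` scalar, `x` not scalar) fixes such a pair when it fixes or interchanges `U` and `W`. For every odd prime `r ≠ p` dividing the number of such pairs, some element of `T` of order `r` fixes no such pair (the action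 is never `r`-elusive for odd `r ≠ p`). -/
theorem result {F : Type*} [Field F] [Fintype F] {p : ℕ} [Fact p.Prime] [CharP F p] {q : ℕ} (hq : Fintype.card F = q)
    (d : ℕ) (hd : 2 ≤ d) (hT : (d, q) ≠ (2, 2)) (hodd : Odd q)
    (r : ℕ) [Fact r.Prime] (hr2 : r ≠ 2) (hrp : r ≠ p) (hΩ : r ∣ Nat.card {P : Submodule F (Fin d ⊕ Fin d → F) × Submodule F (Fin d ⊕ Fin d → F) // IsCompl P.1 P.2 ∧ (∀ u ∈ P.1, ∀ v ∈ P.1, Cfsg.sympForm d F u v = 0) ∧ (∀ u ∈ P.2, ∀ v ∈ P.2, Cfsg.sympForm d F u v = 0)} / 2) :
    ∃ x : ↥(Matrix.symplecticGroup (Fin d) F),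
      (∃ z : F, ((x ^ r : ↥(Matrix.symplecticGroup (Fin d) F)) : Matrix (Fin d ⊕ Fin d) (Fin d ⊕ Fin d) F) = z • (1 : Matrix (Fin d ⊕ Fin d) (Fin d ⊕ Fin d) F)) ∧
      (∀ z : F, (x : Matrix (Fin d ⊕ Fin d) (Fin d ⊕ Fin d) F) ≠ z • (1 : Matrix (Fin d ⊕ Fin d) (Fin d ⊕ Fin d) F)) ∧
      ¬ (∃ U W : Submodule F (Fin d ⊕ Fin d → F), IsCompl U W ∧ (∀ u ∈ U, ∀ v ∈ U, Cfsg.sympForm d F u v = 0) ∧ (∀ u ∈ W, ∀ v ∈ W, Cfsg.sympForm d F u v = 0) ∧
        ((U.map (Matrix.toLin' (x : Matrix (Fin d ⊕ Fin d) (Fin d ⊕ Fin d) F)) = U ∧ W.map (Matrix.toLin' (x : Matrix (Fin d ⊕ Fin d) (Fin d ⊕ Fin d) F)) = W) ∨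
         (U.map (Matrix.toLin' (x : Matrix (Fin d ⊕ Fin d) (Fin d ⊕ Fin d) F)) = W ∧ W.map (Matrix.toLin' (x : Matrix (Fin d ⊕ Fin d) (Fin d ⊕ Fin d) F)) = U))) := by
  classical
  subst hq
  set q := Fintype.card F with hq
  have hr : r.Prime := Fact.out
  have hrodd : Odd r := hr.odd_of_ne_two hr2
  -- the order of q modulo r
  have hdvd : r ∣ Nat.card (Omega.PolarPair d F) :=
    hΩ.trans (Nat.div_dvd_of_dvd (Omega.two_dvd_card_polarPair (by omega)))
  obtain ⟨i, hid, hi⟩ : ∃ i < d, r ∣ q ^ (i + 1) + 1 := by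
    rcases (Nat.Prime.dvd_mul hr).1 (hdvd.trans Omega.card_polarPair_dvd) with h | h
    · exfalso
      obtain ⟨a, hp', ha⟩ := FiniteField.card F p
      have := hr.dvd_of_dvd_pow h
      rw [ha] at this
      exact hrp ((Nat.prime_dvd_prime_iff_eq hr hp').1 (hr.dvd_of_dvd_pow this))
    · obtain ⟨i, hi, h'⟩ := (hr.prime.dvd_finsetProd_iff _).1 h
      exact ⟨i, Finset.mem_range.1 hi, h'⟩
  have hneg : (q : ZMod r) ^ (i + 1) = -1 := by
    rw [← ZMod.natCast_eq_zero_iff] at hi
    push_cast at hi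
    linear_combination hi
  have h2r : (2 : ZMod r) ≠ 0 := fun h => hr2 ((Nat.prime_dvd_prime_iff_eq hr Nat.prime_two).1
    ((ZMod.natCast_eq_zero_iff 2 r).1 (by exact_mod_cast h)))
  have hpow2 : (q : ZMod r) ^ (2 * (i + 1)) = 1 := by rw [mul_comm, pow_mul, hneg]; ring
  set e := orderOf (q : ZMod r) with he
  have he0 : 0 < e := Nat.pos_of_ne_zero fun h => by
    have := orderOf_dvd_of_pow_eq_one hpow2
    rw [← he, h, zero_dvd_iff] at this
    omega
  have hdvd2 : e ∣ 2 * (i + 1) := orderOf_dvd_of_pow_eq_one hpow2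
  have hndvd : ¬ e ∣ i + 1 := fun h => h2r (by
    have := orderOf_dvd_iff_pow_eq_one.1 h
    rw [hneg] at this
    linear_combination (-1 : ZMod r) * this)
  obtain ⟨m, hm⟩ : Even e := by
    rcases Nat.even_or_odd e with h | h
    · exact h
    · exact absurd ((Nat.coprime_two_right.2 h).dvd_of_dvd_mul_left hdvd2) hndvd
  rw [← two_mul] at hm
  have hm0 : 0 < m := by omega
  have hmd : m ≤ d := by
    rw [hm] at hdvd2
    have := Nat.le_of_dvd (by omega) (Nat.dvd_of_mul_dvd_mul_left two_pos hdvd2)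
    omega
  have hqm : r ∣ q ^ m + 1 := by
    rw [← ZMod.natCast_eq_zero_iff]
    push_cast
    have h1 : ((q : ZMod r) ^ m) ^ 2 = 1 := by rw [← pow_mul, mul_comm, ← hm, he, pow_orderOf_eq_one]
    rcases sq_eq_one_iff.1 h1 with h | h
    · have := Nat.le_of_dvd hm0 (orderOf_dvd_of_pow_eq_one h)
      omega
    · rw [h]; ring
  -- the field of degree 2m
  haveI : NeZero (2 * m) := ⟨by omega⟩
  let K := FiniteField.Extension F p (2 * m)
  letI : Fintype K := Fintype.ofFinite K
  have hcard : Fintype.card K = q ^ (2 * m) := by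
    have := FiniteField.natCard_extension F p (2 * m)
    rwa [Nat.card_eq_fintype_card, Nat.card_eq_fintype_card] at this
  obtain ⟨ζ, hζ, hζ1, hζ0⟩ := Omega.exists_root_of_dvd (K := K) (r := r) (by
    rw [hcard, show q ^ (2 * m) - 1 = (q ^ m - 1) * (q ^ m + 1) by
      rw [two_mul, pow_add, ← Nat.pow_two, ← one_pow 2, Nat.sq_sub_sq, one_pow]; ring]
    exact dvd_mul_of_dvd_right hqm _)
  let σ : K ≃ₐ[F] K := FiniteField.Extension.frob F p (2 * m) ^ m
  have hσ : ∀ v, σ v = v ^ q ^ m := fun v => by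
    rw [show σ v = v ^ (Nat.card F ^ m) from FiniteField.Extension.frob_iterate_apply F p (2 * m) m,
      Nat.card_eq_fintype_card]
  have hσσ : ∀ v, σ (σ v) = v := fun v => by
    rw [hσ, hσ, ← pow_mul, ← pow_add, show m + m = 2 * m by ring, ← hcard, FiniteField.pow_card]
  have hq2 : 1 < q ^ m := Nat.one_lt_pow hm0.ne' Fintype.one_lt_card
  obtain ⟨u₀, hu₀⟩ : ∃ u, σ u ≠ u := by
    by_contra h
    push Not at h
    have hroots : (Finset.univ : Finset K).card ≤
        (Polynomial.X ^ (q ^ m) - Polynomial.X : Polynomial K).natDegree := by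
      refine Polynomial.card_le_degree_of_subset_roots fun k _ => ?_
      rw [Polynomial.mem_roots (FiniteField.X_pow_card_sub_X_ne_zero K hq2)]
      simp [← hσ, h k]
    rw [Finset.card_univ, hcard, FiniteField.X_pow_card_sub_X_natDegree_eq K hq2] at hroots
    have := Nat.pow_lt_pow_right (Fintype.one_lt_card (α := F)) (show m < 2 * m by omega)
    rw [← hq] at this
    omega
  let bK : Module.Basis (Fin (2 * m)) F K :=
    Module.finBasisOfFinrankEq F K (FiniteField.finrank_extension F p (2 * m))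
  obtain ⟨i₀, hi₀⟩ : ∃ j, bK.repr (u₀ - σ u₀) j ≠ 0 := by
    by_contra h
    push Not at h
    exact hu₀ (sub_eq_zero.1 (bK.repr.injective (Finsupp.ext fun j => by rw [h j, map_zero]; rfl))).symm
  let τ : K →ₗ[F] F := bK.coord i₀
  let BK : LinearMap.BilinForm F K := LinearMap.mk₂ F (fun v w => τ (v * σ w - w * σ v))
    (fun v v' w => by simp [add_mul, mul_add]; ring) (fun c v w => by simp; ring)
    (fun v w w' => by simp [add_mul, mul_add]; ring) (fun c v w => by simp; ring)
  have hBK : ∀ v w, BK v w = τ (v * σ w - w * σ v) := fun v w => rfl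
  have hBK0 : ∀ v, BK v v = 0 := fun v => by rw [hBK, sub_self, map_zero]
  have hBKnd : ∀ v, (∀ w, BK v w = 0) → v = 0 := by
    intro v hv
    by_contra hv0
    have h1 := hv (σ (u₀ / v))
    rw [hBK, hσσ] at h1
    refine hi₀ ?_
    rw [show u₀ - σ u₀ = v * (u₀ / v) - σ (u₀ / v) * σ v by
      rw [← map_mul σ, div_mul_cancel₀ u₀ hv0, mul_div_cancel₀ u₀ hv0]]
    exact h1
  have hζσ : ζ * σ ζ = 1 := by
    rw [hσ, ← pow_succ']
    obtain ⟨c, hc⟩ := hqm
    rw [hc, pow_mul, hζ, one_pow]
  -- the ambient space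
  set k := d - m with hk
  let B' : LinearMap.BilinForm F (K × (Fin k ⊕ Fin k → F)) :=
    BK.compl₁₂ (LinearMap.fst F K _) (LinearMap.fst F K _) +
      (Omega.sympBilin k F).compl₁₂ (LinearMap.snd F K _) (LinearMap.snd F K _)
  have hB' : ∀ v w, B' v w = BK v.1 w.1 + Omega.sympBilin k F v.2 w.2 := fun v w => rfl
  have hA' : B'.IsAlt := fun v => by rw [hB', hBK0, Omega.sympBilin_self, add_zero]
  have hnd' : B'.Nondegenerate := by
    have hl : ∀ v, (∀ w, B' v w = 0) → v = 0 := fun v hv => by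
      refine Prod.ext (hBKnd _ fun w => ?_) (Omega.sympBilin_nondegenerate _ fun w => ?_)
      · simpa [hB'] using hv (w, 0)
      · simpa [hB'] using hv (0, w)
    exact ⟨hl, fun v hv => hl v fun w => by rw [← LinearMap.IsAlt.neg hA', hv w, neg_zero]⟩
  have hdim : Module.finrank F (Fin d ⊕ Fin d → F) = Module.finrank F (K × (Fin k ⊕ Fin k → F)) := by
    rw [Module.finrank_prod, FiniteField.finrank_extension F p (2 * m), Module.finrank_fintype_fun_eq_card,
      Module.finrank_fintype_fun_eq_card, Fintype.card_sum, Fintype.card_sum, Fintype.card_fin, Fintype.card_fin]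
    omega
  obtain ⟨E, hE⟩ := Forms.alt_isometric (Omega.sympBilin d F) (Forms.sympBilin_nondeg d F)
    (Forms.sympBilin_isAlt d F) B' hnd' hA' hdim
  let A : (K × (Fin k ⊕ Fin k → F)) ≃ₗ[F] (K × (Fin k ⊕ Fin k → F)) :=
    (Omega.mulEquivLeft ζ hζ0).prodCongr (LinearEquiv.refl F _)
  have hA : ∀ v, A v = (ζ * v.1, v.2) := fun v => rfl
  have hAB : ∀ v w, B' (A v) (A w) = B' v w := fun v w => by
    rw [hB', hB', hA, hA, hBK, hBK, map_mul σ, map_mul σ,
      show ζ * v.1 * (σ ζ * σ w.1) - ζ * w.1 * (σ ζ * σ v.1) = ζ * σ ζ * (v.1 * σ w.1 - w.1 * σ v.1) by ring,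
      hζσ, one_mul]
  let x : Matrix.symplecticGroup (Fin d) F := Forms.spOfEquiv ((E.trans A).trans E.symm) (fun u v => by
    rw [← Omega.sympBilin_apply, ← Omega.sympBilin_apply, ← hE, ← hE u v]
    simp [hAB])
  have hx : ∀ v, E ((x : Matrix (Fin d ⊕ Fin d) (Fin d ⊕ Fin d) F) *ᵥ v) = A (E v) := fun v => by
    rw [Forms.spOfEquiv_mulVec]; simp
  have hpow : ∀ (j : ℕ) v, E (((x ^ j : Matrix.symplecticGroup (Fin d) F) : Matrix (Fin d ⊕ Fin d) (Fin d ⊕ Fin d) F) *ᵥ v) =
      (ζ ^ j * (E v).1, (E v).2) := by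
    intro j
    induction j with
    | zero =>
      intro v
      rw [pow_zero, pow_zero, one_mul, show ((1 : Matrix.symplecticGroup (Fin d) F) :
        Matrix (Fin d ⊕ Fin d) (Fin d ⊕ Fin d) F) = 1 from rfl, Matrix.one_mulVec]
    | succ j ih =>
      intro v
      rw [pow_succ, show ((x ^ j * x : Matrix.symplecticGroup (Fin d) F) : Matrix (Fin d ⊕ Fin d) (Fin d ⊕ Fin d) F) =
        ((x ^ j : Matrix.symplecticGroup (Fin d) F) : Matrix (Fin d ⊕ Fin d) (Fin d ⊕ Fin d) F) *
          (x : Matrix (Fin d ⊕ Fin d) (Fin d ⊕ Fin d) F) from rfl, ← Matrix.mulVec_mulVec, ih, hx, hA,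
        pow_succ, mul_assoc]
  have hxr : ((x ^ r : Matrix.symplecticGroup (Fin d) F) : Matrix (Fin d ⊕ Fin d) (Fin d ⊕ Fin d) F) = 1 :=
    Matrix.toLin'.injective (LinearMap.ext fun v => E.injective (by
      rw [Matrix.toLin'_apply, hpow, hζ, one_mul, Matrix.toLin'_apply, Matrix.one_mulVec]))
  refine ⟨x, ⟨1, by rw [hxr, one_smul]⟩, ?_, ?_⟩
  · intro z hz
    have h := hx (E.symm (1, 0))
    rw [hz, Matrix.smul_mulVec, Matrix.one_mulVec, map_smul, E.apply_symm_apply, hA] at h
    have h1 : z • (1 : K) = ζ * 1 := congrArg Prod.fst h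
    rw [mul_one] at h1
    have h2 : σ ζ = ζ := by rw [← h1, map_smul, map_one]
    rw [h2] at hζσ
    obtain ⟨c, hc⟩ := hrodd
    rw [hc, pow_succ, pow_mul, pow_two, hζσ, one_pow, one_mul] at hζ
    exact hζ1 hζ
  · rintro ⟨U, W, hUW, hUs, hWs, hcase⟩
    -- an interchange is impossible
    have hfix : (∀ v ∈ U, (x : Matrix (Fin d ⊕ Fin d) (Fin d ⊕ Fin d) F) *ᵥ v ∈ U) ∧
        (∀ v ∈ W, (x : Matrix (Fin d ⊕ Fin d) (Fin d ⊕ Fin d) F) *ᵥ v ∈ W) := by
      rcases hcase with ⟨h1, h2⟩ | ⟨h1, h2⟩
      · exact ⟨fun v hv => h1.le ⟨v, hv, rfl⟩, fun v hv => h2.le ⟨v, hv, rfl⟩⟩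
      · exfalso
        have hswap : ∀ j, ∀ v ∈ U, ((x ^ j : Matrix.symplecticGroup (Fin d) F) :
            Matrix (Fin d ⊕ Fin d) (Fin d ⊕ Fin d) F) *ᵥ v ∈ if Even j then U else W := by
          intro j
          induction j with
          | zero =>
            intro v hv
            rw [if_pos Even.zero, pow_zero, show ((1 : Matrix.symplecticGroup (Fin d) F) :
              Matrix (Fin d ⊕ Fin d) (Fin d ⊕ Fin d) F) = 1 from rfl, Matrix.one_mulVec]
            exact hv
          | succ j ih =>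
            intro v hv
            rw [pow_succ', show ((x * x ^ j : Matrix.symplecticGroup (Fin d) F) :
              Matrix (Fin d ⊕ Fin d) (Fin d ⊕ Fin d) F) = (x : Matrix (Fin d ⊕ Fin d) (Fin d ⊕ Fin d) F) *
                ((x ^ j : Matrix.symplecticGroup (Fin d) F) : Matrix (Fin d ⊕ Fin d) (Fin d ⊕ Fin d) F) from rfl,
              ← Matrix.mulVec_mulVec]
            have := ih v hv
            by_cases hj : Even j
            · rw [if_pos hj] at this
              rw [if_neg (by rwa [Nat.even_add_one, not_not])]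
              exact h1.le ⟨_, this, rfl⟩
            · rw [if_neg hj] at this
              rw [if_pos (Nat.even_add_one.2 hj)]
              exact h2.le ⟨_, this, rfl⟩
        have hUle : U ≤ W := fun v hv => by
          have := hswap r v hv
          rwa [if_neg (Nat.not_even_iff_odd.2 hrodd), hxr, Matrix.one_mulVec] at this
        have hU0 : U = ⊥ := disjoint_self.1 (hUW.disjoint.mono_right hUle)
        have h5 : Module.finrank F U = d :=
          (Omega.finrank_polar (P := (⟨(U, W), hUW, hUs, hWs⟩ : Omega.PolarPair d F))).1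
        rw [hU0, finrank_bot] at h5
        omega
    -- the K-part of an invariant subspace
    have hpart : ∀ S : Submodule F (Fin d ⊕ Fin d → F), (∀ v ∈ S, (x : Matrix (Fin d ⊕ Fin d) (Fin d ⊕ Fin d) F) *ᵥ v ∈ S) →
        (∀ u ∈ S, ∀ v ∈ S, Cfsg.sympForm d F u v = 0) →
        ∀ v ∈ S, (E v).1 = 0 := by
      intro S hS hSs v hv
      let T : Submodule F K := (S.map E.toLinearMap).comap (LinearMap.inl F K _)
      have hT : ∀ w, w ∈ T ↔ E.symm (w, 0) ∈ S := fun w => by
        constructor
        · rintro ⟨s, hs, hsw⟩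
          have : E s = (w, 0) := hsw
          rwa [← this, E.symm_apply_apply]
        · intro h; exact ⟨_, h, E.apply_symm_apply _⟩
      have hTinv : ∀ w ∈ T, ζ * w ∈ T := fun w hw => by
        rw [hT] at hw ⊢
        have := hS _ hw
        rwa [← E.symm_apply_apply ((x : Matrix (Fin d ⊕ Fin d) (Fin d ⊕ Fin d) F) *ᵥ _), hx,
          E.apply_symm_apply, hA] at this
      have hmem : (ζ - 1) * (E v).1 ∈ T := by
        rw [hT]
        have := sub_mem (hS v hv) hv
        rwa [← E.symm_apply_apply (_ - v), map_sub, hx, hA,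
          show ((ζ * (E v).1, (E v).2) - E v : K × (Fin k ⊕ Fin k → F)) = ((ζ - 1) * (E v).1, 0) by
            refine Prod.ext ?_ ?_
            · show ζ * (E v).1 - (E v).1 = _; ring
            · show (E v).2 - (E v).2 = 0; exact sub_self _] at this
      -- T is zero
      let π : Equiv.Perm T :=
        { toFun := fun w => ⟨ζ * w.1, hTinv _ w.2⟩
          invFun := fun w => ⟨ζ ^ (r - 1) * w.1, by
            have hpw : ∀ (j : ℕ) u, u ∈ T → ζ ^ j * u ∈ T := by
              intro j
              induction j with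
              | zero => intro u hu; simpa using hu
              | succ j ih => intro u hu; rw [pow_succ', mul_assoc]; exact hTinv _ (ih u hu)
            exact hpw _ _ w.2⟩
          left_inv := fun w => Subtype.ext (by
            show ζ ^ (r - 1) * (ζ * w.1) = w.1
            rw [← mul_assoc, ← pow_succ, Nat.sub_add_cancel hr.one_le, hζ, one_mul])
          right_inv := fun w => Subtype.ext (by
            show ζ * (ζ ^ (r - 1) * w.1) = w.1
            rw [← mul_assoc, ← pow_succ', Nat.sub_add_cancel hr.one_le, hζ, one_mul]) }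
      have hπ : ∀ (j : ℕ) w, ((π ^ j) w : K) = ζ ^ j * w.1 := by
        intro j
        induction j with
        | zero => intro w; simp
        | succ j ih =>
          intro w
          rw [pow_succ', Equiv.Perm.mul_apply, pow_succ', mul_assoc, ← ih w]
          rfl
      have hπr : π ^ r ^ 1 = 1 := Equiv.ext fun w => Subtype.ext (by rw [pow_one, hπ, hζ, one_mul]; rfl)
      have hmod := Equiv.Perm.card_compl_support_modEq hπr
      have hone : π.supportᶜ.card = 1 := by
        rw [Finset.card_eq_one]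
        refine ⟨0, Finset.eq_singleton_iff_unique_mem.2 ⟨?_, fun w hw => ?_⟩⟩
        · rw [Finset.mem_compl, Equiv.Perm.notMem_support]
          exact Subtype.ext (mul_zero ζ)
        · rw [Finset.mem_compl, Equiv.Perm.notMem_support] at hw
          have hw' : ζ * w.1 = w.1 := congrArg Subtype.val hw
          exact Subtype.ext ((mul_eq_zero.1 (show (ζ - 1) * w.1 = 0 by rw [sub_mul, one_mul, hw', sub_self])).resolve_left
            (sub_ne_zero.2 hζ1))
      have hTcard : Fintype.card T = q ^ Module.finrank F T := Module.card_eq_pow_finrank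
      rw [hone, hTcard, ← ZMod.natCast_eq_natCast_iff, Nat.cast_pow, Nat.cast_one] at hmod
      have hedvd : e ∣ Module.finrank F T := orderOf_dvd_of_pow_eq_one hmod.symm
      have hTle : Module.finrank F T ≤ e := by
        have := Submodule.finrank_le T
        rw [FiniteField.finrank_extension F p (2 * m)] at this
        exact this.trans_eq hm.symm
      rcases Nat.eq_zero_or_pos (Module.finrank F T) with h0 | h0
      · rw [Submodule.finrank_eq_zero] at h0
        rw [h0, Submodule.mem_bot, mul_eq_zero] at hmem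
        exact hmem.resolve_left (sub_ne_zero.2 hζ1)
      · exfalso
        have htop : T = ⊤ := Submodule.eq_top_of_finrank_eq (by
          rw [FiniteField.finrank_extension F p (2 * m)]
          have := Nat.le_of_dvd h0 hedvd
          omega)
        have hone' : (1 : K) = 0 := hBKnd 1 fun w => by
          have h1 := hSs _ ((hT 1).1 (htop ▸ Submodule.mem_top)) _ ((hT w).1 (htop ▸ Submodule.mem_top))
          rw [← Omega.sympBilin_apply, ← hE, E.apply_symm_apply, E.apply_symm_apply, hB'] at h1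
          simpa using h1
        exact one_ne_zero hone'
    have hall : ∀ v, (E v).1 = 0 := fun v => by
      obtain ⟨u, hu, w, hw, rfl⟩ := Submodule.mem_sup.1 (hUW.sup_eq_top ▸ Submodule.mem_top (x := v))
      rw [map_add, Prod.fst_add, hpart U hfix.1 hUs u hu, hpart W hfix.2 hWs w hw, add_zero]
    have := hall (E.symm (1, 0))
    rw [E.apply_symm_apply] at this
    exact one_ne_zero this

end Cfsg.Agent.S5963
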