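import Cfsg.Statements.S5964
import Cfsg.Agent.Lib.Omega.Subfield
import Cfsg.Agent.Lib.Omega.SquareCases

set_option autoImplicit false
open scoped MatrixGroups Matrix
open Cfsg

namespace Cfsg.Agent.S5964

/-- Involutions of PSL_n(q) and subfield subgroups. Here `T = PSL_n(F)` for a field `F` with `q = p^f` elements (`n ≥ 2`, `(n, q) ≠ (2, 2), (2, 3)`), `F₀` is the subfield with `q₀` elements where `q = q₀^k` for a prime `k`, and `H` is the subgroup of matrices of determinant 1 lying in the subfield group of `F₀` (invertible matrices over `F₀` times scalars) — a maximal subgroup of type GL_n(q₀) (the case `n = 2`, `q₀ = 2` is excluded); Ω is the set of `T`-conjugates of `H` (cosets of `H`), so an element of `T` of prime order `r` (a matrix `x` of determinant 1 with `x^r` scalar, `x` not scalar) fixes a point of Ω when some conjugate of `x` by a matrix of determinant 1 lies in `H`. Suppose the index of `H` is even. Then every involution of `T` is conjugate in `T` into `H` if and only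 if either `q` is even, or `k = 2` and `(n)_2 ≤ (q − 1)_2`. (For `q` odd and `k` odd the index of `H` is odd, so that case does not arise.) -/
theorem result {F : Type*} [Field F] [Fintype F] {p : ℕ} [Fact p.Prime] [CharP F p] {q : ℕ} (hq : Fintype.card F = q)
    (n : ℕ) (hn : 2 ≤ n) (hT : (n, q) ≠ (2, 2) ∧ (n, q) ≠ (2, 3))
    (F₀ : Subfield F) (k q₀ : ℕ) (hk : k.Prime) (hF₀ : Nat.card ↥F₀ = q₀) (hqk : q = q₀ ^ k) (hC5 : ¬ (n = 2 ∧ q₀ = 2)) (hΩ : 2 ∣ ((Cfsg.Geo.subfieldSubgroup F₀ 1).comap (Matrix.SpecialLinearGroup.toGL : Matrix.SpecialLinearGroup (Fin n) F →* GL (Fin n) F)).index) :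
    (∀ x : Matrix.SpecialLinearGroup (Fin n) F,
      (∃ z : F, ((x ^ 2 : Matrix.SpecialLinearGroup (Fin n) F) : Matrix (Fin n) (Fin n) F) = z • (1 : Matrix (Fin n) (Fin n) F)) →
      (∀ z : F, (x : Matrix (Fin n) (Fin n) F) ≠ z • (1 : Matrix (Fin n) (Fin n) F)) →
      ∃ P : Matrix.SpecialLinearGroup (Fin n) F, P⁻¹ * x * P ∈ ((Cfsg.Geo.subfieldSubgroup F₀ 1).comap (Matrix.SpecialLinearGroup.toGL : Matrix.SpecialLinearGroup (Fin n) F →* GL (Fin n) F))) ↔
    (Odd q → (k = 2 ∧ padicValNat 2 n ≤ padicValNat 2 (q - 1))) := by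
  classical
  haveI : NeZero n := ⟨by omega⟩
  haveI : Fact (Nat.Prime 2) := ⟨Nat.prime_two⟩
  set G := Matrix.SpecialLinearGroup.toGL (n := Fin n) (R := F) with hGdef
  have hGval : ∀ y : Matrix.SpecialLinearGroup (Fin n) F,
      ((G y : GL (Fin n) F) : Matrix (Fin n) (Fin n) F) = (y : Matrix (Fin n) (Fin n) F) := fun y => rfl
  have hq1 : 1 < q := hq ▸ Fintype.one_lt_card
  have hq₀1 : 1 < q₀ := hF₀ ▸ Finite.one_lt_card
  have hoddq₀ : Odd q → Odd q₀ := fun h => by rw [hqk] at h; exact (Nat.odd_pow_iff hk.ne_zero).1 h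
  have hchar : Odd q → ringChar F ≠ 2 := fun h hc => by
    have := (FiniteField.even_card_iff_char_two (F := F)).1 hc
    rw [hq] at this
    exact (Nat.not_even_iff_odd.2 h) (Nat.even_iff.2 this)
  constructor
  · intro hall hqodd
    have hk2 : k = 2 := by
      by_contra hne
      refine CfsgLib.Omega.not_two_dvd_index_subfield (q₀ := q₀) F₀ hF₀ (hq.trans hqk) (hoddq₀ hqodd)
        (hk.odd_of_ne_two hne) _ ?_ hΩ
      rintro _ ⟨a, rfl⟩
      show G _ ∈ Cfsg.Geo.subfieldSubgroup F₀ 1
      rw [CfsgLib.Omega.mem_subfieldSubgroup_one]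
      exact ⟨1, (a : Matrix (Fin n) (Fin n) F₀), one_ne_zero, by rw [one_smul]; rfl⟩
    refine ⟨hk2, ?_⟩
    by_contra hlt
    push Not at hlt
    subst hk2
    set v := padicValNat 2 (q - 1) with hv
    obtain ⟨g, hg⟩ := IsCyclic.exists_ofOrder_eq_natCard (α := Fˣ)
    have hqm : 2 ^ v ∣ q - 1 := pow_padicValNat_dvd
    obtain ⟨o, ho⟩ := hqm
    have hoodd : Odd o := by
      rcases Nat.even_or_odd o with ⟨j, hj⟩ | h
      · have : 2 ^ (v + 1) ∣ q - 1 := ⟨j, by rw [ho, hj, pow_succ]; ring⟩
        rw [padicValNat_dvd_iff_le (by omega)] at this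
        omega
      · exact h
    set w : F := ((g ^ o : Fˣ) : F) with hw
    have hv0 : 1 ≤ v := by
      rw [← padicValNat_dvd_iff_le (by omega : q - 1 ≠ 0)]
      obtain ⟨j, hj⟩ := hqodd
      exact ⟨j, by omega⟩
    have hwns : ¬ IsSquare w := by
      rintro ⟨r, hr⟩
      have hr0 : r ≠ 0 := fun h => by
        rw [h, mul_zero, hw] at hr
        exact (g ^ o).ne_zero hr
      have htop : Subgroup.zpowers g = ⊤ :=
        Subgroup.eq_top_of_card_eq _ (by rw [Nat.card_zpowers, hg])
      obtain ⟨a, ha⟩ := (Submonoid.mem_powers_iff _ _).1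
        (mem_powers_iff_mem_zpowers.2 (htop ▸ Subgroup.mem_top (Units.mk0 r hr0)))
      have heq : g ^ o = g ^ (2 * a) := Units.ext (by
        rw [← hw, hr, two_mul, pow_add, ha, Units.val_mul, Units.val_mk0])
      have hmod : o ≡ 2 * a [MOD q - 1] := by
        have := pow_eq_pow_iff_modEq.1 heq
        rwa [hg, Nat.card_eq_fintype_card, Fintype.card_units, hq] at this
      have h2 : (2 : ℕ) ∣ q - 1 := by rw [ho]; exact Dvd.dvd.mul_right (dvd_pow_self 2 (by omega)) o
      have hmod2 := hmod.of_dvd h2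
      unfold Nat.ModEq at hmod2
      rw [Nat.odd_iff.1 hoodd] at hmod2
      omega
    obtain ⟨m, hm⟩ : 2 ∣ n := by
      have : 2 ^ 1 ∣ n := (padicValNat_dvd_iff_le (by omega : n ≠ 0)).2 (by omega)
      simpa using this
    have hwm : w ^ m = 1 := by
      obtain ⟨j, hj⟩ : 2 ^ v ∣ m := by
        have : 2 ^ (v + 1) ∣ n := (padicValNat_dvd_iff_le (by omega : n ≠ 0)).2 hlt
        rw [hm, pow_succ, mul_comm] at this
        exact Nat.dvd_of_mul_dvd_mul_left two_pos this
      rw [hw, ← Units.val_pow_eq_pow_val, ← pow_mul, hj, ← mul_assoc, mul_comm o, ← ho, pow_mul,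
        show g ^ (q - 1) = 1 by rw [← hq, ← Fintype.card_units]; exact pow_card_eq_one, one_pow, Units.val_one]
    let B : Matrix (Fin 2) (Fin 2) F := !![0, -w; 1, 0]
    let e : Fin 2 × Fin m ≃ Fin n := finProdFinEquiv.trans (finCongr hm.symm)
    let X : Matrix (Fin n) (Fin n) F := Matrix.reindex e e (Matrix.blockDiagonal fun _ => B)
    have hXdet : X.det = 1 := by
      show (Matrix.reindex e e (Matrix.blockDiagonal fun _ => B)).det = 1
      rw [Matrix.det_reindex_self, Matrix.det_blockDiagonal]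
      simp [B, Matrix.det_fin_two_of, hwm]
    have hXX : X * X = (-w) • 1 := by
      show Matrix.reindexAlgEquiv F F e (Matrix.blockDiagonal fun _ => B) *
        Matrix.reindexAlgEquiv F F e (Matrix.blockDiagonal fun _ => B) = _
      rw [← map_mul, ← Matrix.blockDiagonal_mul, show (fun _ : Fin m => B * B) = (-w) • (1 : Fin m → Matrix (Fin 2) (Fin 2) F) by
          funext i; ext a b; fin_cases a <;> fin_cases b <;> simp [B, Matrix.mul_apply, Fin.sum_univ_two],
        Matrix.blockDiagonal_smul, Matrix.blockDiagonal_one, map_smul, map_one]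
    let x₀ : Matrix.SpecialLinearGroup (Fin n) F := ⟨X, hXdet⟩
    obtain ⟨P, hP⟩ := hall x₀ ⟨-w, by rw [Matrix.SpecialLinearGroup.coe_pow, pow_two]; exact hXX⟩ (by
      intro z hz
      have hm0 : 0 < m := by omega
      have := congrFun (congrFun hz (e (1, ⟨0, hm0⟩))) (e (0, ⟨0, hm0⟩))
      simp [x₀, X, B] at this)
    obtain ⟨c, M, hc, hM⟩ := (CfsgLib.Omega.mem_subfieldSubgroup_one _ _).1 hP
    have hy : ((G (P⁻¹ * x₀ * P) : GL (Fin n) F) : Matrix (Fin n) (Fin n) F) *
        (G (P⁻¹ * x₀ * P) : GL (Fin n) F) = (-w) • 1 := by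
      rw [hGval, Matrix.SpecialLinearGroup.coe_mul, Matrix.SpecialLinearGroup.coe_mul]
      show ((P⁻¹ : Matrix.SpecialLinearGroup (Fin n) F) : Matrix (Fin n) (Fin n) F) * X * P *
        (((P⁻¹ : Matrix.SpecialLinearGroup (Fin n) F) : Matrix (Fin n) (Fin n) F) * X * P) = _
      have hPP : (P : Matrix (Fin n) (Fin n) F) * (P⁻¹ : Matrix.SpecialLinearGroup (Fin n) F) = 1 := by
        rw [← Matrix.SpecialLinearGroup.coe_mul, mul_inv_cancel, Matrix.SpecialLinearGroup.coe_one]
      have hPP' : ((P⁻¹ : Matrix.SpecialLinearGroup (Fin n) F) : Matrix (Fin n) (Fin n) F) * P = 1 := by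
        rw [← Matrix.SpecialLinearGroup.coe_mul, inv_mul_cancel, Matrix.SpecialLinearGroup.coe_one]
      generalize ((P⁻¹ : Matrix.SpecialLinearGroup (Fin n) F) : Matrix (Fin n) (Fin n) F) = Q at hPP hPP' ⊢
      calc Q * X * P * (Q * X * P) = Q * X * ((P : Matrix (Fin n) (Fin n) F) * Q) * X * P := by
            simp [Matrix.mul_assoc]
        _ = Q * (X * X) * P := by rw [hPP, mul_one]; simp [Matrix.mul_assoc]
        _ = (-w) • 1 := by rw [hXX]; simp [hPP']
    rw [hM, Matrix.smul_mul, Matrix.mul_smul, smul_smul, ← Matrix.map_mul] at hy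
    have h00 := congrFun (congrFun hy ⟨0, by omega⟩) ⟨0, by omega⟩
    simp only [Matrix.smul_apply, Matrix.map_apply, Matrix.one_apply_eq, smul_eq_mul, mul_one] at h00
    set a : F₀ := (M * M) ⟨0, by omega⟩ ⟨0, by omega⟩ with ha
    have hasq : IsSquare (F₀.subtype a) := by
      by_cases ha0 : F₀.subtype a = 0
      · rw [ha0]; exact IsSquare.zero
      rw [FiniteField.isSquare_iff (hchar hqodd) ha0, hq]
      haveI : Fintype F₀ := Fintype.ofFinite _
      have ha0' : a ≠ 0 := fun h => ha0 (by rw [h, map_zero])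
      have h1 := FiniteField.pow_card_sub_one_eq_one a ha0'
      rw [← Nat.card_eq_fintype_card, hF₀] at h1
      obtain ⟨j, hj⟩ := hoddq₀ hqodd
      have : q / 2 = (q₀ - 1) * (j + 1) := by
        rw [hqk, hj, Nat.add_sub_cancel, show (2 * j + 1) ^ 2 = 2 * (2 * j * (j + 1)) + 1 by ring]
        omega
      rw [this, pow_mul, ← map_pow, h1, map_one, one_pow]
    obtain ⟨r, hr⟩ := hasq
    refine hwns ?_
    have hneg : IsSquare (-1 : F) := by
      rw [FiniteField.isSquare_neg_one_iff, hq, hqk]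
      obtain ⟨j, hj⟩ := hoddq₀ hqodd
      rw [hj, show (2 * j + 1) ^ 2 = 4 * (j * (j + 1)) + 1 by ring]
      omega
    obtain ⟨i, hi⟩ := hneg
    exact ⟨i * c * r, by linear_combination h00 - c * c * hr + (c * c * r * r) * hi⟩
  · intro hcond x ⟨z, hz⟩ hns
    set X : Matrix (Fin n) (Fin n) F := (x : Matrix (Fin n) (Fin n) F) with hXdef
    have hXX : X * X = z • 1 := by rw [← hz, Matrix.SpecialLinearGroup.coe_pow, pow_two]
    have hgx : ((G x : GL (Fin n) F) : Matrix (Fin n) (Fin n) F) * (G x : GL (Fin n) F) = z • 1 := hXX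
    have hz0 := CfsgLib.Omega.ne_zero_of_square hgx
    suffices ∃ g ∈ Cfsg.Geo.specialLinear (Fin n) F, g⁻¹ * G x * g ∈ Cfsg.Geo.subfieldSubgroup F₀ 1 by
      obtain ⟨g, hg, h⟩ := this
      let P : Matrix.SpecialLinearGroup (Fin n) F := ⟨(g : Matrix (Fin n) (Fin n) F),
        CfsgLib.Omega.mem_specialLinear.1 hg⟩
      have hPg : G P = g := Units.ext rfl
      refine ⟨P, ?_⟩
      show G (P⁻¹ * x * P) ∈ Cfsg.Geo.subfieldSubgroup F₀ 1
      rwa [map_mul, map_mul, map_inv, hPg]
    obtain ⟨α, β, _, _, _, _, w, c, hw0, hw1, hwl⟩ := CfsgLib.Omega.exists_plane_form X z hz0 hXX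
    obtain ⟨s, rfl⟩ : IsSquare z := by
      rcases Nat.even_or_odd q with hev | hodd
      · refine FiniteField.isSquare_of_char_two ((FiniteField.even_card_iff_char_two (F := F)).2 ?_) z
        rw [hq]; exact Nat.even_iff.1 hev
      by_contra hns'
      obtain ⟨rfl, hle⟩ := hcond hodd
      haveI : IsEmpty β := ⟨fun l => hns' ⟨c l, (hwl l).2.symm⟩⟩
      let e : (α × Fin 2) ⊕ β ≃ Fin 2 × α := (Equiv.sumEmpty _ _).trans (Equiv.prodComm _ _)
      let v := w.reindex e
      have hdet : X.det = (-z) ^ Fintype.card α := by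
        rw [← LinearMap.det_toLin', ← LinearMap.det_toMatrix v,
          show LinearMap.toMatrix v v (Matrix.toLin' X) = Matrix.blockDiagonal (fun _ : α => !![0, z; 1, 0]) by
            ext ⟨i, k⟩ ⟨j, l⟩
            rw [LinearMap.toMatrix_apply, Matrix.toLin'_apply, Matrix.blockDiagonal_apply]
            have e0 : X *ᵥ v (0, l) = v (1, l) := by simp [v, e, hw0]
            have e1 : X *ᵥ v (1, l) = z • v (0, l) := by simp [v, e, hw1]
            fin_cases j
            · show v.repr (X *ᵥ v (0, l)) (i, k) = _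
              rw [e0, Module.Basis.repr_self, Finsupp.single_apply]
              fin_cases i <;> by_cases hkl : k = l <;> simp [hkl, Ne.symm]
            · show v.repr (X *ᵥ v (1, l)) (i, k) = _
              rw [e1, map_smul, Module.Basis.repr_self, Finsupp.smul_apply, Finsupp.single_apply]
              fin_cases i <;> by_cases hkl : k = l <;> simp [hkl, Ne.symm],
          Matrix.det_blockDiagonal]
        simp [Matrix.det_fin_two_of, Finset.prod_const, Finset.card_univ]
      have hcard : 2 * Fintype.card α = n := by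
        have := Module.finrank_eq_card_basis v
        simp at this
        omega
      set o := orderOf (Units.mk0 (-z) (neg_ne_zero.2 hz0)) with ho
      have ho1 : o ∣ Fintype.card α := orderOf_dvd_of_pow_eq_one (Units.ext (by
        rw [Units.val_pow_eq_pow_val, Units.val_mk0, ← hdet, Units.val_one]
        exact x.2))
      have hneg : IsSquare (-1 : F) := by
        rw [FiniteField.isSquare_neg_one_iff, hq, hqk]
        obtain ⟨j, hj⟩ := hoddq₀ hodd
        rw [hj, show (2 * j + 1) ^ 2 = 4 * (j * (j + 1)) + 1 by ring]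
        omega
      have hnsq : ¬ IsSquare (-z) := fun h => hns' (by
        have := hneg.mul h; rwa [neg_one_mul, neg_neg] at this)
      rw [FiniteField.isSquare_iff (hchar hodd) (neg_ne_zero.2 hz0), hq] at hnsq
      refine hnsq ?_
      have hdvd : o ∣ q / 2 := by
        have hoq : o ∣ q - 1 := by rw [← hq, ← Fintype.card_units]; exact orderOf_dvd_card
        have hα0 : Fintype.card α ≠ 0 := by omega
        refine (Nat.dvd_iff_prime_pow_dvd_dvd _ _).2 fun p' j hp' hpj => ?_
        obtain ⟨i, hi⟩ := hodd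
        rw [show q / 2 = i by omega]
        rw [show q - 1 = 2 * i by omega] at hoq hle
        rcases eq_or_ne p' 2 with rfl | hp2
        · have h' : 2 ^ (j + 1) ∣ n := by rw [pow_succ', ← hcard]; exact Nat.mul_dvd_mul_left 2 (hpj.trans ho1)
          rw [padicValNat_dvd_iff_le (by omega)] at h'
          rw [padicValNat.mul (by norm_num) (by omega), padicValNat_self] at hle
          rw [padicValNat_dvd_iff_le (by omega)]
          omega
        · have : Nat.Coprime (p' ^ j) 2 :=
            Nat.Coprime.pow_left j ((Nat.coprime_primes hp' Nat.prime_two).2 hp2)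
          exact this.dvd_of_dvd_mul_left (hpj.trans hoq)
      have := congrArg Units.val (orderOf_dvd_iff_pow_eq_one.1 hdvd)
      simpa using this
    have hs0 : s ≠ 0 := fun h => hz0 (by rw [h, mul_zero])
    let u : (α × Fin 2) ⊕ β → Fˣ :=
      Sum.elim (fun p => if p.2 = 0 then 1 else Units.mk0 s⁻¹ (inv_ne_zero hs0)) (fun _ => 1)
    let w' := w.unitsSMul u
    let σ : (α × Fin 2) ⊕ β → (α × Fin 2) ⊕ β :=
      Sum.elim (fun p => .inl (p.1, p.2 + 1)) Sum.inr
    have hε : ∀ l, c l = s ∨ c l = -s := fun l => mul_self_eq_mul_self_iff.1 (hwl l).2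
    let ε : (α × Fin 2) ⊕ β → F₀ := Sum.elim (fun _ => 1) (fun l => if c l = s then 1 else -1)
    have hact : ∀ i, X *ᵥ w' i = (s * (ε i : F)) • w' (σ i) := by
      rintro (⟨k, t⟩ | l)
      · fin_cases t
        · simp [w', u, σ, ε, Module.Basis.unitsSMul_apply, hw0, Units.smul_def, smul_smul, mul_inv_cancel₀ hs0]
        · simp [w', u, σ, ε, Module.Basis.unitsSMul_apply, hw1, Units.smul_def, smul_smul, Matrix.mulVec_smul,
            ← mul_assoc, inv_mul_cancel₀ hs0]
      · simp only [w', u, σ, ε, Module.Basis.unitsSMul_apply, Sum.elim_inr, one_smul, (hwl l).1]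
        rcases hε l with h | h
        · simp [h]
        · rw [h]
          split_ifs with h'
          · simp [h']
          · simp
    let ee : (α × Fin 2) ⊕ β ≃ Fin n := w'.indexEquiv (Pi.basisFun F (Fin n))
    obtain ⟨g₀, hg₀⟩ := CfsgLib.Omega.exists_gl_of_bases (w'.reindex ee) (Pi.basisFun F (Fin n))
    obtain ⟨g, hg, hgy⟩ := CfsgLib.Omega.exists_sl_conj_of_square (g := g₀) hz0 hgx
    refine ⟨g, hg, ?_⟩
    rw [hgy, CfsgLib.Omega.mem_subfieldSubgroup_one]
    refine ⟨s, Matrix.of fun i j => if i = ee (σ (ee.symm j)) then ε (ee.symm j) else 0, hs0, ?_⟩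
    refine Matrix.toLin'.injective ((Pi.basisFun F (Fin n)).ext fun j => ?_)
    simp only [Matrix.toLin'_apply]
    rw [CfsgLib.Omega.conj_mulVec (G x) g₀ (hg₀ j)
      (v' := (s * (ε (ee.symm j) : F)) • Pi.basisFun F (Fin n) (ee (σ (ee.symm j)))) ?_]
    · ext i
      simp [Matrix.mulVec_single_one, Pi.single_apply]
      split_ifs <;> simp
    · rw [Matrix.mulVec_smul, hg₀]
      simp only [Module.Basis.reindex_apply, Equiv.symm_apply_apply, hGval, ← hXdef, hact]

end Cfsg.Agent.S5964
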