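import Cfsg.Statements.S5965
import Cfsg.Agent.Lib.Omega.SubfieldPrime

set_option autoImplicit false
open scoped MatrixGroups
open Cfsg

namespace Cfsg.Agent.S5965

open Polynomial CfsgLib

private theorem pow_surj {E : Type*} [Field E] [Fintype E] {r : ℕ} (hr : r.Prime)
    (h : ¬ r ∣ Fintype.card E - 1) {z : E} (hz : z ≠ 0) : ∃ b : E, b ^ r = z := by
  classical
  have hco : (Nat.card Eˣ).Coprime r := by
    rw [Nat.card_eq_fintype_card, Fintype.card_units]
    exact (hr.coprime_iff_not_dvd.2 h).symm
  obtain ⟨b, hb⟩ := (powCoprime hco).surjective (Units.mk0 z hz)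
  exact ⟨b, by simpa [powCoprime] using congrArg Units.val hb⟩

private theorem pow_inj_of_not_dvd {E : Type*} [Field E] [Fintype E] {r : ℕ} (hr : r.Prime)
    (h : ¬ r ∣ Fintype.card E - 1) {a b : E} (hb : b ≠ 0) (hab : a ^ r = b ^ r) : a = b := by
  classical
  have ha : a ≠ 0 := fun h0 => by
    rw [h0, zero_pow hr.ne_zero] at hab
    exact pow_ne_zero _ hb hab.symm
  have hco : (Nat.card Eˣ).Coprime r := by
    rw [Nat.card_eq_fintype_card, Fintype.card_units]
    exact (hr.coprime_iff_not_dvd.2 h).symm
  have := (powCoprime hco).injective (show powCoprime hco (Units.mk0 a ha) = powCoprime hco (Units.mk0 b hb)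
    from Units.ext (by simpa [powCoprime] using hab))
  simpa using congrArg Units.val this

/-- The numerical consequence of `r` dividing the index. -/
private theorem exists_degree {F : Type*} [Field F] [Fintype F] {n k q₀ r : ℕ} [Fact r.Prime]
    (hn : 2 ≤ n) (F₀ : Subfield F) (hF₀ : Nat.card F₀ = q₀) (hq : Fintype.card F = q₀ ^ k)
    (hr0 : (q₀ : ZMod r) ≠ 0) (hrk : (k : ZMod r) ≠ 0) (H : Subgroup (Matrix.SpecialLinearGroup (Fin n) F))
    (hH : (Matrix.SpecialLinearGroup.map (F₀.subtype : F₀ →+* F) :
      Matrix.SpecialLinearGroup (Fin n) F₀ →* Matrix.SpecialLinearGroup (Fin n) F).range ≤ H)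
    (hdiv : r ∣ H.index) :
    ∃ j, 2 ≤ j ∧ j ≤ n ∧ (q₀ : ZMod r) ^ (k * j) = 1 ∧ (q₀ : ZMod r) ^ j ≠ 1 := by
  classical
  obtain ⟨m, rfl⟩ : ∃ m, n = m + 1 := ⟨n - 1, by omega⟩
  haveI : Fintype F₀ := Fintype.ofFinite _
  have hF₀' : Fintype.card F₀ = q₀ := by rw [← Nat.card_eq_fintype_card, hF₀]
  have hq1 : 1 < q₀ := hF₀' ▸ Fintype.one_lt_card
  let G : ℕ → ℕ := fun j => ∑ l ∈ Finset.range k, (q₀ ^ j) ^ l
  have hG : ∀ j, (q₀ ^ k) ^ j - 1 = (q₀ ^ j - 1) * G j := fun j => by
    have h1 := geom_sum_mul (((q₀ ^ j : ℕ)) : ℤ) k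
    have e : (q₀ ^ k) ^ j = (q₀ ^ j) ^ k := by rw [← pow_mul, mul_comm, pow_mul]
    rw [e]
    zify [Nat.one_le_pow j q₀ (by omega), Nat.one_le_pow k (q₀ ^ j) (pow_pos (by omega) _)]
    simp only [G]
    push_cast at h1 ⊢
    linear_combination (-1 : ℤ) * h1
  have hfac : ∀ i : Fin (m + 1), (q₀ ^ k) ^ (m + 1) - (q₀ ^ k) ^ (i : ℕ) =
      (q₀ ^ (m + 1) - q₀ ^ (i : ℕ)) * (q₀ ^ ((k - 1) * i) * G (m + 1 - i)) := by
    intro i
    have hexp : m + 1 = (i : ℕ) + (m + 1 - i) := by omega
    have hk0 : k ≠ 0 := fun h => hrk (by simp [h])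
    have e3 : (q₀ ^ k) ^ (i : ℕ) = q₀ ^ (i : ℕ) * q₀ ^ ((k - 1) * i) := by
      rw [← pow_mul, ← pow_add]
      obtain ⟨u, rfl⟩ : ∃ u, k = u + 1 := ⟨k - 1, by omega⟩
      rw [Nat.add_sub_cancel]; ring_nf
    have e1 : (q₀ ^ k) ^ (m + 1) - (q₀ ^ k) ^ (i : ℕ) =
        (q₀ ^ k) ^ (i : ℕ) * ((q₀ ^ k) ^ (m + 1 - i) - 1) := by
      rw [Nat.mul_sub, mul_one, ← pow_add, ← hexp]
    have e2 : q₀ ^ (m + 1) - q₀ ^ (i : ℕ) = q₀ ^ (i : ℕ) * (q₀ ^ (m + 1 - i) - 1) := by
      rw [Nat.mul_sub, mul_one, ← pow_add, ← hexp]
    rw [e1, e2, hG, e3]; ring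
  set S₀ := Nat.card (Matrix.SpecialLinearGroup (Fin (m + 1)) F₀) with hS₀
  have hdvd : S₀ ∣ Nat.card H := by
    have hinj : Function.Injective (Matrix.SpecialLinearGroup.map (F₀.subtype : F₀ →+* F) :
        Matrix.SpecialLinearGroup (Fin (m + 1)) F₀ →* Matrix.SpecialLinearGroup (Fin (m + 1)) F) := by
      intro a b hab
      ext i j
      exact congrFun (congrFun (congrArg Subtype.val hab) i) j
    have := Subgroup.card_dvd_of_le hH
    rwa [← Nat.card_congr (MonoidHom.ofInjective hinj).toEquiv] at this
  obtain ⟨c, hc⟩ : r * S₀ ∣ Nat.card (Matrix.SpecialLinearGroup (Fin (m + 1)) F) := by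
    rw [← H.card_mul_index, mul_comm r]
    exact Nat.mul_dvd_mul hdvd hdiv
  have e0 := CfsgLib.ClassicalLinear.card_SL (ι := Fin (m + 1)) (F := F₀)
  have e1 := CfsgLib.ClassicalLinear.card_SL (ι := Fin (m + 1)) (F := F)
  rw [hF₀', Fintype.card_fin] at e0
  rw [hq, Fintype.card_fin, Finset.prod_congr rfl (fun i _ => hfac i), Finset.prod_mul_distrib, ← e0, hc,
    Fin.prod_univ_castSucc] at e1
  simp only [Fin.val_last, Fin.val_castSucc, Nat.add_sub_cancel_left] at e1
  have hk1 : 1 < q₀ ^ k := hq ▸ Fintype.one_lt_card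
  have hG1 : q₀ ^ k - 1 = (q₀ - 1) * G 1 := by simpa using hG 1
  have hG10 : G 1 ≠ 0 := fun h => by
    rw [h, mul_zero] at hG1
    omega
  have hG1' : G (m + 1 - m) = G 1 := by rw [Nat.add_sub_cancel_left]
  have hpos : 0 < (q₀ - 1) * G 1 * S₀ :=
    Nat.mul_pos (Nat.mul_pos (by omega) (Nat.pos_of_ne_zero hG10)) Nat.card_pos
  have e4 : r * c = (∏ i : Fin m, q₀ ^ ((k - 1) * i) * G (m + 1 - i)) * q₀ ^ ((k - 1) * m) := by
    refine Nat.eq_of_mul_eq_mul_left hpos ?_
    rw [hG1] at e1
    calc (q₀ - 1) * G 1 * S₀ * (r * c) = (q₀ - 1) * G 1 * (r * S₀ * c) := by ring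
      _ = _ := by rw [e1]; ring
  have h0 : (∏ i : Fin m, ((q₀ : ZMod r) ^ ((k - 1) * (i : ℕ)) * (G (m + 1 - i) : ZMod r))) *
      (q₀ : ZMod r) ^ ((k - 1) * m) = 0 := by
    have := congrArg (fun t : ℕ => (t : ZMod r)) e4
    simpa using this.symm
  rw [mul_eq_zero, or_iff_left (pow_ne_zero _ hr0), Finset.prod_eq_zero_iff] at h0
  obtain ⟨i, -, hi⟩ := h0
  rw [mul_eq_zero, or_iff_right (pow_ne_zero _ hr0)] at hi
  refine ⟨m + 1 - i, by omega, by omega, ?_, ?_⟩
  · have h := congrArg (fun t : ℕ => (t : ZMod r)) (hG (m + 1 - i))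
    simp only [Nat.cast_mul, hi, mul_zero] at h
    rw [Nat.cast_sub (Nat.one_le_pow _ _ (by omega))] at h
    push_cast at h
    rw [← pow_mul] at h
    exact sub_eq_zero.1 h
  · intro h
    apply hrk
    simpa [G, h] using hi

/-- Multisets of size `r` and sum zero in `ZMod r`, `r ∈ {3, 5}`, have a symmetry. -/
private theorem exists_symm_three : ∀ b : ZMod 3, ∃ e : ZMod 3,
    ((([0, b, -b] : List (ZMod 3)) : Multiset (ZMod 3)).map fun s => -s + e) =
      (([0, b, -b] : List (ZMod 3)) : Multiset (ZMod 3)) := by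
  decide

private theorem exists_symm_five : ∀ b c d : ZMod 5, ∃ e : ZMod 5,
    ((([0, b, c, d, -(b + c + d)] : List (ZMod 5)) : Multiset (ZMod 5)).map fun s => -s + e) =
      (([0, b, c, d, -(b + c + d)] : List (ZMod 5)) : Multiset (ZMod 5)) := by
  decide +kernel

private theorem exists_symm {r : ℕ} (hr : r = 3 ∨ r = 5) (S : Multiset (ZMod r))
    (hcard : Multiset.card S = r) (hsum : S.sum = 0) :
    ∃ e : ZMod r, S.map (fun s => -s + e) = S := by
  have hne : S ≠ 0 := by
    intro h
    rw [h, Multiset.card_zero] at hcard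
    omega
  obtain ⟨a, ha⟩ := Multiset.exists_mem_of_ne_zero hne
  obtain ⟨T, rfl⟩ := Multiset.exists_cons_of_mem ha
  suffices ∃ e, ((a ::ₘ T).map fun s => s - a).map (fun s => -s + e) = (a ::ₘ T).map fun s => s - a by
    obtain ⟨e, he⟩ := this
    refine ⟨e + 2 * a, ?_⟩
    have h1 := congrArg (Multiset.map fun s => s + a) he
    simp only [Multiset.map_map, Function.comp_def, sub_add_cancel, Multiset.map_id'] at h1
    conv_rhs => rw [← h1]
    exact Multiset.map_congr rfl fun s _ => by ring
  obtain ⟨l, rfl⟩ : ∃ l : List (ZMod r), T = l := ⟨T.toList, T.coe_toList.symm⟩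
  simp only [Multiset.cons_coe, Multiset.coe_card, Multiset.sum_coe, List.length_cons, List.sum_cons] at hcard hsum
  simp only [Multiset.map_cons, sub_self, Multiset.map_coe, List.map_cons, Multiset.cons_coe]
  rcases hr with rfl | rfl
  · match l, hcard, hsum with
    | [b, c], _, hsum =>
      obtain ⟨e, he⟩ := exists_symm_three (b - a)
      refine ⟨e, ?_⟩
      have h3 : (3 : ZMod 3) = 0 := by decide
      have hc : c - a = -(b - a) := by
        simp only [List.sum_cons, List.sum_nil] at hsum
        linear_combination hsum - a * h3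
      simp only [List.map_cons, List.map_nil, hc]
      simpa only [Multiset.map_coe, List.map_cons, List.map_nil] using he
  · match l, hcard, hsum with
    | [b, c, d, f], _, hsum =>
      obtain ⟨e, he⟩ := exists_symm_five (b - a) (c - a) (d - a)
      refine ⟨e, ?_⟩
      have h5 : (5 : ZMod 5) = 0 := by decide
      have hf : f - a = -((b - a) + (c - a) + (d - a)) := by
        simp only [List.sum_cons, List.sum_nil] at hsum
        linear_combination hsum - a * h5
      simp only [List.map_cons, List.map_nil, hf]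
      simpa only [Multiset.map_coe, List.map_cons, List.map_nil] using he

private theorem zmod_three_cases : ∀ b : ZMod 3, b ≠ 0 → b = 1 ∨ b = -1 := by decide

/-- A multiset with one dominant value has no symmetry `s ↦ a * s + e`. -/
private theorem map_affine_ne {R : Type*} [CommRing R] [DecidableEq R] {m : ℕ} (T : Multiset R) {a : R}
    (hT : Multiset.card T < m) (h1 : (1 : R) ∈ T) (ha : a ∉ T) (h0 : (0 : R) ∉ T) (e : R) :
    (Multiset.replicate m (0 : R) + T).map (fun s => a * s + e) ≠ Multiset.replicate m (0 : R) + T := by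
  intro h
  have he : e = 0 := by
    by_contra he
    have hc := congrArg (Multiset.count e) h
    rw [Multiset.map_add, Multiset.map_replicate, mul_zero, zero_add, Multiset.count_add,
      Multiset.count_replicate_self, Multiset.count_add,
      Multiset.count_eq_zero.2 (fun h' => he (Multiset.eq_of_mem_replicate h'))] at hc
    have := Multiset.count_le_card e T
    omega
  subst he
  simp only [add_zero, Multiset.map_add, Multiset.map_replicate, mul_zero] at h
  rw [add_right_inj] at h
  exact ha (h ▸ Multiset.mem_map.2 ⟨1, h1, mul_one a⟩)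

private theorem exists_fun {α : Type*} {n : ℕ} (S : Multiset α) (h : Multiset.card S = n) :
    ∃ E : Fin n → α, Finset.univ.val.map E = S := by
  obtain ⟨l, rfl⟩ : ∃ l : List α, S = l := ⟨S.toList, S.coe_toList.symm⟩
  rw [Multiset.coe_card] at h
  subst h
  exact ⟨l.get, by rw [Fin.univ_val_map, List.ofFn_get]⟩

/-- Elements of odd prime order r ≠ p of PSL_n(q) and subfield subgroups. Here `T = PSL_n(F)` for a field `F` with `q = p^f` elements (`n ≥ 2`, `(n, q) ≠ (2, 2), (2, 3)`), `F₀` is the subfield with `q₀` elements where `q = q₀^k` for a prime `k`, and `H` is the subgroup of matrices of determinant 1 lying in the subfield group of `F₀` (invertible matrices over `F₀` times scalars) — a maximal subgroup of type GL_n(q₀) (the case `n = 2`, `q₀ = 2` is excluded); Ω is the set of `T`-conjugates of `H` (cosets of `H`), so an element of `T` of prime order `r` (a matrix `x` of determinant 1 with `x^r` scalar, `x` not scalar) fixes a point of Ω when some conjugate of `x` by a matrix of determinant 1 lies in `H`. Let `r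 ≠ p` be an odd prime dividing the index of `H`, with `(n, r) ≠ (6, 3)` and, when `r = k` divides `q₀ − 1`, with `(n)_r ≤ (q − 1)_r`. Then every element of `T` of order `r` is conjugate in `T` into `H` if and only if `r = k`, or `k = 2`, `r = n ∈ {3, 5}` and `(q₀ + 1)_r = r`. The two excluded cases, `(n, r) = (6, 3)` and `r = k ∣ q₀ − 1` with `(n)_r > (q − 1)_r`, are ones where this criterion can fail, so they are left out. -/
theorem result {F : Type*} [Field F] [Fintype F] {p : ℕ} [Fact p.Prime] [CharP F p] {q : ℕ} (hq : Fintype.card F = q)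
    (n : ℕ) (hn : 2 ≤ n) (hT : (n, q) ≠ (2, 2) ∧ (n, q) ≠ (2, 3))
    (F₀ : Subfield F) (k q₀ : ℕ) (hk : k.Prime) (hF₀ : Nat.card ↥F₀ = q₀) (hqk : q = q₀ ^ k) (hC5 : ¬ (n = 2 ∧ q₀ = 2)) (r : ℕ) [Fact r.Prime] (hr2 : r ≠ 2) (hrp : r ≠ p) (hgap : ¬ (n = 6 ∧ r = 3)) (hgapk : r = k → r ∣ q₀ - 1 → padicValNat r n ≤ padicValNat r (q - 1)) (hΩ : r ∣ ((Cfsg.Geo.subfieldSubgroup F₀ 1).comap (Matrix.SpecialLinearGroup.toGL : Matrix.SpecialLinearGroup (Fin n) F →* GL (Fin n) F)).index) :
    (∀ x : Matrix.SpecialLinearGroup (Fin n) F,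
      (∃ z : F, ((x ^ r : Matrix.SpecialLinearGroup (Fin n) F) : Matrix (Fin n) (Fin n) F) = z • (1 : Matrix (Fin n) (Fin n) F)) →
      (∀ z : F, (x : Matrix (Fin n) (Fin n) F) ≠ z • (1 : Matrix (Fin n) (Fin n) F)) →
      ∃ P : Matrix.SpecialLinearGroup (Fin n) F, P⁻¹ * x * P ∈ ((Cfsg.Geo.subfieldSubgroup F₀ 1).comap (Matrix.SpecialLinearGroup.toGL : Matrix.SpecialLinearGroup (Fin n) F →* GL (Fin n) F))) ↔
    (r = k ∨ (k = 2 ∧ r = n ∧ (n = 3 ∨ n = 5) ∧ padicValNat r (q₀ + 1) = 1)) := by
  classical
  have hr : r.Prime := Fact.out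
  have hrodd : Odd r := hr.odd_of_ne_two hr2
  haveI : NeZero n := ⟨by omega⟩
  haveI : Fintype F₀ := Fintype.ofFinite _
  have hF₀' : Fintype.card F₀ = q₀ := by rw [← Nat.card_eq_fintype_card, hF₀]
  haveI : CharP F₀ p := (RingHom.charP_iff F₀.subtype F₀.subtype.injective p).2 inferInstance
  obtain ⟨⟨f₀, hf₀⟩, -, hq₀p⟩ := FiniteField.card F₀ p
  rw [hF₀', PNat.mk_coe] at hq₀p
  have hq1 : 1 < q₀ := hF₀' ▸ Fintype.one_lt_card
  have hr0 : (q₀ : ZMod r) ≠ 0 := by
    rw [Ne, ZMod.natCast_eq_zero_iff, hq₀p]
    exact fun h => hrp ((Nat.prime_dvd_prime_iff_eq hr Fact.out).1 (hr.dvd_of_dvd_pow h))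
  have hqz : (q : ZMod r) = (q₀ : ZMod r) ^ k := by rw [hqk, Nat.cast_pow]
  have hdvd_q : ∀ {m : ℕ}, 1 ≤ m → (r ∣ m - 1 ↔ (m : ZMod r) = 1) := fun {m} hm => by
    rw [← ZMod.natCast_eq_zero_iff, Nat.cast_sub hm, Nat.cast_one, sub_eq_zero]
  have hqpos : 1 ≤ q := hq ▸ Fintype.card_pos
  -- elements and their orders
  have hord : ∀ (x : Matrix.SpecialLinearGroup (Fin n) F) (z : F),
      ((x ^ r : Matrix.SpecialLinearGroup (Fin n) F) : Matrix (Fin n) (Fin n) F) = z • 1 →
      z ≠ 0 ∧ z ^ n = 1 ∧ (orderOf x).Coprime p := by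
    intro x z hz
    have hzn : z ^ n = 1 := by
      have := (x ^ r).det_coe
      rwa [hz, Matrix.det_smul, Fintype.card_fin, Matrix.det_one, mul_one] at this
    have hz0 : z ≠ 0 := fun h => by simp [h, zero_pow (show n ≠ 0 by omega)] at hzn
    refine ⟨hz0, hzn, ?_⟩
    have : (x ^ r) ^ (q - 1) = 1 := by
      apply Subtype.ext
      rw [Matrix.SpecialLinearGroup.coe_pow, hz, _root_.smul_pow, one_pow, ← hq,
        FiniteField.pow_card_sub_one_eq_one z hz0, one_smul, Matrix.SpecialLinearGroup.coe_one]
    rw [← pow_mul] at this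
    refine Nat.Coprime.coprime_dvd_left (orderOf_dvd_of_pow_eq_one this) (Nat.Coprime.mul_left
      ((Nat.coprime_primes hr Fact.out).2 hrp) ?_)
    have hp : p.Prime := Fact.out
    refine Nat.Coprime.symm (hp.coprime_iff_not_dvd.2 fun hd => ?_)
    have h1 : p ∣ q := by rw [hqk, hq₀p, ← pow_mul]; exact dvd_pow_self p (Nat.mul_ne_zero (by omega) hk.ne_zero)
    have := Nat.dvd_sub h1 hd
    rw [show q - (q - 1) = 1 by omega] at this
    exact hp.ne_one (Nat.dvd_one.1 this)
  constructor
  · -- the elements which are not conjugate into the subfield group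
    intro h
    by_contra hcon
    rw [not_or] at hcon
    obtain ⟨hrk, hex⟩ := hcon
    have hrk' : (k : ZMod r) ≠ 0 := by
      rw [Ne, ZMod.natCast_eq_zero_iff, Nat.prime_dvd_prime_iff_eq hr hk]
      exact hrk
    obtain ⟨j, hj2, hjn, hj1, hj0⟩ := exists_degree hn F₀ hF₀ (hq.trans hqk) hr0 hrk'
      ((Cfsg.Geo.subfieldSubgroup F₀ 1).comap
        (Matrix.SpecialLinearGroup.toGL : Matrix.SpecialLinearGroup (Fin n) F →* GL (Fin n) F)) (by
        rintro _ ⟨g, rfl⟩
        rw [Subgroup.mem_comap, Omega.mem_subfieldSubgroup_one]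
        exact ⟨1, g, one_ne_zero, by rw [one_smul]; rfl⟩) hΩ
    rw [pow_mul, ← hqz] at hj1
    -- what a conjugate in the subfield group says about the characteristic polynomial
    have hconj : ∀ x P : Matrix.SpecialLinearGroup (Fin n) F,
        P⁻¹ * x * P ∈ (Cfsg.Geo.subfieldSubgroup F₀ 1).comap
          (Matrix.SpecialLinearGroup.toGL : Matrix.SpecialLinearGroup (Fin n) F →* GL (Fin n) F) →
        ∃ (c : F) (M : Matrix (Fin n) (Fin n) F₀), c ≠ 0 ∧
          ((P⁻¹ * x * P : Matrix.SpecialLinearGroup (Fin n) F) : Matrix (Fin n) (Fin n) F) = c • M.map F₀.subtype ∧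
          (c⁻¹ • (x : Matrix (Fin n) (Fin n) F)).charpoly = M.charpoly.map F₀.subtype := by
      intro x P hP
      rw [Subgroup.mem_comap, Omega.mem_subfieldSubgroup_one] at hP
      obtain ⟨c, M, hc, hM⟩ := hP
      refine ⟨c, M, hc, hM, ?_⟩
      rw [← Matrix.charpoly_map, ← Matrix.charpoly_units_conj' (Matrix.SpecialLinearGroup.toGL P)]
      congr 1
      rw [map_mul, map_mul, map_inv, Units.val_mul, Units.val_mul, Matrix.coe_units_inv] at hM
      rw [Matrix.mul_smul, Matrix.smul_mul]
      rw [show (x : Matrix (Fin n) (Fin n) F) =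
        ((Matrix.SpecialLinearGroup.toGL x : GL (Fin n) F) : Matrix (Fin n) (Fin n) F) from rfl, hM,
        smul_smul, inv_mul_cancel₀ hc, one_smul]
    by_cases hrq : r ∣ q - 1
    · -- `r` divides `q - 1`
      have hq1' : (q : ZMod r) = 1 := (hdvd_q hqpos).1 hrq
      set a := (q₀ : ZMod r) with ha
      have hak : a ^ k = 1 := hqz ▸ hq1'
      have ha1 : a ≠ 1 := fun h' => hj0 (by rw [h', one_pow])
      obtain ⟨u, hu⟩ := exists_prime_orderOf_dvd_card (G := Fˣ) r (by rwa [Fintype.card_units, hq])
      have hζ : IsPrimitiveRoot (u : F) r := by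
        rw [IsPrimitiveRoot.coe_units_iff, ← hu]
        exact IsPrimitiveRoot.orderOf u
      let ev : AddChar (ZMod r) F := AddChar.zmodChar r hζ.pow_eq_one
      have evinj : Function.Injective ev := fun s t hst => ZMod.val_injective r (hζ.pow_inj
        (ZMod.val_lt s) (ZMod.val_lt t) (by simpa [ev, AddChar.zmodChar_apply] using hst))
      have evne : ∀ s, ev s ≠ 0 := fun s => by
        simp only [ev, AddChar.zmodChar_apply]
        exact pow_ne_zero _ u.ne_zero
      have hbad : ∀ S : Multiset (ZMod r), Multiset.card S = n →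
          (∀ e, S.map (fun s => a * s + e) ≠ S) → (∃ l : F, l ^ n * ev S.sum = 1) → False := by
        intro S hS hinv ⟨l, hl⟩
        obtain ⟨E, hE⟩ := exists_fun S hS
        have hdet : (Matrix.diagonal fun i => l * ev (E i)).det = 1 := by
          have key : ∀ T : Multiset (ZMod r), ev T.sum = (T.map ev).prod := fun T => by
            induction T using Multiset.induction_on with
            | empty => simp
            | cons b T ih => rw [Multiset.sum_cons, AddChar.map_add_eq_mul, ih, Multiset.map_cons,
                Multiset.prod_cons]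
          rw [Matrix.det_diagonal, Finset.prod_mul_distrib, Finset.prod_const, Finset.card_univ,
            Fintype.card_fin, ← hl, key, ← hE, Multiset.map_map]
          rfl
        have hl0 : l ≠ 0 := fun h0 => by simp [h0, zero_pow (show n ≠ 0 by omega)] at hl
        let x : Matrix.SpecialLinearGroup (Fin n) F := ⟨Matrix.diagonal fun i => l * ev (E i), hdet⟩
        obtain ⟨P, hP⟩ := h x ⟨l ^ r, by
          rw [Matrix.SpecialLinearGroup.coe_pow, Matrix.smul_one_eq_diagonal]
          show (Matrix.diagonal fun i => l * ev (E i)) ^ r = _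
          rw [Matrix.diagonal_pow]
          congr 1
          ext i
          simp only [Pi.pow_apply, mul_pow, ev, AddChar.zmodChar_apply, ← pow_mul]
          rw [mul_comm _ r, pow_mul (u : F), hζ.pow_eq_one, one_pow, mul_one]⟩ (fun z hz => by
          have hz' : ∀ i, l * ev (E i) = z := fun i => by
            have := congrFun (congrFun hz i) i
            simpa [x] using this
          have : S = Multiset.replicate n (E 0) := by
            refine Multiset.eq_replicate.2 ⟨hS, fun s hs => ?_⟩
            rw [← hE] at hs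
            obtain ⟨i, -, rfl⟩ := Multiset.mem_map.1 hs
            exact evinj (mul_left_cancel₀ hl0 ((hz' i).trans (hz' 0).symm))
          exact hinv (E 0 - a * E 0) (by rw [this, Multiset.map_replicate, add_sub_cancel]))
        obtain ⟨c, M, hc, -, hchar⟩ := hconj x P hP
        set μ := c⁻¹ * l with hμ
        have hμ0 : μ ≠ 0 := mul_ne_zero (inv_ne_zero hc) hl0
        set Q := (S.map fun s => X - C (μ * ev s)).prod with hQ
        have hchar' : Q = M.charpoly.map F₀.subtype := by
          rw [← hchar]
          show Q = (c⁻¹ • Matrix.diagonal fun i => l * ev (E i)).charpoly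
          rw [← Matrix.diagonal_smul, Matrix.charpoly_diagonal, hQ, ← hE, Multiset.map_map]
          refine congrArg Multiset.prod (Multiset.map_congr rfl fun i _ => ?_)
          simp [μ, mul_assoc]
        have hφ : Q.map (iterateFrobenius F p f₀) = Q := by
          rw [hchar', map_map]
          congr 1
          ext b
          simp only [RingHom.comp_apply, iterateFrobenius_def, ← hq₀p, Subfield.coe_subtype]
          rw [← SubmonoidClass.coe_pow, ← hF₀', FiniteField.pow_card]
        rw [hQ, Polynomial.map_multiset_prod, Multiset.map_map] at hφ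
        have hroots := congrArg roots hφ
        rw [show (Polynomial.map (iterateFrobenius F p f₀) ∘ fun s => X - C (μ * ev s)) =
          (fun b => X - C b) ∘ fun s => μ ^ q₀ * ev (a * s) from by
            funext s
            simp only [Function.comp_apply, Polynomial.map_sub, map_X, map_C, iterateFrobenius_def,
              ← hq₀p, mul_pow, ha, ← nsmul_eq_mul, AddChar.map_nsmul_eq_pow],
          ← Multiset.map_map, roots_multiset_prod_X_sub_C,
          show (fun s => X - C (μ * ev s)) = (fun b => X - C b) ∘ fun s => μ * ev s from rfl,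
          ← Multiset.map_map, roots_multiset_prod_X_sub_C] at hroots
        obtain ⟨s₀, hs₀⟩ := Multiset.card_pos_iff_exists_mem.1 (show 0 < Multiset.card S by omega)
        have hmem : μ ^ q₀ * ev (a * s₀) ∈ S.map fun s => μ * ev s :=
          hroots ▸ Multiset.mem_map_of_mem _ hs₀
        obtain ⟨t, -, ht⟩ := Multiset.mem_map.1 hmem
        refine hinv (t - a * s₀) (Multiset.map_injective
          ((mul_right_injective₀ hμ0).comp evinj) ?_)
        rw [Multiset.map_map]
        refine Eq.trans (Multiset.map_congr rfl fun s _ => ?_) hroots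
        apply mul_right_cancel₀ (evne (a * s₀))
        simp only [Function.comp_apply]
        rw [mul_assoc, ← AddChar.map_add_eq_mul, show a * s + (t - a * s₀) + a * s₀ = t + a * s by ring,
          AddChar.map_add_eq_mul, ← mul_assoc, ht]
        ring
      -- the test multisets
      have hm1 : (-1 : ZMod r) ≠ 1 := fun h' => hr2 ((Nat.prime_dvd_prime_iff_eq hr Nat.prime_two).1
        ((ZMod.natCast_eq_zero_iff 2 r).1 (by push_cast; linear_combination -h')))
      have ha0 : a ≠ 0 := hr0
      have hneg : k ≠ 2 → a ≠ -1 := fun hk2 h' => hm1 (by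
        rw [← (hk.odd_of_ne_two hk2).neg_one_pow, ← h', hak])
      have hone : (∃ l : F, l ^ n * ev 1 = 1) → 3 ≤ n → False := fun hl hn3 =>
        hbad (Multiset.replicate (n - 1) 0 + {1}) (by simp; omega)
          (fun e => map_affine_ne _ (by simp; omega) (by simp) (by simpa using ha1) (by simp) e)
          (by simpa using hl)
      have hdiv : ¬ r ∣ n → ∀ s : ZMod r, ∃ l : F, l ^ n * ev s = 1 := fun hrn s => by
        have hn0 : (n : ZMod r) ≠ 0 := fun h' => hrn ((ZMod.natCast_eq_zero_iff n r).1 h')
        refine ⟨ev (-((n : ZMod r)⁻¹ * s)), ?_⟩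
        rw [← AddChar.map_nsmul_eq_pow, ← AddChar.map_add_eq_mul, nsmul_eq_mul, mul_neg,
          mul_inv_cancel_left₀ hn0, neg_add_cancel, AddChar.map_zero_eq_one]
      rcases hn.eq_or_lt with hn2 | hn3
      · have hk2 : k ≠ 2 := fun hk2 => hj0 (by
          obtain rfl : j = k := by omega
          exact hak)
        refine hbad ((([0, 1] : List (ZMod r)) : Multiset (ZMod r))) (by simp; omega) (fun e he => ?_)
          (hdiv (fun h' => hr2 ((Nat.prime_dvd_prime_iff_eq hr Nat.prime_two).1 (hn2 ▸ h'))) _)
        have h0 : a * 0 + e ∈ (([0, 1] : List (ZMod r)) : Multiset (ZMod r)) :=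
          he ▸ Multiset.mem_map_of_mem _ (by simp)
        have h1 : a * 1 + e ∈ (([0, 1] : List (ZMod r)) : Multiset (ZMod r)) :=
          he ▸ Multiset.mem_map_of_mem (fun s => a * s + e) (by simp)
        simp at h0 h1
        rcases h0 with rfl | rfl
        · simp at h1; rcases h1 with h1 | h1 <;> contradiction
        · rcases h1 with h1 | h1
          · exact hneg hk2 (by linear_combination h1)
          · exact ha0 (by linear_combination h1)
      by_cases hrn : r ∣ n
      · have hrle : r ≤ n := Nat.le_of_dvd (by omega) hrn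
        have hr3 : 3 ≤ r := by have := hr.two_le; omega
        have h3 : r ≠ 3 → (3 : ZMod r) ≠ 0 := fun hr' h' => hr' ((Nat.prime_dvd_prime_iff_eq hr
          Nat.prime_three).1 ((ZMod.natCast_eq_zero_iff 3 r).1 (by exact_mod_cast h')))
        have h2 : (2 : ZMod r) ≠ 0 := fun h' => hm1 (by linear_combination -h')
        have hr4 : r ≠ 4 := fun h' => absurd (h' ▸ hr) (by decide)
        by_cases hk2 : k = 2
        · have haneg : a = -1 := by
            rcases sq_eq_one_iff.1 (hk2 ▸ hak) with h' | h'
            · exact absurd h' ha1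
            · exact h'
          by_cases hexc : r = n ∧ (n = 3 ∨ n = 5)
          · -- `r²` divides `q - 1`
            have hv : padicValNat r (q₀ + 1) ≠ 1 := fun h' => hex ⟨hk2, hexc.1, hexc.2, h'⟩
            have hd1 : r ∣ q₀ + 1 := by
              rw [← ZMod.natCast_eq_zero_iff]; push_cast; rw [← ha, haneg]; ring
            have hv2 : r ^ 2 ∣ q₀ + 1 := (padicValNat_dvd_iff_le (by omega)).2 (by
              have := one_le_padicValNat_of_dvd (p := r) (by omega) hd1
              omega)
            have hq2 : r ^ 2 ∣ q - 1 := by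
              rw [hqk, hk2, show q₀ ^ 2 - 1 = (q₀ + 1) * (q₀ - 1) by rw [← Nat.sq_sub_sq]]
              exact hv2.mul_right _
            obtain ⟨w, hw⟩ := Omega.exists_pow_eq_of_pow_div (F := F) (r := r) (z := (ev 1)⁻¹)
              (by rwa [hq]) (inv_ne_zero (evne 1)) (by
                obtain ⟨t, ht⟩ := hq2
                rw [hq, ht, sq, mul_assoc, Nat.mul_div_cancel_left _ hr.pos, inv_pow, pow_mul,
                  ← AddChar.map_nsmul_eq_pow, nsmul_eq_mul, ZMod.natCast_self, zero_mul,
                  AddChar.map_zero_eq_one, one_pow, inv_one])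
            exact hone ⟨w, by rw [← hexc.1, hw, inv_mul_cancel₀ (evne 1)]⟩ hn3
          · have hn7 : 7 ≤ n := by
              obtain ⟨t, rfl⟩ := hrn
              rcases t with - | - | t
              · omega
              · simp only [zero_add, mul_one] at hexc hgap ⊢
                have := hr.eq_one_or_self_of_dvd
                by_contra hlt
                interval_cases r <;> first | omega | (norm_num at hr; done) | exact hexc (by omega) | (norm_num at hexc; done)
              · rcases (show r = 3 ∨ 4 ≤ r by omega) with rfl | h4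
                · have : t ≠ 0 := fun h' => hgap ⟨by subst h'; rfl, rfl⟩
                  omega
                · calc 7 ≤ 4 * 2 := by norm_num
                    _ ≤ _ := Nat.mul_le_mul h4 (by omega)
            by_cases hr' : r = 3
            · have h30 : (3 : ZMod r) = 0 := by
                rw [← Nat.cast_three, ZMod.natCast_eq_zero_iff, hr']
              refine hbad (Multiset.replicate (n - 3) 0 + Multiset.replicate 3 1) (by simp; omega)
                (fun e => map_affine_ne _ (by simp; omega) (by simp)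
                  (fun h' => ha1 (Multiset.eq_of_mem_replicate h'))
                  (fun h' => zero_ne_one (Multiset.eq_of_mem_replicate h')) e) ⟨1, ?_⟩
              simp only [Multiset.sum_add, Multiset.sum_replicate, smul_zero, zero_add, nsmul_eq_mul,
                Nat.cast_ofNat, h30, zero_mul, AddChar.map_zero_eq_one, one_pow, mul_one]
            · have h3' := h3 hr'
              refine hbad (Multiset.replicate (n - 3) 0 + (([1, 2, -3] : List (ZMod r)) : Multiset (ZMod r)))
                (by simp; omega) (fun e => map_affine_ne _ (by simp; omega) (by simp) ?_ ?_ e) ⟨1, ?_⟩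
              · simp only [Multiset.mem_coe, List.mem_cons, List.not_mem_nil, or_false, haneg]
                rintro (h' | h' | h')
                · exact hm1 h'
                · exact h3' (by linear_combination -h')
                · exact h2 (by linear_combination h')
              · simp only [Multiset.mem_coe, List.mem_cons, List.not_mem_nil, or_false]
                rintro (h' | h' | h')
                · exact zero_ne_one h'
                · exact h2 h'.symm
                · exact h3' (by linear_combination h')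
              · simp only [Multiset.sum_add, Multiset.sum_replicate, smul_zero, zero_add, Multiset.sum_coe,
                  List.sum_cons, List.sum_nil]
                rw [show (1 : ZMod r) + (2 + (-3 + 0)) = 0 by ring, AddChar.map_zero_eq_one]
                simp
        · -- odd degree of the extension
          have hr5 : r ≠ 3 := by
            rintro rfl
            rcases zmod_three_cases a ha0 with h' | h'
            exacts [ha1 h', hneg hk2 h']
          refine hbad (Multiset.replicate (n - 2) 0 + (([1, -1] : List (ZMod r)) : Multiset (ZMod r)))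
            (by simp; omega) (fun e => map_affine_ne _ (by simp; omega) (by simp) ?_ ?_ e) ⟨1, ?_⟩
          · simp [ha1, hneg hk2]
          · simp
          · simp [AddChar.map_zero_eq_one]
      · exact hone (hdiv hrn 1) hn3
    · -- `r` does not divide `q - 1`: an irreducible piece of the cyclotomic polynomial
      set i := orderOf (q : ZMod r) with hi
      have hq0 : (q : ZMod r) ≠ 0 := hqz ▸ pow_ne_zero _ hr0
      have hi0 : 0 < i := Nat.pos_of_ne_zero fun h' => by
        have := orderOf_dvd_of_pow_eq_one (ZMod.pow_card_sub_one_eq_one hq0)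
        rw [← hi, h', zero_dvd_iff] at this
        have := hr.two_le
        omega
      have hij : i ∣ j := orderOf_dvd_of_pow_eq_one hj1
      have hin : i ≤ n := (Nat.le_of_dvd (by omega) hij).trans hjn
      let K := AlgebraicClosure F
      let ψ : F →+* K := algebraMap F K
      haveI : CharP K p := charP_of_injective_algebraMap (algebraMap F K).injective p
      haveI : NeZero (r : K) := ⟨fun h' => hrp ((Nat.prime_dvd_prime_iff_eq (Fact.out : p.Prime) hr).1
        ((CharP.cast_eq_zero_iff K p r).1 h')).symm⟩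
      obtain ⟨ζ, hζ⟩ := HasEnoughRootsOfUnity.exists_primitiveRoot K r
      have hexp : ∀ {u v : ℕ}, ζ ^ u = ζ ^ v ↔ (u : ZMod r) = v := fun {u v} => by
        rw [ZMod.natCast_eq_natCast_iff', pow_eq_pow_mod u hζ.pow_eq_one, pow_eq_pow_mod v hζ.pow_eq_one]
        exact ⟨fun h' => hζ.pow_inj (Nat.mod_lt _ hr.pos) (Nat.mod_lt _ hr.pos) h', fun h' => by rw [h']⟩
      obtain ⟨⟨fq, hfq⟩, -, hqp⟩ := FiniteField.card F p
      rw [hq, PNat.mk_coe] at hqp
      let g : ℕ → K[X] := fun b => X - C (ζ ^ q ^ b)
      have hgφ : (∏ b ∈ Finset.range i, g b).map (iterateFrobenius K p fq) = ∏ b ∈ Finset.range i, g b := by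
        rw [Polynomial.map_prod]
        have e : ∀ b, (g b).map (iterateFrobenius K p fq) = g (b + 1) := fun b => by
          simp only [g, Polynomial.map_sub, map_X, map_C, iterateFrobenius_def, ← hqp, ← pow_mul, pow_succ]
        simp only [e]
        have hgi : g i = g 0 := by
          simp only [g]
          rw [hexp.2 (by push_cast; rw [hi, pow_orderOf_eq_one, pow_zero] : ((q ^ i : ℕ) : ZMod r) = (q ^ 0 : ℕ))]
        have h1 := Finset.prod_range_succ g i
        rw [Finset.prod_range_succ', hgi] at h1
        exact mul_right_cancel₀ (X_sub_C_ne_zero _) h1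
      obtain ⟨G₀, hG₀⟩ := Omega.exists_map_eq_of_frobenius ψ (iterateFrobenius K p fq)
        (fun b => by rw [iterateFrobenius_def, ← hqp, ← hq, Nat.card_eq_fintype_card]) _ hgφ
      have hG₀m : G₀.Monic := monic_of_injective ψ.injective
        (hG₀ ▸ monic_prod_of_monic _ _ fun b _ => monic_X_sub_C _)
      have hG₀d : G₀.natDegree = i := by
        rw [← natDegree_map_eq_of_injective ψ.injective G₀, hG₀,
          natDegree_prod_of_monic _ _ fun b _ => monic_X_sub_C _]
        simp [g, natDegree_X_sub_C, -map_pow]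
      set χ : F[X] := G₀ * (X - 1) ^ (n - i) with hχ
      have hχm : χ.Monic := hG₀m.mul (by simpa using (monic_X_sub_C (1 : F)).pow (n - i))
      have hχd : χ.natDegree = n := by
        rw [hχ, ← C_1, hG₀m.natDegree_mul ((monic_X_sub_C (1 : F)).pow _), natDegree_pow, natDegree_X_sub_C, hG₀d]
        omega
      have hχK : χ.map ψ = (∏ b ∈ Finset.range i, g b) * (X - 1) ^ (n - i) := by
        rw [hχ, Polynomial.map_mul, hG₀, Polynomial.map_pow, Polynomial.map_sub, map_X, Polynomial.map_one]
      have hχ0 : χ.coeff 0 ≠ 0 := fun h' => by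
        have h'' := congrArg (eval 0) hχK
        rw [← coeff_zero_eq_eval_zero, coeff_map, h', map_zero, eq_comm, eval_mul, eval_prod, eval_pow,
          eval_sub, eval_X, eval_one, zero_sub, mul_eq_zero, or_iff_left (pow_ne_zero _ (by simp)),
          Finset.prod_eq_zero_iff] at h''
        obtain ⟨b, -, hb⟩ := h''
        simp only [g, eval_sub, eval_X, eval_C, zero_sub, neg_eq_zero] at hb
        exact pow_ne_zero _ (hζ.ne_zero hr.ne_zero) hb
      obtain ⟨ι, _, _, M, N, hM, hN, hN0, hMN⟩ := CfsgLib.SemisimpleClasses.isGood_of_monic p χ hχm hχ0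
      let e : ι ≃ Fin n := Fintype.equivFinOfCardEq (by rw [← Matrix.charpoly_natDegree_eq_dim M, hM, hχd])
      set A : Matrix (Fin n) (Fin n) F := Matrix.reindexAlgEquiv F F e M with hA
      have hAc : A.charpoly = χ := by rw [hA, Matrix.reindexAlgEquiv_apply, Matrix.charpoly_reindex, hM]
      have hAN : A ^ N = 1 := by rw [hA, ← map_pow, hMN, map_one]
      have hdvdχ : χ ∣ (X ^ r - 1) ^ n := by
        rw [← map_dvd_map' ψ, hχK]
        simp only [Polynomial.map_pow, Polynomial.map_sub, map_X, Polynomial.map_one]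
        rw [show n = i + (n - i) by omega, pow_add, Nat.add_sub_cancel_left]
        refine mul_dvd_mul ?_ (pow_dvd_pow_of_dvd ?_ _)
        · refine (Finset.prod_dvd_prod_of_dvd g (fun _ => (X ^ r - 1 : K[X])) fun b _ => ?_).trans (by simp)
          simp only [g]
          rw [dvd_iff_isRoot, IsRoot.def]
          simp [← pow_mul, mul_comm (q ^ b) r, pow_mul _ r, hζ.pow_eq_one]
        · rw [← C_1, dvd_iff_isRoot, IsRoot.def]
          simp
      have hAr : A ^ r = 1 := by
        obtain ⟨B, hB⟩ := hdvdχ
        have h0 : (A ^ r - 1) ^ n = 0 := by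
          have := congrArg (aeval A) hB
          rw [map_mul, ← hAc, Matrix.aeval_self_charpoly, zero_mul] at this
          simpa using this
        have hle : n ≤ p ^ n := (Nat.lt_pow_self (Fact.out : p.Prime).one_lt).le
        have h1 : (A ^ r - 1) ^ (p ^ n) = 0 := by
          rw [← Nat.sub_add_cancel hle, pow_add, h0, mul_zero]
        rw [sub_pow_char_pow_of_commute _ _ (Commute.one_right _), one_pow, sub_eq_zero] at h1
        have h2 : (A ^ r) ^ N = 1 := by rw [← pow_mul, mul_comm, pow_mul, hAN, one_pow]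
        have := pow_gcd_eq_one.2 ⟨h1, h2⟩
        rwa [(hN.symm.pow_left n).gcd_eq_one, pow_one] at this
      have hnd : ¬ r ∣ Fintype.card F - 1 := by rwa [hq]
      have hAdet : A.det = 1 := by
        refine pow_inj_of_not_dvd hr hnd one_ne_zero ?_
        rw [← Matrix.det_pow, hAr, Matrix.det_one, one_pow]
      let x : Matrix.SpecialLinearGroup (Fin n) F := ⟨A, hAdet⟩
      have hζ1 : ζ ≠ 1 := hζ.ne_one hr.one_lt
      have hroot : (χ.map ψ).IsRoot ζ := by
        rw [hχK, IsRoot.def, eval_mul, eval_prod, Finset.prod_eq_zero (Finset.mem_range.2 hi0) (by simp [g]),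
          zero_mul]
      obtain ⟨P, hP⟩ := h x ⟨1, by
        rw [Matrix.SpecialLinearGroup.coe_pow, one_smul]; exact hAr⟩ (fun z hz => by
        have hz' : A = z • 1 := hz
        have hz1 : z = 1 := by
          refine pow_inj_of_not_dvd hr hnd one_ne_zero ?_
          have := congrFun (congrFun hAr 0) 0
          rw [hz', _root_.smul_pow, one_pow, Matrix.smul_apply, Matrix.one_apply_eq, smul_eq_mul, mul_one] at this
          rw [this, one_pow]
        rw [← hAc, hz', hz1, one_smul, Matrix.charpoly_one, IsRoot.def] at hroot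
        simp at hroot
        exact hζ1 (sub_eq_zero.1 hroot.1))
      obtain ⟨c, M₀, hc, hcM, hchar⟩ := hconj x P hP
      have hdvd₀ : q₀ - 1 ∣ q - 1 := by
        rw [hqk]; exact Nat.sub_one_dvd_pow_sub_one q₀ k
      have hnd₀ : ¬ r ∣ Fintype.card F₀ - 1 := by
        rw [hF₀']; exact fun h' => hrq (h'.trans hdvd₀)
      -- the scalar lies in the subfield
      obtain ⟨c₀, hc₀⟩ : ∃ c₀ : F₀, (c₀ : F) = c := by
        have hx : x ^ r = 1 := Subtype.ext (by rw [Matrix.SpecialLinearGroup.coe_pow]; exact hAr)
        have hpow : (P⁻¹ * x * P) ^ r = 1 := by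
          rw [show P⁻¹ * x * P = P⁻¹ * x * P⁻¹⁻¹ by rw [inv_inv], conj_pow, hx, mul_one, mul_inv_cancel]
        have h1 := congrFun (congrFun (congrArg Subtype.val hpow) 0) 0
        rw [Matrix.SpecialLinearGroup.coe_pow, hcM, _root_.smul_pow,
          show (M₀.map F₀.subtype) ^ r = F₀.subtype.mapMatrix (M₀ ^ r) from
            (map_pow F₀.subtype.mapMatrix M₀ r).symm, Matrix.SpecialLinearGroup.coe_one,
          RingHom.mapMatrix_apply, Matrix.smul_apply, Matrix.map_apply, Matrix.one_apply_eq,
          smul_eq_mul] at h1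
        set v := (M₀ ^ r) 0 0
        have hv : (v : F) ≠ 0 := right_ne_zero_of_mul_eq_one h1
        obtain ⟨b, hb⟩ := pow_surj hr hnd₀ (z := v⁻¹) (inv_ne_zero fun h' => hv (by rw [h']; rfl))
        refine ⟨b, pow_inj_of_not_dvd hr hnd hc ?_⟩
        have := congrArg (F₀.subtype) hb
        rw [map_pow, map_inv₀] at this
        rw [show ((b : F)) ^ r = (v : F)⁻¹ from this]
        exact (eq_inv_of_mul_eq_one_left h1).symm
      have hAeq : χ = (c₀ • M₀).charpoly.map F₀.subtype := by
        rw [← hAc, ← Matrix.charpoly_map]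
        have hsc : (c₀ • M₀).map F₀.subtype = c • M₀.map F₀.subtype := by
          ext u v
          simp [← hc₀]
        rw [hsc, ← hcM]
        have hval : ((P⁻¹ * x * P : Matrix.SpecialLinearGroup (Fin n) F) : Matrix (Fin n) (Fin n) F) =
            (((Matrix.SpecialLinearGroup.toGL P)⁻¹ : GL (Fin n) F) : Matrix (Fin n) (Fin n) F) * A *
              (Matrix.SpecialLinearGroup.toGL P : Matrix (Fin n) (Fin n) F) := by
          rw [← map_inv]; rfl
        rw [hval, Matrix.coe_units_inv, Matrix.charpoly_units_conj']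
      have hroot' : (χ.map ψ).IsRoot (ζ ^ q₀) := by
        have hm := hroot.map (f := iterateFrobenius K p f₀)
        rw [iterateFrobenius_def, ← hq₀p] at hm
        rwa [hAeq, map_map, map_map, RingHom.comp_assoc, show (((iterateFrobenius K p f₀).comp (ψ.comp F₀.subtype))) =
          ψ.comp F₀.subtype from by
            ext b
            simp only [RingHom.comp_apply, iterateFrobenius_def, ← hq₀p, ← map_pow]
            congr 2
            rw [← hF₀', FiniteField.pow_card], ← map_map, ← hAeq] at hm
      rw [hχK, IsRoot.def, eval_mul, eval_prod, mul_eq_zero, Finset.prod_eq_zero_iff] at hroot'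
      rcases hroot' with ⟨b, -, hb⟩ | hb
      · simp only [g, eval_sub, eval_X, eval_C, sub_eq_zero] at hb
        have := hexp.1 hb
        push_cast at this
        exact hj0 (by rw [this, ← pow_mul, mul_comm, pow_mul, hj1, one_pow])
      · rw [eval_pow, eval_sub, eval_X, eval_one] at hb
        have := hexp.1 ((sub_eq_zero.1 (pow_eq_zero_iff'.1 hb).1).trans (pow_zero ζ).symm)
        exact hr0 (by
          have h' := hζ.dvd_of_pow_eq_one q₀ (sub_eq_zero.1 (pow_eq_zero_iff'.1 hb).1)
          rwa [ZMod.natCast_eq_zero_iff])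
  · -- the two families where every element is conjugate into the subfield group
    intro hcase x ⟨z, hz⟩ _
    obtain ⟨hz0, hzn, hxo⟩ := hord x z hz
    have hz' : (x : Matrix (Fin n) (Fin n) F) ^ r = z • 1 := by
      rwa [← Matrix.SpecialLinearGroup.coe_pow]
    rcases hcase with hrk | ⟨hk2, hrn, hn35, hv⟩
    · have hqq : (q : ZMod r) = (q₀ : ZMod r) := by rw [hqz, ← hrk, ZMod.pow_card]
      obtain ⟨b, hb⟩ : ∃ b : F, b ^ r = z := by
        by_contra hno
        push Not at hno
        have hrq : r ∣ q - 1 := by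
          by_contra hrq
          obtain ⟨b, hb⟩ := pow_surj (E := F) hr (by rwa [hq]) hz0
          exact hno b hb
        have hrq₀ : r ∣ q₀ - 1 := (hdvd_q (by omega)).2 (hqq ▸ (hdvd_q hqpos).1 hrq)
        have hgap' := hgapk hrk hrq₀
        obtain ⟨m, hm, hzm⟩ := Omega.exists_degree_of_not_pow (x : Matrix (Fin n) (Fin n) F) x.det_coe
          hr hr2 hz' hno
        have hm0 : m ≠ 0 := fun h' => by rw [h', mul_zero] at hm; omega
        rw [hm, padicValNat.mul hr.ne_zero hm0, padicValNat_self] at hgap'
        have ho1 : orderOf z ∣ m := orderOf_dvd_of_pow_eq_one hzm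
        obtain ⟨t, ht⟩ : orderOf z ∣ q - 1 :=
          orderOf_dvd_of_pow_eq_one (hq ▸ FiniteField.pow_card_sub_one_eq_one z hz0)
        have hq' : q - 1 ≠ 0 := by
          have := hq ▸ Fintype.one_lt_card (α := F)
          omega
        have ho0 : orderOf z ≠ 0 := left_ne_zero_of_mul (ht ▸ hq')
        have ht0 : t ≠ 0 := right_ne_zero_of_mul (ht ▸ hq')
        have hvo : padicValNat r (orderOf z) ≤ padicValNat r m :=
          (padicValNat_dvd_iff_le hm0).1 ((pow_padicValNat_dvd).trans ho1)
        rw [ht, padicValNat.mul ho0 ht0] at hgap'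
        obtain ⟨s, rfl⟩ : r ∣ t := dvd_of_one_le_padicValNat (by omega)
        obtain ⟨w, hw⟩ := Omega.exists_pow_eq_of_pow_div (F := F) (r := r) (by rwa [hq]) hz0 (by
          rw [hq, ht, mul_left_comm, Nat.mul_div_cancel_left _ hr.pos, pow_mul, pow_orderOf_eq_one, one_pow])
        exact hno w hw
      have hb0 : b ≠ 0 := fun h' => hz0 (by rw [← hb, h', zero_pow hr.ne_zero])
      let K := AlgebraicClosure F
      let ψ : F →+* K := algebraMap F K
      haveI : CharP K p := charP_of_injective_algebraMap (algebraMap F K).injective p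
      obtain ⟨⟨fq, hfq⟩, -, hqp⟩ := FiniteField.card F p
      rw [hq, PNat.mk_coe] at hqp
      set Y := b⁻¹ • (x : Matrix (Fin n) (Fin n) F) with hY
      have hYr : Y ^ r = (1 : F) • 1 := by
        rw [hY, _root_.smul_pow, hz', smul_smul, ← hb, inv_pow, inv_mul_cancel₀ (pow_ne_zero _ hb0)]
      set Q := Y.charpoly.map ψ with hQ
      have hsplit := (IsAlgClosed.splits Q).eq_prod_roots_of_monic ((Matrix.charpoly_monic Y).map ψ)
      have hfix : Q.map (iterateFrobenius K p f₀) = Q := by
        have h1 : Q.map (iterateFrobenius K p fq) = Q := by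
          rw [hQ, map_map]
          congr 1
          ext c
          simp only [RingHom.comp_apply, iterateFrobenius_def, ← hqp, ← map_pow]
          rw [← hq, FiniteField.pow_card]
        conv_rhs => rw [← h1]
        rw [hsplit, Polynomial.map_multiset_prod, Polynomial.map_multiset_prod, Multiset.map_map, Multiset.map_map]
        refine congrArg Multiset.prod (Multiset.map_congr rfl fun c hc => ?_)
        have hcr : c ^ r = 1 := by
          rw [Omega.pow_eq_of_isRoot_charpoly ψ Y hYr (isRoot_of_mem_roots hc), map_one]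
        simp only [Function.comp_apply, Polynomial.map_sub, map_X, map_C, iterateFrobenius_def, ← hqp, ← hq₀p]
        rw [pow_eq_pow_mod q₀ hcr, pow_eq_pow_mod q hcr, (ZMod.natCast_eq_natCast_iff' q₀ q r).1 hqq.symm]
      obtain ⟨χ₀, hχ₀⟩ := Omega.exists_map_eq_of_frobenius (ψ.comp F₀.subtype) (iterateFrobenius K p f₀)
        (fun c => by rw [iterateFrobenius_def, ← hq₀p, hF₀]) Q hfix
      refine Omega.exists_sl_conj_subfield p F₀ x hxo hb0 χ₀ (map_injective ψ ψ.injective ?_)
      rw [map_map, hχ₀]
    · -- the exceptional case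
      have hd1 : r ∣ q₀ + 1 := dvd_of_one_le_padicValNat (by omega)
      have haneg : (q₀ : ZMod r) = -1 := by
        rw [eq_neg_iff_add_eq_zero]
        have := (ZMod.natCast_eq_zero_iff (q₀ + 1) r).2 hd1
        push_cast at this
        exact this
      have hrq : r ∣ q - 1 := (hdvd_q hqpos).2 (by rw [hqz, hk2, haneg]; ring)
      have hnd₀ : ¬ r ∣ q₀ - 1 := fun h' => by
        have := (hdvd_q (by omega)).1 h'
        rw [haneg] at this
        exact hr2 ((Nat.prime_dvd_prime_iff_eq hr Nat.prime_two).1 ((ZMod.natCast_eq_zero_iff 2 r).1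
          (by push_cast; linear_combination -this)))
      have hsq : ¬ r ^ 2 ∣ q - 1 := by
        rw [hqk, hk2, show q₀ ^ 2 - 1 = (q₀ + 1) * (q₀ - 1) by rw [← Nat.sq_sub_sq],
          (Nat.Coprime.pow_left 2 (hr.coprime_iff_not_dvd.2 hnd₀)).dvd_mul_right,
          padicValNat_dvd_iff_le (by omega)]
        omega
      have hz1 : z = 1 := by
        by_cases hpow : ∃ b : F, b ^ r = z
        · obtain ⟨b, rfl⟩ := hpow
          have h1 : b ^ r ^ 2 = 1 := by rw [sq, pow_mul]; exact hrn.symm ▸ hzn
          obtain ⟨t, ht, ho⟩ := (Nat.dvd_prime_pow hr).1 (orderOf_dvd_of_pow_eq_one h1)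
          rw [← orderOf_dvd_iff_pow_eq_one, ho]
          rcases (show t ≤ 1 ∨ t = 2 by omega) with h' | rfl
          · exact (pow_dvd_pow r h').trans (by simp)
          · exfalso
            refine hsq (ho ▸ orderOf_dvd_of_pow_eq_one ?_)
            rw [← hq]
            refine FiniteField.pow_card_sub_one_eq_one b fun hb => hz0 ?_
            rw [hb, zero_pow hr.ne_zero]
        · push Not at hpow
          obtain ⟨m, hm, hzm⟩ := Omega.exists_degree_of_not_pow (x : Matrix (Fin n) (Fin n) F) x.det_coe
            hr hr2 hz' hpow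
          have : m = 1 := by
            have h' : r * m = r * 1 := by rw [mul_one, ← hm, hrn]
            exact Nat.eq_of_mul_eq_mul_left hr.pos h'
          rwa [this, pow_one] at hzm
      subst hz1
      rw [one_smul] at hz'
      obtain ⟨u, hu⟩ := exists_prime_orderOf_dvd_card (G := Fˣ) r (by rwa [Fintype.card_units, hq])
      have hζ : IsPrimitiveRoot (u : F) r := by
        rw [IsPrimitiveRoot.coe_units_iff, ← hu]
        exact IsPrimitiveRoot.orderOf u
      let ev : AddChar (ZMod r) F := AddChar.zmodChar r hζ.pow_eq_one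
      have evinj : Function.Injective ev := fun s t hst => ZMod.val_injective r (hζ.pow_inj
        (ZMod.val_lt s) (ZMod.val_lt t) (by simpa [ev, AddChar.zmodChar_apply] using hst))
      obtain ⟨bs, d, hd, hbs⟩ := Omega.exists_eigenbasis (x : Matrix (Fin n) (Fin n) F)
        (nthRootsFinset r (1 : F)) (by
          rw [← X_pow_sub_one_eq_prod hr.pos hζ, map_sub, map_pow, aeval_X, map_one, hz', sub_self])
      haveI : Nonempty (Fin n) := ⟨0⟩
      obtain ⟨g, hg, hgx⟩ := Omega.exists_sl_conj_diagonal (Matrix.SpecialLinearGroup.toGL x) bs d hbs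
      rw [Omega.mem_specialLinear] at hg
      let P₁ : Matrix.SpecialLinearGroup (Fin n) F := ⟨g, hg⟩
      have hP₁ : ((P₁⁻¹ * x * P₁ : Matrix.SpecialLinearGroup (Fin n) F) : Matrix (Fin n) (Fin n) F) =
          Matrix.diagonal d := by
        rw [← hgx]
        have : Matrix.SpecialLinearGroup.toGL P₁ = g := Units.ext rfl
        rw [← this, ← map_inv, ← map_mul, ← map_mul]
        rfl
      have hd' : ∀ i, ∃ s, ev s = d i := fun i => by
        obtain ⟨t, ht, he⟩ := hζ.eq_pow_of_pow_eq_one ((mem_nthRootsFinset hr.pos (1 : F)).1 (hd i))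
        refine ⟨(t : ZMod r), ?_⟩
        simp only [ev, AddChar.zmodChar_apply, ZMod.val_natCast, Nat.mod_eq_of_lt ht, he]
      choose E hE using hd'
      have hsum : (Finset.univ.val.map E).sum = 0 := by
        apply evinj
        rw [AddChar.map_zero_eq_one]
        have h1 := (P₁⁻¹ * x * P₁).det_coe
        rw [hP₁, Matrix.det_diagonal] at h1
        rw [← h1]
        have key : ∀ T : Multiset (ZMod r), ev T.sum = (T.map ev).prod := fun T => by
          induction T using Multiset.induction_on with
          | empty => simp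
          | cons b T ih => rw [Multiset.sum_cons, AddChar.map_add_eq_mul, ih, Multiset.map_cons,
              Multiset.prod_cons]
        rw [key, Multiset.map_map]
        exact Finset.prod_congr rfl fun i _ => hE i
      obtain ⟨e₀, he₀⟩ := exists_symm (hrn ▸ hn35) (Finset.univ.val.map E) (by simp [hrn]) hsum
      set c₀ := e₀ * (2 : ZMod r)⁻¹ with hc₀
      have h2 : (2 : ZMod r) ≠ 0 := fun h' => hr2 ((Nat.prime_dvd_prime_iff_eq hr Nat.prime_two).1
        ((ZMod.natCast_eq_zero_iff 2 r).1 (by exact_mod_cast h')))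
      set Q := ∏ i, (X - C (ev (E i - c₀))) with hQ
      have hfix : Q.map (iterateFrobenius F p f₀) = Q := by
        rw [hQ, Polynomial.map_prod]
        simp only [Polynomial.map_sub, map_X, map_C, iterateFrobenius_def, ← hq₀p,
          ← AddChar.map_nsmul_eq_pow, nsmul_eq_mul, haneg, neg_one_mul]
        have h1 := congrArg (Multiset.map fun s => X - C (ev (s - c₀))) he₀
        simp only [Multiset.map_map, Function.comp_def] at h1
        have h2' : ∀ s : ZMod r, -s + e₀ - c₀ = -(s - c₀) := fun s => by
          have : 2 * c₀ = e₀ := by rw [hc₀, mul_comm e₀, mul_inv_cancel_left₀ h2]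
          linear_combination -this
        simp only [h2'] at h1
        exact congrArg Multiset.prod h1
      obtain ⟨χ₀, hχ₀⟩ := Omega.exists_map_eq_of_frobenius F₀.subtype (iterateFrobenius F p f₀)
        (fun c => by rw [iterateFrobenius_def, ← hq₀p, hF₀]) Q hfix
      set x' := P₁⁻¹ * x * P₁ with hx'
      have hxo' : (orderOf x').Coprime p := by
        have hz'' : ((x' ^ r : Matrix.SpecialLinearGroup (Fin n) F) : Matrix (Fin n) (Fin n) F) = (1 : F) • 1 := by
          have hx : x ^ r = 1 := Subtype.ext (by rw [Matrix.SpecialLinearGroup.coe_pow]; exact hz')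
          rw [hx', show P₁⁻¹ * x * P₁ = P₁⁻¹ * x * P₁⁻¹⁻¹ by rw [inv_inv], conj_pow, hx, mul_one,
            mul_inv_cancel, one_smul, Matrix.SpecialLinearGroup.coe_one]
        exact (hord x' 1 hz'').2.2
      obtain ⟨P₂, hP₂⟩ := Omega.exists_sl_conj_subfield p F₀ x' hxo' (c := ev c₀)
        (by simp only [ev, AddChar.zmodChar_apply]; exact pow_ne_zero _ u.ne_zero) χ₀ (by
          rw [hχ₀, hP₁, ← Matrix.diagonal_smul, Matrix.charpoly_diagonal, hQ]
          refine Finset.prod_congr rfl fun i _ => ?_
          rw [Pi.smul_apply, smul_eq_mul, ← hE i, sub_eq_add_neg (E i), AddChar.map_add_eq_mul,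
            AddChar.map_neg_eq_inv, mul_comm])
      refine ⟨P₁ * P₂, ?_⟩
      rwa [mul_inv_rev, show P₂⁻¹ * P₁⁻¹ * x * (P₁ * P₂) = P₂⁻¹ * x' * P₂ by rw [hx']; group]

end Cfsg.Agent.S5965
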