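import Cfsg.Statements.S5966
import Cfsg.Agent.Lib.Omega.Subfield
import Cfsg.Agent.Lib.Omega.ChainMatrix

set_option autoImplicit false
open scoped MatrixGroups Matrix
open Cfsg

namespace Cfsg.Agent.S5966

open CfsgLib.Omega

variable {F : Type*} [Field F]

/-- Units over a subfield as units over the field. -/
theorem det_map_subtype {ι : Type*} [Fintype ι] [DecidableEq ι] (F₀ : Subfield F) (M : Matrix ι ι F₀) :
    (M.map F₀.subtype).det = (M.det : F) := by
  rw [← RingHom.mapMatrix_apply, ← RingHom.map_det]; rfl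

theorem reindex_chain_map {n m : ℕ} {len : Fin m → ℕ} (F₀ : Subfield F)
    (e : (Σ k : Fin m, Fin (len k)) ≃ Fin n) :
    (1 + Matrix.reindex e e (chainShift len F₀)).map F₀.subtype =
      1 + Matrix.reindex e e (chainShift len F) := by
  rw [Matrix.map_add _ (map_add _), Matrix.map_one _ (map_zero _) (map_one _), Matrix.reindex_apply,
    Matrix.reindex_apply, ← Matrix.submatrix_map, chainShift_map]

/-- In odd degree every element is a norm-one multiple of an element of the subfield or a square of it. -/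
theorem exists_nonsquare_mem [Fintype F] (hF : ringChar F ≠ 2) (F₀ : Subfield F) {k : ℕ}
    (hk : Odd k) (hq : Fintype.card F = Nat.card F₀ ^ k) :
    ∃ ν : F₀, ν ≠ 0 ∧ ∀ u : F, IsSquare u ∨ IsSquare (u * (ν : F)) := by
  classical
  haveI : Fintype F₀ := Fintype.ofFinite _
  haveI : CharP F₀ (ringChar F) := by
    haveI := ringChar.charP F
    exact (RingHom.charP_iff F₀.subtype Subtype.val_injective _).2 inferInstance
  obtain ⟨ν, hν⟩ := FiniteField.exists_nonsquare (F := F₀) (by rw [ringChar.eq F₀ (ringChar F)]; exact hF)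
  have hν0 : ν ≠ 0 := fun h => hν (h ▸ IsSquare.zero)
  refine ⟨ν, hν0, fun u => ?_⟩
  have hF0 : ringChar F₀ ≠ 2 := by rw [ringChar.eq F₀ (ringChar F)]; exact hF
  have hνF : ¬ IsSquare (ν : F) := by
    intro hsq
    have h0 : (ν : F) ≠ 0 := fun h => hν0 (Subtype.ext h)
    have h1 := (FiniteField.isSquare_iff hF h0).1 hsq
    have hodd : Odd (Fintype.card F₀) := Nat.odd_iff.2 (FiniteField.odd_card_of_char_ne_two hF0)
    rw [hq, Nat.card_eq_fintype_card] at h1
    obtain ⟨w, hw, he⟩ := exists_odd_geom_factor (q₀ := Fintype.card F₀) (m := 1) hodd hk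
    rw [pow_one] at he
    obtain ⟨a, ha⟩ := hodd
    have hhalf : Fintype.card F₀ ^ k / 2 = (Fintype.card F₀ / 2) * w := by
      have hQ : Fintype.card F₀ ^ k = (Fintype.card F₀ - 1) * w + 1 := by
        have := Nat.one_le_pow k (Fintype.card F₀) (by omega)
        omega
      rw [hQ, ha, show 2 * a + 1 - 1 = 2 * a by omega, show (2 * a + 1) / 2 = a by omega, mul_assoc]
      omega
    rw [hhalf, pow_mul] at h1
    have hpow := FiniteField.pow_dichotomy hF0 hν0
    have hne : ν ^ (Fintype.card F₀ / 2) ≠ 1 := fun h => hν ((FiniteField.isSquare_iff hF0 hν0).2 h)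
    have h2 : (ν : F) ^ (Fintype.card F₀ / 2) = -1 := by
      have := congrArg (fun z : F₀ => (z : F)) (hpow.resolve_left hne)
      simpa using this
    rw [h2, hw.neg_one_pow] at h1
    exact Ring.neg_one_ne_one_of_char_ne_two hF h1
  by_cases hu0 : u = 0
  · subst hu0; exact Or.inl IsSquare.zero
  · by_cases hu : IsSquare u
    · exact Or.inl hu
    · refine Or.inr ?_
      have h0 : (ν : F) ≠ 0 := fun h => hν0 (Subtype.ext h)
      rw [FiniteField.isSquare_iff hF (mul_ne_zero hu0 h0), mul_pow,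
        (FiniteField.pow_dichotomy hF hu0).resolve_left (fun h => hu ((FiniteField.isSquare_iff hF hu0).2 h)),
        (FiniteField.pow_dichotomy hF h0).resolve_left (fun h => hνF ((FiniteField.isSquare_iff hF h0).2 h))]
      ring

theorem exists_cube_eq [Fintype F] [CharP F 3] (u : F) : ∃ v, v ^ 3 = u := by
  haveI : Fact (Nat.Prime 3) := ⟨Nat.prime_three⟩
  obtain ⟨v, hv⟩ := surjective_frobenius F 3 u
  exact ⟨v, hv⟩

/-- The positive direction. -/
theorem exists_conj [Fintype F] [CharP F 3] {n : ℕ} [NeZero n] (F₀ : Subfield F) {k : ℕ}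
    (hq : Fintype.card F = Nat.card F₀ ^ k) (hcase : Odd n ∨ Odd k)
    (x : Matrix.SpecialLinearGroup (Fin n) F) {z : F}
    (hx : ((x ^ 3 : Matrix.SpecialLinearGroup (Fin n) F) : Matrix (Fin n) (Fin n) F) = z • 1) :
    ∃ P : Matrix.SpecialLinearGroup (Fin n) F, P⁻¹ * x * P ∈
      ((Cfsg.Geo.subfieldSubgroup F₀ 1).comap (Matrix.SpecialLinearGroup.toGL :
        Matrix.SpecialLinearGroup (Fin n) F →* GL (Fin n) F)) := by
  classical
  haveI : Fact (Nat.Prime 3) := ⟨Nat.prime_three⟩
  rw [Matrix.SpecialLinearGroup.coe_pow] at hx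
  obtain ⟨s, hs⟩ := exists_cube_eq z
  set A : Matrix (Fin n) (Fin n) F := (x : Matrix (Fin n) (Fin n) F) with hAdef
  have hs0 : s ≠ 0 := by
    rintro rfl
    have h := congrArg Matrix.det hx
    rw [← hs, zero_pow three_ne_zero, zero_smul, Matrix.det_zero, Matrix.det_pow] at h
    rw [show A.det = 1 from x.2, one_pow] at h
    exact one_ne_zero h
  have hN : (s⁻¹ • A - 1) ^ 3 = 0 := by
    rw [sub_pow_char_of_commute (p := 3) (Commute.one_right _), smul_pow, hx, smul_smul, ← hs, inv_pow,
      inv_mul_cancel₀ (pow_ne_zero 3 hs0), one_smul, one_pow, sub_self]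
  obtain ⟨m, len, e, g, hlen, hg⟩ := exists_chain_conj 3 _ hN
  set S := Matrix.reindex e e (chainShift len F) with hS
  have hxg : A * (g : Matrix (Fin n) (Fin n) F) = (g : Matrix (Fin n) (Fin n) F) * (s • (1 + S)) := by
    have h := congrArg (fun M => s • M) hg
    simp only [Matrix.sub_mul, Matrix.one_mul, Matrix.smul_mul, smul_sub, smul_smul,
      mul_inv_cancel₀ hs0, one_smul] at h
    rw [Matrix.mul_smul, mul_add, Matrix.mul_one, smul_add, ← h]
    abel
  -- the centraliser elements
  have hcentral : ∀ (k₀ : Fin m) (v : F), v ≠ 0 → ∃ c : GL (Fin n) F,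
      (c : Matrix (Fin n) (Fin n) F).det = v ^ len k₀ ∧
      (s • (1 + S)) * (c : Matrix (Fin n) (Fin n) F) = (c : Matrix (Fin n) (Fin n) F) * (s • (1 + S)) := by
    intro k₀ v hv
    let d : Fin n → F := fun i => if (e.symm i).1 = k₀ then v else 1
    have hdet : (Matrix.diagonal d).det = v ^ len k₀ := by
      rw [Matrix.det_diagonal, ← Equiv.prod_comp e, Fintype.prod_sigma, Finset.prod_eq_single k₀]
      · simp [d]
      · intro k _ hk; simp [d, hk]
      · simp
    refine ⟨Matrix.GeneralLinearGroup.mkOfDetNeZero _ (hdet ▸ pow_ne_zero _ hv), hdet, ?_⟩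
    show (s • (1 + S)) * Matrix.diagonal d = Matrix.diagonal d * (s • (1 + S))
    rw [Matrix.smul_mul, Matrix.mul_smul, add_mul, mul_add, Matrix.one_mul, Matrix.mul_one]
    congr 2
    ext i j
    rw [Matrix.mul_diagonal, Matrix.diagonal_mul]
    simp only [S, Matrix.reindex_apply, Matrix.submatrix_apply, chainShift, Matrix.of_apply]
    split_ifs with h
    · simp [d, h.1]
    · simp
  -- the element of the subfield group
  have hdetg : (g : Matrix (Fin n) (Fin n) F).det ≠ 0 := g.det_ne_zero
  have hy0 : (s • (1 + S)).det ≠ 0 := fun h => by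
    have := congrArg Matrix.det hxg
    rw [Matrix.det_mul, Matrix.det_mul, h, mul_zero, show A.det = 1 from x.2, one_mul] at this
    exact hdetg this
  set y : GL (Fin n) F := Matrix.GeneralLinearGroup.mkOfDetNeZero _ hy0 with hy
  have hymem : y ∈ Cfsg.Geo.subfieldSubgroup F₀ 1 := by
    rw [mem_subfieldSubgroup_one]
    exact ⟨s, 1 + Matrix.reindex e e (chainShift len F₀), hs0, by rw [reindex_chain_map]; rfl⟩
  -- choose the correction
  obtain ⟨c, h, hc, hhm, hcd⟩ : ∃ c h : GL (Fin n) F, (y * c = c * y) ∧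
      h ∈ Cfsg.Geo.subfieldSubgroup F₀ 1 ∧
      (g : Matrix (Fin n) (Fin n) F).det * (c : Matrix (Fin n) (Fin n) F).det *
        (h : Matrix (Fin n) (Fin n) F).det = 1 := by
    by_cases hodd : ∃ k₀, len k₀ = 1 ∨ len k₀ = 3
    · obtain ⟨k₀, hk₀⟩ := hodd
      obtain ⟨v, hv⟩ : ∃ v, v ^ len k₀ = ((g : Matrix (Fin n) (Fin n) F).det)⁻¹ := by
        rcases hk₀ with h1 | h1 <;> rw [h1]
        · exact ⟨_, pow_one _⟩
        · exact exists_cube_eq _
      have hv0 : v ≠ 0 := fun h0 => by
        rw [h0, zero_pow (hlen k₀).1.ne'] at hv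
        exact inv_ne_zero hdetg hv.symm
      obtain ⟨c, hc1, hc2⟩ := hcentral k₀ v hv0
      refine ⟨c, 1, Units.ext hc2, one_mem _, ?_⟩
      rw [hc1, hv, Units.val_one, Matrix.det_one, mul_one, mul_inv_cancel₀ hdetg]
    · push Not at hodd
      have h2 : ∀ k₀, len k₀ = 2 := fun k₀ => by have := hlen k₀; have := hodd k₀; omega
      have hn : n = m * 2 := by
        have := Fintype.card_congr e
        simpa [h2] using this.symm
      have hk : Odd k := hcase.resolve_left (by
        rw [Nat.not_odd_iff_even, hn]; exact even_two.mul_left m)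
      have hm : 0 < m := by
        have := NeZero.ne n
        omega
      have hF : ringChar F ≠ 2 := by rw [ringChar.eq F 3]; decide
      obtain ⟨ν, hν0, hν⟩ := exists_nonsquare_mem hF F₀ hk hq
      obtain ⟨ω, hω0, hsq⟩ : ∃ ω : F₀, ω ≠ 0 ∧
          IsSquare ((g : Matrix (Fin n) (Fin n) F).det * (ω : F)) := by
        rcases hν (g : Matrix (Fin n) (Fin n) F).det with h | h
        · exact ⟨1, one_ne_zero, by simpa using h⟩
        · exact ⟨ν, hν0, h⟩
      obtain ⟨r, hr⟩ := hsq
      have hωF : (ω : F) ≠ 0 := fun h => hω0 (Subtype.ext h)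
      have hr0 : r ≠ 0 := fun h => mul_ne_zero hdetg hωF (by rw [hr, h, mul_zero])
      obtain ⟨c, hc1, hc2⟩ := hcentral ⟨0, hm⟩ r⁻¹ (inv_ne_zero hr0)
      let D₀ : Matrix (Fin n) (Fin n) F₀ := Matrix.diagonal fun i => if i = 0 then ω else 1
      have hD : (D₀.map F₀.subtype).det = (ω : F) := by
        rw [det_map_subtype, Matrix.det_diagonal]; simp
      refine ⟨c, Matrix.GeneralLinearGroup.mkOfDetNeZero _ (hD ▸ hωF), Units.ext hc2, ?_, ?_⟩
      · rw [mem_subfieldSubgroup_one]; exact ⟨1, D₀, one_ne_zero, by rw [one_smul]; rfl⟩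
      · show _ * _ * (D₀.map F₀.subtype).det = 1
        rw [hc1, hD, h2, mul_right_comm, hr, pow_two]
        field_simp
  let P : Matrix.SpecialLinearGroup (Fin n) F :=
    ⟨((g * c * h : GL (Fin n) F) : Matrix (Fin n) (Fin n) F), by
      rw [Units.val_mul, Units.val_mul, Matrix.det_mul, Matrix.det_mul]; exact hcd⟩
  refine ⟨P, ?_⟩
  rw [Subgroup.mem_comap, map_mul, map_mul, map_inv,
    show Matrix.SpecialLinearGroup.toGL P = g * c * h from Units.ext rfl]
  have hxg' : Matrix.SpecialLinearGroup.toGL x * g = g * y := Units.ext hxg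
  have : (g * c * h)⁻¹ * Matrix.SpecialLinearGroup.toGL x * (g * c * h) = h⁻¹ * y * h := by
    calc (g * c * h)⁻¹ * Matrix.SpecialLinearGroup.toGL x * (g * c * h)
        = h⁻¹ * c⁻¹ * g⁻¹ * (Matrix.SpecialLinearGroup.toGL x * g) * c * h := by group
      _ = h⁻¹ * c⁻¹ * (y * c) * h := by rw [hxg']; group
      _ = h⁻¹ * y * h := by rw [hc]; group
  rw [this]
  exact mul_mem (mul_mem (inv_mem hhm) hymem) hhm

/-- In degree two over the subfield the twist of a square-zero unipotent is not conjugate. -/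
theorem exists_bad [Fintype F] [CharP F 3] {m : ℕ} (hm : 0 < m) (F₀ : Subfield F) {n : ℕ} (hn : n = m + m)
    (hq : Fintype.card F = Nat.card F₀ ^ 2) :
    ∃ x : Matrix.SpecialLinearGroup (Fin n) F,
      (∃ z : F, ((x ^ 3 : Matrix.SpecialLinearGroup (Fin n) F) : Matrix (Fin n) (Fin n) F) = z • (1 : Matrix (Fin n) (Fin n) F)) ∧
      (∀ z : F, (x : Matrix (Fin n) (Fin n) F) ≠ z • (1 : Matrix (Fin n) (Fin n) F)) ∧
      ∀ P : Matrix.SpecialLinearGroup (Fin n) F, P⁻¹ * x * P ∉
        ((Cfsg.Geo.subfieldSubgroup F₀ 1).comap (Matrix.SpecialLinearGroup.toGL :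
          Matrix.SpecialLinearGroup (Fin n) F →* GL (Fin n) F)) := by
  classical
  haveI : Fact (Nat.Prime 3) := ⟨Nat.prime_three⟩
  haveI : NeZero n := ⟨by omega⟩
  have hF : ringChar F ≠ 2 := by rw [ringChar.eq F 3]; decide
  let e : Fin m ⊕ Fin m ≃ Fin n := finSumFinEquiv.trans (finCongr hn.symm)
  let B : Matrix (Fin m ⊕ Fin m) (Fin m ⊕ Fin m) F := Matrix.fromBlocks 0 0 1 0
  let S : Matrix (Fin n) (Fin n) F := Matrix.reindex e e B
  have hS : S * S = 0 := by
    show Matrix.reindexAlgEquiv F F e B * Matrix.reindexAlgEquiv F F e B = 0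
    rw [← map_mul, show B * B = 0 by simp [B, Matrix.fromBlocks_multiply], map_zero]
  have hdetJ : (1 + S).det = 1 := by
    rw [show 1 + S = Matrix.reindex e e (1 + B) by simp [S, Matrix.submatrix_add],
      Matrix.det_reindex_self, show 1 + B = Matrix.fromBlocks 1 0 1 1 by
        simp [B, ← Matrix.fromBlocks_one, Matrix.fromBlocks_add], Matrix.det_fromBlocks_zero₁₂]
    simp
  obtain ⟨ν, hν⟩ := FiniteField.exists_nonsquare (F := F) hF
  have hν0 : ν ≠ 0 := fun h => hν (h ▸ IsSquare.zero)
  have hD : (Matrix.diagonal fun i : Fin n => if i = 0 then ν else 1).det = ν := by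
    rw [Matrix.det_diagonal]; simp
  let g : GL (Fin n) F := Matrix.GeneralLinearGroup.mkOfDetNeZero _ (hD.symm ▸ hν0)
  let J : GL (Fin n) F := Matrix.GeneralLinearGroup.mkOfDetNeZero (1 + S) (hdetJ.symm ▸ one_ne_zero)
  have hJ3 : J ^ 3 = 1 := Units.ext (by
    rw [Units.val_pow_eq_pow_val, Units.val_one]
    show (1 + S) ^ 3 = 1
    rw [add_pow_char_of_commute (p := 3) (Commute.one_left _), one_pow, pow_succ, pow_two, hS,
      zero_mul, add_zero])
  have hxdet : ((g * J * g⁻¹ : GL (Fin n) F) : Matrix (Fin n) (Fin n) F).det = 1 := by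
    have hJd : Matrix.GeneralLinearGroup.det J = 1 := Units.ext hdetJ
    have h : Matrix.GeneralLinearGroup.det (g * J * g⁻¹) = 1 := by
      rw [map_mul, map_mul, map_inv, hJd]; simp
    exact congrArg Units.val h
  let x : Matrix.SpecialLinearGroup (Fin n) F :=
    ⟨((g * J * g⁻¹ : GL (Fin n) F) : Matrix (Fin n) (Fin n) F), hxdet⟩
  have hxGL : Matrix.SpecialLinearGroup.toGL x = g * J * g⁻¹ := Units.ext rfl
  refine ⟨x, ⟨1, ?_⟩, ?_, ?_⟩
  · rw [one_smul, Matrix.SpecialLinearGroup.coe_pow]
    show ((g * J * g⁻¹ : GL (Fin n) F) : Matrix (Fin n) (Fin n) F) ^ 3 = 1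
    rw [← Units.val_pow_eq_pow_val, conj_pow, hJ3, mul_one, mul_inv_cancel, Units.val_one]
  · intro z hz
    have h : (1 + S) = z • (1 : Matrix (Fin n) (Fin n) F) := by
      have h1 : ((g⁻¹ * (g * J * g⁻¹) * g : GL (Fin n) F) : Matrix (Fin n) (Fin n) F) = z • 1 := by
        rw [Units.val_mul, Units.val_mul _ (g * J * g⁻¹),
          show ((g * J * g⁻¹ : GL (Fin n) F) : Matrix (Fin n) (Fin n) F) = z • 1 from hz,
          Matrix.mul_smul, Matrix.mul_one, Matrix.smul_mul, ← Units.val_mul, inv_mul_cancel, Units.val_one]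
      rw [show g⁻¹ * (g * J * g⁻¹) * g = J by group] at h1
      exact h1
    have := congrFun (congrFun h (e (.inr ⟨0, hm⟩))) (e (.inl ⟨0, hm⟩))
    simp [S, B, Matrix.one_apply] at this
  · intro P hP
    rw [Subgroup.mem_comap, mem_subfieldSubgroup_one] at hP
    obtain ⟨l, M, hl0, hy⟩ := hP
    set y := Matrix.SpecialLinearGroup.toGL (P⁻¹ * x * P) with hydef
    set pg := Matrix.SpecialLinearGroup.toGL P with hpg
    have hyconj : y = pg⁻¹ * g * J * g⁻¹ * pg := by
      rw [hydef, map_mul, map_mul, map_inv, hxGL, hpg]; group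
    have hy3 : y ^ 3 = 1 := by
      rw [hyconj, show pg⁻¹ * g * J * g⁻¹ * pg = (pg⁻¹ * g) * J * (pg⁻¹ * g)⁻¹ by group, conj_pow,
        hJ3, mul_one, mul_inv_cancel]
    have hl3 : l ^ 3 ∈ F₀ := by
      have h : l ^ 3 • (M ^ 3).map F₀.subtype = 1 := by
        have h' := congrArg Units.val hy3
        rw [Units.val_pow_eq_pow_val, hy, smul_pow, Units.val_one] at h'
        rwa [← RingHom.mapMatrix_apply, map_pow, RingHom.mapMatrix_apply]
      have h00 := congrFun (congrFun h (0 : Fin n)) 0
      simp only [Matrix.smul_apply, Matrix.map_apply, Matrix.one_apply_eq, smul_eq_mul] at h00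
      rw [eq_inv_of_mul_eq_one_left h00]
      exact inv_mem (SetLike.coe_mem _)
    haveI : Fintype F₀ := Fintype.ofFinite _
    haveI : CharP F₀ 3 := (RingHom.charP_iff F₀.subtype Subtype.val_injective 3).2 inferInstance
    obtain ⟨μ, hμ⟩ := exists_cube_eq (F := F₀) ⟨l ^ 3, hl3⟩
    have hμl : (μ : F) = l := by
      refine frobenius_inj F 3 ?_
      simpa [frobenius_def] using congrArg Subtype.val hμ
    set M' : Matrix (Fin n) (Fin n) F₀ := μ • M - 1 with hM'
    have hmap : M'.map F₀.subtype = (y : Matrix (Fin n) (Fin n) F) - 1 := by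
      rw [hy, hM', ← hμl]
      ext i j
      by_cases h : i = j <;> simp [Matrix.one_apply, h]
    have hyS : (y : Matrix (Fin n) (Fin n) F) - 1 =
        ((pg⁻¹ * g : GL (Fin n) F) : Matrix (Fin n) (Fin n) F) * S *
          ((g⁻¹ * pg : GL (Fin n) F) : Matrix (Fin n) (Fin n) F) := by
      have hS1 : S = (J : Matrix (Fin n) (Fin n) F) - 1 := (add_sub_cancel_left 1 S).symm
      rw [hS1, mul_sub, Matrix.mul_one, sub_mul, ← Units.val_mul, ← Units.val_mul, ← Units.val_mul,
        hyconj]
      rw [show pg⁻¹ * g * (g⁻¹ * pg) = 1 by group, Units.val_one]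
      congr 2
      group
    have hsq : M' ^ 2 = 0 := by
      have hinj : Function.Injective (F₀.subtype.mapMatrix : Matrix (Fin n) (Fin n) F₀ →+* _) := by
        intro a b h
        ext i j
        exact congrFun (congrFun h i) j
      apply hinj
      rw [map_pow, map_zero, RingHom.mapMatrix_apply, hmap, hyS, pow_two]
      have hmid : ((g⁻¹ * pg : GL (Fin n) F) : Matrix (Fin n) (Fin n) F) *
          ((pg⁻¹ * g : GL (Fin n) F) : Matrix (Fin n) (Fin n) F) = 1 := by
        rw [← Units.val_mul, show g⁻¹ * pg * (pg⁻¹ * g) = 1 by group, Units.val_one]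
      simp only [Matrix.mul_assoc]
      rw [← Matrix.mul_assoc ((g⁻¹ * pg : GL (Fin n) F) : Matrix (Fin n) (Fin n) F), hmid,
        Matrix.one_mul, ← Matrix.mul_assoc S S, hS, Matrix.zero_mul, Matrix.mul_zero]
    obtain ⟨t, len, eσ, h₀, hlen, hh₀⟩ := exists_chain_conj 2 M' hsq
    -- every chain has length two
    have hker : ∀ w : Fin n → F, S *ᵥ w = 0 → ∃ u, S *ᵥ u = w := by
      intro w hw
      refine ⟨fun i => Sum.elim (fun a => w (e (.inr a))) (fun _ => 0) (e.symm i), funext fun i => ?_⟩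
      obtain ⟨i, rfl⟩ := e.surjective i
      rcases i with a | a
      · have := congrFun hw (e (.inr a))
        simp only [S, Matrix.mulVec, dotProduct, ← Equiv.sum_comp e, Fintype.sum_sum_type, B] at this ⊢
        simp [Matrix.one_apply] at this ⊢
        exact this.symm
      · simp only [S, Matrix.mulVec, dotProduct, ← Equiv.sum_comp e, Fintype.sum_sum_type, B]
        simp [Matrix.one_apply]
    have hlen2 : ∀ k, len k = 2 := by
      intro k
      by_contra hk
      have h1 : len k = 1 := by have := hlen k; omega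
      let i₀ : Fin n := eσ ⟨k, ⟨0, (hlen k).1⟩⟩
      set a : Fin n → F₀ := (h₀ : Matrix (Fin n) (Fin n) F₀) *ᵥ Pi.single i₀ 1 with ha
      have hcol : Matrix.reindex eσ eσ (chainShift len F₀) *ᵥ Pi.single i₀ 1 = 0 := by
        funext i
        rw [Matrix.mulVec_single_one]
        simp only [Matrix.col_apply, i₀, Matrix.reindex_apply, Matrix.submatrix_apply,
          Equiv.symm_apply_apply, chainShift, Matrix.of_apply, Pi.zero_apply]
        rw [if_neg]
        rintro ⟨hk', hv⟩
        have hlt := (eσ.symm i).2.2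
        have hl : len (eσ.symm i).1 = 1 := by rw [hk']; exact h1
        omega
      have hMa : M' *ᵥ a = 0 := by
        rw [ha, Matrix.mulVec_mulVec, hh₀, ← Matrix.mulVec_mulVec, hcol, Matrix.mulVec_zero]
      -- over the big field
      set U := ((pg⁻¹ * g : GL (Fin n) F) : Matrix (Fin n) (Fin n) F) with hU
      set V := ((g⁻¹ * pg : GL (Fin n) F) : Matrix (Fin n) (Fin n) F) with hV
      have hVU : V * U = 1 := by
        rw [hU, hV, ← Units.val_mul, show g⁻¹ * pg * (pg⁻¹ * g) = 1 by group, Units.val_one]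
      have hUV : U * V = 1 := by
        rw [hU, hV, ← Units.val_mul, show pg⁻¹ * g * (g⁻¹ * pg) = 1 by group, Units.val_one]
      have hz : S *ᵥ (V *ᵥ (fun i => (a i : F))) = 0 := by
        have h := RingHom.map_mulVec F₀.subtype M' a
        have h0 : (M'.map F₀.subtype) *ᵥ (fun i => (a i : F)) = 0 := by
          funext i
          rw [show (fun i => (a i : F)) = F₀.subtype ∘ a from rfl, ← h i, hMa]; simp
        rw [hmap, hyS] at h0
        have := congrArg (fun v => V *ᵥ v) h0
        simp only [Matrix.mulVec_mulVec, Matrix.mulVec_zero, ← Matrix.mul_assoc, hVU, Matrix.one_mul] at this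
        rwa [← Matrix.mulVec_mulVec] at this
      obtain ⟨u, hu⟩ := hker _ hz
      have hu' : (M'.map F₀.subtype) *ᵥ (U *ᵥ u) = fun i => (a i : F) := by
        rw [hmap, hyS, Matrix.mulVec_mulVec, Matrix.mul_assoc, hVU, Matrix.mul_one,
          ← Matrix.mulVec_mulVec, hu, Matrix.mulVec_mulVec, hUV, Matrix.one_mulVec]
      obtain ⟨π, hπ⟩ := LinearMap.exists_leftInverse_of_injective (Algebra.linearMap F₀ F)
        (LinearMap.ker_eq_bot.2 Subtype.val_injective)
      have hπ' : ∀ c : F₀, π (c : F) = c := fun c => LinearMap.congr_fun hπ c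
      let w : Fin n → F₀ := fun i => π ((U *ᵥ u) i)
      have hw : M' *ᵥ w = a := by
        funext i
        have h := congrArg π (congrFun hu' i)
        rw [hπ'] at h
        rw [← h]
        simp only [Matrix.mulVec, dotProduct, map_sum, w]
        refine Finset.sum_congr rfl fun j _ => ?_
        rw [show (M'.map F₀.subtype) i j * (∑ x, U j x * u x) = M' i j • (∑ x, U j x * u x) from rfl,
          map_smul, smul_eq_mul, map_sum]
      -- coordinates in the chain basis
      have h2 := congrArg (fun v => ((h₀⁻¹ : GL (Fin n) F₀) : Matrix (Fin n) (Fin n) F₀) *ᵥ v) hw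
      simp only [ha, Matrix.mulVec_mulVec] at h2
      rw [← Units.val_mul, inv_mul_cancel, Units.val_one, Matrix.one_mulVec] at h2
      have hconj : ((h₀⁻¹ : GL (Fin n) F₀) : Matrix (Fin n) (Fin n) F₀) * M' =
          Matrix.reindex eσ eσ (chainShift len F₀) * ((h₀⁻¹ : GL (Fin n) F₀) : Matrix (Fin n) (Fin n) F₀) := by
        have h := congrArg (fun T => ((h₀⁻¹ : GL (Fin n) F₀) : Matrix (Fin n) (Fin n) F₀) * T *
          ((h₀⁻¹ : GL (Fin n) F₀) : Matrix (Fin n) (Fin n) F₀)) hh₀
        simpa [Matrix.mul_assoc] using h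
      rw [hconj, ← Matrix.mulVec_mulVec] at h2
      have h3 := congrFun h2 i₀
      simp only [Pi.single_eq_same, Matrix.mulVec, dotProduct] at h3
      rw [Finset.sum_eq_zero] at h3
      · exact zero_ne_one h3
      · intro j _
        simp [i₀, chainShift]
    -- the conjugation over the subfield
    let σ : (Σ k : Fin t, Fin (len k)) ≃ Fin t ⊕ Fin t :=
      { toFun := fun p => if (p.2 : ℕ) = 0 then .inl p.1 else .inr p.1
        invFun := Sum.elim (fun k => ⟨k, ⟨0, by rw [hlen2]; omega⟩⟩) (fun k => ⟨k, ⟨1, by rw [hlen2]; omega⟩⟩)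
        left_inv := by
          rintro ⟨k, j⟩
          have hj : (j : ℕ) = 0 ∨ (j : ℕ) = 1 := by have := j.2; have := hlen2 k; omega
          rcases hj with hj | hj <;> simp [hj] <;> exact Fin.ext hj.symm
        right_inv := by rintro (k | k) <;> simp }
    have ht : t = m := by
      have := Fintype.card_congr (σ.symm.trans eσ)
      simp at this
      omega
    subst ht
    let τ : Fin n ≃ Fin n := eσ.symm.trans (σ.trans e)
    have hshift : Matrix.reindex eσ eσ (chainShift len F) = S.submatrix τ τ := by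
      ext i j
      obtain ⟨⟨a, b⟩, rfl⟩ := eσ.surjective i
      obtain ⟨⟨c, d⟩, rfl⟩ := eσ.surjective j
      have hb : (b : ℕ) = 0 ∨ (b : ℕ) = 1 := by have := b.2; have := hlen2 a; omega
      have hd : (d : ℕ) = 0 ∨ (d : ℕ) = 1 := by have := d.2; have := hlen2 c; omega
      rcases hb with hb | hb <;> rcases hd with hd | hd <;>
        simp [S, τ, σ, B, chainShift, hb, hd, Matrix.one_apply]
    let Pτ : Matrix (Fin n) (Fin n) F₀ := τ.toPEquiv.toMatrix
    have hPτ : Pτ.det ≠ 0 := by
      rw [show Pτ = Equiv.Perm.permMatrix F₀ τ from rfl, Matrix.det_permutation]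
      exact (Units.isUnit _).map (Int.castRingHom F₀) |>.ne_zero
    let hh : Matrix (Fin n) (Fin n) F₀ := (h₀ : Matrix (Fin n) (Fin n) F₀) * Pτ
    have hhdet : hh.det ≠ 0 := by
      rw [Matrix.det_mul]; exact mul_ne_zero h₀.det_ne_zero hPτ
    have hrel : (M'.map F₀.subtype) * hh.map F₀.subtype = hh.map F₀.subtype * S := by
      have h := congrArg (fun T : Matrix (Fin n) (Fin n) F₀ => T.map F₀.subtype) hh₀
      simp only [Matrix.map_mul] at h
      rw [Matrix.reindex_apply, ← Matrix.submatrix_map, chainShift_map, ← Matrix.reindex_apply, hshift] at h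
      have hP : Pτ.map F₀.subtype = τ.toPEquiv.toMatrix := PEquiv.map_toMatrix _ _
      rw [Matrix.map_mul, ← Matrix.mul_assoc, h, Matrix.mul_assoc, Matrix.mul_assoc]
      congr 1
      rw [hP, PEquiv.toMatrix_toPEquiv_mul, PEquiv.mul_toMatrix_toPEquiv, Matrix.submatrix_submatrix]
      ext i j
      simp
    set H := hh.map F₀.subtype with hH
    set C : Matrix (Fin n) (Fin n) F := ((g⁻¹ * pg : GL (Fin n) F) : Matrix (Fin n) (Fin n) F) * H with hC
    have hcomm : S * C = C * S := by
      rw [hmap, hyS] at hrel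
      have h := congrArg (fun T => ((g⁻¹ * pg : GL (Fin n) F) : Matrix (Fin n) (Fin n) F) * T) hrel
      simp only [← Matrix.mul_assoc, ← Units.val_mul, show g⁻¹ * pg * (pg⁻¹ * g) = 1 by group,
        Units.val_one, Matrix.one_mul] at h
      rw [hC, ← Matrix.mul_assoc]
      exact h
    have hCdet : IsSquare C.det := by
      set C₀ := Matrix.reindex e.symm e.symm C with hC₀
      have hc : B * C₀ = C₀ * B := by
        have h := congrArg (Matrix.reindexAlgEquiv F F e.symm) hcomm
        simp only [map_mul] at h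
        have hSB : Matrix.reindexAlgEquiv F F e.symm S = B := by
          ext i j; simp [S]
        rwa [hSB] at h
      rw [← Matrix.det_reindex_self e.symm C, ← hC₀]
      have hblock : C₀ = Matrix.fromBlocks C₀.toBlocks₁₁ C₀.toBlocks₁₂ C₀.toBlocks₂₁ C₀.toBlocks₂₂ :=
        (Matrix.fromBlocks_toBlocks C₀).symm
      rw [hblock] at hc ⊢
      simp only [B, Matrix.fromBlocks_multiply, Matrix.fromBlocks_inj, Matrix.zero_mul, Matrix.mul_zero,
        Matrix.one_mul, Matrix.mul_one, zero_add, add_zero] at hc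
      obtain ⟨h12, -, h21, -⟩ := hc
      rw [← h12, Matrix.det_fromBlocks_zero₁₂, h21]
      exact ⟨_, rfl⟩
    have hhsq : IsSquare H.det := by
      rw [hH, det_map_subtype]
      have h0 : ((hh.det : F₀) : F) ≠ 0 := fun h => hhdet (Subtype.ext h)
      rw [FiniteField.isSquare_iff hF h0, hq, Nat.card_eq_fintype_card]
      have hodd : Odd (Fintype.card F₀) :=
        Nat.odd_iff.2 (FiniteField.odd_card_of_char_ne_two (by rw [ringChar.eq F₀ 3]; decide))
      obtain ⟨b, hb⟩ := hodd
      rw [hb, show (2 * b + 1) ^ 2 / 2 = (2 * b) * (b + 1) by ring_nf; omega, pow_mul]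
      have := congrArg Subtype.val (FiniteField.pow_card_sub_one_eq_one hh.det hhdet)
      rw [hb] at this
      simp only [Nat.add_sub_cancel] at this
      rw [show ((hh.det : F₀) : F) ^ (2 * b) = 1 by simpa using this, one_pow]
    apply hν
    have hd : C.det = ν⁻¹ * H.det := by
      rw [hC, Matrix.det_mul, Units.val_mul, Matrix.det_mul]
      have hgd : (g : Matrix (Fin n) (Fin n) F).det = ν := hD
      have hginv : ((g⁻¹ : GL (Fin n) F) : Matrix (Fin n) (Fin n) F).det = ν⁻¹ := by
        refine eq_inv_of_mul_eq_one_left ?_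
        rw [← hgd, ← Matrix.det_mul, ← Units.val_mul, inv_mul_cancel, Units.val_one, Matrix.det_one]
      rw [hginv, show (pg : Matrix (Fin n) (Fin n) F).det = 1 from P.2, mul_one]
    have hH0 : H.det ≠ 0 := by
      rw [hH, det_map_subtype]; exact fun h => hhdet (Subtype.ext h)
    have hCne : C.det ≠ 0 := by rw [hd]; exact mul_ne_zero (inv_ne_zero hν0) hH0
    have : ν = H.det / C.det := by rw [hd]; field_simp
    rw [this]
    exact hhsq.div hCdet

/-- Elements of order 3 of PSL_n(q) in characteristic 3 and subfield subgroups. Here `T = PSL_n(F)` for a field `F` with `q` elements, `q` a power of 3 (`n ≥ 2`, `(n, q) ≠ (2, 2), (2, 3)`), `F₀` is the subfield with `q₀` elements where `q = q₀^k` for a prime `k`, and `H` is the subgroup of matrices of determinant 1 lying in the subfield group of `F₀` (invertible matrices over `F₀` times scalars) — a maximal subgroup of type GL_n(q₀) (the case `n = 2`, `q₀ = 2` is excluded); Ω is the set of `T`-conjugates of `H` (cosets of `H`), so an element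 of `T` of prime order `r` (a matrix `x` of determinant 1 with `x^r` scalar, `x` not scalar) fixes a point of Ω when some conjugate of `x` by a matrix of determinant 1 lies in `H`. Suppose 3 divides the index of `H`. Then every element of `T` of order 3 is conjugate in `T` into `H` if and only if `n` is odd, or `n` is even and `k > 2`. -/
theorem result {F : Type*} [Field F] [Fintype F] [CharP F 3] {q : ℕ} (hq : Fintype.card F = q)
    (n : ℕ) (hn : 2 ≤ n) (hT : (n, q) ≠ (2, 3))
    (F₀ : Subfield F) (k q₀ : ℕ) (hk : k.Prime) (hF₀ : Nat.card ↥F₀ = q₀) (hqk : q = q₀ ^ k) (hC5 : ¬ (n = 2 ∧ q₀ = 2)) (hΩ : 3 ∣ ((Cfsg.Geo.subfieldSubgroup F₀ 1).comap (Matrix.SpecialLinearGroup.toGL : Matrix.SpecialLinearGroup (Fin n) F →* GL (Fin n) F)).index) :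
    (∀ x : Matrix.SpecialLinearGroup (Fin n) F,
      (∃ z : F, ((x ^ 3 : Matrix.SpecialLinearGroup (Fin n) F) : Matrix (Fin n) (Fin n) F) = z • (1 : Matrix (Fin n) (Fin n) F)) →
      (∀ z : F, (x : Matrix (Fin n) (Fin n) F) ≠ z • (1 : Matrix (Fin n) (Fin n) F)) →
      ∃ P : Matrix.SpecialLinearGroup (Fin n) F, P⁻¹ * x * P ∈ ((Cfsg.Geo.subfieldSubgroup F₀ 1).comap (Matrix.SpecialLinearGroup.toGL : Matrix.SpecialLinearGroup (Fin n) F →* GL (Fin n) F))) ↔
    (Odd n ∨ (Even n ∧ 2 < k)) := by
  classical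
  haveI : NeZero n := ⟨by omega⟩
  have hq' : Fintype.card F = Nat.card F₀ ^ k := by rw [hq, hF₀, hqk]
  constructor
  · intro hall
    rcases Nat.even_or_odd n with he | ho
    · refine Or.inr ⟨he, ?_⟩
      by_contra hk2
      have hk' : k = 2 := by have := hk.two_le; omega
      obtain ⟨m, rfl⟩ := he
      obtain ⟨x, hx1, hx2, hx3⟩ := exists_bad (m := m) (by omega) F₀ rfl (hk' ▸ hq')
      obtain ⟨P, hP⟩ := hall x hx1 hx2
      exact hx3 P hP
    · exact Or.inl ho
  · rintro h x ⟨z, hz⟩ -
    refine exists_conj F₀ hq' ?_ x hz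
    rcases h with h | ⟨-, h⟩
    · exact Or.inl h
    · exact Or.inr (hk.odd_of_ne_two (by omega))

end Cfsg.Agent.S5966
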