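import Cfsg.Statements.S5967
import Cfsg.Agent.Lib.Omega.SquareCases

set_option autoImplicit false
open scoped MatrixGroups Matrix
open Cfsg

namespace Cfsg.Agent.S5967

/-- A conjugate preserving the form up to a scalar, from invariant planes of equal determinant. -/
theorem exists_conj_similitude {F : Type*} [Field F] [Fintype F] {n : ℕ} [NeZero n]
    (f : (Fin n → F) → (Fin n → F) → F) (hf : Cfsg.Geo.IsSymplecticForm f)
    (x : GL (Fin n) F) {z : F} (hz : z ≠ 0) (hx : (x : Matrix (Fin n) (Fin n) F) * x = z • 1)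
    {α : Type} [Fintype α] (e : Module.Basis (α × Fin 2) F (Fin n → F)) (μ : F) (hμ : μ ≠ 0)
    (hplane : ∀ k, ∃ a b c d : F,
      (x : Matrix (Fin n) (Fin n) F) *ᵥ e (k, 0) = a • e (k, 0) + c • e (k, 1) ∧
      (x : Matrix (Fin n) (Fin n) F) *ᵥ e (k, 1) = b • e (k, 0) + d • e (k, 1) ∧ a * d - b * c = μ) :
    ∃ g ∈ Cfsg.Geo.specialLinear (Fin n) F, g⁻¹ * x * g ∈ Cfsg.Geo.similarityGroup f := by
  classical
  let B : LinearMap.BilinForm F (Fin n → F) := LinearMap.mk₂ F f hf.bilinear.add_left
    (fun c u v => hf.bilinear.smul_left c u v) (fun u v v' => hf.bilinear.add_right u v v')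
    (fun c u v => hf.bilinear.smul_right c u v)
  have hBf : ∀ u v, B u v = f u v := fun u v => rfl
  obtain ⟨αf, _, _, w₀, π, hw⟩ := CfsgLib.Omega.exists_adapted_basis (B := B) (f := LinearMap.id) (z := 1)
    (fun v => hf.alternating v) (fun v hv => by
      by_contra h0
      obtain ⟨y, hy⟩ := (hf.nondegenerate v h0).2
      exact hy (hv y)) (fun _ _ => rfl) (fun w => by simp)
  have hcard : Fintype.card αf = Fintype.card α := by
    have h1 := Module.finrank_eq_card_basis w₀
    have h2 := Module.finrank_eq_card_basis e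
    simp at h1 h2
    omega
  let w := w₀.reindex ((Fintype.equivOfCardEq hcard).prodCongr (Equiv.refl (Fin 2)))
  have hiso : ∀ i j s, B (w (i, s)) (w (j, s)) = 0 := fun i j s => by
    simpa [w] using hw.isotropic _ _ s
  have hpair : ∀ i j, B (w (i, 0)) (w (j, 1)) = if i = j then 1 else 0 := fun i j => by
    simp [w, hw.pairing, (Fintype.equivOfCardEq hcard).symm.injective.eq_iff]
  have hskew : ∀ u v, B u v = -B v u := CfsgLib.Omega.alt_skew (fun v => hf.alternating v)
  have hrev : ∀ i j, B (w (i, 1)) (w (j, 0)) = -(if j = i then 1 else 0) := fun i j => by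
    rw [hskew, hpair]
  obtain ⟨g₀, hg₀⟩ := CfsgLib.Omega.exists_gl_of_bases e w
  set y := g₀⁻¹ * x * g₀ with hy
  set Y : Matrix (Fin n) (Fin n) F := (y : Matrix (Fin n) (Fin n) F) with hY
  have hYp : ∀ p, ∀ v, (x : Matrix (Fin n) (Fin n) F) *ᵥ e p = (g₀ : Matrix (Fin n) (Fin n) F) *ᵥ v →
      Y *ᵥ w p = v := fun p v h => CfsgLib.Omega.conj_mulVec x g₀ (hg₀ p) h
  choose a b c d hx0 hx1 hdet using hplane
  have hY0 : ∀ k, Y *ᵥ w (k, 0) = a k • w (k, 0) + c k • w (k, 1) := fun k => hYp _ _ (by
    rw [hx0, Matrix.mulVec_add, Matrix.mulVec_smul, Matrix.mulVec_smul, hg₀, hg₀])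
  have hY1 : ∀ k, Y *ᵥ w (k, 1) = b k • w (k, 0) + d k • w (k, 1) := fun k => hYp _ _ (by
    rw [hx1, Matrix.mulVec_add, Matrix.mulVec_smul, Matrix.mulVec_smul, hg₀, hg₀])
  have hB : B.compl₁₂ (Matrix.toLin' Y) (Matrix.toLin' Y) = μ • B := by
    refine LinearMap.BilinForm.ext_basis w fun ⟨i, s⟩ ⟨j, t⟩ => ?_
    simp only [LinearMap.compl₁₂_apply, Matrix.toLin'_apply, LinearMap.smul_apply, smul_eq_mul]
    fin_cases s <;> fin_cases t <;>
      simp only [Fin.zero_eta, Fin.mk_one, Fin.isValue, hY0, hY1, map_add, map_smul, LinearMap.add_apply,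
        LinearMap.smul_apply, smul_eq_mul, hiso, hpair, hrev] <;>
      (by_cases hij : i = j
       · subst hij; simp
         first | linear_combination hdet i | linear_combination (-1 : F) * hdet i | ring1
       · simp [hij, Ne.symm hij])
  obtain ⟨g, hg, hgy⟩ := CfsgLib.Omega.exists_sl_conj_of_square (g := g₀) hz hx
  refine ⟨g, hg, ?_⟩
  rw [hgy]
  refine ⟨Units.mk0 μ hμ, fun u v => ?_⟩
  have := LinearMap.congr_fun₂ hB u v
  simp only [LinearMap.compl₁₂_apply, Matrix.toLin'_apply, LinearMap.smul_apply, smul_eq_mul] at this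
  exact this

/-- Involutions of PSL_n(q) and the symplectic-type subgroups. Here `T = PSL_n(F)` for a field `F` with `q` elements, `n ≥ 4` even, `f` is a nondegenerate alternating form on `F^n`, and `H` is the subgroup of matrices of determinant 1 preserving `f` up to a scalar — a maximal subgroup of type Sp_n(q); Ω is the set of `T`-conjugates of `H` (cosets of `H`), so an element of `T` of prime order `r` (a matrix `x` of determinant 1 with `x^r` scalar, `x` not scalar) fixes a point of Ω when some conjugate of `x` by a matrix of determinant 1 preserves `f` up to a scalar. Suppose the index of `H` is even. Then every involution of `T` is conjugate in `T` into `H` if and only if `(q − 1)_2 ≤ (n)_2`. -/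
theorem result {F : Type*} [Field F] [Fintype F] {p : ℕ} [Fact p.Prime] [CharP F p] {q : ℕ} (hq : Fintype.card F = q)
    (n : ℕ) (hn : 4 ≤ n) (he : Even n) (f : (Fin n → F) → (Fin n → F) → F) (hf : Cfsg.Geo.IsSymplecticForm f)
    (hΩ : 2 ∣ ((Cfsg.Geo.similarityGroup f).comap (Matrix.SpecialLinearGroup.toGL : Matrix.SpecialLinearGroup (Fin n) F →* GL (Fin n) F)).index) :
    (∀ x : Matrix.SpecialLinearGroup (Fin n) F,
      (∃ z : F, ((x ^ 2 : Matrix.SpecialLinearGroup (Fin n) F) : Matrix (Fin n) (Fin n) F) = z • (1 : Matrix (Fin n) (Fin n) F)) →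
      (∀ z : F, (x : Matrix (Fin n) (Fin n) F) ≠ z • (1 : Matrix (Fin n) (Fin n) F)) →
      ∃ P : Matrix.SpecialLinearGroup (Fin n) F, P⁻¹ * x * P ∈ ((Cfsg.Geo.similarityGroup f).comap (Matrix.SpecialLinearGroup.toGL : Matrix.SpecialLinearGroup (Fin n) F →* GL (Fin n) F))) ↔
    padicValNat 2 (q - 1) ≤ padicValNat 2 n := by
  classical
  haveI : NeZero n := ⟨by omega⟩
  set G := Matrix.SpecialLinearGroup.toGL (n := Fin n) (R := F) with hGdef
  have hGval : ∀ y : Matrix.SpecialLinearGroup (Fin n) F,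
      ((G y : GL (Fin n) F) : Matrix (Fin n) (Fin n) F) = (y : Matrix (Fin n) (Fin n) F) := fun y => rfl
  constructor
  · intro hall
    by_contra hlt
    push Not at hlt
    have h2 : (2 : F) ≠ 0 := by
      refine Ring.two_ne_zero fun hc => ?_
      have hev := (FiniteField.even_card_iff_char_two (F := F)).1 hc
      rw [hq] at hev
      haveI : Fact (Nat.Prime 2) := ⟨Nat.prime_two⟩
      have h0 : padicValNat 2 (q - 1) = 0 := padicValNat.eq_zero_of_not_dvd (by
        have := hq ▸ (Fintype.one_lt_card (α := F)); omega)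
      omega
    obtain ⟨s, hs⟩ := (CfsgLib.Omega.exists_pow_eq_neg_one_iff hq h2 (by omega)).2 hlt
    have hs0 : s ≠ 0 := by rintro rfl; simp [zero_pow (show n ≠ 0 by omega)] at hs
    have hsne : s * s ≠ -(s * s) := fun h => mul_ne_zero (mul_ne_zero h2 hs0) hs0 (by linear_combination h)
    let i₀ : Fin n := ⟨0, by omega⟩
    let d : Fin n → F := fun i => if i = i₀ then -s else s
    let D : Matrix (Fin n) (Fin n) F := Matrix.diagonal d
    have hDdet : D.det = 1 := by
      show (Matrix.diagonal d).det = 1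
      rw [Matrix.det_diagonal, ← Finset.mul_prod_erase Finset.univ d (Finset.mem_univ i₀),
        Finset.prod_congr rfl (fun i hi => by simp [d, Finset.ne_of_mem_erase hi] : ∀ i ∈ Finset.univ.erase i₀, d i = s),
        Finset.prod_const, Finset.card_erase_of_mem (Finset.mem_univ _), Finset.card_univ, Fintype.card_fin]
      simp only [d, if_true, neg_mul]
      rw [← pow_succ', Nat.sub_add_cancel (by omega), hs, neg_neg]
    let x : Matrix.SpecialLinearGroup (Fin n) F := ⟨D, hDdet⟩
    obtain ⟨P, hP⟩ := hall x ⟨s * s, by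
      rw [Matrix.SpecialLinearGroup.coe_pow, pow_two]
      show Matrix.diagonal d * Matrix.diagonal d = _
      rw [Matrix.diagonal_mul_diagonal, Matrix.smul_one_eq_diagonal]
      congr 1; funext i; simp only [d]; split_ifs <;> ring⟩ (by
      intro z hz
      let i₁ : Fin n := ⟨1, by omega⟩
      have e0 := congrFun (congrFun hz i₀) i₀
      have e1 := congrFun (congrFun hz i₁) i₁
      simp [x, D, d, i₀, i₁] at e0 e1
      exact mul_ne_zero h2 hs0 (by linear_combination e1 - e0))
    obtain ⟨μ, hμ⟩ := hP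
    set Pinv := ((P⁻¹ : Matrix.SpecialLinearGroup (Fin n) F) : Matrix (Fin n) (Fin n) F) with hPinv
    set Pm := (P : Matrix (Fin n) (Fin n) F) with hPm
    have hPP : Pm * Pinv = 1 := by
      rw [hPm, hPinv, ← Matrix.SpecialLinearGroup.coe_mul, mul_inv_cancel, Matrix.SpecialLinearGroup.coe_one]
    have hPP' : Pinv * Pm = 1 := by
      rw [hPm, hPinv, ← Matrix.SpecialLinearGroup.coe_mul, inv_mul_cancel, Matrix.SpecialLinearGroup.coe_one]
    let e : Fin n → (Fin n → F) := fun i => Pinv *ᵥ Pi.single i 1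
    have hxe : ∀ i, ((G (P⁻¹ * x * P) : GL (Fin n) F) : Matrix (Fin n) (Fin n) F) *ᵥ e i = d i • e i := by
      intro i
      rw [hGval, Matrix.SpecialLinearGroup.coe_mul, Matrix.SpecialLinearGroup.coe_mul]
      show (Pinv * Matrix.diagonal d * Pm) *ᵥ (Pinv *ᵥ Pi.single i 1) = _
      rw [Matrix.mulVec_mulVec, Matrix.mul_assoc, hPP, mul_one, ← Matrix.mulVec_mulVec,
        show Matrix.diagonal d *ᵥ Pi.single i (1 : F) = d i • Pi.single i 1 by
          rw [Matrix.diagonal_mulVec_single, ← Pi.single_smul, smul_eq_mul],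
        Matrix.mulVec_smul]
    have hkey : ∀ i j, f (e i) (e j) * (d i * d j - μ) = 0 := fun i j => by
      have := hμ (e i) (e j)
      change f (((G (P⁻¹ * x * P) : GL (Fin n) F) : Matrix (Fin n) (Fin n) F) *ᵥ e i)
        (((G (P⁻¹ * x * P) : GL (Fin n) F) : Matrix (Fin n) (Fin n) F) *ᵥ e j) = _ at this
      rw [hxe, hxe, hf.bilinear.smul_left, hf.bilinear.smul_right] at this
      linear_combination this
    let B : LinearMap.BilinForm F (Fin n → F) := LinearMap.mk₂ F f hf.bilinear.add_left
      (fun c u v => hf.bilinear.smul_left c u v) (fun u v v' => hf.bilinear.add_right u v v')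
      (fun c u v => hf.bilinear.smul_right c u v)
    have hBf : ∀ u v, B u v = f u v := fun u v => rfl
    have hspan : ∀ v, v ∈ Submodule.span F (Set.range e) := fun v => by
      have hv : v = ∑ i, (Pm *ᵥ v) i • e i := by
        have h1 : v = Pinv *ᵥ (Pm *ᵥ v) := by rw [Matrix.mulVec_mulVec, hPP', Matrix.one_mulVec]
        have h2 : Pm *ᵥ v = ∑ i, (Pm *ᵥ v) i • Pi.single (M := fun _ : Fin n => F) i 1 := by
          funext j; simp [Pi.single_apply]
        conv_lhs => rw [h1, h2]
        simp [e, Matrix.mulVec_sum, Matrix.mulVec_smul]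
      rw [hv]
      exact Submodule.sum_mem _ fun i _ => Submodule.smul_mem _ _ (Submodule.subset_span ⟨i, rfl⟩)
    have horth : ∀ u, (∀ j, f u (e j) = 0) → u = 0 := fun u hu => by
      by_contra hu0
      obtain ⟨v, hv⟩ := (hf.nondegenerate u hu0).2
      refine hv ((Submodule.span_le (p := LinearMap.ker (B u))).2 ?_ (hspan v))
      rintro _ ⟨j, rfl⟩
      exact hu j
    have he0 : ∀ i, e i ≠ 0 := fun i h => by
      have := congrArg (Pm *ᵥ ·) h
      simp only [e, Matrix.mulVec_mulVec, hPP, Matrix.one_mulVec, Matrix.mulVec_zero] at this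
      exact one_ne_zero ((Pi.single_eq_same (M := fun _ : Fin n => F) i 1).symm.trans (congrFun this i))
    obtain ⟨j, hj⟩ : ∃ j, f (e i₀) (e j) ≠ 0 := by
      by_contra h
      push Not at h
      exact he0 i₀ (horth _ h)
    have hj0 : j ≠ i₀ := fun h => hj (by rw [h]; exact hf.alternating _)
    have hμv : (μ : F) = -(s * s) := by
      have h1 := (mul_eq_zero.1 (hkey i₀ j)).resolve_left hj
      simp [d, hj0] at h1
      linear_combination (-1 : F) * h1
    have hz : ∀ i k, i ≠ i₀ → k ≠ i₀ → f (e i) (e k) = 0 := fun i k hi hk => by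
      refine (mul_eq_zero.1 (hkey i k)).resolve_right fun h => hsne ?_
      simp only [d, if_neg hi, if_neg hk, hμv] at h
      linear_combination h
    let i₁ : Fin n := ⟨1, by omega⟩
    let i₂ : Fin n := ⟨2, by omega⟩
    have h10 : i₁ ≠ i₀ := by simp [i₁, i₀]
    have h20 : i₂ ≠ i₀ := by simp [i₂, i₀]
    set u := f (e i₂) (e i₀) • e i₁ - f (e i₁) (e i₀) • e i₂ with hu
    have hu0 : u = 0 := horth _ fun k => by
      rw [← hBf, hu]
      simp only [map_sub, LinearMap.sub_apply, map_smul, LinearMap.smul_apply, hBf]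
      by_cases hk : k = i₀
      · subst hk; simp only [smul_eq_mul]; ring
      · simp [hz _ _ h10 hk, hz _ _ h20 hk]
    have hu1 := congrArg (Pm *ᵥ ·) hu0
    simp only [hu, e, Matrix.mulVec_sub, Matrix.mulVec_smul, Matrix.mulVec_mulVec, hPP, Matrix.one_mulVec,
      Matrix.mulVec_zero] at hu1
    have := congrFun hu1 i₁
    simp [i₁, i₂] at this
    refine he0 i₂ (horth _ fun k => ?_)
    by_cases hk : k = i₀
    · subst hk
      simp only [e, Matrix.mulVec_single_one, i₂]
      exact this
    · exact hz _ _ h20 hk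
  · intro hle x ⟨z, hz⟩ hns
    set X : Matrix (Fin n) (Fin n) F := (x : Matrix (Fin n) (Fin n) F) with hXdef
    have hXX : X * X = z • 1 := by rw [← hz, Matrix.SpecialLinearGroup.coe_pow, pow_two]
    have hgx : ((G x : GL (Fin n) F) : Matrix (Fin n) (Fin n) F) * (G x : GL (Fin n) F) = z • 1 := hXX
    have hz0 := CfsgLib.Omega.ne_zero_of_square hgx
    suffices ∃ g ∈ Cfsg.Geo.specialLinear (Fin n) F, g⁻¹ * G x * g ∈ Cfsg.Geo.similarityGroup f by
      obtain ⟨g, hg, h⟩ := this
      let P : Matrix.SpecialLinearGroup (Fin n) F := ⟨(g : Matrix (Fin n) (Fin n) F),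
        CfsgLib.Omega.mem_specialLinear.1 hg⟩
      have hPg : G P = g := Units.ext rfl
      refine ⟨P, ?_⟩
      show G (P⁻¹ * x * P) ∈ Cfsg.Geo.similarityGroup f
      rwa [map_mul, map_mul, map_inv, hPg]
    by_cases hA : (2 : F) ≠ 0 ∧ ∃ s, z = s * s
    · obtain ⟨h2, s, rfl⟩ := hA
      have hs0 : s ≠ 0 := fun h => hz0 (by rw [h, mul_zero])
      obtain ⟨b, d, hd, hb, hprod⟩ := CfsgLib.Omega.exists_eigen_square h2 X hs0 hXX
      have hdet1 : ∏ i, d i = 1 := by rw [hprod]; exact x.2
      have hsne : s ≠ -s := fun h => hs0 ((mul_eq_zero.1 (by linear_combination h : (2 : F) * s = 0)).resolve_left h2)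
      let Q := {i : Fin n // d i = -s}
      let R := {i : Fin n // ¬ d i = -s}
      have hQ : Even (Fintype.card Q) := by
        by_contra hodd
        rw [Nat.not_even_iff_odd] at hodd
        have : s ^ n = -1 := by
          have hsplit : ∏ i, d i = (-s) ^ Fintype.card Q * s ^ Fintype.card R := by
            rw [← Fintype.prod_subtype_mul_prod_subtype (fun i => d i = -s) d]
            congr 1
            · rw [Finset.prod_congr rfl (fun i _ => i.2), Finset.prod_const, Finset.card_univ]
            · rw [Finset.prod_congr rfl (fun i _ => (hd i.1).resolve_right i.2), Finset.prod_const, Finset.card_univ]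
          rw [hdet1, neg_pow, hodd.neg_one_pow, mul_assoc, ← pow_add, Fintype.card_subtype_compl,
            Nat.add_sub_cancel' (Fintype.card_subtype_le _), Fintype.card_fin] at hsplit
          linear_combination hsplit
        have := (CfsgLib.Omega.exists_pow_eq_neg_one_iff hq h2 (by omega)).1 ⟨s, this⟩
        omega
      have hR : Even (Fintype.card R) := by
        have hsum : Fintype.card Q + Fintype.card R = n := by
          have := Fintype.card_congr (Equiv.sumCompl fun i => d i = -s)
          rw [Fintype.card_sum, Fintype.card_fin] at this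
          exact this
        rw [← hsum] at he
        exact (Nat.even_add.1 he).1 hQ
      obtain ⟨m₁, ⟨e₁⟩⟩ := CfsgLib.Omega.exists_pairs Q hQ
      obtain ⟨m₂, ⟨e₂⟩⟩ := CfsgLib.Omega.exists_pairs R hR
      let ee : (Fin m₁ ⊕ Fin m₂) × Fin 2 ≃ Fin n :=
        ((Equiv.sumProdDistrib _ _ _).trans (Equiv.sumCongr e₁ e₂)).trans (Equiv.sumCompl _)
      have hl : ∀ i : Q, (Equiv.sumCompl fun i => d i = -s) (Sum.inl i) = i.1 := fun i => rfl
      have hr : ∀ i : R, (Equiv.sumCompl fun i => d i = -s) (Sum.inr i) = i.1 := fun i => rfl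
      refine exists_conj_similitude f hf (G x) hz0 hgx (b.reindex ee.symm) (s * s) hz0 fun k => ?_
      rcases k with k | k
      · refine ⟨-s, 0, 0, -s, ?_, ?_, by ring⟩ <;>
          simp [ee, hGval, ← hXdef, hb, hl, (e₁ _).2]
      · refine ⟨s, 0, 0, s, ?_, ?_, by ring⟩ <;>
          simp [ee, hGval, ← hXdef, hb, hr, (hd _).resolve_right (e₂ _).2]
    · obtain ⟨α, β, _, _, _, _, w, c, hw0, hw1, hwl⟩ := CfsgLib.Omega.exists_plane_form X z hz0 hXX
      have hc : Nonempty β → (2 : F) = 0 := fun ⟨l⟩ => by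
        by_contra h2
        exact hA ⟨h2, c l, (hwl l).2.symm⟩
      have hcard : Fintype.card α * 2 + Fintype.card β = n := by
        have := Module.finrank_eq_card_basis w
        simp at this
        omega
      obtain ⟨m, ⟨eβ⟩⟩ := CfsgLib.Omega.exists_pairs β (by
        rw [← hcard] at he
        exact (Nat.even_add.1 he).1 (even_two.mul_left _))
      let ee : (α ⊕ Fin m) × Fin 2 ≃ (α × Fin 2) ⊕ β :=
        (Equiv.sumProdDistrib _ _ _).trans (Equiv.sumCongr (Equiv.refl _) eβ)
      refine exists_conj_similitude f hf (G x) hz0 hgx (w.reindex ee.symm) (-z) (neg_ne_zero.2 hz0) fun k => ?_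
      rcases k with k | k
      · refine ⟨0, z, 1, 0, ?_, ?_, by ring⟩
        · simp [ee, hGval, ← hXdef, hw0]
        · simp [ee, hGval, ← hXdef, hw1]
      · refine ⟨c (eβ (k, 0)), 0, 0, c (eβ (k, 1)), ?_, ?_, ?_⟩
        · simp [ee, hGval, ← hXdef, (hwl _).1]
        · simp [ee, hGval, ← hXdef, (hwl _).1]
        · have h20 : (2 : F) = 0 := hc ⟨eβ (k, 0)⟩
          have heq : c (eβ (k, 0)) = c (eβ (k, 1)) := by
            have h := (hwl (eβ (k, 0))).2.trans (hwl (eβ (k, 1))).2.symm
            have h' : (c (eβ (k, 0)) - c (eβ (k, 1))) ^ 2 = 0 := by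
              linear_combination h + (c (eβ (k, 1)) ^ 2 - c (eβ (k, 0)) * c (eβ (k, 1))) * h20
            exact sub_eq_zero.1 (pow_eq_zero_iff (by norm_num : (2 : ℕ) ≠ 0) |>.1 h')
          rw [← heq, mul_zero, sub_zero, (hwl _).2]
          linear_combination z * h20

end Cfsg.Agent.S5967
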