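import Cfsg.Statements.S5968
import Cfsg.Agent.Lib.Omega.SquareCases
import Cfsg.Agent.Lib.Omega.SympForm
import Cfsg.Agent.Lib.ClassicalLinear.SympCard
import Cfsg.Agent.Lib.ClassicalLinear.Card

set_option autoImplicit false
open scoped MatrixGroups Matrix
open Cfsg

namespace Cfsg.Agent.S5968

universe u

variable {F : Type u} [Field F]

/-- An element all of whose invariant non-degenerate alternating forms are absurd is a derangement. -/
theorem not_mem_of_no_form {n : ℕ} (f : (Fin n → F) → (Fin n → F) → F) (hf : Cfsg.Geo.IsSymplecticForm f)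
    (x : Matrix.SpecialLinearGroup (Fin n) F)
    (h : ∀ (B : LinearMap.BilinForm F (Fin n → F)) (μ : F), μ ≠ 0 → (∀ v, B v v = 0) →
      (∀ v, (∀ w, B v w = 0) → v = 0) →
      (∀ u v, B ((x : Matrix (Fin n) (Fin n) F) *ᵥ u) ((x : Matrix (Fin n) (Fin n) F) *ᵥ v) = μ * B u v) → False)
    (P : Matrix.SpecialLinearGroup (Fin n) F) :
    P⁻¹ * x * P ∉ ((Cfsg.Geo.similarityGroup f).comap (Matrix.SpecialLinearGroup.toGL :
      Matrix.SpecialLinearGroup (Fin n) F →* GL (Fin n) F)) := by
  rintro ⟨μ, hμ⟩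
  set Q : Matrix (Fin n) (Fin n) F := ((P⁻¹ : Matrix.SpecialLinearGroup (Fin n) F) : Matrix (Fin n) (Fin n) F)
  set Pm : Matrix (Fin n) (Fin n) F := (P : Matrix (Fin n) (Fin n) F)
  have hPQ : Pm * Q = 1 := by
    rw [← Matrix.SpecialLinearGroup.coe_mul, mul_inv_cancel, Matrix.SpecialLinearGroup.coe_one]
  have hQP : Q * Pm = 1 := by
    rw [← Matrix.SpecialLinearGroup.coe_mul, inv_mul_cancel, Matrix.SpecialLinearGroup.coe_one]
  let B₀ : LinearMap.BilinForm F (Fin n → F) := LinearMap.mk₂ F f hf.bilinear.add_left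
    (fun c u v => hf.bilinear.smul_left c u v) (fun u v v' => hf.bilinear.add_right u v v')
    (fun c u v => hf.bilinear.smul_right c u v)
  refine h (B₀.compl₁₂ (Matrix.toLin' Q) (Matrix.toLin' Q)) μ μ.ne_zero (fun v => hf.alternating _) ?_ ?_
  · intro v hv
    by_contra h0
    have hQv : Q *ᵥ v ≠ 0 := fun h => h0 (by
      rw [← Matrix.one_mulVec v, ← hPQ, ← Matrix.mulVec_mulVec, h, Matrix.mulVec_zero])
    obtain ⟨w, hw⟩ := (hf.nondegenerate _ hQv).2
    refine hw ?_
    have := hv (Pm *ᵥ w)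
    change f (Q *ᵥ v) (Q *ᵥ (Pm *ᵥ w)) = 0 at this
    rwa [Matrix.mulVec_mulVec, hQP, Matrix.one_mulVec] at this
  · intro u v
    have := hμ (Q *ᵥ u) (Q *ᵥ v)
    change f ((Q * (x : Matrix (Fin n) (Fin n) F) * Pm) *ᵥ (Q *ᵥ u))
      ((Q * (x : Matrix (Fin n) (Fin n) F) * Pm) *ᵥ (Q *ᵥ v)) = _ at this
    simp only [Matrix.mulVec_mulVec, Matrix.mul_assoc, hPQ, Matrix.mul_one] at this
    simp only [← Matrix.mulVec_mulVec] at this
    exact this

/-- The multiplier of a similitude of order dividing `r` is an `r`-th root of unity. -/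
theorem multiplier_pow {n : ℕ} [NeZero n] (B : LinearMap.BilinForm F (Fin n → F))
    (hnd : ∀ v, (∀ w, B v w = 0) → v = 0) (X : Matrix (Fin n) (Fin n) F) {μ : F}
    (hX : ∀ u v, B (X *ᵥ u) (X *ᵥ v) = μ * B u v) {r : ℕ} (hr : X ^ r = 1) : μ ^ r = 1 := by
  have hit : ∀ (i : ℕ) u v, B (X ^ i *ᵥ u) (X ^ i *ᵥ v) = μ ^ i * B u v := by
    intro i
    induction i with
    | zero => simp
    | succ i ih =>
      intro u v
      rw [pow_succ', ← Matrix.mulVec_mulVec, ← Matrix.mulVec_mulVec, hX, ih, pow_succ', mul_assoc]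
  obtain ⟨v, hv⟩ : ∃ v : Fin n → F, v ≠ 0 := exists_ne 0
  obtain ⟨w, hw⟩ : ∃ w, B v w ≠ 0 := by
    by_contra h
    push Not at h
    exact hv (hnd v h)
  have := hit r v w
  rw [hr, Matrix.one_mulVec, Matrix.one_mulVec] at this
  exact mul_right_cancel₀ hw (by rw [one_mul]; exact this.symm)

/-- The unipotent derangement. -/
theorem exists_unipotent {p n : ℕ} [Fact p.Prime] [CharP F p] (hp : 3 ≤ p) (hn : 3 ≤ n) :
    ∃ x : Matrix.SpecialLinearGroup (Fin n) F, (x : Matrix (Fin n) (Fin n) F) ^ p = 1 ∧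
      (∀ z : F, (x : Matrix (Fin n) (Fin n) F) ≠ z • 1) ∧
      ∀ (B : LinearMap.BilinForm F (Fin n → F)) (μ : F), μ ≠ 0 → (∀ v, B v v = 0) →
        (∀ v, (∀ w, B v w = 0) → v = 0) →
        (∀ u v, B ((x : Matrix (Fin n) (Fin n) F) *ᵥ u) ((x : Matrix (Fin n) (Fin n) F) *ᵥ v) = μ * B u v) →
        False := by
  classical
  haveI : NeZero n := ⟨by omega⟩
  let i₀ : Fin n := ⟨0, by omega⟩
  let i₁ : Fin n := ⟨1, by omega⟩
  let i₂ : Fin n := ⟨2, by omega⟩
  have h10 : i₁ ≠ i₀ := by simp [i₁, i₀]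
  have h20 : i₂ ≠ i₀ := by simp [i₂, i₀]
  have h21 : i₂ ≠ i₁ := by simp [i₁, i₂]
  let X : Matrix (Fin n) (Fin n) F := Matrix.transvection i₂ i₁ 1 * Matrix.transvection i₁ i₀ 1
  set N : Matrix (Fin n) (Fin n) F := X - 1 with hN
  have hNeq : N = Matrix.single i₂ i₁ 1 + Matrix.single i₁ i₀ 1 + Matrix.single i₂ i₀ 1 := by
    simp only [hN, X, Matrix.transvection, add_mul, mul_add, Matrix.one_mul, Matrix.mul_one,
      Matrix.single_mul_single_same, mul_one]
    abel
  have hN2 : N * N = Matrix.single i₂ i₀ 1 := by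
    rw [hNeq]
    simp [add_mul, mul_add, Matrix.single_mul_single_of_ne, h10, h20, h21, h10.symm, h20.symm, h21.symm]
  have hN3 : N * (N * N) = 0 := by
    rw [hN2, hNeq]
    simp [add_mul, Matrix.single_mul_single_of_ne, h10, h20, h21, h10.symm, h20.symm, h21.symm]
  have hdet : X.det = 1 := by
    rw [Matrix.det_mul, Matrix.det_transvection_of_ne _ _ h21, Matrix.det_transvection_of_ne _ _ h10, one_mul]
  have hXN : X = 1 + N := by rw [hN, add_sub_cancel]
  refine ⟨⟨X, hdet⟩, ?_, ?_, ?_⟩
  · show X ^ p = 1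
    rw [hXN, add_pow_char_of_commute (p := p) (Commute.one_left _), one_pow,
      show N ^ p = 0 from pow_eq_zero_of_le hp (by rw [pow_succ', pow_two]; exact hN3), add_zero]
  · intro z hz
    have := congrFun (congrFun hz i₂) i₀
    change X i₂ i₀ = _ at this
    rw [hXN, hNeq] at this
    simp [Matrix.one_apply, h20, h21, h10, h10.symm, h21.symm] at this
  · intro B μ _ halt hnd hB
    change ∀ u v, B (X *ᵥ u) (X *ᵥ v) = μ * B u v at hB
    have hμ1 : μ = 1 := by
      have := multiplier_pow B hnd X hB (r := p) (by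
        rw [hXN, add_pow_char_of_commute (p := p) (Commute.one_left _), one_pow,
          show N ^ p = 0 from pow_eq_zero_of_le hp (by rw [pow_succ', pow_two]; exact hN3), add_zero])
      refine frobenius_inj F p ?_
      simpa [frobenius_def] using this
    have hadj : ∀ u v, B (N *ᵥ u) (X *ᵥ v) = -B u (N *ᵥ v) := by
      intro u v
      rw [hN, Matrix.sub_mulVec, Matrix.sub_mulVec, Matrix.one_mulVec, Matrix.one_mulVec, map_sub,
        LinearMap.sub_apply, hB, hμ1, map_sub]
      ring
    have hkey : ∀ u, B ((N * N) *ᵥ u) u = 0 := by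
      intro u
      have h1 : X *ᵥ ((N * N) *ᵥ u) = (N * N) *ᵥ u := by
        rw [Matrix.mulVec_mulVec, hXN, add_mul, Matrix.one_mul, hN3, add_zero]
      have h2 := hB ((N * N) *ᵥ u) u
      rw [h1, hμ1, one_mul] at h2
      rw [← h2, ← Matrix.mulVec_mulVec, hadj, halt, neg_zero]
    have hsingle : ∀ u, (N * N) *ᵥ u = u i₀ • Pi.single i₂ 1 := fun u => by
      funext a
      rw [hN2]
      simp [Matrix.mulVec, dotProduct, Matrix.single_apply, Pi.single_apply]
      by_cases ha : a = i₂ <;> simp [ha, eq_comm]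
    have hprod : ∀ u : Fin n → F, u i₀ * B (Pi.single i₂ 1) u = 0 := fun u => by
      have := hkey u
      rwa [hsingle, map_smul, LinearMap.smul_apply, smul_eq_mul] at this
    have he2 : (Pi.single i₂ 1 : Fin n → F) ≠ 0 := fun h => by simpa using congrFun h i₂
    refine he2 (hnd _ fun w => ?_)
    have h0 : B (Pi.single i₂ 1) (Pi.single i₀ 1) = 0 := by simpa using hprod (Pi.single i₀ 1)
    have h1 := hprod w
    have h2 := hprod (w + Pi.single i₀ 1)
    rw [map_add, h0, add_zero, Pi.add_apply, Pi.single_eq_same] at h2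
    linear_combination h2 - h1

/-- The diagonal derangement when `r` divides `q - 1`. -/
theorem exists_diagonal [Fintype F] {r n : ℕ} (hr : r.Prime) (hr2 : r ≠ 2) (hn : 4 ≤ n) (he : Even n)
    (hgap : ¬ (n = 6 ∧ r = 3)) (ω : F) (hω : ω ^ r = 1) (hω1 : ω ≠ 1) :
    ∃ x : Matrix.SpecialLinearGroup (Fin n) F, (x : Matrix (Fin n) (Fin n) F) ^ r = 1 ∧
      (∀ z : F, (x : Matrix (Fin n) (Fin n) F) ≠ z • 1) ∧
      ∀ (B : LinearMap.BilinForm F (Fin n → F)) (μ : F), μ ≠ 0 → (∀ v, B v v = 0) →
        (∀ v, (∀ w, B v w = 0) → v = 0) →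
        (∀ u v, B ((x : Matrix (Fin n) (Fin n) F) *ᵥ u) ((x : Matrix (Fin n) (Fin n) F) *ᵥ v) = μ * B u v) →
        False := by
  classical
  have hω0 : ω ≠ 0 := fun h => by simp [h, zero_pow hr.ne_zero] at hω
  -- powers of ω below r are not one
  have hne : ∀ j, 0 < j → j < r → ω ^ j ≠ 1 := by
    intro j hj hjr h
    have := pow_gcd_eq_one.2 ⟨hω, h⟩
    rw [show Nat.gcd r j = 1 from hr.coprime_iff_not_dvd.2 fun hd => by
      have := Nat.le_of_dvd hj hd; omega, pow_one] at this
    exact hω1 this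
  let i₀ : Fin n := ⟨0, by omega⟩
  let i₁ : Fin n := ⟨1, by omega⟩
  let i₃ : Fin n := ⟨3, by omega⟩
  let d : Fin n → F := fun i =>
    if (i : ℕ) = 0 then (ω * ω)⁻¹ else if (i : ℕ) = 1 ∨ (i : ℕ) = 2 then ω else 1
  have hd0 : d i₀ = (ω * ω)⁻¹ := by simp [d, i₀]
  have hd1 : d i₁ = ω := by simp [d, i₁]
  have hd3 : d i₃ = 1 := by simp [d, i₃]
  have hdet : (Matrix.diagonal d).det = 1 := by
    rw [Matrix.det_diagonal]
    let e : Fin n → F := fun i => d i
    obtain ⟨m, rfl⟩ : ∃ m, n = m + 3 := ⟨n - 3, by omega⟩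
    have hrest : ∀ i : Fin m, d i.succ.succ.succ = 1 := fun i => by simp [d]
    rw [Fin.prod_univ_succ, Fin.prod_univ_succ, Fin.prod_univ_succ, Finset.prod_eq_one (fun i _ => hrest i)]
    simp only [d, Fin.val_zero, Fin.val_succ]
    norm_num
    field_simp
  refine ⟨⟨Matrix.diagonal d, hdet⟩, ?_, ?_, ?_⟩
  · show Matrix.diagonal d ^ r = 1
    rw [Matrix.diagonal_pow, show d ^ r = 1 from funext fun i => by
      simp only [Pi.pow_apply, d, Pi.one_apply]
      split_ifs <;> simp [hω, mul_pow, inv_pow], Matrix.diagonal_one']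
  · intro z hz
    have e1 := congrFun (congrFun hz i₁) i₁
    have e3 := congrFun (congrFun hz i₃) i₃
    simp [hd1, hd3] at e1 e3
    exact hω1 (e1.trans e3.symm)
  · intro B μ _ halt hnd hB
    change ∀ u v, B (Matrix.diagonal d *ᵥ u) (Matrix.diagonal d *ᵥ v) = μ * B u v at hB
    let e : Fin n → (Fin n → F) := fun i => Pi.single i 1
    have hkey : ∀ i j, B (e i) (e j) ≠ 0 → d i * d j = μ := by
      intro i j hij
      have := hB (e i) (e j)
      simp only [e, Matrix.diagonal_mulVec_single, mul_one] at this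
      rw [show (Pi.single i (d i) : Fin n → F) = d i • e i by simp [e, ← Pi.single_smul],
        show (Pi.single j (d j) : Fin n → F) = d j • e j by simp [e, ← Pi.single_smul]] at this
      simp only [map_smul, LinearMap.smul_apply, smul_eq_mul] at this
      exact mul_right_cancel₀ hij (by linear_combination this)
    have horth : ∀ u, (∀ j, B u (e j) = 0) → u = 0 := fun u hu => hnd u fun w => by
      rw [show w = ∑ j, w j • e j by funext a; simp [e, Pi.single_apply], map_sum]
      exact Finset.sum_eq_zero fun j _ => by rw [map_smul, hu, smul_zero]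
    have hpartner : ∀ i, ∃ j, j ≠ i ∧ B (e i) (e j) ≠ 0 := by
      intro i
      by_contra h
      push Not at h
      have : e i = 0 := horth _ fun j => by
        by_cases hj : j = i
        · rw [hj]; exact halt _
        · exact h j hj
      simpa [e] using congrFun this i
    obtain ⟨j₀, hj₀, hB₀⟩ := hpartner i₀
    obtain ⟨j₁, hj₁, hB₁⟩ := hpartner i₁
    obtain ⟨j₃, hj₃, hB₃⟩ := hpartner i₃
    have m0 := hkey _ _ hB₀
    have m1 := hkey _ _ hB₁
    have m3 := hkey _ _ hB₃
    rw [hd0] at m0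
    rw [hd1] at m1
    rw [hd3, one_mul] at m3
    have hj0 : (j₀ : ℕ) ≠ 0 := fun h => hj₀ (Fin.ext h)
    have hcases : ∀ j : Fin n, (d j = (ω * ω)⁻¹ ∧ (j : ℕ) = 0) ∨ d j = ω ∨ d j = 1 := fun j => by
      simp only [d]
      by_cases h0 : (j : ℕ) = 0
      · exact Or.inl ⟨by rw [if_pos h0], h0⟩
      · by_cases h12 : (j : ℕ) = 1 ∨ (j : ℕ) = 2
        · exact Or.inr (Or.inl (by rw [if_neg h0, if_pos h12]))
        · exact Or.inr (Or.inr (by rw [if_neg h0, if_neg h12]))
    have hm0 : μ = ω⁻¹ ∨ μ = (ω * ω)⁻¹ := by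
      rcases hcases j₀ with ⟨-, h⟩ | h | h
      · exact absurd h hj0
      · left; rw [← m0, h]; field_simp
      · right; rw [← m0, h, mul_one]
    rcases eq_or_ne r 3 with rfl | hr3
    · have h3 : (ω * ω)⁻¹ = ω := inv_eq_of_mul_eq_one_right (by rw [← hω]; ring)
      have hval : ∀ j : Fin n, d j = if (j : ℕ) < 3 then ω else 1 := fun j => by
        simp only [d, h3]
        split_ifs <;> first | rfl | omega
      have hsq : ω * ω ≠ ω := fun h => hω1 (mul_left_cancel₀ hω0 (h.trans (mul_one ω).symm))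
      have hsq1 : ω * ω ≠ 1 := fun h => hne 2 two_pos (by norm_num) (by rw [pow_two, h])
      have hμω : μ = ω := by
        rcases hm0 with h | h
        · exfalso
          have h' : μ = ω * ω := h.trans (inv_eq_of_mul_eq_one_right (by rw [← hω]; ring))
          rw [h', hval] at m3
          split_ifs at m3
          · exact hsq m3.symm
          · exact hsq1 m3.symm
        · rw [h, h3]
      have hzero : ∀ i j : Fin n, ((i : ℕ) < 3 ↔ (j : ℕ) < 3) → B (e i) (e j) = 0 := fun i j hij => by
        by_contra h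
        have := hkey _ _ h
        rw [hμω, hval, hval] at this
        by_cases hi : (i : ℕ) < 3
        · rw [if_pos hi, if_pos (hij.1 hi)] at this; exact hsq this
        · rw [if_neg hi, if_neg (fun h' => hi (hij.2 h')), one_mul] at this; exact hω1 this.symm
      -- kill by counting dimensions of the two classes
      have kill : ∀ T : Finset (Fin n), 2 * T.card < n →
          (∀ i j : Fin n, i ∉ T → j ∉ T → B (e i) (e j) = 0) → False := by
        intro T hT hTz
        let L : (Fin n → F) →ₗ[F] (↥T → F × F) :=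
          LinearMap.pi fun j => (B.flip (e j.1)).prod (LinearMap.proj j.1)
        obtain ⟨u, hu, hu0⟩ : ∃ u, L u = 0 ∧ u ≠ 0 := by
          have hne' : LinearMap.ker L ≠ ⊥ := LinearMap.ker_ne_bot_of_finrank_lt (by
            rw [Module.finrank_pi_fintype]; simp; omega)
          obtain ⟨u, hu, hu0⟩ := (Submodule.ne_bot_iff _).1 hne'
          exact ⟨u, hu, hu0⟩
        have hu' : ∀ j, ∀ hj : j ∈ T, B u (e j) = 0 ∧ u j = 0 := fun j hj => by
          have := congrFun hu ⟨j, hj⟩
          simpa [L, Prod.ext_iff] using this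
        refine hu0 (horth u fun j => ?_)
        by_cases hj : j ∈ T
        · exact (hu' j hj).1
        · rw [show u = ∑ i, u i • e i by funext a; simp [e, Pi.single_apply], map_sum, LinearMap.sum_apply]
          refine Finset.sum_eq_zero fun i _ => ?_
          rw [map_smul, LinearMap.smul_apply]
          by_cases hi : i ∈ T
          · rw [(hu' i hi).2, zero_smul]
          · rw [hTz i j hi hj, smul_zero]
      obtain ⟨half, hhalf⟩ := he
      have hcard3 : (Finset.univ.filter fun i : Fin n => (i : ℕ) < 3).card = 3 :=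
        Fin.card_filter_val_lt.trans (by omega)
      by_cases h4 : n = 4
      · refine kill (Finset.univ.filter fun i : Fin n => ¬ (i : ℕ) < 3) ?_ fun i j hi hj => hzero i j ?_
        · rw [Finset.filter_not, Finset.card_sdiff_of_subset (Finset.filter_subset _ _), hcard3]; simp; omega
        · simp at hi hj; simp [hi, hj]
      · refine kill (Finset.univ.filter fun i : Fin n => (i : ℕ) < 3) ?_ fun i j hi hj => hzero i j ?_
        · rw [hcard3]; omega
        · simp at hi hj; omega
    · have hr5 : 5 ≤ r := by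
        have := hr.two_le
        rcases (show r = 4 ∨ 5 ≤ r by omega) with h | h
        · rw [h] at hr; norm_num at hr
        · exact h
      have n1 : ω * ω ≠ 1 := by have := hne 2 two_pos (by omega); rwa [pow_two] at this
      have n3 : ω * ω * ω ≠ 1 := by have := hne 3 (by norm_num) (by omega); simpa [pow_succ] using this
      have n4 : ω * ω * ω * ω ≠ 1 := by have := hne 4 (by norm_num) (by omega); simpa [pow_succ] using this
      rcases hm0 with h | h
      · rw [h] at m3
        rcases hcases j₃ with ⟨h', -⟩ | h' | h' <;> rw [h'] at m3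
        · field_simp at m3
          exact hω1 m3.symm
        · field_simp at m3
          exact n1 (by rw [← pow_two]; exact m3)
        · field_simp at m3
          exact hω1 m3
      · rw [h] at m1
        rcases hcases j₁ with ⟨h', -⟩ | h' | h' <;> rw [h'] at m1
        · field_simp at m1
          exact hω1 m1
        · field_simp at m1
          exact n4 (by linear_combination m1)
        · field_simp at m1
          exact n3 (by linear_combination m1)

/-- The derangement for odd `e = ord_r q > 1`. -/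
theorem exists_block [Fintype F] {r n e : ℕ} [Fact r.Prime] (he1 : 1 < e) (hen : e ≤ n) (heodd : Odd e)
    (hord : orderOf (Fintype.card F : ZMod r) = e) :
    ∃ x : Matrix.SpecialLinearGroup (Fin n) F, (x : Matrix (Fin n) (Fin n) F) ^ r = 1 ∧
      (∀ z : F, (x : Matrix (Fin n) (Fin n) F) ≠ z • 1) ∧
      ∀ (B : LinearMap.BilinForm F (Fin n → F)) (μ : F), μ ≠ 0 → (∀ v, B v v = 0) →
        (∀ v, (∀ w, B v w = 0) → v = 0) →
        (∀ u v, B ((x : Matrix (Fin n) (Fin n) F) *ᵥ u) ((x : Matrix (Fin n) (Fin n) F) *ᵥ v) = μ * B u v) →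
        False := by
  classical
  haveI : NeZero e := ⟨by omega⟩
  haveI : NeZero n := ⟨by omega⟩
  set q := Fintype.card F with hq
  have hq0 : (q : ZMod r) ≠ 0 := fun h => by
    rw [h] at hord
    have : orderOf (0 : ZMod r) = 0 := orderOf_eq_zero_iff'.2 fun j hj => by simp [zero_pow hj.ne']
    omega
  have hroot : ∀ u : F, u ^ r = 1 → u = 1 := by
    intro u hu
    have hu0 : u ≠ 0 := fun h => by simp [h, zero_pow (Fact.out : r.Prime).ne_zero] at hu
    have hgcd : Nat.gcd r (q - 1) = 1 := by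
      refine (Fact.out : r.Prime).coprime_iff_not_dvd.2 fun hdv => ?_
      rw [← ZMod.natCast_eq_zero_iff, Nat.cast_sub Fintype.card_pos, Nat.cast_one, sub_eq_zero] at hdv
      rw [hdv, orderOf_one] at hord
      omega
    have := pow_gcd_eq_one.2 ⟨hu, FiniteField.pow_card_sub_one_eq_one u hu0⟩
    rwa [hgcd, pow_one] at this
  have hre : r ∣ q ^ e - 1 := by
    rw [← ZMod.natCast_eq_zero_iff, Nat.cast_sub (Nat.one_le_pow _ _ Fintype.card_pos), Nat.cast_pow, ← hord,
      pow_orderOf_eq_one, Nat.cast_one, sub_self]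
  obtain ⟨A, hA⟩ : ∃ A : GL (Fin e) F, orderOf A = r := by
    refine exists_prime_orderOf_dvd_card' r ?_
    rw [Matrix.card_GL_field]
    refine hre.trans ?_
    have := Finset.dvd_prod_of_mem (fun i : Fin e => q ^ e - q ^ (i : ℕ)) (Finset.mem_univ (0 : Fin e))
    simpa using this
  set Am : Matrix (Fin e) (Fin e) F := (A : Matrix (Fin e) (Fin e) F) with hAm
  have hAr : Am ^ r = 1 := by rw [hAm, ← Units.val_pow_eq_pow_val, ← hA, pow_orderOf_eq_one, Units.val_one]
  have hAdet : Am.det = 1 := hroot _ (by rw [← Matrix.det_pow, hAr, Matrix.det_one])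
  -- no fixed vector
  have hfree : ∀ v, Am *ᵥ v = v → v = 0 := by
    let K : Submodule F (Fin e → F) := LinearMap.ker (Matrix.toLin' Am - LinearMap.id)
    have hK : ∀ v, v ∈ K ↔ Am *ᵥ v = v := fun v => by simp [K, sub_eq_zero]
    let σ : Equiv.Perm (Fin e → F) :=
      { toFun := fun w => Am *ᵥ w
        invFun := fun w => ((A⁻¹ : GL (Fin e) F) : Matrix (Fin e) (Fin e) F) *ᵥ w
        left_inv := fun w => by
          simp only [Matrix.mulVec_mulVec, hAm, ← Units.val_mul, inv_mul_cancel, Units.val_one, Matrix.one_mulVec]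
        right_inv := fun w => by
          simp only [Matrix.mulVec_mulVec, hAm, ← Units.val_mul, mul_inv_cancel, Units.val_one, Matrix.one_mulVec] }
    have hσ : ∀ (i : ℕ) w, (σ ^ i) w = Am ^ i *ᵥ w := by
      intro i
      induction i with
      | zero => intro w; simp
      | succ i ih =>
        intro w
        rw [pow_succ', Equiv.Perm.mul_apply, pow_succ', ← Matrix.mulVec_mulVec, ← ih w]
        rfl
    have hσr : σ ^ r ^ 1 = 1 := Equiv.ext fun w => by rw [pow_one, hσ, hAr, Matrix.one_mulVec]; rfl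
    have hmod := Equiv.Perm.card_compl_support_modEq hσr
    have hfix : σ.supportᶜ.card = Nat.card K := by
      rw [← Nat.card_eq_finsetCard]
      exact Nat.card_congr (Equiv.subtypeEquivRight fun w => by
        rw [Finset.mem_compl, Equiv.Perm.notMem_support, hK]; rfl)
    have c1 : Fintype.card K = q ^ Module.finrank F K := Module.card_eq_pow_finrank
    have c2 : Fintype.card (Fin e → F) = q ^ e := by simp [hq]
    have hqe : (q : ZMod r) ^ e = 1 := hord ▸ pow_orderOf_eq_one _
    rw [hfix, Nat.card_eq_fintype_card, c1, c2, ← ZMod.natCast_eq_natCast_iff, Nat.cast_pow, Nat.cast_pow,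
      hqe] at hmod
    have hdvd := orderOf_dvd_of_pow_eq_one hmod
    rw [hord] at hdvd
    have hlt : Module.finrank F K < e := by
      have hne : K ≠ ⊤ := fun h => by
        have : A = 1 := Units.ext (Matrix.toLin'.injective (LinearMap.ext fun v => by
          simpa [hAm] using (hK v).1 (h ▸ Submodule.mem_top)))
        rw [this, orderOf_one] at hA
        exact (Fact.out : r.Prime).one_lt.ne hA
      have := Submodule.finrank_lt hne
      rwa [Module.finrank_fin_fun] at this
    have h0 := Nat.eq_zero_of_dvd_of_lt hdvd hlt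
    rw [Submodule.finrank_eq_zero] at h0
    intro v hv
    have := (hK v).2 hv
    rw [h0] at this
    simpa using this
  let ev : Fin e ⊕ Fin (n - e) ≃ Fin n := finSumFinEquiv.trans (finCongr (by omega))
  let X : Matrix (Fin n) (Fin n) F := Matrix.reindexAlgEquiv F F ev (Matrix.fromBlocks Am 0 0 1)
  have hdet : X.det = 1 := by
    show (Matrix.reindex ev ev (Matrix.fromBlocks Am 0 0 1)).det = 1
    rw [Matrix.det_reindex_self, Matrix.det_fromBlocks_zero₁₂, Matrix.det_one, hAdet, mul_one]
  have hXr : X ^ r = 1 := by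
    rw [← map_pow]
    have : ∀ i : ℕ, Matrix.fromBlocks Am 0 0 (1 : Matrix (Fin (n - e)) (Fin (n - e)) F) ^ i =
        Matrix.fromBlocks (Am ^ i) 0 0 1 := fun i => by
      induction i with
      | zero => simp [Matrix.fromBlocks_one]
      | succ i ih => simp [pow_succ, ih, Matrix.fromBlocks_multiply]
    rw [this, hAr, Matrix.fromBlocks_one, map_one]
  refine ⟨⟨X, hdet⟩, hXr, ?_, ?_⟩
  · intro z hz
    change X = z • 1 at hz
    have h1 : Matrix.fromBlocks Am 0 0 (1 : Matrix (Fin (n - e)) (Fin (n - e)) F) = z • 1 :=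
      (Matrix.reindexAlgEquiv F F ev).injective (by rw [map_smul, map_one]; exact hz)
    have hAz : Am = z • 1 := by
      ext i j
      have := congrFun (congrFun h1 (.inl i)) (.inl j)
      simpa [Matrix.one_apply] using this
    have hz1 : z = 1 := hroot z (by
      have := hAr
      rw [hAz, smul_pow, one_pow] at this
      simpa using congrFun (congrFun this 0) 0)
    have : A = 1 := Units.ext (by rw [← hAm, hAz, hz1, one_smul, Units.val_one])
    rw [this, orderOf_one] at hA
    exact (Fact.out : r.Prime).one_lt.ne hA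
  · intro B μ hμ0 halt hnd hB
    change ∀ u v, B (X *ᵥ u) (X *ᵥ v) = μ * B u v at hB
    have hμ1 : μ = 1 := hroot μ (multiplier_pow B hnd X hB hXr)
    let ι : (Fin e → F) →ₗ[F] (Fin n → F) :=
      { toFun := fun u i => Sum.elim u (fun _ => 0) (ev.symm i)
        map_add' := fun u v => funext fun i => by cases h : ev.symm i <;> simp [h]
        map_smul' := fun c u => funext fun i => by cases h : ev.symm i <;> simp [h] }
    let π : (Fin n → F) →ₗ[F] (Fin e → F) := LinearMap.funLeft F F (fun a : Fin e => ev (Sum.inl a))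
    have hι : Function.Injective ι := fun u v h => funext fun i => by
      simpa [ι] using congrFun h (ev (.inl i))
    have hM : ∀ v, X *ᵥ v - v = ι (Am *ᵥ π v - π v) := by
      intro v
      funext i
      obtain ⟨i, rfl⟩ := ev.surjective i
      rcases i with a | a <;>
        simp [X, ι, π, Matrix.mulVec, dotProduct, ← Equiv.sum_comp ev, Fintype.sum_sum_type, Matrix.one_apply]
    have hsurj : Function.Surjective ⇑(Matrix.toLin' Am - LinearMap.id : (Fin e → F) →ₗ[F] (Fin e → F)) :=
      LinearMap.injective_iff_surjective.1 (by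
        rw [injective_iff_map_eq_zero]
        intro v hv
        exact hfree v (by simpa [sub_eq_zero] using hv))
    set W := LinearMap.range ι with hW
    set K := LinearMap.ker π with hKdef
    have hfixK : ∀ k ∈ K, X *ᵥ k = k := fun k hk => by
      rw [← sub_eq_zero, hM, LinearMap.mem_ker.1 hk, Matrix.mulVec_zero, sub_zero, map_zero]
    have hπι : ∀ u, π (ι u) = u := fun u => funext fun i => by simp [π, ι]
    have horth : ∀ k ∈ K, ∀ u, B (ι u) k = 0 := by
      intro k hk u
      obtain ⟨w, rfl⟩ := hsurj u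
      have h1 : ι ((Matrix.toLin' Am - LinearMap.id : (Fin e → F) →ₗ[F] (Fin e → F)) w) = X *ᵥ ι w - ι w := by
        rw [hM, hπι]; rfl
      rw [h1, map_sub, LinearMap.sub_apply, sub_eq_zero]
      conv_lhs => rw [← hfixK k hk]
      rw [hB, hμ1, one_mul]
    have heven := CfsgLib.Omega.even_finrank_of_alternating (B.compl₁₂ ι ι) (fun v => halt _) (fun v hv => by
      have : ι v = 0 := hnd _ fun w => by
        have hdec : w = ι (π w) + (w - ι (π w)) := by abel
        rw [hdec, map_add, horth (w - ι (π w)) (LinearMap.mem_ker.2 (by rw [map_sub, hπι, sub_self])) v, add_zero]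
        exact hv (π w)
      exact hι (this.trans (map_zero ι).symm))
    rw [Module.finrank_fin_fun] at heven
    exact Nat.not_even_iff_odd.2 heodd heven

theorem prod_range_pow_sub [Fintype F] (n : ℕ) :
    ∏ i : Fin n, (Fintype.card F ^ n - Fintype.card F ^ (i : ℕ)) =
      (∏ i ∈ Finset.range n, Fintype.card F ^ i) * ∏ i ∈ Finset.range n, (Fintype.card F ^ (i + 1) - 1) := by
  rw [Fin.prod_univ_eq_prod_range (fun i => Fintype.card F ^ n - Fintype.card F ^ i),
    ← Finset.prod_range_reflect (fun i => Fintype.card F ^ (i + 1) - 1), ← Finset.prod_mul_distrib]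
  refine Finset.prod_congr rfl fun i hi => ?_
  rw [Finset.mem_range] at hi
  rw [Nat.mul_sub, mul_one, ← pow_add]
  congr 2
  omega

theorem prod_range_two_mul (g : ℕ → ℕ) : ∀ m : ℕ, ∏ i ∈ Finset.range (2 * m), g (i + 1) =
    (∏ i ∈ Finset.range m, g (2 * (i + 1))) * ∏ i ∈ Finset.range m, g (2 * i + 1)
  | 0 => by simp
  | m + 1 => by
    rw [show 2 * (m + 1) = 2 * m + 1 + 1 from rfl, Finset.prod_range_succ, Finset.prod_range_succ,
      prod_range_two_mul g m, Finset.prod_range_succ, Finset.prod_range_succ]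
    ring_nf

/-- A prime with even order of `q` does not divide the index of the similarity group. -/
theorem not_dvd_index [Fintype F] {n r : ℕ} (hn : 4 ≤ n) (he : Even n) (f : (Fin n → F) → (Fin n → F) → F)
    (hf : Cfsg.Geo.IsSymplecticForm f) [Fact r.Prime] (hr2 : r ≠ 2)
    (hev : Even (orderOf (Fintype.card F : ZMod r))) (hq0 : (Fintype.card F : ZMod r) ≠ 0) :
    ¬ r ∣ ((Cfsg.Geo.similarityGroup f).comap (Matrix.SpecialLinearGroup.toGL :
      Matrix.SpecialLinearGroup (Fin n) F →* GL (Fin n) F)).index := by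
  classical
  set H := (Cfsg.Geo.similarityGroup f).comap (Matrix.SpecialLinearGroup.toGL :
    Matrix.SpecialLinearGroup (Fin n) F →* GL (Fin n) F) with hH
  let B : LinearMap.BilinForm F (Fin n → F) := LinearMap.mk₂ F f hf.bilinear.add_left
    (fun c u v => hf.bilinear.smul_left c u v) (fun u v v' => hf.bilinear.add_right u v v')
    (fun c u v => hf.bilinear.smul_right c u v)
  obtain ⟨α, _, _, w₀, π, hw⟩ := CfsgLib.Omega.exists_adapted_basis (B := B) (f := LinearMap.id) (z := 1)
    (fun v => hf.alternating v) (fun v hv => by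
      by_contra h0
      obtain ⟨y, hy⟩ := (hf.nondegenerate v h0).2
      exact hy (hv y)) (fun _ _ => rfl) (fun w => by simp)
  set m := Fintype.card α with hm
  have hnm : n = 2 * m := by
    have h1 := Module.finrank_eq_card_basis w₀
    simp at h1
    omega
  -- a basis indexed by two halves
  let εq : α × Fin 2 ≃ Fin m ⊕ Fin m :=
    { toFun := fun p => if p.2 = 0 then .inr (Fintype.equivFin α p.1) else .inl (Fintype.equivFin α p.1)
      invFun := Sum.elim (fun i => ((Fintype.equivFin α).symm i, 1)) (fun i => ((Fintype.equivFin α).symm i, 0))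
      left_inv := by rintro ⟨k, s⟩; fin_cases s <;> simp
      right_inv := by rintro (i | i) <;> simp }
  let w := w₀.reindex εq
  let E : (Fin m ⊕ Fin m → F) ≃ₗ[F] (Fin n → F) := (Pi.basisFun F _).equiv w (Equiv.refl _)
  have hskew : ∀ u v, B u v = -B v u := CfsgLib.Omega.alt_skew (fun v => hf.alternating v)
  have hE : ∀ i, E (Pi.single i 1) = w i := fun i => by simp [E, ← Pi.basisFun_apply]
  have hform : B.compl₁₂ E.toLinearMap E.toLinearMap = CfsgLib.Omega.sympBilin m F ∨
      B.compl₁₂ E.toLinearMap E.toLinearMap = -CfsgLib.Omega.sympBilin m F := by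
    have hiso : ∀ i j s, B (w₀ (i, s)) (w₀ (j, s)) = 0 := fun i j s => hw.isotropic _ _ s
    have hpair : ∀ i j, B (w₀ (i, 0)) (w₀ (j, 1)) = if i = j then 1 else 0 := fun i j => hw.pairing i j
    have hrev : ∀ i j, B (w₀ (i, 1)) (w₀ (j, 0)) = -(if j = i then 1 else 0) := fun i j => by
      rw [hskew, hpair]
    first
      | (left
         refine LinearMap.BilinForm.ext_basis (Pi.basisFun F _) fun i j => ?_
         rcases i with i | i <;> rcases j with j | j <;>
           simp [hE, w, εq, hiso, hpair, hrev, CfsgLib.Omega.sympBilin_apply,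
             CfsgLib.Omega.sympForm_eq_sum, Pi.single_apply, eq_comm]
         done)
      | (right
         refine LinearMap.BilinForm.ext_basis (Pi.basisFun F _) fun i j => ?_
         rcases i with i | i <;> rcases j with j | j <;>
           simp [hE, w, εq, hiso, hpair, hrev, CfsgLib.Omega.sympBilin_apply,
             CfsgLib.Omega.sympForm_eq_sum, Pi.single_apply, eq_comm])
  obtain ⟨φ, hφ⟩ : ∃ φ : Matrix (Fin m ⊕ Fin m) (Fin m ⊕ Fin m) F →* Matrix (Fin n) (Fin n) F,
      ∀ A, φ A = LinearMap.toMatrix' (E.toLinearMap ∘ₗ Matrix.toLin' A ∘ₗ E.symm.toLinearMap) := by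
    refine ⟨{ toFun := fun A => LinearMap.toMatrix' (E.toLinearMap ∘ₗ Matrix.toLin' A ∘ₗ E.symm.toLinearMap),
              map_one' := ?_, map_mul' := ?_ }, fun A => rfl⟩
    · rw [Matrix.toLin'_one, LinearMap.id_comp,
        show E.toLinearMap ∘ₗ E.symm.toLinearMap = LinearMap.id from LinearMap.ext fun v => by simp,
        LinearMap.toMatrix'_id]
    · intro A B
      rw [← LinearMap.toMatrix'_comp, Matrix.toLin'_mul]
      congr 1
      exact LinearMap.ext fun v => by simp
  let φu : Matrix.symplecticGroup (Fin m) F →* GL (Fin n) F :=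
    (φ.comp (Submonoid.subtype _)).toHomUnits
  have hφdet : ∀ g : Matrix.symplecticGroup (Fin m) F,
      Matrix.GeneralLinearGroup.det (φu g) ^ 2 = 1 := by
    intro g
    have hd : (φ (g : Matrix (Fin m ⊕ Fin m) (Fin m ⊕ Fin m) F)).det = (g : Matrix (Fin m ⊕ Fin m) (Fin m ⊕ Fin m) F).det := by
      rw [hφ, LinearMap.det_toMatrix', ← LinearMap.det_toLin' (g : Matrix (Fin m ⊕ Fin m) (Fin m ⊕ Fin m) F)]
      exact LinearMap.det_conj _ E
    apply Units.ext
    rw [Units.val_pow_eq_pow_val, Units.val_one, Matrix.GeneralLinearGroup.val_det_apply]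
    show (φ (g : Matrix (Fin m ⊕ Fin m) (Fin m ⊕ Fin m) F)).det ^ 2 = 1
    rw [hd]
    have h := congrArg Matrix.det (SymplecticGroup.mem_iff.1 g.2)
    rw [Matrix.det_mul, Matrix.det_mul, Matrix.det_transpose] at h
    have hJ : (Matrix.J (Fin m) F).det ≠ 0 := (Matrix.isUnit_det_J (Fin m) F).ne_zero
    exact mul_right_cancel₀ hJ (by linear_combination h)
  have hφmem : ∀ g, φu g ∈ Cfsg.Geo.similarityGroup f := by
    intro g
    have happ : ∀ u, (φ (g : Matrix (Fin m ⊕ Fin m) (Fin m ⊕ Fin m) F)) *ᵥ E u =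
        E ((g : Matrix (Fin m ⊕ Fin m) (Fin m ⊕ Fin m) F) *ᵥ u) := fun u => by
      rw [← Matrix.toLin'_apply, hφ, Matrix.toLin'_toMatrix']
      simp
    refine ⟨1, fun u v => ?_⟩
    obtain ⟨a, rfl⟩ := E.surjective u
    obtain ⟨b, rfl⟩ := E.surjective v
    show B ((φ (g : Matrix (Fin m ⊕ Fin m) (Fin m ⊕ Fin m) F)) *ᵥ E a)
      ((φ (g : Matrix (Fin m ⊕ Fin m) (Fin m ⊕ Fin m) F)) *ᵥ E b) = ((1 : Fˣ) : F) * B (E a) (E b)
    rw [happ, happ, Units.val_one, one_mul]
    have hg := CfsgLib.Omega.sympForm_mulVec_of_mem g.2 a b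
    rcases hform with h | h
    · have h1 := LinearMap.congr_fun₂ h
      simp only [LinearMap.compl₁₂_apply, CfsgLib.Omega.sympBilin_apply] at h1
      rw [← LinearEquiv.coe_coe, h1, h1, hg]
    · have h1 := LinearMap.congr_fun₂ h
      simp only [LinearMap.compl₁₂_apply, LinearMap.neg_apply, CfsgLib.Omega.sympBilin_apply] at h1
      rw [← LinearEquiv.coe_coe, h1, h1, hg]
  have hφinj : Function.Injective φu := fun a b h => by
    refine Subtype.ext (Matrix.toLin'.injective (LinearMap.ext fun v => E.injective ?_))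
    have h1 : φ (a : Matrix (Fin m ⊕ Fin m) (Fin m ⊕ Fin m) F) = φ (b : Matrix (Fin m ⊕ Fin m) (Fin m ⊕ Fin m) F) :=
      congrArg Units.val h
    rw [hφ, hφ] at h1
    have := LinearMap.congr_fun (LinearMap.toMatrix'.injective h1) (E v)
    simpa using this
  set δ : Matrix.symplecticGroup (Fin m) F →* Fˣ := Matrix.GeneralLinearGroup.det.comp φu with hδ
  let θ : δ.ker →* H :=
    { toFun := fun g => ⟨⟨((φu g.1 : GL (Fin n) F) : Matrix (Fin n) (Fin n) F), by
          have := congrArg Units.val (MonoidHom.mem_ker.1 g.2)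
          exact this⟩, by
          show Matrix.SpecialLinearGroup.toGL _ ∈ Cfsg.Geo.similarityGroup f
          convert hφmem g.1
          exact Units.ext rfl⟩
      map_one' := by ext : 2; simp
      map_mul' := fun a b => Subtype.ext (Subtype.ext (by simp; rfl)) }
  have hθ : Function.Injective θ := fun a b h =>
    Subtype.ext (hφinj (Units.ext (congrArg (fun z : H => ((z.1 : Matrix.SpecialLinearGroup (Fin n) F) :
      Matrix (Fin n) (Fin n) F)) h)))
  have hker : Nat.card δ.ker ∣ Nat.card H := Subgroup.card_dvd_of_injective θ hθ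
  have hrange : Nat.card δ.range ∣ 2 := by
    have hle : δ.range ≤ rootsOfUnity 2 F := by
      rintro _ ⟨g, rfl⟩
      exact (mem_rootsOfUnity _ _).2 (hφdet g)
    refine (Subgroup.card_dvd_of_le hle).trans ?_
    have h1 : Nat.card (rootsOfUnity 2 F) ≤ 2 := by
      exact card_rootsOfUnity F 2
    have h2 : 0 < Nat.card (rootsOfUnity 2 F) := Nat.card_pos
    interval_cases h3 : Nat.card (rootsOfUnity 2 F) <;> norm_num
  obtain ⟨t, ht⟩ : Nat.card (Matrix.symplecticGroup (Fin m) F) ∣ Nat.card H * 2 := by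
    rw [Subgroup.card_eq_card_quotient_mul_card_subgroup δ.ker,
      Nat.card_congr (QuotientGroup.quotientKerEquivRange δ).toEquiv, mul_comm]
    exact mul_dvd_mul hker hrange
  intro hdvd
  have hr : r.Prime := Fact.out
  set q := Fintype.card F with hq
  haveI : Nonempty (Fin n) := ⟨⟨0, by omega⟩⟩
  have hGL := CfsgLib.ClassicalLinear.card_SL (ι := Fin n) (F := F)
  rw [Fintype.card_fin, prod_range_pow_sub, ← Subgroup.card_mul_index H, ← hq] at hGL
  set R₁ := ∏ i ∈ Finset.range n, q ^ i with hR₁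
  set R₂ := ∏ i ∈ Finset.range m, (q ^ (2 * i + 1) - 1) with hR₂
  have hsp := CfsgLib.ClassicalLinear.card_sp (F := F) m
  rw [← hq] at hsp
  set S := Nat.card (Matrix.symplecticGroup (Fin m) F) with hS
  have hnR : ∏ i ∈ Finset.range n, (q ^ (i + 1) - 1) =
      (∏ i ∈ Finset.range m, (q ^ (2 * (i + 1)) - 1)) * R₂ := by
    rw [hnm, prod_range_two_mul (fun i => q ^ i - 1) m]
  rw [hnR] at hGL
  have hS0 : S ≠ 0 := Nat.card_pos.ne'
  have key : H.index * (t * (q - 1) * q ^ (m ^ 2)) = 2 * R₁ * R₂ := by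
    apply Nat.eq_of_mul_eq_mul_left (Nat.pos_of_ne_zero hS0)
    calc S * (H.index * (t * (q - 1) * q ^ (m ^ 2)))
        = (q - 1) * ((S * t) * H.index) * q ^ (m ^ 2) := by ring
      _ = (q - 1) * ((Nat.card H * 2) * H.index) * q ^ (m ^ 2) := by rw [ht]
      _ = 2 * ((q - 1) * (Nat.card H * H.index)) * q ^ (m ^ 2) := by ring
      _ = 2 * (R₁ * ((∏ i ∈ Finset.range m, (q ^ (2 * (i + 1)) - 1)) * R₂)) * q ^ (m ^ 2) := by rw [hGL]
      _ = S * (2 * R₁ * R₂) := by rw [hsp]; ring
  have hdiv : r ∣ 2 * R₁ * R₂ := key ▸ dvd_mul_of_dvd_left hdvd _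
  rcases (Nat.Prime.dvd_mul hr).1 hdiv with h | h
  · rcases (Nat.Prime.dvd_mul hr).1 h with h | h
    · exact hr2 ((Nat.prime_dvd_prime_iff_eq hr Nat.prime_two).1 h)
    · obtain ⟨i, -, hi⟩ := (hr.prime.dvd_finsetProd_iff _).1 h
      exact hq0 ((ZMod.natCast_eq_zero_iff _ _).2 (hr.dvd_of_dvd_pow hi))
  · obtain ⟨i, -, hi⟩ := (hr.prime.dvd_finsetProd_iff _).1 h
    rw [← ZMod.natCast_eq_zero_iff, Nat.cast_sub (Nat.one_le_pow _ _ Fintype.card_pos), Nat.cast_pow,
      Nat.cast_one, sub_eq_zero] at hi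
    have h1 := orderOf_dvd_of_pow_eq_one hi
    obtain ⟨c, hc⟩ := (even_iff_two_dvd.1 hev).trans h1
    omega

/-- Derangements of odd prime order of PSL_n(q) on the cosets of a symplectic-type subgroup. Here `T = PSL_n(F)` for a field `F` with `q` elements, `n ≥ 4` even, `f` is a nondegenerate alternating form on `F^n`, and `H` is the subgroup of matrices of determinant 1 preserving `f` up to a scalar — a maximal subgroup of type Sp_n(q); Ω is the set of `T`-conjugates of `H` (cosets of `H`), so an element of `T` of prime order `r` (a matrix `x` of determinant 1 with `x^r` scalar, `x` not scalar) fixes a point of Ω when some conjugate of `x` by a matrix of determinant 1 preserves `f` up to a scalar. For every odd prime `r` dividing the index of `H`, with `(n, r) ≠ (6, 3)`, there is an element of `T` of order `r` with no conjugate in `H`. (For `n = 6`, `r = 3` this can fail: when `(q − 1)_3 = 3` every element of order 3 is conjugate into `H`.) -/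
theorem result {F : Type*} [Field F] [Fintype F] {p : ℕ} [Fact p.Prime] [CharP F p] {q : ℕ} (hq : Fintype.card F = q)
    (n : ℕ) (hn : 4 ≤ n) (he : Even n) (f : (Fin n → F) → (Fin n → F) → F) (hf : Cfsg.Geo.IsSymplecticForm f)
    (r : ℕ) [Fact r.Prime] (hr2 : r ≠ 2) (hgap : ¬ (n = 6 ∧ r = 3)) (hΩ : r ∣ ((Cfsg.Geo.similarityGroup f).comap (Matrix.SpecialLinearGroup.toGL : Matrix.SpecialLinearGroup (Fin n) F →* GL (Fin n) F)).index) :
    ∃ x : Matrix.SpecialLinearGroup (Fin n) F,
      (∃ z : F, ((x ^ r : Matrix.SpecialLinearGroup (Fin n) F) : Matrix (Fin n) (Fin n) F) = z • (1 : Matrix (Fin n) (Fin n) F)) ∧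
      (∀ z : F, (x : Matrix (Fin n) (Fin n) F) ≠ z • (1 : Matrix (Fin n) (Fin n) F)) ∧
      ∀ P : Matrix.SpecialLinearGroup (Fin n) F, P⁻¹ * x * P ∉ ((Cfsg.Geo.similarityGroup f).comap (Matrix.SpecialLinearGroup.toGL : Matrix.SpecialLinearGroup (Fin n) F →* GL (Fin n) F)) := by
  classical
  subst hq
  have hr : r.Prime := Fact.out
  have hr3 : 3 ≤ r := by have := hr.two_le; omega
  suffices ∃ x : Matrix.SpecialLinearGroup (Fin n) F, (x : Matrix (Fin n) (Fin n) F) ^ r = 1 ∧
      (∀ z : F, (x : Matrix (Fin n) (Fin n) F) ≠ z • 1) ∧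
      ∀ (B : LinearMap.BilinForm F (Fin n → F)) (μ : F), μ ≠ 0 → (∀ v, B v v = 0) →
        (∀ v, (∀ w, B v w = 0) → v = 0) →
        (∀ u v, B ((x : Matrix (Fin n) (Fin n) F) *ᵥ u) ((x : Matrix (Fin n) (Fin n) F) *ᵥ v) = μ * B u v) →
        False by
    obtain ⟨x, h1, h2, h3⟩ := this
    exact ⟨x, ⟨1, by rw [Matrix.SpecialLinearGroup.coe_pow, h1, one_smul]⟩, h2, not_mem_of_no_form f hf x h3⟩
  by_cases hrp : r = p
  · subst hrp
    exact exists_unipotent hr3 (by omega)
  set q := Fintype.card F with hqd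
  have hq0 : (q : ZMod r) ≠ 0 := by
    obtain ⟨a, hp', ha⟩ := FiniteField.card F p
    rw [hqd, ha, Nat.cast_pow]
    refine pow_ne_zero _ fun h => hrp ?_
    rw [ZMod.natCast_eq_zero_iff] at h
    exact (Nat.prime_dvd_prime_iff_eq hr hp').1 h
  set e := orderOf (q : ZMod r) with he'
  rcases Nat.even_or_odd e with hev | hodd
  · exact absurd hΩ (not_dvd_index hn he f hf hr2 hev hq0)
  by_cases he1 : e = 1
  · obtain ⟨w, hw⟩ := exists_prime_orderOf_dvd_card' (G := Fˣ) r (by
      rw [Nat.card_eq_fintype_card, Fintype.card_units, ← ZMod.natCast_eq_zero_iff, Nat.cast_sub Fintype.card_pos,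
        ← hqd, orderOf_eq_one_iff.1 he1, Nat.cast_one, sub_self])
    refine exists_diagonal hr hr2 hn he hgap (w : F) ?_ ?_
    · rw [← Units.val_pow_eq_pow_val, ← hw, pow_orderOf_eq_one, Units.val_one]
    · intro h
      rw [Units.val_eq_one] at h
      rw [h, orderOf_one] at hw
      omega
  have hen : e ≤ n := by
    haveI : Nonempty (Fin n) := ⟨⟨0, by omega⟩⟩
    have h1 := hΩ.trans (Subgroup.index_dvd_card _)
    have hGL := CfsgLib.ClassicalLinear.card_SL (ι := Fin n) (F := F)
    rw [Fintype.card_fin, prod_range_pow_sub] at hGL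
    have h2 := dvd_mul_of_dvd_right h1 (Fintype.card F - 1)
    rw [hGL] at h2
    rcases (Nat.Prime.dvd_mul hr).1 h2 with h | h
    · obtain ⟨i, -, hi⟩ := (hr.prime.dvd_finsetProd_iff _).1 h
      exact absurd ((ZMod.natCast_eq_zero_iff _ _).2 (hr.dvd_of_dvd_pow hi)) hq0
    · obtain ⟨i, hin, hi⟩ := (hr.prime.dvd_finsetProd_iff _).1 h
      rw [← ZMod.natCast_eq_zero_iff, Nat.cast_sub (Nat.one_le_pow _ _ Fintype.card_pos), Nat.cast_pow,
        Nat.cast_one, sub_eq_zero] at hi
      have : e ≤ i + 1 := Nat.le_of_dvd (by omega) (orderOf_dvd_of_pow_eq_one hi)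
      rw [Finset.mem_range] at hin
      omega
  exact exists_block (e := e) (by obtain ⟨c, hc⟩ := hodd; omega) hen hodd rfl

end Cfsg.Agent.S5968
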