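import Cfsg.Statements.S5969
import Cfsg.Agent.Lib.Omega.SquareCases
import Cfsg.Agent.Lib.Omega.QuadraticField

set_option autoImplicit false
open scoped MatrixGroups Matrix
open Cfsg

namespace Cfsg.Agent.S5969

open CfsgLib.Omega

variable {F : Type*} [Field F]

/-- Outside the criterion some involution normalises no quadratic field. -/
theorem exists_bad {n : ℕ} (hn : 2 < n) {K : Subalgebra F (Matrix (Fin n) (Fin n) F)}
    (hK : Cfsg.Geo.IsFieldSubalgebra 2 K) {a : F} (ha : a ^ n = -1) :
    ∃ x : Matrix.SpecialLinearGroup (Fin n) F,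
      (∃ z : F, ((x ^ 2 : Matrix.SpecialLinearGroup (Fin n) F) : Matrix (Fin n) (Fin n) F) = z • (1 : Matrix (Fin n) (Fin n) F)) ∧
      (∀ z : F, (x : Matrix (Fin n) (Fin n) F) ≠ z • (1 : Matrix (Fin n) (Fin n) F)) ∧
      ∀ P : Matrix.SpecialLinearGroup (Fin n) F,
        P⁻¹ * x * P ∉ ((Cfsg.Geo.subalgebraNormalizer K).comap (Matrix.SpecialLinearGroup.toGL : Matrix.SpecialLinearGroup (Fin n) F →* GL (Fin n) F)) := by
  classical
  haveI : Nonempty (Fin n) := ⟨⟨0, by omega⟩⟩
  obtain ⟨θ, _, _, hθ, hns, -, -, -⟩ := exists_quadratic_generator hK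
  have ha0 : a ≠ 0 := by rintro rfl; simp [zero_pow (show n ≠ 0 by omega)] at ha
  let i₀ : Fin n := ⟨0, by omega⟩
  let i₁ : Fin n := ⟨1, by omega⟩
  have h01 : i₁ ≠ i₀ := by simp [i₁, i₀]
  let u : Fin n → F := (-2 : F) • Pi.single i₀ 1 + Pi.single i₁ 1
  let v : Fin n → F := Pi.single i₀ 1
  have huv : v ⬝ᵥ u = -2 := by simp [u, v, h01.symm]
  have hu : u ≠ 0 := fun h => by
    have := congrFun h i₁
    simp [u, h01] at this
  have hv : v ≠ 0 := fun h => by
    have := congrFun h i₀
    simp [v] at this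
  have hdet : (a • (1 + Matrix.vecMulVec u v)).det = 1 := by
    rw [Matrix.det_smul, Fintype.card_fin, Matrix.vecMulVec_eq Unit,
      Matrix.det_one_add_replicateCol_mul_replicateRow, huv, ha]
    ring
  let x : Matrix.SpecialLinearGroup (Fin n) F := ⟨a • (1 + Matrix.vecMulVec u v), hdet⟩
  refine ⟨x, ⟨a * a, ?_⟩, ?_, ?_⟩
  · rw [Matrix.SpecialLinearGroup.coe_pow, pow_two]
    show (a • (1 + Matrix.vecMulVec u v)) * (a • (1 + Matrix.vecMulVec u v)) = _
    rw [Matrix.smul_mul, Matrix.mul_smul, smul_smul]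
    congr 1
    rw [add_mul, mul_add, mul_add, Matrix.mul_one, Matrix.one_mul, Matrix.vecMulVec_mul_vecMulVec, huv]
    ext i j
    simp [Matrix.vecMulVec_apply]
    ring
  · intro z hz
    have := congrFun (congrFun hz i₁) i₀
    change (a • (1 + Matrix.vecMulVec u v)) i₁ i₀ = _ at this
    simp [Matrix.vecMulVec_apply, u, v, h01, ha0] at this
  · intro P hP
    set Pm : Matrix (Fin n) (Fin n) F := (P : Matrix (Fin n) (Fin n) F)
    set Pi' : Matrix (Fin n) (Fin n) F := ((P⁻¹ : Matrix.SpecialLinearGroup (Fin n) F) : Matrix (Fin n) (Fin n) F)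
    have h1 : Pi' * Pm = 1 := by
      rw [← Matrix.SpecialLinearGroup.coe_mul, inv_mul_cancel, Matrix.SpecialLinearGroup.coe_one]
    have h2 : Pm * Pi' = 1 := by
      rw [← Matrix.SpecialLinearGroup.coe_mul, mul_inv_cancel, Matrix.SpecialLinearGroup.coe_one]
    refine not_mem_normalizer_rank_one hn hK hθ hns _ ha0 (u := Pi' *ᵥ u) (v := v ᵥ* Pm) ?_ ?_ ?_ hP
    · intro h
      refine hu ?_
      rw [← Matrix.one_mulVec u, ← h2, ← Matrix.mulVec_mulVec, h, Matrix.mulVec_zero]
    · intro h
      refine hv ?_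
      rw [← Matrix.vecMul_one v, ← h2, ← Matrix.vecMul_vecMul, h, Matrix.zero_vecMul]
    · show ((P⁻¹ * x * P : Matrix.SpecialLinearGroup (Fin n) F) : Matrix (Fin n) (Fin n) F) = _
      rw [Matrix.SpecialLinearGroup.coe_mul, Matrix.SpecialLinearGroup.coe_mul]
      show Pi' * (a • (1 + Matrix.vecMulVec u v)) * Pm = _
      rw [Matrix.mul_smul, Matrix.smul_mul, mul_add, add_mul, Matrix.mul_one, h1, Matrix.mul_vecMulVec,
        Matrix.vecMulVec_mul]

/-- A square root of a scalar whose sign vector fits the planes of a quadratic field. -/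
theorem exists_conj_split [Fintype F] {n : ℕ} [NeZero n] {K : Subalgebra F (Matrix (Fin n) (Fin n) F)}
    {θ : Matrix (Fin n) (Fin n) F} (hθ : θ ∈ K) (hspan : ∀ k ∈ K, ∃ c d : F, k = c • 1 + d • θ)
    {t : F} (ht : θ * θ = t • 1) {α : Type} (w : Module.Basis (α × Fin 2) F (Fin n → F))
    (hw0 : ∀ k, θ *ᵥ w (k, 0) = w (k, 1))
    (x : GL (Fin n) F) (b : Module.Basis (Fin n) F (Fin n → F)) (d : Fin n → F)
    (hb : ∀ i, (x : Matrix (Fin n) (Fin n) F) *ᵥ b i = d i • b i)
    (e : α × Fin 2 ≃ Fin n) {ε : F} (hε : ε * ε = 1) (hd : ∀ k, d (e (k, 1)) = ε * d (e (k, 0))) :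
    ∃ g ∈ Cfsg.Geo.specialLinear (Fin n) F, g⁻¹ * x * g ∈ Cfsg.Geo.subalgebraNormalizer K := by
  classical
  obtain ⟨g, hg, hgw⟩ := exists_sl_conj_onto x b (w.reindex e) d hb
  refine ⟨g, hg, ?_⟩
  set Y : Matrix (Fin n) (Fin n) F := ((g⁻¹ * x * g : GL (Fin n) F) : Matrix (Fin n) (Fin n) F) with hY
  have hYw : ∀ p, Y *ᵥ w p = d (e p) • w p := fun p => by simpa using hgw (e p)
  have hε0 : ε ≠ 0 := by rintro rfl; simp at hε
  have hw1 : ∀ k, θ *ᵥ w (k, 1) = t • w (k, 0) := fun k => by
    rw [← hw0, Matrix.mulVec_mulVec, ht, Matrix.smul_mulVec, Matrix.one_mulVec]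
  refine mem_normalizer_of_generator hθ hspan _ (c := 0) (d := ε) hε0 ?_
  rw [zero_smul, zero_add, ← hY]
  refine Matrix.toLin'.injective (w.ext fun ⟨k, s⟩ => ?_)
  simp only [Matrix.toLin'_apply, ← Matrix.mulVec_mulVec, Matrix.smul_mul, Matrix.smul_mulVec]
  fin_cases s
  · show Y *ᵥ θ *ᵥ w (k, 0) = ε • θ *ᵥ Y *ᵥ w (k, 0)
    rw [hw0, hYw, hYw, Matrix.mulVec_smul, hw0, smul_smul, hd]
  · show Y *ᵥ θ *ᵥ w (k, 1) = ε • θ *ᵥ Y *ᵥ w (k, 1)
    rw [hw1, Matrix.mulVec_smul, hYw, hYw, Matrix.mulVec_smul, hw1, hd]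
    simp only [smul_smul]
    congr 1
    linear_combination (-(t * d (e (k, 0)))) * hε

/-- Involutions of PSL_n(q) and extension-field subgroups of degree 2. Here `T = PSL_n(F)` for a field `F` with `q = p^f` elements (`n ≥ 2`, `(n, q) ≠ (2, 2), (2, 3)`), `k` is a prime dividing `n`, `K` is a subalgebra of the `n × n` matrices that is a field of degree `k` over `F` (an extension-field structure F_{q^k} on `F^n`), and `H` is the subgroup of matrices of determinant 1 normalizing `K` — a subgroup of type GL_{n/k}(q^k) (maximal except in some small cases; maximality is not assumed); Ω is the set of cosets of `H` in `T`, so an element of `T` of prime order `r` (a matrix `x` of determinant 1 with `x^r` scalar, `x` not scalar) fixes a point of Ω when some conjugate of `x` by a matrix of determinant 1 normalizes `K`. Take `k = 2` and suppose the index of `H` is even. Then every involution of `T` is conjugate in `T` into `H` if and only if `n = 2`, or `q` is odd and `(q − 1)_2 ≤ (n)_2`. -/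
theorem result {F : Type*} [Field F] [Fintype F] {p : ℕ} [Fact p.Prime] [CharP F p] {q : ℕ} (hq : Fintype.card F = q)
    (n : ℕ) (hn : 2 ≤ n) (hT : (n, q) ≠ (2, 2) ∧ (n, q) ≠ (2, 3))
    (k : ℕ) (hk : k.Prime) (hkn : k ∣ n) (K : Subalgebra F (Matrix (Fin n) (Fin n) F)) (hK : Cfsg.Geo.IsFieldSubalgebra k K) (hk2 : k = 2) (hΩ : 2 ∣ ((Cfsg.Geo.subalgebraNormalizer K).comap (Matrix.SpecialLinearGroup.toGL : Matrix.SpecialLinearGroup (Fin n) F →* GL (Fin n) F)).index) :
    (∀ x : Matrix.SpecialLinearGroup (Fin n) F,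
      (∃ z : F, ((x ^ 2 : Matrix.SpecialLinearGroup (Fin n) F) : Matrix (Fin n) (Fin n) F) = z • (1 : Matrix (Fin n) (Fin n) F)) →
      (∀ z : F, (x : Matrix (Fin n) (Fin n) F) ≠ z • (1 : Matrix (Fin n) (Fin n) F)) →
      ∃ P : Matrix.SpecialLinearGroup (Fin n) F, P⁻¹ * x * P ∈ ((Cfsg.Geo.subalgebraNormalizer K).comap (Matrix.SpecialLinearGroup.toGL : Matrix.SpecialLinearGroup (Fin n) F →* GL (Fin n) F))) ↔
    (n = 2 ∨ (Odd q ∧ padicValNat 2 (q - 1) ≤ padicValNat 2 n)) := by
  classical
  haveI : NeZero n := ⟨by omega⟩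
  haveI : Nonempty (Fin n) := ⟨0⟩
  subst hk2
  have hchar : (2 : F) = 0 → ringChar F = 2 := fun h2 => by
    rw [ringChar.eq F p]
    have h3 : p ∣ 2 := (CharP.cast_eq_zero_iff F p 2).1 (by exact_mod_cast h2)
    exact (Nat.prime_dvd_prime_iff_eq Fact.out Nat.prime_two).1 h3
  have hparity : Odd q ↔ (2 : F) ≠ 0 := by
    rw [← hq, Nat.odd_iff]
    constructor
    · intro h h2
      have : ringChar F = 2 := hchar h2
      have := (FiniteField.even_card_iff_char_two (F := F)).1 this
      omega
    · intro h2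
      exact FiniteField.odd_card_of_char_ne_two fun h => h2 (by
        have := ringChar.Nat.cast_ringChar (R := F)
        rw [h] at this
        exact_mod_cast this)
  constructor
  · intro hall
    by_contra hcon
    push Not at hcon
    obtain ⟨hn2, hcon⟩ := hcon
    obtain ⟨a, ha⟩ : ∃ a : F, a ^ n = -1 := by
      by_cases h2 : (2 : F) = 0
      · exact ⟨1, by rw [one_pow]; linear_combination h2⟩
      · exact (exists_pow_eq_neg_one_iff hq h2 (by omega)).2 (hcon (hparity.2 h2))
    obtain ⟨x, hx1, hx2, hx3⟩ := exists_bad (n := n) (by omega) hK ha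
    obtain ⟨P, hP⟩ := hall x hx1 hx2
    exact hx3 P hP
  · rintro hcase x ⟨z, hz⟩ hns
    set X : Matrix (Fin n) (Fin n) F := (x : Matrix (Fin n) (Fin n) F) with hXdef
    set G := Matrix.SpecialLinearGroup.toGL (n := Fin n) (R := F) with hGdef
    have hGval : ((G x : GL (Fin n) F) : Matrix (Fin n) (Fin n) F) = X := rfl
    have hXX : X * X = z • 1 := by rw [← hz, Matrix.SpecialLinearGroup.coe_pow, pow_two]
    have hgx : ((G x : GL (Fin n) F) : Matrix (Fin n) (Fin n) F) * (G x : GL (Fin n) F) = z • 1 := hXX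
    have hz0 := ne_zero_of_square hgx
    suffices ∃ g ∈ Cfsg.Geo.specialLinear (Fin n) F, g⁻¹ * G x * g ∈ Cfsg.Geo.subalgebraNormalizer K by
      obtain ⟨g, hg, h⟩ := this
      let P : Matrix.SpecialLinearGroup (Fin n) F := ⟨(g : Matrix (Fin n) (Fin n) F),
        mem_specialLinear.1 hg⟩
      have hPg : G P = g := Units.ext rfl
      refine ⟨P, ?_⟩
      show G (P⁻¹ * x * P) ∈ Cfsg.Geo.subalgebraNormalizer K
      rwa [map_mul, map_mul, map_inv, hPg]
    obtain ⟨θ, a, b₀, hθ, hθns, hθθ, hspan, ha⟩ := exists_quadratic_generator hK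
    have hb₀ : b₀ ≠ 0 := by
      rintro rfl
      rw [zero_smul, add_zero] at hθθ
      have hθ0 : θ ≠ 0 := fun h => hθns 0 (by rw [zero_smul, h])
      have h : θ * (θ - a • 1) = 0 := by rw [mul_sub, hθθ, Matrix.mul_smul, Matrix.mul_one, sub_self]
      obtain ⟨y, hy, hθy⟩ := hK.inv θ hθ hθ0
      rw [hK.comm θ hθ y hy] at hθy
      have := congrArg (y * ·) h
      simp only [← Matrix.mul_assoc, hθy, Matrix.one_mul, Matrix.mul_zero] at this
      exact hθns a (sub_eq_zero.1 this)
    by_cases h2 : (2 : F) = 0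
    · -- characteristic two in dimension two
      have hn2 : n = 2 := hcase.resolve_right fun h => hparity.1 h.1 h2
      subst hn2
      obtain ⟨s, hs⟩ : IsSquare z := FiniteField.isSquare_of_char_two (hchar h2) z
      have hs0 : s ≠ 0 := fun h => hz0 (by rw [hs, h, mul_zero])
      have ha0 : a ≠ 0 := by
        intro ha0
        rw [ha0, zero_smul, zero_add] at hθθ
        obtain ⟨r, hr⟩ : IsSquare b₀ := FiniteField.isSquare_of_char_two (hchar h2) b₀
        have hm : θ - r • 1 ∈ K := sub_mem hθ (K.smul_mem (one_mem K) _)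
        obtain ⟨y, hy, hyy⟩ := hK.inv _ hm (sub_ne_zero.2 (hθns r))
        have h0 : (θ - r • 1) * (θ - r • 1) = 0 := by
          simp only [sub_mul, mul_sub, Matrix.smul_mul, Matrix.mul_smul, Matrix.one_mul, Matrix.mul_one, hθθ, hr]
          ext i j
          simp [smul_smul]
          linear_combination (-(r * θ i j)) * h2 + (r * r * (1 : Matrix (Fin 2) (Fin 2) F) i j) * h2
        have := congrArg (· * y) h0
        simp only [Matrix.mul_assoc, hyy, Matrix.mul_one, Matrix.zero_mul] at this
        exact hθns r (sub_eq_zero.1 this)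
      set N : Matrix (Fin 2) (Fin 2) F := s⁻¹ • X + 1 with hN
      have hNN : N * N = 0 := by
        simp only [hN, add_mul, mul_add, Matrix.smul_mul, Matrix.mul_smul, Matrix.one_mul, Matrix.mul_one, hXX, hs]
        ext i j
        simp [smul_smul]
        field_simp
        linear_combination (X i j + s * (1 : Matrix (Fin 2) (Fin 2) F) i j) * h2
      obtain ⟨v, hv⟩ : ∃ v, N *ᵥ v ≠ 0 := by
        by_contra h
        push Not at h
        refine hns (-s) ?_
        have hN0 : N = 0 := Matrix.toLin'.injective (LinearMap.ext fun v => by simpa using h v)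
        rw [hN, add_eq_zero_iff_eq_neg] at hN0
        have := congrArg (fun M => s • M) hN0
        simpa [smul_smul, mul_inv_cancel₀ hs0] using this
      have hliu : LinearIndependent F ![a⁻¹ • N *ᵥ v, v] := by
        refine LinearIndependent.pair_iff.2 fun c d hcd => ?_
        have h := congrArg (N *ᵥ ·) hcd
        simp only [Matrix.mulVec_add, Matrix.mulVec_smul, Matrix.mulVec_mulVec, hNN, Matrix.zero_mulVec,
          smul_zero, zero_add, Matrix.mulVec_zero] at h
        have hd : d = 0 := (smul_eq_zero.1 h).resolve_right hv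
        rw [hd, zero_smul, add_zero, smul_smul, smul_eq_zero] at hcd
        exact ⟨(mul_eq_zero.1 (hcd.resolve_right hv)).resolve_right (inv_ne_zero ha0), hd⟩
      obtain ⟨w₀, hw₀⟩ : ∃ w : Fin 2 → F, w ≠ 0 := exists_ne 0
      have hliw : LinearIndependent F ![w₀, θ *ᵥ w₀] :=
        (LinearIndependent.pair_iff' hw₀).2 fun c h => hw₀ (eq_zero_of_field_eigen hK hθ hθns h.symm)
      let U := basisOfLinearIndependentOfCardEqFinrank hliu (by simp)
      let W := basisOfLinearIndependentOfCardEqFinrank hliw (by simp)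
      obtain ⟨g₀, hg₀⟩ := exists_gl_of_bases U W
      have hX : ∀ w, X *ᵥ w = s • N *ᵥ w + s • w := fun w => by
        have hXN : X = s • N + s • 1 := by
          rw [hN, smul_add, smul_smul, mul_inv_cancel₀ hs0, one_smul]
          ext i j
          simp
          linear_combination (-(s * (1 : Matrix (Fin 2) (Fin 2) F) i j)) * h2
        conv_lhs => rw [hXN]
        rw [Matrix.add_mulVec, Matrix.smul_mulVec, Matrix.smul_mulVec, Matrix.one_mulVec]
      set y := g₀⁻¹ * G x * g₀ with hy
      set Y : Matrix (Fin 2) (Fin 2) F := (y : Matrix (Fin 2) (Fin 2) F) with hY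
      have hU0 : U 0 = a⁻¹ • N *ᵥ v := by simp [U]
      have hU1 : U 1 = v := by simp [U]
      have hW0 : W 0 = w₀ := by simp [W]
      have hW1 : W 1 = θ *ᵥ w₀ := by simp [W]
      have hY0 : Y *ᵥ W 0 = s • W 0 := conj_mulVec (G x) g₀ (hg₀ 0) (by
        rw [hGval, Matrix.mulVec_smul, hg₀, hU0, Matrix.mulVec_smul, hX, Matrix.mulVec_mulVec, hNN,
          Matrix.zero_mulVec, smul_zero, zero_add, smul_comm])
      have hY1 : Y *ᵥ W 1 = s • W 1 + (s * a) • W 0 := conj_mulVec (G x) g₀ (hg₀ 1) (by
        rw [hGval, Matrix.mulVec_add, Matrix.mulVec_smul, Matrix.mulVec_smul, hg₀, hg₀, hU0, hU1, hX,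
          smul_smul, mul_assoc, mul_inv_cancel₀ ha0, mul_one, add_comm])
      obtain ⟨g, hg, hgy⟩ := exists_sl_conj_of_square (g := g₀) hz0 hgx
      refine ⟨g, hg, ?_⟩
      rw [hgy]
      refine mem_normalizer_of_generator hθ hspan _ (c := a) (d := 1) one_ne_zero ?_
      rw [one_smul, ← hy, ← hY]
      have hθ0 : θ *ᵥ W 0 = W 1 := by rw [hW0, hW1]
      have hθ1 : θ *ᵥ W 1 = a • W 1 + b₀ • W 0 := by
        rw [← hθ0, Matrix.mulVec_mulVec, hθθ, Matrix.add_mulVec, Matrix.smul_mulVec, Matrix.smul_mulVec,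
          Matrix.one_mulVec]
      refine Matrix.toLin'.injective (W.ext fun i => ?_)
      simp only [Matrix.toLin'_apply, add_mul, Matrix.add_mulVec, ← Matrix.mulVec_mulVec, Matrix.smul_mulVec,
        Matrix.one_mulVec]
      fin_cases i
      · show Y *ᵥ θ *ᵥ W 0 = a • Y *ᵥ W 0 + θ *ᵥ Y *ᵥ W 0
        rw [hθ0, hY1, hY0, Matrix.mulVec_smul, hθ0, smul_smul, mul_comm a s, add_comm]
      · show Y *ᵥ θ *ᵥ W 1 = a • Y *ᵥ W 1 + θ *ᵥ Y *ᵥ W 1
        simp only [hθ1, hθ0, hY0, hY1, Matrix.mulVec_add, Matrix.mulVec_smul]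
        funext j
        simp
        linear_combination (-(a * s * W 1 j)) * h2
    · have ha0 : a = 0 := ha h2
      rw [ha0, zero_smul, zero_add] at hθθ
      have hnsq : ∀ c, c * c ≠ b₀ := fun c hc => by
        have hm : θ - c • 1 ∈ K := sub_mem hθ (K.smul_mem (one_mem K) _)
        obtain ⟨y, hy, hyy⟩ := hK.inv _ hm (sub_ne_zero.2 (hθns c))
        have h0 : (θ + c • 1) * (θ - c • 1) = 0 := by
          simp only [add_mul, mul_sub, Matrix.smul_mul, Matrix.mul_smul, Matrix.one_mul, Matrix.mul_one, hθθ,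
            smul_smul, hc]
          abel
        have := congrArg (· * y) h0
        simp only [Matrix.mul_assoc, hyy, Matrix.mul_one, Matrix.zero_mul] at this
        exact hθns (-c) (by rw [neg_smul]; exact eq_neg_of_add_eq_zero_left this)
      obtain ⟨α, β, _, _, _, _, w', c, hw0, -, hwl⟩ := exists_plane_form θ b₀ hb₀ hθθ
      haveI : IsEmpty β := ⟨fun l => hnsq (c l) (hwl l).2⟩
      let w := w'.reindex (Equiv.sumEmpty _ β)
      have hwθ : ∀ j, θ *ᵥ w (j, 0) = w (j, 1) := fun j => by simp [w, hw0]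
      have hcardα : Fintype.card α * 2 = n := by
        have := Module.finrank_eq_card_basis w
        simp at this
        omega
      by_cases hsq : ∃ s, z = s * s
      · obtain ⟨s, rfl⟩ := hsq
        have hs0 : s ≠ 0 := fun h => hz0 (by rw [h, mul_zero])
        obtain ⟨b, d, hd, hb, hprod⟩ := exists_eigen_square h2 X hs0 hXX
        have hdet1 : ∏ i, d i = 1 := by rw [hprod]; exact x.2
        let Q := {i : Fin n // d i = -s}
        let R := {i : Fin n // ¬ d i = -s}
        have hsum : Fintype.card Q + Fintype.card R = n := by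
          have := Fintype.card_congr (Equiv.sumCompl fun i => d i = -s)
          rw [Fintype.card_sum, Fintype.card_fin] at this
          exact this
        rcases Nat.even_or_odd (Fintype.card Q) with hQ | hQ
        · have hR : Even (Fintype.card R) := by
            have hev : Even n := even_iff_two_dvd.2 hkn
            rw [← hsum] at hev
            exact (Nat.even_add.1 hev).1 hQ
          obtain ⟨m₁, ⟨e₁⟩⟩ := exists_pairs Q hQ
          obtain ⟨m₂, ⟨e₂⟩⟩ := exists_pairs R hR
          have hm : Fintype.card α = Fintype.card (Fin m₁ ⊕ Fin m₂) := by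
            have h1 := Fintype.card_congr e₁
            have h2' := Fintype.card_congr e₂
            simp only [Fintype.card_prod, Fintype.card_fin] at h1 h2'
            simp only [Fintype.card_sum, Fintype.card_fin]
            omega
          let eα := Fintype.equivOfCardEq hm
          let e : α × Fin 2 ≃ Fin n :=
            (eα.prodCongr (Equiv.refl _)).trans
              (((Equiv.sumProdDistrib _ _ _).trans (Equiv.sumCongr e₁ e₂)).trans (Equiv.sumCompl _))
          have hl : ∀ i : Q, (Equiv.sumCompl fun i => d i = -s) (Sum.inl i) = i.1 := fun i => rfl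
          have hr : ∀ i : R, (Equiv.sumCompl fun i => d i = -s) (Sum.inr i) = i.1 := fun i => rfl
          refine exists_conj_split hθ hspan hθθ w hwθ (G x) b d hb e (mul_one 1) fun j => ?_
          obtain ⟨j, rfl⟩ := eα.symm.surjective j
          rcases j with j | j
          · simp [e, hl, (e₁ _).2]
          · simp [e, hr, (hd _).resolve_right (e₂ _).2]
        · -- an odd number of negative eigenvalues forces dimension two
          have hpow : s ^ n = -1 := by
            have hsplit : ∏ i, d i = (-s) ^ Fintype.card Q * s ^ Fintype.card R := by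
              rw [← Fintype.prod_subtype_mul_prod_subtype (fun i => d i = -s) d]
              congr 1
              · rw [Finset.prod_congr rfl (fun i _ => i.2), Finset.prod_const, Finset.card_univ]
              · rw [Finset.prod_congr rfl (fun i _ => (hd i.1).resolve_right i.2), Finset.prod_const,
                  Finset.card_univ]
            rw [hdet1, neg_pow, hQ.neg_one_pow, mul_assoc, ← pow_add, hsum] at hsplit
            linear_combination hsplit
          have hlt := (exists_pow_eq_neg_one_iff hq h2 (by omega)).1 ⟨s, hpow⟩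
          have hn2 : n = 2 := hcase.resolve_right fun h => by omega
          subst hn2
          have hα : Fintype.card α = Fintype.card Unit := by rw [Fintype.card_unit]; omega
          let e : α × Fin 2 ≃ Fin 2 :=
            ((Fintype.equivOfCardEq hα).prodCongr (Equiv.refl _)).trans (Equiv.punitProd _)
          have hd01 : d 1 = -d 0 := by
            have hQ1 : Fintype.card Q = 1 := by
              obtain ⟨j, hj⟩ := hQ
              omega
            rw [Fintype.card_subtype, Finset.card_filter, Fin.sum_univ_two] at hQ1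
            have hsne : s ≠ -s := fun h => hs0 ((mul_eq_zero.1 (by linear_combination h : (2 : F) * s = 0)).resolve_left h2)
            rcases hd 0 with h0 | h0 <;> rcases hd 1 with h1 | h1 <;> simp [h0, h1, hsne, hsne.symm] at hQ1 ⊢
          exact exists_conj_split hθ hspan hθθ w hwθ (G x) b d hb e (ε := -1) (by ring) fun j => by
            simp [e, hd01]
      · -- a non-square: the element becomes a multiple of the generator
        obtain ⟨α', β', _, _, _, _, u', c', hu0, hu1, hul⟩ := exists_plane_form X z hz0 hXX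
        haveI : IsEmpty β' := ⟨fun l => hsq ⟨c' l, (hul l).2.symm⟩⟩
        let u := u'.reindex (Equiv.sumEmpty _ β')
        have hcard' : Fintype.card α = Fintype.card α' := by
          have := Module.finrank_eq_card_basis u
          simp at this
          omega
        have hF : ringChar F ≠ 2 := fun h => h2 (by
          have := ringChar.Nat.cast_ringChar (R := F)
          rw [h] at this
          exact_mod_cast this)
        obtain ⟨r, hr⟩ : IsSquare (z * b₀⁻¹) := by
          rw [FiniteField.isSquare_iff hF (mul_ne_zero hz0 (inv_ne_zero hb₀)), mul_pow,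
            (FiniteField.pow_dichotomy hF hz0).resolve_left
              (fun h => hsq ((FiniteField.isSquare_iff hF hz0).2 h)),
            (FiniteField.pow_dichotomy hF (inv_ne_zero hb₀)).resolve_left
              (fun h => by
                obtain ⟨c, hc⟩ := (FiniteField.isSquare_iff hF (inv_ne_zero hb₀)).2 h
                exact hnsq c⁻¹ (by rw [← mul_inv, ← hc, inv_inv]))]
          ring
        have hr0 : r ≠ 0 := fun h => mul_ne_zero hz0 (inv_ne_zero hb₀) (by rw [hr, h, mul_zero])
        have hrb : r * r * b₀ = z := by rw [← hr, mul_assoc, inv_mul_cancel₀ hb₀, mul_one]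
        let W : Module.Basis (α × Fin 2) F (Fin n → F) :=
          w.unitsSMul fun p => if p.2 = 0 then 1 else Units.mk0 r hr0
        obtain ⟨g₀, hg₀⟩ := exists_gl_of_bases
          (u.reindex ((Fintype.equivOfCardEq hcard').symm.prodCongr (Equiv.refl _))) W
        obtain ⟨g, hg, hgy⟩ := exists_sl_conj_of_square (g := g₀) hz0 hgx
        refine ⟨g, hg, ?_⟩
        rw [hgy]
        have hy : ((g₀⁻¹ * G x * g₀ : GL (Fin n) F) : Matrix (Fin n) (Fin n) F) = r • θ := by
          refine Matrix.toLin'.injective (W.ext fun ⟨j, i⟩ => ?_)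
          rw [Matrix.toLin'_apply, Matrix.toLin'_apply, Matrix.smul_mulVec]
          refine conj_mulVec (G x) g₀ (hg₀ (j, i)) ?_
          have hW0 : W (j, 0) = w (j, 0) := by simp [W, Module.Basis.unitsSMul_apply]
          have hW1 : W (j, 1) = r • w (j, 1) := by simp [W, Module.Basis.unitsSMul_apply, Units.smul_def]
          fin_cases i
          · show (G x : Matrix (Fin n) (Fin n) F) *ᵥ _ = _ *ᵥ (r • θ *ᵥ W (j, 0))
            rw [hW0, hwθ, ← hW1, hg₀]
            simp [u, hGval, hu0]
          · show (G x : Matrix (Fin n) (Fin n) F) *ᵥ _ = _ *ᵥ (r • θ *ᵥ W (j, 1))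
            rw [show r • θ *ᵥ W (j, 1) = z • W (j, 0) by
              rw [hW1, Matrix.mulVec_smul, ← hwθ, Matrix.mulVec_mulVec, hθθ, Matrix.smul_mulVec,
                Matrix.one_mulVec, smul_smul, smul_smul, hrb, hW0], Matrix.mulVec_smul, hg₀]
            simp [u, hGval, hu1]
        refine mem_normalizer_of_generator hθ hspan _ (c := 0) (d := 1) one_ne_zero ?_
        rw [hy, zero_smul, zero_add, one_smul, Matrix.smul_mul, Matrix.mul_smul]

end Cfsg.Agent.S5969
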