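import Cfsg.Statements.S5970
import Cfsg.Agent.Lib.Omega.SingerNormalizer

set_option autoImplicit false
open scoped MatrixGroups Matrix
open Cfsg

namespace Cfsg.Agent.S5970

open CfsgLib.Omega

theorem aeval_fromBlocks {F : Type*} [Field F] {α β : Type*} [Fintype α] [DecidableEq α] [Fintype β]
    [DecidableEq β] (A : Matrix α α F) (D : Matrix β β F) (P : Polynomial F) :
    Polynomial.aeval (Matrix.fromBlocks A 0 0 D) P =
      Matrix.fromBlocks (Polynomial.aeval A P) 0 0 (Polynomial.aeval D P) := by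
  have hpow : ∀ i : ℕ, Matrix.fromBlocks A 0 0 D ^ i = Matrix.fromBlocks (A ^ i) 0 0 (D ^ i) := by
    intro i
    induction i with
    | zero => simp [Matrix.fromBlocks_one]
    | succ i ih => simp [pow_succ, ih, Matrix.fromBlocks_multiply]
  induction P using Polynomial.induction_on' with
  | add a b ha hb => simp [ha, hb, Matrix.fromBlocks_add]
  | monomial i c =>
    simp [Polynomial.aeval_monomial, hpow, Algebra.algebraMap_eq_smul_one, Matrix.fromBlocks_smul]

/-- Below the maximal order of `q` modulo `n` there is an element of order `n` with an eigenvalue one and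
dependent powers. -/
theorem exists_bad {F : Type*} [Field F] [Fintype F] {n d : ℕ} (hp : n.Prime)
    (hd : d ≠ 0) (hdn : d + 2 < n) (hnd : n ∣ Fintype.card F ^ d - 1) :
    ∃ x : Matrix.SpecialLinearGroup (Fin n) F, ((x : Matrix (Fin n) (Fin n) F)) ^ n = 1 ∧
      (∀ c : F, (x : Matrix (Fin n) (Fin n) F) ≠ c • 1) ∧
      (∃ v : Fin n → F, v ≠ 0 ∧ (x : Matrix (Fin n) (Fin n) F) *ᵥ v = v) ∧
      ¬ LinearIndependent F (fun i : Fin n => (x : Matrix (Fin n) (Fin n) F) ^ (i : ℕ)) := by
  classical
  haveI : Fact n.Prime := ⟨hp⟩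
  haveI : NeZero d := ⟨hd⟩
  obtain ⟨A, hA⟩ : ∃ A : GL (Fin d) F, orderOf A = n := by
    refine exists_prime_orderOf_dvd_card' n ?_
    rw [Matrix.card_GL_field]
    refine hnd.trans (dvd_trans (dvd_refl _) ?_)
    have := Finset.dvd_prod_of_mem (fun i : Fin d => Fintype.card F ^ d - Fintype.card F ^ (i : ℕ))
      (Finset.mem_univ (0 : Fin d))
    simpa using this
  set Am : Matrix (Fin d) (Fin d) F := (A : Matrix (Fin d) (Fin d) F) with hAm
  have hAn : Am ^ n = 1 := by rw [hAm, ← Units.val_pow_eq_pow_val, ← hA, pow_orderOf_eq_one, Units.val_one]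
  obtain ⟨δ, hδ⟩ : ∃ δ : F, δ = Am.det⁻¹ := ⟨_, rfl⟩
  let j₀ : Fin (n - d) := ⟨0, by omega⟩
  let j₁ : Fin (n - d) := ⟨1, by omega⟩
  let Dd : Fin (n - d) → F := fun j => if j = j₀ then δ else 1
  let e : Fin d ⊕ Fin (n - d) ≃ Fin n := finSumFinEquiv.trans (finCongr (by omega))
  let M₀ : Matrix (Fin d ⊕ Fin (n - d)) (Fin d ⊕ Fin (n - d)) F := Matrix.fromBlocks Am 0 0 (Matrix.diagonal Dd)
  let M : Matrix (Fin n) (Fin n) F := Matrix.reindexAlgEquiv F F e M₀
  have hdet : M.det = 1 := by
    show (Matrix.reindex e e M₀).det = 1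
    rw [Matrix.det_reindex_self, Matrix.det_fromBlocks_zero₁₂, Matrix.det_diagonal]
    simp [Dd, hδ, A.det_ne_zero, hAm]
  have hδn : δ ^ n = 1 := by rw [hδ, inv_pow, ← Matrix.det_pow, hAn, Matrix.det_one, inv_one]
  refine ⟨⟨M, hdet⟩, ?_, ?_, ⟨fun i => Sum.elim (fun _ => 0) (fun j => if j = j₁ then 1 else 0) (e.symm i), ?_, ?_⟩, ?_⟩
  · show M ^ n = 1
    rw [← map_pow, show M₀ ^ n = Matrix.fromBlocks (Am ^ n) 0 0 (Matrix.diagonal Dd ^ n) by
      have := aeval_fromBlocks Am (Matrix.diagonal Dd) (Polynomial.X ^ n)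
      simpa using this, hAn, Matrix.diagonal_pow,
      show Dd ^ n = 1 by funext j; simp only [Pi.pow_apply, Dd]; split_ifs <;> simp [hδn],
      Matrix.diagonal_one', Matrix.fromBlocks_one, map_one]
  · intro c hc
    change M = c • 1 at hc
    have h1 : M₀ = c • 1 := (Matrix.reindexAlgEquiv F F e).injective (by
      rw [map_smul, map_one]; exact hc)
    have hc1 : c = 1 := by
      have := congrFun (congrFun h1 (.inr j₁)) (.inr j₁)
      simpa [M₀, Dd, j₀, j₁] using this.symm
    have hA1 : A = 1 := Units.ext (by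
      ext i j
      have := congrFun (congrFun h1 (.inl i)) (.inl j)
      simp [M₀, hc1, Matrix.one_apply] at this
      simpa [Matrix.one_apply, hAm] using this)
    rw [hA1, orderOf_one] at hA
    exact hp.one_lt.ne hA
  · intro h
    have := congrFun h (e (.inr j₁))
    simp at this
  · show M *ᵥ _ = _
    funext i
    obtain ⟨i, rfl⟩ := e.surjective i
    rcases i with a | a <;>
      simp [M, M₀, Matrix.mulVec, dotProduct, ← Equiv.sum_comp e, Fintype.sum_sum_type, Matrix.diagonal,
        Dd, j₀, j₁] <;> split_ifs <;> simp_all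
  · intro hli
    set P : Polynomial F := Am.charpoly * ((Polynomial.X - Polynomial.C δ) * (Polynomial.X - Polynomial.C 1)) with hP
    have hmon : P.Monic := Am.charpoly_monic.mul ((Polynomial.monic_X_sub_C _).mul (Polynomial.monic_X_sub_C _))
    have hdeg : P.natDegree = d + 2 := by
      rw [hP, Am.charpoly_monic.natDegree_mul ((Polynomial.monic_X_sub_C _).mul (Polynomial.monic_X_sub_C _)),
        (Polynomial.monic_X_sub_C _).natDegree_mul (Polynomial.monic_X_sub_C _), Matrix.charpoly_natDegree_eq_dim,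
        Polynomial.natDegree_X_sub_C, Polynomial.natDegree_X_sub_C, Fintype.card_fin]
    have h1 : Polynomial.aeval Am P = 0 := by rw [hP, map_mul, Am.aeval_self_charpoly, zero_mul]
    have h2 : Polynomial.aeval (Matrix.diagonal Dd) P = 0 := by
      rw [hP, map_mul]
      refine mul_eq_zero_of_right _ ?_
      simp only [map_mul, map_sub, Polynomial.aeval_X, Polynomial.aeval_C, Algebra.algebraMap_eq_smul_one,
        Matrix.smul_one_eq_diagonal, Matrix.diagonal_sub, Matrix.diagonal_mul_diagonal, Matrix.diagonal_eq_zero]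
      funext j
      simp only [Dd, Pi.zero_apply]
      split_ifs <;> simp
    have h3 : Polynomial.aeval M P = 0 := by
      rw [show M = (Matrix.reindexAlgEquiv F F e).toAlgHom M₀ from rfl, Polynomial.aeval_algHom_apply,
        aeval_fromBlocks, h1, h2, Matrix.fromBlocks_zero, map_zero]
    rw [Polynomial.aeval_eq_sum_range' (show P.natDegree < n by omega),
      ← Fin.sum_univ_eq_sum_range (fun i => P.coeff i • M ^ i)] at h3
    have := Fintype.linearIndependent_iff.1 hli (fun i => P.coeff i) h3 ⟨d + 2, hdn⟩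
    simp only [← hdeg, hmon.coeff_natDegree] at this
    exact one_ne_zero this

/-- Elements of order `n` of PSL_n(q), `n` prime, and the normalizer of a Singer cycle. Here `T = PSL_n(F)` for a field `F` with `q = p^f` elements (`n ≥ 2`, `(n, q) ≠ (2, 2), (2, 3)`), `k` is a prime dividing `n`, `K` is a subalgebra of the `n × n` matrices that is a field of degree `k` over `F` (an extension-field structure F_{q^k} on `F^n`), and `H` is the subgroup of matrices of determinant 1 normalizing `K` — a subgroup of type GL_{n/k}(q^k) (maximal except in some small cases; maximality is not assumed); Ω is the set of cosets of `H` in `T`, so an element of `T` of prime order `r` (a matrix `x` of determinant 1 with `x^r` scalar, `x` not scalar) fixes a point of Ω when some conjugate of `x` by a matrix of determinant 1 normalizes `K`. Take `k = n > 3` prime with `n ≠ p` (so `H` is the normalizer of a Singer cycle), and suppose `n` divides the index of `H`. Then every element of `T` of order `n` is conjugate in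 `T` into `H` if and only if the multiplicative order of `q` modulo `n` is `n − 1`. -/
theorem result {F : Type*} [Field F] [Fintype F] {p : ℕ} [Fact p.Prime] [CharP F p] {q : ℕ} (hq : Fintype.card F = q)
    (n : ℕ) (hn : 2 ≤ n) (hT : (n, q) ≠ (2, 2) ∧ (n, q) ≠ (2, 3))
    (k : ℕ) (hk : k.Prime) (hkn : k ∣ n) (K : Subalgebra F (Matrix (Fin n) (Fin n) F)) (hK : Cfsg.Geo.IsFieldSubalgebra k K) (hkn' : k = n) (hn3 : 3 < n) (hnp : n ≠ p) (hΩ : n ∣ ((Cfsg.Geo.subalgebraNormalizer K).comap (Matrix.SpecialLinearGroup.toGL : Matrix.SpecialLinearGroup (Fin n) F →* GL (Fin n) F)).index) :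
    (∀ x : Matrix.SpecialLinearGroup (Fin n) F,
      (∃ z : F, ((x ^ n : Matrix.SpecialLinearGroup (Fin n) F) : Matrix (Fin n) (Fin n) F) = z • (1 : Matrix (Fin n) (Fin n) F)) →
      (∀ z : F, (x : Matrix (Fin n) (Fin n) F) ≠ z • (1 : Matrix (Fin n) (Fin n) F)) →
      ∃ P : Matrix.SpecialLinearGroup (Fin n) F, P⁻¹ * x * P ∈ ((Cfsg.Geo.subalgebraNormalizer K).comap (Matrix.SpecialLinearGroup.toGL : Matrix.SpecialLinearGroup (Fin n) F →* GL (Fin n) F))) ↔
    orderOf (q : ZMod n) = n - 1 := by
  classical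
  subst hkn'
  subst hq
  haveI : NeZero k := ⟨by omega⟩
  haveI : Fact k.Prime := ⟨hk⟩
  have hnF : (k : F) ≠ 0 := fun h => hnp
    ((Nat.prime_dvd_prime_iff_eq Fact.out hk).1 ((CharP.cast_eq_zero_iff F p k).1 h)).symm
  have hq0 : (Fintype.card F : ZMod k) ≠ 0 := by
    obtain ⟨a, hp', ha⟩ := FiniteField.card F p
    rw [ha, Nat.cast_pow]
    refine pow_ne_zero _ fun h => hnp ?_
    rw [ZMod.natCast_eq_zero_iff] at h
    exact (Nat.prime_dvd_prime_iff_eq hk hp').1 h
  set G := Matrix.SpecialLinearGroup.toGL (n := Fin k) (R := F) with hG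
  constructor
  · intro hall
    by_contra hne
    set d := orderOf (Fintype.card F : ZMod k) with hd
    have hdvd : d ∣ k - 1 := orderOf_dvd_of_pow_eq_one (ZMod.pow_card_sub_one_eq_one hq0)
    have hd0 : d ≠ 0 := by
      rintro h0
      rw [h0, zero_dvd_iff] at hdvd
      omega
    obtain ⟨c, hc⟩ := hdvd
    have hc2 : 2 ≤ c := by
      rcases c with _ | _ | c
      · simp at hc; omega
      · simp at hc; omega
      · omega
    have hdn : d + 2 < k := by
      have : d * 2 ≤ k - 1 := hc ▸ Nat.mul_le_mul_left d hc2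
      omega
    have hkd : k ∣ Fintype.card F ^ d - 1 := by
      rw [← ZMod.natCast_eq_zero_iff, Nat.cast_sub (Nat.one_le_pow _ _ Fintype.card_pos), Nat.cast_pow, hd,
        pow_orderOf_eq_one, Nat.cast_one, sub_self]
    obtain ⟨x, hx1, hx2, ⟨v, hv, hxv⟩, hx4⟩ := exists_bad hk hd0 hdn hkd
    obtain ⟨P, hP⟩ := hall x ⟨1, by rw [Matrix.SpecialLinearGroup.coe_pow, hx1, one_smul]⟩ hx2
    rw [Subgroup.mem_comap, map_mul, map_mul, map_inv] at hP
    exact not_mem_singer_normalizer hk hK (G x) (G P) (z := 1) (by rw [one_smul]; exact hx1) hx2 hv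
      (s := 1) (by rw [one_smul]; exact hxv) hx4 hP
  · intro hord x ⟨z, hz⟩ hns
    have hroot : ∀ u : F, u ^ k = 1 → u = 1 := by
      intro u hu
      have hu0 : u ≠ 0 := fun h => by simp [h, zero_pow (show k ≠ 0 by omega)] at hu
      have hgcd : Nat.gcd k (Fintype.card F - 1) = 1 := by
        refine (hk.coprime_iff_not_dvd.2 fun hdv => ?_)
        rw [← ZMod.natCast_eq_zero_iff, Nat.cast_sub Fintype.card_pos, Nat.cast_one, sub_eq_zero] at hdv
        rw [hdv, orderOf_one] at hord
        omega
      have := pow_gcd_eq_one.2 ⟨hu, FiniteField.pow_card_sub_one_eq_one u hu0⟩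
      rwa [hgcd, pow_one] at this
    have hz1 : z = 1 := hroot z (by
      have := congrArg Matrix.det hz
      rw [Matrix.det_smul, Matrix.det_one, mul_one, Fintype.card_fin] at this
      rw [← this]
      exact (x ^ k).2)
    have hxk : G x ^ k = 1 := Units.ext (by
      rw [← map_pow]
      show ((x ^ k : Matrix.SpecialLinearGroup (Fin k) F) : Matrix (Fin k) (Fin k) F) = 1
      rw [hz, hz1, one_smul])
    have hx1 : G x ≠ 1 := fun h => hns 1 (by rw [one_smul]; exact congrArg Units.val h)
    obtain ⟨y, hy, hyk, hyK⟩ := exists_frobenius_element hk hK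
    have hy1 : y ≠ 1 := fun h => hyK (by rw [h]; exact one_mem K)
    obtain ⟨g, hg, hgy⟩ := exists_sl_conj_cycle hk hord (by omega) hnF (G x) y hxk hx1 hyk hy1
    let P : Matrix.SpecialLinearGroup (Fin k) F := ⟨(g : Matrix (Fin k) (Fin k) F), mem_specialLinear.1 hg⟩
    have hPg : G P = g := Units.ext rfl
    refine ⟨P, ?_⟩
    show G (P⁻¹ * x * P) ∈ Cfsg.Geo.subalgebraNormalizer K
    rw [map_mul, map_mul, map_inv, hPg, hgy]
    exact hy

end Cfsg.Agent.S5970
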