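import Cfsg.Statements.S5971
import Cfsg.Agent.Lib.Omega.SingerNormalizer
import Cfsg.Agent.Lib.Omega.DimThree

set_option autoImplicit false
open scoped MatrixGroups Matrix
open Cfsg

namespace Cfsg.Agent.S5971

open CfsgLib.Omega

variable {F : Type*} [Field F]

/-- The derangement: a scaled rank-one perturbation of one. -/
theorem exists_bad (s c : F) (hs : s ^ 3 * (1 + c) = 1) (hc : 3 + 3 * c + c * c = 0) :
    ∃ x : Matrix.SpecialLinearGroup (Fin 3) F, ((x : Matrix (Fin 3) (Fin 3) F)) ^ 3 = s ^ 3 • 1 ∧
      (∀ a : F, (x : Matrix (Fin 3) (Fin 3) F) ≠ a • 1) ∧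
      (∃ v : Fin 3 → F, v ≠ 0 ∧ (x : Matrix (Fin 3) (Fin 3) F) *ᵥ v = s • v) ∧
      ¬ LinearIndependent F (fun i : Fin 3 => (x : Matrix (Fin 3) (Fin 3) F) ^ (i : ℕ)) := by
  have hs0 : s ≠ 0 := fun h => by simp [h] at hs
  let u : Fin 3 → F := ![c, 1, 0]
  let v : Fin 3 → F := ![1, 0, 0]
  set M : Matrix (Fin 3) (Fin 3) F := Matrix.vecMulVec u v with hM
  have huv : v ⬝ᵥ u = c := by simp [u, v, dotProduct, Fin.sum_univ_three]
  have hMM : M * M = c • M := by
    rw [hM, Matrix.vecMulVec_mul_vecMulVec, huv, Matrix.vecMulVec_smul]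
  have hdet : (s • (1 + M)).det = 1 := by
    rw [Matrix.det_smul, Fintype.card_fin, hM, Matrix.vecMulVec_eq Unit,
      Matrix.det_one_add_replicateCol_mul_replicateRow, huv]
    exact hs
  have hsq : (s • (1 + M)) ^ 2 = (s * s) • (1 + (2 + c) • M) := by
    rw [pow_two, Matrix.smul_mul, Matrix.mul_smul, smul_smul]
    congr 1
    rw [add_mul, mul_add, mul_add, Matrix.one_mul, Matrix.mul_one, Matrix.one_mul, hMM, add_smul, two_smul]
    abel
  refine ⟨⟨s • (1 + M), hdet⟩, ?_, ?_, ⟨![0, 0, 1], ?_, ?_⟩, ?_⟩
  · show (s • (1 + M)) ^ 3 = _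
    rw [pow_succ, hsq]
    simp only [Matrix.smul_mul, Matrix.mul_smul, add_mul, mul_add, Matrix.one_mul, Matrix.mul_one, hMM,
      smul_smul, smul_add]
    ext i j
    simp
    linear_combination (s ^ 3 * M i j) * hc
  · intro a ha
    have := congrFun (congrFun ha 1) 0
    change (s • (1 + M)) 1 0 = _ at this
    simp [hM, Matrix.vecMulVec_apply, u, v, hs0] at this
  · intro h
    have := congrFun h 2
    simp at this
  · show (s • (1 + M)) *ᵥ _ = _
    rw [Matrix.smul_mulVec, Matrix.add_mulVec, Matrix.one_mulVec, hM, Matrix.vecMulVec_mulVec]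
    simp [v, dotProduct, Fin.sum_univ_three]
  · intro hli
    have h0 := Fintype.linearIndependent_iff.1 hli ![s * s * (1 + c), -(s * (2 + c)), 1] (by
      rw [Fin.sum_univ_three]
      show _ • (s • (1 + M)) ^ 0 + _ • (s • (1 + M)) ^ 1 + _ • (s • (1 + M)) ^ 2 = 0
      rw [hsq, pow_zero, pow_one]
      ext i j
      simp
      ring) 2
    simp at h0

/-- Three points labelled injectively in a three-element set. -/
theorem exists_perm_of_injective {S : Finset F} (hS : S.card ≤ 3) (d d' : Fin 3 → F) (hd : ∀ i, d i ∈ S)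
    (hd' : ∀ i, d' i ∈ S) (hi : Function.Injective d) (hi' : Function.Injective d') :
    ∃ σ : Equiv.Perm (Fin 3), ∀ i, d (σ i) = d' i := by
  classical
  have himg : Finset.univ.image d = S := Finset.eq_of_subset_of_card_le
    (fun a ha => by obtain ⟨i, -, rfl⟩ := Finset.mem_image.1 ha; exact hd i)
    (by rw [Finset.card_image_of_injective _ hi]; simpa using hS)
  have hex : ∀ i, ∃ j, d j = d' i := fun i => by
    have := hd' i
    rw [← himg, Finset.mem_image] at this
    obtain ⟨j, -, hj⟩ := this
    exact ⟨j, hj⟩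
  choose σ hσ using hex
  exact ⟨Equiv.ofBijective σ (Finite.injective_iff_bijective.1 fun a b h => hi' (by rw [← hσ, h, hσ])), hσ⟩

/-- Eigenvalues of a matrix of order three when the field has a primitive cube root of unity. -/
theorem exists_eigen_three {w : F} (hw : w ^ 3 = 1) (hw1 : w ≠ 1) (X : Matrix (Fin 3) (Fin 3) F)
    (hX : X ^ 3 = 1) :
    ∃ (S : Finset F) (b : Module.Basis (Fin 3) F (Fin 3 → F)) (d : Fin 3 → F), S.card ≤ 3 ∧ (∀ i, d i ∈ S) ∧
      (∀ a ∈ S, a ^ 3 = 1) ∧ (∀ a : F, a ^ 3 = 1 → a ∈ S) ∧ ∀ i, X *ᵥ b i = d i • b i := by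
  classical
  have hw0 : w ≠ 0 := by rintro rfl; simp at hw
  have hsum : 1 + w + w * w = 0 := by
    have h : (w - 1) * (1 + w + w * w) = 0 := by linear_combination hw
    exact (mul_eq_zero.1 h).resolve_left (sub_ne_zero.2 hw1)
  have h1 : w * w ≠ 1 := fun h => hw1 (by linear_combination hw - w * h)
  have h2 : w * w ≠ w := fun h => hw1 (mul_left_cancel₀ hw0 (h.trans (mul_one w).symm))
  have hprod : (∏ a ∈ ({1, w, w * w} : Finset F), (Polynomial.X - Polynomial.C a)) =
      Polynomial.X ^ 3 - Polynomial.C 1 := by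
    rw [Finset.prod_insert (by simp [Ne.symm hw1, Ne.symm h1]), Finset.prod_insert (by simp [Ne.symm h2]),
      Finset.prod_singleton]
    have e1 : Polynomial.C (1 + w + w * w) = (0 : Polynomial F) := by rw [hsum, map_zero]
    have e2 : Polynomial.C (w ^ 3) = (1 : Polynomial F) := by rw [hw, map_one]
    simp only [map_add, map_mul, map_one, map_pow] at e1 e2 ⊢
    linear_combination (-(Polynomial.X ^ 2) + Polynomial.X * Polynomial.C w) * e1 - e2
  obtain ⟨b, d, hd, hb⟩ := exists_eigenbasis X ({1, w, w * w} : Finset F) (by rw [hprod]; simp [hX])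
  refine ⟨_, b, d, Finset.card_le_three, hd, ?_, ?_, hb⟩
  · intro a ha
    simp only [Finset.mem_insert, Finset.mem_singleton] at ha
    rcases ha with rfl | rfl | rfl
    · simp
    · exact hw
    · rw [mul_pow, hw, one_mul]
  · intro a ha
    have h : Polynomial.eval a (∏ a ∈ ({1, w, w * w} : Finset F), (Polynomial.X - Polynomial.C a)) = 0 := by
      rw [hprod]; simp [ha]
    rw [Polynomial.eval_prod, Finset.prod_eq_zero_iff] at h
    obtain ⟨a', ha', he⟩ := h
    simp [sub_eq_zero] at he
    exact he ▸ ha'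

theorem order_two_mod_three : orderOf ((2 : ℕ) : ZMod 3) = 3 - 1 :=
  haveI : Fact (Nat.Prime 2) := ⟨Nat.prime_two⟩
  orderOf_eq_prime (p := 2) (by decide) (by decide)

theorem third_point : ∀ i j : Fin 3, i ≠ j → ∃ k, k ≠ i ∧ k ≠ j ∧ ∀ l, l = i ∨ l = j ∨ l = k := by decide

/-- Elements of order 3 of PSL_3(q) and the normalizer of a Singer cycle. Here `T = PSL_n(F)` for a field `F` with `q = p^f` elements (`n ≥ 2`, `(n, q) ≠ (2, 2), (2, 3)`), `k` is a prime dividing `n`, `K` is a subalgebra of the `n × n` matrices that is a field of degree `k` over `F` (an extension-field structure F_{q^k} on `F^n`), and `H` is the subgroup of matrices of determinant 1 normalizing `K` — a subgroup of type GL_{n/k}(q^k) (maximal except in some small cases; maximality is not assumed); Ω is the set of cosets of `H` in `T`, so an element of `T` of prime order `r` (a matrix `x` of determinant 1 with `x^r` scalar, `x` not scalar) fixes a point of Ω when some conjugate of `x` by a matrix of determinant 1 normalizes `K`. Take `n = k =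 3` and suppose 3 divides the index of `H`. Then every element of `T` of order 3 is conjugate in `T` into `H` if and only if `q ≡ 4, 7` or `8 (mod 9)`. -/
theorem result {F : Type*} [Field F] [Fintype F] {p : ℕ} [Fact p.Prime] [CharP F p] {q : ℕ} (hq : Fintype.card F = q)
    (n : ℕ) (hn : n = 3) (k : ℕ) (hk : k.Prime) (hkn : k ∣ n) (K : Subalgebra F (Matrix (Fin n) (Fin n) F)) (hK : Cfsg.Geo.IsFieldSubalgebra k K) (hk3 : k = 3) (hΩ : 3 ∣ ((Cfsg.Geo.subalgebraNormalizer K).comap (Matrix.SpecialLinearGroup.toGL : Matrix.SpecialLinearGroup (Fin n) F →* GL (Fin n) F)).index) :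
    (∀ x : Matrix.SpecialLinearGroup (Fin n) F,
      (∃ z : F, ((x ^ 3 : Matrix.SpecialLinearGroup (Fin n) F) : Matrix (Fin n) (Fin n) F) = z • (1 : Matrix (Fin n) (Fin n) F)) →
      (∀ z : F, (x : Matrix (Fin n) (Fin n) F) ≠ z • (1 : Matrix (Fin n) (Fin n) F)) →
      ∃ P : Matrix.SpecialLinearGroup (Fin n) F, P⁻¹ * x * P ∈ ((Cfsg.Geo.subalgebraNormalizer K).comap (Matrix.SpecialLinearGroup.toGL : Matrix.SpecialLinearGroup (Fin n) F →* GL (Fin n) F))) ↔
    (q % 9 = 4 ∨ q % 9 = 7 ∨ q % 9 = 8) := by
  classical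
  subst hn hk3 hq
  haveI : Fact (Nat.Prime 3) := ⟨Nat.prime_three⟩
  set G := Matrix.SpecialLinearGroup.toGL (n := Fin 3) (R := F) with hG
  set q := Fintype.card F with hq
  have hq1 : 1 < q := Fintype.one_lt_card
  obtain ⟨y, hy, hy3, hyK⟩ := exists_frobenius_element Nat.prime_three hK
  have hy1 : y ≠ 1 := fun h => hyK (by rw [h]; exact one_mem K)
  have h3F : q % 3 ≠ 0 → ((3 : ℕ) : F) ≠ 0 := fun h h3 => h (by
    obtain ⟨a, hp', ha⟩ := FiniteField.card F p
    have : p = 3 := (Nat.prime_dvd_prime_iff_eq hp' Nat.prime_three).1 ((CharP.cast_eq_zero_iff F p 3).1 h3)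
    rw [hq, ha, this]
    exact Nat.mod_eq_zero_of_dvd (dvd_pow_self 3 a.pos.ne'))
  have hord2 : q % 3 = 2 → orderOf (q : ZMod 3) = 3 - 1 := fun h => by
    rw [← ZMod.natCast_mod, h]
    exact order_two_mod_three
  have hroot2 : q % 3 = 2 → ∀ u : F, u ^ 3 = 1 → u = 1 := fun h u hu => by
    have hu0 : u ≠ 0 := fun h' => by simp [h'] at hu
    have hg : Nat.gcd 3 (q - 1) = 1 := by rw [Nat.gcd_rec, show (q - 1) % 3 = 1 by omega]; rfl
    have := pow_gcd_eq_one.2 ⟨hu, FiniteField.pow_card_sub_one_eq_one u hu0⟩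
    rwa [hg, pow_one] at this
  constructor
  · intro hall
    by_contra hcon
    have kill : ∀ s c : F, s ^ 3 * (1 + c) = 1 → 3 + 3 * c + c * c = 0 → False := by
      intro s c hs hc
      obtain ⟨x, hx1, hx2, ⟨v, hv, hxv⟩, hx4⟩ := exists_bad s c hs hc
      obtain ⟨P, hP⟩ := hall x ⟨s ^ 3, by rw [Matrix.SpecialLinearGroup.coe_pow, hx1]⟩ hx2
      rw [Subgroup.mem_comap, map_mul, map_mul, map_inv] at hP
      exact not_mem_singer_normalizer Nat.prime_three hK (G x) (G P) hx1 hx2 hv hxv hx4 hP
    by_cases h0 : q % 3 = 0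
    · refine kill 1 0 (by ring) ?_
      obtain ⟨a, hp', ha⟩ := FiniteField.card F p
      have hp3 : p = 3 := ((Nat.prime_dvd_prime_iff_eq Nat.prime_three hp').1
        (Nat.prime_three.dvd_of_dvd_pow (n := (a : ℕ)) (by rw [← ha, ← hq]; exact Nat.dvd_of_mod_eq_zero h0))).symm
      have : ((3 : ℕ) : F) = 0 := (CharP.cast_eq_zero_iff F p 3).2 (by rw [hp3])
      push_cast at this
      rw [this]; ring
    · by_cases h1 : q % 9 = 1
      · obtain ⟨g, hg⟩ := IsCyclic.exists_ofOrder_eq_natCard (α := Fˣ)
        obtain ⟨j, hj⟩ : 9 ∣ Nat.card Fˣ := by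
          rw [Nat.card_eq_fintype_card, Fintype.card_units]; omega
        have hj0 : j ≠ 0 := by rintro rfl; simp at hj
        have hord : orderOf (g ^ j) = 9 := by
          rw [orderOf_pow_of_dvd hj0 (by rw [hg, hj]; exact Dvd.intro_left _ rfl), hg, hj,
            Nat.mul_div_cancel _ (Nat.pos_of_ne_zero hj0)]
        set s : F := ((g ^ j : Fˣ) : F) with hs
        have hs9 : s ^ 9 = 1 := by
          rw [hs, ← Units.val_pow_eq_pow_val, ← hord, pow_orderOf_eq_one, Units.val_one]
        have hs3 : s ^ 3 ≠ 1 := fun h => by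
          have := orderOf_dvd_of_pow_eq_one (show (g ^ j) ^ 3 = 1 from Units.ext (by
            rw [Units.val_pow_eq_pow_val, ← hs, h, Units.val_one]))
          rw [hord] at this
          norm_num at this
        have hsum : 1 + s ^ 3 + s ^ 6 = 0 := (mul_eq_zero.1 (show (s ^ 3 - 1) * (1 + s ^ 3 + s ^ 6) = 0 by
          linear_combination hs9)).resolve_left (sub_ne_zero.2 hs3)
        exact kill s (s ^ 6 - 1) (by linear_combination hs9) (by
          linear_combination hsum + (s ^ 3) * hs9)
      · -- the index is prime to three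
        have h25 : q % 9 = 2 ∨ q % 9 = 5 := by omega
        have h32 : q % 3 = 2 := by omega
        have hydet : (y : Matrix (Fin 3) (Fin 3) F).det = 1 := hroot2 h32 _ (by
          rw [← Matrix.det_pow, ← Units.val_pow_eq_pow_val, hy3, Units.val_one, Matrix.det_one])
        set H := (Cfsg.Geo.subalgebraNormalizer K).comap G with hH
        let ys : Matrix.SpecialLinearGroup (Fin 3) F := ⟨_, hydet⟩
        have hys : G ys = y := Units.ext rfl
        have hysH : ys ∈ H := by rw [hH, Subgroup.mem_comap, hys]; exact hy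
        have hinj : Function.Injective G := fun a b h => Subtype.ext (congrArg Units.val h)
        have hord3 : orderOf ys = 3 := orderOf_eq_prime (hinj (by rw [map_pow, hys, hy3, map_one]))
          (fun h => hy1 (by rw [← hys, h, map_one]))
        have h3H : 3 ∣ Nat.card H := by
          have := Subgroup.orderOf_dvd_natCard H hysH
          rwa [hord3] at this
        have h9 : 9 ∣ Nat.card (GL (Fin 3) F) := by
          have := Nat.mul_dvd_mul h3H hΩ
          rw [Subgroup.card_mul_index] at this
          exact this.trans (Subgroup.card_dvd_of_injective G hinj)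
        rw [Matrix.card_GL_field, Fin.prod_univ_three, ← hq] at h9
        simp only [Fin.val_zero, Fin.val_one, Fin.val_two, pow_zero, pow_one] at h9
        rw [← ZMod.natCast_eq_zero_iff, Nat.cast_mul, Nat.cast_mul, Nat.cast_sub (Nat.one_le_pow _ _ (by omega)),
          Nat.cast_sub (Nat.le_self_pow (by norm_num) q), Nat.cast_sub (Nat.pow_le_pow_right (by omega) (by norm_num))]
          at h9
        push_cast at h9
        rw [← ZMod.natCast_mod q 9] at h9
        rcases h25 with h | h <;> rw [h] at h9 <;> revert h9 <;> decide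
  · intro hq9 x ⟨z, hz⟩ hns
    have hx3 : (x : Matrix (Fin 3) (Fin 3) F) ^ 3 = z • 1 := by rw [← Matrix.SpecialLinearGroup.coe_pow, hz]
    obtain ⟨s, hs⟩ : ∃ s, s ^ 3 = z := by
      by_contra h
      push Not at h
      have h1 := det_eq_of_cube_nonsplit _ z hx3 h
      rw [x.2] at h1
      exact h 1 (by rw [one_pow, h1])
    have hz3 : z ^ 3 = 1 := by
      have := congrArg Matrix.det hx3
      rw [Matrix.det_smul, Matrix.det_one, mul_one, Fintype.card_fin, Matrix.det_pow, x.2, one_pow] at this
      exact this.symm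
    have hs9 : s ^ 9 = 1 := by rw [show (9 : ℕ) = 3 * 3 from rfl, pow_mul, hs, hz3]
    have hs0 : s ≠ 0 := fun h => by simp [h] at hs9
    have hz1 : z = 1 := by
      have hg : Nat.gcd 9 (q - 1) ∣ 3 := by
        rw [Nat.gcd_rec]
        rcases hq9 with h | h | h
        · rw [show (q - 1) % 9 = 3 by omega]; decide
        · rw [show (q - 1) % 9 = 6 by omega]; decide
        · rw [show (q - 1) % 9 = 7 by omega]; decide
      obtain ⟨j, hj⟩ := hg
      rw [← hs, hj, pow_mul, pow_gcd_eq_one.2 ⟨hs9, FiniteField.pow_card_sub_one_eq_one s hs0⟩, one_pow]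
    rw [hz1, one_smul] at hx3
    have hxk : G x ^ 3 = 1 := Units.ext (by rw [Units.val_pow_eq_pow_val, Units.val_one]; exact hx3)
    have hx1 : G x ≠ 1 := fun h => hns 1 (by rw [one_smul]; exact congrArg Units.val h)
    obtain ⟨g, hg, hgy⟩ : ∃ g ∈ Cfsg.Geo.specialLinear (Fin 3) F, g⁻¹ * G x * g = y := by
      by_cases h32 : q % 3 = 2
      · exact exists_sl_conj_cycle Nat.prime_three (hord2 h32) le_rfl (h3F (by omega)) (G x) y hxk hx1 hy3 hy1
      · obtain ⟨w, hw⟩ := exists_prime_orderOf_dvd_card' (G := Fˣ) 3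
          (by rw [Nat.card_eq_fintype_card, Fintype.card_units]; omega)
        have hw3 : (w : F) ^ 3 = 1 := by
          rw [← Units.val_pow_eq_pow_val, ← hw, pow_orderOf_eq_one, Units.val_one]
        have hw1 : (w : F) ≠ 1 := fun h => by
          rw [Units.val_eq_one] at h; rw [h, orderOf_one] at hw; norm_num at hw
        obtain ⟨S, b, d, hS, hd, hS1, hS2, hb⟩ := exists_eigen_three hw3 hw1 _ hx3
        obtain ⟨S', b', d', -, hd', hS1', hS2', hb'⟩ := exists_eigen_three hw3 hw1 (y : Matrix (Fin 3) (Fin 3) F)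
          (by rw [← Units.val_pow_eq_pow_val, hy3, Units.val_one])
        have hdinj : Function.Injective d := by
          intro i j hij
          by_contra hne
          obtain ⟨l, hli, hlj, hall'⟩ := third_point i j hne
          have hprod : ∏ m, d m = 1 := by
            have h : LinearMap.toMatrix b b (Matrix.toLin' (x : Matrix (Fin 3) (Fin 3) F)) = Matrix.diagonal d := by
              ext a c
              rw [LinearMap.toMatrix_apply, Matrix.toLin'_apply, hb]
              by_cases hac : a = c
              · subst hac; simp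
              · simp [hac, Matrix.diagonal_apply_ne _ hac, Ne.symm hac]
            rw [← Matrix.det_diagonal, ← h, LinearMap.det_toMatrix, LinearMap.det_toLin', x.2]
          have huniv : (Finset.univ : Finset (Fin 3)) = {i, j, l} := by
            ext m; simp [hall' m]
          rw [huniv, Finset.prod_insert (by simp [hne, Ne.symm hli]), Finset.prod_insert (by simp [Ne.symm hlj]),
            Finset.prod_singleton, ← hij] at hprod
          have hcube := hS1 _ (hd i)
          have hl : d l = d i := by linear_combination (d i) * hprod - (d l) * hcube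
          refine hns (d i) (Matrix.toLin'.injective (b.ext fun m => ?_))
          simp only [Matrix.toLin'_apply, hb, Matrix.smul_mulVec, Matrix.one_mulVec]
          rcases hall' m with rfl | rfl | rfl
          · rfl
          · rw [hij]
          · rw [hl]
        have hdinj' : Function.Injective d' := by
          intro i j hij
          by_contra hne
          obtain ⟨l, hli, hlj, hall'⟩ := third_point i j hne
          have hli' := linearIndependent_pow_of_not_mem Nat.prime_three hK y hy (z := 1)
            (by rw [one_smul, ← Units.val_pow_eq_pow_val, hy3, Units.val_one]) hyK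
          have h0 := Fintype.linearIndependent_iff.1 hli' ![d' i * d' l, -(d' i + d' l), 1] (by
            refine Matrix.toLin'.injective (b'.ext fun m => ?_)
            simp [Fin.sum_univ_three, Matrix.mulVec_smul, hb', pow_two, Matrix.add_mulVec, Matrix.smul_mulVec,
              ← Matrix.mulVec_mulVec, Matrix.neg_mulVec, smul_smul, ← add_smul, ← neg_smul]
            left
            rcases hall' m with rfl | rfl | rfl
            · ring
            · rw [← hij]; ring
            · ring) 2
          simp at h0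
        obtain ⟨σ, hσ⟩ := exists_perm_of_injective hS d d' hd (fun i => hS2 _ (hS1' _ (hd' i))) hdinj hdinj'
        exact exists_sl_conj_of_eigen (G x) y b b' d d' hb hb' σ hσ
    let P : Matrix.SpecialLinearGroup (Fin 3) F := ⟨(g : Matrix (Fin 3) (Fin 3) F), mem_specialLinear.1 hg⟩
    have hPg : G P = g := Units.ext rfl
    refine ⟨P, ?_⟩
    show G (P⁻¹ * x * P) ∈ Cfsg.Geo.subalgebraNormalizer K
    rw [map_mul, map_mul, map_inv, hPg, hgy]
    exact hy

end Cfsg.Agent.S5971
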