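import Cfsg.Statements.S5972
import Cfsg.Agent.Lib.Derangements.SingularOdd
import Cfsg.Agent.Lib.Derangements.SingularInvolution
-- import your own Cfsg.Agent.* helpers here

set_option autoImplicit false
open scoped MatrixGroups
open Cfsg

namespace Cfsg.Agent.S5972

/-- Elements of prime order of Ω_n(q), n = 2d+1 ≥ 7, q odd, with no fixed totally singular `m`-space. Here `T = Ω_n(q)` is realised as the commutator subgroup of the isometry group of the quadratic form `x₀² + Σ xᵢyᵢ` over the field `F` with `q` elements (it has trivial centre, so its elements of prime order `r` are used directly); let `1 ≤ m ≤ d` and let `r` be a prime dividing the number of totally singular `m`-spaces. For `r ≠ p` let `i` be the multiplicative order of `q` modulo `r`, `c = i` for `i` even and `c = 2i` for `i` odd, and write `k = n mod c`, `ℓ = m mod i`, `n' = ⌊n/i⌋`, `m' = ⌊m/i⌋`, `t = (r−1)/i`. Then every element of `T` of order `r` fixes some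 totally singular `m`-space if and only if either (i) `r = 2` and (`m < (n−1)/2` or `q ≡ 1 (mod 4)`); or (ii) `r ≠ p` is odd, `i ≤ m`, `k > 2ℓ`, and (`i` is odd or `n' − 2m' ≥ t`). -/
theorem result {F : Type*} [Field F] [Fintype F] {p : ℕ} [Fact p.Prime] [CharP F p] {q : ℕ} (hq : Fintype.card F = q) (hqodd : Odd q)
    (d m : ℕ) (hd : 3 ≤ d) (hm : 1 ≤ m) (hmd : m ≤ d)
    (r : ℕ) [Fact r.Prime]
    (hrΩ : r ∣ Nat.card {W : Submodule F (Unit ⊕ (Fin d ⊕ Fin d) → F) // Module.finrank F ↥W = m ∧ (∀ w ∈ W, Cfsg.quadFormOdd d F w = 0)})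
    (i c : ℕ) (hi : i = orderOf (q : ZMod r)) (hc : c = if Even i then i else 2 * i) :
    (∀ x : GL (Unit ⊕ (Fin d ⊕ Fin d)) F, x ∈ Cfsg.Geo.omegaGL (Cfsg.quadFormOdd d F) → orderOf x = r →
      ∃ W : Submodule F (Unit ⊕ (Fin d ⊕ Fin d) → F), Module.finrank F ↥W = m ∧ (∀ w ∈ W, Cfsg.quadFormOdd d F w = 0) ∧
        W.map (Matrix.toLin' (x : Matrix (Unit ⊕ (Fin d ⊕ Fin d)) (Unit ⊕ (Fin d ⊕ Fin d)) F)) ≤ W) ↔
    ((r = 2 ∧ (m < d ∨ q % 4 = 1)) ∨
     (r ≠ p ∧ 2 < r ∧ i ≤ m ∧ 2 * (m % i) < (2 * d + 1) % c ∧ (Odd i ∨ (r - 1) / i + 2 * (m / i) ≤ (2 * d + 1) / i))) := by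
  classical
  have h2 : (2 : F) ≠ 0 := CfsgLib.Derangements.Sub.two_ne_zero_of_odd_card (hq ▸ hqodd)
  have hrpr : r.Prime := Fact.out
  set Q := CfsgLib.ClassicalForms.qOdd d F with hQdef
  have hfun : ⇑Q = Cfsg.quadFormOdd d F := funext fun v => CfsgLib.ClassicalForms.qOdd_apply d v
  have hQ : (QuadraticMap.polarBilin Q).Nondegenerate :=
    CfsgLib.ClassicalForms.nondeg_iff_polarBilin.2 (CfsgLib.ClassicalForms.nondeg_qOdd h2 d)
  have hn : Module.finrank F (Unit ⊕ (Fin d ⊕ Fin d) → F) = 2 * d + 1 := by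
    rw [Module.finrank_fintype_fun_eq_card]; simp; omega
  have hset : Nat.card {W : Submodule F (Unit ⊕ (Fin d ⊕ Fin d) → F) //
      Module.finrank F W = m ∧ CfsgLib.Derangements.Sub.Ts Q W} =
      Nat.card {W : Submodule F (Unit ⊕ (Fin d ⊕ Fin d) → F) //
        Module.finrank F W = m ∧ ∀ w ∈ W, Cfsg.quadFormOdd d F w = 0} :=
    Nat.card_congr (Equiv.subtypeEquivRight fun W => by rw [CfsgLib.Derangements.Sub.Ts, hfun])
  rw [← hset] at hrΩ
  by_cases hrp : r = p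
  · exfalso
    obtain ⟨W, -, hW1, hW2⟩ := CfsgLib.Derangements.Sub.exists_singular_le h2
      (CfsgLib.Derangements.Sub.nd_top hQ) (k := m) (by rw [finrank_top, hn]; omega)
    have h1 := CfsgLib.Derangements.Sub.card_singular_modEq_one p m Q hQ (by rw [hn]; omega) ⟨W, hW1, hW2⟩
    have h3 := Nat.modEq_zero_iff_dvd.2 (hrp ▸ hrΩ)
    have h4 := h3.symm.trans h1
    rw [Nat.modEq_iff_dvd' (Nat.zero_le 1), Nat.sub_zero, Nat.dvd_one] at h4
    exact (Fact.out : p.Prime).ne_one h4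
  have hsqiff : IsSquare (-1 : F) ↔ q % 4 = 1 := by
    rw [FiniteField.isSquare_neg_one_iff, hq]
    have := Nat.odd_iff.1 hqodd
    omega
  by_cases hr2 : r = 2
  · subst hr2
    constructor
    · intro H
      refine Or.inl ⟨rfl, ?_⟩
      by_contra hc
      push Not at hc
      obtain ⟨x, hx, hord, hb⟩ := CfsgLib.Derangements.Sub.singular_two_counterexample h2
        (fun e => hc.2 (hsqiff.1 e)) d (by omega)
      obtain ⟨W, hW1, hW2, hW3⟩ := H x hx hord
      have := hb W hW2 hW3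
      omega
    · rintro (⟨-, hc⟩ | ⟨-, h, -⟩)
      · intro x hx hord
        refine CfsgLib.Derangements.Sub.singular_two h2 d m (by omega) ?_ x hx hord
        rcases Nat.lt_or_ge m d with hlt | hge
        · exact Or.inl hlt
        · exact Or.inr ⟨by omega, hsqiff.2 (hc.resolve_left (by omega))⟩
      · omega
  have h2r : 2 < r := lt_of_le_of_ne hrpr.two_le (Ne.symm hr2)
  obtain ⟨h, η, P, hch, -, -, hipos, hidvd⟩ :=
    CfsgLib.Derangements.Sub.params_exist (F := F) hrpr hr2 hrp hq hi hc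
  have hord : orderOf ((Fintype.card F : ℕ) : ZMod r) = i := by rw [hq]; exact hi.symm
  have hiff : (∀ x : GL (Unit ⊕ (Fin d ⊕ Fin d)) F, x ∈ Cfsg.Geo.omegaGL (Cfsg.quadFormOdd d F) → orderOf x = r →
      ∃ W : Submodule F (Unit ⊕ (Fin d ⊕ Fin d) → F), Module.finrank F ↥W = m ∧ (∀ w ∈ W, Cfsg.quadFormOdd d F w = 0) ∧
        W.map (Matrix.toLin' (x : Matrix (Unit ⊕ (Fin d ⊕ Fin d)) (Unit ⊕ (Fin d ⊕ Fin d)) F)) ≤ W) ↔
    ∀ x : GL (Unit ⊕ (Fin d ⊕ Fin d)) F, x ∈ Cfsg.Geo.omegaGL (Cfsg.quadFormOdd d F) → orderOf x = r →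
      ∃ W : Submodule F (Unit ⊕ (Fin d ⊕ Fin d) → F),
        (Module.finrank F ↥W = m ∧ ∀ w ∈ W, Cfsg.quadFormOdd d F w = 0) ∧
        W.map (Matrix.toLin' (x : Matrix (Unit ⊕ (Fin d ⊕ Fin d)) (Unit ⊕ (Fin d ⊕ Fin d)) F)) ≤ W := by
    simp only [and_assoc]
  rw [hiff]
  have hex : h ≤ i → ¬ m ≤ d % h := fun hhi hmle =>
    CfsgLib.Derangements.Sub.not_dvd_card_singular P h2 hQ hn hmle (by
      rw [Nat.card_eq_fintype_card, hord]; exact hhi) hrΩ
  have hnc : (2 * d + 1) % c = 2 * (d % h) + 1 := by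
    have h1 := Nat.div_add_mod d h
    have h3 := Nat.mod_lt d P.pos
    rw [hch]
    conv_lhs => rw [show 2 * d + 1 = 2 * (d % h) + 1 + 2 * h * (d / h) by rw [mul_assoc]; omega]
    rw [Nat.add_mul_mod_self_left, Nat.mod_eq_of_lt (by omega)]
  rw [hnc]
  rcases Nat.even_or_odd i with he | ho
  · have hi' : i = 2 * h := by rw [← hch, hc, if_pos he]
    have hno : ¬ Odd i := Nat.not_odd_iff_even.2 he
    have ht : 1 ≤ (r - 1) / i := (Nat.one_le_div_iff hipos).2 (Nat.le_of_dvd (by omega) hidvd)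
    have hdiv : (2 * d + 1) / i = d / h := by
      rw [hi', ← Nat.div_div_eq_div_mul, show (2 * d + 1) / 2 = d by omega]
    rw [CfsgLib.Derangements.Sub.Steps.main P (i := i) (J := fun s => (s + 1 - (r - 1) / i) / 2)
      ⟨Or.inr ⟨hi', fun s => rfl⟩, hord⟩ h2 d m, hdiv, hi',
      CfsgLib.Derangements.Sub.sing_room_even P.pos (hi' ▸ ht) hmd (hex (by omega))]
    constructor
    · rintro ⟨a1, a2, a3⟩
      exact Or.inr ⟨hrp, h2r, a1, by omega, Or.inr a3⟩
    · rintro (⟨e, -⟩ | ⟨-, -, a1, a2, a3⟩)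
      · exact absurd e hr2
      · exact ⟨a1, by omega, a3.resolve_left (hi' ▸ hno)⟩
  · have hi' : i = h := by
      have h1 := hch
      rw [hc, if_neg (Nat.not_even_iff_odd.2 ho)] at h1
      omega
    rw [CfsgLib.Derangements.Sub.Steps.main P (i := i) (J := fun s => s)
      ⟨Or.inl ⟨hi', ho, fun s => rfl⟩, hord⟩ h2 d m, hi',
      CfsgLib.Derangements.Sub.sing_room_odd P.pos hmd (hex (by omega))]
    constructor
    · rintro ⟨a1, a2⟩
      exact Or.inr ⟨hrp, h2r, a1, by omega, Or.inl (hi' ▸ ho)⟩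
    · rintro (⟨e, -⟩ | ⟨-, -, a1, a2, -⟩)
      · exact absurd e hr2
      · exact ⟨a1, by omega⟩

end Cfsg.Agent.S5972
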