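import Cfsg.Statements.S5973
import Cfsg.Agent.Lib.Derangements.SingularPlusTwo

set_option autoImplicit false
open scoped MatrixGroups
open Cfsg CfsgLib.Derangements

namespace Cfsg.Agent.S5973

/-- Elements of prime order of PΩ⁺_n(q), n = 2d ≥ 8, with no fixed totally singular `m`-space, `m < n/2`. Here `T = PΩ⁺_n(q)` is realised through `Ω⁺_n(q)`, the commutator subgroup of the isometry group of the quadratic form `Σ xᵢyᵢ` over the field `F` with `q` elements; an element of `T` of prime order `r` is an element `x` of `Ω⁺_n(q)` with `x^r` scalar and `x` not scalar. Let `1 ≤ m < d` and let `r` be a prime dividing the number of totally singular `m`-spaces. For `r ≠ p` let `i` be the multiplicative order of `q` modulo `r`, `c = i` for `i` even and `c = 2i` for `i` odd, and write `k = n mod c`, `ℓ = m mod i`, `n' = ⌊n/i⌋`, `m' = ⌊m/i⌋`, `t = (r−1)/i`. Then every element of `T` of order `r` fixes some totally singular `m`-space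 if and only if one of: (i) `r = 2 ≠ p` and either `q ≡ 1 (mod 4)`, or `q ≡ 3 (mod 4)`, `m ≤ n/2 − 2` and (`m` even or `n ≡ 2 (mod 4)`); (ii) `r ≠ p` odd, `i` odd, `i ≤ m` and `k ≥ 2ℓ`; (iii) `r ≠ p` odd, `i` even, `i ≤ m`, `n' − 2m' ≥ t`, and one of: `i ≥ 2ℓ`, `k = 0`, `n/i` odd and `n' − 2m' > t`; or `k ≥ 2ℓ` and `n'` even; or `k > 2ℓ` and `n'` odd. -/
theorem result {F : Type*} [Field F] [Fintype F] {p : ℕ} [Fact p.Prime] [CharP F p] {q : ℕ} (hq : Fintype.card F = q)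
    (d m : ℕ) (hd : 4 ≤ d) (hm : 1 ≤ m) (hmd : m < d)
    (r : ℕ) [Fact r.Prime]
    (hrΩ : r ∣ Nat.card {W : Submodule F (Fin d ⊕ Fin d → F) // Module.finrank F ↥W = m ∧ (∀ w ∈ W, Cfsg.quadFormPlus d F w = 0)})
    (i c : ℕ) (hi : i = orderOf (q : ZMod r)) (hc : c = if Even i then i else 2 * i) :
    (∀ x : GL (Fin d ⊕ Fin d) F, x ∈ Cfsg.Geo.omegaGL (Cfsg.quadFormPlus d F) →
      (∃ z : F, ((x ^ r : GL (Fin d ⊕ Fin d) F) : Matrix (Fin d ⊕ Fin d) (Fin d ⊕ Fin d) F) = z • (1 : Matrix (Fin d ⊕ Fin d) (Fin d ⊕ Fin d) F)) →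
      (∀ z : F, (x : Matrix (Fin d ⊕ Fin d) (Fin d ⊕ Fin d) F) ≠ z • (1 : Matrix (Fin d ⊕ Fin d) (Fin d ⊕ Fin d) F)) →
      ∃ W : Submodule F (Fin d ⊕ Fin d → F), Module.finrank F ↥W = m ∧ (∀ w ∈ W, Cfsg.quadFormPlus d F w = 0) ∧
        W.map (Matrix.toLin' (x : Matrix (Fin d ⊕ Fin d) (Fin d ⊕ Fin d) F)) ≤ W) ↔
    ((r = 2 ∧ p ≠ 2 ∧ (q % 4 = 1 ∨ (q % 4 = 3 ∧ m + 2 ≤ d ∧ (Even m ∨ (2 * d) % 4 = 2)))) ∨
     (r ≠ p ∧ 2 < r ∧ Odd i ∧ i ≤ m ∧ 2 * (m % i) ≤ (2 * d) % c) ∨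
     (r ≠ p ∧ 2 < r ∧ Even i ∧ i ≤ m ∧ (r - 1) / i + 2 * (m / i) ≤ (2 * d) / i ∧
       ((2 * (m % i) ≤ i ∧ (2 * d) % c = 0 ∧ Odd ((2 * d) / i) ∧ (r - 1) / i + 2 * (m / i) < (2 * d) / i) ∨
        (2 * (m % i) ≤ (2 * d) % c ∧ Even ((2 * d) / i)) ∨
        (2 * (m % i) < (2 * d) % c ∧ Odd ((2 * d) / i))))) := by
  classical
  set Q := CfsgLib.ClassicalForms.qPlus d F with hQdef
  have hfun : ⇑Q = Cfsg.quadFormPlus d F := funext fun v => CfsgLib.ClassicalForms.qPlus_apply d v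
  have hQ : (QuadraticMap.polarBilin Q).Nondegenerate :=
    CfsgLib.ClassicalForms.nondeg_iff_polarBilin.2 (CfsgLib.ClassicalForms.nondeg_qPlus d)
  have hn : Module.finrank F (Fin d ⊕ Fin d → F) = 2 * d := by
    rw [Module.finrank_fintype_fun_eq_card]; simp; omega
  have hT : Sub.HasType Q ⊤ d 1 :=
    Sub.hasType_top_iff.2 ⟨hn, by rw [one_mul]; exact OrthType.hasDisc_qPlus d⟩
  have hrpr : r.Prime := Fact.out
  have hset : Nat.card {W : Submodule F (Fin d ⊕ Fin d → F) // Module.finrank F W = m ∧ Sub.Ts Q W} =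
      Nat.card {W : Submodule F (Fin d ⊕ Fin d → F) //
        Module.finrank F W = m ∧ ∀ w ∈ W, Cfsg.quadFormPlus d F w = 0} :=
    Nat.card_congr (Equiv.subtypeEquivRight fun W => by rw [Sub.Ts, hfun])
  rw [← hset] at hrΩ
  have hiff : (∀ x : GL (Fin d ⊕ Fin d) F, x ∈ Cfsg.Geo.omegaGL (Cfsg.quadFormPlus d F) →
      (∃ z : F, ((x ^ r : GL (Fin d ⊕ Fin d) F) : Matrix (Fin d ⊕ Fin d) (Fin d ⊕ Fin d) F) = z • (1 : Matrix (Fin d ⊕ Fin d) (Fin d ⊕ Fin d) F)) →
      (∀ z : F, (x : Matrix (Fin d ⊕ Fin d) (Fin d ⊕ Fin d) F) ≠ z • (1 : Matrix (Fin d ⊕ Fin d) (Fin d ⊕ Fin d) F)) →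
      ∃ W : Submodule F (Fin d ⊕ Fin d → F), Module.finrank F ↥W = m ∧ (∀ w ∈ W, Cfsg.quadFormPlus d F w = 0) ∧
        W.map (Matrix.toLin' (x : Matrix (Fin d ⊕ Fin d) (Fin d ⊕ Fin d) F)) ≤ W) ↔ Sub.AllFixTs Q m r := by
    simp only [Sub.map_le_iff_invariant]
    rw [← hfun]
    rfl
  rw [hiff]
  by_cases hrp : r = p
  · exfalso
    obtain ⟨W, -, hW1, hW2⟩ := Sub.exists_singular_type (Sub.nd_top hQ) (Or.inl rfl) hT (k := m) (Or.inl hmd)
    have h1 := Sub.card_singular_modEq_one p m Q hQ (by rw [hn]; omega) ⟨W, hW1, hW2⟩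
    have h3 := Nat.modEq_zero_iff_dvd.2 (hrp ▸ hrΩ)
    have h4 := h3.symm.trans h1
    rw [Nat.modEq_iff_dvd' (Nat.zero_le 1), Nat.sub_zero, Nat.dvd_one] at h4
    exact (Fact.out : p.Prime).ne_one h4
  by_cases hr2 : r = 2
  · subst hr2
    have hp2 : p ≠ 2 := Ne.symm hrp
    have h2 : (2 : F) ≠ 0 := fun h => hp2 ((Nat.prime_dvd_prime_iff_eq Fact.out Nat.prime_two).1
      ((CharP.cast_eq_zero_iff F p 2).1 (by exact_mod_cast h)))
    have hodd : Odd q := by
      obtain ⟨n, hpp, hn'⟩ := FiniteField.card F p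
      rw [← hq, hn']; exact (hpp.odd_of_ne_two hp2).pow
    have hq2 := Nat.odd_iff.1 hodd
    have hsqiff : IsSquare (-1 : F) ↔ q % 4 = 1 := by
      rw [FiniteField.isSquare_neg_one_iff, hq]
      omega
    rw [Sub.singular_plus_two h2 hd hm hmd, hsqiff]
    have hsimp : ¬ ((2:ℕ) < 2) := by omega
    simp only [hsimp, hp2, false_and, and_false, or_false, true_and, ne_eq, not_false_eq_true]
    simp only [Nat.even_iff, Nat.odd_iff]
    omega
  have h2r : 2 < r := lt_of_le_of_ne hrpr.two_le (Ne.symm hr2)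
  have hrodd : Odd r := hrpr.odd_of_ne_two hr2
  obtain ⟨h, η, P, hch, heven, hodd', hipos, hidvd⟩ := Sub.params_exist (F := F) hrpr hr2 hrp hq hi hc
  have hord : orderOf ((Fintype.card F : ℕ) : ZMod r) = i := by rw [hq]; exact hi.symm
  have hcard : Fintype.card (Fin d ⊕ Fin d) ≠ 4 := by simp; omega
  haveI : Nonempty (Fin d ⊕ Fin d) := ⟨Sum.inl ⟨0, by omega⟩⟩
  haveI : Nontrivial (Fin d ⊕ Fin d → F) := Module.nontrivial_of_finrank_pos (R := F) (by omega)
  have hbridge : Sub.AllFixTs Q m r ↔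
      ∀ g : Module.End F (Fin d ⊕ Fin d → F), g ^ r = 1 → (∀ v, Q (g v) = Q v) → g ≠ 1 →
        ∃ W : Submodule F (Fin d ⊕ Fin d → F), Module.finrank F W = m ∧ Sub.Ts Q W ∧ ∀ w ∈ W, g w ∈ W := by
    constructor
    · intro H g hg hgQ hg1
      obtain ⟨x, hx, hxr, -, hxg⟩ := Sub.exists_matrix hQ (Or.inr hcard) hrodd hg hgQ
      obtain ⟨W, hWd, hWT, hWi⟩ := H x hx ⟨1, by rw [hxr, one_smul]; rfl⟩ fun z hz => by
        have hgz : g = z • 1 := by rw [← hxg, hz, map_smul, Matrix.toLin'_one]; rfl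
        obtain ⟨v, hv⟩ := CfsgLib.Classes.exists_anisotropic_vector Q hQ
        have h1 := hgQ v
        rw [hgz, LinearMap.smul_apply, Module.End.one_apply, QuadraticMap.map_smul, smul_eq_mul] at h1
        have hz2 : z * z = 1 := mul_right_cancel₀ hv (h1.trans (one_mul _).symm)
        obtain ⟨k, rfl⟩ := hrodd
        have hzr : z ^ (2 * k + 1) = z := by rw [pow_succ, pow_mul, pow_two, hz2, one_pow, one_mul]
        rw [hgz, smul_pow, one_pow, hzr] at hg
        exact hg1 (hgz.trans hg)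
      exact ⟨W, hWd, hWT, fun w hw => hxg ▸ hWi w hw⟩
    · intro H x hx hz hns
      obtain ⟨g, hg, hgQ, hg1, hiff'⟩ := Sub.exists_end hQ hrodd hx hz hns
      obtain ⟨W, hWd, hWT, hWi⟩ := H g hg hgQ hg1
      exact ⟨W, hWd, hWT, Sub.map_le_iff_invariant.1 ((hiff' W).2 hWi)⟩
  rw [hbridge]
  have hhp := P.pos
  obtain ⟨S, hS, hEle, hEmax, hEzero⟩ := Sub.minFix_spec (η := η) (εV := 1) hhp (show 0 < d by omega)
  have hnot : ¬ (m < i ∧ (m < Sub.minFix d h η 1 ∨ (m = Sub.minFix d h η 1 ∧ 1 = η ^ S))) := fun ⟨a, b⟩ =>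
    Sub.not_dvd_card_singular_even P hQ (by omega) (Or.inl rfl) hT
      (by rw [Nat.card_eq_fintype_card, hord]; exact a)
      (b.imp id fun ⟨b1, b2⟩ => ⟨b1, fun S' hS' => by
        rw [Nat.eq_of_mul_eq_mul_left hhp (show h * S' = h * S by omega)]; exact b2⟩) hrΩ
  obtain ⟨-, hnc⟩ := Sub.mod_two_mul d hhp
  rw [hch, hnc]
  simp only [hr2, hrp, h2r, false_and, not_false_eq_true, ne_eq, true_and, false_or]
  rcases Nat.even_or_odd i with he | ho
  · have hi' : i = 2 * h := by rw [← hch, hc, if_pos he]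
    have hno : ¬ Odd i := Nat.not_odd_iff_even.2 he
    have ht : 1 ≤ (r - 1) / i := (Nat.one_le_div_iff hipos).2 (Nat.le_of_dvd (by omega) hidvd)
    obtain rfl := heven he
    have hev : ∀ k : ℕ, (1 : ℤ) = (-1) ^ k ↔ Even k := fun k => by
      rw [eq_comm]; exact neg_one_pow_eq_one_iff_even (by norm_num)
    have hEh : Sub.minFix d h (-1) 1 = h → Even S := fun e => by
      have := hEmax e
      rw [ne_eq, hev, Nat.even_add_one, not_not] at this
      exact this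
    have hE0 : Sub.minFix d h (-1) 1 = 0 → Even S := fun e => (hev S).1 (hEzero e)
    rw [Sub.Steps.forall_singular_iff P (i := i) (J := fun s => (s + 1 - (r - 1) / i) / 2)
      ⟨Or.inr ⟨hi', fun s => rfl⟩, hord⟩ hQ (Or.inl rfl) hT m]
    simp only [hno, false_and, false_or, he, true_and]
    rw [hi'] at ht ⊢
    rw [Sub.sing_room_twice hhp hm hmd ht hS hEle hEh hE0 (by rw [← hi', ← hev]; exact hnot),
      Nat.mul_div_mul_left _ _ (by norm_num : 0 < 2)]
    -- the smallest fixed space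
    have hdm := Nat.div_add_mod d h
    have hdl := Nat.mod_lt d hhp
    by_cases hcase : d % h = 0 ∧ Odd (d / h)
    · have hE : Sub.minFix d h (-1) 1 = h := by
        unfold Sub.minFix
        rw [if_pos ⟨hcase.1, fun e => Nat.not_even_iff_odd.2 hcase.2 ((hev _).1 e)⟩]
      have hSeq : S + 1 = d / h := Nat.eq_of_mul_eq_mul_left hhp (by rw [mul_add, mul_one]; omega)
      have hSe := hEh hE
      rw [hE]
      simp only [hcase.1, hcase.2, Nat.not_even_iff_odd.2 hcase.2, hSe, and_true, true_and, and_false, false_or]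
      omega
    · have hE : Sub.minFix d h (-1) 1 = d % h := by
        unfold Sub.minFix
        rw [if_neg fun ⟨a, b⟩ => hcase ⟨a, Nat.not_even_iff_odd.1 fun e => b ((hev _).2 e)⟩]
      have hSeq : S = d / h := Nat.eq_of_mul_eq_mul_left hhp (by omega)
      rw [hE, hSeq]
      simp only [Nat.even_iff, Nat.odd_iff] at hcase ⊢
      omega
  · have hno : ¬ Even i := Nat.not_even_iff_odd.2 ho
    have hi' : i = h := by
      have h1 := hch
      rw [hc, if_neg hno] at h1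
      omega
    obtain rfl := hodd' ho
    rw [Sub.Steps.forall_singular_iff P (i := i) (J := fun s => s) ⟨Or.inl ⟨hi', ho, fun s => rfl⟩, hord⟩ hQ
      (Or.inl rfl) hT m]
    simp only [hno, false_and, or_false, ho, true_and]
    subst hi'
    have hE : Sub.minFix d i 1 1 = d % i := by
      unfold Sub.minFix; rw [if_neg fun hab => hab.2 (one_pow _).symm]
    have hex : ¬ m ≤ d % i := fun hle => by
      rw [hE, one_pow] at hnot
      refine hnot ⟨lt_of_le_of_lt hle (Nat.mod_lt d hhp), ?_⟩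
      rcases lt_or_eq_of_le hle with a | a
      · exact Or.inl a
      · exact Or.inr ⟨a, rfl⟩
    rw [show 2 * (m % i) ≤ 2 * (d % i) ↔ m % i ≤ d % i by omega, ← Sub.sing_room_odd hhp hmd.le hex]
    simp only [Sub.SingRoomEven, Sub.AdmEven, Sub.SingRoom, one_pow, and_true]
    constructor
    · intro H s h1 h2
      obtain ⟨j, a, b, c⟩ := H s ⟨h1, lt_or_eq_of_le h2⟩
      exact ⟨j, a, b, le_iff_lt_or_eq.2 c⟩
    · rintro H s ⟨h1, h2⟩
      obtain ⟨j, a, b, c⟩ := H s h1 (le_iff_lt_or_eq.2 h2)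
      exact ⟨j, a, b, lt_or_eq_of_le c⟩

end Cfsg.Agent.S5973
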