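import Cfsg.Statements.S5974
import Cfsg.Agent.Lib.Derangements.SubspaceEvenEvenMain

set_option autoImplicit false
open scoped MatrixGroups
open Cfsg CfsgLib.Derangements

namespace Cfsg.Agent.S5974

/-- Elements of prime order of PΩ⁺_n(q), n = 2d ≥ 8, with no fixed nondegenerate hyperbolic `m`-space. Here `T = PΩ⁺_n(q)` is realised through `Ω⁺_n(q)`, the commutator subgroup of the isometry group of `Q = Σ xᵢyᵢ` over the field `F` with `q` elements; an element of `T` of prime order `r` is an element `x` of `Ω⁺_n(q)` with `x^r` scalar and `x` not scalar. A hyperbolic `m`-space is a subspace `W` of even dimension `m` on which the polar form of `Q` is nondegenerate and which contains a totally singular subspace of dimension `m/2`. Let `m` be even with `2 ≤ m < n/2`, and let `r` be a prime dividing the number of hyperbolic `m`-spaces, with `r = 2` or `r ≠ p`. For `r ≠ p` let `i` be the multiplicative order of `q` modulo `r`, `c = i` for `i` even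 and `c = 2i` for `i` odd, and write `k = n mod c`, `ℓ' = m mod c`. Then every element of `T` of order `r` fixes some hyperbolic `m`-space if and only if one of: (i) `r = 2` and (`n ≡ 2 (mod 4)`, or `m ≡ 0 (mod 4)`, or `q ≡ 1 (mod 4)`); (ii) `r ≠ p` odd, `i` odd, `c ≤ m` and `k ≥ ℓ'`; (iii) `r ≠ p` odd, `i` even, and either `k = 0` and (`n/i` odd, or `ℓ' = 0` and `m/i` even), or `i ≤ m` and (`k > ℓ' > 0`, or `k = ℓ' > 0` and `(n + m − 2k)/i` even, or `k > ℓ' = 0` and `m/i` even). -/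
theorem result {F : Type*} [Field F] [Fintype F] {p : ℕ} [Fact p.Prime] [CharP F p] {q : ℕ} (hq : Fintype.card F = q)
    (d m : ℕ) (hd : 4 ≤ d) (hm : 2 ≤ m) (hme : Even m) (hmd : m < d)
    (r : ℕ) [Fact r.Prime] (hr : r = 2 ∨ r ≠ p)
    (hrΩ : r ∣ Nat.card {W : Submodule F (Fin d ⊕ Fin d → F) // (Module.finrank F ↥W = m ∧ (∀ u ∈ W, u ≠ 0 → ∃ v ∈ W, QuadraticMap.polar (Cfsg.quadFormPlus d F) u v ≠ 0) ∧
          ∃ U : Submodule F (Fin d ⊕ Fin d → F), U ≤ W ∧ 2 * Module.finrank F ↥U = m ∧ ∀ u ∈ U, Cfsg.quadFormPlus d F u = 0)})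
    (i c : ℕ) (hi : i = orderOf (q : ZMod r)) (hc : c = if Even i then i else 2 * i) :
    (∀ x : GL (Fin d ⊕ Fin d) F, x ∈ Cfsg.Geo.omegaGL (Cfsg.quadFormPlus d F) →
      (∃ z : F, ((x ^ r : GL (Fin d ⊕ Fin d) F) : Matrix (Fin d ⊕ Fin d) (Fin d ⊕ Fin d) F) = z • (1 : Matrix (Fin d ⊕ Fin d) (Fin d ⊕ Fin d) F)) →
      (∀ z : F, (x : Matrix (Fin d ⊕ Fin d) (Fin d ⊕ Fin d) F) ≠ z • (1 : Matrix (Fin d ⊕ Fin d) (Fin d ⊕ Fin d) F)) →
      ∃ W : Submodule F (Fin d ⊕ Fin d → F), (Module.finrank F ↥W = m ∧ (∀ u ∈ W, u ≠ 0 → ∃ v ∈ W, QuadraticMap.polar (Cfsg.quadFormPlus d F) u v ≠ 0) ∧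
          ∃ U : Submodule F (Fin d ⊕ Fin d → F), U ≤ W ∧ 2 * Module.finrank F ↥U = m ∧ ∀ u ∈ U, Cfsg.quadFormPlus d F u = 0) ∧
        W.map (Matrix.toLin' (x : Matrix (Fin d ⊕ Fin d) (Fin d ⊕ Fin d) F)) ≤ W) ↔
    ((r = 2 ∧ ((2 * d) % 4 = 2 ∨ m % 4 = 0 ∨ q % 4 = 1)) ∨
     (r ≠ p ∧ 2 < r ∧ Odd i ∧ c ≤ m ∧ m % c ≤ (2 * d) % c) ∨
     (r ≠ p ∧ 2 < r ∧ Even i ∧
       (((2 * d) % c = 0 ∧ (Odd ((2 * d) / i) ∨ (m % c = 0 ∧ Even (m / i)))) ∨
        (i ≤ m ∧ ((m % c < (2 * d) % c ∧ 0 < m % c) ∨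
                  ((2 * d) % c = m % c ∧ 0 < m % c ∧ Even ((2 * d + m - 2 * ((2 * d) % c)) / i)) ∨
                  (0 < (2 * d) % c ∧ m % c = 0 ∧ Even (m / i))))))) := by
  classical
  obtain ⟨l, rfl⟩ : ∃ l, m = 2 * l := hme.two_dvd
  set Q := CfsgLib.ClassicalForms.qPlus d F with hQdef
  have hfun : ⇑Q = Cfsg.quadFormPlus d F := funext fun v => CfsgLib.ClassicalForms.qPlus_apply d v
  have hQ : (QuadraticMap.polarBilin Q).Nondegenerate :=
    CfsgLib.ClassicalForms.nondeg_iff_polarBilin.2 (CfsgLib.ClassicalForms.nondeg_qPlus d)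
  have hT : Sub.HasType Q ⊤ d 1 := Sub.hasType_top_iff.2 ⟨by
    rw [Module.finrank_fintype_fun_eq_card]; simp; omega,
    by rw [one_mul]; exact OrthType.hasDisc_qPlus d⟩
  have hrpr : r.Prime := Fact.out
  rw [Nat.card_congr (Equiv.subtypeEquivRight (Sub.spec_plus_iff hfun (l := l)))] at hrΩ
  rw [Sub.allFixE_iff hfun (l := l)]
  have hl : 1 ≤ l := by omega
  by_cases hr2 : r = 2
  · subst hr2
    have hsimp : ¬ ((2:ℕ) < 2) := by omega
    simp only [hsimp, false_and, and_false, or_false, true_and]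
    have e1 : (2 * d) % 4 = 2 ↔ Odd d := by rw [Nat.odd_iff]; omega
    have e2 : 2 * l % 4 = 0 ↔ Even l := by rw [Nat.even_iff]; omega
    rw [e1, e2]
    by_cases hp : p = 2
    · subst hp
      have hqe : q % 4 ≠ 1 := fun h => by
        have h1 : (2 : ℕ) ∣ q := by
          obtain ⟨n, -, hn⟩ := FiniteField.card F 2
          rw [← hq, hn]; exact dvd_pow_self 2 n.ne_zero
        omega
      constructor
      · intro H
        by_contra hcon
        push Not at hcon
        obtain ⟨hde, hlo, -⟩ := hcon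
        obtain ⟨x, hx, hxx, hns, hno⟩ := Sub.exists_isotropic_involution (F := F) hd (Nat.not_odd_iff_even.1 hde)
        obtain ⟨W, hWN, hWT, hWi⟩ := H x (hfun ▸ hx) ⟨1, by rw [hxx, one_smul]⟩ hns
        exact Nat.not_even_iff_odd.2 (Nat.not_even_iff_odd.1 hlo) (hno W hWN hWi l hWT.1)
      · intro h
        refine Sub.eveneven_two_char2_pos hQ hT hl hmd ?_
        rcases h with h | h | h
        exacts [Or.inr h, Or.inl h, absurd h hqe]
    · have h2 : (2 : F) ≠ 0 := fun h => hp ((Nat.prime_dvd_prime_iff_eq Fact.out Nat.prime_two).1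
        ((CharP.cast_eq_zero_iff F p 2).1 (by exact_mod_cast h)))
      have hodd : Odd q := by
        obtain ⟨n, hpp, hn⟩ := FiniteField.card F p
        rw [← hq, hn]; exact (hpp.odd_of_ne_two hp).pow
      rw [Sub.eveneven_two_odd h2 hQ hT hl hmd (Or.inl rfl)]
      obtain ⟨s1, s2, -⟩ := Sub.sq_symbols (F := F) (hq ▸ hodd)
      rw [hq] at s1 s2
      have hq2 := Nat.odd_iff.1 hodd
      rcases Sub.sqNegOne_cases (F := F) with f1 | f1
      · have := s1.1 f1
        simp [f1, this]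
      · have h3 := s2.1 f1
        have hne : q % 4 ≠ 1 := by omega
        rcases Int.units_eq_one_or (Sub.sqTwo F) with f2 | f2 <;>
          rcases Nat.even_or_odd d with hde | hdo <;> rcases Nat.even_or_odd l with hle | hlo
        all_goals simp_all [Even.neg_one_pow, Odd.neg_one_pow, Nat.not_even_iff_odd, Nat.not_odd_iff_even]
  have hrp : r ≠ p := fun h => by rcases hr with h' | h' <;> omega
  obtain ⟨h, η, P, hch, heven, hodd', -, -⟩ := Sub.params_exist (F := F) hrpr hr2 hrp hq hi hc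
  rw [Sub.eveneven_other P (hrpr.odd_of_ne_two hr2) hQ (Or.inl rfl) hT hl hmd (Or.inl rfl) hrΩ]
  have h2r : 2 < r := lt_of_le_of_ne hrpr.two_le (Ne.symm hr2)
  have hh := P.pos
  obtain ⟨-, hmc⟩ := Sub.mod_two_mul l hh
  obtain ⟨-, hnc⟩ := Sub.mod_two_mul d hh
  have hfl : l % h = 0 → h ≤ l := fun e => Nat.le_of_dvd hl (Nat.dvd_of_mod_eq_zero e)
  rw [hch, hmc, hnc]
  simp only [hr2, hrp, h2r, false_and, not_false_eq_true, ne_eq, true_and, false_or]
  rcases Nat.even_or_odd i with he | ho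
  · have hi' : i = 2 * h := by rw [← hch, hc, if_pos he]
    have hno : ¬ Odd i := Nat.not_odd_iff_even.2 he
    rw [heven he]
    simp only [hno, false_and, false_or, he, true_and]
    rw [hi', Nat.mul_div_mul_left _ _ (by norm_num : 0 < 2), Nat.mul_div_mul_left _ _ (by norm_num : 0 < 2)]
    have hsum : d % h = l % h → (2 * d + 2 * l - 2 * (2 * (d % h))) / (2 * h) = d / h + l / h := fun e => by
      have a1 := Nat.div_add_mod d h
      have a2 := Nat.div_add_mod l h
      rw [show 2 * d + 2 * l - 2 * (2 * (d % h)) = 2 * h * (d / h + l / h) by rw [mul_add, mul_assoc, mul_assoc]; omega,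
        Nat.mul_div_cancel_left _ (by omega)]
    have hev : ∀ n : ℕ, ((-1 : ℤ) ^ n = 1 ↔ Even n) := fun n => neg_one_pow_eq_one_iff_even (by norm_num)
    have e1 : (1 : ℤ) = (-1) ^ (d / h) ↔ Even (d / h) := by rw [eq_comm]; exact hev _
    have e2 : (1 : ℤ) = (-1) ^ (l / h) ↔ Even (l / h) := by rw [eq_comm]; exact hev _
    have e3 : (1 : ℤ) * (-1) ^ (l / h) = 1 * (-1) ^ (d / h) ↔ (Even (l / h) ↔ Even (d / h)) := by
      rw [one_mul, one_mul]
      rcases Nat.even_or_odd (l / h) with a | a <;> rcases Nat.even_or_odd (d / h) with b | b <;>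
        simp [a.neg_one_pow, b.neg_one_pow] <;> rw [Nat.even_iff, Nat.even_iff] at * <;> simp only [Nat.odd_iff] at * <;> omega
    have e4 : (d % h = l % h ∧ 0 < 2 * (l % h) ∧ Even ((2 * d + 2 * l - 2 * (2 * (d % h))) / (2 * h))) ↔
        (d % h = l % h ∧ 0 < l % h ∧ (Even (d / h) ↔ Even (l / h))) := by
      constructor
      · rintro ⟨a, b, c⟩
        exact ⟨a, by omega, Nat.even_add.1 (hsum a ▸ c)⟩
      · rintro ⟨a, b, c⟩
        exact ⟨a, by omega, (hsum a).symm ▸ Nat.even_add.2 c⟩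
    rw [Nat.mul_right_inj (show (2 : ℕ) ≠ 0 by norm_num), e4, e1, e2, e3]
    simp only [Nat.even_iff, Nat.odd_iff]
    omega
  · have hno : ¬ Even i := Nat.not_even_iff_odd.2 ho
    rw [hodd' ho, one_pow, one_pow]
    simp only [hno, false_and, or_false, ho, true_and]
    norm_num
    omega

end Cfsg.Agent.S5974
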