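import Cfsg.Statements.S5975
import Cfsg.Agent.Lib.Omega.SympFieldExt
import Cfsg.Agent.Lib.Omega.SympTestElements
import Cfsg.Agent.Lib.Omega.QuadraticField
-- import your own Cfsg.Agent.* helpers here

set_option autoImplicit false
open scoped MatrixGroups
open scoped Matrix
open Cfsg

namespace Cfsg.Agent.S5975

open CfsgLib CfsgLib.Geometric CfsgLib.Omega CfsgLib.Omega.TensorRank Module
open scoped Matrix

variable {F : Type*} [Field F]

theorem ap_neg' {ι : Type} [Fintype ι] [DecidableEq ι] (g : GL ι F) (v : ι → F) : ap g (-v) = -ap g v :=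
  Matrix.mulVec_neg _ _

/-- An adapted form for a non-scalar element whose square is plus or minus one, in dimension four. -/
theorem exists_normal_family [Fintype F] [DecidableEq F] (hodd : Fintype.card F % 2 = 1) {x : GL (Fin 2 ⊕ Fin 2) F}
    (hx : x ∈ Cfsg.spGL 2 F) {z : F} (hz : ∀ v, ap x (ap x v) = z • v) (hz1 : z * z = 1)
    (hns : ∀ c : F, (x : Matrix (Fin 2 ⊕ Fin 2) (Fin 2 ⊕ Fin 2) F) ≠ c • 1) :
    ∃ b : Fin 2 × Fin 2 → (Fin 2 ⊕ Fin 2 → F),
      (∀ i j s, Cfsg.sympForm 2 F (b (i, s)) (b (j, s)) = 0) ∧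
      (∀ i j, Cfsg.sympForm 2 F (b (i, 0)) (b (j, 1)) = if i = j then 1 else 0) ∧
      ∀ i s, ap x (b (i, s)) = if z = 1 then (if i = 0 then b (i, s) else -b (i, s))
        else (if s = 0 then b (i, 1) else -b (i, 0)) := by
  classical
  have h2 : (2 : F) ≠ 0 := fun h => by
    haveI := CharTwo.of_one_ne_zero_of_two_eq_zero (R := F) one_ne_zero h
    rw [FiniteField.even_card_iff_char_two.1 (ringChar.eq F 2)] at hodd
    omega
  set B := sympBilin 2 F with hBdef
  have hB : ∀ v, B v v = 0 := sympBilin_self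
  have hf : ∀ u v, B (ap x u) (ap x v) = B u v := fun u v => by
    rw [hBdef, sympBilin_apply, sympBilin_apply]; exact hx u v
  have hdim : finrank F (Fin 2 ⊕ Fin 2 → F) = 4 := by
    rw [Module.finrank_fintype_fun_eq_card, Fintype.card_sum, Fintype.card_fin]
  rcases mul_self_eq_mul_self_iff.1 (hz1.trans (one_mul 1).symm) with rfl | rfl
  · -- eigenspaces
    let P : Submodule F (Fin 2 ⊕ Fin 2 → F) := Module.End.eigenspace (Matrix.toLin' (x : Matrix _ _ F)) 1
    let M : Submodule F (Fin 2 ⊕ Fin 2 → F) := Module.End.eigenspace (Matrix.toLin' (x : Matrix _ _ F)) (-1)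
    have hP : ∀ v, v ∈ P ↔ ap x v = v := fun v => by
      rw [Module.End.mem_eigenspace_iff, one_smul]; rfl
    have hM : ∀ v, v ∈ M ↔ ap x v = -v := fun v => by
      rw [Module.End.mem_eigenspace_iff, neg_one_smul]; rfl
    have horth : ∀ u ∈ P, ∀ v ∈ M, B u v = 0 := fun u hu v hv => by
      have h := hf u v
      rw [(hP u).1 hu, (hM v).1 hv, map_neg] at h
      exact (mul_eq_zero.1 (by linear_combination -h : (2 : F) * B u v = 0)).resolve_left h2
    have hdec : ∀ v, (2 : F)⁻¹ • (v + ap x v) ∈ P ∧ (2 : F)⁻¹ • (v - ap x v) ∈ M ∧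
        (2 : F)⁻¹ • (v + ap x v) + (2 : F)⁻¹ • (v - ap x v) = v := fun v => ⟨(hP _).2 (by
      rw [ap_smul, ap_add, hz, one_smul, add_comm]), (hM _).2 (by
      rw [ap_smul, ap_sub, hz, one_smul, ← smul_neg, neg_sub]), by
      rw [← smul_add, add_add_sub_cancel, ← two_smul F v, smul_smul, inv_mul_cancel₀ h2, one_smul]⟩
    have hPn : ∀ u ∈ P, (∀ w ∈ P, B u w = 0) → u = 0 := fun u hu h => sympBilin_nondegenerate u fun v => by
      obtain ⟨h1, h1', h1''⟩ := hdec v
      rw [← h1'', map_add, h _ h1, horth u hu _ h1', add_zero]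
    have hMn : ∀ u ∈ M, (∀ w ∈ M, B u w = 0) → u = 0 := fun u hu h => sympBilin_nondegenerate u fun v => by
      obtain ⟨h1, h1', h1''⟩ := hdec v
      rw [← h1'', map_add, h _ h1', alt_skew hB, horth _ h1 u hu, neg_zero, add_zero]
    obtain ⟨α, _, _, b, hb0, hb1, hbm, hbl, hbs⟩ := exists_symplectic_family B hB P hPn
    obtain ⟨β, _, _, b', hb0', hb1', hbm', hbl', hbs'⟩ := exists_symplectic_family B hB M hMn
    have hsum : 2 * Fintype.card α + 2 * Fintype.card β = 4 := by
      have h1 : finrank F P = 2 * Fintype.card α := by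
        rw [← hbs, finrank_span_eq_card hbl, Fintype.card_prod, Fintype.card_fin, mul_comm]
      have h2' : finrank F M = 2 * Fintype.card β := by
        rw [← hbs', finrank_span_eq_card hbl', Fintype.card_prod, Fintype.card_fin, mul_comm]
      have h3 := Submodule.finrank_sup_add_finrank_inf_eq P M
      have h4 : P ⊔ M = ⊤ := eq_top_iff.2 fun v _ =>
        Submodule.mem_sup.2 ⟨_, (hdec v).1, _, (hdec v).2.1, (hdec v).2.2⟩
      have h5 : P ⊓ M = ⊥ := (Submodule.eq_bot_iff _).2 fun v ⟨hv, hv'⟩ => by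
        have h := ((hP v).1 hv).symm.trans ((hM v).1 hv')
        have : (2 : F) • v = 0 := by rw [two_smul]; exact eq_neg_iff_add_eq_zero.1 h
        exact (smul_eq_zero.1 this).resolve_left h2
      rw [h4, h5, finrank_top, finrank_bot, hdim, h1, h2'] at h3
      omega
    have hα : Fintype.card α = 1 := by
      by_contra hne
      rcases (show Fintype.card α = 0 ∨ Fintype.card β = 0 by omega) with h | h
      · have hP0 : P = ⊥ := by
          haveI := Fintype.card_eq_zero_iff.1 h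
          rw [← hbs, Set.range_eq_empty, Submodule.span_empty]
        refine hns (-1) (Matrix.ext_of_mulVec_single fun i => ?_)
        have := (hdec (Pi.single i 1)).1
        rw [hP0, Submodule.mem_bot, smul_eq_zero, or_iff_right (inv_ne_zero h2), add_eq_zero_iff_neg_eq] at this
        rw [← ap_def, ← this, Matrix.smul_mulVec, Matrix.one_mulVec, neg_one_smul]
      · have hM0 : M = ⊥ := by
          haveI := Fintype.card_eq_zero_iff.1 h
          rw [← hbs', Set.range_eq_empty, Submodule.span_empty]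
        refine hns 1 (Matrix.ext_of_mulVec_single fun i => ?_)
        have := (hdec (Pi.single i 1)).2.1
        rw [hM0, Submodule.mem_bot, smul_eq_zero, or_iff_right (inv_ne_zero h2), sub_eq_zero] at this
        rw [← ap_def, ← this, one_smul, Matrix.one_mulVec]
    obtain ⟨i₀, hi₀⟩ := Fintype.card_eq_one_iff.1 hα
    obtain ⟨j₀, hj₀⟩ := Fintype.card_eq_one_iff.1 (show Fintype.card β = 1 by omega)
    have hbb : ∀ u t, B (b u) (b' t) = 0 := fun u t => horth _ (hbm u) _ (hbm' t)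
    have hbb' : ∀ u t, B (b' t) (b u) = 0 := fun u t => by rw [alt_skew hB, hbb, neg_zero]
    refine ⟨fun x => if x.1 = 0 then b (i₀, x.2) else b' (j₀, x.2), ?_, ?_, ?_⟩
    · intro i j s
      rw [← sympBilin_apply, ← hBdef]
      fin_cases i <;> fin_cases j <;> simp [hb0, hb0', hbb, hbb']
    · intro i j
      rw [← sympBilin_apply, ← hBdef]
      fin_cases i <;> fin_cases j <;> simp [hb1, hb1', hbb, hbb']
    · intro i s
      fin_cases i
      · simp [(hP _).1 (hbm _)]
      · simp [(hM _).1 (hbm' _)]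
  · -- planes
    have hne : (-1 : F) ≠ 1 := fun h => h2 (by linear_combination -h)
    obtain ⟨α, _, _, b, π, hb⟩ := exists_adapted_basis (B := B) (f := Matrix.toLin' (x : Matrix _ _ F)) (z := -1)
      hB sympBilin_nondegenerate (fun u v => hf u v) (fun w => hz w)
    have hα : Fintype.card α = 2 := by
      have := Module.finrank_eq_card_basis b
      rw [hdim, Fintype.card_prod, Fintype.card_fin] at this
      omega
    have hplane : ∀ i, ∃ v, B v (ap x v) = 1 ∧ ∃ X Y : F, v = X • b (i, 0) + Y • b (i, 1) ∧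
        ∃ X' Y' : F, ap x v = X' • b (i, 0) + Y' • b (i, 1) := by
      intro i
      rcases hb.action i with ⟨-, k, k', hk, h0, h1⟩ | ⟨h, -⟩
      swap
      · exact absurd h hne
      change ap x _ = _ at h0 h1
      have hkk : k * k' = -1 := by
        have h := hz (b (i, 0))
        rw [h0, ap_smul, h1, smul_smul] at h
        exact smul_left_injective F (b.ne_zero _) h
      obtain ⟨X, Y, hXY⟩ := S5980.exists_rep hodd hk 1
      refine ⟨X • b (i, 0) + Y • b (i, 1), ?_, X, Y, rfl, Y * k', X * k, ?_⟩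
      · rw [ap_add, ap_smul, ap_smul, h0, h1]
        simp only [map_add, map_smul, LinearMap.add_apply, LinearMap.smul_apply, smul_eq_mul, hb.isotropic,
          hb.pairing, alt_skew hB (b (i, 1)) (b (i, 0)), if_true]
        rw [show k' = -k⁻¹ by
          field_simp
          linear_combination hkk]
        linear_combination hXY
      · rw [ap_add, ap_smul, ap_smul, h0, h1, smul_smul, smul_smul, add_comm]
    choose v hv X Y hvXY X' Y' hxv using hplane
    let e : Fin 2 ≃ α := (finCongr hα.symm).trans (Fintype.equivFin α).symm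
    have horth : ∀ i j, i ≠ j → ∀ a a' c c' : F,
        B (a • b (i, 0) + a' • b (i, 1)) (c • b (j, 0) + c' • b (j, 1)) = 0 := fun i j hij a a' c c' => by
      simp [hb.isotropic, hb.pairing, alt_skew hB (b (i, 1)) (b (j, 0)), hij, Ne.symm hij]
    refine ⟨fun y => if y.2 = 0 then v (e y.1) else ap x (v (e y.1)), ?_, ?_, ?_⟩
    · intro i j s
      rw [← sympBilin_apply]
      by_cases hij : i = j
      · subst hij; exact hB _
      · fin_cases s
        · simp only [Fin.zero_eta, if_true]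
          rw [hvXY, hvXY]
          exact horth _ _ (e.injective.ne hij) _ _ _ _
        · simp only [Fin.mk_one, one_ne_zero, if_false]
          rw [hf, hvXY, hvXY]
          exact horth _ _ (e.injective.ne hij) _ _ _ _
    · intro i j
      rw [← sympBilin_apply]
      simp only [one_ne_zero, if_true, if_false]
      by_cases hij : i = j
      · subst hij; rw [if_pos rfl]; exact hv _
      · rw [if_neg hij, hvXY, hxv]
        exact horth _ _ (e.injective.ne hij) _ _ _ _
    · intro i s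
      rw [if_neg hne]
      fin_cases s
      · simp
      · simp [hz]

/-- Non-scalar elements of square one (or minus one) of the symplectic group in dimension four are conjugate. -/
theorem exists_conj [Fintype F] (hodd : Fintype.card F % 2 = 1) {x y : GL (Fin 2 ⊕ Fin 2) F} (hx : x ∈ Cfsg.spGL 2 F)
    (hy : y ∈ Cfsg.spGL 2 F) {z : F} (hxz : ∀ v, ap x (ap x v) = z • v) (hyz : ∀ v, ap y (ap y v) = z • v)
    (hz1 : z * z = 1) (hxs : ∀ c : F, (x : Matrix (Fin 2 ⊕ Fin 2) (Fin 2 ⊕ Fin 2) F) ≠ c • 1)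
    (hys : ∀ c : F, (y : Matrix (Fin 2 ⊕ Fin 2) (Fin 2 ⊕ Fin 2) F) ≠ c • 1) :
    ∃ g ∈ Cfsg.spGL 2 F, g⁻¹ * x * g = y := by
  classical
  obtain ⟨b, hb0, hb1, hxb⟩ := exists_normal_family hodd hx hxz hz1 hxs
  obtain ⟨c, hc0, hc1, hyc⟩ := exists_normal_family hodd hy hyz hz1 hys
  obtain ⟨g, hg, hgc⟩ := S5980.exists_spGL_of_families (by simp) c b hc0 hc1 hb0 hb1
  refine ⟨g, hg, ?_⟩
  have hA : AdaptedFamily (sympBilin 2 F) (LinearMap.id : (Fin 2 ⊕ Fin 2 → F) →ₗ[F] _) 1 c 1 :=
    ⟨one_mul _, fun i j s => (sympBilin_apply _ _).trans (hc0 i j s),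
      fun i j => (sympBilin_apply _ _).trans (hc1 i j), fun i => Or.inr ⟨rfl, fun s => ⟨1, by simp⟩⟩⟩
  have hli := hA.linearIndependent (sympBilin_self (d := 2) (F := F))
  let C : Basis (Fin 2 × Fin 2) F (Fin 2 ⊕ Fin 2 → F) := Basis.mk hli (ge_of_eq (hli.span_eq_top_of_card_eq_finrank'
    (by simp)))
  have key : Matrix.toLin' ((g⁻¹ * x * g : GL (Fin 2 ⊕ Fin 2) F) : Matrix (Fin 2 ⊕ Fin 2) (Fin 2 ⊕ Fin 2) F) =
      Matrix.toLin' (y : Matrix (Fin 2 ⊕ Fin 2) (Fin 2 ⊕ Fin 2) F) := C.ext fun ⟨i, s⟩ => ?_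
  · exact gl_ext fun v => LinearMap.congr_fun key v
  rw [Matrix.toLin'_apply, Matrix.toLin'_apply, ← ap_def, ← ap_def, Basis.mk_apply, ap_mul, ap_mul, hgc, hxb, hyc]
  refine ap_injective g ?_
  rw [ap_ap_inv]
  split_ifs <;> simp [hgc, ap_neg']

/-- The field acting: order of the subgroup and the possible ranks of its elements of prime order. -/
theorem field_facts [Fintype F] {d k : ℕ} (hd : 0 < d) (hk : k.Prime) {E : Type*} [Field E] [Algebra F E] [Finite E]
    (hfk : finrank F E = k) (ρ : E →ₐ[F] Matrix (Fin d ⊕ Fin d) (Fin d ⊕ Fin d) F)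
    (K : Subalgebra F (Matrix (Fin d ⊕ Fin d) (Fin d ⊕ Fin d) F)) (hρK : ∀ m, m ∈ K ↔ ∃ a, ρ a = m)
    (hKf : Cfsg.Geo.IsSelfAdjointFor (Cfsg.sympForm d F) K)
    (hKalt : ∀ a ∈ K, ∀ v : Fin d ⊕ Fin d → F, Cfsg.sympForm d F (a *ᵥ v) v = 0) :
    (∃ d', d = k * d' ∧ (Fintype.card F ^ k) ^ (d' ^ 2) *
        ∏ i ∈ Finset.range d', ((Fintype.card F ^ k) ^ (2 * (i + 1)) - 1) ∣
      Nat.card ↥(Cfsg.Geo.subalgebraNormalizer K ⊓ Cfsg.spGL d F)) ∧
    ∀ (r : ℕ) [Fact r.Prime], ∀ y : GL (Fin d ⊕ Fin d) F, y ∈ Cfsg.spGL d F →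
      y ∈ Cfsg.Geo.subalgebraNormalizer K → y ^ r = 1 →
      (∃ w : ℕ, k * w = rk (y : Matrix (Fin d ⊕ Fin d) (Fin d ⊕ Fin d) F) ∧
          ((r : F) ≠ 0 → Even w ∧ orderOf ((Fintype.card F ^ k : ℕ) : ZMod r) ∣ w)) ∨
        (r = k ∧ d ≤ rk (y : Matrix (Fin d ⊕ Fin d) (Fin d ⊕ Fin d) F)) := by
  classical
  letI : Module E (Fin d ⊕ Fin d → F) :=
    Module.compHom _ ((Matrix.toLinAlgEquiv'.toAlgHom.comp ρ).toRingHom)
  have hsmul : ∀ (a : E) (v : Fin d ⊕ Fin d → F), a • v = ρ a *ᵥ v := fun a v => rfl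
  haveI : IsScalarTower F E (Fin d ⊕ Fin d → F) := ⟨fun c a v => by
    rw [hsmul, hsmul, map_smul, Matrix.smul_mulVec]⟩
  have hmem : ∀ a, ρ a ∈ K := fun a => (hρK _).mpr ⟨a, rfl⟩
  have hS : SympFieldExt.IsSympField F d E := ⟨fun a x y => hKf _ (hmem a) x y, fun a x => hKalt _ (hmem a) x⟩
  have hN : ∀ g : GL (Fin d ⊕ Fin d) F, g ∈ Cfsg.Geo.subalgebraNormalizer K ↔ CfsgLib.Geometric.ExtF.IsSemi E g :=
    CfsgLib.Geometric.ExtF.mem_normalizer_iff_isSemi K (fun a => ρ a) hρK hsmul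
  refine ⟨?_, fun r _ y hy hyN hyr => ?_⟩
  · obtain ⟨d', hdd, hcard⟩ := SympFieldExt.card_sp_dvd hS K hN
    rw [hfk] at hdd
    haveI : Fintype E := Fintype.ofFinite E
    rw [ClassicalLinear.card_sp, Module.card_eq_pow_finrank (K := F) (V := E), hfk] at hcard
    exact ⟨d', hdd, hcard⟩
  · have h := SympFieldExt.semilinear_cases hS hd (by rw [hfk]; exact hk) hy ((hN _).1 hyN) hyr
    rwa [hfk] at h

theorem prod_multiples {k d' : ℕ} (hk : 0 < k) (f : ℕ → ℕ) :
    ∏ j ∈ (Finset.range (k * d')).filter (fun j => k ∣ j + 1), f (j + 1) =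
      ∏ l ∈ Finset.range d', f (k * (l + 1)) := by
  refine (Finset.prod_nbij (fun l => k * (l + 1) - 1) ?_ ?_ ?_ ?_).symm
  · intro l hl
    have h := Finset.mem_range.1 hl
    have : k * (l + 1) ≤ k * d' := Nat.mul_le_mul_left _ h
    have : 1 ≤ k * (l + 1) := Nat.mul_pos hk (by omega)
    simp only [Finset.mem_coe, Finset.mem_filter, Finset.mem_range]
    exact ⟨by omega, by rw [Nat.sub_add_cancel this]; exact dvd_mul_right _ _⟩
  · intro a _ b _ hab
    have h1 : 1 ≤ k * (a + 1) := Nat.mul_pos hk (by omega)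
    have h2 : 1 ≤ k * (b + 1) := Nat.mul_pos hk (by omega)
    have := Nat.eq_of_mul_eq_mul_left hk (show k * (a + 1) = k * (b + 1) by simp only at hab; omega)
    omega
  · intro j hj
    simp only [Finset.coe_filter, Set.mem_setOf_eq, Finset.mem_range] at hj
    obtain ⟨t, ht⟩ := hj.2
    rcases t with _ | t
    · simp at ht
    · refine ⟨t, Finset.mem_coe.2 (Finset.mem_range.2 ?_), by simp only; omega⟩
      by_contra h
      have := Nat.mul_le_mul_left k (show d' + 1 ≤ t + 1 by omega)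
      rw [Nat.mul_succ] at this
      omega
  · intro l _
    rw [Nat.sub_add_cancel (Nat.mul_pos hk (by omega))]

/-- When every multiple of the order of `q` up to `2d` allows a lift, the order of the subgroup takes the whole
`r`-part. -/
theorem not_dvd_index {q k d d' r : ℕ} (hr : r.Prime) (hq : 1 < q) (hrq : ¬ r ∣ q) (hk : 0 < k) (hd : d = k * d')
    (hlift : ∀ j, orderOf (q : ZMod r) ∣ 2 * j → k ∣ j) {H I a b : ℕ}
    (hH : (q ^ k) ^ a * ∏ i ∈ Finset.range d', ((q ^ k) ^ (2 * (i + 1)) - 1) ∣ H)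
    (hG : H * I = q ^ b * ∏ i ∈ Finset.range d, (q ^ (2 * (i + 1)) - 1)) : ¬ r ∣ I := by
  intro hI
  set P := ∏ i ∈ Finset.range d', ((q ^ k) ^ (2 * (i + 1)) - 1) with hP
  have hP0 : 0 < (q ^ k) ^ a * P := by
    refine Nat.mul_pos (pow_pos (pow_pos (by omega) _) _) (Finset.prod_pos fun i _ => ?_)
    have : 1 < (q ^ k) ^ (2 * (i + 1)) := Nat.one_lt_pow (by omega) (Nat.one_lt_pow (by omega) hq)
    omega
  have hsplit : ∏ i ∈ Finset.range d, (q ^ (2 * (i + 1)) - 1) =
      P * ∏ i ∈ (Finset.range d).filter (fun j => ¬ k ∣ j + 1), (q ^ (2 * (i + 1)) - 1) := by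
    rw [← Finset.prod_filter_mul_prod_filter_not (Finset.range d) (fun j => k ∣ j + 1), hd,
      prod_multiples hk (fun j => q ^ (2 * j) - 1)]
    congr 1
    refine Finset.prod_congr rfl fun i _ => ?_
    rw [← pow_mul]; ring_nf
  set R := ∏ i ∈ (Finset.range d).filter (fun j => ¬ k ∣ j + 1), (q ^ (2 * (i + 1)) - 1) with hR
  have h1 : (q ^ k) ^ a * P * r ∣ q ^ b * (P * R) := by rw [← hsplit, ← hG]; exact mul_dvd_mul hH hI
  have hP1 : 0 < P := Nat.pos_of_mul_pos_left hP0
  rw [mul_comm ((q ^ k) ^ a) P, mul_assoc, mul_left_comm (q ^ b)] at h1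
  have h2 := (Dvd.intro_left _ rfl).trans (Nat.dvd_of_mul_dvd_mul_left hP1 h1)
  rcases hr.dvd_mul.1 h2 with h | h
  · exact hrq (hr.dvd_of_dvd_pow h)
  · obtain ⟨i, hi, hi'⟩ := (hr.prime.dvd_finsetProd_iff _).1 h
    refine (Finset.mem_filter.1 hi).2 (hlift _ (orderOf_dvd_of_pow_eq_one ?_))
    rw [← ZMod.natCast_eq_zero_iff, Nat.cast_sub (Nat.one_le_pow _ _ (by omega))] at hi'
    push_cast at hi'
    exact sub_eq_zero.1 hi'

/-- Elements of prime order of PSp_n(q) and the field-extension subgroups of type Sp_{n/k}(q^k). Here `T = PSp_{2d}(F)` for a field `F` with `q` elements (`d ≥ 2`, `(d, q) ≠ (2, 2)`), realised through the matrices preserving the standard alternating form `f`; `k` is a prime and `K` is a subalgebra of the `2d × 2d` matrices that is a field of degree `k` over `F` whose elements are self-adjoint for `f` and satisfy `f(a v, v) = 0` (so `F^{2d}` becomes a vector space over `K ≅ F_{q^k}` on which `f` is the trace of a `K`-bilinear alternating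 form); `H` is the subgroup of `T` normalizing `K` — the symplectic maps that are `K`-linear or `K`-semilinear, a subgroup of type Sp_{2d/k}(q^k) (maximality is not assumed). Ω is the set of cosets of `H` in `T`, so an element of `T` of prime order `r` (`x ∈ T` with `x^r` scalar, `x` not scalar) fixes a point of Ω exactly when some `T`-conjugate of `x` normalizes `K`. Let `r` be a prime dividing the index of `H`. Then every element of `T` of order `r` fixes a point of Ω if and only if `r = 2`, `d = 2`, `k = 2` and `q` is odd. -/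
theorem result {F : Type*} [Field F] [Fintype F] {p : ℕ} [Fact p.Prime] [CharP F p] {q : ℕ} (hq : Fintype.card F = q)
    (d : ℕ) (hd : 2 ≤ d) (hT : (d, q) ≠ (2, 2)) (k : ℕ) (hk : k.Prime)
    (K : Subalgebra F (Matrix (Fin d ⊕ Fin d) (Fin d ⊕ Fin d) F)) (hK : Cfsg.Geo.IsFieldSubalgebra k K)
    (hKf : Cfsg.Geo.IsSelfAdjointFor (Cfsg.sympForm d F) K) (hKalt : ∀ a ∈ K, ∀ v : Fin d ⊕ Fin d → F, Cfsg.sympForm d F (a *ᵥ v) v = 0)
    (r : ℕ) [Fact r.Prime]
    (hΩ : r ∣ (Cfsg.Geo.subalgebraNormalizer K).relIndex (Cfsg.spGL d F)) :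
    (∀ x ∈ Cfsg.spGL d F, (∃ z : F, ((x ^ r : GL (Fin d ⊕ Fin d) F) : Matrix (Fin d ⊕ Fin d) (Fin d ⊕ Fin d) F) = z • (1 : Matrix (Fin d ⊕ Fin d) (Fin d ⊕ Fin d) F)) →
      (∀ z : F, (x : Matrix (Fin d ⊕ Fin d) (Fin d ⊕ Fin d) F) ≠ z • (1 : Matrix (Fin d ⊕ Fin d) (Fin d ⊕ Fin d) F)) →
      ∃ g ∈ Cfsg.spGL d F, g⁻¹ * x * g ∈ Cfsg.Geo.subalgebraNormalizer K) ↔
    (r = 2 ∧ d = 2 ∧ k = 2 ∧ Odd q) := by
  classical
  subst hq
  have hr : r.Prime := Fact.out
  have hd0 : 0 < d := by omega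
  letI := CfsgLib.Geometric.ExtF.fieldOfSubalg hK hk.ne_zero
  have : Finite K :=
    Finite.of_injective (fun a : K => (a : Matrix (Fin d ⊕ Fin d) (Fin d ⊕ Fin d) F)) Subtype.val_injective
  obtain ⟨⟨d', hdd, hcard⟩, hcases⟩ := field_facts (E := K) hd0 hk hK.finrank_eq K.val K
    (fun m => ⟨fun hm => ⟨⟨m, hm⟩, rfl⟩, fun ⟨a, ha⟩ => ha ▸ a.2⟩) hKf hKalt
  constructor
  · intro H
    have get : ∀ x ∈ Cfsg.spGL d F, x ^ r = 1 →
        (∀ z : F, (x : Matrix (Fin d ⊕ Fin d) (Fin d ⊕ Fin d) F) ≠ z • 1) →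
        (∃ w : ℕ, k * w = rk (x : Matrix (Fin d ⊕ Fin d) (Fin d ⊕ Fin d) F) ∧
          ((r : F) ≠ 0 → Even w ∧ orderOf ((Fintype.card F ^ k : ℕ) : ZMod r) ∣ w)) ∨
        (r = k ∧ d ≤ rk (x : Matrix (Fin d ⊕ Fin d) (Fin d ⊕ Fin d) F)) := by
      intro x hx hxr hns
      obtain ⟨g, hg, hgx⟩ := H x hx ⟨1, by rw [hxr, one_smul]; rfl⟩ hns
      have hyr : (g⁻¹ * x * g) ^ r = 1 := by
        have h2 := conj_pow (a := g⁻¹) (b := x) (i := r)
        rw [inv_inv] at h2
        rw [h2, hxr]; group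
      have h := hcases r _ (mul_mem (mul_mem (inv_mem hg) hx) hg) hgx hyr
      rwa [rk_conj] at h
    -- the characteristic
    have hrp : r ≠ p := by
      rintro rfl
      obtain ⟨x, hx, hxp, hrk⟩ := SympTest.exists_transvection (F := F) r hd0
      rcases get x hx hxp (SympTest.not_scalar_of_rk (by omega) (by omega)) with ⟨w, hw, -⟩ | ⟨-, hle⟩
      · rw [hrk] at hw
        have := hk.two_le
        rcases w with _ | w
        · omega
        · nlinarith
      · omega
    have hrF : (r : F) ≠ 0 := fun h => hrp ((Nat.prime_dvd_prime_iff_eq Fact.out hr).1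
      ((CharP.cast_eq_zero_iff F p r).1 h)).symm
    have hrq : (Fintype.card F : ZMod r) ≠ 0 := fun h => hrp (by
      obtain ⟨m, -, hm⟩ := FiniteField.card F p
      rw [ZMod.natCast_eq_zero_iff, hm] at h
      exact (Nat.prime_dvd_prime_iff_eq hr Fact.out).1 (hr.dvd_of_dvd_pow h))
    have hd' : k ≤ d := by
      rw [hdd]
      refine Nat.le_mul_of_pos_right k (Nat.pos_of_ne_zero fun h => ?_)
      rw [h, mul_zero] at hdd
      omega
    rcases hr.eq_two_or_odd' with rfl | hro
    · have h2 : (2 : F) ≠ 0 := by exact_mod_cast hrF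
      obtain ⟨x, hx, hxr, hrk⟩ := SympTest.exists_neg_plane h2 hd0
      rcases get x hx hxr (SympTest.not_scalar_of_rk (by omega) (by omega)) with ⟨w, hw, hpar⟩ | ⟨hk2, hle⟩
      · obtain ⟨u, rfl⟩ := (hpar hrF).1
        rw [hrk] at hw
        have := hk.two_le
        rcases u with _ | u
        · omega
        · nlinarith
      · refine ⟨rfl, by omega, hk2.symm, ?_⟩
        obtain ⟨m, hp, hm⟩ := FiniteField.card F p
        rw [hm]
        exact (hp.odd_of_ne_two fun h => hrp h.symm).pow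
    exfalso
    have hdvd : r ∣ Nat.card (Cfsg.spGL d F) := hΩ.trans (Subgroup.relIndex_dvd_card _ _)
    obtain ⟨c, hc, hc0, hc2, hcr, x, hx, hxr, hrk, hns⟩ := SympTest.exists_odd hd0 hro hrF hrq hdvd
    set i := orderOf (Fintype.card F : ZMod r) with hi
    have hi0 : 0 < i := orderOf_pos_iff.2 (isOfFinOrder_iff_pow_eq_one.2
      ⟨r - 1, Nat.sub_pos_of_lt hr.one_lt, ZMod.pow_card_sub_one_eq_one hrq⟩)
    rcases get x hx hxr hns with ⟨w, hw, hpar⟩ | ⟨hrk', hle⟩
    · obtain ⟨hwe, hwo⟩ := hpar hrF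
      rw [hrk] at hw
      rw [Nat.cast_pow, orderOf_pow' _ hk.ne_zero, ← hi] at hwo
      have hcdvd : ∀ m, i ∣ m → Even m → c ∣ m := by
        intro m hm hme
        rw [hc]
        split_ifs with h
        · exact hm
        · exact Nat.Coprime.mul_dvd_of_dvd_of_dvd
            ((Nat.prime_two.coprime_iff_not_dvd).2 fun h' => h (even_iff_two_dvd.2 h')) hme.two_dvd hm
      have := hk.two_le
      have hw0 : 0 < w := Nat.pos_of_ne_zero fun h => by rw [h, mul_zero] at hw; omega
      have hwc : w < c := by rw [← hw]; nlinarith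
      by_cases hki : k ∣ i
      · -- lift, or degree two with the order twice an odd number
        rw [Nat.gcd_eq_right hki] at hwo
        by_cases hl : ∀ j, i ∣ 2 * j → k ∣ j
        · refine not_dvd_index hr (q := Fintype.card F) Fintype.one_lt_card
            (fun h => hrq ((ZMod.natCast_eq_zero_iff _ _).2 h)) hk.pos hdd hl
            (H := Nat.card ↥(Cfsg.Geo.subalgebraNormalizer K ⊓ Cfsg.spGL d F)) (a := d' ^ 2) (b := d ^ 2) ?_ ?_ hΩ
          · exact hcard
          · rw [← ClassicalLinear.card_sp, Nat.card_congr (MonoidHom.ofInjective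
              (Forms.spToGL_injective (m := d) (F := F))).toEquiv, Forms.spToGL_range,
              ← Subgroup.card_mul_index ((Cfsg.Geo.subalgebraNormalizer K).subgroupOf (Cfsg.spGL d F))]
            congr 1
            rw [inf_comm, Nat.card_congr (Subgroup.subgroupOfEquivOfLe
              (inf_le_left : Cfsg.spGL d F ⊓ Cfsg.Geo.subalgebraNormalizer K ≤ Cfsg.spGL d F)).symm.toEquiv,
              Subgroup.inf_subgroupOf_left]
        push Not at hl
        obtain ⟨j, hij, hkj⟩ := hl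
        have hk2 : k = 2 := by
          by_contra hne
          exact hkj ((hk.dvd_mul.1 (hki.trans hij)).resolve_left fun h =>
            hne ((Nat.prime_dvd_prime_iff_eq hk Nat.prime_two).1 h))
        subst hk2
        obtain ⟨i', hi'⟩ := hki
        rw [hi'] at hwo hij hc
        rw [Nat.mul_div_cancel_left i' two_pos] at hwo
        have hj : i' ∣ j := Nat.dvd_of_mul_dvd_mul_left two_pos hij
        rw [hc, if_pos (even_two_mul i')] at hw
        have : w = i' := by omega
        subst this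
        exact hkj (hwe.two_dvd.trans hj)
      · have hg : i.gcd k = 1 := (Nat.coprime_comm.1 ((hk.coprime_iff_not_dvd).2 hki)).gcd_eq_one
        rw [hg, Nat.div_one] at hwo
        exact absurd (Nat.le_of_dvd hw0 (hcdvd w hwo hwe)) (not_le.2 hwc)
    · omega
  · rintro ⟨rfl, rfl, rfl, hodd⟩ x hx ⟨z, hxz⟩ hns
    have hodd' : Fintype.card F % 2 = 1 := Nat.odd_iff.1 hodd
    have h2 : (2 : F) ≠ 0 := fun h => by
      haveI := CharTwo.of_one_ne_zero_of_two_eq_zero (R := F) one_ne_zero h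
      rw [FiniteField.even_card_iff_char_two.1 (ringChar.eq F 2)] at hodd'
      omega
    have hz : ∀ v, ap x (ap x v) = z • v := fun v => by
      rw [← ap_mul, ← pow_two, ap_def, hxz, Matrix.smul_mulVec, Matrix.one_mulVec]
    have hz1 : z * z = 1 := SympTest.scalar_mul_self two_pos (pow_mem hx 2) hxz
    -- a symplectic basis adapted to the field
    obtain ⟨θ, a, b, hθ, hθns, hθθ, hspan, ha⟩ := exists_quadratic_generator hK
    rw [ha h2, zero_smul, zero_add] at hθθ
    have hθv : ∀ v, θ *ᵥ (θ *ᵥ v) = b • v := fun v => by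
      rw [Matrix.mulVec_mulVec, hθθ, Matrix.smul_mulVec, Matrix.one_mulVec]
    set v : Fin 2 ⊕ Fin 2 → F := Pi.single (.inl 0) 1 with hvdef
    have hv : v ≠ 0 := by simp [v]
    have hb : b ≠ 0 := fun h => by
      have h0 : θ *ᵥ (θ *ᵥ v) = (0 : F) • (θ *ᵥ v) := by rw [hθv, h, zero_smul, zero_smul]
      have h1 : θ *ᵥ v = (0 : F) • v := by rw [zero_smul]; exact eq_zero_of_field_eigen hK hθ hθns h0
      exact hv (eq_zero_of_field_eigen hK hθ hθns h1)
    set B := sympBilin 2 F with hBdef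
    obtain ⟨w, hw1, hw0⟩ : ∃ w, B v w = 1 ∧ B (θ *ᵥ v) w = 0 := by
      let Φ : (Fin 2 ⊕ Fin 2 → F) →ₗ[F] (Fin 2 → F) := LinearMap.pi ![B v, B (θ *ᵥ v)]
      obtain ⟨w, hw⟩ : ∃ w, B v w ≠ 0 ∧ B (θ *ᵥ v) w = 0 := by
        by_contra hall
        push Not at hall
        have hker : ∀ w, B (θ *ᵥ v) w = 0 → B v w = 0 := fun w h => by
          by_contra h'; exact h' (by_contra fun h'' => hall w h'' h)
        obtain ⟨u, hu⟩ : ∃ u, B (θ *ᵥ v) u ≠ 0 := by
          by_contra hall'
          push Not at hall'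
          exact hv (eq_zero_of_field_eigen hK hθ hθns (c := 0)
            (by rw [zero_smul]; exact sympBilin_nondegenerate _ hall'))
        refine hθns (B (θ *ᵥ v) u / B v u) ?_
        exact absurd (sympBilin_nondegenerate (v - (B v u / B (θ *ᵥ v) u) • (θ *ᵥ v)) fun t => by
          have h := hker (t - (B (θ *ᵥ v) t / B (θ *ᵥ v) u) • u)
            (by rw [map_sub, map_smul, smul_eq_mul, div_mul_cancel₀ _ hu, sub_self])
          rw [map_sub, map_smul, smul_eq_mul, sub_eq_zero] at h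
          rw [map_sub, map_smul, LinearMap.sub_apply, LinearMap.smul_apply, smul_eq_mul, h]
          field_simp; ring) fun h0 => by
            have hs : θ *ᵥ v ≠ 0 := fun h => hu (by rw [h, map_zero, LinearMap.zero_apply])
            rw [sub_eq_zero] at h0
            by_cases hc : B v u / B (θ *ᵥ v) u = 0
            · rw [hc, zero_smul] at h0; exact hv h0
            · refine hv (eq_zero_of_field_eigen hK hθ hθns (c := (B v u / B (θ *ᵥ v) u)⁻¹) ?_)
              exact ((congrArg ((B v u / B (θ *ᵥ v) u)⁻¹ • ·) h0).trans (by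
                rw [smul_smul, inv_mul_cancel₀ hc, one_smul])).symm
      exact ⟨(B v w)⁻¹ • w, by rw [map_smul, smul_eq_mul, inv_mul_cancel₀ hw.1],
        by rw [map_smul, hw.2, smul_zero]⟩
    have hsa : ∀ u t, B (θ *ᵥ u) t = B u (θ *ᵥ t) := fun u t => by
      simp only [hBdef, sympBilin_apply]; exact hKf θ hθ u t
    have halt : ∀ u, B (θ *ᵥ u) u = 0 := fun u => by simp only [hBdef, sympBilin_apply]; exact hKalt θ hθ u
    have halt' : ∀ u, B u (θ *ᵥ u) = 0 := fun u => by rw [← hsa, halt]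
    let bs : Fin 2 × Fin 2 → (Fin 2 ⊕ Fin 2 → F) := fun y =>
      if y.1 = 0 then (if y.2 = 0 then v else w) else (if y.2 = 0 then θ *ᵥ v else b⁻¹ • (θ *ᵥ w))
    have hbs0 : ∀ i j s, Cfsg.sympForm 2 F (bs (i, s)) (bs (j, s)) = 0 := by
      intro i j s
      rw [← sympBilin_apply, ← hBdef]
      fin_cases i <;> fin_cases j <;> fin_cases s <;> simp [bs, hBdef ▸ sympBilin_self (d := 2), halt, halt']
    have hvθw : B v (θ *ᵥ w) = 0 := by rw [← hsa, hw0]
    have hθθw : B (θ *ᵥ v) (θ *ᵥ w) = b := by rw [hsa, hθv, map_smul, hw1, smul_eq_mul, mul_one]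
    have hbs1 : ∀ i j, Cfsg.sympForm 2 F (bs (i, 0)) (bs (j, 1)) = if i = j then 1 else 0 := by
      intro i j
      rw [← sympBilin_apply, ← hBdef]
      fin_cases i <;> fin_cases j <;> simp [bs, hw1, hw0, hvθw, hθθw, hb]
    suffices h : ∃ y ∈ Cfsg.spGL 2 F, y ∈ Cfsg.Geo.subalgebraNormalizer K ∧ (∀ u, ap y (ap y u) = z • u) ∧
        ∀ c : F, (y : Matrix (Fin 2 ⊕ Fin 2) (Fin 2 ⊕ Fin 2) F) ≠ c • 1 by
      obtain ⟨y, hy, hyN, hyz, hys⟩ := h
      obtain ⟨g, hg, hgx⟩ := exists_conj hodd' hx hy hz hyz hz1 hns hys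
      exact ⟨g, hg, hgx ▸ hyN⟩
    let cs : Fin 2 × Fin 2 → (Fin 2 ⊕ Fin 2 → F) := fun y =>
      if z = 1 then (if y.1 = 0 then bs y else -bs y)
      else if y.1 = 0 then (if y.2 = 0 then w else -v) else (if y.2 = 0 then θ *ᵥ w else -(b⁻¹ • (θ *ᵥ v)))
    have hBself : ∀ u, B u u = 0 := fun u => by rw [hBdef]; exact sympBilin_self u
    have hw1' : B w v = -1 := by rw [alt_skew hBself, hw1]
    have hw0' : B w (θ *ᵥ v) = 0 := by rw [alt_skew hBself, hw0, neg_zero]
    have hvθw' : B (θ *ᵥ w) v = 0 := by rw [alt_skew hBself, hvθw, neg_zero]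
    have hθθw' : B (θ *ᵥ w) (θ *ᵥ v) = -b := by rw [alt_skew hBself, hθθw]
    have hcs0 : ∀ i j s, Cfsg.sympForm 2 F (cs (i, s)) (cs (j, s)) = 0 := by
      intro i j s
      rw [← sympBilin_apply, ← hBdef]
      by_cases hz' : z = 1 <;> fin_cases i <;> fin_cases j <;> fin_cases s <;>
        simp [cs, bs, hz', hBself, halt, halt']
    have hcs1 : ∀ i j, Cfsg.sympForm 2 F (cs (i, 0)) (cs (j, 1)) = if i = j then 1 else 0 := by
      intro i j
      rw [← sympBilin_apply, ← hBdef]
      by_cases hz' : z = 1 <;> fin_cases i <;> fin_cases j <;>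
        simp [cs, bs, hz', hw1, hw0, hvθw, hθθw, hw1', hw0', hvθw', hθθw', hb]
    obtain ⟨y, hy, hyb⟩ := S5980.exists_spGL_of_families (by simp) bs cs hbs0 hbs1 hcs0 hcs1
    have hbl : LinearIndependent F bs :=
      (show AdaptedFamily (sympBilin 2 F) (LinearMap.id : (Fin 2 ⊕ Fin 2 → F) →ₗ[F] _) 1 bs 1 from
        ⟨one_mul _, fun i j s => (sympBilin_apply _ _).trans (hbs0 i j s),
          fun i j => (sympBilin_apply _ _).trans (hbs1 i j), fun i => Or.inr ⟨rfl, fun s => ⟨1, by simp⟩⟩⟩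
        ).linearIndependent sympBilin_self
    let Bs : Basis (Fin 2 × Fin 2) F (Fin 2 ⊕ Fin 2 → F) :=
      Basis.mk hbl (ge_of_eq (hbl.span_eq_top_of_card_eq_finrank' (by simp)))
    have hbase : ∀ (f g : (Fin 2 ⊕ Fin 2 → F) →ₗ[F] (Fin 2 ⊕ Fin 2 → F)), (∀ i, f (bs i) = g (bs i)) →
        ∀ u, f u = g u := fun f g h u => LinearMap.congr_fun (Bs.ext fun i => by rw [Basis.mk_apply]; exact h i) u
    have hy0 : ap y v = cs (0, 0) := by simpa [bs] using hyb (0, 0)
    have hy1 : ap y (θ *ᵥ v) = cs (1, 0) := by simpa [bs] using hyb (1, 0)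
    have hy01 : ap y w = cs (0, 1) := by simpa [bs] using hyb (0, 1)
    have hy11 : ap y (θ *ᵥ w) = b • cs (1, 1) := by
      have h := congrArg (b • ·) (hyb (1, 1))
      simpa [bs, ap_smul, smul_smul, hb] using h
    refine ⟨y, hy, ?_, ?_, ?_⟩
    · refine mem_normalizer_of_generator hθ hspan y (c := 0) (d := if z = 1 then -1 else 1)
        (by split_ifs <;> simp) ?_
      refine Matrix.toLin'.injective (LinearMap.ext fun u => ?_)
      refine hbase _ _ (fun i => ?_) u
      simp only [Matrix.toLin'_apply, zero_smul, zero_add, Matrix.smul_mul, Matrix.smul_mulVec, ← Matrix.mulVec_mulVec,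
        ← ap_def]
      obtain ⟨i, s⟩ := i
      fin_cases i <;> fin_cases s <;> by_cases hz' : z = 1 <;>
        simp [bs, cs, hz', hy0, hy1, hy01, hy11, ap_smul, ap_neg', Matrix.mulVec_smul, Matrix.mulVec_neg, hθv,
          smul_smul, hb]
    · intro u
      have hz' : z = 1 ∨ z = -1 := by
        rcases mul_self_eq_mul_self_iff.1 (hz1.trans (one_mul 1).symm) with h | h
        · exact Or.inl h
        · exact Or.inr h
      have hne : (-1 : F) ≠ 1 := fun h => h2 (by linear_combination -h)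
      refine hbase ((Matrix.toLin' (y : Matrix (Fin 2 ⊕ Fin 2) (Fin 2 ⊕ Fin 2) F)).comp (Matrix.toLin' (y : Matrix (Fin 2 ⊕ Fin 2) (Fin 2 ⊕ Fin 2) F))) (z • LinearMap.id) ?_ u
      rintro ⟨i, s⟩
      show ap y (ap y (bs (i, s))) = z • bs (i, s)
      rw [hyb]
      rcases hz' with hz' | hz' <;> fin_cases i <;> fin_cases s <;>
        simp [cs, bs, hz', hne, hy0, hy1, hy01, hy11, ap_smul, ap_neg', smul_smul, hb]
    · intro c hc
      have e0 : cs (0, 0) = c • v := by rw [← hy0, ap_def, hc, Matrix.smul_mulVec, Matrix.one_mulVec]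
      have e1 : cs (1, 0) = c • (θ *ᵥ v) := by rw [← hy1, ap_def, hc, Matrix.smul_mulVec, Matrix.one_mulVec]
      by_cases hz' : z = 1
      · simp only [cs, hz', bs, if_true, one_ne_zero, if_false] at e0 e1
        have hc1 : c = 1 := (smul_left_injective F hv (by simpa using e0)).symm
        have hθv0 : θ *ᵥ v ≠ 0 := fun h => hv (eq_zero_of_field_eigen hK hθ hθns (c := 0) (by rw [h, zero_smul]))
        rw [hc1, one_smul] at e1
        have : (2 : F) • (θ *ᵥ v) = 0 := by rw [two_smul]; nth_rw 1 [← e1]; exact neg_add_cancel _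
        exact hθv0 ((smul_eq_zero.1 this).resolve_left h2)
      · simp only [cs, hz', bs, if_true, if_false] at e0
        have : B v w = 0 := by rw [show w = c • v from e0, map_smul, sympBilin_self, smul_zero]
        exact zero_ne_one (this.symm.trans hw1)

end Cfsg.Agent.S5975
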