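import Cfsg.Statements.S5979
import Cfsg.Agent.S5958
import Cfsg.Agent.Lib.Geometric.Tensor
import Cfsg.Agent.Lib.Omega.SquareScalar
import Cfsg.Agent.Lib.Omega.SquareCases
import Cfsg.Agent.Lib.Omega.SLConj

set_option autoImplicit false
open scoped MatrixGroups Matrix Kronecker
open Cfsg

namespace Cfsg.Agent.S5979

open CfsgLib CfsgLib.Geometric CfsgLib.Geometric.Tensor

variable {F : Type*} [Field F] {n a b : ℕ} {e : Fin n ≃ Fin a × Fin b} {P : GL (Fin n) F}

theorem exists_scalar_of_forall_eigen {κ : Type*} [Fintype κ] [Nonempty κ] [DecidableEq κ] (A : Matrix κ κ F)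
    (h : ∀ u : κ → F, ∃ c : F, A *ᵥ u = c • u) : ∃ c : F, A = c • 1 := by
  choose c hc using h
  obtain ⟨i₀⟩ := ‹Nonempty κ›
  refine ⟨c (Pi.single i₀ 1), Matrix.ext_of_mulVec_single fun i => ?_⟩
  rw [Matrix.smul_mulVec, Matrix.one_mulVec]
  by_cases hi : i = i₀
  · subst hi; exact hc _
  have h1 := hc (Pi.single i₀ (1 : F) + Pi.single i 1)
  rw [Matrix.mulVec_add, hc, hc, smul_add] at h1
  have e0 : c (Pi.single i₀ (1 : F)) = c (Pi.single i₀ (1 : F) + Pi.single i 1) := by
    simpa [Ne.symm hi] using congrFun h1 i₀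
  have e1 : c (Pi.single i (1 : F)) = c (Pi.single i₀ (1 : F) + Pi.single i 1) := by
    simpa [hi] using congrFun h1 i
  rw [hc, e1, e0]

/-- A non-zero pure tensor multiple determines the left factor up to a scalar. -/
theorem eigen_of_pt {u u' : Fin a → F} {w w' : Fin b → F} (hw' : w' ≠ 0) {lam : F}
    (h : pt e P u' w' = lam • pt e P u w) : ∃ c : F, u' = c • u := by
  rw [← pt_smul_right] at h
  obtain ⟨j, hj⟩ := Function.ne_iff.mp hw'
  refine ⟨lam * w j / w' j, funext fun i => ?_⟩
  have h1 : u' i * w' j = u i * (lam * w j) := congrFun ((coords e P).injective h) (i, j)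
  rw [Pi.smul_apply, smul_eq_mul]
  simp only [Pi.zero_apply] at hj
  field_simp
  linear_combination h1

/-- An element of the stabiliser close to a scalar acts on the second factor only. -/
theorem exists_right (hlt : a < b) (ha : 0 < a) (y : GL (Fin n) F)
    (hy : y ∈ Cfsg.Geo.tensorProductSubgroup a b e P) (lam : F)
    (hrank : n ≤ Module.finrank F (LinearMap.ker (Matrix.toLin' (y : Matrix (Fin n) (Fin n) F) - lam • LinearMap.id)) + a) :
    ∃ B : Matrix (Fin b) (Fin b) F, ∀ x w, ap y (pt e P x w) = pt e P x (B *ᵥ w) := by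
  classical
  obtain ⟨A, B, hAB⟩ := (mem_iff e P y).1 hy
  set L := Matrix.toLin' (y : Matrix (Fin n) (Fin n) F) - lam • LinearMap.id with hL
  haveI : Nonempty (Fin a) := ⟨⟨0, ha⟩⟩
  obtain ⟨c, hc⟩ := exists_scalar_of_forall_eigen (A : Matrix (Fin a) (Fin a) F) fun u => by
    have h1 := LinearMap.finrank_range_add_finrank_ker L
    rw [Module.finrank_fin_fun] at h1
    have h2 := LinearMap.finrank_range_add_finrank_ker (L ∘ₗ ptr e P u)
    rw [Module.finrank_fin_fun] at h2
    have h3 : Module.finrank F (LinearMap.range (L ∘ₗ ptr e P u)) ≤ Module.finrank F (LinearMap.range L) :=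
      Submodule.finrank_mono (LinearMap.range_comp_le_range _ _)
    obtain ⟨w, hw, hw0⟩ := Submodule.exists_mem_ne_zero_of_ne_bot
      (show LinearMap.ker (L ∘ₗ ptr e P u) ≠ ⊥ from fun h => by rw [h, finrank_bot] at h2; omega)
    rw [LinearMap.mem_ker, LinearMap.comp_apply, ptr_apply, hL, LinearMap.sub_apply, LinearMap.smul_apply,
      LinearMap.id_apply, Matrix.toLin'_apply, sub_eq_zero] at hw
    rw [← ap_def, hAB] at hw
    refine eigen_of_pt (fun h => hw0 ?_) hw
    exact Matrix.mulVec_injective_of_isUnit B.isUnit (by rw [show (B : Matrix (Fin b) (Fin b) F) *ᵥ w = ap B w from rfl, h, Matrix.mulVec_zero])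
  refine ⟨c • (B : Matrix (Fin b) (Fin b) F), fun x w => ?_⟩
  rw [hAB, Matrix.smul_mulVec, ap_def, hc, Matrix.smul_mulVec, Matrix.one_mulVec, pt_smul_left, pt_smul_right]
  rfl

/-- The fixed space of `1 ⊗ B` is a direct sum of `a` copies of that of `B`. -/
theorem finrank_ker_right (y : GL (Fin n) F) (B : Matrix (Fin b) (Fin b) F)
    (h : ∀ x w, ap y (pt e P x w) = pt e P x (B *ᵥ w)) (mu : F) :
    Module.finrank F (LinearMap.ker (Matrix.toLin' (y : Matrix (Fin n) (Fin n) F) - mu • LinearMap.id)) =
      a * Module.finrank F (LinearMap.ker (Matrix.toLin' B - mu • LinearMap.id)) := by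
  classical
  set L := Matrix.toLin' (y : Matrix (Fin n) (Fin n) F) - mu • LinearMap.id with hL
  set K := LinearMap.ker (Matrix.toLin' B - mu • LinearMap.id) with hK
  let T : (Fin a → Fin b → F) ≃ₗ[F] (Fin n → F) := (LinearEquiv.curry F F (Fin a) (Fin b)).symm.trans (coords e P)
  let M : (Fin a → Fin b → F) →ₗ[F] (Fin a → Fin b → F) :=
    LinearMap.pi fun i => (Matrix.toLin' B - mu • LinearMap.id) ∘ₗ LinearMap.proj i
  have hsingle : ∀ i w, T (Pi.single i w) = pt e P (Pi.single i 1) w := by
    intro i w
    refine congrArg (coords e P) (funext fun ⟨i', j⟩ => ?_)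
    show (Pi.single i w : Fin a → Fin b → F) i' j = (Pi.single i 1 : Fin a → F) i' * w j
    by_cases hi : i' = i
    · subst hi; simp
    · simp [hi]
  have hLT : L ∘ₗ T.toLinearMap = T.toLinearMap ∘ₗ M := by
    refine LinearMap.pi_ext fun i w => ?_
    have hM : M (Pi.single i w) =
        Pi.single i ((Matrix.toLin' B - mu • LinearMap.id : (Fin b → F) →ₗ[F] (Fin b → F)) w) := by
      funext i'
      show (Matrix.toLin' B - mu • LinearMap.id : (Fin b → F) →ₗ[F] (Fin b → F)) ((Pi.single i w : Fin a → Fin b → F) i') = _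
      by_cases hi : i' = i
      · subst hi; rw [Pi.single_eq_same, Pi.single_eq_same]
      · rw [Pi.single_eq_of_ne hi, Pi.single_eq_of_ne hi, map_zero]
    simp only [LinearMap.comp_apply, LinearEquiv.coe_coe, hM, hsingle, hL, LinearMap.sub_apply, LinearMap.smul_apply,
      LinearMap.id_apply, Matrix.toLin'_apply]
    rw [← ap_def, h, ← pt_smul_right, ← ptr_apply, ← ptr_apply, ← ptr_apply, ← map_sub]
  have hker : Module.finrank F (LinearMap.ker L) = Module.finrank F (LinearMap.ker M) := by
    have h1 := LinearMap.finrank_range_add_finrank_ker L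
    have h2 := LinearMap.finrank_range_add_finrank_ker M
    have h3 : Module.finrank F (LinearMap.range L) = Module.finrank F (LinearMap.range M) := by
      have := congrArg LinearMap.range hLT
      rw [LinearMap.range_comp_of_range_eq_top L T.range, LinearMap.range_comp] at this
      rw [this, LinearEquiv.finrank_map_eq]
    have h4 := T.finrank_eq
    omega
  rw [hker]
  let E : LinearMap.ker M ≃ₗ[F] (Fin a → K) :=
    { toFun := fun v i => ⟨v.1 i, LinearMap.mem_ker.2 (congrFun (LinearMap.mem_ker.1 v.2) i)⟩
      map_add' := fun _ _ => rfl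
      map_smul' := fun _ _ => rfl
      invFun := fun f => ⟨fun i => f i, LinearMap.mem_ker.2 (funext fun i => LinearMap.mem_ker.1 (f i).2)⟩
      left_inv := fun _ => rfl
      right_inv := fun _ => rfl }
  rw [E.finrank_eq, Module.finrank_pi_fintype, Finset.sum_const, Finset.card_univ, Fintype.card_fin, smul_eq_mul]

/-- A criterion for membership on the basis tensors. -/
theorem mem_of_basis (g : GL (Fin n) F) (A : GL (Fin a) F) (B : GL (Fin b) F)
    (h : ∀ i j, ap g (pt e P (Pi.single i 1) (Pi.single j 1)) =
      pt e P ((A : Matrix (Fin a) (Fin a) F) *ᵥ Pi.single i 1) ((B : Matrix (Fin b) (Fin b) F) *ᵥ Pi.single j 1)) :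
    g ∈ Cfsg.Geo.tensorProductSubgroup a b e P := by
  classical
  refine (mem_iff e P g).2 ⟨A, B, fun x w => ?_⟩
  have hlin : Matrix.toLin' (g : Matrix (Fin n) (Fin n) F) ∘ₗ (coords e P).toLinearMap =
      (coords e P).toLinearMap ∘ₗ Matrix.toLin' ((A : Matrix (Fin a) (Fin a) F) ⊗ₖ (B : Matrix (Fin b) (Fin b) F)) := by
    refine LinearMap.pi_ext' fun c => LinearMap.ext_ring ?_
    simp only [LinearMap.comp_apply, LinearEquiv.coe_coe, LinearMap.single_apply, Matrix.toLin'_apply]
    rw [← pt_single, ← ap_def, h, pt]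
    congr 1
    have hc : (Pi.single c (1 : F)) = fun d : Fin a × Fin b =>
        (Pi.single c.1 1 : Fin a → F) d.1 * (Pi.single c.2 1 : Fin b → F) d.2 :=
      (coords e P).injective (pt_single e P c).symm
    rw [hc, kronecker_mulVec]
  have := LinearMap.congr_fun hlin (fun d => x d.1 * w d.2)
  simp only [LinearMap.comp_apply, LinearEquiv.coe_coe, Matrix.toLin'_apply, kronecker_mulVec] at this
  exact this

theorem finrank_ker_conj (x g : GL (Fin n) F) (mu : F) :
    Module.finrank F (LinearMap.ker (Matrix.toLin' ((g⁻¹ * x * g : GL (Fin n) F) : Matrix (Fin n) (Fin n) F) - mu • LinearMap.id)) =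
      Module.finrank F (LinearMap.ker (Matrix.toLin' (x : Matrix (Fin n) (Fin n) F) - mu • LinearMap.id)) := by
  let G : (Fin n → F) ≃ₗ[F] (Fin n → F) := apEquiv g
  rw [← LinearEquiv.finrank_map_eq G]
  suffices h : Submodule.map (G : (Fin n → F) →ₗ[F] (Fin n → F))
      (LinearMap.ker (Matrix.toLin' ((g⁻¹ * x * g : GL (Fin n) F) : Matrix (Fin n) (Fin n) F) - mu • LinearMap.id)) =
      LinearMap.ker (Matrix.toLin' (x : Matrix (Fin n) (Fin n) F) - mu • LinearMap.id) by rw [h]
  have hmem : ∀ v, (G v ∈ LinearMap.ker (Matrix.toLin' (x : Matrix (Fin n) (Fin n) F) - mu • LinearMap.id)) ↔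
      v ∈ LinearMap.ker (Matrix.toLin' ((g⁻¹ * x * g : GL (Fin n) F) : Matrix (Fin n) (Fin n) F) - mu • LinearMap.id) := by
    intro v
    simp only [LinearMap.mem_ker, LinearMap.sub_apply, LinearMap.smul_apply, LinearMap.id_apply, Matrix.toLin'_apply,
      sub_eq_zero, G, apEquiv_apply, ← ap_def]
    rw [ap_mul, ap_mul, ← ap_smul]
    exact ⟨fun h => by rw [h, ap_inv_ap], fun h => by rw [← h, ap_ap_inv]⟩
  ext v
  obtain ⟨u, rfl⟩ := G.surjective v
  rw [hmem, Submodule.mem_map_equiv, G.symm_apply_apply]

/-- A diagonal element with an eigenvalue of multiplicity one or two. -/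
theorem finrank_ker_diagonal (x : GL (Fin n) F) (d : Fin n → F) [DecidableEq F]
    (hx : (x : Matrix (Fin n) (Fin n) F) = Matrix.diagonal d) (mu : F) :
    Module.finrank F (LinearMap.ker (Matrix.toLin' (x : Matrix (Fin n) (Fin n) F) - mu • LinearMap.id)) =
      (Finset.univ.filter fun i => d i = mu).card := by
  rw [← Omega.finrank_eigenspace_eq_card (x : Matrix (Fin n) (Fin n) F) (Pi.basisFun F (Fin n)) d (fun i => by
    rw [hx, Pi.basisFun_apply, Matrix.mulVec_single_one]
    funext j
    by_cases hj : j = i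
    · subst hj; simp
    · simp [hj]) mu, Module.End.eigenspace_def]
  rfl

/-- The right factor of an element of order `r`. -/
theorem orderOf_dvd_right [Fintype F] {r : ℕ} [Fact r.Prime] (hrF : (Fintype.card F : ZMod r) ≠ 0) (ha : 0 < a)
    (hab : n = a * b) (y : GL (Fin n) F) (hyr : y ^ r = 1) (B : Matrix (Fin b) (Fin b) F)
    (h : ∀ x w, ap y (pt e P x w) = pt e P x (B *ᵥ w)) :
    a * orderOf (Fintype.card F : ZMod r) ∣
      n - Module.finrank F (LinearMap.ker (Matrix.toLin' (y : Matrix (Fin n) (Fin n) F) - (1 : F) • LinearMap.id)) := by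
  have hu : (Pi.single ⟨0, ha⟩ (1 : F) : Fin a → F) ≠ 0 := Pi.single_ne_zero_iff.2 one_ne_zero
  have hit : ∀ (i : ℕ) w, ap (y ^ i) (pt e P (Pi.single ⟨0, ha⟩ 1) w) =
      pt e P (Pi.single ⟨0, ha⟩ 1) ((Matrix.toLin' B)^[i] w) := by
    intro i
    induction i with
    | zero => intro w; simp
    | succ i ih => intro w; rw [pow_succ', ap_mul, ih, h, Function.iterate_succ_apply']; simp
  have hB : ∀ v ∈ (⊤ : Submodule F (Fin b → F)), (Matrix.toLin' B)^[r] v = v := fun v _ => by
    refine pt_inj_right e P hu ?_
    rw [← hit, hyr, ap_one]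
  have hd := Omega.PrimeOrder.orderOf_dvd_sub_finrank hrF (Matrix.toLin' B) ⊤ (fun _ _ => trivial) hB
  rw [finrank_top, Module.finrank_fin_fun, Omega.PrimeOrder.fixedIn, top_inf_eq] at hd
  rw [finrank_ker_right y B h, one_smul]
  conv_rhs => rw [hab, ← Nat.mul_sub]
  exact Nat.mul_dvd_mul_left a hd


/-- Elements of prime order of PSL_n(q) and the stabilizers of tensor decompositions with factors of different dimensions. Here `T = PSL_n(F)` for a field `F` with `q` elements and `n = a·b` with `2 ≤ a < b`; a tensor decomposition `F^n ≅ F^a ⊗ F^b` is given by a bijection `e` of index sets and a change of basis `P`, and `H` is the subgroup of matrices of determinant 1 in its stabilizer (the conjugate by `P` of the group of Kronecker products `g₁ ⊗ g₂`) — a subgroup of type GL_a(q) ⊗ GL_b(q) (maximality is not assumed); Ω is the set of cosets of `H` in `T`, so an element of `T` of prime order `r` (a matrix `x` of determinant 1 with `x^r` scalar, `x` not scalar) fixes a point of Ω exactly when some conjugate of `x` by a matrix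 of determinant 1 lies in `H`. Let `r` be a prime dividing the index of `H`. Then every element of `T` of order `r` fixes a point of Ω if and only if `r = 2`, `a = 2`, `q` is odd and `(q − 1)_2 ≤ (n)_2` (2-parts). -/
theorem result {F : Type*} [Field F] [Fintype F] {p : ℕ} [Fact p.Prime] [CharP F p] {q : ℕ} (hq : Fintype.card F = q)
    (n a b : ℕ) (hab : n = a * b) (ha : 2 ≤ a) (hlt : a < b) (e : Fin n ≃ Fin a × Fin b) (P : GL (Fin n) F)
    (r : ℕ) [Fact r.Prime]
    (hΩ : r ∣ (Cfsg.Geo.tensorProductSubgroup a b e P).relIndex (Cfsg.Geo.specialLinear (Fin n) F)) :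
    (∀ x ∈ Cfsg.Geo.specialLinear (Fin n) F, (∃ z : F, ((x ^ r : GL (Fin n) F) : Matrix (Fin n) (Fin n) F) = z • (1 : Matrix (Fin n) (Fin n) F)) →
      (∀ z : F, (x : Matrix (Fin n) (Fin n) F) ≠ z • (1 : Matrix (Fin n) (Fin n) F)) →
      ∃ g ∈ Cfsg.Geo.specialLinear (Fin n) F, g⁻¹ * x * g ∈ Cfsg.Geo.tensorProductSubgroup a b e P) ↔
    (r = 2 ∧ a = 2 ∧ Odd q ∧ padicValNat 2 (q - 1) ≤ padicValNat 2 n) := by
  classical
  subst hq
  have hr : r.Prime := Fact.out
  have hn2 : 2 * a + 2 ≤ a * b + 2 := by have := Nat.mul_le_mul_left a (show 2 ≤ b by omega); omega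
  have hb3 : 3 ≤ b := by omega
  have hn6 : 6 ≤ n := by have := Nat.mul_le_mul ha hb3; omega
  haveI : NeZero n := ⟨by omega⟩
  haveI : Nonempty (Fin n) := ⟨⟨0, by omega⟩⟩
  have conjmem : ∀ {x g : GL (Fin n) F}, x ^ r = 1 → (g⁻¹ * x * g) ^ r = 1 := fun {x g} h => by
    have h2 := conj_pow (a := g⁻¹) (b := x) (i := r)
    rw [inv_inv] at h2
    rw [h2, h]; group
  constructor
  · intro H
    -- `r = p`: a transvection
    have hrp : r ≠ p := by
      rintro rfl
      set i₀ : Fin n := ⟨0, by omega⟩
      set i₁ : Fin n := ⟨1, by omega⟩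
      set M : Matrix (Fin n) (Fin n) F := Matrix.transvection i₀ i₁ 1 with hM
      have h01 : i₀ ≠ i₁ := by simp [i₀, i₁]
      have hdet : M.det = 1 := Matrix.det_transvection_of_ne i₀ i₁ h01 1
      let x : GL (Fin n) F := Matrix.GeneralLinearGroup.mkOfDetNeZero M (by rw [hdet]; exact one_ne_zero)
      have hxp : x ^ r = 1 := by
        refine Units.ext ?_
        rw [Units.val_pow_eq_pow_val, Units.val_one, show (x : Matrix (Fin n) (Fin n) F) = 1 + Matrix.single i₀ i₁ 1 from rfl,
          add_pow_char_of_commute _ (Commute.one_left _), one_pow,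
          pow_eq_zero_of_le hr.two_le (by rw [pow_two]; exact Matrix.single_mul_single_of_ne _ _ _ _ (Ne.symm h01) _)]
        exact add_zero _
      have hrange : Module.finrank F (LinearMap.range (Matrix.toLin' (x : Matrix (Fin n) (Fin n) F) - (1 : F) • LinearMap.id)) = 1 := by
        have h1 : LinearMap.range (Matrix.toLin' (x : Matrix (Fin n) (Fin n) F) - (1 : F) • LinearMap.id) = F ∙ (Pi.single i₀ (1 : F) : Fin n → F) := by
          have happ : ∀ v : Fin n → F, (Matrix.toLin' (x : Matrix (Fin n) (Fin n) F) - (1 : F) • LinearMap.id : (Fin n → F) →ₗ[F] (Fin n → F)) v = v i₁ • Pi.single i₀ 1 := by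
            intro v
            rw [show (x : Matrix (Fin n) (Fin n) F) = 1 + Matrix.single i₀ i₁ 1 from rfl, one_smul, LinearMap.sub_apply,
              Matrix.toLin'_apply, Matrix.add_mulVec, Matrix.one_mulVec, LinearMap.id_apply, add_sub_cancel_left]
            funext k
            by_cases hk : k = i₀
            · subst hk; simp [Matrix.mulVec, dotProduct, Matrix.single_apply]
            · simp [Matrix.mulVec, dotProduct, Matrix.single_apply, hk, Ne.symm hk]
          ext w
          rw [LinearMap.mem_range, Submodule.mem_span_singleton]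
          constructor
          · rintro ⟨v, rfl⟩; exact ⟨v i₁, (happ v).symm⟩
          · rintro ⟨c, rfl⟩; exact ⟨Pi.single i₁ c, by rw [happ]; simp⟩
        rw [h1, finrank_span_singleton (Pi.single_ne_zero_iff.2 one_ne_zero)]
      have hker := LinearMap.finrank_range_add_finrank_ker (Matrix.toLin' (x : Matrix (Fin n) (Fin n) F) - (1 : F) • LinearMap.id)
      rw [hrange, Module.finrank_fin_fun] at hker
      obtain ⟨g, -, hgx⟩ := H x (Omega.mem_specialLinear.2 hdet) ⟨1, by rw [hxp, one_smul]; rfl⟩ (fun z hz => by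
        have h1 : M i₀ i₁ = z * (1 : Matrix (Fin n) (Fin n) F) i₀ i₁ := congrFun (congrFun hz i₀) i₁
        simp [hM, Matrix.transvection, h01] at h1)
      obtain ⟨B, hB⟩ := exists_right hlt (by omega) _ hgx 1 (by rw [finrank_ker_conj]; omega)
      have h1 := finrank_ker_right _ B hB 1
      rw [finrank_ker_conj] at h1
      have hdvd : a ∣ 1 := by
        have h2 : a ∣ Module.finrank F (LinearMap.ker (Matrix.toLin' (x : Matrix (Fin n) (Fin n) F) - (1 : F) • LinearMap.id)) := ⟨_, h1⟩
        have h3 : a ∣ n := ⟨b, hab⟩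
        rw [show (1 : ℕ) = n - Module.finrank F (LinearMap.ker (Matrix.toLin' (x : Matrix (Fin n) (Fin n) F) - (1 : F) • LinearMap.id)) by omega]
        exact Nat.dvd_sub h3 h2
      have := Nat.le_of_dvd one_pos hdvd
      omega
    obtain ⟨f, hp', hf⟩ := FiniteField.card F p
    have hrF : (Fintype.card F : ZMod r) ≠ 0 := by
      rw [Ne, ZMod.natCast_eq_zero_iff, hf]
      exact fun h => hrp ((Nat.prime_dvd_prime_iff_eq hr hp').1 (hr.dvd_of_dvd_pow h))
    -- a diagonal element
    have mkdiag : ∀ d : Fin n → F, ∏ i, d i = 1 → ∃ x : GL (Fin n) F, x ∈ Cfsg.Geo.specialLinear (Fin n) F ∧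
        (x : Matrix (Fin n) (Fin n) F) = Matrix.diagonal d := fun d hd =>
      ⟨Matrix.GeneralLinearGroup.mkOfDetNeZero (Matrix.diagonal d) (by rw [Matrix.det_diagonal, hd]; exact one_ne_zero),
        Omega.mem_specialLinear.2 (by show (Matrix.diagonal d).det = 1; rw [Matrix.det_diagonal, hd]), rfl⟩
    by_cases hr2 : r = 2
    · subst hr2
      have h2F : (2 : F) ≠ 0 := fun h => hrp ((Nat.prime_dvd_prime_iff_eq hp' Nat.prime_two).1
        ((CharP.cast_eq_zero_iff F p 2).1 (by exact_mod_cast h))).symm
      have hodd : Odd (Fintype.card F) := by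
        rw [hf]; exact (hp'.odd_of_ne_two (Ne.symm hrp)).pow
      by_contra hno
      -- choose `d`
      obtain ⟨s, m, hm, hms, hdetd⟩ : ∃ (s : F) (m : ℕ), 1 ≤ m ∧ m ≤ 2 ∧ (¬ a ∣ m) ∧ (-s) ^ m * s ^ (n - m) = 1 ∧ s ≠ 0 := by
        by_cases ha2 : a = 2
        · obtain ⟨s, hs⟩ := (Omega.exists_pow_eq_neg_one_iff (F := F) rfl h2F (by omega : n ≠ 0)).2
            (lt_of_not_ge fun h => hno ⟨rfl, ha2, hodd, h⟩)
          refine ⟨s, 1, le_rfl, by omega, by rw [ha2]; decide, ?_, fun h => by rw [h, zero_pow (by omega)] at hs; simp at hs⟩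
          have : s * s ^ (n - 1) = -1 := by rw [← pow_succ', Nat.sub_add_cancel (by omega), hs]
          linear_combination -this
        · exact ⟨1, 2, by omega, le_rfl, fun h => by have := Nat.le_of_dvd two_pos h; omega, by simp, one_ne_zero⟩
      obtain ⟨hma, hprod, hs0⟩ := hdetd
      let d : Fin n → F := fun i => if (i : ℕ) < m then -s else s
      have hcard : (Finset.univ.filter fun i : Fin n => (i : ℕ) < m).card = m := by
        rw [show (Finset.univ.filter fun i : Fin n => (i : ℕ) < m) = (Finset.univ : Finset (Fin m)).map (Fin.castLEEmb (by omega)) by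
          ext i
          simp only [Finset.mem_filter, Finset.mem_univ, true_and, Finset.mem_map, Fin.castLEEmb_apply]
          exact ⟨fun h => ⟨⟨i, h⟩, Fin.ext rfl⟩, by rintro ⟨j, rfl⟩; exact j.2⟩]
        simp
      have hprodd : ∏ i, d i = 1 := by
        simp only [d]
        rw [Finset.prod_ite, Finset.prod_const, Finset.prod_const, hcard, Finset.filter_not,
          Finset.card_sdiff_of_subset (Finset.filter_subset _ _), hcard, Finset.card_univ, Fintype.card_fin, hprod]
      obtain ⟨x, hxsl, hx⟩ := mkdiag d hprodd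
      have hne : -s ≠ s := fun h => hs0 ((mul_eq_zero.1 (show (2 : F) * s = 0 by linear_combination -h)).resolve_left h2F)
      have hk : ∀ mu, Module.finrank F (LinearMap.ker (Matrix.toLin' (x : Matrix (Fin n) (Fin n) F) - mu • LinearMap.id)) =
          (Finset.univ.filter fun i => d i = mu).card := finrank_ker_diagonal x d hx
      have hks : Module.finrank F (LinearMap.ker (Matrix.toLin' (x : Matrix (Fin n) (Fin n) F) - (-s) • LinearMap.id)) = m := by
        rw [hk]; conv_rhs => rw [← hcard]
        congr 1
        refine Finset.filter_congr fun i _ => ?_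
        by_cases h : (i : ℕ) < m <;> simp [d, h, Ne.symm hne]
      have hks' : Module.finrank F (LinearMap.ker (Matrix.toLin' (x : Matrix (Fin n) (Fin n) F) - s • LinearMap.id)) = n - m := by
        rw [hk]
        rw [show (Finset.univ.filter fun i : Fin n => d i = s) = Finset.univ \ (Finset.univ.filter fun i : Fin n => (i : ℕ) < m) by
          ext i
          by_cases h : (i : ℕ) < m <;> simp [d, h, hne] <;> omega,
          Finset.card_sdiff_of_subset (Finset.filter_subset _ _), hcard, Finset.card_univ, Fintype.card_fin]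
      obtain ⟨g, -, hgx⟩ := H x hxsl ⟨s * s, by
        rw [Units.val_pow_eq_pow_val, hx, Matrix.diagonal_pow, ← Matrix.diagonal_one, ← Matrix.diagonal_smul]
        congr 1
        funext i
        by_cases h : (i : ℕ) < m <;> simp [d, h, pow_two]⟩ (fun z hz => by
        have h0 := congrFun (congrFun hz ⟨0, by omega⟩) ⟨0, by omega⟩
        have h1 := congrFun (congrFun hz ⟨m, by omega⟩) ⟨m, by omega⟩
        rw [hx] at h0 h1
        simp [d, show 0 < m by omega] at h0 h1
        exact hne (h0.trans h1.symm))
      obtain ⟨B, hB⟩ := exists_right hlt (by omega) _ hgx s (by rw [finrank_ker_conj, hks']; omega)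
      have h1 := finrank_ker_right _ B hB (-s)
      rw [finrank_ker_conj, hks] at h1
      exact hma ⟨_, h1⟩
    -- odd `r`
    exfalso
    set c := orderOf (Fintype.card F : ZMod r) with hc
    have hc0 : 0 < c := S5958.orderOf_pos' hrF
    by_cases hc1 : c = 1
    · -- eigenvalues in the field
      have hdvd : r ∣ Fintype.card F - 1 := by
        rw [← ZMod.natCast_eq_zero_iff, Nat.cast_sub Fintype.card_pos, Nat.cast_one, sub_eq_zero]
        exact orderOf_eq_one_iff.1 hc1
      obtain ⟨z, hz, hz1, hz0⟩ : ∃ z : F, z ^ r = 1 ∧ z ≠ 1 ∧ z ≠ 0 := by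
        obtain ⟨w, hw⟩ := exists_prime_orderOf_dvd_card' (G := Fˣ) r
          (by rw [Nat.card_eq_fintype_card, Fintype.card_units]; exact hdvd)
        refine ⟨(w : F), ?_, fun h1 => ?_, w.ne_zero⟩
        · rw [← Units.val_pow_eq_pow_val, ← hw, pow_orderOf_eq_one, Units.val_one]
        · rw [Units.val_eq_one] at h1
          rw [h1, orderOf_one] at hw
          exact hr.one_lt.ne hw
      have hzz : z⁻¹ ≠ z := fun h => by
        have h2 : z ^ 2 = 1 := by rw [pow_two]; nth_rewrite 1 [← h]; exact inv_mul_cancel₀ hz0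
        have h3 : z ^ (Nat.gcd 2 r) = 1 := pow_gcd_eq_one.2 ⟨h2, hz⟩
        rw [(Nat.coprime_primes Nat.prime_two hr).2 (Ne.symm hr2), pow_one] at h3
        exact hz1 h3
      let d : Fin n → F := fun i => if (i : ℕ) = 0 then z else if (i : ℕ) = 1 then z⁻¹ else 1
      have hprodd : ∏ i, d i = 1 := by
        obtain ⟨k, hk⟩ : ∃ k, n = k + 2 := ⟨n - 2, by omega⟩
        subst hk
        rw [Fin.prod_univ_succ, Fin.prod_univ_succ]
        simp [d, mul_inv_cancel₀ hz0]
      obtain ⟨x, hxsl, hx⟩ := mkdiag d hprodd
      have hk : ∀ mu, Module.finrank F (LinearMap.ker (Matrix.toLin' (x : Matrix (Fin n) (Fin n) F) - mu • LinearMap.id)) =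
          (Finset.univ.filter fun i => d i = mu).card := finrank_ker_diagonal x d hx
      have hk1 : Module.finrank F (LinearMap.ker (Matrix.toLin' (x : Matrix (Fin n) (Fin n) F) - (1 : F) • LinearMap.id)) = n - 2 := by
        rw [hk, show (Finset.univ.filter fun i : Fin n => d i = 1) = Finset.univ \ {(⟨0, by omega⟩ : Fin n), ⟨1, by omega⟩} by
          ext i
          simp only [Finset.mem_filter, Finset.mem_univ, true_and, Finset.mem_sdiff, Finset.mem_insert,
            Finset.mem_singleton, d, Fin.ext_iff]
          split_ifs <;> simp_all,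
          Finset.card_sdiff_of_subset (Finset.subset_univ _), Finset.card_univ, Fintype.card_fin,
          Finset.card_pair (by simp)]
      have hkz : Module.finrank F (LinearMap.ker (Matrix.toLin' (x : Matrix (Fin n) (Fin n) F) - z • LinearMap.id)) = 1 := by
        rw [hk, show (Finset.univ.filter fun i : Fin n => d i = z) = {(⟨0, by omega⟩ : Fin n)} by
          ext i
          simp only [Finset.mem_filter, Finset.mem_univ, true_and, Finset.mem_singleton, d, Fin.ext_iff]
          split_ifs with h0 h1
          · exact iff_of_true rfl h0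
          · exact iff_of_false hzz h0
          · exact iff_of_false (Ne.symm hz1) h0, Finset.card_singleton]
      have hxr : x ^ r = 1 := Units.ext (by
        rw [Units.val_pow_eq_pow_val, hx, Matrix.diagonal_pow, Units.val_one, ← Matrix.diagonal_one]
        congr 1
        funext i
        simp only [d, Pi.pow_apply]
        split_ifs <;> simp [hz])
      obtain ⟨g, -, hgx⟩ := H x hxsl ⟨1, by rw [hxr, one_smul]; rfl⟩ (fun w hw => by
        have h0 := congrFun (congrFun hw ⟨0, by omega⟩) ⟨0, by omega⟩
        have h2 := congrFun (congrFun hw ⟨2, by omega⟩) ⟨2, by omega⟩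
        rw [hx] at h0 h2
        simp [d] at h0 h2
        exact hz1 (h0.trans h2.symm))
      obtain ⟨B, hB⟩ := exists_right hlt (by omega) _ hgx 1 (by rw [finrank_ker_conj, hk1]; omega)
      have h1 := finrank_ker_right _ B hB z
      rw [finrank_ker_conj, hkz] at h1
      have := Nat.le_of_dvd one_pos ⟨_, h1⟩
      omega
    · have hroot : ∀ s : F, s ^ r = 1 → s = 1 := by
        intro s hs
        have hs0 : s ≠ 0 := by rintro rfl; rw [zero_pow hr.ne_zero] at hs; exact zero_ne_one hs
        by_contra hs1
        have hord : orderOf (Units.mk0 s hs0) = r := orderOf_eq_prime (Units.ext (by simp [hs]))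
          (fun h => hs1 (by simpa using congrArg Units.val h))
        have h := orderOf_dvd_natCard (Units.mk0 s hs0)
        rw [hord, Nat.card_eq_fintype_card, Fintype.card_units, ← ZMod.natCast_eq_zero_iff,
          Nat.cast_sub Fintype.card_pos, sub_eq_zero, Nat.cast_one] at h
        exact hc1 (by rw [hc, h, orderOf_one])
      have hcn : c ≤ n := by
        have h := hΩ.trans ((Subgroup.relIndex_dvd_card _ _).trans (Subgroup.card_subgroup_dvd_card _))
        rw [ClassicalLinear.card_GL, Fintype.card_fin] at h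
        obtain ⟨i, -, hi⟩ := (hr.prime.dvd_finsetProd_iff _).1 h
        have hin : (i : ℕ) < n := i.2
        have hsplit : (Fintype.card F : ZMod r) ^ n = (Fintype.card F : ZMod r) ^ (i : ℕ) *
            (Fintype.card F : ZMod r) ^ (n - i) := by rw [← pow_add, Nat.add_sub_cancel' hin.le]
        rw [← ZMod.natCast_eq_zero_iff, Nat.cast_sub (Nat.pow_le_pow_right Fintype.card_pos hin.le)] at hi
        push_cast at hi
        rw [sub_eq_zero, hsplit, mul_eq_left₀ (pow_ne_zero _ hrF)] at hi
        have := Nat.le_of_dvd (by omega) (orderOf_dvd_of_pow_eq_one hi)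
        omega
      obtain ⟨x', hxr', hxne, -, hker⟩ := S5958.exists_element (n := n) p hrF hroot (m := 1) rfl one_pos
        (by rw [one_mul]; exact hcn)
      let x : GL (Fin n) F := Matrix.SpecialLinearGroup.toGL x'
      have hxval : (x : Matrix (Fin n) (Fin n) F) = (x' : Matrix (Fin n) (Fin n) F) := rfl
      have hxr : x ^ r = 1 := by rw [← map_pow, hxr', map_one]
      rw [one_mul, ← one_smul F (LinearMap.id : (Fin n → F) →ₗ[F] (Fin n → F)), ← hxval, ← hc] at hker
      obtain ⟨g, -, hgx⟩ := H x (Omega.mem_specialLinear.2 (by rw [hxval]; exact x'.det_coe))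
        ⟨1, by rw [hxr, one_smul]; rfl⟩ (by rw [hxval]; exact hxne)
      have hyr := conjmem (g := g) hxr
      set y := g⁻¹ * x * g
      have hky : Module.finrank F (LinearMap.ker (Matrix.toLin' (y : Matrix (Fin n) (Fin n) F) - (1 : F) • LinearMap.id)) = n - c := by
        rw [finrank_ker_conj, hker]
      obtain ⟨B, hB⟩ : ∃ B : Matrix (Fin b) (Fin b) F, ∀ x w, ap y (pt e P x w) = pt e P x (B *ᵥ w) := by
        by_cases hca : c ≤ a
        · exact exists_right hlt (by omega) _ hgx 1 (by rw [hky]; omega)
        · -- the left factor is a scalar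
          obtain ⟨A, B, hAB⟩ := (mem_iff e P y).1 hgx
          haveI : Nonempty (Fin a) := ⟨⟨0, by omega⟩⟩
          haveI : Nonempty (Fin b) := ⟨⟨0, by omega⟩⟩
          have hu : (Pi.single (Classical.arbitrary (Fin b)) (1 : F) : Fin b → F) ≠ 0 := Pi.single_ne_zero_iff.2 one_ne_zero
          have hit : ∀ (i : ℕ) u w, ap (y ^ i) (pt e P u w) = pt e P (ap (A ^ i) u) (ap (B ^ i) w) := by
            intro i
            induction i with
            | zero => intro u w; simp
            | succ i ih => intro u w; rw [pow_succ', ap_mul, ih, hAB, pow_succ', pow_succ', ap_mul, ap_mul]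
          obtain ⟨α, hα⟩ := exists_scalar_of_forall_eigen ((A ^ r : GL (Fin a) F) : Matrix (Fin a) (Fin a) F) fun u => by
            refine eigen_of_pt (e := e) (P := P) (u := u) (w := Pi.single (Classical.arbitrary (Fin b)) 1)
              (w' := ap (B ^ r) (Pi.single (Classical.arbitrary (Fin b)) 1)) (lam := 1)
              (fun h => hu (ap_injective _ (h.trans (Matrix.mulVec_zero _).symm))) ?_
            have := hit r u (Pi.single (Classical.arbitrary (Fin b)) 1)
            rw [hyr, ap_one] at this
            rw [one_smul]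
            exact this.symm
          have hα0 : α ≠ 0 := by
            rintro rfl
            rw [zero_smul] at hα
            exact (A ^ r).ne_zero hα
          have hbij : Function.Bijective (fun s : F => s ^ r) := Finite.injective_iff_bijective.1 fun s s' hs => by
            have hs' : s ^ r = s' ^ r := hs
            by_cases h0 : s' = 0
            · rw [h0, zero_pow hr.ne_zero] at hs'
              rw [h0]; exact eq_zero_of_pow_eq_zero hs'
            · have := hroot (s / s') (by rw [div_pow, hs', div_self (pow_ne_zero _ h0)])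
              rwa [div_eq_one_iff_eq h0] at this
          obtain ⟨s, hs⟩ := hbij.2 α
          have hs' : s ^ r = α := hs
          have hs0 : s ≠ 0 := fun h => hα0 (by rw [← hs', h, zero_pow hr.ne_zero])
          set T := Matrix.toLin' (s⁻¹ • (A : Matrix (Fin a) (Fin a) F)) with hT
          have hTr : ∀ v, T^[r] v = v := fun v => by
            rw [hT, ← Module.End.pow_apply, ← Matrix.toLin'_pow, smul_pow, ← Units.val_pow_eq_pow_val, hα, smul_smul,
              ← hs', ← mul_pow, inv_mul_cancel₀ hs0, one_pow, one_smul, Matrix.toLin'_one]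
            rfl
          have hd := Omega.PrimeOrder.orderOf_dvd_sub_finrank hrF T ⊤ (fun _ _ => trivial) (fun v _ => hTr v)
          rw [finrank_top, Module.finrank_fin_fun, ← hc] at hd
          have hfull : Omega.PrimeOrder.fixedIn T ⊤ = ⊤ := by
            refine Submodule.eq_top_of_finrank_eq ?_
            rw [Module.finrank_fin_fun]
            have hle := (Omega.PrimeOrder.fixedIn T ⊤).finrank_le
            rw [Module.finrank_fin_fun] at hle
            by_contra hne
            have := Nat.le_of_dvd (by omega) hd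
            omega
          refine ⟨s • (B : Matrix (Fin b) (Fin b) F), fun u w => ?_⟩
          have hAu : ap A u = s • u := by
            have h1 : T u = u := (Omega.PrimeOrder.mem_fixedIn.1 (show u ∈ Omega.PrimeOrder.fixedIn T ⊤ by rw [hfull]; trivial)).2
            rw [hT, Matrix.toLin'_apply, Matrix.smul_mulVec] at h1
            rw [ap_def]
            conv_rhs => rw [← h1]
            rw [smul_smul, mul_inv_cancel₀ hs0, one_smul]
          rw [hAB, hAu, pt_smul_left, Matrix.smul_mulVec, pt_smul_right]
          rfl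
      have h1 := orderOf_dvd_right hrF (by omega) hab y hyr B hB
      rw [hky, ← hc, show n - (n - c) = c by omega] at h1
      have h2 := Nat.le_of_dvd hc0 h1
      have h3 : 2 * c ≤ a * c := Nat.mul_le_mul_right c ha
      omega
  · rintro ⟨rfl, rfl, hodd, hval⟩ x hx ⟨z, hz⟩ -
    have h2F : (2 : F) ≠ 0 := fun h => by
      haveI := CharTwo.of_one_ne_zero_of_two_eq_zero (R := F) one_ne_zero h
      have h2 : ringChar F = 2 := ringChar.eq F 2
      rw [Nat.odd_iff, FiniteField.even_card_iff_char_two.1 h2] at hodd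
      omega
    rw [pow_two, Units.val_mul] at hz
    have hz0 := Omega.ne_zero_of_square hz
    suffices h : ∃ g : GL (Fin n) F, g⁻¹ * x * g ∈ Cfsg.Geo.tensorProductSubgroup 2 b e P by
      obtain ⟨g, hg⟩ := h
      obtain ⟨g', hg', he⟩ := Omega.exists_sl_conj_of_square (g := g) hz0 hz
      exact ⟨g', hg', he ▸ hg⟩
    let bT : Module.Basis (Fin 2 × Fin b) F (Fin n → F) := (Pi.basisFun F (Fin 2 × Fin b)).map (coords e P)
    have hbT : ∀ i j, bT (i, j) = pt e P (Pi.single i 1) (Pi.single j 1) := fun i j => by
      rw [Module.Basis.map_apply, Pi.basisFun_apply]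
      exact (pt_single e P (i, j)).symm
    by_cases hsq : ∃ s : F, s * s = z
    · obtain ⟨s, rfl⟩ := hsq
      have hs0 : s ≠ 0 := fun h => hz0 (by rw [h, mul_zero])
      obtain ⟨bb, d, hd, hbb, hdet⟩ := Omega.exists_eigen_square h2F (x : Matrix (Fin n) (Fin n) F) hs0 hz
      rw [Omega.mem_specialLinear.1 hx] at hdet
      have hne : -s ≠ s := fun h => hs0 ((mul_eq_zero.1 (show (2 : F) * s = 0 by linear_combination -h)).resolve_left h2F)
      set m := (Finset.univ.filter fun i => d i = -s).card with hm
      have hmev : Even m := by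
        by_contra hmo
        rw [Nat.not_even_iff_odd] at hmo
        refine not_lt.2 hval ((Omega.exists_pow_eq_neg_one_iff (F := F) rfl h2F (by omega : n ≠ 0)).1 ⟨s, ?_⟩)
        have hle : m ≤ n := by
          have := Finset.card_filter_le (Finset.univ : Finset (Fin n)) (fun i => d i = -s)
          rwa [Finset.card_univ, Fintype.card_fin] at this
        rw [← Finset.prod_filter_mul_prod_filter_not Finset.univ (fun i => d i = -s),
          Finset.prod_congr rfl (fun i hi => (Finset.mem_filter.1 hi).2),
          Finset.prod_congr rfl (fun i hi => (hd i).resolve_right (Finset.mem_filter.1 hi).2), Finset.prod_const,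
          Finset.prod_const, ← hm, Finset.filter_not, Finset.card_sdiff_of_subset (Finset.filter_subset _ _),
          ← hm, Finset.card_univ, Fintype.card_fin, hmo.neg_pow, neg_mul, ← pow_add, Nat.add_sub_cancel' hle] at hdet
        linear_combination -hdet
      obtain ⟨m₁, ⟨f₁⟩⟩ := Omega.exists_pairs {i // d i = -s} (by rw [Fintype.card_subtype]; exact hmev)
      obtain ⟨m₂, ⟨f₂⟩⟩ := Omega.exists_pairs {i // ¬ d i = -s} (by
        rw [Fintype.card_subtype_compl, Fintype.card_fin, Fintype.card_subtype, Nat.even_sub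
          (by have := Finset.card_filter_le (Finset.univ : Finset (Fin n)) (fun i => d i = -s); rwa [Finset.card_univ, Fintype.card_fin] at this)]
        exact iff_of_true ⟨b, by omega⟩ hmev)
      have hmb : m₁ + m₂ = b := by
        have h1 := Fintype.card_congr f₁
        have h2 := Fintype.card_congr f₂
        rw [Fintype.card_subtype_compl, Fintype.card_fin] at h2
        simp only [Fintype.card_prod, Fintype.card_fin] at h1 h2
        have h3 : Fintype.card {i // d i = -s} ≤ n := (Fintype.card_subtype_le _).trans (Fintype.card_fin n).le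
        omega
      let f : Fin 2 × Fin b ≃ Fin n :=
        ((Equiv.refl _).prodCongr ((finCongr hmb.symm).trans finSumFinEquiv.symm)).trans
          ((Equiv.prodComm _ _).trans ((Equiv.sumProdDistrib _ _ _).trans ((f₁.sumCongr f₂).trans (Equiv.sumCompl _))))
      let c : Fin b → Fˣ := fun j =>
        if ((finCongr hmb.symm).trans finSumFinEquiv.symm j).isLeft then Units.mk0 (-s) (neg_ne_zero.2 hs0) else Units.mk0 s hs0
      have hfd : ∀ i j, d (f (i, j)) = (c j : F) := by
        intro i j
        simp only [f, c, Equiv.trans_apply, Equiv.prodCongr_apply, Equiv.refl_apply, Prod.map_apply, Equiv.prodComm_apply,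
          Prod.swap_prod_mk]
        obtain ⟨k, hk⟩ : ∃ k, finSumFinEquiv.symm (finCongr hmb.symm j) = k := ⟨_, rfl⟩
        simp only [hk]
        rcases k with k | k
        · have := (f₁ (k, i)).2
          simpa using this
        · have := (hd (f₂ (k, i)).1).resolve_right (f₂ (k, i)).2
          simpa using this
      obtain ⟨g, hg⟩ := Omega.exists_gl_of_bases (bb.reindex f.symm) bT
      let D : GL (Fin b) F := Matrix.GeneralLinearGroup.mkOfDetNeZero (Matrix.diagonal fun j => (c j : F))
        (by rw [Matrix.det_diagonal]; exact Finset.prod_ne_zero_iff.2 fun j _ => (c j).ne_zero)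
      refine ⟨g, mem_of_basis _ 1 D fun i j => ?_⟩
      rw [← hbT, ap_def]
      refine Omega.conj_mulVec x g (hg (i, j)) ?_
      rw [Units.val_one, Matrix.one_mulVec,
        show (D : Matrix (Fin b) (Fin b) F) *ᵥ Pi.single j 1 = (c j : F) • Pi.single j 1 by
          show Matrix.diagonal (fun j => (c j : F)) *ᵥ Pi.single j 1 = _
          funext k
          by_cases hk : k = j
          · subst hk; simp [Matrix.mulVec_diagonal]
          · simp [Matrix.mulVec_diagonal, hk],
        pt_smul_right, ← hbT, Matrix.mulVec_smul, hg]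
      simp [hbb, hfd]
    · obtain ⟨α, β, _, _, _, _, w, c, hw0, hw1, hwl⟩ := Omega.exists_plane_form (x : Matrix (Fin n) (Fin n) F) z hz0 hz
      haveI : IsEmpty β := ⟨fun l => hsq ⟨c l, (hwl l).2⟩⟩
      have hcard : Fintype.card α = b := by
        have := Module.finrank_eq_card_basis w
        simp at this
        omega
      let f : Fin 2 × Fin b ≃ (α × Fin 2) ⊕ β :=
        (Equiv.prodComm _ _).trans (((Fintype.equivFinOfCardEq hcard).symm.prodCongr (Equiv.refl _)).trans (Equiv.sumEmpty _ β).symm)
      have hf : ∀ i j, f (i, j) = .inl ((Fintype.equivFinOfCardEq hcard).symm j, i) := fun i j => rfl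
      obtain ⟨g, hg⟩ := Omega.exists_gl_of_bases (w.reindex f.symm) bT
      let C : GL (Fin 2) F := Matrix.GeneralLinearGroup.mkOfDetNeZero !![0, z; 1, 0]
        (by rw [Matrix.det_fin_two_of]; simpa using hz0)
      refine ⟨g, mem_of_basis _ C 1 fun i j => ?_⟩
      rw [← hbT, ap_def]
      refine Omega.conj_mulVec x g (hg (i, j)) ?_
      rw [Units.val_one, Matrix.one_mulVec]
      have hC0 : (C : Matrix (Fin 2) (Fin 2) F) *ᵥ Pi.single 0 1 = Pi.single 1 1 := by
        funext k; fin_cases k <;> simp [C]
      have hC1 : (C : Matrix (Fin 2) (Fin 2) F) *ᵥ Pi.single 1 1 = z • Pi.single 0 1 := by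
        funext k; fin_cases k <;> simp [C]
      fin_cases i
      · simp only [Fin.zero_eta]
        rw [hC0, ← hbT, hg, Module.Basis.reindex_apply, Equiv.symm_symm, hf, Module.Basis.reindex_apply, Equiv.symm_symm,
          hf, hw0]
      · simp only [Fin.mk_one]
        rw [hC1, pt_smul_left, ← hbT, Matrix.mulVec_smul, hg, Module.Basis.reindex_apply, Equiv.symm_symm, hf,
          Module.Basis.reindex_apply, Equiv.symm_symm, hf, hw1]

end Cfsg.Agent.S5979
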