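import Cfsg.Statements.S5981
import Cfsg.Agent.Lib.Derangements.FormPrime.Orth
import Cfsg.Agent.Lib.Derangements.FormPrime.Small
import Cfsg.Agent.Lib.Geometric.Orth.Omega

set_option autoImplicit false
open scoped MatrixGroups
open Cfsg
open scoped Matrix
open CfsgLib.Derangements.FormPrime


namespace Cfsg.Agent.S5981

/-- Elements of prime order of PSL_n(q), q odd, and the subgroups of orthogonal type. Here `T = PSL_n(F)` for a field `F` with `q` elements, `q` odd, `n ≥ 3`; `Q` is a non-degenerate quadratic form on `F^n` (of either type when `n` is even) and `H` is the subgroup of matrices of determinant 1 that preserve `Q` up to a scalar — a subgroup of type O^ε_n(q) (maximality is not assumed); Ω is the set of cosets of `H` in `T`, so an element of `T` of prime order `r` (a matrix `x` of determinant 1 with `x^r` scalar, `x` not scalar) fixes a point of Ω exactly when some conjugate of `x` by a matrix of determinant 1 preserves `Q` up to a scalar. Let `r` be a prime dividing the index of `H`, with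 `(n, r) ≠ (6, 3)`. Then every element of `T` of order `r` fixes a point of Ω if and only if `r = 2`, or `r ∈ {3, 5}`, `n = r` and `(q − 1)_r = r` (the `r`-part of `q − 1` is exactly `r`). The case `(n, r) = (6, 3)` is not covered by this statement. -/
theorem result {F : Type*} [Field F] [Fintype F] {p : ℕ} [Fact p.Prime] [CharP F p] {q : ℕ} (hq : Fintype.card F = q)
    (hodd : Odd q) (n : ℕ) (hn : 3 ≤ n) (Q : (Fin n → F) → F) (hQ : Cfsg.Geo.IsNondegenerateQuadraticForm Q)
    (r : ℕ) [Fact r.Prime] (hgap : ¬ (n = 6 ∧ r = 3))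
    (hΩ : r ∣ (Cfsg.Geo.quadSimilarityGroup Q).relIndex (Cfsg.Geo.specialLinear (Fin n) F)) :
    (∀ x ∈ Cfsg.Geo.specialLinear (Fin n) F, (∃ z : F, ((x ^ r : GL (Fin n) F) : Matrix (Fin n) (Fin n) F) = z • (1 : Matrix (Fin n) (Fin n) F)) →
      (∀ z : F, (x : Matrix (Fin n) (Fin n) F) ≠ z • (1 : Matrix (Fin n) (Fin n) F)) →
      ∃ g ∈ Cfsg.Geo.specialLinear (Fin n) F, g⁻¹ * x * g ∈ Cfsg.Geo.quadSimilarityGroup Q) ↔
    (r = 2 ∨ ((r = 3 ∨ r = 5) ∧ n = r ∧ padicValNat r (q - 1) = 1)) := by
  classical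
  subst hq
  have hr : r.Prime := Fact.out
  haveI : NeZero n := ⟨by omega⟩
  let Q' : QuadraticForm F (Fin n → F) := CfsgLib.Geometric.Orth.toQF hQ
  have hQ' : ⇑Q' = Q := CfsgLib.Geometric.Orth.coe_toQF hQ
  have hnd : CfsgLib.ClassicalForms.Nondeg Q' := CfsgLib.Geometric.Orth.nondeg_toQF hQ
  rw [← hQ'] at hΩ ⊢
  clear_value Q'
  clear hQ' hQ
  clear Q
  rename' Q' => Q
  have h2 : (2 : F) ≠ 0 := CfsgLib.ClassicalForms.two_ne_zero_of_odd (by rwa [Nat.card_eq_fintype_card])
  set q := Fintype.card F with hq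
  have hq1 : 1 < q := Fintype.one_lt_card
  constructor
  · intro H
    by_contra hno
    have hr2 : r ≠ 2 := fun h => hno (Or.inl h)
    have hrodd : Odd r := hr.odd_of_ne_two hr2
    -- a derangement contradicts the hypothesis
    have kill : ∀ x ∈ Cfsg.Geo.specialLinear (Fin n) F,
        (∃ z : F, ((x ^ r : GL (Fin n) F) : Matrix (Fin n) (Fin n) F) = z • 1) →
        (∀ z : F, (x : Matrix (Fin n) (Fin n) F) ≠ z • 1) →
        (∀ f, IsSesq (RingHom.id F) f → (∀ u v, f u v = f v u) → ∀ c : F,
          (∀ u v, f ((x : Matrix (Fin n) (Fin n) F) *ᵥ u) ((x : Matrix (Fin n) (Fin n) F) *ᵥ v) = c * f u v) → False) →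
        False := by
      intro x hx hz hns hD
      obtain ⟨g, -, c, hc⟩ := H x hx hz hns
      exact hD _ ((isSesq_polar hnd).comp g⁻¹) (fun u v => QuadraticMap.polar_comm (⇑Q) _ _) c
        (similar_pullback (polar_similar hc))
    by_cases hrq : r ∣ q
    · -- the characteristic
      obtain ⟨k, -, hk⟩ := FiniteField.card F p
      have hrp : r = p := by
        rw [hq, hk] at hrq
        exact (Nat.prime_dvd_prime_iff_eq hr Fact.out).1 (hr.dvd_of_dvd_pow hrq)
      subst hrp
      obtain ⟨x, hx, hz, hns, hD⟩ := transvection_not_similar (F := F) h2 r (show 2 ≤ n by omega)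
      exact kill x hx hz hns hD
    by_cases hq0 : r ∣ q - 1
    · by_cases hrn : ¬ r ∣ n ∨ 7 ≤ n
      · obtain ⟨ω, hω, hω1, -⟩ := CfsgLib.Omega.exists_root_of_dvd (K := F) (r := r) hq0
        obtain ⟨d, hd, hdr, hnot⟩ := exists_pattern_one (τ := RingHom.id F) hr hr2 hω hω1 rfl hn hrn
        obtain ⟨x, hx, hz, hns, hD⟩ := exists_diag_derangement (show 0 < n by omega) d hd hdr hnot
        exact kill x hx hz hns fun f hf _ => hD f hf
      · push Not at hrn
        obtain ⟨hrn, hn7⟩ := hrn
        have hr3 : 3 ≤ r := by have := hr.two_le; omega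
        have hcases : n = r ∧ (r = 3 ∨ r = 5) := by
          obtain ⟨a, ha⟩ := hrn
          have hr6 : r ≤ 6 := by
            have := Nat.le_of_dvd (by omega) (show r ∣ n from ⟨a, ha⟩); omega
          interval_cases r
          · have : a ≤ 2 := by omega
            interval_cases a <;> omega
          · norm_num at hr
          · have : a ≤ 1 := by omega
            interval_cases a <;> omega
          · norm_num at hr
        obtain ⟨hnr, h35⟩ := hcases
        have hv : 2 ≤ padicValNat r (q - 1) := by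
          have h1 : 1 ≤ padicValNat r (q - 1) := one_le_padicValNat_of_dvd (by omega) hq0
          have h0 : padicValNat r (q - 1) ≠ 1 := fun h => hno (Or.inr ⟨h35, hnr, h⟩)
          omega
        have hdvd : r * r ∣ q - 1 := by
          rw [← pow_two]; exact (padicValNat_dvd_iff_le (by omega)).2 hv
        obtain ⟨w₀, hw₀⟩ := IsCyclic.exists_ofOrder_eq_natCard (α := Fˣ)
        rw [Nat.card_eq_fintype_card, Fintype.card_units] at hw₀
        obtain ⟨t, ht⟩ := hdvd
        have hw1 : ((w₀ ^ t : Fˣ) : F) ^ r ≠ 1 := by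
          rw [← Units.val_pow_eq_pow_val, Ne, Units.val_eq_one, ← pow_mul]
          intro h
          have hdv := orderOf_dvd_of_pow_eq_one h
          have ht0 : 0 < t := Nat.pos_of_ne_zero (by rintro rfl; omega)
          have := Nat.le_of_dvd (by positivity) hdv
          rw [hw₀, ht] at this
          nlinarith [Nat.mul_pos ht0 hr.pos]
        have hwr : ((w₀ ^ t : Fˣ) : F) ^ (r * r) = 1 := by
          rw [← Units.val_pow_eq_pow_val, Units.val_eq_one, ← pow_mul, mul_comm, ← ht, ← hw₀]
          exact pow_orderOf_eq_one w₀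
        obtain ⟨d, hd, hdr, hnot⟩ := exists_pattern_two (τ := RingHom.id F) hr hr2 hwr hw1 rfl hnr
        obtain ⟨x, hx, hz, hns, hD⟩ := exists_diag_derangement (show 0 < n by omega) d hd hdr hnot
        exact kill x hx hz hns fun f hf _ => hD f hf
    -- no roots of unity of order `r`
    have hroot : ∀ s : F, s ^ r = 1 → s = 1 := by
      intro s hs
      have hs0 : s ≠ 0 := by rintro rfl; rw [zero_pow hr.ne_zero] at hs; exact zero_ne_one hs
      by_contra h1
      refine hq0 ?_
      rw [← orderOf_eq_prime hs h1]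
      exact orderOf_dvd_of_pow_eq_one (FiniteField.pow_card_sub_one_eq_one s hs0)
    have hdvd_iff : ∀ i, r ∣ q ^ i - 1 ↔ (q : ZMod r) ^ i = 1 := fun i => by
      rw [← ZMod.natCast_eq_zero_iff, Nat.cast_sub (Nat.one_le_pow _ _ (by omega)), Nat.cast_pow, Nat.cast_one,
        sub_eq_zero]
    have htwo : (2 : ZMod r) ≠ 0 := fun h => hr2 ((Nat.prime_dvd_prime_iff_eq hr Nat.prime_two).1
      ((ZMod.natCast_eq_zero_iff 2 r).1 (by exact_mod_cast h)))
    by_cases hex : ∃ i, Odd i ∧ i ≤ n ∧ r ∣ q ^ i - 1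
    · obtain ⟨i, hi, hin, hri⟩ := hex
      rw [hdvd_iff] at hri
      have hei : orderOf (q : ZMod r) ∣ i := orderOf_dvd_of_pow_eq_one hri
      have he : 0 < orderOf (q : ZMod r) := Nat.pos_of_dvd_of_pos hei hi.pos
      have heodd : Odd (orderOf (q : ZMod r)) := hi.of_dvd_nat hei
      obtain ⟨x, hx, hz, hns, hD⟩ := exists_field_derangement (F := F) p he
        ((Nat.le_of_dvd hi.pos hei).trans hin) hr2 ((hdvd_iff _).2 (pow_orderOf_eq_one _)) hroot
        (τ := RingHom.id F) (s := 0) (fun a => by simp) fun j hj => by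
          push_cast at hj
          rw [pow_zero, one_mul, ← hq] at hj
          have h2j : (q : ZMod r) ^ (2 * j) = 1 := by rw [mul_comm, pow_mul, hj]; ring
          have hej : orderOf (q : ZMod r) ∣ j :=
            (Nat.Coprime.dvd_mul_left heodd.coprime_two_right).1 (orderOf_dvd_of_pow_eq_one h2j)
          rw [orderOf_dvd_iff_pow_eq_one.1 hej] at hj
          exact htwo (by linear_combination hj)
      exact kill x hx hz hns fun f hf _ => hD f hf
    · push Not at hex
      obtain ⟨hrn, hZ⟩ := even_case h2 (show 0 < n by omega) hnd hr2 hrq hex hΩ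
      obtain ⟨x, hx, hxr, hns, hfree⟩ := exists_field_free (F := F) p (show 0 < n by omega) hrn hroot
      obtain ⟨g, -, c, hc⟩ := H x hx ⟨1, by rw [hxr, one_smul]; rfl⟩ hns
      refine hZ (dvd_card_zeros_sub_one Q (g⁻¹ * x * g) c.ne_zero hc ?_ fun v hv => ?_)
      · have : g⁻¹ * x * g = g⁻¹ * x * (g⁻¹)⁻¹ := by rw [inv_inv]
        rw [this, conj_pow, hxr, mul_one, mul_inv_cancel]
      · refine Matrix.mulVec_injective_of_isUnit (A := (g : Matrix (Fin n) (Fin n) F)) g.isUnit ?_
        show (g : Matrix (Fin n) (Fin n) F) *ᵥ v = (g : Matrix (Fin n) (Fin n) F) *ᵥ 0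
        rw [Matrix.mulVec_zero]
        apply hfree
        conv_rhs => rw [← hv]
        rw [Matrix.mulVec_mulVec, Matrix.mulVec_mulVec, ← Units.val_mul, ← Units.val_mul]
        congr 2; group
  · rintro (rfl | ⟨h35, hnr, hv⟩) x hx ⟨z, hz⟩ -
    · rw [pow_two, Units.val_mul] at hz
      exact exists_fixed_two h2 hnd x hz
    · obtain ⟨b, d, π, c, -, hπ, hb, hpair, hc0⟩ := exists_eigen_small h35 hnr hv x hx hz
      obtain ⟨m, hm⟩ : Odd n := by rcases h35 with rfl | rfl <;> subst hnr <;> decide
      obtain ⟨b', hb'⟩ := exists_paired_basis h2 hm hnd π hπ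
      obtain ⟨g, hg, hge⟩ := CfsgLib.Omega.exists_sl_conj_onto x b b' d hb
      refine ⟨g, hg, Units.mk0 c hc0, similar_of_eigen h2 b' d hge fun i j => ?_⟩
      rcases hb' i j with h | h
      · exact Or.inl h
      · exact Or.inr (h ▸ hpair i)

end Cfsg.Agent.S5981
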