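import Cfsg.Statements.S5982
import Cfsg.Agent.Lib.Derangements.FormPrime.Unitary
import Cfsg.Agent.Lib.Derangements.FormPrime.Small

set_option autoImplicit false
open scoped MatrixGroups
open Cfsg
open scoped Matrix
open CfsgLib.Derangements.FormPrime


namespace Cfsg.Agent.S5982

/-- Elements of prime order of PSL_n(q), q = q₀², and the subgroups of unitary type. Here `T = PSL_n(F)` for a field `F` with `q = q₀²` elements (`n ≥ 3`), `f` is a non-degenerate unitary form on `F^n` for the involutory automorphism `x ↦ x^{q₀}`, and `H` is the subgroup of matrices of determinant 1 that preserve `f` up to a scalar — a subgroup of type GU_n(q₀) (maximality is not assumed); Ω is the set of cosets of `H` in `T`, so an element of `T` of prime order `r` (a matrix `x` of determinant 1 with `x^r` scalar, `x` not scalar) fixes a point of Ω exactly when some conjugate of `x` by a matrix of determinant 1 preserves `f` up to a scalar. Let `r` be a prime dividing the index of `H`, with `r = 2` or `r` different from the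 characteristic `p`, and with `(n, r) ≠ (6, 3)`. Then every element of `T` of order `r` fixes a point of Ω if and only if either `r = 2` and (`p = 2` or `(n)_2 ≤ (q − 1)_2`), or `r ∈ {3, 5}`, `n = r` and `(q₀ − 1)_r = r`. (Odd `r = p` and the case `(n, r) = (6, 3)` are not covered by this statement.) -/
theorem result {F : Type*} [Field F] [Fintype F] {p : ℕ} [Fact p.Prime] [CharP F p] {q : ℕ} (hq : Fintype.card F = q)
    (q₀ : ℕ) (hq₀ : q = q₀ ^ 2) (n : ℕ) (hn : 3 ≤ n) (f : (Fin n → F) → (Fin n → F) → F) (hf : Cfsg.Geo.IsUnitaryFormPow q₀ f)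
    (r : ℕ) [Fact r.Prime] (hr : r = 2 ∨ r ≠ p) (hgap : ¬ (n = 6 ∧ r = 3))
    (hΩ : r ∣ (Cfsg.Geo.similarityGroup f).relIndex (Cfsg.Geo.specialLinear (Fin n) F)) :
    (∀ x ∈ Cfsg.Geo.specialLinear (Fin n) F, (∃ z : F, ((x ^ r : GL (Fin n) F) : Matrix (Fin n) (Fin n) F) = z • (1 : Matrix (Fin n) (Fin n) F)) →
      (∀ z : F, (x : Matrix (Fin n) (Fin n) F) ≠ z • (1 : Matrix (Fin n) (Fin n) F)) →
      ∃ g ∈ Cfsg.Geo.specialLinear (Fin n) F, g⁻¹ * x * g ∈ Cfsg.Geo.similarityGroup f) ↔
    ((r = 2 ∧ (p = 2 ∨ padicValNat 2 n ≤ padicValNat 2 (q - 1))) ∨ ((r = 3 ∨ r = 5) ∧ n = r ∧ padicValNat r (q₀ - 1) = 1)) := by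
  classical
  subst hq
  have hr' : r.Prime := Fact.out
  haveI : NeZero n := ⟨by omega⟩
  set q := Fintype.card F with hq
  have hq1 : 1 < q := Fintype.one_lt_card
  obtain ⟨cj⟩ := CfsgLib.ClassicalForms.exists_conj (F := F) (q := q₀) (by rw [Nat.card_eq_fintype_card]; exact hq₀)
  obtain ⟨τ, hτ, hinv, hne⟩ := cj
  obtain ⟨hs, hsym⟩ := isSesq_of_unitary hf hτ hinv
  obtain ⟨k, -, hk⟩ := FiniteField.card F p
  obtain ⟨s, -, hs₀⟩ := (Nat.dvd_prime_pow Fact.out).1
    (show q₀ ∣ p ^ (k : ℕ) by rw [← hk]; exact ⟨q₀, by rw [← hq, hq₀, pow_two]⟩)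
  have hq02 : 2 ≤ q₀ := by
    by_contra hlt
    interval_cases q₀ <;> simp at hq₀ <;> omega
  have hfac : q - 1 = (q₀ - 1) * (q₀ + 1) := by rw [hq₀, mul_comm]; exact Nat.sq_sub_sq q₀ 1
  -- a derangement contradicts the hypothesis
  have kill : ∀ x : GL (Fin n) F, (∀ g ∈ Cfsg.Geo.specialLinear (Fin n) F, g⁻¹ * x * g ∈ Cfsg.Geo.similarityGroup f →
      ∀ P : Prop, (∀ f', IsSesq τ f' → (∀ u v, f' u v = τ (f' v u)) → ∀ c : F,
        (∀ u v, f' ((x : Matrix (Fin n) (Fin n) F) *ᵥ u) ((x : Matrix (Fin n) (Fin n) F) *ᵥ v) = c * f' u v) → P) → P) := by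
    rintro x g - ⟨c, hc⟩ P hP
    exact hP _ (hs.comp g⁻¹) (fun u v => hsym _ _) c (similar_pullback hc)
  constructor
  · intro H
    by_contra hno
    have kill' : ∀ x ∈ Cfsg.Geo.specialLinear (Fin n) F,
        (∃ z : F, ((x ^ r : GL (Fin n) F) : Matrix (Fin n) (Fin n) F) = z • 1) →
        (∀ z : F, (x : Matrix (Fin n) (Fin n) F) ≠ z • 1) →
        (∀ f', IsSesq τ f' → (∀ u v, f' u v = τ (f' v u)) → ∀ c : F,
          (∀ u v, f' ((x : Matrix (Fin n) (Fin n) F) *ᵥ u) ((x : Matrix (Fin n) (Fin n) F) *ᵥ v) = c * f' u v) → False) →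
        False := by
      intro x hx hz hns hD
      obtain ⟨g, hg, hgx⟩ := H x hx hz hns
      exact kill x g hg hgx False hD
    obtain ⟨w₀, hw₀⟩ := IsCyclic.exists_ofOrder_eq_natCard (α := Fˣ)
    rw [Nat.card_eq_fintype_card, Fintype.card_units, ← hq] at hw₀
    by_cases hr2 : r = 2
    · -- order two
      subst hr2
      simp only [true_and, not_or, not_le] at hno
      obtain ⟨⟨hp2, hv⟩, -⟩ := hno
      have h2 : (2 : F) ≠ 0 := fun h => hp2 ((Nat.prime_dvd_prime_iff_eq Fact.out Nat.prime_two).1
        ((CharP.cast_eq_zero_iff F p 2).1 (by exact_mod_cast h)))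
      have hodd : Odd q₀ := hs₀ ▸ ((Fact.out : p.Prime).odd_of_ne_two hp2).pow
      obtain ⟨m, hm⟩ : 2 ∣ n := dvd_of_one_le_padicValNat (by omega)
      have hvm : padicValNat 2 (q - 1) ≤ padicValNat 2 m := by
        rw [hm, padicValNat.mul two_ne_zero (by omega), padicValNat.self one_lt_two] at hv
        omega
      obtain ⟨t, ht⟩ : 2 ^ padicValNat 2 (q - 1) ∣ q - 1 := pow_padicValNat_dvd
      have hu : ¬ IsSquare ((w₀ ^ t : Fˣ) : F) := by
        intro hsq
        rw [FiniteField.isSquare_iff (fun h => h2 (by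
          haveI : CharP F 2 := (ringChar.eq_iff).1 h
          exact CharTwo.two_eq_zero)) (Units.ne_zero _), ← Units.val_pow_eq_pow_val, Units.val_eq_one, ← pow_mul] at hsq
        have hdv := orderOf_dvd_of_pow_eq_one hsq
        rw [hw₀] at hdv
        have hqodd : q % 2 = 1 := by rw [hq₀]; exact Nat.odd_iff.1 hodd.pow
        obtain ⟨D, hD⟩ : ∃ D, padicValNat 2 (q - 1) = D + 1 := ⟨padicValNat 2 (q - 1) - 1, by
          have := one_le_padicValNat_of_dvd (p := 2) (n := q - 1) (by omega) (by omega); omega⟩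
        have htodd : ¬ 2 ∣ t := fun h => by
          have := pow_succ_padicValNat_not_dvd (p := 2) (n := q - 1) (by omega)
          exact this (by rw [pow_succ]; conv_rhs => rw [ht]
                         exact mul_dvd_mul_left _ h)
        have hhalf : Fintype.card F / 2 = 2 ^ D * t := by
          rw [← hq]
          rw [hD, pow_succ] at ht
          have : q = 2 * (2 ^ D * t) + 1 := by rw [show 2 * (2 ^ D * t) = 2 ^ D * 2 * t by ring, ← ht]; omega
          omega
        rw [hhalf] at hdv
        conv_lhs at hdv => rw [ht, hD, pow_succ]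
        rw [mul_comm (2 ^ D) 2, mul_assoc, mul_left_comm t] at hdv
        rw [mul_comm 2 (2 ^ D * t), mul_assoc, Nat.mul_dvd_mul_iff_left (by positivity)] at hdv
        have ht0 : 0 < t := Nat.pos_of_ne_zero (by rintro rfl; simp at ht; omega)
        exact htodd ((Nat.mul_dvd_mul_iff_left ht0).1 hdv)
      have hum : ((w₀ ^ t : Fˣ) : F) ^ m = 1 := by
        obtain ⟨a, ha⟩ := (padicValNat_dvd_iff_le (p := 2) (show m ≠ 0 by omega)).2 hvm
        rw [← Units.val_pow_eq_pow_val, Units.val_eq_one, ha, ← pow_mul, mul_left_comm, ← mul_assoc, mul_comm (2 ^ _) t,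
          mul_comm t, ← ht, ← hw₀, pow_mul, pow_orderOf_eq_one, one_pow]
      obtain ⟨x, hx, hz, hns, hD⟩ := exists_derangement_two (τ := τ) (by rw [← hq]; exact hq₀) hodd h2 hτ hm hu hum
      exact kill' x hx hz hns hD
    -- odd `r`, different from the characteristic
    have hrp : r ≠ p := hr.resolve_left hr2
    have hrq₀ : ¬ r ∣ q₀ := fun h => hrp ((Nat.prime_dvd_prime_iff_eq hr' Fact.out).1
      (hr'.dvd_of_dvd_pow (hs₀ ▸ h)))
    have htwo : (2 : ZMod r) ≠ 0 := fun h => hr2 ((Nat.prime_dvd_prime_iff_eq hr' Nat.prime_two).1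
      ((ZMod.natCast_eq_zero_iff 2 r).1 (by exact_mod_cast h)))
    have hone : (1 : ZMod r) ≠ -1 := fun h => htwo (by linear_combination h)
    obtain ⟨i, hi2, hin, hNi⟩ := index_case (by rw [← hq]; exact hq₀) hs hτ hne hsym hrq₀ hΩ
    have hqN : (q : ZMod r) = (-(q₀ : ZMod r)) ^ 2 := by rw [hq₀]; push_cast; ring
    by_cases hq0 : r ∣ q - 1
    · have hq1' : (q : ZMod r) = 1 := by
        have := (ZMod.natCast_eq_zero_iff (q - 1) r).2 hq0
        rwa [Nat.cast_sub (by omega), Nat.cast_one, sub_eq_zero] at this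
      have hrq01 : r ∣ q₀ - 1 := by
        rw [hqN, sq_eq_one_iff] at hq1'
        rcases hq1' with h | h
        · rw [h, one_pow] at hNi; exact absurd hNi hone
        · rw [neg_inj] at h
          rw [← ZMod.natCast_eq_zero_iff, Nat.cast_sub (by omega), h, Nat.cast_one, sub_self]
      have hfixed : ∀ a : F, ∀ M : ℕ, a ^ M = 1 → M ∣ q₀ - 1 → τ a = a := fun a M ha hM => by
        obtain ⟨b, hb⟩ := hM
        rw [hτ, show q₀ = M * b + 1 by omega, pow_succ, pow_mul, ha, one_pow, one_mul]
      by_cases hrn : ¬ r ∣ n ∨ 7 ≤ n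
      · obtain ⟨ω, hω, hω1, -⟩ := CfsgLib.Omega.exists_root_of_dvd (K := F) (r := r) hq0
        obtain ⟨d, hd, hdr, hnot⟩ := exists_pattern_one (τ := τ) hr' hr2 hω hω1 (hfixed ω r hω hrq01) hn hrn
        obtain ⟨x, hx, hz, hns, hD⟩ := exists_diag_derangement (show 0 < n by omega) d hd hdr hnot
        exact kill' x hx hz hns fun f hf _ => hD f hf
      · push Not at hrn
        obtain ⟨hrn, hn7⟩ := hrn
        have hr3 : 3 ≤ r := by have := hr'.two_le; omega
        obtain ⟨hnr, h35⟩ : n = r ∧ (r = 3 ∨ r = 5) := by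
          obtain ⟨a, ha⟩ := hrn
          have hr6 : r ≤ 6 := by
            have := Nat.le_of_dvd (by omega) (show r ∣ n from ⟨a, ha⟩); omega
          interval_cases r
          · have : a ≤ 2 := by omega
            interval_cases a <;> omega
          · norm_num at hr'
          · have : a ≤ 1 := by omega
            interval_cases a <;> omega
          · norm_num at hr'
        have hv : 2 ≤ padicValNat r (q₀ - 1) := by
          have hne0 : q₀ - 1 ≠ 0 := by omega
          have h1 : 1 ≤ padicValNat r (q₀ - 1) := one_le_padicValNat_of_dvd hne0 hrq01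
          have h0 : padicValNat r (q₀ - 1) ≠ 1 := fun h => hno (Or.inr ⟨h35, hnr, h⟩)
          omega
        have hdvd₀ : r * r ∣ q₀ - 1 := by
          rw [← pow_two]; exact (padicValNat_dvd_iff_le (by omega)).2 hv
        obtain ⟨t, ht⟩ : r * r ∣ q - 1 := hfac ▸ dvd_mul_of_dvd_left hdvd₀ _
        have hw1 : ((w₀ ^ t : Fˣ) : F) ^ r ≠ 1 := by
          rw [← Units.val_pow_eq_pow_val, Ne, Units.val_eq_one, ← pow_mul]
          intro h
          have hdv := orderOf_dvd_of_pow_eq_one h
          have ht0 : 0 < t := Nat.pos_of_ne_zero (by rintro rfl; omega)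
          have := Nat.le_of_dvd (by positivity) hdv
          rw [hw₀, ht] at this
          nlinarith [Nat.mul_pos ht0 hr'.pos]
        have hwr : ((w₀ ^ t : Fˣ) : F) ^ (r * r) = 1 := by
          rw [← Units.val_pow_eq_pow_val, Units.val_eq_one, ← pow_mul, mul_comm, ← ht, ← hw₀]
          exact pow_orderOf_eq_one w₀
        obtain ⟨d, hd, hdr, hnot⟩ := exists_pattern_two (τ := τ) hr' hr2 hwr hw1 (hfixed _ _ hwr hdvd₀) hnr
        obtain ⟨x, hx, hz, hns, hD⟩ := exists_diag_derangement (show 0 < n by omega) d hd hdr hnot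
        exact kill' x hx hz hns fun f hf _ => hD f hf
    · have hroot : ∀ a : F, a ^ r = 1 → a = 1 := by
        intro a ha
        have ha0 : a ≠ 0 := by rintro rfl; rw [zero_pow hr'.ne_zero] at ha; exact zero_ne_one ha
        by_contra h1
        refine hq0 ?_
        rw [← orderOf_eq_prime ha h1]
        exact orderOf_dvd_of_pow_eq_one (FiniteField.pow_card_sub_one_eq_one a ha0)
      have hqi : (q : ZMod r) ^ i = 1 := by rw [hqN, ← pow_mul, mul_comm, pow_mul, hNi]; ring
      have hd : orderOf (q : ZMod r) ∣ i := orderOf_dvd_of_pow_eq_one hqi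
      obtain ⟨x, hx, hz, hns, hD⟩ := exists_field_derangement (F := F) p (Nat.pos_of_dvd_of_pos hd (by omega))
        ((Nat.le_of_dvd (by omega) hd).trans hin) hr2
        (by rw [← hq, ← ZMod.natCast_eq_zero_iff, Nat.cast_sub (Nat.one_le_pow _ _ (by omega)), Nat.cast_pow,
          pow_orderOf_eq_one, Nat.cast_one, sub_self]) hroot
        (τ := τ) (s := s) (fun a => by rw [hτ, hs₀]) fun j hj => by
          push_cast at hj
          rw [← hq, hqN, ← pow_mul] at hj
          have h1 : (-(q₀ : ZMod r)) ^ (2 * j + 1) = 1 := by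
            have hcast : (q₀ : ZMod r) = (p : ZMod r) ^ s := by rw [hs₀]; push_cast; rfl
            rw [pow_succ']
            rw [← hcast] at hj
            linear_combination -hj
          have h3 : (-(q₀ : ZMod r)) ^ ((2 * j + 1) * i) = -1 := by
            rw [mul_comm, pow_mul, hNi, (odd_two_mul_add_one j).neg_one_pow]
          rw [pow_mul, h1, one_pow] at h3
          exact hone h3
      exact kill' x hx hz hns fun f hf _ => hD f hf
  · rintro (⟨rfl, h⟩ | ⟨h35, hnr, hv⟩) x hx ⟨z, hz⟩ -
    · rw [pow_two, Units.val_mul] at hz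
      by_cases hsq : IsSquare z
      · obtain ⟨a, rfl⟩ := hsq
        exact exists_fixed_square hs hne hsym x hz
      · exfalso
        have hp2 : p ≠ 2 := fun hp => hsq (FiniteField.isSquare_of_char_two (by rw [ringChar.eq F p, hp]) z)
        have h2 : (2 : F) ≠ 0 := fun h2 => hp2 ((Nat.prime_dvd_prime_iff_eq Fact.out Nat.prime_two).1
          ((CharP.cast_eq_zero_iff F p 2).1 (by exact_mod_cast h2)))
        have hchar : ringChar F ≠ 2 := by rw [ringChar.eq F p]; exact hp2
        have hvle := h.resolve_left hp2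
        have hz0 : z ≠ 0 := CfsgLib.Omega.ne_zero_of_square hz
        obtain ⟨m, hm, hdet⟩ := det_of_nonsquare hz0 hz hsq
        rw [CfsgLib.Omega.mem_specialLinear.1 hx] at hdet
        have hodd : Odd q₀ := hs₀ ▸ ((Fact.out : p.Prime).odd_of_ne_two hp2).pow
        have hqeven : Even (Fintype.card F / 2) := by
          obtain ⟨t, ht⟩ := hodd
          rw [← hq, hq₀, ht, show (2 * t + 1) ^ 2 = 2 * ((2 * t + 2) * t) + 1 by ring]
          rw [show (2 * ((2 * t + 2) * t) + 1) / 2 = (2 * t + 2) * t by omega]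
          exact ⟨(t + 1) * t, by ring⟩
        have hpow : (-z) ^ (Fintype.card F / 2) ≠ 1 := by
          rw [hqeven.neg_pow]
          exact fun h1 => hsq ((FiniteField.isSquare_iff hchar hz0).2 h1)
        have hord := orderOf_dvd_of_pow_eq_one hdet.symm
        have hm0 : m ≠ 0 := by omega
        have hordq : orderOf (-z) ∣ q - 1 :=
          orderOf_dvd_of_pow_eq_one (FiniteField.pow_card_sub_one_eq_one _ (neg_ne_zero.2 hz0))
        have hlt : padicValNat 2 m < padicValNat 2 (q - 1) := by
          rw [hm, padicValNat.mul two_ne_zero hm0, padicValNat.self one_lt_two] at hvle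
          omega
        have hg : Nat.gcd m (q - 1) ∣ Fintype.card F / 2 := by
          have hodd2 : q % 2 = 1 := by rw [hq₀]; exact Nat.odd_iff.1 hodd.pow
          have h2q : q - 1 = 2 * (Fintype.card F / 2) := by rw [← hq]; omega
          set H := Fintype.card F / 2
          have hH : H ≠ 0 := by omega
          have hgd : Nat.gcd m (q - 1) ∣ 2 * H := h2q ▸ Nat.gcd_dvd_right m (q - 1)
          by_cases h2g : Nat.gcd m (q - 1) ∣ H
          · exact h2g
          · exfalso
            have hg0 : Nat.gcd m (q - 1) ≠ 0 := Nat.gcd_ne_zero_left hm0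
            refine h2g ((Nat.factorization_le_iff_dvd hg0 hH).1 fun l => ?_)
            by_cases hl : l.Prime
            · rcases eq_or_ne l 2 with rfl | hl2
              · have h1 : (Nat.gcd m (q - 1)).factorization 2 ≤ m.factorization 2 :=
                  (Nat.factorization_le_iff_dvd hg0 hm0).2 (Nat.gcd_dvd_left _ _) 2
                rw [Nat.factorization_def _ Nat.prime_two, Nat.factorization_def _ Nat.prime_two] at h1 ⊢
                rw [h2q, padicValNat.mul two_ne_zero hH, padicValNat.self one_lt_two] at hlt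
                omega
              · have h1 := (Nat.factorization_le_iff_dvd hg0 (by omega)).2 hgd l
                rw [Nat.factorization_mul two_ne_zero hH, Nat.prime_two.factorization] at h1
                simpa [Finsupp.single_apply, Ne.symm hl2] using h1
            · rw [Nat.factorization_eq_zero_of_not_prime _ hl]; exact Nat.zero_le _
        exact hpow (orderOf_dvd_iff_pow_eq_one.1 ((Nat.dvd_gcd hord hordq).trans hg))
    · have hne0 : q₀ - 1 ≠ 0 := by omega
      have hr01 : r ∣ q₀ - 1 := dvd_of_one_le_padicValNat (by omega)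
      have hr2' : r ≠ 2 := by omega
      have hvq : padicValNat r (Fintype.card F - 1) = 1 := by
        rw [← hq, hfac, padicValNat.mul hne0 (by omega), hv, padicValNat.eq_zero_of_not_dvd]
        intro h
        have := Nat.dvd_sub h hr01
        rw [show q₀ + 1 - (q₀ - 1) = 2 by omega] at this
        exact hr2' ((Nat.prime_dvd_prime_iff_eq hr' Nat.prime_two).1 this)
      obtain ⟨b, d, π, c, hd, hπ, hb, hpair, hc0⟩ := exists_eigen_small h35 hnr hvq x hx hz
      have hτd : ∀ i, τ (d i) = d i := fun i => by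
        obtain ⟨b, hb⟩ := hr01
        rw [hτ, show q₀ = r * b + 1 by omega, pow_succ, pow_mul, hd, one_pow, one_mul]
      obtain ⟨b', hb'⟩ := exists_paired_basis_unitary hs hne hsym π hπ
      obtain ⟨g, hg, hge⟩ := CfsgLib.Omega.exists_sl_conj_onto x b b' d hb
      refine ⟨g, hg, Units.mk0 c hc0, similar_of_basis hs b' fun i j => ?_⟩
      show f _ _ = c * _
      rw [hge, hge, hs.smul_left, hs.smul_right, hτd, hb']
      by_cases hij : j = π i
      · rw [if_pos hij, hij, mul_one, mul_one]; exact hpair i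
      · rw [if_neg hij]; ring

end Cfsg.Agent.S5982
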