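import Cfsg.Statements.S5983
import Cfsg.Agent.Lib.Omega.SympOrthTwo
import Cfsg.Agent.Lib.Omega.FreeInverted
import Cfsg.Agent.Lib.ClassicalLinear.SympCard
import Cfsg.Agent.Lib.Forms.SympBridge
import Cfsg.Agent.Lib.Geometric.Orth.Omega

set_option autoImplicit false
open scoped MatrixGroups Matrix
open Cfsg

namespace Cfsg.Agent.S5983

open CfsgLib QuadraticMap

variable {F : Type*} [Field F] {d : ℕ}

theorem mem_spGL_iff {g : GL (Fin d ⊕ Fin d) F} :
    g ∈ Cfsg.spGL d F ↔ ∀ u v, Cfsg.sympForm d F ((g : Matrix _ _ F) *ᵥ u) ((g : Matrix _ _ F) *ᵥ v) =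
      Cfsg.sympForm d F u v := Iff.rfl

variable {Q : QuadraticForm F (Fin d ⊕ Fin d → F)}

theorem exists_spGL_of_equiv (hQf : ∀ u v, polar Q u v = Cfsg.sympForm d F u v)
    {Q' : QuadraticForm F (Fin d ⊕ Fin d → F)} (hQ'f : ∀ u v, polar Q' u v = Cfsg.sympForm d F u v)
    (E : (Fin d ⊕ Fin d → F) ≃ₗ[F] (Fin d ⊕ Fin d → F)) (hE : ∀ v, Q' v = Q (E v)) :
    ∃ g ∈ Cfsg.spGL d F, ∀ v, Q ((g : Matrix _ _ F) *ᵥ v) = Q' v := by
  refine ⟨ClassicalForms.glEquiv.symm E, mem_spGL_iff.2 fun u v => ?_, fun v => ?_⟩ <;>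
    simp only [← ClassicalForms.glEquiv_apply, MulEquiv.apply_symm_apply]
  · rw [← hQf, ← hQ'f]
    simp only [polar, hE, map_add]
  · exact (hE v).symm

theorem mem_sim_iff [CharP F 2] (hQf : ∀ u v, polar Q u v = Cfsg.sympForm d F u v) (hd : 0 < d)
    (g : GL (Fin d ⊕ Fin d) F) :
    g ∈ Cfsg.spGL d F ⊓ Cfsg.Geo.quadSimilarityGroup (⇑Q) ↔ g ∈ Cfsg.isometryGroup F (⇑Q) := by
  constructor
  · rintro ⟨hg, c, hc⟩
    let u : Fin d ⊕ Fin d → F := Pi.single (.inr ⟨0, hd⟩) 1
    let v : Fin d ⊕ Fin d → F := Pi.single (.inl ⟨0, hd⟩) 1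
    have huv : Cfsg.sympForm d F u v = 1 := by
      simp [u, v, Omega.sympForm_eq_sum, Pi.single_apply]
    have h : polar Q ((g : Matrix _ _ F) *ᵥ u) ((g : Matrix _ _ F) *ᵥ v) = (c : F) * polar Q u v := by
      simp only [polar, ← Matrix.mulVec_add, hc]
      ring
    rw [hQf, hQf, mem_spGL_iff.1 hg, huv, mul_one] at h
    intro w w'
    show Q ((g : Matrix _ _ F) *ᵥ w) = Q w
    rw [hc w, ← h, one_mul]
  · intro hg
    refine ⟨mem_spGL_iff.2 fun u v => ?_, 1, fun v => by rw [Units.val_one, one_mul]; exact hg v v⟩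
    rw [← hQf, ← hQf]
    exact Geometric.Orth.polar_ap hg u v

/-- An element of `Sp` fixes a point iff it fixes a form of the type of `Q`. -/
theorem exists_conj_of_invariant [Fintype F] [CharP F 2] (hd : 1 ≤ d) (hQ : (polarBilin Q).Nondegenerate)
    (hQf : ∀ u v, polar Q u v = Cfsg.sympForm d F u v) (Q' : QuadraticForm F (Fin d ⊕ Fin d → F))
    (hQ'f : ∀ u v, polar Q' u v = Cfsg.sympForm d F u v)
    (htype : Omega.HasMaxSingular Q' d ↔ Omega.HasMaxSingular Q d) (x : GL (Fin d ⊕ Fin d) F)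
    (hx : ∀ v, Q' ((x : Matrix _ _ F) *ᵥ v) = Q' v) :
    ∃ g ∈ Cfsg.spGL d F, g⁻¹ * x * g ∈ Cfsg.Geo.quadSimilarityGroup (⇑Q) := by
  have hdim : Module.finrank F (Fin d ⊕ Fin d → F) = 2 * d := by
    rw [Module.finrank_fintype_fun_eq_card, Fintype.card_sum, Fintype.card_fin]; omega
  have hQ' : (polarBilin Q').Nondegenerate := by
    have : polarBilin Q' = polarBilin Q := LinearMap.ext fun u => LinearMap.ext fun v => (hQ'f u v).trans (hQf u v).symm
    rw [this]; exact hQ
  obtain ⟨E, hE⟩ := Omega.exists_isometry_of_type hd hdim hdim Q' hQ' Q hQ htype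
  obtain ⟨g, hg, hgQ⟩ := exists_spGL_of_equiv hQf hQ'f E hE
  refine ⟨g⁻¹, (Subgroup.inv_mem _ hg), 1, fun v => ?_⟩
  rw [Units.val_one, one_mul, inv_inv, Units.val_mul, Units.val_mul, ← Matrix.mulVec_mulVec, ← Matrix.mulVec_mulVec,
    hgQ, hx, ← hgQ, Matrix.mulVec_mulVec, ← Units.val_mul, mul_inv_cancel, Units.val_one, Matrix.one_mulVec]

/-- What it means for an element of `Sp` to fix a point. -/
theorem invariant_of_conj [CharP F 2] (hd : 0 < d) (hQf : ∀ u v, polar Q u v = Cfsg.sympForm d F u v)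
    {x g : GL (Fin d ⊕ Fin d) F} (hx : x ∈ Cfsg.spGL d F) (hg : g ∈ Cfsg.spGL d F)
    (h : g⁻¹ * x * g ∈ Cfsg.Geo.quadSimilarityGroup (⇑Q)) :
    ∀ v, Q (((g⁻¹ * x * g : GL (Fin d ⊕ Fin d) F) : Matrix _ _ F) *ᵥ v) = Q v := fun v =>
  (mem_sim_iff hQf hd _).1 ⟨mul_mem (mul_mem ((Subgroup.inv_mem _ hg)) hx) hg, h⟩ v v

variable [Fintype F]

/-- The number of nonzero singular vectors is divisible by the order of a fixed-point-free isometry. -/
theorem dvd_card_zeros_sub_one {ι : Type} [Fintype ι] [DecidableEq ι] (R : QuadraticForm F (ι → F)) {r : ℕ}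
    [Fact r.Prime] (y : GL ι F) (hy : ∀ v, R ((y : Matrix ι ι F) *ᵥ v) = R v) (hyr : y ^ r = 1)
    (hfree : ∀ v, (y : Matrix ι ι F) *ᵥ v = v → v = 0) :
    (r : ℤ) ∣ (Nat.card {v : ι → F // R v = 0} : ℤ) - 1 := by
  classical
  let π : Equiv.Perm {v : ι → F // R v = 0} :=
    { toFun := fun v => ⟨(y : Matrix ι ι F) *ᵥ v, by rw [hy, v.2]⟩
      invFun := fun v => ⟨((y⁻¹ : GL ι F) : Matrix ι ι F) *ᵥ v, by
        rw [← hy, Matrix.mulVec_mulVec, ← Units.val_mul, mul_inv_cancel, Units.val_one, Matrix.one_mulVec, v.2]⟩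
      left_inv := fun v => Subtype.ext (by
        show ((y⁻¹ : GL ι F) : Matrix ι ι F) *ᵥ ((y : Matrix ι ι F) *ᵥ v) = v
        rw [Matrix.mulVec_mulVec, ← Units.val_mul, inv_mul_cancel, Units.val_one, Matrix.one_mulVec])
      right_inv := fun v => Subtype.ext (by
        show (y : Matrix ι ι F) *ᵥ (((y⁻¹ : GL ι F) : Matrix ι ι F) *ᵥ v) = v
        rw [Matrix.mulVec_mulVec, ← Units.val_mul, mul_inv_cancel, Units.val_one, Matrix.one_mulVec]) }
  have hπ : ∀ (i : ℕ) v, ((π ^ i) v : ι → F) = ((y ^ i : GL ι F) : Matrix ι ι F) *ᵥ v := by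
    intro i
    induction i with
    | zero => intro v; simp
    | succ i ih =>
      intro v
      rw [pow_succ', Equiv.Perm.mul_apply]
      show (y : Matrix ι ι F) *ᵥ ((π ^ i) v : ι → F) = _
      rw [ih, Matrix.mulVec_mulVec, ← Units.val_mul, ← pow_succ']
  have hπr : π ^ r ^ 1 = 1 := Equiv.ext fun v => Subtype.ext (by
    rw [pow_one, hπ, hyr, Units.val_one, Matrix.one_mulVec]; rfl)
  have hmod := Equiv.Perm.card_compl_support_modEq hπr
  have hone : π.supportᶜ.card = 1 := by
    rw [Finset.card_eq_one]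
    refine ⟨⟨0, R.map_zero⟩, Finset.eq_singleton_iff_unique_mem.2 ⟨?_, fun v hv => ?_⟩⟩
    · rw [Finset.mem_compl, Equiv.Perm.notMem_support]
      exact Subtype.ext (Matrix.mulVec_zero _)
    · rw [Finset.mem_compl, Equiv.Perm.notMem_support] at hv
      exact Subtype.ext (hfree _ (congrArg Subtype.val hv))
  rw [hone, ← Nat.card_eq_fintype_card] at hmod
  have := (Int.natCast_modEq_iff.2 hmod).dvd
  simpa using this

/-- An involution with no fixed non-singular vector in any invariant form of one polar form. -/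
theorem exists_alternating_involution [CharP F 2] (hev : Even d) :
    ∃ x : GL (Fin d ⊕ Fin d) F, x ∈ Cfsg.spGL d F ∧ x * x = 1 ∧
      (∀ v, Cfsg.sympForm d F ((x : Matrix _ _ F) *ᵥ v) v = 0) ∧
      Module.finrank F (LinearMap.range (Matrix.toLin' (x : Matrix (Fin d ⊕ Fin d) (Fin d ⊕ Fin d) F) - LinearMap.id)) = d := by
  classical
  let N : (Fin d ⊕ Fin d → F) →ₗ[F] (Fin d ⊕ Fin d → F) :=
    { toFun := fun v => Sum.elim 0 fun i => v (.inl (Fin.rev i))
      map_add' := fun u v => by ext (i | i) <;> simp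
      map_smul' := fun c v => by ext (i | i) <;> simp }
  have hNl : ∀ v i, N v (.inl i) = 0 := fun v i => rfl
  have hNr : ∀ v i, N v (.inr i) = v (.inl (Fin.rev i)) := fun v i => rfl
  have hNN : ∀ v, N (N v) = 0 := fun v => by
    ext (i | i)
    · rfl
    · rfl
  have htwo : ∀ v : Fin d ⊕ Fin d → F, v + v = 0 := fun v => funext fun i => CharTwo.add_self_eq_zero _
  let e : (Fin d ⊕ Fin d → F) ≃ₗ[F] (Fin d ⊕ Fin d → F) := LinearEquiv.ofInvolutive (LinearMap.id + N) fun v => by
    simp only [LinearMap.add_apply, LinearMap.id_apply, map_add, hNN, add_zero]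
    rw [add_assoc, htwo, add_zero]
  let x : GL (Fin d ⊕ Fin d) F := ClassicalForms.glEquiv.symm e
  have hx : ∀ v, (x : Matrix _ _ F) *ᵥ v = v + N v := fun v => by
    rw [← ClassicalForms.glEquiv_apply, MulEquiv.apply_symm_apply]; rfl
  have hpair : ∀ u : Fin d ⊕ Fin d → F, ∑ i : Fin d, u (.inl (Fin.rev i)) * u (.inl i) = 0 := by
    intro u
    refine Finset.sum_involution (fun i _ => Fin.rev i) (fun i _ => ?_) (fun i _ _ h => ?_) (fun i _ => Finset.mem_univ _)
      (fun i _ => Fin.rev_rev i)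
    · rw [Fin.rev_rev, mul_comm, CharTwo.add_self_eq_zero]
    · have := congrArg Fin.val h
      rw [Fin.val_rev] at this
      obtain ⟨k, hk⟩ := hev
      omega
  refine ⟨x, mem_spGL_iff.2 fun u v => ?_, Units.ext (Matrix.toLin'.injective (LinearMap.ext fun v => ?_)), fun v => ?_, ?_⟩
  · rw [hx, hx, Omega.sympForm_eq_sum, Omega.sympForm_eq_sum]
    simp only [Pi.add_apply, hNl, hNr, add_zero]
    rw [← sub_eq_zero, ← Finset.sum_sub_distrib,
      show ∀ g : Fin d → F, ∑ i, g i = ∑ i, g (id i) from fun g => rfl]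
    rw [← Finset.sum_congr rfl (fun i _ => show u (.inl (Fin.rev i)) * v (.inl i) - u (.inl i) * v (.inl (Fin.rev i)) =
      _ by simp only [id_eq]; ring), Finset.sum_sub_distrib,
      show ∑ i, u (.inl (Fin.rev i)) * v (.inl i) = ∑ i, u (.inl i) * v (.inl (Fin.rev i)) by
        rw [← Equiv.sum_comp Fin.revPerm]; simp, sub_self]
  · simp [hx, hNN, add_assoc, htwo]
  · rw [hx, Omega.sympForm_eq_sum]
    simp only [Pi.add_apply, hNl, hNr, add_zero]
    rw [show ∑ i, ((v (.inr i) + v (.inl (Fin.rev i))) * v (.inl i) - v (.inl i) * v (.inr i)) =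
      ∑ i, v (.inl (Fin.rev i)) * v (.inl i) from Finset.sum_congr rfl fun i _ => by ring]
    exact hpair v
  · have h : Matrix.toLin' (x : Matrix (Fin d ⊕ Fin d) (Fin d ⊕ Fin d) F) - LinearMap.id = N :=
      LinearMap.ext fun v => by simp [hx]
    let R : (Fin d ⊕ Fin d → F) →ₗ[F] (Fin d → F) := LinearMap.funLeft F F (fun i => Sum.inl (Fin.rev i))
    let P : (Fin d → F) →ₗ[F] (Fin d ⊕ Fin d → F) :=
      { toFun := fun w => Sum.elim 0 w
        map_add' := fun u v => by ext (i | i) <;> simp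
        map_smul' := fun c v => by ext (i | i) <;> simp }
    have hNPR : N = P ∘ₗ R := LinearMap.ext fun v => rfl
    rw [h, hNPR, LinearMap.range_comp_of_range_eq_top P (LinearMap.range_eq_top.2
      (LinearMap.funLeft_surjective_of_injective F F _ fun a b h => Fin.rev_injective (Sum.inl_injective h))),
      LinearMap.finrank_range_of_inj (fun u v h => funext fun i => congrFun h (.inr i)), Module.finrank_fin_fun]

omit [Fintype F] in
theorem eq_one_of_scalar [CharP F 2] (hd : 0 < d) {x : GL (Fin d ⊕ Fin d) F} (hx : x ∈ Cfsg.spGL d F) {z : F}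
    (h : (x : Matrix (Fin d ⊕ Fin d) (Fin d ⊕ Fin d) F) = z • 1) : z = 1 := by
  let u : Fin d ⊕ Fin d → F := Pi.single (.inr ⟨0, hd⟩) 1
  let v : Fin d ⊕ Fin d → F := Pi.single (.inl ⟨0, hd⟩) 1
  have huv : Cfsg.sympForm d F u v = 1 := by simp [u, v, Omega.sympForm_eq_sum, Pi.single_apply]
  have h1 := mem_spGL_iff.1 hx u v
  rw [h, Matrix.smul_mulVec, Matrix.smul_mulVec, Matrix.one_mulVec, Matrix.one_mulVec] at h1
  refine Omega.eq_one_of_sq ?_
  rw [← Omega.sympBilin_apply, ← Omega.sympBilin_apply] at h1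
  simp only [map_smul, LinearMap.smul_apply, smul_eq_mul, Omega.sympBilin_apply, huv, mul_one] at h1
  rw [pow_two]; exact h1


/-- Elements of prime order of PSp_n(q), q even, and the subgroups of orthogonal type. Here `T = Sp_{2d}(F)` for a field `F` of characteristic 2 with `q` elements (`d ≥ 2`, `(d, q) ≠ (2, 2)`), realised as the invertible matrices preserving the standard alternating form; `Q` is a non-degenerate quadratic form on `F^{2d}` whose polar form is that alternating form, and `H` is the subgroup of `T` preserving `Q` up to a scalar (equivalently preserving `Q`) — a subgroup of type O^±_{2d}(q) (maximality is not assumed); `Q` is of plus type when `F^{2d}` contains a `d`-dimensional subspace on which `Q` vanishes, of minus type otherwise. Ω is the set of cosets of `H` in `T`, so an element of `T` of prime order `r` (`x ∈ T` with `x^r` scalar, `x` not scalar) fixes a point of Ω exactly when some `T`-conjugate of `x` preserves `Q`. Let `r` be a prime dividing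 the index of `H`. Then every element of `T` of order `r` fixes a point of Ω if and only if `r = 2` and either `Q` is of plus type or `d` is odd. -/
theorem result {F : Type*} [Field F] [Fintype F] {p : ℕ} [Fact p.Prime] [CharP F p] {q : ℕ} (hq : Fintype.card F = q)
    (hp : p = 2) (d : ℕ) (hd : 2 ≤ d) (hT : (d, q) ≠ (2, 2)) (Q : (Fin d ⊕ Fin d → F) → F) (hQ : Cfsg.Geo.IsNondegenerateQuadraticForm Q)
    (hQf : ∀ u v, QuadraticMap.polar Q u v = Cfsg.sympForm d F u v)
    (r : ℕ) [Fact r.Prime]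
    (hΩ : r ∣ (Cfsg.Geo.quadSimilarityGroup Q).relIndex (Cfsg.spGL d F)) :
    (∀ x ∈ Cfsg.spGL d F, (∃ z : F, ((x ^ r : GL (Fin d ⊕ Fin d) F) : Matrix (Fin d ⊕ Fin d) (Fin d ⊕ Fin d) F) = z • (1 : Matrix (Fin d ⊕ Fin d) (Fin d ⊕ Fin d) F)) →
      (∀ z : F, (x : Matrix (Fin d ⊕ Fin d) (Fin d ⊕ Fin d) F) ≠ z • (1 : Matrix (Fin d ⊕ Fin d) (Fin d ⊕ Fin d) F)) →
      ∃ g ∈ Cfsg.spGL d F, g⁻¹ * x * g ∈ Cfsg.Geo.quadSimilarityGroup Q) ↔
    (r = 2 ∧ (Cfsg.Geo.IsPlusTypeOn Q ⊤ ∨ Odd d)) := by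
  classical
  subst hp
  subst hq
  have hr : r.Prime := Fact.out
  set q := Fintype.card F with hq
  let Q' : QuadraticForm F (Fin d ⊕ Fin d → F) := Geometric.Orth.toQF hQ
  have hQ' : ⇑Q' = Q := Geometric.Orth.coe_toQF hQ
  rw [← hQ'] at hQf hΩ ⊢
  clear_value Q'
  clear hQ' hQ
  clear Q
  rename' Q' => Q
  have hnd : (polarBilin Q).Nondegenerate := by
    have h : ∀ v, (∀ w, polar Q v w = 0) → v = 0 := fun v hv => Omega.sympBilin_nondegenerate v fun w => by
      rw [Omega.sympBilin_apply, ← hQf]; exact hv w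
    exact ⟨h, fun v hv => h v fun w => (polar_comm (⇑Q) v w).trans (hv w)⟩
  have hdim : Module.finrank F (Fin d ⊕ Fin d → F) = 2 * d := by
    rw [Module.finrank_fintype_fun_eq_card, Fintype.card_sum, Fintype.card_fin]; omega
  have hplus : Cfsg.Geo.IsPlusTypeOn (⇑Q) ⊤ ↔ Omega.HasMaxSingular Q d := by
    constructor
    · rintro ⟨U, -, hU, hUd⟩
      rw [finrank_top, hdim] at hUd
      exact ⟨U, hU, by omega⟩
    · rintro ⟨U, hU, hUd⟩
      exact ⟨U, le_top, hU, by rw [finrank_top, hdim, hUd]⟩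
  rw [hplus]
  obtain ⟨fq, -, hfq⟩ := FiniteField.card F 2
  have hpow : ∀ z : F, ∀ y : GL (Fin d ⊕ Fin d) F,
      ((y : GL (Fin d ⊕ Fin d) F) : Matrix (Fin d ⊕ Fin d) (Fin d ⊕ Fin d) F) = z • 1 → y ∈ Cfsg.spGL d F → y = 1 := by
    intro z y hy hmem
    exact Units.ext (by rw [hy, eq_one_of_scalar (by omega) hmem hy, one_smul]; rfl)
  constructor
  · intro H
    by_contra hno
    by_cases h2 : r = 2
    · -- `r = 2`, minus type, `d` even
      subst h2
      have hnp : ¬ Omega.HasMaxSingular Q d := fun h => hno ⟨rfl, Or.inl h⟩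
      have hev : Even d := Nat.not_odd_iff_even.1 fun h => hno ⟨rfl, Or.inr h⟩
      obtain ⟨x, hxsp, hxx, halt, hrank⟩ := exists_alternating_involution (F := F) hev
      obtain ⟨g, hg, hgx⟩ := H x hxsp ⟨1, by rw [pow_two, hxx, one_smul]; rfl⟩ (fun z hz => by
        have := hpow z x hz hxsp
        rw [this, Units.val_one, Matrix.toLin'_one, sub_self, LinearMap.range_zero, finrank_bot] at hrank
        omega)
      have hinv := invariant_of_conj (by omega) hQf hxsp hg hgx
      refine hnp ⟨(LinearMap.range (Matrix.toLin' (x : Matrix (Fin d ⊕ Fin d) (Fin d ⊕ Fin d) F) - LinearMap.id)).map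
        (Matrix.toLin' ((g⁻¹ : GL (Fin d ⊕ Fin d) F) : Matrix (Fin d ⊕ Fin d) (Fin d ⊕ Fin d) F)), ?_, ?_⟩
      · rintro _ ⟨_, ⟨v, rfl⟩, rfl⟩
        simp only [LinearMap.sub_apply, LinearMap.id_apply, Matrix.toLin'_apply, Matrix.mulVec_sub]
        have hv := hinv (((g⁻¹ : GL (Fin d ⊕ Fin d) F) : Matrix (Fin d ⊕ Fin d) (Fin d ⊕ Fin d) F) *ᵥ v)
        rw [Matrix.mulVec_mulVec, ← Units.val_mul, show g⁻¹ * x * g * g⁻¹ = g⁻¹ * x by group, Units.val_mul,
          ← Matrix.mulVec_mulVec] at hv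
        rw [sub_eq_add_neg, QuadraticMap.map_add Q, QuadraticMap.map_neg, hv, polar_neg_right, hQf,
          mem_spGL_iff.1 ((Subgroup.inv_mem _ hg)), halt, neg_zero, add_zero, CharTwo.add_self_eq_zero]
      · rw [LinearEquiv.finrank_eq (Submodule.equivMapOfInjective _ (fun a b hab => by
          simp only [Matrix.toLin'_apply] at hab
          exact Matrix.mulVec_injective_of_isUnit (g⁻¹).isUnit hab) _).symm, hrank]
    -- odd `r`
    have hrodd : Odd r := hr.odd_of_ne_two h2
    have hrq : ¬ r ∣ q := fun h => h2 (by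
      rw [hq, hfq] at h
      exact (Nat.prime_dvd_prime_iff_eq hr Nat.prime_two).1 (hr.dvd_of_dvd_pow h))
    have hqr : (q : ZMod r) ≠ 0 := by rwa [Ne, ZMod.natCast_eq_zero_iff]
    have htwo : (2 : ZMod r) ≠ 0 := fun h => h2 ((Nat.prime_dvd_prime_iff_eq hr Nat.prime_two).1
      ((ZMod.natCast_eq_zero_iff 2 r).1 (by exact_mod_cast h)))
    -- the index
    have hind : (Cfsg.Geo.quadSimilarityGroup (⇑Q)).relIndex (Cfsg.spGL d F) * Nat.card (ClassicalForms.orth Q) =
        Nat.card (Matrix.symplecticGroup (Fin d) F) := by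
      have hK : Cfsg.spGL d F ⊓ Cfsg.Geo.quadSimilarityGroup (⇑Q) = Cfsg.isometryGroup F (⇑Q) :=
        Subgroup.ext fun g => mem_sim_iff hQf (by omega) g
      have h1 : Nat.card (Cfsg.spGL d F) = Nat.card (Matrix.symplecticGroup (Fin d) F) := by
        rw [← Forms.spToGL_range]
        exact Nat.card_congr (MonoidHom.ofInjective Forms.spToGL_injective).symm.toEquiv
      rw [← Nat.card_congr (ClassicalForms.isoMat Q (f := ⇑Q) fun _ => rfl).toEquiv, ← h1, ← hK,
        ← Subgroup.inf_relIndex_right, inf_comm (Cfsg.Geo.quadSimilarityGroup (⇑Q)),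
        ← Subgroup.index_mul_card ((Cfsg.spGL d F ⊓ Cfsg.Geo.quadSimilarityGroup (⇑Q)).subgroupOf (Cfsg.spGL d F)),
        Nat.card_congr (Subgroup.subgroupOfEquivOfLe inf_le_left).toEquiv]
      rfl
    rw [ClassicalLinear.card_sp] at hind
    have hF : Nat.card F = q := Nat.card_eq_fintype_card
    have hprod : ∀ n : ℕ, ((∏ i ∈ Finset.range n, (q ^ (2 * (i + 1)) - 1) : ℕ) : ℤ) =
        ∏ i ∈ Finset.range n, ((q : ℤ) ^ (2 * (i + 1)) - 1) := fun n => by
      rw [Nat.cast_prod]
      refine Finset.prod_congr rfl fun i _ => ?_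
      rw [Nat.cast_sub (Nat.one_le_pow _ _ (Fintype.card_pos (α := F)))]
      push_cast
      rfl
    obtain ⟨k, rfl⟩ : ∃ k, d = k + 1 := ⟨d - 1, by omega⟩
    have hZ : ∀ (y : GL (Fin (k + 1) ⊕ Fin (k + 1)) F), y ^ r = 1 →
        (∀ v, (y : Matrix (Fin (k + 1) ⊕ Fin (k + 1)) (Fin (k + 1) ⊕ Fin (k + 1)) F) *ᵥ v = v → v = 0) →
        (∀ v, Q ((y : Matrix (Fin (k + 1) ⊕ Fin (k + 1)) (Fin (k + 1) ⊕ Fin (k + 1)) F) *ᵥ v) = Q v) →
        ((Nat.card {v : Fin (k + 1) ⊕ Fin (k + 1) → F // Q v = 0} : ℤ) : ZMod r) = 1 := by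
      intro y hyr hfree hy
      have h := dvd_card_zeros_sub_one Q y hy hyr hfree
      rw [← ZMod.intCast_zmod_eq_zero_iff_dvd, Int.cast_sub, Int.cast_one, sub_eq_zero] at h
      exact h
    rcases Classes.exists_equiv_even (show 1 ≤ k + 1 by omega) hdim Q hnd with ⟨E, hE⟩ | ⟨E, ζ, hζ, hE⟩
    · -- plus type
      have hqdiv : r ∣ q ^ (k + 1) + 1 := by
        have hO : (Nat.card (ClassicalForms.orth Q) : ℤ) = Nat.card (ClassicalForms.orth (ClassicalForms.qPlus (k + 1) F)) := by
          exact_mod_cast Nat.card_congr (ClassicalForms.orthCongr E fun v => by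
            rw [ClassicalForms.qPlus_apply, ← hE]).toEquiv
        rw [ClassicalForms.card_orth_qPlus _ (by omega), hF, Nat.add_sub_cancel] at hO
        have hz := congrArg (Nat.cast : ℕ → ℤ) hind
        push_cast at hz
        rw [hO] at hz
        rw [show (∏ x ∈ Finset.range (k + 1), ((q ^ (2 * (x + 1)) - 1 : ℕ) : ℤ)) =
          ((∏ x ∈ Finset.range (k + 1), (q ^ (2 * (x + 1)) - 1) : ℕ) : ℤ) by push_cast; rfl, hprod,
          Finset.prod_range_succ] at hz
        have hqpos : (1 : ℤ) < q := by exact_mod_cast (Fintype.one_lt_card (α := F))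
        have hne : ((q : ℤ) ^ (k + 1) - 1) * ∏ i ∈ Finset.range k, ((q : ℤ) ^ (2 * (i + 1)) - 1) ≠ 0 := by
          refine mul_ne_zero (sub_ne_zero.2 (one_lt_pow₀ hqpos (by omega)).ne') (Finset.prod_ne_zero_iff.2 fun i _ => ?_)
          exact sub_ne_zero.2 (one_lt_pow₀ hqpos (by omega)).ne'
        set I := (Cfsg.Geo.quadSimilarityGroup (⇑Q)).relIndex (Cfsg.spGL (k + 1) F) with hI
        have hkey : ((I : ℤ) * 2) * (q : ℤ) ^ ((k + 1) * k) = (q : ℤ) ^ ((k + 1) ^ 2) * ((q : ℤ) ^ (k + 1) + 1) := by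
          refine mul_right_cancel₀ hne ?_
          linear_combination hz
        obtain ⟨J, hJ⟩ := hΩ
        have hmod := congrArg (fun z : ℤ => (z : ZMod r)) hkey
        rw [hJ] at hmod
        push_cast at hmod
        rw [ZMod.natCast_self, zero_mul, zero_mul, zero_mul, eq_comm, mul_eq_zero] at hmod
        rw [← ZMod.natCast_eq_zero_iff]
        push_cast
        exact hmod.resolve_left (pow_ne_zero _ hqr)
      haveI : NeZero (k + 1) := ⟨by omega⟩
      obtain ⟨ζ, hζ⟩ : ∃ ζ : F, ∀ t : F, t ^ 2 + t + ζ ≠ 0 := by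
        by_contra h
        push Not at h
        have hsurj : Function.Surjective (fun t : F => t ^ 2 + t) := fun z => by
          obtain ⟨t, ht⟩ := h z
          exact ⟨t, by linear_combination ht - CharTwo.add_self_eq_zero z⟩
        have := (Finite.injective_iff_surjective.2 hsurj) (show (fun t : F => t ^ 2 + t) 0 = (fun t : F => t ^ 2 + t) 1 by
          show (0 : F) ^ 2 + 0 = 1 ^ 2 + 1
          rw [zero_pow two_ne_zero, add_zero, one_pow, CharTwo.add_self_eq_zero])
        exact zero_ne_one this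
      have hab : ClassicalForms.Aniso (1 : F) ζ :=
        fun z₁ z₂ h => Classes.anisotropic_of_noroot hζ z₁ z₂ (by simpa using h)
      obtain ⟨x₀, hx₀, hx₀r, hfree₀⟩ := Omega.exists_free_minus (F := F) (k + 1) hab hrodd hqdiv
      -- transport into the symplectic group
      set R := ClassicalForms.qMinus (k + 1 - 1) F 1 ζ
      have hRnd : (polarBilin R).Nondegenerate :=
        ClassicalForms.nondeg_iff_polarBilin.2 (ClassicalForms.nondeg_qMinus hab _)
      obtain ⟨T, hT⟩ := Forms.alt_isometric (Omega.sympBilin (k + 1) F) (Forms.sympBilin_nondeg (k + 1) F)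
        (Forms.sympBilin_isAlt (k + 1) F) (polarBilin R) hRnd (fun v => Omega.polar_self_eq_zero R v)
        (by rw [hdim, Module.finrank_fintype_fun_eq_card]; simp [Fintype.card_sum]; omega)
      have hiso₀ := Omega.mem_isometry_of_mem_omegaGL hx₀
      let x : GL (Fin (k + 1) ⊕ Fin (k + 1)) F :=
        ClassicalForms.glEquiv.symm (T.trans ((ClassicalForms.glEquiv x₀).trans T.symm))
      have hxa : ∀ v, T ((x : Matrix (Fin (k + 1) ⊕ Fin (k + 1)) (Fin (k + 1) ⊕ Fin (k + 1)) F) *ᵥ v) =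
          (x₀ : Matrix _ _ F) *ᵥ T v := fun v => by
        rw [← ClassicalForms.glEquiv_apply, MulEquiv.apply_symm_apply]
        simp [ClassicalForms.glEquiv_apply]
      have hxsp : x ∈ Cfsg.spGL (k + 1) F := mem_spGL_iff.2 fun u v => by
        rw [← Omega.sympBilin_apply, ← Omega.sympBilin_apply, ← hT, ← hT, hxa, hxa]
        simp only [polarBilin_apply_apply, polar, ← Matrix.mulVec_add, R, ClassicalForms.qMinus_apply, hiso₀]
      have hxit : ∀ (i : ℕ) v, T (((x ^ i : GL _ F) : Matrix _ _ F) *ᵥ v) = ((x₀ ^ i : GL _ F) : Matrix _ _ F) *ᵥ T v := by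
        intro i
        induction i with
        | zero => intro v; simp
        | succ i ih =>
          intro v
          rw [pow_succ', Units.val_mul, ← Matrix.mulVec_mulVec, hxa, ih, Matrix.mulVec_mulVec, ← Units.val_mul,
            ← pow_succ']
      have hxr : x ^ r = 1 := Units.ext (Matrix.toLin'.injective (LinearMap.ext fun v => T.injective (by
        rw [Matrix.toLin'_apply, hxit, hx₀r]; simp)))
      have hxfree : ∀ v, (x : Matrix (Fin (k + 1) ⊕ Fin (k + 1)) (Fin (k + 1) ⊕ Fin (k + 1)) F) *ᵥ v = v → v = 0 := fun v hv => T.injective (by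
        rw [map_zero]; exact hfree₀ _ (by rw [← hxa, hv]))
      obtain ⟨g, hg, hgx⟩ := H x hxsp ⟨1, by rw [hxr, one_smul]; rfl⟩ (fun z hz => by
        have h1 := hpow z x hz hxsp
        have := hxfree (Pi.single (.inl 0) 1) (by rw [h1, Units.val_one, Matrix.one_mulVec])
        simp at this)
      have hinv := invariant_of_conj (by omega) hQf hxsp hg hgx
      have hyr : (g⁻¹ * x * g) ^ r = 1 := by
        have := conj_pow (a := g⁻¹) (b := x) (i := r)
        rw [inv_inv] at this
        rw [this, hxr]; group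
      have hyfree : ∀ v, ((g⁻¹ * x * g : GL (Fin (k + 1) ⊕ Fin (k + 1)) F) : Matrix (Fin (k + 1) ⊕ Fin (k + 1)) (Fin (k + 1) ⊕ Fin (k + 1)) F) *ᵥ v = v → v = 0 := by
        intro v hv
        have h1 : (x : Matrix (Fin (k + 1) ⊕ Fin (k + 1)) (Fin (k + 1) ⊕ Fin (k + 1)) F) *ᵥ ((g : Matrix (Fin (k + 1) ⊕ Fin (k + 1)) (Fin (k + 1) ⊕ Fin (k + 1)) F) *ᵥ v) = (g : Matrix (Fin (k + 1) ⊕ Fin (k + 1)) (Fin (k + 1) ⊕ Fin (k + 1)) F) *ᵥ v := by
          conv_rhs => rw [← hv]
          rw [Matrix.mulVec_mulVec, Matrix.mulVec_mulVec, ← Units.val_mul, ← Units.val_mul]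
          congr 2; group
        refine Matrix.mulVec_injective_of_isUnit g.isUnit ?_
        rw [Matrix.mulVec_zero]; exact hxfree _ h1
      have hz1 := hZ _ hyr hyfree hinv
      have hN := ClassicalForms.card_zeros_qPlus (F := F) (k + 1)
      rw [← ClassicalForms.card_zeros_congr E (fun v => by rw [ClassicalForms.qPlus_apply, ← hE]), hF] at hN
      have hN' := congrArg (fun z : ℤ => (z : ZMod r)) hN
      push_cast at hN'
      rw [Int.cast_natCast] at hz1
      rw [hz1, one_mul] at hN'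
      rw [← ZMod.natCast_eq_zero_iff] at hqdiv
      push_cast at hqdiv
      have hq1 : (q : ZMod r) ^ (k + 1) = -1 := eq_neg_of_add_eq_zero_left hqdiv
      rw [show k + 1 + 1 = (k + 1) + 1 from rfl, pow_succ (q : ZMod r) (k + 1), hq1] at hN'
      have hq2 : (q : ZMod r) = 1 := mul_left_cancel₀ htwo (by linear_combination hN')
      rw [hq2, one_pow] at hqdiv
      exact htwo (by linear_combination hqdiv)
    · -- minus type
      replace hE : ∃ E' : (Fin (k + 1) ⊕ Fin (k + 1) → F) ≃ₗ[F] ((Fin k ⊕ Fin k) ⊕ Fin 2 → F),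
          ∀ x, Q x = Cfsg.quadFormMinus k F 1 ζ (E' x) := ⟨E, hE⟩
      clear E
      obtain ⟨E, hE⟩ := hE
      have hab : ClassicalForms.Aniso (1 : F) ζ :=
        fun z₁ z₂ h => Classes.anisotropic_of_noroot hζ z₁ z₂ (by simpa using h)
      have hnp : ¬ Omega.HasMaxSingular Q (k + 1) := Omega.not_hasMaxSingular_of_minus hab E hE
      have hqdiv : r ∣ q ^ (k + 1) - 1 := by
        have hO : (Nat.card (ClassicalForms.orth Q) : ℤ) = Nat.card (ClassicalForms.orth (ClassicalForms.qMinus k F 1 ζ)) := by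
          exact_mod_cast Nat.card_congr (ClassicalForms.orthCongr E fun v => by
            rw [ClassicalForms.qMinus_apply, ← hE]).toEquiv
        rw [ClassicalForms.card_orth_qMinus hab, hF] at hO
        have hz := congrArg (Nat.cast : ℕ → ℤ) hind
        push_cast at hz
        rw [hO] at hz
        rw [show (∏ x ∈ Finset.range (k + 1), ((q ^ (2 * (x + 1)) - 1 : ℕ) : ℤ)) =
          ((∏ x ∈ Finset.range (k + 1), (q ^ (2 * (x + 1)) - 1) : ℕ) : ℤ) by push_cast; rfl, hprod,
          Finset.prod_range_succ] at hz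
        have hqpos : (1 : ℤ) < q := by exact_mod_cast (Fintype.one_lt_card (α := F))
        have hne : ((q : ℤ) ^ (k + 1) + 1) * ∏ i ∈ Finset.range k, ((q : ℤ) ^ (2 * (i + 1)) - 1) ≠ 0 := by
          refine mul_ne_zero (by positivity) (Finset.prod_ne_zero_iff.2 fun i _ => ?_)
          exact sub_ne_zero.2 (one_lt_pow₀ hqpos (by omega)).ne'
        set I := (Cfsg.Geo.quadSimilarityGroup (⇑Q)).relIndex (Cfsg.spGL (k + 1) F) with hI
        have hkey : ((I : ℤ) * 2) * (q : ℤ) ^ ((k + 1) * k) = (q : ℤ) ^ ((k + 1) ^ 2) * ((q : ℤ) ^ (k + 1) - 1) := by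
          refine mul_right_cancel₀ hne ?_
          linear_combination hz
        obtain ⟨J, hJ⟩ := hΩ
        have hmod := congrArg (fun z : ℤ => (z : ZMod r)) hkey
        rw [hJ] at hmod
        push_cast at hmod
        rw [ZMod.natCast_self, zero_mul, zero_mul, zero_mul, eq_comm, mul_eq_zero] at hmod
        rw [← ZMod.natCast_eq_zero_iff, Nat.cast_sub (Nat.one_le_pow _ _ Fintype.card_pos)]
        push_cast
        exact hmod.resolve_left (pow_ne_zero _ hqr)
      haveI : NeZero (k + 1) := ⟨by omega⟩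
      by_cases hq1 : r ∣ q - 1
      · -- eigenvalues in the field
        obtain ⟨z, hz, hz1, hz0⟩ := Omega.exists_root_of_dvd (K := F) (r := r) hq1
        let dg : Fin (k + 1) ⊕ Fin (k + 1) → F := Sum.elim (fun _ => z) fun _ => z⁻¹
        have hdg : ∀ i, IsUnit (dg i) := by rintro (i | i) <;> simp [dg, hz0]
        have hu : IsUnit (Matrix.diagonal dg) := Matrix.isUnit_diagonal.2 (Pi.isUnit_iff.2 hdg)
        have hxa : ∀ v i, ((hu.unit : GL _ F) : Matrix _ _ F).mulVec v i = dg i * v i := fun v i => by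
          rw [IsUnit.unit_spec, Matrix.mulVec_diagonal]
        have hxsp : hu.unit ∈ Cfsg.spGL (k + 1) F := mem_spGL_iff.2 fun u v => by
          rw [Omega.sympForm_eq_sum, Omega.sympForm_eq_sum]
          refine Finset.sum_congr rfl fun i _ => ?_
          simp only [hxa, dg, Sum.elim_inl, Sum.elim_inr]
          linear_combination (u (Sum.inr i) * v (Sum.inl i) - u (Sum.inl i) * v (Sum.inr i)) * mul_inv_cancel₀ hz0
        have hxr : hu.unit ^ r = 1 := Units.ext (by
          rw [Units.val_pow_eq_pow_val, IsUnit.unit_spec, Matrix.diagonal_pow, Units.val_one, ← Matrix.diagonal_one]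
          congr 1
          funext i
          rcases i with i | i <;> simp [dg, hz])
        obtain ⟨g, hg, hgx⟩ := H hu.unit hxsp ⟨1, by rw [hxr, one_smul]; rfl⟩ (fun c hc => by
          have h1 := hpow c hu.unit hc hxsp
          have := hxa (Pi.single (.inl 0) 1) (.inl 0)
          rw [h1, Units.val_one, Matrix.one_mulVec, Pi.single_eq_same, mul_one] at this
          exact hz1 this.symm)
        have hinv := invariant_of_conj (by omega) hQf hxsp hg hgx
        let P : (Fin (k + 1) → F) →ₗ[F] (Fin (k + 1) ⊕ Fin (k + 1) → F) :=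
          { toFun := fun w => Sum.elim w 0
            map_add' := fun u v => by ext (i | i) <;> simp
            map_smul' := fun c v => by ext (i | i) <;> simp }
        refine hnp ⟨LinearMap.range (Matrix.toLin' ((g⁻¹ : GL _ F) : Matrix _ _ F) ∘ₗ P), ?_, ?_⟩
        · rintro _ ⟨w, rfl⟩
          have hv := hinv (Matrix.toLin' ((g⁻¹ : GL _ F) : Matrix _ _ F) (P w))
          rw [Matrix.toLin'_apply, Matrix.mulVec_mulVec, ← Units.val_mul,
            show g⁻¹ * hu.unit * g * g⁻¹ = g⁻¹ * hu.unit by group, Units.val_mul, ← Matrix.mulVec_mulVec] at hv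
          have hPw : ((hu.unit : GL _ F) : Matrix _ _ F) *ᵥ P w = z • P w := by
            funext i
            rw [hxa]
            rcases i with i | i <;> simp [P, dg]
          rw [hPw, Matrix.mulVec_smul, QuadraticMap.map_smul, smul_eq_mul] at hv
          rw [LinearMap.comp_apply, Matrix.toLin'_apply]
          by_contra h0
          refine hz1 (Omega.eq_one_of_sq ?_)
          rw [pow_two]
          exact mul_right_cancel₀ h0 (by rw [one_mul]; exact hv)
        · rw [LinearMap.finrank_range_of_inj, Module.finrank_fin_fun]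
          intro u v h
          simp only [LinearMap.comp_apply, Matrix.toLin'_apply] at h
          exact funext fun i => congrFun (Matrix.mulVec_injective_of_isUnit (g⁻¹).isUnit h) (.inl i)
      · obtain ⟨x, hx, hxr, hxfree⟩ := Omega.exists_free_plus (F := F) 2 (k + 1) hrodd hqdiv
        have hiso := Omega.mem_isometry_of_mem_omegaGL hx
        have hxsp : x ∈ Cfsg.spGL (k + 1) F := mem_spGL_iff.2 fun u v => by
          have hpol : ∀ a b, polar (Cfsg.quadFormPlus (k + 1) F) a b = Cfsg.sympForm (k + 1) F a b := fun a b => by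
            rw [Omega.sympForm_eq_sum]
            simp only [polar, Cfsg.quadFormPlus, Pi.add_apply, ← Finset.sum_sub_distrib]
            exact Finset.sum_congr rfl fun i _ => by linear_combination CharTwo.add_self_eq_zero (a (Sum.inl i) * b (Sum.inr i))
          rw [← hpol, ← hpol]
          simp only [polar, ← Matrix.mulVec_add, hiso]
        obtain ⟨g, hg, hgx⟩ := H x hxsp ⟨1, by rw [hxr, one_smul]; rfl⟩ (fun z hz => by
          have h1 := hpow z x hz hxsp
          have := hxfree (Pi.single (.inl 0) 1) (by rw [h1, Units.val_one, Matrix.one_mulVec])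
          simp at this)
        have hinv := invariant_of_conj (by omega) hQf hxsp hg hgx
        have hyr : (g⁻¹ * x * g) ^ r = 1 := by
          have := conj_pow (a := g⁻¹) (b := x) (i := r)
          rw [inv_inv] at this
          rw [this, hxr]; group
        have hyfree : ∀ v, ((g⁻¹ * x * g : GL (Fin (k + 1) ⊕ Fin (k + 1)) F) : Matrix (Fin (k + 1) ⊕ Fin (k + 1)) (Fin (k + 1) ⊕ Fin (k + 1)) F) *ᵥ v = v → v = 0 := by
          intro v hv
          have h1 : (x : Matrix (Fin (k + 1) ⊕ Fin (k + 1)) (Fin (k + 1) ⊕ Fin (k + 1)) F) *ᵥ ((g : Matrix (Fin (k + 1) ⊕ Fin (k + 1)) (Fin (k + 1) ⊕ Fin (k + 1)) F) *ᵥ v) = (g : Matrix (Fin (k + 1) ⊕ Fin (k + 1)) (Fin (k + 1) ⊕ Fin (k + 1)) F) *ᵥ v := by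
            conv_rhs => rw [← hv]
            rw [Matrix.mulVec_mulVec, Matrix.mulVec_mulVec, ← Units.val_mul, ← Units.val_mul]
            congr 2; group
          refine Matrix.mulVec_injective_of_isUnit g.isUnit ?_
          rw [Matrix.mulVec_zero]; exact hxfree _ h1
        have hz1 := hZ _ hyr hyfree hinv
        have hN := ClassicalForms.card_zeros_qMinus hab k
        rw [← ClassicalForms.card_zeros_congr E (fun v => by rw [ClassicalForms.qMinus_apply, ← hE]), hF] at hN
        have hN' := congrArg (fun z : ℤ => (z : ZMod r)) hN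
        push_cast at hN'
        rw [Int.cast_natCast] at hz1
        rw [hz1, one_mul] at hN'
        rw [← ZMod.natCast_eq_zero_iff, Nat.cast_sub (Nat.one_le_pow _ _ Fintype.card_pos)] at hqdiv
        push_cast at hqdiv
        rw [← ZMod.natCast_eq_zero_iff, Nat.cast_sub Fintype.card_pos] at hq1
        push_cast at hq1
        refine hq1 (sub_eq_zero.2 (mul_left_cancel₀ htwo ?_))
        linear_combination hN' + (2 - (q : ZMod r) + (q : ZMod r) ^ (k + 1)) * hqdiv
  · rintro ⟨rfl, htype⟩ x hxsp ⟨z, hz⟩ hns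
    have hxx : x * x = 1 := by
      rw [← pow_two]
      exact hpow z _ hz (pow_mem hxsp 2)
    set X : Module.End F (Fin d ⊕ Fin d → F) := Matrix.toLin' (x : Matrix (Fin d ⊕ Fin d) (Fin d ⊕ Fin d) F) with hX
    have hXX : ∀ v, X (X v) = v := fun v => by
      simp only [hX, Matrix.toLin'_apply, Matrix.mulVec_mulVec, ← Units.val_mul, hxx, Units.val_one, Matrix.one_mulVec]
    obtain ⟨a, ha⟩ := Omega.exists_invariant_form Q hnd X hXX (fun u v => by
      rw [hQf, hQf]; exact mem_spGL_iff.1 hxsp u v)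
    set Qa := Omega.addSq Q (polarBilin Q a)
    have hQaf : ∀ u v, polar Qa u v = Cfsg.sympForm d F u v := fun u v => by rw [Omega.polar_addSq, hQf]
    have hQand : (polarBilin Qa).Nondegenerate := by
      have : polarBilin Qa = polarBilin Q := LinearMap.ext fun u => LinearMap.ext fun v => Omega.polar_addSq _ _ u v
      rw [this]; exact hnd
    have hQaX : ∀ v, Qa ((x : Matrix _ _ F) *ᵥ v) = Qa v := fun v => by rw [← Matrix.toLin'_apply]; exact ha v
    by_cases hsame : Omega.HasMaxSingular Qa d ↔ Omega.HasMaxSingular Q d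
    · exact exists_conj_of_invariant (by omega) hnd hQf Qa hQaf hsame x hQaX
    by_cases hfix : ∃ w, (x : Matrix _ _ F) *ᵥ w = w ∧ Qa w ≠ 0
    · obtain ⟨w, hw, hw0⟩ := hfix
      obtain ⟨⟨l, hl⟩, ⟨l', hl'⟩⟩ := Omega.exists_addSq_type hd hdim Qa hQand w hw0
      have hinv : ∀ (l : F) v, Omega.addSq Qa (l • polarBilin Qa w) ((x : Matrix _ _ F) *ᵥ v) =
          Omega.addSq Qa (l • polarBilin Qa w) v := fun l v => by
        rw [Omega.addSq_apply Qa, Omega.addSq_apply Qa, hQaX, LinearMap.smul_apply, LinearMap.smul_apply,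
          polarBilin_apply_apply, polarBilin_apply_apply, hQaf, hQaf]
        conv_lhs => rw [← hw, mem_spGL_iff.1 hxsp]
      have hpol : ∀ (l : F) u v, polar (Omega.addSq Qa (l • polarBilin Qa w)) u v = Cfsg.sympForm d F u v :=
        fun l u v => by rw [Omega.polar_addSq, hQaf]
      by_cases hQp : Omega.HasMaxSingular Q d
      · exact exists_conj_of_invariant (by omega) hnd hQf _ (hpol l) (iff_of_true hl hQp) x (hinv l)
      · exact exists_conj_of_invariant (by omega) hnd hQf _ (hpol l') (iff_of_false hl' hQp) x (hinv l')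
    · push Not at hfix
      obtain ⟨hev, K, hKd, hKs⟩ := Omega.even_and_exists_singular_of_no_fixed Qa
        (ClassicalForms.nondeg_iff_polarBilin.1 hQand) (d := d) (by simp [Fintype.card_sum]; omega)
        (x : Matrix _ _ F) hQaX (by rw [← Units.val_mul, hxx, Units.val_one]) hfix
      exfalso
      have hqa : Omega.HasMaxSingular Qa d := ⟨K, hKs, hKd⟩
      rcases htype with h | h
      · exact hsame (iff_of_true hqa h)
      · exact Nat.not_odd_iff_even.2 hev h

end Cfsg.Agent.S5983
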