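import Cfsg.Statements.S5984
import Cfsg.Agent.Lib.Omega.UnitaryEigen
import Cfsg.Agent.Lib.Omega.TensorRank
import Cfsg.Agent.Lib.Omega.PrimeOrderPieces
import Cfsg.Agent.Lib.Omega.SquareCases
import Cfsg.Agent.Lib.ClassicalForms.Unitary.Card
import Cfsg.Agent.Lib.ClassicalLinear.Card
import Cfsg.Agent.Lib.Omega.BlockPerm
-- import your own Cfsg.Agent.* helpers here

set_option autoImplicit false
open scoped MatrixGroups
open Cfsg

namespace Cfsg.Agent.S5984

open CfsgLib CfsgLib.Geometric CfsgLib.Forms Module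
open scoped Matrix

variable {F : Type*} [Field F] {n q : ℕ} (c : ClassicalForms.Conj F q)

/-- The form as a bundled map, semilinear in the first argument. -/
abbrev H : (Fin n → F) →ₛₗ[c.σ] (Fin n → F) →ₗ[F] F := hermBundled n c.σ

theorem H_symm (u v : Fin n → F) : c.σ (H c u v) = H c v u :=
  (hermBundled_isSymm c.invol).eq u v

theorem H_nondeg {v : Fin n → F} (h : ∀ w, H c w v = 0) : v = 0 :=
  (hermBundled_nondegenerate c.invol).1 v fun w => by rw [← H_symm c w v, h, map_zero]

theorem mem_GU {g : GL (Fin n) F} : g ∈ Cfsg.GU n F q ↔ ∀ v u, H c (ap g v) (ap g u) = H c v u :=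
  Omega.mem_GU_iff_bundled c.apply

/-- Two complementary totally isotropic subspaces. -/
structure IsPair (U W : Submodule F (Fin n → F)) : Prop where
  compl : IsCompl U W
  left : ∀ u ∈ U, ∀ v ∈ U, H c u v = 0
  right : ∀ u ∈ W, ∀ v ∈ W, H c u v = 0

theorem IsPair.eq_zero {U W : Submodule F (Fin n → F)} (h : IsPair c U W) {u : Fin n → F} (hu : u ∈ U)
    (hW : ∀ w ∈ W, H c w u = 0) : u = 0 := by
  refine H_nondeg c fun v => ?_
  obtain ⟨a, ha, b, hb, rfl⟩ := Submodule.mem_sup.1 (h.compl.sup_eq_top ▸ Submodule.mem_top (x := v))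
  rw [map_add, LinearMap.add_apply, h.left a ha u hu, hW b hb, add_zero]

theorem IsPair.symm {U W : Submodule F (Fin n → F)} (h : IsPair c U W) : IsPair c W U :=
  ⟨h.compl.symm, h.right, h.left⟩

theorem repr_eq {ι : Type*} [Fintype ι] {W : Submodule F (Fin n → F)} (w : Basis ι F W) (v : Fin n → F) (hv : v ∈ W) :
    v = ∑ j, w.repr ⟨v, hv⟩ j • (w j : Fin n → F) := by
  have h := congrArg (Submodule.subtype W) (w.sum_repr ⟨v, hv⟩)
  rw [map_sum] at h
  simp only [map_smul, Submodule.subtype_apply] at h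
  exact h.symm

theorem IsPair.finrank_le {U W : Submodule F (Fin n → F)} (h : IsPair c U W) : finrank F U ≤ finrank F W := by
  let w := Module.finBasis F W
  let Φ : U →ₗ[F] (Fin (finrank F W) → F) := LinearMap.pi fun j => (H c (w j : Fin n → F)).comp U.subtype
  refine le_of_le_of_eq (LinearMap.finrank_le_finrank_of_injective (f := Φ) ?_) (Module.finrank_fin_fun F)
  rw [injective_iff_map_eq_zero]
  intro u hu
  refine Subtype.ext (h.eq_zero c u.2 fun v hv => ?_)
  have hv' := repr_eq w v hv
  rw [hv', map_sum, LinearMap.sum_apply]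
  refine Finset.sum_eq_zero fun j _ => ?_
  rw [map_smulₛₗ, LinearMap.smul_apply, show H c (w j : Fin n → F) (u : Fin n → F) = 0 from congrFun hu j, smul_zero]

theorem IsPair.finrank_eq {U W : Submodule F (Fin n → F)} (h : IsPair c U W) :
    finrank F U = finrank F W ∧ 2 * finrank F U = n := by
  have h1 := h.finrank_le c
  have h2 := (h.symm c).finrank_le c
  have h3 := Submodule.finrank_add_eq_of_isCompl h.compl
  rw [Module.finrank_fin_fun] at h3
  omega

/-- A hyperbolic family. -/
structure IsHyp {m : ℕ} (h : Fin m ⊕ Fin m → Fin n → F) : Prop where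
  ll : ∀ i j, H c (h (.inl i)) (h (.inl j)) = 0
  rr : ∀ i j, H c (h (.inr i)) (h (.inr j)) = 0
  rl : ∀ i j, H c (h (.inr j)) (h (.inl i)) = if i = j then 1 else 0

theorem IsHyp.lr {m : ℕ} {h : Fin m ⊕ Fin m → Fin n → F} (hh : IsHyp c h) (i j : Fin m) :
    H c (h (.inl i)) (h (.inr j)) = if i = j then 1 else 0 := by
  rw [← H_symm c, hh.rl]; split_ifs <;> simp

theorem IsHyp.linearIndependent {m : ℕ} {h : Fin m ⊕ Fin m → Fin n → F} (hh : IsHyp c h) :
    LinearIndependent F h := by
  rw [Fintype.linearIndependent_iff]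
  intro g hg x
  rcases x with j | j
  · have := congrArg (H c (h (.inr j))) hg
    simpa [Fintype.sum_sum_type, hh.rl, hh.rr] using this
  · have := congrArg (H c (h (.inl j))) hg
    simpa [Fintype.sum_sum_type, hh.lr, hh.ll] using this

theorem IsHyp.exists_basis {m : ℕ} (hn : n = m + m) {h : Fin m ⊕ Fin m → Fin n → F} (hh : IsHyp c h) :
    ∃ b : Basis (Fin m ⊕ Fin m) F (Fin n → F), ∀ x, b x = h x :=
  ⟨Basis.mk (hh.linearIndependent c) (ge_of_eq ((hh.linearIndependent c).span_eq_top_of_card_eq_finrank' (by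
    rw [Fintype.card_sum, Fintype.card_fin, Module.finrank_fin_fun, hn]))), fun x => Basis.mk_apply _ _ _⟩

/-- A pair comes from a hyperbolic family. -/
theorem IsPair.exists_hyp {m : ℕ} (hn : n = m + m) {U W : Submodule F (Fin n → F)} (h : IsPair c U W) :
    ∃ f : Fin m ⊕ Fin m → Fin n → F, IsHyp c f ∧
      Submodule.span F (Set.range fun i => f (.inl i)) = U ∧ Submodule.span F (Set.range fun i => f (.inr i)) = W := by
  obtain ⟨he, hU⟩ := h.finrank_eq c
  have hU' : finrank F U = m := by omega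
  let w : Basis (Fin m) F W := Module.finBasisOfFinrankEq F W (by omega)
  let Φ : U →ₗ[F] (Fin m → F) := LinearMap.pi fun j => (H c (w j : Fin n → F)).comp U.subtype
  have hinj : Function.Injective Φ := by
    rw [injective_iff_map_eq_zero]
    intro u hu
    refine Subtype.ext (h.eq_zero c u.2 fun v hv => ?_)
    have hv' := repr_eq w v hv
    rw [hv', map_sum, LinearMap.sum_apply]
    refine Finset.sum_eq_zero fun j _ => ?_
    rw [map_smulₛₗ, LinearMap.smul_apply, show H c (w j : Fin n → F) (u : Fin n → F) = 0 from congrFun hu j, smul_zero]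
  let E := LinearEquiv.ofBijective Φ ⟨hinj,
    (LinearMap.injective_iff_surjective_of_finrank_eq_finrank (by rw [hU', Module.finrank_fin_fun])).1 hinj⟩
  let f : Fin m ⊕ Fin m → Fin n → F :=
    Sum.elim (fun i => ((E.symm (Pi.single i 1) : U) : Fin n → F)) fun j => (w j : Fin n → F)
  have hf : IsHyp c f := by
    refine ⟨fun i j => h.left _ (Subtype.coe_prop _) _ (Subtype.coe_prop _),
      fun i j => h.right _ (w i).2 _ (w j).2, fun i j => ?_⟩
    show Φ (E.symm (Pi.single i 1)) j = _
    rw [show Φ (E.symm (Pi.single i 1)) = E (E.symm (Pi.single i 1)) from rfl, E.apply_symm_apply, Pi.single_apply]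
    simp [eq_comm]
  refine ⟨f, hf, ?_, ?_⟩
  · refine Submodule.eq_of_le_of_finrank_eq (Submodule.span_le.2 (by rintro _ ⟨i, rfl⟩; exact Subtype.coe_prop _)) ?_
    exact (finrank_span_eq_card ((hf.linearIndependent c).comp _ Sum.inl_injective)).trans ((Fintype.card_fin m).trans hU'.symm)
  · refine Submodule.eq_of_le_of_finrank_eq (Submodule.span_le.2 (by rintro _ ⟨i, rfl⟩; exact (w i).2)) ?_
    exact (finrank_span_eq_card ((hf.linearIndependent c).comp _ Sum.inr_injective)).trans ((Fintype.card_fin m).trans (by omega))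

/-- The unitary map between two hyperbolic families. -/
theorem exists_gu_of_hyp {m : ℕ} (hn : n = m + m) {f f' : Fin m ⊕ Fin m → Fin n → F} (hf : IsHyp c f)
    (hf' : IsHyp c f') : ∃ g ∈ Cfsg.GU n F q, ∀ x, ap g (f x) = f' x := by
  obtain ⟨b, hb⟩ := hf.exists_basis c hn
  obtain ⟨b', hb'⟩ := hf'.exists_basis c hn
  let E := b.equiv b' (Equiv.refl _)
  have hE : ∀ x, E (f x) = f' x := fun x => by rw [← hb, ← hb']; exact Basis.equiv_apply _ _ _ _
  refine ⟨ofEquiv E, (mem_GU c).2 fun v u => ?_, fun x => by rw [ap_ofEquiv, hE]⟩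
  rw [ap_ofEquiv, ap_ofEquiv]
  have key : ∀ x y, H c (f' x) (f' y) = H c (f x) (f y) := by
    rintro (i | i) (j | j)
    · rw [hf.ll, hf'.ll]
    · rw [hf.lr c, hf'.lr c]
    · rw [hf.rl, hf'.rl]
    · rw [hf.rr, hf'.rr]
  rw [← b.sum_repr v, ← b.sum_repr u]
  simp only [map_sum, map_smulₛₗ, LinearMap.sum_apply, LinearMap.smul_apply, map_smul, RingHom.id_apply, hb, hE, key]

/-- A norm-one scalar is a quotient `l / σ l`. -/
theorem exists_div_conj {δ : F} (hδ : δ * c.σ δ = 1) : ∃ l : F, l ≠ 0 ∧ l / c.σ l = δ := by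
  obtain ⟨a, ha⟩ : ∃ a : F, a + δ * c.σ a ≠ 0 := by
    by_contra h
    push Not at h
    have h1 := h 1
    rw [map_one, mul_one] at h1
    have hd : δ = -1 := by linear_combination h1
    refine c.ne (RingHom.ext fun a => ?_)
    have := h a
    rw [hd] at this
    rw [RingHom.id_apply]
    linear_combination -this
  refine ⟨_, ha, ?_⟩
  have hδ0 : δ ≠ 0 := fun h => by rw [h, zero_mul] at hδ; exact zero_ne_one hδ
  have hs : c.σ (a + δ * c.σ a) * δ = a + δ * c.σ a := by
    rw [map_add, map_mul, c.invol]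
    linear_combination a * hδ
  rw [div_eq_iff (fun h => ha (by rw [← hs, h, zero_mul]))]
  linear_combination -hs

/-- The special unitary group is transitive on pairs. -/
theorem exists_su_map_pair {m : ℕ} (hn : n = m + m) (hm : 0 < m) {U W U' W' : Submodule F (Fin n → F)}
    (h : IsPair c U W) (h' : IsPair c U' W') :
    ∃ g ∈ Cfsg.GU n F q ⊓ Cfsg.Geo.specialLinear (Fin n) F,
      U.map (Matrix.toLin' (g : Matrix (Fin n) (Fin n) F)) = U' ∧
      W.map (Matrix.toLin' (g : Matrix (Fin n) (Fin n) F)) = W' := by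
  classical
  obtain ⟨f, hf, hfU, hfW⟩ := h.exists_hyp c hn
  obtain ⟨f', hf', hfU', hfW'⟩ := h'.exists_hyp c hn
  obtain ⟨g₀, hg₀, hgf⟩ := exists_gu_of_hyp c hn hf hf'
  set δ := (g₀ : Matrix (Fin n) (Fin n) F).det with hδdef
  have hδ : δ * c.σ δ = 1 := Omega.det_mul_conj_det c.apply hg₀
  obtain ⟨l, hl, hlδ⟩ := exists_div_conj c (δ := δ⁻¹) (by rw [map_inv₀, ← mul_inv, hδ, inv_one])
  have hσl : c.σ l ≠ 0 := fun h => hl (c.σ.injective (by rw [h, map_zero]))
  set i₀ : Fin m := ⟨0, hm⟩
  let w : Fin m ⊕ Fin m → F := fun x => if x = .inl i₀ then l else if x = .inr i₀ then (c.σ l)⁻¹ else 1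
  have hw : ∀ i j, w (.inl i) * c.σ (w (.inr j)) * (if i = j then (1 : F) else 0) = if i = j then 1 else 0 := by
    intro i j
    split_ifs with hij
    · subst hij
      by_cases hi : i = i₀
      · subst hi
        simp [w, map_inv₀, c.invol, mul_inv_cancel₀ hl]
      · simp [w, hi]
    · rw [mul_zero]
  obtain ⟨b, hb⟩ := hf.exists_basis c hn
  have hfw : IsHyp c fun x => w x • f x := by
    refine ⟨fun i j => ?_, fun i j => ?_, fun i j => ?_⟩
    · simp [map_smulₛₗ, hf.ll]
    · simp [map_smulₛₗ, hf.rr]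
    · conv_rhs => rw [← hw i j]
      simp only [map_smul, map_smulₛₗ, LinearMap.smul_apply, RingHom.id_apply, smul_eq_mul, hf.rl]
      ring
  obtain ⟨g₁, hg₁, hg1f⟩ := exists_gu_of_hyp c hn hf hfw
  have hdet₁ : (g₁ : Matrix (Fin n) (Fin n) F).det = δ⁻¹ := by
    rw [← LinearMap.det_toLin', ← LinearMap.det_toMatrix b,
      show LinearMap.toMatrix b b (Matrix.toLin' (g₁ : Matrix (Fin n) (Fin n) F)) = Matrix.diagonal w by
        ext x y
        rw [LinearMap.toMatrix_apply, Matrix.toLin'_apply, ← ap_def, hb, hg1f, ← hb, map_smul, Finsupp.smul_apply,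
          Basis.repr_self, Matrix.diagonal_apply]
        by_cases hxy : x = y
        · subst hxy; simp
        · simp [hxy, Ne.symm hxy],
      Matrix.det_diagonal, Fintype.prod_sum_type, Finset.prod_eq_single i₀ (fun i _ hi => by simp [w, hi]) (by simp),
      Finset.prod_eq_single i₀ (fun i _ hi => by simp [w, hi]) (by simp), ← hlδ]
    simp [w, div_eq_mul_inv]
  refine ⟨g₀ * g₁, ⟨mul_mem hg₀ hg₁, Omega.mem_specialLinear.2 ?_⟩, ?_, ?_⟩
  · rw [Units.val_mul, Matrix.det_mul, hdet₁, ← hδdef, mul_inv_cancel₀]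
    exact fun h => by rw [h, zero_mul] at hδ; exact zero_ne_one hδ
  all_goals
    first | rw [← hfU, ← hfU'] | rw [← hfW, ← hfW']
    refine Omega.map_toLin'_eq_of_le (Units.isUnit _) ?_ (by
      rw [finrank_span_eq_card, finrank_span_eq_card]
      · first
          | exact (hf.linearIndependent c).comp _ Sum.inl_injective
          | exact (hf.linearIndependent c).comp _ Sum.inr_injective
      · first
          | exact (hf'.linearIndependent c).comp _ Sum.inl_injective
          | exact (hf'.linearIndependent c).comp _ Sum.inr_injective)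
    rw [Submodule.map_span, Submodule.span_le]
    rintro _ ⟨_, ⟨i, rfl⟩, rfl⟩
    rw [Matrix.toLin'_apply, ← ap_def, ap_mul, hg1f, ap_smul, hgf]
    exact Submodule.smul_mem _ _ (Submodule.subset_span ⟨i, rfl⟩)

/-- An isometry fixing both members of a pair has fixed space of even dimension. -/
theorem IsPair.even_finrank_fixed {U W : Submodule F (Fin n → F)} (h : IsPair c U W)
    (Y : (Fin n → F) →ₗ[F] (Fin n → F)) (hY : ∀ a b, H c (Y a) (Y b) = H c a b)
    (hU : ∀ u ∈ U, Y u ∈ U) (hW : ∀ w ∈ W, Y w ∈ W) : Even (finrank F (LinearMap.ker (Y - LinearMap.id))) := by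
  classical
  have key : ∀ {U W : Submodule F (Fin n → F)}, IsPair c U W → (∀ u ∈ U, Y u ∈ U) → (∀ w ∈ W, Y w ∈ W) →
      finrank F (U ⊓ LinearMap.ker (Y - LinearMap.id) : Submodule F (Fin n → F)) ≤
        finrank F (W ⊓ LinearMap.ker (Y - LinearMap.id) : Submodule F (Fin n → F)) := by
    intro U W h hU hW
    -- the fixed vectors of `U` pair to zero with the moved vectors of `W`
    let R := W.map (Y - LinearMap.id)
    let Φ : (W ⊓ LinearMap.ker (Y - LinearMap.id) : Submodule F (Fin n → F)) →ₗ[F] W :=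
      Submodule.inclusion inf_le_left
    have hRW : R ≤ W := by
      rintro _ ⟨w, hw, rfl⟩
      exact sub_mem (hW w hw) hw
    have hR : finrank F R + finrank F (W ⊓ LinearMap.ker (Y - LinearMap.id) : Submodule F (Fin n → F)) = finrank F W := by
      have h1 := LinearMap.finrank_range_add_finrank_ker ((Y - LinearMap.id) ∘ₗ W.subtype)
      rw [LinearMap.range_comp, Submodule.range_subtype, LinearMap.ker_comp] at h1
      rw [← h1]
      congr 1
      rw [← LinearEquiv.finrank_eq (Submodule.comapSubtypeEquivOfLe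
        (inf_le_left : W ⊓ LinearMap.ker (Y - LinearMap.id) ≤ W))]
      rw [Submodule.comap_inf, Submodule.comap_subtype_self, top_inf_eq]
    let w := Module.finBasis F R
    have hle : finrank F (U ⊓ LinearMap.ker (Y - LinearMap.id) : Submodule F (Fin n → F)) + finrank F R ≤ finrank F U := by
      let Ψ : U →ₗ[F] (Fin (finrank F R) → F) := LinearMap.pi fun j => (H c (w j : Fin n → F)).comp U.subtype
      have hsurj : Function.Surjective Ψ := by
        obtain ⟨he, -⟩ := h.finrank_eq c
        let wW := Module.finBasis F W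
        let Φ' : U →ₗ[F] (Fin (finrank F W) → F) := LinearMap.pi fun j => (H c (wW j : Fin n → F)).comp U.subtype
        have hΦ' : Function.Injective Φ' := by
          rw [injective_iff_map_eq_zero]
          intro u hu
          refine Subtype.ext (h.eq_zero c u.2 fun v hv => ?_)
          have hv' := repr_eq wW v hv
          rw [hv', map_sum, LinearMap.sum_apply]
          refine Finset.sum_eq_zero fun j _ => ?_
          rw [map_smulₛₗ, LinearMap.smul_apply, show H c (wW j : Fin n → F) (u : Fin n → F) = 0 from congrFun hu j,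
            smul_zero]
        have hsurjΦ := (LinearMap.injective_iff_surjective_of_finrank_eq_finrank
          (by rw [Module.finrank_fin_fun, he])).1 hΦ'
        -- express the coordinates on `R` through those on `W`
        let ι' : R →ₗ[F] W := Submodule.inclusion hRW
        obtain ⟨π, hπ⟩ := LinearMap.exists_leftInverse_of_injective ι'
          (LinearMap.ker_eq_bot.2 (Submodule.inclusion_injective hRW))
        intro z
        obtain ⟨u, hu⟩ := hsurjΦ fun i => ∑ j, z j * c.σ (w.repr (π (wW i)) j)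
        refine ⟨u, funext fun j => ?_⟩
        have hj : (w j : Fin n → F) = ∑ i, wW.repr (ι' (w j)) i • (wW i : Fin n → F) := repr_eq wW _ (hRW (w j).2)
        show H c (w j : Fin n → F) (u : Fin n → F) = z j
        rw [hj, map_sum, LinearMap.sum_apply]
        have hu' : ∀ i, H c (wW i : Fin n → F) (u : Fin n → F) = ∑ k, z k * c.σ (w.repr (π (wW i)) k) := fun i => congrFun hu i
        simp only [map_smulₛₗ, LinearMap.smul_apply, smul_eq_mul, hu', Finset.mul_sum]
        rw [Finset.sum_comm]
        have hk : ∀ k, ∑ i, wW.repr (ι' (w j)) i * w.repr (π (wW i)) k = if j = k then 1 else 0 := by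
          intro k
          have h2 : π (ι' (w j)) = w j := LinearMap.congr_fun hπ (w j)
          have h3 := congrArg (fun v => w.repr v k) h2
          rw [← wW.sum_repr (ι' (w j)), map_sum] at h3
          simpa [Finsupp.single_apply] using h3
        rw [Finset.sum_eq_single j]
        · have := congrArg c.σ (hk j)
          rw [if_pos rfl, map_one, map_sum] at this
          conv_rhs => rw [← mul_one (z j), ← this, Finset.mul_sum]
          exact Finset.sum_congr rfl fun i _ => by rw [map_mul]; ring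
        · intro k _ hkj
          have := congrArg c.σ (hk k)
          rw [if_neg (Ne.symm hkj), map_zero, map_sum] at this
          rw [show ∑ i, c.σ (wW.repr (ι' (w j)) i) * (z k * c.σ (w.repr (π (wW i)) k)) =
            z k * ∑ i, c.σ (wW.repr (ι' (w j)) i * w.repr (π (wW i)) k) by
            rw [Finset.mul_sum]; exact Finset.sum_congr rfl fun i _ => by rw [map_mul]; ring, this, mul_zero]
        · simp
      have h1 := LinearMap.finrank_range_add_finrank_ker Ψ
      rw [LinearMap.range_eq_top.2 hsurj, finrank_top, Module.finrank_fin_fun] at h1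
      have h2 : finrank F (U ⊓ LinearMap.ker (Y - LinearMap.id) : Submodule F (Fin n → F)) ≤
          finrank F (LinearMap.ker Ψ) := by
        refine LinearMap.finrank_le_finrank_of_injective
          (f := (Submodule.inclusion (inf_le_left : U ⊓ LinearMap.ker (Y - LinearMap.id) ≤ U)).codRestrict _ fun u => ?_) ?_
        · refine LinearMap.mem_ker.2 (funext fun j => ?_)
          obtain ⟨v, hv, hvw⟩ := (w j).2
          show H c (w j : Fin n → F) (u : Fin n → F) = 0
          have hfix : Y (u : Fin n → F) = u := sub_eq_zero.1 (LinearMap.mem_ker.1 u.2.2)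
          rw [← hvw, LinearMap.sub_apply, LinearMap.id_apply, map_sub, LinearMap.sub_apply]
          conv_lhs => arg 1; rw [← hfix]
          rw [hY, sub_self]
        · exact fun a b hab => Subtype.ext (congrArg (fun z : LinearMap.ker Ψ => ((z : U) : Fin n → F)) hab)
      omega
    obtain ⟨he, -⟩ := h.finrank_eq c
    omega
  have heq := le_antisymm (key h hU hW) (key (h.symm c) hW hU)
  have hsum : LinearMap.ker (Y - LinearMap.id) =
      (U ⊓ LinearMap.ker (Y - LinearMap.id)) ⊔ (W ⊓ LinearMap.ker (Y - LinearMap.id)) := by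
    refine le_antisymm (fun v hv => ?_) (sup_le inf_le_right inf_le_right)
    obtain ⟨a, ha, b, hb, rfl⟩ := Submodule.mem_sup.1 (h.compl.sup_eq_top ▸ Submodule.mem_top (x := v))
    rw [LinearMap.mem_ker, LinearMap.sub_apply, LinearMap.id_apply, map_add] at hv
    have h0 : Y a - a = b - Y b := by rw [← sub_eq_zero, ← hv]; abel
    have hz := Submodule.disjoint_def.1 h.compl.disjoint _ (sub_mem (hU a ha) ha) (h0 ▸ sub_mem hb (hW b hb))
    refine Submodule.add_mem_sup ⟨ha, LinearMap.mem_ker.2 hz⟩ ⟨hb, LinearMap.mem_ker.2 ?_⟩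
    show Y b - b = 0
    rw [← neg_eq_zero, neg_sub, ← h0, hz]
  have hd := Submodule.finrank_sup_add_finrank_inf_eq (U ⊓ LinearMap.ker (Y - LinearMap.id))
    (W ⊓ LinearMap.ker (Y - LinearMap.id))
  rw [← hsum, (h.compl.disjoint.mono inf_le_left inf_le_left).eq_bot, finrank_bot, add_zero, heq] at hd
  exact ⟨_, hd⟩

/-- An element of the special unitary group fixing or interchanging the members of some pair fixes a point. -/
theorem exists_conj_of_pair {m : ℕ} (hn : n = m + m) (hm : 0 < m) {D : Fin 2 → Submodule F (Fin n → F)}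
    (hD : IsPair c (D 0) (D 1)) {x : GL (Fin n) F} {U W : Submodule F (Fin n → F)} (h : IsPair c U W)
    (hfix : U.map (Matrix.toLin' (x : Matrix (Fin n) (Fin n) F)) = U ∧
      W.map (Matrix.toLin' (x : Matrix (Fin n) (Fin n) F)) = W) :
    ∃ g ∈ Cfsg.GU n F q ⊓ Cfsg.Geo.specialLinear (Fin n) F, g⁻¹ * x * g ∈ Cfsg.Geo.decompositionStabilizer D := by
  obtain ⟨g, hg, h0, h1⟩ := exists_su_map_pair c hn hm hD h
  refine ⟨g, hg, 1, fun i => ?_⟩
  have hinj : Function.Injective (Matrix.toLin' (g : Matrix (Fin n) (Fin n) F)) := fun a b hab => by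
    simp only [Matrix.toLin'_apply] at hab
    exact Matrix.mulVec_injective_of_isUnit g.isUnit hab
  refine Submodule.map_injective_of_injective hinj ?_
  rw [← Submodule.map_comp, ← Matrix.toLin'_mul, ← Units.val_mul, show g * (g⁻¹ * x * g) = x * g by group, Units.val_mul,
    Matrix.toLin'_mul, Submodule.map_comp, Equiv.Perm.one_apply]
  fin_cases i
  · show Submodule.map _ (Submodule.map _ (D 0)) = _
    rw [h0, hfix.1]; exact h0.symm
  · show Submodule.map _ (Submodule.map _ (D 1)) = _
    rw [h1, hfix.2]; exact h1.symm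

/-- The matrix group of a half, inside the stabiliser of a pair. -/
theorem relIndex_dvd [Fintype F] {m : ℕ} (hF : Fintype.card F = q ^ 2) (hn : n = m + m) (hm : 0 < m)
    {D : Fin 2 → Submodule F (Fin n → F)} (hD : IsPair c (D 0) (D 1)) :
    ∃ e : ℕ, e ∣ q + 1 ∧
      Nat.card (GL (Fin m) F) * (q + 1) *
        (Cfsg.Geo.decompositionStabilizer D).relIndex (Cfsg.GU n F q ⊓ Cfsg.Geo.specialLinear (Fin n) F) ∣
      e * Nat.card (Cfsg.GU n F q) := by
  classical
  obtain ⟨f, hf, hfU, hfW⟩ := hD.exists_hyp c hn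
  obtain ⟨b, hb⟩ := hf.exists_basis c hn
  -- the element acting as `A` on the first member and as `A⁻¹` adjoint on the second
  let M : GL (Fin m) F → Matrix (Fin m ⊕ Fin m) (Fin m ⊕ Fin m) F := fun A =>
    Matrix.fromBlocks (A : Matrix (Fin m) (Fin m) F) 0 0 (((A⁻¹ : GL (Fin m) F) : Matrix (Fin m) (Fin m) F).map c.σ)ᵀ
  let L : GL (Fin m) F → ((Fin n → F) →ₗ[F] (Fin n → F)) := fun A => Matrix.toLin b b (M A)
  have hMmul : ∀ A B, M (A * B) = M A * M B := fun A B => by
    simp only [M, Matrix.fromBlocks_multiply, Matrix.mul_zero, Matrix.zero_mul, add_zero, zero_add, mul_inv_rev,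
      Units.val_mul, Matrix.map_mul, Matrix.transpose_mul]
  have hM1 : M 1 = 1 := by simp [M]
  have hLl : ∀ A i, L A (f (.inl i)) = ∑ j, (A : Matrix (Fin m) (Fin m) F) j i • f (.inl j) := fun A i => by
    rw [← hb, Matrix.toLin_self, Fintype.sum_sum_type]
    simp [M, hb]
  have hLr : ∀ A i, L A (f (.inr i)) =
      ∑ j, c.σ (((A⁻¹ : GL (Fin m) F) : Matrix (Fin m) (Fin m) F) i j) • f (.inr j) := fun A i => by
    rw [← hb, Matrix.toLin_self, Fintype.sum_sum_type]
    simp [M, hb]
  have hLH : ∀ A a b', H c (L A a) (L A b') = H c a b' := by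
    intro A a b'
    have key : ∀ x y, H c (L A (f x)) (L A (f y)) = H c (f x) (f y) := by
      have hone : ∀ i j, ∑ k, c.σ ((A : Matrix (Fin m) (Fin m) F) k i) *
          c.σ (((A⁻¹ : GL (Fin m) F) : Matrix (Fin m) (Fin m) F) j k) = if i = j then 1 else 0 := by
        intro i j
        have := congrArg (fun X : Matrix (Fin m) (Fin m) F => X j i) A.inv_mul
        simp only [Matrix.mul_apply, Matrix.one_apply] at this
        rw [show (if i = j then (1 : F) else 0) = c.σ (if j = i then 1 else 0) by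
          rcases eq_or_ne i j with rfl | hij
          · simp
          · simp [hij, hij.symm], ← this, map_sum]
        exact Finset.sum_congr rfl fun k _ => by rw [map_mul, mul_comm]
      have hone' : ∀ i j, ∑ k, c.σ (((A⁻¹ : GL (Fin m) F) : Matrix (Fin m) (Fin m) F) j k) *
          c.σ ((A : Matrix (Fin m) (Fin m) F) k i) = if i = j then 1 else 0 := fun i j => by
        rw [← hone i j]; exact Finset.sum_congr rfl fun k _ => mul_comm _ _
      rintro (i | i) (j | j)
      · simp [hLl, map_smulₛₗ, hf.ll]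
      · simp [hLl, hLr, map_smulₛₗ, hf.lr c, hone, hone', -Matrix.coe_units_inv]
      · rw [← H_symm c (L A (f (.inl j))), ← H_symm c (f (.inl j))]
        congr 1
        simp [hLl, hLr, map_smulₛₗ, hf.lr c, hone, hone', -Matrix.coe_units_inv]
      · simp [hLr, map_smulₛₗ, hf.rr]
    rw [← b.sum_repr a, ← b.sum_repr b']
    simp only [map_sum, map_smulₛₗ, LinearMap.sum_apply, LinearMap.smul_apply, map_smul, RingHom.id_apply, hb, key]
  let ψ : GL (Fin m) F →* GL (Fin n) F :=
    (Matrix.GeneralLinearGroup.toLin (n := Fin n) (R := F)).symm.toMonoidHom.comp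
      ({ toFun := fun A => L A
         map_one' := by simp only [L, hM1, Matrix.toLin_one]; rfl
         map_mul' := fun A B => by simp only [L, hMmul, Matrix.toLin_mul b b b]; rfl } :
        GL (Fin m) F →* Module.End F (Fin n → F)).toHomUnits
  have hψ : ∀ A v, ap (ψ A) v = L A v := fun A v => by
    have h1 : Matrix.GeneralLinearGroup.toLin (ψ A) = _ := MulEquiv.apply_symm_apply _ _
    have h2 := congrArg (fun u : LinearMap.GeneralLinearGroup F (Fin n → F) => (u : Module.End F (Fin n → F)) v) h1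
    exact h2
  have hψinj : Function.Injective ψ := fun A B h => by
    have h1 : M A = M B := (Matrix.toLin b b).injective (LinearMap.ext fun v => by
      show L A v = L B v
      rw [← hψ, ← hψ, h])
    exact Units.ext (Matrix.fromBlocks_inj.1 h1).1
  have hψU : ∀ A, ψ A ∈ Cfsg.GU n F q := fun A => (mem_GU c).2 fun a b' => by rw [hψ, hψ, hLH]
  have hψD : ∀ A, ψ A ∈ Cfsg.Geo.decompositionStabilizer D := fun A => ⟨1, fun i => by
    rw [Equiv.Perm.one_apply]
    refine Omega.map_toLin'_eq_of_le (Units.isUnit _) ?_ le_rfl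
    fin_cases i
    · show Submodule.map _ (D 0) ≤ D 0
      rw [← hfU, Submodule.map_span, Submodule.span_le]
      rintro _ ⟨_, ⟨i, rfl⟩, rfl⟩
      rw [Matrix.toLin'_apply, ← ap_def, hψ, hLl]
      exact Submodule.sum_mem _ fun j _ => Submodule.smul_mem _ _ (Submodule.subset_span ⟨j, rfl⟩)
    · show Submodule.map _ (D 1) ≤ D 1
      rw [← hfW, Submodule.map_span, Submodule.span_le]
      rintro _ ⟨_, ⟨i, rfl⟩, rfl⟩
      rw [Matrix.toLin'_apply, ← ap_def, hψ, hLr]
      exact Submodule.sum_mem _ fun j _ => Submodule.smul_mem _ _ (Submodule.subset_span ⟨j, rfl⟩)⟩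
  -- the determinants
  let χ : GL (Fin m) F →* Fˣ := Matrix.GeneralLinearGroup.det.comp ψ
  set G := Cfsg.GU n F q ⊓ Cfsg.Geo.specialLinear (Fin n) F with hG
  have hker : Nat.card χ.ker ∣ Nat.card ↥(Cfsg.Geo.decompositionStabilizer D ⊓ G) := by
    rw [← Subgroup.card_map_of_injective hψinj]
    refine Subgroup.card_dvd_of_le ?_
    rintro _ ⟨A, hA, rfl⟩
    refine ⟨hψD A, hψU A, Omega.mem_specialLinear.2 ?_⟩
    have h1 := congrArg Units.val (MonoidHom.mem_ker.1 hA)
    exact h1
  have hnorm : Nat.card χ.range ∣ q + 1 := by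
    rw [← ClassicalForms.card_norm_one (F := F) (q := q) (by rw [Nat.card_eq_fintype_card, hF])]
    refine (Subgroup.card_dvd_of_le (K := ((powMonoidHom (q + 1) : Fˣ →* Fˣ)).ker) ?_).trans ?_
    · rintro _ ⟨A, rfl⟩
      refine MonoidHom.mem_ker.2 (Units.ext ?_)
      have h1 := Omega.det_mul_conj_det c.apply (hψU A)
      rw [c.apply, ← pow_succ'] at h1
      exact h1
    · refine dvd_of_eq (Nat.card_congr (Equiv.subtypeEquivRight fun u => ?_))
      rw [MonoidHom.mem_ker]; rfl
  refine ⟨Nat.card χ.range, hnorm, ?_⟩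
  have e1 : Nat.card (GL (Fin m) F) = Nat.card χ.ker * Nat.card χ.range := by
    rw [← χ.ker.card_mul_index, Subgroup.index_ker]
  have e2 : Nat.card ↥(Cfsg.Geo.decompositionStabilizer D ⊓ G) * (Cfsg.Geo.decompositionStabilizer D).relIndex G =
      Nat.card G := by
    rw [← Subgroup.card_mul_index ((Cfsg.Geo.decompositionStabilizer D).subgroupOf G)]
    congr 1
    rw [inf_comm, Nat.card_congr (Subgroup.subgroupOfEquivOfLe
      (inf_le_left : G ⊓ Cfsg.Geo.decompositionStabilizer D ≤ G)).symm.toEquiv, Subgroup.inf_subgroupOf_left]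
  have e3 : Nat.card G * (q + 1) = Nat.card (Cfsg.GU n F q) := by
    rw [ClassicalForms.card_gu_eq_mul_su (F := F) (by rw [Nat.card_eq_fintype_card, hF]) (by omega), mul_comm]
    congr 1
    rw [Nat.card_congr (MonoidHom.ofInjective
      (f := (Matrix.SpecialLinearGroup.toGL.comp (Cfsg.SU n F q).subtype)) (fun a b h =>
        Subtype.ext (Subtype.ext (congrArg (fun g : GL (Fin n) F => (g : Matrix (Fin n) (Fin n) F)) h)))).toEquiv]
    have : (Matrix.SpecialLinearGroup.toGL.comp (Cfsg.SU n F q).subtype).range = G := by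
      ext g
      constructor
      · rintro ⟨s, rfl⟩
        exact ⟨s.2, Omega.mem_specialLinear.2 s.1.2⟩
      · rintro ⟨h1, h2⟩
        exact ⟨⟨⟨(g : Matrix (Fin n) (Fin n) F), Omega.mem_specialLinear.1 h2⟩, h1⟩, Units.ext rfl⟩
    rw [this]
  obtain ⟨t, ht⟩ := hker
  refine ⟨t, ?_⟩
  rw [← e3, ← e2, ht, e1]
  ring

/-- A scalar of norm one with `n`-th power `-1` needs a large 2-part of `q + 1`. -/
theorem no_root {s : F} {n Q : ℕ} (h2 : (2 : F) ≠ 0) (hn : n ≠ 0) (hQ : Q ≠ 0) (hv : padicValNat 2 Q ≤ padicValNat 2 n)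
    (h1 : s ^ Q = 1) : s ^ n ≠ -1 := by
  intro hneg
  obtain ⟨u, hu⟩ := (pow_dvd_pow 2 hv).trans (pow_padicValNat_dvd (p := 2) (n := n))
  obtain ⟨w, hw⟩ := pow_padicValNat_dvd (p := 2) (n := Q)
  have hwo : Odd w := by
    rw [Nat.odd_iff]
    by_contra h
    have h2w : 2 ^ (padicValNat 2 Q + 1) ∣ Q := by
      conv_rhs => rw [hw]
      rw [pow_succ]
      exact Nat.mul_dvd_mul_left _ (by omega)
    exact pow_succ_padicValNat_not_dvd hQ h2w
  have e1 : s ^ (n * w) = -1 := by rw [pow_mul, hneg, hwo.neg_one_pow]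
  have e2 : s ^ (n * w) = 1 := by
    rw [show n * w = Q * u by rw [hu]; conv_rhs => rw [hw]
                              ring, pow_mul, h1, one_pow]
  exact h2 (by linear_combination (e2.symm.trans e1))


theorem eigen_mem {x : GL (Fin n) F} {e : F} {v : Fin n → F} :
    v ∈ Module.End.eigenspace (Matrix.toLin' (x : Matrix (Fin n) (Fin n) F)) e ↔ ap x v = e • v :=
  Module.End.mem_eigenspace_iff

theorem finrank_eigen_conj (x g : GL (Fin n) F) (e : F) :
    finrank F (Module.End.eigenspace (Matrix.toLin' ((g⁻¹ * x * g : GL (Fin n) F) : Matrix (Fin n) (Fin n) F)) e) =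
      finrank F (Module.End.eigenspace (Matrix.toLin' (x : Matrix (Fin n) (Fin n) F)) e) := by
  have key : (Module.End.eigenspace (Matrix.toLin' ((g⁻¹ * x * g : GL (Fin n) F) : Matrix (Fin n) (Fin n) F)) e).map
      (apEquiv g).toLinearMap = Module.End.eigenspace (Matrix.toLin' (x : Matrix (Fin n) (Fin n) F)) e := by
    refine le_antisymm ?_ fun v hv => ?_
    · rintro _ ⟨v, hv, rfl⟩
      rw [eigen_mem]
      have hv' : ap g (ap (g⁻¹ * x * g) v) = e • ap g v := by rw [eigen_mem.1 hv, ap_smul]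
      rw [← ap_mul, show g * (g⁻¹ * x * g) = x * g by group, ap_mul] at hv'
      exact hv'
    · refine ⟨ap g⁻¹ v, eigen_mem.2 ?_, ap_ap_inv g v⟩
      rw [ap_mul, ap_ap_inv, ap_mul, eigen_mem.1 hv, ap_smul]
  rw [← key, LinearEquiv.finrank_map_eq]

theorem ap_pow (x : GL (Fin n) F) (v : Fin n → F) : ∀ k : ℕ, ap (x ^ k) v = (ap x)^[k] v
  | 0 => by simp [ap_one]
  | k + 1 => by rw [pow_succ', ap_mul, ap_pow x v k, Function.iterate_succ_apply']

/-- An element with an eigenvalue of odd multiplicity fixes no point, unless it interchanges a pair. -/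
theorem not_fixed {m : ℕ} (hn : n = m + m) (hm : 0 < m) {D : Fin 2 → Submodule F (Fin n → F)}
    (hD : IsPair c (D 0) (D 1)) {x : GL (Fin n) F} (hx : x ∈ Cfsg.GU n F q) {e : F} (he : c.σ e * e = 1) {d : ℕ}
    (hd : finrank F (Module.End.eigenspace (Matrix.toLin' (x : Matrix (Fin n) (Fin n) F)) e) = d) (hodd : Odd d)
    (hswap : m < d ∨ (d < m ∧ ∀ v, ap (x * x) v = (e * e) • v) ∨
      ∃ k, Odd k ∧ ∃ z : F, z ≠ 0 ∧ ∀ v, ap (x ^ k) v = z • v) :
    ¬ ∃ g ∈ Cfsg.GU n F q ⊓ Cfsg.Geo.specialLinear (Fin n) F, g⁻¹ * x * g ∈ Cfsg.Geo.decompositionStabilizer D := by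
  rintro ⟨g, hg, π, hπ⟩
  have he0 : e ≠ 0 := fun h => by simp [h] at he
  set y := g⁻¹ * x * g with hy
  have hyU : y ∈ Cfsg.GU n F q := mul_mem (mul_mem (inv_mem hg.1) hx) hg.1
  have hyd : finrank F (Module.End.eigenspace (Matrix.toLin' (y : Matrix (Fin n) (Fin n) F)) e) = d := by
    rw [hy, finrank_eigen_conj, hd]
  have hmem : ∀ i, ∀ a ∈ D i, ap y a ∈ D (π i) := fun i a ha => hπ i ▸ Submodule.mem_map_of_mem ha
  obtain ⟨hfr, hfr'⟩ := hD.finrank_eq c
  have hne : π 0 ≠ π 1 := π.injective.ne (by decide)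
  have h2v : ∀ i : Fin 2, i = 0 ∨ i = 1 := by decide
  by_cases h0 : π 0 = 0
  · have h1 : π 1 = 1 := (h2v _).resolve_left fun h => hne (h0.trans h.symm)
    let Y : (Fin n → F) →ₗ[F] (Fin n → F) := e⁻¹ • Matrix.toLin' (y : Matrix (Fin n) (Fin n) F)
    have hev := hD.even_finrank_fixed c Y (fun a b => by
        show H c (e⁻¹ • ap y a) (e⁻¹ • ap y b) = _
        simp only [map_smul, map_smulₛₗ, LinearMap.smul_apply, RingHom.id_apply, smul_eq_mul, map_inv₀, (mem_GU c).1 hyU]
        linear_combination (H c a b) * (mul_inv (c.σ e) e).symm.trans ((congrArg (·⁻¹) he).trans inv_one))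
      (fun u hu => Submodule.smul_mem _ _ (h0 ▸ hmem 0 u hu))
      (fun u hu => Submodule.smul_mem _ _ (h1 ▸ hmem 1 u hu))
    rw [show LinearMap.ker (Y - LinearMap.id) = Module.End.eigenspace (Matrix.toLin' (y : Matrix (Fin n) (Fin n) F)) e by
      ext v
      rw [LinearMap.mem_ker, eigen_mem, LinearMap.sub_apply, LinearMap.id_apply, sub_eq_zero]
      show e⁻¹ • ap y v = v ↔ _
      rw [inv_smul_eq_iff₀ he0], hyd] at hev
    exact Nat.not_even_iff_odd.2 hodd hev
  · have h0' : π 0 = 1 := (h2v _).resolve_left h0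
    have h1' : π 1 = 0 := (h2v _).resolve_right fun h => hne (h0'.trans h.symm)
    have hdisj := Submodule.disjoint_def.1 hD.compl.disjoint
    rcases hswap with hlt | ⟨hlt, hsq⟩ | ⟨k, ⟨j, hk⟩, z, hz, hzk⟩
    · have hinf : D 0 ⊓ Module.End.eigenspace (Matrix.toLin' (y : Matrix (Fin n) (Fin n) F)) e = ⊥ :=
        (Submodule.eq_bot_iff _).2 fun a ⟨ha, hae⟩ => hdisj a ha (by
          have h := h0' ▸ hmem 0 a ha
          rw [eigen_mem.1 hae] at h
          exact (Submodule.smul_mem_iff _ he0).1 h)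
      have h := Submodule.finrank_sup_add_finrank_inf_eq (D 0)
        (Module.End.eigenspace (Matrix.toLin' (y : Matrix (Fin n) (Fin n) F)) e)
      rw [hinf, finrank_bot, hyd] at h
      have := (Submodule.finrank_le (D 0 ⊔ Module.End.eigenspace (Matrix.toLin' (y : Matrix (Fin n) (Fin n) F)) e)).trans
        (Module.finrank_fin_fun F).le
      omega
    · have hysq : ∀ v, ap y (ap y v) = (e * e) • v := fun v => by
        rw [← ap_mul, show y * y = g⁻¹ * (x * x) * g by rw [hy]; group, ap_mul, ap_mul, hsq, ap_smul,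
          ← ap_mul g⁻¹ g, inv_mul_cancel, ap_one]
      let Ψ : D 0 →ₗ[F] Module.End.eigenspace (Matrix.toLin' (y : Matrix (Fin n) (Fin n) F)) e :=
        LinearMap.codRestrict _ ((LinearMap.id + e⁻¹ • Matrix.toLin' (y : Matrix (Fin n) (Fin n) F)).comp (D 0).subtype)
          fun a => eigen_mem.2 (by
            show ap y ((a : Fin n → F) + e⁻¹ • ap y a) = e • ((a : Fin n → F) + e⁻¹ • ap y a)
            rw [ap_add, ap_smul, hysq, smul_add, smul_smul, smul_smul, ← mul_assoc, inv_mul_cancel₀ he0, one_mul,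
              mul_inv_cancel₀ he0, one_smul, add_comm])
      have hΨ : Function.Injective Ψ := by
        rw [injective_iff_map_eq_zero]
        intro a ha
        refine Subtype.ext (hdisj _ a.2 ?_)
        have h : (a : Fin n → F) + e⁻¹ • ap y a = 0 := congrArg Subtype.val ha
        rw [eq_neg_of_add_eq_zero_left h]
        exact neg_mem (Submodule.smul_mem _ _ (h0' ▸ hmem 0 _ a.2))
      have := LinearMap.finrank_le_finrank_of_injective hΨ
      omega
    · have hpow : ∀ i, ∀ a ∈ D 0, ap (y ^ (2 * i + 1)) a ∈ D 1 := by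
        intro i
        induction i with
        | zero => intro a ha; rw [mul_zero, zero_add, pow_one]; exact h0' ▸ hmem 0 a ha
        | succ i ih =>
          intro a ha
          rw [show 2 * (i + 1) + 1 = 1 + 1 + (2 * i + 1) by ring, pow_add, pow_add, pow_one, ap_mul, ap_mul]
          exact h0' ▸ hmem 0 _ (h1' ▸ hmem 1 _ (ih a ha))
      have hbot : D 0 = ⊥ := (Submodule.eq_bot_iff _).2 fun a ha => hdisj a ha (by
        have h := hpow j a ha
        rw [← hk, show y = g⁻¹ * x * g⁻¹⁻¹ by rw [inv_inv, hy], conj_pow, inv_inv, ap_mul, ap_mul, hzk, ap_smul,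
          ← ap_mul, inv_mul_cancel, ap_one] at h
        exact (Submodule.smul_mem_iff _ hz).1 h)
      rw [hbot, finrank_bot] at hfr'
      omega

/-- An isometry as a matrix. -/
theorem exists_gu (X : (Fin n → F) →ₗ[F] (Fin n → F)) (hX : ∀ a b, H c (X a) (X b) = H c a b) :
    ∃ x ∈ Cfsg.GU n F q, ∀ v, ap x v = X v := by
  have hinj : Function.Injective X := by
    rw [injective_iff_map_eq_zero]
    exact fun a ha => H_nondeg c fun w => by rw [← hX, ha, map_zero]
  refine ⟨ofEquiv (LinearEquiv.ofInjectiveEndo X hinj), (mem_GU c).2 fun a b => ?_, fun v => ap_ofEquiv _ _⟩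
  rw [ap_ofEquiv, ap_ofEquiv]
  exact hX a b

/-- Transvections fix no point. -/
theorem exists_transvection {p : ℕ} [Fact p.Prime] [CharP F p] {m : ℕ} (hn : n = m + m) (hm : 0 < m)
    {U W : Submodule F (Fin n → F)} (h : IsPair c U W) :
    ∃ x ∈ Cfsg.GU n F q ⊓ Cfsg.Geo.specialLinear (Fin n) F, x ^ p = 1 ∧
      finrank F (Module.End.eigenspace (Matrix.toLin' (x : Matrix (Fin n) (Fin n) F)) 1) + 1 = n := by
  obtain ⟨f, hf, -, -⟩ := h.exists_hyp c hn
  set v := f (.inl ⟨0, hm⟩) with hvdef
  set v' := f (.inr ⟨0, hm⟩) with hv'def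
  have hvv : H c v v = 0 := hf.ll _ _
  have hvv' : H c v v' = 1 := by rw [hvdef, hv'def, hf.lr c, if_pos rfl]
  obtain ⟨b, hb⟩ : ∃ b : F, c.σ b ≠ b := by
    by_contra h
    push Not at h
    exact c.ne (RingHom.ext h)
  set a := b - c.σ b with hadef
  have ha : a ≠ 0 := sub_ne_zero.2 (Ne.symm hb)
  have hσa : c.σ a + a = 0 := by rw [hadef, map_sub, c.invol]; ring
  let φ : (Fin n → F) →ₗ[F] F := a • (H c v)
  have hφ : ∀ u, φ u = a * H c v u := fun u => rfl
  have hφv : φ v = 0 := by rw [hφ, hvv, mul_zero]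
  let X : (Fin n → F) →ₗ[F] (Fin n → F) := LinearMap.id + φ.smulRight v
  have hXu : ∀ u, X u = u + φ u • v := fun u => rfl
  have hX : ∀ u w, H c (X u) (X w) = H c u w := by
    intro u w
    simp only [hXu, hφ, map_add, map_smulₛₗ, LinearMap.add_apply, LinearMap.smul_apply, map_mul, RingHom.id_apply,
      smul_eq_mul, hvv, mul_zero, add_zero]
    rw [show c.σ (H c v u) = H c u v from H_symm c v u]
    linear_combination (H c u v * H c v w) * hσa
  obtain ⟨x, hxU, hx⟩ := exists_gu c X hX
  have hit : ∀ (k : ℕ) u, ap (x ^ k) u = u + (k : F) • (φ u • v) := by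
    intro k
    induction k with
    | zero => intro u; simp [ap_one]
    | succ k ih =>
      intro u
      rw [pow_succ', ap_mul, ih, hx, hXu, map_add, map_smul, map_smul, hφv, smul_zero, smul_zero, add_zero,
        Nat.cast_succ, add_smul, one_smul, add_assoc]
  have hxp : x ^ p = 1 := gl_ext fun u => by rw [hit, CharP.cast_eq_zero, zero_smul, add_zero, ap_one]
  refine ⟨x, ⟨hxU, Omega.mem_specialLinear.2 ?_⟩, hxp, ?_⟩
  · refine frobenius_inj F p ?_
    rw [frobenius_def, map_one, ← Matrix.det_pow, ← Units.val_pow_eq_pow_val, hxp, Units.val_one, Matrix.det_one]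
  · have hker : Module.End.eigenspace (Matrix.toLin' (x : Matrix (Fin n) (Fin n) F)) 1 = LinearMap.ker φ := by
      ext u
      rw [eigen_mem, LinearMap.mem_ker, hx, hXu, one_smul, add_eq_left, smul_eq_zero]
      refine or_iff_left fun h0 => one_ne_zero (α := F) ?_
      rw [← hvv', h0, map_zero, LinearMap.zero_apply]
    have hsurj : Function.Surjective φ := fun t => ⟨(t / a) • v', by
      rw [map_smul, hφ, hvv', smul_eq_mul, mul_one, div_mul_cancel₀ _ ha]⟩
    have h1 := LinearMap.finrank_range_add_finrank_ker φ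
    rw [LinearMap.range_eq_top.2 hsurj, finrank_top, Module.finrank_self, Module.finrank_fin_fun, ← hker] at h1
    omega

/-- The standard basis vectors are orthonormal. -/
theorem H_single (i j : Fin n) : H c (Pi.single i 1) (Pi.single j 1) = if i = j then (1 : F) else 0 := by
  rw [show H c = hermBundled n c.σ from rfl, hermBundled_single, Pi.single_apply]
  split_ifs with h1 h2 <;> simp_all

theorem finrank_eigen_diag (d : Fin n → F) (x : GL (Fin n) F) (hx : (x : Matrix (Fin n) (Fin n) F) = Matrix.diagonal d)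
    (e : F) [DecidableEq F] :
    finrank F (Module.End.eigenspace (Matrix.toLin' (x : Matrix (Fin n) (Fin n) F)) e) =
      (Finset.univ.filter fun i => d i = e).card := by
  refine Omega.finrank_eigenspace_eq_card _ (Pi.basisFun F (Fin n)) d (fun i => ?_) e
  rw [hx, Pi.basisFun_apply]
  ext j
  simp [Pi.single_apply]

/-- Diagonal unitary elements. -/
theorem exists_diag (d : Fin n → F) (hd : ∀ i, c.σ (d i) * d i = 1) (hdet : ∏ i, d i = 1) :
    ∃ x ∈ Cfsg.GU n F q ⊓ Cfsg.Geo.specialLinear (Fin n) F,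
      (x : Matrix (Fin n) (Fin n) F) = Matrix.diagonal d := by
  have h0 : ∀ i, d i ≠ 0 := fun i h => by have := hd i; simp [h] at this
  let x : GL (Fin n) F := Matrix.GeneralLinearGroup.mkOfDetNeZero (Matrix.diagonal d)
    (by rw [Matrix.det_diagonal, hdet]; exact one_ne_zero)
  refine ⟨x, ⟨(mem_GU c).2 fun v u => ?_, Omega.mem_specialLinear.2 (by
    show (Matrix.diagonal d).det = 1
    rw [Matrix.det_diagonal, hdet])⟩, rfl⟩
  show hermBundled n c.σ (Matrix.diagonal d *ᵥ v) (Matrix.diagonal d *ᵥ u) = hermBundled n c.σ v u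
  rw [hermBundled_apply c.apply, hermBundled_apply c.apply]
  refine Finset.sum_congr rfl fun i _ => ?_
  rw [Matrix.mulVec_diagonal, Matrix.mulVec_diagonal, ← c.apply, ← c.apply, map_mul]
  linear_combination (u i * c.σ (v i)) * hd i

/-- An element of norm one whose `n`-th power is `-1`. -/
theorem exists_root [Fintype F] (hF : Fintype.card F = q ^ 2) (hq : Odd q) (h2 : (2 : F) ≠ 0) {k : ℕ} (hk : k ≠ 0)
    (hv : padicValNat 2 k < padicValNat 2 (q + 1)) : ∃ s : F, s ^ (q + 1) = 1 ∧ s ^ k = -1 := by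
  have : Fact (Nat.Prime 2) := ⟨Nat.prime_two⟩
  have hq1 : 1 < q := by
    by_contra h
    have : Fintype.card F ≤ 1 := by rw [hF]; nlinarith
    exact absurd this (not_le.2 Fintype.one_lt_card)
  obtain ⟨s, hs⟩ := (Omega.exists_pow_eq_neg_one_iff (n := k * (q - 1)) hF h2
    (by have : q - 1 ≠ 0 := by omega
        exact mul_ne_zero hk this)).2 (by
    rw [show q ^ 2 - 1 = (q + 1) * (q - 1) by simpa using Nat.sq_sub_sq q 1,
      padicValNat.mul hk (by omega), padicValNat.mul (by omega) (by omega)]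
    omega)
  have hs0 : s ≠ 0 := fun h => by
    rw [h, zero_pow (mul_ne_zero hk (by omega))] at hs
    exact neg_ne_zero.2 one_ne_zero hs.symm
  refine ⟨s ^ (q - 1), ?_, by rw [← pow_mul, mul_comm, hs]⟩
  rw [← pow_mul, show (q - 1) * (q + 1) = q ^ 2 - 1 by rw [mul_comm]; simpa using (Nat.sq_sub_sq q 1).symm, ← hF]
  exact FiniteField.pow_card_sub_one_eq_one s hs0

theorem prod_range_two_mul (f : ℕ → ℕ) : ∀ m : ℕ, ∏ i ∈ Finset.range (m + m), f i =
      (∏ i ∈ Finset.range m, f (2 * i)) * ∏ i ∈ Finset.range m, f (2 * i + 1)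
  | 0 => by simp
  | m + 1 => by
    rw [show m + 1 + (m + 1) = m + m + 1 + 1 by ring, Finset.prod_range_succ, Finset.prod_range_succ,
      prod_range_two_mul f m, Finset.prod_range_succ, Finset.prod_range_succ, show 2 * m = m + m by ring]
    ring

/-- The primes of the index, away from the characteristic, divide some `q ^ j + 1` with `j` odd. -/
theorem exists_odd_dvd [Fintype F] {m : ℕ} (hF : Fintype.card F = q ^ 2) (hn : n = m + m) (hm : 0 < m)
    {D : Fin 2 → Submodule F (Fin n → F)} (hD : IsPair c (D 0) (D 1)) {r : ℕ} (hr : r.Prime) (hrq : ¬ r ∣ q)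
    (hΩ : r ∣ (Cfsg.Geo.decompositionStabilizer D).relIndex (Cfsg.GU n F q ⊓ Cfsg.Geo.specialLinear (Fin n) F)) :
    ∃ j, Odd j ∧ j < n ∧ r ∣ q ^ j + 1 := by
  classical
  have hq2 := ClassicalForms.two_le_q (F := F) (q := q) (by rw [Nat.card_eq_fintype_card, hF])
  obtain ⟨e, ⟨t, ht⟩, hdvd⟩ := relIndex_dvd c hF hn hm hD
  have h1 : Nat.card (GL (Fin m) F) * r ∣ Nat.card (Cfsg.GU n F q) := by
    have h := ((mul_dvd_mul_left _ hΩ).trans hdvd).trans (mul_dvd_mul_right (Dvd.intro t ht.symm) _)
    rw [mul_right_comm, mul_comm (q + 1)] at h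
    exact Nat.dvd_of_mul_dvd_mul_right (by omega) h
  rw [ClassicalForms.card_gu (F := F) (by rw [Nat.card_eq_fintype_card, hF]), hn, prod_range_two_mul,
    Matrix.card_GL_field, hF,
    show (∏ i : Fin m, ((q ^ 2) ^ m - (q ^ 2) ^ (i : ℕ))) =
      (∏ i ∈ Finset.range m, (q ^ 2) ^ i) * ∏ i ∈ Finset.range m, ((q ^ 2) ^ (m - i) - 1) by
      rw [Fin.prod_univ_eq_prod_range (fun i => (q ^ 2) ^ m - (q ^ 2) ^ i), ← Finset.prod_mul_distrib]
      refine Finset.prod_congr rfl fun i hi => ?_
      rw [Nat.mul_sub, mul_one, ← pow_add, Nat.add_sub_cancel' (Finset.mem_range.1 hi).le],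
    ← Finset.prod_range_reflect (fun i => (q ^ 2) ^ (m - i) - 1)] at h1
  have hA : ∀ i ∈ Finset.range m, (q ^ 2) ^ (m - (m - 1 - i)) - 1 =
      if Even (2 * i + 1) then q ^ (2 * i + 1 + 1) + 1 else q ^ (2 * i + 1 + 1) - 1 := by
    intro i hi
    have := Finset.mem_range.1 hi
    rw [if_neg (Nat.not_even_iff_odd.2 ⟨i, rfl⟩), show m - (m - 1 - i) = i + 1 by omega, ← pow_mul]
    ring_nf
  rw [Finset.prod_congr rfl hA] at h1
  set P := ∏ i ∈ Finset.range m, if Even (2 * i + 1) then q ^ (2 * i + 1 + 1) + 1 else q ^ (2 * i + 1 + 1) - 1 with hPdef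
  have hP : P ≠ 0 := by
    refine Finset.prod_ne_zero_iff.2 fun i _ => ?_
    rw [if_neg (Nat.not_even_iff_odd.2 ⟨i, rfl⟩)]
    have : 1 < q ^ (2 * i + 1 + 1) := Nat.one_lt_pow (by omega) (by omega)
    omega
  rw [← mul_assoc (q ^ _), mul_comm _ P, mul_comm _ P, mul_assoc P] at h1
  have h2 := (hr.dvd_mul).1 ((Dvd.intro_left _ rfl).trans (Nat.dvd_of_mul_dvd_mul_left (Nat.pos_of_ne_zero hP) h1))
  rcases h2 with h2 | h2
  · exact absurd (hr.dvd_of_dvd_pow h2) hrq
  · obtain ⟨i, hi, hri⟩ := (Prime.dvd_finset_prod_iff hr.prime _).1 h2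
    rw [if_pos ⟨i, by ring⟩] at hri
    exact ⟨2 * i + 1, ⟨i, rfl⟩, by have := Finset.mem_range.1 hi; omega, hri⟩

/-- An element of odd prime order with an eigenvalue of odd multiplicity. -/
theorem exists_odd_elem [Fintype F] {m : ℕ} (hF : Fintype.card F = q ^ 2) (hn : n = m + m) (hm : 2 ≤ m) {r : ℕ}
    [Fact r.Prime] (hr : Odd r) (hrq : ¬ r ∣ q) (hex : ∃ j, Odd j ∧ j < n ∧ r ∣ q ^ j + 1) :
    ∃ x ∈ Cfsg.GU n F q ⊓ Cfsg.Geo.specialLinear (Fin n) F, x ^ r = 1 ∧ ∃ e : F, c.σ e * e = 1 ∧
      Odd (finrank F (Module.End.eigenspace (Matrix.toLin' (x : Matrix (Fin n) (Fin n) F)) e)) ∧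
      ∀ z : F, (x : Matrix (Fin n) (Fin n) F) ≠ z • (1 : Matrix (Fin n) (Fin n) F) := by
  classical
  have hrp := (Fact.out : r.Prime)
  have hr3 : 3 ≤ r := by
    have := hrp.two_le
    rcases hr with ⟨k, hk⟩
    omega
  have hNF : Nat.card F = q ^ 2 := by rw [Nat.card_eq_fintype_card, hF]
  set j := Nat.find hex with hjdef
  obtain ⟨hjo, hjn, hjd⟩ := Nat.find_spec hex
  rw [← hjdef] at hjo hjn hjd
  by_cases hj1 : j = 1
  · rw [hj1, pow_one] at hjd
    obtain ⟨ζ, hζ⟩ := exists_prime_orderOf_dvd_card' (G := Fˣ) r (by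
      rw [Nat.card_eq_fintype_card, Fintype.card_units, hF]
      exact hjd.trans ⟨q - 1, by simpa using Nat.sq_sub_sq q 1⟩)
    have hζr : (ζ : F) ^ r = 1 := by rw [← Units.val_pow_eq_pow_val, ← hζ, pow_orderOf_eq_one, Units.val_one]
    have hζ1 : (ζ : F) ≠ 1 := fun h => by
      rw [Units.val_eq_one] at h
      rw [h, orderOf_one] at hζ
      omega
    have hζi : (ζ : F)⁻¹ ≠ ζ := fun h => by
      have h' : (ζ : F) ^ 2 = 1 := by
        rw [pow_two]
        conv_lhs => arg 1; rw [← h]
        exact inv_mul_cancel₀ ζ.ne_zero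
      have h'' := orderOf_dvd_of_pow_eq_one (x := ζ) (n := 2) (Units.ext (by simpa using h'))
      rw [hζ] at h''
      have := Nat.le_of_dvd two_pos h''
      omega
    have hσζ : c.σ (ζ : F) * ζ = 1 := by
      obtain ⟨k, hk⟩ := hjd
      rw [c.apply, ← pow_succ, hk, pow_mul, hζr, one_pow]
    set i₀ : Fin n := ⟨0, by omega⟩ with hi₀
    set i₁ : Fin n := ⟨1, by omega⟩ with hi₁
    have hne : i₀ ≠ i₁ := by simp [hi₀, hi₁]
    let d : Fin n → F := fun i => if i = i₀ then (ζ : F) else if i = i₁ then (ζ : F)⁻¹ else 1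
    have hd : ∀ i, c.σ (d i) * d i = 1 := fun i => by
      simp only [d]
      split_ifs
      · exact hσζ
      · rw [map_inv₀, ← mul_inv, hσζ, inv_one]
      · rw [map_one, mul_one]
    have hdet : ∏ i, d i = 1 := by
      rw [← Finset.prod_subset (Finset.subset_univ {i₀, i₁}) (fun i _ hi => by
        simp only [Finset.mem_insert, Finset.mem_singleton, not_or] at hi
        simp [d, hi.1, hi.2]), Finset.prod_pair hne]
      simp [d, hne.symm]
    obtain ⟨x, hxG, hx⟩ := exists_diag c d hd hdet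
    refine ⟨x, hxG, Units.ext ?_, (ζ : F), hσζ, ?_, fun z hz => ?_⟩
    · rw [Units.val_pow_eq_pow_val, hx, Matrix.diagonal_pow, Units.val_one, ← Matrix.diagonal_one]
      congr 1
      funext i
      simp only [Pi.pow_apply, d]
      split_ifs
      · exact hζr
      · rw [inv_pow, hζr, inv_one]
      · exact one_pow r
    · rw [finrank_eigen_diag d x hx, show (Finset.univ.filter fun i => d i = (ζ : F)) = {i₀} by
        ext i
        simp only [Finset.mem_filter, Finset.mem_univ, true_and, Finset.mem_singleton, d]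
        split_ifs with h1 h2
        · simp [h1]
        · simp [h1, hζi]
        · simp [h1, Ne.symm hζ1], Finset.card_singleton]
      exact odd_one
    · rw [hx] at hz
      have ha := congrFun₂ hz i₀ i₀
      have hb := congrFun₂ hz i₁ i₁
      simp [d, hne.symm] at ha hb
      exact hζi (hb.trans ha.symm)
  -- no proper nontrivial fixed space
  have hj3 : 3 ≤ j := by
    rcases hjo with ⟨k, hk⟩
    omega
  obtain ⟨X, hX⟩ := exists_prime_orderOf_dvd_card' (G := Cfsg.GU j F q) r (by
    rw [ClassicalForms.card_gu (F := F) hNF]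
    refine Dvd.dvd.mul_left (hjd.trans ?_) _
    refine dvd_trans ?_ (Finset.dvd_prod_of_mem _ (Finset.mem_range.2 (by omega : j - 1 < j)))
    rw [if_pos (by rcases hjo with ⟨k, hk⟩; exact ⟨k, by omega⟩), Nat.sub_add_cancel (by omega)])
  set M : Matrix (Fin j) (Fin j) F := ((X : GL (Fin j) F) : Matrix (Fin j) (Fin j) F) with hM
  have hXr : M ^ r = 1 := by
    rw [hM, ← Units.val_pow_eq_pow_val, ← SubgroupClass.coe_pow, ← hX, pow_orderOf_eq_one]
    rfl
  have hnq1 : ¬ r ∣ q + 1 := fun h => hj1 (le_antisymm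
    (Nat.find_min' hex ⟨odd_one, by omega, by rwa [pow_one]⟩) (by omega))
  have hXdet : M.det = 1 := by
    have h1 : M.det ^ r = 1 := by rw [← Matrix.det_pow, hXr, Matrix.det_one]
    have h2 : M.det ^ (q + 1) = 1 := by
      rw [pow_succ', ← c.apply]
      exact Omega.det_mul_conj_det c.apply X.2
    have h3 := pow_gcd_eq_one.2 ⟨h1, h2⟩
    rw [(hrp.coprime_iff_not_dvd.2 hnq1).gcd_eq_one, pow_one] at h3
    exact h3
  let Y : (Fin j → F) →ₗ[F] (Fin j → F) := Matrix.toLin' M
  have hYr : ∀ v ∈ (⊤ : Submodule F (Fin j → F)), Y^[r] v = v := fun v _ => by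
    rw [← Module.End.pow_apply, show Y ^ r = Matrix.toLinAlgEquiv' (M ^ r) from
      (map_pow (Matrix.toLinAlgEquiv' (R := F) (n := Fin j)) M r).symm, hXr, map_one]
    rfl
  have hfixY : LinearMap.ker (Y - LinearMap.id) = ⊥ := by
    have hrF : (Fintype.card F : ZMod r) ≠ 0 := by
      rw [hF, Nat.cast_pow]
      exact pow_ne_zero _ fun h => hrq ((ZMod.natCast_eq_zero_iff _ _).1 h)
    have hdv := CfsgLib.Omega.PrimeOrder.orderOf_dvd_sub_finrank hrF Y ⊤ (fun _ _ => Submodule.mem_top) hYr
    set o := orderOf (Fintype.card F : ZMod r) with ho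
    have hqj : (q : ZMod r) ^ j = -1 := by
      have := (ZMod.natCast_eq_zero_iff (q ^ j + 1) r).2 hjd
      push_cast at this
      linear_combination this
    have hoj : o ∣ j := orderOf_dvd_of_pow_eq_one (by
      rw [hF, Nat.cast_pow, ← pow_mul, mul_comm, pow_mul, hqj]; ring)
    have hoo : Odd o := by
      obtain ⟨w, hw⟩ := hoj
      rw [hw] at hjo
      exact (Nat.odd_mul.1 hjo).1
    have hqo : ((q : ZMod r) ^ o) ^ 2 = 1 := by
      rw [← pow_mul, mul_comm, pow_mul, ← Nat.cast_pow, ← hF, ho, pow_orderOf_eq_one]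
    have hjo' : j ≤ o := by
      refine Nat.find_min' hex ⟨hoo, lt_of_le_of_lt (Nat.le_of_dvd (by omega) hoj) hjn,
        (ZMod.natCast_eq_zero_iff _ r).1 ?_⟩
      push_cast
      rcases sq_eq_one_iff.1 hqo with h | h
      · exfalso
        obtain ⟨w, hw⟩ := hoj
        rw [hw, pow_mul, h, one_pow] at hqj
        have h2 : ((2 : ℕ) : ZMod r) = 0 := by push_cast; linear_combination hqj
        have := Nat.le_of_dvd two_pos ((ZMod.natCast_eq_zero_iff _ _).1 h2)
        omega
      · rw [h]; ring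
    rw [show CfsgLib.Omega.PrimeOrder.fixedIn Y ⊤ = LinearMap.ker (Y - LinearMap.id) from top_inf_eq _, finrank_top,
      Module.finrank_fin_fun] at hdv
    by_contra hne0
    have hpos : 0 < finrank F (LinearMap.ker (Y - LinearMap.id)) := by
      rw [Nat.pos_iff_ne_zero, Ne, Submodule.finrank_eq_zero]
      exact hne0
    have hlt : finrank F (LinearMap.ker (Y - LinearMap.id)) < j := by
      refine lt_of_le_of_ne ((Submodule.finrank_le _).trans (Module.finrank_fin_fun F).le) fun heq => ?_
      have htop := Submodule.eq_top_of_finrank_eq (heq.trans (Module.finrank_fin_fun F).symm)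
      have h1 : M = 1 := by
        refine Matrix.toLin'.injective (LinearMap.ext fun v => ?_)
        rw [Matrix.toLin'_one]
        exact sub_eq_zero.1 (LinearMap.mem_ker.1 (htop ▸ Submodule.mem_top (x := v)))
      have hX1 : X = 1 := Subtype.ext (Units.ext h1)
      rw [hX1, orderOf_one] at hX
      omega
    have := Nat.le_of_dvd (by omega) hdv
    omega
  -- embed
  let R : (Fin n → F) →ₗ[F] (Fin j → F) := LinearMap.funLeft F F (Fin.castLE hjn.le)
  let L : (Fin n → F) →ₗ[F] (Fin n → F) :=
    LinearMap.pi fun i => if h : (i : ℕ) < j then (LinearMap.proj (⟨i, h⟩ : Fin j)).comp (Y.comp R)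
      else LinearMap.proj i
  have hL1 : ∀ v (i : Fin n) (h : (i : ℕ) < j), L v i = Y (R v) ⟨i, h⟩ := fun v i h => by
    show (if h : (i : ℕ) < j then (LinearMap.proj (⟨i, h⟩ : Fin j)).comp (Y.comp R) else LinearMap.proj i) v = _
    rw [dif_pos h]; rfl
  have hL2 : ∀ v (i : Fin n), ¬ (i : ℕ) < j → L v i = v i := fun v i h => by
    show (if h : (i : ℕ) < j then (LinearMap.proj (⟨i, h⟩ : Fin j)).comp (Y.comp R) else LinearMap.proj i) v = _
    rw [dif_neg h]; rfl
  have hsplit : ∀ f : Fin n → F, ∑ i, f i =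
      (∑ k : Fin j, f (Fin.castLE hjn.le k)) + ∑ i ∈ Finset.univ.filter (fun i : Fin n => ¬ (i : ℕ) < j), f i := by
    intro f
    rw [← Finset.sum_filter_add_sum_filter_not Finset.univ (fun i : Fin n => (i : ℕ) < j)]
    congr 1
    refine (Finset.sum_bij (fun k _ => Fin.castLE hjn.le k) ?_ ?_ ?_ fun _ _ => rfl).symm
    · intro k _; simp
    · intro a _ b _ h; exact Fin.castLE_injective _ h
    · intro i hi; exact ⟨⟨i, (Finset.mem_filter.1 hi).2⟩, Finset.mem_univ _, rfl⟩
  have hLk : ∀ v (k : Fin j), L v (Fin.castLE hjn.le k) = Y (R v) k := fun v k => by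
    rw [hL1 v _ (by simp)]; rfl
  have hLH : ∀ a b, H c (L a) (L b) = H c a b := by
    intro a b
    have hY := (mem_GU (n := j) c).1 X.2 (R a) (R b)
    simp only [H, hermBundled_apply c.apply, Cfsg.hermForm, ap_def] at hY ⊢
    rw [hsplit, hsplit (fun i => b i * a i ^ q)]
    congr 1
    · simp only [hLk]; exact hY
    · exact Finset.sum_congr rfl fun i hi => by
        rw [hL2 _ _ (Finset.mem_filter.1 hi).2, hL2 _ _ (Finset.mem_filter.1 hi).2]
  obtain ⟨x, hxU, hx⟩ := exists_gu c L hLH
  have hxr : x ^ r = 1 := by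
    refine gl_ext fun v => ?_
    rw [ap_one, ap_pow]
    have hR : ∀ k w, R ((ap x)^[k] w) = Y^[k] (R w) := by
      intro k
      induction k with
      | zero => intro w; rfl
      | succ k ih =>
        intro w
        rw [Function.iterate_succ_apply', Function.iterate_succ_apply', ← ih, hx]
        funext i
        exact hLk _ i
    funext i
    by_cases hi : (i : ℕ) < j
    · exact (congrFun (hR r v) ⟨i, hi⟩).trans (congrFun (hYr _ Submodule.mem_top) _)
    · have : ∀ k, ((ap x)^[k] v) i = v i := by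
        intro k
        induction k with
        | zero => rfl
        | succ k ih => rw [Function.iterate_succ_apply', hx, hL2 _ _ hi, ih]
      exact this r
  have hxdet : x ∈ Cfsg.Geo.specialLinear (Fin n) F := by
    rw [Omega.mem_specialLinear]
    have h1 : (x : Matrix (Fin n) (Fin n) F).det ^ r = 1 := by
      rw [← Matrix.det_pow, ← Units.val_pow_eq_pow_val, hxr, Units.val_one, Matrix.det_one]
    have h2 : (x : Matrix (Fin n) (Fin n) F).det ^ (q + 1) = 1 := by
      rw [pow_succ', ← c.apply]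
      exact Omega.det_mul_conj_det c.apply hxU
    have h3 := pow_gcd_eq_one.2 ⟨h1, h2⟩
    rw [(hrp.coprime_iff_not_dvd.2 hnq1).gcd_eq_one, pow_one] at h3
    exact h3
  have hfix : finrank F (Module.End.eigenspace (Matrix.toLin' (x : Matrix (Fin n) (Fin n) F)) 1) + j = n := by
    have hker : Module.End.eigenspace (Matrix.toLin' (x : Matrix (Fin n) (Fin n) F)) 1 = LinearMap.ker R := by
      ext v
      rw [eigen_mem, one_smul, hx, LinearMap.mem_ker]
      constructor
      · intro h
        have hmem : R v ∈ LinearMap.ker (Y - LinearMap.id) := by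
          rw [LinearMap.mem_ker, LinearMap.sub_apply, LinearMap.id_apply, sub_eq_zero]
          funext k
          rw [← hLk, h]; rfl
        rwa [hfixY, Submodule.mem_bot] at hmem
      · intro h
        funext i
        by_cases hi : (i : ℕ) < j
        · rw [hL1 _ _ hi, h, map_zero]
          exact (congrFun h (⟨i, hi⟩ : Fin j)).symm
        · exact hL2 _ _ hi
    have h1 := LinearMap.finrank_range_add_finrank_ker R
    rw [LinearMap.range_eq_top.2 (LinearMap.funLeft_surjective_of_injective F F _ (Fin.castLE_injective _)),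
      finrank_top, Module.finrank_fin_fun, Module.finrank_fin_fun, ← hker] at h1
    omega
  have hodd : Odd (finrank F (Module.End.eigenspace (Matrix.toLin' (x : Matrix (Fin n) (Fin n) F)) 1)) := by
    rcases hjo with ⟨k, hk⟩
    exact ⟨m - k - 1, by omega⟩
  refine ⟨x, ⟨hxU, hxdet⟩, hxr, 1, by rw [map_one, mul_one], hodd, fun z hz => ?_⟩
  by_cases hz1 : z = 1
  · have : Module.End.eigenspace (Matrix.toLin' (x : Matrix (Fin n) (Fin n) F)) 1 = ⊤ := eq_top_iff.2 fun v _ =>
      eigen_mem.2 (by rw [ap_def, hz, hz1, one_smul, one_smul, Matrix.one_mulVec])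
    rw [this, finrank_top, Module.finrank_fin_fun] at hfix
    omega
  · obtain ⟨k, hk⟩ := hodd
    have : Module.End.eigenspace (Matrix.toLin' (x : Matrix (Fin n) (Fin n) F)) 1 = ⊥ :=
      (Submodule.eq_bot_iff _).2 fun v hv => by
        have h := eigen_mem.1 hv
        rw [ap_def, hz, Matrix.smul_mulVec, Matrix.one_mulVec, ← sub_eq_zero, ← sub_smul, smul_eq_zero,
          sub_eq_zero] at h
        exact h.resolve_left hz1
    rw [this, finrank_bot] at hk
    omega

theorem IsHyp.isPair {m : ℕ} (hn : n = m + m) {f : Fin m ⊕ Fin m → Fin n → F} (hf : IsHyp c f) :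
    IsPair c (Submodule.span F (Set.range fun i => f (.inl i))) (Submodule.span F (Set.range fun i => f (.inr i))) := by
  have hiso : ∀ g : Fin m → Fin n → F, (∀ i j, H c (g i) (g j) = 0) →
      ∀ u ∈ Submodule.span F (Set.range g), ∀ v ∈ Submodule.span F (Set.range g), H c u v = 0 := by
    intro g hg u hu v hv
    obtain ⟨a, rfl⟩ := Submodule.mem_span_range_iff_exists_fun F |>.1 hu
    obtain ⟨b, rfl⟩ := Submodule.mem_span_range_iff_exists_fun F |>.1 hv
    simp [map_smulₛₗ, hg]
  refine ⟨?_, hiso _ hf.ll, hiso _ hf.rr⟩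
  obtain ⟨b, hb⟩ := hf.exists_basis c hn
  have hfb : f = fun x => b x := funext fun x => (hb x).symm
  subst hfb
  refine ⟨Submodule.disjoint_def.2 fun u hu hu' => ?_, codisjoint_iff.2 ?_⟩
  · obtain ⟨a, ha⟩ := Submodule.mem_span_range_iff_exists_fun F |>.1 hu
    obtain ⟨a', ha'⟩ := Submodule.mem_span_range_iff_exists_fun F |>.1 hu'
    refine b.repr.injective (Finsupp.ext fun x => ?_)
    rw [map_zero, Finsupp.zero_apply]
    rcases x with i | i
    · rw [← ha']; simp [Finsupp.single_apply]
    · rw [← ha]; simp [Finsupp.single_apply]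
  · rw [← Submodule.span_union, eq_top_iff, ← b.span_eq]
    refine Submodule.span_mono ?_
    rintro _ ⟨i | i, rfl⟩
    · exact Or.inl ⟨i, rfl⟩
    · exact Or.inr ⟨i, rfl⟩

/-- The fixed points of an element of order two. -/
theorem exists_fix [Fintype F] {m : ℕ} (hF : Fintype.card F = q ^ 2) (hn : n = m + m) (hm : 0 < m) (hq : Odd q)
    (h2 : (2 : F) ≠ 0) (hv : padicValNat 2 (q + 1) ≤ padicValNat 2 n)
    {D : Fin 2 → Submodule F (Fin n → F)} (hD : IsPair c (D 0) (D 1)) {x : GL (Fin n) F}
    (hx : x ∈ Cfsg.GU n F q ⊓ Cfsg.Geo.specialLinear (Fin n) F) {z : F} (hz : ∀ v, ap x (ap x v) = z • v) :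
    ∃ g ∈ Cfsg.GU n F q ⊓ Cfsg.Geo.specialLinear (Fin n) F, g⁻¹ * x * g ∈ Cfsg.Geo.decompositionStabilizer D := by
  classical
  have hσz : c.σ z * z = 1 := by
    have h := (mem_GU c).1 hx.1 (ap x (Pi.single (⟨0, by omega⟩ : Fin n) (1 : F)))
      (ap x (Pi.single (⟨0, by omega⟩ : Fin n) (1 : F)))
    rw [hz, (mem_GU c).1 hx.1] at h
    simp only [map_smul, map_smulₛₗ, LinearMap.smul_apply, RingHom.id_apply, smul_eq_mul, H_single, if_true, mul_one] at h
    linear_combination h
  have hz0 : z ≠ 0 := fun h => by simp [h] at hσz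
  have hz1 : z ^ (q + 1) = 1 := by rw [pow_succ, ← c.apply, hσz]
  obtain ⟨k, hk⟩ := hq
  obtain ⟨s, hs⟩ : IsSquare z := by
    refine (FiniteField.isSquare_iff (fun h => h2 ?_) hz0).2 ?_
    · haveI : CharP F 2 := ringChar.of_eq h
      exact_mod_cast CharP.cast_eq_zero F 2
    · rw [hF, show q ^ 2 / 2 = (q + 1) * k by
        subst hk
        have : (2 * k + 1) ^ 2 = 2 * ((2 * k + 1 + 1) * k) + 1 := by ring
        omega, pow_mul, hz1, one_pow]
  have hs0 : s ≠ 0 := fun h => hz0 (by rw [hs, h, mul_zero])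
  have hsne : s ≠ -s := fun h => hs0 ((mul_eq_zero.1 (by linear_combination h : (2 : F) * s = 0)).resolve_left h2)
  have hN : (c.σ s * s) * (c.σ s * s) = 1 * 1 := by
    rw [one_mul, ← hσz, hs, map_mul]; ring
  rcases mul_self_eq_mul_self_iff.1 hN with hN1 | hN1
  · -- both eigenspaces are non-degenerate
    have hsq : (x : Matrix (Fin n) (Fin n) F) * (x : Matrix (Fin n) (Fin n) F) = (s * s) • 1 :=
      Matrix.ext_of_mulVec_single fun i => by
        rw [← Matrix.mulVec_mulVec, Matrix.smul_mulVec, Matrix.one_mulVec, ← ap_def, ← ap_def, hz, hs]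
    have hp : Polynomial.aeval (x : Matrix (Fin n) (Fin n) F)
        (∏ e ∈ ({s, -s} : Finset F), (Polynomial.X - Polynomial.C e)) = 0 := by
      rw [Finset.prod_insert (by simpa using hsne), Finset.prod_singleton]
      have : (Polynomial.X - Polynomial.C s) * (Polynomial.X - Polynomial.C (-s)) =
          Polynomial.X ^ 2 - Polynomial.C (s * s) := by rw [map_neg, map_mul]; ring
      rw [this]
      simp [pow_two, hsq, Algebra.algebraMap_eq_smul_one, smul_smul]
    obtain ⟨b, d, hd, hb, hbd⟩ := Omega.exists_orthonormal_eigenbasis c.ne c.invol (x : Matrix (Fin n) (Fin n) F)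
      ((mem_GU c).1 hx.1) _ hp (fun e he => by
        rcases Finset.mem_insert.1 he with rfl | he
        · exact hN1
        · rw [Finset.mem_singleton] at he
          rw [he, map_neg, neg_mul_neg, hN1])
    have hprod : ∏ i, d i = 1 := by
      rw [← Omega.mem_specialLinear.1 hx.2, ← LinearMap.det_toLin', ← LinearMap.det_toMatrix b, ← Matrix.det_diagonal]
      congr 1
      ext i j
      rw [LinearMap.toMatrix_apply, Matrix.toLin'_apply, hbd, map_smul, Finsupp.smul_apply, b.repr_self,
        Matrix.diagonal_apply]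
      by_cases hij : i = j
      · subst hij; simp
      · simp [hij, Ne.symm hij]
    have hdz : ∀ i, ¬ d i = s → d i = -s := fun i hi => by
      rcases Finset.mem_insert.1 (hd i) with h | h
      · exact absurd h hi
      · exact Finset.mem_singleton.1 h
    have hs1 : s ^ (q + 1) = 1 := by rw [pow_succ, ← c.apply, hN1]
    have hcards : Fintype.card {i // d i = s} + Fintype.card {i // ¬ d i = s} = n := by
      rw [← Fintype.card_sum, Fintype.card_congr (Equiv.sumCompl _), Fintype.card_fin]
    have hB : Even (Fintype.card {i // ¬ d i = s}) := by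
      by_contra hodd
      rw [Nat.not_even_iff_odd] at hodd
      refine no_root h2 (by omega : n ≠ 0) (by omega : q + 1 ≠ 0) hv hs1 ?_
      rw [← Fintype.prod_subtype_mul_prod_subtype (fun i => d i = s),
        Finset.prod_congr rfl (fun i _ => (i.2 : d i.1 = s)),
        Finset.prod_congr rfl (fun i _ => hdz _ (i : {i // ¬ d i = s}).2), Finset.prod_const, Finset.prod_const,
        Finset.card_univ, Finset.card_univ, hodd.neg_pow, mul_neg, ← pow_add, hcards, neg_eq_iff_eq_neg] at hprod
      exact hprod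
    have hA : Even (Fintype.card {i // d i = s}) := by
      have h : Even (Fintype.card {i // d i = s} + Fintype.card {i // ¬ d i = s}) := by rw [hcards]; exact ⟨m, hn⟩
      exact (Nat.even_add.1 h).2 hB
    obtain ⟨m1, ⟨e1⟩⟩ := Omega.exists_pairs _ hA
    obtain ⟨m2, ⟨e2⟩⟩ := Omega.exists_pairs _ hB
    have hm12 : m = m1 + m2 := by
      have h1 := Fintype.card_congr e1
      have h2 := Fintype.card_congr e2
      simp only [Fintype.card_prod, Fintype.card_fin] at h1 h2
      omega
    let es : Fin m ≃ Fin m1 ⊕ Fin m2 := (finCongr hm12).trans finSumFinEquiv.symm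
    let E : Fin m × Fin 2 ≃ Fin n := (es.prodCongr (Equiv.refl _)).trans
      ((Equiv.sumProdDistrib _ _ _).trans ((Equiv.sumCongr e1 e2).trans (Equiv.sumCompl _)))
    have hE : ∀ i, d (E (i, 1)) = d (E (i, 0)) := by
      intro i
      simp only [E, Equiv.trans_apply, Equiv.prodCongr_apply, Prod.map_apply, Equiv.refl_apply]
      cases es i with
      | inl a =>
        simp only [Equiv.sumProdDistrib_apply_left, Equiv.sumCongr_apply, Sum.map_inl, Equiv.sumCompl_apply_inl]
        rw [(e1 (a, 1)).2, (e1 (a, 0)).2]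
      | inr a =>
        simp only [Equiv.sumProdDistrib_apply_right, Equiv.sumCongr_apply, Sum.map_inr, Equiv.sumCompl_apply_inr]
        rw [hdz _ (e2 (a, 1)).2, hdz _ (e2 (a, 0)).2]
    obtain ⟨α, hα⟩ : ∃ α : F, c.σ α * α = -1 := by
      have : Fact (Nat.Prime 2) := ⟨Nat.prime_two⟩
      obtain ⟨α, hα⟩ := (Omega.exists_pow_eq_neg_one_iff (n := q + 1) hF h2 (by omega)).2 (by
        have hk0 : k ≠ 0 := by
          rintro rfl
          simp [hk] at hF
          exact absurd hF (ne_of_gt Fintype.one_lt_card)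
        rw [show q ^ 2 - 1 = (q + 1) * (q - 1) by simpa using Nat.sq_sub_sq q 1,
          padicValNat.mul (by omega) (by omega)]
        have : 1 ≤ padicValNat 2 (q - 1) := one_le_padicValNat_of_dvd (by omega) ⟨k, by omega⟩
        omega)
      exact ⟨α, by rw [c.apply, ← pow_succ, hα]⟩
    have hσ2 : c.σ ((2 : F)⁻¹) = (2 : F)⁻¹ := by rw [map_inv₀, map_ofNat]
    let f : Fin m ⊕ Fin m → Fin n → F := Sum.elim (fun i => b (E (i, 0)) + α • b (E (i, 1)))
      (fun i => (2 : F)⁻¹ • (b (E (i, 0)) - α • b (E (i, 1))))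
    have hb' : ∀ i j (a a' : Fin 2), H c (b (E (i, a))) (b (E (j, a'))) = if i = j ∧ a = a' then 1 else 0 := by
      intro i j a a'
      rw [show H c = hermBundled n c.σ from rfl, hb]
      simp [EmbeddingLike.apply_eq_iff_eq]
    have hf : IsHyp c f := by
      refine ⟨fun i j => ?_, fun i j => ?_, fun i j => ?_⟩ <;>
        simp only [f, Sum.elim_inl, Sum.elim_inr, map_add, map_sub, map_smulₛₗ, map_smul, LinearMap.add_apply,
          LinearMap.sub_apply, LinearMap.smul_apply, RingHom.id_apply, smul_eq_mul, hb', hσ2]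
      · by_cases hij : i = j
        · subst hij
          simp only [show ((0 : Fin 2) = 1) = False by simp, show ((1 : Fin 2) = 0) = False by simp, and_self, and_false,
            if_true, if_false, mul_one, mul_zero, add_zero, zero_add, sub_zero, zero_sub]
          linear_combination hα
        · simp [hij]
      · by_cases hij : i = j
        · subst hij
          simp only [show ((0 : Fin 2) = 1) = False by simp, show ((1 : Fin 2) = 0) = False by simp, and_self, and_false,
            if_true, if_false, mul_one, mul_zero, add_zero, zero_add, sub_zero, zero_sub]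
          linear_combination ((2 : F)⁻¹ * (2 : F)⁻¹) * hα
        · simp [hij]
      · by_cases hij : i = j
        · subst hij
          simp only [show ((0 : Fin 2) = 1) = False by simp, show ((1 : Fin 2) = 0) = False by simp, and_self, and_false,
            if_true, if_false, mul_one, mul_zero, add_zero, zero_add, sub_zero, zero_sub]
          linear_combination (-(2 : F)⁻¹) * hα + inv_mul_cancel₀ h2
        · simp [hij, Ne.symm hij]
    have hfix : ∀ i, ap x (f (.inl i)) = d (E (i, 0)) • f (.inl i) ∧ ap x (f (.inr i)) = d (E (i, 0)) • f (.inr i) := by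
      intro i
      simp only [f, Sum.elim_inl, Sum.elim_inr, ap_add, ap_sub, ap_smul]
      simp only [ap_def, hbd, hE]
      constructor
      · rw [smul_add, smul_comm α]
      · rw [smul_comm _ (2 : F)⁻¹, smul_sub (d _), smul_comm α]
    refine exists_conj_of_pair c hn hm hD (hf.isPair c hn) ⟨?_, ?_⟩ <;>
      refine Omega.map_toLin'_eq_of_le (Units.isUnit _) ?_ le_rfl <;>
      rw [Submodule.map_span, Submodule.span_le] <;>
      rintro _ ⟨_, ⟨i, rfl⟩, rfl⟩ <;>
      rw [Matrix.toLin'_apply, ← ap_def]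
    · rw [(hfix i).1]; exact Submodule.smul_mem _ _ (Submodule.subset_span ⟨i, rfl⟩)
    · rw [(hfix i).2]; exact Submodule.smul_mem _ _ (Submodule.subset_span ⟨i, rfl⟩)
  · -- the eigenspaces form a pair
    let U := Module.End.eigenspace (Matrix.toLin' (x : Matrix (Fin n) (Fin n) F)) s
    let W := Module.End.eigenspace (Matrix.toLin' (x : Matrix (Fin n) (Fin n) F)) (-s)
    have hiso : ∀ e : F, c.σ e * e = -1 →
        ∀ u ∈ Module.End.eigenspace (Matrix.toLin' (x : Matrix (Fin n) (Fin n) F)) e,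
        ∀ v ∈ Module.End.eigenspace (Matrix.toLin' (x : Matrix (Fin n) (Fin n) F)) e, H c u v = 0 := by
      intro e he u hu v hv
      have h := (mem_GU c).1 hx.1 u v
      rw [eigen_mem.1 hu, eigen_mem.1 hv] at h
      simp only [map_smul, map_smulₛₗ, LinearMap.smul_apply, RingHom.id_apply, smul_eq_mul] at h
      exact (mul_eq_zero.1 (by linear_combination -h + H c u v * he : (2 : F) * H c u v = 0)).resolve_left h2
    have hP : IsPair c U W := by
      refine ⟨⟨Submodule.disjoint_def.2 fun v hv hv' => ?_, codisjoint_iff.2 (eq_top_iff.2 fun v _ => ?_)⟩,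
        hiso s (by simpa using hN1), hiso (-s) (by rw [map_neg, neg_mul_neg]; simpa using hN1)⟩
      · have h := (eigen_mem.1 hv).symm.trans (eigen_mem.1 hv')
        rw [← sub_eq_zero, ← sub_smul, smul_eq_zero, sub_eq_zero] at h
        exact h.resolve_left hsne
      · refine Submodule.mem_sup.2 ⟨(2 : F)⁻¹ • (v + s⁻¹ • ap x v), eigen_mem.2 ?_,
          (2 : F)⁻¹ • (v - s⁻¹ • ap x v), eigen_mem.2 ?_, ?_⟩
        · rw [ap_smul, ap_add, ap_smul, hz, hs, smul_smul s⁻¹, inv_mul_cancel_left₀ hs0, smul_comm s, smul_add s,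
            smul_smul s s⁻¹, mul_inv_cancel₀ hs0, one_smul, add_comm]
        · rw [ap_smul, ap_sub, ap_smul, hz, hs, smul_smul s⁻¹, inv_mul_cancel_left₀ hs0, smul_comm (-s), smul_sub (-s),
            smul_smul (-s) s⁻¹, neg_mul, mul_inv_cancel₀ hs0]
          module
        · rw [← smul_add, add_add_sub_cancel, ← two_smul F v, smul_smul, inv_mul_cancel₀ h2, one_smul]
    refine exists_conj_of_pair c hn hm hD hP ⟨?_, ?_⟩ <;>
      refine Omega.map_toLin'_eq_of_le (Units.isUnit _) ?_ le_rfl <;>
      rintro _ ⟨v, hv, rfl⟩ <;>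
      rw [Matrix.toLin'_apply, ← ap_def, eigen_mem.1 hv] <;>
      exact Submodule.smul_mem _ _ hv

end Cfsg.Agent.S5984

namespace Cfsg.Agent.S5984

open CfsgLib CfsgLib.Geometric CfsgLib.Forms Module

/-- Elements of prime order of PSU_n(q) and the stabilizers of pairs of complementary totally singular subspaces. Here `T = PSU_n(q)` is realised through `SU_n(q)`, the matrices of determinant 1 over the field `F` with `q²` elements preserving the hermitian form `Σ uᵢ vᵢ^q`, with `n ≥ 4` even; `D` is a pair of complementary subspaces of dimension `n/2` on each of which the form vanishes identically, and `H` is the subgroup of `SU_n(q)` fixing or interchanging the two members — a subgroup of type GL_{n/2}(q²).2 (maximality is not assumed). Ω is the set of cosets of `H`, so an element of `T` of prime order `r` (`x ∈ SU_n(q)` with `x^r` scalar, `x` not scalar) fixes a point of Ω exactly when some `SU_n(q)`-conjugate of `x` lies in `H`. Let `r` be a prime dividing the index of `H`. Then every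 element of `T` of order `r` fixes a point of Ω if and only if `r = 2`, `q` is odd and `(q + 1)_2 ≤ (n)_2` (2-parts). -/
theorem result {F : Type*} [Field F] [Fintype F] {p : ℕ} [Fact p.Prime] [CharP F p] {q : ℕ} (hq : Fintype.card F = q ^ 2)
    (n : ℕ) (hn : 4 ≤ n) (he : Even n) (D : Fin 2 → Submodule F (Fin n → F)) (hD : Cfsg.Geo.IsMDecomposition (n / 2) D)
    (hDs : ∀ i, Cfsg.Geo.IsTotallySingularFor (Cfsg.hermForm n F q) (D i))
    (r : ℕ) [Fact r.Prime]
    (hΩ : r ∣ (Cfsg.Geo.decompositionStabilizer D).relIndex (Cfsg.GU n F q ⊓ Cfsg.Geo.specialLinear (Fin n) F)) :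
    (∀ x ∈ Cfsg.GU n F q ⊓ Cfsg.Geo.specialLinear (Fin n) F, (∃ z : F, ((x ^ r : GL (Fin n) F) : Matrix (Fin n) (Fin n) F) = z • (1 : Matrix (Fin n) (Fin n) F)) →
      (∀ z : F, (x : Matrix (Fin n) (Fin n) F) ≠ z • (1 : Matrix (Fin n) (Fin n) F)) →
      ∃ g ∈ Cfsg.GU n F q ⊓ Cfsg.Geo.specialLinear (Fin n) F, g⁻¹ * x * g ∈ Cfsg.Geo.decompositionStabilizer D) ↔
    (r = 2 ∧ Odd q ∧ padicValNat 2 (q + 1) ≤ padicValNat 2 n) := by
  classical
  obtain ⟨m, hnm⟩ := he
  have hm : 2 ≤ m := by omega
  have hm0 : 0 < m := by omega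
  obtain ⟨c⟩ := CfsgLib.ClassicalForms.exists_conj (F := F) (q := q) (by rw [Nat.card_eq_fintype_card, hq])
  have hsup : D 0 ⊔ D 1 = ⊤ := by
    rw [eq_top_iff, ← hD.iSup_eq_top]
    exact iSup_le fun i => by fin_cases i <;> [exact le_sup_left; exact le_sup_right]
  have hP : IsPair c (D 0) (D 1) := by
    refine ⟨⟨(hD.indep 0).mono_right (le_iSup₂_of_le 1 (by decide) le_rfl), codisjoint_iff.2 hsup⟩, ?_, ?_⟩
    · intro u hu v hv
      rw [show H c u v = Cfsg.hermForm n F q v u from hermBundled_apply c.apply v u]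
      exact hDs 0 v hv u hu
    · intro u hu v hv
      rw [show H c u v = Cfsg.hermForm n F q v u from hermBundled_apply c.apply v u]
      exact hDs 1 v hv u hu
  obtain ⟨k, hp, hpk⟩ := FiniteField.card F p
  have hpq : ∃ e, e ≠ 0 ∧ q = p ^ e := by
    have hdvd : q ∣ p ^ (k : ℕ) := by rw [← hpk, hq]; exact dvd_pow_self q two_ne_zero
    obtain ⟨e, -, he⟩ := (Nat.dvd_prime_pow hp).1 hdvd
    refine ⟨e, fun h => ?_, he⟩
    rw [he, h] at hq
    exact absurd hq (by simpa using ne_of_gt Fintype.one_lt_card)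
  obtain ⟨e, he0, hqe⟩ := hpq
  have hn0 : 0 < n := by omega
  constructor
  · intro hall
    have hrp : r ≠ p := by
      intro hrp
      subst hrp
      obtain ⟨x, hxG, hxp, hker⟩ := exists_transvection c (p := r) hnm hm0 hP
      refine not_fixed c hnm hm0 hP hxG.1 (e := 1) (by rw [map_one, mul_one]) rfl ⟨m - 1, by omega⟩
        (Or.inl (by omega)) (hall x hxG ⟨1, by rw [hxp, one_smul]; rfl⟩ fun z hz => ?_)
      by_cases hz1 : z = 1
      · have : Module.End.eigenspace (Matrix.toLin' (x : Matrix (Fin n) (Fin n) F)) 1 = ⊤ := eq_top_iff.2 fun v _ =>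
          eigen_mem.2 (by rw [ap_def, hz, hz1, one_smul, one_smul, Matrix.one_mulVec])
        rw [this, finrank_top, Module.finrank_fin_fun] at hker
        omega
      · have : Module.End.eigenspace (Matrix.toLin' (x : Matrix (Fin n) (Fin n) F)) 1 = ⊥ :=
          (Submodule.eq_bot_iff _).2 fun v hv => by
            have h := eigen_mem.1 hv
            rw [ap_def, hz, Matrix.smul_mulVec, Matrix.one_mulVec, ← sub_eq_zero, ← sub_smul, smul_eq_zero,
              sub_eq_zero] at h
            exact h.resolve_left hz1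
        rw [this, finrank_bot] at hker
        omega
    have hrq : ¬ r ∣ q := fun h => hrp ((Nat.prime_dvd_prime_iff_eq Fact.out hp).1
      ((Fact.out : r.Prime).dvd_of_dvd_pow (hqe ▸ h)))
    rcases (Fact.out : r.Prime).eq_two_or_odd' with hr2 | hodd
    · have hqo : Odd q := hqe ▸ (hp.odd_of_ne_two fun h => hrp (hr2.trans h.symm)).pow
      refine ⟨hr2, hqo, ?_⟩
      by_contra hlt
      rw [not_le] at hlt
      have h2 : (2 : F) ≠ 0 := fun h => hrp (hr2.trans ((Nat.prime_dvd_prime_iff_eq hp Nat.prime_two).1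
        ((CharP.cast_eq_zero_iff F p 2).1 (by exact_mod_cast h))).symm)
      obtain ⟨s, hs1, hsn⟩ := exists_root hq hqo h2 (by omega : n ≠ 0) hlt
      have hs0 : s ≠ 0 := fun h => by simp [h] at hs1
      have hσs : c.σ s * s = 1 := by rw [c.apply, ← pow_succ, hs1]
      set i₀ : Fin n := ⟨0, hn0⟩ with hi₀
      let d : Fin n → F := fun i => if i = i₀ then -s else s
      have hd : ∀ i, c.σ (d i) * d i = 1 := fun i => by
        simp only [d]
        split_ifs
        · rw [map_neg, neg_mul_neg, hσs]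
        · exact hσs
      have hdet : ∏ i, d i = 1 := by
        rw [← Finset.mul_prod_erase _ _ (Finset.mem_univ i₀), Finset.prod_congr rfl (fun i hi => show d i = s from
          if_neg (Finset.ne_of_mem_erase hi)), Finset.prod_const, Finset.card_erase_of_mem (Finset.mem_univ _),
          Finset.card_univ, Fintype.card_fin, show d i₀ = -s from if_pos rfl, neg_mul, ← pow_succ',
          Nat.sub_add_cancel (by omega), hsn, neg_neg]
      obtain ⟨x, hxG, hx⟩ := exists_diag c d hd hdet
      have hxx : (x : Matrix (Fin n) (Fin n) F) * (x : Matrix (Fin n) (Fin n) F) = (s * s) • 1 := by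
        rw [hx, Matrix.diagonal_mul_diagonal, Matrix.smul_one_eq_diagonal]
        congr 1
        funext i
        simp only [d]
        split_ifs <;> ring
      have hne : -s ≠ s := fun h => hs0 ((mul_eq_zero.1 (by linear_combination -h : (2 : F) * s = 0)).resolve_left h2)
      refine not_fixed c hnm hm0 hP hxG.1 (e := -s) (by rw [map_neg, neg_mul_neg, hσs]) (d := 1) ?_ odd_one
        (Or.inr (Or.inl ⟨by omega, fun v => ?_⟩)) (hall x hxG ⟨s * s, ?_⟩ fun z hz => ?_)
      · rw [finrank_eigen_diag d x hx, show (Finset.univ.filter fun i => d i = -s) = {i₀} by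
          ext i
          simp only [Finset.mem_filter, Finset.mem_univ, true_and, Finset.mem_singleton, d]
          split_ifs with h <;> simp [h, Ne.symm hne], Finset.card_singleton]
      · rw [ap_def, Units.val_mul, hxx, Matrix.smul_mulVec, Matrix.one_mulVec, neg_mul_neg]
      · rw [hr2, pow_two, Units.val_mul, hxx]
      · rw [hx] at hz
        have ha := congrFun₂ hz i₀ i₀
        have hb := congrFun₂ hz (⟨1, by omega⟩ : Fin n) (⟨1, by omega⟩ : Fin n)
        simp [d, hi₀] at ha hb
        exact hne (ha.trans hb.symm)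
    · exfalso
      obtain ⟨j, hj⟩ := exists_odd_dvd c hq hnm hm0 hP Fact.out hrq hΩ
      obtain ⟨x, hxG, hxr, e, he, hde, hns⟩ := exists_odd_elem c hq hnm hm hodd hrq ⟨j, hj⟩
      refine not_fixed c hnm hm0 hP hxG.1 he rfl hde
        (Or.inr (Or.inr ⟨r, hodd, 1, one_ne_zero, fun v => by rw [hxr, ap_one, one_smul]⟩))
        (hall x hxG ⟨1, by rw [hxr, one_smul]; rfl⟩ hns)
  · rintro ⟨hr2, hqo, hv⟩ x hx ⟨z, hz⟩ -
    have h2 : (2 : F) ≠ 0 := fun h => by
      have h2p : p = 2 := (Nat.prime_dvd_prime_iff_eq hp Nat.prime_two).1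
        ((CharP.cast_eq_zero_iff F p 2).1 (by exact_mod_cast h))
      rw [hqe, h2p, Nat.odd_pow_iff he0] at hqo
      exact absurd hqo (by decide)
    refine exists_fix c hq hnm hm0 hqo h2 hv hP hx (z := z) fun v => ?_
    rw [← ap_mul, ap_def, ← pow_two, ← hr2, hz, Matrix.smul_mulVec, Matrix.one_mulVec]

end Cfsg.Agent.S5984
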