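import Cfsg.Statements.S5985
import Cfsg.Agent.Lib.Omega.FreeInverted

set_option autoImplicit false
open scoped MatrixGroups Matrix commutatorElement
open Cfsg

namespace Cfsg.Agent.S5985

open CfsgLib

universe u

variable {F : Type u} [Field F]

/-- The symmetric matrix unit at a pair of places. -/
def sy {d : ℕ} (i j : Fin d) : Matrix (Fin d) (Fin d) F := Matrix.single i j 1 + Matrix.single j i 1

/-- The unipotent element `(1, A; 0, 1)`. -/
def uA {d : ℕ} (A : Matrix (Fin d) (Fin d) F) : Matrix (Fin d ⊕ Fin d) (Fin d ⊕ Fin d) F :=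
  Matrix.fromBlocks 1 A 0 1

theorem uA_mul {d : ℕ} (A B : Matrix (Fin d) (Fin d) F) : uA A * uA B = uA (A + B) := by
  simp [uA, Matrix.fromBlocks_multiply, add_comm]

theorem quad_fromBlocks [CharP F 2] {d : ℕ} (P A S : Matrix (Fin d) (Fin d) F) (hPS : Pᵀ * S = 1)
    (hA : ∀ y, (A *ᵥ y) ⬝ᵥ (S *ᵥ y) = 0) (v : Fin d ⊕ Fin d → F) :
    Cfsg.quadFormPlus d F (Matrix.fromBlocks P A 0 S *ᵥ v) = Cfsg.quadFormPlus d F v := by
  rw [Matrix.fromBlocks_mulVec]
  set xs : Fin d → F := v ∘ Sum.inl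
  set ys : Fin d → F := v ∘ Sum.inr
  show (P *ᵥ xs + A *ᵥ ys) ⬝ᵥ (0 *ᵥ xs + S *ᵥ ys) = xs ⬝ᵥ ys
  rw [Matrix.zero_mulVec, zero_add, add_dotProduct, hA, add_zero, Matrix.dotProduct_mulVec,
    ← Matrix.mulVec_transpose, Matrix.mulVec_mulVec, ← Matrix.transpose_transpose (Sᵀ * P),
    Matrix.transpose_mul, Matrix.transpose_transpose, hPS, Matrix.transpose_one, Matrix.one_mulVec]

theorem uA_mem [CharP F 2] {d : ℕ} (A : Matrix (Fin d) (Fin d) F) (hA : ∀ y, (A *ᵥ y) ⬝ᵥ y = 0)
    (v : Fin d ⊕ Fin d → F) : Cfsg.quadFormPlus d F (uA A *ᵥ v) = Cfsg.quadFormPlus d F v :=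
  quad_fromBlocks 1 A 1 (by simp) (fun y => by rw [Matrix.one_mulVec]; exact hA y) v

theorem sy_alt [CharP F 2] {d : ℕ} (i j : Fin d) (y : Fin d → F) : (sy i j *ᵥ y) ⬝ᵥ y = 0 := by
  rw [sy, Matrix.add_mulVec, add_dotProduct, Matrix.single_mulVec, Matrix.single_mulVec]
  simp [dotProduct, Function.update_apply, mul_comm, CharTwo.add_self_eq_zero]

theorem sy_conj [CharP F 2] {d : ℕ} {i j k : Fin d} (hij : i ≠ j) (hik : i ≠ k) :
    (1 + Matrix.single j k 1) * sy i k * (1 + Matrix.single k j 1) = sy i k + (sy i j : Matrix (Fin d) (Fin d) F) := by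
  simp only [sy, add_mul, mul_add, Matrix.one_mul, Matrix.mul_one, Matrix.single_mul_single_same, mul_one,
    Matrix.single_mul_single_of_ne _ _ _ _ hij, Matrix.single_mul_single_of_ne _ _ _ _ hij.symm,
    Matrix.single_mul_single_of_ne _ _ _ _ hik, Matrix.single_mul_single_of_ne _ _ _ _ hik.symm,
    Matrix.zero_mul, Matrix.mul_zero, add_zero, zero_add]
  abel

/-- The symmetric pair elements are commutators. -/
theorem sy_mem_omega [CharP F 2] {d : ℕ} (hd : 3 ≤ d) {i j : Fin d} (hij : i ≠ j) :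
    ∃ g : GL (Fin d ⊕ Fin d) F, g ∈ Cfsg.Geo.omegaGL (Cfsg.quadFormPlus d F) ∧
      (g : Matrix (Fin d ⊕ Fin d) (Fin d ⊕ Fin d) F) = uA (sy i j) := by
  classical
  obtain ⟨k, hki, hkj⟩ : ∃ k : Fin d, k ≠ i ∧ k ≠ j := by
    by_contra h
    push Not at h
    have : (Finset.univ : Finset (Fin d)).card ≤ ({i, j} : Finset (Fin d)).card := Finset.card_le_card fun a _ => by
      by_cases ha : a = i
      · simp [ha]
      · simp [h a ha]
    rw [Finset.card_univ, Fintype.card_fin] at this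
    have := this.trans Finset.card_le_two
    omega
  set M : Matrix (Fin d) (Fin d) F := 1 + Matrix.single j k 1 with hM
  have hMT : Mᵀ = 1 + Matrix.single k j 1 := by simp [hM, Matrix.transpose_add, Matrix.transpose_single]
  have hMM : M * M = 1 := by
    rw [hM, add_mul, mul_add, mul_add, Matrix.one_mul, Matrix.mul_one, Matrix.one_mul,
      Matrix.single_mul_single_of_ne _ _ _ _ hkj, add_zero, add_assoc]
    ext a b
    simp [CharTwo.add_self_eq_zero]
  set B : Matrix (Fin d) (Fin d) F := sy i k with hB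
  have hBB : B + B = 0 := by ext a b; simp [CharTwo.add_self_eq_zero]
  have hu1 : uA B * uA B = 1 := by rw [uA_mul, hBB]; simp [uA, Matrix.fromBlocks_one]
  set Hm : Matrix (Fin d ⊕ Fin d) (Fin d ⊕ Fin d) F := Matrix.fromBlocks M 0 0 Mᵀ with hHm
  have hMTT : Mᵀ * Mᵀ = 1 := by rw [← Matrix.transpose_mul, hMM, Matrix.transpose_one]
  have hh1 : Hm * Hm = 1 := by
    simp [hHm, Matrix.fromBlocks_multiply, hMM, hMTT, Matrix.fromBlocks_one]
  let U : GL (Fin d ⊕ Fin d) F := ⟨uA B, uA B, hu1, hu1⟩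
  let H : GL (Fin d ⊕ Fin d) F := ⟨Hm, Hm, hh1, hh1⟩
  let Ui : Cfsg.isometryGroup F (Cfsg.quadFormPlus d F) :=
    ⟨U, Omega.mem_isometryGroup_iff_forall.2 fun v => uA_mem B (fun y => sy_alt i k y) v⟩
  let Hi : Cfsg.isometryGroup F (Cfsg.quadFormPlus d F) :=
    ⟨H, Omega.mem_isometryGroup_iff_forall.2 fun v => quad_fromBlocks M 0 Mᵀ (by
      rw [← Matrix.transpose_mul, hMM, Matrix.transpose_one]) (fun y => by simp) v⟩
  refine ⟨U * H * U⁻¹ * H⁻¹, ⟨⁅Ui, Hi⁆,
    Subgroup.commutator_mem_commutator (Subgroup.mem_top Ui) (Subgroup.mem_top Hi), rfl⟩, ?_⟩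
  show uA B * Hm * uA B * Hm = _
  have h2 : Hm * uA B * Hm = uA (M * B * Mᵀ) := by
    simp [hHm, uA, Matrix.fromBlocks_multiply, hMM, hMTT]
  rw [Matrix.mul_assoc (uA B) Hm, Matrix.mul_assoc (uA B), h2, uA_mul, hMT, hM, hB,
    sy_conj hij hki.symm, ← add_assoc, show sy i k + sy i k = (0 : Matrix (Fin d) (Fin d) F) from hBB, zero_add]

/-- For even `d` an involution of Ω fixing no non-singular vector. -/
theorem exists_bad_involution [CharP F 2] {d : ℕ} (hd : 3 ≤ d) (he : Even d) :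
    ∃ x : GL (Fin d ⊕ Fin d) F, x ∈ Cfsg.Geo.omegaGL (Cfsg.quadFormPlus d F) ∧ x ^ 2 = 1 ∧
      ∀ v, (x : Matrix (Fin d ⊕ Fin d) (Fin d ⊕ Fin d) F) *ᵥ v = v → Cfsg.quadFormPlus d F v = 0 := by
  classical
  obtain ⟨m, ⟨e⟩⟩ := Omega.exists_pairs (Fin d) (by simpa using he)
  have key : ∀ s : Finset (Fin m), ∃ g : GL (Fin d ⊕ Fin d) F,
      g ∈ Cfsg.Geo.omegaGL (Cfsg.quadFormPlus d F) ∧
      (g : Matrix (Fin d ⊕ Fin d) (Fin d ⊕ Fin d) F) = uA (∑ k ∈ s, sy (e (k, 0)) (e (k, 1))) := by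
    intro s
    induction s using Finset.induction_on with
    | empty => exact ⟨1, one_mem _, by simp [uA, Matrix.fromBlocks_one]⟩
    | insert a s ha ih =>
      obtain ⟨g, hg, hgv⟩ := ih
      obtain ⟨g₁, hg₁, hg₁v⟩ := sy_mem_omega (F := F) hd (show e (a, 0) ≠ e (a, 1) from fun h => by
        simpa using e.injective h)
      refine ⟨g₁ * g, mul_mem hg₁ hg, ?_⟩
      rw [Units.val_mul, hg₁v, hgv, uA_mul, Finset.sum_insert ha]
  obtain ⟨x, hx, hxv⟩ := key Finset.univ
  set A : Matrix (Fin d) (Fin d) F := ∑ k, sy (e (k, 0)) (e (k, 1)) with hA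
  refine ⟨x, hx, Units.ext ?_, fun v hv => ?_⟩
  · rw [pow_two, Units.val_mul, hxv, uA_mul, Units.val_one,
      show A + A = 0 by ext a b; simp [CharTwo.add_self_eq_zero]]
    simp [uA, Matrix.fromBlocks_one]
  · rw [hxv, uA, Matrix.fromBlocks_mulVec] at hv
    have hAy : A *ᵥ (v ∘ Sum.inr) = 0 := funext fun i => by
      have := congrFun hv (.inl i)
      simpa using this
    have hsum : ∀ c : Fin d, (A *ᵥ (v ∘ Sum.inr)) c =
        ∑ k, ((if c = e (k, 0) then v (.inr (e (k, 1))) else 0) + (if c = e (k, 1) then v (.inr (e (k, 0))) else 0)) := by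
      intro c
      simp [hA, sy, Matrix.sum_mulVec, Matrix.add_mulVec, Matrix.single_mulVec, Function.update_apply, Finset.sum_apply]
    have hy : ∀ p, v (.inr (e p)) = 0 := by
      rintro ⟨k, s⟩
      fin_cases s
      · show v (.inr (e (k, 0))) = 0
        have h := hsum (e (k, 1))
        rw [hAy, Pi.zero_apply, Finset.sum_eq_single k (fun k' _ hk' => by
          simp [e.injective.eq_iff, hk'.symm]) (by simp)] at h
        simpa [e.injective.eq_iff] using h.symm
      · show v (.inr (e (k, 1))) = 0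
        have h := hsum (e (k, 0))
        rw [hAy, Pi.zero_apply, Finset.sum_eq_single k (fun k' _ hk' => by
          simp [e.injective.eq_iff, hk'.symm]) (by simp)] at h
        simpa [e.injective.eq_iff] using h.symm
    refine Finset.sum_eq_zero fun i _ => ?_
    rw [show v (.inr i) = 0 by rw [← e.apply_symm_apply i]; exact hy _, mul_zero]

/-- Elements of prime order of Ω⁺_n(q), q even, with no fixed nonsingular 1-space. Here `T = PΩ⁺_n(F)`, `n = 2d ≥ 8`, realised through `Ω⁺_n(q)`, the commutator subgroup of the isometry group of `Q = Σ xᵢyᵢ` over the field `F` with `q` elements; an element of `T` of prime order `r` is an element `x` of `Ω⁺_n(q)` with `x^r` scalar and `x` not scalar; `q` is even (so the centre is trivial). Let Ω be the set of 1-dimensional subspaces spanned by a vector `v` with `Q(v) ≠ 0`, and let `r` be a prime dividing their number. Then every element of `T` of order `r` fixes some nonsingular 1-space if and only if `r =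 2` and `n ≡ 2 (mod 4)` (that is, `d` is odd). -/
theorem result {F : Type*} [Field F] [Fintype F] {p : ℕ} [Fact p.Prime] [CharP F p] {q : ℕ} (hq : Fintype.card F = q)
    (hp : p = 2) (d : ℕ) (hd : 4 ≤ d) (r : ℕ) [Fact r.Prime]
    (hrΩ : r ∣ Nat.card {W : Submodule F (Fin d ⊕ Fin d → F) // Module.finrank F ↥W = 1 ∧ ∃ v ∈ W, Cfsg.quadFormPlus d F v ≠ 0}) :
    (∀ x : GL (Fin d ⊕ Fin d) F, x ∈ Cfsg.Geo.omegaGL (Cfsg.quadFormPlus d F) →
      (∃ z : F, ((x ^ r : GL (Fin d ⊕ Fin d) F) : Matrix (Fin d ⊕ Fin d) (Fin d ⊕ Fin d) F) = z • (1 : Matrix (Fin d ⊕ Fin d) (Fin d ⊕ Fin d) F)) →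
      (∀ z : F, (x : Matrix (Fin d ⊕ Fin d) (Fin d ⊕ Fin d) F) ≠ z • (1 : Matrix (Fin d ⊕ Fin d) (Fin d ⊕ Fin d) F)) →
      ∃ W : Submodule F (Fin d ⊕ Fin d → F), (Module.finrank F ↥W = 1 ∧ ∃ v ∈ W, Cfsg.quadFormPlus d F v ≠ 0) ∧ W.map (Matrix.toLin' (x : Matrix (Fin d ⊕ Fin d) (Fin d ⊕ Fin d) F)) ≤ W) ↔ (r = 2 ∧ Odd d) := by
  classical
  subst hp
  subst hq
  haveI : NeZero d := ⟨by omega⟩
  have hQ := ClassicalForms.qPlus_apply (F := F) d
  let i₀ : Fin d := ⟨0, by omega⟩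
  let v₀ : Fin d ⊕ Fin d → F := Pi.single (.inl i₀) 1 + Pi.single (.inr i₀) 1
  have hv₀ : Cfsg.quadFormPlus d F v₀ ≠ 0 := by
    simp [v₀, Cfsg.quadFormPlus, Pi.single_apply]
  constructor
  · intro hall
    have kill : ∀ x : GL (Fin d ⊕ Fin d) F, x ∈ Cfsg.Geo.omegaGL (Cfsg.quadFormPlus d F) → x ^ r = 1 →
        (∀ v, (x : Matrix (Fin d ⊕ Fin d) (Fin d ⊕ Fin d) F) *ᵥ v = v → Cfsg.quadFormPlus d F v = 0) → False := by
      intro x hx hxr hfree
      have hiso := Omega.mem_isometry_of_mem_omegaGL hx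
      obtain ⟨W, hW⟩ := hall x hx ⟨1, by rw [hxr, Units.val_one, one_smul]⟩ (fun z hz => by
        have := Omega.scalar_eq_one hQ hv₀ hiso hz
        exact hv₀ (hfree v₀ (by rw [hz, this, one_smul, Matrix.one_mulVec])))
      obtain ⟨v, hv, hfv⟩ := (Omega.exists_fixed_point_iff hQ x hiso).1 ⟨W, hW⟩
      exact hfv (hfree v hv)
    by_cases hr2 : r = 2
    · refine ⟨hr2, ?_⟩
      by_contra hodd
      rw [Nat.not_odd_iff_even] at hodd
      obtain ⟨x, hx, hx2, hfree⟩ := exists_bad_involution (F := F) (by omega : 3 ≤ d) hodd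
      exact kill x hx (hr2 ▸ hx2) hfree
    · exfalso
      have hr : r.Prime := Fact.out
      have hodd : Odd r := hr.odd_of_ne_two hr2
      -- the number of points
      set q := Fintype.card F with hq
      have hc := Omega.card_points_mul hQ
      have hsplit : Nat.card {v : Fin d ⊕ Fin d → F // Cfsg.quadFormPlus d F v ≠ 0} +
          Nat.card {v : Fin d ⊕ Fin d → F // ClassicalForms.qPlus d F v = 0} = q ^ (2 * d) := by
        rw [Nat.card_eq_fintype_card, Nat.card_eq_fintype_card, Fintype.card_congr (Equiv.subtypeEquivRight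
          (fun v => by rw [hQ]) : {v // ClassicalForms.qPlus d F v = 0} ≃ {v // Cfsg.quadFormPlus d F v = 0}),
          Fintype.card_subtype_compl, Nat.sub_add_cancel (Fintype.card_subtype_le _), Fintype.card_fun,
          Fintype.card_sum, Fintype.card_fin, two_mul]
      have hZ := ClassicalForms.card_zeros_qPlus (F := F) d
      rw [Nat.card_eq_fintype_card (α := F), ← hq] at hZ
      have h1 : (Nat.card {W : Submodule F (Fin d ⊕ Fin d → F) // Module.finrank F ↥W = 1 ∧
          ∃ v ∈ W, Cfsg.quadFormPlus d F v ≠ 0} : ℤ) * q = (q : ℤ) ^ d * ((q : ℤ) ^ d - 1) := by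
        have hq1 : 1 < q := Fintype.one_lt_card
        apply mul_right_cancel₀ (show (q : ℤ) - 1 ≠ 0 by omega)
        have hc' := congrArg (fun t : ℕ => (t : ℤ)) hc
        have hs' := congrArg (fun t : ℕ => (t : ℤ)) hsplit
        push_cast [← hq, Nat.cast_sub hq1.le] at hc' hs'
        linear_combination (q : ℤ) * hc' + (q : ℤ) * hs' - hZ
      obtain ⟨c, hc'⟩ := hrΩ
      have hdvd : (r : ℤ) ∣ (q : ℤ) ^ d * ((q : ℤ) ^ d - 1) := ⟨c * q, by rw [← h1, hc']; push_cast; ring⟩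
      have hrd : r ∣ q ^ d - 1 := by
        rcases (Nat.prime_iff_prime_int.1 hr).dvd_mul.1 hdvd with h | h
        · exfalso
          obtain ⟨a, -, ha⟩ := FiniteField.card F 2
          have : r ∣ q := Int.natCast_dvd_natCast.1 ((Nat.prime_iff_prime_int.1 hr).dvd_of_dvd_pow h)
          rw [hq, ha] at this
          exact hr2 ((Nat.prime_dvd_prime_iff_eq hr Nat.prime_two).1 (hr.dvd_of_dvd_pow this))
        · rw [← Int.natCast_dvd_natCast, Nat.cast_sub (Nat.one_le_pow _ _ Fintype.card_pos)]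
          push_cast
          exact h
      obtain ⟨x, hx, hxr, hfree⟩ := Omega.exists_free_plus (F := F) 2 d hodd hrd
      exact kill x hx hxr fun v hv => by rw [hfree v hv, ← hQ, QuadraticMap.map_zero]
  · rintro ⟨rfl, hodd⟩ x hx ⟨z, hz⟩ -
    have hiso := Omega.mem_isometry_of_mem_omegaGL hx
    rw [Omega.exists_fixed_point_iff hQ x hiso]
    have hz1 : z = 1 := Omega.scalar_eq_one hQ hv₀ (fun v => by
      rw [pow_two, Units.val_mul, ← Matrix.mulVec_mulVec, hiso, hiso]) hz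
    by_contra h
    push Not at h
    have hXX : (x : Matrix (Fin d ⊕ Fin d) (Fin d ⊕ Fin d) F) * x = 1 := by
      rw [← Units.val_mul, ← pow_two, hz, hz1, one_smul]
    obtain ⟨he, -⟩ := Omega.even_and_exists_singular_of_no_fixed (ClassicalForms.qPlus d F)
      (ClassicalForms.nondeg_qPlus d) (d := d) (by simp; omega) _ (fun v => by rw [hQ, hQ, hiso]) hXX
      (fun v hv => by rw [hQ]; exact h v hv)
    exact Nat.not_odd_iff_even.2 he hodd

end Cfsg.Agent.S5985
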