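import Cfsg.Statements.S5986
import Cfsg.Agent.Lib.Omega.FreeInverted

set_option autoImplicit false
open scoped MatrixGroups Matrix
open Cfsg

namespace Cfsg.Agent.S5986

open CfsgLib

/-- Elements of prime order of Ω⁻_n(q), q even, with no fixed nonsingular 1-space. Here `T = PΩ⁻_n(F)`, `n = 2d ≥ 8`, realised through `Ω⁻_n(q)`, the commutator subgroup of the isometry group of `Q = Σ_{i<d−1} xᵢyᵢ + z₁² + a z₁z₂ + b z₂²` with `z₁² + a z₁z₂ + b z₂²` anisotropic, over the field `F` with `q` elements; an element of `T` of prime order `r` is an element `x` of `Ω⁻_n(q)` with `x^r` scalar and `x` not scalar; `q` is even (so the centre is trivial). Let Ω be the set of 1-dimensional subspaces spanned by a vector `v` with `Q(v) ≠ 0`, and let `r` be a prime dividing their number. Then every element of `T` of order `r` fixes some nonsingular 1-space if and only if `r = 2`. -/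
theorem result {F : Type*} [Field F] [Fintype F] {p : ℕ} [Fact p.Prime] [CharP F p] {q : ℕ} (hq : Fintype.card F = q)
    (hp : p = 2) (d : ℕ) (hd : 4 ≤ d) (a b : F) (hab : ∀ x y : F, x ^ 2 + a * x * y + b * y ^ 2 = 0 → x = 0 ∧ y = 0) (r : ℕ) [Fact r.Prime]
    (hrΩ : r ∣ Nat.card {W : Submodule F ((Fin (d - 1) ⊕ Fin (d - 1)) ⊕ Fin 2 → F) // Module.finrank F ↥W = 1 ∧ ∃ v ∈ W, Cfsg.quadFormMinus (d - 1) F a b v ≠ 0}) :
    (∀ x : GL ((Fin (d - 1) ⊕ Fin (d - 1)) ⊕ Fin 2) F, x ∈ Cfsg.Geo.omegaGL (Cfsg.quadFormMinus (d - 1) F a b) →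
      (∃ z : F, ((x ^ r : GL ((Fin (d - 1) ⊕ Fin (d - 1)) ⊕ Fin 2) F) : Matrix ((Fin (d - 1) ⊕ Fin (d - 1)) ⊕ Fin 2) ((Fin (d - 1) ⊕ Fin (d - 1)) ⊕ Fin 2) F) = z • (1 : Matrix ((Fin (d - 1) ⊕ Fin (d - 1)) ⊕ Fin 2) ((Fin (d - 1) ⊕ Fin (d - 1)) ⊕ Fin 2) F)) →
      (∀ z : F, (x : Matrix ((Fin (d - 1) ⊕ Fin (d - 1)) ⊕ Fin 2) ((Fin (d - 1) ⊕ Fin (d - 1)) ⊕ Fin 2) F) ≠ z • (1 : Matrix ((Fin (d - 1) ⊕ Fin (d - 1)) ⊕ Fin 2) ((Fin (d - 1) ⊕ Fin (d - 1)) ⊕ Fin 2) F)) →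
      ∃ W : Submodule F ((Fin (d - 1) ⊕ Fin (d - 1)) ⊕ Fin 2 → F), (Module.finrank F ↥W = 1 ∧ ∃ v ∈ W, Cfsg.quadFormMinus (d - 1) F a b v ≠ 0) ∧ W.map (Matrix.toLin' (x : Matrix ((Fin (d - 1) ⊕ Fin (d - 1)) ⊕ Fin 2) ((Fin (d - 1) ⊕ Fin (d - 1)) ⊕ Fin 2) F)) ≤ W) ↔ r = 2 := by
  classical
  subst hp
  subst hq
  haveI : NeZero d := ⟨by omega⟩
  have hQ := ClassicalForms.qMinus_apply (F := F) (d - 1) a b
  let v₀ : (Fin (d - 1) ⊕ Fin (d - 1)) ⊕ Fin 2 → F := Pi.single (.inr 0) 1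
  have hv₀ : Cfsg.quadFormMinus (d - 1) F a b v₀ ≠ 0 := by
    simp [v₀, Cfsg.quadFormMinus]
  constructor
  · intro hall
    by_contra hr2
    have hr : r.Prime := Fact.out
    have hodd : Odd r := hr.odd_of_ne_two hr2
    set q := Fintype.card F with hq
    have hc := Omega.card_points_mul hQ
    have hsplit : Nat.card {v : (Fin (d - 1) ⊕ Fin (d - 1)) ⊕ Fin 2 → F // Cfsg.quadFormMinus (d - 1) F a b v ≠ 0} +
        Nat.card {v : (Fin (d - 1) ⊕ Fin (d - 1)) ⊕ Fin 2 → F // ClassicalForms.qMinus (d - 1) F a b v = 0} =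
          q ^ (2 * (d - 1) + 2) := by
      rw [Nat.card_eq_fintype_card, Nat.card_eq_fintype_card, Fintype.card_congr (Equiv.subtypeEquivRight
        (fun v => by rw [hQ]) : {v // ClassicalForms.qMinus (d - 1) F a b v = 0} ≃
          {v // Cfsg.quadFormMinus (d - 1) F a b v = 0}),
        Fintype.card_subtype_compl, Nat.sub_add_cancel (Fintype.card_subtype_le _), Fintype.card_fun,
        Fintype.card_sum, Fintype.card_sum, Fintype.card_fin, Fintype.card_fin, ← two_mul]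
    have hZ := ClassicalForms.card_zeros_qMinus (F := F) (a := a) (b := b) hab (d - 1)
    rw [Nat.card_eq_fintype_card (α := F), ← hq] at hZ
    have h1 : (Nat.card {W : Submodule F ((Fin (d - 1) ⊕ Fin (d - 1)) ⊕ Fin 2 → F) // Module.finrank F ↥W = 1 ∧
        ∃ v ∈ W, Cfsg.quadFormMinus (d - 1) F a b v ≠ 0} : ℤ) * q =
          (q : ℤ) ^ (d - 1 + 1) * ((q : ℤ) ^ (d - 1 + 1) + 1) := by
      have hq1 : 1 < q := Fintype.one_lt_card
      apply mul_right_cancel₀ (show (q : ℤ) - 1 ≠ 0 by omega)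
      have hc' := congrArg (fun t : ℕ => (t : ℤ)) hc
      have hs' := congrArg (fun t : ℕ => (t : ℤ)) hsplit
      push_cast [← hq, Nat.cast_sub hq1.le] at hc' hs'
      linear_combination (q : ℤ) * hc' + (q : ℤ) * hs' - hZ
    rw [show d - 1 + 1 = d by omega] at h1
    obtain ⟨c, hc'⟩ := hrΩ
    have hdvd : (r : ℤ) ∣ (q : ℤ) ^ d * ((q : ℤ) ^ d + 1) := ⟨c * q, by rw [← h1, hc']; push_cast; ring⟩
    have hrd : r ∣ q ^ d + 1 := by
      rcases (Nat.prime_iff_prime_int.1 hr).dvd_mul.1 hdvd with h | h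
      · exfalso
        obtain ⟨e, -, he⟩ := FiniteField.card F 2
        have : r ∣ q := Int.natCast_dvd_natCast.1 ((Nat.prime_iff_prime_int.1 hr).dvd_of_dvd_pow h)
        rw [hq, he] at this
        exact hr2 ((Nat.prime_dvd_prime_iff_eq hr Nat.prime_two).1 (hr.dvd_of_dvd_pow this))
      · rw [← Int.natCast_dvd_natCast]
        push_cast
        exact h
    obtain ⟨x, hx, hxr, hfree⟩ := Omega.exists_free_minus (F := F) d hab hodd hrd
    have hiso := Omega.mem_isometry_of_mem_omegaGL hx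
    obtain ⟨W, hW⟩ := hall x hx ⟨1, by rw [hxr, Units.val_one, one_smul]⟩ (fun z hz => by
      have := Omega.scalar_eq_one hQ hv₀ hiso hz
      exact hv₀ (by rw [hfree v₀ (by rw [hz, this, one_smul, Matrix.one_mulVec]), ← hQ, QuadraticMap.map_zero]))
    obtain ⟨v, hv, hfv⟩ := (Omega.exists_fixed_point_iff hQ x hiso).1 ⟨W, hW⟩
    exact hfv (by rw [hfree v hv, ← hQ, QuadraticMap.map_zero])
  · rintro rfl x hx ⟨z, hz⟩ -
    have hiso := Omega.mem_isometry_of_mem_omegaGL hx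
    rw [Omega.exists_fixed_point_iff hQ x hiso]
    have hz1 : z = 1 := Omega.scalar_eq_one hQ hv₀ (fun v => by
      rw [pow_two, Units.val_mul, ← Matrix.mulVec_mulVec, hiso, hiso]) hz
    by_contra h
    push Not at h
    have hXX : (x : Matrix ((Fin (d - 1) ⊕ Fin (d - 1)) ⊕ Fin 2) ((Fin (d - 1) ⊕ Fin (d - 1)) ⊕ Fin 2) F) * x = 1 := by
      rw [← Units.val_mul, ← pow_two, hz, hz1, one_smul]
    obtain ⟨-, K, hK, hKs⟩ := Omega.even_and_exists_singular_of_no_fixed (ClassicalForms.qMinus (d - 1) F a b)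
      (ClassicalForms.nondeg_qMinus hab (d - 1)) (d := d) (by simp; omega) _ (fun v => by rw [hQ, hQ, hiso]) hXX
      (fun v hv => by rw [hQ]; exact h v hv)
    have := Omega.finrank_singular_qMinus_le hab (d - 1) K hKs
    omega

end Cfsg.Agent.S5986
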