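import Cfsg.Statements.S5987
import Cfsg.Agent.Lib.Derangements.SingularEvenTwo
import Cfsg.Agent.Lib.Derangements.SubspaceEllipticMain

set_option autoImplicit false
open scoped MatrixGroups
open Cfsg CfsgLib.Derangements

namespace Cfsg.Agent.S5987

/-- Elements of prime order of PΩ⁻_n(q) with no fixed totally singular `m`-space. Here `T = PΩ⁻_n(F)`, `n = 2d ≥ 8`, realised through `Ω⁻_n(q)`, the commutator subgroup of the isometry group of `Q = Σ_{i<d−1} xᵢyᵢ + z₁² + a z₁z₂ + b z₂²` with `z₁² + a z₁z₂ + b z₂²` anisotropic, over the field `F` with `q` elements; an element of `T` of prime order `r` is an element `x` of `Ω⁻_n(q)` with `x^r` scalar and `x` not scalar. Let `1 ≤ m ≤ d − 1` and let `r` be a prime dividing the number of totally singular `m`-spaces (subspaces of dimension `m` on which `Q` vanishes); for `r ≠ p` let `i` be the multiplicative order of `q` modulo `r`, `c = i` for `i` even and `c = 2i` for `i` odd, and write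 `k = n mod c`, `ℓ = m mod i`, `n' = ⌊n/i⌋`, `m' = ⌊m/i⌋`, `t = (r−1)/i`. Then every element of `T` of order `r` fixes some totally singular `m`-space if and only if one of: (i) `r = 2 ≠ p` and (`n ≡ 0 (mod 4)`, or `m` is even, or `q ≢ 7 (mod 8)`); (ii) `r ≠ p` odd, `i` odd, `i ≤ m` and (`k = 0` or `k > 2ℓ`); (iii) `r ≠ p` odd, `i` even, `i ≤ m`, `n' − 2m' ≥ t`, and one of: (a) `i ≥ 2ℓ`, `k = 0`, `n/i` even and `n' − 2m' > t` (all four); (b) `k ≥ 2ℓ` and `n'` odd; (c) `k > 2ℓ` and `n'` even. -/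
theorem result {F : Type*} [Field F] [Fintype F] {p : ℕ} [Fact p.Prime] [CharP F p] {q : ℕ} (hq : Fintype.card F = q)
    (d m : ℕ) (hd : 4 ≤ d) (hm : 1 ≤ m) (hmd : m + 1 ≤ d) (a b : F) (hab : ∀ x y : F, x ^ 2 + a * x * y + b * y ^ 2 = 0 → x = 0 ∧ y = 0)
    (r : ℕ) [Fact r.Prime]
    (hrΩ : r ∣ Nat.card {W : Submodule F ((Fin (d - 1) ⊕ Fin (d - 1)) ⊕ Fin 2 → F) // Module.finrank F ↥W = m ∧ Cfsg.Geo.IsTotallySingularQuad (Cfsg.quadFormMinus (d - 1) F a b) W})
    (i c : ℕ) (hi : i = orderOf (q : ZMod r)) (hc : c = if Even i then i else 2 * i) :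
    (∀ x : GL ((Fin (d - 1) ⊕ Fin (d - 1)) ⊕ Fin 2) F, x ∈ Cfsg.Geo.omegaGL (Cfsg.quadFormMinus (d - 1) F a b) →
      (∃ z : F, ((x ^ r : GL ((Fin (d - 1) ⊕ Fin (d - 1)) ⊕ Fin 2) F) : Matrix ((Fin (d - 1) ⊕ Fin (d - 1)) ⊕ Fin 2) ((Fin (d - 1) ⊕ Fin (d - 1)) ⊕ Fin 2) F) = z • (1 : Matrix ((Fin (d - 1) ⊕ Fin (d - 1)) ⊕ Fin 2) ((Fin (d - 1) ⊕ Fin (d - 1)) ⊕ Fin 2) F)) →
      (∀ z : F, (x : Matrix ((Fin (d - 1) ⊕ Fin (d - 1)) ⊕ Fin 2) ((Fin (d - 1) ⊕ Fin (d - 1)) ⊕ Fin 2) F) ≠ z • (1 : Matrix ((Fin (d - 1) ⊕ Fin (d - 1)) ⊕ Fin 2) ((Fin (d - 1) ⊕ Fin (d - 1)) ⊕ Fin 2) F)) →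
      ∃ W : Submodule F ((Fin (d - 1) ⊕ Fin (d - 1)) ⊕ Fin 2 → F), (Module.finrank F ↥W = m ∧ Cfsg.Geo.IsTotallySingularQuad (Cfsg.quadFormMinus (d - 1) F a b) W) ∧ W.map (Matrix.toLin' (x : Matrix ((Fin (d - 1) ⊕ Fin (d - 1)) ⊕ Fin 2) ((Fin (d - 1) ⊕ Fin (d - 1)) ⊕ Fin 2) F)) ≤ W) ↔
    ((r = 2 ∧ p ≠ 2 ∧ (Even d ∨ Even m ∨ q % 8 ≠ 7)) ∨
     (r ≠ p ∧ 2 < r ∧ Odd i ∧ i ≤ m ∧ ((2 * d) % c = 0 ∨ 2 * (m % i) < (2 * d) % c)) ∨
     (r ≠ p ∧ 2 < r ∧ Even i ∧ i ≤ m ∧ (r - 1) / i + 2 * (m / i) ≤ (2 * d) / i ∧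
       ((2 * (m % i) ≤ i ∧ (2 * d) % c = 0 ∧ Even ((2 * d) / i) ∧ (r - 1) / i + 2 * (m / i) < (2 * d) / i) ∨
        (2 * (m % i) ≤ (2 * d) % c ∧ Odd ((2 * d) / i)) ∨
        (2 * (m % i) < (2 * d) % c ∧ Even ((2 * d) / i))))) := by
  classical
  set Q := CfsgLib.ClassicalForms.qMinus (d - 1) F a b with hQdef
  have hfun : ⇑Q = Cfsg.quadFormMinus (d - 1) F a b := funext fun v => CfsgLib.ClassicalForms.qMinus_apply (d - 1) a b v
  have hQ : (QuadraticMap.polarBilin Q).Nondegenerate :=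
    CfsgLib.ClassicalForms.nondeg_iff_polarBilin.2 (CfsgLib.ClassicalForms.nondeg_qMinus hab (d - 1))
  have hn : Module.finrank F ((Fin (d - 1) ⊕ Fin (d - 1)) ⊕ Fin 2 → F) = 2 * d := by
    rw [Module.finrank_fintype_fun_eq_card]; simp; omega
  have hT : Sub.HasType Q ⊤ d (-1) := Sub.hasType_top_iff.2 ⟨hn, by
      have := OrthType.hasDisc_qMinus (a := a) (b := b) hab (d - 1)
      rw [Nat.sub_add_cancel (by omega : 1 ≤ d)] at this
      rwa [neg_one_mul]⟩
  have hrpr : r.Prime := Fact.out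
  have hspec : ∀ W : Submodule F ((Fin (d - 1) ⊕ Fin (d - 1)) ⊕ Fin 2 → F),
      (Module.finrank F ↥W = m ∧ Cfsg.Geo.IsTotallySingularQuad (Cfsg.quadFormMinus (d - 1) F a b) W) ↔
      (Module.finrank F ↥W = m ∧ Sub.Ts Q W) := fun W => by
    rw [Sub.Ts, hfun]; exact Iff.rfl
  rw [Nat.card_congr (Equiv.subtypeEquivRight hspec)] at hrΩ
  rw [Sub.allFixP_iff hfun hspec]
  by_cases hrp : r = p
  · exfalso
    obtain ⟨W, -, hW1, hW2⟩ := Sub.exists_singular_type_minus (Sub.nd_top hQ) (Or.inr rfl) hT (k := m) (Or.inl (by omega))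
    have h1 := Sub.card_singular_modEq_one p m Q hQ (by rw [hn]; omega) ⟨W, hW1, hW2⟩
    have h3 := Nat.modEq_zero_iff_dvd.2 (hrp ▸ hrΩ)
    have h4 := h3.symm.trans h1
    rw [Nat.modEq_iff_dvd' (Nat.zero_le 1), Nat.sub_zero, Nat.dvd_one] at h4
    exact (Fact.out : p.Prime).ne_one h4
  by_cases hr2 : r = 2
  · subst hr2
    have hp2 : p ≠ 2 := Ne.symm hrp
    have h2 : (2 : F) ≠ 0 := fun h => hp2 (Nat.prime_dvd_prime_iff_eq Fact.out Nat.prime_two |>.1
      ((CharP.cast_eq_zero_iff F p 2).1 (by exact_mod_cast h)))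
    have hodd : Odd q := by
      obtain ⟨f, -, hf⟩ := FiniteField.card F p
      rw [← hq, hf]
      exact ((Fact.out : p.Prime).odd_of_ne_two hp2).pow
    rw [Sub.singular_minus_two h2 hQ hT hmd]
    obtain ⟨s1, s2, s3⟩ := Sub.sq_symbols (F := F) (hq ▸ hodd)
    rw [hq] at s1 s2 s3
    have hq2 := Nat.odd_iff.1 hodd
    have hsimp : ¬ ((2:ℕ) < 2) := by omega
    simp only [hsimp, hp2, false_and, and_false, or_false, true_and, ne_eq, not_false_eq_true]
    rcases Sub.sqNegOne_cases (F := F) with e1 | e1 <;> rcases Int.units_eq_one_or (Sub.sqTwo F) with e2 | e2 <;>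
      rcases Nat.even_or_odd d with hde | hdo
    all_goals first
      | (simp [e1, e2, hde, hde.neg_one_pow]; done)
      | (simp only [e1, e2, one_pow, hdo.neg_one_pow, Nat.not_even_iff_odd.2 hdo, Nat.even_iff, false_or,
          true_and] at s1 s2 s3 ⊢
         norm_num at s1 s2 s3 ⊢
         omega)
      | (rw [Nat.odd_iff] at hdo
         simp only [Nat.even_iff, hdo] at *
         norm_num [e1, e2] at s1 s2 s3 ⊢
         omega)
  obtain ⟨h, η, P, hch, heven, hodd', hipos, hidvd⟩ := Sub.params_exist (F := F) hrpr hr2 hrp hq hi hc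
  have h2r : 2 < r := lt_of_le_of_ne hrpr.two_le (Ne.symm hr2)
  have hord : orderOf ((Fintype.card F : ℕ) : ZMod r) = i := by rw [hq]; exact hi.symm
  rw [Sub.allFixP_odd (hrpr.odd_of_ne_two hr2) hQ (by simp; omega)]
  obtain ⟨-, hnc⟩ := Sub.mod_two_mul d P.pos
  rw [hch, hnc]
  simp only [hr2, hrp, h2r, false_and, not_false_eq_true, ne_eq, true_and, false_or]
  have hdh := Nat.div_add_mod d h
  have hdm := Nat.mod_lt d P.pos
  have hnot : ∀ S, h * S + Sub.minFix d h η (-1) = d → S = (d - Sub.minFix d h η (-1)) / h := fun S hS => by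
    rw [show d - Sub.minFix d h η (-1) = h * S by omega, Nat.mul_div_cancel_left S P.pos]
  rcases Nat.even_or_odd i with he | ho
  · have hi' : i = 2 * h := by rw [← hch, hc, if_pos he]
    have hno : ¬ Odd i := Nat.not_odd_iff_even.2 he
    have hη := heven he
    subst hη
    have ht : 1 ≤ (r - 1) / i := (Nat.one_le_div_iff hipos).2 (Nat.le_of_dvd (by omega) hidvd)
    rw [Sub.Steps.even_main P (i := i) (J := fun s => (s + 1 - (r - 1) / i) / 2)
      ⟨Or.inr ⟨hi', fun s => rfl⟩, hord⟩ hQ (Or.inr rfl) hT m]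
    have hpow : ∀ S : ℕ, ((-1 : ℤ) = (-1) ^ S) ↔ S % 2 = 1 := fun S => by
      rcases Nat.even_or_odd S with e | e
      · rw [e.neg_one_pow]; have := Nat.even_iff.1 e; norm_num; omega
      · rw [e.neg_one_pow]; simp [Nat.odd_iff.1 e]
    have hex : ¬ (m < i ∧ ((d % h = 0 ∧ Even (d / h) ∧ m ≤ h) ∨
        (¬ (d % h = 0 ∧ Even (d / h)) ∧ (m < d % h ∨ (m = d % h ∧ Odd (d / h)))))) := by
      rintro ⟨hmi, hc'⟩
      refine Sub.not_dvd_card_singular_even_minus P hQ (by omega) (Or.inr rfl) hT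
        (by rw [Nat.card_eq_fintype_card, hord]; exact hmi) (fun S hS => ?_) hrΩ
      rcases hc' with ⟨hb, hD, hmh⟩ | ⟨hne, hm'⟩
      · have hE : Sub.minFix d h (-1) (-1) = h := by
          unfold Sub.minFix; rw [if_pos ⟨hb, by rw [hD.neg_one_pow]; norm_num⟩]
        rw [hE] at hS ⊢
        rcases lt_or_eq_of_le hmh with e | e
        · exact Or.inl e
        · refine Or.inr ⟨e, ?_⟩
          have hSD : S + 1 = d / h := by
            refine Nat.eq_of_mul_eq_mul_left P.pos ?_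
            rw [mul_add, mul_one]; omega
          have hSo : Odd S := by rw [Nat.odd_iff]; rw [Nat.even_iff] at hD; omega
          rw [hSo.neg_one_pow]; norm_num
      · have hE : Sub.minFix d h (-1) (-1) = d % h := by
          unfold Sub.minFix
          rw [if_neg]
          rintro ⟨h0, h1⟩
          refine hne ⟨h0, ?_⟩
          rw [ne_eq, hpow] at h1
          rw [Nat.even_iff]; omega
        rw [hE] at hS ⊢
        rcases hm' with e | ⟨e, e'⟩
        · exact Or.inl e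
        · refine Or.inr ⟨e, ?_⟩
          have hSD : S = d / h := Nat.eq_of_mul_eq_mul_left P.pos (by omega)
          rw [hSD, e'.neg_one_pow]; norm_num
    rw [hi'] at hex ht ⊢
    rw [Sub.sing_minus_arith_even P.pos ht (by omega)
      (fun hb hD => by
        by_contra hc'
        exact hex ⟨by have := P.pos; omega, Or.inl ⟨hb, hD, not_lt.1 hc'⟩⟩)
      (fun hne => by
        by_contra hc'
        push Not at hc'
        obtain ⟨h1, h2⟩ := hc'
        refine hex ⟨by omega, Or.inr ⟨hne, ?_⟩⟩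
        rcases lt_or_eq_of_le h1 with e | e
        · exact Or.inl e
        · exact Or.inr ⟨e, Nat.not_even_iff_odd.1 (h2 e)⟩)]
    rw [Nat.mul_div_mul_left _ _ (by norm_num : 0 < 2)]
    simp only [← hi', hno, false_and, false_or, he, true_and]
    rw [hi']
    simp only [Nat.even_iff, Nat.odd_iff]
    omega
  · have hi' : i = h := by
      have h1 := hch
      rw [hc, if_neg (Nat.not_even_iff_odd.2 ho)] at h1
      omega
    have hno : ¬ Even i := Nat.not_even_iff_odd.2 ho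
    have hη := hodd' ho
    subst hη
    rw [Sub.Steps.even_main P (i := i) (J := fun s => s) ⟨Or.inl ⟨hi', ho, fun s => rfl⟩, hord⟩ hQ (Or.inr rfl) hT m]
    simp only [hno, false_and, or_false, ho, true_and]
    rw [hi'] at hord ⊢
    have hex : ∀ E, Sub.minFix d h 1 (-1) = E → E ≤ m ∨ h ≤ m := fun E hE => by
      by_contra hc'
      push Not at hc'
      exact Sub.not_dvd_card_singular_even_minus P hQ (by omega) (Or.inr rfl) hT
        (by rw [Nat.card_eq_fintype_card, hord]; exact hc'.2) (fun S hS => Or.inl (by omega)) hrΩ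
    rw [Sub.sing_minus_arith_odd P.pos (by omega)
      (fun hb => by
        rcases hex h (by unfold Sub.minFix; rw [if_pos ⟨hb, by norm_num⟩]) with e | e <;> exact e)
      (fun hb => by
        rcases hex (d % h) (by unfold Sub.minFix; rw [if_neg fun hc' => hb hc'.1]) with e | e
        · exact e
        · omega)]
    omega

end Cfsg.Agent.S5987
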