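import Cfsg.Statements.S5989
import Cfsg.Agent.Lib.Derangements.SubspaceEvenOddMain

set_option autoImplicit false
open scoped MatrixGroups
open Cfsg CfsgLib.Derangements

namespace Cfsg.Agent.S5989

/-- Elements of prime order of PΩ⁺_n(q), q odd, with no fixed nondegenerate `m`-space of odd dimension. Here `T = PΩ⁺_n(F)`, `n = 2d ≥ 8`, realised through `Ω⁺_n(q)`, the commutator subgroup of the isometry group of `Q = Σ xᵢyᵢ` over the field `F` with `q` elements; an element of `T` of prime order `r` is an element `x` of `Ω⁺_n(q)` with `x^r` scalar and `x` not scalar; `q` and `m` are odd, `1 ≤ m < n/2`. The nondegenerate `m`-spaces (subspaces on which the polar form is nondegenerate) fall into two isometry classes, each an orbit of `T`, and the two actions are equivalent; fix one such space `W₀` and let Ω be the set of nondegenerate `m`-spaces isometric to `W₀` (some linear isomorphism preserves `Q`). Let `r` be a prime dividing the size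 of Ω; for `r ≠ p` let `i` be the multiplicative order of `q` modulo `r`, `c = i` for `i` even and `c = 2i` for `i` odd, and write `k = n mod c`, `ℓ = m mod i`, `ℓ' = m mod c`, `n' = ⌊n/i⌋`, `m' = ⌊m/i⌋`, `t = (r−1)/i`. Then every element of `T` of order `r` fixes a member of Ω if and only if one of: (i) `r = 2`, `n ≡ 2 (mod 4)` and `q ≢ 1 (mod 8)`; (ii) `r ≠ p` odd, `i` odd, `c ≤ m` and `k > ℓ' > 0`; (iii) `r ≠ p` odd, `i` even, and either `k = 0` and `n/i` odd, or `i ≤ m` and `k > ℓ' > 0`. (For `r = p` there is always an element of order `p` fixing no member of Ω.) -/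
theorem result {F : Type*} [Field F] [Fintype F] {p : ℕ} [Fact p.Prime] [CharP F p] {q : ℕ} (hq : Fintype.card F = q)
    (hodd : Odd q) (d m : ℕ) (hd : 4 ≤ d) (hm : Odd m) (hmd : m < d)
    (W₀ : Submodule F (Fin d ⊕ Fin d → F)) (hW₀ : Module.finrank F ↥W₀ = m ∧ Cfsg.Geo.IsNondegenerateOn (QuadraticMap.polar (Cfsg.quadFormPlus d F)) W₀)
    (r : ℕ) [Fact r.Prime]
    (hrΩ : r ∣ Nat.card {W : Submodule F (Fin d ⊕ Fin d → F) // Module.finrank F ↥W = m ∧ Cfsg.Geo.IsNondegenerateOn (QuadraticMap.polar (Cfsg.quadFormPlus d F)) W ∧ Cfsg.Geo.AreIsometricFor (Cfsg.quadFormPlus d F) W W₀})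
    (i c : ℕ) (hi : i = orderOf (q : ZMod r)) (hc : c = if Even i then i else 2 * i) :
    (∀ x : GL (Fin d ⊕ Fin d) F, x ∈ Cfsg.Geo.omegaGL (Cfsg.quadFormPlus d F) →
      (∃ z : F, ((x ^ r : GL (Fin d ⊕ Fin d) F) : Matrix (Fin d ⊕ Fin d) (Fin d ⊕ Fin d) F) = z • (1 : Matrix (Fin d ⊕ Fin d) (Fin d ⊕ Fin d) F)) →
      (∀ z : F, (x : Matrix (Fin d ⊕ Fin d) (Fin d ⊕ Fin d) F) ≠ z • (1 : Matrix (Fin d ⊕ Fin d) (Fin d ⊕ Fin d) F)) →
      ∃ W : Submodule F (Fin d ⊕ Fin d → F), (Module.finrank F ↥W = m ∧ Cfsg.Geo.IsNondegenerateOn (QuadraticMap.polar (Cfsg.quadFormPlus d F)) W ∧ Cfsg.Geo.AreIsometricFor (Cfsg.quadFormPlus d F) W W₀) ∧ W.map (Matrix.toLin' (x : Matrix (Fin d ⊕ Fin d) (Fin d ⊕ Fin d) F)) ≤ W) ↔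
    ((r = 2 ∧ Odd d ∧ q % 8 ≠ 1) ∨
     (r ≠ p ∧ 2 < r ∧ Odd i ∧ c ≤ m ∧ 0 < m % c ∧ m % c < (2 * d) % c) ∨
     (r ≠ p ∧ 2 < r ∧ Even i ∧ (((2 * d) % c = 0 ∧ Odd ((2 * d) / i)) ∨ (i ≤ m ∧ 0 < m % c ∧ m % c < (2 * d) % c)))) := by
  classical
  obtain ⟨l, rfl⟩ : ∃ l, m = 2 * l + 1 := hm
  have h2 : (2 : F) ≠ 0 := Sub.two_ne_zero_of_odd_card (hq ▸ hodd)
  have hp2 : p ≠ 2 := fun h => h2 (by
    subst h; exact CharTwo.two_eq_zero)
  set Q := CfsgLib.ClassicalForms.qPlus d F with hQdef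
  have hfun : ⇑Q = Cfsg.quadFormPlus d F := funext fun v => CfsgLib.ClassicalForms.qPlus_apply d v
  have hQ : (QuadraticMap.polarBilin Q).Nondegenerate :=
    CfsgLib.ClassicalForms.nondeg_iff_polarBilin.2 (CfsgLib.ClassicalForms.nondeg_qPlus d)
  have hT : Sub.HasType Q ⊤ d 1 := Sub.hasType_top_iff.2 ⟨by
    rw [Module.finrank_fintype_fun_eq_card]; simp; omega,
    by rw [one_mul]; exact OrthType.hasDisc_qPlus d⟩
  have hrpr : r.Prime := Fact.out
  obtain ⟨hl, hWN⟩ := hW₀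
  rw [← hfun, ← Sub.nd_iff_isNondegenerateOn] at hWN
  rw [Nat.card_congr (Equiv.subtypeEquivRight (Sub.spec_evenodd_iff hfun hl))] at hrΩ
  rw [Sub.allFix_iff hfun hl]
  by_cases hr2 : r = 2
  · subst hr2
    rw [Sub.evenodd_two h2 hQ hT hWN hl hmd]
    obtain ⟨s1, s2, s3⟩ := Sub.sq_symbols (F := F) (hq ▸ hodd)
    rw [hq] at s1 s2 s3
    have hq2 := Nat.odd_iff.1 hodd
    have hsimp : ¬ ((2:ℕ) < 2) := by omega
    simp only [hsimp, false_and, and_false, or_false, true_and]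
    rcases Sub.sqNegOne_cases (F := F) with e1 | e1 <;> rcases Int.units_eq_one_or (Sub.sqTwo F) with e2 | e2 <;>
      rcases Nat.even_or_odd d with hde | hdo
    all_goals first
      | (simp [e1, e2, hde.neg_one_pow, Nat.not_odd_iff_even.2 hde]; done)
      | (simp only [e1, e2, one_pow, hdo.neg_one_pow, hdo, true_and] at s1 s2 s3 ⊢
         norm_num at s1 s2 s3 ⊢
         omega)
  by_cases hrp : r = p
  · subst hrp
    refine iff_of_false (Sub.evenodd_char hp2 hQ (by simp; omega) hWN hl hmd) ?_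
    rintro (⟨e, -⟩ | ⟨e, -⟩ | ⟨e, -⟩)
    · exact hr2 e
    · exact e rfl
    · exact e rfl
  obtain ⟨h, η, P, hch, heven, hodd', -, -⟩ := Sub.params_exist (F := F) hrpr hr2 hrp hq hi hc
  rw [Sub.evenodd_other P (hrpr.odd_of_ne_two hr2) h2 hQ (Or.inl rfl) hT hWN hl hmd hrΩ]
  have h2r : 2 < r := lt_of_le_of_ne hrpr.two_le (Ne.symm hr2)
  obtain ⟨hmc, -⟩ := Sub.mod_two_mul l P.pos
  obtain ⟨-, hnc⟩ := Sub.mod_two_mul d P.pos
  rw [hch, hmc, hnc]
  simp only [hr2, hrp, h2r, false_and, not_false_eq_true, ne_eq, true_and, false_or]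
  rcases Nat.even_or_odd i with he | ho
  · have hi' : i = 2 * h := by rw [← hch, hc, if_pos he]
    have hno : ¬ Odd i := Nat.not_odd_iff_even.2 he
    rw [heven he]
    simp only [hno, false_and, false_or, he, true_and]
    rw [hi', Nat.mul_div_mul_left _ _ (by norm_num : 0 < 2)]
    rcases Nat.even_or_odd (d / h) with e | e
    · simp only [e.neg_one_pow, e, Nat.not_odd_iff_even.2 e]
      norm_num
      omega
    · simp only [e.neg_one_pow, e, Nat.not_even_iff_odd.2 e]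
      norm_num
      omega
  · have hno : ¬ Even i := Nat.not_even_iff_odd.2 ho
    rw [hodd' ho, one_pow]
    simp only [hno, false_and, or_false, ho, true_and]
    norm_num
    omega

end Cfsg.Agent.S5989
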