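import Cfsg.Statements.S5990
import Cfsg.Agent.Lib.Derangements.SubspaceEllipticMain

set_option autoImplicit false
open scoped MatrixGroups
open Cfsg CfsgLib.Derangements

namespace Cfsg.Agent.S5990

/-- Elements of prime order of PΩ⁻_n(q) with no fixed elliptic `m`-space. Here `T = PΩ⁻_n(F)`, `n = 2d ≥ 8`, realised through `Ω⁻_n(q)`, the commutator subgroup of the isometry group of `Q = Σ_{i<d−1} xᵢyᵢ + z₁² + a z₁z₂ + b z₂²` with `z₁² + a z₁z₂ + b z₂²` anisotropic, over the field `F` with `q` elements; an element of `T` of prime order `r` is an element `x` of `Ω⁻_n(q)` with `x^r` scalar and `x` not scalar; a nondegenerate `m`-space (even `m`) is a subspace on which the polar form of `Q` is nondegenerate; it is hyperbolic if it contains an `m/2`-dimensional subspace on which `Q` vanishes, elliptic otherwise. Let `m` be even with `2 ≤ m ≤ n − 2` (no restriction `m < n/2`: fixing an elliptic `m`-space is the same as fixing its hyperbolic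 orthogonal complement) and let `r` be a prime dividing the number of elliptic `m`-spaces, with `r = 2` or `r ≠ p`; for `r ≠ p` let `i` be the multiplicative order of `q` modulo `r`, `c = i` for `i` even and `c = 2i` for `i` odd, and write `k = n mod c`, `ℓ = m mod i`, `ℓ' = m mod c`, `n' = ⌊n/i⌋`, `m' = ⌊m/i⌋`, `t = (r−1)/i`. Then every element of `T` of order `r` fixes some elliptic `m`-space if and only if one of: (i) `r = p = 2` and (`n ≡ 0 (mod 4)` or `m ≡ 2 (mod 4)`); (ii) `r = 2 ≠ p` and (`n ≡ 0 (mod 4)`, or `q ≢ 7 (mod 8)`, or `m ≡ 2 (mod 4)`); (iii) `r ≠ p` odd, `i` odd, and `k = 0` or (`c ≤ m` and `k ≥ ℓ' > 0`); (iv) `r ≠ p` odd, `i` even, and either `k = 0` and (`n/i` even, or `ℓ' = 0` and `m/i` odd), or `k > 0`, `i ≤ m` and (`k > ℓ' > 0`, or `ℓ' = 0` and `m/i` odd, or `k = ℓ'` and `(n + m − 2k)/i` even). (Odd `r = p` is not covered by this statement.) -/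
theorem result {F : Type*} [Field F] [Fintype F] {p : ℕ} [Fact p.Prime] [CharP F p] {q : ℕ} (hq : Fintype.card F = q)
    (d m : ℕ) (hd : 4 ≤ d) (hm : 2 ≤ m) (hme : Even m) (hmn : m + 2 ≤ 2 * d) (a b : F) (hab : ∀ x y : F, x ^ 2 + a * x * y + b * y ^ 2 = 0 → x = 0 ∧ y = 0)
    (r : ℕ) [Fact r.Prime] (hr : r = 2 ∨ r ≠ p)
    (hrΩ : r ∣ Nat.card {W : Submodule F ((Fin (d - 1) ⊕ Fin (d - 1)) ⊕ Fin 2 → F) // Module.finrank F ↥W = m ∧ Cfsg.Geo.IsNondegenerateOn (QuadraticMap.polar (Cfsg.quadFormMinus (d - 1) F a b)) W ∧ ¬ Cfsg.Geo.IsPlusTypeOn (Cfsg.quadFormMinus (d - 1) F a b) W})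
    (i c : ℕ) (hi : i = orderOf (q : ZMod r)) (hc : c = if Even i then i else 2 * i) :
    (∀ x : GL ((Fin (d - 1) ⊕ Fin (d - 1)) ⊕ Fin 2) F, x ∈ Cfsg.Geo.omegaGL (Cfsg.quadFormMinus (d - 1) F a b) →
      (∃ z : F, ((x ^ r : GL ((Fin (d - 1) ⊕ Fin (d - 1)) ⊕ Fin 2) F) : Matrix ((Fin (d - 1) ⊕ Fin (d - 1)) ⊕ Fin 2) ((Fin (d - 1) ⊕ Fin (d - 1)) ⊕ Fin 2) F) = z • (1 : Matrix ((Fin (d - 1) ⊕ Fin (d - 1)) ⊕ Fin 2) ((Fin (d - 1) ⊕ Fin (d - 1)) ⊕ Fin 2) F)) →
      (∀ z : F, (x : Matrix ((Fin (d - 1) ⊕ Fin (d - 1)) ⊕ Fin 2) ((Fin (d - 1) ⊕ Fin (d - 1)) ⊕ Fin 2) F) ≠ z • (1 : Matrix ((Fin (d - 1) ⊕ Fin (d - 1)) ⊕ Fin 2) ((Fin (d - 1) ⊕ Fin (d - 1)) ⊕ Fin 2) F)) →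
      ∃ W : Submodule F ((Fin (d - 1) ⊕ Fin (d - 1)) ⊕ Fin 2 → F), (Module.finrank F ↥W = m ∧ Cfsg.Geo.IsNondegenerateOn (QuadraticMap.polar (Cfsg.quadFormMinus (d - 1) F a b)) W ∧ ¬ Cfsg.Geo.IsPlusTypeOn (Cfsg.quadFormMinus (d - 1) F a b) W) ∧ W.map (Matrix.toLin' (x : Matrix ((Fin (d - 1) ⊕ Fin (d - 1)) ⊕ Fin 2) ((Fin (d - 1) ⊕ Fin (d - 1)) ⊕ Fin 2) F)) ≤ W) ↔
    ((r = 2 ∧ p = 2 ∧ (Even d ∨ m % 4 = 2)) ∨
     (r = 2 ∧ p ≠ 2 ∧ (Even d ∨ q % 8 ≠ 7 ∨ m % 4 = 2)) ∨
     (r ≠ p ∧ 2 < r ∧ Odd i ∧ ((2 * d) % c = 0 ∨ (c ≤ m ∧ 0 < m % c ∧ m % c ≤ (2 * d) % c))) ∨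
     (r ≠ p ∧ 2 < r ∧ Even i ∧
       (((2 * d) % c = 0 ∧ (Even ((2 * d) / i) ∨ (m % c = 0 ∧ Odd (m / i)))) ∨
        (0 < (2 * d) % c ∧ i ≤ m ∧ ((0 < m % c ∧ m % c < (2 * d) % c) ∨ (m % c = 0 ∧ Odd (m / i)) ∨
                                    (m % c = (2 * d) % c ∧ Even ((2 * d + m - 2 * ((2 * d) % c)) / i))))))) := by
  classical
  obtain ⟨l, rfl⟩ : ∃ l, m = 2 * l := ⟨m / 2, by obtain ⟨j, hj⟩ := hme; omega⟩
  set Q := CfsgLib.ClassicalForms.qMinus (d - 1) F a b with hQdef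
  have hfun : ⇑Q = Cfsg.quadFormMinus (d - 1) F a b := funext fun v => CfsgLib.ClassicalForms.qMinus_apply (d - 1) a b v
  have hQ : (QuadraticMap.polarBilin Q).Nondegenerate :=
    CfsgLib.ClassicalForms.nondeg_iff_polarBilin.2 (CfsgLib.ClassicalForms.nondeg_qMinus hab (d - 1))
  have hT : Sub.HasType Q ⊤ d (-1) := Sub.hasType_top_iff.2 ⟨by
    rw [Module.finrank_fintype_fun_eq_card]; simp; omega,
    by
      have := OrthType.hasDisc_qMinus (a := a) (b := b) hab (d - 1)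
      rw [Nat.sub_add_cancel (by omega : 1 ≤ d)] at this
      rwa [neg_one_mul]⟩
  have hrpr : r.Prime := Fact.out
  rw [Nat.card_congr (Equiv.subtypeEquivRight (Sub.spec_elliptic_iff hfun l))] at hrΩ
  rw [Sub.allFixP_iff hfun (Sub.spec_elliptic_iff hfun l)]
  by_cases hrp : r = p
  · obtain rfl : r = 2 := hr.resolve_right (not_not.2 hrp)
    subst hrp
    have hsimp : ¬ ((2:ℕ) < 2) := by omega
    simp only [hsimp, ne_eq, not_true_eq_false, false_and, and_false, or_false, true_and]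
    by_cases hcond : Even d ∨ 2 * l % 4 = 2
    · refine iff_of_true (fun x hx hz hns => ?_) hcond
      obtain ⟨z, hz⟩ := hz
      have hiso := fun v => Sub.isometry_of_mem_omegaGL hx v
      haveI : Nontrivial ((Fin (d - 1) ⊕ Fin (d - 1)) ⊕ Fin 2 → F) := Module.nontrivial_of_finrank_pos (R := F) (by
        rw [Module.finrank_fintype_fun_eq_card]; simp)
      obtain ⟨v₀, hv₀⟩ := CfsgLib.Classes.exists_anisotropic_vector Q hQ
      have hxx : ∀ v, Matrix.mulVec (x : Matrix ((Fin (d - 1) ⊕ Fin (d - 1)) ⊕ Fin 2) ((Fin (d - 1) ⊕ Fin (d - 1)) ⊕ Fin 2) F) (Matrix.mulVec (x : Matrix ((Fin (d - 1) ⊕ Fin (d - 1)) ⊕ Fin 2) ((Fin (d - 1) ⊕ Fin (d - 1)) ⊕ Fin 2) F) v) = z • v := fun v => by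
        rw [Matrix.mulVec_mulVec, ← pow_two, ← Units.val_pow_eq_pow_val, hz, Matrix.smul_mulVec, Matrix.one_mulVec]
      have hz1 : z = 1 := by
        have h1 := hiso (Matrix.mulVec (x : Matrix ((Fin (d - 1) ⊕ Fin (d - 1)) ⊕ Fin 2) ((Fin (d - 1) ⊕ Fin (d - 1)) ⊕ Fin 2) F) v₀)
        rw [hxx, hiso, QuadraticMap.map_smul, smul_eq_mul] at h1
        rcases mul_self_eq_one_iff.1 (mul_right_cancel₀ hv₀ (h1.trans (one_mul _).symm)) with e | e
        · exact e
        · rw [e, CharTwo.neg_eq]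
      subst hz1
      refine Sub.involution_fixes_elliptic hQ (fun v => hiso v) (fun v => ?_) hT (by omega) (by omega)
        (hcond.imp id fun h => Nat.odd_iff.2 (by omega))
      rw [Matrix.toLin'_apply, Matrix.toLin'_apply, hxx, one_smul]
    · refine iff_of_false (fun H => ?_) hcond
      push Not at hcond
      obtain ⟨hdo, hl2⟩ := hcond
      rw [Nat.even_iff] at hdo
      let jx : (Fin (d - 1) → F) →ₗ[F] ((Fin (d - 1) ⊕ Fin (d - 1)) ⊕ Fin 2 → F) :=
        { toFun := fun u => Sum.elim (Sum.elim u 0) 0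
          map_add' := fun u v => by ext ((j | j) | j) <;> simp
          map_smul' := fun t u => by ext ((j | j) | j) <;> simp }
      obtain ⟨N, hN, hR⟩ := Sub.exists_shift (Q := Q) (k := d - 1)
        (LinearMap.funLeft F F (fun j : Fin (d - 1) => (Sum.inl (Sum.inr j) : (Fin (d - 1) ⊕ Fin (d - 1)) ⊕ Fin 2))) jx
        (fun u => ⟨Sum.elim (Sum.elim 0 u) 0, funext fun j => rfl⟩)
        (fun u v h => funext fun j => congrFun h (Sum.inl (Sum.inl j)))
        (fun u => funext fun j => rfl)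
        (fun v u => by
          simp only [jx, LinearMap.coe_mk, AddHom.coe_mk, hfun, Cfsg.quadFormMinus, Pi.add_apply, Sum.elim_inl,
            Sum.elim_inr, Pi.zero_apply, add_zero, LinearMap.funLeft_apply, add_mul, Finset.sum_add_distrib]
          ring)
      obtain ⟨x, hx, hz, hns, hno⟩ := Sub.shift_not_all (p := 2) hQ (by simp; omega) hN hR ⟨(d - 1) / 2, by omega⟩
        (by omega) (Or.inr rfl) hT (l := l) (ε := -1) (Or.inr rfl) (fun e₁ e₂ he₁ he₂ h1 h2 h3 h4 => by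
          have := h2 rfl
          rw [Nat.even_iff] at he₁ he₂
          omega)
      obtain ⟨W, hW, hWi⟩ := H x hx hz hns
      exact hno W hW hWi
  by_cases hr2 : r = 2
  · subst hr2
    have hp2 : p ≠ 2 := Ne.symm hrp
    have h2 : (2 : F) ≠ 0 := fun h => hp2 (Nat.prime_dvd_prime_iff_eq Fact.out Nat.prime_two |>.1
      ((CharP.cast_eq_zero_iff F p 2).1 (by exact_mod_cast h)))
    have hodd : Odd q := by
      obtain ⟨f, -, hf⟩ := FiniteField.card F p
      rw [← hq, hf]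
      exact ((Fact.out : p.Prime).odd_of_ne_two hp2).pow
    rw [Sub.ee_two h2 hQ (by omega) hT (by omega) (by omega) (Or.inr rfl)]
    obtain ⟨s1, s2, s3⟩ := Sub.sq_symbols (F := F) (hq ▸ hodd)
    rw [hq] at s1 s2 s3
    have hq2 := Nat.odd_iff.1 hodd
    have hsimp : ¬ ((2:ℕ) < 2) := by omega
    simp only [hsimp, hp2, false_and, and_false, or_false, false_or, true_and, ne_eq, not_false_eq_true]
    rcases Sub.sqNegOne_cases (F := F) with e1 | e1 <;> rcases Int.units_eq_one_or (Sub.sqTwo F) with e2 | e2 <;>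
      rcases Nat.even_or_odd d with hde | hdo <;> rcases Nat.even_or_odd' l with ⟨j, rfl | rfl⟩
    all_goals first
      | (simp only [e1, e2, one_pow, hde.neg_one_pow, hde, Nat.not_odd_iff_even.2 hde, pow_succ, pow_mul, neg_one_sq,
          true_and, false_and, or_false, true_or] at s1 s2 s3 ⊢
         norm_num at s1 s2 s3 ⊢
         try omega)
      | (simp only [e1, e2, one_pow, hdo.neg_one_pow, hdo, Nat.not_even_iff_odd.2 hdo, pow_succ, pow_mul, neg_one_sq,
          true_and, false_and, or_false, false_or] at s1 s2 s3 ⊢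
         norm_num at s1 s2 s3 ⊢
         try omega)
  obtain ⟨h, η, P, hch, heven, hodd', -, -⟩ := Sub.params_exist (F := F) hrpr hr2 hrp hq hi hc
  rw [Sub.ee_other P (hrpr.odd_of_ne_two hr2) hQ (by omega) (Or.inr rfl) hT (by omega) (by omega) (Or.inr rfl) hrΩ]
  have h2r : 2 < r := lt_of_le_of_ne hrpr.two_le (Ne.symm hr2)
  obtain ⟨-, hmc⟩ := Sub.mod_two_mul l P.pos
  obtain ⟨-, hnc⟩ := Sub.mod_two_mul d P.pos
  rw [hch, hmc, hnc]
  simp only [hr2, hrp, h2r, false_and, not_false_eq_true, ne_eq, true_and, false_or]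
  rcases Nat.even_or_odd i with he | ho
  · have hi' : i = 2 * h := by rw [← hch, hc, if_pos he]
    have hno : ¬ Odd i := Nat.not_odd_iff_even.2 he
    rw [heven he]
    simp only [hno, false_and, false_or, he, true_and]
    rw [hi', Nat.mul_div_mul_left _ _ (by norm_num : 0 < 2), Nat.mul_div_mul_left _ _ (by norm_num : 0 < 2)]
    have hdiv0 : l < h → l % h = l := Nat.mod_eq_of_lt
    have hA0 : h ≤ l → 1 ≤ l / h := fun e => Nat.div_pos e P.pos
    have hA0' : l / h = 0 ∨ h ≤ l := by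
      rcases lt_or_ge l h with e | e
      · exact Or.inl (Nat.div_eq_of_lt e)
      · exact Or.inr e
    by_cases hab' : l % h = d % h
    · rw [Sub.div_add_sub d l P.pos hab', hab']
      rcases Nat.even_or_odd (d / h) with e | e <;> rcases Nat.even_or_odd (l / h) with e' | e' <;>
        simp only [pow_add, e.neg_one_pow, e'.neg_one_pow, Nat.odd_iff, Nat.even_iff] <;>
        simp only [Nat.odd_iff, Nat.even_iff] at e e' <;> norm_num <;> omega
    · simp only [hab', false_and, or_false, and_false, show 2 * (l % h) ≠ 2 * (d % h) by omega]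
      rcases Nat.even_or_odd (d / h) with e | e <;> rcases Nat.even_or_odd (l / h) with e' | e' <;>
        simp only [e.neg_one_pow, e'.neg_one_pow, Nat.odd_iff, Nat.even_iff] <;>
        simp only [Nat.odd_iff, Nat.even_iff] at e e' <;> norm_num <;> omega
  · have hno : ¬ Even i := Nat.not_even_iff_odd.2 ho
    rw [hodd' ho]
    simp only [hno, false_and, or_false, ho, true_and, one_pow]
    norm_num <;> omega

end Cfsg.Agent.S5990
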