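import Cfsg.Statements.S5992
import Cfsg.Agent.Lib.Derangements.SubspaceOdd
-- import your own Cfsg.Agent.* helpers here

set_option autoImplicit false
open scoped MatrixGroups
open Cfsg

namespace Cfsg.Agent.S5992

/-- Elements of prime order r ≠ p of Ω_n(q), nq odd, with no fixed hyperbolic `m`-space. Here `T = Ω_n(F)`, `n = 2d+1 ≥ 7`, `q` odd, realised as the commutator subgroup of the isometry group of `Q = x₀² + Σ xᵢyᵢ` over the field `F` with `q` elements (trivial centre, so its elements of prime order `r` are used directly); a nondegenerate `m`-space (even `m`) is a subspace on which the polar form of `Q` is nondegenerate; it is hyperbolic if it contains an `m/2`-dimensional subspace on which `Q` vanishes, elliptic otherwise. Let `m` be even with `2 ≤ m ≤ n − 1` (no restriction `m < n/2`) and let `r ≠ p` be a prime dividing the number of hyperbolic `m`-spaces; for `r ≠ p` let `i` be the multiplicative order of `q` modulo `r`, `c =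 i` for `i` even and `c = 2i` for `i` odd, and write `k = n mod c`, `ℓ' = m mod c`. Then every element of `T` of order `r` fixes some hyperbolic `m`-space if and only if `r = 2`, or `r` is odd and one of: (i) `i` odd, `c ≤ m` and either `k > ℓ' > 0` or `ℓ' = 0`; (ii) `i` even, `i ≤ m`, `k > ℓ'`, and `m/i` even whenever `ℓ' = 0`. (`r = p` is not covered by this statement.) -/
theorem result {F : Type*} [Field F] [Fintype F] {p : ℕ} [Fact p.Prime] [CharP F p] {q : ℕ} (hq : Fintype.card F = q) (hqodd : Odd q)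
    (d m : ℕ) (hd : 3 ≤ d) (hm : 2 ≤ m) (hme : Even m) (hmn : m ≤ 2 * d)
    (r : ℕ) [Fact r.Prime] (hrp : r ≠ p)
    (hrΩ : r ∣ Nat.card {W : Submodule F (Unit ⊕ (Fin d ⊕ Fin d) → F) // Module.finrank F ↥W = m ∧ Cfsg.Geo.IsNondegenerateOn (QuadraticMap.polar (Cfsg.quadFormOdd d F)) W ∧ Cfsg.Geo.IsPlusTypeOn (Cfsg.quadFormOdd d F) W})
    (i c : ℕ) (hi : i = orderOf (q : ZMod r)) (hc : c = if Even i then i else 2 * i) :
    (∀ x : GL (Unit ⊕ (Fin d ⊕ Fin d)) F, x ∈ Cfsg.Geo.omegaGL (Cfsg.quadFormOdd d F) → orderOf x = r →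
      ∃ W : Submodule F (Unit ⊕ (Fin d ⊕ Fin d) → F), (Module.finrank F ↥W = m ∧ Cfsg.Geo.IsNondegenerateOn (QuadraticMap.polar (Cfsg.quadFormOdd d F)) W ∧ Cfsg.Geo.IsPlusTypeOn (Cfsg.quadFormOdd d F) W) ∧ W.map (Matrix.toLin' (x : Matrix (Unit ⊕ (Fin d ⊕ Fin d)) (Unit ⊕ (Fin d ⊕ Fin d)) F)) ≤ W) ↔
    (r = 2 ∨
     (2 < r ∧ Odd i ∧ c ≤ m ∧ (m % c = 0 ∨ (0 < m % c ∧ m % c < (2 * d + 1) % c))) ∨
     (2 < r ∧ Even i ∧ i ≤ m ∧ m % c < (2 * d + 1) % c ∧ (0 < m % c ∨ Even (m / i)))) := by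
  classical
  obtain ⟨l, rfl⟩ : ∃ l, m = 2 * l := ⟨m / 2, by obtain ⟨j, hj⟩ := hme; omega⟩
  have hl : 1 ≤ l := by omega
  have hld : l ≤ d := by omega
  have hspec : ∀ W : Submodule F (Unit ⊕ (Fin d ⊕ Fin d) → F),
      (Module.finrank F ↥W = 2 * l ∧ Cfsg.Geo.IsNondegenerateOn (QuadraticMap.polar (Cfsg.quadFormOdd d F)) W ∧
        Cfsg.Geo.IsPlusTypeOn (Cfsg.quadFormOdd d F) W) ↔
      CfsgLib.Derangements.Sub.Spec (Cfsg.quadFormOdd d F) l true W := fun W => by
    simp [CfsgLib.Derangements.Sub.Spec]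
  have hrpr : r.Prime := Fact.out
  by_cases hr2 : r = 2
  · subst hr2
    refine ⟨fun _ => Or.inl rfl, fun _ x hx hord => ?_⟩
    obtain ⟨W, hW, hWx⟩ := CfsgLib.Derangements.Sub.odd_two hq hqodd d l hl hld true x hx hord
    exact ⟨W, (hspec W).2 hW, hWx⟩
  obtain ⟨h, η, P, hch, heven, hodd, -, -⟩ :=
    CfsgLib.Derangements.Sub.params_exist (F := F) hrpr hr2 hrp hq hi hc
  rw [Nat.card_congr (Equiv.subtypeEquivRight hspec)] at hrΩ
  have key := CfsgLib.Derangements.Sub.odd_main hq hqodd d l hl hld true r hr2 hrp hrΩ P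
  rw [show (∀ x : GL (Unit ⊕ (Fin d ⊕ Fin d)) F, x ∈ Cfsg.Geo.omegaGL (Cfsg.quadFormOdd d F) → orderOf x = r →
      ∃ W : Submodule F (Unit ⊕ (Fin d ⊕ Fin d) → F), (Module.finrank F ↥W = 2 * l ∧ Cfsg.Geo.IsNondegenerateOn (QuadraticMap.polar (Cfsg.quadFormOdd d F)) W ∧ Cfsg.Geo.IsPlusTypeOn (Cfsg.quadFormOdd d F) W) ∧ W.map (Matrix.toLin' (x : Matrix (Unit ⊕ (Fin d ⊕ Fin d)) (Unit ⊕ (Fin d ⊕ Fin d)) F)) ≤ W) ↔
      h ≤ l ∧ l % h ≤ d % h ∧ (l % h = 0 → CfsgLib.Derangements.Sub.sgn true = η ^ (l / h)) from by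
    simp only [hspec]; exact key]
  have hpos := P.pos
  have hmc : 2 * l % c = 2 * (l % h) := by rw [hch, Nat.mul_mod_mul_left]
  have hnc : (2 * d + 1) % c = 2 * (d % h) + 1 := by
    have h1 := Nat.div_add_mod d h
    have h3 := Nat.mod_lt d hpos
    rw [hch]
    conv_lhs => rw [show 2 * d + 1 = 2 * (d % h) + 1 + 2 * h * (d / h) by rw [mul_assoc]; omega]
    rw [Nat.add_mul_mod_self_left, Nat.mod_eq_of_lt (by omega)]
  have h2r : 2 < r := lt_of_le_of_ne hrpr.two_le (Ne.symm hr2)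
  have hsgn : CfsgLib.Derangements.Sub.sgn true = 1 := rfl
  rw [hsgn, hmc, hnc]
  rcases Nat.even_or_odd i with he | ho
  · rw [heven he]
    have hi' : i = 2 * h := by rw [← hch, hc, if_pos he]
    have hdiv : 2 * l / i = l / h := by rw [hi', Nat.mul_div_mul_left _ _ (by norm_num : 0 < 2)]
    rw [hdiv]
    have hno : ¬ Odd i := Nat.not_odd_iff_even.2 he
    constructor
    · rintro ⟨a1, a2, a3⟩
      refine Or.inr (Or.inr ⟨h2r, he, by omega, by omega, ?_⟩)
      rcases Nat.eq_zero_or_pos (l % h) with h0 | h0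
      · exact Or.inr (by
          rcases Nat.even_or_odd (l / h) with e | e
          · exact e
          · rw [e.neg_one_pow] at a3; exact absurd (a3 h0) (by norm_num))
      · exact Or.inl (by omega)
    · rintro (e | ⟨-, e, -⟩ | ⟨-, -, a1, a2, a3⟩)
      · exact absurd e hr2
      · exact absurd e hno
      · refine ⟨by omega, by omega, fun h0 => ?_⟩
        rcases a3 with a3 | a3
        · omega
        · rw [a3.neg_one_pow]
  · rw [hodd ho, one_pow]
    have hno : ¬ Even i := Nat.not_even_iff_odd.2 ho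
    constructor
    · rintro ⟨a1, a2, -⟩
      exact Or.inr (Or.inl ⟨h2r, ho, by omega, by omega⟩)
    · rintro (e | ⟨-, -, a1, a2⟩ | ⟨-, e, -⟩)
      · exact absurd e hr2
      · exact ⟨by omega, by omega, fun _ => rfl⟩
      · exact absurd e hno

end Cfsg.Agent.S5992
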