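import Cfsg.Statements.S5993
import Cfsg.Agent.Lib.Derangements.SubspaceOdd
import Cfsg.Agent.Lib.Derangements.SubspaceUnipotent
-- import your own Cfsg.Agent.* helpers here

set_option autoImplicit false
open scoped MatrixGroups
open Cfsg

namespace Cfsg.Agent.S5993

/-- Elements of prime order of Ω_n(q), nq odd, with no fixed elliptic `m`-space. Here `T = Ω_n(F)`, `n = 2d+1 ≥ 7`, `q` odd, realised as the commutator subgroup of the isometry group of `Q = x₀² + Σ xᵢyᵢ` over the field `F` with `q` elements (trivial centre, so its elements of prime order `r` are used directly); a nondegenerate `m`-space (even `m`) is a subspace on which the polar form of `Q` is nondegenerate; it is hyperbolic if it contains an `m/2`-dimensional subspace on which `Q` vanishes, elliptic otherwise. Let `m` be even with `2 ≤ m ≤ n − 1` (no restriction `m < n/2`) and let `r` be a prime dividing the number of elliptic `m`-spaces; for `r ≠ p` let `i` be the multiplicative order of `q`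 modulo `r`, `c = i` for `i` even and `c = 2i` for `i` odd, and write `k = n mod c`, `ℓ' = m mod c`. Then every element of `T` of order `r` fixes some elliptic `m`-space if and only if `r = 2`, or `r ≠ p` is odd and one of: (i) `i` odd, `c ≤ m` and `k > ℓ' > 0`; (ii) `i` even, `i ≤ m`, `k > ℓ'`, and `m/i` odd whenever `ℓ' = 0`. (For `r = p` there is always an element of order `p` fixing no elliptic `m`-space.) -/
theorem result {F : Type*} [Field F] [Fintype F] {p : ℕ} [Fact p.Prime] [CharP F p] {q : ℕ} (hq : Fintype.card F = q) (hqodd : Odd q)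
    (d m : ℕ) (hd : 3 ≤ d) (hm : 2 ≤ m) (hme : Even m) (hmn : m ≤ 2 * d)
    (r : ℕ) [Fact r.Prime]
    (hrΩ : r ∣ Nat.card {W : Submodule F (Unit ⊕ (Fin d ⊕ Fin d) → F) // Module.finrank F ↥W = m ∧ Cfsg.Geo.IsNondegenerateOn (QuadraticMap.polar (Cfsg.quadFormOdd d F)) W ∧ ¬ Cfsg.Geo.IsPlusTypeOn (Cfsg.quadFormOdd d F) W})
    (i c : ℕ) (hi : i = orderOf (q : ZMod r)) (hc : c = if Even i then i else 2 * i) :
    (∀ x : GL (Unit ⊕ (Fin d ⊕ Fin d)) F, x ∈ Cfsg.Geo.omegaGL (Cfsg.quadFormOdd d F) → orderOf x = r →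
      ∃ W : Submodule F (Unit ⊕ (Fin d ⊕ Fin d) → F), (Module.finrank F ↥W = m ∧ Cfsg.Geo.IsNondegenerateOn (QuadraticMap.polar (Cfsg.quadFormOdd d F)) W ∧ ¬ Cfsg.Geo.IsPlusTypeOn (Cfsg.quadFormOdd d F) W) ∧ W.map (Matrix.toLin' (x : Matrix (Unit ⊕ (Fin d ⊕ Fin d)) (Unit ⊕ (Fin d ⊕ Fin d)) F)) ≤ W) ↔
    (r = 2 ∨
     (r ≠ p ∧ 2 < r ∧ Odd i ∧ c ≤ m ∧ 0 < m % c ∧ m % c < (2 * d + 1) % c) ∨
     (r ≠ p ∧ 2 < r ∧ Even i ∧ i ≤ m ∧ m % c < (2 * d + 1) % c ∧ (0 < m % c ∨ Odd (m / i)))) := by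
  classical
  obtain ⟨l, rfl⟩ : ∃ l, m = 2 * l := ⟨m / 2, by obtain ⟨j, hj⟩ := hme; omega⟩
  have hl : 1 ≤ l := by omega
  have hld : l ≤ d := by omega
  have hspec : ∀ W : Submodule F (Unit ⊕ (Fin d ⊕ Fin d) → F),
      (Module.finrank F ↥W = 2 * l ∧ Cfsg.Geo.IsNondegenerateOn (QuadraticMap.polar (Cfsg.quadFormOdd d F)) W ∧
        ¬ Cfsg.Geo.IsPlusTypeOn (Cfsg.quadFormOdd d F) W) ↔
      CfsgLib.Derangements.Sub.Spec (Cfsg.quadFormOdd d F) l false W := fun W => by
    simp [CfsgLib.Derangements.Sub.Spec]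
  have hrpr : r.Prime := Fact.out
  by_cases hr2 : r = 2
  · subst hr2
    refine ⟨fun _ => Or.inl rfl, fun _ x hx hord => ?_⟩
    obtain ⟨W, hW, hWx⟩ := CfsgLib.Derangements.Sub.odd_two hq hqodd d l hl hld false x hx hord
    exact ⟨W, (hspec W).2 hW, hWx⟩
  by_cases hrp : r = p
  · subst hrp
    refine ⟨fun H => ?_, ?_⟩
    swap
    · rintro (e | ⟨e, -⟩ | ⟨e, -⟩)
      · exact absurd e hr2
      · exact absurd rfl e
      · exact absurd rfl e
    exfalso
    have h2 : (2 : F) ≠ 0 := CfsgLib.Derangements.Sub.two_ne_zero_of_odd_card (hq ▸ hqodd)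
    have hp3 : 3 ≤ r := by have := hrpr.two_le; omega
    set Q := CfsgLib.ClassicalForms.qOdd d F
    have hfun : ⇑Q = Cfsg.quadFormOdd d F := funext fun v => CfsgLib.ClassicalForms.qOdd_apply d v
    have hQ : (QuadraticMap.polarBilin Q).Nondegenerate :=
      CfsgLib.ClassicalForms.nondeg_iff_polarBilin.2 (CfsgLib.ClassicalForms.nondeg_qOdd h2 d)
    -- parts 2, and one part 1 or 3
    obtain ⟨k, c', hk, hc', hsum, hk1⟩ : ∃ k c', Even k ∧ (c' = 1 ∨ c' = 3) ∧ 2 * k + c' = 2 * d + 1 ∧ 1 ≤ k := by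
      rcases Nat.even_or_odd d with h | h
      · exact ⟨d, 1, h, .inl rfl, rfl, by omega⟩
      · exact ⟨d - 1, 3, Nat.Odd.sub_odd h odd_one, .inr rfl, by omega, by omega⟩
    obtain ⟨x, W, hiso, hNp, hWm, hWP, hWinv, hle, hs, hev⟩ := CfsgLib.Omega.exists_subtype_of_fixed hr2 Q hQ (2 * l)
      (fun W => ¬ Cfsg.Geo.IsPlusTypeOn (Cfsg.quadFormOdd d F) W) (fun x hx hxp hns => by
        rw [hfun] at hx
        obtain ⟨W, ⟨hW1, hW2, hW4⟩, hW3⟩ := H x hx (orderOf_eq_prime hxp fun h1 => hns 1 (by rw [h1, one_smul]; rfl))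
        exact ⟨W, hW1, fun u hu hu0 => by rw [hfun]; exact (hW2 u hu hu0).1, hW4, hW3⟩)
      (Multiset.replicate k 2 + {c'}) (fun e he => by
        simp only [Multiset.mem_add, Multiset.mem_replicate, Multiset.mem_singleton] at he
        omega) (fun e he => by
        rw [Multiset.count_add, Multiset.count_replicate, Multiset.count_singleton,
          if_neg (show ¬ e = c' by obtain ⟨j, hj⟩ := he; omega)]
        split_ifs
        · simpa using hk
        · exact ⟨0, rfl⟩) (by simp [Fintype.card_sum]; omega)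
      ⟨c', by simp, by rcases hc' with rfl | rfl <;> decide⟩
      ⟨2, by simp [Multiset.mem_replicate]; omega, le_rfl⟩
    set ν := CfsgLib.Omega.jordanParts _ W r with hν
    have hνc : c' ∉ ν := fun hmem => by
      obtain ⟨ν', hν'⟩ := Multiset.exists_cons_of_mem hmem
      rw [hν'] at hle hs
      have h1 : ν' ≤ Multiset.replicate k 2 := by
        have := (Multiset.cons_le_cons_iff c' (s := ν') (t := Multiset.replicate k 2)).1
          (by rwa [← Multiset.singleton_add c' (Multiset.replicate k 2), add_comm])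
        exact this
      obtain ⟨j, -, rfl⟩ := Multiset.le_replicate_iff.1 h1
      rw [Multiset.sum_cons, Multiset.sum_replicate, smul_eq_mul] at hs
      rcases hc' with rfl | rfl <;> omega
    refine hWP ?_
    rw [← hfun]
    refine CfsgLib.Derangements.Sub.plus_of_parts_two h2 hp3 hiso hNp hWinv fun e he => ?_
    have := Multiset.mem_of_le hle he
    simp only [Multiset.mem_add, Multiset.mem_replicate, Multiset.mem_singleton] at this
    rcases this with h | h
    · exact h.2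
    · exact absurd (h ▸ he) hνc
  obtain ⟨h, η, P, hch, heven, hodd, -, -⟩ :=
    CfsgLib.Derangements.Sub.params_exist (F := F) hrpr hr2 hrp hq hi hc
  rw [Nat.card_congr (Equiv.subtypeEquivRight hspec)] at hrΩ
  have key := CfsgLib.Derangements.Sub.odd_main hq hqodd d l hl hld false r hr2 hrp hrΩ P
  rw [show (∀ x : GL (Unit ⊕ (Fin d ⊕ Fin d)) F, x ∈ Cfsg.Geo.omegaGL (Cfsg.quadFormOdd d F) → orderOf x = r →
      ∃ W : Submodule F (Unit ⊕ (Fin d ⊕ Fin d) → F), (Module.finrank F ↥W = 2 * l ∧ Cfsg.Geo.IsNondegenerateOn (QuadraticMap.polar (Cfsg.quadFormOdd d F)) W ∧ ¬ Cfsg.Geo.IsPlusTypeOn (Cfsg.quadFormOdd d F) W) ∧ W.map (Matrix.toLin' (x : Matrix (Unit ⊕ (Fin d ⊕ Fin d)) (Unit ⊕ (Fin d ⊕ Fin d)) F)) ≤ W) ↔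
      h ≤ l ∧ l % h ≤ d % h ∧ (l % h = 0 → CfsgLib.Derangements.Sub.sgn false = η ^ (l / h)) from by
    simp only [hspec]; exact key]
  have hpos := P.pos
  have hmc : 2 * l % c = 2 * (l % h) := by rw [hch, Nat.mul_mod_mul_left]
  have hnc : (2 * d + 1) % c = 2 * (d % h) + 1 := by
    have h1 := Nat.div_add_mod d h
    have h3 := Nat.mod_lt d hpos
    rw [hch]
    conv_lhs => rw [show 2 * d + 1 = 2 * (d % h) + 1 + 2 * h * (d / h) by rw [mul_assoc]; omega]
    rw [Nat.add_mul_mod_self_left, Nat.mod_eq_of_lt (by omega)]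
  have h2r : 2 < r := lt_of_le_of_ne hrpr.two_le (Ne.symm hr2)
  have hsgn : CfsgLib.Derangements.Sub.sgn false = -1 := rfl
  rw [hsgn, hmc, hnc]
  rcases Nat.even_or_odd i with he | ho
  · rw [heven he]
    have hi' : i = 2 * h := by rw [← hch, hc, if_pos he]
    have hdiv : 2 * l / i = l / h := by rw [hi', Nat.mul_div_mul_left _ _ (by norm_num : 0 < 2)]
    rw [hdiv]
    have hno : ¬ Odd i := Nat.not_odd_iff_even.2 he
    constructor
    · rintro ⟨a1, a2, a3⟩
      refine Or.inr (Or.inr ⟨hrp, h2r, he, by omega, by omega, ?_⟩)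
      rcases Nat.eq_zero_or_pos (l % h) with h0 | h0
      · exact Or.inr (by
          rcases Nat.even_or_odd (l / h) with e | e
          · rw [e.neg_one_pow] at a3; exact absurd (a3 h0) (by norm_num)
          · exact e)
      · exact Or.inl (by omega)
    · rintro (e | ⟨-, -, e, -⟩ | ⟨-, -, -, a1, a2, a3⟩)
      · exact absurd e hr2
      · exact absurd e hno
      · refine ⟨by omega, by omega, fun h0 => ?_⟩
        rcases a3 with a3 | a3
        · omega
        · rw [a3.neg_one_pow]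
  · rw [hodd ho, one_pow]
    have hno : ¬ Even i := Nat.not_even_iff_odd.2 ho
    constructor
    · rintro ⟨a1, a2, a3⟩
      refine Or.inr (Or.inl ⟨hrp, h2r, ho, by omega, ?_, by omega⟩)
      by_contra h0
      exact absurd (a3 (by omega)) (by norm_num)
    · rintro (e | ⟨-, -, -, a1, a2, a3⟩ | ⟨-, -, e, -⟩)
      · exact absurd e hr2
      · exact ⟨by omega, by omega, fun h0 => by omega⟩
      · exact absurd e hno

end Cfsg.Agent.S5993
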