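import Cfsg.Statements.S5994
import Cfsg.Agent.Lib.Omega.OrthUnipotent
import Cfsg.Agent.Lib.ClassicalForms.Ortho.Standard

set_option autoImplicit false
open scoped MatrixGroups Matrix
open Cfsg

namespace Cfsg.Agent.S5994

/-- A necessary condition for every element of order p of PΩ⁻_n(q), q odd, to fix an elliptic `m`-space. Here `T = PΩ⁻_n(F)`, `n = 2d ≥ 8`, realised through `Ω⁻_n(q)`, the commutator subgroup of the isometry group of `Q = Σ_{i<d−1} xᵢyᵢ + z₁² + a z₁z₂ + b z₂²` with `z₁² + a z₁z₂ + b z₂²` anisotropic, over the field `F` with `q` elements; an element of `T` of prime order `r` is an element `x` of `Ω⁻_n(q)` with `x^r` scalar and `x` not scalar; `q` is odd; a nondegenerate `m`-space (even `m`) is a subspace on which the polar form of `Q` is nondegenerate; it is hyperbolic if it contains an `m/2`-dimensional subspace on which `Q` vanishes, elliptic otherwise. Let `m` be even with `2 ≤ m ≤ n − 2` and suppose `p` divides the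 number of elliptic `m`-spaces. If every element of `T` of order `p` fixes some elliptic `m`-space, then `n ≡ m (mod 4)` and every partition of `n` into parts of size at most `p` in which every even part has even multiplicity contains (as a sub-multiset) a partition of `m` in which every even part has even multiplicity. -/
theorem result {F : Type*} [Field F] [Fintype F] {p : ℕ} [Fact p.Prime] [CharP F p] {q : ℕ} (hq : Fintype.card F = q) (hqodd : Odd q)
    (d m : ℕ) (hd : 4 ≤ d) (hm : 2 ≤ m) (hme : Even m) (hmn : m + 2 ≤ 2 * d) (a b : F) (hab : ∀ x y : F, x ^ 2 + a * x * y + b * y ^ 2 = 0 → x = 0 ∧ y = 0)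
    (hpΩ : p ∣ Nat.card {W : Submodule F ((Fin (d - 1) ⊕ Fin (d - 1)) ⊕ Fin 2 → F) // Module.finrank F ↥W = m ∧ Cfsg.Geo.IsNondegenerateOn (QuadraticMap.polar (Cfsg.quadFormMinus (d - 1) F a b)) W ∧ ¬ Cfsg.Geo.IsPlusTypeOn (Cfsg.quadFormMinus (d - 1) F a b) W}) :
    (∀ x : GL ((Fin (d - 1) ⊕ Fin (d - 1)) ⊕ Fin 2) F, x ∈ Cfsg.Geo.omegaGL (Cfsg.quadFormMinus (d - 1) F a b) →
      (∃ z : F, ((x ^ p : GL ((Fin (d - 1) ⊕ Fin (d - 1)) ⊕ Fin 2) F) : Matrix ((Fin (d - 1) ⊕ Fin (d - 1)) ⊕ Fin 2) ((Fin (d - 1) ⊕ Fin (d - 1)) ⊕ Fin 2) F) = z • (1 : Matrix ((Fin (d - 1) ⊕ Fin (d - 1)) ⊕ Fin 2) ((Fin (d - 1) ⊕ Fin (d - 1)) ⊕ Fin 2) F)) →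
      (∀ z : F, (x : Matrix ((Fin (d - 1) ⊕ Fin (d - 1)) ⊕ Fin 2) ((Fin (d - 1) ⊕ Fin (d - 1)) ⊕ Fin 2) F) ≠ z • (1 : Matrix ((Fin (d - 1) ⊕ Fin (d - 1)) ⊕ Fin 2) ((Fin (d - 1) ⊕ Fin (d - 1)) ⊕ Fin 2) F)) →
      ∃ W : Submodule F ((Fin (d - 1) ⊕ Fin (d - 1)) ⊕ Fin 2 → F), (Module.finrank F ↥W = m ∧ Cfsg.Geo.IsNondegenerateOn (QuadraticMap.polar (Cfsg.quadFormMinus (d - 1) F a b)) W ∧ ¬ Cfsg.Geo.IsPlusTypeOn (Cfsg.quadFormMinus (d - 1) F a b) W) ∧ W.map (Matrix.toLin' (x : Matrix ((Fin (d - 1) ⊕ Fin (d - 1)) ⊕ Fin 2) ((Fin (d - 1) ⊕ Fin (d - 1)) ⊕ Fin 2) F)) ≤ W) →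
    ((2 * d) % 4 = m % 4 ∧ (∀ μ : Multiset ℕ, (∀ e ∈ μ, 0 < e ∧ e ≤ p) → (∀ e : ℕ, Even e → Even (μ.count e)) → μ.sum = 2 * d →
        ∃ ν : Multiset ℕ, ν ≤ μ ∧ ν.sum = m ∧ ∀ e : ℕ, Even e → Even (ν.count e))) := by
  classical
  intro H
  have hpr : p.Prime := Fact.out
  have hp2 : p ≠ 2 := by
    rintro rfl
    obtain ⟨f, -, hf⟩ := FiniteField.card F 2
    rw [← hq, hf] at hqodd
    exact Nat.not_odd_iff_even.2 (Nat.even_pow.2 ⟨even_two, f.pos.ne'⟩) hqodd
  have h2 : (2 : F) ≠ 0 := fun h => hp2 ((Nat.prime_dvd_prime_iff_eq hpr Nat.prime_two).1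
    ((CharP.cast_eq_zero_iff F p 2).1 (by exact_mod_cast h)))
  have hp3 : 3 ≤ p := by have := hpr.two_le; omega
  have hfun : ⇑(CfsgLib.ClassicalForms.qMinus (d - 1) F a b) = Cfsg.quadFormMinus (d - 1) F a b :=
    funext fun v => CfsgLib.ClassicalForms.qMinus_apply (d - 1) a b v
  set Q := CfsgLib.ClassicalForms.qMinus (d - 1) F a b
  have hQ : (QuadraticMap.polarBilin Q).Nondegenerate :=
    CfsgLib.ClassicalForms.nondeg_iff_polarBilin.2 (CfsgLib.ClassicalForms.nondeg_qMinus hab (d - 1))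
  have hcard : Fintype.card ((Fin (d - 1) ⊕ Fin (d - 1)) ⊕ Fin 2) = 2 * d := by
    simp [Fintype.card_sum]; omega
  let P := fun W => ¬ Cfsg.Geo.IsPlusTypeOn (Cfsg.quadFormMinus (d - 1) F a b) W
  have hH : ∀ x : GL ((Fin (d - 1) ⊕ Fin (d - 1)) ⊕ Fin 2) F, x ∈ Cfsg.Geo.omegaGL (⇑Q) → x ^ p = 1 →
      (∀ z : F, (x : Matrix ((Fin (d - 1) ⊕ Fin (d - 1)) ⊕ Fin 2) ((Fin (d - 1) ⊕ Fin (d - 1)) ⊕ Fin 2) F) ≠ z • 1) →
      ∃ W : Submodule F ((Fin (d - 1) ⊕ Fin (d - 1)) ⊕ Fin 2 → F), Module.finrank F W = m ∧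
        (∀ u ∈ W, u ≠ 0 → ∃ v ∈ W, QuadraticMap.polar Q v u ≠ 0) ∧ P W ∧
        W.map (Matrix.toLin' (x : Matrix ((Fin (d - 1) ⊕ Fin (d - 1)) ⊕ Fin 2) ((Fin (d - 1) ⊕ Fin (d - 1)) ⊕ Fin 2) F)) ≤ W := by
    intro x hx hxp hns
    rw [hfun] at hx
    obtain ⟨W, ⟨hW1, hW2, hW4⟩, hW3⟩ := H x hx ⟨1, by rw [hxp, one_smul]; rfl⟩ hns
    exact ⟨W, hW1, fun u hu hu0 => by rw [hfun]; exact (hW2 u hu hu0).1, hW4, hW3⟩
  refine ⟨?_, fun μ hμb hμ hsum => CfsgLib.Omega.exists_subpartition hp2 Q hQ m hme (by omega) P hH μ hμb hμ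
    (hsum.trans hcard.symm)⟩
  by_contra hmod
  obtain ⟨j, hj⟩ := hme
  rcases Nat.even_or_odd d with hdd | hdd
  · -- m ≡ 2 mod 4: parts 2, 3, 1
    obtain ⟨i, hi⟩ := hdd
    obtain ⟨ν, hle, hs, hev⟩ := CfsgLib.Omega.exists_subpartition hp2 Q hQ m ⟨j, hj⟩ (by omega) P hH
      (Multiset.replicate (d - 2) 2 + {3, 1}) (fun e he => by
        simp only [Multiset.insert_eq_cons, Multiset.mem_add, Multiset.mem_replicate, Multiset.mem_cons,
          Multiset.mem_singleton] at he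
        omega) (fun e he => by
        obtain ⟨l, hl⟩ := he
        rw [Multiset.count_add, Multiset.count_replicate, Multiset.insert_eq_cons,
          Multiset.count_cons_of_ne (by omega), Multiset.count_singleton, if_neg (show ¬ e = 1 by omega)]
        split_ifs
        · exact ⟨i - 1, by omega⟩
        · exact ⟨0, rfl⟩) (by rw [hcard]; simp [Multiset.insert_eq_cons]; omega)
    have hνsum : ν = Multiset.replicate (ν.count 2) 2 + Multiset.replicate (ν.count 3) 3 +
        Multiset.replicate (ν.count 1) 1 := by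
      ext e
      simp only [Multiset.count_add, Multiset.count_replicate]
      by_cases h : e = 2 ∨ e = 3 ∨ e = 1
      · rcases h with rfl | rfl | rfl <;> simp
      · rw [if_neg (by omega), if_neg (by omega), if_neg (by omega)]
        refine Multiset.count_eq_zero.2 fun he => ?_
        have := Multiset.mem_of_le hle he
        simp only [Multiset.insert_eq_cons, Multiset.mem_add, Multiset.mem_replicate, Multiset.mem_cons,
          Multiset.mem_singleton] at this
        omega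
    have h3 : ν.count 3 ≤ 1 := (Multiset.count_le_of_le 3 hle).trans (by simp [Multiset.count_replicate])
    have h1 : ν.count 1 ≤ 1 := (Multiset.count_le_of_le 1 hle).trans (by simp [Multiset.count_replicate])
    obtain ⟨l, hl⟩ := hev 2 even_two
    rw [hνsum] at hs
    simp only [Multiset.sum_add, Multiset.sum_replicate, smul_eq_mul] at hs
    rcases Nat.le_one_iff_eq_zero_or_eq_one.1 h3 with h3 | h3 <;>
      rcases Nat.le_one_iff_eq_zero_or_eq_one.1 h1 with h1 | h1 <;> rw [h3, h1] at hs <;> omega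
  · -- m ≡ 0 mod 4: parts 2, 1, 1
    obtain ⟨i, hi⟩ := hdd
    obtain ⟨x, W, hiso, hxp0, hWm, hWP, hWinv, hle, hs, hev⟩ := CfsgLib.Omega.exists_subtype_of_fixed hp2 Q hQ m P hH
      (Multiset.replicate (d - 1) 2 + {1, 1}) (fun e he => by
        simp only [Multiset.insert_eq_cons, Multiset.mem_add, Multiset.mem_replicate, Multiset.mem_cons,
          Multiset.mem_singleton] at he
        omega) (fun e he => by
        obtain ⟨l, hl⟩ := he
        rw [Multiset.count_add, Multiset.count_replicate, Multiset.insert_eq_cons,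
          Multiset.count_cons_of_ne (by omega), Multiset.count_singleton, if_neg (show ¬ e = 1 by omega)]
        split_ifs
        · exact ⟨i, by omega⟩
        · exact ⟨0, rfl⟩) (by rw [hcard]; simp [Multiset.insert_eq_cons]; omega)
      ⟨1, by simp, odd_one⟩ ⟨2, by simp [Multiset.mem_replicate]; omega, le_rfl⟩
    set N : Module.End F ((Fin (d - 1) ⊕ Fin (d - 1)) ⊕ Fin 2 → F) :=
      (Matrix.toLin' (x : Matrix ((Fin (d - 1) ⊕ Fin (d - 1)) ⊕ Fin 2) ((Fin (d - 1) ⊕ Fin (d - 1)) ⊕ Fin 2) F) :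
        Module.End F _) - 1 with hN
    have hNp : N ^ p = 0 := hxp0
    set ν := CfsgLib.Omega.jordanParts N W p with hν
    have hνsum : ν = Multiset.replicate (ν.count 2) 2 + Multiset.replicate (ν.count 1) 1 := by
      ext e
      simp only [Multiset.count_add, Multiset.count_replicate]
      by_cases h : e = 2 ∨ e = 1
      · rcases h with rfl | rfl <;> simp
      · rw [if_neg (by omega), if_neg (by omega)]
        refine Multiset.count_eq_zero.2 fun he => ?_
        have := Multiset.mem_of_le hle he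
        simp only [Multiset.insert_eq_cons, Multiset.mem_add, Multiset.mem_replicate, Multiset.mem_cons,
          Multiset.mem_singleton] at this
        omega
    have h1 : ν.count 1 ≤ 2 := (Multiset.count_le_of_le 1 hle).trans (by simp [Multiset.count_replicate])
    obtain ⟨l, hl⟩ := hev 2 even_two
    have hs' := hs
    rw [hνsum] at hs'
    simp only [Multiset.sum_add, Multiset.sum_replicate, smul_eq_mul] at hs'
    have hc1 : ν.count (0 + 1) = 0 := by rw [zero_add]; omega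
    have hc3 : ∀ k, 2 ≤ k → ν.count (k + 1) = 0 := fun k hk => Multiset.count_eq_zero.2 fun he => by
      have := Multiset.mem_of_le hle he
      simp only [Multiset.insert_eq_cons, Multiset.mem_add, Multiset.mem_replicate, Multiset.mem_cons,
        Multiset.mem_singleton] at this
      omega
    have hc := hc1
    rw [hν, CfsgLib.Omega.count_jordanParts, if_pos (by omega), CfsgLib.Omega.rankSeq_zero, hWm] at hc
    have hNW : W.map N ≤ W := by
      rintro _ ⟨v, hv, rfl⟩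
      exact sub_mem (hWinv v hv) hv
    have hconv := CfsgLib.Omega.rankSeq_convex hNW 0
    rw [CfsgLib.Omega.rankSeq_zero, hWm] at hconv
    -- N squares to zero on W
    have hNp' : CfsgLib.Omega.rankSeq N W p = 0 ∧ CfsgLib.Omega.rankSeq N W (p + 1) = 0 := by
      constructor <;> exact CfsgLib.Omega.rankSeq_eq_zero hNp (by omega) W
    have hdown : ∀ i, i + 2 ≤ p → CfsgLib.Omega.rankSeq N W (p - i) = 0 ∧ CfsgLib.Omega.rankSeq N W (p - i + 1) = 0 := by
      intro i
      induction i with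
      | zero => exact fun _ => hNp'
      | succ i ih =>
        intro hi
        obtain ⟨e1, e2⟩ := ih (by omega)
        have h := hc3 (p - (i + 1)) (by omega)
        rw [hν, CfsgLib.Omega.count_jordanParts, if_pos (by omega), show p - (i + 1) + 1 = p - i by omega,
          show p - (i + 1) + 2 = p - i + 1 by omega, e1, e2] at h
        exact ⟨by omega, by rw [show p - (i + 1) + 1 = p - i by omega]; exact e1⟩
    have h2c : CfsgLib.Omega.rankSeq N W 2 = 0 := by
      have := (hdown (p - 2) (by omega)).1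
      rwa [show p - (p - 2) = 2 by omega] at this
    refine hWP ⟨W.map N, hNW, ?_, ?_⟩
    · rintro _ ⟨v, hv, rfl⟩
      have hNN : N (N v) = 0 := by
        unfold CfsgLib.Omega.rankSeq at h2c
        rw [Submodule.finrank_eq_zero] at h2c
        have : (N ^ 2 : Module.End F _) v ∈ W.map (N ^ 2 : Module.End F _) := ⟨v, hv, rfl⟩
        rw [h2c, Submodule.mem_bot, pow_two, Module.End.mul_apply] at this
        exact this
      have hpol : ∀ u w, QuadraticMap.polar Q ((x : Matrix ((Fin (d - 1) ⊕ Fin (d - 1)) ⊕ Fin 2) ((Fin (d - 1) ⊕ Fin (d - 1)) ⊕ Fin 2) F) *ᵥ u) ((x : Matrix ((Fin (d - 1) ⊕ Fin (d - 1)) ⊕ Fin 2) ((Fin (d - 1) ⊕ Fin (d - 1)) ⊕ Fin 2) F) *ᵥ w) =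
          QuadraticMap.polar Q u w := fun u w => by
        simp only [QuadraticMap.polar, ← Matrix.mulVec_add, hiso]
      have hNv : ∀ u, N u = (x : Matrix ((Fin (d - 1) ⊕ Fin (d - 1)) ⊕ Fin 2) ((Fin (d - 1) ⊕ Fin (d - 1)) ⊕ Fin 2) F) *ᵥ u - u := fun u => by simp [hN]
      rw [← hfun]
      rw [hNv, hNv, Matrix.mulVec_sub, sub_sub, sub_eq_zero] at hNN
      have hxx : (x : Matrix ((Fin (d - 1) ⊕ Fin (d - 1)) ⊕ Fin 2) ((Fin (d - 1) ⊕ Fin (d - 1)) ⊕ Fin 2) F) *ᵥ ((x : Matrix ((Fin (d - 1) ⊕ Fin (d - 1)) ⊕ Fin 2) ((Fin (d - 1) ⊕ Fin (d - 1)) ⊕ Fin 2) F) *ᵥ v) =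
          (2 : F) • ((x : Matrix ((Fin (d - 1) ⊕ Fin (d - 1)) ⊕ Fin 2) ((Fin (d - 1) ⊕ Fin (d - 1)) ⊕ Fin 2) F) *ᵥ v) - v := by
        rw [hNN]; module
      have h := hpol ((x : Matrix ((Fin (d - 1) ⊕ Fin (d - 1)) ⊕ Fin 2) ((Fin (d - 1) ⊕ Fin (d - 1)) ⊕ Fin 2) F) *ᵥ v) v
      rw [hxx, QuadraticMap.polar_sub_left, QuadraticMap.polar_smul_left, QuadraticMap.polar_self, nsmul_eq_mul,
        hiso, QuadraticMap.polar_comm (⇑Q) v, smul_eq_mul, Nat.cast_ofNat] at h
      have hxv : QuadraticMap.polar Q ((x : Matrix ((Fin (d - 1) ⊕ Fin (d - 1)) ⊕ Fin 2) ((Fin (d - 1) ⊕ Fin (d - 1)) ⊕ Fin 2) F) *ᵥ v) v = 2 * Q v :=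
        mul_left_cancel₀ h2 (by linear_combination -h)
      rw [hNv, sub_eq_add_neg, QuadraticMap.map_add Q, QuadraticMap.map_neg, hiso, QuadraticMap.polar_neg_right, hxv]
      ring
    · rw [hWm]
      have : CfsgLib.Omega.rankSeq N W 1 = Module.finrank F (W.map N) := by
        rw [CfsgLib.Omega.rankSeq, pow_one]
      simp only [zero_add] at hc hconv
      omega

end Cfsg.Agent.S5994
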