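import Cfsg.Statements.S5995
import Cfsg.Agent.Lib.Omega.OrthUnipotent
import Cfsg.Agent.Lib.ClassicalForms.Ortho.Standard

set_option autoImplicit false
open scoped MatrixGroups Matrix
open Cfsg

namespace Cfsg.Agent.S5995

/-- A necessary condition for every element of order p of Ω_n(q), nq odd, to fix a hyperbolic `m`-space. Here `T = Ω_n(F)`, `n = 2d+1 ≥ 7`, `q` odd, realised as the commutator subgroup of the isometry group of `Q = x₀² + Σ xᵢyᵢ` over the field `F` with `q` elements (trivial centre, so its elements of prime order `r` are used directly); a nondegenerate `m`-space (even `m`) is a subspace on which the polar form of `Q` is nondegenerate; it is hyperbolic if it contains an `m/2`-dimensional subspace on which `Q` vanishes, elliptic otherwise. Let `m` be even with `2 ≤ m ≤ n − 1` and suppose `p` divides the number of hyperbolic `m`-spaces. If every element of `T` of order `p` fixes some hyperbolic `m`-space, then `m ≡ 0 (mod 4)` and every partition of `n` into parts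 of size at most `p` in which every even part has even multiplicity contains (as a sub-multiset) a partition of `m` in which every even part has even multiplicity. -/
theorem result {F : Type*} [Field F] [Fintype F] {p : ℕ} [Fact p.Prime] [CharP F p] {q : ℕ} (hq : Fintype.card F = q) (hqodd : Odd q)
    (d m : ℕ) (hd : 3 ≤ d) (hm : 2 ≤ m) (hme : Even m) (hmn : m ≤ 2 * d)
    (hpΩ : p ∣ Nat.card {W : Submodule F (Unit ⊕ (Fin d ⊕ Fin d) → F) // Module.finrank F ↥W = m ∧ Cfsg.Geo.IsNondegenerateOn (QuadraticMap.polar (Cfsg.quadFormOdd d F)) W ∧ Cfsg.Geo.IsPlusTypeOn (Cfsg.quadFormOdd d F) W}) :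
    (∀ x : GL (Unit ⊕ (Fin d ⊕ Fin d)) F, x ∈ Cfsg.Geo.omegaGL (Cfsg.quadFormOdd d F) → orderOf x = p →
      ∃ W : Submodule F (Unit ⊕ (Fin d ⊕ Fin d) → F), (Module.finrank F ↥W = m ∧ Cfsg.Geo.IsNondegenerateOn (QuadraticMap.polar (Cfsg.quadFormOdd d F)) W ∧ Cfsg.Geo.IsPlusTypeOn (Cfsg.quadFormOdd d F) W) ∧ W.map (Matrix.toLin' (x : Matrix (Unit ⊕ (Fin d ⊕ Fin d)) (Unit ⊕ (Fin d ⊕ Fin d)) F)) ≤ W) →
    (m % 4 = 0 ∧ (∀ μ : Multiset ℕ, (∀ e ∈ μ, 0 < e ∧ e ≤ p) → (∀ e : ℕ, Even e → Even (μ.count e)) → μ.sum = 2 * d + 1 →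
        ∃ ν : Multiset ℕ, ν ≤ μ ∧ ν.sum = m ∧ ∀ e : ℕ, Even e → Even (ν.count e))) := by
  classical
  intro H
  have hpr : p.Prime := Fact.out
  have hp2 : p ≠ 2 := by
    rintro rfl
    obtain ⟨f, -, hf⟩ := FiniteField.card F 2
    rw [← hq, hf] at hqodd
    exact Nat.not_odd_iff_even.2 (Nat.even_pow.2 ⟨even_two, f.pos.ne'⟩) hqodd
  have h2 : (2 : F) ≠ 0 := fun h => hp2 ((Nat.prime_dvd_prime_iff_eq hpr Nat.prime_two).1
    ((CharP.cast_eq_zero_iff F p 2).1 (by exact_mod_cast h)))
  have hp3 : 3 ≤ p := by have := hpr.two_le; omega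
  have hfun : ⇑(CfsgLib.ClassicalForms.qOdd d F) = Cfsg.quadFormOdd d F :=
    funext fun v => CfsgLib.ClassicalForms.qOdd_apply d v
  have main : ∀ μ : Multiset ℕ, (∀ e ∈ μ, 0 < e ∧ e ≤ p) → (∀ e : ℕ, Even e → Even (μ.count e)) →
      μ.sum = 2 * d + 1 → ∃ ν : Multiset ℕ, ν ≤ μ ∧ ν.sum = m ∧ ∀ e : ℕ, Even e → Even (ν.count e) := by
    intro μ hμb hμ hsum
    refine CfsgLib.Omega.exists_subpartition hp2 (CfsgLib.ClassicalForms.qOdd d F)
      (CfsgLib.ClassicalForms.nondeg_iff_polarBilin.2 (CfsgLib.ClassicalForms.nondeg_qOdd h2 d)) m hme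
      (by simp [Fintype.card_sum]; omega) (fun _ => True) ?_ μ hμb hμ (by simp [Fintype.card_sum, hsum]; omega)
    intro x hx hxp hns
    rw [hfun] at hx
    obtain ⟨W, ⟨hW1, hW2, -⟩, hW3⟩ := H x hx (orderOf_eq_prime hxp fun h1 => hns 1 (by rw [h1, one_smul]; rfl))
    exact ⟨W, hW1, fun u hu hu0 => by rw [hfun]; exact (hW2 u hu hu0).1, trivial, hW3⟩
  refine ⟨?_, main⟩
  -- parts 2, and one part 1 or 3
  obtain ⟨k, c, hk, hc, hsum⟩ : ∃ k c, Even k ∧ (c = 1 ∨ c = 3) ∧ 2 * k + c = 2 * d + 1 := by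
    rcases Nat.even_or_odd d with h | h
    · exact ⟨d, 1, h, .inl rfl, rfl⟩
    · exact ⟨d - 1, 3, Nat.Odd.sub_odd h odd_one, .inr rfl, by omega⟩
  have m1 : ∀ e ∈ (Multiset.replicate k 2 + {c} : Multiset ℕ), 0 < e ∧ e ≤ p := fun e he => by
    simp only [Multiset.mem_add, Multiset.mem_replicate, Multiset.mem_singleton] at he
    omega
  have m2 : ∀ e : ℕ, Even e → Even ((Multiset.replicate k 2 + {c} : Multiset ℕ).count e) := fun e he => by
    rw [Multiset.count_add, Multiset.count_replicate, Multiset.count_singleton]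
    obtain ⟨i, hi⟩ := he
    rw [if_neg (show ¬ e = c by omega)]
    split_ifs
    · simpa using hk
    · exact ⟨0, rfl⟩
  obtain ⟨ν, hle, hs, hev⟩ := main (Multiset.replicate k 2 + {c}) m1 m2 (by simp; omega)
  · have hcν : ν.count c ≤ 1 := by
      refine (Multiset.count_le_of_le c hle).trans ?_
      rw [Multiset.count_add, Multiset.count_replicate, Multiset.count_singleton_self, if_neg (by omega)]
    have hνsum : ν = Multiset.replicate (ν.count 2) 2 + Multiset.replicate (ν.count c) c := by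
      ext e
      rw [Multiset.count_add, Multiset.count_replicate, Multiset.count_replicate]
      by_cases h2e : e = 2
      · subst h2e; simp [show ¬ c = 2 by omega]
      · by_cases hce : e = c
        · subst hce; simp [show ¬ 2 = e by omega]
        · rw [if_neg (Ne.symm h2e), if_neg (Ne.symm hce)]
          refine Multiset.count_eq_zero.2 fun he => ?_
          have := Multiset.mem_of_le hle he
          simp [Multiset.mem_replicate, h2e, hce] at this
    obtain ⟨i, hi⟩ := hev 2 even_two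
    rw [hνsum, Multiset.sum_add, Multiset.sum_replicate, Multiset.sum_replicate, smul_eq_mul, smul_eq_mul] at hs
    obtain ⟨j, hj⟩ := hme
    rcases Nat.le_one_iff_eq_zero_or_eq_one.1 hcν with h | h <;> rw [h] at hs <;> omega

end Cfsg.Agent.S5995
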