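import Cfsg.Statements.S5997
import Cfsg.Agent.Lib.Omega.TwoByTwo

set_option autoImplicit false
open scoped MatrixGroups Matrix
open Cfsg

namespace Cfsg.Agent.S5997

/-- Elements of prime order of PSL_2(p) and the normalizer of a quaternion subgroup. Here `T = PSL_2(F)` for the field `F` with `p` elements, `p ≥ 5` prime; `R` is a subgroup of GL_2(F) isomorphic to the quaternion group of order 8 (an absolutely irreducible 2-group of symplectic type), and `H` is the subgroup of matrices of determinant 1 normalizing `R` — a subgroup of type 2^{1+2}.O₂⁻(2), isomorphic modulo scalars to A₄ or S₄ (maximality is not assumed). Ω is the set of cosets of `H` in `T`, so an element of `T` of prime order `r` (a matrix `x` of determinant 1 with `x^r` scalar, `x` not scalar) fixes a point of Ω exactly when some conjugate of `x` by a matrix of determinant 1 normalizes `R`. Let `r` be a prime dividing the index of `H`. Then every element of `T` of order `r` fixes a point of Ω if and only if `r = 2` or `r = 3`. -/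
theorem result {F : Type*} [Field F] [Fintype F] {p : ℕ} [Fact p.Prime] [CharP F p] (hF : Fintype.card F = p) (hp : 5 ≤ p)
    (R : Subgroup (GL (Fin 2) F)) (hR : Nonempty (↥R ≃* QuaternionGroup 2))
    (r : ℕ) [Fact r.Prime]
    (hΩ : r ∣ (Cfsg.Geo.subgroupNormalizer R).relIndex (Cfsg.Geo.specialLinear (Fin 2) F)) :
    (∀ x ∈ Cfsg.Geo.specialLinear (Fin 2) F, (∃ z : F, ((x ^ r : GL (Fin 2) F) : Matrix (Fin 2) (Fin 2) F) = z • (1 : Matrix (Fin 2) (Fin 2) F)) →
      (∀ z : F, (x : Matrix (Fin 2) (Fin 2) F) ≠ z • (1 : Matrix (Fin 2) (Fin 2) F)) →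
      ∃ g ∈ Cfsg.Geo.specialLinear (Fin 2) F, g⁻¹ * x * g ∈ Cfsg.Geo.subgroupNormalizer R) ↔ (r = 2 ∨ r = 3) := by
  classical
  obtain ⟨φ⟩ := hR
  let ψ : QuaternionGroup 2 →* GL (Fin 2) F := R.subtype.comp φ.symm.toMonoidHom
  have hψR : ∀ g, ψ g ∈ R := fun g => (φ.symm g).2
  have hψinj : Function.Injective ψ := Subtype.val_injective.comp φ.symm.injective
  have hψsurj : ∀ s ∈ R, ∃ g, ψ g = s := fun s hs => ⟨φ ⟨s, hs⟩, by simp [ψ]⟩
  have hodd : Fintype.card F % 2 = 1 := by
    rw [hF]
    exact Nat.odd_iff.1 ((Fact.out (p := p.Prime)).odd_of_ne_two (by omega))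
  have h2 : (2 : F) ≠ 0 := Ring.two_ne_zero fun h => by
    have := FiniteField.even_card_iff_char_two.1 h; omega
  have h3 : (3 : F) ≠ 0 := by
    intro h
    have h' : ((3 : ℕ) : F) = 0 := by exact_mod_cast h
    rw [CharP.cast_eq_zero_iff F p] at h'
    have := Nat.le_of_dvd (by norm_num) h'
    omega
  set c := ψ (QuaternionGroup.a 2) with hc
  set a := ψ (QuaternionGroup.a 1) with ha
  set b := ψ (QuaternionGroup.xa 0) with hb
  have haa : a * a = c := by rw [ha, hc, ← map_mul]; exact congrArg ψ (by decide)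
  have hbb : b * b = c := by rw [hb, hc, ← map_mul]; exact congrArg ψ (by decide)
  have hba : b * a = c * (a * b) := by
    rw [ha, hb, hc, ← map_mul, ← map_mul, ← map_mul]; exact congrArg ψ (by decide)
  have hc1 : c ≠ 1 := by
    rw [hc, ← map_one ψ]; exact fun h => absurd (hψinj h) (by decide)
  have hcc : c * c = 1 := by
    rw [hc, ← map_mul, ← map_one ψ]; exact congrArg ψ (by decide)
  have hb1 : b ≠ 1 := by
    rw [hb, ← map_one ψ]; exact fun h => absurd (hψinj h) (by decide)
  set A : Matrix (Fin 2) (Fin 2) F := (a : Matrix (Fin 2) (Fin 2) F) with hA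
  set B : Matrix (Fin 2) (Fin 2) F := (b : Matrix (Fin 2) (Fin 2) F) with hB
  set C : Matrix (Fin 2) (Fin 2) F := (c : Matrix (Fin 2) (Fin 2) F) with hCdef
  have hdetC : C.det = 1 := by
    have h1 := congrArg (fun g : GL (Fin 2) F => (g : Matrix (Fin 2) (Fin 2) F).det) hba
    simp only [Units.val_mul, Matrix.det_mul] at h1
    refine mul_right_cancel₀ (mul_ne_zero a.det_ne_zero b.det_ne_zero) ?_
    rw [one_mul, ← h1, mul_comm]
  have hC : C = (-1 : Matrix (Fin 2) (Fin 2) F) := by
    by_cases hs : ∃ z : F, C = z • (1 : Matrix (Fin 2) (Fin 2) F)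
    · obtain ⟨z, hz⟩ := hs
      have h1 : C * C = 1 := by rw [hCdef, ← Units.val_mul, hcc, Units.val_one]
      rw [hz] at h1
      have h00 := congrFun (congrFun h1 0) 0
      simp at h00
      have hz2 : (z - 1) * (z + 1) = 0 := by linear_combination h00
      rcases mul_eq_zero.1 hz2 with h | h
      · exfalso
        apply hc1
        apply Units.ext
        rw [← hCdef, hz, sub_eq_zero.1 h, one_smul, Units.val_one]
      · rw [hz, eq_neg_of_add_eq_zero_left h, neg_one_smul]
    · push Not at hs
      have h1 : C * C = 1 := by rw [hCdef, ← Units.val_mul, hcc, Units.val_one]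
      have h2' : C.trace • C = (2 : F) • (1 : Matrix (Fin 2) (Fin 2) F) := by
        have := CfsgLib.Omega.mul_self_fin_two C
        rw [h1, hdetC, one_smul, eq_sub_iff_add_eq] at this
        rw [← this, two_smul]
      exact absurd (CfsgLib.Omega.eq_zero_of_smul_eq_smul_one hs h2').2 h2
  have hAA : A * A = -1 := by rw [hA, ← Units.val_mul, haa, ← hCdef, hC]
  have hBB : B * B = -1 := by rw [hB, ← Units.val_mul, hbb, ← hCdef, hC]
  have hBA : B * A = -(A * B) := by
    rw [hA, hB, ← Units.val_mul, hba, Units.val_mul, Units.val_mul, ← hCdef, hC, neg_one_mul]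
  have hAns : ∀ z : F, A ≠ z • 1 := by
    intro z hz
    have h1 := hBA
    rw [hz] at h1
    simp only [Matrix.mul_smul, Matrix.smul_mul, mul_one, one_mul] at h1
    have h2' : (2 * z) • B = 0 := by rw [two_mul, add_smul]; exact eq_neg_iff_add_eq_zero.1 h1
    rcases smul_eq_zero.1 h2' with h | h
    · rcases mul_eq_zero.1 h with h | h
      · exact h2 h
      · exact a.ne_zero (by rw [← hA, hz, h, zero_smul])
    · exact b.ne_zero h
  have hAt : A.trace = 0 ∧ A.det - 1 = 0 := by
    refine CfsgLib.Omega.eq_zero_of_smul_eq_smul_one hAns ?_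
    have := CfsgLib.Omega.mul_self_fin_two A
    rw [hAA] at this
    rw [sub_smul, one_smul, sub_eq_add_neg, this]
    abel
  set W : Matrix (Fin 2) (Fin 2) F := (2 : F)⁻¹ • (-1 + A + B + A * B) with hW
  clear_value W
  have hABA : A * B * A = B := by
    rw [Matrix.mul_assoc, hBA, Matrix.mul_neg, ← Matrix.mul_assoc, hAA]; simp
  have hBAB : B * A * B = A := by
    rw [hBA, Matrix.neg_mul, Matrix.mul_assoc, hBB]; simp
  have hWA : W * A = (A * B) * W := by
    rw [hW, Matrix.smul_mul, Matrix.mul_smul]
    congr 1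
    simp only [Matrix.add_mul, Matrix.mul_add, Matrix.neg_mul, one_mul, Matrix.mul_neg, mul_one]
    rw [hABA, hAA, hBA, Matrix.mul_assoc A B B, hBB,
      show A * B * (A * B) = B * B by rw [← Matrix.mul_assoc, hABA], hBB]
    simp
    abel
  have hWB : W * B = A * W := by
    rw [hW, Matrix.smul_mul, Matrix.mul_smul]
    congr 1
    simp only [Matrix.add_mul, Matrix.mul_add, Matrix.neg_mul, one_mul, Matrix.mul_neg, mul_one]
    rw [hAA, hBB, Matrix.mul_assoc A B B, hBB, ← Matrix.mul_assoc A A B, hAA]
    simp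
    abel
  have hWW : W * W + W + 1 = 0 := by
    have hs : (A + B + A * B) * (A + B + A * B) = (-3 : F) • 1 := by
      simp only [Matrix.add_mul, Matrix.mul_add]
      rw [hABA, hAA, hBB, hBA, ← Matrix.mul_assoc A A B, hAA, Matrix.mul_assoc A B B, hBB,
        ← Matrix.mul_assoc B A B, hBAB,
        show A * B * (A * B) = B * B by rw [← Matrix.mul_assoc, hABA], hBB]
      rw [show ((-3 : F)) = -1 + -1 + -1 by norm_num, add_smul, add_smul, neg_one_smul]
      simp
      abel
    have h4 : (4 : F) ≠ 0 := by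
      rw [show (4 : F) = 2 * 2 by norm_num]; exact mul_ne_zero h2 h2
    refine smul_right_injective _ h4 ?_
    show (4 : F) • (W * W + W + 1) = (4 : F) • 0
    set S := A + B + A * B with hS
    have hW2 : (2 : F) • W = -1 + S := by
      rw [hW, smul_smul, mul_inv_cancel₀ h2, one_smul, hS]; abel
    have e4 : (4 : F) • (W * W) = ((2 : F) • W) * ((2 : F) • W) := by
      rw [Matrix.smul_mul, Matrix.mul_smul, smul_smul, show (2 : F) * 2 = 4 by norm_num]
    have e5 : (4 : F) • W = (2 : F) • ((2 : F) • W) := by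
      rw [smul_smul, show (2 : F) * 2 = 4 by norm_num]
    rw [smul_add, smul_add, e4, e5, hW2, smul_zero]
    simp only [Matrix.add_mul, Matrix.mul_add, Matrix.neg_mul, one_mul, Matrix.mul_neg, mul_one, hs]
    module
  have hWunit : W * (-W - 1) = 1 := by
    rw [Matrix.mul_sub, Matrix.mul_neg, mul_one, eq_comm, ← sub_eq_zero, ← hWW]; abel
  have hWunit' : (-W - 1) * W = 1 := by
    rw [Matrix.sub_mul, Matrix.neg_mul, one_mul, eq_comm, ← sub_eq_zero, ← hWW]; abel
  let w : GL (Fin 2) F := ⟨W, -W - 1, hWunit, hWunit'⟩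
  haveI : Finite R := inferInstance
  have hwN : w ∈ Cfsg.Geo.subgroupNormalizer R := by
    refine CfsgLib.Omega.mem_normalizer_of_forall_mem R w ?_
    have ea : w * a * w⁻¹ = a * b := by
      rw [mul_inv_eq_iff_eq_mul]; exact Units.ext hWA
    have eb : w * b * w⁻¹ = a := by
      rw [mul_inv_eq_iff_eq_mul]; exact Units.ext hWB
    intro s hs
    obtain ⟨g, rfl⟩ := hψsurj s hs
    have hgen : ∀ g : QuaternionGroup 2, ∃ i : Fin 4, ∃ j : Fin 2,
        g = QuaternionGroup.a 1 ^ (i : ℕ) * QuaternionGroup.xa 0 ^ (j : ℕ) := by decide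
    obtain ⟨i, j, rfl⟩ := hgen g
    rw [map_mul, map_pow, map_pow, ← conj_mul, ← conj_pow, ← conj_pow, ← ha, ← hb, ea, eb]
    exact mul_mem (pow_mem (mul_mem (hψR _) (hψR _)) _) (pow_mem (hψR _) _)
  have hRN : ∀ s ∈ R, s ∈ Cfsg.Geo.subgroupNormalizer R := fun s hs => Subgroup.le_normalizer hs
  have hWns : ∀ z : F, W ≠ z • 1 := by
    intro z hz
    have h1 := hWA
    rw [hz, Matrix.smul_mul, Matrix.mul_smul, one_mul, mul_one] at h1
    have hz0 : z ≠ 0 := by rintro rfl; exact w.ne_zero (by show W = 0; rw [hz, zero_smul])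
    have h2' : A = A * B := smul_right_injective _ hz0 h1
    apply hb1
    apply mul_left_cancel (a := a)
    rw [mul_one]
    exact Units.ext h2'.symm
  have hWt : W.trace + 1 = 0 ∧ W.det - 1 = 0 := by
    refine CfsgLib.Omega.eq_zero_of_smul_eq_smul_one hWns ?_
    have h1 := CfsgLib.Omega.mul_self_fin_two W
    have h2' : W * W = -W - 1 := by rw [← sub_eq_zero, ← hWW]; abel
    rw [h2'] at h1
    linear_combination (norm := module) (-1 : F) • h1
  have hr := Fact.out (p := r.Prime)
  constructor
  · intro hall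
    by_contra hne
    push Not at hne
    have h5 : 5 ≤ r := by
      have := hr.two_le
      by_contra h
      interval_cases r <;> simp_all (config := { decide := true })
    have hdvd : r ∣ Nat.card ↥(Cfsg.Geo.specialLinear (Fin 2) F) :=
      hΩ.trans (Subgroup.index_dvd_card _)
    obtain ⟨⟨x, hx⟩, hxr⟩ := exists_prime_orderOf_dvd_card' r hdvd
    have hxr' : orderOf x = r := by
      rw [← hxr]; exact (Subgroup.orderOf_mk x hx).symm
    have hxpow : x ^ r = 1 := by rw [← hxr']; exact pow_orderOf_eq_one x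
    obtain ⟨g, -, hy⟩ := hall x hx ⟨1, by rw [hxpow, Units.val_one, one_smul]⟩ (by
      intro z hz
      have hz2 := CfsgLib.Omega.mem_specialLinear.1 hx
      rw [hz] at hz2
      simp only [Matrix.det_smul, Matrix.det_one, mul_one, Fintype.card_fin] at hz2
      have hx2 : x ^ 2 = 1 := by
        apply Units.ext
        rw [Units.val_pow_eq_pow_val, hz, smul_pow, one_pow, hz2, one_smul, Units.val_one]
      have := Nat.le_of_dvd two_pos (orderOf_dvd_of_pow_eq_one hx2)
      omega)
    set y := g⁻¹ * x * g with hydef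
    have hyr : y ^ r = 1 := by
      rw [hydef]
      calc (g⁻¹ * x * g) ^ r = (g⁻¹ * x * g⁻¹⁻¹) ^ r := by rw [inv_inv]
        _ = g⁻¹ * x ^ r * g⁻¹⁻¹ := conj_pow
        _ = 1 := by rw [hxpow]; group
    have hmod := CfsgLib.Omega.card_modEq_card_fixed R hy hyr
    have hR8 : Nat.card R = 8 := by
      rw [Nat.card_congr φ.toEquiv, Nat.card_eq_fintype_card]; rfl
    have hfix_dvd : Nat.card ↥(R ⊓ Subgroup.centralizer {y}) ∣ 8 :=
      hR8 ▸ Subgroup.card_dvd_of_le inf_le_left
    have hcfix : c ∈ R ⊓ Subgroup.centralizer {y} := by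
      refine ⟨hψR _, ?_⟩
      show c ∈ Subgroup.centralizer {y}
      rw [Subgroup.mem_centralizer_iff]
      intro h hh
      rw [Set.mem_singleton_iff.1 hh]
      apply Units.ext
      show ((y : GL (Fin 2) F) : Matrix (Fin 2) (Fin 2) F) * C = C * (y : Matrix (Fin 2) (Fin 2) F)
      rw [hC]; simp
    have hfix1 : Nat.card ↥(R ⊓ Subgroup.centralizer {y}) ≠ 1 := by
      rw [Ne, Subgroup.card_eq_one]
      intro h
      rw [h, Subgroup.mem_bot] at hcfix
      exact hc1 hcfix
    set k := Nat.card ↥(R ⊓ Subgroup.centralizer {y}) with hk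
    have hk8 : k = 8 := by
      have hk8le : k ≤ 8 := Nat.le_of_dvd (by norm_num) hfix_dvd
      rw [hR8] at hmod
      have hdiv : r ∣ 8 - k := (Nat.modEq_iff_dvd' hk8le).1 hmod.symm
      by_contra hne8
      have := Nat.le_of_dvd (by omega) hdiv
      interval_cases k <;> interval_cases r <;> simp_all (config := { decide := true })
    have heq : R ⊓ Subgroup.centralizer {y} = R :=
      Subgroup.eq_of_le_of_card_ge inf_le_left (by omega)
    have hcomm : ∀ s ∈ R, y * s = s * y := fun s hs => by
      rw [← heq] at hs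
      exact Subgroup.mem_centralizer_iff.1 hs.2 y rfl
    set Y : Matrix (Fin 2) (Fin 2) F := (y : Matrix (Fin 2) (Fin 2) F) with hY
    have hYA : Y * A = A * Y := congrArg Units.val (hcomm a (hψR _))
    have hYB : Y * B = B * Y := congrArg Units.val (hcomm b (hψR _))
    obtain ⟨ga, hga⟩ := CfsgLib.Omega.exists_conj_companion hAns
    rw [hAt.1, sub_eq_zero.1 hAt.2] at hga
    set J : Matrix (Fin 2) (Fin 2) F := !![0, -1; 1, 0] with hJ
    set G : Matrix (Fin 2) (Fin 2) F := (ga : Matrix (Fin 2) (Fin 2) F) with hG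
    set G' : Matrix (Fin 2) (Fin 2) F := ((ga⁻¹ : GL (Fin 2) F) : Matrix (Fin 2) (Fin 2) F) with hG'
    have hGG : G * G' = 1 := by rw [hG, hG', ← Units.val_mul, mul_inv_cancel, Units.val_one]
    have hGG' : G' * G = 1 := by rw [hG, hG', ← Units.val_mul, inv_mul_cancel, Units.val_one]
    have hA' : G' * A * G = J := by rw [Matrix.mul_assoc, hga, ← Matrix.mul_assoc, hGG', one_mul]
    have tr : ∀ P Q : Matrix (Fin 2) (Fin 2) F, G' * P * G * (G' * Q * G) = G' * (P * Q) * G := by
      intro P Q
      calc G' * P * G * (G' * Q * G) = G' * P * (G * G') * Q * G := by simp [Matrix.mul_assoc]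
        _ = G' * (P * Q) * G := by rw [hGG, mul_one]; simp [Matrix.mul_assoc]
    have e1 : G' * Y * G * J = J * (G' * Y * G) := by rw [← hA', tr, tr, hYA]
    have e2 : G' * B * G * J = -(J * (G' * B * G)) := by
      rw [← hA', tr, tr, hBA, Matrix.mul_neg, Matrix.neg_mul]
    have e3 : G' * Y * G * (G' * B * G) = G' * B * G * (G' * Y * G) := by rw [tr, tr, hYB]
    set Y' := G' * Y * G with hY'
    set B' := G' * B * G with hB'
    have hB0 : B' ≠ 0 := by
      intro h
      apply b.ne_zero
      show B = 0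
      calc B = (G * G') * B * (G * G') := by rw [hGG, one_mul, mul_one]
        _ = G * B' * G' := by simp [hB', Matrix.mul_assoc]
        _ = 0 := by rw [h]; simp
    have y11 := congrFun (congrFun e1 0) 1
    have y00 := congrFun (congrFun e1 0) 0
    have b11 := congrFun (congrFun e2 0) 1
    have b00 := congrFun (congrFun e2 0) 0
    simp only [Matrix.neg_apply, Matrix.mul_apply, Fin.sum_univ_two] at y00 y11 b00 b11
    simp [hJ] at y00 y11 b00 b11
    have hy10 : Y' 1 0 = 0 := by
      have c00 := congrFun (congrFun e3 0) 0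
      have c01 := congrFun (congrFun e3 0) 1
      simp [Matrix.mul_apply, Fin.sum_univ_two] at c00 c01
      by_contra hne0
      apply hB0
      have hz01 : B' 0 1 = 0 := by
        rw [y00, ← b00] at c00
        have : (2 * Y' 1 0) * B' 0 1 = 0 := by linear_combination (-1 : F) * c00
        exact (mul_eq_zero.1 this).resolve_left (mul_ne_zero h2 hne0)
      have hz00 : B' 0 0 = 0 := by
        rw [y00, ← y11, show B' 1 1 = - B' 0 0 by linear_combination (-1 : F) * b11] at c01
        have : (2 * Y' 1 0) * B' 0 0 = 0 := by linear_combination c01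
        exact (mul_eq_zero.1 this).resolve_left (mul_ne_zero h2 hne0)
      ext i j
      fin_cases i <;> fin_cases j
      · exact hz00
      · exact hz01
      · show B' 1 0 = 0; linear_combination hz01 - b00
      · show B' 1 1 = 0; linear_combination (-1 : F) * b11 - hz00
    have hYs : Y = Y' 0 0 • 1 := by
      have h1 : Y' = Y' 0 0 • 1 := by
        ext i j
        fin_cases i <;> fin_cases j <;> simp [hy10]
        · linear_combination y00 - hy10
        · linear_combination (-1 : F) * y11
      calc Y = (G * G') * Y * (G * G') := by rw [hGG, one_mul, mul_one]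
        _ = G * Y' * G' := by simp [hY', Matrix.mul_assoc]
        _ = G * (Y' 0 0 • 1) * G' := by rw [← h1]
        _ = Y' 0 0 • 1 := by simp [hGG]
    have hxscalar : (x : Matrix (Fin 2) (Fin 2) F) = Y' 0 0 • 1 := by
      have hx' : x = g * y * g⁻¹ := by rw [hydef]; group
      rw [hx', Units.val_mul, Units.val_mul, ← hY, hYs]
      simp
    have hz2 := CfsgLib.Omega.mem_specialLinear.1 hx
    rw [hxscalar] at hz2
    simp only [Matrix.det_smul, Matrix.det_one, mul_one, Fintype.card_fin] at hz2
    have hx2 : x ^ 2 = 1 := by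
      apply Units.ext
      rw [Units.val_pow_eq_pow_val, hxscalar, smul_pow, one_pow, hz2, one_smul, Units.val_one]
    have := Nat.le_of_dvd two_pos (orderOf_dvd_of_pow_eq_one hx2)
    omega
  · rintro (rfl | rfl) x hx ⟨z, hz⟩ hns
    · have hd := CfsgLib.Omega.mem_specialLinear.1 hx
      set X : Matrix (Fin 2) (Fin 2) F := (x : Matrix (Fin 2) (Fin 2) F) with hX
      have h1 : X.trace • X = (z + 1) • (1 : Matrix (Fin 2) (Fin 2) F) := by
        have := CfsgLib.Omega.mul_self_fin_two X
        rw [hX, ← Units.val_mul, ← pow_two, hz, ← hX, hd, one_smul, eq_sub_iff_add_eq] at this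
        rw [add_smul, one_smul, this]
      have ht := (CfsgLib.Omega.eq_zero_of_smul_eq_smul_one hns h1).1
      obtain ⟨g, hg, hgx⟩ := CfsgLib.Omega.exists_sl_conj_two hodd x a hns hAns (ht.trans hAt.1.symm)
        (hd.trans (sub_eq_zero.1 hAt.2).symm) (by
          rw [← hA, hAt.1, sub_eq_zero.1 hAt.2]
          simp only [mul_one, ne_eq, zero_pow two_ne_zero]
          intro h
          exact mul_ne_zero h2 h2 (by linear_combination (-1 : F) * h))
      exact ⟨g, hg, hgx ▸ hRN a (hψR _)⟩
    · have hd := CfsgLib.Omega.mem_specialLinear.1 hx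
      set X : Matrix (Fin 2) (Fin 2) F := (x : Matrix (Fin 2) (Fin 2) F) with hX
      have hXX : X * X = X.trace • X - 1 := by
        have := CfsgLib.Omega.mul_self_fin_two X
        rwa [show X.det = 1 from hd, one_smul] at this
      have h1 : (X.trace ^ 2 - 1) • X = (z + X.trace) • (1 : Matrix (Fin 2) (Fin 2) F) := by
        have h3' : X * X * X = z • (1 : Matrix (Fin 2) (Fin 2) F) := by
          rw [← hz, Units.val_pow_eq_pow_val, pow_three]; simp [hX, Matrix.mul_assoc]
        rw [hXX, Matrix.sub_mul, Matrix.smul_mul, one_mul, hXX] at h3'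
        rw [add_smul, ← h3']
        module
      have ht := (CfsgLib.Omega.eq_zero_of_smul_eq_smul_one hns h1).1
      have ht' : (X.trace - 1) * (X.trace + 1) = 0 := by linear_combination ht
      rcases mul_eq_zero.1 ht' with ht1 | ht1
      · have hcw : ((c * w : GL (Fin 2) F) : Matrix (Fin 2) (Fin 2) F) = -W := by
          rw [Units.val_mul, ← hCdef, hC, neg_one_mul]
        obtain ⟨g, hg, hgx⟩ := CfsgLib.Omega.exists_sl_conj_two hodd x (c * w) hns (by
            intro z' hz'
            rw [hcw] at hz'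
            exact hWns (-z') (by rw [neg_smul, ← hz', neg_neg]))
          (by rw [hcw, Matrix.trace_neg]; linear_combination ht1 + hWt.1)
          (by rw [hcw, Matrix.det_neg]; simp; rw [hd]; linear_combination (-1 : F) * hWt.2)
          (by
            rw [hcw, Matrix.trace_neg, Matrix.det_neg]; simp
            rw [eq_neg_of_add_eq_zero_left hWt.1, sub_eq_zero.1 hWt.2]
            intro h; exact h3 (by linear_combination (-1 : F) * h))
        exact ⟨g, hg, hgx ▸ mul_mem (hRN c (hψR _)) hwN⟩
      · obtain ⟨g, hg, hgx⟩ := CfsgLib.Omega.exists_sl_conj_two hodd x w hns hWns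
          (show X.trace = W.trace by linear_combination ht1 - hWt.1)
          (show X.det = W.det by rw [hd]; linear_combination (-1 : F) * hWt.2)
          (show W.trace ^ 2 ≠ 4 * W.det by
            rw [eq_neg_of_add_eq_zero_left hWt.1, sub_eq_zero.1 hWt.2]
            intro h; exact h3 (by linear_combination (-1 : F) * h))
        exact ⟨g, hg, hgx ▸ hwN⟩

end Cfsg.Agent.S5997
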