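import Cfsg.Statements.S5998
import Cfsg.Agent.Lib.Omega.Extraspecial27
import Cfsg.Agent.Lib.Omega.DimThree

set_option autoImplicit false
open scoped MatrixGroups Matrix
open Cfsg

namespace Cfsg.Agent.S5998

/-- Elements of prime order of PSL_3(p), p ≡ 1 (mod 3), and the normalizer of an extraspecial subgroup of order 27. Here `T = PSL_3(F)` for the field `F` with `p` elements, `p` a prime with `p ≡ 1 (mod 3)`; `R` is a non-abelian subgroup of GL_3(F) of order 27 and exponent 3 (an extraspecial group 3^{1+2}, acting absolutely irreducibly), and `H` is the subgroup of matrices of determinant 1 normalizing `R` — a subgroup of type 3^{1+2}.Sp₂(3) (maximality is not assumed). Ω is the set of cosets of `H` in `T`, so an element of `T` of prime order `r` (a matrix `x` of determinant 1 with `x^r` scalar, `x` not scalar) fixes a point of Ω exactly when some conjugate of `x` by a matrix of determinant 1 normalizes `R`. Let `r` be a prime dividing the index of `H`. Then every element of `T` of order `r` fixes a point of Ω if and only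 if `r = 2`, or `r = 3` and `p ≡ 1 (mod 9)`. -/
theorem result {F : Type*} [Field F] [Fintype F] {p : ℕ} [Fact p.Prime] [CharP F p] (hF : Fintype.card F = p) (hp3 : p % 3 = 1)
    (R : Subgroup (GL (Fin 3) F)) (hR : Nat.card R = 27) (hRe : Monoid.exponent R = 3) (hRna : ¬ IsMulCommutative R)
    (r : ℕ) [Fact r.Prime]
    (hΩ : r ∣ (Cfsg.Geo.subgroupNormalizer R).relIndex (Cfsg.Geo.specialLinear (Fin 3) F)) :
    (∀ x ∈ Cfsg.Geo.specialLinear (Fin 3) F, (∃ z : F, ((x ^ r : GL (Fin 3) F) : Matrix (Fin 3) (Fin 3) F) = z • (1 : Matrix (Fin 3) (Fin 3) F)) →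
      (∀ z : F, (x : Matrix (Fin 3) (Fin 3) F) ≠ z • (1 : Matrix (Fin 3) (Fin 3) F)) →
      ∃ g ∈ Cfsg.Geo.specialLinear (Fin 3) F, g⁻¹ * x * g ∈ Cfsg.Geo.subgroupNormalizer R) ↔ (r = 2 ∨ (r = 3 ∧ p % 9 = 1)) := by
  classical
  have hpp := Fact.out (p := p.Prime)
  have h3 : (3 : F) ≠ 0 := by
    intro h
    have h' : ((3 : ℕ) : F) = 0 := by exact_mod_cast h
    rw [CharP.cast_eq_zero_iff F p] at h'
    have := (Nat.prime_dvd_prime_iff_eq hpp Nat.prime_three).1 h'
    omega
  have h2 : (2 : F) ≠ 0 := by
    intro h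
    have h' : ((2 : ℕ) : F) = 0 := by exact_mod_cast h
    rw [CharP.cast_eq_zero_iff F p] at h'
    have := (Nat.prime_dvd_prime_iff_eq hpp Nat.prime_two).1 h'
    omega
  haveI : Fact (Nat.Prime 3) := ⟨Nat.prime_three⟩
  obtain ⟨ω, hω⟩ := exists_prime_orderOf_dvd_card' 3 (G := Fˣ) (by
    rw [Nat.card_eq_fintype_card, Fintype.card_units, hF]; omega)
  have hω1 : (ω : F) ≠ 1 := fun h => by
    rw [Units.val_eq_one] at h; simp [h] at hω
  have hω3 : (ω : F) ^ 3 = 1 := by
    rw [← Units.val_pow_eq_pow_val, ← hω, pow_orderOf_eq_one, Units.val_one]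
  obtain ⟨lam, ⟨fr⟩⟩ := CfsgLib.Omega.exists_frame27 h3 hω1 hω3 R hR hRe hRna
  have hscalar : ∀ z : F, z ≠ 0 → ∀ s : GL (Fin 3) F, (s : Matrix (Fin 3) (Fin 3) F) = z • 1 →
      s ∈ Cfsg.Geo.subgroupNormalizer R := by
    intro z _ s hs
    refine fr.diag_mem_normalizer s z (fun _ => 0) 0 0 (fun i => ?_) (fun i => by simp)
    simp [hs, Matrix.smul_mulVec]
  have hr := Fact.out (p := r.Prime)
  constructor
  · intro hall
    by_contra hne
    push Not at hne
    by_cases hr3 : r = 3
    · subst hr3
      have hmod : p % 9 = 4 ∨ p % 9 = 7 := by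
        have := hne.2 rfl
        omega
      have hRSL : R ≤ Cfsg.Geo.specialLinear (Fin 3) F := by
        rw [← fr.gen, Subgroup.closure_le]
        have hdet : ∀ (g : GL (Fin 3) F) (M : Matrix (Fin 3) (Fin 3) F),
            LinearMap.toMatrix fr.v fr.v (Matrix.toLin' (g : Matrix (Fin 3) (Fin 3) F)) = M →
            (g : Matrix (Fin 3) (Fin 3) F).det = M.det := by
          rintro g M rfl
          rw [LinearMap.det_toMatrix, LinearMap.det_toLin']
        rintro g (rfl | rfl)
        · show fr.a ∈ Cfsg.Geo.specialLinear (Fin 3) F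
          rw [CfsgLib.Omega.mem_specialLinear,
            hdet fr.a (Matrix.diagonal fun i : Fin 3 => lam ^ (i : ℕ))]
          · simp [Matrix.det_diagonal, Fin.prod_univ_three, ← pow_succ', fr.lam_cube]
          · ext i j
            rw [LinearMap.toMatrix_apply, Matrix.toLin'_apply, fr.ha]
            by_cases hij : i = j
            · subst hij; simp
            · simp [hij, Matrix.diagonal_apply_ne _ hij, Ne.symm hij]
        · show fr.b ∈ Cfsg.Geo.specialLinear (Fin 3) F
          rw [CfsgLib.Omega.mem_specialLinear,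
            hdet fr.b (Matrix.of fun i j : Fin 3 => if i = j + 1 then (1 : F) else 0)]
          · simp [Matrix.det_fin_three]
          · ext i j
            rw [LinearMap.toMatrix_apply, Matrix.toLin'_apply, fr.hb]
            simp [Finsupp.single_apply, eq_comm]
      set S := Cfsg.Geo.specialLinear (Fin 3) F with hS
      set N := Cfsg.Geo.subgroupNormalizer R with hN
      have h81 : 81 ∣ Nat.card S := by
        rw [← Subgroup.card_mul_index (N.subgroupOf S)]
        have h27 : 27 ∣ Nat.card (N.subgroupOf S) := by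
          have hle : R.subgroupOf S ≤ N.subgroupOf S := fun g hg => Subgroup.le_normalizer hg
          have := Subgroup.card_dvd_of_le hle
          rwa [Nat.card_congr (Subgroup.subgroupOfEquivOfLe hRSL).toEquiv, hR] at this
        exact (Nat.mul_dvd_mul h27 hΩ : 27 * 3 ∣ _)
      have hcard : (p - 1) * Nat.card S = (p - 1) * ((p ^ 3 - 1) * (p ^ 3 - p) * p ^ 2) := by
        have e1 : Nat.card S * (p - 1) = Nat.card (GL (Fin 3) F) := by
          rw [← Subgroup.card_mul_index S]
          congr 1
          rw [Subgroup.index_eq_card, hS, Cfsg.Geo.specialLinear, ← hF, ← Fintype.card_units,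
            ← Nat.card_eq_fintype_card]
          exact (Nat.card_congr (QuotientGroup.quotientKerEquivOfSurjective _
            Matrix.GeneralLinearGroup.det_surjective).toEquiv).symm
        rw [mul_comm, e1, Matrix.card_GL_field, hF, Fin.prod_univ_three]
        simp only [Fin.val_zero, Fin.val_one, Fin.val_two, pow_zero, pow_one]
        have : p ^ 3 - p ^ 2 = (p - 1) * p ^ 2 := by rw [Nat.sub_mul, one_mul, ← pow_succ']
        rw [this]; ring
      have hcard' := Nat.eq_of_mul_eq_mul_left (by omega) hcard
      rw [hcard', ← ZMod.natCast_eq_zero_iff] at h81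
      rw [Nat.cast_mul, Nat.cast_mul, Nat.cast_sub (Nat.one_le_pow _ _ hpp.pos),
        Nat.cast_sub (Nat.le_self_pow (by norm_num) p)] at h81
      push_cast at h81
      refine CfsgLib.Omega.mod_eightyone_key ⟨p % 81, Nat.mod_lt _ (by norm_num)⟩ (by simp; omega) ?_
      simp only [ZMod.natCast_mod]
      exact h81
    · have h5 : 5 ≤ r := by
        have := hr.two_le
        by_contra h
        interval_cases r <;> simp_all (config := { decide := true })
      have hdvd : r ∣ Nat.card ↥(Cfsg.Geo.specialLinear (Fin 3) F) := hΩ.trans (Subgroup.index_dvd_card _)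
      obtain ⟨⟨x, hx⟩, hxr⟩ := exists_prime_orderOf_dvd_card' r hdvd
      have hxr' : orderOf x = r := by
        rw [← hxr]; exact (Subgroup.orderOf_mk x hx).symm
      have hxpow : x ^ r = 1 := by rw [← hxr']; exact pow_orderOf_eq_one x
      have hns : ∀ z : F, (x : Matrix (Fin 3) (Fin 3) F) ≠ z • 1 := by
        intro z hz
        have hz2 := CfsgLib.Omega.mem_specialLinear.1 hx
        rw [hz] at hz2
        simp only [Matrix.det_smul, Matrix.det_one, mul_one, Fintype.card_fin] at hz2
        have hx3 : x ^ 3 = 1 := by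
          apply Units.ext
          rw [Units.val_pow_eq_pow_val, hz, smul_pow, one_pow, hz2, one_smul, Units.val_one]
        have := Nat.le_of_dvd (by norm_num) (orderOf_dvd_of_pow_eq_one hx3)
        omega
      obtain ⟨g, -, hy⟩ := hall x hx ⟨1, by rw [hxpow, Units.val_one, one_smul]⟩ hns
      have hyr : (g⁻¹ * x * g) ^ r = 1 := by
        calc (g⁻¹ * x * g) ^ r = (g⁻¹ * x * g⁻¹⁻¹) ^ r := by rw [inv_inv]
          _ = g⁻¹ * x ^ r * g⁻¹⁻¹ := conj_pow
          _ = 1 := by rw [hxpow]; group
      obtain ⟨z, hz⟩ := fr.scalar_of_prime_order hy h5 hyr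
      refine hns z ?_
      have hx' : x = g * (g⁻¹ * x * g) * g⁻¹ := by group
      rw [hx', Units.val_mul, Units.val_mul, hz]
      simp
  · rintro (rfl | ⟨rfl, -⟩) x hx ⟨z, hz⟩ hns
    · have hd := CfsgLib.Omega.mem_specialLinear.1 hx
      set X : Matrix (Fin 3) (Fin 3) F := (x : Matrix (Fin 3) (Fin 3) F) with hX
      have hXX : X * X = z • 1 := by rw [← hz, Units.val_pow_eq_pow_val, pow_two]
      have hz3 : z ^ 3 = 1 := by
        have := congrArg Matrix.det hXX
        simpa [hd] using this.symm
      have hz0 : z ≠ 0 := fun h => by simp [h] at hz3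
      obtain ⟨b, d, hd1, hdp, hdn, hb⟩ := CfsgLib.Omega.exists_sign_eigenbasis h2 (z • X)
        (by rw [Matrix.smul_mul, Matrix.mul_smul, hXX, smul_smul, smul_smul, show z * z * z = 1 by
              rw [← hz3]; ring, one_smul])
        (by rw [Matrix.det_smul, hd, mul_one, Fintype.card_fin, hz3])
        (fun h => hns z⁻¹ (by rw [← h, smul_smul, inv_mul_cancel₀ hz0, one_smul]))
      let T : Matrix (Fin 3) (Fin 3) F :=
        LinearMap.toMatrix' (fr.v.constr F fun i => -fr.v (-i))
      have hT : ∀ i, T *ᵥ fr.v i = -fr.v (-i) := fun i => by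
        show LinearMap.toMatrix' _ *ᵥ fr.v i = _
        rw [← Matrix.toLin'_apply, Matrix.toLin'_toMatrix', Module.Basis.constr_basis]
      have hTT : T * T = 1 := CfsgLib.Omega.eq_of_mulVec_basis fr.v fun i => by
        rw [← Matrix.mulVec_mulVec, hT, Matrix.mulVec_neg, hT, neg_neg, neg_neg, Matrix.one_mulVec]
      have hTdet : T.det = 1 := by
        show (LinearMap.toMatrix' (fr.v.constr F fun i => -fr.v (-i))).det = 1
        rw [LinearMap.det_toMatrix', ← LinearMap.det_toMatrix fr.v,
          show LinearMap.toMatrix fr.v fr.v (fr.v.constr F fun i => -fr.v (-i)) =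
            Matrix.of (fun i j : Fin 3 => if i = -j then (-1 : F) else 0) by
          ext i j
          rw [LinearMap.toMatrix_apply, Module.Basis.constr_basis]
          rcases eq_or_ne i (-j) with h | h <;> simp [h, Finsupp.single_apply, eq_comm]
          ]
        simp +decide [Matrix.det_fin_three]
      have hTne : T ≠ 1 := by
        intro h
        have := hT 0
        rw [h, Matrix.one_mulVec, neg_zero, eq_neg_iff_add_eq_zero, ← two_smul F] at this
        exact fr.v.ne_zero 0 ((smul_eq_zero.1 this).resolve_left h2)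
      obtain ⟨b', d', hd1', hdp', hdn', hb'⟩ :=
        CfsgLib.Omega.exists_sign_eigenbasis h2 T hTT hTdet hTne
      obtain ⟨σ, hσ⟩ := CfsgLib.Omega.exists_perm_signs h2 d d' hd1 hd1' hdp hdp' hdn hdn'
      obtain ⟨g, hg, hgb⟩ := CfsgLib.Omega.exists_sl_conj_onto x (b.reindex σ.symm) b'
        (fun i => z⁻¹ * d' i) (fun i => by
          rw [Module.Basis.reindex_apply, Equiv.symm_symm, ← hσ, ← smul_smul, ← hb, Matrix.smul_mulVec,
            smul_smul, inv_mul_cancel₀ hz0, one_smul])
      let t : GL (Fin 3) F := ⟨T, T, hTT, hTT⟩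
      let s : GL (Fin 3) F := Matrix.GeneralLinearGroup.mkOfDetNeZero (z⁻¹ • (1 : Matrix (Fin 3) (Fin 3) F))
        (by simp [Matrix.det_smul, hz0])
      have hy : g⁻¹ * x * g = s * t := by
        refine Units.ext (CfsgLib.Omega.eq_of_mulVec_basis b' fun i => ?_)
        rw [hgb, Units.val_mul]
        show _ = (z⁻¹ • (1 : Matrix (Fin 3) (Fin 3) F) * T) *ᵥ b' i
        rw [Matrix.smul_mul, one_mul, Matrix.smul_mulVec, hb', smul_smul]
      refine ⟨g, hg, hy ▸ mul_mem (hscalar z⁻¹ (inv_ne_zero hz0) s rfl) ?_⟩
      exact fr.inv_mem_normalizer t (fun i => hT i)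
    · have hd := CfsgLib.Omega.mem_specialLinear.1 hx
      set X : Matrix (Fin 3) (Fin 3) F := (x : Matrix (Fin 3) (Fin 3) F) with hX
      have hX3 : X ^ 3 = z • 1 := by rw [← hz, Units.val_pow_eq_pow_val]
      have hz3 : z ^ 3 = 1 := by
        have := congrArg Matrix.det hX3
        simpa [hd] using this.symm
      obtain ⟨η, hη⟩ : ∃ η : F, η ^ 3 = z := by
        by_contra hc
        push Not at hc
        have := CfsgLib.Omega.det_eq_of_cube_nonsplit X z hX3 hc
        rw [hd] at this
        exact hc 1 (by rw [one_pow, this])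
      have hη0 : η ≠ 0 := by
        rintro rfl
        rw [← hη] at hz3; simp at hz3
      have hl := fr.lam_cube
      have hlsum : lam ^ 2 + lam + 1 = 0 := by
        refine (mul_eq_zero.1 (?_ : (lam - 1) * (lam ^ 2 + lam + 1) = 0)).resolve_left (sub_ne_zero.2 fr.lam_ne)
        linear_combination hl
      have hne1 : η ≠ η * lam := fun h => fr.lam_ne (mul_left_cancel₀ hη0 (by rw [mul_one]; exact h.symm))
      have hne2 : η ≠ η * lam ^ 2 := fun h => by
        have h' : lam ^ 2 = 1 := mul_left_cancel₀ hη0 (by rw [mul_one]; exact h.symm)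
        exact fr.lam_ne (by rw [← hl, pow_succ, h', one_mul])
      have hne3 : η * lam ≠ η * lam ^ 2 := fun h => by
        have h' : lam = lam ^ 2 := mul_left_cancel₀ hη0 h
        exact fr.lam_ne (mul_left_cancel₀ fr.lam_ne_zero (by rw [mul_one, ← pow_two, ← h']))
      have hp : Polynomial.aeval X (∏ e ∈ ({η, η * lam, η * lam ^ 2} : Finset F),
          (Polynomial.X - Polynomial.C e)) = 0 := by
        have hprod : ∏ e ∈ ({η, η * lam, η * lam ^ 2} : Finset F), (Polynomial.X - Polynomial.C e) =
            Polynomial.X ^ 3 - Polynomial.C z := by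
          rw [Finset.prod_insert (by simp [hne1, hne2]), Finset.prod_insert (by simp [hne3]),
            Finset.prod_singleton]
          have e1 : Polynomial.C η + Polynomial.C (η * lam) + Polynomial.C (η * lam ^ 2) = (0 : Polynomial F) := by
            rw [← map_add, ← map_add, show η + η * lam + η * lam ^ 2 = 0 by linear_combination η * hlsum, map_zero]
          have e2 : Polynomial.C η * Polynomial.C (η * lam) + Polynomial.C η * Polynomial.C (η * lam ^ 2) +
              Polynomial.C (η * lam) * Polynomial.C (η * lam ^ 2) = (0 : Polynomial F) := by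
            rw [← map_mul, ← map_mul, ← map_mul, ← map_add, ← map_add,
              show η * (η * lam) + η * (η * lam ^ 2) + η * lam * (η * lam ^ 2) = 0 by
                linear_combination η ^ 2 * hlsum + η ^ 2 * hl, map_zero]
          have e3 : Polynomial.C η * Polynomial.C (η * lam) * Polynomial.C (η * lam ^ 2) = Polynomial.C z := by
            rw [← map_mul, ← map_mul, show η * (η * lam) * (η * lam ^ 2) = z by
              linear_combination hη + η ^ 3 * hl]
          linear_combination (-Polynomial.X ^ 2) * e1 + Polynomial.X * e2 - e3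
        rw [hprod]
        simp [hX3, Algebra.algebraMap_eq_smul_one]
      obtain ⟨b, d, hdS, hb⟩ := CfsgLib.Omega.exists_eigenbasis X _ hp
      have hs : ∀ i, ∃ s : Fin 3, d i = η * lam ^ (s : ℕ) := fun i => by
        have := hdS i
        simp only [Finset.mem_insert, Finset.mem_singleton] at this
        rcases this with h | h | h
        · exact ⟨0, by simp [h]⟩
        · exact ⟨1, by simp [h]⟩
        · exact ⟨2, by simp [h]⟩
      choose s hs using hs
      obtain ⟨σ, u, m, hσ⟩ := CfsgLib.Omega.exists_affine_reorder s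
      obtain ⟨g, hg, hgb⟩ := CfsgLib.Omega.exists_sl_conj_onto x (b.reindex σ.symm) fr.v
        (fun i => η * lam ^ (s (σ i) : ℕ)) (fun i => by
          rw [Module.Basis.reindex_apply, Equiv.symm_symm, ← hs, ← hb])
      exact ⟨g, hg, fr.diag_mem_normalizer _ η (fun i => s (σ i)) u m hgb hσ⟩

end Cfsg.Agent.S5998
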