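import Cfsg.Statements.S5999
import Cfsg.Agent.Lib.Omega.Extraspecial27
import Cfsg.Agent.Lib.Omega.DimThree
import Cfsg.Agent.Lib.Omega.CardSLThree
import Cfsg.Agent.Lib.Omega.UnitaryEigen

set_option autoImplicit false
open scoped MatrixGroups Matrix
open Cfsg

namespace Cfsg.Agent.S5999

open CfsgLib.Forms in
theorem sign_data {F : Type*} [Field F] (Y : Matrix (Fin 3) (Fin 3) F)
    (b : Module.Basis (Fin 3) F (Fin 3 → F)) (d : Fin 3 → F) (hb : ∀ i, Y *ᵥ b i = d i • b i)
    (hdet : Y.det = 1) (hne : Y ≠ 1) : ∏ i, d i = 1 ∧ ∃ i, d i ≠ 1 := by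
  refine ⟨?_, ?_⟩
  · have h : LinearMap.toMatrix b b (Matrix.toLin' Y) = Matrix.diagonal d := by
      ext i j
      rw [LinearMap.toMatrix_apply, Matrix.toLin'_apply, hb]
      by_cases hij : i = j
      · subst hij; simp
      · simp [hij]
    rw [← Matrix.det_diagonal, ← h, LinearMap.det_toMatrix, LinearMap.det_toLin', hdet]
  · by_contra hc
    push Not at hc
    exact hne (Matrix.toLin'.injective (b.ext fun i => by simp [hb, hc]))

/-- Elements of prime order of PSU_3(p), p ≡ 2 (mod 3), and the normalizer of an extraspecial subgroup of order 27. Here `T = PSU_3(p)` for a prime `p ≥ 5` with `p ≡ 2 (mod 3)`, realised through `SU_3(p)`, the matrices of determinant 1 over the field `F` with `p²` elements preserving the hermitian form `Σ uᵢvᵢ^p`; `R` is a non-abelian subgroup of order 27 and exponent 3 of the full unitary group of that form (an extraspecial group 3^{1+2}, acting absolutely irreducibly), and `H` is the subgroup of `SU_3(p)` normalizing `R` — a subgroup of type 3^{1+2}.Sp₂(3) (maximality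 is not assumed). Ω is the set of cosets of `H`, so an element of `T` of prime order `r` (`x ∈ SU_3(p)` with `x^r` scalar, `x` not scalar) fixes a point of Ω exactly when some `SU_3(p)`-conjugate of `x` normalizes `R`. Let `r` be a prime dividing the index of `H`. Then every element of `T` of order `r` fixes a point of Ω if and only if `r = 2`, or `r = 3` and `p ≡ 8 (mod 9)`. -/
theorem result {F : Type*} [Field F] [Fintype F] {p : ℕ} [Fact p.Prime] [CharP F p] (hF : Fintype.card F = p ^ 2) (hp : 5 ≤ p) (hp3 : p % 3 = 2)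
    (R : Subgroup (GL (Fin 3) F)) (hRU : R ≤ Cfsg.GU 3 F p) (hR : Nat.card R = 27) (hRe : Monoid.exponent R = 3) (hRna : ¬ IsMulCommutative R)
    (r : ℕ) [Fact r.Prime]
    (hΩ : r ∣ (Cfsg.Geo.subgroupNormalizer R).relIndex (Cfsg.GU 3 F p ⊓ Cfsg.Geo.specialLinear (Fin 3) F)) :
    (∀ x ∈ Cfsg.GU 3 F p ⊓ Cfsg.Geo.specialLinear (Fin 3) F, (∃ z : F, ((x ^ r : GL (Fin 3) F) : Matrix (Fin 3) (Fin 3) F) = z • (1 : Matrix (Fin 3) (Fin 3) F)) →
      (∀ z : F, (x : Matrix (Fin 3) (Fin 3) F) ≠ z • (1 : Matrix (Fin 3) (Fin 3) F)) →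
      ∃ g ∈ Cfsg.GU 3 F p ⊓ Cfsg.Geo.specialLinear (Fin 3) F, g⁻¹ * x * g ∈ Cfsg.Geo.subgroupNormalizer R) ↔ (r = 2 ∨ (r = 3 ∧ p % 9 = 8)) := by
  classical
  have hpp := Fact.out (p := p.Prime)
  have hp9 : (p * p) % 3 = 1 := by rw [Nat.mul_mod, hp3]
  have hpsq : p ^ 2 = p * p := pow_two p
  obtain ⟨σ, hσ, hσid, hσ2⟩ := CfsgLib.Forms.exists_conj_of_card_sq hF
  have h3 : (3 : F) ≠ 0 := by
    intro h
    have h' : ((3 : ℕ) : F) = 0 := by exact_mod_cast h
    rw [CharP.cast_eq_zero_iff F p] at h'
    have := (Nat.prime_dvd_prime_iff_eq hpp Nat.prime_three).1 h'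
    omega
  have h2 : (2 : F) ≠ 0 := by
    intro h
    have h' : ((2 : ℕ) : F) = 0 := by exact_mod_cast h
    rw [CharP.cast_eq_zero_iff F p] at h'
    have := (Nat.prime_dvd_prime_iff_eq hpp Nat.prime_two).1 h'
    omega
  have hσcube : ∀ z : F, z ^ 3 = 1 → σ z * z = 1 := fun z hz => by
    rw [hσ, ← Nat.div_add_mod p 3, hp3, pow_add, pow_mul, hz, one_pow, one_mul, ← pow_succ, hz]
  haveI : Fact (Nat.Prime 3) := ⟨Nat.prime_three⟩
  obtain ⟨ω, hω⟩ := exists_prime_orderOf_dvd_card' 3 (G := Fˣ) (by
    rw [Nat.card_eq_fintype_card, Fintype.card_units, hF, hpsq]; omega)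
  have hω1 : (ω : F) ≠ 1 := fun h => by
    rw [Units.val_eq_one] at h; simp [h] at hω
  have hω3 : (ω : F) ^ 3 = 1 := by
    rw [← Units.val_pow_eq_pow_val, ← hω, pow_orderOf_eq_one, Units.val_one]
  obtain ⟨lam, ⟨fr₀⟩⟩ := CfsgLib.Omega.exists_frame27 h3 hω1 hω3 R hR hRe hRna
  set B := CfsgLib.Forms.hermBundled 3 σ with hBdef
  have hGU : ∀ g : GL (Fin 3) F, g ∈ Cfsg.GU 3 F p → ∀ v u,
      B ((g : Matrix (Fin 3) (Fin 3) F) *ᵥ v) ((g : Matrix (Fin 3) (Fin 3) F) *ᵥ u) = B v u :=
    fun g hg => (CfsgLib.Omega.mem_GU_iff_bundled hσ).1 hg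
  obtain ⟨fr, hfr⟩ : ∃ fr : CfsgLib.Omega.Frame27 R lam,
      ∀ i j, B (fr.v i) (fr.v j) = if i = j then 1 else 0 := by
    have horth : ∀ i j : Fin 3, i ≠ j → B (fr₀.v i) (fr₀.v j) = 0 := by
      intro i j hij
      have h := hGU _ (hRU fr₀.a_mem) (fr₀.v i) (fr₀.v j)
      rw [fr₀.ha, fr₀.ha] at h
      simp only [map_smulₛₗ, LinearMap.smul_apply, RingHom.id_apply, smul_eq_mul] at h
      by_contra hne
      have h1 : σ (lam ^ (i : ℕ)) * lam ^ (j : ℕ) = 1 :=
        mul_right_cancel₀ hne (by rw [one_mul]; linear_combination h)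
      have h2' : σ (lam ^ (i : ℕ)) * lam ^ (i : ℕ) = 1 :=
        hσcube _ (by rw [← pow_mul, mul_comm, pow_mul, fr₀.lam_cube, one_pow])
      have hne0 : σ (lam ^ (i : ℕ)) ≠ 0 := fun h0 => by simp [h0] at h2'
      have heq := mul_left_cancel₀ hne0 (h2'.trans h1.symm)
      have hl1 := fr₀.lam_ne
      have hl0 := fr₀.lam_ne_zero
      have hl2 : lam ^ 2 ≠ 1 := fun hh => hl1 (by rw [← fr₀.lam_cube, pow_succ, hh, one_mul])
      have hl12 : lam ≠ lam ^ 2 := fun hh =>
        hl1 (mul_left_cancel₀ hl0 (by rw [mul_one, ← pow_two, ← hh]))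
      fin_cases i <;> fin_cases j <;> simp [-sq_eq_one_iff] at heq hij
      all_goals first
        | exact hl1 heq | exact hl1 heq.symm | exact hl2 heq | exact hl2 heq.symm
        | exact hl12 heq | exact hl12 heq.symm
    have hdiag : ∀ i, B (fr₀.v i) (fr₀.v i) = B (fr₀.v 0) (fr₀.v 0) := by
      have hstep : ∀ i, B (fr₀.v (i + 1)) (fr₀.v (i + 1)) = B (fr₀.v i) (fr₀.v i) := fun i => by
        rw [← fr₀.hb, hGU _ (hRU fr₀.b_mem)]
      intro i
      fin_cases i
      · rfl
      · exact hstep 0
      · exact (hstep 1).trans (hstep 0)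
    set k := B (fr₀.v 0) (fr₀.v 0) with hk
    have hk0 : k ≠ 0 := by
      intro h0
      refine fr₀.v.ne_zero 0 ((CfsgLib.Forms.hermBundled_nondegenerate hσ2).1 (fr₀.v 0) fun u => ?_)
      have hker : ⊤ ≤ LinearMap.ker (B (fr₀.v 0)) := by
        rw [← fr₀.v.span_eq, Submodule.span_le]
        rintro _ ⟨i, rfl⟩
        by_cases hi : (0 : Fin 3) = i
        · subst hi; exact h0
        · exact horth 0 i hi
      exact hker (Submodule.mem_top (x := u))
    have hσk : σ k = k := (CfsgLib.Forms.hermBundled_isSymm hσ2).eq _ _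
    obtain ⟨c, hc⟩ := CfsgLib.Forms.exists_norm_eq σ hσid hσ2 k⁻¹ (by rw [map_inv₀, hσk])
    have hc0 : c ≠ 0 := fun h => by rw [h] at hc; simp at hc; exact hk0 hc.symm
    refine ⟨{ fr₀ with
      v := fr₀.v.unitsSMul fun _ => Units.mk0 c hc0
      ha := fun i => by
        simp only [Module.Basis.unitsSMul_apply, Units.smul_def, Units.val_mk0, Matrix.mulVec_smul, fr₀.ha]
        rw [smul_comm]
      hb := fun i => by
        simp only [Module.Basis.unitsSMul_apply, Units.smul_def, Units.val_mk0, Matrix.mulVec_smul, fr₀.hb] },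
      fun i j => ?_⟩
    simp only [Module.Basis.unitsSMul_apply, Units.smul_def, Units.val_mk0, map_smulₛₗ, LinearMap.smul_apply,
      map_smul, smul_eq_mul]
    by_cases hij : i = j
    · subst hij
      rw [if_pos rfl, hdiag, RingHom.id_apply]
      have : σ c * c * k = k⁻¹ * k := by rw [hc]
      rw [inv_mul_cancel₀ hk0] at this
      linear_combination this
    · rw [if_neg hij, horth i j hij]; simp
  have hscalar : ∀ z : F, ∀ s : GL (Fin 3) F, (s : Matrix (Fin 3) (Fin 3) F) = z • 1 →
      s ∈ Cfsg.Geo.subgroupNormalizer R := by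
    intro z s hs
    refine fr.diag_mem_normalizer s z (fun _ => 0) 0 0 (fun i => ?_) (fun i => by simp)
    simp [hs, Matrix.smul_mulVec]
  have hr := Fact.out (p := r.Prime)
  constructor
  · intro hall
    by_contra hne
    push Not at hne
    by_cases hr3 : r = 3
    · subst hr3
      have hq9 : p ^ 2 % 9 = 4 ∨ p ^ 2 % 9 = 7 := by
        have hne' := hne.2 rfl
        have h25 : p % 9 = 2 ∨ p % 9 = 5 := by omega
        rw [hpsq, Nat.mul_mod]
        rcases h25 with h | h <;> rw [h] <;> decide
      refine CfsgLib.Omega.not_eightyone_dvd_card_specialLinear hF hq9 ?_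
      set S := Cfsg.GU 3 F p ⊓ Cfsg.Geo.specialLinear (Fin 3) F with hS
      refine dvd_trans ?_ (Subgroup.card_dvd_of_le (inf_le_right : S ≤ Cfsg.Geo.specialLinear (Fin 3) F))
      set N := Cfsg.Geo.subgroupNormalizer R with hN
      rw [← Subgroup.card_mul_index (N.subgroupOf S)]
      have h27 : 27 ∣ Nat.card (N.subgroupOf S) := by
        have hle : R.subgroupOf S ≤ N.subgroupOf S := fun g hg => Subgroup.le_normalizer hg
        have := Subgroup.card_dvd_of_le hle
        rwa [Nat.card_congr (Subgroup.subgroupOfEquivOfLe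
          (le_inf hRU fr.le_specialLinear : R ≤ S)).toEquiv, hR] at this
      exact (Nat.mul_dvd_mul h27 hΩ : 27 * 3 ∣ _)
    · have h5 : 5 ≤ r := by
        have := hr.two_le
        by_contra h
        interval_cases r <;> simp_all (config := { decide := true })
      have hdvd : r ∣ Nat.card ↥(Cfsg.GU 3 F p ⊓ Cfsg.Geo.specialLinear (Fin 3) F) :=
        hΩ.trans (Subgroup.index_dvd_card _)
      obtain ⟨⟨x, hx⟩, hxr⟩ := exists_prime_orderOf_dvd_card' r hdvd
      have hxr' : orderOf x = r := by
        rw [← hxr]; exact (Subgroup.orderOf_mk x hx).symm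
      have hxpow : x ^ r = 1 := by rw [← hxr']; exact pow_orderOf_eq_one x
      have hns : ∀ z : F, (x : Matrix (Fin 3) (Fin 3) F) ≠ z • 1 := by
        intro z hz
        have hz2 := CfsgLib.Omega.mem_specialLinear.1 hx.2
        rw [hz] at hz2
        simp only [Matrix.det_smul, Matrix.det_one, mul_one, Fintype.card_fin] at hz2
        have hx3 : x ^ 3 = 1 := by
          apply Units.ext
          rw [Units.val_pow_eq_pow_val, hz, smul_pow, one_pow, hz2, one_smul, Units.val_one]
        have := Nat.le_of_dvd (by norm_num) (orderOf_dvd_of_pow_eq_one hx3)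
        omega
      obtain ⟨g, -, hy⟩ := hall x hx ⟨1, by rw [hxpow, Units.val_one, one_smul]⟩ hns
      have hyr : (g⁻¹ * x * g) ^ r = 1 := by
        calc (g⁻¹ * x * g) ^ r = (g⁻¹ * x * g⁻¹⁻¹) ^ r := by rw [inv_inv]
          _ = g⁻¹ * x ^ r * g⁻¹⁻¹ := conj_pow
          _ = 1 := by rw [hxpow]; group
      obtain ⟨z, hz⟩ := fr.scalar_of_prime_order hy h5 hyr
      refine hns z ?_
      have hx' : x = g * (g⁻¹ * x * g) * g⁻¹ := by group
      rw [hx', Units.val_mul, Units.val_mul, hz]
      simp
  · rintro (rfl | ⟨rfl, -⟩) x hx ⟨z, hz⟩ hns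
    · have hd := CfsgLib.Omega.mem_specialLinear.1 hx.2
      set X : Matrix (Fin 3) (Fin 3) F := (x : Matrix (Fin 3) (Fin 3) F) with hX
      have hXX : X * X = z • 1 := by rw [← hz, Units.val_pow_eq_pow_val, pow_two]
      have hz3 : z ^ 3 = 1 := by
        have := congrArg Matrix.det hXX
        simpa [hd] using this.symm
      have hz0 : z ≠ 0 := fun h => by simp [h] at hz3
      have hsne : (1 : F) ≠ -1 := fun h => h2 (by linear_combination h)
      have haev : ∀ Y : Matrix (Fin 3) (Fin 3) F, Y * Y = 1 →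
          Polynomial.aeval Y (∏ s ∈ ({1, -1} : Finset F), (Polynomial.X - Polynomial.C s)) = 0 := by
        intro Y hY
        rw [Finset.prod_insert (by simp [hsne]), Finset.prod_singleton]
        simp [Matrix.mul_add, Matrix.sub_mul, hY]
      have hsnorm : ∀ s ∈ ({1, -1} : Finset F), σ s * s = 1 := by
        intro s hs
        simp only [Finset.mem_insert, Finset.mem_singleton] at hs
        rcases hs with rfl | rfl <;> simp
      have hZXX : (z • X) * (z • X) = 1 := by
        rw [Matrix.smul_mul, Matrix.mul_smul, hXX, smul_smul, smul_smul,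
          show z * z * z = 1 by rw [← hz3]; ring, one_smul]
      obtain ⟨b, d, hd1, hbo, hb⟩ := CfsgLib.Omega.exists_orthonormal_eigenbasis hσid hσ2 (z • X)
        (fun v u => by
          simp only [Matrix.smul_mulVec, map_smulₛₗ, LinearMap.smul_apply, map_smul, smul_eq_mul,
            RingHom.id_apply]
          rw [hX, hGU x hx.1, ← mul_assoc]
          first
            | rw [mul_comm z, hσcube z hz3, one_mul]
            | rw [hσcube z hz3, one_mul])
        {1, -1} (haev _ hZXX) hsnorm
      obtain ⟨hdp, hdn⟩ := sign_data (z • X) b d hb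
        (by rw [Matrix.det_smul, hd, mul_one, Fintype.card_fin, hz3])
        (fun h => hns z⁻¹ (by rw [← h, smul_smul, inv_mul_cancel₀ hz0, one_smul]))
      let T : Matrix (Fin 3) (Fin 3) F :=
        LinearMap.toMatrix' (fr.v.constr F fun i => -fr.v (-i))
      have hT : ∀ i, T *ᵥ fr.v i = -fr.v (-i) := fun i => by
        show LinearMap.toMatrix' _ *ᵥ fr.v i = _
        rw [← Matrix.toLin'_apply, Matrix.toLin'_toMatrix', Module.Basis.constr_basis]
      have hTT : T * T = 1 := CfsgLib.Omega.eq_of_mulVec_basis fr.v fun i => by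
        rw [← Matrix.mulVec_mulVec, hT, Matrix.mulVec_neg, hT, neg_neg, neg_neg, Matrix.one_mulVec]
      have hTdet : T.det = 1 := by
        show (LinearMap.toMatrix' (fr.v.constr F fun i => -fr.v (-i))).det = 1
        rw [LinearMap.det_toMatrix', ← LinearMap.det_toMatrix fr.v,
          show LinearMap.toMatrix fr.v fr.v (fr.v.constr F fun i => -fr.v (-i)) =
            Matrix.of (fun i j : Fin 3 => if i = -j then (-1 : F) else 0) by
          ext i j
          rw [LinearMap.toMatrix_apply, Module.Basis.constr_basis]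
          rcases eq_or_ne i (-j) with h | h <;> simp [h, Finsupp.single_apply, eq_comm]
          ]
        simp +decide [Matrix.det_fin_three]
      have hTne : T ≠ 1 := by
        intro h
        have := hT 0
        rw [h, Matrix.one_mulVec, neg_zero, eq_neg_iff_add_eq_zero, ← two_smul F] at this
        exact fr.v.ne_zero 0 ((smul_eq_zero.1 this).resolve_left h2)
      let t : GL (Fin 3) F := ⟨T, T, hTT, hTT⟩
      have htGU : t ∈ Cfsg.GU 3 F p := by
        refine CfsgLib.Omega.mem_GU_of_orthonormal hσ fr.v hfr fun i j => ?_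
        show B (T *ᵥ fr.v i) (T *ᵥ fr.v j) = _
        rw [hT, hT]
        simp only [map_neg, LinearMap.neg_apply, neg_neg, hfr, neg_inj]
      obtain ⟨b', d', hd1', hbo', hb'⟩ := CfsgLib.Omega.exists_orthonormal_eigenbasis hσid hσ2 T
        (hGU t htGU) {1, -1} (haev _ hTT) hsnorm
      obtain ⟨hdp', hdn'⟩ := sign_data T b' d' hb' hTdet hTne
      simp only [Finset.mem_insert, Finset.mem_singleton] at hd1 hd1'
      obtain ⟨π, hπ⟩ := CfsgLib.Omega.exists_perm_signs h2 d d' hd1 hd1' hdp hdp' hdn hdn'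
      obtain ⟨g, hg, hgb⟩ := CfsgLib.Omega.exists_su_conj_onto hσ x (b.reindex π.symm) b'
        (fun i => z⁻¹ * d' i) (fun i j => by
          simp only [Module.Basis.reindex_apply, Equiv.symm_symm, hbo, EmbeddingLike.apply_eq_iff_eq])
        hbo' (fun i => by
          rw [Module.Basis.reindex_apply, Equiv.symm_symm, ← hπ, ← smul_smul, ← hb, Matrix.smul_mulVec,
            smul_smul, inv_mul_cancel₀ hz0, one_smul])
      let s : GL (Fin 3) F := Matrix.GeneralLinearGroup.mkOfDetNeZero (z⁻¹ • (1 : Matrix (Fin 3) (Fin 3) F))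
        (by simp [Matrix.det_smul, hz0])
      have hy : g⁻¹ * x * g = s * t := by
        refine Units.ext (CfsgLib.Omega.eq_of_mulVec_basis b' fun i => ?_)
        rw [hgb, Units.val_mul]
        show _ = (z⁻¹ • (1 : Matrix (Fin 3) (Fin 3) F) * T) *ᵥ b' i
        rw [Matrix.smul_mul, one_mul, Matrix.smul_mulVec, hb', smul_smul]
      exact ⟨g, hg, hy ▸ mul_mem (hscalar z⁻¹ s rfl) (fr.inv_mem_normalizer t (fun i => hT i))⟩
    · have hd := CfsgLib.Omega.mem_specialLinear.1 hx.2
      set X : Matrix (Fin 3) (Fin 3) F := (x : Matrix (Fin 3) (Fin 3) F) with hX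
      have hX3 : X ^ 3 = z • 1 := by rw [← hz, Units.val_pow_eq_pow_val]
      have hz3 : z ^ 3 = 1 := by
        have := congrArg Matrix.det hX3
        simpa [hd] using this.symm
      obtain ⟨η, hη⟩ : ∃ η : F, η ^ 3 = z := by
        by_contra hc
        push Not at hc
        have := CfsgLib.Omega.det_eq_of_cube_nonsplit X z hX3 hc
        rw [hd] at this
        exact hc 1 (by rw [one_pow, this])
      have hη0 : η ≠ 0 := by
        rintro rfl
        rw [← hη] at hz3; simp at hz3
      have hη9 : η ^ 9 = 1 := by rw [← hz3, ← hη, ← pow_mul]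
      have hηnorm : σ η * η = 1 := by
        rw [hσ, ← pow_succ]
        have hu : Units.mk0 η hη0 ^ (9 : ℕ) = 1 := Units.ext (by simpa using hη9)
        have hcard : Units.mk0 η hη0 ^ (p ^ 2 - 1) = 1 := by
          rw [← hF, ← Fintype.card_units]; exact pow_card_eq_one
        set o := orderOf (Units.mk0 η hη0) with ho
        have ho9 : o ∣ 9 := orderOf_dvd_of_pow_eq_one hu
        have ho2 : o ∣ (p + 1) * (p - 1) := by
          rw [← Nat.sq_sub_sq, one_pow]; exact orderOf_dvd_of_pow_eq_one hcard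
        have hcop : Nat.Coprime o (p - 1) := by
          refine Nat.Coprime.coprime_dvd_left (ho9 : o ∣ 3 ^ 2) (Nat.Coprime.pow_left (m := 3) (k := p - 1) 2 ?_)
          rw [Nat.Prime.coprime_iff_not_dvd Nat.prime_three]
          omega
        have hfin := orderOf_dvd_iff_pow_eq_one.1 (hcop.dvd_of_dvd_mul_right ho2)
        simpa using congrArg Units.val hfin
      have hl := fr.lam_cube
      have hlsum : lam ^ 2 + lam + 1 = 0 := by
        refine (mul_eq_zero.1 (?_ : (lam - 1) * (lam ^ 2 + lam + 1) = 0)).resolve_left (sub_ne_zero.2 fr.lam_ne)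
        linear_combination hl
      have hne1 : η ≠ η * lam := fun h => fr.lam_ne (mul_left_cancel₀ hη0 (by rw [mul_one]; exact h.symm))
      have hne2 : η ≠ η * lam ^ 2 := fun h => by
        have h' : lam ^ 2 = 1 := mul_left_cancel₀ hη0 (by rw [mul_one]; exact h.symm)
        exact fr.lam_ne (by rw [← hl, pow_succ, h', one_mul])
      have hne3 : η * lam ≠ η * lam ^ 2 := fun h => by
        have h' : lam = lam ^ 2 := mul_left_cancel₀ hη0 h
        exact fr.lam_ne (mul_left_cancel₀ fr.lam_ne_zero (by rw [mul_one, ← pow_two, ← h']))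
      have hp : Polynomial.aeval X (∏ e ∈ ({η, η * lam, η * lam ^ 2} : Finset F),
          (Polynomial.X - Polynomial.C e)) = 0 := by
        have hprod : ∏ e ∈ ({η, η * lam, η * lam ^ 2} : Finset F), (Polynomial.X - Polynomial.C e) =
            Polynomial.X ^ 3 - Polynomial.C z := by
          rw [Finset.prod_insert (by simp [hne1, hne2]), Finset.prod_insert (by simp [hne3]),
            Finset.prod_singleton]
          have e1 : Polynomial.C η + Polynomial.C (η * lam) + Polynomial.C (η * lam ^ 2) = (0 : Polynomial F) := by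
            rw [← map_add, ← map_add, show η + η * lam + η * lam ^ 2 = 0 by linear_combination η * hlsum, map_zero]
          have e2 : Polynomial.C η * Polynomial.C (η * lam) + Polynomial.C η * Polynomial.C (η * lam ^ 2) +
              Polynomial.C (η * lam) * Polynomial.C (η * lam ^ 2) = (0 : Polynomial F) := by
            rw [← map_mul, ← map_mul, ← map_mul, ← map_add, ← map_add,
              show η * (η * lam) + η * (η * lam ^ 2) + η * lam * (η * lam ^ 2) = 0 by
                linear_combination η ^ 2 * hlsum + η ^ 2 * hl, map_zero]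
          have e3 : Polynomial.C η * Polynomial.C (η * lam) * Polynomial.C (η * lam ^ 2) = Polynomial.C z := by
            rw [← map_mul, ← map_mul, show η * (η * lam) * (η * lam ^ 2) = z by
              linear_combination hη + η ^ 3 * hl]
          linear_combination (-Polynomial.X ^ 2) * e1 + Polynomial.X * e2 - e3
        rw [hprod]
        simp [hX3, Algebra.algebraMap_eq_smul_one]
      have hSnorm : ∀ e ∈ ({η, η * lam, η * lam ^ 2} : Finset F), σ e * e = 1 := by
        have hl1 : σ lam * lam = 1 := hσcube lam hl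
        intro e he
        simp only [Finset.mem_insert, Finset.mem_singleton] at he
        rcases he with rfl | rfl | rfl
        · exact hηnorm
        · rw [map_mul]; linear_combination σ lam * lam * hηnorm + hl1
        · rw [map_mul, map_pow]
          linear_combination σ lam ^ 2 * lam ^ 2 * hηnorm + (σ lam * lam + 1) * hl1
      obtain ⟨b, d, hdS, hbo, hb⟩ := CfsgLib.Omega.exists_orthonormal_eigenbasis hσid hσ2 X
        (hGU x hx.1) _ hp hSnorm
      have hs : ∀ i, ∃ s : Fin 3, d i = η * lam ^ (s : ℕ) := fun i => by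
        have := hdS i
        simp only [Finset.mem_insert, Finset.mem_singleton] at this
        rcases this with h | h | h
        · exact ⟨0, by simp [h]⟩
        · exact ⟨1, by simp [h]⟩
        · exact ⟨2, by simp [h]⟩
      choose s hs using hs
      obtain ⟨π, u, m, hπ⟩ := CfsgLib.Omega.exists_affine_reorder s
      obtain ⟨g, hg, hgb⟩ := CfsgLib.Omega.exists_su_conj_onto hσ x (b.reindex π.symm) fr.v
        (fun i => η * lam ^ (s (π i) : ℕ)) (fun i j => by
          simp only [Module.Basis.reindex_apply, Equiv.symm_symm, hbo, EmbeddingLike.apply_eq_iff_eq])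
        hfr (fun i => by
          rw [Module.Basis.reindex_apply, Equiv.symm_symm, ← hs, ← hb])
      exact ⟨g, hg, fr.diag_mem_normalizer _ η (fun i => s (π i)) u m hgb hπ⟩

end Cfsg.Agent.S5999
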