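import Cfsg.Statements.S6002
import Cfsg.Agent.Lib.PauliFour.SympConj
import Cfsg.Agent.Lib.PauliFour.SympDerange
import Cfsg.Agent.Lib.PauliFour.Five
-- import your own Cfsg.Agent.* helpers here

set_option autoImplicit false
open scoped MatrixGroups
open Cfsg

namespace Cfsg.Agent.S6002

open CfsgLib.PauliFour
open scoped Matrix

/-- The order of a residue modulo five is four exactly for `±2`. -/
theorem orderOf_four_iff (n : ℕ) : orderOf (n : ZMod 5) = 4 ↔ n % 5 = 2 ∨ n % 5 = 3 := by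
  rw [← ZMod.natCast_mod n 5, orderOf_eq_iff (by norm_num)]
  have : n % 5 < 5 := Nat.mod_lt _ (by norm_num)
  interval_cases n % 5 <;> simp <;> decide


/-- Elements of prime order of PSp_4(p), p odd, and the normalizer of an extraspecial 2-group of order 2⁵ of minus type. Here `T = PSp_4(F)` for the field `F` with `p` elements, `p` an odd prime, realised through the matrices preserving the standard alternating form `f`; `R` is an absolutely irreducible subgroup of `T` (it preserves `f`) that is a 2-group of symplectic type of exponent 4, order 2⁵ and centre of order 2, of minus type (no elementary abelian subgroup of order 2³), and `H` is the subgroup of `T` normalizing `R` — a subgroup of type 2^{1+4}.O₄⁻(2) (maximality is not assumed). Ω is the set of cosets of `H` in `T`, so an element of `T` of prime order `r` (`x ∈ T` with `x^r` scalar, `x` not scalar) fixes a point of Ω exactly when some `T`-conjugate of `x` normalizes `R`. Let `r`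 be a prime dividing the index of `H`. Then every element of `T` of order `r` fixes a point of Ω if and only if `r = 2`, or `r = 5` and `p` has multiplicative order 4 modulo 5. -/
theorem result {F : Type*} [Field F] [Fintype F] {p : ℕ} [Fact p.Prime] [CharP F p] (hF : Fintype.card F = p) (hodd : Odd p)
    (R : Subgroup (GL (Fin 2 ⊕ Fin 2) F)) (hRs : Cfsg.Geo.IsSymplecticTypeGroup 2 R) (hRi : Cfsg.Geo.ActsAbsolutelyIrreducibly (Cfsg.Geo.matrixSet R))
    (hRf : R ≤ Cfsg.spGL 2 F) (hR5 : Nat.card R = 2 ^ 5) (hRZ : Nat.card (Subgroup.center R) = 2) (hRm : Cfsg.Geo.IsOfMinusType 2 R)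
    (r : ℕ) [Fact r.Prime]
    (hΩ : r ∣ (Cfsg.Geo.subgroupNormalizer R).relIndex (Cfsg.spGL 2 F)) :
    (∀ x ∈ Cfsg.spGL 2 F, (∃ z : F, ((x ^ r : GL (Fin 2 ⊕ Fin 2) F) : Matrix (Fin 2 ⊕ Fin 2) (Fin 2 ⊕ Fin 2) F) = z • (1 : Matrix (Fin 2 ⊕ Fin 2) (Fin 2 ⊕ Fin 2) F)) →
      (∀ z : F, (x : Matrix (Fin 2 ⊕ Fin 2) (Fin 2 ⊕ Fin 2) F) ≠ z • (1 : Matrix (Fin 2 ⊕ Fin 2) (Fin 2 ⊕ Fin 2) F)) →
      ∃ g ∈ Cfsg.spGL 2 F, g⁻¹ * x * g ∈ Cfsg.Geo.subgroupNormalizer R) ↔ (r = 2 ∨ (r = 5 ∧ orderOf (p : ZMod 5) = 4)) := by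
  classical
  have hp : p.Prime := Fact.out
  have h2 : (2 : F) ≠ 0 := fun h => by
    have h' : p ∣ 2 := (CharP.cast_eq_zero_iff F p 2).1 (by exact_mod_cast h)
    have := (Nat.prime_dvd_prime_iff_eq hp Nat.prime_two).1 h'
    subst this
    exact absurd hodd (by decide)
  have hR := isPauli_of_sympType (F := F) (R := R) (by simp) hRs hRi
  have h4 : Fintype.card (Fin 2 ⊕ Fin 2) = 4 := by simp
  have hRN : R ≤ Cfsg.Geo.subgroupNormalizer R := Subgroup.le_normalizer
  have hr : r.Prime := Fact.out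
  constructor
  · intro hall
    by_cases hr2 : r = 2
    · exact Or.inl hr2
    refine Or.inr ?_
    by_contra hbad
    -- an element of order `r` no conjugate of which normalises
    have hr35 : r = 3 ∨ r = 5 := by
      haveI : Fintype (Cfsg.spGL 2 F) := Fintype.ofFinite _
      obtain ⟨x, hx⟩ := exists_prime_orderOf_dvd_card' r (G := Cfsg.spGL 2 F)
        (hΩ.trans (Subgroup.relIndex_dvd_card _ _))
      have hxr : (x : GL (Fin 2 ⊕ Fin 2) F) ^ r = 1 := by
        have h : x ^ r = 1 := orderOf_dvd_iff_pow_eq_one.1 (dvd_of_eq hx)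
        exact congrArg Subtype.val h
      have hns : ∀ d : F, ((x : GL (Fin 2 ⊕ Fin 2) F) : Matrix (Fin 2 ⊕ Fin 2) (Fin 2 ⊕ Fin 2) F) ≠ d • 1 := by
        intro d hd
        have hd2 := sq_eq_one_of_scalar_mem x.2 hd
        have : x ^ 2 = 1 := Subtype.ext (Units.ext (by
          rw [SubmonoidClass.coe_pow, Units.val_pow_eq_pow_val, hd, sq, Matrix.smul_mul, one_mul, smul_smul, hd2,
            one_smul]
          rfl))
        have := orderOf_dvd_of_pow_eq_one this
        rw [hx] at this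
        exact hr2 ((Nat.prime_dvd_prime_iff_eq hr Nat.prime_two).1 this)
      have hxr' : (((x : GL (Fin 2 ⊕ Fin 2) F) ^ r : GL (Fin 2 ⊕ Fin 2) F) :
          Matrix (Fin 2 ⊕ Fin 2) (Fin 2 ⊕ Fin 2) F) = (1 : F) • 1 := by rw [hxr, one_smul]; rfl
      obtain ⟨g, -, hN⟩ := hall x x.2 ⟨1, hxr'⟩ hns
      rcases trace_cases_of_conj hR h4 h2 hr2 hxr' hns hN with ⟨h, -⟩ | ⟨h, -⟩
      · exact Or.inl h
      · exact Or.inr h
    by_cases hpr : p = r
    · have ht : (((sympTrans F) ^ r : GL (Fin 2 ⊕ Fin 2) F) : Matrix (Fin 2 ⊕ Fin 2) (Fin 2 ⊕ Fin 2) F) =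
          (1 : F) • 1 := by
        rw [sympTrans_pow, ← hpr, CharP.cast_eq_zero, one_smul]
        ext (i | i) (j | j) <;> fin_cases i <;> fin_cases j <;> simp
      obtain ⟨g, -, hN⟩ := hall _ sympTrans_mem ⟨1, ht⟩ sympTrans_ne_scalar
      exact not_conj_rank_one hR h4 h2 hr2 ht sympTrans_ne_scalar sympTrans_form hN
    rcases hr35 with rfl | rfl
    · have ht : (((sympTest (-1 : F)) ^ 3 : GL (Fin 2 ⊕ Fin 2) F) : Matrix (Fin 2 ⊕ Fin 2) (Fin 2 ⊕ Fin 2) F) =
          (1 : F) • 1 := by rw [sympTest_pow_three, one_smul]; rfl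
      obtain ⟨g, hg, hN⟩ := hall _ (sympTest_mem _) ⟨1, ht⟩ (sympTest_ne_scalar _)
      rcases trace_cases_of_conj hR h4 h2 hr2 ht (sympTest_ne_scalar _) hN with ⟨-, ⟨hf, -⟩ | ⟨-, htr⟩⟩ | ⟨h, -⟩
      · exact fixedLines_ne_one_symp hR hRf h2 (mul_mem (mul_mem (inv_mem hg) (sympTest_mem _)) hg) hN
          (conj_pow_scalar ht) hf
      · rw [(sympTest_trace _).1, (sympTest_trace _).2] at htr
        have h3 : ((3 : ℕ) : F) = 0 := by push_cast; linear_combination -htr
        exact hpr ((Nat.prime_dvd_prime_iff_eq hp Nat.prime_three).1 ((CharP.cast_eq_zero_iff F p 3).1 h3))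
      · omega
    · have hres : p % 5 = 1 ∨ p % 5 = 4 := by
        have h0 : p % 5 ≠ 0 := fun h => hpr (((Nat.prime_dvd_prime_iff_eq (by norm_num) hp).1
          (Nat.dvd_of_mod_eq_zero h)).symm)
        rw [orderOf_four_iff] at hbad
        have := Nat.mod_lt p (show 5 > 0 by norm_num)
        omega
      obtain ⟨s, hs⟩ : ∃ s : F, s * s = 5 := by
        haveI : Fact (Nat.Prime 5) := ⟨by norm_num⟩
        have h5 : IsSquare ((5 : ℕ) : ZMod p) := by
          refine (ZMod.exists_sq_eq_prime_iff_of_mod_four_eq_one (p := 5) (q := p) (by norm_num)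
            (fun h => absurd hodd (by rw [h]; decide))).1 ?_
          rw [← ZMod.natCast_mod p 5]
          rcases hres with h | h <;> rw [h]
          · exact ⟨1, rfl⟩
          · exact ⟨2, rfl⟩
        obtain ⟨s, hs⟩ := h5
        refine ⟨ZMod.castHom (dvd_refl p) F s, ?_⟩
        rw [← map_mul, ← hs, map_natCast]
        norm_num
      have hτ : ((s - 1) / 2) * ((s - 1) / 2) + (s - 1) / 2 - 1 = 0 := by
        field_simp
        linear_combination hs
      have ht : (((sympTest ((s - 1) / 2)) ^ 5 : GL (Fin 2 ⊕ Fin 2) F) :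
          Matrix (Fin 2 ⊕ Fin 2) (Fin 2 ⊕ Fin 2) F) = (1 : F) • 1 := by
        rw [sympTest_pow_five hτ, one_smul]; rfl
      obtain ⟨g, -, hN⟩ := hall _ (sympTest_mem _) ⟨1, ht⟩ (sympTest_ne_scalar _)
      rcases trace_cases_of_conj hR h4 h2 hr2 ht (sympTest_ne_scalar _) hN with ⟨h, -⟩ | ⟨-, -, htr⟩
      · omega
      · rw [(sympTest_trace _).1, (sympTest_trace _).2] at htr
        have h5 : ((5 : ℕ) : F) = 0 := by
          push_cast
          generalize (s - 1) / 2 = τ at hτ htr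
          grobner
        exact hpr ((Nat.prime_dvd_prime_iff_eq hp (by norm_num)).1 ((CharP.cast_eq_zero_iff F p 5).1 h5))
  · rintro (rfl | ⟨rfl, ho⟩) x hx ⟨z, hz⟩ hns
    · obtain ⟨q, hΓ, -, -⟩ := exists_frame hR hRf h2
      have hzz : z = 1 ∨ z = -1 := mul_self_eq_one_iff.1 (sq_eq_one_of_scalar_mem (pow_mem hx 2) hz)
      rw [sq, Units.val_mul] at hz
      set g0 : GL (Fin 2 ⊕ Fin 2) F := (((q 0).out : R) : GL (Fin 2 ⊕ Fin 2) F) with hg0
      set g1 : GL (Fin 2 ⊕ Fin 2) F := (((q 1).out : R) : GL (Fin 2 ⊕ Fin 2) F) with hg1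
      have s0 : (g0 : Matrix (Fin 2 ⊕ Fin 2) (Fin 2 ⊕ Fin 2) F) * g0 = 1 := hΓ.sq 0
      have s1 : (g1 : Matrix (Fin 2 ⊕ Fin 2) (Fin 2 ⊕ Fin 2) F) * g1 = 1 := hΓ.sq 1
      have a01 : (g0 : Matrix (Fin 2 ⊕ Fin 2) (Fin 2 ⊕ Fin 2) F) * g1 =
          -((g1 : Matrix (Fin 2 ⊕ Fin 2) (Fin 2 ⊕ Fin 2) F) * g0) := hΓ.anti 0 1 (by decide)
      have hn0 : ∀ d : F, (g0 : Matrix (Fin 2 ⊕ Fin 2) (Fin 2 ⊕ Fin 2) F) ≠ d • 1 := fun d hd => by
        rw [hd, Matrix.smul_mul, one_mul, Matrix.mul_smul, mul_one, ← neg_smul] at a01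
        have hd0 : d ≠ 0 := fun h => g0.ne_zero (by rw [hd, h, zero_smul])
        have : (2 * d) • (g1 : Matrix (Fin 2 ⊕ Fin 2) (Fin 2 ⊕ Fin 2) F) = 0 := by
          rw [two_mul, add_smul]
          nth_rw 2 [a01]
          rw [neg_smul, add_neg_cancel]
        exact g1.ne_zero ((smul_eq_zero.1 this).resolve_left (mul_ne_zero h2 hd0))
      have hn01 : ∀ d : F, ((g0 * g1 : GL (Fin 2 ⊕ Fin 2) F) : Matrix (Fin 2 ⊕ Fin 2) (Fin 2 ⊕ Fin 2) F) ≠ d • 1 :=
        fun d hd => hn0 d (by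
          rw [Units.val_mul] at hd
          have e1 : (g0 : Matrix (Fin 2 ⊕ Fin 2) (Fin 2 ⊕ Fin 2) F) =
              d • (g1 : Matrix (Fin 2 ⊕ Fin 2) (Fin 2 ⊕ Fin 2) F) := by
            calc (g0 : Matrix (Fin 2 ⊕ Fin 2) (Fin 2 ⊕ Fin 2) F)
                = (g0 : Matrix (Fin 2 ⊕ Fin 2) (Fin 2 ⊕ Fin 2) F) * g1 * g1 := by rw [mul_assoc, s1, mul_one]
              _ = _ := by rw [hd, Matrix.smul_mul, one_mul]
          rw [e1, Matrix.smul_mul, Matrix.mul_smul, s1] at a01
          have hd0 : d ≠ 0 := fun h => g0.ne_zero (by rw [e1, h, zero_smul])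
          have hc := congrFun (congrFun a01 (Sum.inl 0)) (Sum.inl 0)
          simp at hc
          exact absurd ((mul_eq_zero.1 (show (2 : F) * d = 0 by linear_combination hc)).resolve_left h2) hd0)
      have hg0R : g0 ∈ R := ((q 0).out : R).2
      have hg1R : g1 ∈ R := ((q 1).out : R).2
      rcases hzz with rfl | rfl
      · obtain ⟨g, hg, he⟩ := exists_conj_of_sq h2 hx (hRf hg0R) (Or.inl rfl) hz (by rw [s0, one_smul]) hns hn0
        exact ⟨g, hg, he ▸ hRN hg0R⟩
      · obtain ⟨g, hg, he⟩ := exists_conj_of_sq h2 hx (hRf (mul_mem hg0R hg1R)) (Or.inr rfl) hz (by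
          rw [Units.val_mul, mul_assoc, ← mul_assoc (g1 : Matrix (Fin 2 ⊕ Fin 2) (Fin 2 ⊕ Fin 2) F),
            neg_eq_iff_eq_neg.1 a01.symm, Matrix.neg_mul, Matrix.mul_neg, mul_assoc, s1, mul_one, s0,
            neg_one_smul]) hns hn01
        exact ⟨g, hg, he ▸ hRN (mul_mem hg0R hg1R)⟩
    · obtain ⟨y, hy, hyN, hy5, hy1⟩ := exists_order_five hR hRf h2
      have hzz : z = 1 ∨ z = -1 := mul_self_eq_one_iff.1 (sq_eq_one_of_scalar_mem (pow_mem hx 5) hz)
      have hcard : Nat.card F = p := by rw [Nat.card_eq_fintype_card, hF]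
      rcases hzz with rfl | rfl
      · obtain ⟨g, hg, hc⟩ := exists_conj_zpowers_five h4 (hcard ▸ ho) hx hy (Units.ext (by rw [hz, one_smul]; rfl))
          hy5 hy1
        obtain ⟨k, hk⟩ := hc
        exact ⟨g, hg, hk ▸ zpow_mem hyN k⟩
      · have hneg : (-1 : GL (Fin 2 ⊕ Fin 2) F) ∈ R := hR.neg_one_mem (by simp)
        obtain ⟨g, hg, hc⟩ := exists_conj_zpowers_five h4 (hcard ▸ ho) (mul_mem (hRf hneg) hx) hy (by
          rw [neg_one_mul, Odd.neg_pow (by decide)]
          refine Units.ext ?_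
          rw [Units.val_neg, hz, neg_one_smul, neg_neg]
          rfl) hy5 hy1
        obtain ⟨k, hk⟩ := hc
        refine ⟨g, hg, ?_⟩
        have : g⁻¹ * x * g = -1 * (g⁻¹ * (-1 * x) * g) := by simp
        rw [this, ← hk]
        exact mul_mem (hRN hneg) (zpow_mem hyN k)

end Cfsg.Agent.S6002
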