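import Cfsg.Statements.S6000
import Cfsg.Agent.Lib.PauliFour.Setup4
import Cfsg.Agent.Lib.PauliFour.Lines
import Cfsg.Agent.Lib.SemisimpleClasses.Classes
import Cfsg.Agent.S6002
-- import your own Cfsg.Agent.* helpers here

set_option autoImplicit false
open scoped MatrixGroups
open Cfsg

namespace Cfsg.Agent.S6000

open CfsgLib.PauliFour Polynomial
open scoped Matrix


/-- Elements of prime order of PSL_4(p), p ≡ 1 (mod 4), and the normalizer of a 2-group of symplectic type of order 2⁶. Here `T = PSL_4(F)` for the field `F` with `p` elements, `p` a prime with `p ≡ 1 (mod 4)`; `R` is an absolutely irreducible subgroup of GL_4(F) of order 2⁶ that is a 2-group of symplectic type of exponent 4 with centre of order 4 (the central product of the scalars of order 4 with an extraspecial group 2^{1+4}), and `H` is the subgroup of matrices of determinant 1 normalizing `R` — a subgroup of type 2⁴.Sp₄(2) (maximality is not assumed). Ω is the set of cosets of `H` in `T`, so an element of `T` of prime order `r` (a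 matrix `x` of determinant 1 with `x^r` scalar, `x` not scalar) fixes a point of Ω exactly when some conjugate of `x` by a matrix of determinant 1 normalizes `R`. Let `r` be a prime dividing the index of `H`. Then every element of `T` of order `r` fixes a point of Ω if and only if `r = 2`, or `r = 3` and `p ≡ 2 (mod 3)`, or `r = 5` and `p ≡ ±2 (mod 5)` (`p` has multiplicative order 4 modulo 5). -/
theorem result {F : Type*} [Field F] [Fintype F] {p : ℕ} [Fact p.Prime] [CharP F p] (hF : Fintype.card F = p) (hp4 : p % 4 = 1)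
    (R : Subgroup (GL (Fin 4) F)) (hR : Cfsg.Geo.IsLinearSymplecticTypeData 2 R) (hR6 : Nat.card R = 2 ^ 6)
    (r : ℕ) [Fact r.Prime]
    (hΩ : r ∣ (Cfsg.Geo.subgroupNormalizer R).relIndex (Cfsg.Geo.specialLinear (Fin 4) F)) :
    (∀ x ∈ Cfsg.Geo.specialLinear (Fin 4) F, (∃ z : F, ((x ^ r : GL (Fin 4) F) : Matrix (Fin 4) (Fin 4) F) = z • (1 : Matrix (Fin 4) (Fin 4) F)) →
      (∀ z : F, (x : Matrix (Fin 4) (Fin 4) F) ≠ z • (1 : Matrix (Fin 4) (Fin 4) F)) →
      ∃ g ∈ Cfsg.Geo.specialLinear (Fin 4) F, g⁻¹ * x * g ∈ Cfsg.Geo.subgroupNormalizer R) ↔ (r = 2 ∨ (r = 3 ∧ p % 3 = 2) ∨ (r = 5 ∧ orderOf (p : ZMod 5) = 4)) := by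
  classical
  have hp : p.Prime := Fact.out
  have hodd : Odd p := Nat.odd_iff.2 (by omega)
  have hnc : ∀ k : ℕ, ¬ p ∣ k → (k : F) ≠ 0 := fun k hk h => hk ((CharP.cast_eq_zero_iff F p k).1 h)
  have h2 : (2 : F) ≠ 0 := by
    exact_mod_cast hnc 2 fun h => by have := Nat.le_of_dvd two_pos h; have := hp.two_le; omega
  have hP := isPauli_of_sympType (F := F) (R := R) (by simp) hR.symplecticType hR.absIrred
  have hZ : Nat.card (Subgroup.center R) = 4 := by
    obtain ⟨q, e, -, -, ⟨h, -⟩ | ⟨-, -, h, -⟩ | ⟨-, -, h, -⟩⟩ := hR.field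
    · exact absurd h (by decide)
    · exact h
    · simp at h
  obtain ⟨hμ, hi⟩ := scalars_of_card_center hP hZ
  have hSL : ∀ {x : GL (Fin 4) F}, x ∈ Cfsg.Geo.specialLinear (Fin 4) F ↔
      (x : Matrix (Fin 4) (Fin 4) F).det = 1 := fun {x} => CfsgLib.Omega.mem_specialLinear
  have H : Ambient p (Cfsg.Geo.specialLinear (Fin 4) F) R :=
    { odd := hodd
      two := h2
      pauli := hP
      det := fun x hx => hSL.1 hx
      le := fun x hx => hSL.2 (det_of_mem hP h2 ⟨x, hx⟩)
      scalar := hμ
      sqrt := hi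
      memOdd := fun y _ hy _ _ _ => hSL.2 hy
      conj := fun x hx y hy n hn hxn hyn hc => by
        let x' : Matrix.SpecialLinearGroup (Fin 4) F := ⟨x, hSL.1 hx⟩
        let y' : Matrix.SpecialLinearGroup (Fin 4) F := ⟨y, hSL.1 hy⟩
        have hxe : Matrix.SpecialLinearGroup.toGL x' = x := Units.ext rfl
        have hye : Matrix.SpecialLinearGroup.toGL y' = y := Units.ext rfl
        have hox : (orderOf x').Coprime p := by
          rw [← orderOf_injective _ Matrix.SpecialLinearGroup.toGL_injective, hxe]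
          exact Nat.Coprime.coprime_dvd_left (orderOf_dvd_of_pow_eq_one hxn) hn
        have hoy : (orderOf y').Coprime p := by
          rw [← orderOf_injective _ Matrix.SpecialLinearGroup.toGL_injective, hye]
          exact Nat.Coprime.coprime_dvd_left (orderOf_dvd_of_pow_eq_one hyn) hn
        obtain ⟨c, hce⟩ := isConj_iff.1 (CfsgLib.SemisimpleClasses.isConj_SL p x' y' hox hoy hc)
        refine ⟨(Matrix.SpecialLinearGroup.toGL c)⁻¹, inv_mem (hSL.2 c.2), ?_⟩
        rw [inv_inv]
        have h' := congrArg Matrix.SpecialLinearGroup.toGL hce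
        rwa [map_mul, map_mul, map_inv, hxe, hye] at h' }
  haveI : CharP (AlgebraicClosure F) p :=
    charP_of_injective_algebraMap (algebraMap F (AlgebraicClosure F)).injective p
  have hFp : ∀ c : F, c ^ p = c := fun c => hF ▸ FiniteField.pow_card c
  constructor
  · intro hall
    by_cases hr2 : r = 2
    · exact Or.inl hr2
    refine Or.inr ?_
    by_contra hbad
    rcases H.prime_cases hr2 hΩ hall with rfl | rfl
    · have h3 : p % 3 = 1 := by
        have h0 : p % 3 ≠ 0 := fun h => by
          have := (Nat.prime_dvd_prime_iff_eq Nat.prime_three hp).1 (Nat.dvd_of_mod_eq_zero h); omega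
        have : ¬ p % 3 = 2 := fun h => hbad (Or.inl ⟨rfl, h⟩)
        omega
      obtain ⟨ω, hω⟩ : ∃ ω : Fˣ, orderOf ω = 3 := by
        haveI : Fintype Fˣ := Fintype.ofFinite _
        refine exists_prime_orderOf_dvd_card 3 ?_
        rw [← Nat.card_eq_fintype_card, Nat.card_units, Nat.card_eq_fintype_card, hF]; omega
      have hω3 : (ω : F) ^ 3 = 1 := by
        have h : ω ^ 3 = 1 := orderOf_dvd_iff_pow_eq_one.1 (dvd_of_eq hω)
        simpa using congrArg Units.val h
      have hω1 : (ω : F) ≠ 1 := fun h => by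
        rw [Units.val_eq_one.1 h, orderOf_one] at hω; omega
      obtain ⟨g, -, hN⟩ := hall _ (hSL.2 (ωTest_det _ hω3)) ⟨1, ωTest_pow _ hω3⟩ (ωTest_ne_scalar _ hω3 hω1)
      exact not_conj_rank_one hP (by simp) h2 (by norm_num) (ωTest_pow _ hω3) (ωTest_ne_scalar _ hω3 hω1)
        (ωTest_form _ hω3) hN
    · by_cases h5 : p = 5
      · subst h5
        set u : Fin 4 → F := Pi.single 0 1
        set ψ : Fin 4 → F := Pi.single 1 1
        have hu : ψ ⬝ᵥ u = 0 := by simp [u, ψ]
        have ht : ((tvTest u ψ hu ^ 5 : GL (Fin 4) F) : Matrix (Fin 4) (Fin 4) F) = (1 : F) • 1 := by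
          rw [tvTest_pow, CharP.cast_eq_zero, zero_smul, add_zero, one_smul]
        have hns : ∀ d : F, (tvTest u ψ hu : Matrix (Fin 4) (Fin 4) F) ≠ d • 1 := fun d e => by
          have := congrFun (congrFun e 0) 1
          simp [tvTest, u, ψ, Matrix.vecMulVec_apply] at this
        have hmem : tvTest u ψ hu ∈ Cfsg.Geo.specialLinear (Fin 4) F := hSL.2 (tvTest_det u ψ hu)
        obtain ⟨g, -, hN⟩ := hall _ hmem ⟨1, ht⟩ hns
        exact not_conj_rank_one hP (by simp) h2 (by norm_num) ht hns (tvTest_form u ψ hu) hN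
      · have hres : p % 5 = 1 ∨ p % 5 = 4 := by
          have h0 : p % 5 ≠ 0 := fun h => h5 (((Nat.prime_dvd_prime_iff_eq (by norm_num) hp).1
            (Nat.dvd_of_mod_eq_zero h)).symm)
          rw [Cfsg.Agent.S6002.orderOf_four_iff] at hbad
          have := Nat.mod_lt p (show 5 > 0 by norm_num)
          omega
        obtain ⟨s, hs⟩ : ∃ s : F, s * s = 5 := by
          haveI : Fact (Nat.Prime 5) := ⟨by norm_num⟩
          have h5' : IsSquare ((5 : ℕ) : ZMod p) := by
            refine (ZMod.exists_sq_eq_prime_iff_of_mod_four_eq_one (p := 5) (q := p) (by norm_num)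
              (by omega)).1 ?_
            rw [← ZMod.natCast_mod p 5]
            rcases hres with h | h <;> rw [h]
            · exact ⟨1, rfl⟩
            · exact ⟨2, rfl⟩
          obtain ⟨s, hs⟩ := h5'
          refine ⟨ZMod.castHom (dvd_refl p) F s, ?_⟩
          rw [← map_mul, ← hs, map_natCast]
          norm_num
        have h5F : (5 : F) ≠ 0 := by
          exact_mod_cast hnc 5 fun h => h5 ((Nat.prime_dvd_prime_iff_eq hp (by norm_num)).1 h)
        set a : F := (s - 1) / 4 with ha
        have h4F : (4 : F) ≠ 0 := by exact_mod_cast natCast_two_four h2 4 (Or.inr rfl)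
        have hτ : 2 * a * (2 * a) + 2 * a - 1 = 0 := by
          rw [ha]; field_simp; linear_combination (4 : F) * hs
        have hdet : a * a - (a * a - 1) * 1 = 1 := by ring
        have ha1 : a ≠ 1 := fun h => h5F (by rw [h] at hτ; linear_combination hτ)
        have ht : ((wTest a (a * a - 1) 1 hdet ^ 5 : GL (Fin 4) F) : Matrix (Fin 4) (Fin 4) F) = (1 : F) • 1 := by
          rw [wTest_pow_five _ _ _ hdet hτ, one_smul]; rfl
        obtain ⟨g, -, hN⟩ := hall _ (hSL.2 (wTest_det _ _ _ hdet)) ⟨1, ht⟩ (wTest_ne_scalar _ _ _ hdet ha1)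
        exact not_conj_of_five R hP h2 h5F hτ (wTest_pow_five _ _ _ hdet hτ) (wTest_ne_scalar _ _ _ hdet ha1)
          (wTest_trace _ _ _ hdet).1 (wTest_trace _ _ _ hdet).2 hN
  · rintro (rfl | ⟨rfl, h3⟩ | ⟨rfl, ho⟩) x hx ⟨z, hz⟩ hns
    · rw [sq, Units.val_mul] at hz
      refine H.fixed_two (fun w hw t _ _ htt h _ _ _ hdh y hy => hSL.2 ?_) hx hz hns
      rw [hy, Matrix.det_smul, hdh, Fintype.card_fin]
      linear_combination -htt
    · have hp5 : ∀ k : ℕ, 0 < k → k ≤ 4 → (k : F) ≠ 0 := fun k hk hk4 => hnc k fun h => by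
        have := Nat.le_of_dvd hk h
        have := hp.two_le
        omega
      refine H.fixed_three hp5 ((Nat.coprime_primes Nat.prime_three hp).2 (by omega))
        (fun w hw hw3 => ?_) hx hz hns
      obtain ⟨m, -, hroot, -, ht, hti, -⟩ := exists_spectrum (x := w) (r := 3) (z := 1)
        (hp5 3 (by norm_num) (by norm_num)) (by rw [hw3, one_smul]; rfl)
      refine (algebraMap F (AlgebraicClosure F)).injective ?_
      rw [hti]
      conv_rhs => rw [← hFp (Matrix.trace _), map_pow, ht, frobenius_sum]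
      congr 1
      refine Multiset.map_congr rfl fun a ha => ?_
      have h1 : a ^ 3 = 1 := by rw [hroot a ha, map_one]
      rw [pow_eq_pow_mod p h1, h3]
      exact inv_eq_of_mul_eq_one_right (by rw [← pow_succ', h1])
    · rw [Cfsg.Agent.S6002.orderOf_four_iff] at ho
      have h5p : ¬ p ∣ 5 := fun h => by
        have := (Nat.prime_dvd_prime_iff_eq hp (by norm_num)).1 h; omega
      refine H.fixed_five (by exact_mod_cast hnc 5 h5p)
        ((Nat.coprime_primes (by norm_num) hp).2 fun h => h5p (h ▸ dvd_rfl)) (e := p) ho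
        (fun w hw m hm _ _ a ha => ?_) hx hz hns
      rw [← mem_of_eval_prod, ← hm]
      have h := eval_frobenius p (w : Matrix (Fin 4) (Fin 4) F).charpoly (RingHom.id F)
        (fun c => (hFp c).symm) a
      rw [Polynomial.map_id] at h
      rw [h, hm, (mem_of_eval_prod).2 ha, zero_pow hp.ne_zero]

end Cfsg.Agent.S6000
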