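import Cfsg.Statements.S6001
import Cfsg.Agent.Lib.PauliFour.Unitary4
import Cfsg.Agent.Lib.PauliFour.Lines
import Cfsg.Agent.Lib.SemisimpleClasses.Unitary
import Cfsg.Agent.S6002
-- import your own Cfsg.Agent.* helpers here

set_option autoImplicit false
open scoped MatrixGroups
open Cfsg

namespace Cfsg.Agent.S6001

open CfsgLib.PauliFour CfsgLib.Generators Polynomial
open scoped Matrix


/-- Elements of prime order of PSU_4(p), p ≡ 3 (mod 4), and the normalizer of a 2-group of symplectic type of order 2⁶. Here `T = PSU_4(p)` for a prime `p ≡ 3 (mod 4)`, realised through `SU_4(p)`, the matrices of determinant 1 over the field `F` with `p²` elements preserving the hermitian form `f = Σ uᵢvᵢ^p`; `R` is an absolutely irreducible subgroup of the full unitary group of `f` of order 2⁶ that is a 2-group of symplectic type of exponent 4 with centre of order 4, and `H` is the subgroup of `SU_4(p)` normalizing `R` — a subgroup of type 2⁴.Sp₄(2) (maximality is not assumed). Ω is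 the set of cosets of `H`, so an element of `T` of prime order `r` (`x ∈ SU_4(p)` with `x^r` scalar, `x` not scalar) fixes a point of Ω exactly when some `SU_4(p)`-conjugate of `x` normalizes `R`. Let `r` be a prime dividing the index of `H`. Then every element of `T` of order `r` fixes a point of Ω if and only if `r = 2`, or `r = 3` and `p ≡ 1 (mod 3)`, or `r = 5` and `p ≡ ±2 (mod 5)` (`p` has multiplicative order 4 modulo 5). -/
theorem result {F : Type*} [Field F] [Fintype F] {p : ℕ} [Fact p.Prime] [CharP F p] (hF : Fintype.card F = p ^ 2) (hp4 : p % 4 = 3)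
    (R : Subgroup (GL (Fin 4) F)) (hRs : Cfsg.Geo.IsSymplecticTypeGroup 2 R) (hRi : Cfsg.Geo.ActsAbsolutelyIrreducibly (Cfsg.Geo.matrixSet R))
    (hRU : R ≤ Cfsg.GU 4 F p) (hR6 : Nat.card R = 2 ^ 6) (hRZ : Nat.card (Subgroup.center R) = 4)
    (r : ℕ) [Fact r.Prime]
    (hΩ : r ∣ (Cfsg.Geo.subgroupNormalizer R).relIndex (Cfsg.GU 4 F p ⊓ Cfsg.Geo.specialLinear (Fin 4) F)) :
    (∀ x ∈ Cfsg.GU 4 F p ⊓ Cfsg.Geo.specialLinear (Fin 4) F, (∃ z : F, ((x ^ r : GL (Fin 4) F) : Matrix (Fin 4) (Fin 4) F) = z • (1 : Matrix (Fin 4) (Fin 4) F)) →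
      (∀ z : F, (x : Matrix (Fin 4) (Fin 4) F) ≠ z • (1 : Matrix (Fin 4) (Fin 4) F)) →
      ∃ g ∈ Cfsg.GU 4 F p ⊓ Cfsg.Geo.specialLinear (Fin 4) F, g⁻¹ * x * g ∈ Cfsg.Geo.subgroupNormalizer R) ↔ (r = 2 ∨ (r = 3 ∧ p % 3 = 1) ∨ (r = 5 ∧ orderOf (p : ZMod 5) = 4)) := by
  classical
  have hp : p.Prime := Fact.out
  have hodd : Odd p := Nat.odd_iff.2 (by omega)
  have hnc : ∀ k : ℕ, ¬ p ∣ k → (k : F) ≠ 0 := fun k hk h => hk ((CharP.cast_eq_zero_iff F p k).1 h)
  have h2 : (2 : F) ≠ 0 := by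
    exact_mod_cast hnc 2 fun h => by have := Nat.le_of_dvd two_pos h; have := hp.two_le; omega
  have hP := isPauli_of_sympType (F := F) (R := R) (by simp) hRs hRi
  obtain ⟨hμ, hi⟩ := scalars_of_card_center hP hRZ
  have hSL : ∀ {x : GL (Fin 4) F}, x ∈ Cfsg.Geo.specialLinear (Fin 4) F ↔
      (x : Matrix (Fin 4) (Fin 4) F).det = 1 := fun {x} => CfsgLib.Omega.mem_specialLinear
  have hGU : ∀ {x : GL (Fin 4) F}, x ∈ Cfsg.GU 4 F p ↔
      qAdjoint p (x : Matrix (Fin 4) (Fin 4) F) * (x : Matrix (Fin 4) (Fin 4) F) = 1 :=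
    fun {x} => mem_GU_iff_qAdjoint hF x
  have H : Ambient p (Cfsg.GU 4 F p ⊓ Cfsg.Geo.specialLinear (Fin 4) F) R :=
    { odd := hodd
      two := h2
      pauli := hP
      det := fun x hx => hSL.1 hx.2
      le := fun x hx => ⟨hRU hx, hSL.2 (det_of_mem hP h2 ⟨x, hx⟩)⟩
      scalar := hμ
      sqrt := hi
      memOdd := fun y hN hy r hr hyr => ⟨mem_GU_of_odd hF hP hRU hN hy hr hyr, hSL.2 hy⟩
      conj := fun x hx y hy n hn hxn hyn hc => by
        let x' : ↥(Cfsg.SU 4 F p) := ⟨⟨x, hSL.1 hx.2⟩, (CfsgLib.CharDegrees.mem_SU_iff hF _).2 (hGU.1 hx.1)⟩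
        let y' : ↥(Cfsg.SU 4 F p) := ⟨⟨y, hSL.1 hy.2⟩, (CfsgLib.CharDegrees.mem_SU_iff hF _).2 (hGU.1 hy.1)⟩
        have hxe : Matrix.SpecialLinearGroup.toGL x'.1 = x := Units.ext rfl
        have hye : Matrix.SpecialLinearGroup.toGL y'.1 = y := Units.ext rfl
        have hox : (orderOf x').Coprime p := by
          rw [← Subgroup.orderOf_coe, ← orderOf_injective _ Matrix.SpecialLinearGroup.toGL_injective, hxe]
          exact Nat.Coprime.coprime_dvd_left (orderOf_dvd_of_pow_eq_one hxn) hn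
        have hoy : (orderOf y').Coprime p := by
          rw [← Subgroup.orderOf_coe, ← orderOf_injective _ Matrix.SpecialLinearGroup.toGL_injective, hye]
          exact Nat.Coprime.coprime_dvd_left (orderOf_dvd_of_pow_eq_one hyn) hn
        obtain ⟨c, hce⟩ := isConj_iff.1
          (CfsgLib.SemisimpleClasses.Unitary.isConj_SU hF x' y' hox hoy hc)
        refine ⟨(Matrix.SpecialLinearGroup.toGL c.1)⁻¹,
          inv_mem ⟨hGU.2 ((CfsgLib.CharDegrees.mem_SU_iff hF c.1).1 c.2), hSL.2 c.1.2⟩, ?_⟩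
        rw [inv_inv]
        have h' := congrArg (fun w : ↥(Cfsg.SU 4 F p) => Matrix.SpecialLinearGroup.toGL w.1) hce
        simp only [Subgroup.coe_mul, Subgroup.coe_inv, map_mul, map_inv, hxe, hye] at h'
        exact h' }
  haveI : CharP (AlgebraicClosure F) p :=
    charP_of_injective_algebraMap (algebraMap F (AlgebraicClosure F)).injective p
  obtain ⟨i, hii⟩ := H.sqrt
  have hip : i ^ p = -i := by
    obtain ⟨m, hm⟩ : ∃ m, p = 4 * m + 3 := ⟨p / 4, by omega⟩
    rw [hm, pow_add, pow_mul, show i ^ 4 = (i * i) * (i * i) by ring, hii]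
    norm_num
    linear_combination i * hii
  constructor
  · intro hall
    by_cases hr2 : r = 2
    · exact Or.inl hr2
    refine Or.inr ?_
    by_contra hbad
    rcases H.prime_cases hr2 hΩ hall with rfl | rfl
    · by_cases h3 : p = 3
      · subst h3
        have hF3 : (3 : F) = 0 := CharP.cast_eq_zero F 3
        set u : Fin 4 → F := ![1, 1 + i, 0, 0] with hu'
        set ψ : Fin 4 → F := ![i, i + 1, 0, 0] with hψ'
        have hu : ψ ⬝ᵥ u = 0 := by
          simp [u, ψ, dotProduct, Fin.sum_univ_four]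
          linear_combination hii + i * hF3
        have ht : ((tvTest u ψ hu ^ 3 : GL (Fin 4) F) : Matrix (Fin 4) (Fin 4) F) = (1 : F) • 1 := by
          rw [tvTest_pow, CharP.cast_eq_zero, zero_smul, add_zero, one_smul]
        have hns : ∀ d : F, (tvTest u ψ hu : Matrix (Fin 4) (Fin 4) F) ≠ d • 1 := fun d e => by
          have e2 := congrFun (congrFun e 2) 2
          have e0 := congrFun (congrFun e 0) 0
          simp [tvTest, u, ψ, Matrix.vecMulVec_apply] at e0 e2
          have : i = 0 := by linear_combination e0 - e2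
          rw [this] at hii
          simp at hii
        have hq : qAdjoint 3 (tvTest u ψ hu : Matrix (Fin 4) (Fin 4) F) =
            (((tvTest u ψ hu)⁻¹ : GL (Fin 4) F) : Matrix (Fin 4) (Fin 4) F) := by
          ext a b
          fin_cases a <;> fin_cases b <;> simp [qAdjoint, tvTest, u, ψ, Matrix.vecMulVec_apply] <;> grobner
        have hmem : tvTest u ψ hu ∈ Cfsg.GU 4 F 3 ⊓ Cfsg.Geo.specialLinear (Fin 4) F :=
          ⟨hGU.2 (by rw [hq, Units.inv_mul]), hSL.2 (tvTest_det u ψ hu)⟩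
        obtain ⟨g, -, hN⟩ := hall _ hmem ⟨1, ht⟩ hns
        exact not_conj_rank_one hP (by simp) h2 (by norm_num) ht hns (tvTest_form u ψ hu) hN
      have hp3 : p % 3 = 2 := by
        have h0 : p % 3 ≠ 0 := fun h => h3
          ((Nat.prime_dvd_prime_iff_eq Nat.prime_three hp).1 (Nat.dvd_of_mod_eq_zero h)).symm
        have : ¬ p % 3 = 1 := fun h => hbad (Or.inl ⟨rfl, h⟩)
        omega
      obtain ⟨ω, hω⟩ : ∃ ω : Fˣ, orderOf ω = 3 := by
        haveI : Fintype Fˣ := Fintype.ofFinite _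
        refine exists_prime_orderOf_dvd_card 3 ?_
        rw [← Nat.card_eq_fintype_card, Nat.card_units, Nat.card_eq_fintype_card, hF]
        obtain ⟨m, hm⟩ : ∃ m, p = 3 * m + 2 := ⟨p / 3, by omega⟩
        refine ⟨3 * m * m + 4 * m + 1, ?_⟩
        subst hm
        rw [show (3 * m + 2) ^ 2 = 3 * (3 * m * m + 4 * m + 1) + 1 by ring]
        omega
      have hω3 : (ω : F) ^ 3 = 1 := by
        have h : ω ^ 3 = 1 := orderOf_dvd_iff_pow_eq_one.1 (dvd_of_eq hω)
        simpa using congrArg Units.val h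
      have hω1 : (ω : F) ≠ 1 := fun h => by
        rw [Units.val_eq_one.1 h, orderOf_one] at hω; omega
      have hωp : (ω : F) ^ p = (ω : F) ^ 2 := by rw [pow_eq_pow_mod p hω3, hp3]
      have hq : qAdjoint p (ωTest (ω : F) hω3 : Matrix (Fin 4) (Fin 4) F) =
          (((ωTest (ω : F) hω3)⁻¹ : GL (Fin 4) F) : Matrix (Fin 4) (Fin 4) F) := by
        ext a b
        fin_cases a <;> fin_cases b <;>
          simp [qAdjoint, ωTest, hωp, zero_pow hp.ne_zero]
      obtain ⟨g, -, hN⟩ := hall _ ⟨hGU.2 (by rw [hq, Units.inv_mul]), hSL.2 (ωTest_det _ hω3)⟩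
        ⟨1, ωTest_pow _ hω3⟩ (ωTest_ne_scalar _ hω3 hω1)
      exact not_conj_rank_one hP (by simp) h2 (by norm_num) (ωTest_pow _ hω3) (ωTest_ne_scalar _ hω3 hω1)
        (ωTest_form _ hω3) hN
    · have h5 : p ≠ 5 := fun h => by omega
      have hres : p % 5 = 1 ∨ p % 5 = 4 := by
        have h0 : p % 5 ≠ 0 := fun h => h5 (((Nat.prime_dvd_prime_iff_eq (by norm_num) hp).1
          (Nat.dvd_of_mod_eq_zero h)).symm)
        rw [Cfsg.Agent.S6002.orderOf_four_iff] at hbad
        have := Nat.mod_lt p (show 5 > 0 by norm_num)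
        omega
      obtain ⟨s, hs⟩ : ∃ s : ZMod p, s * s = 5 := by
        haveI : Fact (Nat.Prime 5) := ⟨by norm_num⟩
        have h5' : IsSquare ((5 : ℕ) : ZMod p) := by
          refine (ZMod.exists_sq_eq_prime_iff_of_mod_four_eq_one (p := 5) (q := p) (by norm_num)
            (by omega)).1 ?_
          rw [← ZMod.natCast_mod p 5]
          rcases hres with h | h <;> rw [h]
          · exact ⟨1, rfl⟩
          · exact ⟨2, rfl⟩
        obtain ⟨s, hs⟩ := h5'
        exact ⟨s, by rw [← hs]; norm_num⟩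
      set ι := ZMod.castHom (dvd_refl p) F
      set a₀ : ZMod p := (s - 1) / 4 with ha₀
      obtain ⟨u, v, huv⟩ := ZMod.sq_add_sq p (1 - a₀ * a₀)
      have hfix : ∀ c : ZMod p, (ι c) ^ p = ι c := fun c => by rw [← map_pow, ZMod.pow_card]
      set a := ι a₀ with ha
      set b := ι u + i * ι v with hb
      have hbp : b ^ p = ι u - i * ι v := by
        rw [hb, add_pow_char, mul_pow, hfix, hfix, hip]; ring
      have hbp2 : (b ^ p) ^ p = b := by
        rw [← pow_mul, ← sq, ← hF, FiniteField.pow_card]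
      have hab : a * a - b * -(b ^ p) = 1 := by
        have h := congrArg ι huv
        rw [map_add, map_pow, map_pow, map_sub, map_one, map_mul, ← ha] at h
        rw [hbp, hb]
        linear_combination h - (ι v) ^ 2 * hii
      have h5F : (5 : F) ≠ 0 := by
        exact_mod_cast hnc 5 fun h => h5 ((Nat.prime_dvd_prime_iff_eq hp (by norm_num)).1 h)
      have h4F : (4 : F) ≠ 0 := by exact_mod_cast natCast_two_four h2 4 (Or.inr rfl)
      have hτ : 2 * a * (2 * a) + 2 * a - 1 = 0 := by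
        have hs' : ι s * ι s = 5 := by rw [← map_mul, hs, map_ofNat]
        rw [ha, ha₀, map_div₀, map_sub, map_one, map_ofNat]
        field_simp
        linear_combination (4 : F) * hs'
      have ha1 : a ≠ 1 := fun h => h5F (by rw [h] at hτ; linear_combination hτ)
      have hap : a ^ p = a := hfix _
      have hq : qAdjoint p (wTest a b (-(b ^ p)) hab : Matrix (Fin 4) (Fin 4) F) =
          (((wTest a b (-(b ^ p)) hab)⁻¹ : GL (Fin 4) F) : Matrix (Fin 4) (Fin 4) F) := by
        ext k l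
        fin_cases k <;> fin_cases l <;>
          simp [qAdjoint, wTest, hap, zero_pow hp.ne_zero, hodd.neg_pow, hbp2]
      have ht : ((wTest a b (-(b ^ p)) hab ^ 5 : GL (Fin 4) F) : Matrix (Fin 4) (Fin 4) F) = (1 : F) • 1 := by
        rw [wTest_pow_five _ _ _ hab hτ, one_smul]; rfl
      obtain ⟨g, -, hN⟩ := hall _ ⟨hGU.2 (by rw [hq, Units.inv_mul]), hSL.2 (wTest_det _ _ _ hab)⟩
        ⟨1, ht⟩ (wTest_ne_scalar _ _ _ hab ha1)
      exact not_conj_of_five R hP h2 h5F hτ (wTest_pow_five _ _ _ hab hτ) (wTest_ne_scalar _ _ _ hab ha1)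
        (wTest_trace _ _ _ hab).1 (wTest_trace _ _ _ hab).2 hN
  · rintro (rfl | ⟨rfl, h3⟩ | ⟨rfl, ho⟩) x hx ⟨z, hz⟩ hns
    · rw [sq, Units.val_mul] at hz
      refine H.fixed_two (fun w hw t htw hw2 htt h hN hh hth hdh y hy => ⟨hGU.2 ?_, hSL.2 ?_⟩) hx hz hns
      · have ht0 : t ≠ 0 := fun h0 => by simp [h0] at htt
        have hwi : ((w⁻¹ : GL (Fin 4) F) : Matrix (Fin 4) (Fin 4) F) = (t * t)⁻¹ • (w : Matrix (Fin 4) (Fin 4) F) := by
          calc ((w⁻¹ : GL (Fin 4) F) : Matrix (Fin 4) (Fin 4) F)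
              = ((w⁻¹ : GL (Fin 4) F) : Matrix (Fin 4) (Fin 4) F) *
                ((t * t)⁻¹ • ((w : Matrix (Fin 4) (Fin 4) F) * (w : Matrix (Fin 4) (Fin 4) F))) := by
                rw [hw2, smul_smul, inv_mul_cancel₀ (mul_ne_zero ht0 ht0), one_smul, mul_one]
            _ = _ := by rw [Matrix.mul_smul, ← mul_assoc, Units.inv_mul, one_mul]
        have htr := trace_inv_unitary hF hw.1
        rw [hwi, Matrix.trace_smul, htw, smul_eq_mul, mul_pow,
          show (2 : F) ^ p = 2 from map_ofNat (frobenius F p) 2] at htr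
        have htp : t ^ p * t = 1 := by
          have h' : t ^ p = t⁻¹ := mul_left_cancel₀ h2 (by rw [← htr]; field_simp)
          rw [h', inv_mul_cancel₀ ht0]
        rw [hy, qAdjoint_smul' hF, mem_GU_of_reflection hF hP hRU h2 hN hh hth, Matrix.smul_mul, Matrix.mul_smul,
          smul_smul, hh, htp, one_smul]
      · rw [hy, Matrix.det_smul, hdh, Fintype.card_fin]
        linear_combination -htt
    · have hp5 : ∀ k : ℕ, 0 < k → k ≤ 4 → (k : F) ≠ 0 := fun k hk hk4 => hnc k fun h => by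
        have := Nat.le_of_dvd hk h
        have := hp.two_le
        omega
      refine H.fixed_three hp5 ((Nat.coprime_primes Nat.prime_three hp).2 (by omega))
        (fun w hw hw3 => ?_) hx hz hns
      obtain ⟨m, -, hroot, -, ht, hti, -⟩ := exists_spectrum (x := w) (r := 3) (z := 1)
        (hp5 3 (by norm_num) (by norm_num)) (by rw [hw3, one_smul]; rfl)
      refine (algebraMap F (AlgebraicClosure F)).injective ?_
      rw [trace_inv_unitary hF hw.1, map_pow, ht, frobenius_sum]
      congr 1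
      conv_rhs => rw [← Multiset.map_id m]
      refine Multiset.map_congr rfl fun a ha => ?_
      rw [pow_eq_pow_mod p (show a ^ 3 = 1 by rw [hroot a ha, map_one]), h3, pow_one]
      rfl
    · rw [Cfsg.Agent.S6002.orderOf_four_iff] at ho
      have h5p : ¬ p ∣ 5 := fun h => by
        have := (Nat.prime_dvd_prime_iff_eq hp (by norm_num)).1 h; omega
      refine H.fixed_five (by exact_mod_cast hnc 5 h5p)
        ((Nat.coprime_primes (by norm_num) hp).2 fun h => h5p (h ▸ dvd_rfl)) (e := 4 * p)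
        (by omega) (fun w hw m hm hmi hr5 a ha => ?_) hx hz hns
      have h := eval_frobenius p (w : Matrix (Fin 4) (Fin 4) F).charpoly (frobenius F p) (fun c => rfl) a
      rw [← charpoly_inv_unitary hF hw.1, hmi, hm, (mem_of_eval_prod).2 ha, zero_pow hp.ne_zero,
        mem_of_eval_prod, Multiset.mem_map] at h
      obtain ⟨b, hb, hba⟩ := h
      rw [mul_comm 4 p, pow_mul, ← hba]
      have hb4 : (b⁻¹) ^ 4 = b := by
        rw [inv_pow]
        exact inv_eq_of_mul_eq_one_right (by rw [← pow_succ, hr5 b hb])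
      rw [hb4]
      exact hb

end Cfsg.Agent.S6001
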